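import Cfsg.Statements.S4435
import Mathlib
import Cfsg.Agent.Lib.Blocks.FongReynolds

set_option autoImplicit false
open Cfsg

namespace Cfsg.Agent.S4435

/-- Let N be a normal subgroup of the finite group G, b a block of N (relative to a maximal ideal M of the algebraic integers containing p), and T the stabilizer of b in G (the elements g such that conjugating any member of b by g gives a member of b); N ≤ T. Say that a block of T (or of G) covers b when some member has a constituent in b on restriction to N. Then: (i) every block B′ of T covering b induces a block B of G, B covers b, every ψ ∈ B′ induces to an irreducible character of G, and B consists exactly of the characters induced from members of B′; (ii) distinct blocks of T covering b induce distinct blocks of G; (iii) every block of G covering b is induced by some block of T covering b. -/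
theorem result {G : Type*} [Group G] [Fintype G] (p : ℕ) [Fact p.Prime] (M : Ideal Cfsg.AlgInt) (hM : Cfsg.IsPModular p M) (N : Subgroup G) [hN : N.Normal] [Fintype N] (b : Set (Cfsg.IrrCharacter N)) (hb : Cfsg.IsPBlock M b) (T : Subgroup G) [Fintype T] (hT : ∀ g : G, g ∈ T ↔ ∀ θ ∈ b, ∀ θ' : Cfsg.IrrCharacter N, (∀ n : N, (θ' : N → ℂ) n = (θ : N → ℂ) ⟨g * n * g⁻¹, hN.conj_mem n n.2 g⟩) → θ' ∈ b) (hNT : N ≤ T) : (∀ B' : Set (Cfsg.IrrCharacter T), Cfsg.IsPBlock M B' → (∃ ψ ∈ B', ∃ θ ∈ b, Cfsg.classInner (fun n : N => (ψ : T → ℂ) ⟨(n : G), hNT n.2⟩) (θ : N → ℂ) ≠ 0) → ∃ B : Set (Cfsg.IrrCharacter G), Cfsg.IsInducedBlock M T B' B ∧ (∃ χ ∈ B, ∃ θ ∈ b, Cfsg.classInner (fun n : N => (χ : G → ℂ) n) (θ : N → ℂ) ≠ 0) ∧ (∀ ψ ∈ B', Cfsg.IsIrrCharacter G (Cfsg.indFun T (ψ : T → ℂ))) ∧ ∀ χ : Cfsg.IrrCharacter G, χ ∈ B ↔ ∃ ψ ∈ B', (χ : G → ℂ) = Cfsg.indFun T (ψ : T → ℂ)) ∧ (∀ B'₁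 B'₂ : Set (Cfsg.IrrCharacter T), Cfsg.IsPBlock M B'₁ → Cfsg.IsPBlock M B'₂ → (∃ ψ ∈ B'₁, ∃ θ ∈ b, Cfsg.classInner (fun n : N => (ψ : T → ℂ) ⟨(n : G), hNT n.2⟩) (θ : N → ℂ) ≠ 0) → (∃ ψ ∈ B'₂, ∃ θ ∈ b, Cfsg.classInner (fun n : N => (ψ : T → ℂ) ⟨(n : G), hNT n.2⟩) (θ : N → ℂ) ≠ 0) → ∀ B : Set (Cfsg.IrrCharacter G), Cfsg.IsInducedBlock M T B'₁ B → Cfsg.IsInducedBlock M T B'₂ B → B'₁ = B'₂) ∧ (∀ B : Set (Cfsg.IrrCharacter G), Cfsg.IsPBlock M B → (∃ χ ∈ B, ∃ θ ∈ b, Cfsg.classInner (fun n : N => (χ : G → ℂ) n) (θ : N → ℂ) ≠ 0) → ∃ B' : Set (Cfsg.IrrCharacter T), Cfsg.IsPBlock M B' ∧ (∃ ψ ∈ B', ∃ θ ∈ b, Cfsg.classInner (fun n : N => (ψ : T → ℂ) ⟨(n : G), hNT n.2⟩) (θ : N → ℂ) ≠ 0) ∧ Cfsg.IsInducedBlock M T B' B) := by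
  haveI := hM.2.1.isPrime
  classical
  open Cfsg.Lib.Blocks Cfsg.Lib.Characters in
  · have hT' : ∀ g : G, g ∈ T ↔ ∀ θ ∈ b, cjIrr θ g ∈ b := by
      intro g
      rw [hT g]
      constructor
      · exact fun h θ hθ => h θ hθ _ fun n => congrFun (coe_cjIrr θ g) n
      · intro h θ hθ θ' hθ'
        rw [show θ' = cjIrr θ g from Subtype.ext (funext fun n => (hθ' n).trans (congrFun (coe_cjIrr θ g) n).symm)]
        exact h θ hθ
    -- every member of a covering block covers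
    have hall : ∀ B' : Set (IrrCharacter T), IsPBlock M B' →
        (∃ ψ ∈ B', ∃ θ ∈ b, classInner (fun n : N => (ψ : T → ℂ) ⟨(n : G), hNT n.2⟩) (θ : N → ℂ) ≠ 0) →
        ∀ ψ ∈ B', ∃ θ ∈ b, classInner (resTN hNT (ψ : T → ℂ)) (θ : N → ℂ) ≠ 0 := fun B' hB' hcov =>
      covers_all hM hb hT' hNT hB' hcov
    refine ⟨fun B' hB' hcov => ?_, fun B₁ B₂ h₁ h₂ c₁ c₂ B i₁ i₂ => ?_, fun B hB ⟨χ, hχ, hcov⟩ => ?_⟩
    · obtain ⟨ψ, hψ⟩ := IsPBlock.nonempty hB'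
      let χ : IrrCharacter G := ⟨_, isIrr_indFun_covering hb hT' hNT ψ (hall B' hB' hcov ψ hψ)⟩
      have hind : IsInducedBlock M T B' (blockOf M (χ : G → ℂ)) := by
        rw [IsPBlock.eq_blockOf hB' hψ]; exact isInducedBlock_of_indFun ψ χ rfl
      refine ⟨_, hind, ⟨χ, mem_blockOf_self M χ, covers_indFun hb hT' hNT (hall B' hB' hcov ψ hψ) rfl⟩,
        fun ψ' hψ' => isIrr_indFun_covering hb hT' hNT ψ' (hall B' hB' hcov ψ' hψ'), fun ξ => ⟨fun hξ => ?_, ?_⟩⟩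
      · obtain ⟨θ, hθb, hθ⟩ := covers_indFun hb hT' hNT (χ := χ) (hall B' hB' hcov ψ hψ) rfl
        obtain ⟨θ', hθ', hne'⟩ := exists_constituent_in_block hb hξ hθb hθ
        obtain ⟨ψ', hψ', hξψ⟩ := exists_indFun_covering hb hT' hNT ξ ⟨θ', hθ', hne'⟩
        exact ⟨ψ', IsPBlock.mem_of_sameBlock hB' hψ
          (sameBlock_of_indFun hb hT' hNT (χ := χ) (χ' := ξ) (hall B' hB' hcov ψ hψ) hψ' rfl hξψ hξ), hξψ⟩
      · rintro ⟨ψ', hψ', hξ⟩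
        have h2 := isInducedBlock_of_indFun (M := M) ψ' ξ hξ
        rw [← IsPBlock.eq_blockOf hB' hψ'] at h2
        rw [IsInducedBlock.unique hind h2]
        exact mem_blockOf_self M ξ
    · obtain ⟨ψ₁, hψ₁⟩ := IsPBlock.nonempty h₁
      obtain ⟨ψ₂, hψ₂⟩ := IsPBlock.nonempty h₂
      let χ₁ : IrrCharacter G := ⟨_, isIrr_indFun_covering hb hT' hNT ψ₁ (hall B₁ h₁ c₁ ψ₁ hψ₁)⟩
      let χ₂ : IrrCharacter G := ⟨_, isIrr_indFun_covering hb hT' hNT ψ₂ (hall B₂ h₂ c₂ ψ₂ hψ₂)⟩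
      have e₁ := isInducedBlock_of_indFun (M := M) ψ₁ χ₁ rfl
      have e₂ := isInducedBlock_of_indFun (M := M) ψ₂ χ₂ rfl
      rw [← IsPBlock.eq_blockOf h₁ hψ₁] at e₁
      rw [← IsPBlock.eq_blockOf h₂ hψ₂] at e₂
      have he : blockOf M (χ₁ : G → ℂ) = blockOf M (χ₂ : G → ℂ) :=
        (IsInducedBlock.unique e₁ i₁).trans (IsInducedBlock.unique i₂ e₂)
      have hs : SameBlock M (χ₁ : G → ℂ) (χ₂ : G → ℂ) := by
        have h := mem_blockOf_self M χ₂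
        rwa [← he] at h
      exact IsPBlock.eq_of_mem h₁ h₂ (IsPBlock.mem_of_sameBlock h₁ hψ₁
        (sameBlock_of_indFun hb hT' hNT (hall B₁ h₁ c₁ ψ₁ hψ₁) (hall B₂ h₂ c₂ ψ₂ hψ₂) rfl rfl hs)) hψ₂
    · obtain ⟨ψ, hψ, hχψ⟩ := exists_indFun_covering hb hT' hNT χ hcov
      refine ⟨blockOf M (ψ : T → ℂ), ⟨ψ, rfl⟩, ⟨ψ, mem_blockOf_self M ψ, hψ⟩, ?_⟩
      rw [IsPBlock.eq_blockOf hB hχ]
      exact isInducedBlock_of_indFun ψ χ hχψ

end Cfsg.Agent.S4435
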