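import Cfsg.Statements.S4436
import Mathlib
import Cfsg.Agent.Lib.Blocks.FongReynolds

set_option autoImplicit false
open Cfsg

namespace Cfsg.Agent.S4436

/-- Let N be a normal subgroup of the finite group G, b a block of N (relative to a maximal ideal M of the algebraic integers containing p), T the stabilizer of b in G, N ≤ T, and B′ a block of T covering b (some member of B′ has a constituent in b on restriction to N) that induces the block B of G. Then every defect group of B′ is a defect group of B, and for every ψ ∈ B′ the induced character ψ^G is an irreducible character of G lying in B with the same height as ψ. -/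
theorem result {G : Type*} [Group G] [Fintype G] (p : ℕ) [Fact p.Prime] (M : Ideal Cfsg.AlgInt) (hM : Cfsg.IsPModular p M) (N : Subgroup G) [hN : N.Normal] [Fintype N] (b : Set (Cfsg.IrrCharacter N)) (hb : Cfsg.IsPBlock M b) (T : Subgroup G) [Fintype T] (hT : ∀ g : G, g ∈ T ↔ ∀ θ ∈ b, ∀ θ' : Cfsg.IrrCharacter N, (∀ n : N, (θ' : N → ℂ) n = (θ : N → ℂ) ⟨g * n * g⁻¹, hN.conj_mem n n.2 g⟩) → θ' ∈ b) (hNT : N ≤ T) (B' : Set (Cfsg.IrrCharacter T)) (hB' : Cfsg.IsPBlock M B') (hcov : (∃ ψ ∈ B', ∃ θ ∈ b, Cfsg.classInner (fun n : N => (ψ : T → ℂ) ⟨(n : G), hNT n.2⟩) (θ : N → ℂ) ≠ 0)) (B : Set (Cfsg.IrrCharacter G)) (hind : Cfsg.IsInducedBlock M T B' B) : (∀ D : Subgroup T, Cfsg.IsDefectGroup p M B' D → Cfsg.IsDefectGroup p M B (D.map T.subtype)) ∧ ∀ ψ ∈ B', ∃ χ ∈ B, (χ : G → ℂ) = Cfsg.indFun T (ψ : T → ℂ) ∧ Cfsg.blockHeight p B (χ : G → ℂ) = Cfsg.blockHeight p B' (ψ : T → ℂ) := by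
  haveI := hM.2.1.isPrime
  classical
  open Cfsg.Lib.Blocks Cfsg.Lib.Characters in
  · have hT' : ∀ g : G, g ∈ T ↔ ∀ θ ∈ b, cjIrr θ g ∈ b := by
      intro g
      rw [hT g]
      constructor
      · exact fun h θ hθ => h θ hθ _ fun n => congrFun (coe_cjIrr θ g) n
      · intro h θ hθ θ' hθ'
        rw [show θ' = cjIrr θ g from Subtype.ext (funext fun n => (hθ' n).trans (congrFun (coe_cjIrr θ g) n).symm)]
        exact h θ hθ
    have hall : ∀ ψ ∈ B', ∃ θ ∈ b, classInner (resTN hNT (ψ : T → ℂ)) (θ : N → ℂ) ≠ 0 :=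
      covers_all hM hb hT' hNT hB' hcov
    have hB := hind.2.1
    -- the induced characters
    have hup : ∀ ψ ∈ B', ∃ χ ∈ B, (χ : G → ℂ) = indFun T (ψ : T → ℂ) ∧
        (charDegree (χ : G → ℂ)).factorization p
          = T.index.factorization p + (charDegree (ψ : T → ℂ)).factorization p := by
      intro ψ hψ
      let χ : IrrCharacter G := ⟨_, isIrr_indFun_covering hb hT' hNT ψ (hall ψ hψ)⟩
      have e := isInducedBlock_of_indFun (M := M) ψ χ rfl
      rw [← IsPBlock.eq_blockOf hB' hψ] at e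
      have hχB : χ ∈ B := by rw [IsInducedBlock.unique hind e]; exact mem_blockOf_self M χ
      have hdeg : charDegree (χ : G → ℂ) = T.index * charDegree (ψ : T → ℂ) := by
        refine charDegree_eq ?_
        rw [Nat.cast_mul, coe_charDegree]
        exact indFun_one_apply T _
      exact ⟨χ, hχB, rfl, by rw [hdeg, Nat.factorization_mul Subgroup.index_ne_zero_of_finite
        (charDegree_pos ψ).ne', Finsupp.add_apply]⟩
    -- all characters of the induced block arise this way
    have hdown : ∀ χ ∈ B, ∃ ψ ∈ B', (χ : G → ℂ) = indFun T (ψ : T → ℂ) := by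
      intro χ hχ
      obtain ⟨ψ, hψ⟩ := IsPBlock.nonempty hB'
      obtain ⟨χ₀, hχ₀, hχ₀ψ, -⟩ := hup ψ hψ
      obtain ⟨θ, hθb, hθ⟩ := covers_indFun hb hT' hNT (hall ψ hψ) hχ₀ψ
      have hs := IsPBlock.sameBlock hB hχ₀ hχ
      obtain ⟨θ', hθ', hne'⟩ := exists_constituent_in_block hb hs hθb hθ
      obtain ⟨ψ', hψ', hξ⟩ := exists_indFun_covering hb hT' hNT χ ⟨θ', hθ', hne'⟩
      exact ⟨ψ', IsPBlock.mem_of_sameBlock hB' hψ
        (sameBlock_of_indFun hb hT' hNT (hall ψ hψ) hψ' hχ₀ψ hξ hs), hξ⟩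
    have hinf : sInf ((fun χ : IrrCharacter G => (charDegree (χ : G → ℂ)).factorization p) '' B)
        = T.index.factorization p + sInf ((fun ψ : IrrCharacter T => (charDegree (ψ : T → ℂ)).factorization p) '' B') := by
      obtain ⟨ψ, hψ, hψm⟩ := exists_height_zero p (IsPBlock.nonempty hB')
      obtain ⟨χ, hχ, -, hχv⟩ := hup ψ hψ
      obtain ⟨χ', hχ', hχ'm⟩ := exists_height_zero p (IsPBlock.nonempty hB)
      obtain ⟨ψ', hψ', hψ'χ⟩ := hdown χ' hχ'
      obtain ⟨χ'', -, hχ''ψ, hv''⟩ := hup ψ' hψ'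
      have he : χ'' = χ' := Subtype.ext (hχ''ψ.trans hψ'χ.symm)
      rw [he] at hv''
      have h1 := inf_le_factorization p hχ
      have h2 := inf_le_factorization p hψ'
      omega
    refine ⟨fun D hD => ?_, fun ψ hψ => ?_⟩
    · obtain ⟨E, hE, hle⟩ := exists_defectGroup_ge hM hind hD
      have hcard : Nat.card E ≤ Nat.card (D.map T.subtype) := by
        rw [card_defectGroup hM hB hE, Subgroup.card_map_of_injective (Subgroup.subtype_injective T),
          card_defectGroup hM hB' hD]
        refine Nat.pow_le_pow_right (Fact.out : p.Prime).pos ?_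
        have h3 : (Nat.card G).factorization p = T.index.factorization p + (Nat.card T).factorization p := by
          rw [← Subgroup.index_mul_card T, Nat.factorization_mul Subgroup.index_ne_zero_of_finite Nat.card_pos.ne',
            Finsupp.add_apply]
        unfold blockDefect
        omega
      rw [Subgroup.eq_of_le_of_card_ge hle hcard]
      exact hE
    · obtain ⟨χ, hχ, hχψ, hv⟩ := hup ψ hψ
      refine ⟨χ, hχ, hχψ, ?_⟩
      unfold blockHeight
      omega

end Cfsg.Agent.S4436
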