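import Cfsg.Statements.S1523
import Cfsg.Agent.Lib.Characters.Galois


set_option autoImplicit false
open Cfsg

namespace Cfsg.Agent.S1523

open Cfsg.Lib.Characters

/-- The sum of a character over the products of two classes. -/
theorem sum_pairs {G : Type*} [Group G] [Fintype G] {χ : G → ℂ} (h : IsIrrCharacter G χ) (a b : G)
    [DecidablePred (IsConj a)] [DecidablePred (IsConj b)] :
    (∑ x with IsConj a x, ∑ y with IsConj b y, χ (x * y)) * χ 1 =
      (Nat.card {x : G // IsConj a x} : ℂ) * χ a * ((Nat.card {x : G // IsConj b x} : ℂ) * χ b) := by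
  classical
  obtain ⟨n, ρ, hρ, rfl⟩ := h
  obtain ⟨u, hu, -, hu'⟩ := sum_conj_class ρ a
  obtain ⟨v, hv, -, hv'⟩ := sum_conj_class ρ b
  have h1 : (∑ x with IsConj a x, ∑ y with IsConj b y, ρ.character (x * y)) =
      LinearMap.trace ℂ _ ((∑ x with IsConj a x, ρ x) * ∑ y with IsConj b y, ρ y) := by
    rw [Finset.sum_mul_sum, map_sum]
    refine Finset.sum_congr rfl fun x _ => ?_
    rw [map_sum]
    refine Finset.sum_congr rfl fun y _ => ?_
    rw [← map_mul]
    rfl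
  rw [h1, hu, hv, Module.End.mul_eq_comp, LinearMap.smul_comp, LinearMap.id_comp, smul_smul, map_smul,
    LinearMap.trace_id, smul_eq_mul, ← hu', ← hv', Representation.char_one]
  ring

/-- A sum of algebraic integers over free orbits is divisible by the order of the group. -/
theorem free_orbit_sum {K X : Type*} [Group K] [Fintype K] (act : K → X → X)
    (h1 : ∀ x, act 1 x = x) (hm : ∀ k l x, act (k * l) x = act k (act l x)) (S : Finset X)
    (hS : ∀ (k : K), ∀ x ∈ S, act k x ∈ S) (hfree : ∀ (k : K), ∀ x ∈ S, act k x = x → k = 1) (f : X → ℂ)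
    (hf : ∀ (k : K), ∀ x ∈ S, f (act k x) = f x) (hint : ∀ x, IsIntegral ℤ (f x)) :
    ∃ v : ℂ, IsIntegral ℤ v ∧ ∑ x ∈ S, f x = (Nat.card K : ℂ) * v := by
  classical
  set O : X → Finset X := fun x => Finset.univ.image fun k : K => act k x with hO
  rw [← Finset.sum_fiberwise_of_maps_to (g := O) (t := S.image O) (fun x hx => Finset.mem_image_of_mem _ hx)]
  have hval : ∀ C ∈ S.image O, ∃ v : ℂ, IsIntegral ℤ v ∧
      ∑ x ∈ S.filter (fun x => O x = C), f x = (Nat.card K : ℂ) * v := by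
    intro C hC
    obtain ⟨x₀, hx₀, rfl⟩ := Finset.mem_image.mp hC
    refine ⟨f x₀, hint x₀, ?_⟩
    have hfil : S.filter (fun x => O x = O x₀) = O x₀ := by
      ext y
      rw [Finset.mem_filter]
      constructor
      · rintro ⟨-, hy⟩
        rw [← hy]
        exact Finset.mem_image.mpr ⟨1, Finset.mem_univ _, h1 _⟩
      · intro hy
        obtain ⟨k, -, rfl⟩ := Finset.mem_image.mp hy
        refine ⟨hS k x₀ hx₀, Finset.ext fun z => ?_⟩
        simp only [hO, Finset.mem_image, Finset.mem_univ, true_and]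
        exact ⟨fun ⟨l, hl⟩ => ⟨l * k, by rw [hm, hl]⟩,
          fun ⟨l, hl⟩ => ⟨l * k⁻¹, by rw [← hm, inv_mul_cancel_right, hl]⟩⟩
    rw [hfil, hO, Finset.sum_image fun k _ l _ e => by
      have := hfree (l⁻¹ * k) x₀ hx₀ (by rw [hm, e, ← hm, inv_mul_cancel, h1])
      exact (inv_mul_eq_one.mp this).symm,
      Finset.sum_congr rfl fun k _ => hf k x₀ hx₀, Finset.sum_const, Finset.card_univ, nsmul_eq_mul,
      Nat.card_eq_fintype_card]
  choose! v hv hv' using hval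
  exact ⟨∑ C ∈ S.image O, v C, IsIntegral.sum _ fun C hC => hv C hC, by
    rw [Finset.sum_congr rfl hv', Finset.mul_sum]⟩


/-- Let G be a finite group, p a prime, P a Sylow p-subgroup whose underlying set is a TI-subset of G, with L the set normaliser of P of odd order. Let Z ≠ ⊥ be a subgroup of P, normal in L and central in P, such that the centralisers in L of any two non-identity elements of Z have the same order. If ψ is an irreducible character of G taking the same value at all non-identity elements of Z, then for z ∈ Z, z ≠ 1, the value ψ z is an integer n with Nat.card P dividing ψ(1) − n (as integers, ψ 1 being the degree). -/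
theorem result {G : Type*} [Group G] [Finite G] (p : ℕ) [Fact p.Prime] (P : Sylow p G) (hTI : Cfsg.IsTISubset ((P : Subgroup G) : Set G)) (hodd : Odd (Nat.card (Subgroup.normalizer ((P : Subgroup G) : Set G)))) (Z : Subgroup G) (hZ1 : Z ≠ ⊥) (hZP : Z ≤ P) (hZn : ∀ x ∈ Subgroup.normalizer ((P : Subgroup G) : Set G), ∀ z ∈ Z, x * z * x⁻¹ ∈ Z) (hZc : ∀ z ∈ Z, ∀ y ∈ (P : Subgroup G), z * y = y * z) (hCL : ∀ z ∈ Z, ∀ z' ∈ Z, z ≠ 1 → z' ≠ 1 → Nat.card ↥(Subgroup.normalizer ((P : Subgroup G) : Set G) ⊓ Subgroup.centralizer ({z} : Set G)) = Nat.card ↥(Subgroup.normalizer ((P : Subgroup G) : Set G) ⊓ Subgroup.centralizer ({z'} : Set G))) (ψ : G → ℂ) (hψ : Cfsg.IsIrrCharacter G ψ) (hconst : ∀ z ∈ Z, ∀ z' ∈ Z, z ≠ 1 → z' ≠ 1 → ψ z = ψ z') (z : G) (hz : z ∈ Z) (hz1 : z ≠ 1) : ∃ n d : ℤ, ψ z = n ∧ ψ 1 = d ∧ (Nat.card (P : Subgroup G) : ℤ) ∣ d - n := by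
  classical
  let _ : Fintype G := Fintype.ofFinite G
  set N := Subgroup.normalizer ((P : Subgroup G) : Set G) with hN
  have hzP : z ∈ (P : Subgroup G) := hZP hz
  have hp : p.Prime := Fact.out
  -- elements of the subgroup have odd order
  have hzodd : z⁻¹ ≠ z := by
    intro h
    have h2 : z ^ 2 = 1 := by rw [pow_two]; nth_rw 1 [← h]; exact inv_mul_cancel z
    have hd := N.orderOf_dvd_natCard (Subgroup.le_normalizer hzP)
    exact hz1 (orderOf_eq_one_iff.mp (Nat.eq_one_of_dvd_coprimes (Nat.coprime_two_left.mpr hodd)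
      (orderOf_dvd_of_pow_eq_one h2) hd))
  have hfus : ∀ x ∈ (P : Subgroup G), x ≠ 1 → ∀ g : G, g * x * g⁻¹ ∈ (P : Subgroup G) → g ∈ N :=
    fun x hx hx1 g hg => by_contra fun hgN => hx1 (hTI g hgN x hx hg)
  have hnconj : ∀ g : G, g * z * g⁻¹ ≠ z⁻¹ := by
    intro g hg
    have hgN : g ∈ N := hfus z hzP hz1 g (hg ▸ Subgroup.inv_mem _ hzP)
    obtain ⟨j, hj⟩ := hodd
    have hord : g ^ (2 * j + 1) = 1 := by
      rw [← hj, ← orderOf_dvd_iff_pow_eq_one]; exact N.orderOf_dvd_natCard hgN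
    have h2 : Commute (g ^ 2) z := by
      refine mul_inv_eq_iff_eq_mul.mp ?_
      rw [pow_two]
      calc g * g * z * (g * g)⁻¹ = g * (g * z * g⁻¹) * g⁻¹ := by group
        _ = g * z⁻¹ * g⁻¹ := by rw [hg]
        _ = (g * z * g⁻¹)⁻¹ := by group
        _ = z := by rw [hg, inv_inv]
    have hc : Commute g z := by
      have : g = (g ^ 2) ^ (j + 1) := by
        rw [← pow_mul, show 2 * (j + 1) = (2 * j + 1) + 1 by ring, pow_succ, hord, one_mul]
      rw [this]; exact h2.pow_left _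
    rw [hc.eq, mul_inv_cancel_right] at hg
    exact hzodd hg.symm
  -- the value is a rational integer
  obtain ⟨q, hq⟩ := char_rat_of_pow hψ.isCharacter z fun k hk => by
    refine hconst _ (pow_mem hz k) z hz (fun h1 => hz1 ?_) hz1
    exact orderOf_eq_one_iff.mp (Nat.eq_one_of_dvd_coprimes hk (orderOf_dvd_of_pow_eq_one h1)
      (orderOf_dvd_natCard z))
  obtain ⟨n, hn'⟩ := exists_int_of_isIntegral (hq ▸ char_isIntegral hψ.isCharacter z)
  have hn : ψ z = (n : ℂ) := hq.trans hn'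
  obtain ⟨d, hd⟩ := exists_degree hψ.isCharacter
  refine ⟨n, d, hn, by rw [hd]; simp, ?_⟩
  have hninv : ψ z⁻¹ = (n : ℂ) :=
    (hconst _ (Z.inv_mem hz) z hz (inv_ne_one.mpr hz1) hz1).trans hn
  -- the action of the Sylow subgroup
  let Cl : G → Finset G := fun a => Finset.univ.filter fun x => IsConj a x
  let A : G → Finset G := fun a => (Cl a).filter fun x => x ∈ Z
  let act : ↥(P : Subgroup G) → G × G → G × G := fun k x =>
    ((k : G) * x.1 * (k : G)⁻¹, (k : G) * x.2 * (k : G)⁻¹)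
  have hclmem : ∀ (a : G) (k : G), ∀ x ∈ Cl a, k * x * k⁻¹ ∈ Cl a := fun a k x hx =>
    Finset.mem_filter.mpr ⟨Finset.mem_univ _, (Finset.mem_filter.mp hx).2.trans (isConj_iff.mpr ⟨k, rfl⟩)⟩
  have hcentral : ∀ (k : (P : Subgroup G)), ∀ x ∈ Z, (k : G) * x * (k : G)⁻¹ = x := fun k x hx => by
    rw [← hZc x hx k k.2, mul_inv_cancel_right]
  have hfree : ∀ a ∈ ({z, z⁻¹} : Finset G), ∀ (k : (P : Subgroup G)), k ≠ 1 → ∀ x ∈ Cl a,
      (k : G) * x * (k : G)⁻¹ = x → x ∈ Z := by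
    intro a ha k hk x hx hkx
    have haZ : a ∈ Z := by
      rcases Finset.mem_insert.mp ha with rfl | h
      · exact hz
      · rw [Finset.mem_singleton.mp h]; exact Z.inv_mem hz
    have ha1 : a ≠ 1 := by
      rcases Finset.mem_insert.mp ha with rfl | h
      · exact hz1
      · rw [Finset.mem_singleton.mp h]; exact inv_ne_one.mpr hz1
    obtain ⟨g, rfl⟩ := isConj_iff.mp (Finset.mem_filter.mp hx).2
    have hxN : g * a * g⁻¹ ∈ N := by
      refine hfus (k : G) k.2 (fun h => hk (Subtype.ext h)) _ ?_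
      have : g * a * g⁻¹ * (k : G) = k * (g * a * g⁻¹) := (mul_inv_eq_iff_eq_mul.mp hkx).symm
      rw [this, mul_inv_cancel_right]
      exact k.2
    have hpx : IsPGroup p (Subgroup.zpowers (g * a * g⁻¹)) := by
      obtain ⟨i, hi⟩ := IsPGroup.iff_orderOf.mp P.isPGroup' ⟨a, hZP haZ⟩
      refine IsPGroup.of_card (n := i) ?_
      rw [Nat.card_zpowers, ← hi, ← Subgroup.orderOf_coe ⟨a, hZP haZ⟩]
      exact orderOf_injective (MulAut.conj g).toMonoidHom (MulAut.conj g).injective a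
    have hxP : g * a * g⁻¹ ∈ (P : Subgroup G) := by
      have := hpx.inf_normalizer_sylow P
      exact ((this ▸ ⟨Subgroup.mem_zpowers _, hxN⟩ :
        g * a * g⁻¹ ∈ Subgroup.zpowers (g * a * g⁻¹) ⊓ (P : Subgroup G))).2
    exact hZn g (hfus a (hZP haZ) ha1 g hxP) a haZ
  have hkey : ∀ b ∈ ({z, z⁻¹} : Finset G), ∃ v : ℂ, IsIntegral ℤ v ∧
      ∑ x ∈ Cl z, ∑ y ∈ Cl b, ψ (x * y) =
        ∑ x ∈ A z, ∑ y ∈ A b, ψ (x * y) + (Nat.card (P : Subgroup G) : ℂ) * v := by
    intro b hb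
    have c1 : ∀ (k : (P : Subgroup G)), ∀ x ∈ (Cl z ×ˢ Cl b) \ (A z ×ˢ A b),
        act k x ∈ (Cl z ×ˢ Cl b) \ (A z ×ˢ A b) := by
      intro k x hx
      show ((k : G) * x.1 * (k : G)⁻¹, (k : G) * x.2 * (k : G)⁻¹) ∈ _
      rw [Finset.mem_sdiff, Finset.mem_product] at hx ⊢
      refine ⟨⟨hclmem z k x.1 hx.1.1, hclmem b k x.2 hx.1.2⟩, fun h => hx.2 ?_⟩
      rw [Finset.mem_product] at h ⊢
      have h1 : (k : G) * x.1 * (k : G)⁻¹ ∈ Z := (Finset.mem_filter.mp h.1).2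
      have h2 : (k : G) * x.2 * (k : G)⁻¹ ∈ Z := (Finset.mem_filter.mp h.2).2
      have e1 := hcentral k⁻¹ _ h1
      have e2 := hcentral k⁻¹ _ h2
      simp only [Subgroup.coe_inv, inv_inv] at e1 e2
      rw [show (k : G)⁻¹ * ((k : G) * x.1 * (k : G)⁻¹) * (k : G) = x.1 by group] at e1
      rw [show (k : G)⁻¹ * ((k : G) * x.2 * (k : G)⁻¹) * (k : G) = x.2 by group] at e2
      exact ⟨Finset.mem_filter.mpr ⟨hx.1.1, by rw [e1]; exact h1⟩,
        Finset.mem_filter.mpr ⟨hx.1.2, by rw [e2]; exact h2⟩⟩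
    have c2 : ∀ (k : (P : Subgroup G)), ∀ x ∈ (Cl z ×ˢ Cl b) \ (A z ×ˢ A b), act k x = x → k = 1 := by
      intro k x hx hkx
      by_contra hk
      rw [Finset.mem_sdiff, Finset.mem_product, Finset.mem_product] at hx
      exact hx.2 ⟨Finset.mem_filter.mpr ⟨hx.1.1,
          hfree z (Finset.mem_insert_self _ _) k hk _ hx.1.1 (congrArg Prod.fst hkx)⟩,
        Finset.mem_filter.mpr ⟨hx.1.2, hfree b hb k hk _ hx.1.2 (congrArg Prod.snd hkx)⟩⟩
    have c3 : ∀ (k : (P : Subgroup G)), ∀ x ∈ (Cl z ×ˢ Cl b) \ (A z ×ˢ A b),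
        ψ ((act k x).1 * (act k x).2) = ψ (x.1 * x.2) := by
      intro k x _
      show ψ ((k : G) * x.1 * (k : G)⁻¹ * ((k : G) * x.2 * (k : G)⁻¹)) = ψ (x.1 * x.2)
      rw [show (k : G) * x.1 * (k : G)⁻¹ * ((k : G) * x.2 * (k : G)⁻¹) =
        (k : G) * (x.1 * x.2) * (k : G)⁻¹ by group]
      exact hψ.isClassFunction _ _
    obtain ⟨v, hv, hv'⟩ := free_orbit_sum act (fun x => by simp [act])
      (fun k l x => by simp [act, mul_assoc]) _ c1 c2 (fun x => ψ (x.1 * x.2)) c3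
      (fun x => char_isIntegral hψ.isCharacter _)
    refine ⟨v, hv, ?_⟩
    rw [← Finset.sum_product', ← Finset.sum_product', ← hv',
        add_comm, Finset.sum_sdiff (Finset.product_subset_product (Finset.filter_subset _ _)
          (Finset.filter_subset _ _))]

  -- sizes
  set γ := Nat.card {x : G // IsConj z x} with hγ
  have hγinv : Nat.card {x : G // IsConj z⁻¹ x} = γ := Nat.card_congr
    ((Equiv.inv G).subtypeEquiv fun x => by
      simp only [Equiv.inv_apply, isConj_iff]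
      constructor
      · rintro ⟨c, rfl⟩; exact ⟨c, by group⟩
      · rintro ⟨c, hc⟩; exact ⟨c, by rw [← inv_inv x, ← hc]; group⟩)
  set σ := (A z).card with hσ
  have hσinv : (A z⁻¹).card = σ := by
    refine Finset.card_bij' (fun x _ => x⁻¹) (fun x _ => x⁻¹) (fun x hx => ?_) (fun x hx => ?_)
      (fun x _ => inv_inv x) (fun x _ => inv_inv x)
    all_goals
      simp only [A, Cl, Finset.mem_filter, Finset.mem_univ, true_and, isConj_iff] at hx ⊢
      obtain ⟨⟨c, hc⟩, hxZ⟩ := hx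
      exact ⟨⟨c, by rw [← hc]; group⟩, Z.inv_mem hxZ⟩
  have hval : ∀ x ∈ A z, ∀ (b : G), ∀ y ∈ A b, x * y ≠ 1 → ψ (x * y) = (n : ℂ) := by
    intro x hx b y hy h1
    exact (hconst _ (Z.mul_mem (Finset.mem_filter.mp hx).2 (Finset.mem_filter.mp hy).2) z hz h1 hz1).trans hn
  have hS1 : ∑ x ∈ A z, ∑ y ∈ A z, ψ (x * y) = (σ : ℂ) * σ * n := by
    rw [Finset.sum_congr rfl fun x hx => Finset.sum_congr rfl fun y hy => hval x hx z y hy fun h1 => by
      obtain ⟨g, rfl⟩ := isConj_iff.mp (Finset.mem_filter.mp (Finset.mem_filter.mp hx).1).2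
      obtain ⟨g', hg'⟩ := isConj_iff.mp (Finset.mem_filter.mp (Finset.mem_filter.mp hy).1).2
      refine hnconj (g⁻¹ * g') ?_
      have hy' : g' * z * g'⁻¹ = (g * z * g⁻¹)⁻¹ := hg'.trans (eq_inv_of_mul_eq_one_right h1)
      calc g⁻¹ * g' * z * (g⁻¹ * g')⁻¹ = g⁻¹ * (g' * z * g'⁻¹) * g := by group
        _ = g⁻¹ * (g * z * g⁻¹)⁻¹ * g := by rw [hy']
        _ = z⁻¹ := by group]
    simp only [Finset.sum_const, nsmul_eq_mul]
    ring
  have hS2 : ∑ x ∈ A z, ∑ y ∈ A z⁻¹, ψ (x * y) = (σ : ℂ) * ((σ : ℂ) * n + ((d : ℂ) - n)) := by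
    rw [Finset.sum_congr rfl fun x hx => show ∑ y ∈ A z⁻¹, ψ (x * y) = (σ : ℂ) * n + ((d : ℂ) - n) by
      have hxi : x⁻¹ ∈ A z⁻¹ := by
        simp only [A, Cl, Finset.mem_filter, Finset.mem_univ, true_and, isConj_iff] at hx ⊢
        obtain ⟨⟨c, hc⟩, hxZ⟩ := hx
        exact ⟨⟨c, by rw [← hc]; group⟩, Z.inv_mem hxZ⟩
      rw [← Finset.add_sum_erase _ _ hxi, mul_inv_cancel, hd,
        Finset.sum_congr rfl fun y hy => hval x hx z⁻¹ y (Finset.mem_of_mem_erase hy) fun h1 =>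
          Finset.ne_of_mem_erase hy (eq_inv_of_mul_eq_one_right h1),
        Finset.sum_const, nsmul_eq_mul, Finset.card_erase_of_mem hxi, hσinv,
        Nat.cast_sub (by rw [← hσinv]; exact Finset.card_pos.mpr ⟨_, hxi⟩)]
      push_cast
      ring]
    simp only [Finset.sum_const, nsmul_eq_mul, ← hσ]
  obtain ⟨v₁, hv₁, e₁⟩ := hkey z (Finset.mem_insert_self _ _)
  obtain ⟨v₂, hv₂, e₂⟩ := hkey z⁻¹ (Finset.mem_insert_of_mem (Finset.mem_singleton_self _))
  rw [hS1] at e₁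
  rw [hS2] at e₂
  have hsame : ∑ x ∈ Cl z, ∑ y ∈ Cl z, ψ (x * y) = ∑ x ∈ Cl z, ∑ y ∈ Cl z⁻¹, ψ (x * y) := by
    refine mul_right_cancel₀ hψ.one_ne_zero ?_
    rw [sum_pairs hψ z z, sum_pairs hψ z z⁻¹, hγinv, hn, hninv]
  rw [e₁, e₂] at hsame
  have hP0 : (Nat.card (P : Subgroup G) : ℂ) ≠ 0 := Nat.cast_ne_zero.mpr Nat.card_pos.ne'
  have hint : IsIntegral ℤ (((((σ : ℤ) * ((d : ℤ) - n) : ℤ) : ℚ) / (Nat.card (P : Subgroup G) : ℚ) : ℚ) : ℂ) := by
    have e : ((((σ : ℤ) * ((d : ℤ) - n) : ℤ) : ℚ) / (Nat.card (P : Subgroup G) : ℚ) : ℚ) = v₁ - v₂ := by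
      push_cast
      rw [div_eq_iff hP0]
      linear_combination -hsame
    rw [e]; exact hv₁.sub hv₂
  obtain ⟨w, hw⟩ := exists_int_of_isIntegral hint
  have hdvd : (Nat.card (P : Subgroup G) : ℤ) ∣ (σ : ℤ) * ((d : ℤ) - n) := by
    refine ⟨w, ?_⟩
    have h : ((((σ : ℤ) * ((d : ℤ) - n) : ℤ) : ℚ) / (Nat.card (P : Subgroup G) : ℚ) : ℚ) = (w : ℚ) :=
      Rat.cast_injective (α := ℂ) (hw.trans (Rat.cast_intCast w).symm)
    rw [div_eq_iff (Nat.cast_ne_zero.mpr Nat.card_pos.ne')] at h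
    rw [mul_comm _ w]
    exact_mod_cast h
  obtain ⟨k, hk⟩ := IsPGroup.iff_card.mp P.isPGroup'
  have hcop : ¬ p ∣ σ := by
    intro hdiv
    have hγp : ¬ p ∣ γ := by
      intro hg
      have hC := card_conj_eq_index (G := G) z
      rw [← hγ] at hC
      refine P.not_dvd_index ((hC ▸ hg).trans (Subgroup.index_dvd_of_le fun y hy => ?_))
      exact Subgroup.mem_centralizer_singleton_iff.mpr (hZc z hz y hy).symm
    obtain ⟨v, hv, hv'⟩ := free_orbit_sum (fun (k : (P : Subgroup G)) (x : G) => (k : G) * x * (k : G)⁻¹)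
      (fun x => by simp) (fun k l x => by simp [mul_assoc]) (Cl z \ A z)
      (fun k x hx => by
        rw [Finset.mem_sdiff] at hx ⊢
        refine ⟨hclmem z k x hx.1, fun h => hx.2 (Finset.mem_filter.mpr ⟨hx.1, ?_⟩)⟩
        have h1 : (k : G) * x * (k : G)⁻¹ ∈ Z := (Finset.mem_filter.mp h).2
        have e1 := hcentral k⁻¹ _ h1
        simp only [Subgroup.coe_inv, inv_inv] at e1
        rw [show (k : G)⁻¹ * ((k : G) * x * (k : G)⁻¹) * (k : G) = x by group] at e1
        rw [e1]; exact h1)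
      (fun k x hx hkx => by
        by_contra hk'
        rw [Finset.mem_sdiff] at hx
        exact hx.2 (Finset.mem_filter.mpr ⟨hx.1, hfree z (Finset.mem_insert_self _ _) k hk' x hx.1 hkx⟩))
      (fun _ => 1) (fun _ _ _ => rfl) (fun _ => isIntegral_one)
    rw [Finset.sum_const, nsmul_eq_mul, mul_one, Finset.card_sdiff_of_subset (Finset.filter_subset _ _)] at hv'
    obtain ⟨u, hu⟩ := exists_int_of_isIntegral (q := (((Cl z).card - σ : ℕ) : ℚ) / (Nat.card (P : Subgroup G) : ℚ)) (by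
      have : ((((Cl z).card - σ : ℕ) : ℚ) / (Nat.card (P : Subgroup G) : ℚ) : ℚ) = v := by
        push_cast
        rw [div_eq_iff hP0, hv', mul_comm]
      rw [this]; exact hv)
    have hu' : ((((Cl z).card - σ : ℕ) : ℤ)) = (Nat.card (P : Subgroup G) : ℤ) * u := by
      have h : (((Cl z).card - σ : ℕ) : ℚ) / (Nat.card (P : Subgroup G) : ℚ) = (u : ℚ) :=
        Rat.cast_injective (α := ℂ) (hu.trans (Rat.cast_intCast u).symm)
      rw [div_eq_iff (Nat.cast_ne_zero.mpr Nat.card_pos.ne')] at h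
      rw [mul_comm]
      exact_mod_cast h
    have hk0 : p ∣ Nat.card (P : Subgroup G) := by
      have := (P : Subgroup G).orderOf_dvd_natCard hzP
      obtain ⟨i, hi⟩ := IsPGroup.iff_orderOf.mp P.isPGroup' ⟨z, hzP⟩
      rw [← Subgroup.orderOf_coe] at hi
      rcases i with _ | i
      · exact absurd (orderOf_eq_one_iff.mp (hi.trans (pow_zero p))) hz1
      · exact (hi ▸ dvd_pow_self p (Nat.succ_ne_zero i)).trans this
    have h3 : (p : ℤ) ∣ ((((Cl z).card - σ : ℕ) : ℤ)) := hu' ▸ (Int.natCast_dvd_natCast.mpr hk0).mul_right u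
    rw [Int.natCast_dvd_natCast] at h3
    apply hγp
    have hle : σ ≤ (Cl z).card := Finset.card_filter_le _ _
    have := Nat.dvd_add h3 hdiv
    rw [Nat.sub_add_cancel hle] at this
    rwa [hγ, Nat.card_eq_fintype_card, Fintype.card_subtype]
  rw [hk] at hdvd ⊢
  refine (Int.isCoprime_iff_nat_coprime.mpr ?_).dvd_of_dvd_mul_left hdvd
  simpa using Nat.Coprime.pow_left k ((Nat.Prime.coprime_iff_not_dvd hp).mpr hcop)

end Cfsg.Agent.S1523
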