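import Cfsg.Statements.S2326
import Cfsg.Agent.Lib.Chev.OrderData
-- import your own Cfsg.Agent.* helpers here

set_option autoImplicit false
open Cfsg

namespace Cfsg.Agent.S2326

/-- In a Chevalley group of type G₂, B₂, D₄, F₄, E₆, E₇ or E₈ over a finite field of characteristic p, the subgroup U generated by the positive root elements is a Sylow p-subgroup. -/
theorem result {F : Type*} [Field F] [Fintype F] (p : ℕ) [Fact p.Prime] [CharP F p] (D : Cfsg.Lie.ChevalleyDatum) (hD : D ∈ [Cfsg.Lie.chevG2, Cfsg.Lie.chevB2, Cfsg.Lie.chevD4, Cfsg.Lie.chevF4, Cfsg.Lie.chevE6, Cfsg.Lie.chevE7, Cfsg.Lie.chevE8]) :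
    ∃ P : Sylow p ↥(D.group F), (P : Subgroup ↥(D.group F)) = (D.posUnipotent F).subgroupOf (D.group F) := by
  suffices key : ∀ (A : Cfsg.Lib.Chev.Aux) (hc : Cfsg.Lib.Chev.Cert D A)
      (S : List (List (List ℕ) × List (List ℕ))) (degs : List ℕ)
      (T : ℕ × List ℕ × List (List ℤ) × List (List ℤ) × List (List ℤ)),
      Cfsg.Lib.Chev.stepsOK D A S = true → Cfsg.Lib.Chev.polyOK S degs = true →
      Cfsg.Lib.Chev.torOK D A T = true → (∀ d ∈ degs, 0 < d) →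
      ∃ P : Sylow p ↥(D.group F), (P : Subgroup ↥(D.group F)) = (D.posUnipotent F).subgroupOf (D.group F) by
    simp only [List.mem_cons, List.not_mem_nil, or_false] at hD
    rcases hD with rfl | rfl | rfl | rfl | rfl | rfl | rfl
    · exact key _ Cfsg.Lib.Chev.certG2 _ _ _ Cfsg.Lib.Chev.steps_G2 Cfsg.Lib.Chev.poly_G2 Cfsg.Lib.Chev.tor_G2 (by decide)
    · exact key _ Cfsg.Lib.Chev.certB2 _ _ _ Cfsg.Lib.Chev.steps_B2 Cfsg.Lib.Chev.poly_B2 Cfsg.Lib.Chev.tor_B2 (by decide)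
    · exact key _ Cfsg.Lib.Chev.certD4 _ _ _ Cfsg.Lib.Chev.steps_D4 Cfsg.Lib.Chev.poly_D4 Cfsg.Lib.Chev.tor_D4 (by decide)
    · exact key _ Cfsg.Lib.Chev.certF4 _ _ _ Cfsg.Lib.Chev.steps_F4 Cfsg.Lib.Chev.poly_F4 Cfsg.Lib.Chev.tor_F4 (by decide)
    · exact key _ Cfsg.Lib.Chev.certE6 _ _ _ Cfsg.Lib.Chev.steps_E6 Cfsg.Lib.Chev.poly_E6 Cfsg.Lib.Chev.tor_E6 (by decide)
    · exact key _ Cfsg.Lib.Chev.certE7 _ _ _ Cfsg.Lib.Chev.steps_E7 Cfsg.Lib.Chev.poly_E7 Cfsg.Lib.Chev.tor_E7 (by decide)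
    · exact key _ Cfsg.Lib.Chev.certE8 _ _ _ Cfsg.Lib.Chev.steps_E8 Cfsg.Lib.Chev.poly_E8 Cfsg.Lib.Chev.tor_E8 (by decide)
  intro A hc S degs T hS hP hT hd
  classical
  obtain ⟨n, hp, hn⟩ := FiniteField.card F p
  have hU : Nat.card ((D.posUnipotent F).subgroupOf (D.group F)) = Fintype.card F ^ (D.nroots / 2) := by
    rw [Nat.card_congr (Subgroup.subgroupOfEquivOfLe (Cfsg.Lib.Chev.U_le_group hc)).toEquiv,
      Cfsg.Lib.Chev.posUnipotent_eq hc, Cfsg.Lib.Chev.card_UG hc (fun _ h => h) (Cfsg.Lib.Chev.combClosed_pos hc),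
      Cfsg.Lib.Chev.card_pos hc, Nat.card_eq_fintype_card]
  refine ⟨Sylow.ofCard ((D.posUnipotent F).subgroupOf (D.group F)) ?_, rfl⟩
  have h := Cfsg.Lib.Chev.card_group_formula hc hS hP hT (F := F)
  set N := (n : ℕ) * (D.nroots / 2)
  have hqN : Fintype.card F ^ (D.nroots / 2) = p ^ N := by rw [hn, ← pow_mul]
  rw [hqN] at h
  refine (hU.trans hqN).trans ?_
  congr 1
  have hG0 : Nat.card ↥(D.group F) ≠ 0 := Nat.card_pos.ne'
  have hq0 : ∀ d ∈ degs, ¬ p ∣ Fintype.card F ^ d - 1 := by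
    intro d hd' hdvd
    have h1 : p ∣ Fintype.card F ^ d := dvd_pow (hn ▸ dvd_pow_self p n.pos.ne') (hd d hd').ne'
    have h2 : 1 ≤ Fintype.card F ^ d := Nat.one_le_pow _ _ Fintype.card_pos
    have := Nat.dvd_sub h1 hdvd
    rw [Nat.sub_sub_self h2, Nat.dvd_one] at this
    exact hp.ne_one this
  have hprod : ¬ p ∣ (degs.map fun d => Fintype.card F ^ d - 1).prod := by
    intro hdvd
    obtain ⟨x, hx, hdx⟩ := (Nat.prime_iff.1 hp).dvd_prod_iff.1 hdvd
    obtain ⟨d, hd', rfl⟩ := List.mem_map.1 hx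
    exact hq0 d hd' hdx
  have hprod0 : (degs.map fun d => Fintype.card F ^ d - 1).prod ≠ 0 := fun h => hprod (h ▸ dvd_zero p)
  have hg0 : ¬ p ∣ (Fintype.card F - 1).gcd T.1 ^ T.2.1.length := fun hdvd => by
    have h1 := hp.dvd_of_dvd_pow hdvd
    have h2 := (Nat.dvd_gcd_iff.1 h1).1
    have h3 : 1 ≤ Fintype.card F := Fintype.card_pos
    have := Nat.dvd_sub (show p ∣ Fintype.card F from hn ▸ dvd_pow_self p n.pos.ne') h2
    rw [Nat.sub_sub_self h3, Nat.dvd_one] at this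
    exact hp.ne_one this
  have hg1 : (Fintype.card F - 1).gcd T.1 ^ T.2.1.length ≠ 0 := fun h => hg0 (h ▸ dvd_zero p)
  have := congrArg (fun m => m.factorization p) h
  simp only [Nat.factorization_mul hg1 hG0, Nat.factorization_mul (pow_ne_zero N hp.ne_zero) hprod0,
    Finsupp.add_apply, Nat.factorization_eq_zero_of_not_dvd hg0, Nat.factorization_eq_zero_of_not_dvd hprod,
    zero_add, add_zero] at this
  rw [Nat.factorization_pow, Finsupp.smul_apply, hp.factorization_self, smul_eq_mul, mul_one] at this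
  exact this.symm

end Cfsg.Agent.S2326
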