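import Cfsg.Statements.S0270
import Mathlib
import Cfsg.Agent.Lib.Classical.SymplecticSimple

set_option autoImplicit false
open Cfsg
open scoped Matrix

namespace Cfsg.Agent.S0270

/-- PSp_{2m}(q) is simple for m at least 2 and (m, q) other than (2, 2). -/
theorem result {F : Type*} [Field F] [Fintype F] (m : ℕ) (hm : 2 ≤ m) (h : m = 2 → 3 ≤ Fintype.card F) : IsSimpleGroup (Cfsg.PSp m F) := by
  have hperf := Cfsg.Lib.Classical.SpSimple.perfect_symplecticGroup (F := F) (m := m) (by omega)
  set S := Matrix.symplecticGroup (Fin m) F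
  let e : S ≃* ↥(Cfsg.spGL m F) := Cfsg.Lib.Classical.spEquiv
  have hperf' : commutator ↥(Cfsg.spGL m F) = ⊤ := by
    rw [commutator_def] at hperf ⊢
    have h2 := congrArg (Subgroup.map e.toMonoidHom) hperf
    rwa [Subgroup.map_commutator, Subgroup.map_top_of_surjective _ (MulEquiv.surjective _)] at h2
  have hne : Subgroup.center S ≠ ⊤ := by
    intro hc
    have h1 : commutator S ≤ ⊥ := by
      rw [commutator_def, le_bot_iff, Subgroup.commutator_eq_bot_iff_le_centralizer]
      intro g _ 
      rw [Subgroup.mem_centralizer_iff]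
      intro x _
      exact (Subgroup.mem_center_iff.1 (hc ▸ Subgroup.mem_top g : g ∈ Subgroup.center S) x)
    rw [hperf, top_le_iff] at h1
    obtain ⟨g, hg⟩ := Cfsg.Lib.Classical.SpSimple.exists_map (F := F) (m := m)
      (u := Pi.single (Sum.inl ⟨0, by omega⟩) 1) (v := Pi.single (Sum.inl ⟨1, by omega⟩) 1) (by simp) (by simp)
    have : e.symm g = 1 := (Subgroup.eq_bot_iff_forall _).1 h1.symm _ (Subgroup.mem_top _)
    rw [MulEquiv.map_eq_one_iff] at this
    subst this
    simpa [Pi.single_apply, Fin.ext_iff] using congrFun hg (Sum.inl ⟨0, by omega⟩)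
  have : Nontrivial (Cfsg.PSp m F) := QuotientGroup.nontrivial_iff.2 hne
  refine ⟨fun N hN => ?_⟩
  have hM : (N.comap (QuotientGroup.mk' (Subgroup.center S))).Normal := inferInstance
  set M := N.comap (QuotientGroup.mk' (Subgroup.center S)) with hMdef
  have hNM : N = M.map (QuotientGroup.mk' (Subgroup.center S)) :=
    (Subgroup.map_comap_eq_self_of_surjective (QuotientGroup.mk'_surjective _) N).symm
  have : (M.map e.toMonoidHom).Normal := hM.map _ e.surjective
  rcases Cfsg.Lib.Classical.SpSimple.center_or_top (M.map e.toMonoidHom) hperf' with h | h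
  · right
    rw [hNM, show M = ⊤ from Subgroup.map_injective (f := e.toMonoidHom) e.injective (by rw [h, Subgroup.map_top_of_surjective _ (MulEquiv.surjective _)])]
    exact Subgroup.map_top_of_surjective _ (QuotientGroup.mk'_surjective _)
  · left
    rw [hNM, Subgroup.map_eq_bot_iff, QuotientGroup.ker_mk']
    intro x hx
    refine Subgroup.mem_center_iff.2 fun y => e.injective ?_
    rw [map_mul, map_mul]
    exact Subgroup.mem_center_iff.1 (h (Subgroup.mem_map_of_mem _ hx)) (e y)

end Cfsg.Agent.S0270
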