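import Cfsg.Statements.S1557
import Cfsg.Agent.Lib.Golay.Cosets

set_option autoImplicit false
set_option linter.constructorNameAsVariable false
set_option maxRecDepth 20000
open scoped Pointwise
open Cfsg

namespace Cfsg.Agent.S1557

/-- The complement of the union of two disjoint octads is an octad, and the code has exactly 3795 trios of pairwise disjoint octads. -/
theorem result : (∀ o o' : Finset Cfsg.GolayPt, o ∈ Cfsg.octads → o' ∈ Cfsg.octads → Disjoint o o' → (o ∪ o')ᶜ ∈ Cfsg.octads) ∧ Cfsg.trios.ncard = 3795 := by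
  classical
  open Cfsg.Lib.Golay Cfsg.Lib.Steiner in
  have hcomp : ∀ o o' : Finset Cfsg.GolayPt, o ∈ Cfsg.octads → o' ∈ Cfsg.octads → Disjoint o o' → (o ∪ o')ᶜ ∈ Cfsg.octads := by
    intro o o' ho ho' hd
    have h1 : o ∪ o' ∈ Cfsg.supports (Cfsg.golayCode : Set (Cfsg.GolayPt → ZMod 2)) := by
      rw [← Finset.sup_eq_union, ← hd.symmDiff_eq_sup]; exact symmDiff_mem_supports ho.1 ho'.1
    have hu : (Finset.univ : Finset Cfsg.GolayPt) ∈ Cfsg.supports (Cfsg.golayCode : Set (Cfsg.GolayPt → ZMod 2)) := by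
      refine ⟨1, Submodule.subset_span (Or.inr rfl), ?_⟩
      ext p; simp [Cfsg.support₂]
    refine ⟨?_, ?_⟩
    · have := symmDiff_mem_supports hu h1
      rwa [← Finset.top_eq_univ, top_symmDiff, hnot_eq_compl] at this
    · rw [Finset.card_compl, Finset.card_union_of_disjoint hd, card_octad ho, card_octad ho']
      simp [Cfsg.GolayPt]
  refine ⟨hcomp, ?_⟩
  open Cfsg.Lib.Golay Cfsg.Lib.Steiner in
  have h30 : ∀ o ∈ octadFinset, (octadFinset.filter fun o' => Disjoint o o').card = 30 := by
    intro o ho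
    rw [mem_octadFinset] at ho
    have hα : Fintype.card Cfsg.GolayPt = 24 := by simp [Cfsg.GolayPt]
    have eq := fun s hs => meet_equation steiner ho (s := s) hs
    have e0 := eq 0 (by norm_num) 759 (by rw [hα]; decide) (by norm_num)
    have e1 := eq 1 (by norm_num) 253 (by rw [hα]; decide) (by norm_num)
    have e2 := eq 2 (by norm_num) 77 (by rw [hα]; decide) (by norm_num)
    have e3 := eq 3 (by norm_num) 21 (by rw [hα]; decide) (by norm_num)
    have e4 := eq 4 (by norm_num) 5 (by rw [hα]; decide) (by norm_num)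
    simp only [Finset.sum_range_succ, Finset.sum_range_zero] at e0 e1 e2 e3 e4
    norm_num [Nat.choose] at e0 e1 e2 e3 e4
    have h := ncard_disjoint (B := Cfsg.octads) (b := o) (by rw [card_octad ho]; norm_num)
    have h' : {c : Finset Cfsg.GolayPt | c ∈ Cfsg.octads ∧ Disjoint o c} = ↑(octadFinset.filter fun o' => Disjoint o o') := by
      ext c; simp [mem_octadFinset]
    rw [h', Set.ncard_coe_finset] at h
    omega
  open Cfsg.Lib.Golay in
  obtain ⟨P, hPdef⟩ : ∃ P, P = (octadFinset ×ˢ octadFinset).filter fun p => Disjoint p.1 p.2 := ⟨_, rfl⟩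
  let f : Finset Cfsg.GolayPt × Finset Cfsg.GolayPt → Finset (Finset Cfsg.GolayPt) :=
    fun p => {p.1, p.2, (p.1 ∪ p.2)ᶜ}
  open Cfsg.Lib.Golay in
  have hP : P.card = 759 * 30 := by
    rw [hPdef, ← octadFinset_card, ← smul_eq_mul, ← Finset.sum_const, ← Finset.sum_congr rfl h30, Finset.card_filter,
      Finset.sum_product]
    exact Finset.sum_congr rfl fun o _ => (Finset.card_filter _ _).symm
  have hne : ∀ a b : Finset Cfsg.GolayPt, a ∈ Cfsg.octads → Disjoint a b → a ≠ b := by
    intro a b ha hd e
    subst e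
    have h0 : a = ∅ := Finset.disjoint_self_iff_empty a |>.1 hd
    have := Cfsg.Lib.Golay.card_octad ha
    rw [h0] at this; simp at this
  have hthree : ∀ T ∈ Cfsg.trios, ∀ a ∈ T, ∀ b ∈ T, a ≠ b → T = f (a, b) := by
    intro T hT a ha b hb hab
    obtain ⟨hT3, hTo, hTd⟩ := hT
    obtain ⟨c, hc, hca, hcb⟩ : ∃ c ∈ T, c ≠ a ∧ c ≠ b := by
      by_contra h
      push Not at h
      have : T ⊆ {a, b} := fun x hx => by
        by_cases e : x = a
        · simp [e]
        · simp [h x hx e]
      have := (Finset.card_le_card this).trans Finset.card_le_two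
      omega
    have hce : c = (a ∪ b)ᶜ := by
      refine Finset.eq_of_subset_of_card_le (fun x hx => ?_) ?_
      · rw [Finset.mem_compl, Finset.mem_union]
        rintro (h | h)
        · exact Finset.disjoint_left.1 (hTd c hc a ha hca) hx h
        · exact Finset.disjoint_left.1 (hTd c hc b hb hcb) hx h
      · rw [Cfsg.Lib.Golay.card_octad (hTo c hc), Finset.card_compl, Finset.card_union_of_disjoint (hTd a ha b hb hab),
          Cfsg.Lib.Golay.card_octad (hTo a ha), Cfsg.Lib.Golay.card_octad (hTo b hb)]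
        simp [Cfsg.GolayPt]
    refine (Finset.eq_of_subset_of_card_le ?_ ?_).symm
    · intro x hx
      simp only [f, Finset.mem_insert, Finset.mem_singleton] at hx
      rcases hx with rfl | rfl | rfl
      · exact ha
      · exact hb
      · exact hce ▸ hc
    · rw [hT3]
      simp only [f]
      rw [← hce]
      exact (Finset.card_eq_three.2 ⟨a, b, c, hab, hca.symm, hcb.symm, rfl⟩).ge
  open Cfsg.Lib.Golay in
  have himg : (P.image f : Set (Finset (Finset Cfsg.GolayPt))) = Cfsg.trios := by
    ext T
    simp only [Finset.coe_image, Set.mem_image, Finset.mem_coe, hPdef, Finset.mem_filter, Finset.mem_product, mem_octadFinset]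
    constructor
    · rintro ⟨⟨a, b⟩, ⟨⟨ha, hb⟩, hd⟩, rfl⟩
      have hc := hcomp a b ha hb hd
      have hac : Disjoint a (a ∪ b)ᶜ := disjoint_compl_right.mono_left Finset.subset_union_left
      have hbc : Disjoint b (a ∪ b)ᶜ := disjoint_compl_right.mono_left Finset.subset_union_right
      refine ⟨Finset.card_eq_three.2 ⟨a, b, _, hne a b ha hd, hne a _ ha hac, hne b _ hb hbc, rfl⟩, ?_, ?_⟩
      · simp only [f, Finset.mem_insert, Finset.mem_singleton]
        rintro o (rfl | rfl | rfl) <;> assumption
      · simp only [f, Finset.mem_insert, Finset.mem_singleton]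
        rintro o (rfl | rfl | rfl) o' (rfl | rfl | rfl) hoo <;>
          first
            | exact absurd rfl hoo
            | assumption
            | exact hd.symm
            | exact hac.symm
            | exact hbc.symm
    · intro hT
      obtain ⟨a, ha, b, hb, hab⟩ := Finset.one_lt_card.1 (by rw [hT.1]; norm_num : 1 < T.card)
      exact ⟨(a, b), ⟨⟨hT.2.1 a ha, hT.2.1 b hb⟩, hT.2.2 a ha b hb hab⟩, (hthree T hT a ha b hb hab).symm⟩
  rw [← himg, Set.ncard_coe_finset]
  open Cfsg.Lib.Golay in
  have hfib : ∀ T ∈ P.image f, (P.filter fun p => f p = T).card = 6 := by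
    intro T hT
    have hT' : T ∈ Cfsg.trios := (Set.ext_iff.1 himg T).1 (Finset.mem_coe.2 hT)
    have e : P.filter (fun p => f p = T) = T.offDiag := by
      ext ⟨a, b⟩
      simp only [hPdef, Finset.mem_filter, Finset.mem_product, mem_octadFinset, Finset.mem_offDiag]
      constructor
      · rintro ⟨⟨⟨ha, hb⟩, hd⟩, rfl⟩
        exact ⟨by simp [f], by simp [f], hne a b ha hd⟩
      · rintro ⟨ha, hb, hab⟩
        exact ⟨⟨⟨hT'.2.1 a ha, hT'.2.1 b hb⟩, hT'.2.2 a ha b hb hab⟩, (hthree T hT' a ha b hb hab).symm⟩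
    rw [e, Finset.offDiag_card, hT'.1]
  have h := Finset.card_eq_sum_card_image f P
  rw [Finset.sum_const_nat hfib, hP] at h
  omega

end Cfsg.Agent.S1557
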