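import Cfsg.Statements.S1635
import Cfsg.Agent.Lib.Golay.Cosets

set_option autoImplicit false
open Cfsg

namespace Cfsg.Agent.S1635

/-- Coset leaders of the length-24 code: a coset contains a unique word of weight ≤ 3, or else exactly six words of weight 4 and none lighter. -/
theorem result (w : Cfsg.GolayPt → ZMod 2) : ({v : Cfsg.GolayPt → ZMod 2 | hammingNorm v ≤ 4 ∧ w - v ∈ Cfsg.golayCode}.ncard = 1 ∧ ∃ v : Cfsg.GolayPt → ZMod 2, hammingNorm v ≤ 3 ∧ w - v ∈ Cfsg.golayCode) ∨ ({v : Cfsg.GolayPt → ZMod 2 | hammingNorm v ≤ 4 ∧ w - v ∈ Cfsg.golayCode}.ncard = 6 ∧ ∀ v : Cfsg.GolayPt → ZMod 2, w - v ∈ Cfsg.golayCode → hammingNorm v ≤ 4 → hammingNorm v = 4) := by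
  classical
  open Cfsg.Lib.Golay in
  have hset : ∀ (S : Finset (Finset Cfsg.GolayPt)),
      (∀ u, (u.card ≤ 4 ∧ symmDiff (Cfsg.support₂ w) u ∈ Cfsg.supports (Cfsg.golayCode : Set (Cfsg.GolayPt → ZMod 2))) ↔ u ∈ S) →
      {v : Cfsg.GolayPt → ZMod 2 | hammingNorm v ≤ 4 ∧ w - v ∈ Cfsg.golayCode}.ncard = S.card := by
    intro S hS
    rw [← Set.ncard_coe_finset S]
    have e : (Cfsg.support₂ '' {v : Cfsg.GolayPt → ZMod 2 | hammingNorm v ≤ 4 ∧ w - v ∈ Cfsg.golayCode}) = (S : Set _) := by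
      ext u
      simp only [Set.mem_image, Set.mem_ofPred_eq, Finset.mem_coe, ← hS u, sub_mem_iff, hammingNorm_eq]
      constructor
      · rintro ⟨v, hv, rfl⟩; exact hv
      · intro h
        obtain ⟨v, rfl⟩ := support_surjective u
        exact ⟨v, h, rfl⟩
    rw [← e, Set.ncard_image_of_injective _ support_injective]
  rcases Cfsg.Lib.Golay.coset_small (Cfsg.support₂ w) with ⟨v, hv, hwv, huniq⟩ | ⟨t, ht, hiff⟩
  · refine Or.inl ⟨?_, ?_⟩
    · rw [hset {v} (fun u => ⟨fun h => Finset.mem_singleton.2 (huniq u h.1 h.2), fun h => ?_⟩), Finset.card_singleton]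
      rw [Finset.mem_singleton.1 h]; exact ⟨by omega, hwv⟩
    · obtain ⟨x, rfl⟩ := Cfsg.Lib.Golay.support_surjective v
      exact ⟨x, by rw [Cfsg.Lib.Golay.hammingNorm_eq]; exact hv, (Cfsg.Lib.Golay.sub_mem_iff w x).2 hwv⟩
  · refine Or.inr ⟨by rw [hset _ hiff, Cfsg.Lib.Golay.card_sextetOf ht], fun v hv h4 => ?_⟩
    rw [Cfsg.Lib.Golay.hammingNorm_eq] at h4 ⊢
    exact Cfsg.Lib.Golay.card_of_mem_sextetOf ht ((hiff _).1 ⟨h4, (Cfsg.Lib.Golay.sub_mem_iff w v).1 hv⟩)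

end Cfsg.Agent.S1635
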