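import Mathlib
import Cfsg.Statements.S0410
import Cfsg.Agent.Lib.SteinerCert.Derived
import Cfsg.Agent.Lib.SteinerCert.Data22

set_option autoImplicit false
open Cfsg

namespace Cfsg.Agent.S0410

/-- Uniqueness of the Steiner system S(3, 6, 22) up to isomorphism. -/
theorem result {α β : Type*} [Fintype α] [DecidableEq α] [Fintype β] [DecidableEq β] (hα : Fintype.card α = 22) (hβ : Fintype.card β = 22) {B : Set (Finset α)} {B' : Set (Finset β)} (hB : Cfsg.IsSteinerSystem 3 6 B) (hB' : Cfsg.IsSteinerSystem 3 6 B') : Cfsg.SetSystemIso B B' := by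
  have hF : (Cfsg.Lib.SteinerCert.toF 24 Cfsg.Lib.SteinerCert.Fam.S22.fm).card = 2 := by decide +kernel
  obtain ⟨ι, hι⟩ := Cfsg.Lib.SteinerCert.Derived.exists_emb (α := α) Cfsg.Lib.SteinerCert.Fam.S22.fm (by omega)
  obtain ⟨ι', hι'⟩ := Cfsg.Lib.SteinerCert.Derived.exists_emb (α := β) Cfsg.Lib.SteinerCert.Fam.S22.fm (by omega)
  obtain ⟨e, he⟩ := Cfsg.Lib.SteinerCert.Derived.model ι hι Cfsg.Lib.SteinerCert.Fam.S22.good_nil
    (Cfsg.Lib.SteinerCert.Derived.fam22 hα hB _ hF ι hι)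
  obtain ⟨e', he'⟩ := Cfsg.Lib.SteinerCert.Derived.model ι' hι' Cfsg.Lib.SteinerCert.Fam.S22.good_nil
    (Cfsg.Lib.SteinerCert.Derived.fam22 hβ hB' _ hF ι' hι')
  refine ⟨e.trans e'.symm, ?_⟩
  have h1 : (fun b : Finset α => b.image (e.trans e'.symm)) '' B =
      (fun c => c.image e'.symm) '' ((fun b : Finset α => b.image e) '' B) := by
    rw [Set.image_image]
    exact Set.image_congr fun b _ => by rw [Finset.image_image]; rfl
  rw [h1, he, ← he', Set.image_image]
  simp [Finset.image_image]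

end Cfsg.Agent.S0410
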