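import Mathlib
import Cfsg.Statements.S0414
import Cfsg.Agent.Lib.SteinerCert.PunctureGroups

set_option autoImplicit false
open Cfsg

namespace Cfsg.Agent.S0414

/-- Aut of an S(3, 6, 22) has order 887040, is 3-transitive, and contains a simple subgroup of index 2. -/
theorem result {α : Type*} [Fintype α] [DecidableEq α] (hα : Fintype.card α = 22) {B : Set (Finset α)} (hB : Cfsg.IsSteinerSystem 3 6 B) : Nat.card (Cfsg.setSystemAut B) = 887040 ∧ MulAction.IsMultiplyPretransitive (Cfsg.setSystemAut B) α 3 ∧ ∃ H : Subgroup (Cfsg.setSystemAut B), H.index = 2 ∧ Cfsg.IsM22 H := by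
  obtain ⟨hc, h3, H, hidx, ⟨ψ⟩⟩ := Cfsg.Lib.SteinerCert.PunctureGroups.aut22 hα hB
  have hp : Cfsg.Lib.SteinerCert.Puncture.pair.card = 2 := Cfsg.Lib.SteinerCert.Puncture.pair_check.2.1
  haveI := Cfsg.Lib.Golay.Simp.isSimpleGroup_fixer (A := Cfsg.Lib.SteinerCert.Puncture.pair) hp.le
  refine ⟨hc, h3, H, hidx, ψ.symm.isSimpleGroup, ?_⟩
  rw [← Nat.card_congr ψ.toEquiv, Cfsg.Lib.Golay.card_fixer (by rw [hp]; norm_num), hp]
  exact Cfsg.Lib.Golay.card_lev.2.2.2.2.2.1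

end Cfsg.Agent.S0414
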