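import Cfsg.Statements.S0428
import Mathlib
import Cfsg.Agent.Lib.Steiner.S22
import Cfsg.Agent.Lib.HSGraph.Unique

set_option autoImplicit false
open Cfsg Cfsg.Lib.Steiner

namespace Cfsg.Agent.S0428

/-- The point-block graph of an S(3, 6, 22) is strongly regular with parameters (100, 22, 0, 6). -/
theorem result {α : Type*} [Fintype α] (hα : Fintype.card α = 22) {B : Set (Finset α)} (hB : Cfsg.IsSteinerSystem 3 6 B) [Fintype B] [DecidableRel (Cfsg.pointBlockGraph B).Adj] : (Cfsg.pointBlockGraph B).IsSRGWith 100 22 0 6 := by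
  classical
  let blk : B → (Option (α ⊕ B)) := fun b => some (Sum.inr b)
  let pnt : α → (Option (α ⊕ B)) := fun a => some (Sum.inl a)
  let mk : Bool → Finset α → Finset B → Finset (Option (α ⊕ B)) := fun o P D =>
    (if o then {none} else ∅) ∪ P.image pnt ∪ D.image blk
  have hpi : Function.Injective pnt := fun x y h => Sum.inl.inj (Option.some.inj h)
  have hbi : Function.Injective blk := fun x y h => Sum.inr.inj (Option.some.inj h)
  have hmem : ∀ o P D v, v ∈ mk o P D ↔ (v = none ∧ o = true) ∨ (∃ a ∈ P, v = pnt a) ∨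
      (∃ d ∈ D, v = blk d) := by
    intro o P D v
    cases o <;> simp [mk, eq_comm, or_assoc]
  have hcard : ∀ o P D, (mk o P D).card = (if o then 1 else 0) + P.card + D.card := by
    intro o P D
    rw [Finset.card_union_of_disjoint, Finset.card_union_of_disjoint, Finset.card_image_of_injective _ hpi,
      Finset.card_image_of_injective _ hbi]
    · cases o <;> simp
    · cases o <;> simp [pnt]
    · cases o <;> simp [Finset.disjoint_left, pnt, blk]
  let nb : (Option (α ⊕ B)) → Bool × Finset α × Finset B := fun v => match v with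
    | none => (false, Finset.univ, ∅)
    | some (Sum.inl a) => (true, ∅, Finset.univ.filter fun d : B => a ∈ d.1)
    | some (Sum.inr b) => (false, b.1, Finset.univ.filter fun d : B => Disjoint b.1 d.1)
  have hne6 : ∀ b : B, ¬ Disjoint b.1 b.1 := fun b h => by
    have := hB.1 _ b.2
    rw [disjoint_self] at h
    simp [h] at this
  have hadj : ∀ u v, (pointBlockGraph B).Adj u v ↔ v ∈ mk (nb u).1 (nb u).2.1 (nb u).2.2 := by
    intro u v
    rw [hmem]
    rcases u with _ | a | b <;> rcases v with _ | a' | b' <;>
      simp [pointBlockGraph, pointBlockRel, nb, pnt, blk]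
    · exact ⟨fun h => h.2.elim id disjoint_comm.1, fun h => ⟨fun e => hne6 b (by rw [← e] at h; exact h),
        Or.inl h⟩⟩
  have hcn : ∀ u v, Fintype.card ((pointBlockGraph B).commonNeighbors u v) =
      (if (nb u).1 && (nb v).1 then 1 else 0) + ((nb u).2.1 ∩ (nb v).2.1).card +
        ((nb u).2.2 ∩ (nb v).2.2).card := by
    intro u v
    rw [← hcard, ← Set.toFinset_card]
    congr 1
    ext w
    simp only [Set.mem_toFinset, SimpleGraph.mem_commonNeighbors, hadj, hmem, Bool.and_eq_true,
      Finset.mem_inter]
    rcases w with _ | a | b <;> simp [pnt, blk]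
  have hdd : ∀ b c : B, b ≠ c →
      ((Finset.univ.filter fun d : B => Disjoint b.1 d.1) ∩
        (Finset.univ.filter fun d : B => Disjoint c.1 d.1)).card = if Disjoint b.1 c.1 then 0 else 4 := by
    intro b c hne
    rw [← Finset.filter_and, S22.card_filter_subtype (fun d => Disjoint b.1 d ∧ Disjoint c.1 d),
      S22.card_disjoint_both hα hB b.2 c.2 fun e => hne (Subtype.ext e)]
  have had : ∀ (b : B) (a : α),
      ((Finset.univ.filter fun d : B => a ∈ d.1) ∩
        (Finset.univ.filter fun d : B => Disjoint b.1 d.1)).card = if a ∈ b.1 then 0 else 6 := by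
    intro b a
    rw [← Finset.filter_and, S22.card_filter_subtype (fun d => a ∈ d ∧ Disjoint b.1 d)]
    split_ifs with h
    · rw [Finset.card_eq_zero, Finset.filter_eq_empty_iff]
      exact fun d _ h' => Finset.disjoint_left.1 h'.2 h h'.1
    · exact S22.card_disjoint_through hα hB b.2 h
  have hsymm : ∀ u v, (pointBlockGraph B).Adj u v ↔ u ∈ mk (nb v).1 (nb v).2.1 (nb v).2.2 := fun u v => by
    rw [SimpleGraph.adj_comm, hadj]
  refine ⟨?_, fun v => ?_, fun u v h => ?_, fun u v hne h => ?_⟩
  · rw [Fintype.card_option, Fintype.card_sum, hα, ← Set.toFinset_card,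
      show Set.toFinset B = Lib.Steiner.blocks B from by ext d; simp, S22.card_blocks hα hB]
  · rw [← SimpleGraph.card_neighborFinset_eq_degree,
      show (pointBlockGraph B).neighborFinset v = mk (nb v).1 (nb v).2.1 (nb v).2.2 from by
        ext w; simp [hadj], hcard]
    rcases v with _ | a | b
    · simp [nb, hα]
    · simp [nb, S22.card_filter_subtype (fun d => a ∈ d), S22.card_through_point hα hB a]
    · simp [nb, hB.1 _ b.2, S22.card_filter_subtype (fun d => Disjoint b.1 d),
        S22.card_disjoint hα hB b.2]
  · rw [hcn]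
    rw [hadj, hmem] at h
    rcases u with _ | a | b <;> rcases v with _ | a' | b' <;> simp [nb, pnt, blk] at h ⊢
    · rw [← Finset.card_eq_zero, had, if_pos h]
    · rw [← Finset.card_eq_zero, Finset.inter_comm, had, if_pos h]
    · constructor
      · rwa [← Finset.disjoint_iff_inter_eq_empty]
      · rw [← Finset.card_eq_zero, hdd b b' (fun e => hne6 b (by rw [← e] at h; exact h)), if_pos h]
  · rw [hcn]
    rw [hadj, hmem] at h
    rcases u with _ | a | b <;> rcases v with _ | a' | b' <;> simp [nb, pnt, blk] at h hne ⊢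
    · rw [hB.1 _ b'.2]
    · rw [← Finset.filter_and, S22.card_filter_subtype (fun d => a ∈ d ∧ a' ∈ d),
        S22.card_through_pair hα hB hne]
    · rw [had, if_neg h]
    · rw [hB.1 _ b.2]
    · rw [Finset.inter_comm, had, if_neg h]
    · rw [hdd b b' hne, if_neg h]
      rcases S22.inter_cases hα hB b.2 b'.2 with e | e | e
      · exact absurd (Subtype.ext e) hne
      · exact absurd (Finset.disjoint_iff_inter_eq_empty.2 (Finset.card_eq_zero.1 e)) h
      · rw [e]

end Cfsg.Agent.S0428
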