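import Cfsg.Statements.S0378
import Mathlib
import Cfsg.Agent.Lib.Golay.M24

set_option autoImplicit false
open Cfsg

namespace Cfsg.Agent.S0378

/-- A two-point stabiliser in the group of the length-24 code has order 443520 = 2^7·3^2·5·7·11. -/
theorem result (p q : Cfsg.GolayPt) (hpq : p ≠ q) : Nat.card ↥(MulAction.stabilizer Cfsg.M24 p ⊓ MulAction.stabilizer Cfsg.M24 q) = 443520 := by
  have hne : Lib.Golay.baseP 0 ≠ Lib.Golay.baseP 1 := by decide +kernel
  obtain ⟨g, hg, hgx⟩ := Lib.Golay.exists_tuple_to_base (show 2 ≤ 5 by norm_num)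
    ⟨![p, q], by intro i j; fin_cases i <;> fin_cases j <;> simp [hpq, hpq.symm]⟩
  have h0 : g p = Lib.Golay.baseP 0 := hgx 0
  have h1 : g q = Lib.Golay.baseP 1 := hgx 1
  rw [← Lib.Golay.card_lev.2.2.2.2.2.1]
  refine Nat.card_congr
    { toFun := fun u => ⟨g * ((u : Cfsg.M24) : Equiv.Perm _) * g⁻¹,
        (Lib.Golay.mem_lev_iff _ 2).2 ⟨Lib.Golay.M24_le_setSystemAut
          (Subgroup.mul_mem _ (Subgroup.mul_mem _ hg u.1.2) (Subgroup.inv_mem _ hg)), fun j hj => by
          have hp : ((u : Cfsg.M24) : Equiv.Perm _) p = p := u.2.1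
          have hq : ((u : Cfsg.M24) : Equiv.Perm _) q = q := u.2.2
          interval_cases j
          · simp only [Equiv.Perm.mul_apply, ← h0, Equiv.Perm.coe_inv, Equiv.symm_apply_apply, hp]
          · simp only [Equiv.Perm.mul_apply, ← h1, Equiv.Perm.coe_inv, Equiv.symm_apply_apply, hq]⟩⟩
      invFun := fun v => ⟨⟨g⁻¹ * (v : Equiv.Perm _) * g, by
          obtain ⟨ha, -⟩ := (Lib.Golay.mem_lev_iff _ 2).1 v.2
          exact Subgroup.mul_mem _ (Subgroup.mul_mem _ (Subgroup.inv_mem _ hg)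
            (Lib.Golay.M24_eq_setSystemAut ▸ ha)) hg⟩,
        by
          obtain ⟨-, hf⟩ := (Lib.Golay.mem_lev_iff _ 2).1 v.2
          refine ⟨?_, ?_⟩
          · change g⁻¹ ((v : Equiv.Perm _) (g p)) = p
            rw [h0, hf 0 (by norm_num), ← h0]; exact g.symm_apply_apply p
          · change g⁻¹ ((v : Equiv.Perm _) (g q)) = q
            rw [h1, hf 1 (by norm_num), ← h1]; exact g.symm_apply_apply q⟩
      left_inv := fun u => by apply Subtype.ext; apply Subtype.ext; simp [mul_assoc]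
      right_inv := fun v => by apply Subtype.ext; simp [mul_assoc] }

end Cfsg.Agent.S0378
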