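import Cfsg.Statements.S0379
import Cfsg.Agent.Lib.Golay.Simple

set_option autoImplicit false
open Cfsg

namespace Cfsg.Agent.S0379

/-- A two-point stabiliser in the group of the length-24 code is simple. -/
theorem result (p q : Cfsg.GolayPt) (hpq : p ≠ q) : IsSimpleGroup ↥(MulAction.stabilizer Cfsg.M24 p ⊓ MulAction.stabilizer Cfsg.M24 q) := by
  haveI := Cfsg.Lib.Golay.Simp.isSimpleGroup_fixer (A := {p, q}) (le_trans Finset.card_le_two le_rfl)
  let e : ↥(MulAction.stabilizer Cfsg.M24 p ⊓ MulAction.stabilizer Cfsg.M24 q) ≃* ↥(Cfsg.Lib.Golay.fixer {p, q}) :=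
    { toFun := fun g => ⟨((g : Cfsg.M24) : Equiv.Perm Cfsg.GolayPt), (g : Cfsg.M24).2, fun a ha => by
        simp only [Finset.mem_insert, Finset.mem_singleton] at ha
        rcases ha with rfl | rfl
        exacts [g.2.1, g.2.2]⟩
      invFun := fun g => ⟨⟨(g : Equiv.Perm Cfsg.GolayPt), g.2.1⟩, g.2.2 p (by simp), g.2.2 q (by simp)⟩
      left_inv := fun _ => rfl
      right_inv := fun _ => rfl
      map_mul' := fun _ _ => rfl }
  exact e.isSimpleGroup

end Cfsg.Agent.S0379
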