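import Mathlib
import Cfsg.Statements.S1580
import Cfsg.Agent.Lib.Leech.Tri.Triangles
-- import your own Cfsg.Agent.* helpers here

set_option autoImplicit false
open Cfsg

namespace Cfsg.Agent.S1580

/-- The McLaughlin configuration: for u of customary norm 6 and v minimal with u − v minimal, there are 275 further such summands x of customary inner product 2 with v, permuted transitively by the stabiliser of u and v. -/
theorem result (u v : ↥Cfsg.leechLattice) (hu : Cfsg.sqNorm (u : Cfsg.GolayPt → ℤ) = 48) (hv : Cfsg.sqNorm (v : Cfsg.GolayPt → ℤ) = 32 ∧ Cfsg.sqNorm ((u - v) : Cfsg.GolayPt → ℤ) = 32) : {x : ↥Cfsg.leechLattice | Cfsg.sqNorm (x : Cfsg.GolayPt → ℤ) = 32 ∧ Cfsg.sqNorm ((u - x) : Cfsg.GolayPt → ℤ) = 32 ∧ Cfsg.dotInt (v : Cfsg.GolayPt → ℤ) (x : Cfsg.GolayPt → ℤ) = 16}.ncard = 275 ∧ ∀ x ∈ {x : ↥Cfsg.leechLattice | Cfsg.sqNorm (x : Cfsg.GolayPt → ℤ)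 = 32 ∧ Cfsg.sqNorm ((u - x) : Cfsg.GolayPt → ℤ) = 32 ∧ Cfsg.dotInt (v : Cfsg.GolayPt → ℤ) (x : Cfsg.GolayPt → ℤ) = 16}, ∀ x' ∈ {x : ↥Cfsg.leechLattice | Cfsg.sqNorm (x : Cfsg.GolayPt → ℤ) = 32 ∧ Cfsg.sqNorm ((u - x) : Cfsg.GolayPt → ℤ) = 32 ∧ Cfsg.dotInt (v : Cfsg.GolayPt → ℤ) (x : Cfsg.GolayPt → ℤ) = 16}, ∃ g : ↥Cfsg.Co0, g • u = u ∧ g • v = v ∧ g • x = x' := by
  open Cfsg.Lib.Leech Cfsg.Lib.Leech.Tri in
  have hb : nm (u - v) = 32 ∧ dt v (u - v) = -8 := by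
    have h2 : nm (u - v) = 32 := hv.2
    refine ⟨h2, ?_⟩
    rw [nm_sub] at h2
    have h0 : nm u = 48 := hu
    rw [dt_sub, dt_self, dt_comm v u]
    have h1 : nm v = 32 := hv.1
    omega
  open Cfsg.Lib.Leech Cfsg.Lib.Leech.Tri in
  have key : ∀ x : ↥Cfsg.leechLattice,
      (nm x = 32 ∧ nm (u - x) = 32 ∧ dt v x = 16) ↔
        (nm (-x) = 32 ∧ dt v (-x) = -16 ∧ dt (u - v) (-x) = -8) := by
    intro x
    have h1 : nm u = 48 := hu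
    have e1 := nm_sub u x
    have e2 : dt (u - v) (-x) = -(dt u x - dt v x) := by
      rw [dt_neg, dt_comm (u - v) x, dt_sub, dt_comm x u, dt_comm x v]
    rw [nm_neg, dt_neg, e2]
    omega
  refine ⟨?_, fun x hx x' hx' => ?_⟩
  · rw [← (Cfsg.Lib.Leech.Tri.count_c hv.1 hb.1 hb.2).2]
    refine Set.ncard_congr (fun x _ => -x) (fun x hx => (key x).1 hx) (fun a b _ _ e => neg_injective e)
      fun c hc => ⟨-c, (key (-c)).2 (by rw [neg_neg]; exact hc), neg_neg c⟩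
  · obtain ⟨a1, a2, a3⟩ := (key x).1 hx
    obtain ⟨b1, b2, b3⟩ := (key x').1 hx'
    open Cfsg.Lib.Leech Cfsg.Lib.Leech.Tri in
    obtain ⟨g, hgv, hgx, hgb⟩ := trans_tri hv.1 a1 hb.1 hv.1 b1 hb.1 (Or.inr rfl) a2 b2 hb.2 hb.2
      ((dt_comm _ _).trans a3) ((dt_comm _ _).trans b3)
    rw [Cfsg.Lib.Leech.co0_sub, hgv] at hgb
    rw [Cfsg.Lib.Leech.co0_neg] at hgx
    exact ⟨g, sub_left_injective hgb, hgv, neg_injective hgx⟩

end Cfsg.Agent.S1580
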