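import Cfsg.Statements.S0622
import Mathlib
-- import your own Cfsg.Agent.* helpers here

set_option autoImplicit false
universe u
open Cfsg

namespace Cfsg.Agent.S0622

universe v

theorem elem_map {A B : Type v} [Group A] [Group B] (p : ℕ) (f : A →* B) {X : Subgroup A} (hX : IsElementaryAbelian p X) :
    IsElementaryAbelian p (X.map f) := by
  refine ⟨⟨⟨?_⟩⟩, ?_⟩
  · rintro ⟨_, a, ha, rfl⟩ ⟨_, b, hb, rfl⟩
    refine Subtype.ext ?_
    show f a * f b = f b * f a
    rw [← map_mul, ← map_mul]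
    exact congrArg f (congrArg Subtype.val (hX.1.is_comm.comm (⟨a, ha⟩ : X) ⟨b, hb⟩))
  · rintro _ ⟨a, ha, rfl⟩
    rw [← map_pow, hX.2 a ha, map_one]

theorem thompson_le {A B : Type v} [Group A] [Group B] (p : ℕ) (η : A ≃* B) :
    (thompsonSubgroup p A).map η.toMonoidHom ≤ thompsonSubgroup p B := by
  rw [Subgroup.map_le_iff_le_comap]
  refine sSup_le fun X hX => Subgroup.map_le_iff_le_comap.1 (le_sSup ⟨elem_map p _ hX.1, fun Y hY => ?_⟩)
  rw [Subgroup.card_map_of_injective (f := η.toMonoidHom) η.injective]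
  have := hX.2 (Y.map η.symm.toMonoidHom) (elem_map p _ hY)
  rwa [Subgroup.card_map_of_injective (f := η.symm.toMonoidHom) η.symm.injective] at this

theorem thompson_map {A B : Type v} [Group A] [Group B] (p : ℕ) (η : A ≃* B) :
    (thompsonSubgroup p A).map η.toMonoidHom = thompsonSubgroup p B := by
  refine le_antisymm (thompson_le p η) fun b hb => ⟨η.symm b, thompson_le p η.symm ⟨b, hb, rfl⟩, ?_⟩
  exact η.apply_symm_apply b

theorem omega_map {A B : Type v} [Group A] [Group B] (p : ℕ) (η : A ≃* B) (X : Subgroup A) :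
    (omegaOne p X).map η.toMonoidHom = omegaOne p (X.map η.toMonoidHom) := by
  rw [omegaOne, omegaOne, MonoidHom.map_closure]
  congr 1
  ext b
  constructor
  · rintro ⟨a, ⟨ha, hap⟩, rfl⟩
    exact ⟨⟨a, ha, rfl⟩, by rw [← map_pow, hap, map_one]⟩
  · rintro ⟨⟨a, ha, rfl⟩, hb⟩
    refine ⟨a, ⟨ha, η.injective ?_⟩, rfl⟩
    rw [map_pow, map_one]
    exact hb

theorem center_map {A B : Type v} [Group A] [Group B] (η : A ≃* B) :
    (Subgroup.center A).map η.toMonoidHom = Subgroup.center B := by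
  ext b
  constructor
  · rintro ⟨a, ha, rfl⟩
    refine Subgroup.mem_center_iff.2 fun c => ?_
    obtain ⟨c, rfl⟩ := η.surjective c
    show η c * η a = η a * η c
    rw [← map_mul, ← map_mul, Subgroup.mem_center_iff.1 ha c]
  · intro hb
    refine ⟨η.symm b, Subgroup.mem_center_iff.2 fun c => η.injective ?_, η.apply_symm_apply b⟩
    rw [map_mul, map_mul, η.apply_symm_apply]
    exact Subgroup.mem_center_iff.1 hb _

theorem oct_map {A B : Type v} [Group A] [Group B] (p : ℕ) (η : A ≃* B) :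
    (omegaCenterThompson p A).map η.toMonoidHom = omegaCenterThompson p B := by
  rw [omegaCenterThompson, omegaCenterThompson, omega_map, ← thompson_map p η]
  congr 1
  ext b
  constructor
  · rintro ⟨a, ⟨ha, hac⟩, rfl⟩
    refine ⟨⟨a, ha, rfl⟩, Subgroup.mem_centralizer_iff.2 ?_⟩
    rintro _ ⟨c, hc, rfl⟩
    rw [← map_mul, ← map_mul, Subgroup.mem_centralizer_iff.1 hac c hc]
  · rintro ⟨⟨a, ha, rfl⟩, hac⟩
    refine ⟨a, ⟨ha, Subgroup.mem_centralizer_iff.2 fun c hc => η.injective ?_⟩, rfl⟩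
    rw [map_mul, map_mul]
    exact Subgroup.mem_centralizer_iff.1 hac _ ⟨c, hc, rfl⟩

theorem snc_le {A B : Type v} [Group A] [Group B] (p : ℕ) (η : A ≃* B) :
    (stableNormalClosure p A).map η.toMonoidHom ≤ stableNormalClosure p B := by
  refine le_sInf fun W hW => Subgroup.map_le_iff_le_comap.2 (sInf_le ⟨?_, fun H _ τ hτ => ?_⟩)
  · rw [← Subgroup.map_le_iff_le_comap, omega_map, center_map]
    exact hW.1
  · obtain ⟨h1, h2, h3, h4, h5, h6⟩ := hτ
    have e : ∀ X : Subgroup A, (X.map η.toMonoidHom).map (τ.comp η.symm.toMonoidHom) = X.map τ := fun X => by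
      rw [Subgroup.map_map]
      congr 1
      ext a
      simp
    have hst : IsStableEmbedding p (τ.comp η.symm.toMonoidHom) := by
      refine ⟨h1.comp η.symm.injective, h2, ?_, h4, ?_, ?_⟩
      · obtain ⟨P, hP⟩ := h3
        refine ⟨P, ?_⟩
        rw [hP]
        ext x
        exact ⟨fun ⟨a, ha⟩ => ⟨η a, by simp [ha]⟩, fun ⟨b, hb⟩ => ⟨η.symm b, hb⟩⟩
      · rw [← thompson_map p η, e]
        exact h5
      · intro V _ hV
        rw [← oct_map p η, e] at hV
        exact h6 V hV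
    have h7 := hW.2 H _ hst
    rw [← Subgroup.map_comap_eq_self_of_surjective (f := η.toMonoidHom) η.surjective W, e] at h7
    exact h7

theorem omega_center_le (S : Type v) [Group S] [Finite S] (p : ℕ) :
    omegaOne p (Subgroup.center S) ≤ omegaCenterThompson p S := by
  refine Subgroup.closure_le _ |>.2 ?_
  rintro x ⟨hxc, hxp⟩
  refine Subgroup.subset_closure ⟨⟨?_, Subgroup.mem_centralizer_iff.2 fun c _ => Subgroup.mem_center_iff.1 hxc c⟩, hxp⟩
  have hbot : IsElementaryAbelian p (⊥ : Subgroup S) :=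
    ⟨inferInstance, fun a ha => by rw [Subgroup.mem_bot.1 ha, one_pow]⟩
  obtain ⟨A, hA, hmax⟩ := (Set.toFinite {A : Subgroup S | IsElementaryAbelian p A}).exists_maximalFor
    (fun A : Subgroup S => Nat.card A) _ ⟨⊥, hbot⟩
  have hA' : ∀ B : Subgroup S, IsElementaryAbelian p B → Nat.card B ≤ Nat.card A := fun B hB =>
    (le_total (Nat.card B) (Nat.card A)).elim id fun h => hmax hB h
  set B := Subgroup.closure ((A : Set S) ∪ {x}) with hBdef
  have hcomm : ∀ a ∈ (A : Set S) ∪ {x}, ∀ b ∈ (A : Set S) ∪ {x}, a * b = b * a := by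
    rintro a (ha | rfl) b (hb | rfl)
    · exact congrArg Subtype.val (hA.1.is_comm.comm (⟨a, ha⟩ : A) ⟨b, hb⟩)
    · exact Subgroup.mem_center_iff.1 hxc a
    · exact (Subgroup.mem_center_iff.1 hxc b).symm
    · rfl
  haveI hBc : IsMulCommutative B := Subgroup.isMulCommutative_closure hcomm
  have hB : IsElementaryAbelian p B := by
    refine ⟨hBc, fun b hb => ?_⟩
    refine Subgroup.closure_induction (p := fun b _ => b ^ p = 1) ?_ (one_pow p) ?_ ?_ hb
    · rintro b (hb | rfl)
      · exact hA.2 b hb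
      · exact hxp
    · intro a b ha hb ha' hb'
      have : Commute a b := congrArg Subtype.val (hBc.is_comm.comm ⟨a, ha⟩ ⟨b, hb⟩)
      rw [this.mul_pow, ha', hb', one_mul]
    · intro a _ ha
      rw [inv_pow, ha, inv_one]
  have hAB : A ≤ B := fun a ha => Subgroup.subset_closure (Or.inl ha)
  have hxA : x ∈ A := (Subgroup.eq_of_le_of_card_ge hAB (hA' B hB)).symm ▸ Subgroup.subset_closure (Or.inr rfl)
  have hJ : A ≤ thompsonSubgroup p S := le_sSup ⟨hA, hA'⟩
  exact hJ hxA

theorem oct_map_normal {S H : Type v} [Group S] [Group H] {p : ℕ} {τ : S →* H} (hinj : Function.Injective τ)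
    (hn : ((thompsonSubgroup p S).map τ).Normal) : ((omegaCenterThompson p S).map τ).Normal := by
  rw [omegaCenterThompson, omegaOne, MonoidHom.map_closure]
  refine ⟨fun z hz g => ?_⟩
  have : (Subgroup.closure (τ '' {x | x ∈ thompsonSubgroup p S ⊓ Subgroup.centralizer (thompsonSubgroup p S : Set S) ∧ x ^ p = 1})).map
      (MulAut.conj g).toMonoidHom ≤ Subgroup.closure (τ '' {x | x ∈ thompsonSubgroup p S ⊓ Subgroup.centralizer (thompsonSubgroup p S : Set S) ∧ x ^ p = 1}) := by
    rw [MonoidHom.map_closure]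
    refine (Subgroup.closure_le _).2 ?_
    rintro _ ⟨_, ⟨x, ⟨⟨hxJ, hxC⟩, hxp⟩, rfl⟩, rfl⟩
    obtain ⟨y, hy, hye⟩ := hn.conj_mem _ ⟨x, hxJ, rfl⟩ g
    refine Subgroup.subset_closure ⟨y, ⟨⟨hy, Subgroup.mem_centralizer_iff.2 fun c hc => hinj ?_⟩, hinj ?_⟩, hye⟩
    · obtain ⟨d, hd, hde⟩ := hn.conj_mem _ ⟨c, hc, rfl⟩ g⁻¹
      have hxd : τ d * τ x = τ x * τ d := by
        rw [← map_mul, ← map_mul, Subgroup.mem_centralizer_iff.1 hxC d hd]
      rw [inv_inv] at hde
      rw [map_mul, map_mul, hye, show τ c = g * τ d * g⁻¹ by rw [hde]; group]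
      calc g * τ d * g⁻¹ * (g * τ x * g⁻¹) = g * (τ d * τ x) * g⁻¹ := by group
        _ = g * (τ x * τ d) * g⁻¹ := by rw [hxd]
        _ = _ := by group
    · rw [map_pow, hye, map_one, conj_pow, ← map_pow, hxp, map_one, mul_one, mul_inv_cancel]
  exact this ⟨z, hz, rfl⟩

/-- Basic properties of the stable normal closure W(S) of Ω₁(Z(S)) in a finite p-group: characteristic, squeezed between Ω₁(Z(S)) and Ω₁(Z(J(S))), nontrivial for S ≠ 1, and transported by group isomorphisms. -/
theorem result {S : Type u} [Group S] [Finite S] {p : ℕ} [Fact p.Prime] (hS : IsPGroup p S) : (Cfsg.stableNormalClosure p S).Characteristic ∧ Cfsg.omegaOne p (Subgroup.center S) ≤ Cfsg.stableNormalClosure p S ∧ Cfsg.stableNormalClosure p S ≤ Cfsg.omegaCenterThompson p S ∧ (Nontrivial S → Cfsg.stableNormalClosure p S ≠ ⊥) ∧ ∀ (S' : Type u) [Group S'] (η : S ≃* S'), (Cfsg.stableNormalClosure p S).map η.toMonoidHom = Cfsg.stableNormalClosure p S' := by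
  have hchar : ∀ (S' : Type u) [Group S'] (η : S ≃* S'),
      (stableNormalClosure p S).map η.toMonoidHom = stableNormalClosure p S' := by
    intro S' _ η
    refine le_antisymm (snc_le p η) fun b hb => ⟨η.symm b, snc_le p η.symm ⟨b, hb, rfl⟩, η.apply_symm_apply b⟩
  have hlo : omegaOne p (Subgroup.center S) ≤ stableNormalClosure p S := le_sInf fun W hW => hW.1
  refine ⟨Subgroup.characteristic_iff_map_eq.2 fun η => hchar S η, hlo, ?_, fun hnt hbot => ?_, hchar⟩
  · refine sInf_le ⟨omega_center_le S p, fun H _ τ hτ => ?_⟩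
    exact oct_map_normal hτ.1 hτ.2.2.2.2.1
  · haveI := hS.center_nontrivial
    obtain ⟨j, hj, hc⟩ := (hS.to_subgroup (Subgroup.center S)).nontrivial_iff_card.1 inferInstance
    obtain ⟨z, hz⟩ := exists_prime_orderOf_dvd_card' p (G := Subgroup.center S) (by rw [hc]; exact dvd_pow_self p hj.ne')
    have h1 : (z : S) ∈ omegaOne p (Subgroup.center S) := Subgroup.subset_closure ⟨z.2, by
      rw [← SubgroupClass.coe_pow, ← hz, pow_orderOf_eq_one, OneMemClass.coe_one]⟩
    have h2 : (z : S) ∈ stableNormalClosure p S := hlo h1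
    rw [hbot, Subgroup.mem_bot] at h2
    rw [show z = 1 from Subtype.ext h2, orderOf_one] at hz
    exact (Fact.out : p.Prime).one_lt.ne hz

end Cfsg.Agent.S0622
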