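import Cfsg.Statements.S0674
import Mathlib
import Cfsg.Agent.Lib.PermGroup.PolyModule

set_option autoImplicit false
open Cfsg Cfsg.Lib.PermGroup.PolyModule

namespace Cfsg.Agent.S0674

/-- Let `G` be a non-solvable transitive permutation group of prime degree `p` and `K` a field of characteristic `p`. Then the heart of the permutation module is irreducible: an invariant subspace containing the constants and contained in the sum-zero functions is one or the other. -/
theorem result {α : Type*} [Fintype α] [DecidableEq α] {p : ℕ} [Fact p.Prime] (hα : Fintype.card α = p) (G : Subgroup (Equiv.Perm α)) [MulAction.IsPretransitive G α] (hG : ¬ Group.IsSolvable G) {K : Type*} [Field K] [CharP K p] (W : Subrepresentation (Cfsg.permRep K G α)) (h₁ : (Cfsg.permConstants K G α).toSubmodule ≤ W.toSubmodule) (h₂ : W.toSubmodule ≤ (Cfsg.permSumZero K G α).toSubmodule) : W = Cfsg.permConstants K G α ∨ W = Cfsg.permSumZero K G α := by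
  classical
  obtain ⟨e, c, hc⟩ := exists_coords hα G
  let T : (α → K) ≃ₗ[K] (ZMod p → K) := LinearEquiv.funCongrLeft K K e
  have hT : ∀ f j, T f j = f (e j) := fun f j => rfl
  let W' : Submodule K (ZMod p → K) := W.toSubmodule.map T.toLinearMap
  have hinv : ∀ (g : G), ∀ f ∈ W', (fun j => f (e.symm (((g⁻¹ : G) : Equiv.Perm α) (e j)))) ∈ W' := by
    rintro g _ ⟨v, hv, rfl⟩
    refine ⟨Cfsg.permRep K G α g v, W.apply_mem_toSubmodule g hv, funext fun j => ?_⟩
    change v ((g⁻¹ : G) • e j) = v (e (e.symm _))
    rw [Equiv.apply_symm_apply]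
    rfl
  obtain ⟨r, hrp, hfr, hWr⟩ := classify W' fun f hf => by
    convert hinv c f hf using 1
    funext j
    congr 1
    rw [eq_comm, Equiv.symm_apply_eq, InvMemClass.coe_inv, Equiv.Perm.inv_eq_iff_eq, hc, sub_add_cancel]
  have hext : ∀ V V' : Subrepresentation (Cfsg.permRep K G α), V.toSubmodule = V'.toSubmodule → V = V' := by
    intro V V' h; cases V; cases V'; cases h; rfl
  have hfW : Module.finrank K W.toSubmodule = r := by
    rw [← hfr]; exact (LinearEquiv.finrank_map_eq T _).symm
  have hC : Module.finrank K (Cfsg.permConstants K G α).toSubmodule = 1 := by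
    change Module.finrank K (Submodule.span K {fun _ : α => (1 : K)}) = 1
    refine finrank_span_singleton fun h => ?_
    obtain ⟨a⟩ : Nonempty α := Fintype.card_pos_iff.1 (by rw [hα]; exact (Fact.out : p.Prime).pos)
    exact one_ne_zero (congrFun h a)
  have hS : Module.finrank K (Cfsg.permSumZero K G α).toSubmodule + 1 = p := by
    obtain ⟨a⟩ : Nonempty α := Fintype.card_pos_iff.1 (by rw [hα]; exact (Fact.out : p.Prime).pos)
    let σ : (α → K) →ₗ[K] K := ∑ x, LinearMap.proj x
    have hσ : ∀ f, σ f = ∑ x, f x := fun f => by simp [σ]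
    have hker : (Cfsg.permSumZero K G α).toSubmodule = LinearMap.ker σ := by
      ext f; simp only [LinearMap.mem_ker, hσ]; rfl
    have hsurj : Function.Surjective σ := fun k => ⟨Pi.single a k, by simp [hσ]⟩
    rw [hker, ← hα, ← Module.finrank_fintype_fun_eq_card K, ← LinearMap.finrank_range_add_finrank_ker σ,
      LinearMap.range_eq_top.2 hsurj, finrank_top, Module.finrank_self, add_comm]
  have hr1 : 1 ≤ r := by rw [← hfW, ← hC]; exact Submodule.finrank_mono h₁
  have hr2 : r + 1 ≤ p := by rw [← hfW, ← hS]; exact Nat.add_le_add_right (Submodule.finrank_mono h₂) 1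
  by_cases hone : r = 1
  · exact Or.inl (hext _ _ (Submodule.eq_of_le_of_finrank_eq h₁ (by rw [hC, hfW, hone])).symm)
  by_cases hlast : r + 1 = p
  · exact Or.inr (hext _ _ (Submodule.eq_of_le_of_finrank_eq h₂ (by omega)))
  exfalso
  refine hG (isSolvable_of_affine e G fun g => ?_)
  let σg : G → Equiv.Perm (ZMod p) := fun g => e.symm.permCongr (g : Equiv.Perm α)
  have hσ : ∀ g j, σg g j = e.symm ((g : Equiv.Perm α) (e j)) := fun g j => rfl
  have hinv' : ∀ (g : G), ∀ f ∈ Pr p K r, (fun j => f (σg g j)) ∈ Pr p K r := by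
    intro g f hf
    rw [← hWr] at hf ⊢
    simpa [hσ] using hinv g⁻¹ f hf
  have hodd : p % 2 = 1 := (Fact.out : p.Prime).mod_two_eq_one_iff_ne_two.2 (by omega)
  by_cases hhalf : 2 * r < p
  · exact affine_of_invariant (K := K) (by omega) hhalf (σg g) (hinv' g)
  · refine affine_of_invariant (K := K) (s := p - r) (by omega) (by omega) (σg g)
      (invariant_compl (by omega) (by omega) (σg g) fun f hf => ?_)
    have : ∀ j, (σg g).symm j = σg g⁻¹ j := fun j => by
      rw [Equiv.symm_apply_eq, hσ, hσ, Equiv.apply_symm_apply, InvMemClass.coe_inv]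
      simp
    simpa [this] using hinv' g⁻¹ f hf

end Cfsg.Agent.S0674
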