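import Cfsg.Statements.S0266
import Mathlib

set_option autoImplicit false
open scoped MatrixGroups
open Cfsg
open scoped Matrix

namespace Cfsg.Agent.S0266

/-- PGL_2(F) is sharply 3-transitive on the projective line: it is 3-transitive and the stabiliser of three distinct points is trivial. -/
theorem result {F : Type*} [Field F] : MulAction.IsMultiplyPretransitive (Matrix.ProjGenLinGroup (Fin 2) F) (Projectivization F (Fin 2 → F)) 3 ∧ ∀ (g : Matrix.ProjGenLinGroup (Fin 2) F) (a b c : Projectivization F (Fin 2 → F)), a ≠ b → a ≠ c → b ≠ c → g • a = a → g • b = b → g • c = c → g = 1 := by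
  classical
  let K := Matrix.ProjGenLinGroup (Fin 2) F
  let P := Projectivization F (Fin 2 → F)
  let col : (Fin 2 → F) → (Fin 2 → F) → Matrix (Fin 2) (Fin 2) F := fun u v => !![u 0, v 0; u 1, v 1]
  have hdet : ∀ u v, u ≠ 0 → v ≠ 0 → ∀ (hu : u ≠ 0) (hv : v ≠ 0), Projectivization.mk F u hu ≠ Projectivization.mk F v hv → (col u v).det ≠ 0 := by
    intro u v hu hv _ _ hne h
    refine hne ((Projectivization.mk_eq_mk_iff' F u v hu hv).2 ?_)
    simp [col, Matrix.det_fin_two] at h
    by_cases h0 : v 0 = 0
    · have h1 : v 1 ≠ 0 := fun e => hv (funext fun i => by fin_cases i <;> simp [h0, e])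
      have hu0 : u 0 = 0 := by
        rw [h0] at h; simp at h; exact h.resolve_right h1
      exact ⟨u 1 / v 1, funext fun i => by fin_cases i <;> simp [h0, hu0, h1]⟩
    · exact ⟨u 0 / v 0, funext fun i => by
        fin_cases i
        · simp [h0]
        · simp; field_simp; linear_combination h⟩
  -- a group element moving the standard frame to a given one
  have key : ∀ a b c : P, a ≠ b → a ≠ c → b ≠ c → ∃ g : K,
      g • Projectivization.mk F (![1, 0] : Fin 2 → F) (by simp) = a ∧
      g • Projectivization.mk F (![0, 1] : Fin 2 → F) (by simp) = b ∧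
      g • Projectivization.mk F (![1, 1] : Fin 2 → F) (by simp) = c := by
    intro a b c hab hac hbc
    induction a using Projectivization.ind with | _ u hu => ?_
    induction b using Projectivization.ind with | _ v hv => ?_
    induction c using Projectivization.ind with | _ w hw => ?_
    have hd := hdet u v hu hv hu hv hab
    have hdw1 := hdet u w hu hw hu hw hac
    have hdw2 := hdet w v hw hv hw hv hbc.symm
    set al := (col w v).det / (col u v).det with hal
    set be := (col u w).det / (col u v).det with hbe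
    have hw' : al • u + be • v = w := by
      funext i
      simp only [hal, hbe, Pi.add_apply, Pi.smul_apply, smul_eq_mul]
      field_simp
      fin_cases i <;> simp [col, Matrix.det_fin_two] <;> ring
    have hM : (col (al • u) (be • v)).det ≠ 0 := by
      have : (col (al • u) (be • v)).det = al * be * (col u v).det := by
        simp [col, Matrix.det_fin_two]; ring
      rw [this]
      exact mul_ne_zero (mul_ne_zero (div_ne_zero hdw2 hd) (div_ne_zero hdw1 hd)) hd
    let g := Matrix.GeneralLinearGroup.mkOfDetNeZero (col (al • u) (be • v)) hM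
    refine ⟨Matrix.ProjGenLinGroup.mk g, ?_, ?_, ?_⟩
    all_goals
      rw [Projectivization.PGL.mk_smul_mk, Projectivization.mk_eq_mk_iff']
    · refine ⟨al, ?_⟩
      funext i
      fin_cases i <;> simp [g, col, Matrix.GeneralLinearGroup.mkOfDetNeZero, Units.smul_def]
    · refine ⟨be, ?_⟩
      funext i
      fin_cases i <;> simp [g, col, Matrix.GeneralLinearGroup.mkOfDetNeZero, Units.smul_def]
    · refine ⟨1, ?_⟩
      rw [one_smul]
      funext i
      have := congrFun hw' i
      fin_cases i <;> simp [g, col, Matrix.GeneralLinearGroup.mkOfDetNeZero, Units.smul_def] at this ⊢ <;> exact this.symm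
  constructor
  · refine ⟨fun x y => ?_⟩
    have hx := key (x 0) (x 1) (x 2) (x.injective.ne (by decide)) (x.injective.ne (by decide)) (x.injective.ne (by decide))
    have hy := key (y 0) (y 1) (y 2) (y.injective.ne (by decide)) (y.injective.ne (by decide)) (y.injective.ne (by decide))
    obtain ⟨g, g0, g1, g2⟩ := hx
    obtain ⟨h, h0, h1, h2⟩ := hy
    refine ⟨h * g⁻¹, DFunLike.ext _ _ fun i => ?_⟩
    change (h * g⁻¹) • x i = y i
    fin_cases i
    · rw [mul_smul]; simp only [Fin.zero_eta]; rw [← g0, inv_smul_smul, h0]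
    · rw [mul_smul]; simp only [Fin.mk_one]; rw [← g1, inv_smul_smul, h1]
    · rw [mul_smul]; change h • g⁻¹ • x 2 = y 2; rw [← g2, inv_smul_smul, h2]
  · intro g a b c hab hac hbc ga gb gc
    obtain ⟨h, h0, h1, h2⟩ := key a b c hab hac hbc
    suffices h⁻¹ * g * h = 1 by simpa [mul_assoc, inv_mul_eq_iff_eq_mul] using this
    have e : ∀ p : P, ∀ q, h • q = p → g • p = p → (h⁻¹ * g * h) • q = q := fun p q hq hp => by
      rw [mul_smul, mul_smul, hq, hp, ← hq, inv_smul_smul]
    have e0 := e _ _ h0 ga
    have e1 := e _ _ h1 gb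
    have e2 := e _ _ h2 gc
    obtain ⟨k, hk⟩ := Matrix.ProjGenLinGroup.mk_surjective (h⁻¹ * g * h)
    rw [← hk] at e0 e1 e2 ⊢
    rw [Projectivization.PGL.mk_smul_mk, Projectivization.mk_eq_mk_iff'] at e0 e1 e2
    obtain ⟨c0, e0⟩ := e0
    obtain ⟨c1, e1⟩ := e1
    obtain ⟨c2, e2⟩ := e2
    set M := (k : Matrix (Fin 2) (Fin 2) F)
    have a0 := congrFun e0 0
    have a1 := congrFun e0 1
    have b0 := congrFun e1 0
    have b1 := congrFun e1 1
    have d0 := congrFun e2 0
    have d1 := congrFun e2 1
    simp [Units.smul_def, Fin.sum_univ_two] at a0 a1 b0 b1 d0 d1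
    rw [Matrix.ProjGenLinGroup.mk_eq_one, Matrix.GeneralLinearGroup.center_eq_range_scalar]
    have hc0 : c0 ≠ 0 := fun e => by
      have hdk : (k : Matrix (Fin 2) (Fin 2) F).det ≠ 0 := by rw [← Matrix.GeneralLinearGroup.val_det_apply]; exact Units.ne_zero _
      rw [Matrix.det_fin_two, ← a0, ← a1, e] at hdk
      simp at hdk
    refine ⟨Units.mk0 c0 hc0, Units.ext (Matrix.ext fun i j => ?_)⟩
    have h01 : c0 = c1 := by
      rw [← a0, ← b0] at d0
      rw [← a1, ← b1] at d1
      linear_combination d1 - d0
    fin_cases i <;> fin_cases j <;> simp [M] at a0 a1 b0 b1 ⊢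
    · exact a0
    · exact b0
    · exact a1
    · rw [h01]; exact b1

end Cfsg.Agent.S0266
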