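import Cfsg.Statements.S5029
import Cfsg.Agent.Lib.RootSub.Commutator

set_option autoImplicit false
open Cfsg

namespace Cfsg.Agent.S5029

open Cfsg.Lib.RootSub.RankOneLead Cfsg.Lib.RootSub.Commutator
open scoped commutatorElement

/-- Let S be a set of abstract root subgroups of G, A ∈ S having a rank one partner in S, and B ∈ S with C = ⁅A, B⁆ ∈ S. Then the members of S contained in AC are the conjugates of A by elements of B together with C, they partition AC, the members of S inside AC partition AC so that A is a line partner of C, and for every non-identity a ∈ A the map b ↦ a⁻¹ b⁻¹ a b is an isomorphism from B onto C. -/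
theorem result {G : Type*} [Group G] {S : Set (Subgroup G)} (hS : Cfsg.IsRootSubgroupSet S)
    {A B : Subgroup G} (hA : ¬ Cfsg.IsIsolatedIn (Cfsg.FAdj S) S A) (hAS : A ∈ S) (hB : B ∈ S) (hC : ⁅A, B⁆ ∈ S) :
    Cfsg.membersIn S (A ⊔ ⁅A, B⁆) = (fun b : G => Cfsg.conjBy A b) '' (B : Set G) ∪ {⁅A, B⁆} ∧
    Cfsg.IsSubgroupPartition (A ⊔ ⁅A, B⁆) (Cfsg.membersIn S (A ⊔ ⁅A, B⁆)) ∧
    A ∈ Cfsg.linePartners S ⁅A, B⁆ ∧
    ∀ a ∈ A, a ≠ 1 → ∃ φ : ↥B ≃* ↥⁅A, B⁆, ∀ b : ↥B, (φ b : G) = a⁻¹ * (b : G)⁻¹ * a * b := by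
  obtain ⟨A', hA', h⟩ : ∃ A' ∈ S, IsRankOnePair A A' := by
    by_contra hno
    exact hA ⟨hAS, fun X => ⟨fun h => hno ⟨X, h.2.1, h.2.2⟩, fun h => hno ⟨X, h.1, RankOnePair_symm h.2.2⟩⟩⟩
  have hc := comm_case hS hAS hB hC
  set C := ⁅A, B⁆ with hCdef
  have hAC : ∀ x ∈ A, ∀ y ∈ C, x * y = y * x := fun x hx y hy => (hc.2.1 y hy x (Subgroup.mem_sup_left hx)).symm
  have hsplit : ∀ x ∈ A ⊔ C, ∃ a ∈ A, ∃ c ∈ C, x = a * c := by
    intro x hx
    rw [Subgroup.sup_eq_closure] at hx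
    induction hx using Subgroup.closure_induction with
    | mem y hy =>
      rcases hy with hy | hy
      · exact ⟨y, hy, 1, one_mem _, (mul_one y).symm⟩
      · exact ⟨1, one_mem _, y, hy, (one_mul y).symm⟩
    | one => exact ⟨1, one_mem _, 1, one_mem _, (one_mul 1).symm⟩
    | mul y z _ _ hy hz =>
      obtain ⟨a, ha, c, hc1, rfl⟩ := hy
      obtain ⟨a', ha', c', hc', rfl⟩ := hz
      refine ⟨a * a', mul_mem ha ha', c * c', mul_mem hc1 hc', ?_⟩
      rw [mul_assoc, ← mul_assoc c, ← hAC a' ha' c hc1, mul_assoc a', ← mul_assoc]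
    | inv y _ hy =>
      obtain ⟨a, ha, c, hc1, rfl⟩ := hy
      exact ⟨a⁻¹, inv_mem ha, c⁻¹, inv_mem hc1, by rw [hAC a ha c hc1, mul_inv_rev]⟩
  have hconj : ∀ b ∈ B, conjBy A b ≤ A ⊔ C := by
    rintro b hb _ ⟨a, ha, rfl⟩
    show b * a * b⁻¹ ∈ A ⊔ C
    have h1 : ⁅b, a⁆ ∈ C := by
      rw [hCdef, Subgroup.commutator_comm]; exact Subgroup.commutator_mem_commutator hb ha
    have := mul_mem (Subgroup.mem_sup_right (S := A) h1) (Subgroup.mem_sup_left (T := C) ha)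
    simpa [commutatorElement_def] using this
  have hcover : ∀ x ∈ A ⊔ C, x ≠ 1 → x ∈ C ∨ ∃ b ∈ B, x ∈ conjBy A b := by
    intro x hx hx1
    obtain ⟨a, ha, c, hc1, rfl⟩ := hsplit x hx
    by_cases ha1 : a = 1
    · left; rw [ha1, one_mul]; exact hc1
    right
    obtain ⟨b, hb⟩ := chom_surjective hc ha ha1 ⟨c, hc1⟩
    have e1 := congrArg Subtype.val (map_inv (chom hc ha) b)
    rw [hb] at e1
    refine ⟨(b : G)⁻¹, inv_mem b.2, a, ha, ?_⟩
    show (b : G)⁻¹ * a * (b : G)⁻¹⁻¹ = a * c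
    have e2 : a * (b : G)⁻¹ * a⁻¹ * (b : G)⁻¹⁻¹ = c⁻¹ := by simpa [chom] using e1
    calc (b : G)⁻¹ * a * (b : G)⁻¹⁻¹ = (a * (b : G)⁻¹ * a⁻¹ * (b : G)⁻¹⁻¹)⁻¹ * a := by group
      _ = c * a := by rw [e2, inv_inv]
      _ = a * c := (hAC a ha c hc1).symm
  have hCmem : C ∈ membersIn S (A ⊔ C) := ⟨hC, le_sup_right⟩
  have hmem : membersIn S (A ⊔ C) = (fun b : G => conjBy A b) '' (B : Set G) ∪ {C} := by
    ext E
    constructor
    · rintro ⟨hE, hle⟩
      by_cases hEC : E ≤ C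
      · exact Or.inr (eq_of_le hS hAS hA' hB h hc hE hEC)
      · left
        obtain ⟨x, hx, hxC⟩ := SetLike.not_le_iff_exists.1 hEC
        have hx1 : x ≠ 1 := fun e => hxC (e ▸ one_mem C)
        obtain ⟨b, hb, hxb⟩ := (hcover x (hle hx) hx1).resolve_left hxC
        refine ⟨b, hb, ?_⟩
        rcases inf_eq_bot_or_eq hS (hS.conj_mem A hAS b) (hS.conj_mem A' hA' b) hE (map_conj h b) with e | e
        · exact absurd (Subgroup.mem_bot.1 (e ▸ (⟨hxb, hx⟩ : x ∈ conjBy A b ⊓ E))) hx1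
        · exact e
    · rintro (⟨b, hb, rfl⟩ | rfl)
      · exact ⟨hS.conj_mem A hAS b, hconj b hb⟩
      · exact hCmem
  have hpart : IsSubgroupPartition (A ⊔ C) (membersIn S (A ⊔ C)) := by
    refine ⟨fun E hE => hE.2, fun x hx hx1 => ?_, fun E hE D hD hne => ?_⟩
    · rcases hcover x hx hx1 with h1 | ⟨b, hb, h1⟩
      · exact ⟨C, hCmem, h1⟩
      · exact ⟨_, ⟨hS.conj_mem A hAS b, hconj b hb⟩, h1⟩
    · rw [hmem] at hE hD
      rcases hE with ⟨b, hb, rfl⟩ | rfl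
      · have hDS : D ∈ S := by
          rcases hD with ⟨b', -, rfl⟩ | rfl
          exacts [hS.conj_mem A hAS b', hC]
        exact (inf_eq_bot_or_eq hS (hS.conj_mem A hAS b) (hS.conj_mem A' hA' b) hDS (map_conj h b)).resolve_right hne
      · rcases hD with ⟨b', hb', rfl⟩ | rfl
        · rw [inf_comm]
          exact (inf_eq_bot_or_eq hS (hS.conj_mem A hAS b') (hS.conj_mem A' hA' b') hC (map_conj h b')).resolve_right
            (fun e => hne e.symm)
        · exact absurd rfl hne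
  refine ⟨hmem, hpart, ⟨⟨hAS, (ne_comm hS hc).symm, bot_of_commute fun c hc1 a ha => (hAC a ha c hc1).symm⟩, ?_⟩,
    fun a ha ha1 => ?_⟩
  · rw [sup_comm]; exact hpart
  · haveI := hS.commutative B hB
    let φ : ↥B →* ↥C := (chom hc (inv_mem ha)).comp
      { toFun := fun b => b⁻¹
        map_one' := inv_one
        map_mul' := fun x y => by rw [mul_inv_rev, mul_comm'] }
    have hinj : Function.Injective φ := fun x y e => by
      have := chom_injective hS hAS hA' h hc (inv_mem ha) (inv_ne_one.2 ha1) e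
      exact inv_injective this
    have hsurj : Function.Surjective φ := fun c => by
      obtain ⟨b, hb⟩ := chom_surjective hc (inv_mem ha) (inv_ne_one.2 ha1) c
      exact ⟨b⁻¹, by simp only [φ, MonoidHom.comp_apply]; show chom hc _ b⁻¹⁻¹ = c; rw [inv_inv, hb]⟩
    refine ⟨MulEquiv.ofBijective φ ⟨hinj, hsurj⟩, fun b => ?_⟩
    show a⁻¹ * ((b⁻¹ : B) : G) * a⁻¹⁻¹ * ((b⁻¹ : B) : G)⁻¹ = _
    simp [mul_assoc]

end Cfsg.Agent.S5029
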