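import Cfsg.Statements.S0634
import Mathlib
import Cfsg.Agent.Lib.PLocal.Constraint
-- import your own Cfsg.Agent.* helpers here

set_option autoImplicit false
open Cfsg

namespace Cfsg.Agent.S0634

/-- In a p-soluble group each p-factor of the upper p-series contains its own centralizer in the corresponding quotient. -/
theorem result {G : Type*} [Group G] [Finite G] {p : ℕ} [Fact p.Prime] (hsol : Cfsg.IsPSolvable p G) (k : ℕ) : Subgroup.centralizer ((((Cfsg.upperPSeries p G (2 * k + 2)).1.map (QuotientGroup.mk' (Cfsg.upperPSeries p G (2 * k + 1)).1)) : Subgroup (G ⧸ (Cfsg.upperPSeries p G (2 * k + 1)).1)) : Set (G ⧸ (Cfsg.upperPSeries p G (2 * k + 1)).1)) ≤ (Cfsg.upperPSeries p G (2 * k + 2)).1.map (QuotientGroup.mk' (Cfsg.upperPSeries p G (2 * k + 1)).1) := by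
  obtain ⟨n, rfl⟩ : ∃ n, n = k := ⟨k, rfl⟩
  set X := (Cfsg.upperPSeries p G (2 * n + 1)).1 with hX
  haveI : X.Normal := (Cfsg.upperPSeries p G (2 * n + 1)).2
  set X0 := (Cfsg.upperPSeries p G (2 * n)).1 with hX0
  haveI : X0.Normal := (Cfsg.upperPSeries p G (2 * n)).2
  have h1 : X = (Cfsg.pPrimeCore p (G ⧸ X0)).comap (QuotientGroup.mk' X0) := by
    rw [hX, Cfsg.upperPSeries]
    simp only [show Even (2 * n) from even_two_mul n, if_true]
    rfl
  have h2 : (Cfsg.upperPSeries p G (2 * n + 2)).1 = (Cfsg.pCore p (G ⧸ X)).comap (QuotientGroup.mk' X) := by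
    rw [show 2 * n + 2 = (2 * n + 1) + 1 from rfl, Cfsg.upperPSeries]
    simp only [show ¬ Even (2 * n + 1) from Nat.not_even_two_mul_add_one n, if_false]
    rfl
  rw [h2, Subgroup.map_comap_eq_self_of_surjective (QuotientGroup.mk'_surjective X)]
  refine Lib.PLocal.selfCentralizingCore_of_pSolvable (Lib.PLocal.IsPSolvable.of_surjective _ (QuotientGroup.mk'_surjective X) hsol) ?_
  haveI := Lib.Transfer.pPrimeCore_normal (G := G ⧸ X) p
  haveI := Lib.Transfer.pPrimeCore_normal (G := G ⧸ X0) p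
  set K := (Cfsg.pPrimeCore p (G ⧸ X)).comap (QuotientGroup.mk' X) with hK
  have hXK : X ≤ K := fun x hx => by
    rw [hK, Subgroup.mem_comap, QuotientGroup.mk'_apply, (QuotientGroup.eq_one_iff x).2 hx]
    exact one_mem _
  have hX0X : X0 ≤ X := fun x hx => by
    rw [h1, Subgroup.mem_comap, QuotientGroup.mk'_apply, (QuotientGroup.eq_one_iff x).2 hx]
    exact one_mem _
  have hc : ∀ (Y : Subgroup G) [Y.Normal] (M : Subgroup (G ⧸ Y)),
      Y.relIndex (M.comap (QuotientGroup.mk' Y)) = Nat.card M := by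
    intro Y _ M
    have := Subgroup.relIndex_ker (M.comap (QuotientGroup.mk' Y)) (QuotientGroup.mk' Y)
    rwa [QuotientGroup.ker_mk', Subgroup.map_comap_eq_self_of_surjective (QuotientGroup.mk'_surjective Y)] at this
  have hle : K.map (QuotientGroup.mk' X0) ≤ Cfsg.pPrimeCore p (G ⧸ X0) := by
    refine Lib.Transfer.le_pPrimeCore (Subgroup.Normal.map inferInstance _ (QuotientGroup.mk'_surjective X0)) ?_
    have := Subgroup.relIndex_ker K (QuotientGroup.mk' X0)
    rw [QuotientGroup.ker_mk'] at this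
    rw [← this, ← Subgroup.relIndex_mul_relIndex X0 X K hX0X hXK]
    refine Nat.Coprime.mul_left ?_ ?_
    · rw [h1, hc]; exact Lib.Transfer.coprime_card_pPrimeCore p
    · rw [hK, hc]; exact Lib.Transfer.coprime_card_pPrimeCore p
  rw [Subgroup.map_le_iff_le_comap, ← h1] at hle
  rw [eq_bot_iff]
  intro y hy
  obtain ⟨x, rfl⟩ := QuotientGroup.mk'_surjective X y
  exact Subgroup.mem_bot.2 ((QuotientGroup.eq_one_iff x).2 (hle hy))

end Cfsg.Agent.S0634
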