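import Cfsg.Statements.S1226
import Mathlib
-- import your own Cfsg.Agent.* helpers here

set_option autoImplicit false
open Cfsg

namespace Cfsg.Agent.S1226

/-- Let G be a finite group with a Sylow 2-subgroup T that is neither cyclic nor normal, such that the centralizer of every involution is an elementary abelian 2-group. Then N_G(T) is a strongly embedded subgroup of G. -/
theorem result {G : Type*} [Group G] [Finite G] (T : Sylow 2 G) (hnc : ¬ IsCyclic (T : Subgroup G)) (hnn : ¬ (T : Subgroup G).Normal) (hC : ∀ t : G, orderOf t = 2 → IsMulCommutative (Subgroup.centralizer ({t} : Set G)) ∧ ∀ c ∈ Subgroup.centralizer ({t} : Set G), c ^ 2 = 1) : Cfsg.IsStronglyEmbedded (Subgroup.normalizer ((T : Subgroup G) : Set G)) := by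
  have : Fact (Nat.Prime 2) := ⟨Nat.prime_two⟩
  have hTne : Nontrivial ↥(T : Subgroup G) := by
    by_contra h
    rw [not_nontrivial_iff_subsingleton] at h
    exact hnc isCyclic_of_subsingleton
  haveI := T.isPGroup'.center_nontrivial
  obtain ⟨u, hu⟩ := exists_prime_orderOf_dvd_card' (G := Subgroup.center ↥(T : Subgroup G)) 2
    ((T.isPGroup'.to_subgroup (Subgroup.center _)).card_eq_or_dvd.resolve_left Finite.one_lt_card.ne')
  set z : G := ((u : ↥(T : Subgroup G)) : G) with hzdef
  have hz : orderOf z = 2 := by rw [hzdef, Subgroup.orderOf_coe, Subgroup.orderOf_coe]; exact hu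
  have hzT : z ∈ (T : Subgroup G) := (u : ↥(T : Subgroup G)).2
  have hTz : (T : Subgroup G) ≤ Subgroup.centralizer ({z} : Set G) := fun y hy =>
    Subgroup.mem_centralizer_singleton_iff.2 (congrArg Subtype.val (Subgroup.mem_center_iff.1 u.2 ⟨y, hy⟩))
  have h2grp : ∀ t : G, orderOf t = 2 → IsPGroup 2 ↥(Subgroup.centralizer ({t} : Set G)) := fun t ht c =>
    ⟨1, by rw [pow_one]; exact Subtype.ext ((hC t ht).2 c c.2)⟩
  have hTeq : (T : Subgroup G) = Subgroup.centralizer ({z} : Set G) :=
    (T.is_maximal' (h2grp z hz) hTz).symm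
  have hTsq : ∀ t ∈ (T : Subgroup G), t ^ 2 = 1 := fun t ht => (hC z hz).2 t (hTz ht)
  have hcentT : ∀ t ∈ (T : Subgroup G), t ≠ 1 → Subgroup.centralizer ({t} : Set G) = T := by
    intro t ht h1
    have hto : orderOf t = 2 := orderOf_eq_prime (hTsq t ht) h1
    have hle : (T : Subgroup G) ≤ Subgroup.centralizer ({t} : Set G) := fun y hy =>
      Subgroup.mem_centralizer_singleton_iff.2 (congrArg Subtype.val
        ((hC z hz).1.is_comm.comm ⟨y, hTz hy⟩ ⟨t, hTz ht⟩))
    exact T.is_maximal' (h2grp t hto) hle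
  set N := Subgroup.normalizer ((T : Subgroup G) : Set G) with hN
  have hTN : (T : Subgroup G) ≤ N := Subgroup.le_normalizer
  have hinN : ∀ s ∈ N, orderOf s = 2 → s ∈ (T : Subgroup G) := by
    intro s hs ho
    have hp : IsPGroup 2 ↥((T : Subgroup G) ⊔ Subgroup.zpowers s) :=
      IsPGroup.to_sup_of_normal_left' T.isPGroup'
        (IsPGroup.of_card (n := 1) (by rw [Nat.card_zpowers, ho, pow_one])) (Subgroup.zpowers_le.2 hs)
    rw [← T.is_maximal' hp le_sup_left]
    exact Subgroup.mem_sup_right (Subgroup.mem_zpowers s)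
  refine ⟨fun h => hnn (Subgroup.normalizer_eq_top_iff.1 h), even_iff_two_dvd.2 ?_, fun g hg => ?_⟩
  · rw [← hz]
    exact Subgroup.orderOf_dvd_natCard N (hTN hzT)
  by_contra hodd
  obtain ⟨⟨s, hs⟩, hso⟩ := exists_prime_orderOf_dvd_card' 2
    (even_iff_two_dvd.1 (Nat.not_odd_iff_even.1 hodd))
  rw [← Subgroup.orderOf_coe] at hso
  change orderOf s = 2 at hso
  obtain ⟨hs1, r, hr, hrs⟩ := Subgroup.mem_inf.1 hs
  change g * r * g⁻¹ = s at hrs
  have hro : orderOf r = 2 := by
    rw [← hso, ← hrs]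
    exact (MulEquiv.orderOf_eq (MulAut.conj g) r).symm
  have hrT := hinN r hr hro
  have hsT := hinN s hs1 hso
  have hr1 : r ≠ 1 := fun h => by rw [h, orderOf_one] at hro; omega
  have hs1' : s ≠ 1 := fun h => by rw [h, orderOf_one] at hso; omega
  refine hg ?_
  refine Subgroup.mem_normalizer_iff.2 fun y => ?_
  rw [← hcentT r hrT hr1, Subgroup.mem_centralizer_singleton_iff]
  conv_rhs => rw [hcentT r hrT hr1, ← hcentT s hsT hs1', Subgroup.mem_centralizer_singleton_iff, ← hrs]
  constructor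
  · intro h
    calc g * y * g⁻¹ * (g * r * g⁻¹) = g * (y * r) * g⁻¹ := by group
      _ = g * r * g⁻¹ * (g * y * g⁻¹) := by rw [h]; group
  · intro h
    calc y * r = g⁻¹ * (g * y * g⁻¹ * (g * r * g⁻¹)) * g := by group
      _ = r * y := by rw [h]; group

end Cfsg.Agent.S1226
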