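import Cfsg.Statements.S0001
import Mathlib
import Cfsg.Agent.Lib.Solv.SchurZassenhaus
-- import your own Cfsg.Agent.* helpers here

set_option autoImplicit false
open Pointwise
open Cfsg

namespace Cfsg.Agent.S0001

/-- Conjugacy half of the Schur–Zassenhaus Theorem, under a solvability assumption on the normal Hall subgroup or on its quotient. -/
theorem result {G : Type*} [Group G] [Finite G] (N : Subgroup G) [N.Normal]
    (hN : (Nat.card N).Coprime N.index) (hsolv : Group.IsSolvable N ∨ Group.IsSolvable (G ⧸ N))
    (H K : Subgroup G) (hH : Subgroup.IsComplement' N H) (hK : Subgroup.IsComplement' N K) :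
    ∃ g : G, MulAut.conj g • H = K := by
  have hH' : Nat.card H = N.index := hH.symm.index_eq_card.symm
  have hK' : Nat.card K = N.index := hK.symm.index_eq_card.symm
  have hsol : Group.IsSolvable N ∨ Group.IsSolvable H := by
    refine hsolv.imp id fun hs => ?_
    have := hs
    refine Group.isSolvable_of_isSolvable_injective (f := (QuotientGroup.mk' N).comp H.subtype) ?_
    intro a b hab
    have hmem : (a : G)⁻¹ * b ∈ N ⊓ H := ⟨QuotientGroup.eq.1 hab, H.mul_mem (H.inv_mem a.2) b.2⟩
    rw [hH.disjoint.eq_bot, Subgroup.mem_bot] at hmem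
    exact Subtype.ext (inv_mul_eq_one.1 hmem)
  obtain ⟨n, -, hn⟩ := Cfsg.Lib.Solv.sz_conj N hN H K hsol hH' hK'
  exact ⟨n, hn⟩

end Cfsg.Agent.S0001
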