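import Cfsg.Statements.S0005
import Mathlib
import Cfsg.Agent.Lib.Solv.Hall
-- import your own Cfsg.Agent.* helpers here

set_option autoImplicit false
open Cfsg

namespace Cfsg.Agent.S0005

/-- Hall's Theorem, containment: in a finite solvable group of order m * n with m and n coprime, every subgroup of order coprime to n is contained in a subgroup of order m. -/
theorem result {G : Type*} [Group G] [Finite G] [Group.IsSolvable G] (m n : ℕ)
    (hG : Nat.card G = m * n) (hmn : m.Coprime n) (K : Subgroup G) (hK : (Nat.card K).Coprime n) :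
    ∃ H : Subgroup G, Nat.card H = m ∧ K ≤ H := by
  obtain ⟨H, hH⟩ := Cfsg.Lib.Solv.hall_card_exists hG hmn
  have hKπ : ∀ p : ℕ, p.Prime → p ∣ Nat.card K → p ∈ {p : ℕ | p ∣ m} := fun p hp hd => by
    rcases hp.dvd_mul.1 (hG ▸ hd.trans (Subgroup.card_subgroup_dvd_card K)) with h | h
    · exact h
    · exact absurd (Nat.eq_one_of_dvd_coprimes hK hd h) hp.ne_one
  obtain ⟨g, hg⟩ := Cfsg.Lib.Solv.hall_le_conj (Cfsg.Lib.Solv.isPiHall_of_card hG hmn hH) hKπ
  exact ⟨_, (Cfsg.Lib.Solv.card_conj_smul g H).trans hH, hg⟩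

end Cfsg.Agent.S0005
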