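import Cfsg.Statements.S0007
import Mathlib
import Cfsg.Agent.Lib.Solv.MinNormal
-- import your own Cfsg.Agent.* helpers here

set_option autoImplicit false
open Cfsg

namespace Cfsg.Agent.S0007

/-- Subgroups of coprime index: the intersection has index equal to the product of the indices, and every element is a product of an element of the first subgroup and an element of the second. -/
theorem result {G : Type*} [Group G] [Finite G] (H K : Subgroup G)
    (h : H.index.Coprime K.index) :
    (H ⊓ K).index = H.index * K.index ∧ ∀ g : G, ∃ x ∈ H, ∃ y ∈ K, g = x * y := by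
  have hi : (H ⊓ K).index = H.index * K.index := by
    apply le_antisymm H.index_inf_le
    exact Nat.le_of_dvd (Nat.pos_of_ne_zero Subgroup.index_ne_zero_of_finite)
      (h.mul_dvd_of_dvd_of_dvd (Subgroup.index_dvd_of_le inf_le_left) (Subgroup.index_dvd_of_le inf_le_right))
  refine ⟨hi, fun g => ?_⟩
  have hK : H.relIndex K = H.index := by
    have h2 := Subgroup.relIndex_mul_index (inf_le_right : H ⊓ K ≤ K)
    rw [hi, Subgroup.inf_relIndex_right] at h2
    exact Nat.eq_of_mul_eq_mul_right (Nat.pos_of_ne_zero Subgroup.index_ne_zero_of_finite) h2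
  have hsurj : Function.Surjective (Subgroup.quotientSubgroupOfEmbeddingOfLE H (le_top : K ≤ ⊤)) := by
    refine ((Function.Embedding.injective _).bijective_of_nat_card_le ?_).surjective
    rw [← Subgroup.index_eq_card, ← Subgroup.index_eq_card]
    exact (le_of_eq (by rw [← Subgroup.relIndex, ← Subgroup.relIndex, hK, Subgroup.relIndex_top_right]))
  obtain ⟨c, hc⟩ := hsurj (QuotientGroup.mk ⟨g⁻¹, Subgroup.mem_top _⟩)
  obtain ⟨k, rfl⟩ := QuotientGroup.mk_surjective c
  rw [Subgroup.quotientSubgroupOfEmbeddingOfLE_apply_mk, QuotientGroup.eq] at hc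
  have hc' : (k : G)⁻¹ * g⁻¹ ∈ H := hc
  refine ⟨((k : G)⁻¹ * g⁻¹)⁻¹, H.inv_mem hc', (k : G)⁻¹, K.inv_mem k.2, ?_⟩
  group

end Cfsg.Agent.S0007
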