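import Cfsg.Statements.S0011
import Mathlib
import Cfsg.Agent.Lib.Solv.MinNormal
-- import your own Cfsg.Agent.* helpers here

set_option autoImplicit false
open Cfsg

namespace Cfsg.Agent.S0011

/-- If the Frattini quotient of a finite group is nilpotent then the group is nilpotent. -/
theorem result {G : Type*} [Group G] [Finite G]
    (h : Group.IsNilpotent (G ⧸ frattini G)) : Group.IsNilpotent G := by
  have h1 : ∀ (p : ℕ) (_hp : Fact p.Prime) (P : Sylow p G), (P : Subgroup G).Normal := by
    intro p hp P
    haveI := h
    have hQ : (P.mapSurjective (QuotientGroup.mk'_surjective (frattini G)) : Subgroup (G ⧸ frattini G)).Normal :=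
      Sylow.normal_of_normalizerCondition Group.normalizerCondition_of_isNilpotent _
    have hN : ((P : Subgroup G) ⊔ frattini G).Normal := by
      rw [Sylow.coe_mapSurjective] at hQ
      have := hQ.comap (QuotientGroup.mk' (frattini G))
      rwa [Subgroup.comap_map_eq, QuotientGroup.ker_mk'] at this
    have hs := Sylow.normalizer_sup_eq_top' (N := (P : Subgroup G) ⊔ frattini G) P le_sup_left
    have htop : Subgroup.normalizer ((P : Subgroup G) : Set G) = ⊤ := by
      apply frattini_nongenerating
      apply le_antisymm le_top
      refine hs.ge.trans (sup_le le_sup_left (sup_le ?_ le_sup_right))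
      exact Subgroup.le_normalizer.trans le_sup_left
    exact Subgroup.normalizer_eq_top_iff.1 htop
  exact ((Group.isNilpotent_of_finite_tfae (G := G)).out 0 3 rfl rfl).2 h1

end Cfsg.Agent.S0011
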