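import Cfsg.Statements.S0012
import Mathlib
import Cfsg.Agent.Lib.Solv.PGroupBasic
-- import your own Cfsg.Agent.* helpers here

set_option autoImplicit false
open Cfsg

namespace Cfsg.Agent.S0012

/-- In a finite p-group every commutator and every p-th power lies in the Frattini subgroup, so the Frattini quotient is elementary abelian. -/
theorem result {G : Type*} [Group G] [Finite G] (p : ℕ) [Fact p.Prime]
    (hG : IsPGroup p G) : commutator G ≤ frattini G ∧ ∀ x : G, x ^ p ∈ frattini G := by
  exact ⟨Cfsg.Lib.Solv.commutator_le_frattini hG, Cfsg.Lib.Solv.pow_mem_frattini hG⟩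

end Cfsg.Agent.S0012
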