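import Cfsg.Statements.S0014
import Mathlib
import Cfsg.Agent.Lib.Solv.PGroupBasic
import Cfsg.Agent.Lib.Solv.Cores
import Cfsg.Agent.Lib.Solv.SchurZassenhaus
-- import your own Cfsg.Agent.* helpers here

set_option autoImplicit false
open Cfsg

namespace Cfsg.Agent.S0014

/-- Burnside's basis Theorem: in a finite p-group whose Frattini quotient has order p ^ n, every generating set contains n elements that already generate, and no set with fewer than n elements generates. -/
theorem result {G : Type*} [Group G] [Finite G] (p n : ℕ) [Fact p.Prime]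
    (hG : IsPGroup p G) (hn : (frattini G).index = p ^ n) :
    (∀ S : Finset G, Subgroup.closure (S : Set G) = ⊤ → ∃ T : Finset G, T ⊆ S ∧ T.card = n ∧ Subgroup.closure (T : Set G) = ⊤) ∧
    (∀ T : Finset G, Subgroup.closure (T : Set G) = ⊤ → n ≤ T.card) := by
  classical
  have hp : p.Prime := Fact.out
  let H : Finset G → Subgroup G := fun T => Subgroup.closure (T : Set G) ⊔ frattini G
  have hnor : ∀ T, (H T).Normal := fun T => ⟨fun h hh g => by
    have hc : g * h * g⁻¹ * h⁻¹ ∈ H T :=
      le_sup_right (a := Subgroup.closure (T : Set G))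
        (Cfsg.Lib.Solv.commutator_le_frattini hG
          (Subgroup.commutator_mem_commutator (Subgroup.mem_top g) (Subgroup.mem_top h)))
    have := (H T).mul_mem hc hh
    simpa using this⟩
  have hins : ∀ T t, H (insert t T) = H T ⊔ Subgroup.zpowers t := fun T t => by
    simp only [H]
    rw [Finset.coe_insert, Set.insert_eq, Subgroup.closure_union, ← Subgroup.zpowers_eq_closure,
      sup_comm (Subgroup.zpowers t), sup_right_comm]
  have hΦ : Nat.card G = p ^ n * Nat.card (frattini G) := by
    rw [← hn, mul_comm, Subgroup.card_mul_index]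
  have hup : ∀ T : Finset G, Nat.card (H T) ≤ p ^ T.card * Nat.card (frattini G) := by
    intro T
    induction T using Finset.induction with
    | empty => simp [H]
    | insert t T ht ih =>
      rw [hins, Finset.card_insert_of_notMem ht, pow_succ', mul_assoc]
      refine le_trans ?_ (Nat.mul_le_mul_left p ih)
      have := hnor T
      have hm : Subgroup.zpowers (t ^ p) ≤ Subgroup.zpowers t ⊓ H T :=
        le_inf (Subgroup.zpowers_le.2 (pow_mem (Subgroup.mem_zpowers t) p))
          (Subgroup.zpowers_le.2 (le_sup_right (a := Subgroup.closure (T : Set G))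
            (Cfsg.Lib.Solv.pow_mem_frattini hG t)))
      have h1 : Nat.card (Subgroup.zpowers t) ≤ p * Nat.card ↥(Subgroup.zpowers t ⊓ H T) := by
        refine le_trans ?_ (Nat.mul_le_mul_left p
          (Nat.le_of_dvd Nat.card_pos (Subgroup.card_dvd_of_le hm)))
        rw [Nat.card_zpowers, Nat.card_zpowers]
        exact Nat.le_of_dvd (Nat.mul_pos hp.pos (orderOf_pos _))
          (orderOf_dvd_of_pow_eq_one (by rw [pow_mul]; exact pow_orderOf_eq_one (t ^ p)))
      have h2 : Nat.card ↥(H T ⊔ Subgroup.zpowers t) * Nat.card ↥(Subgroup.zpowers t ⊓ H T) =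
          Nat.card (Subgroup.zpowers t) * Nat.card (H T) := by
        have e1 := Cfsg.Lib.Solv.card_eq_mul_relIndex (le_sup_left : H T ≤ H T ⊔ Subgroup.zpowers t)
        have e2 := Cfsg.Lib.Solv.card_eq_mul_relIndex
          (inf_le_right : H T ⊓ Subgroup.zpowers t ≤ Subgroup.zpowers t)
        rw [Subgroup.relIndex_sup_left] at e1
        rw [Subgroup.inf_relIndex_right] at e2
        rw [inf_comm (Subgroup.zpowers t), e1, e2]
        ring
      have h3 : 0 < Nat.card ↥(Subgroup.zpowers t ⊓ H T) := Nat.card_pos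
      nlinarith
  have hlow : ∀ T : Finset G, Subgroup.closure (T : Set G) = ⊤ → n ≤ T.card := by
    intro T hT
    have := hup T
    simp only [H, hT, top_sup_eq, Subgroup.card_top, hΦ] at this
    exact (Nat.pow_le_pow_iff_right hp.one_lt).1 (Nat.le_of_mul_le_mul_right this Nat.card_pos)
  refine ⟨fun S hS => ?_, hlow⟩
  obtain ⟨T, hT⟩ := Finset.exists_minimal (s := S.powerset.filter fun T => H T = ⊤)
    ⟨S, Finset.mem_filter.2 ⟨Finset.mem_powerset_self S, by simp [H, hS]⟩⟩
  obtain ⟨⟨hTS, hTtop⟩, hTmin⟩ := (⟨Finset.mem_filter.1 hT.1, hT.2⟩ :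
    (T ∈ S.powerset ∧ H T = ⊤) ∧ _)
  rw [Finset.mem_powerset] at hTS
  have hgen : Subgroup.closure (T : Set G) = ⊤ := frattini_nongenerating hTtop
  have hmin : ∀ t ∈ T, t ∉ H (T.erase t) := fun t ht h => by
    have htop : H (T.erase t) = ⊤ := by
      have e := hins (T.erase t) t
      rw [Finset.insert_erase ht, hTtop] at e
      rw [e, left_eq_sup, Subgroup.zpowers_le]; exact h
    have hle := hTmin (Finset.mem_filter.2
      ⟨Finset.mem_powerset.2 ((T.erase_subset t).trans hTS), htop⟩) (T.erase_subset t)
    exact Finset.notMem_erase t T (hle ht)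
  have hlo : ∀ U : Finset G, U ⊆ T → p ^ U.card * Nat.card (frattini G) ≤ Nat.card (H U) := by
    intro U
    induction U using Finset.induction with
    | empty => intro _; simp [H]
    | insert u U hu ih =>
      intro hUT
      rw [Finset.card_insert_of_notMem hu, pow_succ', mul_assoc]
      refine le_trans (Nat.mul_le_mul_left p (ih (fun x hx => hUT (Finset.mem_insert_of_mem hx)))) ?_
      rw [hins]
      have huT : u ∈ T := hUT (Finset.mem_insert_self u U)
      have hlt : H U < H U ⊔ Subgroup.zpowers u := by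
        refine left_lt_sup.2 fun h => hmin u huT ?_
        refine sup_le_sup_right (Subgroup.closure_mono ?_) _ (Subgroup.zpowers_le.1 h)
        intro x hx
        exact Finset.mem_erase.2 ⟨fun e => hu (e ▸ hx), hUT (Finset.mem_insert_of_mem hx)⟩
      obtain ⟨i, hi⟩ := IsPGroup.iff_card.1 (hG.to_subgroup (H U))
      obtain ⟨j, hj⟩ := IsPGroup.iff_card.1 (hG.to_subgroup (H U ⊔ Subgroup.zpowers u))
      rw [hi, hj, ← pow_succ']
      refine Nat.pow_le_pow_right hp.pos ?_
      by_contra hji
      refine hlt.ne (Subgroup.eq_of_le_of_card_ge hlt.le ?_)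
      rw [hi, hj]; exact Nat.pow_le_pow_right hp.pos (by omega)
  refine ⟨T, hTS, le_antisymm ?_ (hlow T hgen), hgen⟩
  have := hlo T subset_rfl
  rw [hTtop, Subgroup.card_top, hΦ] at this
  exact (Nat.pow_le_pow_iff_right hp.one_lt).1 (Nat.le_of_mul_le_mul_right this Nat.card_pos)

end Cfsg.Agent.S0014
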