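import Cfsg.Statements.S0065
import Mathlib
import Cfsg.Agent.Lib.Solv.MinNormal
-- import your own Cfsg.Agent.* helpers here

set_option autoImplicit false
open Cfsg

namespace Cfsg.Agent.S0065

/-- A nontrivial normal subgroup of a nilpotent group intersects the centre nontrivially. -/
theorem result {G : Type*} [Group G] [Finite G] [Group.IsNilpotent G]
    (N : Subgroup G) [N.Normal] (hN : N ≠ ⊥) : N ⊓ Subgroup.center G ≠ ⊥ := by
  intro hbot
  obtain ⟨M, hMn, hMN, hMne, hmin⟩ := Cfsg.Lib.Solv.exists_minimal_normal_le hN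
  have hF : Cfsg.fittingSubgroup G = ⊤ :=
    top_le_iff.1 (Cfsg.Lib.Solv.le_fitting inferInstance (Group.isNilpotent_top.2 inferInstance))
  have h := Cfsg.Lib.Solv.fitting_le_centralizer_minimal hmin
  rw [hF] at h
  have hMZ : M ≤ Subgroup.center G := fun x hx => Subgroup.mem_center_iff.2 fun g =>
    ((Subgroup.mem_centralizer_iff.1 (h (Subgroup.mem_top g))) x hx).symm
  exact hMne (le_bot_iff.1 (hbot ▸ le_inf hMN hMZ))

end Cfsg.Agent.S0065
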