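import Cfsg.Statements.S0015
import Mathlib
import Cfsg.Agent.S0065
-- import your own Cfsg.Agent.* helpers here

set_option autoImplicit false
open Cfsg

namespace Cfsg.Agent.S0015

/-- In a finite nilpotent group, an abelian normal subgroup that is maximal among abelian normal subgroups equals its own centralizer. -/
theorem result {G : Type*} [Group G] [Finite G] [Group.IsNilpotent G]
    (N : Subgroup G) [N.Normal] [IsMulCommutative N]
    (hmax : ∀ M : Subgroup G, M.Normal → IsMulCommutative M → N ≤ M → M = N) :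
    Subgroup.centralizer (N : Set G) = N := by
  have hNc : N ≤ Subgroup.centralizer (N : Set G) := fun x hx =>
    Subgroup.mem_centralizer_iff.2 fun y hy =>
      congrArg Subtype.val (mul_comm' (⟨y, hy⟩ : N) ⟨x, hx⟩)
  refine le_antisymm ?_ hNc
  by_contra hne
  have hCn : ((Subgroup.centralizer (N : Set G)).map (QuotientGroup.mk' N)).Normal :=
    Subgroup.Normal.map inferInstance _ (QuotientGroup.mk'_surjective N)
  have hbot : (Subgroup.centralizer (N : Set G)).map (QuotientGroup.mk' N) ≠ ⊥ := by
    rw [Ne, Subgroup.map_eq_bot_iff, QuotientGroup.ker_mk']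
    exact hne
  have hi := Cfsg.Agent.S0065.result _ hbot
  obtain ⟨⟨w, hw⟩, hw1⟩ := Subgroup.ne_bot_iff_exists_ne_one.1 hi
  replace hw1 : w ≠ 1 := fun h => hw1 (Subtype.ext h)
  obtain ⟨hwC, hwZ⟩ := Subgroup.mem_inf.1 hw
  obtain ⟨z, hzC, rfl⟩ := Subgroup.mem_map.1 hwC
  have hzN : z ∉ N := fun h => hw1 ((QuotientGroup.eq_one_iff z).2 h)
  have hcom : ∀ g : G, g * z * g⁻¹ * z⁻¹ ∈ N := fun g => by
    rw [← QuotientGroup.eq_one_iff]
    have := Subgroup.mem_center_iff.1 hwZ (g : G ⧸ N)
    simp only [QuotientGroup.mk'_apply] at this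
    simp only [QuotientGroup.mk_mul, QuotientGroup.mk_inv, this]
    group
  set M : Subgroup G := Subgroup.closure (insert z (N : Set G)) with hM
  have hNM : N ≤ M := fun x hx => Subgroup.subset_closure (Or.inr hx)
  have hzM : z ∈ M := Subgroup.subset_closure (Or.inl rfl)
  have hMn : M.Normal := ⟨fun x hx g => by
    suffices M ≤ M.comap (MulAut.conj g : G ≃* G).toMonoidHom from this hx
    rw [hM, Subgroup.closure_le]
    rintro y (rfl | hy)
    · show g * y * g⁻¹ ∈ M
      have : g * y * g⁻¹ = (g * y * g⁻¹ * y⁻¹) * y := by group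
      rw [this]; exact M.mul_mem (hNM (hcom g)) hzM
    · show g * y * g⁻¹ ∈ M
      exact hNM ((inferInstance : N.Normal).conj_mem y hy g)⟩
  have hMc : IsMulCommutative M := by
    refine Subgroup.isMulCommutative_closure ?_
    rintro x (rfl | hx) y (rfl | hy)
    · rfl
    · exact ((Subgroup.mem_centralizer_iff.1 hzC) y hy).symm
    · exact (Subgroup.mem_centralizer_iff.1 hzC) x hx
    · exact (Subgroup.mem_centralizer_iff.1 (hNc hy)) x hx
  exact hzN (hmax M hMn hMc hNM ▸ hzM)

end Cfsg.Agent.S0015
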