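import Cfsg.Statements.S0033
import Mathlib
import Cfsg.Agent.Lib.Solv.ThompsonKernel
-- import your own Cfsg.Agent.* helpers here

set_option autoImplicit false
open Cfsg

namespace Cfsg.Agent.S0033

/-- Thompson's Theorem on fixed-point-free automorphisms: a finite group with an automorphism of prime order fixing only the identity is nilpotent. -/
theorem result {G : Type*} [Group G] [Finite G] (φ : G ≃* G)
    (hφ : MonoidHom.FixedPointFree (φ : G →* G)) (p : ℕ) (hp : p.Prime) (hord : orderOf φ = p) :
    Group.IsNilpotent G := by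
  refine Cfsg.Lib.Solv.ThompsonKernel.fpf_isNilpotent (φ := φ) (r := p) ⟨hp, fun g hg => hφ g hg, fun g => ?_⟩
  have hpow : ∀ n : ℕ, ∀ x : G, (φ ^ n) x = φ^[n] x := by
    intro n
    induction n with
    | zero => intro x; rfl
    | succ n ih => intro x; rw [pow_succ, MulAut.mul_apply, ih, Function.iterate_succ_apply]
  rw [← hpow, ← hord, pow_orderOf_eq_one]
  rfl

end Cfsg.Agent.S0033
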