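import Cfsg.Statements.S0040
import Mathlib
import Cfsg.Agent.Lib.Solv.FrobeniusComplement
import Cfsg.Agent.S0016
-- import your own Cfsg.Agent.* helpers here

set_option autoImplicit false
open Cfsg

namespace Cfsg.Agent.S0040

/-- Sylow subgroups of Frobenius complements: if H complements a nontrivial normal subgroup K and every nonidentity element of H has trivial centraliser in K, then each Sylow subgroup of H is cyclic or isomorphic to a generalized quaternion group. -/
theorem result {G : Type*} [Group G] [Finite G] (K H : Subgroup G) [K.Normal]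
    (hc : Subgroup.IsComplement' K H) (hK : K ≠ ⊥) (hfpf : ∀ h ∈ H, h ≠ 1 → K ⊓ Subgroup.centralizer {h} = ⊥)
    (p : ℕ) [Fact p.Prime] (P : Sylow p H) :
    IsCyclic P ∨ ∃ n : ℕ, Nonempty (P ≃* QuaternionGroup (2 ^ n)) := by
  rcases eq_or_ne H ⊥ with rfl | hH
  · exact Or.inl inferInstance
  obtain ⟨V, hV, hVc, hN, hf⟩ := Cfsg.Lib.Solv.FrobCompl.exists_abelian_fpf K H hc hK hH hfpf
  haveI := hVc
  refine (Cfsg.Agent.S0016.result p P.2 fun A B hA hB => ?_).imp id fun h => h.2
  have hp := (Fact.out : p.Prime)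
  haveI := isCyclic_of_prime_card hA
  haveI := isCyclic_of_prime_card hB
  obtain ⟨a, ha⟩ := IsCyclic.exists_generator (α := A)
  obtain ⟨b, hb⟩ := IsCyclic.exists_generator (α := B)
  have oa : orderOf (a : P) = p := by rw [Subgroup.orderOf_coe, orderOf_eq_card_of_forall_mem_zpowers ha, hA]
  have ob : orderOf (b : P) = p := by rw [Subgroup.orderOf_coe, orderOf_eq_card_of_forall_mem_zpowers hb, hB]
  refine (Subgroup.eq_of_le_of_card_ge ?_ (by rw [hA, hB])).symm
  intro x hx
  obtain ⟨i, hi⟩ := hb ⟨x, hx⟩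
  have hba : (b : P) ∈ A := Subgroup.zpowers_le.2 a.2
    (Cfsg.Lib.Solv.FrobCompl.mem_zpowers_of_pgroup hV hN hf _ P.2 oa ob)
  have := congrArg Subtype.val hi
  simp only [Subgroup.coe_zpow] at this
  rw [← this]
  exact A.zpow_mem hba i

end Cfsg.Agent.S0040
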