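import Cfsg.Statements.S0048
import Mathlib
import Cfsg.Agent.Lib.Solv.PGroupBasic
-- import your own Cfsg.Agent.* helpers here

set_option autoImplicit false
open Cfsg

namespace Cfsg.Agent.S0048

/-- In a finite solvable group every maximal subgroup has index a prime power. -/
theorem result {G : Type*} [Group G] [Finite G] [Group.IsSolvable G]
    (M : Subgroup G) (hM : IsCoatom M) : IsPrimePow M.index := by
  set C := M.normalCore with hC
  set q := QuotientGroup.mk' C with hq
  have hne : (⊤ : Subgroup (G ⧸ C)) ≠ ⊥ := by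
    intro h
    apply hM.1
    have h2 : (⊤ : Subgroup (G ⧸ C)).comap q = (⊥ : Subgroup (G ⧸ C)).comap q := by rw [h]
    rw [Subgroup.comap_top, MonoidHom.comap_bot, hq, QuotientGroup.ker_mk'] at h2
    exact top_le_iff.1 (h2.le.trans M.normalCore_le)
  obtain ⟨R, hRn, -, hRne, hRmin⟩ := Cfsg.Lib.Solv.exists_minimal_normal_le hne
  haveI : Group.IsSolvable (G ⧸ C) := Group.isSolvable_of_surjective (QuotientGroup.mk'_surjective C)
  obtain ⟨-, p, hp, hRp, -⟩ := Cfsg.Lib.Solv.minimal_normal_elementary hRne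
    (Group.isSolvable_of_isSolvable_injective (f := R.subtype) R.subtype_injective) hRmin
  haveI := Fact.mk hp
  set N := R.comap q with hN
  have hCN : C ≤ N := by
    have h := Subgroup.ker_le_comap (f := q) R
    rwa [hq, QuotientGroup.ker_mk'] at h
  have hrel : C.relIndex N = Nat.card R := by
    have h := Subgroup.relIndex_ker (K := N) q
    rwa [hN, Subgroup.map_comap_eq_self_of_surjective (QuotientGroup.mk'_surjective C), hq, QuotientGroup.ker_mk'] at h
  have hNM : ¬ N ≤ M := by
    intro h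
    have h2 : N ≤ C := fun x hx g => h ((inferInstance : N.Normal).conj_mem x hx g)
    have h3 : C.relIndex N = 1 := Subgroup.relIndex_eq_one.2 h2
    exact hRne (Subgroup.card_eq_one.1 (hrel ▸ h3))
  have htop : M ⊔ N = ⊤ := hM.2 _ (lt_of_le_of_ne le_sup_left fun h => hNM (sup_eq_left.1 h.symm))
  have hdvd : M.index ∣ Nat.card R := by
    rw [← hrel, ← Subgroup.relIndex_top_right, ← htop, Cfsg.Lib.Solv.relIndex_sup_left_normal]
    exact Subgroup.relIndex_dvd_of_le_left N M.normalCore_le
  obtain ⟨k, hk⟩ := IsPGroup.iff_card.1 hRp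
  obtain ⟨j, -, hj⟩ := (Nat.dvd_prime_pow hp).1 (hk ▸ hdvd)
  rw [hj]
  refine (isPrimePow_nat_iff _).2 ⟨p, j, hp, ?_, rfl⟩
  rcases Nat.eq_zero_or_pos j with rfl | h
  · exact absurd (Subgroup.index_eq_one.1 (by simpa using hj)) hM.1
  · exact h

end Cfsg.Agent.S0048
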