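import Cfsg.Statements.S0049
import Mathlib
import Cfsg.Agent.Lib.Solv.Frattini
-- import your own Cfsg.Agent.* helpers here

set_option autoImplicit false
open Cfsg

namespace Cfsg.Agent.S0049

/-- A prime divisor of the order of a finite group also divides the index of the Frattini subgroup. -/
theorem result {G : Type*} [Group G] [Finite G] (p : ℕ) (hp : p.Prime) (hdvd : p ∣ Nat.card G) :
    p ∣ (frattini G).index := by
  haveI := Fact.mk hp
  by_contra hnd
  obtain P : Sylow p G := default
  have hPF : (P : Subgroup G) ≤ frattini G := by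
    intro x hx
    rw [← QuotientGroup.eq_one_iff]
    have h1 : orderOf (QuotientGroup.mk' (frattini G) x) ∣ orderOf x := orderOf_map_dvd _ x
    have h2 : orderOf (QuotientGroup.mk' (frattini G) x) ∣ (frattini G).index := by
      rw [Subgroup.index_eq_card]
      exact orderOf_dvd_natCard _
    obtain ⟨k, hk⟩ := IsPGroup.iff_orderOf.1 P.isPGroup' ⟨x, hx⟩
    rw [Subgroup.orderOf_mk] at hk
    rw [hk] at h1
    exact orderOf_eq_one_iff.1 (Nat.eq_one_of_dvd_coprimes ((hp.coprime_iff_not_dvd.2 hnd).pow_left k) h1 h2)
  haveI := frattini_nilpotent (G := G)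
  have hPn : ((P.subtype hPF : Sylow p (frattini G)) : Subgroup (frattini G)).Normal :=
    Sylow.normal_of_normalizerCondition Group.normalizerCondition_of_isNilpotent _
  haveI := (P.subtype hPF).characteristic_of_normal hPn
  have hn : (P : Subgroup G).Normal := by
    have h := (inferInstance : (((P.subtype hPF : Sylow p (frattini G)) : Subgroup (frattini G)).map (frattini G).subtype).Normal)
    rwa [Sylow.coe_subtype, Subgroup.subgroupOf_map_subtype, inf_eq_left.2 hPF] at h
  obtain ⟨H, hH⟩ := Subgroup.exists_right_complement'_of_coprime (P.card_coprime_index)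
  have htop : H ⊔ frattini G = ⊤ :=
    top_le_iff.1 (hH.sup_eq_top.ge.trans (sup_le (hPF.trans le_sup_right) le_sup_left))
  have hH1 := frattini_nongenerating htop
  subst hH1
  have hPbot : (P : Subgroup G) = ⊥ := by simpa using hH.disjoint.eq_bot
  exact P.ne_bot_of_dvd_card hdvd hPbot

end Cfsg.Agent.S0049
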