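import Cfsg.Statements.S0050
import Mathlib
import Cfsg.Agent.Lib.Solv.Coprime3
-- import your own Cfsg.Agent.* helpers here

set_option autoImplicit false
open Cfsg
open scoped Pointwise

namespace Cfsg.Agent.S0050

/-- Frattini argument for Hall subgroups: if L is a solvable normal subgroup and H a subgroup of L of order coprime to its index in L, then L together with the normaliser of H generates the whole group. -/
theorem result {G : Type*} [Group G] [Finite G] (L : Subgroup G) [L.Normal] (hL : Group.IsSolvable L)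
    (H : Subgroup G) (hHL : H ≤ L) (hHall : (Nat.card H).Coprime (H.relIndex L)) :
    L ⊔ Subgroup.normalizer (H : Set G) = ⊤ := by
  refine top_le_iff.1 fun g _ => ?_
  have key : ∀ H' : Subgroup G, H' ≤ L → Nat.card H' = Nat.card H →
      Cfsg.IsPiHallOf {p : ℕ | p ∣ Nat.card H} H' L := by
    intro H' hle hc
    refine ⟨hle, fun p _ hd => hc ▸ hd, fun p hp hpd hd => ?_⟩
    have e : H'.relIndex L = H.relIndex L := by
      refine Nat.eq_of_mul_eq_mul_left (Nat.card_pos (α := H)) ?_
      rw [← Cfsg.Lib.Solv.card_eq_mul_relIndex hHL, ← hc, ← Cfsg.Lib.Solv.card_eq_mul_relIndex hle]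
    exact hp.ne_one (Nat.eq_one_of_dvd_coprimes hHall hpd (e ▸ hd))
  have hgL : MulAut.conj g • H ≤ L := by
    intro x hx
    rw [Cfsg.Lib.Solv.mem_conj_smul] at hx
    have h2 := (inferInstance : L.Normal).conj_mem _ (hHL hx) g
    have e : g * (g⁻¹ * x * g) * g⁻¹ = x := by group
    rwa [e] at h2
  obtain ⟨l, hl, e⟩ := Cfsg.Lib.Solv.hallOf_conj hL (key H hHL rfl)
    (key _ hgL (Cfsg.Lib.Solv.card_conj_smul g H))
  have hmem : l⁻¹ * g ∈ Subgroup.normalizer (H : Set G) := by
    rw [← Cfsg.Lib.Solv.conj_smul_eq_self_iff, map_mul, mul_smul, ← e, ← mul_smul, ← map_mul,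
      inv_mul_cancel, map_one, one_smul]
  have h3 := Subgroup.mul_mem_sup hl hmem
  rwa [mul_inv_cancel_left] at h3

end Cfsg.Agent.S0050
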