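import Cfsg.Statements.S0053
import Mathlib
import Cfsg.Agent.Lib.Solv.PGroupBasic
-- import your own Cfsg.Agent.* helpers here

set_option autoImplicit false
open Cfsg

namespace Cfsg.Agent.S0053

/-- An abelian minimal normal subgroup N of a finite group is complemented exactly when N is not inside the Frattini subgroup. -/
theorem result {G : Type*} [Group G] [Finite G]
    (N : Subgroup G) [N.Normal] [IsMulCommutative N] (hN : N ≠ ⊥)
    (hmin : ∀ M : Subgroup G, M.Normal → M ≤ N → M = ⊥ ∨ M = N) :
    (∃ H : Subgroup G, Subgroup.IsComplement' N H) ↔ ¬ N ≤ frattini G := by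
  constructor
  · rintro ⟨H, hH⟩ hle
    have htop : H ⊔ frattini G = ⊤ := top_le_iff.1 (hH.sup_eq_top.ge.trans (sup_le (hle.trans le_sup_right) le_sup_left))
    have hH1 := frattini_nongenerating htop
    subst hH1
    exact hN (by simpa using hH.disjoint.eq_bot)
  · intro hle
    obtain ⟨x, hxN, hx⟩ := SetLike.not_le_iff_exists.1 hle
    rw [Cfsg.Lib.Solv.mem_frattini_iff] at hx
    push_neg at hx
    obtain ⟨M, hM, hxM⟩ := hx
    have htop : N ⊔ M = ⊤ := hM.2 _ (lt_of_le_of_ne le_sup_right fun h => hxM (h.ge (Subgroup.mem_sup_left hxN)))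
    have hn : (N ⊓ M).Normal := by
      rw [← Subgroup.normalizer_eq_top_iff, ← top_le_iff, ← htop]
      refine sup_le (fun a ha => ?_) (fun a ha => ?_)
      · refine Cfsg.Lib.Solv.conj_smul_eq_self_iff.1 (Subgroup.eq_of_le_of_card_ge ?_ (Cfsg.Lib.Solv.card_conj_smul _ _).ge)
        intro y hy
        have h := Cfsg.Lib.Solv.mem_conj_smul.1 hy
        have hc : a⁻¹ * y * a = y := by
          have hyN : y ∈ N := by
            have h2 := N.mul_mem (N.mul_mem ha h.1) (N.inv_mem ha)
            simpa [mul_assoc] using h2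
          rw [mul_assoc, setLike_mul_comm hyN ha, inv_mul_cancel_left]
        rw [hc] at h
        exact h
      · rw [← Cfsg.Lib.Solv.conj_smul_eq_self_iff, Subgroup.smul_inf, Cfsg.Lib.Solv.conj_smul_normal, Cfsg.Lib.Solv.conj_smul_eq_self_iff.2 (Subgroup.le_normalizer ha)]
    refine ⟨M, Subgroup.isComplement'_of_disjoint_and_mul_eq_univ ?_ ?_⟩
    · rcases hmin _ hn inf_le_left with h | h
      · exact disjoint_iff.2 h
      · exact absurd (inf_eq_left.1 h hxN) hxM
    · rw [← Subgroup.normal_mul, htop, Subgroup.coe_top]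

end Cfsg.Agent.S0053
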