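import Cfsg.Statements.S0054
import Mathlib
import Cfsg.Agent.Lib.Solv.Cores
import Cfsg.Agent.Lib.Transfer.PGroupNormal
-- import your own Cfsg.Agent.* helpers here

set_option autoImplicit false
open Cfsg

namespace Cfsg.Agent.S0054

/-- A regular normal subgroup of a finite 2-transitive group is elementary abelian: it is commutative and all its elements have order dividing one prime. -/
theorem result {G : Type*} [Group G] [Finite G]
    {X : Type*} [Nonempty X] [MulAction G X] (h2 : MulAction.IsMultiplyPretransitive G X 2)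
    (N : Subgroup G) [N.Normal] (htrans : MulAction.IsPretransitive N X) (hreg : ∀ x : X, MulAction.stabilizer N x = ⊥) :
    IsMulCommutative N ∧ ∃ p : ℕ, p.Prime ∧ ∀ n ∈ N, n ^ p = 1 := by
  obtain ⟨x⟩ := ‹Nonempty X›
  have inj : ∀ a b : G, a ∈ N → b ∈ N → a • x = b • x → a = b := fun a b ha hb h => by
    have h1 : (⟨b⁻¹ * a, N.mul_mem (N.inv_mem hb) ha⟩ : N) ∈ MulAction.stabilizer N x := by
      rw [MulAction.mem_stabilizer_iff]
      show (b⁻¹ * a) • x = x
      rw [mul_smul, h, inv_smul_smul]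
    rw [hreg x, Subgroup.mem_bot] at h1
    exact (inv_mul_eq_one.1 (congrArg Subtype.val h1)).symm
  have hconj : ∀ a b : G, a ∈ N → b ∈ N → a ≠ 1 → b ≠ 1 → ∃ g : G, g * a * g⁻¹ = b := by
    intro a b ha hb ha1 hb1
    have e1 : x ≠ a • x := fun h => ha1 (inj a 1 ha N.one_mem (by rw [one_smul, ← h]))
    have e2 : x ≠ b • x := fun h => hb1 (inj b 1 hb N.one_mem (by rw [one_smul, ← h]))
    obtain ⟨g, hg1, hg2⟩ := MulAction.is_two_pretransitive_iff.1 h2 e1 e2
    refine ⟨g, inj _ _ ((inferInstance : N.Normal).conj_mem a ha g) hb ?_⟩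
    have : g⁻¹ • x = x := inv_smul_eq_iff.2 hg1.symm
    rw [mul_smul, mul_smul, this, hg2]
  by_cases hN : N = ⊥
  · subst hN
    refine ⟨⟨⟨fun a b => Subsingleton.elim _ _⟩⟩, 2, Nat.prime_two, fun n hn => ?_⟩
    rw [Subgroup.mem_bot.1 hn, one_pow]
  obtain ⟨p, hp, hpd⟩ := Nat.exists_prime_and_dvd ((Subgroup.one_lt_card_iff_ne_bot N).2 hN).ne'
  have := Fact.mk hp
  obtain ⟨a, ha⟩ := exists_prime_orderOf_dvd_card' (G := N) p hpd
  rw [← Subgroup.orderOf_coe] at ha
  have ha1 : (a : G) ≠ 1 := fun h => by rw [h, orderOf_one] at ha; exact hp.ne_one ha.symm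
  have hpow : ∀ n ∈ N, n ^ p = 1 := fun n hn => by
    by_cases hn1 : n = 1
    · rw [hn1, one_pow]
    obtain ⟨g, hg⟩ := hconj a n a.2 hn ha1 hn1
    rw [← hg, conj_pow, ← ha, pow_orderOf_eq_one, mul_one, mul_inv_cancel]
  have hpN : IsPGroup p N := fun y => ⟨1, Subtype.ext (by simpa using hpow y y.2)⟩
  have hne : (⊤ : Subgroup N) ≠ ⊥ := fun h => hN (by
    have := congrArg (Subgroup.map N.subtype) h
    rwa [Subgroup.map_bot, ← MonoidHom.range_eq_map, Subgroup.range_subtype] at this)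
  obtain ⟨⟨z, hz⟩, hz1'⟩ := Subgroup.ne_bot_iff_exists_ne_one.1
    (Cfsg.Lib.Transfer.inf_center_ne_bot hpN ⊤ hne)
  have hz1 : z ≠ 1 := fun h => hz1' (Subtype.ext h)
  refine ⟨⟨⟨fun c d => ?_⟩⟩, p, hp, hpow⟩
  by_cases hc : c = 1
  · rw [hc, one_mul, mul_one]
  obtain ⟨g, hg⟩ := hconj z c z.2 c.2 (fun h => hz1 (Subtype.ext h)) (fun h => hc (Subtype.ext h))
  have hd : g⁻¹ * (d : G) * g ∈ N := (inferInstance : N.Normal).conj_mem' _ d.2 g
  have hzd := congrArg Subtype.val (Subgroup.mem_center_iff.1 hz.2 ⟨_, hd⟩)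
  simp only [Subgroup.coe_mul] at hzd
  refine Subtype.ext ?_
  show (c : G) * d = d * c
  rw [← hg]
  calc g * (z : G) * g⁻¹ * d = g * ((z : G) * (g⁻¹ * d * g)) * g⁻¹ := by group
    _ = g * (g⁻¹ * d * g * z) * g⁻¹ := by rw [hzd]
    _ = _ := by group

end Cfsg.Agent.S0054
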