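import Cfsg.Statements.S0056
import Mathlib
import Cfsg.Agent.Lib.Solv.Coprime2
-- import your own Cfsg.Agent.* helpers here

set_option autoImplicit false
open Cfsg

namespace Cfsg.Agent.S0056

/-- A coprime action on an abelian group that fixes all elements of prime order is trivial. -/
theorem result {G : Type*} [Group G] [Finite G] (A V : Subgroup G) [IsMulCommutative V]
    (hAV : A ≤ Subgroup.normalizer (V : Set G)) (hcop : (Nat.card A).Coprime (Nat.card V))
    (hΩ : ∀ v ∈ V, (orderOf v).Prime → ∀ a ∈ A, a * v = v * a) : A ≤ Subgroup.centralizer (V : Set G) := by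
  by_contra hcon
  obtain ⟨h1, -⟩ := Cfsg.Lib.Solv.coprime_abelian_decomposition A V hAV hcop
  have hne : (⁅V, A⁆ : Subgroup G) ≠ ⊥ := fun h => hcon (by
    rw [Subgroup.commutator_eq_bot_iff_le_centralizer] at h
    exact Subgroup.le_centralizer_iff.1 h)
  obtain ⟨p, hp, hpd⟩ := Nat.exists_prime_and_dvd
    ((Subgroup.one_lt_card_iff_ne_bot _).2 hne).ne'
  have := Fact.mk hp
  obtain ⟨v, hv⟩ := exists_prime_orderOf_dvd_card' p hpd
  have hvV : (v : G) ∈ V := Cfsg.Lib.Solv.commutator_le_of_normalizes hAV v.2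
  have hvo : orderOf (v : G) = p := by rw [Subgroup.orderOf_coe]; exact hv
  have hmem : (v : G) ∈ V ⊓ Subgroup.centralizer (A : Set G) ⊓ ⁅V, A⁆ :=
    ⟨⟨hvV, Subgroup.mem_centralizer_iff.2 fun a ha => hΩ v hvV (hvo.symm ▸ hp) a ha⟩, v.2⟩
  rw [h1, Subgroup.mem_bot] at hmem
  rw [hmem, orderOf_one] at hvo
  exact hp.ne_one hvo.symm

end Cfsg.Agent.S0056
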