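import Cfsg.Statements.S0058
import Mathlib
import Cfsg.Agent.Lib.Solv.Coprime2
-- import your own Cfsg.Agent.* helpers here

set_option autoImplicit false
open Cfsg

namespace Cfsg.Agent.S0058

/-- Generation by centralisers: when a noncyclic abelian group A normalises K with coprime orders, K is generated by the fixed-point subgroups of the nonidentity elements of A. -/
theorem result {G : Type*} [Group G] [Finite G] (A K : Subgroup G)
    [IsMulCommutative A] (hA : ¬ IsCyclic A) (hAK : A ≤ Subgroup.normalizer (K : Set G)) (hcop : (Nat.card A).Coprime (Nat.card K)) :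
    (⨆ a ∈ {a : G | a ∈ A ∧ a ≠ 1}, K ⊓ Subgroup.centralizer {a}) = K := by
  refine le_antisymm (iSup₂_le fun a _ => inf_le_left) ?_
  refine Cfsg.Lib.Solv.le_of_fixed_le A K _ hA hAK hcop fun a ha ha1 => ?_
  exact le_iSup₂ (f := fun a (_ : a ∈ {a : G | a ∈ A ∧ a ≠ 1}) => K ⊓ Subgroup.centralizer {a}) a ⟨ha, ha1⟩

end Cfsg.Agent.S0058
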