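import Cfsg.Statements.S0059
import Mathlib
import Cfsg.Agent.Lib.Solv.Coprime3
-- import your own Cfsg.Agent.* helpers here

set_option autoImplicit false
open Cfsg

namespace Cfsg.Agent.S0059

/-- Let a finite group act on a set on which a normal subgroup K of coprime order and index is transitive, with K or the quotient solvable. Then any complement H of K has a fixed point, and any two H-fixed points are interchanged by an element of K centralising H. -/
theorem result {G : Type*} [Group G] [Finite G] {X : Type*} [Nonempty X] [MulAction G X]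
    (K H : Subgroup G) [K.Normal] (hc : Subgroup.IsComplement' K H) (hcop : (Nat.card K).Coprime K.index)
    (hsolv : Group.IsSolvable K ∨ Group.IsSolvable (G ⧸ K)) (htrans : MulAction.IsPretransitive K X) :
    (∃ x : X, ∀ h ∈ H, h • x = x) ∧
    ∀ x y : X, (∀ h ∈ H, h • x = x) → (∀ h ∈ H, h • y = y) → ∃ k ∈ K ⊓ Subgroup.centralizer (H : Set G), k • x = y := by
  refine Cfsg.Lib.Solv.coprime_action_fixed_point K H hc hcop (hsolv.imp id fun hs => ?_) htrans
  have := hs
  refine Group.isSolvable_of_isSolvable_injective (f := (QuotientGroup.mk' K).comp H.subtype) ?_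
  intro a b hab
  have hmem : (a : G)⁻¹ * b ∈ K ⊓ H := ⟨QuotientGroup.eq.1 hab, H.mul_mem (H.inv_mem a.2) b.2⟩
  rw [hc.disjoint.eq_bot, Subgroup.mem_bot] at hmem
  exact Subtype.ext (inv_mul_eq_one.1 hmem)

end Cfsg.Agent.S0059
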