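import Cfsg.Statements.S0060
import Mathlib
import Cfsg.Agent.Lib.Solv.Cores
import Cfsg.Agent.Lib.Solv.SchurZassenhaus
-- import your own Cfsg.Agent.* helpers here

set_option autoImplicit false
open Pointwise
open Cfsg

namespace Cfsg.Agent.S0060

/-- Brodkey's Theorem: in a finite group with abelian Sylow p-subgroups and no nontrivial normal p-subgroup, some conjugate of a Sylow p-subgroup meets it trivially. -/
theorem result {G : Type*} [Group G] [Finite G] (p : ℕ) [Fact p.Prime]
    (S : Sylow p G) (hS : IsMulCommutative S) (hOp : Cfsg.pCore p G = ⊥) :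
    ∃ g : G, (S : Subgroup G) ⊓ MulAut.conj g • (S : Subgroup G) = ⊥ := by
  classical
  obtain ⟨⟨A, B⟩, hAB⟩ := Finite.exists_min
    (fun z : Sylow p G × Sylow p G => Nat.card ↥((z.1 : Subgroup G) ⊓ z.2))
  set D := (A : Subgroup G) ⊓ B with hD
  have habel : ∀ R : Sylow p G, IsMulCommutative R := fun R => by
    obtain ⟨g, hg⟩ := MulAction.exists_smul_eq G S R
    have e := congrArg (fun T : Sylow p G => (T : Subgroup G)) hg
    simp only [Sylow.coe_subgroup_smul] at e
    rw [Cfsg.Lib.Solv.conj_smul_eq_map] at e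
    refine ⟨⟨fun a b => Subtype.ext ?_⟩⟩
    obtain ⟨a', ha', ea⟩ := Subgroup.mem_map.1 (show (a : G) ∈ (S : Subgroup G).map _ by rw [e]; exact a.2)
    obtain ⟨b', hb', eb⟩ := Subgroup.mem_map.1 (show (b : G) ∈ (S : Subgroup G).map _ by rw [e]; exact b.2)
    show (a : G) * b = b * a
    rw [← ea, ← eb, ← map_mul, ← map_mul]
    congr 1
    exact congrArg Subtype.val (mul_comm' (⟨a', ha'⟩ : S) ⟨b', hb'⟩)
  set N := Subgroup.normalizer (D : Set G) with hN
  have hle : ∀ R : Sylow p G, D ≤ R → (R : Subgroup G) ≤ N := fun R hR r hr =>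
    Subgroup.mem_normalizer_iff.2 fun x => by
      haveI := habel R
      constructor
      · intro hx
        have : r * x = x * r := congrArg Subtype.val (mul_comm' (⟨r, hr⟩ : R) ⟨x, hR hx⟩)
        rw [this, mul_inv_cancel_right]; exact hx
      · intro hx
        have hxR : x ∈ (R : Subgroup G) := by
          simpa [mul_assoc] using mul_mem (mul_mem (inv_mem hr) (hR hx)) hr
        have : r * x = x * r := congrArg Subtype.val (mul_comm' (⟨r, hr⟩ : R) ⟨x, hxR⟩)
        rw [this, mul_inv_cancel_right] at hx; exact hx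
  have hAN := hle A inf_le_left
  have hBN := hle B inf_le_right
  have hDR : ∀ R : Sylow p G, D ≤ R := by
    intro R
    have hP : IsPGroup p ↥(((R : Subgroup G) ⊓ N).subgroupOf N) :=
      (R.isPGroup'.to_le inf_le_left).of_equiv (Subgroup.subgroupOfEquivOfLe inf_le_right).symm
    obtain ⟨P, hP'⟩ := hP.exists_le_sylow
    obtain ⟨c, hc⟩ := MulAction.exists_smul_eq N (A.subtype hAN) P
    have hRA : ((R : Subgroup G) ⊓ N) ≤ MulAut.conj (c : G) • (A : Subgroup G) := by
      intro x hx
      have h1 : (⟨x, hx.2⟩ : N) ∈ (P : Subgroup N) := hP' (show (x : G) ∈ (R : Subgroup G) ⊓ N from hx)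
      rw [← hc, Sylow.coe_subgroup_smul, Subgroup.mem_pointwise_smul_iff_inv_smul_mem] at h1
      rw [Subgroup.mem_pointwise_smul_iff_inv_smul_mem]
      exact h1
    have hcD : MulAut.conj (c : G) • D = D := Subgroup.ext fun x => by
      rw [Subgroup.mem_pointwise_smul_iff_inv_smul_mem, ← map_inv, MulAut.smul_def, MulAut.conj_apply,
        inv_inv]
      have := ((Subgroup.mem_normalizer_iff.1 (inv_mem c.2)) x).symm
      rwa [inv_inv] at this
    have hsub : (R : Subgroup G) ⊓ ((c : G) • B : Sylow p G) ≤ D := by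
      rw [Sylow.coe_subgroup_smul]
      intro x hx
      have hxN : x ∈ N := by
        obtain ⟨b, hb, rfl⟩ := hx.2
        exact mul_mem (mul_mem c.2 (hBN hb)) (inv_mem c.2)
      rw [← hcD, hD, Subgroup.smul_inf]
      exact ⟨hRA ⟨hx.1, hxN⟩, hx.2⟩
    exact (Subgroup.eq_of_le_of_card_ge hsub (hAB (R, (c : G) • B))).symm.le.trans inf_le_left
  have hD0 : D = ⊥ := by
    rw [Cfsg.Lib.Solv.pCore_eq_iInf_sylow] at hOp
    exact le_bot_iff.1 (hOp ▸ le_iInf hDR)
  obtain ⟨g, hg⟩ := MulAction.exists_smul_eq G A S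
  obtain ⟨k, hk⟩ := MulAction.exists_smul_eq G S (g • B)
  refine ⟨k, ?_⟩
  have hkk : MulAut.conj k • (S : Subgroup G) = ((g • B : Sylow p G) : Subgroup G) := by
    rw [← hk, Sylow.coe_subgroup_smul]
  rw [hkk, ← hg, Sylow.coe_subgroup_smul, Sylow.coe_subgroup_smul, ← Subgroup.smul_inf, ← hD, hD0,
    Subgroup.smul_bot]

end Cfsg.Agent.S0060
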