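import Cfsg.Statements.S0063
import Mathlib
import Cfsg.Agent.Lib.Solv.PGroupBasic
-- import your own Cfsg.Agent.* helpers here

set_option autoImplicit false
open Cfsg

namespace Cfsg.Agent.S0063

universe u

theorem key (p : ℕ) [Fact p.Prime] : ∀ (n : ℕ) (H : Type u) [Group H] [Finite H], Nat.card H ≤ n → IsPGroup p H →
    ∀ k, Nat.card H = p ^ k → 1 < k → Group.nilpotencyClass H ≤ k - 1 := by
  intro n
  induction n with
  | zero =>
    intro H _ _ h
    exact absurd h (by simpa using (Nat.card_pos (α := H)).ne')
  | succ n ih =>
    intro H _ _ hn hH k hk hk1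
    haveI := hH.isNilpotent
    haveI : Nontrivial H := (hH.nontrivial_iff_card).2 ⟨k, by omega, hk⟩
    rw [Group.nilpotencyClass_eq_quotient_center_plus_one]
    haveI := hH.center_nontrivial
    obtain ⟨a, ha⟩ := IsPGroup.iff_card.1 (hH.to_subgroup (Subgroup.center H))
    have ha1 : a ≠ 0 := by
      rintro rfl
      exact absurd (Finite.one_lt_card (α := ↥(Subgroup.center H))) (by rw [ha, pow_zero]; exact lt_irrefl 1)
    obtain ⟨b, hb⟩ := IsPGroup.iff_card.1 (hH.to_quotient (Subgroup.center H))
    have hab : b + a = k := by
      have h := Subgroup.card_eq_card_quotient_mul_card_subgroup (Subgroup.center H)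
      rw [hk, ha, hb, ← pow_add] at h
      exact (Nat.pow_right_injective (Fact.out : p.Prime).two_le h).symm
    rcases le_or_gt b 1 with hb1 | hb1
    · haveI : IsCyclic (H ⧸ Subgroup.center H) := by
        interval_cases b
        · haveI : Subsingleton (H ⧸ Subgroup.center H) := (Nat.card_eq_one_iff_unique.1 (by simpa using hb)).1
          infer_instance
        · exact isCyclic_of_prime_card (p := p) (by simpa using hb)
      haveI := MonoidHom.isMulCommutative_of_isCyclic_of_ker_le_center (QuotientGroup.mk' (Subgroup.center H)) (by rw [QuotientGroup.ker_mk'])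
      have hz : Subgroup.center H = ⊤ := eq_top_iff.2 fun x _ => Subgroup.mem_center_iff.2 fun y => mul_comm' y x
      haveI : Subsingleton (H ⧸ Subgroup.center H) := by rw [hz]; exact QuotientGroup.subsingleton_quotient_top
      rw [Group.nilpotencyClass_zero_iff_subsingleton.2 inferInstance]
      omega
    · have hlt : Nat.card (H ⧸ Subgroup.center H) ≤ n := by
        have h4 : Nat.card (H ⧸ Subgroup.center H) < Nat.card H := by
          rw [hk, hb]
          exact Nat.pow_lt_pow_right (Fact.out : p.Prime).one_lt (by omega)
        omega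
      have := ih (H ⧸ Subgroup.center H) hlt (hH.to_quotient _) b hb hb1
      omega

/-- A finite group of prime-power order p ^ m with m > 1 is nilpotent of class at most m - 1. -/
theorem result {G : Type*} [Group G] [Finite G] (p m : ℕ) [Fact p.Prime]
    (hG : Nat.card G = p ^ m) (hm : 1 < m) : Group.nilpotencyClass G ≤ m - 1 := by
  exact key p _ G le_rfl (IsPGroup.of_card hG) m hG hm

end Cfsg.Agent.S0063
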