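import Cfsg.Statements.S0064
import Mathlib
import Cfsg.Agent.Lib.Solv.Subnormal
-- import your own Cfsg.Agent.* helpers here

set_option autoImplicit false
open Cfsg

namespace Cfsg.Agent.S0064

/-- A finite group is nilpotent exactly when each of its subgroups is subnormal. -/
theorem result {G : Type*} [Group G] [Finite G] :
    Group.IsNilpotent G ↔ ∀ H : Subgroup G, H.IsSubnormal := by
  refine ⟨fun h H => ?_, fun h => ?_⟩
  · haveI := h
    exact Cfsg.Lib.Solv.isSubnormal_of_nilpotent H
  · refine ((Group.isNilpotent_of_finite_tfae (G := G)).out 0 2 rfl rfl).2 fun H hH => ?_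
    obtain ⟨K, hKn, hHK, hKlt⟩ := (h H).exists_normal_and_le_and_lt_top_of_ne hH.1
    rcases lt_or_eq_of_le hHK with h' | h'
    · exact absurd (hH.2 K h') hKlt.ne
    · exact h' ▸ hKn

end Cfsg.Agent.S0064
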