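import Cfsg.Statements.S0069
import Mathlib
import Cfsg.Agent.Lib.Solv.FrobeniusComplement
-- import your own Cfsg.Agent.* helpers here

set_option autoImplicit false
open Cfsg

namespace Cfsg.Agent.S0069

/-- A Frobenius complement has nontrivial centre: if H ≠ 1 complements a nontrivial normal subgroup K and every nonidentity element of H has trivial centraliser in K, then the centre of H is nontrivial. -/
theorem result {G : Type*} [Group G] [Finite G] (K H : Subgroup G) [K.Normal]
    (hc : Subgroup.IsComplement' K H) (hK : K ≠ ⊥) (hH : H ≠ ⊥) (hfpf : ∀ h ∈ H, h ≠ 1 → K ⊓ Subgroup.centralizer {h} = ⊥) :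
    Subgroup.center H ≠ ⊥ := by
  obtain ⟨V, hV, hVc, hN, hf⟩ := Cfsg.Lib.Solv.FrobCompl.exists_abelian_fpf K H hc hK hH hfpf
  haveI := hVc
  exact Cfsg.Lib.Solv.FrobCompl.center_ne_bot hV hH hN hf

end Cfsg.Agent.S0069
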