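import Cfsg.Statements.S0071
import Mathlib
import Cfsg.Agent.Lib.Transfer.Frobenius
-- import your own Cfsg.Agent.* helpers here

set_option autoImplicit false
open Cfsg

namespace Cfsg.Agent.S0071

/-- The Frobenius normal p-complement Theorem states that a Sylow p-subgroup has a normal complement exactly when, for each of its subgroups Q, every element of the normalizer of Q of order prime to p centralizes Q. -/
theorem result {G : Type*} [Group G] [Finite G] {p : ℕ} [Fact p.Prime] (P : Sylow p G) : (∃ N : Subgroup G, N.Normal ∧ N.IsComplement' (P : Subgroup G)) ↔ ∀ Q : Subgroup G, Q ≤ (P : Subgroup G) → ∀ g ∈ Subgroup.normalizer (Q : Set G), Nat.Coprime (orderOf g) p → g ∈ Subgroup.centralizer (Q : Set G) := by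
  refine Iff.trans ?_ (Lib.Transfer.frobenius_iff P)
  constructor
  · rintro ⟨N, hN, h⟩
    exact ⟨P, N, hN, h⟩
  · rintro ⟨P', N, hN, h⟩
    obtain ⟨hc, k, hk⟩ := Lib.Transfer.coprime_card_of_isComplement' h
    exact ⟨N, hN, Lib.Transfer.isComplement'_sylow hc hk P⟩

end Cfsg.Agent.S0071
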