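import Cfsg.Statements.S0072
import Mathlib
import Cfsg.Agent.Lib.Transfer.Frobenius
-- import your own Cfsg.Agent.* helpers here

set_option autoImplicit false
open Cfsg

namespace Cfsg.Agent.S0072

/-- A finite group has a normal p-complement if and only if every p-local subgroup (normalizer of a nontrivial p-subgroup) has one. -/
theorem result {G : Type*} [Group G] [Finite G] (p : ℕ) [Fact p.Prime] : Cfsg.HasNormalPComplement p G ↔ ∀ Q : Subgroup G, IsPGroup p Q → Q ≠ ⊥ → Cfsg.HasNormalPComplement p (Subgroup.normalizer (Q : Set G)) := by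
  refine ⟨fun h Q _ _ => Lib.Transfer.hasNormalPComplement_subgroup _ h, fun h => ?_⟩
  obtain ⟨P⟩ := (inferInstance : Nonempty (Sylow p G))
  rw [Lib.Transfer.frobenius_iff P]
  intro Q hQ g hg hgc
  rcases eq_or_ne Q ⊥ with rfl | hQ1
  · exact Subgroup.mem_centralizer_iff.2 fun x hx => by
      rw [show x = 1 from Subgroup.mem_bot.1 hx]; simp
  have hQp : IsPGroup p Q := P.isPGroup'.to_le hQ
  have hN := h Q hQp hQ1
  obtain ⟨S, hS⟩ := IsPGroup.exists_le_sylow
    (hQp.comap_of_injective (Subgroup.normalizer (Q : Set G)).subtype Subtype.val_injective)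
  have hcond := Lib.Transfer.frobeniusCond_of_hasNormalPComplement hN S
    (Q.subgroupOf (Subgroup.normalizer (Q : Set G))) hS ⟨g, hg⟩ ?_ (by rwa [Subgroup.orderOf_mk])
  · refine Subgroup.mem_centralizer_iff.2 fun x hx => ?_
    exact congrArg Subtype.val
      (Subgroup.mem_centralizer_iff.1 hcond ⟨x, Subgroup.le_normalizer hx⟩ hx)
  · refine Subgroup.mem_normalizer_iff.2 fun x => ?_
    exact Subgroup.mem_normalizer_iff.1 hg (x : G)

end Cfsg.Agent.S0072
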