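import Cfsg.Statements.S0073
import Mathlib
import Cfsg.Agent.Lib.Transfer.Action
-- import your own Cfsg.Agent.* helpers here

set_option autoImplicit false
open Cfsg

namespace Cfsg.Agent.S0073

/-- For a finite non-abelian simple group, either the cube of the least prime divisor of the order divides the order, or 12 does. -/
theorem result {G : Type*} [Group G] [Finite G] [IsSimpleGroup G] (hG : ∃ x y : G, x * y ≠ y * x) : (Nat.card G).minFac ^ 3 ∣ Nat.card G ∨ 12 ∣ Nat.card G := by
  classical
  by_contra hcon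
  obtain ⟨h3, h12⟩ := not_or.1 hcon
  have hG1 : Nat.card G ≠ 1 := by
    intro h
    haveI := (Nat.card_eq_one_iff_unique.1 h).1
    obtain ⟨x, y, hxy⟩ := hG
    exact hxy (Subsingleton.elim _ _)
  set p := (Nat.card G).minFac with hpdef
  haveI hp : Fact p.Prime := ⟨Nat.minFac_prime hG1⟩
  let P : Sylow p G := default
  obtain ⟨e, he⟩ := IsPGroup.iff_card.1 P.isPGroup'
  have hdvd : p ^ e ∣ Nat.card G := he ▸ Subgroup.card_subgroup_dvd_card _
  have he2 : e ≤ 2 := by
    by_contra h
    exact h3 ((pow_dvd_pow p (by omega)).trans hdvd)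
  have he0 : e ≠ 0 := by
    intro h0
    refine P.not_dvd_index ?_
    have := (P : Subgroup G).card_mul_index
    rw [he, h0, pow_zero, one_mul] at this
    rw [this]; exact Nat.minFac_dvd _
  haveI hcomm : IsMulCommutative (P : Subgroup G) := by
    rcases e with _ | _ | _ | e
    · exact absurd rfl he0
    · haveI : IsCyclic (P : Subgroup G) := isCyclic_of_prime_card (p := p) (by simpa using he)
      infer_instance
    · exact IsPGroup.isMulCommutative_of_card_eq_prime_sq he
    · omega
  -- some element of the normalizer does not centralize `P`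
  have hnot : ¬ Subgroup.normalizer ((P : Subgroup G) : Set G) ≤ Subgroup.centralizer ((P : Subgroup G) : Set G) := by
    intro hle
    obtain ⟨Q, N, hN, hNQ⟩ := Lib.Transfer.hasNormalPComplement_of_normalizer_le_centralizer P hle
    have hQ : Nat.card (Q : Subgroup G) = p ^ e := by rw [← he]; exact Q.card_eq_multiplicity.trans P.card_eq_multiplicity.symm
    rcases hN.eq_bot_or_eq_top with h | h
    · subst h
      have hc := hNQ.card_mul_card
      rw [Subgroup.card_bot, one_mul, hQ, ← he] at hc
      have htop : (P : Subgroup G) = ⊤ := Subgroup.eq_top_of_card_eq _ hc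
      obtain ⟨x, y, hxy⟩ := hG
      exact hxy (congrArg Subtype.val (mul_comm' (⟨x, htop ▸ Subgroup.mem_top x⟩ : (P : Subgroup G)) ⟨y, htop ▸ Subgroup.mem_top y⟩))
    · subst h
      have hc := hNQ.card_mul_card
      rw [Subgroup.card_top, hQ] at hc
      have h1 : p ^ e = 1 := by
        have := Nat.eq_of_mul_eq_mul_left Nat.card_pos (hc.trans (mul_one _).symm)
        exact this
      exact he0 ((Nat.pow_eq_one.1 h1).resolve_left hp.out.ne_one)
  obtain ⟨g, hgN, hgC⟩ := SetLike.not_le_iff_exists.1 hnot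
  have hex : ∃ r : ℕ, r.Prime ∧ ∃ y ∈ Subgroup.zpowers g, (∃ k : ℕ, orderOf y = r ^ k) ∧
      y ∉ Subgroup.centralizer ((P : Subgroup G) : Set G) := by
    by_contra hno
    refine hgC (Lib.Transfer.mem_centralizer_of_prime_parts fun r hr y hy hk => ?_)
    by_contra hy'
    exact hno ⟨r, hr, y, hy, hk, hy'⟩
  obtain ⟨r, hr, y, hy, ⟨k, hk⟩, hyC⟩ := hex
  haveI : Fact r.Prime := ⟨hr⟩
  have hyN : y ∈ Subgroup.normalizer ((P : Subgroup G) : Set G) := Subgroup.zpowers_le.2 hgN hy
  have hrG : r ∣ Nat.card G := by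
    refine dvd_trans ?_ (orderOf_dvd_natCard y)
    rw [hk]
    refine dvd_pow_self r fun h0 => hyC ?_
    rw [h0, pow_zero, orderOf_eq_one_iff] at hk
    rw [hk]; exact one_mem _
  have hrp : r ≠ p := by
    intro h; subst h
    refine hyC ?_
    have hz : IsPGroup p (Subgroup.zpowers y) := IsPGroup.of_card (n := k) (by rw [Nat.card_zpowers, hk])
    have hsup : IsPGroup p ((P : Subgroup G) ⊔ Subgroup.zpowers y : Subgroup G) :=
      P.isPGroup'.to_sup_of_normal_left' hz (Subgroup.zpowers_le.2 hyN)
    have hyP : y ∈ (P : Subgroup G) := by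
      rw [← P.3 hsup le_sup_left]; exact Subgroup.mem_sup_right (Subgroup.mem_zpowers y)
    exact Subgroup.le_centralizer _ hyP
  have hrgt : p < r := lt_of_le_of_ne (Nat.minFac_le_of_dvd hr.two_le hrG) (Ne.symm hrp)
  have hmod := Lib.Transfer.card_modEq_card_inf_centralizer (p := r) (P : Subgroup G) (Subgroup.zpowers y)
    (IsPGroup.of_card (n := k) (by rw [Nat.card_zpowers, hk])) (Subgroup.zpowers_le.2 hyN)
  set C := (P : Subgroup G) ⊓ Subgroup.centralizer ((Subgroup.zpowers y : Subgroup G) : Set G) with hCdef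
  obtain ⟨c, hc, hcC⟩ := (Nat.dvd_prime_pow hp.out).1 (he ▸ Subgroup.card_dvd_of_le (inf_le_left : C ≤ (P : Subgroup G)))
  have hce : c < e := by
    refine lt_of_le_of_ne hc fun h => hyC ?_
    have hCP : C = (P : Subgroup G) := Subgroup.eq_of_le_of_card_ge inf_le_left (by rw [hcC, he, h])
    rw [Subgroup.mem_centralizer_iff]
    intro x hx
    have hx' : x ∈ C := hCP.symm ▸ hx
    exact (Subgroup.mem_centralizer_iff.1 hx'.2 y (Subgroup.mem_zpowers y)).symm
  rw [he, hcC] at hmod
  have hd : r ∣ p ^ e - p ^ c := (Nat.modEq_iff_dvd' (Nat.pow_le_pow_right hp.out.pos hce.le)).1 hmod.symm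
  have hd' : r ∣ p - 1 ∨ r ∣ p + 1 := by
    have hrp' : ¬ r ∣ p := fun h => hrp ((Nat.prime_dvd_prime_iff_eq hr hp.out).1 h)
    interval_cases e <;> interval_cases c
    · left; simpa using hd
    · have : p ^ 2 - p ^ 0 = (p + 1) * (p - 1) := by
        rw [pow_zero, ← Nat.sq_sub_sq, one_pow]
      rw [this] at hd
      exact ((Nat.Prime.dvd_mul hr).1 hd).symm
    · have : p ^ 2 - p ^ 1 = p * (p - 1) := by rw [pow_one, sq, Nat.mul_sub, mul_one]
      rw [this] at hd
      exact Or.inl (((Nat.Prime.dvd_mul hr).1 hd).resolve_left hrp')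
  rcases hd' with h | h
  · have := Nat.le_of_dvd (by have := hp.out.two_le; omega) h; omega
  · have hr1 : r = p + 1 := le_antisymm (Nat.le_of_dvd (by omega) h) hrgt
    have hp2 : p = 2 := by
      by_contra h2
      have ho := hp.out.odd_of_ne_two h2
      have : r = 2 := (hr.even_iff).1 (by rw [hr1]; exact ho.add_one)
      have := hp.out.two_le; omega
    have he22 : e = 2 := by
      rcases e with _ | _ | _ | e
      · exact absurd rfl he0
      · exfalso
        interval_cases c
        rw [hp2] at hd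
        exact hr.ne_one (Nat.dvd_one.1 hd)
      · rfl
      · omega
    refine h12 ?_
    rw [show (12 : ℕ) = 4 * 3 from rfl]
    refine Nat.Coprime.mul_dvd_of_dvd_of_dvd (by norm_num) ?_ ?_
    · rw [hp2, he22] at hdvd; exact hdvd
    · rw [hr1, hp2] at hrG; exact hrG

end Cfsg.Agent.S0073
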