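import Cfsg.Statements.S0074
import Mathlib
import Cfsg.Agent.Lib.Transfer.Abelian
-- import your own Cfsg.Agent.* helpers here

set_option autoImplicit false
open Cfsg

namespace Cfsg.Agent.S0074

/-- For an abelian Sylow p-subgroup P, the intersection of P with the derived subgroup of G equals its intersection with the derived subgroup of the normalizer of P. -/
theorem result {G : Type*} [Group G] [Finite G] {p : ℕ} [Fact p.Prime] (P : Sylow p G) (hP : IsMulCommutative P) : commutator G ⊓ (P : Subgroup G) = ⁅Subgroup.normalizer (P : Set G), Subgroup.normalizer (P : Set G)⁆ ⊓ (P : Subgroup G) := by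
  rw [Subgroup.commutator_inf_eq_focalSubgroup, Lib.Transfer.abelian_focal_eq P hP]
  set N := Subgroup.normalizer ((P : Subgroup G) : Set G) with hN
  refine le_antisymm (le_inf (Subgroup.commutator_mono Subgroup.le_normalizer le_rfl) ?_) ?_
  · rw [← Lib.Transfer.abelian_focal_eq P hP]; exact Subgroup.focalSubgroup_le _
  · rintro x ⟨hx, hxP⟩
    have h1 : x ∈ commutator G ⊓ (P : Subgroup G) :=
      ⟨by rw [commutator_def]; exact Subgroup.commutator_mono le_top le_top hx, hxP⟩
    rwa [Subgroup.commutator_inf_eq_focalSubgroup, Lib.Transfer.abelian_focal_eq P hP] at h1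

end Cfsg.Agent.S0074
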