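import Cfsg.Statements.S0076
import Mathlib
import Cfsg.Agent.Lib.Transfer.Frobenius
-- import your own Cfsg.Agent.* helpers here

set_option autoImplicit false
open Cfsg

namespace Cfsg.Agent.S0076

/-- Two P-invariant subsets of a Sylow p-subgroup P that are conjugate in G are conjugate under the normalizer of P. -/
theorem result {G : Type*} [Group G] [Finite G] {p : ℕ} [Fact p.Prime] (P : Sylow p G) (X Y : Set G) (hXP : X ⊆ P) (hYP : Y ⊆ P) (hX : ∀ x ∈ P, (fun y => x * y * x⁻¹) '' X = X) (hY : ∀ x ∈ P, (fun y => x * y * x⁻¹) '' Y = Y) (g : G) (hg : (fun y => g * y * g⁻¹) '' X = Y) : ∃ n ∈ Subgroup.normalizer (P : Set G), (fun y => n * y * n⁻¹) '' X = Y := by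
  have hYN : ∀ z, (∀ w, w ∈ Y ↔ z * w * z⁻¹ ∈ Y) → z ∈ Subgroup.normalizer Y := fun z hz =>
    Subgroup.mem_set_normalizer_iff.2 hz
  have key : ∀ z : G, (fun y => z * y * z⁻¹) '' Y = Y → z ∈ Subgroup.normalizer Y := by
    intro z hz
    refine hYN z fun w => ⟨fun hw => hz ▸ ⟨w, hw, rfl⟩, fun hw => ?_⟩
    obtain ⟨w', hw', e⟩ := hz.ge hw
    simp only [mul_left_inj, mul_right_inj] at e
    exact e ▸ hw'
  have h1 : (P : Subgroup G) ≤ Subgroup.normalizer Y := fun z hz => key z (hY z hz)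
  have h2 : ((g • P : Sylow p G) : Subgroup G) ≤ Subgroup.normalizer Y := by
    intro z hz
    rw [Sylow.coe_subgroup_smul, Subgroup.mem_pointwise_smul_iff_inv_smul_mem] at hz
    have hz' : g⁻¹ * z * g ∈ (P : Subgroup G) := by simpa using hz
    refine key z ?_
    rw [← hg, Set.image_image]
    conv_rhs => rw [← hX _ hz', Set.image_image]
    refine Set.image_congr fun a _ => ?_
    group
  obtain ⟨⟨y, hy⟩, hy'⟩ := MulAction.exists_smul_eq (Subgroup.normalizer Y)
    ((g • P).subtype h2) (P.subtype h1)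
  rw [Sylow.smul_subtype] at hy'
  have hy'' : y • (g • P) = P := Sylow.subtype_injective hy'
  refine ⟨y * g, Sylow.smul_eq_iff_mem_normalizer.1 (by rw [mul_smul, hy'']), ?_⟩
  have hyY : (fun w => y * w * y⁻¹) '' Y = Y := by
    ext w
    constructor
    · rintro ⟨v, hv, rfl⟩
      exact (Subgroup.mem_set_normalizer_iff.1 hy v).1 hv
    · intro hw
      refine ⟨y⁻¹ * w * y, ?_, by group⟩
      rw [Subgroup.mem_set_normalizer_iff.1 hy (y⁻¹ * w * y)]
      simpa [mul_assoc] using hw
  calc (fun w => y * g * w * (y * g)⁻¹) '' X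
      = (fun w => y * w * y⁻¹) '' ((fun w => g * w * g⁻¹) '' X) := by
        rw [Set.image_image]; exact Set.image_congr fun a _ => by group
    _ = Y := by rw [hg, hyY]

end Cfsg.Agent.S0076
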