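import Cfsg.Statements.S0077
import Mathlib
import Cfsg.Agent.Lib.Transfer.Abelian
-- import your own Cfsg.Agent.* helpers here

set_option autoImplicit false
open Cfsg

namespace Cfsg.Agent.S0077

/-- If a subgroup Z of the centre of a Sylow p-subgroup P is weakly closed in P, then P meets the derived subgroup of G exactly where it meets the derived subgroup of the normalizer of Z. -/
theorem result {G : Type*} [Group G] [Finite G] {p : ℕ} [Fact p.Prime] (P : Sylow p G) (Z : Subgroup G) (hZ : Z ≤ Subgroup.centralizer (P : Set G)) (hW : Cfsg.IsWeaklyClosed Z P) : commutator G ⊓ (P : Subgroup G) = ⁅Subgroup.normalizer (Z : Set G), Subgroup.normalizer (Z : Set G)⁆ ⊓ (P : Subgroup G) := by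
  obtain ⟨hZP, hW⟩ := hW
  set N := Subgroup.normalizer (Z : Set G) with hN
  have hPN : (P : Subgroup G) ≤ N := by
    intro u hu
    refine Subgroup.centralizer_le_normalizer _ ?_
    exact Subgroup.mem_centralizer_iff.2 fun z hz => (Subgroup.mem_centralizer_iff.1 (hZ hz) u hu).symm
  refine le_antisymm ?_ (inf_le_inf_right _ (by rw [commutator_def]; exact Subgroup.commutator_mono le_top le_top))
  refine le_inf ?_ inf_le_right
  rw [Subgroup.commutator_inf_eq_focalSubgroup]
  refine (Lib.Transfer.focalSubgroup_le_commutator_of_control ?_).trans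
    (Subgroup.commutator_mono hPN le_rfl)
  rintro x hx y hy ⟨g, hg⟩
  -- both Z and its conjugate centralize y
  set C := Subgroup.centralizer ({y} : Set G) with hC
  have hcomm : ∀ a ∈ (P : Subgroup G), ∀ z ∈ Z, a * z = z * a := fun a ha z hz =>
    Subgroup.mem_centralizer_iff.1 (hZ hz) a ha
  have hZC : Z ≤ C := fun z hz => Subgroup.mem_centralizer_iff.2 fun w hw => by
    rw [Set.mem_singleton_iff.1 hw]; exact hcomm y hy z hz
  set Z' := Z.map (MulAut.conj g).toMonoidHom with hZ'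
  have hZ'C : Z' ≤ C := by
    rintro _ ⟨z, hz, rfl⟩
    refine Subgroup.mem_centralizer_iff.2 fun w hw => ?_
    rw [Set.mem_singleton_iff.1 hw, ← hg]
    show g * x * g⁻¹ * (g * z * g⁻¹) = g * z * g⁻¹ * (g * x * g⁻¹)
    rw [show g * x * g⁻¹ * (g * z * g⁻¹) = g * (x * z) * g⁻¹ by group, hcomm x hx z hz]
    group
  have hpZ : IsPGroup p Z := P.isPGroup'.to_le hZP
  obtain ⟨T, hT⟩ := IsPGroup.exists_le_sylow (hpZ.comap_of_injective C.subtype Subtype.val_injective)
  obtain ⟨T', hT'⟩ := IsPGroup.exists_le_sylow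
    ((hpZ.map (MulAut.conj g).toMonoidHom).comap_of_injective C.subtype Subtype.val_injective)
  obtain ⟨⟨c, hc⟩, hc'⟩ := MulAction.exists_smul_eq C T' T
  obtain ⟨R, hR⟩ := T.exists_comap_subtype_eq
  obtain ⟨a, ha⟩ := MulAction.exists_smul_eq G R P
  have hRP : ∀ w : C, w ∈ (T : Subgroup C) → a * (w : G) * a⁻¹ ∈ (P : Subgroup G) := by
    intro w hw
    rw [← hR] at hw
    rw [← ha, Sylow.coe_subgroup_smul]
    exact Subgroup.smul_mem_pointwise_smul _ (MulAut.conj a) _ hw
  -- weakly closed: both conjugates equal Z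
  have h1 := hW a (by
    rintro _ ⟨z, hz, rfl⟩
    exact hRP ⟨z, hZC hz⟩ (hT hz))
  have h2 := hW (a * c * g) (by
    rintro _ ⟨z, hz, rfl⟩
    have hz' : (⟨g * z * g⁻¹, hZ'C ⟨z, hz, rfl⟩⟩ : C) ∈ (T' : Subgroup C) := hT' ⟨z, hz, rfl⟩
    have := hRP (⟨c, hc⟩ * ⟨g * z * g⁻¹, hZ'C ⟨z, hz, rfl⟩⟩ * ⟨c, hc⟩⁻¹) (by
      rw [← hc']
      exact Subgroup.smul_mem_pointwise_smul _ (MulAut.conj (⟨c, hc⟩ : C)) _ hz')
    simpa [mul_assoc] using this)
  refine ⟨c * g, ?_, ?_⟩
  · refine Subgroup.mem_normalizer_iff.2 fun z => ⟨fun hz => ?_, fun hz => ?_⟩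
    · obtain ⟨w, hw, e⟩ := h1.trans h2.symm |>.ge ⟨z, hz, rfl⟩
      have e' : a * w * a⁻¹ = a * c * g * z * (a * c * g)⁻¹ := e
      have : w = c * g * z * (c * g)⁻¹ := by
        calc w = a⁻¹ * (a * w * a⁻¹) * a := by group
          _ = _ := by rw [e']; group
      exact this ▸ hw
    · obtain ⟨w, hw, e⟩ := h1.trans h2.symm |>.le ⟨_, hz, rfl⟩
      have e' : a * c * g * w * (a * c * g)⁻¹ = a * (c * g * z * (c * g)⁻¹) * a⁻¹ := e
      have : w = z := by
        calc w = (a * c * g)⁻¹ * (a * c * g * w * (a * c * g)⁻¹) * (a * c * g) := by group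
          _ = z := by rw [e']; group
      exact this ▸ hw
  · have h4 : y * c = c * y := Subgroup.mem_centralizer_iff.1 hc y rfl
    calc c * g * x * (c * g)⁻¹ = c * (g * x * g⁻¹) * c⁻¹ := by group
      _ = y := by rw [hg, ← h4, mul_inv_cancel_right]

end Cfsg.Agent.S0077
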