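import Cfsg.Statements.S0078
import Mathlib
import Cfsg.Agent.Lib.Transfer.HallWielandt
import Cfsg.Agent.S0077
-- import your own Cfsg.Agent.* helpers here

set_option autoImplicit false
open Cfsg

namespace Cfsg.Agent.S0078

/-- In a p-normal group, a Sylow p-subgroup P meets O^p(G) exactly where it meets O^p(V), for any subgroup V containing the normalizer of the centre of P. -/
theorem result {G : Type*} [Group G] [Finite G] {p : ℕ} [Fact p.Prime] (P : Sylow p G) (hn : ∀ Q : Sylow p G, (P : Subgroup G) ⊓ Subgroup.centralizer (P : Set G) ≤ (Q : Subgroup G) → (Q : Subgroup G) ⊓ Subgroup.centralizer (Q : Set G) = (P : Subgroup G) ⊓ Subgroup.centralizer (P : Set G)) (V : Subgroup G) (hV : Subgroup.normalizer (((P : Subgroup G) ⊓ Subgroup.centralizer (P : Set G) : Subgroup G) : Set G) ≤ V) : (P : Subgroup G) ⊓ Cfsg.pResidual p G = (P : Subgroup G) ⊓ (Cfsg.pResidual p V).map V.subtype := by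
  set Z := (P : Subgroup G) ⊓ Subgroup.centralizer ((P : Subgroup G) : Set G)
  have hW : Cfsg.IsWeaklyClosed Z P := by
    refine ⟨inf_le_left, fun g hg => ?_⟩
    have h1 := hn (g⁻¹ • P) fun z hz => by
      rw [Sylow.coe_subgroup_smul]
      have h2 : g * z * g⁻¹ ∈ (P : Subgroup G) := hg ⟨z, hz, rfl⟩
      have h3 := Subgroup.smul_mem_pointwise_smul _ (MulAut.conj g⁻¹) _ h2
      simpa [MulAut.smul_def, mul_assoc] using h3
    have h4 : Z.map (MulAut.conj g⁻¹).toMonoidHom = Z := by
      refine le_antisymm ?_ ?_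
      · rw [show Z = _ from h1.symm]
        conv_lhs => rw [show (g⁻¹ • P : Sylow p G).toSubgroup ⊓ _ = Z from h1]
        rintro _ ⟨z, ⟨hzP, hzc⟩, rfl⟩
        refine ⟨?_, ?_⟩
        · rw [SetLike.mem_coe, Sylow.coe_subgroup_smul]
          exact Subgroup.smul_mem_pointwise_smul _ (MulAut.conj g⁻¹) _ hzP
        · refine Subgroup.mem_centralizer_iff.2 ?_
          intro w hw
          replace hw : w ∈ ((g⁻¹ • P : Sylow p G) : Subgroup G) := hw
          rw [Sylow.coe_subgroup_smul] at hw
          obtain ⟨v, hv, rfl⟩ := hw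
          have := Subgroup.mem_centralizer_iff.1 hzc v hv
          show (MulAut.conj g⁻¹) v * (MulAut.conj g⁻¹) z = (MulAut.conj g⁻¹) z * (MulAut.conj g⁻¹) v
          rw [← map_mul, ← map_mul, this]
      · intro z hz
        refine ⟨g * z * g⁻¹, ⟨hg ⟨z, hz, rfl⟩, ?_⟩, by simp [mul_assoc]⟩
        rw [show Z = _ from h1.symm] at hz
        refine Subgroup.mem_centralizer_iff.2 ?_
        intro w hw
        have h5 : (MulAut.conj g⁻¹) w ∈ ((g⁻¹ • P : Sylow p G) : Subgroup G) := by
          rw [Sylow.coe_subgroup_smul]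
          exact Subgroup.smul_mem_pointwise_smul _ (MulAut.conj g⁻¹) _ hw
        have h6 := Subgroup.mem_centralizer_iff.1 hz.2 _ h5
        apply (MulAut.conj g⁻¹).injective
        rw [map_mul, map_mul]
        simpa [mul_assoc] using h6
    ext x
    constructor
    · rintro ⟨z, hz, rfl⟩
      rw [← h4] at hz
      obtain ⟨w, hw, rfl⟩ := hz
      simpa [mul_assoc] using hw
    · intro hx
      refine ⟨g⁻¹ * x * g, ?_, by simp [mul_assoc]⟩
      rw [← h4]
      exact ⟨x, hx, by simp⟩
  obtain ⟨hZP, hwc⟩ := hW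
  have hSQ : (P : Subgroup G) ≤ Subgroup.normalizer (Z : Set G) :=
    fun s hs => Subgroup.mem_normalizer_fintype fun z hz => by
      have := Subgroup.mem_centralizer_iff.1 hz.2 s hs
      rw [this, mul_inv_cancel_right]; exact hz
  have hfoc := Cfsg.Agent.S0077.result P Z inf_le_right ⟨hZP, hwc⟩
  have hres := Cfsg.Lib.Transfer.HallWielandt.inf_pResidual_le P Z hZP hSQ (by
    rw [inf_comm, hfoc]
    exact inf_le_left.trans le_sup_right)
  refine le_antisymm (le_inf inf_le_left (hres.trans ?_)) (inf_le_inf_left _ (Cfsg.Lib.Transfer.map_pResidual_le V.subtype))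
  rintro _ ⟨y, hy, rfl⟩
  exact ⟨Subgroup.inclusion hV y, Cfsg.Lib.Transfer.map_pResidual_le (Subgroup.inclusion hV) ⟨y, hy, rfl⟩, rfl⟩

end Cfsg.Agent.S0078
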