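import Cfsg.Statements.S0079
import Mathlib
import Cfsg.Agent.Lib.Transfer.NilpotentHall
-- import your own Cfsg.Agent.* helpers here

set_option autoImplicit false
open Cfsg

namespace Cfsg.Agent.S0079

/-- A nilpotent Hall subgroup has a normal complement exactly when elements of it that are conjugate in the whole group are already conjugate inside it. -/
theorem result {G : Type*} [Group G] [Finite G] (H : Subgroup G) (hH : Group.IsNilpotent H) (hHall : Nat.Coprime (Nat.card H) H.index) : (∃ N : Subgroup G, N.Normal ∧ N.IsComplement' H) ↔ ∀ x ∈ H, ∀ y ∈ H, (∃ g : G, g * x * g⁻¹ = y) → ∃ h ∈ H, h * x * h⁻¹ = y := by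
  refine ⟨?_, Lib.Transfer.exists_normal_complement_of_controls H hH hHall⟩
  rintro ⟨N, hN, hc⟩ x hx y hy ⟨g, hg⟩
  obtain ⟨⟨n, h⟩, hnh, -⟩ := Subgroup.isComplement_iff_existsUnique.1 hc g
  refine ⟨h, h.2, ?_⟩
  have hh : (h : G) * x * (h : G)⁻¹ ∈ H := mul_mem (mul_mem h.2 hx) (inv_mem h.2)
  have e : y = (n : G) * ((h : G) * x * (h : G)⁻¹) * (n : G)⁻¹ := by
    rw [← hg, ← hnh]; group
  have hd : ((h : G) * x * (h : G)⁻¹)⁻¹ * y ∈ N ⊓ H := by
    refine ⟨?_, mul_mem (Subgroup.inv_mem _ hh) hy⟩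
    rw [e]
    have := mul_mem (hN.conj_mem _ n.2 ((h : G) * x * (h : G)⁻¹)⁻¹) (inv_mem n.2)
    simpa [mul_assoc] using this
  rw [hc.disjoint.eq_bot, Subgroup.mem_bot, inv_mul_eq_one] at hd
  exact hd

end Cfsg.Agent.S0079
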