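import Cfsg.Statements.S0080
import Mathlib
import Cfsg.Agent.Lib.Transfer.Frobenius
-- import your own Cfsg.Agent.* helpers here

set_option autoImplicit false
open Cfsg

namespace Cfsg.Agent.S0080

/-- When the index of H is prime to the order of H/H', the focal subgroup of H is G' ∩ H, and H/(G' ∩ H) has a normal complement. -/
theorem result {G : Type*} [Group G] [Finite G] (H : Subgroup G) (h : Nat.Coprime H.index (⁅H, H⁆.relIndex H)) : Subgroup.focalSubgroup H = commutator G ⊓ H ∧ ∃ N : Subgroup G, N.Normal ∧ N ⊓ H = commutator G ⊓ H ∧ N ⊔ H = ⊤ := by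
  set F := H.focalSubgroupOf with hF
  have hd : Nat.card (H ⧸ F) ∣ ⁅H, H⁆.relIndex H := by
    rw [← Subgroup.index_eq_card]
    refine Subgroup.index_dvd_of_le ?_
    intro z hz
    exact Subgroup.commutator_le_focalSubgroup H hz
  have hcop : (Nat.card (H ⧸ F)).Coprime H.index := (Nat.Coprime.coprime_dvd_right hd h).symm
  have hker : ∀ x : H, (x : G) ∈ H.transferFocal.ker → x ∈ F := by
    intro x hx
    rw [MonoidHom.mem_ker, Subgroup.transferFocal_eq_pow] at hx
    rw [← QuotientGroup.eq_one_iff, ← orderOf_eq_one_iff]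
    exact Nat.eq_one_of_dvd_coprimes hcop (orderOf_dvd_natCard _) (orderOf_dvd_of_pow_eq_one hx)
  have hle : commutator G ≤ H.transferFocal.ker := by
    open scoped IsMulCommutative in exact Abelianization.commutator_subset_ker _
  have h1 : H.focalSubgroup = commutator G ⊓ H := by
    refine le_antisymm (le_inf H.focalSubgroup_le_commutator H.focalSubgroup_le) ?_
    rintro x ⟨hx, hxH⟩
    exact hker ⟨x, hxH⟩ (hle hx)
  refine ⟨h1, H.transferFocal.ker, inferInstance, ?_, ?_⟩
  · refine le_antisymm ?_ (inf_le_inf_right _ hle)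
    rintro x ⟨hx, hxH⟩
    rw [← h1]
    exact hker ⟨x, hxH⟩ hx
  · rw [eq_top_iff]
    intro x _
    obtain ⟨q, hq⟩ := (powCoprime hcop).surjective (H.transferFocal x)
    obtain ⟨y, rfl⟩ := QuotientGroup.mk'_surjective F q
    rw [powCoprime_apply] at hq
    refine Subgroup.mem_sup_of_normal_left.2 ⟨x * (y : G)⁻¹, ?_, y, y.2, by group⟩
    rw [MonoidHom.mem_ker, map_mul, map_inv, Subgroup.transferFocal_eq_pow, mul_inv_eq_one]
    exact hq.symm

end Cfsg.Agent.S0080
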