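import Cfsg.Statements.S0082
import Mathlib
import Cfsg.Agent.Lib.Transfer.Action
-- import your own Cfsg.Agent.* helpers here

set_option autoImplicit false
open Cfsg

namespace Cfsg.Agent.S0082

/-- With a cyclic Sylow p-subgroup, either there is a normal p-complement or the elements of order prime to p generate the whole group. -/
theorem result {G : Type*} [Group G] [Finite G] {p : ℕ} [Fact p.Prime] (P : Sylow p G) (hP : IsCyclic P) : Cfsg.HasNormalPComplement p G ∨ Cfsg.pResidual p G = ⊤ := by
  refine or_iff_not_imp_left.2 fun hno => ?_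
  obtain ⟨g, hg, hgc⟩ : ∃ g ∈ Subgroup.normalizer ((P : Subgroup G) : Set G),
      (orderOf g).Coprime p ∧ g ∉ Subgroup.centralizer (P : Set G) := by
    by_contra hcon
    push Not at hcon
    refine hno (Lib.Transfer.hasNormalPComplement_of_normalizer_le_centralizer P fun x hx => ?_)
    obtain ⟨u, hu, hxu⟩ := Lib.Transfer.exists_centralizer_mul_of_isPGroup P (P : Subgroup G)
      hcon (fun hd => P.not_dvd_index (hd.trans (by
        rw [Subgroup.inf_relIndex_right]
        exact Subgroup.relIndex_dvd_index_of_le Subgroup.le_normalizer))) hx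
    have huC : u ∈ Subgroup.centralizer (P : Set G) := by
      haveI := hP
      refine Subgroup.mem_centralizer_iff.2 fun a ha => ?_
      open scoped IsMulCommutative in
      exact congrArg Subtype.val (mul_comm (⟨a, ha⟩ : (P : Subgroup G)) ⟨u, hu⟩)
    have := mul_mem hxu huC
    rwa [inv_mul_cancel_right] at this
  have hPc : (P : Subgroup G) ≤ commutator G := by
    rcases Lib.Transfer.cyclic_coprime_action P.isPGroup' hP hg hgc.1 with h | h
    · exact absurd h hgc.2
    · exact h.trans (by rw [commutator_def]; exact Subgroup.commutator_mono le_top le_top)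
  haveI := Lib.Transfer.pResidual_normal (G := G) p
  have hq : commutator (G ⧸ Cfsg.pResidual p G) = ⊤ := by
    have hmap : (commutator G).map (QuotientGroup.mk' (Cfsg.pResidual p G)) =
        commutator (G ⧸ Cfsg.pResidual p G) := by
      rw [commutator_def, commutator_def, Subgroup.map_commutator,
        Subgroup.map_top_of_surjective _ (QuotientGroup.mk'_surjective _)]
    have htop : commutator G ⊔ Cfsg.pResidual p G = ⊤ := by
      rw [eq_top_iff, ← Lib.Transfer.pResidual_sup_sylow P]
      exact sup_le le_sup_right (hPc.trans le_sup_left)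
    have := congrArg (Subgroup.map (QuotientGroup.mk' (Cfsg.pResidual p G))) htop
    rwa [Subgroup.map_sup, hmap, QuotientGroup.map_mk'_self, sup_bot_eq,
      Subgroup.map_top_of_surjective _ (QuotientGroup.mk'_surjective _)] at this
  have hnil := (Lib.Transfer.isPGroup_quotient_of_pResidual_le (Cfsg.pResidual p G) le_rfl).isNilpotent
  haveI : Group.IsSolvable (G ⧸ Cfsg.pResidual p G) := by haveI := hnil; infer_instance
  by_contra hne
  haveI : Nontrivial (G ⧸ Cfsg.pResidual p G) := QuotientGroup.nontrivial_iff.2 hne
  exact (IsSolvable.commutator_lt_top_of_nontrivial (G ⧸ Cfsg.pResidual p G)).ne hq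

end Cfsg.Agent.S0082
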