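import Cfsg.Statements.S0083
import Mathlib
import Cfsg.Agent.Lib.Transfer.Action
-- import your own Cfsg.Agent.* helpers here

set_option autoImplicit false
open Cfsg

namespace Cfsg.Agent.S0083

/-- For an abelian Sylow p-subgroup P, a normal p-complement exists exactly when the normalizer of P is an internal direct product of P with some subgroup. -/
theorem result {G : Type*} [Group G] [Finite G] {p : ℕ} [Fact p.Prime] (P : Sylow p G) (hP : IsMulCommutative P) : Cfsg.HasNormalPComplement p G ↔ ∃ Q : Subgroup G, Q ≤ Subgroup.centralizer (P : Set G) ∧ Q ⊓ (P : Subgroup G) = ⊥ ∧ Q ⊔ (P : Subgroup G) = Subgroup.normalizer (P : Set G) := by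
  constructor
  · intro h
    have hN := Lib.Transfer.hasNormalPComplement_subgroup
      (Subgroup.normalizer ((P : Subgroup G) : Set G)) h
    obtain ⟨P', N, hNn, hc⟩ := hN
    haveI := hNn
    obtain ⟨hco, k, hk⟩ := Lib.Transfer.coprime_card_of_isComplement' hc
    have hcc := Lib.Transfer.isComplement'_sylow hco hk
      (P.subtype (Subgroup.le_normalizer (H := (P : Subgroup G))))
    refine ⟨N.map (Subgroup.subtype _), ?_, ?_, ?_⟩
    · rintro _ ⟨x, hx, rfl⟩
      exact Lib.Transfer.frobeniusCond_of_hasNormalPComplement h P _ le_rfl _ x.2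
        (by rw [Subgroup.coe_subtype, Subgroup.orderOf_coe]
            exact (Lib.Transfer.mem_iff_coprime_of_complement hco hk x).1 hx)
    · rw [eq_bot_iff]
      rintro _ ⟨⟨x, hx, rfl⟩, hxP⟩
      have : x ∈ N ⊓ ((P.subtype Subgroup.le_normalizer :
          Sylow p (Subgroup.normalizer ((P : Subgroup G) : Set G))) : Subgroup _) := ⟨hx, hxP⟩
      rw [hcc.disjoint.eq_bot, Subgroup.mem_bot] at this
      simp [this]
    · have := congrArg (Subgroup.map (Subgroup.subtype _)) hcc.sup_eq_top
      rwa [Subgroup.map_sup, ← MonoidHom.range_eq_map, Subgroup.range_subtype, Sylow.coe_subtype,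
        Subgroup.map_subgroupOf_eq_of_le Subgroup.le_normalizer] at this
  · rintro ⟨Q, hQ, -, hQP⟩
    refine Lib.Transfer.hasNormalPComplement_of_normalizer_le_centralizer P ?_
    show Subgroup.normalizer (P : Set G) ≤ _
    rw [← hQP]
    exact sup_le hQ (Subgroup.le_centralizer_iff_isMulCommutative.2 hP)

end Cfsg.Agent.S0083
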