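import Cfsg.Statements.S0085
import Mathlib
import Cfsg.Agent.Lib.Transfer.Action
-- import your own Cfsg.Agent.* helpers here

set_option autoImplicit false
open Cfsg

namespace Cfsg.Agent.S0085

/-- A group whose Sylow 2-subgroups are elementary abelian of order 8 and whose order is prime to 3 and to 7 has a normal 2-complement. -/
theorem result {G : Type*} [Group G] [Finite G] (T : Sylow 2 G) (h8 : Nat.card T = 8) (he : ∀ x : T, x * x = 1) (h3 : ¬ 3 ∣ Nat.card G) (h7 : ¬ 7 ∣ Nat.card G) : Cfsg.HasNormalPComplement 2 G := by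
  have hab : IsMulCommutative T :=
    ⟨⟨fun a b => by
      have ha : a⁻¹ = a := inv_eq_of_mul_eq_one_left (he a)
      have hb : b⁻¹ = b := inv_eq_of_mul_eq_one_left (he b)
      have hab : (a * b)⁻¹ = a * b := inv_eq_of_mul_eq_one_left (he _)
      rw [mul_inv_rev, ha, hb] at hab
      exact hab.symm⟩⟩
  refine Lib.Transfer.hasNormalPComplement_of_normalizer_le_centralizer T fun g hg => ?_
  refine Lib.Transfer.mem_centralizer_of_prime_parts fun r hr y hy hyr => ?_
  haveI := Fact.mk hr
  obtain ⟨k, hk⟩ := hyr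
  have hyN : y ∈ Subgroup.normalizer ((T : Subgroup G) : Set G) :=
    Subgroup.zpowers_le.2 hg hy
  rcases eq_or_ne r 2 with rfl | hr2
  · have hp2 : IsPGroup 2 (Subgroup.zpowers y) := IsPGroup.of_card (n := k) (by rw [Nat.card_zpowers, hk])
    have := hp2.inf_normalizer_sylow T
    have hyT : y ∈ (T : Subgroup G) :=
      (this.le ⟨Subgroup.mem_zpowers y, hyN⟩).2
    exact Subgroup.le_centralizer_iff_isMulCommutative.2 hab hyT
  · have hp : IsPGroup r (Subgroup.zpowers y) := IsPGroup.of_card (n := k) (by rw [Nat.card_zpowers, hk])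
    have hm := Lib.Transfer.card_modEq_card_inf_centralizer (T : Subgroup G) (Subgroup.zpowers y) hp
      (Subgroup.zpowers_le.2 hyN)
    have hdvd := Subgroup.card_dvd_of_le
      (inf_le_left : (T : Subgroup G) ⊓ Subgroup.centralizer (Subgroup.zpowers y : Set G) ≤ T)
    rw [show Nat.card (T : Subgroup G) = 8 from h8] at hm hdvd
    set c := Nat.card ↥((T : Subgroup G) ⊓ Subgroup.centralizer (Subgroup.zpowers y : Set G)) with hc
    have hkey : c = 8 := by
      have hcle : c ≤ 8 := Nat.le_of_dvd (by norm_num) hdvd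
      have hd : r ∣ 8 - c := (Nat.modEq_iff_dvd' hcle).1 hm.symm
      by_contra hne
      rcases eq_or_ne k 0 with hk0 | hk0
      · rw [hk0, pow_zero, orderOf_eq_one_iff] at hk
        subst hk
        apply hne
        rw [hc, Subgroup.zpowers_one_eq_bot, inf_eq_left.2 (fun a _ =>
          Subgroup.mem_centralizer_iff.2 fun b hb => by
            rw [show b = 1 from Subgroup.mem_bot.1 hb]; simp)]
        exact h8
      have hr3 : r ∣ Nat.card G :=
        (dvd_pow_self r hk0).trans (hk ▸ orderOf_dvd_natCard y)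
      have hne3 : r ≠ 3 := fun e => h3 (e ▸ hr3)
      have hne7 : r ≠ 7 := fun e => h7 (e ▸ hr3)
      have hc8 : c = 1 ∨ c = 2 ∨ c = 4 := by
        have := Nat.divisors_prime_pow Nat.prime_two 3
        have hmem : c ∈ Nat.divisors 8 := Nat.mem_divisors.2 ⟨hdvd, by norm_num⟩
        have : Nat.divisors 8 = {1, 2, 4, 8} := by decide
        rw [this] at hmem
        simp only [Finset.mem_insert, Finset.mem_singleton] at hmem
        omega
      have := hr.two_le
      have hrle : r ≤ 7 := Nat.le_trans (Nat.le_of_dvd (by omega) hd) (by omega)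
      rcases hc8 with h | h | h <;> rw [h] at hd <;> interval_cases r <;> norm_num at *
    have heq := Subgroup.eq_of_le_of_card_ge
      (inf_le_left : (T : Subgroup G) ⊓ Subgroup.centralizer (Subgroup.zpowers y : Set G) ≤ T)
      (by rw [← hc, hkey]; exact h8.le)
    refine Subgroup.mem_centralizer_iff.2 fun a ha => ?_
    exact (Subgroup.mem_centralizer_iff.1 (heq.ge ha).2 y (Subgroup.mem_zpowers y)).symm

end Cfsg.Agent.S0085
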