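import Cfsg.Statements.S0087
import Mathlib
import Cfsg.Agent.Lib.Transfer.NilpotentHall
-- import your own Cfsg.Agent.* helpers here

set_option autoImplicit false
open Cfsg

namespace Cfsg.Agent.S0087

/-- A Hall subgroup that is central in its normalizer has a normal complement. -/
theorem result {G : Type*} [Group G] [Finite G] (H : Subgroup G) (hHall : Nat.Coprime (Nat.card H) H.index) (h : Subgroup.normalizer (H : Set G) ≤ Subgroup.centralizer (H : Set G)) : ∃ N : Subgroup G, N.Normal ∧ N.IsComplement' H := by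
  have hc : IsMulCommutative H :=
    Subgroup.le_centralizer_iff_isMulCommutative.1 (Subgroup.le_normalizer.trans h)
  have hnil : Group.IsNilpotent H := by
    haveI := hc
    open scoped IsMulCommutative in infer_instance
  refine Lib.Transfer.exists_normal_complement_of_controls H hnil hHall ?_
  rintro x hx y hy ⟨g, hg⟩
  refine ⟨1, one_mem _, ?_⟩
  set C := Subgroup.centralizer ({y} : Set G) with hC
  set H' := H.map (MulAut.conj g).toMonoidHom with hH'
  have hcomm : ∀ a ∈ H, ∀ b ∈ H, a * b = b * a := fun a ha b hb =>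
    (Subgroup.mem_centralizer_iff.1 ((Subgroup.le_normalizer.trans h) hb) a ha)
  have hHC : H ≤ C := fun z hz => Subgroup.mem_centralizer_iff.2 fun w hw => by
    rw [Set.mem_singleton_iff] at hw; subst hw; exact hcomm _ hy z hz
  have hH'C : H' ≤ C := by
    rintro _ ⟨z, hz, rfl⟩
    refine Subgroup.mem_centralizer_iff.2 fun w hw => ?_
    rw [Set.mem_singleton_iff] at hw
    rw [hw, ← hg]
    show g * x * g⁻¹ * (g * z * g⁻¹) = g * z * g⁻¹ * (g * x * g⁻¹)
    rw [show g * x * g⁻¹ * (g * z * g⁻¹) = g * (x * z) * g⁻¹ by group, hcomm x hx z hz]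
    group
  obtain ⟨⟨c, hc'⟩, hcH⟩ := Lib.Transfer.nilpotent_hall_conj (H'.subgroupOf C) (H.subgroupOf C)
    ((Group.isNilpotent_congr (Subgroup.subgroupOfEquivOfLe hH'C)).2
      (Lib.Transfer.isNilpotent_map_conj hnil g))
    ((Group.isNilpotent_congr (Subgroup.subgroupOfEquivOfLe hHC)).2 hnil)
    (by rw [Nat.card_congr (Subgroup.subgroupOfEquivOfLe hH'C).toEquiv,
      Nat.card_congr (Subgroup.subgroupOfEquivOfLe hHC).toEquiv]
        exact Subgroup.card_map_of_injective (MulAut.conj g).injective)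
    (by
      rw [Nat.card_congr (Subgroup.subgroupOfEquivOfLe hH'C).toEquiv]
      refine Nat.Coprime.coprime_dvd_right (Subgroup.relIndex_dvd_index_of_le hH'C) ?_
      rw [hH', Subgroup.card_map_of_injective (MulAut.conj g).injective]
      exact (Subgroup.index_map_equiv H (MulAut.conj g)).symm ▸ hHall)
  have hcH' : H = H'.map (MulAut.conj c).toMonoidHom := by
    have := congrArg (Subgroup.map C.subtype) hcH
    rwa [Subgroup.map_subgroupOf_eq_of_le hHC, Subgroup.map_map,
      show C.subtype.comp (MulAut.conj (⟨c, hc'⟩ : C)).toMonoidHom =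
        (MulAut.conj c).toMonoidHom.comp C.subtype from rfl,
      ← Subgroup.map_map, Subgroup.map_subgroupOf_eq_of_le hH'C] at this
  rw [hH', Lib.Transfer.map_conj_map_conj] at hcH'
  have hN : c * g ∈ Subgroup.normalizer (H : Set G) := by
    refine Subgroup.mem_normalizer_iff.2 fun z => ⟨fun hz => hcH'.ge ⟨z, hz, rfl⟩, fun hz => ?_⟩
    obtain ⟨w, hw, e⟩ := hcH'.le hz
    have e' : c * g * w * (c * g)⁻¹ = c * g * z * (c * g)⁻¹ := e
    rw [mul_left_inj, mul_right_inj] at e'
    exact e' ▸ hw
  have h1 : x * (c * g) = c * g * x := Subgroup.mem_centralizer_iff.1 (h hN) x hx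
  have h2 : y * c = c * y := Subgroup.mem_centralizer_iff.1 hc' y rfl
  have h3 : c * y * c⁻¹ = x := by
    rw [← hg, show c * (g * x * g⁻¹) * c⁻¹ = (c * g) * x * (c * g)⁻¹ by group, ← h1,
      mul_inv_cancel_right]
  rw [← h2, mul_inv_cancel_right] at h3
  simp [h3]

end Cfsg.Agent.S0087
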