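import Cfsg.Statements.S0088
import Mathlib
-- import your own Cfsg.Agent.* helpers here

set_option autoImplicit false
open Cfsg

namespace Cfsg.Agent.S0088

/-- An abelian Hall subgroup meets G' ∩ Z(G) trivially. -/
theorem result {G : Type*} [Group G] [Finite G] (H : Subgroup G) (hc : IsMulCommutative H) (hHall : Nat.Coprime (Nat.card H) H.index) : H ⊓ commutator G ⊓ Subgroup.center G = ⊥ := by
  rw [eq_bot_iff]
  rintro x ⟨⟨hxH, hxc⟩, hxZ⟩
  haveI := hc
  open scoped IsMulCommutative in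
  have h0 : MonoidHom.transfer (MonoidHom.id H) x = 1 :=
    Abelianization.commutator_subset_ker _ hxc
  open scoped IsMulCommutative in
  rw [MonoidHom.transfer_eq_pow (MonoidHom.id H) x (fun k g₀ hk => by
    have hcm : g₀ * x ^ k = x ^ k * g₀ :=
      Subgroup.mem_center_iff.1 (pow_mem hxZ k) g₀
    calc g₀⁻¹ * x ^ k * g₀ = g₀⁻¹ * (g₀ * x ^ k) := by rw [hcm, mul_assoc]
      _ = x ^ k := by group)] at h0
  have h1 : x ^ H.index = 1 := congrArg Subtype.val h0
  rw [Subgroup.mem_bot, ← orderOf_eq_one_iff]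
  exact Nat.eq_one_of_dvd_coprimes hHall (Subgroup.orderOf_dvd_natCard _ hxH) (orderOf_dvd_of_pow_eq_one h1)

end Cfsg.Agent.S0088
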