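import Cfsg.Statements.S0089
import Mathlib
import Cfsg.Agent.Lib.Transfer.Basic
import Cfsg.Agent.S0088
-- import your own Cfsg.Agent.* helpers here

set_option autoImplicit false
open Cfsg

namespace Cfsg.Agent.S0089

/-- When all Sylow subgroups are abelian, the derived subgroup meets the centre trivially. -/
theorem result {G : Type*} [Group G] [Finite G] (h : ∀ p : ℕ, p.Prime → ∀ P : Sylow p G, IsMulCommutative P) : commutator G ⊓ Subgroup.center G = ⊥ := by
  rw [eq_bot_iff]
  rintro x ⟨hxc, hxZ⟩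
  refine Lib.Transfer.mem_of_forall_pow_ordCompl_mem fun p hp => ?_
  haveI := Fact.mk hp
  have hy : IsPGroup p (Subgroup.zpowers (x ^ ordCompl[p] (orderOf x))) := by
    refine IsPGroup.of_card (n := (orderOf x).factorization p) ?_
    rw [Nat.card_zpowers, orderOf_pow_of_dvd (Nat.ordCompl_pos p (orderOf_pos x).ne').ne'
      (Nat.ordCompl_dvd _ _), Nat.div_div_self (Nat.ordProj_dvd _ _) (orderOf_pos x).ne']
  obtain ⟨P, hP⟩ := hy.exists_le_sylow
  rw [← Cfsg.Agent.S0088.result (P : Subgroup G) (h p hp P) P.card_coprime_index]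
  exact ⟨⟨hP (Subgroup.mem_zpowers _), pow_mem hxc _⟩, pow_mem hxZ _⟩

end Cfsg.Agent.S0089
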