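import Cfsg.Statements.S0090
import Mathlib
import Cfsg.Agent.Lib.Transfer.Abelian
import Cfsg.Agent.S0088
-- import your own Cfsg.Agent.* helpers here

set_option autoImplicit false
open Cfsg

namespace Cfsg.Agent.S0090

/-- An abelian normal Hall subgroup A splits as the internal direct product of G' ∩ A and Z(G) ∩ A, and [A, G] = G' ∩ A. -/
theorem result {G : Type*} [Group G] [Finite G] (A : Subgroup G) [A.Normal] (hc : IsMulCommutative A) (hHall : Nat.Coprime (Nat.card A) A.index) : ⁅A, (⊤ : Subgroup G)⁆ = commutator G ⊓ A ∧ (commutator G ⊓ A) ⊓ (Subgroup.center G ⊓ A) = ⊥ ∧ (commutator G ⊓ A) ⊔ (Subgroup.center G ⊓ A) = A := by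
  have h1 : ⁅A, (⊤ : Subgroup G)⁆ ≤ commutator G ⊓ A :=
    le_inf (by rw [commutator_def]; exact Subgroup.commutator_mono le_top le_rfl)
      (Subgroup.commutator_le_left A ⊤)
  have h2 := Lib.Transfer.abelian_normal_hall_sup A hc hHall
  have hbot := Cfsg.Agent.S0088.result A hc hHall
  have h3 : commutator G ⊓ A ≤ ⁅A, (⊤ : Subgroup G)⁆ := by
    rintro x ⟨hx, hxA⟩
    obtain ⟨t, ht, z, hz, rfl⟩ := Subgroup.mem_sup_of_normal_left.1 (h2 hxA)
    have hzc : z ∈ commutator G := by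
      have := mul_mem (Subgroup.inv_mem _ (h1 ht).1) hx
      simpa using this
    have : z ∈ A ⊓ commutator G ⊓ Subgroup.center G := ⟨⟨hz.2, hzc⟩, hz.1⟩
    rw [hbot, Subgroup.mem_bot] at this
    simpa [this] using ht
  refine ⟨le_antisymm h1 h3, ?_, le_antisymm (sup_le inf_le_right inf_le_right) ?_⟩
  · rw [eq_bot_iff, ← hbot]
    rintro x ⟨⟨hx, hxA⟩, hxZ, -⟩
    exact ⟨⟨hxA, hx⟩, hxZ⟩
  · exact h2.trans (sup_le_sup_right h1 _)

end Cfsg.Agent.S0090
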