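import Cfsg.Statements.S0092
import Mathlib
import Cfsg.Agent.Lib.Transfer.Abelian
import Cfsg.Agent.Lib.Solv.SchurZassenhaus
import Cfsg.Agent.S0088
-- import your own Cfsg.Agent.* helpers here

set_option autoImplicit false
open Cfsg
open scoped commutatorElement Pointwise

namespace Cfsg.Agent.S0092

/-- If the Sylow p-subgroups of O^p(G) are abelian then G splits over O^p(G). -/
theorem result {G : Type*} [Group G] [Finite G] {p : ℕ} [Fact p.Prime] (h : ∀ Q : Sylow p (Cfsg.pResidual p G), IsMulCommutative Q) : ∃ K : Subgroup G, K.IsComplement' (Cfsg.pResidual p G) := by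
  classical
  set N := Cfsg.pResidual p G with hNdef
  haveI : N.Normal := Lib.Transfer.pResidual_normal p
  have hres : Cfsg.pResidual p N = ⊤ := by
    refine Subgroup.map_injective N.subtype_injective (le_antisymm (Subgroup.map_mono le_top) ?_)
    rw [← MonoidHom.range_eq_map, Subgroup.range_subtype]
    conv_lhs => rw [hNdef]
    refine (Subgroup.closure_le _).2 fun g hg => ?_
    exact ⟨⟨g, Lib.Transfer.coprime_orderOf_mem_pResidual hg⟩,
      Lib.Transfer.coprime_orderOf_mem_pResidual (by rwa [← Subgroup.orderOf_coe]), rfl⟩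
  obtain ⟨P0⟩ := (inferInstance : Nonempty (Sylow p N))
  have hab := h P0
  set Q := (P0 : Subgroup N).map N.subtype with hQdef
  set H := Subgroup.normalizer (Q : Set G) with hHdef
  set M := N ⊓ H with hMdef
  have hQN : Q ≤ N := Subgroup.map_subtype_le _
  have hQM : Q ≤ M := le_inf hQN Subgroup.le_normalizer
  set A := Q.subgroupOf M with hAdef
  haveI : A.Normal := ⟨fun a ha m => by
    rw [Subgroup.mem_subgroupOf] at ha ⊢
    exact (Subgroup.mem_normalizer_iff.1 m.2.2 _).1 ha⟩
  have hQc : ∀ x ∈ Q, ∀ y ∈ Q, x * y = y * x := by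
    rintro _ ⟨x, hx, rfl⟩ _ ⟨y, hy, rfl⟩
    exact congrArg (fun z : N => (z : G)) (congrArg Subtype.val
      (hab.is_comm.comm (⟨x, hx⟩ : (P0 : Subgroup N)) ⟨y, hy⟩))
  have hAc : IsMulCommutative A := ⟨⟨fun a b => Subtype.ext (Subtype.ext (hQc _ a.2 _ b.2))⟩⟩
  haveI := hAc
  obtain ⟨e, he⟩ := IsPGroup.iff_card.1 (P0.isPGroup'.map N.subtype)
  have hAcard : Nat.card A = p ^ e := by rw [Nat.card_congr (Subgroup.subgroupOfEquivOfLe hQM).toEquiv, he]
  have hndvd : ¬ p ∣ A.index := by
    intro hd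
    refine P0.not_dvd_index (hd.trans ?_)
    have h1 := Subgroup.relIndex_mul_relIndex Q M N hQM inf_le_left
    have h2 : Q.relIndex N = (P0 : Subgroup N).index := by
      rw [Subgroup.relIndex, hQdef, Subgroup.subgroupOf, Subgroup.comap_map_eq_self_of_injective N.subtype_injective]
    exact h2 ▸ h1 ▸ dvd_mul_right _ _
  have hHall : (Nat.card A).Coprime A.index := by
    rw [hAcard]; exact (((Fact.out : p.Prime).coprime_iff_not_dvd).2 hndvd).pow_left e
  -- no nontrivial element of `A` is central in `M`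
  have hcen : A ⊓ Subgroup.center M = ⊥ := by
    rw [← Cfsg.Agent.S0088.result A hAc hHall]
    refine le_antisymm (le_inf (le_inf inf_le_left ?_) inf_le_right) (le_inf (inf_le_left.trans inf_le_left) inf_le_right)
    intro a ha
    have h1 := Lib.Transfer.abelian_inf_pResidual P0 hab
    rw [hres, inf_top_eq] at h1
    have h2 : Q ≤ ⁅M, M⁆ := by
      rw [hQdef, h1, Subgroup.map_commutator]
      refine Subgroup.commutator_mono hQM (le_inf (Subgroup.map_subtype_le _) ?_)
      refine le_trans (Subgroup.le_normalizer_map _) ?_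
      exact le_of_eq (by rw [hHdef, hQdef])
    rw [← Subgroup.map_subtype_commutator] at h2
    obtain ⟨w, hw, e⟩ := h2 ha.1
    exact (Subtype.ext e : w = a) ▸ hw
  obtain ⟨W, hW⟩ := Subgroup.exists_right_complement'_of_coprime hHall
  set Wg := W.map M.subtype with hWg
  have hWM : Wg ≤ M := Subgroup.map_subtype_le _
  have hWcop : (Nat.card Wg).Coprime p := by
    rw [Subgroup.card_map_of_injective M.subtype_injective]
    have := hW.card_mul_card
    rw [← A.card_mul_index] at this
    rw [Nat.eq_of_mul_eq_mul_left Nat.card_pos this]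
    exact (((Fact.out : p.Prime).coprime_iff_not_dvd).2 hndvd).symm
  set L := Subgroup.normalizer (Wg : Set G) ⊓ H with hLdef
  have hLN : L ⊓ N ≤ Wg := by
    intro m hm
    have hmM : m ∈ M := ⟨hm.2, hm.1.2⟩
    obtain ⟨⟨a, w⟩, haw⟩ := hW.2 ⟨m, hmM⟩
    have haw' : ((a : M) : G) * ((w : M) : G) = m := congrArg Subtype.val haw
    have hwN : ((w : M) : G) ∈ Subgroup.normalizer (Wg : Set G) := Subgroup.le_normalizer ⟨w, w.2, rfl⟩
    have haN : ((a : M) : G) ∈ Subgroup.normalizer (Wg : Set G) := by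
      rw [show ((a : M) : G) = m * ((w : M) : G)⁻¹ by rw [← haw']; group]
      exact mul_mem hm.1.1 (inv_mem hwN)
    have hcomm : ∀ v ∈ W, (a : M) * v = v * (a : M) := by
      intro v hv
      rw [← commutatorElement_eq_one_iff_mul_comm, ← Subgroup.mem_bot, ← disjoint_iff.1 hW.disjoint]
      refine ⟨?_, ?_⟩
      · rw [commutatorElement_def, mul_assoc (a : M) v, mul_assoc (a : M)]
        exact mul_mem a.2 ((inferInstance : A.Normal).conj_mem _ (inv_mem a.2) v)
      · obtain ⟨v', hv', e'⟩ := (Subgroup.mem_normalizer_iff.1 haN ((v : M) : G)).1 ⟨v, hv, rfl⟩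
        have : ⁅(a : M), v⁆ = v' * v⁻¹ := by
          rw [commutatorElement_def]
          congr 1
          exact Subtype.ext e'.symm
        rw [this]
        show v' * v⁻¹ ∈ W
        exact mul_mem hv' (inv_mem hv)
    have ha1 : (a : M) = 1 := by
      rw [← Subgroup.mem_bot, ← hcen]
      refine ⟨a.2, Subgroup.mem_center_iff.2 fun g => ?_⟩
      obtain ⟨⟨b, v⟩, rfl⟩ := hW.2 g
      have hb : (a : M) * (b : M) = (b : M) * (a : M) := Subtype.ext (hQc _ a.2 _ b.2)
      show (b : M) * (v : M) * (a : M) = (a : M) * ((b : M) * (v : M))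
      rw [mul_assoc, ← hcomm v v.2, ← mul_assoc, ← hb, mul_assoc]
    refine ⟨w, w.2, ?_⟩
    rw [← haw', ha1]; simp
  -- Frattini
  have hLtop : L ⊔ N = ⊤ := by
    rw [eq_top_iff, ← (P0.normalizer_sup_eq_top : Subgroup.normalizer (Q : Set G) ⊔ N = ⊤)]
    refine sup_le (fun g hg => ?_) le_sup_right
    have hconjM : ∀ x ∈ M, g * x * g⁻¹ ∈ M := fun x hx => by
      have h0 : g * x * g⁻¹ ∈ H := mul_mem (mul_mem hg hx.2) (inv_mem hg)
      exact ⟨(inferInstance : N.Normal).conj_mem x hx.1 g, h0⟩
    set W' := (Wg.map (MulAut.conj g).toMonoidHom).subgroupOf M with hW'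
    have hW'M : Wg.map (MulAut.conj g).toMonoidHom ≤ M := by
      rintro _ ⟨x, hx, rfl⟩; exact hconjM x (hWM hx)
    have hW'c : Nat.card W' = Nat.card W := by
      rw [Nat.card_congr (Subgroup.subgroupOfEquivOfLe hW'M).toEquiv,
        Subgroup.card_map_of_injective (MulAut.conj g).injective, Subgroup.card_map_of_injective M.subtype_injective]
    have hc' : A.IsComplement' W' := Subgroup.isComplement'_of_coprime (by rw [hW'c]; exact hW.card_mul_card)
      (by rw [hW'c, ← hW.symm.index_eq_card]; exact hHall)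
    obtain ⟨a, haA, ha⟩ := Cfsg.Lib.Solv.complement_conj_abelian A hHall W W' hW hc'
    have hag : (a : G)⁻¹ * g ∈ L := by
      have h0 : (a : G)⁻¹ * g ∈ H := mul_mem (inv_mem a.2.2) hg
      refine ⟨?_, h0⟩
      show (a : G)⁻¹ * g ∈ Subgroup.normalizer (Wg : Set G)
      rw [Subgroup.mem_normalizer_iff]
      intro x
      have key : ∀ v : G, v ∈ Wg.map (MulAut.conj g).toMonoidHom ↔ (a : G)⁻¹ * v * a ∈ Wg := by
        intro v
        constructor
        · intro hv
          have : (⟨v, hW'M hv⟩ : M) ∈ MulAut.conj a • W := ha.symm ▸ hv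
          exact ⟨_, Cfsg.Lib.Solv.mem_conj_smul.1 this, rfl⟩
        · rintro ⟨w, hw, e⟩
          have : a * w * a⁻¹ ∈ W' := ha ▸ Cfsg.Lib.Solv.mem_conj_smul.2 (by group; exact hw)
          rw [hW', Subgroup.mem_subgroupOf] at this
          convert this using 1
          push_cast
          rw [show (w : G) = (a : G)⁻¹ * v * a from e]; group
      have h2 := key (g * x * g⁻¹)
      have h3 : g * x * g⁻¹ ∈ Wg.map (MulAut.conj g).toMonoidHom ↔ x ∈ Wg := by
        constructor
        · rintro ⟨y, hy, e⟩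
          simp only [MulEquiv.coe_toMonoidHom, MulAut.conj_apply, mul_left_inj, mul_right_inj] at e
          exact e ▸ hy
        · exact fun hx => ⟨x, hx, rfl⟩
      rw [h3] at h2
      convert h2 using 2
      group
    rw [show g = (a : G) * ((a : G)⁻¹ * g) by group]
    exact mul_mem (Subgroup.mem_sup_right a.2.1) (Subgroup.mem_sup_left hag)
  obtain ⟨S0⟩ := (inferInstance : Nonempty (Sylow p L))
  refine ⟨(S0 : Subgroup L).map L.subtype, ?_⟩
  have hdis : Disjoint ((S0 : Subgroup L).map L.subtype) N := by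
    rw [disjoint_iff, ← le_bot_iff]
    intro x hx
    have hxW : x ∈ Wg := hLN ⟨Subgroup.map_subtype_le _ hx.1, hx.2⟩
    obtain ⟨j, hj⟩ := IsPGroup.iff_orderOf.1 (S0.isPGroup'.map L.subtype) ⟨x, hx.1⟩
    rw [Subgroup.orderOf_mk] at hj
    rw [Subgroup.mem_bot, ← orderOf_eq_one_iff]
    exact Nat.eq_one_of_dvd_coprimes (hWcop.pow_right j) (Subgroup.orderOf_dvd_natCard _ hxW) (hj ▸ dvd_rfl)
  let q := QuotientGroup.mk' N
  have hqs : Function.Surjective (q.comp L.subtype) := by
    rw [← MonoidHom.range_eq_top, MonoidHom.range_comp, Subgroup.range_subtype]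
    have h1 := congrArg (Subgroup.map q) hLtop
    rwa [Subgroup.map_sup, QuotientGroup.map_mk'_self, sup_bot_eq, Subgroup.map_top_of_surjective q (QuotientGroup.mk'_surjective N)] at h1
  have hpq : IsPGroup p (G ⧸ N) := Lib.Transfer.isPGroup_quotient_of_pResidual_le N le_rfl
  have htop : ((S0.mapSurjective hqs : Sylow p (G ⧸ N)) : Subgroup (G ⧸ N)) = ⊤ :=
    Subgroup.index_eq_one.1 (by
      obtain ⟨k, hk⟩ := hpq.index ((S0.mapSurjective hqs : Sylow p (G ⧸ N)) : Subgroup (G ⧸ N))
      rcases k with _ | k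
      · simpa using hk
      · exact absurd (hk ▸ dvd_pow_self p k.succ_ne_zero) (S0.mapSurjective hqs).not_dvd_index)
  have hsup : (S0 : Subgroup L).map L.subtype ⊔ N = ⊤ := by
    have h1 : ((S0 : Subgroup L).map L.subtype).map q = ⊤ := by rw [Subgroup.map_map]; exact htop
    have h2 := congrArg (Subgroup.comap q) h1
    rwa [Subgroup.comap_map_eq, QuotientGroup.ker_mk', Subgroup.comap_top] at h2
  exact Subgroup.isComplement'_of_disjoint_and_mul_eq_univ hdis (by
    rw [← Subgroup.mul_normal, hsup, Subgroup.coe_top])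

end Cfsg.Agent.S0092
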