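import Cfsg.Statements.S0097
import Mathlib
import Cfsg.Agent.Lib.Transfer.SmallClass
import Cfsg.Agent.Lib.Transfer.PGroupFrattini
-- import your own Cfsg.Agent.* helpers here

set_option autoImplicit false
open Cfsg

namespace Cfsg.Agent.S0097

/-- For odd p and E extraspecial, the subgroup generated by the elements of order dividing p has exponent dividing p and index at most p. -/
theorem result {E : Type*} [Group E] [Finite E] {p : ℕ} [Fact p.Prime] (hp : p ≠ 2) (h : Cfsg.IsExtraspecial p E) : (Subgroup.closure {x : E | x ^ p = 1}).index ≤ p ∧ ∀ g ∈ Subgroup.closure {x : E | x ^ p = 1}, g ^ p = 1 := by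
  obtain ⟨⟨hP, hΦ, hD⟩, hZ⟩ := h
  have hsc : Lib.Transfer.SmallClass p E := Or.inl ⟨hp, by
    rw [Lib.Transfer.commutator_eq_bot_iff_mem_center, hD]⟩
  have hzp : ∀ z ∈ Subgroup.center E, z ^ p = 1 := fun z hz => by
    have := pow_card_eq_one' (x := (⟨z, hz⟩ : Subgroup.center E))
    rw [hZ] at this
    exact congrArg Subtype.val this
  have hder : commutator E ≤ Subgroup.closure {x : E | x ^ p = 1} := fun x hx =>
    Subgroup.subset_closure (hzp x (hD ▸ hx))
  let f : E →* Subgroup.center E :=
    MonoidHom.mk' (fun x => ⟨x ^ p, hΦ ▸ Lib.Transfer.pow_mem_frattini hP x⟩)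
      (fun a b => Subtype.ext (hsc.mul_pow_distrib hder a b))
  have hker : Subgroup.closure {x : E | x ^ p = 1} = f.ker := by
    refine le_antisymm ((Subgroup.closure_le _).2 fun x hx => ?_) fun x hx => ?_
    · exact Subtype.ext hx
    · exact Subgroup.subset_closure (congrArg Subtype.val hx)
  refine ⟨?_, fun g hg => hsc.pow_eq_one_of_mem_closure hg⟩
  rw [hker, Subgroup.index_ker, ← hZ]
  exact Subgroup.card_le_card_group _

end Cfsg.Agent.S0097
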