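import Cfsg.Statements.S0099
import Mathlib
import Cfsg.Agent.Lib.Transfer.ExtraspecialClass
import Cfsg.Agent.S0095
-- import your own Cfsg.Agent.* helpers here

set_option autoImplicit false
open Cfsg

namespace Cfsg.Agent.S0099

/-- Among three extraspecial 2-groups of equal order, some two are isomorphic. -/
theorem result {E₁ : Type*} {E₂ : Type*} {E₃ : Type*} [Group E₁] [Group E₂] [Group E₃] [Finite E₁] [Finite E₂] [Finite E₃] (h₁ : Cfsg.IsExtraspecial 2 E₁) (h₂ : Cfsg.IsExtraspecial 2 E₂) (h₃ : Cfsg.IsExtraspecial 2 E₃) (h12 : Nat.card E₁ = Nat.card E₂) (h23 : Nat.card E₂ = Nat.card E₃) : Nonempty (E₁ ≃* E₂) ∨ Nonempty (E₂ ≃* E₃) ∨ Nonempty (E₁ ≃* E₃) := by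
  haveI := Fact.mk Nat.prime_two
  obtain ⟨m, -, hm⟩ := Cfsg.Agent.S0095.result h₁
  have hm2 : Nat.card E₂ = 2 ^ (2 * m + 1) := h12 ▸ hm
  have hm3 : Nat.card E₃ = 2 ^ (2 * m + 1) := h23 ▸ hm2
  obtain ⟨n1, i12⟩ := Cfsg.Lib.Transfer.ExtraspecialClass.classify m E₁ (.of_extraspecial h₁) hm
  obtain ⟨n1', i13⟩ := Cfsg.Lib.Transfer.ExtraspecialClass.classify m E₁ (.of_extraspecial h₁) hm
  obtain ⟨n2, i23⟩ := Cfsg.Lib.Transfer.ExtraspecialClass.classify m E₂ (.of_extraspecial h₂) hm2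
  obtain ⟨n3, -⟩ := Cfsg.Lib.Transfer.ExtraspecialClass.classify.{_, 0} m E₃ (.of_extraspecial h₃) hm3
  open Cfsg.Lib.Transfer.ExtraspecialClass in
  by_cases e12 : N E₂ = N E₁
  · exact Or.inl (i12 E₂ (.of_extraspecial h₂) h12.symm e12)
  · by_cases e23 : Cfsg.Lib.Transfer.ExtraspecialClass.N E₃ = Cfsg.Lib.Transfer.ExtraspecialClass.N E₂
    · exact Or.inr (Or.inl (i23 E₃ (.of_extraspecial h₃) h23.symm e23))
    · exact Or.inr (Or.inr (i13 E₃ (.of_extraspecial h₃) (h12.trans h23).symm (by omega)))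

end Cfsg.Agent.S0099
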