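import Cfsg.Statements.S0101
import Mathlib
import Cfsg.Agent.Lib.Transfer.PGroupFrattini
-- import your own Cfsg.Agent.* helpers here

set_option autoImplicit false
open Cfsg

namespace Cfsg.Agent.S0101

/-- In a perfect central extension, the kernel meets each Sylow p-subgroup P inside the Frattini subgroup of P. -/
theorem result {H : Type*} {G : Type*} [Group H] [Group G] [Finite H] (σ : H →* G) (hσ : Function.Surjective σ) (hc : σ.ker ≤ Subgroup.center H) (hH : commutator H = ⊤) {p : ℕ} [Fact p.Prime] (P : Sylow p H) : σ.ker ⊓ (P : Subgroup H) ≤ (frattini P).map (P : Subgroup H).subtype := by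
  rintro x ⟨hx, hxP⟩
  have hxc : x ∈ Subgroup.center H := hc hx
  refine ⟨⟨x, hxP⟩, ?_, rfl⟩
  have h0 : MonoidHom.transfer (Abelianization.of : (P : Subgroup H) →* _) x = 1 :=
    Abelianization.commutator_subset_ker _ (hH.ge (Subgroup.mem_top x))
  rw [MonoidHom.transfer_eq_pow _ x (fun k g₀ hk => by
    have hcm : g₀ * x ^ k = x ^ k * g₀ :=
      Subgroup.mem_center_iff.1 (pow_mem hxc k) g₀
    calc g₀⁻¹ * x ^ k * g₀ = g₀⁻¹ * (g₀ * x ^ k) := by rw [hcm, mul_assoc]
      _ = x ^ k := by group)] at h0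
  have h1 : (⟨x, hxP⟩ : (P : Subgroup H)) ^ (P : Subgroup H).index ∈ commutator (P : Subgroup H) := by
    rw [← Abelianization.ker_of, MonoidHom.mem_ker]
    exact h0
  refine Lib.Transfer.commutator_le_frattini P.isPGroup' ?_
  obtain ⟨n, hn⟩ := IsPGroup.iff_card.1 P.isPGroup'
  have hcop : (Nat.card (P : Subgroup H)).Coprime (P : Subgroup H).index := P.card_coprime_index
  obtain ⟨m, hm⟩ := exists_pow_eq_self_of_coprime
    (show (P : Subgroup H).index.Coprime (orderOf (⟨x, hxP⟩ : (P : Subgroup H))) from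
      (Nat.Coprime.coprime_dvd_left (orderOf_dvd_natCard _) hcop).symm)
  rw [← hm]
  exact pow_mem h1 m

end Cfsg.Agent.S0101
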