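import Cfsg.Statements.S0102
import Mathlib
-- import your own Cfsg.Agent.* helpers here

set_option autoImplicit false
open Cfsg

namespace Cfsg.Agent.S0102

/-- A finite perfect group with cyclic Sylow p-subgroups has no perfect central extension whose kernel has order divisible by p. -/
theorem result {G : Type*} {H : Type*} [Group G] [Group H] [Finite G] [Finite H] (hG : commutator G = ⊤) {p : ℕ} [Fact p.Prime] (hcyc : ∀ P : Sylow p G, IsCyclic P) (σ : H →* G) (hσ : Function.Surjective σ) (hz : σ.ker ≤ Subgroup.center H) (hH : commutator H = ⊤) : ¬ p ∣ Nat.card σ.ker := by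
  intro hd
  obtain ⟨z, hzo⟩ := exists_prime_orderOf_dvd_card' p hd
  rw [← Subgroup.orderOf_coe] at hzo
  have hzp : IsPGroup p (Subgroup.zpowers (z : H)) := IsPGroup.of_card (n := 1) (by rw [Nat.card_zpowers, hzo, pow_one])
  obtain ⟨P, hP⟩ := hzp.exists_le_sylow
  haveI : IsCyclic (P.mapSurjective hσ : Sylow p G) := hcyc _
  let f : (P : Subgroup H) →* (P.mapSurjective hσ : Sylow p G) :=
    (σ.comp (P : Subgroup H).subtype).codRestrict _ (fun x => ⟨x, x.2, rfl⟩)
  have hfc : f.ker ≤ Subgroup.center (P : Subgroup H) := fun x hx =>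
    Subgroup.mem_center_iff.2 fun y => Subtype.ext
      (Subgroup.mem_center_iff.1 (hz (show σ x = 1 from congrArg Subtype.val hx)) y)
  letI : CommGroup (P : Subgroup H) := { (inferInstance : Group (P : Subgroup H)) with
    mul_comm := commutative_of_cyclic_center_quotient f hfc }
  have hzc : ∀ g : H, g * (z : H) = (z : H) * g := Subgroup.mem_center_iff.1 (hz z.2)
  have key := MonoidHom.transfer_eq_pow (MonoidHom.id (P : Subgroup H)) (z : H) fun k g₀ _ => by
    rw [mul_assoc, ((show Commute g₀ (z : H) from hzc g₀).pow_right k).symm.eq, inv_mul_cancel_left]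
  have h1 : MonoidHom.transfer (MonoidHom.id (P : Subgroup H)) (z : H) = 1 :=
    Abelianization.commutator_subset_ker _ (hH ▸ Subgroup.mem_top _)
  rw [h1] at key
  have h2 : (z : H) ^ (P : Subgroup H).index = 1 := (congrArg Subtype.val key).symm
  have h3 := orderOf_dvd_of_pow_eq_one h2
  rw [hzo] at h3
  exact P.not_dvd_index h3

end Cfsg.Agent.S0102
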