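import Cfsg.Statements.S0103
import Mathlib
import Cfsg.Agent.Lib.Transfer.Frobenius
-- import your own Cfsg.Agent.* helpers here

set_option autoImplicit false
open Cfsg

namespace Cfsg.Agent.S0103

/-- If a Sylow p-subgroup P intersects every distinct conjugate trivially, then its normalizer controls fusion in P. -/
theorem result {G : Type*} [Group G] [Finite G] {p : ℕ} [Fact p.Prime] (P : Sylow p G) (hTI : ∀ g : G, (P : Subgroup G).map (MulAut.conj g).toMonoidHom ≠ (P : Subgroup G) → (P : Subgroup G) ⊓ (P : Subgroup G).map (MulAut.conj g).toMonoidHom = ⊥) (x y : G) (hx : x ∈ P) (hy : y ∈ P) (hc : ∃ g : G, g * x * g⁻¹ = y) : ∃ n ∈ Subgroup.normalizer (P : Set G), n * x * n⁻¹ = y := by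
  obtain ⟨g, hg⟩ := hc
  by_cases hPg : (P : Subgroup G).map (MulAut.conj g).toMonoidHom = (P : Subgroup G)
  · refine ⟨g, ?_, hg⟩
    refine Subgroup.mem_normalizer_iff.2 fun a => ⟨fun ha => ?_, fun ha => ?_⟩
    · exact hPg.le ⟨a, ha, rfl⟩
    · obtain ⟨b, hb, e⟩ := hPg.ge ha
      have : b = a := by
        have e' : g * b * g⁻¹ = g * a * g⁻¹ := e
        simpa using e'
      exact this ▸ hb
  · have hy' : y ∈ (P : Subgroup G) ⊓ (P : Subgroup G).map (MulAut.conj g).toMonoidHom :=
      ⟨hy, x, hx, hg⟩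
    rw [hTI g hPg, Subgroup.mem_bot] at hy'
    subst hy'
    refine ⟨1, one_mem _, ?_⟩
    have : x = 1 := by simpa using hg
    simp [this]

end Cfsg.Agent.S0103
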