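import Cfsg.Statements.S0104
import Mathlib
-- import your own Cfsg.Agent.* helpers here

set_option autoImplicit false
open Cfsg

namespace Cfsg.Agent.S0104

/-- A subgroup Z of a Sylow p-subgroup P that is normalized by N_G(P) is weakly closed in P exactly when it is normal in every Sylow p-subgroup containing it. -/
theorem result {G : Type*} [Group G] [Finite G] {p : ℕ} [Fact p.Prime] (P : Sylow p G) (Z : Subgroup G) (hZP : Z ≤ (P : Subgroup G)) (hZN : Subgroup.normalizer (P : Set G) ≤ Subgroup.normalizer (Z : Set G)) : Cfsg.IsWeaklyClosed Z P ↔ ∀ R : Sylow p G, Z ≤ (R : Subgroup G) → (R : Subgroup G) ≤ Subgroup.normalizer (Z : Set G) := by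
  have hPN : (P : Subgroup G) ≤ Subgroup.normalizer (Z : Set G) :=
    Subgroup.le_normalizer.trans hZN
  constructor
  · rintro ⟨-, hW⟩ R hZR
    obtain ⟨g, rfl⟩ := MulAction.exists_smul_eq G P R
    have hle : Z.map (MulAut.conj g⁻¹).toMonoidHom ≤ (P : Subgroup G) := by
      rintro _ ⟨z, hz, rfl⟩
      have h1 := hZR hz
      rw [Sylow.coe_subgroup_smul, Subgroup.mem_pointwise_smul_iff_inv_smul_mem] at h1
      simpa using h1
    have heq := hW g⁻¹ hle
    have hg : g ∈ Subgroup.normalizer (Z : Set G) := by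
      rw [← Subgroup.inv_mem_iff]
      refine Subgroup.mem_normalizer_iff.2 fun z => ⟨fun hz => heq.le ⟨z, hz, rfl⟩, fun hz => ?_⟩
      obtain ⟨w, hw, e⟩ := heq.ge hz
      have e' : g⁻¹ * w * g⁻¹⁻¹ = g⁻¹ * z * g⁻¹⁻¹ := e
      simp only [mul_left_inj, mul_right_inj] at e'
      exact e' ▸ hw
    exact Sylow.smul_le hPN ⟨g, hg⟩
  · intro h
    refine ⟨hZP, fun g hg => ?_⟩
    have hR : Z ≤ ((g⁻¹ • P : Sylow p G) : Subgroup G) := by
      intro z hz
      rw [Sylow.coe_subgroup_smul, Subgroup.mem_pointwise_smul_iff_inv_smul_mem]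
      simpa using hg ⟨z, hz, rfl⟩
    obtain ⟨⟨c, hc⟩, hc'⟩ := MulAction.exists_smul_eq (Subgroup.normalizer (Z : Set G))
      ((g⁻¹ • P).subtype (h _ hR)) (P.subtype hPN)
    rw [Sylow.smul_subtype] at hc'
    have hc'' : c • (g⁻¹ • P) = P := Sylow.subtype_injective hc'
    have hN : c * g⁻¹ ∈ Subgroup.normalizer (Z : Set G) :=
      hZN (Sylow.smul_eq_iff_mem_normalizer.1 (by rw [mul_smul]; exact hc''))
    have hgN : g ∈ Subgroup.normalizer (Z : Set G) := by
      have := mul_mem (inv_mem hN) hc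
      simpa using this
    ext z
    constructor
    · rintro ⟨w, hw, rfl⟩
      exact (Subgroup.mem_normalizer_iff.1 hgN w).1 hw
    · intro hz
      refine ⟨g⁻¹ * z * g, ?_, by simp [mul_assoc]⟩
      rw [SetLike.mem_coe, Subgroup.mem_normalizer_iff.1 hgN]
      simpa [mul_assoc] using hz

end Cfsg.Agent.S0104
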