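import Cfsg.Statements.S0105
import Mathlib
import Cfsg.Agent.Lib.Transfer.Abelian
import Cfsg.Agent.S0088
-- import your own Cfsg.Agent.* helpers here

set_option autoImplicit false
open Cfsg

namespace Cfsg.Agent.S0105

/-- With an abelian Sylow p-subgroup P, some quotient of G is isomorphic to the part of P central in N_G(P). -/
theorem result {G : Type*} [Group G] [Finite G] {p : ℕ} [Fact p.Prime] (P : Sylow p G) (hP : IsMulCommutative P) : ∃ (N : Subgroup G) (hN : N.Normal), Nonempty (G ⧸ N ≃* ((P : Subgroup G) ⊓ Subgroup.centralizer (Subgroup.normalizer (P : Set G) : Set G) : Subgroup G)) := by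
  set N := Subgroup.normalizer ((P : Subgroup G) : Set G) with hN
  set C := (P : Subgroup G) ⊓ Subgroup.centralizer (N : Set G) with hCdef
  have hfoc := Lib.Transfer.abelian_focal_eq P hP
  set A : Subgroup N := (P : Subgroup G).subgroupOf N with hA
  haveI : A.Normal := Subgroup.normal_in_normalizer
  have hAc : IsMulCommutative A := by
    refine ⟨⟨fun a b => ?_⟩⟩
    apply Subtype.ext; apply Subtype.ext
    show ((a : N) : G) * ((b : N) : G) = ((b : N) : G) * ((a : N) : G)
    haveI := hP
    exact congrArg Subtype.val (mul_comm' (⟨((a : N) : G), a.2⟩ : (P : Subgroup G)) ⟨((b : N) : G), b.2⟩)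
  have hHall : Nat.Coprime (Nat.card A) A.index := by
    have h1 := (P.subtype (Subgroup.le_normalizer (H := (P : Subgroup G)))).card_coprime_index
    exact h1
  have hsup := Lib.Transfer.abelian_normal_hall_sup A hAc hHall
  have hdis := Cfsg.Agent.S0088.result A hAc hHall
  have hmapA : A.map N.subtype = (P : Subgroup G) := Subgroup.map_subgroupOf_eq_of_le Subgroup.le_normalizer
  have hcomm : (⁅A, (⊤ : Subgroup N)⁆).map N.subtype = (P : Subgroup G).focalSubgroup := by
    rw [Subgroup.map_commutator, hmapA, ← MonoidHom.range_eq_map, Subgroup.range_subtype, hfoc]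
  let f : C →* (P : Subgroup G) ⧸ (P : Subgroup G).focalSubgroupOf :=
    (QuotientGroup.mk' _).comp (Subgroup.inclusion (inf_le_left : C ≤ (P : Subgroup G)))
  have hf : Function.Bijective f := by
    constructor
    · rw [injective_iff_map_eq_one]
      rintro ⟨x, hx⟩ hxf
      have hxf' : x ∈ (P : Subgroup G).focalSubgroup := (QuotientGroup.eq_one_iff (N := (P : Subgroup G).focalSubgroupOf) (⟨x, hx.1⟩ : (P : Subgroup G))).1 hxf
      rw [← hcomm] at hxf'
      obtain ⟨y, hy, rfl⟩ := hxf'
      have hy1 : y ∈ A ⊓ commutator N ⊓ Subgroup.center N := by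
        refine ⟨⟨Subgroup.commutator_le_left A ⊤ hy, ?_⟩, ?_⟩
        · rw [commutator_def]; exact Subgroup.commutator_mono le_top le_rfl hy
        · exact Subgroup.mem_center_iff.2 fun g =>
            Subtype.ext (Subgroup.mem_centralizer_iff.1 hx.2 g g.2)
      rw [hdis, Subgroup.mem_bot] at hy1
      apply Subtype.ext
      simp [hy1]
    · intro q
      obtain ⟨⟨x, hx⟩, rfl⟩ := QuotientGroup.mk'_surjective _ q
      obtain ⟨t, ht, z, hz, e⟩ := Subgroup.mem_sup_of_normal_left.1
        (hsup (show (⟨x, Subgroup.le_normalizer hx⟩ : N) ∈ A from hx))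
      refine ⟨⟨(z : G), hz.2, Subgroup.mem_centralizer_iff.2 fun g hg =>
        congrArg Subtype.val (Subgroup.mem_center_iff.1 hz.1 ⟨g, hg⟩)⟩, ?_⟩
      show QuotientGroup.mk' _ (⟨(z : G), hz.2⟩ : (P : Subgroup G)) = QuotientGroup.mk' _ ⟨x, hx⟩
      rw [QuotientGroup.mk'_apply, QuotientGroup.mk'_apply, QuotientGroup.eq,
        Subgroup.focalSubgroupOf_def, Subgroup.mem_subgroupOf, ← hcomm]
      have e' : (t : G) * (z : G) = x := congrArg Subtype.val e
      refine ⟨z⁻¹ * t * z, ?_, ?_⟩
      · have := (Subgroup.commutator_normal A ⊤).conj_mem t ht z⁻¹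
        simpa using this
      · show ((z : G))⁻¹ * (t : G) * (z : G) = ((z : G))⁻¹ * x
        rw [← e', mul_assoc]
  exact ⟨(P : Subgroup G).transferFocal.ker, inferInstance,
    ⟨(Subgroup.transferFocal.quotientKerMulEquivQuotientFocalSubroupOf P).trans
      (MulEquiv.ofBijective f hf).symm⟩⟩

end Cfsg.Agent.S0105
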