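import Cfsg.Statements.S0106
import Mathlib
import Cfsg.Agent.Lib.Transfer.Frobenius
import Cfsg.Agent.Lib.TwoFus.SLTwoThree

set_option autoImplicit false
open Cfsg

namespace Cfsg.Agent.S0106

/-- A finite group with generalized quaternion Sylow 2-subgroups either has a normal 2-complement or has a section isomorphic to SL(2,3). -/
theorem result {G : Type*} [Group G] [Finite G] (T : Sylow 2 G) (n : ℕ) (hn : 1 ≤ n) (hT : Nonempty ((T : Subgroup G) ≃* QuaternionGroup (2 ^ n))) : Cfsg.HasNormalPComplement 2 G ∨ ∃ (H K : Subgroup G) (hK : (K.subgroupOf H).Normal), Nonempty ((H ⧸ K.subgroupOf H) ≃* Matrix.SpecialLinearGroup (Fin 2) (ZMod 3)) := by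
  classical
  open Cfsg.Lib.TwoFus.SLTwoThree in
  rw [or_iff_not_imp_left]
  intro hnp
  haveI := Fact.mk Nat.prime_two
  rw [Cfsg.Lib.Transfer.frobenius_iff T] at hnp
  unfold Cfsg.Lib.Transfer.FrobeniusCond at hnp
  push Not at hnp
  obtain ⟨Q, hQT, g, hgN, hgcop, hgC⟩ := hnp
  obtain ⟨e⟩ := hT
  haveI : NeZero (2 ^ n) := ⟨by positivity⟩
  have huQ : ∀ x y : QuaternionGroup (2 ^ n), orderOf x = 2 → orderOf y = 2 → x = y := by
    have key : ∀ x : QuaternionGroup (2 ^ n), orderOf x = 2 → x = QuaternionGroup.a ((2 ^ n : ℕ) : ZMod (2 * 2 ^ n)) := by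
      intro x hx
      have hsq : x * x = 1 := by
        have := pow_orderOf_eq_one x
        rwa [hx, sq] at this
      cases x with
      | a i =>
        rw [QuaternionGroup.a_mul_a, QuaternionGroup.one_def, QuaternionGroup.a.injEq] at hsq
        congr 1
        have hlt := ZMod.val_lt i
        have hd : 2 * 2 ^ n ∣ i.val + i.val := by
          rw [← ZMod.natCast_eq_zero_iff, Nat.cast_add, ZMod.natCast_zmod_val]; exact hsq
        obtain ⟨t, ht⟩ := hd
        have htt : t < 2 := by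
          by_contra h
          have : 2 * 2 ^ n * 2 ≤ 2 * 2 ^ n * t := Nat.mul_le_mul_left _ (by omega)
          omega
        interval_cases t
        · exfalso
          have hi : i = 0 := by rw [← ZMod.natCast_zmod_val i, show i.val = 0 by omega, Nat.cast_zero]
          rw [hi, ← QuaternionGroup.one_def, orderOf_one] at hx
          omega
        · rw [← ZMod.natCast_zmod_val i, show i.val = 2 ^ n by omega]
      | xa i => rw [QuaternionGroup.orderOf_xa] at hx; omega
    intro x y hx hy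
    rw [key x hx, key y hy]
  let ι : Q →* QuaternionGroup (2 ^ n) := e.toMonoidHom.comp (Subgroup.inclusion hQT)
  have hι : Function.Injective ι := e.injective.comp (Subgroup.inclusion_injective hQT)
  have hQp : IsPGroup 2 Q := T.isPGroup'.to_le hQT
  have huniq : ∀ x y : Q, orderOf x = 2 → orderOf y = 2 → y ∈ Subgroup.zpowers x := fun x y hx hy => by
    have : x = y := hι (huQ _ _ (by rw [orderOf_injective ι hι, hx]) (by rw [orderOf_injective ι hι, hy]))
    rw [this]; exact Subgroup.mem_zpowers y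
  let φ : Q ≃* Q :=
    { toFun := fun x => ⟨g * x * g⁻¹, (Subgroup.mem_normalizer_iff.1 hgN x).1 x.2⟩
      invFun := fun x => ⟨g⁻¹ * x * g, by
        simpa using (Subgroup.mem_normalizer_iff.1 (Subgroup.inv_mem _ hgN) (x : G)).1 x.2⟩
      left_inv := fun x => Subtype.ext (by simp [mul_assoc])
      right_inv := fun x => Subtype.ext (by simp [mul_assoc])
      map_mul' := fun x y => Subtype.ext (by simp [mul_assoc]) }
  have hit : ∀ (k : ℕ) (x : Q), ((φ^[k] x : Q) : G) = g ^ k * x * (g ^ k)⁻¹ := by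
    intro k
    induction k with
    | zero => simp
    | succ k ih => intro x; rw [Function.iterate_succ_apply']; show g * ((φ^[k] x : Q) : G) * g⁻¹ = _; rw [ih, pow_succ']; group
  have hodd : Odd (orderOf g) := Nat.coprime_two_right.mp hgcop
  have hne : ∃ x, φ x ≠ x := by
    by_contra h
    push Not at h
    refine hgC (Subgroup.mem_centralizer_iff.mpr fun x hx => ?_)
    have := congrArg Subtype.val (h ⟨x, hx⟩)
    exact (mul_inv_eq_iff_eq_mul.mp this).symm
  obtain ⟨i, j, hi, hji, hinv, hφi, hφj, hgen⟩ := exists_rels hQp huniq φ hodd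
    (fun x => Subtype.ext (by rw [hit, pow_orderOf_eq_one, one_mul, inv_one, mul_one])) hne
  have hi4 : i ^ 4 = 1 := hi ▸ pow_orderOf_eq_one i
  have ai : g * (i : G) * g⁻¹ = j := congrArg Subtype.val hφi
  have aj : g * (j : G) * g⁻¹ = i * j := congrArg Subtype.val hφj
  have hji' : (j : G) ^ 2 = (i : G) ^ 2 := congrArg Subtype.val hji
  have hinv' : (j : G) * i * (j : G)⁻¹ = (i : G)⁻¹ := congrArg Subtype.val hinv
  -- `g ^ 3` centralises `Q`
  have hjij : (j : G) * i * j = i := by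
    calc (j : G) * i * j = ((j : G) * i * (j : G)⁻¹) * ((j : G) ^ 2) := by rw [sq]; group
      _ = i := by rw [hinv', hji', sq, inv_mul_cancel_left]
  have h3i : g ^ 3 * (i : G) * (g ^ 3)⁻¹ = i := by
    calc g ^ 3 * (i : G) * (g ^ 3)⁻¹ = g * (g * (g * i * g⁻¹) * g⁻¹) * g⁻¹ := by rw [pow_three]; group
      _ = g * ((i : G) * j) * g⁻¹ := by rw [ai, aj]
      _ = (g * i * g⁻¹) * (g * j * g⁻¹) := by group
      _ = i := by rw [ai, aj, ← mul_assoc, hjij]
  have h3j : g ^ 3 * (j : G) * (g ^ 3)⁻¹ = j := by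
    calc g ^ 3 * (j : G) * (g ^ 3)⁻¹ = g * (g ^ 3 * i * (g ^ 3)⁻¹) * g⁻¹ := by rw [← ai, pow_three]; group
      _ = (j : G) := by rw [h3i, ai]
  let H := Q ⊔ Subgroup.zpowers g
  let K := Subgroup.zpowers (g ^ 3)
  have hgH : g ∈ H := le_sup_right (a := Q) (Subgroup.mem_zpowers g)
  have hQH : Q ≤ H := le_sup_left
  have hgenQ : (Subgroup.closure ({i, j} : Set Q)).map Q.subtype = Q := by
    rw [hgen, ← MonoidHom.range_eq_map, Subgroup.range_subtype]
  have hHle : H ≤ Subgroup.centralizer ({g ^ 3} : Set G) := by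
    refine sup_le ?_ (Subgroup.zpowers_le.mpr (Subgroup.mem_centralizer_singleton_iff.mpr (Commute.self_pow g 3).eq))
    rw [← hgenQ, MonoidHom.map_closure, Subgroup.closure_le]
    rintro _ ⟨x, hx, rfl⟩
    obtain h' | h' : x = i ∨ x = j := hx <;> rw [h'] <;> rw [SetLike.mem_coe, Subgroup.mem_centralizer_singleton_iff]
    · exact (mul_inv_eq_iff_eq_mul.mp h3i).symm
    · exact (mul_inv_eq_iff_eq_mul.mp h3j).symm
  haveI hK : (K.subgroupOf H).Normal := ⟨fun x hx y => by
    have hc := Subgroup.mem_centralizer_singleton_iff.mp (hHle y.2)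
    obtain ⟨r, hr⟩ := Subgroup.mem_zpowers_iff.mp (Subgroup.mem_subgroupOf.mp hx)
    have hcx : Commute (y : G) x := by rw [← hr]; exact Commute.zpow_right hc r
    rw [Subgroup.mem_subgroupOf, Subgroup.coe_mul, Subgroup.coe_mul, Subgroup.coe_inv, hcx.eq, mul_inv_cancel_right]
    exact Subgroup.mem_subgroupOf.mp hx⟩
  refine ⟨H, K, hK, ?_⟩
  let π := QuotientGroup.mk' (K.subgroupOf H)
  let I : H := ⟨i, hQH i.2⟩
  let J : H := ⟨j, hQH j.2⟩
  let A : H := ⟨g, hgH⟩
  have hdis : ∀ x : G, x ∈ Q → x ∈ K → x = 1 := by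
    intro x hxQ hxK
    obtain ⟨k, hk⟩ := IsPGroup.iff_orderOf.mp hQp ⟨x, hxQ⟩
    rw [Subgroup.orderOf_mk] at hk
    have h1 : orderOf x ∣ orderOf g := (orderOf_dvd_of_mem_zpowers hxK).trans (orderOf_pow_dvd 3)
    rw [← orderOf_eq_one_iff]
    exact Nat.eq_one_of_dvd_coprimes (hk ▸ Nat.Coprime.pow_right k hgcop) h1 dvd_rfl
  have hR : Rels (π I) (π J) (π A) := by
    refine ⟨?_, ?_, ?_, ?_, ?_, ?_⟩
    · rw [← map_pow, show I ^ 4 = 1 from Subtype.ext (congrArg Subtype.val hi4 :), map_one]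
    · rw [← map_pow, ← map_pow, show J ^ 2 = I ^ 2 from Subtype.ext hji']
    · rw [← map_mul, ← map_inv, ← map_mul, ← map_inv, show J * I * J⁻¹ = I⁻¹ from Subtype.ext hinv']
    · rw [← map_mul, ← map_inv, ← map_mul, show A * I * A⁻¹ = J from Subtype.ext ai]
    · rw [← map_mul, ← map_inv, ← map_mul, ← map_mul, show A * J * A⁻¹ = I * J from Subtype.ext aj]
    · rw [← map_pow]
      exact (QuotientGroup.eq_one_iff _).mpr (Subgroup.mem_subgroupOf.mpr (Subgroup.mem_zpowers (g ^ 3)))
  refine nonempty_mulEquiv hR ?_ ?_ ?_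
  · rw [← hi, ← Subgroup.orderOf_coe i, show (i : G) = (I : G) from rfl, Subgroup.orderOf_coe]
    refine orderOf_eq_orderOf_iff.mpr fun k => ⟨fun h => ?_, fun h => by rw [← map_pow, h, map_one]⟩
    rw [← map_pow] at h
    have hmem := Subgroup.mem_subgroupOf.mp ((QuotientGroup.eq_one_iff _).mp h)
    exact Subtype.ext (hdis _ (pow_mem i.2 k) hmem)
  · intro h
    obtain ⟨r, hr⟩ := Subgroup.mem_zpowers_iff.mp (Subgroup.mem_subgroupOf.mp ((QuotientGroup.eq_one_iff _).mp h))
    refine hgC (Subgroup.mem_centralizer_iff.mpr fun x hx => ?_)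
    have hc := Subgroup.mem_centralizer_singleton_iff.mp (hHle (hQH hx))
    have hr' : (g ^ 3) ^ r = g := hr
    rw [← hr']; exact Commute.zpow_right hc r
  · rw [eq_top_iff]
    intro y _
    obtain ⟨⟨x, hx⟩, rfl⟩ := QuotientGroup.mk'_surjective _ y
    set C := (Subgroup.closure ({π I, π J, π A} : Set _)).comap π
    have hle : H ≤ C.map H.subtype := by
      refine sup_le ?_ (Subgroup.zpowers_le.mpr ⟨A, Subgroup.subset_closure (Or.inr (Or.inr rfl)), rfl⟩)
      rw [← hgenQ, MonoidHom.map_closure, Subgroup.closure_le]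
      rintro _ ⟨x, hx, rfl⟩
      obtain h' | h' : x = i ∨ x = j := hx <;> rw [h']
      · exact ⟨I, Subgroup.subset_closure (Or.inl rfl), rfl⟩
      · exact ⟨J, Subgroup.subset_closure (Or.inr (Or.inl rfl)), rfl⟩
    obtain ⟨z, hz, hzx⟩ := hle hx
    rw [show (⟨x, hx⟩ : H) = z from Subtype.ext hzx.symm]
    exact hz

end Cfsg.Agent.S0106
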