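import Cfsg.Statements.S0107
import Mathlib
import Cfsg.Agent.S0111
-- import your own Cfsg.Agent.* helpers here

set_option autoImplicit false
open Cfsg

namespace Cfsg.Agent.S0107

/-- A finite group with no nontrivial 2-group quotient and dihedral Sylow 2-subgroups of order at least 8 has a single class of involutions. -/
theorem result {G : Type*} [Group G] [Finite G] (T : Sylow 2 G) (n : ℕ) (hn : 2 ≤ n) (hT : Nonempty ((T : Subgroup G) ≃* DihedralGroup (2 ^ n))) (hO : Cfsg.pResidual 2 G = ⊤) (x y : G) (hx : orderOf x = 2) (hy : orderOf y = 2) : ∃ g : G, g * x * g⁻¹ = y := by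
  classical
  obtain ⟨e⟩ := hT
  haveI := Fact.mk Nat.prime_two
  haveI : NeZero (2 ^ n) := ⟨pow_ne_zero _ two_ne_zero⟩
  set ρ : DihedralGroup (2 ^ n) := DihedralGroup.r 1
  set a : G := ((e.symm ρ : (T : Subgroup G)) : G) with ha
  set Q := Subgroup.zpowers a with hQ
  have hao : orderOf a = 2 ^ n := by
    rw [ha, Subgroup.orderOf_coe, MulEquiv.orderOf_eq, DihedralGroup.orderOf_r_one]
  have haT : a ∈ (T : Subgroup G) := (e.symm ρ).2
  have hQT : Q ≤ (T : Subgroup G) := Subgroup.zpowers_le.2 haT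
  have hQi : Q.relIndex (T : Subgroup G) = 2 := by
    have h1 := (Q.subgroupOf (T : Subgroup G)).card_mul_index
    rw [Nat.card_congr (Subgroup.subgroupOfEquivOfLe hQT).toEquiv, Nat.card_zpowers, hao, Nat.card_congr e.toEquiv, DihedralGroup.nat_card,
      mul_comm 2] at h1
    exact Nat.eq_of_mul_eq_mul_left (pow_pos two_pos n) h1
  obtain ⟨m, rfl⟩ : ∃ m, n = m + 1 := ⟨n - 1, by omega⟩
  set z := a ^ 2 ^ m with hz
  have hQu : ∀ y ∈ Q, orderOf y = 2 → y = z := by
    intro y hy hy2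
    obtain ⟨k, rfl⟩ := (Subgroup.mem_zpowers_iff).1 hy
    have h1 : (a ^ k) ^ (2 : ℕ) = 1 := hy2 ▸ pow_orderOf_eq_one _
    rw [← zpow_natCast, ← zpow_mul, ← orderOf_dvd_iff_zpow_eq_one, hao] at h1
    push_cast at h1
    rw [pow_succ] at h1
    obtain ⟨c, hc⟩ := h1
    have hk : k = 2 ^ m * c := by linarith
    rcases Int.even_or_odd c with ⟨d, rfl⟩ | ⟨d, rfl⟩
    · exfalso
      have : a ^ k = 1 := by
        rw [← orderOf_dvd_iff_zpow_eq_one, hao, hk]; push_cast; exact ⟨d, by ring⟩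
      rw [this, orderOf_one] at hy2
      norm_num at hy2
    · rw [hz, ← zpow_natCast, zpow_eq_zpow_iff_modEq, hao, Int.modEq_iff_dvd, hk]
      push_cast
      exact ⟨-d, by ring⟩
  have key : ∀ u : G, orderOf u = 2 → ∃ g : G, g * u * g⁻¹ = z := by
    intro u hu
    have hp : IsPGroup 2 (Subgroup.zpowers u) := IsPGroup.of_card (n := 1) (by rw [Nat.card_zpowers, hu, pow_one])
    obtain ⟨S, hS⟩ := hp.exists_le_sylow
    obtain ⟨g, hg⟩ := MulAction.exists_smul_eq G S T
    have hu' : g * u * g⁻¹ ∈ (T : Subgroup G) := by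
      rw [← hg]
      exact ⟨u, hS (Subgroup.mem_zpowers u), rfl⟩
    have ho : orderOf (g * u * g⁻¹) = 2 := (MulEquiv.orderOf_eq (MulAut.conj g) u).trans hu
    by_cases hin : g * u * g⁻¹ ∈ Q
    · exact ⟨g, hQu _ hin ho⟩
    rcases Cfsg.Agent.S0111.result T Q hQT hQi _ ho hu' hin with ⟨M, hMn, hMi, huM⟩ | ⟨h, hh⟩
    · exfalso
      refine huM ?_
      have hle : Cfsg.pResidual 2 G ≤ M := by
        refine (Subgroup.closure_le _).2 fun x hx => ?_
        haveI := hMn
        have h1 : orderOf (x : G ⧸ M) = 1 := by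
          refine Nat.eq_one_of_dvd_coprimes hx (orderOf_map_dvd (QuotientGroup.mk' M) x) ?_
          exact (_root_.orderOf_dvd_natCard _).trans (by rw [← Subgroup.index_eq_card, hMi])
        exact (QuotientGroup.eq_one_iff x).1 (orderOf_eq_one_iff.1 h1)
      exact hle (hO ▸ Subgroup.mem_top _)
    · refine ⟨h * g, ?_⟩
      have h2 : orderOf (h * (g * u * g⁻¹) * h⁻¹) = 2 := (MulEquiv.orderOf_eq (MulAut.conj h) _).trans ho
      rw [← hQu _ hh h2]; group
  obtain ⟨g, hg⟩ := key x hx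
  obtain ⟨h, hh⟩ := key y hy
  refine ⟨h⁻¹ * g, ?_⟩
  rw [show h⁻¹ * g * x * (h⁻¹ * g)⁻¹ = h⁻¹ * (g * x * g⁻¹) * h by group, hg, ← hh]
  group

end Cfsg.Agent.S0107
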