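import Cfsg.Statements.S0110
import Mathlib
import Cfsg.Agent.Lib.Transfer.PGroupNormal
-- import your own Cfsg.Agent.* helpers here

set_option autoImplicit false
open Cfsg
open scoped commutatorElement

namespace Cfsg.Agent.S0110

/-- In a p-group G, an extraspecial subgroup E with [G, E] ≤ Z(E) satisfies G = E C_G(E). -/
theorem result {G : Type*} [Group G] [Finite G] {p : ℕ} [Fact p.Prime] (hG : IsPGroup p G) (E : Subgroup G) (hE : Cfsg.IsExtraspecial p E) (h : ⁅(⊤ : Subgroup G), E⁆ ≤ E ⊓ Subgroup.centralizer (E : Set G)) : E ⊔ Subgroup.centralizer (E : Set G) = ⊤ := by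
  classical
  have hEp : IsPGroup p E := hG.to_subgroup E
  obtain ⟨⟨-, -, hD⟩, hZ⟩ := hE
  set Z := Subgroup.center E with hZdef
  letI : CommGroup Z := { (inferInstance : Group Z) with
    mul_comm := fun a b => Subtype.ext (Subgroup.mem_center_iff.1 b.2 a.1) }
  have hmem : ∀ g : G, ∀ e : E, ⁅g, (e : G)⁆ ∈ E ⊓ Subgroup.centralizer (E : Set G) := fun g e =>
    h (Subgroup.commutator_mem_commutator (Subgroup.mem_top g) e.2)
  let φ : G → (E →* Z) := fun g => MonoidHom.mk'
    (fun e => ⟨⟨⁅g, (e : G)⁆, (hmem g e).1⟩, Subgroup.mem_center_iff.2 fun x =>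
      Subtype.ext (Subgroup.mem_centralizer_iff.1 (hmem g e).2 x x.2)⟩)
    (fun e e' => Subtype.ext (Subtype.ext (by
      show ⁅g, (e : G) * e'⁆ = ⁅g, (e : G)⁆ * ⁅g, (e' : G)⁆
      calc ⁅g, (e : G) * e'⁆ = ⁅g, (e : G)⁆ * ((e : G) * ⁅g, (e' : G)⁆) * (e : G)⁻¹ := by
            simp only [commutatorElement_def]; group
        _ = _ := by rw [Subgroup.mem_centralizer_iff.1 (hmem g e').2 e e.2]; group)))
  obtain ⟨S, hS, hSc⟩ := Lib.Transfer.exists_finset_sup_closure hEp Z
  have hle : Nat.card (E →* Z) ≤ Nat.card (E ⧸ Z) := by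
    have hinj : Function.Injective (fun f : E →* Z => fun s : S => f s) := fun f f' e => by
      refine MonoidHom.eq_of_eqOn_top fun x _ => ?_
      have hx : x ∈ f.eqLocus f' := by
        refine (hS ▸ sup_le ?_ ((Subgroup.closure_le _).2 fun s hs => congrFun e ⟨s, hs⟩) :
          (⊤ : Subgroup E) ≤ f.eqLocus f') (Subgroup.mem_top x)
        intro z hz
        replace hz : z ∈ commutator E := hD ▸ hz
        exact (((Abelianization.commutator_subset_ker f) hz).trans
          ((Abelianization.commutator_subset_ker f') hz).symm)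
      exact hx
    have := Nat.card_le_card_of_injective _ hinj
    rw [Nat.card_fun, hZ, Nat.card_eq_fintype_card (α := S), Fintype.card_coe] at this
    exact le_trans this (hSc.trans_eq Z.index_eq_card)
  have hφ : ∀ g g' : G, φ g = φ g' ↔ g⁻¹ * g' ∈ Subgroup.centralizer (E : Set G) := by
    intro g g'
    rw [Subgroup.mem_centralizer_iff]
    constructor
    · intro e x hx
      have h1 : ⁅g, x⁆ = ⁅g', x⁆ :=
        congrArg (fun f : E →* Z => (((f ⟨x, hx⟩ : Z) : E) : G)) e
      rw [commutatorElement_def, commutatorElement_def, mul_left_inj] at h1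
      calc x * (g⁻¹ * g') = g⁻¹ * (g * x * g⁻¹) * g' := by group
        _ = _ := by rw [h1]; group
    · intro e
      refine MonoidHom.ext fun x => Subtype.ext (Subtype.ext ?_)
      show ⁅g, (x : G)⁆ = ⁅g', (x : G)⁆
      rw [commutatorElement_def, commutatorElement_def, mul_left_inj]
      calc g * (x : G) * g⁻¹ = g * ((x : G) * (g⁻¹ * g')) * g'⁻¹ := by group
        _ = _ := by rw [e x x.2]; group
  have hcen : ∀ x x' : E, φ x = φ x' ↔ x⁻¹ * x' ∈ Z := by
    intro x x'
    rw [hφ, Subgroup.mem_centralizer_iff, hZdef, Subgroup.mem_center_iff]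
    constructor
    · exact fun e y => Subtype.ext (e y y.2)
    · exact fun e y hy => congrArg Subtype.val (e ⟨y, hy⟩)
  let Ψ : E ⧸ Z → (E →* Z) := Quotient.lift (fun x : E => φ x)
    fun x x' e => (hcen x x').2 (QuotientGroup.leftRel_apply.1 e)
  have hΨ : Function.Injective Ψ := fun a b => Quotient.inductionOn₂ a b fun x x' e =>
    Quotient.sound (QuotientGroup.leftRel_apply.2 ((hcen x x').1 e))
  haveI : Finite (E →* Z) := Finite.of_injective (fun f : E →* Z => (f : E → Z)) DFunLike.coe_injective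
  have hsur : Function.Surjective Ψ :=
    ((Nat.bijective_iff_injective_and_card Ψ).2 ⟨hΨ, le_antisymm (Nat.card_le_card_of_injective Ψ hΨ) hle⟩).2
  rw [eq_top_iff]
  intro g _
  obtain ⟨q, hq⟩ := hsur (φ g)
  obtain ⟨x, rfl⟩ := Quotient.exists_rep q
  rw [show g = (x : G) * ((x : G)⁻¹ * g) by group]
  exact Subgroup.mul_mem_sup x.2 ((hφ _ _).1 hq)

end Cfsg.Agent.S0110
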