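import Cfsg.Statements.S0113
import Mathlib
import Cfsg.Agent.Lib.Transfer.MaximalClass
-- import your own Cfsg.Agent.* helpers here

set_option autoImplicit false
open Cfsg

namespace Cfsg.Agent.S0113

/-- A 2-group of maximal class contains a cyclic subgroup of index 2. -/
theorem result {X : Type*} [Group X] [Finite X] (n : ℕ) (hn : 3 ≤ n) (hX : Nat.card X = 2 ^ n) (hc : Group.nilpotencyClass X = n - 1) : ∃ C : Subgroup X, IsCyclic C ∧ C.index = 2 := by
  obtain ⟨a, t, ha, -⟩ := Lib.Transfer.four_structure hn hX (Lib.Transfer.four_of_maximal_class n X hn hX hc)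
  refine ⟨Subgroup.zpowers a, inferInstance, ?_⟩
  have h2 := (Subgroup.zpowers a).card_mul_index
  rw [Nat.card_zpowers, ha, hX, show n = (n - 1) + 1 by omega, pow_succ] at h2
  exact Nat.eq_of_mul_eq_mul_left (pow_pos two_pos _) h2

end Cfsg.Agent.S0113
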