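import Cfsg.Statements.S0114
import Mathlib
import Cfsg.Agent.Lib.Transfer.MaximalClass
-- import your own Cfsg.Agent.* helpers here

set_option autoImplicit false
open Cfsg

namespace Cfsg.Agent.S0114

/-- The central quotient of a 2-group of maximal class is dihedral. -/
theorem result {X : Type*} [Group X] [Finite X] (n : ℕ) (hn : 3 ≤ n) (hX : Nat.card X = 2 ^ n) (hc : Group.nilpotencyClass X = n - 1) : Nonempty (X ⧸ Subgroup.center X ≃* DihedralGroup (2 ^ (n - 2))) := by
  obtain ⟨a, t, ha, ht, hZ, hZc, -, hta, htt⟩ :=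
    Lib.Transfer.four_structure hn hX (Lib.Transfer.four_of_maximal_class n X hn hX hc)
  set q := QuotientGroup.mk' (Subgroup.center X)
  have hq : ∀ x, x ∈ Subgroup.center X → q x = 1 := fun x hx => (QuotientGroup.eq_one_iff x).2 hx
  set m := 2 ^ (n - 2) with hm
  haveI : NeZero m := ⟨pow_ne_zero _ two_ne_zero⟩
  have ham : q a ^ m = 1 := by rw [← map_pow]; exact hq _ (hZ ▸ Subgroup.mem_zpowers _)
  have hts : q t * q t = 1 := by rw [← map_mul]; exact hq _ htt
  have hinv : q t * q a * (q t)⁻¹ = (q a)⁻¹ := by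
    rw [eq_inv_iff_mul_eq_one, ← map_inv, ← map_mul, ← map_mul, ← map_mul]
    exact hq _ hta
  have hperiod : ∀ i j : ℕ, (i : ZMod m) = (j : ZMod m) → q a ^ i = q a ^ j := by
    intro i j h
    rw [pow_eq_pow_mod i ham, pow_eq_pow_mod j ham, (ZMod.natCast_eq_natCast_iff' i j m).1 h]
  let e : ZMod m → X ⧸ Subgroup.center X := fun i => q a ^ i.val
  have hadd : ∀ i j : ZMod m, e i * e j = e (i + j) := fun i j => by
    show q a ^ i.val * q a ^ j.val = q a ^ (i + j).val
    rw [← pow_add]; exact hperiod _ _ (by simp)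
  have hsub : ∀ i j : ZMod m, e (j - i) = (e i)⁻¹ * e j := fun i j => by
    rw [eq_inv_mul_iff_mul_eq, hadd, add_sub_cancel]
  have hswap : ∀ i : ZMod m, e i * q t = q t * (e i)⁻¹ := by
    intro i
    have h1 : q t * (e i)⁻¹ * (q t)⁻¹ = e i := by
      show q t * (q a ^ i.val)⁻¹ * (q t)⁻¹ = q a ^ i.val
      rw [← inv_inj, mul_inv_rev, mul_inv_rev, inv_inv, inv_inv, ← mul_assoc, ← conj_pow, hinv, inv_pow]
    calc e i * q t = q t * (e i)⁻¹ * (q t)⁻¹ * q t := by rw [h1]
      _ = _ := by group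
  let φ : DihedralGroup m →* X ⧸ Subgroup.center X := MonoidHom.mk'
    (fun g => match g with
      | DihedralGroup.r i => e i
      | DihedralGroup.sr i => q t * e i) (by
    rintro (i | i) (j | j)
    · exact (hadd i j).symm
    · show q t * e (j - i) = e i * (q t * e j)
      rw [hsub, ← mul_assoc (e i), hswap, mul_assoc]
    · show q t * e (i + j) = q t * e i * e j
      rw [mul_assoc, hadd]
    · show e (j - i) = q t * e i * (q t * e j)
      rw [hsub, mul_assoc (q t), ← mul_assoc (e i), hswap, ← mul_assoc (q t), ← mul_assoc (q t), hts, one_mul])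
  have hCi : (Subgroup.zpowers a).index = 2 := by
    have h2 := (Subgroup.zpowers a).card_mul_index
    rw [Nat.card_zpowers, ha, hX, show n = (n - 1) + 1 by omega, pow_succ] at h2
    exact Nat.eq_of_mul_eq_mul_left (pow_pos two_pos _) h2
  have hsurj : Function.Surjective φ := by
    intro y
    obtain ⟨x, rfl⟩ := QuotientGroup.mk'_surjective _ y
    have hpow : ∀ x ∈ Subgroup.zpowers a, ∃ i : ZMod m, q x = e i := by
      intro x hx
      obtain ⟨k, rfl⟩ := (Submonoid.mem_powers_iff x a).1 (mem_powers_iff_mem_zpowers.2 hx)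
      exact ⟨(k : ZMod m), by rw [map_pow]; exact hperiod _ _ (by simp)⟩
    rcases Lib.Transfer.mem_or_mul_mem_of_index_two hCi ht x with h | h
    · obtain ⟨i, hi⟩ := hpow x h
      exact ⟨DihedralGroup.r i, hi.symm⟩
    · obtain ⟨i, hi⟩ := hpow _ h
      refine ⟨DihedralGroup.sr (-i), ?_⟩
      show q t * e (-i) = q x
      have h0 : e 0 = 1 := by show q a ^ (0 : ZMod m).val = 1; rw [ZMod.val_zero, pow_zero]
      rw [← zero_sub, hsub, h0, mul_one, ← hswap, ← hi, map_mul, mul_assoc, hts, mul_one]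
  have hcard : Nat.card (DihedralGroup m) = Nat.card (X ⧸ Subgroup.center X) := by
    have h1 := Lib.Transfer.card_center_mul (Subgroup.center X)
    rw [hZc, hX, show n = (n - 2) + 1 + 1 by omega, pow_succ', pow_succ'] at h1
    rw [DihedralGroup.nat_card, hm, Nat.eq_of_mul_eq_mul_left two_pos h1]
  exact ⟨(MulEquiv.ofBijective φ ((Nat.bijective_iff_surjective_and_card φ).2 ⟨hsurj, hcard⟩)).symm⟩

end Cfsg.Agent.S0114
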