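import Cfsg.Statements.S0115
import Mathlib
import Cfsg.Agent.Lib.Transfer.MaximalClass
-- import your own Cfsg.Agent.* helpers here

set_option autoImplicit false
open Cfsg

namespace Cfsg.Agent.S0115

/-- A 2-group of order 2^n, n ≥ 3, is of maximal class exactly when its commutator quotient is a Klein four-group. -/
theorem result {X : Type*} [Group X] [Finite X] (n : ℕ) (hn : 3 ≤ n) (hX : Nat.card X = 2 ^ n) : Group.nilpotencyClass X = n - 1 ↔ IsKleinFour (X ⧸ commutator X) := by
  constructor
  · intro hc
    have h4 := Lib.Transfer.four_of_maximal_class n X hn hX hc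
    have hcard : Nat.card (X ⧸ commutator X) = 4 := by rw [← Subgroup.index_eq_card]; exact h4
    have hsq : ∀ x : X ⧸ commutator X, x ^ 2 = 1 := by
      haveI := Fact.mk Nat.prime_two
      intro y
      obtain ⟨x, rfl⟩ := QuotientGroup.mk'_surjective _ y
      obtain ⟨a, t, ha, ht, hZ, hZc, hZD, -, -⟩ := Lib.Transfer.four_structure hn hX h4
      by_contra hne
      have hx2 : orderOf (QuotientGroup.mk' (commutator X) x) = 4 := by
        obtain ⟨k, hk, hxk⟩ := (Nat.dvd_prime_pow Nat.prime_two).1
          (show orderOf (QuotientGroup.mk' (commutator X) x) ∣ 2 ^ 2 by rw [show 2 ^ 2 = 4 from rfl, ← hcard]; exact orderOf_dvd_natCard _)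
        rcases k with _ | _ | k
        · rw [pow_zero, orderOf_eq_one_iff] at hxk; exact absurd (by rw [hxk, one_pow]) hne
        · exact absurd (by rw [show (2 : ℕ) = orderOf (QuotientGroup.mk' (commutator X) x) by rw [hxk]; rfl, pow_orderOf_eq_one]) hne
        · rw [hxk, show k = 0 by omega]; rfl
      haveI hcyc : IsCyclic (X ⧸ commutator X) := isCyclic_of_orderOf_eq_card _ (by rw [hx2, hcard])
      -- a cyclic abelianization forces a cyclic group
      have hG : IsPGroup 2 X := IsPGroup.of_card hX
      have htop : Subgroup.zpowers x ⊔ commutator X = ⊤ := by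
        have h1 : (Subgroup.zpowers x).map (QuotientGroup.mk' (commutator X)) = ⊤ := by
          rw [MonoidHom.map_zpowers]
          exact Subgroup.eq_top_of_card_eq _ (by rw [Nat.card_zpowers, hx2, hcard])
        have h2 := congrArg (Subgroup.comap (QuotientGroup.mk' (commutator X))) h1
        rwa [Subgroup.comap_map_eq, QuotientGroup.ker_mk', Subgroup.comap_top] at h2
      have hx : Subgroup.zpowers x = ⊤ := by
        by_contra hne'
        obtain ⟨M, hM, hxM⟩ := (eq_top_or_exists_le_coatom (Subgroup.zpowers x)).resolve_left hne'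
        haveI := (Lib.Transfer.coatom_normal_index hG hM).1
        have hDM : commutator X ≤ M :=
          (Lib.Transfer.commutator_le_frattini hG).trans (frattini_le_coatom hM)
        exact hM.1 (eq_top_iff.2 (htop ▸ sup_le hxM hDM))
      have hD : commutator X = ⊥ := by
        rw [commutator_def, Subgroup.commutator_eq_bot_iff_le_centralizer, Subgroup.coe_top, Subgroup.centralizer_univ]
        intro y _
        rw [Subgroup.mem_center_iff]
        intro z
        obtain ⟨i, rfl⟩ := Subgroup.mem_zpowers_iff.1 (show y ∈ Subgroup.zpowers x by rw [hx]; trivial)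
        obtain ⟨j, rfl⟩ := Subgroup.mem_zpowers_iff.1 (show z ∈ Subgroup.zpowers x by rw [hx]; trivial)
        exact (Commute.zpow_zpow_self x j i).eq
      rw [hD, le_bot_iff] at hZD
      rw [hZD, Subgroup.card_bot] at hZc
      omega
    refine ⟨hcard, ?_⟩
    refine ((Nat.dvd_prime Nat.prime_two).1 (Monoid.exponent_dvd_of_forall_pow_eq_one hsq)).resolve_left fun h => ?_
    haveI := Monoid.exp_eq_one_iff.1 h
    rw [Nat.card_of_subsingleton (1 : X ⧸ commutator X)] at hcard
    omega
  · intro h
    exact Lib.Transfer.nilpotencyClass_of_four n X hn hX (by rw [Subgroup.index_eq_card]; exact h.card_four)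

end Cfsg.Agent.S0115
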