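import Cfsg.Statements.S0116
import Mathlib
import Cfsg.Agent.Lib.Transfer.Alperin
-- import your own Cfsg.Agent.* helpers here

set_option autoImplicit false
open Cfsg

namespace Cfsg.Agent.S0116

/-- The Alperin fusion Theorem states that conjugation between subsets of a Sylow p-subgroup P factors through normalizers of tame intersections P ∩ Q_i with other Sylow p-subgroups, carrying the subset along step by step. -/
theorem result {G : Type*} [Group G] [Finite G] {p : ℕ} [Fact p.Prime] (P : Sylow p G) (A : Set G) (g : G) (hA : A ⊆ (P : Set G)) (hAg : (fun a => g⁻¹ * a * g) '' A ⊆ (P : Set G)) : ∃ (n : ℕ) (Q : Fin n → Sylow p G) (x : Fin n → G), (List.ofFn x).prod = g ∧ (∀ i : Fin n, x i ∈ Subgroup.normalizer ((((P : Subgroup G) ⊓ (Q i : Subgroup G)) : Subgroup G) : Set G) ∧ ¬ p ∣ ((P : Subgroup G) ⊓ Subgroup.normalizer ((((P : Subgroup G) ⊓ (Q i : Subgroup G)) : Subgroup G) : Set G)).relIndex (Subgroup.normalizer ((((P : Subgroup G) ⊓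 (Q i : Subgroup G)) : Subgroup G) : Set G)) ∧ ¬ p ∣ ((Q i : Subgroup G) ⊓ Subgroup.normalizer ((((P : Subgroup G) ⊓ (Q i : Subgroup G)) : Subgroup G) : Set G)).relIndex (Subgroup.normalizer ((((P : Subgroup G) ⊓ (Q i : Subgroup G)) : Subgroup G) : Set G))) ∧ (∀ h : 0 < n, A ⊆ (((P : Subgroup G) ⊓ (Q ⟨0, h⟩ : Subgroup G) : Subgroup G) : Set G)) ∧ ∀ i : Fin n, ∀ h : i.val + 1 < n, (fun a => (((List.ofFn x).take (i.val + 1)).prod)⁻¹ * a * ((List.ofFn x).take (i.val + 1)).prod) '' A ⊆ (((P : Subgroup G) ⊓ (Q ⟨i.val + 1, h⟩ : Subgroup G) : Subgroup G) : Set G) := by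
  suffices h : ∀ A : Set G, ∀ g : G, Cfsg.Lib.Transfer.FusionChain P A g →
      ∃ (n : ℕ) (Q : Fin n → Sylow p G) (x : Fin n → G), (List.ofFn x).prod = g ∧
        (∀ i : Fin n, x i ∈ Subgroup.normalizer ((((P : Subgroup G) ⊓ (Q i : Subgroup G)) : Subgroup G) : Set G) ∧
          Cfsg.Lib.Transfer.Tame P (Q i)) ∧
        (∀ i : Fin n, Cfsg.Lib.Transfer.conjR (((List.ofFn x).take i.val).prod) A ⊆
          (((P : Subgroup G) ⊓ (Q i : Subgroup G) : Subgroup G) : Set G)) by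
    obtain ⟨n, Q, x, h1, h2, h3⟩ := h A g (Lib.Transfer.alperin P hA hAg)
    refine ⟨n, Q, x, h1, fun i => ⟨(h2 i).1, (h2 i).2.1, (h2 i).2.2⟩, fun h0 => ?_, fun i hi => ?_⟩
    · have := h3 ⟨0, h0⟩
      simpa [Cfsg.Lib.Transfer.conjR] using this
    · exact h3 ⟨i.val + 1, hi⟩
  intro A g hc
  induction hc with
  | nil A =>
    exact ⟨0, Fin.elim0, Fin.elim0, by simp, fun i => i.elim0, fun i => i.elim0⟩
  | @cons A g Q₀ x₀ ht hx hp hA' _ ih =>
    obtain ⟨n, Q, x, h1, h2, h3⟩ := ih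
    refine ⟨n + 1, Fin.cons Q₀ Q, Fin.cons x₀ x, by simp [List.ofFn_succ, h1], ?_, ?_⟩
    · intro i
      refine Fin.cases ?_ (fun j => ?_) i
      · simpa using And.intro hx ht
      · simpa using h2 j
    · intro i
      refine Fin.cases ?_ (fun j => ?_) i
      · simpa [Cfsg.Lib.Transfer.conjR] using hA'
      · have := h3 j
        rw [← Lib.Transfer.conjR_mul] at this
        simpa [List.ofFn_succ] using this

end Cfsg.Agent.S0116
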