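import Cfsg.Statements.S0119
import Mathlib
import Cfsg.Agent.Lib.Transfer.Critical
-- import your own Cfsg.Agent.* helpers here

set_option autoImplicit false
open Cfsg
open scoped commutatorElement

namespace Cfsg.Agent.S0119

/-- If a p'-group A of automorphisms of a p-group G satisfies G = [G, A] and acts trivially on every characteristic abelian subgroup, then G is special with centre equal to the fixed points of A. -/
theorem result {G : Type*} [Group G] [Finite G] {p : ℕ} [Fact p.Prime] (hG : IsPGroup p G) (A : Subgroup (MulAut G)) (hA : Nat.Coprime (Nat.card A) p) (hGA : Subgroup.closure {x : G | ∃ g : G, ∃ a ∈ A, x = g⁻¹ * a g} = ⊤) (hchar : ∀ H : Subgroup G, H.Characteristic → IsMulCommutative H → ∀ a ∈ A, ∀ h ∈ H, a h = h) : Cfsg.IsSpecial p G ∧ (∀ g : G, (g ∈ Subgroup.center G ↔ ∀ a ∈ A, a g = g)) := by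
  classical
  have hinv : ∀ H : Subgroup G, H.Characteristic → IsMulCommutative H → H ≤ Subgroup.center G := by
    intro H hH hHa
    haveI := hH
    rw [← Subgroup.centralizer_univ, ← Subgroup.coe_top, Subgroup.le_centralizer_iff, ← hGA, Subgroup.closure_le]
    rintro _ ⟨g, a, ha, rfl⟩
    rw [SetLike.mem_coe, Subgroup.mem_centralizer_iff]
    intro x hx
    have h1 : g * x * g⁻¹ ∈ H := (inferInstance : H.Normal).conj_mem x hx g
    have h2 := hchar H hH hHa a ha _ h1
    rw [map_mul, map_mul, map_inv, hchar H hH hHa a ha x hx] at h2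
    calc x * (g⁻¹ * a g) = g⁻¹ * (g * x * g⁻¹) * a g := by group
      _ = g⁻¹ * (a g * x * (a g)⁻¹) * a g := by rw [h2]
      _ = _ := by group
  have habel : ∀ H : Subgroup G, H ≤ Subgroup.centralizer (H : Set G) → IsMulCommutative H :=
    fun H h => Subgroup.le_centralizer_iff_isMulCommutative.1 h
  -- class two
  have hD : commutator G ≤ Subgroup.center G := by
    by_contra hne
    let K : Subgroup G := commutator G ⊓ Subgroup.upperCentralSeries G 2
    have hKz : K ≤ Subgroup.center G := by
      refine hinv K (Lib.Transfer.characteristic_of_mem_iff fun φ x hx =>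
        ⟨Lib.Transfer.map_mem_of_characteristic φ hx.1, Lib.Transfer.map_mem_of_characteristic φ hx.2⟩) (habel K ?_)
      have h1 : ∀ x ∈ Subgroup.upperCentralSeries G 2, ∀ y : G, ⁅x, y⁆ ∈ Subgroup.center G := fun x hx y => by
        have := Subgroup.mem_upperCentralSeries_succ_iff.1 hx y
        rwa [Subgroup.upperCentralSeries_one] at this
      have h2 : ⁅Subgroup.upperCentralSeries G 2, (⊤ : Subgroup G)⁆ ≤ Subgroup.center G :=
        Subgroup.commutator_le.2 fun x hx y _ => h1 x hx y
      have h3 : ⁅⁅(⊤ : Subgroup G), (⊤ : Subgroup G)⁆, Subgroup.upperCentralSeries G 2⁆ = ⊥ := by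
        refine Subgroup.commutator_commutator_eq_bot_of_rotate ?_ ?_
        · rw [Lib.Transfer.commutator_eq_bot_iff_mem_center, Subgroup.commutator_comm]; exact h2
        · rw [Lib.Transfer.commutator_eq_bot_iff_mem_center]; exact h2
      refine fun x hx => Subgroup.centralizer_le inf_le_left ?_
      rw [Subgroup.commutator_eq_bot_iff_le_centralizer] at h3
      exact Subgroup.le_centralizer_iff.1 h3 hx.2
    have hlt : commutator G ⊓ Subgroup.center G < commutator G :=
      lt_of_le_of_ne inf_le_left fun e => hne (e ▸ inf_le_right)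
    obtain ⟨B, b, -, -, hBD, -, hb, hbn, -, hbg⟩ := Lib.Transfer.exists_normal_step hG _ _ hlt
    refine hbn ⟨hBD hb, hKz ⟨hBD hb, Subgroup.mem_upperCentralSeries_succ_iff.2 fun y => ?_⟩⟩
    rw [Subgroup.upperCentralSeries_one]
    have := inv_mem (show y * b * y⁻¹ * b⁻¹ ∈ Subgroup.center G from (hbg y).2)
    convert this using 1
    group
  have hDc : ∀ x y : G, ⁅x, y⁆ ∈ Subgroup.center G := fun x y =>
    hD (Subgroup.commutator_mem_commutator (Subgroup.mem_top x) (Subgroup.mem_top y))
  have hbil : ∀ x y : G, ∀ k : ℕ, ⁅x ^ k, y⁆ = ⁅x, y⁆ ^ k := by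
    intro x y k
    induction k with
    | zero => simp [commutatorElement_def]
    | succ k ih =>
      calc ⁅x ^ (k + 1), y⁆ = x ^ k * ⁅x, y⁆ * (x ^ k)⁻¹ * ⁅x ^ k, y⁆ := by
            simp only [commutatorElement_def]; group
        _ = ⁅x, y⁆ * ⁅x, y⁆ ^ k := by rw [Subgroup.mem_center_iff.1 (hDc x y) (x ^ k), mul_inv_cancel_right, ih]
        _ = _ := (pow_succ' _ _).symm
  have hswap : ∀ x y : G, ⁅y, x⁆ = ⁅x, y⁆⁻¹ := fun x y => (commutatorElement_inv x y).symm
  -- exponent `p` modulo the centre
  have hz : ∀ x : G, x ^ p ∈ Subgroup.center G := by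
    obtain ⟨N, hN⟩ := IsPGroup.iff_card.1 hG
    have hex : ∃ e : ℕ, ∀ x : G, x ^ p ^ e ∈ Subgroup.center G := ⟨N, fun x => by
      rw [← hN, pow_card_eq_one']; exact one_mem _⟩
    have he := Nat.find_spec hex
    rcases Nat.lt_or_ge 1 (Nat.find hex) with h1 | h1
    · obtain ⟨e, he'⟩ : ∃ e, Nat.find hex = e + 1 := ⟨_, (Nat.sub_add_cancel h1.le).symm⟩
      rw [he'] at he h1
      exfalso
      let S : Set G := Set.range fun x => x ^ p ^ e
      have hKc : (Subgroup.closure S).Characteristic := Lib.Transfer.characteristic_of_mem_iff fun φ x hx => by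
        induction hx using Subgroup.closure_induction with
        | mem x hx => obtain ⟨y, rfl⟩ := hx; exact Subgroup.subset_closure ⟨φ y, (map_pow φ y _).symm⟩
        | one => rw [map_one]; exact one_mem _
        | mul x y _ _ h1 h2 => rw [map_mul]; exact mul_mem h1 h2
        | inv x _ h1 => rw [map_inv]; exact inv_mem h1
      have hKa : IsMulCommutative (Subgroup.closure S) := by
        refine habel _ ((Subgroup.closure_le _).2 ?_)
        rintro _ ⟨x, rfl⟩
        rw [Subgroup.centralizer_closure, SetLike.mem_coe, Subgroup.mem_centralizer_iff]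
        rintro _ ⟨y, rfl⟩
        show y ^ p ^ e * x ^ p ^ e = x ^ p ^ e * y ^ p ^ e
        rw [← commutatorElement_eq_one_iff_mul_comm, hbil, hswap, hbil, inv_pow, ← pow_mul, inv_eq_one,
          show p ^ e * p ^ e = p ^ (e + 1) * p ^ (e - 1) by rw [← pow_add, ← pow_add]; congr 1; omega,
          pow_mul, ← hbil, commutatorElement_eq_one_iff_mul_comm.2 (Subgroup.mem_center_iff.1 (he _) _).symm,
          one_pow]
      exact Nat.find_min hex (by rw [he']; omega) fun x =>
        hinv _ hKc hKa (Subgroup.subset_closure ⟨x, rfl⟩)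
    · intro x
      rcases Nat.le_one_iff_eq_zero_or_eq_one.1 h1 with h0 | h0 <;> rw [h0] at he
      · exact pow_mem (by simpa using he x) p
      · simpa using he x
  have hΦ : frattini G ≤ Subgroup.center G := Lib.Transfer.frattini_le_of_quotient hD hz
  have hDΦ : commutator G ≤ frattini G := Lib.Transfer.commutator_le_frattini hG
  -- fixed points lie in the derived subgroup
  have hfix : ∀ g : G, (∀ a ∈ A, a g = g) → g ∈ commutator G := by
    intro g hg
    haveI := Fintype.ofFinite A
    let N : G →* Abelianization G :=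
      ∏ a : A, Abelianization.of.comp ((a : MulAut G).toMonoidHom)
    have hN : N = 1 := by
      refine MonoidHom.eq_of_eqOn_dense hGA ?_
      rintro _ ⟨x, b, hb, rfl⟩
      simp only [N, MonoidHom.one_apply, MonoidHom.finsetProd_apply, MonoidHom.comp_apply, map_mul, map_inv,
        Finset.prod_mul_distrib, Finset.prod_inv_distrib]
      rw [inv_one, one_mul, inv_mul_eq_one]
      exact (Fintype.prod_equiv (Equiv.mulRight (⟨b, hb⟩ : A)) _ _ fun a => rfl).symm
    have h1 : Abelianization.of g ^ Nat.card A = 1 := by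
      have := congrArg (fun f : G →* Abelianization G => f g) hN
      simp only [N, MonoidHom.one_apply, MonoidHom.finsetProd_apply, MonoidHom.comp_apply] at this
      rw [Nat.card_eq_fintype_card, ← Finset.card_univ, ← Finset.prod_const]
      refine Eq.trans (Finset.prod_congr rfl fun a _ => ?_) this
      exact congrArg Abelianization.of (hg a a.2).symm
    obtain ⟨k, hk⟩ := hG g
    have h2 : Abelianization.of g ^ p ^ k = 1 := by rw [← map_pow, hk, map_one]
    have h3 : Abelianization.of g = 1 := by
      rw [← pow_one (Abelianization.of g), ← (hA.pow_right k).gcd_eq_one]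
      exact pow_gcd_eq_one.2 ⟨h1, h2⟩
    exact (QuotientGroup.eq_one_iff g).1 h3
  have hZfix : ∀ g ∈ Subgroup.center G, ∀ a ∈ A, a g = g := fun g hg a ha =>
    hchar _ inferInstance inferInstance a ha g hg
  have hZD : Subgroup.center G ≤ commutator G := fun g hg => hfix g (hZfix g hg)
  refine ⟨⟨hG, le_antisymm hΦ (hZD.trans hDΦ), le_antisymm hD hZD⟩, fun g => ⟨hZfix g, fun h => hD (hfix g h)⟩⟩

end Cfsg.Agent.S0119
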