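import Cfsg.Statements.S0120
import Mathlib
import Cfsg.Agent.Lib.Transfer.Critical
-- import your own Cfsg.Agent.* helpers here

set_option autoImplicit false
open Cfsg

namespace Cfsg.Agent.S0120

/-- For odd p, a p'-automorphism of a p-group acting trivially on the elements of order dividing p is trivial. -/
theorem result {G : Type*} [Group G] [Finite G] {p : ℕ} [Fact p.Prime] (hp : p ≠ 2) (hG : IsPGroup p G) (a : MulAut G) (ha : Nat.Coprime (orderOf a) p) (h : ∀ x : G, x ^ p = 1 → a x = x) : a = 1 := by
  refine MulEquiv.ext fun g => ?_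
  refine Lib.Transfer.fixed_of_fix_omega hp _ G rfl hG a _ ha (fun x => ?_) h g
  have key : ∀ k : ℕ, (⇑a)^[k] x = (a ^ k) x := by
    intro k
    induction k with
    | zero => rfl
    | succ k ih => rw [Function.iterate_succ_apply', ih, pow_succ']; rfl
  rw [key, pow_orderOf_eq_one]; rfl

end Cfsg.Agent.S0120
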