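import Cfsg.Statements.S0125
import Mathlib
import Cfsg.Agent.Lib.Transfer.Action
-- import your own Cfsg.Agent.* helpers here

set_option autoImplicit false
open Cfsg

namespace Cfsg.Agent.S0125

/-- The centralizer of a self-centralizing normal subgroup A of a Sylow p-subgroup is the direct product of A with a normal p'-subgroup. -/
theorem result {G : Type*} [Group G] [Finite G] {p : ℕ} [Fact p.Prime] (R : Sylow p G) (A : Subgroup G) (hAR : A ≤ (R : Subgroup G)) (hAn : (R : Subgroup G) ≤ Subgroup.normalizer (A : Set G)) (hC : (R : Subgroup G) ⊓ Subgroup.centralizer (A : Set G) = A) : ∃ H : Subgroup G, H ≤ Subgroup.centralizer (A : Set G) ∧ Nat.Coprime (Nat.card H) p ∧ Subgroup.centralizer (A : Set G) ≤ Subgroup.normalizer (H : Set G) ∧ H ⊓ A = ⊥ ∧ H ⊔ A = Subgroup.centralizer (A : Set G) := by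
  set C := Subgroup.centralizer (A : Set G) with hCdef
  set N := Subgroup.normalizer (A : Set G)
  have hCN : C ≤ N := by
    intro c hc
    rw [Subgroup.mem_normalizer_iff]
    intro a
    constructor
    · intro ha
      rwa [← Subgroup.mem_centralizer_iff.1 hc a ha, mul_inv_cancel_right]
    · intro ha
      have e : c * a * c⁻¹ * c = c * (c * a * c⁻¹) := Subgroup.mem_centralizer_iff.1 hc _ ha
      rw [inv_mul_cancel_right] at e
      rwa [← mul_left_cancel e] at ha
  haveI : (C.subgroupOf N).Normal := by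
    refine ⟨fun c hc g => ?_⟩
    rw [Subgroup.mem_subgroupOf] at hc ⊢
    rw [hCdef, Subgroup.mem_centralizer_iff]
    intro a ha
    have ha' : (g : G)⁻¹ * a * g ∈ A := (Subgroup.mem_normalizer_iff''.1 g.2 a).1 ha
    have e := Subgroup.mem_centralizer_iff.1 hc _ ha'
    calc a * ((g * c * g⁻¹ : N) : G) = (g : G) * ((g : G)⁻¹ * a * g * c) * (g : G)⁻¹ := by
          simp only [Subgroup.coe_mul, Subgroup.coe_inv]; group
      _ = _ := by rw [e]; simp only [Subgroup.coe_mul, Subgroup.coe_inv]; group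
  have hAC : A ≤ C := fun a ha => ((hC.symm ▸ ha : a ∈ (R : Subgroup G) ⊓ C)).2
  have hAp : IsPGroup p (A.subgroupOf C) :=
    (R.isPGroup'.to_le hAR).of_equiv (Subgroup.subgroupOfEquivOfLe hAC).symm
  have hndvd : ¬ p ∣ (A.subgroupOf C).index := by
    intro hd
    have h1 : A.relIndex C ∣ (R : Subgroup G).relIndex N := by
      have := Lib.Transfer.relIndex_dvd_index_of_normal_right
        ((R : Subgroup G).subgroupOf N) (C.subgroupOf N)
      rw [Subgroup.relIndex_subgroupOf hCN, ← Subgroup.inf_relIndex_right, hC] at this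
      exact this
    exact R.not_dvd_index (hd.trans (h1.trans (Subgroup.relIndex_dvd_index_of_le hAn |>.trans dvd_rfl)))
  let P : Sylow p C := hAp.toSylow hndvd
  have hPc : Subgroup.normalizer ((P : Subgroup C) : Set C) ≤ Subgroup.centralizer ((P : Subgroup C) : Set C) := by
    intro x _
    rw [Subgroup.mem_centralizer_iff]
    intro a ha
    exact Subtype.ext (Subgroup.mem_centralizer_iff.1 x.2 a ha)
  obtain ⟨Q, K, hKn, hK⟩ := Lib.Transfer.hasNormalPComplement_of_normalizer_le_centralizer P hPc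
  obtain ⟨hcop, k, hk⟩ := Lib.Transfer.coprime_card_of_isComplement' hK
  refine ⟨K.map C.subtype, Subgroup.map_subtype_le K, ?_, ?_, ?_, ?_⟩
  · rwa [Subgroup.card_map_of_injective C.subtype_injective]
  · intro c hc
    rw [Subgroup.mem_normalizer_iff]
    intro x
    constructor
    · rintro ⟨k, hk, rfl⟩
      exact ⟨⟨c, hc⟩ * k * ⟨c, hc⟩⁻¹, hKn.conj_mem k hk _, rfl⟩
    · rintro ⟨k, hk, e⟩
      exact ⟨⟨c, hc⟩⁻¹ * k * ⟨c, hc⟩⁻¹⁻¹, hKn.conj_mem k hk _, by
        show c⁻¹ * (C.subtype k) * c⁻¹⁻¹ = x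
        rw [e]; group⟩
  · refine Subgroup.inf_eq_bot_of_coprime ?_
    rw [Subgroup.card_map_of_injective C.subtype_injective]
    obtain ⟨n, hn⟩ := IsPGroup.iff_card.1 (R.isPGroup'.to_le hAR)
    rw [hn]; exact hcop.pow_right n
  · have hKP := Lib.Transfer.isComplement'_sylow hcop hk P
    have := congrArg (Subgroup.map C.subtype) hKP.sup_eq_top
    rw [Subgroup.map_sup, ← MonoidHom.range_eq_map, Subgroup.range_subtype,
      show (P : Subgroup C).map C.subtype = A from Subgroup.map_subgroupOf_eq_of_le hAC] at this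
    exact this

end Cfsg.Agent.S0125
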