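import Cfsg.Statements.S0131
import Mathlib
import Cfsg.Agent.Lib.Transfer.NormalPComplement
-- import your own Cfsg.Agent.* helpers here

set_option autoImplicit false
open Cfsg

namespace Cfsg.Agent.S0131

/-- P/P' has a normal complement in G exactly when the focal subgroup G' ∩ P is as small as possible, namely P'. -/
theorem result {G : Type*} [Group G] [Finite G] {p : ℕ} [Fact p.Prime] (P : Sylow p G) : (∃ N : Subgroup G, N.Normal ∧ N ⊓ (P : Subgroup G) = ⁅(P : Subgroup G), (P : Subgroup G)⁆ ∧ N ⊔ (P : Subgroup G) = ⊤) ↔ commutator G ⊓ (P : Subgroup G) = ⁅(P : Subgroup G), (P : Subgroup G)⁆ := by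
  constructor
  · rintro ⟨N, hN, hNP, htop⟩
    haveI := hN
    refine le_antisymm ?_ (le_inf ?_ (Subgroup.commutator_le_self _))
    · rw [← hNP]
      refine inf_le_inf_right _ ?_
      rw [commutator_def, Subgroup.commutator_le]
      intro a _ b _
      rw [← QuotientGroup.eq_one_iff, ← QuotientGroup.mk'_apply, map_commutatorElement,
        commutatorElement_eq_one_iff_mul_comm]
      obtain ⟨n, hn, u, hu, rfl⟩ := Subgroup.mem_sup_of_normal_left.1 (htop.ge (Subgroup.mem_top a))
      obtain ⟨m, hm, v, hv, rfl⟩ := Subgroup.mem_sup_of_normal_left.1 (htop.ge (Subgroup.mem_top b))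
      simp only [map_mul, QuotientGroup.mk'_apply, (QuotientGroup.eq_one_iff _).2 hn,
        (QuotientGroup.eq_one_iff _).2 hm, one_mul]
      rw [← QuotientGroup.mk_mul, ← QuotientGroup.mk_mul, QuotientGroup.eq]
      have : (u * v)⁻¹ * (v * u) ∈ ⁅(P : Subgroup G), (P : Subgroup G)⁆ := by
        have := Subgroup.commutator_mem_commutator (H₁ := (P : Subgroup G)) (H₂ := (P : Subgroup G))
          (inv_mem hv) (inv_mem hu)
        simpa [commutatorElement_def, mul_assoc] using this
      exact (hNP.ge this).1
    · rw [commutator_def]; exact Subgroup.commutator_mono le_top le_top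
  · intro h
    refine ⟨(P : Subgroup G).transferFocal.ker, inferInstance, ?_, ?_⟩
    · rw [Subgroup.ker_transferFocal_inf_eq_focalSubgroup, ← Subgroup.commutator_inf_eq_focalSubgroup, h]
    · obtain ⟨k, hk⟩ := IsPGroup.iff_card.1 ((P.isPGroup'.to_quotient _).of_equiv
        (Subgroup.transferFocal.quotientKerMulEquivQuotientFocalSubroupOf P).symm)
      exact Lib.Transfer.sup_sylow_eq_top_of_index_eq_pow _ P
        (by rw [Subgroup.index_eq_card]; exact hk)

end Cfsg.Agent.S0131
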