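import Cfsg.Statements.S0132
import Mathlib
import Cfsg.Agent.Lib.Transfer.Frobenius
import Cfsg.Agent.Lib.Transfer.Action
-- import your own Cfsg.Agent.* helpers here

set_option autoImplicit false
open Cfsg

namespace Cfsg.Agent.S0132

/-- A minimal non-p-nilpotent finite group is a minimal non-nilpotent group with a normal Sylow p-subgroup. -/
theorem result {G : Type*} [Group G] [Finite G] {p : ℕ} [Fact p.Prime] (h1 : ¬ Cfsg.HasNormalPComplement p G) (h2 : ∀ H : Subgroup G, H ≠ ⊤ → Cfsg.HasNormalPComplement p H) : (∀ H : Subgroup G, H ≠ ⊤ → Group.IsNilpotent H) ∧ ¬ Group.IsNilpotent G ∧ ∀ P : Sylow p G, (P : Subgroup G).Normal := by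
  classical
  obtain ⟨P⟩ := (inferInstance : Nonempty (Sylow p G))
  have hnF : ¬ Lib.Transfer.FrobeniusCond P := fun h => h1 ((Lib.Transfer.frobenius_iff P).2 h)
  simp only [Lib.Transfer.FrobeniusCond, not_forall] at hnF
  obtain ⟨Q, hQP, g, hgQ, hg, hgC⟩ := hnF
  have key : ∀ H : Subgroup G, Q ≤ H → g ∈ H → H = ⊤ := by
    intro H hQH hgH
    by_contra hH
    have hQp : IsPGroup p (Q.subgroupOf H) :=
      (P.isPGroup'.to_le hQP).of_equiv (Subgroup.subgroupOfEquivOfLe hQH).symm
    obtain ⟨P', hP'⟩ := hQp.exists_le_sylow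
    have hc := (Lib.Transfer.frobenius_iff P').1 (h2 H hH) _ hP' ⟨g, hgH⟩ (Subgroup.mem_normalizer_iff.2 fun x => by
      rw [Subgroup.mem_subgroupOf, Subgroup.mem_subgroupOf]
      exact Subgroup.mem_normalizer_iff.1 hgQ x) (by rwa [Subgroup.orderOf_mk])
    refine hgC (Subgroup.mem_centralizer_iff.2 fun x hx => ?_)
    exact congrArg Subtype.val (Subgroup.mem_centralizer_iff.1 hc ⟨x, hQH hx⟩ hx)
  have hNtop := key _ Subgroup.le_normalizer hgQ
  haveI hQn : Q.Normal := Subgroup.normalizer_eq_top_iff.1 hNtop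
  have hsup := key (Q ⊔ Subgroup.zpowers g) le_sup_left (Subgroup.mem_sup_right (Subgroup.mem_zpowers g))
  let q := QuotientGroup.mk' Q
  have hgen : Subgroup.zpowers (q g) = ⊤ := by
    have h3 := congrArg (Subgroup.map q) hsup
    rwa [Subgroup.map_sup, QuotientGroup.map_mk'_self, bot_sup_eq, MonoidHom.map_zpowers,
      Subgroup.map_top_of_surjective q (QuotientGroup.mk'_surjective Q)] at h3
  have hcyc : IsCyclic (G ⧸ Q) := ⟨q g, fun x => (SetLike.ext_iff.1 hgen x).2 (Subgroup.mem_top x)⟩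
  have hidx : ¬ p ∣ Q.index := by
    rw [Subgroup.index_eq_card, ← Subgroup.card_top, ← hgen, Nat.card_zpowers]
    exact ((Fact.out : p.Prime).coprime_iff_not_dvd).1 (Nat.Coprime.coprime_dvd_left (orderOf_map_dvd q g) hg).symm
  let S : Sylow p G := (P.isPGroup'.to_le hQP).toSylow hidx
  haveI : ((S : Subgroup G)).Normal := hQn
  haveI : Unique (Sylow p G) := Sylow.unique_of_normal S hQn
  refine ⟨fun H hH => ?_, fun hnil => ?_, fun P' => by rw [Subsingleton.elim P' S]; exact hQn⟩
  · obtain ⟨T, K, hKn, hK⟩ := h2 H hH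
    haveI := hKn
    obtain ⟨hcop, k, hk⟩ := Lib.Transfer.coprime_card_of_isComplement' hK
    set B : Subgroup H := Q.subgroupOf H
    haveI hBn : B.Normal := inferInstance
    have hBp : IsPGroup p B :=
      (P.isPGroup'.to_le hQP).comap_of_injective H.subtype H.subtype_injective
    have hdis : K ⊓ B = ⊥ := by
      refine Subgroup.inf_eq_bot_of_coprime ?_
      obtain ⟨j, hj⟩ := IsPGroup.iff_card.1 hBp
      rw [hj]; exact hcop.pow_right j
    haveI hKcyc : IsCyclic K := by
      refine isCyclic_of_injective ((q.comp H.subtype).comp K.subtype) ?_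
      rw [injective_iff_map_eq_one]
      intro x hx
      have : (x : H) ∈ K ⊓ B := ⟨x.2, (QuotientGroup.eq_one_iff ((x : H) : G)).1 hx⟩
      rw [hdis, Subgroup.mem_bot] at this
      exact Subtype.ext this
    letI : CommGroup K := IsCyclic.commGroup
    haveI : Group.IsNilpotent B := hBp.isNilpotent
    let f : K × B →* H := MonoidHom.noncommCoprod K.subtype B.subtype fun x y =>
      Subgroup.commute_of_normal_of_disjoint K B hKn hBn (disjoint_iff.2 hdis) _ _ x.2 y.2
    refine Group.nilpotent_of_surjective f ?_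
    -- `|K| |B| = |H|` since `B` is a Sylow subgroup of `H`
    have hTB : (T : Subgroup H) ≤ B := by
      intro x hx
      rw [Subgroup.mem_subgroupOf]
      obtain ⟨T', hT'⟩ := (T.isPGroup'.map H.subtype).exists_le_sylow
      have := hT' ⟨x, hx, rfl⟩
      rw [Subsingleton.elim T' S] at this
      exact this
    rw [← MonoidHom.range_eq_top, eq_top_iff, ← hK.sup_eq_top]
    refine sup_le (fun x hx => ⟨(⟨x, hx⟩, 1), by simp [f]⟩) fun x hx => ⟨(1, ⟨x, hTB hx⟩), by simp [f]⟩
  · refine hgC (Lib.Transfer.mem_centralizer_of_prime_parts fun r hr y hy ⟨j, hj⟩ => ?_)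
    haveI := Fact.mk hr
    by_cases hrp : r = p
    · subst hrp
      have hd : r ^ j ∣ orderOf g := hj ▸ orderOf_dvd_of_mem_zpowers hy
      have : r ^ j = 1 := Nat.eq_one_of_dvd_coprimes (hg.pow_right j) hd dvd_rfl
      rw [orderOf_eq_one_iff.1 (hj.trans this)]
      exact one_mem _
    obtain ⟨R, hR⟩ := (IsPGroup.of_card (n := j) (show Nat.card (Subgroup.zpowers y) = r ^ j by rw [Nat.card_zpowers, hj])).exists_le_sylow
    have hRn : (R : Subgroup G).Normal :=
      Sylow.normal_of_normalizerCondition (@Group.normalizerCondition_of_isNilpotent _ _ hnil) R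
    rw [Subgroup.mem_centralizer_iff]
    intro x hx
    exact (Subgroup.commute_of_normal_of_disjoint (R : Subgroup G) Q hRn hQn
      (IsPGroup.disjoint_of_ne r p hrp _ _ R.isPGroup' (P.isPGroup'.to_le hQP)) y x (hR (Subgroup.mem_zpowers y)) hx).symm.eq

end Cfsg.Agent.S0132
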