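import Cfsg.Statements.S0143
import Mathlib
import Cfsg.Agent.Lib.Characters.Burnside
-- import your own Cfsg.Agent.* helpers here

set_option autoImplicit false
open Cfsg

namespace Cfsg.Agent.S0143

/-- If a finite simple group has a non-identity element whose conjugacy class has prime-power size, then the group has prime order. -/
theorem result {G : Type*} [Group G] [Finite G] [IsSimpleGroup G] (p k : ℕ) (hp : p.Prime) (g : G) (hg : g ≠ 1) (hclass : (Subgroup.centralizer ({g} : Set G)).index = p ^ k) : (Nat.card G).Prime := by
    exact Cfsg.Lib.Characters.prime_card_of_prime_pow_class hp hg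
      (by rw [Cfsg.Lib.Characters.card_conj_eq_index]; exact hclass)

end Cfsg.Agent.S0143
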