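import Cfsg.Statements.S0145
import Mathlib
import Cfsg.Agent.Lib.Characters.Integrality
-- import your own Cfsg.Agent.* helpers here

set_option autoImplicit false
open scoped ComplexConjugate
open Cfsg

namespace Cfsg.Agent.S0145

/-- Column orthogonality: the sum over the irreducible characters χ of χ g * conj (χ h) is the order of the centralizer of g if g and h are conjugate, and is 0 otherwise. -/
theorem result {G : Type*} [Group G] [Finite G] (g h : G) : (IsConj g h → ∑ᶠ χ : Cfsg.IrrCharacter G, (χ : G → ℂ) g * conj ((χ : G → ℂ) h) = (Nat.card (Subgroup.centralizer ({g} : Set G)) : ℂ)) ∧ (¬ IsConj g h → ∑ᶠ χ : Cfsg.IrrCharacter G, (χ : G → ℂ) g * conj ((χ : G → ℂ) h) = 0) := by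
  classical
  rw [finsum_eq_sum_of_fintype, Cfsg.Lib.Characters.column_orthogonality]
  refine ⟨fun hgh => ?_, fun hgh => if_neg hgh⟩
  rw [if_pos hgh]
  congr 1
  obtain ⟨c, rfl⟩ := isConj_iff.mp hgh
  refine Nat.card_congr ?_
  refine ((MulAut.conj c).toEquiv.subtypeEquiv fun x => ?_).symm
  simp only [Subgroup.mem_centralizer_singleton_iff, MulEquiv.toEquiv_eq_coe, EquivLike.coe_coe,
    MulAut.conj_apply]
  constructor
  · intro hx
    calc c * x * c⁻¹ * (c * g * c⁻¹) = c * (x * g) * c⁻¹ := by group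
      _ = c * (g * x) * c⁻¹ := by rw [hx]
      _ = c * g * c⁻¹ * (c * x * c⁻¹) := by group
  · intro hx
    calc x * g = c⁻¹ * (c * x * c⁻¹ * (c * g * c⁻¹)) * c := by group
      _ = c⁻¹ * (c * g * c⁻¹ * (c * x * c⁻¹)) * c := by rw [hx]
      _ = g * x := by group

end Cfsg.Agent.S0145
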