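import Cfsg.Statements.S0153
import Mathlib
import Cfsg.Agent.Lib.Characters.Basic

set_option autoImplicit false
open Cfsg

namespace Cfsg.Agent.S0153

universe u v

open Module Cfsg.Lib.Characters in
theorem aux {G : Type*} [Group G] [Finite G] : ∀ (n : ℕ) {V : Type u} {W : Type v} [AddCommGroup V]
    [Module ℂ V] [FiniteDimensional ℂ V] [AddCommGroup W] [Module ℂ W] [FiniteDimensional ℂ W]
    (ρ : Representation ℂ G V) (σ : Representation ℂ G W), finrank ℂ V = n →
    ρ.character = σ.character →
    ∃ e : V ≃ₗ[ℂ] W, ∀ g v, e (ρ g v) = σ g (e v) := by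
  classical
  haveI := Fintype.ofFinite G
  intro n
  induction n using Nat.strong_induction_on with
  | _ n ih =>
    intro V W _ _ _ _ _ _ ρ σ hn h
    have hdim : finrank ℂ V = finrank ℂ W := by
      have h1 := congr_fun h 1
      rw [Representation.char_one, Representation.char_one] at h1
      exact_mod_cast h1
    rcases subsingleton_or_nontrivial V with hV | hV
    · haveI : Subsingleton W := Module.finrank_zero_iff.mp (hdim ▸ Module.finrank_zero_of_subsingleton)
      exact ⟨LinearEquiv.ofSubsingleton V W, fun g v => Subsingleton.elim _ _⟩
    -- an irreducible subrepresentation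
    obtain ⟨s, hs, hmin⟩ := WellFounded.has_min
      (InvImage.wf Subrepresentation.toSubmodule (wellFounded_lt (α := Submodule ℂ V)))
      {s : Subrepresentation ρ | s.toSubmodule ≠ ⊥}
      ⟨⊤, fun e => bot_ne_top (α := Submodule ℂ V) e.symm⟩
    have hsirr : ∀ r : Subrepresentation ρ, r.toSubmodule ≤ s.toSubmodule →
        r.toSubmodule = ⊥ ∨ r.toSubmodule = s.toSubmodule := by
      intro r hr
      by_contra hh
      push Not at hh
      exact hmin r hh.1 (lt_of_le_of_ne hr hh.2)
    haveI := isSemisimpleRepresentation ρ
    obtain ⟨t, ht⟩ := exists_isCompl s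
    have ht' := isCompl_toSubmodule ht
    -- a map into `W`
    have hpos : 0 < finrank ℂ (Representation.IntertwiningMap s.toRepresentation σ) := by
      have h1 : (finrank ℂ (Representation.IntertwiningMap s.toRepresentation σ) : ℂ) =
          finrank ℂ (Representation.IntertwiningMap s.toRepresentation ρ) := by
        rw [← classInner_character s.toRepresentation σ, ← classInner_character s.toRepresentation ρ, h]
      rw [Nat.cast_inj.mp h1]
      let ι : Representation.IntertwiningMap s.toRepresentation ρ :=
        ⟨s.toSubmodule.subtype, fun g => LinearMap.ext fun v => rfl⟩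
      refine Module.finrank_pos_iff_exists_ne_zero.mpr ⟨ι, fun e => hs ?_⟩
      rw [Submodule.eq_bot_iff]
      intro v hv
      exact congrArg (fun F : Representation.IntertwiningMap s.toRepresentation ρ => F ⟨v, hv⟩) e
    obtain ⟨f, hf⟩ := Module.finrank_pos_iff_exists_ne_zero.mp hpos
    have hfg : ∀ g (v : s.toSubmodule), f (s.toRepresentation g v) = σ g (f v) := fun g v =>
      LinearMap.congr_fun (f.isIntertwining' g) v
    have hker : LinearMap.ker f.toLinearMap = ⊥ := by
      let k : Subrepresentation ρ := ⟨(LinearMap.ker f.toLinearMap).map s.toSubmodule.subtype, by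
        rintro g _ ⟨v, hv, rfl⟩
        refine ⟨s.toRepresentation g v, ?_, rfl⟩
        show f (s.toRepresentation g v) = 0
        rw [hfg, show f v = 0 from hv, map_zero]⟩
      rcases hsirr k (Submodule.map_subtype_le _ _) with hk | hk
      · exact Submodule.map_injective_of_injective s.toSubmodule.injective_subtype
          (hk.trans (Submodule.map_bot _).symm)
      · refine absurd ?_ hf
        have htop : LinearMap.ker f.toLinearMap = ⊤ :=
          Submodule.map_injective_of_injective s.toSubmodule.injective_subtype
            (hk.trans s.toSubmodule.map_subtype_top.symm)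
        exact Representation.IntertwiningMap.ext (LinearMap.ext fun v => by
          have := htop.ge (Submodule.mem_top (x := v))
          exact this)
    let u : Subrepresentation σ := ⟨LinearMap.range f.toLinearMap, by
      rintro g _ ⟨v, rfl⟩
      exact ⟨s.toRepresentation g v, hfg g v⟩⟩
    haveI := isSemisimpleRepresentation σ
    obtain ⟨w, hw⟩ := exists_isCompl u
    have hw' := isCompl_toSubmodule hw
    let e₁ : s.toSubmodule ≃ₗ[ℂ] u.toSubmodule :=
      LinearEquiv.ofInjective f.toLinearMap (LinearMap.ker_eq_bot.mp hker)
    have he₁ : ∀ g v, e₁ (s.toRepresentation g v) = u.toRepresentation g (e₁ v) :=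
      fun g v => Subtype.ext (hfg g v)
    have hchar₁ : s.toRepresentation.character = u.toRepresentation.character := by
      funext g
      have : u.toRepresentation g = e₁.conj (s.toRepresentation g) := by
        refine LinearMap.ext fun x => ?_
        rw [LinearEquiv.conj_apply_apply, he₁, e₁.apply_symm_apply]
      simp only [Representation.character, this, LinearMap.trace_conj']
    have hchar₂ : t.toRepresentation.character = w.toRepresentation.character := by
      have h1 := h
      rw [character_eq_add_of_isCompl ρ ht', character_eq_add_of_isCompl σ hw', hchar₁] at h1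
      exact add_left_cancel h1
    have hlt : finrank ℂ t.toSubmodule < n := by
      rw [← hn]
      refine Submodule.finrank_lt fun e => hs ?_
      have := ht'.inf_eq_bot
      rwa [e, inf_top_eq] at this
    obtain ⟨e₂, he₂⟩ := ih _ hlt t.toRepresentation w.toRepresentation rfl hchar₂
    refine ⟨(Submodule.prodEquivOfIsCompl _ _ ht').symm.trans ((e₁.prodCongr e₂).trans
      (Submodule.prodEquivOfIsCompl _ _ hw')), fun g v => ?_⟩
    obtain ⟨⟨a, b⟩, rfl⟩ := (Submodule.prodEquivOfIsCompl _ _ ht').surjective v
    have hg : ρ g (Submodule.prodEquivOfIsCompl _ _ ht' (a, b)) =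
        Submodule.prodEquivOfIsCompl _ _ ht' (s.toRepresentation g a, t.toRepresentation g b) := by
      simp only [Submodule.coe_prodEquivOfIsCompl', map_add]
      rfl
    rw [hg]
    rw [LinearEquiv.trans_apply, LinearEquiv.trans_apply, LinearEquiv.trans_apply,
      LinearEquiv.trans_apply, LinearEquiv.symm_apply_apply, LinearEquiv.symm_apply_apply]
    simp only [LinearEquiv.prodCongr_apply, Submodule.coe_prodEquivOfIsCompl', he₁, he₂, map_add]
    rfl


/-- Complex representations of a finite group with equal characters are equivalent. -/
theorem result {G : Type*} [Group G] [Finite G] {V W : Type*} [AddCommGroup V] [Module ℂ V] [FiniteDimensional ℂ V] [AddCommGroup W] [Module ℂ W] [FiniteDimensional ℂ W] (ρ : Representation ℂ G V) (σ : Representation ℂ G W) (h : ρ.character = σ.character) : Nonempty (ρ.Equiv σ) := by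
  obtain ⟨e, he⟩ := aux _ ρ σ rfl h
  exact ⟨Representation.Equiv.mk e fun g => LinearMap.ext fun v => he g v⟩

end Cfsg.Agent.S0153
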