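import Cfsg.Statements.S0155
import Mathlib

-- import your own Cfsg.Agent.* helpers here

set_option autoImplicit false
open Cfsg

namespace Cfsg.Agent.S0155

/-- The character of the left regular representation of a finite group takes the value |G| at the identity and 0 at every other element. -/
theorem result {G : Type*} [Group G] [Fintype G] [DecidableEq G] (g : G) : (Representation.leftRegular ℂ G).character g = if g = 1 then (Nat.card G : ℂ) else 0 := by
  rw [Representation.character, LinearMap.trace_eq_matrix_trace ℂ (MonoidAlgebra.basis G ℂ)]
  simp only [Matrix.trace, Matrix.diag_apply, LinearMap.toMatrix_apply]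
  by_cases hg : g = 1
  · subst hg; simp [Nat.card_eq_fintype_card, MonoidAlgebra.basis, MonoidAlgebra.coeffLinearEquiv]
  · simp [hg, MonoidAlgebra.basis, MonoidAlgebra.coeffLinearEquiv, Finsupp.single_apply]

end Cfsg.Agent.S0155
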