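import Cfsg.Statements.S0157
import Mathlib
import Cfsg.Agent.Lib.Characters.QuasiElementary
import Cfsg.Agent.Lib.Characters.Induction

set_option autoImplicit false
open Cfsg

namespace Cfsg.Agent.S0157

theorem orbitRel_card_two_iff {G : Type*} [Group G] (X : Type*) [MulAction G X] [Finite X]
    [MulAction.IsPretransitive G X] (hX : 2 ≤ Nat.card X) :
    Nat.card (Quotient (MulAction.orbitRel G (X × X))) = 2 ↔
      MulAction.IsMultiplyPretransitive G X 2 := by
  classical
  have hnt : Nontrivial X := Finite.one_lt_card_iff_nontrivial.mp hX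
  obtain ⟨x, y, hxy⟩ := hnt
  let q : X × X → Quotient (MulAction.orbitRel G (X × X)) := fun p => Quotient.mk _ p
  have hne : q (x, x) ≠ q (x, y) := fun e => by
    obtain ⟨g, hg⟩ := Quotient.exact e
    simp only [Prod.smul_mk, Prod.mk.injEq] at hg
    exact hxy (MulAction.injective g (hg.1.trans hg.2.symm))
  have hdiag : ∀ a : X, q (a, a) = q (x, x) := fun a => by
    obtain ⟨g, hg⟩ := MulAction.exists_smul_eq G x a
    exact Quotient.sound ⟨g, by show g • (x, x) = (a, a); rw [Prod.smul_mk, hg]⟩
  constructor
  · intro h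
    refine MulAction.is_two_pretransitive_iff.mpr fun {a b c d} hab hcd => ?_
    obtain ⟨u, v, -, huv⟩ := Nat.card_eq_two_iff.mp h
    have key : ∀ a b : X, a ≠ b → q (a, b) = q (x, y) := by
      intro a b hab
      have hm : ∀ z, z = u ∨ z = v := fun z => by
        have := huv.ge (Set.mem_univ z); simpa using this
      have hd : q (a, b) ≠ q (x, x) := fun e => by
        obtain ⟨g, hg⟩ := Quotient.exact e
        simp only [Prod.smul_mk, Prod.mk.injEq] at hg
        exact hab (hg.1.symm.trans hg.2)
      rcases hm (q (x, x)) with h1 | h1 <;> rcases hm (q (x, y)) with h2 | h2 <;>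
        rcases hm (q (a, b)) with h3 | h3
      all_goals first
        | exact h3.trans h2.symm
        | exact absurd (h1.trans h2.symm) hne
        | exact absurd (h3.trans h1.symm) hd
    obtain ⟨g, hg⟩ := Quotient.exact ((key c d hcd).trans (key a b hab).symm)
    simp only [Prod.smul_mk, Prod.mk.injEq] at hg
    exact ⟨g, hg⟩
  · intro h
    refine Nat.card_eq_two_iff.mpr ⟨q (x, x), q (x, y), hne, ?_⟩
    refine Set.eq_univ_of_forall fun z => ?_
    induction z using Quotient.inductionOn with
    | _ p =>
      obtain ⟨a, b⟩ := p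
      by_cases hab : a = b
      · subst hab; exact Or.inl (hdiag a)
      · obtain ⟨g, hg1, hg2⟩ := MulAction.is_two_pretransitive_iff.mp h hxy hab
        exact Or.inr (Quotient.sound ⟨g, by show g • (x, y) = (a, b); rw [Prod.smul_mk, hg1, hg2]⟩)

open scoped ComplexConjugate in

/-- For a transitive action of a finite group on a finite set with at least two points: the action is 2-transitive if and only if the function sending g to (number of fixed points of g) − 1 is an irreducible character. -/
theorem result {G : Type*} [Group G] [Finite G] (X : Type*) [MulAction G X] [Finite X] [MulAction.IsPretransitive G X] (hX : 2 ≤ Nat.card X) : Cfsg.IsIrrCharacter G (fun g => (Nat.card (MulAction.fixedBy X g) : ℂ) - 1) ↔ MulAction.IsMultiplyPretransitive G X 2 := by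
  classical
  haveI := Fintype.ofFinite G
  haveI := Fintype.ofFinite X
  obtain ⟨x₀⟩ : Nonempty X := (Nat.card_pos_iff.mp (by omega)).1
  set H := MulAction.stabilizer G x₀ with hH
  let π : G → ℂ := fun g => (Nat.card (MulAction.fixedBy X g) : ℂ)
  have hπ : π = indFun H fun _ => 1 := by
    funext g
    rw [Cfsg.Lib.Characters.indFun_one_eq_fixCount]
    let e : X ≃ G ⧸ H := (Equiv.ofBijective (MulAction.ofQuotientStabilizer G x₀)
      ⟨MulAction.injective_ofQuotientStabilizer G x₀, fun y => by
        obtain ⟨g, hg⟩ := MulAction.exists_smul_eq G x₀ y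
        exact ⟨(g : G ⧸ H), hg⟩⟩).symm
    have he : ∀ (y : G ⧸ H), e.symm (g • y) = g • e.symm y := fun y =>
      MulAction.ofQuotientStabilizer_smul G x₀ g y
    have hcard : Nat.card (MulAction.fixedBy X g) = Nat.card (MulAction.fixedBy (G ⧸ H) g) :=
      Nat.card_congr (e.subtypeEquiv fun y => by
        rw [MulAction.mem_fixedBy, MulAction.mem_fixedBy, ← e.symm.injective.eq_iff, he,
          e.symm_apply_apply])
    simp only [π, hcard, Cfsg.Lib.Characters.fixCount, Int.cast_natCast]
    rfl
  have hπc : IsCharacter G π := hπ ▸ Cfsg.Lib.Characters.isCharacter_indFun H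
    Cfsg.Lib.Characters.isCharacter_one
  have h1π : classInner π (fun _ => 1) = 1 := by
    rw [hπ, Cfsg.Lib.Characters.classInner_indFun H _
      Cfsg.Lib.Characters.isIrrCharacter_one.isClassFunction]
    exact Cfsg.Lib.Characters.classInner_irr_self Cfsg.Lib.Characters.isIrrCharacter_one
  have hsub : (fun g => (Nat.card (MulAction.fixedBy X g) : ℂ) - 1) = π - fun _ => 1 := rfl
  have hc : IsCharacter G (π - fun _ => 1) := by
    refine Cfsg.Lib.Characters.isCharacter_of_classInner (fun g h => ?_) fun χ => ?_
    · simp only [Pi.sub_apply, Cfsg.Lib.Characters.isClassFunction_of_isCharacter hπc g h]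
    · obtain ⟨k, hk⟩ := Cfsg.Lib.Characters.classInner_nat hπc χ.2.isCharacter
      rw [Cfsg.Lib.Characters.classInner_sub_left, hk]
      by_cases hχ : (χ : G → ℂ) = fun _ => 1
      · rw [hχ] at hk ⊢
        rw [Cfsg.Lib.Characters.classInner_irr_self Cfsg.Lib.Characters.isIrrCharacter_one,
          ← hk, h1π, sub_self]
        exact ⟨0, Nat.cast_zero.symm⟩
      · rw [Cfsg.Lib.Characters.classInner_irr_ne Cfsg.Lib.Characters.isIrrCharacter_one χ.2
          (Ne.symm hχ), sub_zero]
        exact ⟨k, rfl⟩
  have hππ : classInner π π = Nat.card (Quotient (MulAction.orbitRel G (X × X))) := by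
    haveI := Fintype.ofFinite (Quotient (MulAction.orbitRel G (X × X)))
    have hb := MulAction.sum_card_fixedBy_eq_card_orbits_mul_card_group G (X × X)
    have hb' : (∑ g : G, (Nat.card (MulAction.fixedBy (X × X) g) : ℂ)) =
        (Nat.card (Quotient (MulAction.orbitRel G (X × X))) : ℂ) * Nat.card G := by
      simp only [Nat.card_eq_fintype_card]
      exact_mod_cast hb
    have hfix : ∀ g : G, π g * conj (π g) = (Nat.card (MulAction.fixedBy (X × X) g) : ℂ) := by
      intro g
      simp only [π, map_natCast, ← Nat.cast_mul, Nat.cast_inj, ← Nat.card_prod]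
      exact Nat.card_congr
        ⟨fun p => ⟨(p.1.1, p.2.1), by rw [MulAction.mem_fixedBy, Prod.smul_mk, p.1.2, p.2.2]⟩,
         fun p => (⟨p.1.1, congrArg Prod.fst p.2⟩, ⟨p.1.2, congrArg Prod.snd p.2⟩),
         fun _ => rfl, fun _ => rfl⟩
    rw [classInner, Finset.sum_congr rfl fun g _ => hfix g, hb', mul_comm,
      mul_inv_cancel_right₀ (Nat.cast_ne_zero.mpr Nat.card_pos.ne')]
  have hnorm : classInner (π - fun _ => 1) (π - fun _ => 1) =
      (Nat.card (Quotient (MulAction.orbitRel G (X × X))) : ℂ) - 1 := by
    have h1π' : classInner (fun _ => 1) π = 1 := by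
      rw [← Cfsg.Lib.Characters.conj_classInner, h1π, map_one]
    rw [Cfsg.Lib.Characters.classInner_sub_left, Cfsg.Lib.Characters.classInner_sub_right,
      Cfsg.Lib.Characters.classInner_sub_right, hππ, h1π, h1π',
      Cfsg.Lib.Characters.classInner_irr_self Cfsg.Lib.Characters.isIrrCharacter_one]
    ring
  rw [hsub, Cfsg.Lib.Characters.isIrrCharacter_iff, hnorm, sub_eq_iff_eq_add,
    ← orbitRel_card_two_iff (G := G) X hX]
  refine ⟨fun h => ?_, fun h => ⟨hc, ?_⟩⟩
  · have h2 := h.2
    rw [one_add_one_eq_two] at h2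
    exact Nat.cast_inj.mp (h2.trans Nat.cast_two.symm)
  · rw [h]; norm_num

end Cfsg.Agent.S0157
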