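import Cfsg.Statements.S0158
import Mathlib
import Cfsg.Agent.Lib.Characters.FSValues

set_option autoImplicit false
open Cfsg

namespace Cfsg.Agent.S0158


/-- The Frobenius–Schur indicator of an irreducible complex representation of a finite group — the average over s of the character at s * s — is 0, 1 or −1, and it vanishes exactly when some character value is not real. -/
theorem result {G : Type*} [Group G] [Fintype G] {V : Type*} [AddCommGroup V] [Module ℂ V] [FiniteDimensional ℂ V] (ρ : Representation ℂ G V) [ρ.IsIrreducible] : ((Nat.card G : ℂ)⁻¹ * ∑ s : G, ρ.character (s * s) = 0 ∨ (Nat.card G : ℂ)⁻¹ * ∑ s : G, ρ.character (s * s) = 1 ∨ (Nat.card G : ℂ)⁻¹ * ∑ s : G, ρ.character (s * s) = -1) ∧ ((Nat.card G : ℂ)⁻¹ * ∑ s : G, ρ.character (s * s) = 0 ↔ ∃ s : G, (ρ.character s).im ≠ 0) := by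
  have hirr := Cfsg.Lib.Characters.isIrrCharacter_character ρ
  by_cases h : ∀ g, (ρ.character g).im = 0
  · have hs := Cfsg.Lib.Characters.fs_sign_of_real hirr fun g => Complex.conj_eq_iff_im.mpr (h g)
    refine ⟨Or.inr hs, fun h0 => ?_, fun ⟨s, hne⟩ => absurd (h s) hne⟩
    rcases hs with h1 | h1 <;> rw [h0] at h1 <;> norm_num at h1
  · push Not at h
    obtain ⟨s, hne⟩ := h
    have hz := Cfsg.Lib.Characters.fs_zero_of_nonreal hirr ⟨s, fun e => hne (Complex.conj_eq_iff_im.mp e)⟩
    exact ⟨Or.inl hz, fun _ => ⟨s, hne⟩, fun _ => hz⟩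

end Cfsg.Agent.S0158
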