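import Cfsg.Statements.S0159
import Mathlib
import Cfsg.Agent.Lib.Characters.FSInt

set_option autoImplicit false
open Cfsg

namespace Cfsg.Agent.S0159


/-- The number of solutions of s * s = 1 in a finite group equals the sum, over the irreducible characters χ, of (the average over s of χ (s * s)) times χ 1. -/
theorem result {G : Type*} [Group G] [Fintype G] : (Nat.card {s : G // s * s = 1} : ℂ) = ∑ᶠ χ : Cfsg.IrrCharacter G, ((Nat.card G : ℂ)⁻¹ * ∑ s : G, (χ : G → ℂ) (s * s)) * (χ : G → ℂ) 1 := by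
  classical
  rw [finsum_eq_sum_of_fintype, Nat.card_eq_fintype_card, Fintype.card_subtype]
  refine (Eq.trans ?_ (Cfsg.Lib.Characters.card_sqrt_eq_sum (1 : G))).trans ?_
  · congr!
  refine Finset.sum_congr rfl fun χ _ => ?_
  congr 1
  obtain ⟨m, hm⟩ := Cfsg.Lib.Characters.fs_exists_int χ.2
  rw [hm, ← map_sum, ← map_natCast (starRingEnd ℂ) (Nat.card G), ← map_inv₀, ← map_mul, hm, map_intCast]

end Cfsg.Agent.S0159
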