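import Cfsg.Statements.S0161
import Mathlib
import Cfsg.Agent.Lib.Characters.Integrality
-- import your own Cfsg.Agent.* helpers here

set_option autoImplicit false
open Cfsg

namespace Cfsg.Agent.S0161

/-- In a finite group of odd order, a real-valued irreducible complex character is the trivial character. -/
theorem result {G : Type*} [Group G] [Finite G] (hodd : Odd (Nat.card G)) (χ : Cfsg.IrrCharacter G) (hreal : ∀ g : G, ((χ : G → ℂ) g).im = 0) : (χ : G → ℂ) = fun _ => 1 := by
  classical
  haveI := Fintype.ofFinite G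
  by_contra hne
  have h0 := Cfsg.Lib.Characters.classInner_irr_ne χ.2 Cfsg.Lib.Characters.isIrrCharacter_one hne
  simp only [Cfsg.classInner, map_one, mul_one, mul_eq_zero, inv_eq_zero, Nat.cast_eq_zero, Nat.card_pos.ne', false_or] at h0
  have hinv : ∀ g : G, (χ : G → ℂ) g⁻¹ = (χ : G → ℂ) g := fun g => by
    rw [Cfsg.Lib.Characters.char_inv_eq_conj χ.2.isCharacter, Complex.conj_eq_iff_im.mpr (hreal g)]
  have hfix : ∀ g : G, g⁻¹ = g → g = 1 := by
    intro g hg
    have h2 : g ^ 2 = 1 := by
      rw [sq]; nth_rewrite 1 [← hg]; exact inv_mul_cancel g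
    exact orderOf_eq_one_iff.mp (Nat.eq_one_of_dvd_coprimes (Nat.Coprime.symm (Nat.coprime_two_right.mpr hodd)) (orderOf_dvd_of_pow_eq_one h2) (orderOf_dvd_natCard g))
  obtain ⟨d, hd⟩ := Cfsg.Lib.Characters.exists_degree χ.2.isCharacter
  have hd0 : d ∣ Nat.card G := Cfsg.Lib.Characters.degree_dvd_card χ.2 hd
  -- split off a set of representatives of the pairs `{g, g⁻¹}`
  letI e : G ≃ Fin (Fintype.card G) := Fintype.equivFin G
  have hsum : ∑ g : G, (χ : G → ℂ) g = (χ : G → ℂ) 1 + 2 * ∑ g ∈ Finset.univ.filter (fun g => e g < e g⁻¹), (χ : G → ℂ) g := by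
    rw [two_mul, ← Finset.sum_filter_add_sum_filter_not Finset.univ (fun g => e g < e g⁻¹) (χ : G → ℂ)]
    rw [show Finset.univ.filter (fun g => ¬ e g < e g⁻¹) = insert 1 (Finset.univ.filter (fun g => e g⁻¹ < e g)) from ?_]
    · rw [Finset.sum_insert (by simp)]
      have : ∑ g ∈ Finset.univ.filter (fun g => e g⁻¹ < e g), (χ : G → ℂ) g = ∑ g ∈ Finset.univ.filter (fun g => e g < e g⁻¹), (χ : G → ℂ) g := by
        refine Finset.sum_nbij' (fun g => g⁻¹) (fun g => g⁻¹) ?_ ?_ (by simp) (by simp) (fun g _ => (hinv g).symm)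
        · intro g hg; simpa using hg
        · intro g hg; simpa using hg
      rw [this]; ring
    · ext g
      simp only [Finset.mem_filter, Finset.mem_univ, true_and, Finset.mem_insert, not_lt]
      constructor
      · intro h
        rcases h.eq_or_lt with h | h
        · exact Or.inl (hfix g (e.injective h))
        · exact Or.inr h
      · rintro (rfl | h)
        · simp
        · exact h.le
  rw [hsum, hd] at h0
  set S := ∑ g ∈ Finset.univ.filter (fun g => e g < e g⁻¹), (χ : G → ℂ) g
  have hS : IsIntegral ℤ S := IsIntegral.sum _ fun g _ => Cfsg.Lib.Characters.char_isIntegral χ.2.isCharacter g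
  have hS2 : S = ((-(d : ℚ) / 2 : ℚ) : ℂ) := by push_cast; linear_combination h0 / 2
  rw [hS2] at hS
  obtain ⟨n, hn⟩ := Cfsg.Lib.Characters.exists_int_of_isIntegral hS
  have : (d : ℤ) = -(2 * n) := by
    have h' : ((d : ℤ) : ℂ) = ((-(2 * n) : ℤ) : ℂ) := by push_cast at hn ⊢; linear_combination (-2) * hn
    exact_mod_cast h'
  have heven : Even d := by
    rw [← Int.even_coe_nat, this]
    exact (even_two_mul n).neg
  exact (Nat.not_even_iff_odd.mpr (hodd.of_dvd_nat hd0)) heven

end Cfsg.Agent.S0161
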