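import Cfsg.Statements.S0162
import Mathlib
import Cfsg.Agent.Lib.Characters.Permutation
-- import your own Cfsg.Agent.* helpers here

set_option autoImplicit false
open Cfsg

namespace Cfsg.Agent.S0162

/-- If a finite group has odd order, its order is congruent to its number of conjugacy classes modulo 16. -/
theorem result {G : Type*} [Group G] [Finite G] (hodd : Odd (Nat.card G)) : Nat.card G ≡ Nat.card (ConjClasses G) [MOD 16] := by
  classical
  haveI := Fintype.ofFinite G
  rw [← Cfsg.Lib.Characters.card_irr_eq_card_conjClasses]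
  choose d hd0 hd using fun χ : Cfsg.IrrCharacter G => χ.2.exists_degree_pos
  have hsq : ∑ χ, d χ ^ 2 = Nat.card G := by
    have := Cfsg.Lib.Characters.sum_sq_degree (G := G)
    simp only [hd] at this
    exact_mod_cast this
  have h8 : ∀ χ, ∃ m, d χ ^ 2 = 8 * m + 1 := by
    intro χ
    obtain ⟨k, hk⟩ : Odd (d χ) := hodd.of_dvd_nat (Cfsg.Lib.Characters.degree_dvd_card χ.2 (hd χ))
    obtain ⟨j, hj⟩ := Nat.even_mul_succ_self k
    exact ⟨j, by rw [hk, show 8 * j + 1 = 4 * (j + j) + 1 by ring, ← hj]; ring⟩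
  choose m hm using h8
  have hsum : Nat.card G = 8 * (∑ χ, m χ) + Nat.card (Cfsg.IrrCharacter G) := by
    rw [← hsq, Finset.mul_sum, Nat.card_eq_fintype_card, ← Finset.card_univ, Finset.card_eq_sum_ones, ← Finset.sum_add_distrib]
    exact Finset.sum_congr rfl fun χ _ => hm χ
  let one : Cfsg.IrrCharacter G := ⟨fun _ => 1, Cfsg.Lib.Characters.isIrrCharacter_one⟩
  let bar : Cfsg.IrrCharacter G → Cfsg.IrrCharacter G := fun χ =>
    ⟨fun g => starRingEnd ℂ ((χ : G → ℂ) g), Cfsg.Lib.Characters.isIrrCharacter_conj χ.2⟩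
  have hbard : ∀ χ, m (bar χ) = m χ := by
    intro χ
    have h1 : (bar χ : G → ℂ) 1 = (d χ : ℂ) := by
      show starRingEnd ℂ ((χ : G → ℂ) 1) = _
      rw [hd]; simp
    have h2 : d (bar χ) = d χ := by rw [hd] at h1; exact_mod_cast h1
    have h3 := hm (bar χ)
    rw [h2, hm χ] at h3
    omega
  have hm1 : m one = 0 := by
    have h1 : d one = 1 := by
      have := hd one
      change (1 : ℂ) = (d one : ℂ) at this
      exact_mod_cast this.symm
    have h3 := hm one
    rw [h1] at h3
    omega
  have heven : ((∑ χ, m χ : ℕ) : ZMod 2) = 0 := by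
    push_cast
    refine Finset.sum_involution (fun χ _ => bar χ) (fun χ _ => ?_) (fun χ _ hne => ?_)
      (fun χ _ => Finset.mem_univ _) (fun χ _ => Subtype.ext (funext fun g => by simp [bar]))
    · rw [hbard]
      exact CharTwo.add_self_eq_zero _
    · intro he
      refine hne ?_
      have hχ : χ = one := Subtype.ext (Cfsg.Lib.Characters.eq_one_of_real hodd χ.2 fun g =>
        Complex.conj_eq_iff_im.mp (congrFun (congrArg Subtype.val he) g))
      rw [hχ, hm1, Nat.cast_zero]
  obtain ⟨j, hj⟩ := (ZMod.natCast_eq_zero_iff_even).mp heven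
  rw [hsum, hj, show 8 * (j + j) = 16 * j by ring]
  simp [Nat.ModEq, Nat.add_mod, Nat.mul_mod_right]

end Cfsg.Agent.S0162
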