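import Cfsg.Statements.S0163
import Mathlib
import Cfsg.Agent.Lib.Characters.Brauer
-- import your own Cfsg.Agent.* helpers here

set_option autoImplicit false
open Cfsg

namespace Cfsg.Agent.S0163

/-- Brauer's induction Theorem: every character of a finite group is a ℤ-linear combination of functions induced from linear characters (homomorphisms to ℂˣ) of elementary subgroups. -/
theorem result {G : Type*} [Group G] [Fintype G] (χ : G → ℂ) (hχ : Cfsg.IsCharacter G χ) : ∃ l : List ((E : Subgroup G) × ((E →* ℂˣ) × ℤ)), (∀ t ∈ l, ∃ p : ℕ, p.Prime ∧ Cfsg.IsElementary p t.1) ∧ χ = (l.map fun t => (t.2.2 : ℂ) • Cfsg.indFun t.1 (fun e => (t.2.1 e : ℂ))).sum := by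
  classical
  let val : List ((E : Subgroup G) × ((E →* ℂˣ) × ℤ)) → G → ℂ := fun l => (l.map fun t => (t.2.2 : ℂ) • Cfsg.indFun t.1 (fun e => (t.2.1 e : ℂ))).sum
  let ok : List ((E : Subgroup G) × ((E →* ℂˣ) × ℤ)) → Prop := fun l => ∀ t ∈ l, ∃ p : ℕ, p.Prime ∧ Cfsg.IsElementary p t.1
  let S : AddSubgroup (G → ℂ) :=
    { carrier := {f | ∃ l : List ((E : Subgroup G) × ((E →* ℂˣ) × ℤ)), ok l ∧ f = val l}
      zero_mem' := ⟨[], by simp [ok], by simp [val]⟩
      add_mem' := by
        rintro a b ⟨l, hl, rfl⟩ ⟨l', hl', rfl⟩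
        refine ⟨l ++ l', ?_, by simp [val]⟩
        intro t ht
        rcases List.mem_append.mp ht with h | h
        · exact hl t h
        · exact hl' t h
      neg_mem' := by
        rintro a ⟨l, hl, rfl⟩
        refine ⟨l.map fun t => ⟨t.1, t.2.1, -t.2.2⟩, ?_, ?_⟩
        · intro t ht
          obtain ⟨u, hu, rfl⟩ := List.mem_map.mp ht
          exact hl u hu
        · simp only [val]
          induction l with
          | nil => simp
          | cons t l ih =>
            have hl' : ok l := fun u hu => hl u (List.mem_cons_of_mem _ hu)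
            simp only [List.map_cons, List.sum_cons, neg_add, ih hl', Int.cast_neg, neg_smul] }
  have hmem : χ ∈ S := Cfsg.Lib.Characters.brauer_monomial hχ S fun E hE lam =>
    ⟨[⟨E, lam, 1⟩], by simpa [ok] using hE, by simp [val]⟩
  exact hmem

end Cfsg.Agent.S0163
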