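import Cfsg.Statements.S0165
import Mathlib
import Cfsg.Agent.Lib.Characters.Brauer
import Cfsg.Agent.Lib.Characters.Induction
import Cfsg.Agent.Lib.Solv.MinimalNonNilpotent

set_option autoImplicit false
open Cfsg Cfsg.Lib.Characters
open scoped ComplexConjugate

namespace Cfsg.Agent.S0165

theorem exists_mul_integral {G : Type*} [Group G] [Finite G] {χ : G → ℂ} (hχ : IsIrrCharacter G χ)
    {p n d : ℕ} (hp : p.Prime) (hn : p ^ n ∣ Nat.card G) (hn' : ¬ p ^ (n + 1) ∣ Nat.card G)
    (hd : χ 1 = d) (hdp : p ^ n ∣ d) (q : G) {k : ℕ}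
    (hk : p ^ k ∣ Nat.card (Subgroup.centralizer ({q} : Set G))) :
    ∃ m : ℕ, m.Coprime p ∧ IsIntegral ℤ ((m : ℂ) * χ q / (p : ℂ) ^ k) := by
  obtain ⟨m, hm⟩ := hn
  have hmp : m.Coprime p := (hp.coprime_iff_not_dvd.mpr fun h => hn' (by
    rw [hm, pow_succ]; exact mul_dvd_mul_left _ h)).symm
  obtain ⟨c', hc'⟩ := hk
  obtain ⟨e, rfl⟩ := hdp
  refine ⟨m, hmp, ?_⟩
  have h := isIntegral_central_char hχ q
  have hcc := card_conj_mul_card_centralizer q
  rw [hc', hm] at hcc
  have hC0 : c' ≠ 0 := fun h0 => by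
    rw [h0, mul_zero] at hc'
    exact Nat.card_pos.ne' hc'
  have he0 : e ≠ 0 := fun h0 => hχ.one_ne_zero (by simp [hd, h0])
  have hint := h.mul (isIntegral_algebraMap (R := ℤ) (x := ((c' * e : ℕ) : ℤ)))
  have hp0 : (p : ℂ) ≠ 0 := Nat.cast_ne_zero.mpr hp.ne_zero
  have hcc' : (Nat.card {x : G // IsConj q x} : ℂ) * ((p : ℂ) ^ k * c') = (p : ℂ) ^ n * m := by
    exact_mod_cast hcc
  have heq : (m : ℂ) * χ q / (p : ℂ) ^ k = (Nat.card {x : G // IsConj q x} : ℂ) * χ q / χ 1 *
      algebraMap ℤ ℂ ((c' * e : ℕ) : ℤ) := by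
    rw [hd, algebraMap_int_eq, eq_intCast]
    push_cast
    have he' : (e : ℂ) ≠ 0 := Nat.cast_ne_zero.mpr he0
    field_simp
    linear_combination (-(χ q)) * hcc'
  rw [heq]
  exact hint


/-- If p ^ n is the exact power of the prime p dividing the order of a finite group and p ^ n divides the degree of an irreducible complex representation, then its character vanishes at every element of order divisible by p. -/
theorem result {G : Type*} [Group G] [Finite G] {V : Type*} [AddCommGroup V] [Module ℂ V] [FiniteDimensional ℂ V] (ρ : Representation ℂ G V) [ρ.IsIrreducible] (p n : ℕ) (hp : p.Prime) (hn : p ^ n ∣ Nat.card G) (hn' : ¬ p ^ (n + 1) ∣ Nat.card G) (hdeg : p ^ n ∣ Module.finrank ℂ V) (x : G) (hx : p ∣ orderOf x) : ρ.character x = 0 := by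
  classical
  haveI := Fintype.ofFinite G
  have hirr := isIrrCharacter_character ρ
  haveI := Fact.mk hp
  set χ := ρ.character with hχ
  set f : G → ℂ := fun g => if p ∣ orderOf g then 0 else χ g with hf
  have hfc : IsClassFunction G f := by
    intro g h
    have ho : orderOf (h * g * h⁻¹) = orderOf g :=
      orderOf_injective (MulAut.conj h).toMonoidHom (MulEquiv.injective _) g
    simp only [hf, ho, hirr.isClassFunction g h]
  have hgen : IsGeneralizedCharacter G f := by
    refine isGeneralized_of_elementary hfc fun E r hr hE => ?_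
    haveI := Fintype.ofFinite E
    refine isGeneralized_of_classInner (fun g h => hfc g h) fun ψ => ?_
    -- the elements of order prime to `p` form a cyclic or nilpotent normal subgroup
    haveI := isNilpotent_of_isElementary hr hE
    obtain ⟨P, Q, hQn, hQP⟩ := Cfsg.Lib.Solv.hasNormalPComplement_of_nilpotent (G := E) p
    haveI := hQn
    haveI := Cfsg.Lib.Solv.normal_sylow_of_nilpotent P
    have hQ : Subgroup.IsComplement' (P : Subgroup E) Q := hQP.symm
    obtain ⟨k, hk⟩ := IsPGroup.iff_card.mp P.isPGroup'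
    have hQcard : Nat.card Q = (P : Subgroup E).index := hQ.symm.index_eq_card.symm
    have hmemQ : ∀ q : E, ¬ p ∣ orderOf q → q ∈ Q := by
      intro q hq
      have h1 : orderOf (q : E ⧸ Q) ∣ orderOf q := orderOf_map_dvd (QuotientGroup.mk' Q) q
      have h2 : orderOf (q : E ⧸ Q) ∣ p ^ k := by
        have h3 := orderOf_dvd_natCard (q : E ⧸ Q)
        rwa [← Subgroup.index_eq_card, hQ.index_eq_card, hk] at h3
      exact (QuotientGroup.eq_one_iff q).mp (orderOf_eq_one_iff.mp
        (Nat.eq_one_of_dvd_coprimes ((hp.coprime_iff_not_dvd.mpr hq).pow_left k) h2 h1))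
    have hPQ : ∀ a ∈ (P : Subgroup E), ∀ q : E, ¬ p ∣ orderOf q → a * q = q * a := fun a ha q hq =>
      Subgroup.commute_of_normal_of_disjoint _ _ inferInstance hQn hQ.disjoint a q ha (hmemQ q hq)
    have hQmem : ∀ q : E, ¬ p ∣ orderOf q ↔ q ∈ Q := by
      intro q
      constructor
      · exact hmemQ q
      · intro hq h
        exact P.not_dvd_index (hQcard ▸ h.trans
          ((Subgroup.orderOf_mk q hq) ▸ orderOf_dvd_natCard (⟨q, hq⟩ : Q)))
    -- divisibility of the values by the order of `P`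
    have hint : ∀ q : Q, ∃ m : ℕ, m.Coprime p ∧
        IsIntegral ℤ ((m : ℂ) * χ ((q : E) : G) / (p : ℂ) ^ k) := by
      intro q
      refine exists_mul_integral hirr hp hn hn' (Representation.char_one ρ) hdeg _ ?_
      rw [← hk, Nat.card_congr ((P : Subgroup E).equivMapOfInjective E.subtype E.subtype_injective).toEquiv]
      refine Subgroup.card_dvd_of_le ?_
      rintro _ ⟨a, ha, rfl⟩
      exact Subgroup.mem_centralizer_singleton_iff.mpr
        (congrArg Subtype.val (hPQ a ha q ((hQmem q).mpr q.2)))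
    choose m hmp hm using hint
    haveI := Fintype.ofFinite Q
    obtain ⟨N, hN⟩ := classInner_nat
      (isCharacter_restrict (isCharacter_restrict hirr.isCharacter E) Q)
      (isCharacter_restrict ψ.2.isCharacter Q)
    set M := ∏ q : Q, m q with hM
    have hMp : M.Coprime p := Nat.Coprime.prod_left fun q _ => hmp q
    have hterm : ∀ q : Q, IsIntegral ℤ ((M : ℂ) * (χ ((q : E) : G) * conj (ψ.1 q)) / (p : ℂ) ^ k) := by
      intro q
      obtain ⟨M', hM'⟩ := Finset.dvd_prod_of_mem m (Finset.mem_univ q)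
      rw [hM, hM']
      have h1 := ((hm q).mul (isIntegral_algebraMap (R := ℤ) (x := (M' : ℤ)))).mul
        (isIntegral_conj (char_isIntegral ψ.2.isCharacter (q : E)))
      rw [eq_intCast (algebraMap ℤ ℂ)] at h1
      have heq : ((m q * M' : ℕ) : ℂ) * (χ ((q : E) : G) * conj (ψ.1 q)) / (p : ℂ) ^ k =
          (m q : ℂ) * χ ((q : E) : G) / (p : ℂ) ^ k * ((M' : ℤ) : ℂ) * conj (ψ.1 q) := by
        push_cast; ring
      rw [heq]
      exact h1
    have hsum : IsIntegral ℤ (((M * Nat.card Q * N : ℕ) : ℂ) / ((p ^ k : ℕ) : ℂ)) := by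
      have h1 : ∑ q : Q, χ ((q : E) : G) * conj (ψ.1 q) = (Nat.card Q : ℂ) * N := by
        rw [← hN, classInner, ← mul_assoc, mul_inv_cancel₀ (Nat.cast_ne_zero.mpr Nat.card_pos.ne'), one_mul]
      have h2 := IsIntegral.sum (fun q : Q => (M : ℂ) * (χ ((q : E) : G) * conj (ψ.1 q)) / (p : ℂ) ^ k) (s := Finset.univ) (fun q _ => hterm q)
      rw [← Finset.sum_div, ← Finset.mul_sum, h1, ← mul_assoc] at h2
      push_cast
      exact h2
    have hdvd : p ^ k ∣ N := by
      have h1 := dvd_of_isIntegral_div (pow_ne_zero _ hp.ne_zero) hsum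
      have hcop : (p ^ k).Coprime (M * Nat.card Q) := Nat.Coprime.pow_left _ (Nat.Coprime.mul_right hMp.symm
        (hp.coprime_iff_not_dvd.mpr (hQcard ▸ P.not_dvd_index)))
      exact hcop.dvd_of_dvd_mul_left h1
    obtain ⟨j, rfl⟩ := hdvd
    refine ⟨(j : ℤ), ?_⟩
    have hEcard : Nat.card E = p ^ k * Nat.card Q := by rw [← hQ.card_mul, hk]
    rw [classInner]
    have hpart : ∑ e : E, f e * conj (ψ.1 e) = ∑ q : Q, χ ((q : E) : G) * conj (ψ.1 q) := by
      rw [← Finset.sum_filter_add_sum_filter_not Finset.univ (fun e : E => e ∈ Q),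
        Finset.sum_eq_zero (s := Finset.univ.filter fun e : E => e ∉ Q) (fun e he => ?_), add_zero,
        Finset.sum_subtype (p := fun e : E => e ∈ Q) _ (fun e => by simp)]
      · refine Finset.sum_congr rfl fun q _ => ?_
        simp only [hf]
        rw [if_neg (by rw [Subgroup.orderOf_coe]; exact (hQmem q).mpr q.2)]
      · have h2 : p ∣ orderOf ((e : E) : G) := by
          rw [Subgroup.orderOf_coe]
          by_contra h
          exact (Finset.mem_filter.mp he).2 ((hQmem e).mp h)
        simp only [hf]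
        rw [if_pos h2, zero_mul]
    rw [classInner] at hN
    rw [hpart, hEcard, Nat.cast_mul, mul_inv, mul_assoc, hN]
    push_cast
    rw [inv_mul_cancel_left₀ (pow_ne_zero _ (Nat.cast_ne_zero.mpr hp.ne_zero))]
  -- the inner product with `χ`
  obtain ⟨z, hz⟩ := classInner_int hgen (isGeneralized_of_isCharacter hirr.isCharacter)
  rw [classInner] at hz
  have hpoint : ∀ g, f g * conj (χ g) = ((if p ∣ orderOf g then 0 else Complex.normSq (χ g) : ℝ) : ℂ) := by
    intro g
    simp only [hf]
    split_ifs <;> simp [Complex.mul_conj]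
  rw [Finset.sum_congr rfl fun g _ => hpoint g] at hz
  have hre := congrArg Complex.re hz
  rw [← Complex.ofReal_natCast, ← Complex.ofReal_inv, ← Complex.ofReal_sum, ← Complex.ofReal_mul,
    Complex.ofReal_re, Complex.intCast_re] at hre
  have hnorm := classInner_irr_self hirr
  rw [classInner, Finset.sum_congr rfl fun g _ => Complex.mul_conj (χ g), ← Complex.ofReal_natCast,
    ← Complex.ofReal_inv, ← Complex.ofReal_sum, ← Complex.ofReal_mul, Complex.ofReal_eq_one] at hnorm
  have hG : (0 : ℝ) < (Nat.card G : ℝ)⁻¹ := inv_pos.mpr (Nat.cast_pos.mpr Nat.card_pos)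
  have hone : 0 < ∑ g : G, (if p ∣ orderOf g then 0 else Complex.normSq (χ g) : ℝ) := by
    refine Finset.sum_pos' (fun g _ => ?_) ⟨1, Finset.mem_univ _, ?_⟩
    · split_ifs
      · exact le_rfl
      · exact Complex.normSq_nonneg _
    · rw [if_neg (by rw [orderOf_one]; exact hp.not_dvd_one)]
      exact Complex.normSq_pos.mpr hirr.one_ne_zero
  have hle : ∑ g : G, (if p ∣ orderOf g then 0 else Complex.normSq (χ g) : ℝ) +
      Complex.normSq (χ x) ≤ ∑ g : G, Complex.normSq (χ g) := by
    rw [← Finset.add_sum_erase _ _ (Finset.mem_univ x),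
      ← Finset.add_sum_erase Finset.univ (fun g => Complex.normSq (χ g)) (Finset.mem_univ x),
      if_pos hx, zero_add, add_comm]
    refine add_le_add le_rfl (Finset.sum_le_sum fun g _ => ?_)
    split_ifs
    · exact Complex.normSq_nonneg _
    · exact le_rfl
  have hz0 : (0 : ℝ) < z := hre ▸ mul_pos hG hone
  have hz1 : (1 : ℝ) ≤ z := by exact_mod_cast (show 0 < z by exact_mod_cast hz0)
  have h1 : (1 : ℝ) + (Nat.card G : ℝ)⁻¹ * Complex.normSq (χ x) ≤ 1 := by
    calc (1 : ℝ) + (Nat.card G : ℝ)⁻¹ * Complex.normSq (χ x)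
        ≤ z + (Nat.card G : ℝ)⁻¹ * Complex.normSq (χ x) := add_le_add hz1 le_rfl
      _ ≤ 1 := by
        rw [← hre, ← mul_add, ← hnorm]
        exact mul_le_mul_of_nonneg_left hle hG.le
  have h2 : (Nat.card G : ℝ)⁻¹ * Complex.normSq (χ x) ≤ 0 := by linarith
  exact Complex.normSq_eq_zero.mp (le_antisymm (nonpos_of_mul_nonpos_right h2 hG)
    (Complex.normSq_nonneg _)) |>.symm ▸ rfl

end Cfsg.Agent.S0165
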