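import Cfsg.Statements.S0166
import Cfsg.Agent.Lib.Characters.Realization
-- import your own Cfsg.Agent.* helpers here

set_option autoImplicit false
open Cfsg

namespace Cfsg.Agent.S0166

/-- Brauer's splitting field Theorem: a complex representation of a finite group of exponent m is equivalent to a representation by matrices with entries in ℚ adjoined exp(2πi/m). -/
theorem result {G : Type*} [Group G] [Finite G] (n : ℕ) (ρ : Representation ℂ G (Fin n → ℂ)) : ∃ σ : Representation ℂ G (Fin n → ℂ), Nonempty (ρ.Equiv σ) ∧ ∀ g : G, ∀ i j : Fin n, LinearMap.toMatrix' (σ g) i j ∈ Algebra.adjoin ℚ ({Complex.exp (2 * Real.pi * Complex.I / (Monoid.exponent G : ℂ))} : Set ℂ) := by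
  classical
  haveI := Fintype.ofFinite G
  set ζ : ℂ := Complex.exp (2 * Real.pi * Complex.I / (Monoid.exponent G : ℂ)) with hζ
  have hne : Monoid.exponent G ≠ 0 := Monoid.exponent_ne_zero_of_finite
  have hprim : IsPrimitiveRoot ζ (Monoid.exponent G) := Complex.isPrimitiveRoot_exp _ hne
  have hint : IsIntegral ℚ ζ := (hprim.isIntegral (Nat.pos_of_ne_zero hne)).tower_top
  let K : IntermediateField ℚ ℂ := IntermediateField.adjoin ℚ ({ζ} : Set ℂ)
  haveI : NeZero (Monoid.exponent G) := ⟨hne⟩
  have hK : ∀ z : ℂ, z ^ Monoid.exponent G = 1 → z ∈ K := fun z hz => by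
    obtain ⟨i, -, rfl⟩ := hprim.eq_pow_of_pow_eq_one hz
    have h : ζ ∈ K := IntermediateField.mem_adjoin_simple_self ℚ ζ
    exact pow_mem h i
  obtain ⟨m, τ, hτ⟩ := Cfsg.Lib.Characters.Realization.real_character K hK (χ := ρ.character) ⟨n, ρ, rfl⟩
  have hmn : m = n := by
    have h := hτ 1
    rw [Representation.char_one, Representation.char_one, Module.finrank_fin_fun, Module.finrank_fin_fun] at h
    push_cast at h
    exact_mod_cast h.symm
  subst hmn
  let M : G →* Matrix (Fin m) (Fin m) K := (LinearMap.toMatrixAlgEquiv' (R := K) (n := Fin m)).toMonoidHom.comp τ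
  let σ : Representation ℂ G (Fin m → ℂ) :=
    (Matrix.toLinAlgEquiv' (R := ℂ) (n := Fin m)).toMonoidHom.comp ((K.val.toRingHom.mapMatrix).toMonoidHom.comp M)
  have hchar : ∀ g, ρ.character g = σ.character g := fun g => by
    rw [hτ g]
    show ((LinearMap.trace K _ (τ g) : K) : ℂ) = LinearMap.trace ℂ _ (Matrix.toLin' ((M g).map K.val))
    rw [Matrix.trace_toLin'_eq, LinearMap.trace_eq_matrix_trace K (Pi.basisFun K (Fin m)), LinearMap.toMatrix_eq_toMatrix']
    exact map_sum K.val _ _
  obtain ⟨e, he⟩ := Cfsg.Lib.Characters.Realization.iso_of_char _ ρ σ rfl hchar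
  refine ⟨σ, ⟨Representation.Equiv.mk e fun g => LinearMap.ext fun x => he g x⟩, fun g i j => ?_⟩
  show LinearMap.toMatrix' (Matrix.toLin' ((M g).map K.val)) i j ∈ _
  rw [LinearMap.toMatrix'_toLin', Matrix.map_apply]
  have := (M g i j).2
  rw [← IntermediateField.adjoin_simple_toSubalgebra_of_isAlgebraic hint.isAlgebraic]
  exact this

end Cfsg.Agent.S0166
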