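import Cfsg.Statements.S0167
import Mathlib
import Cfsg.Agent.Lib.Characters.Integrality

set_option autoImplicit false
open Cfsg

namespace Cfsg.Agent.S0167

open Finset in
open scoped ComplexConjugate in
theorem count_commutators {G : Type*} [Group G] [Fintype G] [DecidableEq G] (g : G) :
    (#(univ.filter fun p : G × G => p.1 * p.2 * p.1⁻¹ * p.2⁻¹ = g) : ℂ) =
      (Nat.card G : ℂ) * ∑ χ : IrrCharacter G, (χ : G → ℂ) g / (χ : G → ℂ) 1 := by
  set f : G → ℂ := fun x => (#(univ.filter fun p : G × G => p.1 * p.2 * p.1⁻¹ * p.2⁻¹ = x) : ℂ)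
    with hf
  have hfc : IsClassFunction G f := by
    intro a c
    simp only [hf, Nat.cast_inj]
    refine Finset.card_bij (fun p _ => (c⁻¹ * p.1 * c, c⁻¹ * p.2 * c)) (fun p hp => ?_)
      (fun p _ q _ h => by
        simp only [Prod.mk.injEq, mul_left_inj, mul_right_inj] at h
        exact Prod.ext h.1 h.2)
      (fun q hq => ⟨(c * q.1 * c⁻¹, c * q.2 * c⁻¹), ?_, by
        apply Prod.ext <;> simp only [] <;> group⟩)
    · simp only [mem_filter, mem_univ, true_and] at hp ⊢
      calc c⁻¹ * p.1 * c * (c⁻¹ * p.2 * c) * (c⁻¹ * p.1 * c)⁻¹ * (c⁻¹ * p.2 * c)⁻¹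
          = c⁻¹ * (p.1 * p.2 * p.1⁻¹ * p.2⁻¹) * c := by group
        _ = a := by rw [hp]; group
    · simp only [mem_filter, mem_univ, true_and] at hq ⊢
      calc c * q.1 * c⁻¹ * (c * q.2 * c⁻¹) * (c * q.1 * c⁻¹)⁻¹ * (c * q.2 * c⁻¹)⁻¹
          = c * (q.1 * q.2 * q.1⁻¹ * q.2⁻¹) * c⁻¹ := by group
        _ = _ := by rw [hq]
  have hinner : ∀ χ : IrrCharacter G, classInner f (χ : G → ℂ) = (Nat.card G : ℂ) / (χ : G → ℂ) 1 := by
    intro χ
    have hχ := χ.2
    obtain ⟨n, ρ, hρ, he⟩ := hχ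
    haveI := hρ
    have h0 := χ.2.one_ne_zero
    have key : ∀ a : G, ∑ b : G, ρ.character (a * b * a⁻¹ * b⁻¹) =
        (Nat.card G : ℂ) * (ρ.character a * conj (ρ.character a)) / ρ.character 1 := by
      intro a
      obtain ⟨z, hz⟩ := Cfsg.Lib.Characters.schur_scalar ρ (∑ b : G, ρ (b * a⁻¹ * b⁻¹)) (fun x => by
        rw [Finset.sum_mul, Finset.mul_sum]
        simp only [← map_mul]
        refine Fintype.sum_equiv (Equiv.mulLeft x⁻¹) _ _ fun b => ?_
        congr 1
        simp only [Equiv.coe_mulLeft]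
        group)
      have htr := congrArg (LinearMap.trace ℂ _) hz
      rw [map_sum, map_smul, LinearMap.trace_id, smul_eq_mul] at htr
      have hlhs : ∀ b : G, LinearMap.trace ℂ _ (ρ (b * a⁻¹ * b⁻¹)) = conj (ρ.character a) := by
        intro b
        rw [← Cfsg.Lib.Characters.char_inv_eq_conj (Cfsg.Lib.Characters.isCharacter_character ρ),
          ← ρ.char_conj a⁻¹ b]
        rfl
      rw [Finset.sum_congr rfl fun b _ => hlhs b, Finset.sum_const, Finset.card_univ, nsmul_eq_mul,
        ← Nat.card_eq_fintype_card, ← Representation.char_one ρ] at htr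
      have hsum : ∑ b : G, ρ.character (a * b * a⁻¹ * b⁻¹) =
          LinearMap.trace ℂ _ (ρ a * ∑ b : G, ρ (b * a⁻¹ * b⁻¹)) := by
        rw [Finset.mul_sum, map_sum]
        refine Finset.sum_congr rfl fun b _ => ?_
        rw [← map_mul]
        show LinearMap.trace ℂ _ (ρ _) = _
        congr 2
        group
      rw [hsum, hz, mul_smul_comm, map_smul, smul_eq_mul, ← Module.End.one_eq_id, mul_one]
      show z * ρ.character a = _
      rw [eq_div_iff (he ▸ h0)]
      linear_combination (-(ρ.character a)) * htr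
    have hsum : ∑ p : G × G, conj (ρ.character (p.1 * p.2 * p.1⁻¹ * p.2⁻¹)) =
        (Nat.card G : ℂ) * (Nat.card G : ℂ) / ρ.character 1 := by
      rw [Fintype.sum_prod_type]
      simp only [← map_sum, key]
      rw [← Finset.sum_div, ← Finset.mul_sum]
      have h2 := Cfsg.Lib.Characters.classInner_irr_self χ.2
      rw [classInner, inv_mul_eq_div, div_eq_one_iff_eq (Nat.cast_ne_zero.mpr Nat.card_pos.ne'),
        ← he] at h2
      rw [h2, map_div₀, map_mul, map_natCast,
        Cfsg.Lib.Characters.conj_char_one (Cfsg.Lib.Characters.isCharacter_character ρ)]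
    rw [← he, classInner]
    rw [← Finset.sum_fiberwise (univ : Finset (G × G)) (fun p => p.1 * p.2 * p.1⁻¹ * p.2⁻¹)
      (fun p => conj (ρ.character (p.1 * p.2 * p.1⁻¹ * p.2⁻¹)))] at hsum
    have h3 : ∑ x : G, f x * conj (ρ.character x) = (Nat.card G : ℂ) * (Nat.card G : ℂ) / ρ.character 1 := by
      rw [← hsum]
      refine Finset.sum_congr rfl fun x _ => ?_
      rw [Finset.sum_congr rfl (fun p hp => by rw [(Finset.mem_filter.mp hp).2]), Finset.sum_const,
        nsmul_eq_mul]
    rw [h3, mul_div_assoc', inv_mul_cancel_left₀ (Nat.cast_ne_zero.mpr Nat.card_pos.ne')]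
  show f g = _
  conv_lhs => rw [Cfsg.Lib.Characters.classFunction_expansion hfc]
  rw [Finset.sum_apply, Finset.mul_sum]
  refine Finset.sum_congr rfl fun χ _ => ?_
  rw [Pi.smul_apply, smul_eq_mul, hinner, div_mul_eq_mul_div, mul_div_assoc]


/-- An element g of a finite group is a commutator if and only if the sum over the irreducible characters χ of χ g / χ 1 is nonzero. -/
theorem result {G : Type*} [Group G] [Finite G] (g : G) : (∃ a b : G, g = a * b * a⁻¹ * b⁻¹) ↔ ∑ᶠ χ : Cfsg.IrrCharacter G, (χ : G → ℂ) g / (χ : G → ℂ) 1 ≠ 0 := by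
  classical
  haveI := Fintype.ofFinite G
  rw [finsum_eq_sum_of_fintype]
  have h := count_commutators g
  constructor
  · rintro ⟨a, b, rfl⟩ h0
    rw [h0, mul_zero, Nat.cast_eq_zero, Finset.card_eq_zero, Finset.filter_eq_empty_iff] at h
    exact h (Finset.mem_univ (a, b)) rfl
  · intro h0
    have hne : (Finset.univ.filter fun p : G × G => p.1 * p.2 * p.1⁻¹ * p.2⁻¹ = g).Nonempty := by
      refine Finset.card_ne_zero.mp fun e => ?_
      rw [e, Nat.cast_zero, eq_comm, mul_eq_zero] at h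
      exact h0 (h.resolve_left (Nat.cast_ne_zero.mpr Nat.card_pos.ne'))
    obtain ⟨⟨a, b⟩, hp⟩ := hne
    exact ⟨a, b, ((Finset.mem_filter.mp hp).2).symm⟩

end Cfsg.Agent.S0167
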