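import Cfsg.Statements.S0168
import Cfsg.Agent.Lib.Characters.Basic
import Mathlib.Algebra.Polynomial.BigOperators

set_option autoImplicit false
open Cfsg

namespace Cfsg.Agent.S0168

open Cfsg Cfsg.Lib.Characters
open scoped ComplexConjugate

/-- The Burnside–Brauer Theorem. Let χ be the character of a faithful complex representation of a finite group, taking m distinct values. Then every irreducible character has nonzero inner product with χ ^ i for some i < m. -/
theorem result {G : Type*} [Group G] [Fintype G] {V : Type*} [AddCommGroup V] [Module ℂ V] [FiniteDimensional ℂ V] (ρ : Representation ℂ G V) (hfaithful : Function.Injective ρ) (ψ : G → ℂ) (hψ : Cfsg.IsIrrCharacter G ψ) : ∃ i : ℕ, i < Nat.card (Set.range ρ.character) ∧ Cfsg.classInner (fun g => ρ.character g ^ i) ψ ≠ 0 := by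
  classical
  by_contra hcon
  push Not at hcon
  set χ := ρ.character
  have hfaith : ∀ g, χ g = χ 1 → g = 1 := by
    intro g hg
    refine hfaithful ?_
    obtain ⟨b, μ, hb, hμ⟩ := exists_eigenbasis ρ g
    have hn : ∀ i, ‖μ i‖ = 1 := fun i => Complex.norm_eq_one_of_pow_eq_one (hμ i) (orderOf_pos g).ne'
    have h1 : ∑ i, μ i = (Module.finrank ℂ V : ℂ) := by
      rw [← trace_eq_sum_of_eigenbasis _ b μ hb]
      exact hg.trans (Representation.char_one ρ)
    have hre : ∀ i ∈ (Finset.univ : Finset (Fin (Module.finrank ℂ V))), (μ i).re ≤ 1 :=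
      fun i _ => hn i ▸ Complex.re_le_norm (μ i)
    have hsum : ∑ i, (μ i).re = ∑ _i : Fin (Module.finrank ℂ V), (1 : ℝ) := by
      have := congrArg Complex.re h1
      rw [Complex.re_sum, Complex.natCast_re] at this
      simpa using this
    have hone : ∀ i, μ i = 1 := fun i => by
      have h := (Finset.sum_eq_sum_iff_of_le hre).mp hsum i (Finset.mem_univ i)
      have h2 := Complex.sq_norm (μ i)
      rw [hn i, Complex.normSq_apply, h, one_pow] at h2
      refine Complex.ext h ?_
      rw [Complex.one_im]
      exact mul_self_eq_zero.mp (by linarith)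
    rw [map_one]
    refine b.ext fun i => ?_
    rw [hb i, hone i, one_smul, Module.End.one_apply]
  set T : Finset ℂ := Finset.univ.image χ
  have hT : T.card = Nat.card (Set.range χ) := by
    rw [Nat.card_eq_card_toFinset, Set.toFinset_range]
  set Q : Polynomial ℂ := ∏ b ∈ T.erase (χ 1), (Polynomial.X - Polynomial.C b) with hQ
  have hdeg : Q.natDegree < T.card := by
    rw [hQ, Polynomial.natDegree_finsetProd_X_sub_C_eq_card]
    exact Finset.card_erase_lt_of_mem (Finset.mem_image_of_mem _ (Finset.mem_univ _))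
  have hzero : ∀ g, g ≠ 1 → Q.eval (χ g) = 0 := by
    intro g hg
    rw [hQ, Polynomial.eval_prod]
    refine Finset.prod_eq_zero (i := χ g) ?_ (by simp)
    exact Finset.mem_erase.mpr
      ⟨fun h => hg (hfaith g h), Finset.mem_image_of_mem _ (Finset.mem_univ _)⟩
  have hone : Q.eval (χ 1) ≠ 0 := by
    rw [hQ, Polynomial.eval_prod, Finset.prod_ne_zero_iff]
    intro b hb
    simpa [sub_eq_zero] using (Finset.mem_erase.mp hb).1.symm
  have hkey : ∑ g : G, Q.eval (χ g) * conj (ψ g) = 0 := by
    simp only [Polynomial.eval_eq_sum_range, Finset.sum_mul]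
    rw [Finset.sum_comm]
    refine Finset.sum_eq_zero fun i hi => ?_
    have h := hcon i (hT ▸ lt_of_le_of_lt (Nat.lt_succ_iff.mp (Finset.mem_range.mp hi)) hdeg)
    rw [classInner, mul_eq_zero] at h
    have h' : ∑ g : G, χ g ^ i * conj (ψ g) = 0 :=
      h.resolve_left (inv_ne_zero (Nat.cast_ne_zero.mpr Nat.card_pos.ne'))
    simp only [mul_assoc, ← Finset.mul_sum, h', mul_zero]
  rw [Finset.sum_eq_single 1 (fun g _ hg => by rw [hzero g hg, zero_mul])
    (fun h => absurd (Finset.mem_univ _) h), mul_eq_zero] at hkey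
  refine hkey.elim hone fun h => hψ.one_ne_zero ?_
  rwa [map_eq_zero] at h

end Cfsg.Agent.S0168
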