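import Cfsg.Statements.S0170
import Mathlib
import Cfsg.Agent.Lib.Characters.Isometry
import Cfsg.Agent.Lib.Characters.TI
-- import your own Cfsg.Agent.* helpers here

set_option autoImplicit false
open Cfsg

namespace Cfsg.Agent.S0170

/-- Exceptional characters. Let S be a subset of a finite group contained in its normalizer N and meeting its conjugates by elements outside N only in the identity. Given n ≥ 2 distinct irreducible characters of N of equal degree that vanish on N away from S, there exist a sign ε and n distinct irreducible characters θ_i of G such that inducing χ_i − χ_j to G gives ε (θ_i − θ_j) for all i, j. -/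
theorem result {G : Type*} [Group G] [Fintype G] (S : Set G) (hSN : S ⊆ Subgroup.normalizer S) (hTI : ∀ g : G, g ∉ Subgroup.normalizer S → ∀ s ∈ S, g * s * g⁻¹ ∈ S → s = 1) (n : ℕ) (hn : 2 ≤ n) (χ : Fin n → (Subgroup.normalizer S → ℂ)) (hirr : ∀ i, Cfsg.IsIrrCharacter (Subgroup.normalizer S) (χ i)) (hinj : Function.Injective χ) (hvan : ∀ i, ∀ x : Subgroup.normalizer S, (x : G) ∉ S → χ i x = 0) (hdeg : ∀ i j, χ i 1 = χ j 1) : ∃ ε : ℂ, (ε = 1 ∨ ε = -1) ∧ ∃ θ : Fin n → (G → ℂ), (∀ i, Cfsg.IsIrrCharacter G (θ i)) ∧ Function.Injective θ ∧ ∀ i j, Cfsg.indFun (Subgroup.normalizer S) (χ i) - Cfsg.indFun (Subgroup.normalizer S) (χ j) = ε • (θ i - θ j) := by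
  classical
  haveI := Fintype.ofFinite ↥(Subgroup.normalizer S)
  let i₀ : Fin n := ⟨0, by omega⟩
  let τ : Fin n → G → ℂ := fun i => Cfsg.indFun (Subgroup.normalizer S) (χ i - χ i₀)
  have hsupp : ∀ i, ∀ x : Subgroup.normalizer S, (x : G) ∉ S → (χ i - χ i₀) x = 0 := fun i x hx => by
    simp [hvan i x hx, hvan i₀ x hx]
  have hcl : ∀ i, Cfsg.IsClassFunction (Subgroup.normalizer S) (χ i - χ i₀) := fun i g h => by
    simp only [Pi.sub_apply, (hirr i).isClassFunction g h, (hirr i₀).isClassFunction g h]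
  have hip : ∀ i j, Cfsg.classInner (τ i) (τ j) = Cfsg.classInner (χ i - χ i₀) (χ j - χ i₀) := fun i j =>
    Cfsg.Lib.Characters.classInner_indFun_ti hTI (hsupp i) (hcl j) (hsupp j) (by simp [hdeg i i₀])
  obtain ⟨ε, hε, μ, hμ, hμinj, h⟩ := Cfsg.Lib.Characters.exists_star i₀ τ
    (by simp only [τ, sub_self]; simpa using Cfsg.Lib.Characters.indFun_smul (Subgroup.normalizer S) 0 (χ i₀))
    (fun i => Cfsg.Lib.Characters.isGeneralized_indFun _ (Cfsg.Lib.Characters.isGeneralized_irr_sub (hirr i) (hirr i₀)))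
    (fun i => by simp [τ, Cfsg.Lib.Characters.indFun_one_apply, hdeg i i₀])
    (fun i j hi hj hij => by
      rw [hip, Cfsg.Lib.Characters.classInner_irr_sub_sub (hirr i) (hirr i₀) (hirr j) (hirr i₀)]
      simp [hinj.ne hij, hinj.ne hi, hinj.ne (Ne.symm hj)])
    (fun i hi => by
      rw [hip, Cfsg.Lib.Characters.classInner_irr_sub_sub (hirr i) (hirr i₀) (hirr i) (hirr i₀)]
      simp [hinj.ne hi, hinj.ne (Ne.symm hi)]
      norm_num)
  refine ⟨ε, hε, μ, hμ, hμinj, fun i j => ?_⟩
  have h2 : τ i - τ j = Cfsg.indFun (Subgroup.normalizer S) (χ i) - Cfsg.indFun (Subgroup.normalizer S) (χ j) := by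
    simp only [τ, Cfsg.Lib.Characters.indFun_sub]
    abel
  rw [← h2, h i, h j, ← smul_sub]
  congr 1
  abel

end Cfsg.Agent.S0170
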