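import Cfsg.Statements.S0171
import Mathlib
import Cfsg.Agent.Lib.Characters.Permutation
-- import your own Cfsg.Agent.* helpers here

set_option autoImplicit false
open Cfsg

namespace Cfsg.Agent.S0171

/-- Let G = K H with K normal, K ⊓ H trivial, and no non-identity element of H commuting with a non-identity element of K (a Frobenius group with kernel K and complement H). Then every non-principal irreducible character of K induces to an irreducible character of G. -/
theorem result {G : Type*} [Group G] [Fintype G] (K H : Subgroup G) [K.Normal] (hKH : K ⊓ H = ⊥) (hKH' : K ⊔ H = ⊤) (hfpf : ∀ h ∈ H, h ≠ 1 → ∀ k ∈ K, h * k = k * h → k = 1) (τ : K → ℂ) (hτ : Cfsg.IsIrrCharacter K τ) (hτ1 : τ ≠ fun _ => 1) : Cfsg.IsIrrCharacter G (Cfsg.indFun K τ) := by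
  classical
  haveI := Fintype.ofFinite K
  rw [Cfsg.Lib.Characters.isIrrCharacter_indFun_iff hτ]
  refine le_antisymm (fun x hx => ?_) (Cfsg.Lib.Characters.le_inertia hτ.isClassFunction)
  by_contra hxK
  obtain ⟨u, hu, h, hh, hh1, hux⟩ := Cfsg.Lib.Characters.exists_conj_complement hKH hKH' hfpf hxK
  let α : K ≃* K := MulAut.conjNormal x
  let σ : Cfsg.IrrCharacter K ≃ Cfsg.IrrCharacter K :=
    { toFun := fun χ => ⟨fun g => (χ : K → ℂ) (α.symm g), Cfsg.Lib.Characters.isIrrCharacter_comp_surjective χ.2 α.symm.toMonoidHom α.symm.surjective⟩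
      invFun := fun χ => ⟨fun g => (χ : K → ℂ) (α g), Cfsg.Lib.Characters.isIrrCharacter_comp_surjective χ.2 α.toMonoidHom α.surjective⟩
      left_inv := fun χ => Subtype.ext (funext fun g => by simp)
      right_inv := fun χ => Subtype.ext (funext fun g => by simp) }
  have hmk : ∀ g : K, ConjClasses.map α.toMonoidHom (ConjClasses.mk g) = ConjClasses.mk (α g) := fun g => rfl
  let τ' : ConjClasses K ≃ ConjClasses K :=
    { toFun := ConjClasses.map α.toMonoidHom
      invFun := ConjClasses.map α.symm.toMonoidHom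
      left_inv := fun C => by
        obtain ⟨g, rfl⟩ := ConjClasses.mk_surjective C
        show ConjClasses.mk (α.symm (α g)) = _
        rw [MulEquiv.symm_apply_apply]
      right_inv := fun C => by
        obtain ⟨g, rfl⟩ := ConjClasses.mk_surjective C
        show ConjClasses.mk (α (α.symm g)) = _
        rw [MulEquiv.apply_symm_apply] }
  have key := Cfsg.Lib.Characters.card_fixed_irr_eq σ τ' (fun χ g g' h => by
    show (χ : K → ℂ) (α.symm g') = _
    obtain ⟨c, hc⟩ := isConj_iff.mp (ConjClasses.mk_eq_mk_iff_isConj.mp (h.trans (hmk g)))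
    have h2 : α.symm c * α.symm g' * (α.symm c)⁻¹ = g := by
      rw [← map_mul, ← map_inv, ← map_mul, hc, MulEquiv.symm_apply_apply]
    rw [← h2, χ.2.isClassFunction])
  have hone : Nat.card {C : ConjClasses K // τ' C = C} = 1 := by
    rw [Nat.card_eq_one_iff_unique]
    refine ⟨⟨fun a b => Subtype.ext ?_⟩, ⟨⟨ConjClasses.mk 1, ?_⟩⟩⟩
    · suffices hall : ∀ C : ConjClasses K, τ' C = C → C = ConjClasses.mk 1 by
        rw [hall a.1 a.2, hall b.1 b.2]
      intro C hC
      obtain ⟨g, rfl⟩ := ConjClasses.mk_surjective C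
      obtain ⟨m, hm⟩ := isConj_iff.mp (ConjClasses.mk_eq_mk_iff_isConj.mp hC)
      by_contra hg
      have hg1 : (g : G) ≠ 1 := fun h1 => hg (by rw [show g = 1 from Subtype.ext h1])
      have hval : (m : G) * (x * g * x⁻¹) * (m : G)⁻¹ = g := by
        have := congrArg Subtype.val hm
        simpa [α] using this
      have hcomm : Commute ((m : G) * x) (g : G) := by
        refine mul_inv_eq_iff_eq_mul.mp ?_
        calc (m : G) * x * g * ((m : G) * x)⁻¹ = (m : G) * (x * g * x⁻¹) * (m : G)⁻¹ := by group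
          _ = g := hval
      have := Cfsg.Lib.Characters.centralizer_kernel_le hKH hKH' hfpf g.2 hg1 hcomm
      exact hxK (by simpa using K.mul_mem (K.inv_mem m.2) this)
    · show ConjClasses.mk (α 1) = _
      rw [map_one]
  rw [← key, Nat.card_eq_one_iff_unique] at hone
  haveI := hone.1
  have hfix : σ ⟨τ, hτ⟩ = ⟨τ, hτ⟩ := by
    refine Subtype.ext (funext fun g => ?_)
    show τ (α.symm g) = τ g
    have hinv : Cfsg.Lib.Characters.conjFn K τ x⁻¹ = τ :=
      (Cfsg.Lib.Characters.inertia K τ).inv_mem hx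
    have := congrFun hinv g
    rw [Cfsg.Lib.Characters.conjFn_eq_comp] at this
    simpa [α] using this
  have h1 : σ ⟨fun _ => 1, Cfsg.Lib.Characters.isIrrCharacter_one⟩ = ⟨fun _ => 1, Cfsg.Lib.Characters.isIrrCharacter_one⟩ := rfl
  have := Subsingleton.elim (⟨⟨τ, hτ⟩, hfix⟩ : {χ : Cfsg.IrrCharacter K // σ χ = χ}) ⟨_, h1⟩
  exact hτ1 (congrArg (fun z => ((z.1 : Cfsg.IrrCharacter K) : K → ℂ)) this)

end Cfsg.Agent.S0171
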