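import Cfsg.Statements.S0173
import Mathlib
import Cfsg.Agent.Lib.Characters.Permutation
-- import your own Cfsg.Agent.* helpers here

set_option autoImplicit false
open Cfsg

namespace Cfsg.Agent.S0173

/-- Brauer's permutation lemma for a single automorphism: the number of conjugacy classes mapped to themselves equals the number of irreducible complex characters χ with χ ∘ α = χ. -/
theorem result {G : Type*} [Group G] [Finite G] (α : G ≃* G) : Nat.card {C : ConjClasses G // ConjClasses.map α.toMonoidHom C = C} = Nat.card {χ : Cfsg.IrrCharacter G // (χ : G → ℂ) ∘ α = (χ : G → ℂ)} := by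
  classical
  haveI := Fintype.ofFinite G
  let σ : Cfsg.IrrCharacter G ≃ Cfsg.IrrCharacter G :=
    { toFun := fun χ => ⟨fun g => (χ : G → ℂ) (α.symm g), Cfsg.Lib.Characters.isIrrCharacter_comp_surjective χ.2 α.symm.toMonoidHom α.symm.surjective⟩
      invFun := fun χ => ⟨fun g => (χ : G → ℂ) (α g), Cfsg.Lib.Characters.isIrrCharacter_comp_surjective χ.2 α.toMonoidHom α.surjective⟩
      left_inv := fun χ => Subtype.ext (funext fun g => by simp)
      right_inv := fun χ => Subtype.ext (funext fun g => by simp) }
  have hmk : ∀ g, ConjClasses.map α.toMonoidHom (ConjClasses.mk g) = ConjClasses.mk (α g) := fun g => rfl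
  have hmk' : ∀ g, ConjClasses.map α.symm.toMonoidHom (ConjClasses.mk g) = ConjClasses.mk (α.symm g) := fun g => rfl
  let τ : ConjClasses G ≃ ConjClasses G :=
    { toFun := ConjClasses.map α.toMonoidHom
      invFun := ConjClasses.map α.symm.toMonoidHom
      left_inv := fun C => by
        obtain ⟨g, rfl⟩ := ConjClasses.mk_surjective C
        rw [hmk, hmk', MulEquiv.symm_apply_apply]
      right_inv := fun C => by
        obtain ⟨g, rfl⟩ := ConjClasses.mk_surjective C
        rw [hmk', hmk, MulEquiv.apply_symm_apply] }
  have key := Cfsg.Lib.Characters.card_fixed_irr_eq σ τ (fun χ g g' h => by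
    show (χ : G → ℂ) (α.symm g') = _
    obtain ⟨c, hc⟩ := isConj_iff.mp (ConjClasses.mk_eq_mk_iff_isConj.mp (h.trans (hmk g)))
    have h2 : α.symm c * α.symm g' * (α.symm c)⁻¹ = g := by
      rw [← map_mul, ← map_inv, ← map_mul, hc, MulEquiv.symm_apply_apply]
    rw [← h2, χ.2.isClassFunction])
  refine key.symm.trans (Nat.card_congr (Equiv.subtypeEquivRight fun χ => ?_))
  constructor
  · intro h
    funext g
    have := congrFun (congrArg Subtype.val h) (α g)
    simp [σ] at this
    exact this.symm
  · intro h
    refine Subtype.ext (funext fun g => ?_)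
    have := congrFun h (α.symm g)
    simp at this
    exact this.symm

end Cfsg.Agent.S0173
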