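import Cfsg.Statements.S0174
import Mathlib
import Cfsg.Agent.Lib.Characters.Normal
-- import your own Cfsg.Agent.* helpers here

set_option autoImplicit false
open Cfsg

namespace Cfsg.Agent.S0174

/-- The Clifford Theorem for characters: if θ is an irreducible character of a finite group G, N is a normal subgroup and χ is an irreducible character of N occurring in the restriction of θ, then θ restricted to N equals e times the sum of the distinct G-conjugates of χ, where e is the inner product of the restriction with χ. -/
theorem result {G : Type*} [Group G] [Fintype G] (N : Subgroup G) [Fintype N] (hN : N.Normal) (θ : G → ℂ) (hθ : Cfsg.IsIrrCharacter G θ) (χ : N → ℂ) (hχ : Cfsg.IsIrrCharacter N χ) (hconst : Cfsg.classInner (fun n : N => θ n) χ ≠ 0) : (fun n : N => θ n) = Cfsg.classInner (fun n : N => θ n) χ • ∑ᶠ ψ ∈ {ψ : N → ℂ | ∃ g : G, ψ = fun n : N => χ ⟨g * n * g⁻¹, hN.conj_mem n n.2 g⟩}, ψ := by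
  classical
  haveI := hN
  rw [finsum_mem_eq_sum_of_inter_support_eq _ (t := Cfsg.Lib.Characters.orbitFinset N χ) ?_]
  · exact Cfsg.Lib.Characters.clifford hθ hχ hconst
  · ext ψ
    simp only [Set.mem_inter_iff, Set.mem_setOf_eq, Finset.mem_coe,
      Cfsg.Lib.Characters.mem_orbitFinset]
    rfl

end Cfsg.Agent.S0174
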