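import Cfsg.Statements.S0175
import Cfsg.Agent.Lib.Characters.Integrality
import Cfsg.Agent.Lib.Characters.Induction

set_option autoImplicit false
open Cfsg

namespace Cfsg.Agent.S0175

open Cfsg Cfsg.Lib.Characters
open scoped ComplexConjugate

/-- Taketa's Theorem on M-groups: if every irreducible complex character of a finite group is induced from a linear character (a homomorphism to ℂˣ) of some subgroup, the group is solvable. -/
theorem result {G : Type*} [Group G] [Fintype G] (hM : ∀ χ : G → ℂ, Cfsg.IsIrrCharacter G χ → ∃ (H : Subgroup G) (lam : H →* ℂˣ), χ = Cfsg.indFun H (fun h => (lam h : ℂ))) : Group.IsSolvable G := by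
  classical
  obtain ⟨n, hn⟩ : ∃ n : ℕ, derivedSeries G (n + 1) = derivedSeries G n := by
    set n := Function.argmin fun n => Nat.card (derivedSeries G n)
    refine ⟨n, Subgroup.eq_of_le_of_card_ge (derivedSeries_antitone G (Nat.le_succ n)) ?_⟩
    exact Function.argmin_le (fun n => Nat.card (derivedSeries G n)) (n + 1)
  set P := derivedSeries G n with hP
  haveI hPn : P.Normal := derivedSeries_normal G n
  have hperf : ⁅P, P⁆ = P := hn
  refine (isSolvable_def G).mpr ⟨n, by_contra fun hne => ?_⟩
  obtain ⟨p₀, hp₀, hp₀1⟩ := (Subgroup.bot_or_exists_ne_one P).resolve_left hne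
  have hex : ∃ d : ℕ, ∃ χ : IrrCharacter G, (χ : G → ℂ) 1 = d ∧
      ∃ p ∈ P, (χ : G → ℂ) p ≠ (χ : G → ℂ) 1 := by
    by_contra hcon
    push Not at hcon
    refine hp₀1 (isConj_one_left.mp ((isConj_iff_forall_irr p₀ 1).mpr fun χ => ?_))
    obtain ⟨d, hd⟩ := exists_degree χ.2.isCharacter
    exact hcon d χ hd p₀ hp₀
  obtain ⟨χ, hχd, p, hp, hpne⟩ := Nat.find_spec hex
  obtain ⟨H, lam, hlam⟩ := hM χ χ.2
  have hdeg : Nat.find hex = H.index := by
    have h : ((Nat.find hex : ℕ) : ℂ) = (H.index : ℂ) := by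
      rw [← hχd, hlam, indFun_one_apply]; simp
    exact_mod_cast h
  -- the permutation character of `H`
  set ψ := indFun H (fun _ => (1 : ℂ)) with hψ
  obtain ⟨m, hm⟩ := exists_decomposition (isCharacter_indFun H isCharacter_one)
  rw [← hψ] at hm
  let one : IrrCharacter G := ⟨fun _ => 1, isIrrCharacter_one⟩
  have hm1 : m one = 1 := by
    have h1 : classInner ψ (fun _ => (1 : ℂ)) = 1 := by
      rw [hψ, classInner_indFun H _ isIrrCharacter_one.isClassFunction]
      exact classInner_irr_self (isIrrCharacter_one (G := H))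
    rw [hm] at h1
    have h2 := classInner_sum_irr (fun φ => (m φ : ℂ)) one
    rw [h2] at h1
    exact_mod_cast h1
  have hall : ∀ φ : IrrCharacter G, m φ ≠ 0 → ∀ q ∈ P, (φ : G → ℂ) q = (φ : G → ℂ) 1 := by
    intro φ hφ
    by_cases h1 : φ = one
    · subst h1; exact fun q _ => rfl
    choose d hd using fun φ : IrrCharacter G => exists_degree φ.2.isCharacter
    have hsum : H.index = ∑ φ, m φ * d φ := by
      have h := congrFun hm 1
      rw [hψ, indFun_one_apply, mul_one, Finset.sum_apply] at h
      have : (H.index : ℂ) = ((∑ φ, m φ * d φ : ℕ) : ℂ) := by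
        rw [h]
        push_cast
        exact Finset.sum_congr rfl fun φ _ => by rw [Pi.smul_apply, smul_eq_mul, hd]
      exact_mod_cast this
    have hd1 : d one = 1 := by
      have : ((d one : ℕ) : ℂ) = 1 := (hd one).symm
      exact_mod_cast this
    have hle : m one * d one + m φ * d φ ≤ H.index := by
      rw [hsum, ← Finset.sum_pair (Ne.symm h1) (f := fun x => m x * d x)]
      exact Finset.sum_le_sum_of_subset (Finset.subset_univ _)
    have hlt : d φ < Nat.find hex := by
      have := Nat.le_mul_of_pos_left (d φ) (Nat.pos_of_ne_zero hφ)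
      rw [hdeg, hm1, hd1] at *
      omega
    intro q hq
    by_contra hne'
    exact Nat.find_min hex hlt ⟨φ, hd φ, q, hq, hne'⟩
  have hPH : P ≤ H := by
    intro q hq
    have hq1 : ψ q = ψ 1 := by
      rw [hm, Finset.sum_apply, Finset.sum_apply]
      refine Finset.sum_congr rfl fun φ _ => ?_
      by_cases h : m φ = 0
      · simp [h]
      · rw [Pi.smul_apply, Pi.smul_apply, hall φ h q hq]
    rw [hψ, indFun_one_apply, indFun, mul_one,
      inv_mul_eq_iff_eq_mul₀ (Nat.cast_ne_zero.mpr Nat.card_pos.ne'), ← Nat.cast_mul,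
      H.card_mul_index] at hq1
    have hsum : ∑ x : G, extendByZero H (fun _ => (1 : ℂ)) (x⁻¹ * q * x) =
        ((Finset.univ.filter fun x : G => x⁻¹ * q * x ∈ H).card : ℂ) := by
      rw [← Finset.sum_boole]
      refine Finset.sum_congr rfl fun x _ => ?_
      split_ifs with h
      · exact extendByZero_mem _ h
      · exact extendByZero_not_mem _ h
    rw [hsum, Nat.cast_inj, Nat.card_eq_fintype_card] at hq1
    have h1 := Finset.mem_filter.mp ((Finset.card_eq_iff_eq_univ _).mp hq1 ▸ Finset.mem_univ (1 : G))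
    simpa using h1.2
  -- `lam` is trivial on `P`
  have hker : P ≤ lam.ker.map H.subtype := by
    rw [← hperf, Subgroup.commutator_le]
    intro a ha b hb
    refine ⟨(⟨a, hPH ha⟩ : H) * ⟨b, hPH hb⟩ * (⟨a, hPH ha⟩ : H)⁻¹ * (⟨b, hPH hb⟩ : H)⁻¹, ?_,
      (commutatorElement_def a b).symm⟩
    rw [SetLike.mem_coe, MonoidHom.mem_ker, map_mul, map_mul, map_mul, map_inv, map_inv]
    simp [mul_comm, mul_left_comm]
  apply hpne
  rw [hlam, indFun_one_apply, indFun]
  have hsum : ∀ x : G, extendByZero H (fun h => ((lam h : ℂˣ) : ℂ)) (x⁻¹ * p * x) = 1 := by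
    intro x
    have hmem : x⁻¹ * p * x ∈ P := by simpa using hPn.conj_mem p hp x⁻¹
    obtain ⟨h, hh, hhe⟩ := hker hmem
    rw [← hhe, Subgroup.coe_subtype, extendByZero_coe, show lam h = 1 from hh, Units.val_one]
  rw [Finset.sum_congr rfl fun x _ => hsum x, Finset.sum_const, Finset.card_univ, nsmul_eq_mul,
    ← Nat.card_eq_fintype_card, ← H.card_mul_index, Nat.cast_mul]
  simp [inv_mul_cancel_left₀, Nat.card_pos.ne']

end Cfsg.Agent.S0175
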