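import Cfsg.Statements.S0177
import Cfsg.Agent.Lib.Characters.Brauer

set_option autoImplicit false
open Cfsg

namespace Cfsg.Agent.S0177

open Cfsg Cfsg.Lib.Characters
open scoped ComplexConjugate

universe u

open Classical in
/-- The order of `C` at the generators of `C`, zero elsewhere. -/
noncomputable def th (C : Type u) [Group C] : C → ℂ :=
  fun a => if Subgroup.zpowers a = ⊤ then (Nat.card C : ℂ) else 0

theorem th_sub {G : Type u} [Group G] (B : Subgroup G) (b : B) [Decidable (Subgroup.zpowers (b : G) = B)] :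
    th B b = if Subgroup.zpowers (b : G) = B then (Nat.card B : ℂ) else 0 := by
  have h : Subgroup.zpowers b = ⊤ ↔ Subgroup.zpowers (b : G) = B := by
    rw [← (Subgroup.map_injective B.subtype_injective).eq_iff, MonoidHom.map_zpowers,
      ← MonoidHom.range_eq_map, Subgroup.range_subtype]
    rfl
  unfold th
  split_ifs with h1 h2 h2
  · rfl
  · exact absurd (h.mp h1) h2
  · exact absurd (h.mpr h2) h1
  · rfl

theorem sum_ind_th {G : Type u} [Group G] [Fintype G] [Fintype (Subgroup G)] (g : G) :
    ∑ B : Subgroup G, indFun B (th B) g = (Nat.card G : ℂ) := by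
  classical
  have hB : ∀ B : Subgroup G, indFun B (th B) g =
      ∑ x : G, if Subgroup.zpowers (x⁻¹ * g * x) = B then (1 : ℂ) else 0 := by
    intro B
    unfold indFun
    rw [Finset.mul_sum]
    refine Finset.sum_congr rfl fun x _ => ?_
    by_cases hm : x⁻¹ * g * x ∈ B
    · rw [extendByZero_mem _ hm, th_sub]
      split_ifs
      · exact inv_mul_cancel₀ (Nat.cast_ne_zero.mpr Nat.card_pos.ne')
      · rw [mul_zero]
    · rw [extendByZero_not_mem _ hm, mul_zero, if_neg fun h => hm ?_]
      rw [← h]
      exact Subgroup.mem_zpowers _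
  simp only [hB]
  rw [Finset.sum_comm, Finset.sum_congr rfl fun x _ => Finset.sum_ite_eq _ _ _]
  simp

theorem th_generalized : ∀ (n : ℕ) (C : Type u) [Group C] [Fintype C] [IsCyclic C],
    Nat.card C = n → IsGeneralizedCharacter C (th C) := by
  intro n
  induction n using Nat.strong_induction_on with
  | _ n ih =>
    intro C _ _ _ hn
    classical
    haveI : Fintype (Subgroup C) := Fintype.ofFinite _
    have htop : indFun (⊤ : Subgroup C) (th (⊤ : Subgroup C)) = th C := by
      funext g
      have hcl : IsClassFunction C (th C) := fun a b => by rw [mul_comm' b a, mul_inv_cancel_right]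
      refine Eq.trans ?_ (congrFun (indFun_top hcl) g)
      refine congrFun (congrArg _ (funext fun x => ?_)) g
      rw [th_sub, Subgroup.card_top]
      unfold th
      split_ifs <;> rfl
    have hsum : th C = (fun _ => (Nat.card C : ℂ)) -
        ∑ B ∈ (Finset.univ : Finset (Subgroup C)).erase ⊤, indFun B (th B) := by
      funext g
      rw [Pi.sub_apply, Finset.sum_apply, ← sum_ind_th (G := C) g,
        ← Finset.add_sum_erase _ _ (Finset.mem_univ (⊤ : Subgroup C)), add_sub_cancel_right, htop]
    rw [hsum]
    refine isGeneralized_sub ?_ (Finset.sum_induction _ _ (fun _ _ => isGeneralized_add)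
      (isGeneralized_of_isCharacter isCharacter_zero) fun B hB => ?_)
    · have h := isCharacter_nsmul (isCharacter_one (G := C)) (Nat.card C)
      refine isGeneralized_of_isCharacter ?_
      convert h using 1
      funext x
      simp
    · haveI := Fintype.ofFinite B
      refine isGeneralized_indFun B (ih _ ?_ B rfl)
      rw [← hn]
      refine lt_of_le_of_ne (Subgroup.card_le_card_group B) fun h => ?_
      exact (Finset.mem_erase.mp hB).1 (Subgroup.eq_top_of_card_eq B h)

/-- The Artin induction Theorem: for a character χ of a finite group, |G| • χ is a ℤ-linear combination of functions induced from homomorphisms of cyclic subgroups into ℂˣ. -/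
theorem result {G : Type*} [Group G] [Fintype G] (χ : G → ℂ) (hχ : Cfsg.IsCharacter G χ) : ∃ l : List ((A : Subgroup G) × ((A →* ℂˣ) × ℤ)), (∀ t ∈ l, IsCyclic t.1) ∧ (Nat.card G : ℂ) • χ = (l.map fun t => (t.2.2 : ℂ) • Cfsg.indFun t.1 (fun a => (t.2.1 a : ℂ))).sum := by
  classical
  haveI : Fintype (Subgroup G) := Fintype.ofFinite _
  let P : (G → ℂ) → Prop := fun f => ∃ l : List ((A : Subgroup G) × ((A →* ℂˣ) × ℤ)),
    (∀ t ∈ l, IsCyclic t.1) ∧
      f = (l.map fun t => (t.2.2 : ℂ) • Cfsg.indFun t.1 (fun a => (t.2.1 a : ℂ))).sum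
  have hadd : ∀ a b, P a → P b → P (a + b) := by
    rintro a b ⟨l, hl, rfl⟩ ⟨l', hl', rfl⟩
    exact ⟨l ++ l', fun t ht => (List.mem_append.mp ht).elim (hl t) (hl' t), by simp⟩
  have hzero : P 0 := ⟨[], by simp, by simp⟩
  show P ((Nat.card G : ℂ) • χ)
  have hdec : (Nat.card G : ℂ) • χ = ∑ B : Subgroup G, indFun B (fun b : B => th B b * χ b) := by
    funext g
    rw [Finset.sum_apply, Pi.smul_apply, smul_eq_mul, ← sum_ind_th g, Finset.sum_mul]
    refine Finset.sum_congr rfl fun B _ => ?_
    rw [← indFun_mul B (th B) (isClassFunction_of_isCharacter hχ)]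
    rfl
  rw [hdec]
  refine Finset.sum_induction _ P hadd hzero fun B _ => ?_
  by_cases hB : IsCyclic B
  · haveI := hB
    haveI := Fintype.ofFinite B
    obtain ⟨a, ha, -⟩ := exists_coeff (isGeneralized_mul (th_generalized _ B rfl)
      (isGeneralized_comp (isGeneralized_of_isCharacter hχ) B.subtype))
    rw [show (fun b : B => th B b * χ b) = ∑ ψ : IrrCharacter B, (a ψ : ℂ) • (ψ : B → ℂ) from ha,
      indFun_sum]
    refine Finset.sum_induction _ P hadd hzero fun ψ _ => ?_
    obtain ⟨l, hl⟩ := exists_hom_of_degree_one ψ.2.isCharacter (degree_one_of_isMulCommutative ψ.2)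
    refine ⟨[⟨B, l, a ψ⟩], by simp [hB], ?_⟩
    simp only [List.map_cons, List.map_nil, List.sum_cons, List.sum_nil, add_zero, indFun_smul, hl]
  · have h0 : (fun b : B => th B b * χ b) = 0 := by
      funext b
      rw [Pi.zero_apply, th, if_neg fun h => hB (isCyclic_iff_exists_zpowers_eq_top.mpr ⟨b, h⟩),
        zero_mul]
    rw [h0, show indFun B (0 : B → ℂ) = 0 by
      funext g
      have := congrFun (indFun_smul B 0 (0 : B → ℂ)) g
      simpa using this]
    exact hzero

end Cfsg.Agent.S0177
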