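import Cfsg.Statements.S0180
import Mathlib
import Cfsg.Agent.Lib.Characters.Galois

set_option autoImplicit false
open Cfsg

namespace Cfsg.Agent.S0180


/-- Every irreducible complex character of a finite group takes only rational values if and only if g is conjugate to g ^ m for every element g and every m coprime to the group order. -/
theorem result {G : Type*} [Group G] [Finite G] : (∀ χ : Cfsg.IrrCharacter G, ∀ g : G, ∃ q : ℚ, (χ : G → ℂ) g = (q : ℂ)) ↔ ∀ m : ℕ, m.Coprime (Nat.card G) → ∀ g : G, IsConj g (g ^ m) := by
  refine ⟨fun h m hm g => ?_, fun h χ g => ?_⟩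
  · exact (Cfsg.Lib.Characters.isConj_iff_forall_irr _ _).mpr fun χ =>
      (Cfsg.Lib.Characters.char_pow_of_rat χ.2.isCharacter g hm (h χ g)).symm
  · exact Cfsg.Lib.Characters.char_rat_of_pow χ.2.isCharacter g fun k hk =>
      (Cfsg.Lib.Characters.isClassFunction_iff_isConj.mp χ.2.isClassFunction _ _ (h k hk g)).symm

end Cfsg.Agent.S0180
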