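import Cfsg.Statements.S0181
import Mathlib
import Cfsg.Agent.Lib.Characters.Integrality

set_option autoImplicit false
open Cfsg Cfsg.Lib.Characters
open scoped ComplexConjugate

namespace Cfsg.Agent.S0181


/-- Let H be a normal subgroup of a finite group G and ρ an irreducible complex representation whose kernel does not contain H. If g commutes with no non-identity element of H, then the character of ρ vanishes at g. -/
theorem result {G : Type*} [Group G] [Finite G] {V : Type*} [AddCommGroup V] [Module ℂ V] [FiniteDimensional ℂ V] (ρ : Representation ℂ G V) [ρ.IsIrreducible] (H : Subgroup G) [H.Normal] (hker : ∃ h ∈ H, ρ h ≠ LinearMap.id) (g : G) (hg : ∀ h ∈ H, h * g = g * h → h = 1) : ρ.character g = 0 := by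
  classical
  haveI := Fintype.ofFinite G
  haveI := Fintype.ofFinite (G ⧸ H)
  have hirr := isIrrCharacter_character ρ
  let ι : IrrCharacter (G ⧸ H) → IrrCharacter G := fun ψ =>
    ⟨fun x => (ψ : G ⧸ H → ℂ) x, isIrrCharacter_comp_surjective ψ.2 (QuotientGroup.mk' H)
      (QuotientGroup.mk'_surjective H)⟩
  have hι : Function.Injective ι := fun a b h => Subtype.ext (funext fun q => by
    obtain ⟨x, rfl⟩ := QuotientGroup.mk_surjective q
    exact congr_fun (congrArg Subtype.val h) x)
  have hnot : ∀ ψ, ι ψ ≠ ⟨ρ.character, hirr⟩ := by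
    intro ψ h
    obtain ⟨x, hx, hne⟩ := hker
    refine hne ((character_eq_degree_iff ρ x).mp ?_)
    have h1 := congr_fun (congrArg Subtype.val h) x
    have h2 := congr_fun (congrArg Subtype.val h) 1
    simp only [ι] at h1 h2
    rw [← Representation.char_one ρ, ← h1, ← h2, (QuotientGroup.eq_one_iff x).mpr hx,
      QuotientGroup.mk_one]
  have hcard : Nat.card (Subgroup.centralizer ({g} : Set G)) ≤
      Nat.card (Subgroup.centralizer ({(g : G ⧸ H)} : Set (G ⧸ H))) := by
    refine Nat.card_le_card_of_injective (fun c => ⟨((c : G) : G ⧸ H), ?_⟩) fun c d h => ?_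
    · rw [Subgroup.mem_centralizer_singleton_iff, ← QuotientGroup.mk_mul, ← QuotientGroup.mk_mul,
        Subgroup.mem_centralizer_singleton_iff.mp c.2]
    · have h1 : (c : G)⁻¹ * d ∈ H := QuotientGroup.eq.mp (congrArg Subtype.val h)
      exact Subtype.ext (inv_mul_eq_one.mp (hg _ h1
        (Subgroup.mem_centralizer_singleton_iff.mp (c⁻¹ * d).2)))
  have hA := column_orthogonality g g
  have hB := column_orthogonality (g : G ⧸ H) (g : G ⧸ H)
  rw [if_pos (IsConj.refl _)] at hA hB
  have hA' := congrArg Complex.re hA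
  have hB' := congrArg Complex.re hB
  simp only [Complex.re_sum, Complex.mul_conj, Complex.ofReal_re, Complex.natCast_re] at hA' hB'
  have hsum : ∑ ψ : IrrCharacter (G ⧸ H), Complex.normSq ((ψ : G ⧸ H → ℂ) g) +
      Complex.normSq (ρ.character g) ≤ ∑ χ : IrrCharacter G, Complex.normSq ((χ : G → ℂ) g) := by
    rw [← Finset.add_sum_erase Finset.univ (fun χ : IrrCharacter G => Complex.normSq ((χ : G → ℂ) g))
      (Finset.mem_univ ⟨ρ.character, hirr⟩), add_comm]
    refine add_le_add le_rfl ?_
    rw [← Finset.sum_image (f := fun χ : IrrCharacter G => Complex.normSq ((χ : G → ℂ) g))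
      (fun a _ b _ h => hι h)]
    exact Finset.sum_le_sum_of_subset_of_nonneg
      (fun χ hχ => by
        obtain ⟨ψ, -, rfl⟩ := Finset.mem_image.mp hχ
        exact Finset.mem_erase.mpr ⟨hnot ψ, Finset.mem_univ _⟩)
      (fun χ _ _ => Complex.normSq_nonneg _)
  rw [hA', hB'] at hsum
  have h0 : Complex.normSq (ρ.character g) ≤ 0 := by
    have : (Nat.card (Subgroup.centralizer ({g} : Set G)) : ℝ) ≤
      Nat.card (Subgroup.centralizer ({(g : G ⧸ H)} : Set (G ⧸ H))) := by exact_mod_cast hcard
    linarith
  exact Complex.normSq_eq_zero.mp (le_antisymm h0 (Complex.normSq_nonneg _))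

end Cfsg.Agent.S0181
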