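import Cfsg.Statements.S0183
import Cfsg.Agent.S1526
import Cfsg.Agent.S1527
import Cfsg.Agent.Lib.Characters.CN.Structure
-- import your own Cfsg.Agent.* helpers here

set_option autoImplicit false
set_option linter.style.haveILetI false
open Cfsg

namespace Cfsg.Agent.S0183

open Cfsg.Lib

universe u

theorem exists_pCore_ne_bot {G : Type u} [Group G] [Finite G] {N : Subgroup G} [N.Normal]
    (hN : N ≠ ⊥) (hs : Group.IsSolvable N) :
    ∃ p : ℕ, p.Prime ∧ ∃ R : Subgroup G, R.Normal ∧ R ≠ ⊥ ∧ IsPGroup p R := by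
  obtain ⟨M, hMn, hMN, hM1, hmin⟩ := Solv.exists_minimal_normal_le hN
  haveI := hMn
  obtain ⟨-, p, hp, hMp, -⟩ :=
    Solv.minimal_normal_elementary hM1 (Solv.solvable_of_le hMN hs) hmin
  exact ⟨p, hp, M, hMn, hM1, hMp⟩

theorem solvable_aux : ∀ (n : ℕ) (G : Type u) [Group G] [Finite G], Nat.card G ≤ n →
    Odd (Nat.card G) → Cfsg.IsCNGroup G → Group.IsSolvable G := by
  intro n
  induction n with
  | zero => intro G _ _ hn; exact absurd hn (Nat.card_pos (α := G)).not_ge
  | succ n ih =>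
  intro G _ _ hn hodd h
  have hsub : ∀ H : Subgroup G, H ≠ ⊤ → Group.IsSolvable H := by
    intro H hH
    refine ih H ?_ (hodd.of_dvd_nat H.card_subgroup_dvd_card) (CNOdd.isCN_subgroup h H)
    have : Nat.card H < Nat.card G := lt_of_le_of_ne (Subgroup.card_le_card_group H)
      fun e => hH (Subgroup.eq_top_of_card_eq H e)
    omega
  rcases subsingleton_or_nontrivial G with hG | hG
  · exact Group.isSolvable_of_comm fun a b => Subsingleton.elim _ _
  by_cases hsimple : ∃ N : Subgroup G, N.Normal ∧ N ≠ ⊥ ∧ N ≠ ⊤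
  · obtain ⟨N, hN, hNb, hNt⟩ := hsimple
    haveI := hN
    obtain ⟨p, hp, R, hR, hR1, hRp⟩ := exists_pCore_ne_bot hNb (hsub N hNt)
    haveI := hR
    haveI := Fact.mk hp
    have hlt : Nat.card (G ⧸ R) < Nat.card G := by
      have h1 := R.card_eq_card_quotient_mul_card_subgroup
      have h2 : 1 < Nat.card R := R.one_lt_card_iff_ne_bot.mpr hR1
      have h3 : 0 < Nat.card (G ⧸ R) := Nat.card_pos
      rw [h1]
      exact lt_mul_of_one_lt_right h3 h2
    have hq : Group.IsSolvable (G ⧸ R) := ih _ (by omega)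
      (hodd.of_dvd_nat R.card_quotient_dvd_card) (CNOdd.isCN_quotient h hRp hR1)
    haveI := hRp.isNilpotent
    have hRs : Group.IsSolvable R := inferInstance
    exact Group.isSolvable_of_ker_le_range R.subtype (QuotientGroup.mk' R)
      (by rw [QuotientGroup.ker_mk', Subgroup.range_subtype]) (hG'' := hq)
  push Not at hsimple
  by_cases hab : ∃ x : G, x ≠ 1 ∧ Subgroup.centralizer ({x} : Set G) = ⊤
  · obtain ⟨x, hx, htop⟩ := hab
    have hn' := h x hx
    rw [htop] at hn'
    haveI : Group.IsNilpotent G := Group.nilpotent_of_mulEquiv Subgroup.topEquiv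
    infer_instance
  push Not at hab
  exfalso
  have hTI : CNOdd.SylowTI G := fun p hp P P' hne =>
    haveI := Fact.mk hp
    CNOdd.sylow_TI_all h hodd hsimple hsub P P' hne
  let T := {A : Subgroup G // CNOdd.IsHall A}
  let s : Setoid T :=
    { r := fun A B => ∃ g : G, B.1 = A.1.map (MulAut.conj g).toMonoidHom
      iseqv :=
        { refl := fun A => ⟨1, by ext; simp [Subgroup.mem_map]⟩
          symm := by
            rintro A B ⟨g, hg⟩
            refine ⟨g⁻¹, ?_⟩
            rw [hg, Subgroup.map_map]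
            conv_lhs => rw [← Subgroup.map_id A.1]
            congr 1
            ext y
            simp [mul_assoc]
          trans := by
            rintro A B C ⟨g, hg⟩ ⟨k, hk⟩
            refine ⟨k * g, ?_⟩
            rw [hk, hg, Subgroup.map_map]
            congr 1
            ext y
            simp [mul_assoc] } }
  let ι := Quotient s
  have : Finite T := inferInstance
  have := Fintype.ofFinite ι
  let A : ι → Subgroup G := fun i => i.out.1
  have hA : ∀ i, CNOdd.IsHall (A i) := fun i => i.out.2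
  have hAtop : ∀ i, A i ≠ ⊤ := fun i he => by
    obtain ⟨p, -, P, z, -, hz1, -, hz⟩ := hA i
    exact hab z hz1 (hz ▸ he)
  have huniq : ∀ (B C : Subgroup G), CNOdd.IsHall B → CNOdd.IsHall C → ∀ g ∈ B, g ∈ C → g ≠ 1 →
      B = C := by
    intro B C hB hC g hgB hgC hg
    obtain ⟨D, -, -, -, hD⟩ := CNOdd.exists_hall h hTI hg
    rw [hD B hB hgB, hD C hC hgC]
  have hnorm : ∀ i, ∀ g a : G, a ≠ 1 → a ∈ A i → g * a * g⁻¹ ∈ A i →
      g ∈ Subgroup.normalizer (A i : Set G) := by
    intro i g a ha haA hga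
    have h3 := huniq _ _ ((hA i).conj g) (hA i) _ (Subgroup.mem_map_of_mem _ haA) hga
      (fun e => ha (conj_eq_one_iff.mp e))
    refine Subgroup.mem_normalizer_iff.mpr fun y => ⟨fun hy => ?_, fun hy => ?_⟩
    · exact h3.le (Subgroup.mem_map_of_mem _ hy)
    · obtain ⟨z, hz, hzy⟩ := h3.ge hy
      rw [MulEquiv.coe_toMonoidHom, MulAut.conj_apply] at hzy
      rwa [← mul_left_cancel (mul_right_cancel hzy)]
  have hfrobC : ∀ i, ∀ a ∈ A i, a ≠ 1 → Subgroup.centralizer ({a} : Set G) ≤ A i := by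
    intro i a ha ha1
    obtain ⟨D, -, -, hle, hD⟩ := CNOdd.exists_hall h hTI ha1
    exact hD (A i) (hA i) ha ▸ hle
  have hlt : ∀ i, A i < Subgroup.normalizer (A i : Set G) := by
    intro i
    refine lt_of_le_of_ne Subgroup.le_normalizer fun he => ?_
    have hF : Cfsg.IsFrobeniusComplement (A i) := by
      refine ⟨(hA i).ne_bot, hAtop i, fun g hg => (Subgroup.eq_bot_iff_forall _).mpr ?_⟩
      rintro y ⟨hy, hy'⟩
      by_contra hy1
      have h1 := Solv.mem_conj_smul.mp hy'
      refine hg ?_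
      rw [he]
      refine hnorm i g (g⁻¹ * y * g) (fun e => hy1 ?_) h1 (by simpa [mul_assoc] using hy)
      calc y = g * (g⁻¹ * y * g) * g⁻¹ := by group
        _ = 1 := by rw [e]; group
    obtain ⟨K, hK, -, hc⟩ := Solv.exists_frobeniusKernel hF
    by_cases hK1 : K = ⊥
    · exact hAtop i (Subgroup.isComplement'_bot_left.mp (hK1 ▸ hc))
    · exact (hA i).ne_bot (Subgroup.isComplement'_top_left.mp (hsimple K hK hK1 ▸ hc))
  have hTI' : ∀ i, Cfsg.IsTISubset (A i : Set G) := by
    intro i g hg y hy hgy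
    by_contra hy1
    exact hg (hnorm i g y hy1 hy hgy)
  have hcover : ∀ g : G, g ≠ 1 → ∃ i, ∃ y : G, y * g * y⁻¹ ∈ A i := by
    intro g hg
    obtain ⟨B, hB, hgB, -, -⟩ := CNOdd.exists_hall h hTI hg
    let t : T := ⟨B, hB⟩
    obtain ⟨k, hk⟩ : s.r t (Quotient.mk s t).out := Setoid.symm (Quotient.mk_out (s := s) t)
    refine ⟨Quotient.mk s t, k, ?_⟩
    show k * g * k⁻¹ ∈ (Quotient.mk s t).out.1
    rw [hk]
    exact ⟨g, hgB, rfl⟩
  have hsyl : ∀ i, ∀ (p : ℕ) [Fact p.Prime], p ∣ Nat.card (A i) →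
      ∃ P : Sylow p G, ∃ z ∈ (P : Subgroup G), z ≠ 1 ∧ z ∈ A i := by
    intro i p hp hd
    obtain ⟨a, ha⟩ := exists_prime_orderOf_dvd_card' p hd
    have ha' : orderOf (a : G) = p ^ 1 := by rw [Subgroup.orderOf_coe, ha, pow_one]
    have ha1 : (a : G) ≠ 1 := fun e => hp.out.one_lt.ne' (by
      rw [← ha, ← Subgroup.orderOf_coe, e, orderOf_one])
    obtain ⟨P, haP⟩ := CNOdd.exists_sylow_mem ha'
    obtain ⟨z, hzP, hz1, hzc⟩ := CNOdd.exists_center P fun e => ha1 (by
      rw [e, Subgroup.mem_bot] at haP; exact haP)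
    refine ⟨P, z, hzP, hz1, ?_⟩
    rw [(hA i).eq_of_mem h hTI P a.2 haP ha1 hzP hz1 hzc]
    exact CNOdd.mem_cen.mpr (Commute.refl z)
  have hcop : ∀ i j, i ≠ j → Nat.Coprime (Nat.card (A i)) (Nat.card (A j)) := by
    intro i j hij
    refine Nat.coprime_of_dvd fun p hp hpi hpj => hij ?_
    have := Fact.mk hp
    obtain ⟨P, z, hzP, hz1, hzA⟩ := hsyl i p hpi
    obtain ⟨Q, w, hwQ, hw1, hwA⟩ := hsyl j p hpj
    obtain ⟨g, hg⟩ := MulAction.exists_smul_eq G P Q
    have hzQ : g * z * g⁻¹ ∈ (Q : Subgroup G) := by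
      rw [← hg]
      exact ⟨z, hzP, rfl⟩
    obtain ⟨z', hz'Q, hz'1, hz'c⟩ := CNOdd.exists_center Q fun e => hw1 (by
      rw [e, Subgroup.mem_bot] at hwQ; exact hwQ)
    have h1 := (hA j).eq_of_mem h hTI Q hwA hwQ hw1 hz'Q hz'1 hz'c
    have h2 := ((hA i).conj g).eq_of_mem h hTI Q (Subgroup.mem_map_of_mem _ hzA) hzQ
      (fun e => hz1 (conj_eq_one_iff.mp e)) hz'Q hz'1 hz'c
    rw [← i.out_eq, ← j.out_eq]
    exact Quotient.sound ⟨g, h1.trans h2.symm⟩
  have hι : 2 ≤ Fintype.card ι := by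
    by_contra hlt2
    have hcount := Cfsg.Agent.S1527.result A hcop hTI' hcover
    obtain ⟨g, hg⟩ := exists_ne (1 : G)
    obtain ⟨i, -⟩ := hcover g hg
    have hsub1 : ∀ j, j = i := fun j => Fintype.card_le_one_iff.mp (by omega) j i
    rw [Finset.sum_eq_single i (fun j _ hj => absurd (hsub1 j) hj)
      (fun hh => absurd (Finset.mem_univ i) hh)] at hcount
    have hmul := Subgroup.index_mul_card (Subgroup.normalizer (A i : Set G))
    have hle : Nat.card (A i) < Nat.card (Subgroup.normalizer (A i : Set G)) :=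
      lt_of_le_of_ne (Subgroup.card_le_of_le (hlt i).le)
        fun e => (hlt i).ne (Subgroup.eq_of_le_of_card_ge (hlt i).le e.ge)
    have hne1 : 1 < (Subgroup.normalizer (A i : Set G)).index :=
      Subgroup.one_lt_index_of_ne_top fun e => hAtop i
        (hsimple _ (Subgroup.normalizer_eq_top_iff.mp e) (hA i).ne_bot)
    have hpos : 0 < Nat.card (A i) := Nat.card_pos
    have hgpos : 0 < Nat.card G := Nat.card_pos
    set N := Nat.card (Subgroup.normalizer (A i : Set G))
    set I := (Subgroup.normalizer (A i : Set G)).index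
    have h5 : I * (Nat.card (A i) - 1) + 2 * I ≤ I * N := by
      rw [mul_comm 2 I, ← Nat.mul_add]
      exact Nat.mul_le_mul_left _ (by omega)
    omega
  exact Cfsg.Agent.S1526.result hodd hι (fun i => Subgroup.normalizer (A i : Set G)) A hlt
    (fun i => (hA i).ne_bot)
    (fun i y hy z hz => (Subgroup.mem_normalizer_iff.mp hy z).mp hz)
    (fun i z hz hz1 w hw => hfrobC i z hz hz1 (Subgroup.mem_inf.mp hw).2)
    hcop (fun i => ⟨hTI' i, rfl⟩) hcover


/-- The CN-Theorem for odd order: a finite group of odd order in which every non-identity element has a nilpotent centralizer (a CN-group) is solvable. -/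
theorem result {G : Type*} [Group G] [Finite G] (hodd : Odd (Nat.card G)) (hCN : Cfsg.IsCNGroup G) : Group.IsSolvable G := by
  exact solvable_aux (Nat.card G) G le_rfl hodd hCN

end Cfsg.Agent.S0183
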