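import Cfsg.Statements.S0184
import Mathlib
import Cfsg.Agent.Lib.Characters.Integrality
import Cfsg.Agent.Lib.Transfer.PGroupNormal

set_option autoImplicit false
open Cfsg Cfsg.Lib.Characters
open scoped ComplexConjugate

namespace Cfsg.Agent.S0184

theorem exists_faithful {G : Type*} [Group G] [Finite G] (p : ℕ) [Fact p.Prime] (hG : IsPGroup p G)
    (hc : IsCyclic (Subgroup.center G)) :
    ∃ χ : G → ℂ, IsIrrCharacter G χ ∧ ∀ x : G, χ x = χ 1 → x = 1 := by
  rcases subsingleton_or_nontrivial G with h | h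
  · exact ⟨fun _ => 1, isIrrCharacter_one, fun x _ => Subsingleton.elim _ _⟩
  haveI := hG.center_nontrivial
  obtain ⟨k, hk⟩ := IsPGroup.iff_card.mp (hG.to_subgroup (Subgroup.center G))
  have hpd : p ∣ Nat.card (Subgroup.center G) := by
    rw [hk]
    refine dvd_pow_self p fun e => ?_
    rw [e, pow_zero] at hk
    exact (Finite.one_lt_card (α := Subgroup.center G)).ne' hk
  obtain ⟨z, hz⟩ := exists_prime_orderOf_dvd_card' p hpd
  have hz' : orderOf (z : G) = p := by rw [Subgroup.orderOf_coe, hz]
  have hz1 : ¬ IsConj (z : G) 1 := fun e => by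
    rw [isConj_one_left] at e
    rw [e, orderOf_one] at hz'
    exact (Fact.out : p.Prime).one_lt.ne hz'
  rw [isConj_iff_forall_irr] at hz1
  push Not at hz1
  obtain ⟨χ, hχ⟩ := hz1
  refine ⟨χ, χ.2, fun x hx => by_contra fun hx1 => hχ ?_⟩
  haveI := charKer_normal χ.2.isCharacter
  haveI : Nontrivial (charKer χ.2.isCharacter) :=
    ⟨⟨⟨x, hx⟩, 1, fun e => hx1 (congrArg Subtype.val e)⟩⟩
  have hne : charKer χ.2.isCharacter ⊓ Subgroup.center G ≠ ⊥ :=
    Cfsg.Lib.Transfer.inf_center_ne_bot hG (charKer χ.2.isCharacter)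
      ((Subgroup.nontrivial_iff_ne_bot _).mp inferInstance)
  haveI := (Subgroup.nontrivial_iff_ne_bot _).mpr hne
  obtain ⟨y, hy⟩ := exists_ne (1 : (charKer χ.2.isCharacter ⊓ Subgroup.center G : Subgroup G))
  obtain ⟨j, hj⟩ := (IsPGroup.iff_orderOf.mp hG) (y : G)
  have hj0 : j ≠ 0 := fun e => hy (Subtype.ext (orderOf_eq_one_iff.mp (by rw [hj, e, pow_zero])))
  obtain ⟨i, rfl⟩ : ∃ i, j = i + 1 := ⟨j - 1, by omega⟩
  let w : G := (y : G) ^ p ^ i
  have hw : orderOf w = p := by
    rw [orderOf_pow_of_dvd (pow_ne_zero _ (Fact.out : p.Prime).ne_zero) (hj ▸ pow_dvd_pow p (Nat.le_succ i)), hj,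
      pow_succ, Nat.mul_div_cancel_left _ (pow_pos (Fact.out : p.Prime).pos i)]
  let w' : Subgroup.center G := ⟨w, Subgroup.pow_mem _ y.2.2 _⟩
  haveI := hc
  have he : Subgroup.zpowers z = Subgroup.zpowers w' := by
    refine Subgroup.eq_of_le_of_card_ge ?_ ?_
    · intro a ha
      have h1 : a ^ p = 1 := by
        obtain ⟨t, rfl⟩ := Subgroup.mem_zpowers_iff.mp ha
        rw [← zpow_natCast, ← zpow_mul, mul_comm, zpow_mul, zpow_natCast, ← hz, pow_orderOf_eq_one, one_zpow]
      classical
      haveI := Fintype.ofFinite (Subgroup.center G)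
      have hle := IsCyclic.card_pow_eq_one_le (α := Subgroup.center G) (Fact.out : p.Prime).pos
      have hw'p : orderOf w' = p := by rw [← Subgroup.orderOf_coe]; exact hw
      by_contra hna
      have hsub : insert a ((Finset.univ : Finset (Subgroup.center G)).filter (· ∈ Subgroup.zpowers w')) ⊆
          (Finset.univ : Finset (Subgroup.center G)).filter (fun b => b ^ p = 1) := by
        intro b hb
        rcases Finset.mem_insert.mp hb with rfl | hb
        · exact Finset.mem_filter.mpr ⟨Finset.mem_univ _, h1⟩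
        · obtain ⟨t, rfl⟩ := Subgroup.mem_zpowers_iff.mp (Finset.mem_filter.mp hb).2
          refine Finset.mem_filter.mpr ⟨Finset.mem_univ _, ?_⟩
          rw [← zpow_natCast, ← zpow_mul, mul_comm, zpow_mul, zpow_natCast, ← hw'p, pow_orderOf_eq_one, one_zpow]
      have h2 := Finset.card_le_card hsub
      rw [Finset.card_insert_of_notMem (by simp [hna])] at h2
      have h3 : ((Finset.univ : Finset (Subgroup.center G)).filter (· ∈ Subgroup.zpowers w')).card = p := by
        rw [← Fintype.card_subtype, ← Nat.card_eq_fintype_card, ← hw'p]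
        exact Nat.card_zpowers w'
      omega
    · rw [Nat.card_zpowers, Nat.card_zpowers, hz, ← Subgroup.orderOf_coe]
      exact hw.le
  obtain ⟨t, ht⟩ := Subgroup.mem_zpowers_iff.mp (he ▸ Subgroup.mem_zpowers z)
  have hzk : (z : G) ∈ charKer χ.2.isCharacter := by
    rw [← ht]
    exact Subgroup.zpow_mem _ (Subgroup.pow_mem _ y.2.1 _) t
  exact hzk


/-- A finite p-group admits a faithful irreducible complex representation if and only if its centre is cyclic. -/
theorem result {G : Type*} [Group G] [Finite G] (p : ℕ) [Fact p.Prime] (hG : IsPGroup p G) : (∃ (n : ℕ) (ρ : Representation ℂ G (Fin n → ℂ)), ρ.IsIrreducible ∧ Function.Injective ρ) ↔ IsCyclic (Subgroup.center G) := by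
  constructor
  · rintro ⟨n, ρ, hρ, hinj⟩
    haveI := hρ
    haveI := Fintype.ofFinite G
    have hsc : ∀ z : Subgroup.center G, ∃ c : ℂ, ρ z = c • LinearMap.id := fun z =>
      schur_scalar ρ (ρ z) fun x => by
        rw [← map_mul, ← map_mul, Subgroup.mem_center_iff.mp z.2 x]
    choose c hc using hsc
    haveI : Nontrivial (Fin n → ℂ) := by
      by_contra h
      rw [not_nontrivial_iff_subsingleton] at h
      exact isIrrCharacter_character ρ |>.one_ne_zero (by simp [Representation.character, Subsingleton.elim (ρ 1) 0])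
    have hinjc : Function.Injective (fun a : ℂ => a • (LinearMap.id : (Fin n → ℂ) →ₗ[ℂ] Fin n → ℂ)) := by
      intro a b h
      obtain ⟨v, hv⟩ := exists_ne (0 : Fin n → ℂ)
      have := LinearMap.congr_fun h v
      simp only [LinearMap.smul_apply, LinearMap.id_coe, id_eq] at this
      exact smul_left_injective ℂ hv this
    let f : Subgroup.center G →* ℂ :=
      { toFun := c
        map_one' := hinjc (by
          show c 1 • _ = (1 : ℂ) • _
          rw [← hc, Subgroup.coe_one, map_one, one_smul]; rfl)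
        map_mul' := fun a b => hinjc (by
          show c (a * b) • _ = (c a * c b) • _
          rw [← hc, Subgroup.coe_mul, map_mul, hc, hc]
          refine LinearMap.ext fun v => ?_
          show c a • (c b • v) = (c a * c b) • v
          exact smul_smul _ _ _) }
    refine isCyclic_of_subgroup_isDomain f fun a b h => ?_
    exact Subtype.ext (hinj (by rw [hc a, hc b]; exact congrArg (· • LinearMap.id) h))
  · intro hc
    obtain ⟨χ, ⟨n, ρ, hρ, rfl⟩, hf⟩ := exists_faithful p hG hc
    refine ⟨n, ρ, hρ, fun a b h => (inv_mul_eq_one.mp (hf _ ?_))⟩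
    rw [char_eq_one_iff, map_mul, ← h, ← map_mul, inv_mul_cancel, map_one]

end Cfsg.Agent.S0184
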