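import Cfsg.Statements.S0185
import Mathlib
import Cfsg.Agent.Lib.Characters.Degree
-- import your own Cfsg.Agent.* helpers here

set_option autoImplicit false
open Cfsg

namespace Cfsg.Agent.S0185

/-- If a finite group has a faithful complex representation of degree less than the smallest prime dividing its order, the group is abelian. -/
theorem result {G : Type*} [Group G] [Finite G] {V : Type*} [AddCommGroup V] [Module ℂ V] [FiniteDimensional ℂ V] (ρ : Representation ℂ G V) (hfaithful : Function.Injective ρ) (hdeg : ∀ p : ℕ, p.Prime → p ∣ Nat.card G → Module.finrank ℂ V < p) (a b : G) : a * b = b * a := by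
  classical
  haveI := Fintype.ofFinite G
  have hρc := Cfsg.Lib.Characters.isCharacter_character ρ
  obtain ⟨m, hm⟩ := Cfsg.Lib.Characters.exists_decomposition hρc
  have hlin : ∀ χ : Cfsg.IrrCharacter G, m χ ≠ 0 → (χ : G → ℂ) 1 = 1 := by
    intro χ hχ
    obtain ⟨e, he0, he⟩ := χ.2.exists_degree_pos
    have hne : Cfsg.classInner ρ.character (χ : G → ℂ) ≠ 0 := by
      rw [hm, Cfsg.Lib.Characters.classInner_sum_irr]; simpa using hχ
    have hle := (Cfsg.Lib.Characters.constituent_degree hρc χ.2 hne (by simp : ρ.character 1 = (Module.finrank ℂ V : ℂ)) he).1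
    by_contra h1
    have he1 : e ≠ 1 := fun h => h1 (by rw [he, h]; simp)
    have hp := Nat.minFac_prime he1
    have := hdeg _ hp ((Nat.minFac_dvd e).trans (Cfsg.Lib.Characters.degree_dvd_card χ.2 he))
    have := Nat.minFac_le he0
    omega
  have hval : ρ.character (a * b * (b * a)⁻¹) = ρ.character 1 := by
    rw [hm, Finset.sum_apply, Finset.sum_apply]
    refine Finset.sum_congr rfl fun χ _ => ?_
    by_cases hχ : m χ = 0
    · simp [hχ]
    obtain ⟨lam, hlam⟩ := Cfsg.Lib.Characters.exists_hom_of_degree_one χ.2.isCharacter (hlin χ hχ)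
    simp only [Pi.smul_apply, hlam, map_mul, map_inv, map_one, mul_comm (lam b) (lam a), mul_inv_cancel]
  rw [← mul_inv_eq_one]
  refine hfaithful ?_
  rw [map_one]
  refine (Cfsg.Lib.Characters.character_eq_degree_iff ρ _).mp ?_
  rw [hval]; simp

end Cfsg.Agent.S0185
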