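import Cfsg.Statements.S0186
import Mathlib
import Cfsg.Agent.Lib.Characters.Burnside
import Cfsg.Agent.Lib.Characters.Correspondence

set_option autoImplicit false
open Cfsg Cfsg.Lib.Characters
open scoped ComplexConjugate

namespace Cfsg.Agent.S0186


/-- Let G be a finite simple group of order n and p a prime dividing n. If G has more than n / p^2 conjugacy classes, then every Sylow p-subgroup of G is abelian. -/
theorem result {G : Type*} [Group G] [Finite G] [IsSimpleGroup G] (p : ℕ) [Fact p.Prime] (hp : p ∣ Nat.card G) (hmany : Nat.card G < p ^ 2 * Nat.card (ConjClasses G)) (P : Sylow p G) (a b : G) (ha : a ∈ P) (hb : b ∈ P) : a * b = b * a := by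
  classical
  haveI := Fintype.ofFinite G
  by_cases hp2 : p ^ 2 ∣ Nat.card G
  · -- an irreducible character of small degree
    obtain ⟨χ, hχ, d, hd, hdp⟩ : ∃ χ : G → ℂ, (IsIrrCharacter G χ ∧ χ ≠ fun _ => 1) ∧
        ∃ d : ℕ, χ 1 = d ∧ d < p := by
      by_contra hcon
      push Not at hcon
      choose d hd0 hd using fun χ : IrrCharacter G => χ.2.exists_degree_pos
      have hsq := sum_sq_degree (G := G)
      simp only [hd] at hsq
      have hsq' : ∑ χ : IrrCharacter G, d χ ^ 2 = Nat.card G := by exact_mod_cast hsq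
      let one : IrrCharacter G := ⟨fun _ => 1, isIrrCharacter_one⟩
      have hd1 : d one = 1 := by
        have h : (1 : ℂ) = d one := hd one
        exact_mod_cast h.symm
      have hlow : ∀ χ ∈ Finset.univ.erase one, p ^ 2 ≤ d χ ^ 2 := fun χ hχ =>
        Nat.pow_le_pow_left (hcon χ ⟨χ.2, fun e => Finset.ne_of_mem_erase hχ (Subtype.ext e)⟩ _ (hd χ)) 2
      have h1 := Finset.card_nsmul_le_sum _ _ _ hlow
      rw [Finset.card_erase_of_mem (Finset.mem_univ _), Finset.card_univ, ← Nat.card_eq_fintype_card,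
        card_irr_eq_card_conjClasses, smul_eq_mul] at h1
      rw [← Finset.add_sum_erase _ _ (Finset.mem_univ one), hd1, one_pow] at hsq'
      obtain ⟨m, hm⟩ := hp2
      rw [hm] at hmany hsq'
      have h2 : m + 1 ≤ Nat.card (ConjClasses G) := Nat.lt_of_mul_lt_mul_left hmany
      have h3 : m * p ^ 2 ≤ (Nat.card (ConjClasses G) - 1) * p ^ 2 := Nat.mul_le_mul_right _ (by omega)
      rw [Nat.mul_comm (p ^ 2) m] at hsq'
      omega
    -- its restriction to `P` is a sum of linear characters
    obtain ⟨m, hm⟩ := exists_decomposition (isCharacter_restrict hχ.1.isCharacter (P : Subgroup G))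
    have hlin : ∀ ψ : IrrCharacter (P : Subgroup G), m ψ ≠ 0 →
        ψ.1 1 = 1 := by
      intro ψ hψ
      haveI := Fintype.ofFinite (P : Subgroup G)
      obtain ⟨e, he0, he⟩ := ψ.2.exists_degree_pos
      have hne : classInner (fun x : (P : Subgroup G) => χ x) ψ.1 ≠ 0 := by
        rw [hm, classInner_sum_irr]
        exact Nat.cast_ne_zero.mpr hψ
      obtain ⟨hle, -⟩ := constituent_degree (isCharacter_restrict hχ.1.isCharacter (P : Subgroup G))
        ψ.2 hne (d := d) (d' := e) hd he
      obtain ⟨k, hk⟩ := IsPGroup.iff_card.mp P.isPGroup'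
      obtain ⟨i, -, rfl⟩ := (Nat.dvd_prime_pow (Fact.out : p.Prime)).mp (hk ▸ degree_dvd_card ψ.2 he)
      rcases i with _ | i
      · simpa using he
      · exfalso
        have : p ≤ p ^ (i + 1) := Nat.le_self_pow (Nat.succ_ne_zero i) p
        omega
    have hval : χ (a * b * a⁻¹ * b⁻¹) = χ 1 := by
      have h1 := congr_fun hm (⟨a, ha⟩ * ⟨b, hb⟩ * ⟨a, ha⟩⁻¹ * ⟨b, hb⟩⁻¹)
      have h2 := congr_fun hm 1
      simp only [Finset.sum_apply, Pi.smul_apply, Subgroup.coe_mul, Subgroup.coe_inv, Subgroup.coe_one] at h1 h2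
      rw [h1, h2]
      refine Finset.sum_congr rfl fun ψ _ => ?_
      by_cases hψ : m ψ = 0
      · simp [hψ]
      obtain ⟨lam, hlam⟩ := exists_hom_of_degree_one ψ.2.isCharacter (hlin ψ hψ)
      congr 1
      rw [hlam]
      simp only [map_mul, map_inv, map_one]
      rw [mul_comm (lam ⟨a, ha⟩) (lam ⟨b, hb⟩)]
      simp
    have hcomm := faithful_of_simple hχ.1 hχ.2 _ hval
    calc a * b = a * b * a⁻¹ * b⁻¹ * (b * a) := by group
      _ = b * a := by rw [hcomm, one_mul]
  · obtain ⟨k, hk⟩ := IsPGroup.iff_card.mp P.isPGroup'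
    have hk2 : k ≤ 1 := by
      by_contra hlt
      exact hp2 ((pow_dvd_pow p (by omega : 2 ≤ k)).trans (hk ▸ Subgroup.card_subgroup_dvd_card _))
    haveI : IsCyclic (P : Subgroup G) := by
      rcases Nat.le_one_iff_eq_zero_or_eq_one.mp hk2 with rfl | rfl
      · haveI : Subsingleton (P : Subgroup G) := (Nat.card_eq_one_iff_unique.mp (by rw [hk, pow_zero])).1
        exact isCyclic_of_subsingleton
      · exact isCyclic_of_prime_card (p := p) (by rw [hk, pow_one])
    exact congrArg Subtype.val (mul_comm' (⟨a, ha⟩ : (P : Subgroup G)) ⟨b, hb⟩)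

end Cfsg.Agent.S0186
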