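import Cfsg.Statements.S0187
import Mathlib
import Cfsg.Agent.Lib.Characters.Induction
-- import your own Cfsg.Agent.* helpers here

set_option autoImplicit false
open Cfsg

namespace Cfsg.Agent.S0187

/-- A finite group is commutative if and only if every irreducible complex character has degree 1. -/
theorem result {G : Type*} [Group G] [Finite G] : (∀ a b : G, a * b = b * a) ↔ ∀ χ : Cfsg.IrrCharacter G, (χ : G → ℂ) 1 = 1 := by
  constructor
  · intro h χ
    haveI : IsMulCommutative G := ⟨⟨h⟩⟩
    exact Cfsg.Lib.Characters.degree_one_of_isMulCommutative χ.2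
  · intro h a b
    have key : ∀ χ : Cfsg.IrrCharacter G, (χ : G → ℂ) (a * b * a⁻¹ * b⁻¹) = (χ : G → ℂ) 1 := by
      intro χ
      obtain ⟨lam, hlam⟩ := Cfsg.Lib.Characters.exists_hom_of_degree_one χ.2.isCharacter (h χ)
      simp [hlam, mul_comm]
    have h1 := isConj_one_left.mp ((Cfsg.Lib.Characters.isConj_iff_forall_irr _ _).mpr key)
    calc a * b = a * b * a⁻¹ * b⁻¹ * (b * a) := by group
      _ = b * a := by rw [h1, one_mul]

end Cfsg.Agent.S0187
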