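import Cfsg.Statements.S0188
import Mathlib
import Cfsg.Agent.Lib.Characters.Integrality

set_option autoImplicit false
open Cfsg
open scoped ComplexConjugate

namespace Cfsg.Agent.S0188

open scoped ComplexConjugate in
theorem product_irr {G H : Type*} [Group G] [Group H] [Fintype G] [Fintype H] {φ : G → ℂ}
    {ψ : H → ℂ} (hφ : IsIrrCharacter G φ) (hψ : IsIrrCharacter H ψ) :
    IsIrrCharacter (G × H) fun x => φ x.1 * ψ x.2 := by
  refine Cfsg.Lib.Characters.isIrrCharacter_of_classInner_eq_one
    (Cfsg.Lib.Characters.isCharacter_mul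
      (Cfsg.Lib.Characters.isCharacter_comp hφ.isCharacter (MonoidHom.fst G H))
      (Cfsg.Lib.Characters.isCharacter_comp hψ.isCharacter (MonoidHom.snd G H))) ?_
  have h1 := Cfsg.Lib.Characters.classInner_irr_self hφ
  have h2 := Cfsg.Lib.Characters.classInner_irr_self hψ
  rw [classInner] at h1 h2 ⊢
  rw [Nat.card_prod, Nat.cast_mul, mul_inv, Fintype.sum_prod_type]
  calc (Nat.card G : ℂ)⁻¹ * (Nat.card H : ℂ)⁻¹ *
        ∑ x : G, ∑ y : H, φ x * ψ y * conj (φ x * ψ y)
      = ((Nat.card G : ℂ)⁻¹ * ∑ x : G, φ x * conj (φ x)) *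
          ((Nat.card H : ℂ)⁻¹ * ∑ y : H, ψ y * conj (ψ y)) := by
        rw [mul_mul_mul_comm, Finset.sum_mul_sum]
        congr 1
        refine Finset.sum_congr rfl fun x _ => Finset.sum_congr rfl fun y _ => ?_
        rw [map_mul]; ring
    _ = 1 := by rw [h1, h2, one_mul]


/-- The irreducible complex characters of G × H are precisely the functions (g, h) ↦ φ g * ψ h with φ, ψ irreducible characters of G and H. -/
theorem result {G : Type*} [Group G] [Finite G] {H : Type*} [Group H] [Finite H] (θ : G × H → ℂ) : Cfsg.IsIrrCharacter (G × H) θ ↔ ∃ (φ : G → ℂ) (ψ : H → ℂ), Cfsg.IsIrrCharacter G φ ∧ Cfsg.IsIrrCharacter H ψ ∧ θ = fun x => φ x.1 * ψ x.2 := by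
  classical
  haveI := Fintype.ofFinite G
  haveI := Fintype.ofFinite H
  refine ⟨fun hθ => ?_, ?_⟩
  · by_contra hcon
    push Not at hcon
    have hθc := hθ.isClassFunction
    have hzero : θ = 0 := by
      have hinner : ∀ (φ : IrrCharacter G) (ψ : IrrCharacter H),
          ∑ y : H, (∑ x : G, θ (x, y) * conj ((φ : G → ℂ) x)) * conj ((ψ : H → ℂ) y) = 0 := by
        intro φ ψ
        have h := Cfsg.Lib.Characters.classInner_irr_ne hθ (product_irr φ.2 ψ.2)
          (fun e => hcon φ ψ φ.2 ψ.2 e)
        rw [classInner, mul_eq_zero, inv_eq_zero, Nat.cast_eq_zero] at h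
        have h' := h.resolve_left Nat.card_pos.ne'
        rw [Fintype.sum_prod_type, Finset.sum_comm] at h'
        rw [← h']
        refine Finset.sum_congr rfl fun y _ => ?_
        rw [Finset.sum_mul]
        refine Finset.sum_congr rfl fun x _ => ?_
        rw [map_mul]; ring
      have hrow : ∀ (φ : IrrCharacter G) (y : H), ∑ x : G, θ (x, y) * conj ((φ : G → ℂ) x) = 0 := by
        intro φ
        have := Cfsg.Lib.Characters.eq_zero_of_forall_classInner
          (f := fun y : H => ∑ x : G, θ (x, y) * conj ((φ : G → ℂ) x))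
          (fun y k => Finset.sum_congr rfl fun x _ => by
            have h := hθc (x, y) (1, k)
            rw [show ((1 : G), k) * (x, y) * ((1 : G), k)⁻¹ = (x, k * y * k⁻¹) by simp] at h
            rw [h])
          (fun ψ => by rw [classInner, hinner φ ψ, mul_zero])
        exact fun y => congr_fun this y
      funext p
      obtain ⟨x, y⟩ := p
      have := Cfsg.Lib.Characters.eq_zero_of_forall_classInner (f := fun x : G => θ (x, y))
        (fun x k => by
          have h := hθc (x, y) (k, 1)
          rwa [show (k, (1 : H)) * (x, y) * (k, (1 : H))⁻¹ = (k * x * k⁻¹, y) by simp] at h)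
        (fun φ => by rw [classInner, hrow φ y, mul_zero])
      exact congr_fun this x
    exact hθ.one_ne_zero (by rw [hzero]; rfl)
  · rintro ⟨φ, ψ, hφ, hψ, rfl⟩
    exact product_irr hφ hψ

end Cfsg.Agent.S0188
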