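import Cfsg.Statements.S0190
import Mathlib
import Cfsg.Agent.Lib.Characters.Induction
-- import your own Cfsg.Agent.* helpers here

set_option autoImplicit false
open Cfsg

namespace Cfsg.Agent.S0190

/-- For a transitive action of a finite group on X, the permutation character g ↦ (number of fixed points of g) is the function induced from the principal character of the stabilizer of any point. -/
theorem result {G : Type*} [Group G] [Fintype G] (X : Type*) [MulAction G X] [Finite X] [MulAction.IsPretransitive G X] (x : X) : (fun g : G => (Nat.card (MulAction.fixedBy X g) : ℂ)) = Cfsg.indFun (MulAction.stabilizer G x) (fun _ => 1) := by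
  classical
  funext g
  rw [Cfsg.indFun]
  have key : ∀ y : G, Cfsg.extendByZero (MulAction.stabilizer G x) (fun _ => (1 : ℂ)) (y⁻¹ * g * y) = if g • (y • x) = y • x then 1 else 0 := by
    intro y
    by_cases hy : y⁻¹ * g * y ∈ MulAction.stabilizer G x
    · rw [Cfsg.Lib.Characters.extendByZero_mem _ hy, if_pos]
      rw [MulAction.mem_stabilizer_iff, mul_smul, mul_smul, inv_smul_eq_iff] at hy
      exact hy
    · rw [Cfsg.Lib.Characters.extendByZero_not_mem _ hy, if_neg]
      intro h
      exact hy (by rw [MulAction.mem_stabilizer_iff, mul_smul, mul_smul, inv_smul_eq_iff]; exact h)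
  rw [Finset.sum_congr rfl fun y _ => key y, Finset.sum_boole, inv_mul_eq_div, eq_div_iff (Nat.cast_ne_zero.mpr Nat.card_pos.ne'), ← Nat.cast_mul]
  congr 1
  rw [mul_comm, ← Fintype.card_subtype, ← Nat.card_eq_fintype_card, ← Nat.card_prod]
  refine Nat.card_congr ?_
  have hsur : ∀ z : MulAction.fixedBy X g, ∃ y : G, y • x = z := fun z => MulAction.exists_smul_eq G x z
  choose f hf using hsur
  exact {
    toFun := fun p => ⟨f p.2 * p.1, by
      have : g • (p.2 : X) = p.2 := p.2.2
      simpa [mul_smul, MulAction.mem_stabilizer_iff.mp p.1.2, hf] using this⟩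
    invFun := fun y => (⟨(f ⟨y.1 • x, y.2⟩)⁻¹ * y.1, by
      rw [MulAction.mem_stabilizer_iff, mul_smul, inv_smul_eq_iff, hf]⟩, ⟨y.1 • x, y.2⟩)
    left_inv := fun p => by
      have hp : (⟨(f p.2 * (p.1 : G)) • x, by simpa [mul_smul, MulAction.mem_stabilizer_iff.mp p.1.2, hf] using p.2.2⟩ : MulAction.fixedBy X g) = p.2 :=
        Subtype.ext (by simp [mul_smul, MulAction.mem_stabilizer_iff.mp p.1.2, hf])
      refine Prod.ext (Subtype.ext ?_) hp
      simp only [hp, inv_mul_cancel_left]
    right_inv := fun y => Subtype.ext (by simp) }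

end Cfsg.Agent.S0190
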