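import Cfsg.Statements.S0191
import Mathlib
import Cfsg.Agent.Lib.Characters.Galois

set_option autoImplicit false
open Cfsg

namespace Cfsg.Agent.S0191

open scoped IntermediateField in
open IntermediateField in
theorem one_le_norm_prod {G : Type*} [Group G] [Fintype G] [DecidableEq G] {χ : G → ℂ}
    (hχ : IsCharacter G χ) (h0 : ∀ g, χ g ≠ 0) :
    1 ≤ ‖∏ g ∈ Finset.univ.erase (1 : G), χ g‖ := by
  haveI : NeZero (Nat.card G) := ⟨Nat.card_pos.ne'⟩
  have hζ := Complex.isPrimitiveRoot_exp (Nat.card G) Nat.card_pos.ne'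
  choose z hz hφ using fun g : G => Cfsg.Lib.Characters.char_galois hζ hχ (g := g) pow_card_eq_one'
  have hcoe : ((∏ g ∈ Finset.univ.erase (1 : G), z g :) : ℂ) = ∏ g ∈ Finset.univ.erase (1 : G), χ g := by
    refine (map_prod (IntermediateField.val _) z _).trans ?_
    exact Finset.prod_congr rfl fun g _ => hz g
  obtain ⟨q, hq⟩ := Cfsg.Lib.Characters.rat_of_fixed hζ (∏ g ∈ Finset.univ.erase (1 : G), z g)
    fun φ => by
      obtain ⟨k, hk, hk'⟩ := Cfsg.Lib.Characters.galois_hom_gen hζ φ
      rw [map_prod, Finset.prod_congr rfl fun g _ => hφ g φ k hk', hcoe]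
      refine Finset.prod_equiv (powCoprime (Nat.Coprime.symm hk)) (fun g => ?_) (fun g _ => rfl)
      simp only [Finset.mem_erase, Finset.mem_univ, and_true, ne_eq]
      rw [← (powCoprime (G := G) (Nat.Coprime.symm hk)).injective.eq_iff, powCoprime_one]
  rw [hcoe] at hq
  have hint : IsIntegral ℤ (∏ g ∈ Finset.univ.erase (1 : G), χ g) :=
    IsIntegral.prod _ fun g _ => Cfsg.Lib.Characters.char_isIntegral hχ g
  rw [hq] at hint ⊢
  obtain ⟨m, hm⟩ := Cfsg.Lib.Characters.exists_int_of_isIntegral hint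
  rw [hm, Complex.norm_intCast]
  have hm0 : m ≠ 0 := fun e => by
    rw [← hq, e, Int.cast_zero, Finset.prod_eq_zero_iff] at hm
    obtain ⟨g, -, hg⟩ := hm
    exact h0 g hg
  exact_mod_cast Int.one_le_abs hm0


/-- An irreducible complex representation of a finite group of degree greater than 1 has a character that vanishes somewhere. -/
theorem result {G : Type*} [Group G] [Finite G] {V : Type*} [AddCommGroup V] [Module ℂ V] [FiniteDimensional ℂ V] (ρ : Representation ℂ G V) [ρ.IsIrreducible] (hdeg : 1 < Module.finrank ℂ V) : ∃ g : G, ρ.character g = 0 := by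
  classical
  haveI := Fintype.ofFinite G
  by_contra h0
  push Not at h0
  have hirr := Cfsg.Lib.Characters.isIrrCharacter_character ρ
  have hprod := one_le_norm_prod (Cfsg.Lib.Characters.isCharacter_character ρ) h0
  have hpos : ∀ g : G, 0 < ‖ρ.character g‖ := fun g => norm_pos_iff.mpr (h0 g)
  have hsq : ∑ g : G, ‖ρ.character g‖ ^ 2 = Nat.card G := by
    have h := Cfsg.Lib.Characters.classInner_irr_self hirr
    rw [classInner, inv_mul_eq_div, div_eq_one_iff_eq (Nat.cast_ne_zero.mpr Nat.card_pos.ne')] at h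
    have h' := congrArg Complex.re h
    rw [Complex.re_sum, Complex.natCast_re] at h'
    rw [← h']
    refine Finset.sum_congr rfl fun g _ => ?_
    rw [Complex.mul_conj, Complex.ofReal_re, Complex.normSq_eq_norm_sq]
  have hlog : 0 ≤ ∑ g ∈ Finset.univ.erase (1 : G), Real.log (‖ρ.character g‖ ^ 2) := by
    rw [← Real.log_prod (fun g _ => (pow_pos (hpos g) 2).ne'), Finset.prod_pow, ← norm_prod]
    exact Real.log_nonneg (one_le_pow₀ hprod)
  have hle : ∑ g ∈ Finset.univ.erase (1 : G), Real.log (‖ρ.character g‖ ^ 2) ≤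
      ∑ g ∈ Finset.univ.erase (1 : G), (‖ρ.character g‖ ^ 2 - 1) :=
    Finset.sum_le_sum fun g _ => Real.log_le_sub_one_of_pos (pow_pos (hpos g) 2)
  rw [← Finset.add_sum_erase _ _ (Finset.mem_univ (1 : G)), Representation.char_one,
    Complex.norm_natCast] at hsq
  rw [Finset.sum_sub_distrib, Finset.sum_const, Finset.card_erase_of_mem (Finset.mem_univ _),
    Finset.card_univ, ← Nat.card_eq_fintype_card, nsmul_one,
    Nat.cast_sub (Nat.one_le_iff_ne_zero.mpr Nat.card_pos.ne'), Nat.cast_one] at hle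
  have hd : (2 : ℝ) ≤ Module.finrank ℂ V := by exact_mod_cast hdeg
  nlinarith

end Cfsg.Agent.S0191
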