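import Cfsg.Statements.S0192
import Cfsg.Agent.Lib.Characters.Basic

set_option autoImplicit false
open Cfsg

namespace Cfsg.Agent.S0192

open Cfsg Cfsg.Lib.Characters
open scoped ComplexConjugate

theorem classInner_one_eq_finrank {G : Type*} [Group G] {n : ℕ}
    (ρ : Representation ℂ G (Fin n → ℂ)) (H : Subgroup G) [Fintype H] :
    classInner (fun x : H => ρ.character x) (fun _ => 1) =
      (Module.finrank ℂ (Representation.invariants (ρ.comp H.subtype)) : ℂ) := by
  have h := FDRep.average_char_eq_finrank_invariants (FDRep.of (ρ.comp H.subtype : Representation ℂ H _))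
  rw [classInner]
  refine Eq.trans ?_ h
  congr 1
  exact Finset.sum_congr rfl fun g _ => by simp [FDRep.character, Representation.character, FDRep.of_ρ]

/-- Brauer's generation criterion. Let G be a finite simple group, H₁ and H₂ subgroups, and χ a non-principal irreducible character. If the multiplicity of the principal character in χ restricted to H₁ ⊓ H₂ is less than the sum of the corresponding multiplicities for H₁ and H₂, then H₁ and H₂ do not generate G. -/
theorem result {G : Type*} [Group G] [Fintype G] [IsSimpleGroup G] (H₁ H₂ : Subgroup G) [Fintype H₁] [Fintype H₂] [Fintype ↥(H₁ ⊓ H₂)] (χ : G → ℂ) (hχ : Cfsg.IsIrrCharacter G χ) (hχ1 : χ ≠ fun _ => 1) (hlt : (Cfsg.classInner (fun x : ↥(H₁ ⊓ H₂) => χ x) (fun _ => 1)).re < (Cfsg.classInner (fun x : H₁ => χ x) (fun _ => 1)).re + (Cfsg.classInner (fun x : H₂ => χ x) (fun _ => 1)).re) : H₁ ⊔ H₂ ≠ ⊤ := by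
  intro htop
  obtain ⟨n, ρ, hρ, rfl⟩ := id hχ
  haveI := hρ
  set I : Subgroup G → Submodule ℂ (Fin n → ℂ) := fun H =>
    Representation.invariants (ρ.comp H.subtype) with hI
  rw [classInner_one_eq_finrank, classInner_one_eq_finrank, classInner_one_eq_finrank] at hlt
  simp only [Complex.natCast_re] at hlt
  have hlt' : Module.finrank ℂ (I (H₁ ⊓ H₂)) < Module.finrank ℂ (I H₁) + Module.finrank ℂ (I H₂) := by
    exact_mod_cast hlt
  have hmono : ∀ A B : Subgroup G, A ≤ B → I B ≤ I A := fun A B h v hv a => hv ⟨a, h a.2⟩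
  obtain ⟨v, hv, hv0⟩ : ∃ v, v ∈ I H₁ ⊓ I H₂ ∧ v ≠ 0 := by
    refine Submodule.exists_mem_ne_zero_of_ne_bot fun h => ?_
    have h1 := Submodule.finrank_sup_add_finrank_inf_eq (I H₁) (I H₂)
    rw [h, finrank_bot, add_zero] at h1
    have h2 := Submodule.finrank_mono
      (sup_le (hmono (H₁ ⊓ H₂) H₁ inf_le_left) (hmono (H₁ ⊓ H₂) H₂ inf_le_right))
    omega
  -- the vector is fixed by the whole group
  let F : Subgroup G :=
    { carrier := {g | ρ g v = v}
      one_mem' := by simp
      mul_mem' := fun {a b} ha hb => by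
        simp only [Set.mem_ofPred_eq] at *
        rw [map_mul, Module.End.mul_apply, hb, ha]
      inv_mem' := fun {a} ha => by
        simp only [Set.mem_ofPred_eq] at *
        conv_lhs => rw [← ha]
        rw [← Module.End.mul_apply, ← map_mul, inv_mul_cancel, map_one, Module.End.one_apply] }
  have hfix : ∀ g, ρ g v = v := fun g => by
    have hle : H₁ ⊔ H₂ ≤ F := sup_le (fun a ha => hv.1 ⟨a, ha⟩) (fun a ha => hv.2 ⟨a, ha⟩)
    exact hle (htop ▸ Subgroup.mem_top g)
  -- the line through it is the whole space
  let W : Subrepresentation ρ :=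
    { toSubmodule := ℂ ∙ v
      apply_mem_toSubmodule := fun g w hw => by
        obtain ⟨c, rfl⟩ := Submodule.mem_span_singleton.mp hw
        rw [map_smul, hfix]
        exact Submodule.smul_mem _ _ (Submodule.mem_span_singleton_self v) }
  rcases eq_bot_or_eq_top W with h | h
  · exact hv0 (by
      have : v ∈ W.toSubmodule := Submodule.mem_span_singleton_self v
      rw [h] at this
      exact (Submodule.mem_bot ℂ).mp this)
  · refine hχ1 (funext fun g => ?_)
    have hid : ρ g = LinearMap.id := by
      refine LinearMap.ext fun w => ?_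
      have : w ∈ W.toSubmodule := by rw [h]; trivial
      obtain ⟨c, rfl⟩ := Submodule.mem_span_singleton.mp this
      rw [map_smul, hfix, LinearMap.id_apply]
    have h1 : Module.finrank ℂ (ℂ ∙ v) = 1 := finrank_span_singleton hv0
    have h2 : (ℂ ∙ v) = ⊤ := congrArg Subrepresentation.toSubmodule h
    rw [h2, finrank_top] at h1
    rw [Representation.character, hid, LinearMap.trace_id, h1, Nat.cast_one]

end Cfsg.Agent.S0192
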