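import Cfsg.Statements.S0194
import Mathlib
import Cfsg.Agent.Lib.Characters.Permutation
-- import your own Cfsg.Agent.* helpers here

set_option autoImplicit false
open scoped ComplexConjugate
open Cfsg

namespace Cfsg.Agent.S0194

/-- Let G have odd order, H be a normal subgroup and θ a non-principal irreducible character of H. Then the function induced from θ is orthogonal to its complex conjugate. -/
theorem result {G : Type*} [Group G] [Fintype G] (hodd : Odd (Nat.card G)) (H : Subgroup G) [H.Normal] (θ : H → ℂ) (hθ : Cfsg.IsIrrCharacter H θ) (hθ1 : θ ≠ fun _ => 1) : Cfsg.classInner (fun g => conj (Cfsg.indFun H θ g)) (Cfsg.indFun H θ) = 0 := by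
  classical
  haveI := Fintype.ofFinite H
  have hconj : (fun g => conj (Cfsg.indFun H θ g)) = Cfsg.indFun H (fun h => conj (θ h)) := funext (Cfsg.Lib.Characters.conj_indFun H θ)
  rw [hconj, Cfsg.Lib.Characters.classInner_indFun_indFun (Cfsg.Lib.Characters.isIrrCharacter_conj hθ) hθ]
  have hempty : IsEmpty {g : G // Cfsg.Lib.Characters.conjFn H (fun h => conj (θ h)) g = θ} := by
    refine ⟨fun ⟨g, hg⟩ => ?_⟩
    have h2 : Cfsg.Lib.Characters.conjFn H θ g = fun h => conj (θ h) := by
      funext h
      have := congrArg conj (congrFun hg h)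
      simpa [Cfsg.Lib.Characters.conjFn_apply] using this
    have hsq : g ^ 2 ∈ Cfsg.Lib.Characters.inertia H θ := by
      rw [Cfsg.Lib.Characters.mem_inertia, pow_two, ← Cfsg.Lib.Characters.conjFn_conjFn, h2]
      exact hg
    obtain ⟨k, hk⟩ := hodd
    have hgm : g ∈ Cfsg.Lib.Characters.inertia H θ := by
      have hp : g = (g ^ 2) ^ (k + 1) := by
        rw [← pow_mul, show 2 * (k + 1) = Nat.card G + 1 by omega, pow_succ, pow_card_eq_one', one_mul]
      rw [hp]
      exact Subgroup.pow_mem _ hsq _
    rw [Cfsg.Lib.Characters.mem_inertia.mp hgm] at h2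
    exact hθ1 (Cfsg.Lib.Characters.eq_one_of_real
      (Odd.of_dvd_nat ⟨k, hk⟩ (Subgroup.card_subgroup_dvd_card H)) hθ
      fun h => Complex.conj_eq_iff_im.mp (congrFun h2 h).symm)
  rw [Nat.card_of_isEmpty]
  simp

end Cfsg.Agent.S0194
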