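import Cfsg.Statements.S0196
import Mathlib

set_option autoImplicit false
open Cfsg

namespace Cfsg.Agent.S0196

/-- Let A be a subgroup of a finite group G that equals the centralizer of each of its non-identity elements, and let N be its normalizer. Then the index of A in N divides |A| − 1 (N/A permutes the non-identity elements of A in orbits of full length). -/
theorem result {G : Type*} [Group G] [Finite G] (A : Subgroup G) (hA : ∀ x ∈ A, x ≠ 1 → Subgroup.centralizer ({x} : Set G) = A) : (A.subgroupOf (Subgroup.normalizer (A : Set G))).index ∣ Nat.card A - 1 := by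
  classical
  set N := Subgroup.normalizer (A : Set G)
  have hN : ∀ n : N, ∀ a ∈ A, (n : G) * a * (n : G)⁻¹ ∈ A := fun n a ha =>
    (Subgroup.mem_normalizer_iff.mp n.2 a).mp ha
  let S := {a : A // a ≠ 1}
  haveI : Fintype A := Fintype.ofFinite A
  letI act : MulAction N S :=
    { smul := fun n a => ⟨⟨(n : G) * a.1 * (n : G)⁻¹, hN n _ a.1.2⟩, fun h =>
        a.2 (Subtype.ext (by simpa using congrArg Subtype.val h))⟩
      one_smul := fun a => Subtype.ext (Subtype.ext (by
        show ((1 : N) : G) * a.1 * ((1 : N) : G)⁻¹ = a.1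
        simp))
      mul_smul := fun m n a => Subtype.ext (Subtype.ext (by
        show ((m * n : N) : G) * a.1 * ((m * n : N) : G)⁻¹ =
          (m : G) * ((n : G) * a.1 * (n : G)⁻¹) * (m : G)⁻¹
        simp [mul_assoc])) }
  have hstab : ∀ a : S, MulAction.stabilizer N a = A.subgroupOf N := by
    intro a
    ext n
    have ha : ((a.1 : A) : G) ≠ 1 := fun h => a.2 (Subtype.ext h)
    rw [MulAction.mem_stabilizer_iff, Subgroup.mem_subgroupOf]
    have hcen : (n : G) ∈ A ↔ (n : G) * a.1 = a.1 * n := by
      conv_lhs => rw [← hA _ a.1.2 ha]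
      rw [Subgroup.mem_centralizer_singleton_iff]
    rw [hcen]
    constructor
    · intro h
      have h' : (n : G) * a.1 * (n : G)⁻¹ = a.1 := congrArg (fun s : S => ((s.1 : A) : G)) h
      exact mul_inv_eq_iff_eq_mul.mp h'
    · intro h
      refine Subtype.ext (Subtype.ext ?_)
      show (n : G) * a.1 * (n : G)⁻¹ = a.1
      rw [h, mul_inv_cancel_right]
  have hcard : Nat.card A - 1 = Nat.card S := by
    rw [Nat.card_eq_fintype_card, Nat.card_eq_fintype_card, Fintype.card_subtype_compl,
      Fintype.card_subtype_eq]
  rw [hcard, Nat.card_congr (MulAction.selfEquivSigmaOrbits N S), Nat.card_sigma]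
  refine Finset.dvd_sum fun ω _ => ?_
  rw [Nat.card_coe_set_eq, ← MulAction.index_stabilizer, hstab]

end Cfsg.Agent.S0196
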