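import Cfsg.Statements.S0197
import Cfsg.Agent.Lib.Characters.GLTwoThree
import Cfsg.Agent.Lib.Characters.GLTwoThreeShape
import Cfsg.Agent.Lib.Characters.GLTwoThreeSolve
import Cfsg.Agent.Lib.Characters.TI
import Cfsg.Agent.Lib.Characters.ProductCount
import Cfsg.Agent.Lib.Characters.Correspondence
import Cfsg.Agent.Lib.ZStar.RankOne
-- import your own Cfsg.Agent.* helpers here

set_option autoImplicit false
set_option maxHeartbeats 2000000
set_option linter.constructorNameAsVariable false
set_option maxRecDepth 4000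
set_option synthInstance.maxSize 2000
set_option synthInstance.maxHeartbeats 200000
open Cfsg

namespace Cfsg.Agent.S0197

open Cfsg.Lib.Characters Cfsg.Lib.Characters.GLTwoThree
open scoped ComplexConjugate

/-- Facts about the concrete group. -/
theorem negT_unique : ∀ x ∈ L, mulT x x = oneT → x ≠ oneT → (∀ y ∈ L, mulT x y = mulT y x) → x = negT := by
  decide +kernel

/-- The special classes. -/
def isD (x : T4) : Bool := cls x == 1 || cls x == 4 || cls x == 5 || cls x == 6 || cls x == 7

def powT (x : T4) : ℕ → T4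
  | 0 => oneT
  | k + 1 => mulT (powT x k) x

theorem tup_pow (g : GL23) (k : ℕ) : tup (g ^ k) = powT (tup g) k := by
  induction k with
  | zero => rw [pow_zero, tup_one]; rfl
  | succ k ih => rw [pow_succ, tup_mul, ih]; rfl

theorem D_pow : ∀ x ∈ L, isD x = true → ∃ k ∈ List.range 5, powT x k = negT ∧
    ∀ y ∈ L, isD y = true → mulT (powT y k) (powT y k) = oneT → powT y k = oneT ∨ powT y k = negT := by
  decide +kernel

theorem invol_cases : ∀ x ∈ L, mulT x x = oneT → x ≠ oneT → x ≠ negT → cls x = 2 := by decide +kernel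

theorem invol_conj : ∀ x ∈ L, ∀ y ∈ L, cls x = 2 → cls y = 2 → ∃ z ∈ L, conjT z x = y := by decide +kernel

theorem count_six : L.countP (fun x => decide (mulT x x = oneT ∧ x ≠ oneT ∧
    mulT (mulT x (2, 2, 0, 2)) (mulT x (2, 2, 0, 2)) = oneT ∧ mulT x (2, 2, 0, 2) ≠ oneT)) = 6 := by
  decide +kernel

theorem count_zero : L.countP (fun x => decide (mulT x x = oneT ∧ x ≠ oneT ∧
    mulT (mulT x w0) (mulT x w0) = oneT ∧ mulT x w0 ≠ oneT)) = 0 := by
  decide +kernel

theorem key16 : ∀ x ∈ L, mulT x x = oneT → x ≠ oneT → x ≠ negT →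
    L.countP (fun z => decide (mulT x z = mulT z x)) < 16 := by decide +kernel

/-- If a finite simple group has an involution whose centralizer is isomorphic to the general linear group GL(2, 3), then the group has order 5616 or 7920. -/
theorem result {G : Type*} [Group G] [Finite G] [IsSimpleGroup G] (t : G) (ht : orderOf t = 2) (e : Subgroup.centralizer ({t} : Set G) ≃* Matrix.GeneralLinearGroup (Fin 2) (ZMod 3)) : Nat.card G = 5616 ∨ Nat.card G = 7920 := by
  classical
  haveI := Fintype.ofFinite G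
  set C := Subgroup.centralizer ({t} : Set G) with hC
  haveI := Fintype.ofFinite C
  have htC : t ∈ C := Subgroup.mem_centralizer_singleton_iff.mpr rfl
  have ht2 : t * t = 1 := by rw [← pow_two, ← ht, pow_orderOf_eq_one]
  have ht1 : t ≠ 1 := fun h => by rw [h, orderOf_one] at ht; omega
  let tp : C → T4 := fun x => tup (e x)
  have tp_mul : ∀ x y : C, tp (x * y) = mulT (tp x) (tp y) := fun x y => by
    show tup (e (x * y)) = _
    rw [map_mul, tup_mul]
  have tp_one : tp 1 = oneT := by show tup (e 1) = _; rw [map_one, tup_one]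
  have tp_inj : Function.Injective tp := tup_injective.comp e.injective
  have tp_mem : ∀ x : C, tp x ∈ L := fun x => tup_mem _
  have tp_surj : ∀ y ∈ L, ∃ x : C, tp x = y := fun y hy => by
    obtain ⟨g, hg⟩ := exists_tup hy
    exact ⟨e.symm g, by show tup (e (e.symm g)) = y; rw [MulEquiv.apply_symm_apply, hg]⟩
  have tp_pow : ∀ (x : C) (k : ℕ), tp (x ^ k) = powT (tp x) k := fun x k => by
    show tup (e (x ^ k)) = _
    rw [map_pow, tup_pow]
  have htneg : tp ⟨t, htC⟩ = negT := by
    refine negT_unique _ (tp_mem _) ?_ ?_ ?_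
    · rw [← tp_mul, ← tp_one]
      exact congrArg tp (Subtype.ext ht2)
    · rw [← tp_one]
      exact fun h => ht1 (congrArg Subtype.val (tp_inj h))
    · intro y hy
      obtain ⟨x, rfl⟩ := tp_surj y hy
      rw [← tp_mul, ← tp_mul]
      exact congrArg tp (Subtype.ext (Subgroup.mem_centralizer_singleton_iff.mp x.2).symm)
  have hcardC : Nat.card C = 48 := by
    rw [Nat.card_congr e.toEquiv]
    exact card_GL
  -- the special set
  let T : Set G := {g | ∃ h : g ∈ C, isD (tp ⟨g, h⟩) = true}
  have hTI : ∀ g : G, g ∉ C → ∀ x ∈ T, g * x * g⁻¹ ∈ T → x = 1 := by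
    rintro g hg x ⟨hx, hxD⟩ ⟨hy, hyD⟩
    exfalso
    obtain ⟨k, -, hk, hk'⟩ := D_pow _ (tp_mem _) hxD
    have hxk : x ^ k = t := by
      have h : (⟨x, hx⟩ : C) ^ k = ⟨t, htC⟩ := tp_inj (by rw [tp_pow, hk, htneg])
      simpa using congrArg Subtype.val h
    set y : C := ⟨g * x * g⁻¹, hy⟩
    have hyk : ((y ^ k : C) : G) = g * t * g⁻¹ := by
      show (g * x * g⁻¹) ^ k = _
      rw [conj_pow, hxk]
    have hsq : mulT (powT (tp y) k) (powT (tp y) k) = oneT := by
      rw [← tp_pow, ← tp_mul, ← tp_one]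
      refine congrArg tp (Subtype.ext ?_)
      rw [Subgroup.coe_mul, hyk, conj_mul, ht2]
      simp
    rcases hk' _ (tp_mem y) hyD hsq with h | h
    · rw [← tp_pow, ← tp_one] at h
      have h' := congrArg Subtype.val (tp_inj h)
      rw [hyk, OneMemClass.coe_one, mul_inv_eq_one] at h'
      exact ht1 (by simpa using h')
    · rw [← tp_pow, ← htneg] at h
      have h' := congrArg Subtype.val (tp_inj h)
      rw [hyk, mul_inv_eq_iff_eq_mul] at h'
      exact hg (Subgroup.mem_centralizer_singleton_iff.mpr h')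
  -- induction of the five virtual characters
  obtain ⟨α, hα2, hαc, hgen⟩ := exists_basis
  let vv : Fin 5 → C → ℂ := fun i x => vval α i (cls (tp x))
  let V : Fin 5 → G → ℂ := fun i => indFun C (vv i)
  have hvgen : ∀ i, IsGeneralizedCharacter C (vv i) := fun i => isGeneralized_comp (hgen i) e.toMonoidHom
  have hVgen : ∀ i, IsGeneralizedCharacter G (V i) := fun i => isGeneralized_indFun C (hvgen i)
  have hoff : ∀ i (x : C), (x : G) ∉ T → vv i x = 0 := by
    intro i x hx
    have hnD : isD (tp x) = false := by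
      rw [Bool.eq_false_iff]
      exact fun h => hx ⟨x.2, h⟩
    show vval α i (cls (tp x)) = 0
    simp only [isD] at hnD
    revert hnD
    generalize cls (tp x) = c
    fin_cases c <;> fin_cases i <;> simp [vval]
  have hinnerC : ∀ (i : Fin 5) (f : Fin 8 → ℂ), classInner (fun x : C => f (cls (tp x))) (vv i) =
      (48 : ℂ)⁻¹ * ∑ c, (sizes c : ℂ) * (f c * conj (vval α i c)) := by
    intro i f
    have h := classInner_comp_equiv e (fun g => f (cls (tup g))) (fun g => vval α i (cls (tup g)))
    refine h.trans ?_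
    rw [classInner, card_GL, ← sum_cls (fun c => f c * conj (vval α i c))]
    rfl
  have hgramV : ∀ i j, classInner (V i) (V j) = (gram i j : ℂ) := by
    intro i j
    rw [classInner_indFun_ti hTI (hoff i) (isGeneralized_isClassFunction (hvgen j)) (hoff j)
      (hoff i 1 fun ⟨_, h⟩ => by
        rw [show (⟨((1 : C) : G), _⟩ : C) = 1 from Subtype.ext rfl, tp_one] at h
        exact absurd h (by decide +kernel))]
    rw [show vv i = fun x : C => vval α i (cls (tp x)) from rfl]
    rw [hinnerC j (vval α i)]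
    fin_cases i <;> fin_cases j <;>
      simp [Fin.sum_univ_eight, sizes, vval, gram, hαc, map_ofNat] <;>
      (first | linear_combination (-(1 / 2) : ℂ) * hα2 | linear_combination (-(1 / 4) : ℂ) * hα2 |
        linear_combination (1 / 2 : ℂ) * hα2 | linear_combination (1 / 4 : ℂ) * hα2 | linear_combination (-1 : ℂ) * hα2 | ring)
  -- coefficients
  have hint : ∀ (i : Fin 5) (χ : IrrCharacter G), ∃ z : ℤ, classInner (χ : G → ℂ) (V i) = (z : ℂ) :=
    fun i χ => classInner_int (isGeneralized_of_isCharacter χ.2.isCharacter) (hVgen i)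
  choose m hm using hint
  have hm' : ∀ i (χ : IrrCharacter G), classInner (V i) (χ : G → ℂ) = (m i χ : ℂ) := fun i χ => by
    rw [← conj_classInner, hm, map_intCast]
  have hres : ∀ i (φ : G → ℂ), IsClassFunction G φ → classInner φ (V i) = classInner (fun x : C => φ x) (vv i) :=
    fun i φ hφ => classInner_indFun_right C (vv i) hφ
  let i₁ : IrrCharacter G := ⟨fun _ => 1, isIrrCharacter_one⟩
  have hone : ∀ i, m i i₁ = (![1, 0, 0, 0, 0] : Fin 5 → ℤ) i := by
    intro i
    have h := hm i i₁
    rw [hres i _ i₁.2.isClassFunction, hinnerC i (fun _ => 1)] at h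
    refine Int.cast_injective (α := ℂ) ?_
    rw [← h]
    fin_cases i <;> simp [Fin.sum_univ_eight, sizes, vval, hαc, map_ofNat] <;> norm_num <;> ring
  have hgram : ∀ i j, ∑ χ, m i χ * m j χ = gram i j := by
    intro i j
    have h := hgramV i j
    rw [classInner_eq_sum (isGeneralized_isClassFunction (hVgen i))] at h
    simp only [hm', hm] at h
    exact_mod_cast h
  have hd : ∀ χ : IrrCharacter G, ∃ n : ℕ, 0 < n ∧ (χ : G → ℂ) 1 = n := fun χ => χ.2.exists_degree_pos
  choose f hf0 hf using hd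
  have hf₁ : f i₁ = 1 := by
    have : ((f i₁ : ℕ) : ℂ) = 1 := (hf i₁).symm
    exact_mod_cast this
  have hdeg : ∀ i, ∑ χ, m i χ * (f χ : ℤ) = 0 := by
    intro i
    have h := congrFun (classFunction_expansion (isGeneralized_isClassFunction (hVgen i))) 1
    have h0 : V i 1 = 0 := by
      show indFun C (vv i) 1 = 0
      rw [indFun_one_apply, hoff i 1 fun ⟨_, h⟩ => by
        rw [show (⟨((1 : C) : G), _⟩ : C) = 1 from Subtype.ext rfl, tp_one] at h
        exact absurd h (by decide +kernel), mul_zero]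
    rw [h0, Finset.sum_apply] at h
    simp only [Pi.smul_apply, smul_eq_mul, hm', hf] at h
    exact_mod_cast h.symm
  obtain ⟨a, b, c, d, e', ha, hb, hc', hd', he', r1, r2, r3, hF⟩ := shape i₁ m f hf0 hf₁ hone hgram hdeg
  -- values on the special classes
  obtain ⟨u₀, hu₀⟩ := tp_surj (2, 2, 0, 2) (by decide +kernel)
  obtain ⟨w₀, hw₀⟩ := tp_surj w0 (by decide +kernel)
  have hval : ∀ χ : IrrCharacter G,
      (χ : G → ℂ) t = m 0 χ + m 1 χ + 2 * (2 * m 3 χ + m 2 χ + m 4 χ) ∧
      (χ : G → ℂ) u₀ = m 0 χ + m 1 χ - (2 * m 3 χ + m 2 χ + m 4 χ) ∧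
      (χ : G → ℂ) w₀ = m 0 χ - m 1 χ + α * m 2 χ := by
    intro χ
    have hcl : ∀ x y : C, cls (tp x) = cls (tp y) → (χ : G → ℂ) x = (χ : G → ℂ) y := by
      intro x y hxy
      have key : ∀ p ∈ L, ∀ q ∈ L, cls p = cls q → ∃ z ∈ L, conjT z p = q := by decide +kernel
      obtain ⟨z, hz, hzc⟩ := key _ (tp_mem x) _ (tp_mem y) hxy
      obtain ⟨k, rfl⟩ := tp_surj z hz
      have : y = k⁻¹ * x * k := tp_inj (by
        rw [← hzc]
        show conjT (tup (e k)) (tup (e x)) = tup (e (k⁻¹ * x * k))
        rw [← tup_conj, map_mul, map_mul, map_inv])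
      rw [this, Subgroup.coe_mul, Subgroup.coe_mul, Subgroup.coe_inv]
      have := χ.2.isClassFunction (x : G) (k : G)⁻¹
      rw [inv_inv] at this
      exact this.symm
    have hfun : ∀ c : Fin 8, ∃ z : ℂ, ∀ x : C, cls (tp x) = c → (χ : G → ℂ) x = z := fun c => by
      by_cases h : ∃ x : C, cls (tp x) = c
      · obtain ⟨x, hx⟩ := h
        exact ⟨(χ : G → ℂ) x, fun y hy => hcl y x (hy.trans hx.symm)⟩
      · exact ⟨0, fun x hx => absurd ⟨x, hx⟩ h⟩
    choose F hFv using hfun
    have hres' : (fun x : C => (χ : G → ℂ) x) = fun x : C => F (cls (tp x)) := funext fun x => hFv _ x rfl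
    have hmi : ∀ i, (m i χ : ℂ) = (48 : ℂ)⁻¹ * ∑ c, (sizes c : ℂ) * (F c * conj (vval α i c)) := fun i => by
      rw [← hm i χ, hres i _ χ.2.isClassFunction, hres', hinnerC]
    rw [hFv 1 ⟨t, htC⟩ (by rw [htneg]; decide +kernel), hFv 4 u₀ (by rw [hu₀]; decide +kernel),
      hFv 6 w₀ (by rw [hw₀]; decide +kernel), hmi, hmi, hmi, hmi, hmi]
    simp [Fin.sum_univ_eight, sizes, vval, hαc, map_ofNat]
    refine ⟨?_, ?_, ?_⟩
    · ring
    · ring
    · linear_combination (F 6 - F 7) / 4 * hα2
  -- all involutions are conjugate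
  have hisol : ∃ g : G, g * t * g⁻¹ ∈ C ∧ g * t * g⁻¹ ≠ t := by
    by_contra hcon
    push Not at hcon
    have hiso : Cfsg.IsIsolatedInvolution t := ⟨ht, fun g hg =>
      hcon g (Subgroup.mem_centralizer_singleton_iff.mpr hg.symm.eq)⟩
    have hcore : Cfsg.oddCore G = ⊥ := by
      refine le_bot_iff.mp (sSup_le fun N hN => ?_)
      rcases hN.1.eq_bot_or_eq_top with h | h
      · exact h.le
      · exfalso
        have h2 := hN.2
        rw [h, Subgroup.card_top] at h2
        have h3 : 2 ∣ Nat.card G := ht ▸ orderOf_dvd_natCard t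
        exact absurd (Nat.le_of_dvd one_pos (h2 ▸ Nat.dvd_gcd h3 dvd_rfl)) (by norm_num)
    have hcen : t ∈ Subgroup.center G := Subgroup.mem_center_iff.mpr fun g => by
      have h := Cfsg.Lib.ZStar.zstar hiso g
      rw [hcore, Subgroup.mem_bot, mul_inv_eq_one, mul_inv_eq_iff_eq_mul] at h
      exact h.symm
    have hCtop : C = ⊤ := eq_top_iff.mpr fun x _ =>
      Subgroup.mem_centralizer_singleton_iff.mpr (Subgroup.mem_center_iff.mp hcen x)
    rcases (inferInstance : (Subgroup.center G).Normal).eq_bot_or_eq_top with h | h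
    · exact ht1 ((Subgroup.mem_bot).mp (h ▸ hcen))
    · have hGC : ∀ g, g ∈ C := fun g => hCtop ▸ Subgroup.mem_top g
      obtain ⟨p, hp⟩ := tp_surj w0 (by decide +kernel)
      obtain ⟨q, hq⟩ := tp_surj (1, 1, 0, 1) (by decide +kernel)
      have : p * q = q * p := Subtype.ext ((Subgroup.mem_center_iff.mp (h ▸ Subgroup.mem_top (q : G))) (p : G))
      have h' := congrArg tp this
      rw [tp_mul, tp_mul, hp, hq] at h'
      exact absurd h' (by decide +kernel)
  obtain ⟨g₀, hg₀C, hg₀⟩ := hisol
  have hclass : ∀ i : C, tp i ≠ oneT → mulT (tp i) (tp i) = oneT → IsConj t (i : G) := by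
    intro i hi1 hi2
    by_cases hin : tp i = negT
    · rw [show i = ⟨t, htC⟩ from tp_inj (hin.trans htneg.symm)]
    set s : C := ⟨g₀ * t * g₀⁻¹, hg₀C⟩
    have hs2 : mulT (tp s) (tp s) = oneT := by
      rw [← tp_mul, ← tp_one]
      refine congrArg tp (Subtype.ext ?_)
      show g₀ * t * g₀⁻¹ * (g₀ * t * g₀⁻¹) = 1
      rw [conj_mul, ht2]; simp
    have hs1 : tp s ≠ oneT := fun h => by
      rw [← tp_one] at h
      have := congrArg Subtype.val (tp_inj h)
      simp only [s, OneMemClass.coe_one, mul_inv_eq_one] at this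
      exact ht1 (by simpa using this)
    have hsn : tp s ≠ negT := fun h => hg₀ (congrArg Subtype.val (tp_inj (h.trans htneg.symm)))
    obtain ⟨z, hz, hzc⟩ := invol_conj _ (tp_mem s) _ (tp_mem i) (invol_cases _ (tp_mem s) hs2 hs1 hsn)
      (invol_cases _ (tp_mem i) hi2 hi1 hin)
    obtain ⟨k, rfl⟩ := tp_surj z hz
    have hik : i = k⁻¹ * s * k := tp_inj (by
      rw [← hzc]
      show conjT (tup (e k)) (tup (e s)) = tup (e (k⁻¹ * s * k))
      rw [← tup_conj, map_mul, map_mul, map_inv])
    refine isConj_iff.mpr ⟨(k : G)⁻¹ * g₀, ?_⟩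
    rw [hik]
    simp [s, mul_assoc]
  have hpairs : ∀ g : C, ∀ k : ℕ, (g : G) ^ k = t →
      pairCount t (g : G) = L.countP (fun x => decide (mulT x x = oneT ∧ x ≠ oneT ∧
        mulT (mulT x (tp g)) (mulT x (tp g)) = oneT ∧ mulT x (tp g) ≠ oneT)) := by
    intro g k hgk
    rw [← card_tup fun x => mulT x x = oneT ∧ x ≠ oneT ∧
        mulT (mulT x (tp g)) (mulT x (tp g)) = oneT ∧ mulT x (tp g) ≠ oneT]
    rw [← Nat.card_congr (e.toEquiv.subtypeEquiv (p := fun i : C => mulT (tp i) (tp i) = oneT ∧ tp i ≠ oneT ∧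
        mulT (mulT (tp i) (tp g)) (mulT (tp i) (tp g)) = oneT ∧ mulT (tp i) (tp g) ≠ oneT) fun i => Iff.rfl)]
    have hinvol : ∀ x : G, IsConj t x → x * x = 1 ∧ x ≠ 1 := by
      intro x hx
      obtain ⟨r, rfl⟩ := isConj_iff.mp hx
      refine ⟨by rw [conj_mul, ht2]; simp, fun h => ht1 ?_⟩
      rw [mul_inv_eq_one] at h
      simpa using h
    have hmem : ∀ p : G × G, IsConj t p.1 → IsConj t p.2 → p.1 * p.2 = (g : G) →
        p.1 ∈ C ∧ p.1 * (g : G) = p.2 := by
      intro p h1 h2 h12
      have hp1 := (hinvol _ h1).1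
      have hp2 := (hinvol _ h2).1
      have h3 : p.1 * (g : G) = p.2 := by rw [← h12, ← mul_assoc, hp1, one_mul]
      refine ⟨Subgroup.mem_centralizer_singleton_iff.mpr ?_, h3⟩
      have hinv : p.1 * (g : G) * p.1⁻¹ = (g : G)⁻¹ := by
        rw [h3, ← h12, mul_inv_rev, inv_eq_of_mul_eq_one_right hp2]
      have h4 : p.1 * t * p.1⁻¹ = t := by
        rw [← hgk, ← conj_pow, hinv, inv_pow, hgk]
        exact inv_eq_of_mul_eq_one_right ht2
      rwa [mul_inv_eq_iff_eq_mul] at h4
    unfold pairCount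
    refine Nat.card_congr
      { toFun := fun p => ⟨⟨p.1.1, (hmem p.1 p.2.1 p.2.2.1 p.2.2.2).1⟩, ?_⟩
        invFun := fun i => ⟨((i.1 : G), ((i.1 * g : C) : G)), ?_⟩
        left_inv := fun p => Subtype.ext (Prod.ext rfl (hmem p.1 p.2.1 p.2.2.1 p.2.2.2).2)
        right_inv := fun i => rfl }
    · set j : C := ⟨p.1.1, (hmem p.1 p.2.1 p.2.2.1 p.2.2.2).1⟩
      have hj : ((j * g : C) : G) = p.1.2 := (hmem p.1 p.2.1 p.2.2.1 p.2.2.2).2
      refine ⟨?_, ?_, ?_, ?_⟩
      · rw [← tp_mul, ← tp_one]; exact congrArg tp (Subtype.ext (hinvol _ p.2.1).1)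
      · rw [← tp_one]; exact fun h => (hinvol _ p.2.1).2 (congrArg Subtype.val (tp_inj h))
      · rw [← tp_mul, ← tp_mul, ← tp_one]
        refine congrArg tp (Subtype.ext ?_)
        rw [Subgroup.coe_mul, hj]
        exact (hinvol _ p.2.2.1).1
      · rw [← tp_mul, ← tp_one]
        refine fun h => (hinvol _ p.2.2.1).2 ?_
        rw [← hj, tp_inj h, OneMemClass.coe_one]
    · obtain ⟨h1, h2, h3, h4⟩ := i.2
      refine ⟨hclass _ h2 h1, ?_, ?_⟩
      · exact hclass _ (by rw [tp_mul]; exact h4) (by rw [tp_mul]; exact h3)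
      · show (i.1 : G) * ((i.1 : G) * (g : G)) = (g : G)
        have h1' : tp (i.1 * i.1) = tp 1 := by rw [tp_mul, tp_one]; exact h1
        have h := congrArg Subtype.val (tp_inj h1')
        rw [Subgroup.coe_mul, OneMemClass.coe_one] at h
        rw [← mul_assoc, h, one_mul]
  -- the order equations
  have hcls : (Nat.card {x : G // IsConj t x}) = C.index := by
    have h := card_conj_mul_card_centralizer (G := G) t
    rw [← C.card_mul_index, ← hC, mul_comm] at h
    exact Nat.eq_of_mul_eq_mul_left Nat.card_pos h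
  set n := C.index with hnidx
  have hn0 : (n : ℂ) ≠ 0 := Nat.cast_ne_zero.mpr Subgroup.index_ne_zero_of_finite
  have hG : Nat.card G = 48 * n := by rw [← C.card_mul_index, hcardC]
  have hu3 : (u₀ : G) ^ 3 = t := by
    have h : u₀ ^ 3 = ⟨t, htC⟩ := tp_inj (by rw [tp_pow, hu₀, htneg]; decide +kernel)
    simpa using congrArg Subtype.val h
  have hw4 : (w₀ : G) ^ 4 = t := by
    have h : w₀ ^ 4 = ⟨t, htC⟩ := tp_inj (by rw [tp_pow, hw₀, htneg]; decide +kernel)
    simpa using congrArg Subtype.val h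
  have eu := pairCount_formula t (u₀ : G)
  rw [hpairs u₀ 3 hu3, hu₀, count_six, hcls, hG] at eu
  have ew := pairCount_formula t (w₀ : G)
  rw [hpairs w₀ 4 hw4, hw₀, count_zero, hcls] at ew
  have cα : conj α = -α := hαc
  rw [Finset.sum_congr rfl fun χ _ => by rw [(hval χ).1, (hval χ).2.1, hf χ]] at eu
  rw [Finset.sum_congr rfl fun χ _ => by rw [(hval χ).1, (hval χ).2.2, hf χ]] at ew
  have hsign : ∀ z : ℤ, z = 1 ∨ z = -1 → (z : ℂ) ^ 2 = 1 := by rintro z (rfl | rfl) <;> norm_num
  have Su := hF (fun v => (v 0 + v 1 + 2 * (2 * v 3 + v 2 + v 4)) ^ 2 * conj (v 0 + v 1 - (2 * v 3 + v 2 + v 4)))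
    (by simp) (fun z v hz => by
      simp only [Pi.smul_apply, smul_eq_mul, map_sub, map_add, map_mul, map_intCast, map_ofNat]
      linear_combination ((z : ℂ) * ((v 0 + v 1 + 2 * (2 * v 3 + v 2 + v 4)) ^ 2 *
        (conj (v 0) + conj (v 1) - (2 * conj (v 3) + conj (v 2) + conj (v 4))))) * hsign z hz)
  have Sw := hF (fun v => (v 0 + v 1 + 2 * (2 * v 3 + v 2 + v 4)) ^ 2 * conj (v 0 - v 1 + α * v 2))
    (by simp) (fun z v hz => by
      simp only [Pi.smul_apply, smul_eq_mul, map_sub, map_add, map_mul, map_intCast, map_ofNat]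
      linear_combination ((z : ℂ) * ((v 0 + v 1 + 2 * (2 * v 3 + v 2 + v 4)) ^ 2 *
        (conj (v 0) - conj (v 1) + conj α * conj (v 2)))) * hsign z hz)
  rw [Su] at eu
  rw [Sw] at ew
  simp [cα, map_ofNat] at eu ew
  have ha' : (a : ℂ) ≠ 0 := Int.cast_ne_zero.mpr ha
  have hb' : (b : ℂ) ≠ 0 := Int.cast_ne_zero.mpr hb
  have hc'' : (c : ℂ) ≠ 0 := Int.cast_ne_zero.mpr hc'
  have hd'' : (d : ℂ) ≠ 0 := Int.cast_ne_zero.mpr hd'
  have he'' : (e' : ℂ) ≠ 0 := Int.cast_ne_zero.mpr he'
  have hodd : Odd n := by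
    obtain ⟨P⟩ : Nonempty (Sylow 2 C) := inferInstance
    set P' := (P : Subgroup C).map C.subtype with hP'
    have hP16 : Nat.card P' = 16 := by
      rw [hP', Subgroup.card_map_of_injective C.subtype_injective, P.card_eq_multiplicity, hcardC]
      rw [show (48 : ℕ) = 2 ^ 4 * 3 by norm_num, Nat.factorization_mul (by norm_num) (by norm_num),
        Nat.Prime.factorization_pow Nat.prime_two, Nat.Prime.factorization (by norm_num : Nat.Prime 3)]
      simp
    obtain ⟨Q, hQ⟩ := (P.isPGroup'.map C.subtype).exists_le_sylow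
    have hQeq : P' = (Q : Subgroup G) := by
      by_contra hne
      have hlt : P'.subgroupOf (Q : Subgroup G) < ⊤ := lt_top_iff_ne_top.mpr fun h =>
        hne (le_antisymm hQ (Subgroup.subgroupOf_eq_top.mp h))
      haveI := Q.isPGroup'.isNilpotent
      obtain ⟨r, hr, hr'⟩ := SetLike.exists_of_lt (Group.normalizerCondition_of_isNilpotent _ hlt)
      rw [Subgroup.mem_subgroupOf] at hr'
      -- the centre of the Sylow subgroup of the centralizer
      have htP : t ∈ P' := by
        refine ⟨⟨t, htC⟩, ?_, rfl⟩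
        have hpc : IsPGroup 2 (Subgroup.zpowers (⟨t, htC⟩ : C)) := by
          refine IsPGroup.of_card (n := 1) ?_
          rw [Nat.card_zpowers, Subgroup.orderOf_mk, ht, pow_one]
        haveI : (Subgroup.zpowers (⟨t, htC⟩ : C)).Normal := ⟨fun x hx y => by
          obtain ⟨k, rfl⟩ := Subgroup.mem_zpowers_iff.mp hx
          have hcm : Commute y (⟨t, htC⟩ : C) := Subtype.ext (Subgroup.mem_centralizer_singleton_iff.mp y.2)
          rw [(hcm.zpow_right k).eq, mul_inv_cancel_right]
          exact hx⟩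
        obtain ⟨R, hR⟩ := hpc.exists_le_sylow
        obtain ⟨c, rfl⟩ := MulAction.exists_smul_eq C R P
        rw [Sylow.coe_subgroup_smul]
        refine ⟨c⁻¹ * ⟨t, htC⟩ * c, hR ?_, by simp [mul_assoc]⟩
        exact Subgroup.Normal.conj_mem' inferInstance _ (Subgroup.mem_zpowers _) c
      refine hr' ?_
      have hrC : (r : G) ∈ C := by
        set y : G := (r : G) * t * (r : G)⁻¹ with hy
        have hyP : y ∈ P' := (Subgroup.mem_normalizer_iff.mp hr ⟨t, hQ htP⟩).mp htP
        have hycomm : ∀ x ∈ P', y * x = x * y := by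
          intro x hx
          have hx' : (r : G)⁻¹ * x * (r : G) ∈ C := by
            have h1 := (Subgroup.mem_normalizer_iff''.mp hr ⟨x, hQ hx⟩).mp hx
            obtain ⟨p, -, hp⟩ := h1
            have : (r : G)⁻¹ * x * (r : G) = (p : G) := hp.symm
            rw [this]; exact p.2
          have h2 := Subgroup.mem_centralizer_singleton_iff.mp hx'
          calc y * x = (r : G) * (t * ((r : G)⁻¹ * x * (r : G))) * (r : G)⁻¹ := by rw [hy]; group
            _ = (r : G) * (((r : G)⁻¹ * x * (r : G)) * t) * (r : G)⁻¹ := by rw [h2]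
            _ = x * y := by rw [hy]; group
        obtain ⟨j, hjP, hjy⟩ := hyP
        by_contra hrn
        have hj1 : tp j ≠ oneT := fun h => by
          rw [← tp_one] at h
          have : y = 1 := by rw [← hjy, tp_inj h]; rfl
          rw [hy, mul_inv_eq_one] at this
          exact ht1 (by simpa using this)
        have hj2 : mulT (tp j) (tp j) = oneT := by
          rw [← tp_mul, ← tp_one]
          refine congrArg tp (Subtype.ext ?_)
          rw [Subgroup.coe_mul, show (j : G) = y from hjy, hy, conj_mul, ht2]; simp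
        have hjn : tp j ≠ negT := fun h => hrn (by
          rw [← htneg] at h
          have : y = t := by rw [← hjy, tp_inj h]; rfl
          rw [hy, mul_inv_eq_iff_eq_mul] at this
          exact Subgroup.mem_centralizer_singleton_iff.mpr this)
        have h16 := key16 _ (tp_mem j) hj2 hj1 hjn
        have hle : Nat.card (P : Subgroup C) ≤ L.countP (fun z => decide (mulT (tp j) z = mulT z (tp j))) := by
          rw [← card_tup fun z => mulT (tp j) z = mulT z (tp j)]
          refine Nat.card_le_card_of_injective (fun x => ⟨e (x : C), ?_⟩) ?_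
          · show mulT (tp j) (tp x) = mulT (tp x) (tp j)
            rw [← tp_mul, ← tp_mul]
            refine congrArg tp (Subtype.ext ?_)
            rw [Subgroup.coe_mul, Subgroup.coe_mul, show (j : G) = y from hjy]
            exact hycomm _ ⟨x, x.2, rfl⟩
          · intro x x' h
            exact Subtype.ext (e.injective (congrArg Subtype.val h))
        rw [hP', Subgroup.card_map_of_injective C.subtype_injective] at hP16
        omega
      by_contra hrP
      set rc : C := ⟨r, hrC⟩
      have hsup : IsPGroup 2 ((P : Subgroup C) ⊔ Subgroup.zpowers rc : Subgroup C) := by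
        refine IsPGroup.of_injective Q.isPGroup'
          ((C.subtype.comp ((P : Subgroup C) ⊔ Subgroup.zpowers rc : Subgroup C).subtype).codRestrict (Q : Subgroup G) ?_) ?_
        · rintro ⟨x, hx⟩
          have hle : (P : Subgroup C) ⊔ Subgroup.zpowers rc ≤ (Q : Subgroup G).comap C.subtype :=
            sup_le (fun z hz => hQ ⟨z, hz, rfl⟩) (Subgroup.zpowers_le.mpr r.2)
          exact hle hx
        · intro x y h
          exact Subtype.ext (Subtype.ext (congrArg (fun z => (z.1 : G)) h :))
      exact hrP ⟨rc, P.3 hsup le_sup_left ▸ Subgroup.mem_sup_right (Subgroup.mem_zpowers rc), rfl⟩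
    rw [← Nat.not_even_iff_odd, even_iff_two_dvd]
    intro h2
    have h32 : 2 ^ 5 ∣ Nat.card G := by
      rw [hG]
      exact (show 2 ^ 5 ∣ 2 ^ 4 * 3 * n by
        obtain ⟨k, hk⟩ := h2
        exact ⟨3 * k, by rw [hk]; ring⟩)
    have := Q.pow_dvd_card_of_pow_dvd_card h32
    rw [← hQeq, hP16] at this
    norm_num at this
  have hsol := solve n hodd a b c d e' ha hb hc' hd' he' r1 r2 r3 ?_ ?_
  · rcases hsol with h | h <;> rw [hG, h] <;> norm_num
  · refine Int.cast_injective (α := ℂ) ?_
    push_cast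
    have ew' := ew.resolve_left Subgroup.index_ne_zero_of_finite
    field_simp at ew' ⊢
    refine mul_left_cancel₀ he'' ?_
    linear_combination ew'
  · refine Int.cast_injective (α := ℂ) ?_
    push_cast
    field_simp at eu ⊢
    linear_combination -eu

end Cfsg.Agent.S0197
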