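import Cfsg.Statements.S0203
import Mathlib
import Cfsg.Agent.Lib.TwoFus.KleinClasses
-- import your own Cfsg.Agent.* helpers here

set_option autoImplicit false
open Cfsg

namespace Cfsg.Agent.S0203

/-- If a Sylow 2-subgroup P of a finite group G is a Klein four-group, then G has three classes of involutions if and only if P has a normal complement in G. -/
theorem result {G : Type*} [Group G] [Finite G] (P : Sylow 2 G) (hP : IsKleinFour (P : Subgroup G)) : Nat.card {C : ConjClasses G // ∃ t : G, orderOf t = 2 ∧ ConjClasses.mk t = C} = 3 ↔ ∃ N : Subgroup G, N.Normal ∧ Subgroup.IsComplement' N (P : Subgroup G) := by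
  constructor
  · intro h3
    by_contra hno
    by_cases h : ∃ N : Subgroup G, N.Normal ∧ N.index = 4
    · obtain ⟨N, hN, hi⟩ := h
      refine hno ⟨N, hN, Subgroup.isComplement'_of_coprime ?_ ?_⟩
      · rw [hP.card_four, ← hi, Subgroup.card_mul_index]
      · have h1 := Subgroup.card_mul_index N
        have h2 := Subgroup.card_mul_index (P : Subgroup G)
        rw [hi] at h1
        rw [hP.card_four] at h2 ⊢
        have : Fact (Nat.Prime 2) := ⟨Nat.prime_two⟩
        rw [show Nat.card N = (P : Subgroup G).index by omega]
        exact (Nat.Coprime.pow_left 2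
          ((Nat.prime_two.coprime_iff_not_dvd).2 P.not_dvd_index)).symm
    · rw [Cfsg.Lib.TwoFus.klein_card_classes_of_not_complement P hP h] at h3
      omega
  · rintro ⟨N, hN, hc⟩
    haveI := hN
    exact Cfsg.Lib.TwoFus.klein_card_classes_of_complement P hP N
      (hc.symm.index_eq_card.trans hP.card_four)

end Cfsg.Agent.S0203
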