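import Cfsg.Statements.S0206
import Mathlib
import Cfsg.Agent.Lib.Invol.Dihedral
-- import your own Cfsg.Agent.* helpers here

set_option autoImplicit false
open Cfsg

namespace Cfsg.Agent.S0206

/-- Two distinct involutions x, y of a finite group generate a subgroup isomorphic to the dihedral group of order 2·|xy|. -/
theorem result {G : Type*} [Group G] [Finite G] (x y : G) (hx : orderOf x = 2) (hy : orderOf y = 2) (hxy : x ≠ y) : Nonempty (↥(Subgroup.closure ({x, y} : Set G)) ≃* DihedralGroup (orderOf (x * y))) := by
  have : NeZero (orderOf (x * y)) := ⟨(orderOf_pos _).ne'⟩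
  let f := Cfsg.Lib.Invol.dihedralHom hx hy
  have hinj : Function.Injective f := by
    have hne := Cfsg.Lib.Invol.not_mem_zpowers hx hy hxy
    rintro (i | i) (j | j) h
    · exact congrArg DihedralGroup.r (ZMod.val_injective _
        (pow_injOn_Iio_orderOf (ZMod.val_lt i) (ZMod.val_lt j) h))
    · refine absurd ?_ hne
      change (x * y) ^ i.val = x * (x * y) ^ j.val at h
      exact ((Subgroup.zpowers (x * y)).mul_mem_cancel_right (pow_mem (Subgroup.mem_zpowers _) j.val)).1
        (h ▸ pow_mem (Subgroup.mem_zpowers _) i.val)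
    · refine absurd ?_ hne
      change x * (x * y) ^ i.val = (x * y) ^ j.val at h
      exact ((Subgroup.zpowers (x * y)).mul_mem_cancel_right (pow_mem (Subgroup.mem_zpowers _) i.val)).1
        (h.symm ▸ pow_mem (Subgroup.mem_zpowers _) j.val)
    · change x * (x * y) ^ i.val = x * (x * y) ^ j.val at h
      exact congrArg DihedralGroup.sr (ZMod.val_injective _
        (pow_injOn_Iio_orderOf (ZMod.val_lt i) (ZMod.val_lt j) (mul_left_cancel h)))
  refine ⟨((MonoidHom.ofInjective hinj).trans (MulEquiv.subgroupCongr ?_)).symm⟩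
  refine le_antisymm ?_ ?_
  · rintro _ ⟨(i | i), rfl⟩
    · exact pow_mem (mul_mem (Subgroup.subset_closure (by simp))
        (Subgroup.subset_closure (by simp))) _
    · exact mul_mem (Subgroup.subset_closure (by simp)) (pow_mem (mul_mem
        (Subgroup.subset_closure (by simp)) (Subgroup.subset_closure (by simp))) _)
  · rw [Subgroup.closure_le]
    have hxr : x ∈ f.range := ⟨DihedralGroup.sr 0, by
      change x * (x * y) ^ (0 : ZMod (orderOf (x * y))).val = x
      simp⟩
    rintro _ (rfl | rfl)
    · exact hxr
    · refine (f.range.mul_mem_cancel_left hxr).1 ⟨DihedralGroup.r ((1 : ℕ) : ZMod _), ?_⟩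
      change (x * _) ^ ((1 : ℕ) : ZMod (orderOf (x * _))).val = _
      rw [ZMod.val_natCast, pow_mod_orderOf, pow_one]

end Cfsg.Agent.S0206
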