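import Cfsg.Statements.S0207
import Mathlib
import Cfsg.Agent.Lib.Invol.Dihedral
-- import your own Cfsg.Agent.* helpers here

set_option autoImplicit false
open Cfsg

namespace Cfsg.Agent.S0207

/-- If x, y are distinct involutions, every element of the subgroup they generate that lies outside the cyclic subgroup generated by xy is an involution. -/
theorem result {G : Type*} [Group G] [Finite G] (x y : G) (hx : orderOf x = 2) (hy : orderOf y = 2) (hxy : x ≠ y) (d : G) (hd : d ∈ Subgroup.closure ({x, y} : Set G)) (hd' : d ∉ Subgroup.zpowers (x * y)) : orderOf d = 2 := by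
  obtain ⟨k, rfl | rfl⟩ := (Cfsg.Lib.Invol.mem_closure_pair_iff hx hy).1 hd
  · exact absurd (Subgroup.zpow_mem_zpowers _ _) hd'
  refine Cfsg.Lib.Invol.orderTwo_of_mul_self ?_ ?_
  · rw [mul_assoc, ← mul_assoc x, Cfsg.Lib.Invol.left_mul_zpow hx hy, mul_assoc,
      Cfsg.Lib.Invol.mul_self_of_orderTwo hx, mul_one, ← zpow_add, add_neg_cancel, zpow_zero]
  · intro h
    exact hd' (by rw [h]; exact one_mem _)

end Cfsg.Agent.S0207
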