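import Cfsg.Statements.S0210
import Mathlib
import Cfsg.Agent.Lib.Invol.Dihedral
-- import your own Cfsg.Agent.* helpers here

set_option autoImplicit false
open Cfsg

namespace Cfsg.Agent.S0210

/-- If x, y are involutions whose product has even order, no element of the subgroup generated by x and y conjugates x to y. -/
theorem result {G : Type*} [Group G] [Finite G] (x y : G) (hx : orderOf x = 2) (hy : orderOf y = 2) (heven : Even (orderOf (x * y))) (d : G) (hd : d ∈ Subgroup.closure ({x, y} : Set G)) : d * x * d⁻¹ ≠ y := by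
  intro h
  obtain ⟨k, hk⟩ := Cfsg.Lib.Invol.conj_left_of_mem hx hy hd
  have h1 : (x * y) ^ (2 * k) = (x * y) ^ (-1 : ℤ) :=
    mul_right_cancel (hk.symm.trans (h.trans (Cfsg.Lib.Invol.right_eq hx hy)))
  have h2 := zpow_eq_zpow_iff_modEq.1 h1
  obtain ⟨m, hm⟩ := heven
  rw [hm, Int.modEq_iff_dvd] at h2
  have : (2 : ℤ) ∣ (-1 - 2 * k) := dvd_trans ⟨(m : ℤ), by push_cast; ring⟩ h2
  omega

end Cfsg.Agent.S0210
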