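import Cfsg.Statements.S0216
import Mathlib
import Cfsg.Agent.Lib.Invol.Isolated
-- import your own Cfsg.Agent.* helpers here

set_option autoImplicit false
open Cfsg

namespace Cfsg.Agent.S0216

/-- For an involution u in a Sylow 2-subgroup P of a finite group G, the following are equivalent: no G-conjugate of u other than u lies in P; every commutator of u with an element of G has odd order. -/
theorem result {G : Type*} [Group G] [Finite G] (P : Sylow 2 G) (u : G) (hu : orderOf u = 2) (huP : u ∈ P) : (∀ g : G, g * u * g⁻¹ ∈ P → g * u * g⁻¹ = u) ↔ (∀ g : G, Odd (orderOf (u * g * u⁻¹ * g⁻¹))) := by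
  constructor
  · intro hiso g
    have h := Cfsg.Lib.Invol.isolated_odd P hu hiso
      (isConj_iff.2 ⟨g, rfl⟩ : IsConj u (g * u * g⁻¹))
    rwa [show u * g * u⁻¹ * g⁻¹ = u * (g * u * g⁻¹) by
      rw [Cfsg.Lib.Invol.inv_of_orderTwo hu]; group]
  · intro h g hg
    have h1 := h g
    rw [show u * g * u⁻¹ * g⁻¹ = u * (g * u * g⁻¹) by
      rw [Cfsg.Lib.Invol.inv_of_orderTwo hu]; group] at h1
    have h2 := Cfsg.Lib.Invol.mem_sylow_eq_one_of_odd
      (show u * (g * u * g⁻¹) ∈ P from (P : Subgroup G).mul_mem huP hg) h1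
    rw [eq_inv_of_mul_eq_one_right h2, Cfsg.Lib.Invol.inv_of_orderTwo hu]

end Cfsg.Agent.S0216
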