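import Cfsg.Statements.S0218
import Mathlib
-- import your own Cfsg.Agent.* helpers here

set_option autoImplicit false
open Cfsg

namespace Cfsg.Agent.S0218

/-- The generalized quaternion group of order 2^(n+3) contains exactly one element of order 2. -/
theorem result (n : ℕ) : Nat.card {x : QuaternionGroup (2 ^ (n + 1)) // orderOf x = 2} = 1 := by
  set m := 2 ^ (n + 1) with hm
  have hmpos : 0 < m := by positivity
  have : NeZero m := ⟨hmpos.ne'⟩
  have : NeZero (2 * m) := ⟨by omega⟩
  rw [Nat.card_eq_one_iff_exists]
  refine ⟨⟨QuaternionGroup.a (m : ZMod (2 * m)), ?_⟩, ?_⟩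
  · rw [QuaternionGroup.orderOf_a, ZMod.val_natCast, Nat.mod_eq_of_lt (by omega),
      Nat.gcd_mul_left_left, Nat.mul_div_cancel _ hmpos]
  · rintro ⟨x, hx⟩
    rcases x with i | i
    · refine Subtype.ext (congrArg QuaternionGroup.a ?_)
      rw [QuaternionGroup.orderOf_a] at hx
      have hd := Nat.gcd_dvd_left (2 * m) i.val
      have hg : Nat.gcd (2 * m) i.val = m := by
        have := Nat.div_mul_cancel hd
        rw [hx] at this
        omega
      have hdr := Nat.gcd_dvd_right (2 * m) i.val
      rw [hg] at hdr
      obtain ⟨c, hc⟩ := hdr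
      have hlt := ZMod.val_lt i
      rcases c with _ | _ | c
      · rw [mul_zero] at hc
        rw [hc, Nat.gcd_zero_right] at hg
        omega
      · rw [zero_add, mul_one] at hc
        rw [← ZMod.natCast_zmod_val i, hc]
      · rw [hc] at hlt
        nlinarith
    · rw [QuaternionGroup.orderOf_xa] at hx
      omega

end Cfsg.Agent.S0218
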