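import Cfsg.Statements.S0221
import Mathlib
import Cfsg.Agent.S0111
import Cfsg.Agent.Lib.TwoFus.NormalFour
import Cfsg.Agent.Lib.Invol.Isolated
-- import your own Cfsg.Agent.* helpers here

set_option autoImplicit false
open Cfsg

namespace Cfsg.Agent.S0221

/-- Let G be a finite group with no subgroup of index 2 whose 2-rank is at least 3 (it contains an elementary abelian subgroup of order 8). Then the centralizer of every involution of G also contains an elementary abelian subgroup of order 8. -/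
theorem result {G : Type*} [Group G] [Finite G] (hno : ∀ H : Subgroup G, H.index ≠ 2) (hrank : ∃ E : Subgroup G, Nat.card E = 8 ∧ ∀ e ∈ E, e ^ 2 = 1) (x : G) (hx : orderOf x = 2) : ∃ E : Subgroup G, E ≤ Subgroup.centralizer ({x} : Set G) ∧ Nat.card E = 8 ∧ ∀ e ∈ E, e ^ 2 = 1 := by
  classical
  have : Fact (Nat.Prime 2) := ⟨Nat.prime_two⟩
  obtain ⟨E, hE, hE2⟩ := hrank
  obtain ⟨S, hES⟩ := (IsPGroup.of_card (p := 2) (n := 3) (by rw [hE]; norm_num) :
    IsPGroup 2 ↥E).exists_le_sylow
  obtain ⟨U', hU'n, hU'c, hU'2⟩ := Cfsg.Lib.TwoFus.exists_normal_four S.2 (E.subgroupOf (S : Subgroup G))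
    (by rw [Nat.card_congr (Subgroup.subgroupOfEquivOfLe hES).toEquiv, hE])
    (fun e he => Subtype.ext (by simpa using hE2 e (Subgroup.mem_subgroupOf.1 he)))
  set U := U'.map (S : Subgroup G).subtype with hU
  have hUc : Nat.card ↥U = 4 := by
    rw [hU, Subgroup.card_map_of_injective (Subgroup.subtype_injective _), hU'c]
  have hU2 : ∀ u ∈ U, u * u = 1 := by
    rintro _ ⟨u, hu, rfl⟩
    rw [← map_mul, ← sq, hU'2 u hu, map_one]
  have hUS : U ≤ (S : Subgroup G) := Subgroup.map_subtype_le _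
  set C := (S : Subgroup G) ⊓ Subgroup.centralizer (U : Set G) with hC
  have hUcomm : ∀ u ∈ U, ∀ v ∈ U, u * v = v * u := by
    intro u hu v hv
    calc u * v = (v * v) * (u * v) * (u * u) := by rw [hU2 v hv, hU2 u hu, one_mul, mul_one]
      _ = v * ((v * u) * (v * u)) * u := by group
      _ = v * u := by rw [hU2 _ (mul_mem hv hu), mul_one]
  -- an elementary subgroup of order 8 from an involution centralizing `U`
  have mk8 : ∀ t : G, t ∈ Subgroup.centralizer (U : Set G) → t ∉ U → t * t = 1 →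
      ∃ F : Subgroup G, Nat.card F = 8 ∧ (∀ f ∈ F, f ^ 2 = 1) ∧
        ∀ y, y ∈ U ∨ y = t → F ≤ Subgroup.centralizer ({y} : Set G) := by
    intro t ht htU htt
    have hct : ∀ u ∈ U, Commute u t := fun u hu => Subgroup.mem_centralizer_iff.1 ht u hu
    have hn : Subgroup.zpowers t ≤ Subgroup.normalizer (U : Set G) :=
      Subgroup.zpowers_le.2 (Subgroup.centralizer_le_normalizer _ ht)
    have hzt : ∀ {v : G}, v ∈ Subgroup.zpowers t → v = 1 ∨ v = t := by
      intro v hv
      obtain ⟨i, rfl⟩ := Subgroup.mem_zpowers_iff.1 hv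
      rcases Int.even_or_odd i with ⟨j, rfl⟩ | ⟨j, rfl⟩
      · left; rw [← two_mul, zpow_mul, zpow_two, htt, one_zpow]
      · right; rw [zpow_add, zpow_mul, zpow_two, htt, one_zpow, one_mul, zpow_one]
    have hmem : ∀ f ∈ U ⊔ Subgroup.zpowers t, ∃ u ∈ U, f = u ∨ f = u * t := by
      intro f hf
      have hf' : f ∈ ((U ⊔ Subgroup.zpowers t : Subgroup G) : Set G) := hf
      rw [Subgroup.coe_mul_of_right_le_normalizer_left _ _ hn] at hf'
      obtain ⟨u, hu, v, hv, rfl⟩ := hf'
      rcases hzt hv with rfl | rfl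
      · exact ⟨u, hu, Or.inl (mul_one u)⟩
      · exact ⟨u, hu, Or.inr rfl⟩
    refine ⟨U ⊔ Subgroup.zpowers t, ?_, fun f hf => ?_, fun y hy f hf => ?_⟩
    · let f : ↥U × ↥(Subgroup.zpowers t) → ↥(U ⊔ Subgroup.zpowers t) := fun q =>
        ⟨(q.1 : G) * (q.2 : G), mul_mem (Subgroup.mem_sup_left q.1.2) (Subgroup.mem_sup_right q.2.2)⟩
      have hd : Disjoint U (Subgroup.zpowers t) := Subgroup.disjoint_def.2 fun {v} hv hv' => by
        rcases hzt hv' with rfl | rfl
        · rfl
        · exact absurd hv htU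
      have hbij : Function.Bijective f := by
        refine ⟨fun q q' h => Subgroup.mul_injective_of_disjoint hd (congrArg Subtype.val h),
          fun w => ?_⟩
        have hw : (w : G) ∈ ((U ⊔ Subgroup.zpowers t : Subgroup G) : Set G) := w.2
        rw [Subgroup.coe_mul_of_right_le_normalizer_left _ _ hn] at hw
        obtain ⟨u, hu, v, hv, huv⟩ := hw
        exact ⟨(⟨u, hu⟩, ⟨v, hv⟩), Subtype.ext huv⟩
      rw [← Nat.card_eq_of_bijective f hbij, Nat.card_prod, hUc, Nat.card_zpowers,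
        orderOf_eq_prime (p := 2) (by rw [sq]; exact htt) fun e => htU (by rw [e]; exact one_mem _)]
    · obtain ⟨u, hu, rfl | rfl⟩ := hmem f hf <;> rw [sq]
      · exact hU2 _ hu
      · calc u * t * (u * t) = u * (t * u) * t := by group
          _ = u * (u * t) * t := by rw [(hct u hu).eq]
          _ = (u * u) * (t * t) := by group
          _ = 1 := by rw [hU2 u hu, htt, one_mul]
    · rw [Subgroup.mem_centralizer_singleton_iff]
      obtain ⟨u, hu, rfl | rfl⟩ := hmem f hf <;> rcases hy with hy | rfl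
      · exact hUcomm _ hu y hy
      · exact (hct _ hu).eq
      · calc u * t * y = u * (t * y) := mul_assoc _ _ _
          _ = u * (y * t) := by rw [(hct y hy).eq]
          _ = (u * y) * t := (mul_assoc _ _ _).symm
          _ = y * u * t := by rw [hUcomm u hu y hy]
          _ = y * (u * t) := mul_assoc _ _ _
      · exact ((hct u hu).mul_left (Commute.refl y)).eq
  -- the index of `C` in `S`
  have hidx : C = (S : Subgroup G) ∨ C.relIndex (S : Subgroup G) = 2 := by
    by_cases hall : (S : Subgroup G) ≤ Subgroup.centralizer (U : Set G)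
    · exact Or.inl (inf_eq_left.2 hall)
    right
    -- a central involution of `S` in `U`
    obtain ⟨z, hz, hzc, hz1⟩ : ∃ z ∈ U, (∀ s ∈ (S : Subgroup G), s * z * s⁻¹ = z) ∧ z ≠ 1 := by
      haveI := hU'n
      have hne := Cfsg.Lib.Transfer.inf_center_ne_bot S.2 U' (fun e => by
        rw [e, Subgroup.card_bot] at hU'c; omega)
      obtain ⟨⟨w, hwU, hwZ⟩, hw1⟩ := Subgroup.ne_bot_iff_exists_ne_one.1 hne
      refine ⟨w, ⟨w, hwU, rfl⟩, fun s hs => ?_, fun e => hw1 (Subtype.ext (Subtype.ext e))⟩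
      rw [show s * (w : G) = (w : G) * s from
        congrArg Subtype.val (Subgroup.mem_center_iff.1 hwZ ⟨s, hs⟩), mul_inv_cancel_right]
    have hconjU : ∀ s ∈ (S : Subgroup G), ∀ u ∈ U, s * u * s⁻¹ ∈ U := by
      rintro s hs _ ⟨u, hu, rfl⟩
      exact ⟨_, hU'n.conj_mem u hu ⟨s, hs⟩, rfl⟩
    obtain ⟨u, hu, hu1, huz⟩ : ∃ u ∈ U, u ≠ 1 ∧ u ≠ z := by
      by_contra h
      push Not at h
      have : U ≤ Subgroup.zpowers z := fun u hu => by
        by_cases h1 : u = 1
        · rw [h1]; exact one_mem _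
        · rw [h u hu h1]; exact Subgroup.mem_zpowers z
      have := (Nat.le_of_dvd Nat.card_pos (Subgroup.card_dvd_of_le this))
      rw [hUc, Nat.card_zpowers, orderOf_eq_prime (p := 2) (by rw [sq]; exact hU2 z hz) hz1] at this
      omega
    have hUlist : ∀ v ∈ U, v = 1 ∨ v = z ∨ v = u ∨ v = z * u := by
      intro v hv
      by_contra hne
      push Not at hne
      obtain ⟨n1, n2, n3, n4⟩ := hne
      have hzu : z * u ≠ 1 := fun e => huz (by
        calc u = (z * z) * u := by rw [hU2 z hz, one_mul]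
          _ = z * (z * u) := mul_assoc _ _ _
          _ = z := by rw [e, mul_one])
      have hzu2 : z * u ≠ z := fun e => hu1 (mul_eq_left.1 e)
      have hzu3 : z * u ≠ u := fun e => hz1 (mul_eq_right.1 e)
      have h5 : ({⟨1, one_mem _⟩, ⟨z, hz⟩, ⟨u, hu⟩, ⟨z * u, mul_mem hz hu⟩, ⟨v, hv⟩} :
          Finset ↥U).card ≤ Nat.card ↥U := by
        have := Fintype.ofFinite ↥U
        rw [Nat.card_eq_fintype_card]
        exact Finset.card_le_univ _
      rw [hUc, Finset.card_insert_of_notMem (by simp [Ne.symm hz1, Ne.symm hu1, Ne.symm hzu, Ne.symm n1]),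
        Finset.card_insert_of_notMem (by simp [Ne.symm huz, Ne.symm hzu2, Ne.symm n2]),
        Finset.card_insert_of_notMem (by simp [Ne.symm hzu3, Ne.symm n3]),
        Finset.card_insert_of_notMem (by simp [Ne.symm n4]), Finset.card_singleton] at h5
      omega
    have hCiff : ∀ s ∈ (S : Subgroup G), s ∈ C ↔ s * u * s⁻¹ = u := by
      intro s hs
      refine ⟨fun h => by rw [← Subgroup.mem_centralizer_iff.1 h.2 u hu, mul_inv_cancel_right],
        fun h => ⟨hs, Subgroup.mem_centralizer_iff.2 fun v hv => ?_⟩⟩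
      have hsu : Commute s u := mul_inv_eq_iff_eq_mul.1 h
      have hsz : Commute s z := mul_inv_eq_iff_eq_mul.1 (hzc s hs)
      rcases hUlist v hv with rfl | rfl | rfl | rfl
      · simp
      · exact hsz.eq.symm
      · exact hsu.eq.symm
      · exact (hsz.mul_right hsu).eq.symm
    have hmove : ∀ s ∈ (S : Subgroup G), s ∉ C → s * u * s⁻¹ = z * u := by
      intro s hs hsC
      rcases hUlist _ (hconjU s hs u hu) with h | h | h | h
      · exact absurd (conj_eq_one_iff.1 h) hu1
      · exfalso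
        exact huz ((MulAut.conj s).injective (show s * u * s⁻¹ = s * z * s⁻¹ by rw [h, hzc s hs]))
      · exact absurd ((hCiff s hs).2 h) hsC
      · exact h
    obtain ⟨s₀, hs₀, hs₀C⟩ : ∃ s ∈ (S : Subgroup G), s ∉ C := by
      by_contra h
      push Not at h
      exact hall fun s hs => (h s hs).2
    show (C.subgroupOf (S : Subgroup G)).index = 2
    rw [Subgroup.index_eq_two_iff]
    refine ⟨⟨s₀, hs₀⟩, fun b => ?_⟩
    simp only [Subgroup.mem_subgroupOf, Subgroup.coe_mul]
    by_cases hb : (b : G) ∈ C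
    · refine Or.inr ⟨hb, fun h => hs₀C ?_⟩
      have := mul_mem (inv_mem hb) h
      rwa [inv_mul_cancel_left] at this
    · refine Or.inl ⟨(hCiff _ (mul_mem b.2 hs₀)).2 ?_, hb⟩
      calc (b : G) * s₀ * u * ((b : G) * s₀)⁻¹ = (b : G) * (s₀ * u * s₀⁻¹) * (b : G)⁻¹ := by group
        _ = ((b : G) * z * (b : G)⁻¹) * ((b : G) * u * (b : G)⁻¹) := by
          rw [hmove s₀ hs₀ hs₀C]; group
        _ = z * (z * u) := by rw [hzc _ b.2, hmove _ b.2 hb]
        _ = u := by rw [← mul_assoc, hU2 z hz, one_mul]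
  -- conjugate `x` into `C`
  obtain ⟨g, hg⟩ : ∃ g : G, g * x * g⁻¹ ∈ C := by
    obtain ⟨g, hg⟩ := Cfsg.Lib.Invol.exists_conj_mem_sylow (H := Subgroup.zpowers x)
      (IsPGroup.of_card (n := 1) (by rw [Nat.card_zpowers, hx, pow_one])) S
    have hxS : g * x * g⁻¹ ∈ (S : Subgroup G) := hg x (Subgroup.mem_zpowers x)
    rcases hidx with h | h
    · exact ⟨g, by rw [h]; exact hxS⟩
    by_cases hxC : g * x * g⁻¹ ∈ C
    · exact ⟨g, hxC⟩
    rcases Cfsg.Agent.S0111.result S C inf_le_left h (g * x * g⁻¹)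
      (by rw [← MulAut.conj_apply, MulEquiv.orderOf_eq, hx]) hxS hxC with ⟨M, -, hM, -⟩ | ⟨g', hg'⟩
    · exact absurd hM (hno M)
    · exact ⟨g' * g, by rwa [show g' * g * x * (g' * g)⁻¹ = g' * (g * x * g⁻¹) * g'⁻¹ by group]⟩
  set y := g * x * g⁻¹ with hy
  have hy2 : y * y = 1 := by
    rw [← sq, hy, conj_pow, show x ^ 2 = 1 from hx ▸ pow_orderOf_eq_one x, mul_one, mul_inv_cancel]
  obtain ⟨F, hF8, hF2, hFy⟩ : ∃ F : Subgroup G, Nat.card F = 8 ∧ (∀ f ∈ F, f ^ 2 = 1) ∧
      F ≤ Subgroup.centralizer ({y} : Set G) := by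
    by_cases hyU : y ∈ U
    swap
    · obtain ⟨F, h1, h2, h3⟩ := mk8 y hg.2 hyU hy2
      exact ⟨F, h1, h2, h3 y (Or.inr rfl)⟩
    by_cases hEC : E ≤ C
    · exact ⟨E, hE, hE2, fun e he => Subgroup.mem_centralizer_singleton_iff.2
        (Subgroup.mem_centralizer_iff.1 (hEC he).2 y hyU).symm⟩
    obtain ⟨e, he, heC⟩ := SetLike.not_le_iff_exists.1 hEC
    obtain ⟨t, ht, htC, htU⟩ : ∃ t ∈ E, t ∈ C ∧ t ∉ U := by
      by_contra h
      push Not at h
      have hcov : E ≤ (E ⊓ U) ⊔ Subgroup.zpowers e := by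
        intro f hf
        by_cases hfC : f ∈ C
        · exact Subgroup.mem_sup_left ⟨hf, h f hf hfC⟩
        · have hr : C.relIndex (S : Subgroup G) = 2 := hidx.resolve_left fun e' =>
            heC (by rw [e']; exact hES he)
          have h2 : e * f ∈ C := Subgroup.mem_subgroupOf.1
            ((Subgroup.mul_mem_iff_of_index_two (show (C.subgroupOf (S : Subgroup G)).index = 2 from hr)
              (a := ⟨e, hES he⟩) (b := ⟨f, hES hf⟩)).2 (iff_of_false
              (fun h' => heC (Subgroup.mem_subgroupOf.1 h'))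
              (fun h' => hfC (Subgroup.mem_subgroupOf.1 h'))))
          have := mul_mem (inv_mem (Subgroup.mem_sup_right (S := E ⊓ U) (Subgroup.mem_zpowers e)))
            (Subgroup.mem_sup_left (T := Subgroup.zpowers e) ⟨mul_mem he hf, h _ (mul_mem he hf) h2⟩)
          rwa [inv_mul_cancel_left] at this
      by_cases hUE : U ≤ E
      · refine heC ⟨hES he, Subgroup.mem_centralizer_iff.2 fun u hu => ?_⟩
        have hsq : ∀ w ∈ E, w * w = 1 := fun w hw => by rw [← sq]; exact hE2 w hw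
        calc u * e = (e * e) * (u * e) * (u * u) := by
              rw [hsq e he, hU2 u hu, one_mul, mul_one]
          _ = e * ((e * u) * (e * u)) * u := by group
          _ = e * u := by rw [hsq _ (mul_mem he (hUE hu)), mul_one]
      · have hlt : Nat.card ↥(E ⊓ U) ≤ 2 := by
          obtain ⟨j, hj⟩ := (S.2.to_le ((inf_le_left : E ⊓ U ≤ E).trans hES)).exists_card_eq
          have hd : Nat.card ↥(E ⊓ U) ∣ 4 := hUc ▸ Subgroup.card_dvd_of_le inf_le_right
          have hne : Nat.card ↥(E ⊓ U) ≠ 4 := fun e4 => hUE (fun u hu => by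
            have := Subgroup.eq_of_le_of_card_ge (inf_le_right : E ⊓ U ≤ U) (by rw [hUc, e4])
            exact (this.symm ▸ hu : u ∈ E ⊓ U).1)
          have := Nat.le_of_dvd (by norm_num) hd
          generalize Nat.card ↥(E ⊓ U) = c at *
          interval_cases c <;> omega
        have hEcomm : ∀ a ∈ E, ∀ b ∈ E, Commute a b := by
          intro a ha b hb
          have hsq : ∀ w ∈ E, w * w = 1 := fun w hw => by rw [← sq]; exact hE2 w hw
          calc a * b = (b * b) * (a * b) * (a * a) := by rw [hsq a ha, hsq b hb, one_mul, mul_one]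
            _ = b * ((b * a) * (b * a)) * a := by group
            _ = b * a := by rw [hsq _ (mul_mem hb ha), mul_one]
        have hn : Subgroup.zpowers e ≤ Subgroup.normalizer ((E ⊓ U : Subgroup G) : Set G) :=
          Subgroup.zpowers_le.2 (Subgroup.centralizer_le_normalizer _
            (Subgroup.mem_centralizer_iff.2 fun w hw => (hEcomm w hw.1 e he).eq))
        have hc2 : Nat.card ↥((E ⊓ U) ⊔ Subgroup.zpowers e) ≤
            Nat.card ↥(E ⊓ U) * Nat.card ↥(Subgroup.zpowers e) := by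
          rw [← Nat.card_prod]
          refine Nat.card_le_card_of_surjective (fun q : ↥(E ⊓ U) × ↥(Subgroup.zpowers e) =>
            (⟨(q.1 : G) * (q.2 : G), mul_mem (Subgroup.mem_sup_left q.1.2)
              (Subgroup.mem_sup_right q.2.2)⟩ : ↥((E ⊓ U) ⊔ Subgroup.zpowers e))) fun w => ?_
          have hw : (w : G) ∈ (((E ⊓ U) ⊔ Subgroup.zpowers e : Subgroup G) : Set G) := w.2
          rw [Subgroup.coe_mul_of_right_le_normalizer_left _ _ hn] at hw
          obtain ⟨u, hu, v, hv, huv⟩ := hw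
          exact ⟨(⟨u, hu⟩, ⟨v, hv⟩), Subtype.ext huv⟩
        have h2 : Nat.card ↥(Subgroup.zpowers e) ≤ 2 := by
          rw [Nat.card_zpowers]
          exact Nat.le_of_dvd two_pos (orderOf_dvd_of_pow_eq_one (hE2 e he))
        have := ((Nat.le_of_dvd Nat.card_pos (Subgroup.card_dvd_of_le hcov)).trans
          (hc2.trans (Nat.mul_le_mul hlt h2)))
        omega
    obtain ⟨F, h1, h2, h3⟩ := mk8 t htC.2 htU (by rw [← sq]; exact hE2 t ht)
    exact ⟨F, h1, h2, h3 y (Or.inl hyU)⟩
  refine ⟨F.map (MulAut.conj g⁻¹).toMonoidHom, ?_,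
    by rw [Subgroup.card_map_of_injective (MulAut.conj g⁻¹).injective, hF8], ?_⟩
  · rintro _ ⟨f, hf, rfl⟩
    rw [Subgroup.mem_centralizer_singleton_iff]
    have h := Subgroup.mem_centralizer_singleton_iff.1 (hFy hf)
    show g⁻¹ * f * g⁻¹⁻¹ * x = x * (g⁻¹ * f * g⁻¹⁻¹)
    calc g⁻¹ * f * g⁻¹⁻¹ * x = g⁻¹ * (f * y) * g := by rw [hy]; group
      _ = g⁻¹ * (y * f) * g := by rw [h]
      _ = x * (g⁻¹ * f * g⁻¹⁻¹) := by rw [hy]; group
  · rintro _ ⟨f, hf, rfl⟩
    rw [← map_pow, hF2 f hf, map_one]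

end Cfsg.Agent.S0221
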