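import Cfsg.Statements.S0226
import Mathlib
-- import your own Cfsg.Agent.* helpers here

set_option autoImplicit false
open Cfsg

namespace Cfsg.Agent.S0226

/-- A finite group of even order has an odd number of involutions. -/
theorem result {G : Type*} [Group G] [Finite G] (heven : Even (Nat.card G)) : Odd (Nat.card {t : G // orderOf t = 2}) := by
  classical
  have := Fintype.ofFinite G
  have hsum : ∑ g ∈ (Finset.univ.filter fun g : G => g⁻¹ ≠ g), (1 : ZMod 2) = 0 := by
    refine Finset.sum_involution (fun g _ => g⁻¹) (fun _ _ => by decide) (fun g hg _ => ?_)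
      (fun g hg => ?_) (fun g _ => inv_inv g)
    · exact (Finset.mem_filter.1 hg).2
    · simpa [eq_comm] using (Finset.mem_filter.1 hg).2
  have heq : (Finset.univ.filter fun g : G => ¬ g⁻¹ ≠ g) =
      insert 1 (Finset.univ.filter fun g : G => orderOf g = 2) := by
    ext g
    simp only [Finset.mem_filter, Finset.mem_univ, true_and, not_not, Finset.mem_insert]
    rw [orderOf_eq_prime_iff, sq, inv_eq_iff_mul_eq_one]
    constructor
    · intro h
      by_cases hg : g = 1 <;> simp [hg, h]
    · rintro (rfl | ⟨h, -⟩) <;> simp [*]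
  have hsplit := Finset.card_filter_add_card_filter_not (s := (Finset.univ : Finset G))
    (fun g : G => g⁻¹ ≠ g)
  rw [heq, Finset.card_insert_of_notMem (by simp), Finset.card_univ] at hsplit
  rw [Nat.card_eq_fintype_card, Fintype.card_subtype]
  rw [Nat.card_eq_fintype_card] at heven
  simp only [Finset.sum_const, nsmul_eq_mul, mul_one, ZMod.natCast_eq_zero_iff_even] at hsum
  obtain ⟨a, ha⟩ := hsum
  obtain ⟨b, hb⟩ := heven
  rw [Nat.odd_iff]
  omega

end Cfsg.Agent.S0226
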