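import Cfsg.Statements.S0230
import Mathlib
import Cfsg.Agent.Lib.Invol.Dihedral
-- import your own Cfsg.Agent.* helpers here

set_option autoImplicit false
open Cfsg

namespace Cfsg.Agent.S0230

/-- Let G be a finite group with two non-conjugate involutions, and let t be an involution whose centralizer has maximal order among centralizers of involutions. Then |G| < |C_G(t)|^3. -/
theorem result {G : Type*} [Group G] [Finite G] (s t : G) (hs : orderOf s = 2) (ht : orderOf t = 2) (hnc : ¬ IsConj s t) (hmax : ∀ u : G, orderOf u = 2 → Nat.card (Subgroup.centralizer ({u} : Set G)) ≤ Nat.card (Subgroup.centralizer ({t} : Set G))) : Nat.card G < Nat.card (Subgroup.centralizer ({t} : Set G)) ^ 3 := by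
  classical
  have := Fintype.ofFinite G
  set M := Nat.card (Subgroup.centralizer ({t} : Set G)) with hM
  let cen : G → Finset G := fun u => Finset.univ.filter (fun v => orderOf v = 2 ∧ Commute u v)
  have hcen : ∀ u : G, orderOf u = 2 → (cen u).card + 1 ≤ M := by
    intro u hu
    refine le_trans ?_ (hmax u hu)
    have hsub : insert 1 (cen u) ⊆ (Subgroup.centralizer ({u} : Set G) : Set G).toFinset := by
      intro v hv
      rw [Set.mem_toFinset, SetLike.mem_coe, Subgroup.mem_centralizer_singleton_iff]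
      rcases Finset.mem_insert.1 hv with rfl | hv
      · rw [one_mul, mul_one]
      · exact (Finset.mem_filter.1 hv).2.2.eq.symm
    have h1 : (1 : G) ∉ cen u := by simp [cen]
    have h2 := Finset.card_le_card hsub
    rw [Finset.card_insert_of_notMem h1, Set.toFinset_card] at h2
    rw [Nat.card_eq_fintype_card]
    exact h2
  have hcover : (Finset.univ.image fun g => g * t * g⁻¹) ⊆ (cen s).biUnion cen := by
    intro v hv
    obtain ⟨g, -, rfl⟩ := Finset.mem_image.1 hv
    have hv2 := Cfsg.Lib.Invol.orderTwo_conj g ht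
    have hev : Even (orderOf (s * (g * t * g⁻¹))) := by
      rw [← Nat.not_odd_iff_even]
      exact fun hodd => hnc ((Cfsg.Lib.Invol.isConj_of_odd hs hv2 hodd).trans
        (isConj_iff.2 ⟨g⁻¹, by group⟩))
    refine Finset.mem_biUnion.2 ⟨_, Finset.mem_filter.2 ⟨Finset.mem_univ _,
      Cfsg.Lib.Invol.orderTwo_half hev, (Cfsg.Lib.Invol.commute_half_left hs hv2 hev).symm⟩, ?_⟩
    exact Finset.mem_filter.2 ⟨Finset.mem_univ _, hv2, Cfsg.Lib.Invol.commute_half_right hs hv2 hev⟩
  have hclass : (Finset.univ.image fun g => g * t * g⁻¹).card * M = Nat.card G := by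
    rw [hM, ← Subgroup.card_mul_index (Subgroup.centralizer ({t} : Set G)), mul_comm]
    congr 1
    rw [Subgroup.index_eq_card, ← Nat.card_eq_finsetCard]
    symm
    refine Nat.card_eq_of_bijective (Quotient.lift (fun g => (⟨g * t * g⁻¹, Finset.mem_image.2
      ⟨g, Finset.mem_univ _, rfl⟩⟩ : {x // x ∈ Finset.univ.image fun g : G => g * t * g⁻¹})) ?_) ⟨?_, ?_⟩
    · intro a b hab
      have hc := Subgroup.mem_centralizer_singleton_iff.1 (QuotientGroup.leftRel_apply.1 hab)
      refine Subtype.ext ?_
      show a * t * a⁻¹ = b * t * b⁻¹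
      calc a * t * a⁻¹ = a * (t * (a⁻¹ * b)) * b⁻¹ := by group
        _ = b * t * b⁻¹ := by rw [← hc]; group
    · rintro ⟨a⟩ ⟨b⟩ hab
      have h : a * t * a⁻¹ = b * t * b⁻¹ := congrArg Subtype.val hab
      refine QuotientGroup.eq.2 (Subgroup.mem_centralizer_singleton_iff.2 ?_)
      calc a⁻¹ * b * t = a⁻¹ * (b * t * b⁻¹) * b := by group
        _ = t * (a⁻¹ * b) := by rw [← h]; group
    · rintro ⟨v, hv⟩
      obtain ⟨g, -, rfl⟩ := Finset.mem_image.1 hv
      exact ⟨QuotientGroup.mk g, rfl⟩
  have hM0 : 0 < M := by rw [hM]; exact Nat.card_pos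
  have h1 : (Finset.univ.image fun g => g * t * g⁻¹).card < M * M := by
    refine lt_of_le_of_lt ((Finset.card_le_card hcover).trans
      (Finset.card_biUnion_le_card_mul _ _ (M - 1) fun u hu => ?_)) ?_
    · have := hcen u (Finset.mem_filter.1 hu).2.1
      omega
    · have := hcen s hs
      calc (cen s).card * (M - 1) ≤ (cen s).card * M := Nat.mul_le_mul_left _ (Nat.sub_le _ _)
        _ < M * M := Nat.mul_lt_mul_of_pos_right (by omega) hM0
  rw [← hclass, pow_succ, sq]
  exact Nat.mul_lt_mul_of_pos_right h1 hM0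

end Cfsg.Agent.S0230
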