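import Cfsg.Statements.S0231
import Mathlib
import Cfsg.Agent.Lib.Invol.Dihedral
-- import your own Cfsg.Agent.* helpers here

set_option autoImplicit false
open scoped Pointwise
open Cfsg

namespace Cfsg.Agent.S0231

/-- Let T be a Sylow 2-subgroup of the finite group G which is not normal and which intersects every other Sylow 2-subgroup trivially. Then G has a single conjugacy class of involutions. -/
theorem result {G : Type*} [Group G] [Finite G] (T : Sylow 2 G) (hnn : ¬ (T : Subgroup G).Normal) (hTI : ∀ g : G, MulAut.conj g • (T : Subgroup G) ≠ T → MulAut.conj g • (T : Subgroup G) ⊓ T = ⊥) (s t : G) (hs : orderOf s = 2) (ht : orderOf t = 2) : IsConj s t := by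
  have : Fact (Nat.Prime 2) := ⟨Nat.prime_two⟩
  have huniq : ∀ z : G, z ≠ 1 → ∀ A B : Sylow 2 G,
      z ∈ (A : Subgroup G) → z ∈ (B : Subgroup G) → A = B := by
    intro z hz A B hA hB
    obtain ⟨a, rfl⟩ := MulAction.exists_smul_eq G T A
    obtain ⟨b, rfl⟩ := MulAction.exists_smul_eq G T B
    by_contra hne
    rw [Sylow.coe_subgroup_smul] at hA hB
    have hne' : MulAut.conj (a⁻¹ * b) • (T : Subgroup G) ≠ T := fun h => hne (by
      refine Sylow.ext ?_
      rw [Sylow.coe_subgroup_smul, Sylow.coe_subgroup_smul]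
      conv_lhs => rw [← h]
      rw [smul_smul, ← map_mul, mul_inv_cancel_left])
    have hmem : a⁻¹ * z * a⁻¹⁻¹ ∈ MulAut.conj (a⁻¹ * b) • (T : Subgroup G) ⊓ T := by
      refine Subgroup.mem_inf.2 ⟨?_, ?_⟩
      · rw [map_mul, mul_smul]
        exact Subgroup.smul_mem_pointwise_smul z (MulAut.conj a⁻¹) _ hB
      · have := Subgroup.mem_pointwise_smul_iff_inv_smul_mem.1 hA
        rwa [← map_inv] at this
    rw [hTI _ hne', Subgroup.mem_bot, conj_eq_one_iff] at hmem
    exact hz hmem
  have hcommon : ∀ a b : G, orderOf a = 2 → orderOf b = 2 → ¬ IsConj a b → ∀ A B : Sylow 2 G,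
      a ∈ (A : Subgroup G) → b ∈ (B : Subgroup G) → A = B := by
    intro a b ha hb hnc A B hA hB
    have hev : Even (orderOf (a * b)) := by
      rw [← Nat.not_odd_iff_even]
      exact fun hodd => hnc (Cfsg.Lib.Invol.isConj_of_odd ha hb hodd)
    set z := (a * b) ^ (orderOf (a * b) / 2) with hz
    have hz2 : orderOf z = 2 := Cfsg.Lib.Invol.orderTwo_half hev
    have hsyl : ∀ x : G, orderOf x = 2 → Commute z x →
        ∃ U : Sylow 2 G, z ∈ (U : Subgroup G) ∧ x ∈ (U : Subgroup G) := by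
      intro x hx hc
      have h : IsPGroup 2 ↥(Subgroup.zpowers z ⊔ Subgroup.zpowers x) :=
        IsPGroup.to_sup_of_normal_left'
          (IsPGroup.of_card (n := 1) (by rw [Nat.card_zpowers, hz2, pow_one]))
          (IsPGroup.of_card (n := 1) (by rw [Nat.card_zpowers, hx, pow_one]))
          (Subgroup.zpowers_le.2 (Subgroup.centralizer_le_normalizer _
            (Subgroup.mem_centralizer_iff.2 fun y hy => by
              obtain ⟨i, rfl⟩ := Subgroup.mem_zpowers_iff.1 hy
              exact (hc.zpow_left i).eq)))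
      obtain ⟨U, hU⟩ := h.exists_le_sylow
      exact ⟨U, hU (Subgroup.mem_sup_left (Subgroup.mem_zpowers z)),
        hU (Subgroup.mem_sup_right (Subgroup.mem_zpowers x))⟩
    obtain ⟨U, hzU, haU⟩ := hsyl a ha (Cfsg.Lib.Invol.commute_half_left ha hb hev)
    obtain ⟨V, hzV, hbV⟩ := hsyl b hb (Cfsg.Lib.Invol.commute_half_right ha hb hev)
    rw [huniq a (Cfsg.Lib.Invol.ne_one_of_orderTwo ha) A U hA haU,
      huniq b (Cfsg.Lib.Invol.ne_one_of_orderTwo hb) B V hB hbV,
      huniq z (Cfsg.Lib.Invol.ne_one_of_orderTwo hz2) U V hzU hzV]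
  by_contra hnc
  obtain ⟨A, hA⟩ := (IsPGroup.of_card (n := 1) (by rw [Nat.card_zpowers, hs, pow_one]) :
    IsPGroup 2 ↥(Subgroup.zpowers s)).exists_le_sylow
  have hsA : s ∈ (A : Subgroup G) := hA (Subgroup.mem_zpowers s)
  obtain ⟨B, hB⟩ := (IsPGroup.of_card (n := 1) (by rw [Nat.card_zpowers, ht, pow_one]) :
    IsPGroup 2 ↥(Subgroup.zpowers t)).exists_le_sylow
  obtain ⟨g, hg⟩ : ∃ g : G, g • B ≠ A := by
    by_contra h
    push_neg at h
    refine hnn ?_
    obtain ⟨c, rfl⟩ := MulAction.exists_smul_eq G T B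
    refine Subgroup.normalizer_eq_top_iff.1 (eq_top_iff.2 fun x _ => ?_)
    refine Sylow.smul_eq_iff_mem_normalizer.1 ?_
    have h1 := h (x * c⁻¹)
    have h2 := h c⁻¹
    rw [smul_smul, inv_mul_cancel_right] at h1
    rw [smul_smul, inv_mul_cancel, one_smul] at h2
    rw [h1, h2]
  refine hg (hcommon s (g * t * g⁻¹) hs (Cfsg.Lib.Invol.orderTwo_conj g ht)
    (fun h => hnc (h.trans (isConj_iff.2 ⟨g⁻¹, by group⟩))) A (g • B) hsA ?_).symm
  rw [Sylow.coe_subgroup_smul]
  exact Subgroup.smul_mem_pointwise_smul t (MulAut.conj g) _ (hB (Subgroup.mem_zpowers t))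

end Cfsg.Agent.S0231
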