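import Cfsg.Statements.S0235
import Mathlib
-- import your own Cfsg.Agent.* helpers here

set_option autoImplicit false
open Cfsg

namespace Cfsg.Agent.S0235

/-- If x² ≠ 1, the ordered pairs (u, v) of involutions with uv = x correspond bijectively to the involutions t with t x t⁻¹ = x⁻¹ (via (u, v) ↦ u), so the two counts agree. -/
theorem result {G : Type*} [Group G] [Finite G] (x : G) (hx : x ^ 2 ≠ 1) : Nat.card {p : G × G // orderOf p.1 = 2 ∧ orderOf p.2 = 2 ∧ p.1 * p.2 = x} = Nat.card {t : G // orderOf t = 2 ∧ t * x * t⁻¹ = x⁻¹} := by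
  have h2 : ∀ a : G, orderOf a = 2 → a⁻¹ = a := fun a ha =>
    inv_eq_of_mul_eq_one_right (by rw [← sq, ← ha, pow_orderOf_eq_one])
  refine Nat.card_congr
    { toFun := fun p => ⟨p.1.1, p.2.1, ?_⟩
      invFun := fun t => ⟨(t.1, t.1 * x), t.2.1, ?_, ?_⟩
      left_inv := ?_
      right_inv := fun t => rfl }
  · obtain ⟨⟨a, b⟩, ha, hb, rfl⟩ := p
    calc a * (a * b) * a⁻¹ = a * (a * b) * a := by rw [h2 a ha]
      _ = a * a * (b * a) := by group
      _ = b * a := by nth_rw 2 [← h2 a ha]; group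
      _ = (a * b)⁻¹ := by rw [mul_inv_rev, h2 a ha, h2 b hb]
  · obtain ⟨t, ht, htx⟩ := t
    refine orderOf_eq_prime ?_ ?_
    · calc (t * x) ^ 2 = t * x * t⁻¹ * (t * t) * x := by rw [sq]; group
        _ = 1 := by rw [htx]; nth_rw 1 [← h2 t ht]; group
    · intro h
      have hxt : x = t := by rw [← h2 t ht, eq_inv_of_mul_eq_one_right h]
      exact hx (by rw [hxt, ← ht, pow_orderOf_eq_one])
  · obtain ⟨t, ht, htx⟩ := t
    show t * (t * x) = x
    rw [← mul_assoc, ← sq, ← ht, pow_orderOf_eq_one, one_mul]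
  · rintro ⟨⟨a, b⟩, ha, hb, rfl⟩
    simp only [Subtype.mk.injEq, Prod.mk.injEq, true_and]
    rw [← mul_assoc, ← sq, ← ha, pow_orderOf_eq_one, one_mul]

end Cfsg.Agent.S0235
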