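import Cfsg.Statements.S0236
import Mathlib
-- import your own Cfsg.Agent.* helpers here

set_option autoImplicit false
open Cfsg

namespace Cfsg.Agent.S0236

/-- If x is an involution, the number of ordered pairs (u, v) of involutions with uv = x, plus one, equals the number of involutions in the centralizer of x. -/
theorem result {G : Type*} [Group G] [Finite G] (x : G) (hx : orderOf x = 2) : Nat.card {p : G × G // orderOf p.1 = 2 ∧ orderOf p.2 = 2 ∧ p.1 * p.2 = x} + 1 = Nat.card {t : G // orderOf t = 2 ∧ Commute t x} := by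
  classical
  have hsq : ∀ a : G, orderOf a = 2 → a * a = 1 := fun a ha => by rw [← sq, ← ha, pow_orderOf_eq_one]
  have hinv : ∀ a : G, orderOf a = 2 → a⁻¹ = a := fun a ha => inv_eq_of_mul_eq_one_right (hsq a ha)
  rw [← Finite.card_option]
  refine Nat.card_congr
    { toFun := fun o => o.elim ⟨x, hx, Commute.refl x⟩ fun p => ⟨p.1.1, p.2.1, ?_⟩
      invFun := fun t => if h : t.1 = x then none else some ⟨(t.1, t.1 * x), t.2.1, ?_, ?_⟩
      left_inv := ?_
      right_inv := ?_ }
  · obtain ⟨⟨a, b⟩, ha, hb, hab⟩ := p
    dsimp only at *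
    subst hab
    have hba : b * a = a * b := by
      conv_lhs => rw [← hinv a ha, ← hinv b hb, ← mul_inv_rev, hinv _ hx]
    show a * (a * b) = a * b * a
    rw [mul_assoc, hba]
  · refine orderOf_eq_prime ?_ ?_
    · rw [t.2.2.mul_pow, sq, sq, hsq _ t.2.1, hsq _ hx, one_mul]
    · intro h1
      exact h (by rw [eq_inv_of_mul_eq_one_left h1, hinv x hx])
  · show t.1 * (t.1 * x) = x
    rw [← mul_assoc, hsq _ t.2.1, one_mul]
  · rintro (_ | ⟨⟨a, b⟩, ha, hb, hab⟩)
    · simp
    · have hne : a ≠ x := by
        rintro rfl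
        exact absurd hb (by rw [mul_eq_left.1 hab, orderOf_one]; norm_num)
      simp only [Option.elim_some]
      have h1 : a * (a * b) = b := by rw [← mul_assoc, hsq a ha, one_mul]
      refine (dif_neg hne).trans ?_
      refine Option.some_inj.2 (Subtype.ext (Prod.ext rfl ?_))
      exact (congrArg (a * ·) hab.symm).trans h1
  · intro t
    by_cases h : t.1 = x
    · simp only [dif_pos h, Option.elim_none]
      exact Subtype.ext h.symm
    · simp only [dif_neg h, Option.elim_some]

end Cfsg.Agent.S0236
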