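import Cfsg.Statements.S0237
import Mathlib
-- import your own Cfsg.Agent.* helpers here

set_option autoImplicit false
open Cfsg

namespace Cfsg.Agent.S0237

/-- If x is real (conjugate to x⁻¹) in a finite group G, the number of g with g x g⁻¹ = x⁻¹ equals |C_G(x)|. -/
theorem result {G : Type*} [Group G] [Finite G] (x : G) (hreal : IsConj x x⁻¹) : Nat.card {g : G // g * x * g⁻¹ = x⁻¹} = Nat.card (Subgroup.centralizer ({x} : Set G)) := by
  obtain ⟨c, hc⟩ := isConj_iff.1 hreal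
  refine Nat.card_congr ⟨fun g => ⟨c⁻¹ * g.1, ?_⟩, fun h => ⟨c * h.1, ?_⟩,
    fun g => Subtype.ext (mul_inv_cancel_left _ _), fun h => Subtype.ext (inv_mul_cancel_left _ _)⟩
  · refine Subgroup.mem_centralizer_singleton_iff.2 ?_
    have e : g.1 * x = x⁻¹ * g.1 := by
      have := g.2
      calc g.1 * x = g.1 * x * g.1⁻¹ * g.1 := by group
        _ = x⁻¹ * g.1 := by rw [this]
    have e' : x⁻¹ * g.1 = c * x * c⁻¹ * g.1 := by rw [hc]
    calc c⁻¹ * g.1 * x = c⁻¹ * (g.1 * x) := mul_assoc _ _ _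
      _ = x * (c⁻¹ * g.1) := by rw [e, e']; group
  · have e := Subgroup.mem_centralizer_singleton_iff.1 h.2
    calc c * h.1 * x * (c * h.1)⁻¹ = c * (h.1 * x * h.1⁻¹) * c⁻¹ := by group
      _ = x⁻¹ := by rw [show h.1 * x * h.1⁻¹ = x by rw [e]; group, hc]

end Cfsg.Agent.S0237
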