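import Cfsg.Statements.S0238
import Mathlib
import Cfsg.Agent.S0237
-- import your own Cfsg.Agent.* helpers here

set_option autoImplicit false
open Cfsg

namespace Cfsg.Agent.S0238

/-- For every x in a finite group G, the number c of ordered pairs (u, v) of involutions with uv = x is at most |C_G(x)|; c = 0 when x is not conjugate to x⁻¹; and c + 2 ≤ |C_G(x)| when x is an involution. -/
theorem result {G : Type*} [Group G] [Finite G] (x : G) : Nat.card {p : G × G // orderOf p.1 = 2 ∧ orderOf p.2 = 2 ∧ p.1 * p.2 = x} ≤ Nat.card (Subgroup.centralizer ({x} : Set G)) ∧ (¬ IsConj x x⁻¹ → Nat.card {p : G × G // orderOf p.1 = 2 ∧ orderOf p.2 = 2 ∧ p.1 * p.2 = x} = 0) ∧ (orderOf x = 2 → Nat.card {p : G × G // orderOf p.1 = 2 ∧ orderOf p.2 = 2 ∧ p.1 * p.2 = x} + 2 ≤ Nat.card (Subgroup.centralizer ({x} : Set G))) := by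
  have hsq : ∀ a : G, orderOf a = 2 → a * a = 1 := fun a ha => by rw [← sq, ← ha, pow_orderOf_eq_one]
  have hne : ∀ a : G, orderOf a = 2 → a ≠ 1 := fun a ha h => by simp [h] at ha
  have hinv : ∀ a : G, orderOf a = 2 → a⁻¹ = a := fun a ha => inv_eq_of_mul_eq_one_right (hsq a ha)
  set P := {p : G × G // orderOf p.1 = 2 ∧ orderOf p.2 = 2 ∧ p.1 * p.2 = x}
  have hxinv : ∀ p : P, p.1.1 * x * p.1.1⁻¹ = x⁻¹ := by
    rintro ⟨⟨a, b⟩, ha, hb, rfl⟩
    show a * (a * b) * a⁻¹ = (a * b)⁻¹
    rw [mul_inv_rev, hinv a ha, hinv b hb, ← mul_assoc, hsq a ha, one_mul]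
  have hsnd : ∀ p : P, p.1.2 = p.1.1 * x := by
    rintro ⟨⟨a, b⟩, ha, hb, rfl⟩
    show b = a * (a * b)
    rw [← mul_assoc, hsq a ha, one_mul]
  have hinj : Function.Injective (fun p : P => p.1.1) := fun p q h => Subtype.ext
    (Prod.ext h (by rw [hsnd p, hsnd q]; exact congrArg (· * x) h))
  refine ⟨?_, ?_, ?_⟩
  · by_cases hreal : IsConj x x⁻¹
    · rw [← Cfsg.Agent.S0237.result x hreal]
      exact Nat.card_le_card_of_injective
        (fun p : P => (⟨p.1.1, hxinv p⟩ : {g : G // g * x * g⁻¹ = x⁻¹}))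
        (fun p q h => hinj (congrArg Subtype.val h))
    · have : IsEmpty P := ⟨fun p => hreal (isConj_iff.2 ⟨_, hxinv p⟩)⟩
      simp
  · intro hnr
    have : IsEmpty P := ⟨fun p => hnr (isConj_iff.2 ⟨_, hxinv p⟩)⟩
    simp
  · intro hx
    set C := Subgroup.centralizer ({x} : Set G)
    have hmem : ∀ p : P, p.1.1 ∈ C := fun p => Subgroup.mem_centralizer_singleton_iff.2 (by
      have h := hxinv p
      rw [hinv x hx] at h
      exact mul_inv_eq_iff_eq_mul.1 h)
    let f : P ⊕ Fin 2 → C := Sum.elim (fun p => ⟨p.1.1, hmem p⟩)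
      ![1, ⟨x, Subgroup.mem_centralizer_singleton_iff.2 rfl⟩]
    have hf : Function.Injective f := by
      have hfst : ∀ p : P, p.1.1 ≠ 1 ∧ p.1.1 ≠ x := fun p => ⟨hne _ p.2.1, fun h =>
        hne _ p.2.2.1 (by rw [hsnd p, h, hsq x hx])⟩
      rintro (p | i) (q | j) h
      · exact congrArg Sum.inl (hinj (congrArg Subtype.val h))
      · exfalso
        fin_cases j
        · exact (hfst p).1 (congrArg Subtype.val h)
        · exact (hfst p).2 (congrArg Subtype.val h)
      · exfalso
        fin_cases i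
        · exact (hfst q).1 (congrArg Subtype.val h).symm
        · exact (hfst q).2 (congrArg Subtype.val h).symm
      · fin_cases i <;> fin_cases j
        · rfl
        · exact absurd (congrArg Subtype.val h).symm (hne x hx)
        · exact absurd (congrArg Subtype.val h) (hne x hx)
        · rfl
    have := Nat.card_le_card_of_injective f hf
    rwa [Nat.card_sum, Nat.card_fin] at this

end Cfsg.Agent.S0238
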