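import Cfsg.Statements.S0239
import Mathlib
-- import your own Cfsg.Agent.* helpers here

set_option autoImplicit false
open Cfsg

namespace Cfsg.Agent.S0239

/-- If some nontrivial element x of a finite group G is conjugate to x⁻¹, then |G| is even. -/
theorem result {G : Type*} [Group G] [Finite G] (x : G) (hx : x ≠ 1) (hreal : IsConj x x⁻¹) : Even (Nat.card G) := by
  by_contra hodd
  rw [Nat.not_even_iff_odd] at hodd
  obtain ⟨g, hg⟩ := isConj_iff.1 hreal
  obtain ⟨m, hm⟩ := (hodd.of_dvd_nat (orderOf_dvd_natCard g) : Odd (orderOf g))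
  have hc : Commute (g ^ 2) x := by
    show g ^ 2 * x = x * g ^ 2
    rw [← mul_inv_eq_iff_eq_mul, sq, mul_inv_rev,
      show g * g * x * (g⁻¹ * g⁻¹) = g * (g * x * g⁻¹) * g⁻¹ by group, hg, ← conj_inv, hg, inv_inv]
  have hgx : Commute g x := by
    have := hc.pow_left (m + 1)
    rwa [← pow_mul, show 2 * (m + 1) = orderOf g + 1 by omega, pow_succ, pow_orderOf_eq_one,
      one_mul] at this
  rw [hgx.eq, mul_inv_cancel_right] at hg
  have h2 : x ^ 2 = 1 := by rw [sq]; nth_rw 2 [hg]; exact mul_inv_cancel x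
  have hd : orderOf x = 2 := orderOf_eq_prime h2 hx
  exact Nat.not_even_iff_odd.2 hodd (even_iff_two_dvd.2 (hd ▸ orderOf_dvd_natCard x))

end Cfsg.Agent.S0239
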