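import Cfsg.Statements.S0240
import Mathlib
-- import your own Cfsg.Agent.* helpers here

set_option autoImplicit false
open Cfsg

namespace Cfsg.Agent.S0240

/-- Let G be a finite group with n involutions and H a subgroup with |H|·(n+1) > |G|. Then some nontrivial h ∈ H is strongly real in G: an involution t of G satisfies t h t⁻¹ = h⁻¹. -/
theorem result {G : Type*} [Group G] [Finite G] (H : Subgroup G) (hH : Nat.card G < Nat.card H * (Nat.card {t : G // orderOf t = 2} + 1)) : ∃ h : G, h ∈ H ∧ h ≠ 1 ∧ ∃ t : G, orderOf t = 2 ∧ t * h * t⁻¹ = h⁻¹ := by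
  classical
  have := Fintype.ofFinite G
  have hinv : ∀ a : G, a = 1 ∨ orderOf a = 2 → a⁻¹ = a := by
    rintro a (rfl | ha)
    · exact inv_one
    · exact inv_eq_of_mul_eq_one_right (by rw [← sq, ← ha, pow_orderOf_eq_one])
  let f : Option {t : G // orderOf t = 2} → G ⧸ H := fun o => ((o.elim 1 Subtype.val : G) : G ⧸ H)
  have hnotinj : ¬ Function.Injective f := fun hf => by
    have h1 := Nat.card_le_card_of_injective f hf
    rw [Finite.card_option] at h1
    have h2 := H.card_eq_card_quotient_mul_card_subgroup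
    have := Nat.mul_le_mul_left (Nat.card H) h1
    rw [Nat.mul_comm (Nat.card H) (Nat.card (G ⧸ H)), ← h2] at this
    omega
  rw [Function.not_injective_iff] at hnotinj
  obtain ⟨o, o', ho, hne⟩ := hnotinj
  have hval : ∀ o : Option {t : G // orderOf t = 2},
      (o.elim 1 Subtype.val : G) = 1 ∨ orderOf (o.elim 1 Subtype.val : G) = 2 := fun o =>
    match o with
    | none => Or.inl rfl
    | some t => Or.inr t.2
  have hneq : (o.elim 1 Subtype.val : G) ≠ o'.elim 1 Subtype.val := by
    intro h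
    rcases o with _ | t <;> rcases o' with _ | t' <;> simp only [Option.elim_none, Option.elim_some] at h
    · exact hne rfl
    · exact absurd t'.2 (by rw [← h, orderOf_one]; norm_num)
    · exact absurd t.2 (by rw [h, orderOf_one]; norm_num)
    · exact hne (congrArg some (Subtype.ext h))
  obtain ⟨a, b, ha, hb, hab, hH'⟩ : ∃ a b : G, (a = 1 ∨ orderOf a = 2) ∧
      (b = 1 ∨ orderOf b = 2) ∧ a ≠ b ∧ a⁻¹ * b ∈ H :=
    ⟨_, _, hval o, hval o', hneq, QuotientGroup.eq.1 ho⟩
  refine ⟨a⁻¹ * b, hH', fun h => hab (inv_mul_eq_one.1 h), ?_⟩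
  rcases ha with rfl | ha
  · have hb2 : orderOf b = 2 := hb.resolve_left fun h => hab h.symm
    refine ⟨b, hb2, ?_⟩
    rw [inv_one, one_mul, mul_inv_cancel_right, hinv b (Or.inr hb2)]
  · refine ⟨a, ha, ?_⟩
    rw [mul_inv_rev, inv_inv, hinv b hb, hinv a (Or.inr ha), ← mul_assoc a a, ← sq, ← ha,
      pow_orderOf_eq_one, one_mul]

end Cfsg.Agent.S0240
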