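import Cfsg.Statements.S0241
import Mathlib
-- import your own Cfsg.Agent.* helpers here

set_option autoImplicit false
open Cfsg

namespace Cfsg.Agent.S0241

/-- If x ≠ 1 is conjugate to x⁻¹ in a finite group G and |C_G(x)| is odd, then some involution t satisfies t x t⁻¹ = x⁻¹. -/
theorem result {G : Type*} [Group G] [Finite G] (x : G) (hx : x ≠ 1) (hreal : IsConj x x⁻¹) (hodd : Odd (Nat.card (Subgroup.centralizer ({x} : Set G)))) : ∃ t : G, orderOf t = 2 ∧ t * x * t⁻¹ = x⁻¹ := by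
  have hx2 : x ^ 2 ≠ 1 := fun h => by
    have hd : orderOf x = 2 := orderOf_eq_prime h hx
    have := Subgroup.orderOf_dvd_natCard _
      (Subgroup.mem_centralizer_singleton_iff.2 rfl : x ∈ Subgroup.centralizer ({x} : Set G))
    rw [hd] at this
    exact Nat.not_even_iff_odd.2 hodd (even_iff_two_dvd.2 this)
  obtain ⟨g, hg⟩ := isConj_iff.1 hreal
  obtain ⟨k, m, hm, hord⟩ := Nat.exists_eq_two_pow_mul_odd (orderOf_pos g).ne'
  have hinv : ∀ j : ℕ, (Even j → g ^ j * x * (g ^ j)⁻¹ = x) ∧ (Odd j → g ^ j * x * (g ^ j)⁻¹ = x⁻¹) := by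
    intro j
    induction j with
    | zero => simp
    | succ j ih =>
      rw [pow_succ', mul_inv_rev]
      constructor
      · intro he
        have hj : Odd j := by rwa [Nat.even_add_one, Nat.not_even_iff_odd] at he
        calc g * g ^ j * x * ((g ^ j)⁻¹ * g⁻¹) = g * (g ^ j * x * (g ^ j)⁻¹) * g⁻¹ := by group
          _ = g * x⁻¹ * g⁻¹ := by rw [ih.2 hj]
          _ = x := by rw [← conj_inv, hg, inv_inv]
      · intro ho
        have hj : Even j := by rwa [Nat.odd_add_one, Nat.not_odd_iff_even] at ho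
        calc g * g ^ j * x * ((g ^ j)⁻¹ * g⁻¹) = g * (g ^ j * x * (g ^ j)⁻¹) * g⁻¹ := by group
          _ = x⁻¹ := by rw [ih.1 hj, hg]
  refine ⟨g ^ m, orderOf_eq_prime ?_ ?_, (hinv m).2 hm⟩
  · rw [← pow_mul, ← orderOf_eq_one_iff]
    have hmem : g ^ (m * 2) ∈ Subgroup.centralizer ({x} : Set G) :=
      Subgroup.mem_centralizer_singleton_iff.2
        (mul_inv_eq_iff_eq_mul.1 ((hinv (m * 2)).1 (by simp)))
    have h1 := Subgroup.orderOf_dvd_natCard _ hmem
    have h2 : orderOf (g ^ (m * 2)) ∣ 2 ^ k := orderOf_dvd_of_pow_eq_one (by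
      rw [← pow_mul, show m * 2 * 2 ^ k = orderOf g * 2 by rw [hord]; ring, pow_mul,
        pow_orderOf_eq_one, one_pow])
    obtain ⟨i, hi, he⟩ := (Nat.dvd_prime_pow Nat.prime_two).1 h2
    rw [he]
    rcases i with _ | i
    · simp
    · exfalso
      rw [he, pow_succ] at h1
      exact Nat.not_even_iff_odd.2 hodd (even_iff_two_dvd.2 (dvd_trans ⟨_, mul_comm _ _⟩ h1))
  · intro h
    have h1 := (hinv m).2 hm
    rw [h] at h1
    simp only [one_mul, inv_one, mul_one] at h1
    exact hx2 (by rw [sq]; nth_rw 2 [h1]; exact mul_inv_cancel x)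

end Cfsg.Agent.S0241
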