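import Cfsg.Statements.S0246
import Mathlib
import Cfsg.Agent.Lib.Classical.LinearOrders

set_option autoImplicit false
open Cfsg
open scoped Matrix

namespace Cfsg.Agent.S0246

/-- The centre of Sp_{2m}(q), m at least 1, is {1, -1}: it has order gcd(2, q-1). -/
theorem result {F : Type*} [Field F] [Fintype F] {q : ℕ} (hF : Fintype.card F = q) (m : ℕ) (hm : 1 ≤ m) : Nat.card (Subgroup.center (Matrix.symplecticGroup (Fin m) F)) = Nat.gcd 2 (q - 1) := by
  subst hF
  classical
  have : Nonempty (Fin m) := ⟨⟨0, hm⟩⟩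
  let z : {a : F // a ^ 2 = 1} → Subgroup.center (Matrix.symplecticGroup (Fin m) F) := fun a =>
    ⟨⟨(a : F) • 1, by
      rw [SymplecticGroup.mem_iff, Matrix.transpose_smul, Matrix.transpose_one, Matrix.smul_mul,
        Matrix.one_mul, Matrix.mul_smul, Matrix.mul_one, smul_smul, ← pow_two, a.2, one_smul]⟩,
      Subgroup.mem_center_iff.2 fun g => Subtype.ext (by simp)⟩
  have hz : Function.Bijective z := by
    refine ⟨fun a b h => Subtype.ext ?_, fun g => ?_⟩
    · have h1 := congrFun (congrFun (congrArg (fun x : Subgroup.center (Matrix.symplecticGroup (Fin m) F) => ((x : Matrix.symplecticGroup (Fin m) F) : Matrix (Fin m ⊕ Fin m) (Fin m ⊕ Fin m) F)) h) (Sum.inl ⟨0, hm⟩)) (Sum.inl ⟨0, hm⟩)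
      simpa [z] using h1
    obtain ⟨⟨M, hM⟩, hg⟩ := g
    have hup : ∀ S : Matrix (Fin m) (Fin m) F, S.transpose = S →
        Matrix.fromBlocks 1 S 0 1 ∈ Matrix.symplecticGroup (Fin m) F := fun S hS => by
      rw [SymplecticGroup.mem_iff]
      simp [Matrix.J, Matrix.fromBlocks_transpose, Matrix.fromBlocks_multiply, hS]
    have hlo : Matrix.fromBlocks (1 : Matrix (Fin m) (Fin m) F) 0 1 1 ∈ Matrix.symplecticGroup (Fin m) F := by
      rw [SymplecticGroup.mem_iff]
      simp [Matrix.J, Matrix.fromBlocks_transpose, Matrix.fromBlocks_multiply]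
    have hcomm : ∀ T, T ∈ Matrix.symplecticGroup (Fin m) F → T * M = M * T := fun T hT =>
      congrArg Subtype.val (Subgroup.mem_center_iff.1 hg ⟨T, hT⟩)
    have h1 := hcomm _ (hup 1 Matrix.transpose_one)
    have h2 := hcomm _ hlo
    have hs := fun (S : Matrix (Fin m) (Fin m) F) hS => hcomm _ (hup S hS)
    rw [← Matrix.fromBlocks_toBlocks M] at h1 h2 hs
    simp only [Matrix.fromBlocks_multiply, Matrix.fromBlocks_inj, Matrix.one_mul, Matrix.mul_one, Matrix.zero_mul,
      Matrix.mul_zero, add_zero, zero_add] at h1 h2 hs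
    have hC : M.toBlocks₂₁ = 0 := by simpa using h1.1
    have hB : M.toBlocks₁₂ = 0 := by simpa using h2.1.symm
    have hAD : M.toBlocks₁₁ = M.toBlocks₂₂ := by
      have := h1.2.1
      rw [hB] at this
      simpa using this.symm
    have hAS : ∀ S : Matrix (Fin m) (Fin m) F, S.transpose = S → S * M.toBlocks₁₁ = M.toBlocks₁₁ * S := fun S hS => by
      have := (hs S hS).2.1
      rw [hB, zero_add, add_zero, ← hAD] at this
      exact this
    set A := M.toBlocks₁₁ with hA
    have hdiag : ∀ i j, i ≠ j → A i j = 0 := fun i j hij => by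
      have := congrFun (congrFun (hAS (Matrix.single i i 1) (by simp [Matrix.transpose_single])) i) j
      simpa [Matrix.mul_apply, Matrix.single_apply, hij] using this
    have heq : ∀ i j, A i i = A j j := fun i j => by
      rcases eq_or_ne i j with rfl | hij
      · rfl
      have := congrFun (congrFun (hAS (Matrix.single i j 1 + Matrix.single j i 1) (by simp [Matrix.transpose_single, add_comm])) i) j
      simp [Matrix.mul_apply, Matrix.single_apply, hij, hij.symm] at this
      exact this.symm
    set a := A ⟨0, hm⟩ ⟨0, hm⟩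
    have hMa : M = a • 1 := by
      have hAa : A = a • 1 := by
        ext i j
        rcases eq_or_ne i j with rfl | hij
        · simp [a, heq i ⟨0, hm⟩]
        · simp [hdiag i j hij, hij]
      rw [← Matrix.fromBlocks_toBlocks M, hB, hC, ← hAD, ← hA, hAa, ← Matrix.fromBlocks_one, Matrix.fromBlocks_smul]
      simp
    have ha : a ^ 2 = 1 := by
      have h3 := SymplecticGroup.mem_iff.1 hM
      rw [hMa, Matrix.transpose_smul, Matrix.transpose_one, Matrix.smul_mul, Matrix.one_mul, Matrix.mul_smul,
        Matrix.mul_one, smul_smul] at h3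
      have h4 := congrFun (congrFun h3 (Sum.inl ⟨0, hm⟩)) (Sum.inr ⟨0, hm⟩)
      simp [Matrix.J] at h4
      rw [pow_two]; linear_combination h4
    exact ⟨⟨a, ha⟩, Subtype.ext (Subtype.ext hMa.symm)⟩
  rw [← Nat.card_eq_of_bijective z hz, Nat.gcd_comm, ← Cfsg.Lib.Classical.LinearOrders.card_rootsOfUnity_field (F := F) 2]
  exact Nat.card_congr
    { toFun := fun a => ⟨Units.mk0 a.1 (fun e => by have := a.2; rw [e] at this; simp at this), Units.ext a.2⟩
      invFun := fun u => ⟨(u.1 : F), congrArg Units.val u.2⟩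
      left_inv := fun a => Subtype.ext rfl
      right_inv := fun u => Subtype.ext (Units.ext rfl) }

end Cfsg.Agent.S0246
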