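import Cfsg.Statements.S0247
import Mathlib
import Cfsg.Agent.Lib.Classical.PermModule
import Cfsg.Agent.Lib.Classical.ClassicalOrders

set_option autoImplicit false
open Cfsg
open scoped Matrix

namespace Cfsg.Agent.S0247

/-- Sp_4(2) is isomorphic to the symmetric group S_6. -/
theorem result {F : Type*} [Field F] [Fintype F] (hF : Fintype.card F = 2) : Nonempty (Matrix.symplecticGroup (Fin 2) F ≃* Equiv.Perm (Fin 6)) := by
  classical
  obtain ⟨φ⟩ := Cfsg.Lib.Classical.PermModule.exists_equiv (p := 2) hF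
  let ι : Matrix (Fin 6) (Fin 2 ⊕ Fin 2) (ZMod 2) := (Matrix.of fun i k => (![![1, 1, 0, 0, 0, 0], ![0, 0, 0, 1, 1, 0], ![0, 1, 1, 0, 0, 0], ![0, 0, 0, 0, 1, 1]] : Fin 4 → Fin 6 → ZMod 2) (Sum.elim ![0, 1] ![2, 3] k) i)
  let π : Matrix (Fin 2 ⊕ Fin 2) (Fin 6) (ZMod 2) := (Matrix.of fun k i => (![![0, 1, 1, 0, 0, 0], ![0, 0, 0, 0, 1, 1], ![1, 1, 0, 0, 0, 0], ![0, 0, 0, 1, 1, 0]] : Fin 4 → Fin 6 → ZMod 2) (Sum.elim ![0, 1] ![2, 3] k) i)
  have D : Cfsg.Lib.Classical.PermModule.Data 1 ι π (fun x y => ∑ i, x i * y i) (Cfsg.sympForm 2 (ZMod 2)) :=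
    { retr := by decide +kernel
      sum := by decide +kernel
      corr := by decide +kernel
      form := by decide +kernel
      perm := fun σ x y => by simpa using Equiv.sum_comp σ.symm fun i => x i * y i
      shift := by
        intro x y c d hx hy hc _
        simp only [Pi.add_apply, add_mul, mul_add, Finset.sum_add_distrib, ← Finset.sum_mul, ← Finset.mul_sum, hx, hy, hc]
        simp }
  have hq : ∀ u v : Fin 2 ⊕ Fin 2 → ZMod 2, Cfsg.sympForm 2 F (φ ∘ u) (φ ∘ v) = φ (Cfsg.sympForm 2 (ZMod 2) u v) := by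
    intro u v
    simp [Cfsg.Lib.Classical.sympForm_eq_sum, map_add, map_sub, map_mul]
  let h : Equiv.Perm (Fin 6) →* Cfsg.spGL 2 F := (D.hom φ).codRestrict _ fun σ x y => D.hom_form φ _ hq σ x y
  have hinj : Function.Injective h := fun a b hab =>
    D.hom_injective φ (by norm_num) (τ := Equiv.swap 0 1 * Equiv.swap 2 3) (by simp) (by decide +kernel) (congrArg Subtype.val hab)
  obtain ⟨e⟩ := Cfsg.Lib.Classical.PermModule.nonempty_mulEquiv h hinj (by
    rw [Cfsg.Lib.Classical.ClassicalOrders.card_spGL hF, Nat.card_eq_fintype_card, Fintype.card_perm]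
    rfl)
  exact ⟨Cfsg.Lib.Classical.spEquiv.trans e⟩

end Cfsg.Agent.S0247
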