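import Cfsg.Statements.S0250
import Mathlib
import Cfsg.Agent.Lib.Classical.LinearOrders
import Cfsg.Agent.Lib.Classical.Transvection

set_option autoImplicit false
open Cfsg
open scoped Matrix

namespace Cfsg.Agent.S0250

/-- SL_2(2) is isomorphic to S_3. -/
theorem result {F : Type*} [Field F] [Fintype F] (hF : Fintype.card F = 2) : Nonempty (Matrix.SpecialLinearGroup (Fin 2) F ≃* Equiv.Perm (Fin 3)) := by
  classical
  let α := {v : Fin 2 → F // v ≠ 0}
  let φ : Matrix.SpecialLinearGroup (Fin 2) F →* Equiv.Perm α :=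
    { toFun := fun g =>
        { toFun := fun v => ⟨(g : Matrix (Fin 2) (Fin 2) F) *ᵥ v.1, fun e => v.2 (by
            have h := congrArg (fun z => ((g⁻¹ : Matrix.SpecialLinearGroup (Fin 2) F) : Matrix (Fin 2) (Fin 2) F) *ᵥ z) e
            rwa [Matrix.mulVec_mulVec, ← Matrix.SpecialLinearGroup.coe_mul, inv_mul_cancel, Matrix.SpecialLinearGroup.coe_one, Matrix.one_mulVec, Matrix.mulVec_zero] at h)⟩
          invFun := fun v => ⟨((g⁻¹ : Matrix.SpecialLinearGroup (Fin 2) F) : Matrix (Fin 2) (Fin 2) F) *ᵥ v.1, fun e => v.2 (by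
            have h := congrArg (fun z => (g : Matrix (Fin 2) (Fin 2) F) *ᵥ z) e
            rwa [Matrix.mulVec_mulVec, ← Matrix.SpecialLinearGroup.coe_mul, mul_inv_cancel, Matrix.SpecialLinearGroup.coe_one, Matrix.one_mulVec, Matrix.mulVec_zero] at h)⟩
          left_inv := fun v => Subtype.ext (by dsimp only; rw [Matrix.mulVec_mulVec, ← Matrix.SpecialLinearGroup.coe_mul, inv_mul_cancel, Matrix.SpecialLinearGroup.coe_one, Matrix.one_mulVec])
          right_inv := fun v => Subtype.ext (by dsimp only; rw [Matrix.mulVec_mulVec, ← Matrix.SpecialLinearGroup.coe_mul, mul_inv_cancel, Matrix.SpecialLinearGroup.coe_one, Matrix.one_mulVec]) }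
      map_one' := Equiv.ext fun v => Subtype.ext (by simp)
      map_mul' := fun g h => Equiv.ext fun v => Subtype.ext (by
        change ((g * h : Matrix.SpecialLinearGroup (Fin 2) F) : Matrix (Fin 2) (Fin 2) F) *ᵥ v.1 = (g : Matrix (Fin 2) (Fin 2) F) *ᵥ ((h : Matrix (Fin 2) (Fin 2) F) *ᵥ v.1)
        rw [Matrix.mulVec_mulVec, Matrix.SpecialLinearGroup.coe_mul]) }
  have hinj : Function.Injective φ := by
    intro g h e
    refine Subtype.ext (Cfsg.Lib.Classical.ext_mulVec fun x => ?_)
    rcases eq_or_ne x 0 with rfl | hx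
    · simp
    · exact congrArg Subtype.val (Equiv.congr_fun e ⟨x, hx⟩)
  have hα : Fintype.card α = 3 := by
    rw [Fintype.card_subtype_compl, Fintype.card_subtype_eq, Fintype.card_fun, hF, Fintype.card_fin]
    rfl
  have hcard : Nat.card (Matrix.SpecialLinearGroup (Fin 2) F) = Nat.card (Equiv.Perm α) := by
    have h := Cfsg.Lib.Classical.LinearOrders.card_sl_mul (F := F) (n := 2) (by omega)
    rw [Nat.card_perm, Nat.card_eq_fintype_card (α := α), hα]
    rw [hF, Fin.prod_univ_two] at h
    simpa [Nat.factorial] using h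
  exact ⟨(MulEquiv.ofBijective φ ((Nat.bijective_iff_injective_and_card φ).2 ⟨hinj, hcard⟩)).trans
    (Fintype.equivFinOfCardEq hα).permCongrHom⟩

end Cfsg.Agent.S0250
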