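import Cfsg.Statements.S0252
import Mathlib
import Cfsg.Agent.Lib.Classical.LinearOrders

set_option autoImplicit false
open Cfsg
open scoped Matrix

namespace Cfsg.Agent.S0252

/-- PSL_2(4) is isomorphic to A_5. -/
theorem result {F : Type*} [Field F] [Fintype F] (hF : Fintype.card F = 4) : Nonempty (Matrix.ProjectiveSpecialLinearGroup (Fin 2) F ≃* alternatingGroup (Fin 5)) := by
  classical
  let α := Projectivization F (Fin 2 → F)
  have : Fintype α := Fintype.ofFinite α
  let φ := MulAction.toPermHom (Matrix.ProjectiveSpecialLinearGroup (Fin 2) F) α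
  have hinj : Function.Injective φ := MulAction.toPerm_injective
  have hα : Fintype.card α = 5 := by
    have h := Projectivization.card_of_finrank_two F (Fin 2 → F) (by simp)
    rw [Nat.card_eq_fintype_card, Nat.card_eq_fintype_card, hF] at h
    exact h
  have hcard : Nat.card (Matrix.ProjectiveSpecialLinearGroup (Fin 2) F) = 60 := by
    have h := Cfsg.Lib.Classical.LinearOrders.card_sl_mul (F := F) (n := 2) (by omega)
    have h2 := Cfsg.Lib.Classical.LinearOrders.card_psl_mul (F := F) (n := 2) (by omega)
    rw [hF, Fin.prod_univ_two] at h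
    rw [hF, show Nat.gcd 2 (4 - 1) = 1 from rfl] at h2
    have h' : (4 - 1) * Nat.card (Matrix.SpecialLinearGroup (Fin 2) F) = 180 := h
    omega
  have hr : Nat.card φ.range = 60 := by
    rw [← hcard]; exact (Nat.card_congr (MonoidHom.ofInjective hinj).toEquiv).symm
  have hidx : φ.range.index = 2 := by
    have h := φ.range.card_mul_index
    rw [hr, Nat.card_perm, Nat.card_eq_fintype_card (α := α), hα] at h
    simp [Nat.factorial] at h
    omega
  have hrange : φ.range = alternatingGroup α := Equiv.Perm.eq_alternatingGroup_of_index_eq_two hidx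
  exact ⟨(MonoidHom.ofInjective hinj).trans ((MulEquiv.subgroupCongr hrange).trans
    (Equiv.altCongrHom (Fintype.equivFinOfCardEq hα)))⟩

end Cfsg.Agent.S0252
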