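import Cfsg.Statements.S0254
import Mathlib
import Cfsg.Agent.Lib.Classical.LinearOrders
import Cfsg.Agent.Lib.Classical.SLGroup
-- import your own Cfsg.Agent.* helpers here

set_option autoImplicit false
open Cfsg

namespace Cfsg.Agent.S0254

/-- The four entries of a matrix over the nine element field, each coded as `3a + b` for `a + b i`. -/
abbrev M9 := ℕ × ℕ × ℕ × ℕ

def ad (x y : ℕ) : ℕ := 3 * ((x / 3 + y / 3) % 3) + (x % 3 + y % 3) % 3
def ml (x y : ℕ) : ℕ :=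
  3 * ((x / 3 * (y / 3) + 2 * (x % 3 * (y % 3))) % 3) + (x / 3 * (y % 3) + x % 3 * (y / 3)) % 3
def mm : M9 → M9 → M9
  | (a, b, c, d), (a', b', c', d') => (ad (ml a a') (ml b c'), ad (ml a b') (ml b d'), ad (ml c a') (ml d c'), ad (ml c b') (ml d d'))

def L : List M9 := [
    (3, 0, 0, 3),
    (3, 0, 3, 3),
    (3, 1, 0, 3),
    (3, 0, 6, 3),
    (3, 1, 3, 4),
    (4, 1, 3, 3),
    (3, 2, 0, 3),
    (3, 1, 6, 5),
    (4, 1, 7, 4),
    (3, 2, 3, 5),
    (5, 1, 6, 3),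
    (4, 8, 3, 4),
    (5, 2, 3, 3),
    (4, 1, 2, 5),
    (3, 2, 6, 4),
    (5, 1, 2, 4),
    (4, 8, 7, 0),
    (5, 2, 8, 5),
    (5, 5, 6, 5),
    (0, 8, 7, 4),
    (4, 3, 3, 5),
    (4, 2, 6, 3),
    (5, 3, 3, 4),
    (5, 1, 4, 5),
    (4, 8, 2, 8),
    (5, 2, 1, 4),
    (5, 5, 2, 7),
    (0, 8, 7, 0),
    (4, 3, 7, 8),
    (4, 2, 1, 5),
    (5, 3, 8, 7),
    (7, 5, 2, 5),
    (5, 6, 6, 4),
    (8, 8, 2, 4),
    (7, 3, 8, 5),
    (4, 6, 6, 5),
    (8, 3, 7, 4),
    (5, 7, 3, 5),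
    (5, 5, 4, 0),
    (0, 8, 7, 8),
    (4, 3, 2, 2),
    (4, 2, 5, 4),
    (5, 3, 1, 1),
    (7, 5, 6, 7),
    (5, 6, 2, 1),
    (8, 8, 7, 0),
    (7, 3, 3, 8),
    (4, 6, 1, 2),
    (8, 3, 3, 7),
    (5, 7, 8, 0),
    (0, 5, 4, 5),
    (7, 1, 2, 8),
    (2, 6, 1, 4),
    (8, 1, 2, 7),
    (1, 3, 1, 5),
    (7, 2, 8, 7),
    (1, 6, 2, 5),
    (4, 4, 6, 4),
    (2, 3, 2, 4),
    (0, 7, 8, 5),
    (7, 5, 4, 0),
    (5, 6, 4, 7),
    (8, 8, 3, 8),
    (7, 3, 1, 2),
    (4, 6, 5, 8),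
    (8, 3, 2, 1),
    (5, 7, 1, 7),
    (0, 5, 4, 7),
    (7, 1, 6, 6),
    (2, 6, 0, 1),
    (8, 1, 7, 8),
    (1, 3, 2, 8),
    (7, 2, 3, 6),
    (1, 6, 0, 2),
    (4, 4, 1, 8),
    (2, 3, 1, 7),
    (0, 7, 8, 0),
    (0, 5, 4, 0),
    (7, 6, 2, 2),
    (8, 6, 5, 4),
    (2, 0, 1, 1),
    (6, 1, 6, 7),
    (1, 0, 1, 2),
    (6, 2, 3, 7),
    (7, 7, 8, 0),
    (7, 6, 4, 5),
    (8, 4, 1, 4),
    (2, 6, 2, 7),
    (7, 7, 1, 5),
    (0, 7, 8, 7),
    (7, 1, 4, 7),
    (8, 1, 3, 6),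
    (1, 3, 0, 2),
    (7, 2, 1, 8),
    (1, 6, 1, 8),
    (4, 4, 5, 0),
    (2, 3, 0, 1),
    (7, 6, 6, 8),
    (8, 6, 1, 1),
    (2, 0, 0, 1),
    (6, 1, 3, 8),
    (1, 0, 2, 2),
    (6, 2, 0, 6),
    (7, 7, 3, 7),
    (8, 4, 6, 8),
    (8, 2, 5, 8),
    (2, 0, 2, 1),
    (6, 0, 6, 6),
    (1, 0, 0, 2),
    (8, 2, 1, 7),
    (0, 4, 5, 4),
    (8, 6, 6, 7),
    (6, 1, 0, 6),
    (6, 2, 6, 8),
    (8, 4, 5, 0),
    (6, 0, 3, 6),
    (8, 2, 6, 6),
    (0, 4, 5, 8),
    (6, 0, 0, 6),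
    (0, 4, 5, 0)]
def g0 : M9 := (3, 0, 3, 3)
def g1 : M9 := (3, 1, 0, 3)
def T0 : List ℕ := [1, 3, 5, 0, 8, 10, 12, 13, 15, 17, 2, 19, 21, 23, 25, 4, 27, 29, 31, 33, 34, 6, 36, 7, 39, 41, 43, 45, 46, 9, 48, 50, 52, 11, 54, 56, 58, 59, 60, 62, 63, 14, 65, 67, 69, 16, 71, 73, 75, 76, 18, 70, 79, 81, 20, 83, 85, 86, 22, 88, 77, 87, 24, 92, 94, 96, 89, 26, 91, 98, 100, 28, 102, 78, 104, 30, 84, 38, 47, 32, 106, 90, 108, 109, 49, 35, 110, 111, 37, 103, 53, 112, 40, 113, 97, 114, 42, 64, 44, 80, 51, 82, 116, 66, 117, 93, 99, 115, 101, 55, 57, 61, 68, 105, 119, 118, 72, 74, 107, 95]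
def T1 : List ℕ := [2, 4, 6, 7, 9, 11, 0, 14, 16, 1, 18, 20, 22, 24, 3, 26, 28, 30, 32, 27, 5, 35, 37, 38, 40, 42, 44, 39, 8, 47, 49, 51, 10, 53, 55, 57, 45, 12, 61, 19, 13, 64, 66, 68, 15, 70, 72, 74, 62, 17, 77, 78, 80, 65, 82, 84, 71, 21, 87, 89, 90, 23, 91, 93, 95, 33, 25, 50, 97, 99, 36, 101, 103, 92, 29, 52, 59, 67, 31, 105, 75, 107, 94, 100, 34, 60, 98, 106, 63, 76, 85, 48, 108, 88, 54, 41, 69, 43, 109, 96, 115, 56, 112, 46, 111, 114, 58, 113, 73, 86, 117, 116, 118, 81, 79, 83, 104, 119, 102, 110]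

lemma L_length : L.length = 120 := by decide +kernel
lemma L_closed : ∀ k < 120, mm (L.getD k g0) g0 = L.getD (T0.getD k 0) g0 ∧ mm (L.getD k g0) g1 = L.getD (T1.getD k 0) g0 ∧
    T0.getD k 0 < 120 ∧ T1.getD k 0 < 120 := by decide +kernel
lemma L_start : L.getD 0 g0 = (3, 0, 0, 3) ∧ L.getD 118 g0 = (6, 0, 0, 6) := by decide +kernel
lemma L_nodup : L.Nodup := by decide +kernel
lemma L_reach : ∀ k < 120, k = 0 ∨ ∃ j < k, T0.getD j 0 = k ∨ T1.getD j 0 = k := by decide +kernel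

/-- The subgroup of order 120 of `SL₂(9)`. -/
theorem exists_sub {F : Type*} [Field F] [Fintype F] (hF : Fintype.card F = 9) :
    ∃ H : Subgroup (Matrix.SpecialLinearGroup (Fin 2) F), Nat.card H = 120 ∧ -1 ∈ H := by
  classical
  haveI : Fact (Nat.Prime 3) := ⟨Nat.prime_three⟩
  have h3 : (3 : F) = 0 := by
    have h : ((9 : ℕ) : F) = 0 := hF ▸ FiniteField.cast_card_eq_zero F
    exact mul_self_eq_zero.1 (show (3 : F) * 3 = 0 by rw [← h]; norm_num)
  haveI : CharP F 3 := by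
    obtain ⟨r, hr⟩ := CharP.exists F
    have hd : r ∣ 3 := (CharP.cast_eq_zero_iff F r 3).1 (by exact_mod_cast h3)
    rcases (Nat.dvd_prime Nat.prime_three).1 hd with e | e
    · exact absurd e (CharP.char_ne_one F r)
    · exact e ▸ hr
  obtain ⟨ι, hι⟩ : ∃ ι : F, ι * ι = -1 := by
    obtain ⟨y, hy⟩ := FiniteField.isSquare_neg_one_iff.2 (show Fintype.card F % 4 ≠ 3 by rw [hF]; norm_num)
    exact ⟨y, hy.symm⟩
  let φ : ℕ → F := fun x => ((x / 3 : ℕ) : F) + ((x % 3 : ℕ) : F) * ι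
  have hc : ∀ n : ℕ, ((n % 3 : ℕ) : F) = (n : F) := fun n => by
    conv_rhs => rw [← Nat.div_add_mod n 3]
    push_cast
    linear_combination -((n / 3 : ℕ) : F) * h3
  have hdec : ∀ u v : ℕ, v < 3 → (3 * u + v) / 3 = u ∧ (3 * u + v) % 3 = v := fun u v hv => by omega
  have hadd : ∀ x y, φ (ad x y) = φ x + φ y := fun x y => by
    have h := hdec ((x / 3 + y / 3) % 3) ((x % 3 + y % 3) % 3) (Nat.mod_lt _ (by norm_num))
    simp only [φ, ad, h.1, h.2]
    rw [hc, hc]; push_cast; ring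
  have hmul : ∀ x y, φ (ml x y) = φ x * φ y := fun x y => by
    have h := hdec ((x / 3 * (y / 3) + 2 * (x % 3 * (y % 3))) % 3) ((x / 3 * (y % 3) + x % 3 * (y / 3)) % 3) (Nat.mod_lt _ (by norm_num))
    simp only [φ, ml, h.1, h.2]
    rw [hc, hc]
    generalize x / 3 = a; generalize x % 3 = b; generalize y / 3 = c; generalize y % 3 = d
    push_cast
    linear_combination -((b : F) * d) * hι + ((b : F) * d) * h3
  have hinj : ∀ x y, x < 9 → y < 9 → φ x = φ y → x = y := by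
    intro x y hx hy h
    have hne : ∀ e : ℕ, ι ≠ (e : F) := fun e he => by
      rw [he] at hι
      have hmod : (((e * e + 1) % 3 : ℕ) : F) = 0 := by rw [hc]; push_cast; linear_combination hι
      have hk : (e * e + 1) % 3 ≠ 0 := by
        have := Nat.mod_lt e (show 3 > 0 by norm_num)
        rw [Nat.add_mod, Nat.mul_mod]
        interval_cases e % 3 <;> norm_num
      have := Nat.le_of_dvd (Nat.pos_of_ne_zero hk) ((CharP.cast_eq_zero_iff F 3 _).1 hmod)
      omega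
    simp only [φ] at h
    have key : ∀ b d : ℕ, b < 3 → d < 3 → b ≠ d → ∃ w : ℕ, (w : F) * ((b : F) - d) = 1 := by
      intro b d hb hd hbd
      interval_cases b <;> interval_cases d <;> first
        | exact absurd rfl hbd
        | exact ⟨1, by push_cast; linear_combination (0 : F) * h3⟩
        | exact ⟨1, by push_cast; linear_combination h3⟩
        | exact ⟨1, by push_cast; linear_combination -h3⟩
        | exact ⟨2, by push_cast; linear_combination h3⟩
        | exact ⟨2, by push_cast; linear_combination -h3⟩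
    by_cases hbd : x % 3 = y % 3
    · rw [hbd, add_left_inj] at h
      have := (CharP.natCast_eq_natCast F 3).1 h
      rw [Nat.ModEq] at this
      omega
    · obtain ⟨w, hw⟩ := key _ _ (Nat.mod_lt _ (by norm_num)) (Nat.mod_lt _ (by norm_num)) hbd
      refine absurd ?_ (hne (w * (y / 3) + 2 * (w * (x / 3))))
      push_cast
      linear_combination (-ι) * hw + (w : F) * h - ((w : F) * ((x / 3 : ℕ) : F)) * h3
  let mat : M9 → Matrix (Fin 2) (Fin 2) F := fun A => !![φ A.1, φ A.2.1; φ A.2.2.1, φ A.2.2.2]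
  have hmm : ∀ A B, mat (mm A B) = mat A * mat B := by
    rintro ⟨a, b, c, d⟩ ⟨a', b', c', d'⟩
    simp only [mat, mm, hadd, hmul, Matrix.mul_fin_two]
  have hdet0 : (mat g0).det = 1 := by simp [mat, g0, φ, Matrix.det_fin_two]
  have hdet1 : (mat g1).det = 1 := by simp [mat, g1, φ, Matrix.det_fin_two]
  let s0 : Matrix.SpecialLinearGroup (Fin 2) F := ⟨mat g0, hdet0⟩
  let s1 : Matrix.SpecialLinearGroup (Fin 2) F := ⟨mat g1, hdet1⟩
  let H : Subgroup (Matrix.SpecialLinearGroup (Fin 2) F) := Subgroup.closure {s0, s1}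
  have h0 : mat (L.getD 0 g0) = 1 := by rw [L_start.1]; ext i j; fin_cases i <;> fin_cases j <;> simp [mat, φ]
  have hin : ∀ k < 120, ∃ g ∈ H, (g : Matrix (Fin 2) (Fin 2) F) = mat (L.getD k g0) := by
    intro k
    induction k using Nat.strong_induction_on with
    | _ k ih =>
      intro hk
      rcases L_reach k hk with rfl | ⟨j, hj, hjk⟩
      · exact ⟨1, H.one_mem, by rw [h0]; rfl⟩
      · obtain ⟨g, hg, hgm⟩ := ih j hj (by omega)
        rcases hjk with e | e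
        · exact ⟨g * s0, H.mul_mem hg (Subgroup.subset_closure (by simp)), by
            rw [Matrix.SpecialLinearGroup.coe_mul, hgm, ← e, ← (L_closed j (by omega)).1, hmm]⟩
        · exact ⟨g * s1, H.mul_mem hg (Subgroup.subset_closure (by simp)), by
            rw [Matrix.SpecialLinearGroup.coe_mul, hgm, ← e, ← (L_closed j (by omega)).2.1, hmm]⟩
  choose f hfH hfm using hin
  have hout : ∀ g ∈ H, ∃ k, ∃ hk : k < 120, f k hk = g := by
    intro g hg
    rw [← Subgroup.mem_toSubmonoid, Subgroup.closure_toSubmonoid_of_finite] at hg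
    induction hg using Submonoid.closure_induction_right with
    | one => exact ⟨0, by norm_num, Subtype.ext (by rw [hfm, h0]; rfl)⟩
    | mul_right x hx y hy ih =>
      obtain ⟨k, hk, rfl⟩ := ih
      rcases hy with rfl | rfl
      · exact ⟨_, (L_closed k hk).2.2.1, Subtype.ext (by rw [Matrix.SpecialLinearGroup.coe_mul, hfm, hfm, ← (L_closed k hk).1, hmm])⟩
      · exact ⟨_, (L_closed k hk).2.2.2, Subtype.ext (by rw [Matrix.SpecialLinearGroup.coe_mul, hfm, hfm, ← (L_closed k hk).2.1, hmm])⟩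
  have hsmall : ∀ A ∈ L, A.1 < 9 ∧ A.2.1 < 9 ∧ A.2.2.1 < 9 ∧ A.2.2.2 < 9 := by decide +kernel
  refine ⟨H, ?_, ?_⟩
  · rw [← Nat.card_fin 120]
    symm
    refine Nat.card_congr (Equiv.ofBijective (fun k : Fin 120 => (⟨f k k.2, hfH k k.2⟩ : H)) ⟨fun k l e => ?_, fun g => ?_⟩)
    · have e' := congrArg (fun g : H => ((g : Matrix.SpecialLinearGroup (Fin 2) F) : Matrix (Fin 2) (Fin 2) F)) e
      simp only [hfm] at e'
      have hk : (k : ℕ) < L.length := by rw [L_length]; exact k.2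
      have hl : (l : ℕ) < L.length := by rw [L_length]; exact l.2
      rw [List.getD_eq_getElem _ _ hk, List.getD_eq_getElem _ _ hl] at e'
      have a := hsmall _ (List.getElem_mem hk)
      have b := hsmall _ (List.getElem_mem hl)
      refine Fin.ext ((L_nodup.getElem_inj_iff (hi := hk) (hj := hl)).1 ?_)
      refine Prod.ext (hinj _ _ a.1 b.1 (congrFun (congrFun e' 0) 0)) (Prod.ext (hinj _ _ a.2.1 b.2.1 (congrFun (congrFun e' 0) 1))
        (Prod.ext (hinj _ _ a.2.2.1 b.2.2.1 (congrFun (congrFun e' 1) 0)) (hinj _ _ a.2.2.2 b.2.2.2 (congrFun (congrFun e' 1) 1))))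
    · obtain ⟨k, hk, he⟩ := hout g g.2
      exact ⟨⟨k, hk⟩, Subtype.ext he⟩
  · have := hfH 118 (by norm_num)
    convert this using 1
    refine Subtype.ext ?_
    rw [Matrix.SpecialLinearGroup.coe_neg, Matrix.SpecialLinearGroup.coe_one, hfm, L_start.2]
    ext i j
    fin_cases i <;> fin_cases j <;> simp [mat, φ] <;> linear_combination -h3

/-- PSL_2(9) is isomorphic to A_6. -/
theorem result {F : Type*} [Field F] [Fintype F] (hF : Fintype.card F = 9) : Nonempty (Matrix.ProjectiveSpecialLinearGroup (Fin 2) F ≃* alternatingGroup (Fin 6)) := by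
  classical
  obtain ⟨H₀, hH₀, hneg⟩ := exists_sub hF
  have hsl : Nat.card (Matrix.SpecialLinearGroup (Fin 2) F) = 720 := by
    have h := Cfsg.Lib.Classical.LinearOrders.card_sl_mul (F := F) (n := 2) (by omega)
    rw [hF, Fin.prod_univ_two] at h
    have h' : (9 - 1) * Nat.card (Matrix.SpecialLinearGroup (Fin 2) F) = 5760 := h
    omega
  have hcard : Nat.card (Matrix.ProjectiveSpecialLinearGroup (Fin 2) F) = 360 := by
    have h2 := Cfsg.Lib.Classical.LinearOrders.card_psl_mul (F := F) (n := 2) (by omega)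
    rw [hF, hsl, show Nat.gcd 2 (9 - 1) = 2 from rfl] at h2
    omega
  haveI hs : IsSimpleGroup (Matrix.ProjectiveSpecialLinearGroup (Fin 2) F) :=
    Cfsg.Lib.Classical.SLGroup.isSimpleGroup_psl (Or.inr (by
      obtain ⟨g, hg⟩ := IsCyclic.exists_generator (α := Fˣ)
      refine ⟨g, g.ne_zero, fun e => ?_⟩
      have h2 : g ^ 2 = 1 := Units.ext (by rw [Units.val_pow_eq_pow_val]; exact e)
      have := orderOf_le_of_pow_eq_one two_pos h2
      rw [orderOf_eq_card_of_forall_mem_zpowers hg, Nat.card_units, Nat.card_eq_fintype_card, hF] at this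
      omega))
  let π := QuotientGroup.mk' (Subgroup.center (Matrix.SpecialLinearGroup (Fin 2) F))
  let H : Subgroup (Matrix.ProjectiveSpecialLinearGroup (Fin 2) F) := H₀.map π
  have hle : Subgroup.center (Matrix.SpecialLinearGroup (Fin 2) F) ≤ H₀ := fun z hz => by
    obtain ⟨r, hr, hz'⟩ := Matrix.SpecialLinearGroup.mem_center_iff.1 hz
    rw [Fintype.card_fin] at hr
    rcases sq_eq_one_iff.1 hr with e | e
    · rw [show z = 1 from Subtype.ext (by rw [← hz', e]; simp)]; exact H₀.one_mem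
    · rw [show z = -1 from Subtype.ext (by rw [← hz', e]; ext i j; by_cases h : i = j <;> simp [h])]; exact hneg
  have hindex : H.index = 6 := by
    rw [Subgroup.index_map_eq _ (QuotientGroup.mk'_surjective _) (by rw [QuotientGroup.ker_mk']; exact hle)]
    have h := H₀.card_mul_index
    rw [hH₀, hsl] at h
    omega
  let φ := MulAction.toPermHom (Matrix.ProjectiveSpecialLinearGroup (Fin 2) F) (Matrix.ProjectiveSpecialLinearGroup (Fin 2) F ⧸ H)
  have hinj : Function.Injective φ := by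
    rcases Subgroup.Normal.eq_bot_or_eq_top (MonoidHom.normal_ker φ) with h | h
    · exact (MonoidHom.ker_eq_bot_iff _).1 h
    · exfalso
      have htop : H = ⊤ := eq_top_iff.2 fun g _ => by
        have hg : φ g = 1 := MonoidHom.mem_ker.1 (show g ∈ φ.ker by rw [h]; trivial)
        have := Equiv.Perm.ext_iff.1 hg ((1 : Matrix.ProjectiveSpecialLinearGroup (Fin 2) F) : _ ⧸ H)
        simp only [φ, MulAction.toPermHom_apply, MulAction.toPerm_apply, Equiv.Perm.one_apply, MulAction.Quotient.smul_mk] at this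
        simpa [QuotientGroup.eq] using this
      rw [htop, Subgroup.index_top] at hindex
      omega
  obtain ⟨e6⟩ : Nonempty ((Matrix.ProjectiveSpecialLinearGroup (Fin 2) F ⧸ H) ≃ Fin 6) := ⟨Finite.equivFinOfCardEq hindex⟩
  let ψ : Matrix.ProjectiveSpecialLinearGroup (Fin 2) F →* Equiv.Perm (Fin 6) := e6.permCongrHom.toMonoidHom.comp φ
  have hψi : Function.Injective ψ := e6.permCongrHom.injective.comp hinj
  have hψA : ∀ g, ψ g ∈ alternatingGroup (Fin 6) := fun g => by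
    rcases Subgroup.Normal.eq_bot_or_eq_top (MonoidHom.normal_ker (Equiv.Perm.sign.comp ψ)) with h | h
    · exfalso
      have := Nat.card_le_card_of_injective _ ((MonoidHom.ker_eq_bot_iff _).1 h)
      rw [hcard, Nat.card_eq_fintype_card] at this
      simp at this
    · exact MonoidHom.mem_ker.1 (show g ∈ (Equiv.Perm.sign.comp ψ).ker by rw [h]; trivial)
  refine ⟨MulEquiv.ofBijective (ψ.codRestrict (alternatingGroup (Fin 6)) hψA) ((Nat.bijective_iff_injective_and_card _).2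
    ⟨fun a b h => hψi (congrArg Subtype.val h), ?_⟩)⟩
  rw [hcard, nat_card_alternatingGroup, Nat.card_eq_fintype_card, Fintype.card_fin]
  rfl

end Cfsg.Agent.S0254
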