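import Cfsg.Statements.S0825
import Mathlib
import Cfsg.Agent.Lib.Classical.PermModule
import Cfsg.Agent.Lib.Classical.ClassicalOrders

set_option autoImplicit false
open Cfsg
open scoped Matrix

namespace Cfsg.Agent.S0825

/-- O⁺_6(2) ≅ S_8: the isometry group of the hyperbolic form x_1y_1 + x_2y_2 + x_3y_3 over the field with 2 elements is isomorphic to the symmetric group on 8 letters. -/
theorem result {F : Type*} [Field F] [Fintype F] (hF : Fintype.card F = 2) : Nonempty (↥(Cfsg.isometryGroup F (Cfsg.quadFormPlus 3 F)) ≃* Equiv.Perm (Fin 8)) := by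
  classical
  obtain ⟨φ⟩ := Cfsg.Lib.Classical.PermModule.exists_equiv (p := 2) hF
  let ι : Matrix (Fin 8) (Fin 3 ⊕ Fin 3) (ZMod 2) := (Matrix.of fun i k => (![![0, 0, 0, 1, 1, 1, 1, 0], ![0, 1, 1, 1, 0, 0, 1, 0], ![1, 0, 1, 1, 1, 0, 0, 0], ![0, 0, 1, 0, 1, 1, 1, 0], ![0, 1, 1, 1, 0, 1, 0, 0], ![1, 1, 0, 0, 0, 1, 1, 0]] : Fin 6 → Fin 8 → ZMod 2) (Sum.elim ![0, 1, 2] ![3, 4, 5] k) i)
  let π : Matrix (Fin 3 ⊕ Fin 3) (Fin 8) (ZMod 2) := (Matrix.of fun k i => (![![0, 0, 1, 0, 1, 1, 1, 0], ![0, 1, 1, 1, 0, 1, 0, 0], ![1, 1, 0, 0, 0, 1, 1, 0], ![0, 0, 0, 1, 1, 1, 1, 0], ![0, 1, 1, 1, 0, 0, 1, 0], ![1, 0, 1, 1, 1, 0, 0, 0]] : Fin 6 → Fin 8 → ZMod 2) (Sum.elim ![0, 1, 2] ![3, 4, 5] k) i)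
  let R : (Fin 8 → ZMod 2) → (Fin 8 → ZMod 2) → ZMod 2 := fun x _ => (((∑ i, if x i = 1 then 1 else 0 : ℕ) / 2 : ℕ) : ZMod 2)
  have D : Cfsg.Lib.Classical.PermModule.Data 1 ι π R (fun u _ => Cfsg.quadFormPlus 3 (ZMod 2) u) :=
    { retr := by decide +kernel
      sum := by decide +kernel
      corr := by decide +kernel
      form := fun u _ => by revert u; decide +kernel
      perm := fun σ x y => by
        simp only [R, MonoidHom.one_apply, one_smul, Function.comp_apply]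
        rw [Equiv.sum_comp σ.symm fun i => if x i = 1 then (1 : ℕ) else 0]
      shift := fun x y c d hx _ hc _ => by revert x c; decide +kernel }
  have hq : ∀ u v : Fin 3 ⊕ Fin 3 → ZMod 2, (fun u _ => Cfsg.quadFormPlus 3 F u) (φ ∘ u) (φ ∘ v) = φ ((fun u _ => Cfsg.quadFormPlus 3 (ZMod 2) u) u v) := by
    intro u v
    simp only [Cfsg.quadFormPlus, Function.comp_apply, map_add, map_mul, map_pow, map_one, map_sum]
  let h : Equiv.Perm (Fin 8) →* Cfsg.isometryGroup F (Cfsg.quadFormPlus 3 F) :=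
    (D.hom φ).codRestrict _ fun σ x y => D.hom_form φ (fun u _ => Cfsg.quadFormPlus 3 F u) hq σ x y
  have hinj : Function.Injective h := fun a b hab =>
    D.hom_injective φ (by norm_num) (τ := Equiv.swap 0 1 * Equiv.swap 2 3) (by simp) (by decide +kernel) (congrArg Subtype.val hab)
  exact Cfsg.Lib.Classical.PermModule.nonempty_mulEquiv h hinj (by
    rw [Cfsg.Lib.Classical.ClassicalOrders.card_plus hF 3 (by norm_num), Nat.card_eq_fintype_card, Fintype.card_perm]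
    rfl)

end Cfsg.Agent.S0825
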