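import Cfsg.Statements.S0256
import Mathlib
import Cfsg.Agent.Lib.Classical.LinearOrders
import Cfsg.Agent.Lib.Classical.SLGroup
import Cfsg.Agent.S0825

set_option autoImplicit false
open Cfsg
open scoped Matrix

namespace Cfsg.Agent.S0256

/-- PSL_4(2) is isomorphic to A_8. -/
theorem result {F : Type*} [Field F] [Fintype F] (hF : Fintype.card F = 2) : Nonempty (Matrix.ProjectiveSpecialLinearGroup (Fin 4) F ≃* alternatingGroup (Fin 8)) := by
  classical
  let P : Fin 3 ⊕ Fin 3 → Fin 4 × Fin 4 := Sum.elim ![(0, 1), (0, 2), (0, 3)] ![(2, 3), (1, 3), (1, 2)]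
  let Λ : Matrix (Fin 4) (Fin 4) F → Matrix (Fin 3 ⊕ Fin 3) (Fin 3 ⊕ Fin 3) F := fun g => Matrix.of fun i j =>
    g (P i).1 (P j).1 * g (P i).2 (P j).2 - g (P i).1 (P j).2 * g (P i).2 (P j).1
  have hmul : ∀ g h, Λ (g * h) = Λ g * Λ h := by
    intro g h
    ext i j
    simp only [Λ, Matrix.of_apply, Matrix.mul_apply, Fin.sum_univ_four, Fintype.sum_sum_type, Fin.sum_univ_three, P,
      Sum.elim_inl, Sum.elim_inr, Matrix.cons_val_zero, Matrix.cons_val_one, Matrix.cons_val_two, Matrix.cons_val, Matrix.head_cons, Matrix.tail_cons]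
    rcases i with i | i <;> rcases j with j | j <;> fin_cases i <;> fin_cases j <;> dsimp <;> ring
  have hone : Λ 1 = 1 := by
    ext i j
    rcases i with i | i <;> rcases j with j | j <;> fin_cases i <;> fin_cases j <;> simp [Λ, P, Matrix.one_apply]
  haveI : Fact (Nat.Prime 2) := ⟨Nat.prime_two⟩
  haveI := charP_of_card_eq_prime (p := 2) hF
  have h2 : (2 : F) = 0 := CharTwo.two_eq_zero
  have hQ : ∀ (g : Matrix (Fin 4) (Fin 4) F) v, Cfsg.quadFormPlus 3 F (Λ g *ᵥ v) = g.det * Cfsg.quadFormPlus 3 F v := by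
    intro g v
    have key : (Λ g *ᵥ v) (.inl 0) * (Λ g *ᵥ v) (.inr 0) - (Λ g *ᵥ v) (.inl 1) * (Λ g *ᵥ v) (.inr 1) + (Λ g *ᵥ v) (.inl 2) * (Λ g *ᵥ v) (.inr 2)
        = g.det * (v (.inl 0) * v (.inr 0) - v (.inl 1) * v (.inr 1) + v (.inl 2) * v (.inr 2)) := by
      rw [Matrix.det_succ_row_zero]
      simp [Fin.sum_univ_four, Matrix.det_fin_three, Matrix.submatrix, Fin.succAbove, Λ, P, Matrix.mulVec, dotProduct,
        Fintype.sum_sum_type, Fin.sum_univ_three]
      ring
    simp only [Cfsg.quadFormPlus, Fin.sum_univ_three]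
    linear_combination key + ((Λ g *ᵥ v) (.inl 1) * (Λ g *ᵥ v) (.inr 1) - g.det * v (.inl 1) * v (.inr 1)) * h2
  let lam : Matrix.SpecialLinearGroup (Fin 4) F →* Matrix.GeneralLinearGroup (Fin 3 ⊕ Fin 3) F := MonoidHom.toHomUnits
    { toFun := fun g => Λ g.1, map_one' := hone, map_mul' := fun g h => hmul g.1 h.1 }
  let h : Matrix.SpecialLinearGroup (Fin 4) F →* Cfsg.isometryGroup F (Cfsg.quadFormPlus 3 F) := lam.codRestrict _ fun g u v => by
    show Cfsg.quadFormPlus 3 F (Λ g.1 *ᵥ u) = _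
    rw [hQ, g.2, one_mul]
  have hc : Subgroup.center (Matrix.SpecialLinearGroup (Fin 4) F) = ⊥ := by
    rw [← Subgroup.card_eq_one, Cfsg.Lib.Classical.LinearOrders.card_center_sl (by norm_num), hF]
    rfl
  let e : Matrix.ProjectiveSpecialLinearGroup (Fin 4) F ≃* Matrix.SpecialLinearGroup (Fin 4) F :=
    (QuotientGroup.quotientMulEquivOfEq hc).trans QuotientGroup.quotientBot
  haveI := Cfsg.Lib.Classical.SLGroup.isSimpleGroup_psl (F := F) (ι := Fin 4) (Or.inl (by simp))
  haveI : Nontrivial (Matrix.SpecialLinearGroup (Fin 4) F) := e.toEquiv.symm.nontrivial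
  haveI := IsSimpleGroup.isSimpleGroup_of_surjective (f := e.toMonoidHom) e.surjective
  have hinj : Function.Injective h := by
    rw [← MonoidHom.ker_eq_bot_iff]
    have hN : h.ker.Normal := MonoidHom.normal_ker h
    refine hN.eq_bot_or_eq_top.resolve_right fun htop => ?_
    let t : Matrix.SpecialLinearGroup (Fin 4) F := ⟨Matrix.transvection 0 2 1, Matrix.det_transvection_of_ne _ _ (by decide) _⟩
    have ht : h t = 1 := (MonoidHom.mem_ker).1 (htop ▸ Subgroup.mem_top t)
    have h02 : (x : Fin 3 ⊕ Fin 3) → Λ t.1 (.inl 0) (.inr 2) = 0 := fun _ => by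
      have := congrArg (fun x : Cfsg.isometryGroup F (Cfsg.quadFormPlus 3 F) => (x.1.1 : Matrix (Fin 3 ⊕ Fin 3) (Fin 3 ⊕ Fin 3) F) (.inl 0) (.inr 2)) ht
      exact this
    simpa [Λ, P, t, Matrix.transvection, Matrix.single, Matrix.one_apply] using h02 (.inl 0)
  obtain ⟨f⟩ := Cfsg.Agent.S0825.result hF
  let k := f.toMonoidHom.comp h
  have hk : Function.Injective k := f.injective.comp hinj
  have hsl : Nat.card (Matrix.SpecialLinearGroup (Fin 4) F) = 20160 := by
    have := Cfsg.Lib.Classical.LinearOrders.card_sl_mul (F := F) (n := 4) (by norm_num)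
    rw [hF] at this
    simpa [Fin.prod_univ_four] using this
  have hrange : k.range = alternatingGroup (Fin 8) := by
    refine Equiv.Perm.eq_alternatingGroup_of_index_eq_two ?_
    have := k.range.card_mul_index
    rw [← Nat.card_congr (MonoidHom.ofInjective hk).toEquiv, hsl, Nat.card_perm, Nat.card_eq_fintype_card, Fintype.card_fin] at this
    norm_num [Nat.factorial] at this
    omega
  exact ⟨e.trans ((MonoidHom.ofInjective hk).trans (MulEquiv.subgroupCongr hrange))⟩

end Cfsg.Agent.S0256
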