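import Cfsg.Statements.S0257
import Mathlib
import Cfsg.Agent.Lib.Classical.LinearOrders

set_option autoImplicit false
open Cfsg
open scoped Matrix

namespace Cfsg.Agent.S0257

/-- SL_2(3) has a normal subgroup of index 3 isomorphic to the quaternion group of order 8, and its centre has order 2. -/
theorem result {F : Type*} [Field F] [Fintype F] (hF : Fintype.card F = 3) : (∃ Q : Subgroup (Matrix.SpecialLinearGroup (Fin 2) F), Q.Normal ∧ Q.index = 3 ∧ Nonempty (Q ≃* QuaternionGroup 2)) ∧ Nat.card (Subgroup.center (Matrix.SpecialLinearGroup (Fin 2) F)) = 2 := by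
  have hchar : CharP F 3 := charP_of_card_eq_prime (by rw [hF]) 
  let e : ZMod 3 ≃+* F := ZMod.ringEquiv F (by rw [hF])
  let E : Matrix.SpecialLinearGroup (Fin 2) (ZMod 3) ≃* Matrix.SpecialLinearGroup (Fin 2) F :=
    MulEquiv.ofBijective (Matrix.SpecialLinearGroup.map e.toRingHom) ⟨fun A B h => by
        refine Subtype.ext (Matrix.ext fun i j => e.injective ?_)
        exact congrFun (congrFun (congrArg Subtype.val h) i) j,
      fun A => ⟨Matrix.SpecialLinearGroup.map e.symm.toRingHom A, Subtype.ext (Matrix.ext fun i j => e.apply_symm_apply _)⟩⟩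
  let A : Matrix.SpecialLinearGroup (Fin 2) (ZMod 3) := ⟨!![0, 2; 1, 0], by decide⟩
  let X : Matrix.SpecialLinearGroup (Fin 2) (ZMod 3) := ⟨!![1, 1; 1, 2], by decide⟩
  let f0 : QuaternionGroup 2 → Matrix.SpecialLinearGroup (Fin 2) (ZMod 3) := fun q =>
    match q with
    | .a i => A ^ i.val
    | .xa i => X * A ^ i.val
  let f : QuaternionGroup 2 →* Matrix.SpecialLinearGroup (Fin 2) (ZMod 3) := MonoidHom.mk' f0 (by decide)
  have hf : Function.Injective f := (injective_iff_map_eq_one f).2 (by decide)
  have hcard : Nat.card (Matrix.SpecialLinearGroup (Fin 2) F) = 24 := by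
    have h := Cfsg.Lib.Classical.LinearOrders.card_sl_mul (F := F) (n := 2) (by omega)
    rw [hF, Fin.prod_univ_two] at h
    simp at h
    omega
  refine ⟨⟨(f.range).map E.toMonoidHom, ?_, ?_, ?_⟩, ?_⟩
  · refine Subgroup.Normal.map (H := f.range) ?_ _ E.surjective
    refine ⟨?_⟩
    rintro _ ⟨q, rfl⟩ g
    have key : ∀ (q : QuaternionGroup 2) (g : Matrix.SpecialLinearGroup (Fin 2) (ZMod 3)),
        ∃ q', f q' = g * f q * g⁻¹ := by decide
    exact key q g
  · have hQ : Nat.card ((f.range).map E.toMonoidHom) = 8 := by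
      rw [← Nat.card_congr (f.range.equivMapOfInjective E.toMonoidHom E.injective).toEquiv,
        ← Nat.card_congr (MonoidHom.ofInjective hf).toEquiv, Nat.card_eq_fintype_card, QuaternionGroup.card]
    have h := ((f.range).map E.toMonoidHom).card_mul_index
    rw [hQ, hcard] at h
    omega
  · exact ⟨((MonoidHom.ofInjective hf).trans (f.range.equivMapOfInjective E.toMonoidHom E.injective)).symm⟩
  · rw [Cfsg.Lib.Classical.LinearOrders.card_center_sl (by omega), hF]; rfl

end Cfsg.Agent.S0257
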