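import Cfsg.Statements.S0272
import Mathlib
import Cfsg.Agent.Lib.Classical.GL2

set_option autoImplicit false
open Cfsg
open scoped Matrix

namespace Cfsg.Agent.S0272

/-- The normaliser in GL_2(q) of a Sylow p-subgroup, p the characteristic, has order q (q-1)^2. -/
theorem result {F : Type*} [Field F] [Fintype F] {q : ℕ} (hF : Fintype.card F = q) (p : ℕ) [Fact p.Prime] [CharP F p] (P : Sylow p (Matrix.GeneralLinearGroup (Fin 2) F)) : Nat.card (Subgroup.normalizer ((P : Subgroup (Matrix.GeneralLinearGroup (Fin 2) F)) : Set (Matrix.GeneralLinearGroup (Fin 2) F))) = q * (q - 1) ^ 2 := by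
  subst hF
  obtain ⟨g, hg⟩ := Cfsg.Lib.Classical.GL2.exists_conj p P
  rw [hg, ← Cfsg.Lib.Classical.GL2.card_normalizer (F := F)]
  have h : Subgroup.normalizer (((Cfsg.Lib.Classical.GL2.U F).map (MulAut.conj g).toMonoidHom : Subgroup (Matrix.GeneralLinearGroup (Fin 2) F)) : Set (Matrix.GeneralLinearGroup (Fin 2) F)) =
      (Subgroup.normalizer (Cfsg.Lib.Classical.GL2.U F : Set (Matrix.GeneralLinearGroup (Fin 2) F))).map (MulAut.conj g).toMonoidHom :=
    (Subgroup.map_equiv_normalizer_eq _ (MulAut.conj g)).symm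
  rw [h]
  exact (Nat.card_congr (((Subgroup.normalizer _).equivMapOfInjective _ (MulAut.conj g).injective)).toEquiv).symm

end Cfsg.Agent.S0272
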