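import Cfsg.Statements.S0258
import Mathlib
import Cfsg.Agent.Lib.Classical.GL2
import Cfsg.Agent.S0272

set_option autoImplicit false
open Cfsg
open scoped Matrix

namespace Cfsg.Agent.S0258

/-- GL_2(q), q a power of the prime p, has exactly q + 1 Sylow p-subgroups. -/
theorem result {F : Type*} [Field F] [Fintype F] {q : ℕ} (hF : Fintype.card F = q) (p : ℕ) [Fact p.Prime] [CharP F p] : Nat.card (Sylow p (Matrix.GeneralLinearGroup (Fin 2) F)) = q + 1 := by
  subst hF
  obtain ⟨P⟩ : Nonempty (Sylow p (Matrix.GeneralLinearGroup (Fin 2) F)) := inferInstance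
  rw [P.card_eq_index_normalizer]
  have h := Cfsg.Agent.S0272.result (F := F) rfl p P
  have h2 := (Subgroup.normalizer ((P : Subgroup (Matrix.GeneralLinearGroup (Fin 2) F)) : Set (Matrix.GeneralLinearGroup (Fin 2) F))).card_mul_index
  rw [h, Cfsg.Lib.Classical.GL2.card_gl2, mul_comm] at h2
  exact Nat.eq_of_mul_eq_mul_right (Nat.mul_pos Fintype.card_pos (Nat.pow_pos (by have := Fintype.one_lt_card (α := F); omega))) h2

end Cfsg.Agent.S0258
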