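import Cfsg.Statements.S0259
import Mathlib
import Cfsg.Agent.Lib.Classical.GL2

set_option autoImplicit false
open Cfsg
open scoped Matrix

namespace Cfsg.Agent.S0259

/-- Distinct Sylow p-subgroups of GL_2(q), p the characteristic, intersect trivially. -/
theorem result {F : Type*} [Field F] [Fintype F] (p : ℕ) [Fact p.Prime] [CharP F p] (P Q : Sylow p (Matrix.GeneralLinearGroup (Fin 2) F)) (h : P ≠ Q) : (P : Subgroup (Matrix.GeneralLinearGroup (Fin 2) F)) ⊓ (Q : Subgroup (Matrix.GeneralLinearGroup (Fin 2) F)) = ⊥ := by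
  obtain ⟨g, hg⟩ := Cfsg.Lib.Classical.GL2.exists_conj p P
  obtain ⟨k, hk⟩ := Cfsg.Lib.Classical.GL2.exists_conj p Q
  refine Subgroup.eq_bot_iff_forall _ |>.2 fun x ⟨hxP, hxQ⟩ => by_contra fun hx1 => h (Sylow.ext ?_)
  rw [hg] at hxP ⊢
  rw [hk] at hxQ ⊢
  obtain ⟨y, hy, hyx⟩ := hxP
  obtain ⟨z, hz, hzx⟩ := hxQ
  have hy1 : y ≠ 1 := fun e => hx1 (by rw [← hyx, e, map_one])
  have e1 : (k⁻¹ * g) * y * (k⁻¹ * g)⁻¹ = z := by
    have e : g * y * g⁻¹ = k * z * k⁻¹ := hyx.trans hzx.symm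
    calc (k⁻¹ * g) * y * (k⁻¹ * g)⁻¹ = k⁻¹ * (g * y * g⁻¹) * k := by group
      _ = z := by rw [e]; group
  have he := Cfsg.Lib.Classical.GL2.eq_of_inf (k⁻¹ * g) hy hy1 (e1 ▸ hz)
  conv_rhs => rw [← he, Subgroup.map_map]
  congr 1
  ext w
  simp [mul_assoc]

end Cfsg.Agent.S0259
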