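import Cfsg.Statements.S0260
import Mathlib
import Cfsg.Agent.Lib.Classical.GL2

set_option autoImplicit false
open Cfsg
open scoped Matrix

namespace Cfsg.Agent.S0260

/-- Any two distinct Sylow p-subgroups of SL_2(q), p the characteristic, generate SL_2(q). -/
theorem result {F : Type*} [Field F] [Fintype F] (p : ℕ) [Fact p.Prime] [CharP F p] (P Q : Sylow p (Matrix.SpecialLinearGroup (Fin 2) F)) (h : P ≠ Q) : (P : Subgroup (Matrix.SpecialLinearGroup (Fin 2) F)) ⊔ (Q : Subgroup (Matrix.SpecialLinearGroup (Fin 2) F)) = ⊤ := by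
  classical
  let φ : Matrix.SpecialLinearGroup (Fin 2) F →* Matrix.GeneralLinearGroup (Fin 2) F := Matrix.SpecialLinearGroup.toGL
  have hφ : Function.Injective φ := fun A B e => Subtype.ext (congrArg Units.val e)
  -- every Sylow subgroup is a conjugate of the upper unitriangular group
  have key : ∀ R : Sylow p (Matrix.SpecialLinearGroup (Fin 2) F), ∃ g : Matrix.GeneralLinearGroup (Fin 2) F,
      (R : Subgroup (Matrix.SpecialLinearGroup (Fin 2) F)).map φ = (Cfsg.Lib.Classical.GL2.U F).map (MulAut.conj g).toMonoidHom := by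
    intro R
    obtain ⟨S, hS⟩ := (R.2.map φ).exists_le_sylow
    obtain ⟨g, hg⟩ := Cfsg.Lib.Classical.GL2.exists_conj p S
    refine ⟨g, le_antisymm (hg ▸ hS) ?_⟩
    have hin : (Cfsg.Lib.Classical.GL2.U F).map (MulAut.conj g).toMonoidHom ≤ φ.range := by
      rintro _ ⟨x, hx, rfl⟩
      refine ⟨⟨((MulAut.conj g).toMonoidHom x : Matrix.GeneralLinearGroup (Fin 2) F).val, ?_⟩, Units.ext rfl⟩
      have hd : Matrix.GeneralLinearGroup.det ((MulAut.conj g).toMonoidHom x) = 1 := by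
        rw [Cfsg.Lib.Classical.GL2.eq_u hx]
        simp [Cfsg.Lib.Classical.GL2.det_u]
      exact congrArg Units.val hd
    have hp' : IsPGroup p (((Cfsg.Lib.Classical.GL2.U F).map (MulAut.conj g).toMonoidHom).comap φ) :=
      ((Cfsg.Lib.Classical.GL2.isPGroup_U (F := F) p).map _).comap_of_injective φ hφ
    have hle : (R : Subgroup (Matrix.SpecialLinearGroup (Fin 2) F)) ≤ ((Cfsg.Lib.Classical.GL2.U F).map (MulAut.conj g).toMonoidHom).comap φ :=
      fun r hr => hg ▸ hS ⟨r, hr, rfl⟩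
    have := R.3 hp' hle
    rw [← this, Subgroup.map_comap_eq_self hin]
  obtain ⟨g, hg⟩ := key P
  obtain ⟨k, hk⟩ := key Q
  let h' := g⁻¹ * k
  have hne : (h' : Matrix (Fin 2) (Fin 2) F) 1 0 ≠ 0 := by
    intro h0
    have h1 : (Cfsg.Lib.Classical.GL2.U F).map (MulAut.conj h').toMonoidHom = Cfsg.Lib.Classical.GL2.U F := by
      refine Subgroup.eq_of_le_of_card_ge ?_ (Nat.card_congr (Subgroup.equivMapOfInjective _ _ (MulAut.conj h').injective).toEquiv).le
      rintro _ ⟨z, hz, rfl⟩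
      exact Cfsg.Lib.Classical.GL2.conj_mem_iff h0 hz
    refine h (Sylow.ext (Subgroup.map_injective hφ ?_))
    rw [hg, hk]
    conv_lhs => rw [← h1, Subgroup.map_map]
    congr 1
    ext w
    simp [h', mul_assoc]
  set M := (h' : Matrix (Fin 2) (Fin 2) F) with hM
  let w := Cfsg.Lib.Classical.GL2.u (-(M 0 0 / M 1 0)) * h'
  have hw00 : (w : Matrix (Fin 2) (Fin 2) F) 0 0 = 0 := by
    simp [w, Matrix.mul_apply, Fin.sum_univ_two, ← hM]
    field_simp
    ring
  have hw10 : (w : Matrix (Fin 2) (Fin 2) F) 1 0 = M 1 0 := by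
    simp [w, Matrix.mul_apply, Fin.sum_univ_two, ← hM]
  let a := g * (Cfsg.Lib.Classical.GL2.u (-(M 0 0 / M 1 0)))⁻¹
  set T := (P : Subgroup (Matrix.SpecialLinearGroup (Fin 2) F)) ⊔ (Q : Subgroup (Matrix.SpecialLinearGroup (Fin 2) F))
  let T' := (T.map φ).comap (MulAut.conj a).toMonoidHom
  have hU : ∀ x ∈ Cfsg.Lib.Classical.GL2.U F, x ∈ T' := by
    intro x hx
    refine Subgroup.map_mono (le_sup_left (a := (P : Subgroup (Matrix.SpecialLinearGroup (Fin 2) F)))) ?_
    rw [hg]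
    refine ⟨(Cfsg.Lib.Classical.GL2.u (-(M 0 0 / M 1 0)))⁻¹ * x * Cfsg.Lib.Classical.GL2.u (-(M 0 0 / M 1 0)),
      Subgroup.mul_mem _ (Subgroup.mul_mem _ (Subgroup.inv_mem _ (Cfsg.Lib.Classical.GL2.u_mem _)) hx) (Cfsg.Lib.Classical.GL2.u_mem _), ?_⟩
    simp [a, mul_assoc]
  have hL : ∀ x ∈ Cfsg.Lib.Classical.GL2.U F, w * x * w⁻¹ ∈ T' := by
    intro x hx
    refine Subgroup.map_mono (le_sup_right (b := (Q : Subgroup (Matrix.SpecialLinearGroup (Fin 2) F)))) ?_
    rw [hk]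
    exact ⟨x, hx, by simp [a, w, h', mul_assoc]⟩
  have htop : (Matrix.GeneralLinearGroup.det : Matrix.GeneralLinearGroup (Fin 2) F →* Fˣ).ker ≤ T' := by
    refine Cfsg.Lib.Classical.ker_det_le_of_transvection_mem _ fun i j hij c x hx => ?_
    fin_cases i <;> fin_cases j
    · exact absurd rfl hij
    · refine hU x ⟨?_, ?_, ?_⟩ <;> simp [hx, Matrix.transvection]
    · set d := -c * (w : Matrix (Fin 2) (Fin 2) F).det / (M 1 0) ^ 2
      have : x = w * Cfsg.Lib.Classical.GL2.u (-d * 0 + c * (w : Matrix (Fin 2) (Fin 2) F) 0 1 / M 1 0) * w⁻¹ := by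
        rw [eq_mul_inv_iff_mul_eq]
        refine Units.ext (Matrix.ext fun r s => ?_)
        fin_cases r <;> fin_cases s <;>
          simp [hx, Matrix.transvection, Matrix.mul_apply, Fin.sum_univ_two, hw00, hw10] <;> field_simp
      rw [this]
      exact hL _ (Cfsg.Lib.Classical.GL2.u_mem _)
    · exact absurd rfl hij
  refine eq_top_iff.2 fun A _ => ?_
  have hA : (MulAut.conj a).symm (φ A) ∈ (Matrix.GeneralLinearGroup.det : Matrix.GeneralLinearGroup (Fin 2) F →* Fˣ).ker := by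
    rw [MonoidHom.mem_ker, MulAut.conj_symm_apply, map_mul, map_mul, map_inv,
      show Matrix.GeneralLinearGroup.det (φ A) = 1 from Units.ext (by simp [φ])]
    simp
  have h2 : (MulAut.conj a).toMonoidHom ((MulAut.conj a).symm (φ A)) ∈ T.map φ := htop hA
  rw [MulEquiv.coe_toMonoidHom, MulEquiv.apply_symm_apply] at h2
  obtain ⟨B, hB, hBA⟩ := h2
  exact hφ hBA ▸ hB

end Cfsg.Agent.S0260
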