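import Cfsg.Statements.S0262
import Mathlib

set_option autoImplicit false
open Cfsg
open scoped Matrix

namespace Cfsg.Agent.S0262

/-- For an odd prime r different from the characteristic, the Sylow r-subgroups of SL_2(q) are cyclic. -/
theorem result {F : Type*} [Field F] [Fintype F] (p : ℕ) [Fact p.Prime] [CharP F p] (r : ℕ) [Fact r.Prime] (hr : r ≠ 2) (hrp : r ≠ p) (R : Sylow r (Matrix.SpecialLinearGroup (Fin 2) F)) : IsCyclic (R : Subgroup (Matrix.SpecialLinearGroup (Fin 2) F)) := by
  classical
  set S := Matrix.SpecialLinearGroup (Fin 2) F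
  set K := AlgebraicClosure F
  let M : S → Matrix (Fin 2) (Fin 2) F := fun x => (x : Matrix (Fin 2) (Fin 2) F)
  have hR := R.2
  rcases subsingleton_or_nontrivial (R : Subgroup S) with h | hnt
  · exact isCyclic_of_subsingleton
  obtain ⟨⟨z, hzc⟩, hz1⟩ := @exists_ne _ hR.center_nontrivial 1
  -- `z` is not scalar
  have hzR : ∀ x : (R : Subgroup S), ∃ k : ℕ, x ^ r ^ k = 1 := fun x => hR x
  have hns : ¬ ∃ a : F, M (z : S) = a • 1 := by
    rintro ⟨a, ha⟩
    apply hz1
    have hd := (z : S).2
    change (M (z : S)).det = 1 at hd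
    rw [ha, Matrix.det_smul, Matrix.det_one, mul_one, Fintype.card_fin] at hd
    obtain ⟨k, hk⟩ := hzR z
    have h1 : a ^ r ^ k = 1 := by
      have h := congrArg (fun x : (R : Subgroup S) => M (x : S) 0 0) hk
      simp only [M, SubgroupClass.coe_pow, Matrix.SpecialLinearGroup.coe_pow] at h
      rw [show ((z : S) : Matrix (Fin 2) (Fin 2) F) = a • 1 from ha, smul_pow, one_pow] at h
      simpa using h
    have hr' : Odd (r ^ k) := ((Fact.out : r.Prime).odd_of_ne_two hr).pow
    have ha1 : a = 1 := by
      obtain ⟨l, hl⟩ := hr'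
      rw [hl, pow_succ, pow_mul, hd, one_pow, one_mul] at h1
      exact h1
    exact Subtype.ext (Subtype.ext (Subtype.ext (ha.trans (by rw [ha1, one_smul]; rfl))))
  -- an eigenvector of `z`
  let Z : Matrix (Fin 2) (Fin 2) K := (M (z : S)).map (algebraMap F K)
  obtain ⟨μ, hμ⟩ := Module.End.exists_eigenvalue (Matrix.toLin' Z)
  obtain ⟨v, hv⟩ := hμ.exists_hasEigenvector
  have hv0 := hv.2
  have hZv : Z *ᵥ v = μ • v := by rw [← Matrix.toLin'_apply]; exact hv.apply_eq_smul
  have hlin : ∀ x : (R : Subgroup S), ∃ l : K, (M (x : S)).map (algebraMap F K) *ᵥ v = l • v := by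
    intro x
    have hxz : M (x : S) * M (z : S) = M (z : S) * M (x : S) :=
      congrArg (fun t : (R : Subgroup S) => M (t : S)) (Subgroup.mem_center_iff.1 hzc x)
    obtain ⟨a, b, hab⟩ : ∃ a b : F, M (x : S) = a • 1 + b • M (z : S) := by
      generalize M (x : S) = X at hxz ⊢
      generalize M (z : S) = W at hns hxz
      have e00 := congrFun (congrFun hxz 0) 0
      have e01 := congrFun (congrFun hxz 0) 1
      have e10 := congrFun (congrFun hxz 1) 0
      simp [Matrix.mul_apply, Fin.sum_univ_two] at e00 e01 e10
      by_cases h01 : W 0 1 = 0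
      · by_cases h10 : W 1 0 = 0
        · have hd : W 0 0 - W 1 1 ≠ 0 := fun h => hns ⟨W 0 0, by
            ext i j; fin_cases i <;> fin_cases j <;> simp [h01, h10, sub_eq_zero.1 h]⟩
          have x01 : X 0 1 = 0 := by
            have : X 0 1 * (W 0 0 - W 1 1) = 0 := by rw [h01] at e01; linear_combination -e01
            exact (mul_eq_zero.1 this).resolve_right hd
          have x10 : X 1 0 = 0 := by
            have : X 1 0 * (W 0 0 - W 1 1) = 0 := by rw [h10] at e10; linear_combination e10
            exact (mul_eq_zero.1 this).resolve_right hd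
          refine ⟨X 0 0 - (X 0 0 - X 1 1) / (W 0 0 - W 1 1) * W 0 0, (X 0 0 - X 1 1) / (W 0 0 - W 1 1), ?_⟩
          ext i j; fin_cases i <;> fin_cases j <;> simp [h01, h10, x01, x10] <;> (try field_simp) <;> ring
        · have x01 : X 0 1 = 0 := by
            have : X 0 1 * W 1 0 = 0 := by rw [h01] at e00; linear_combination e00
            exact (mul_eq_zero.1 this).resolve_right h10
          refine ⟨X 1 1 - X 1 0 / W 1 0 * W 1 1, X 1 0 / W 1 0, ?_⟩
          ext i j; fin_cases i <;> fin_cases j <;> simp [h01, x01] <;> (try field_simp) <;>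
            first | ring1 | linear_combination e00 | linear_combination e10 | linear_combination -e10 | linear_combination e01 | linear_combination -e01 | linear_combination -e00
      · refine ⟨X 0 0 - X 0 1 / W 0 1 * W 0 0, X 0 1 / W 0 1, ?_⟩
        ext i j; fin_cases i <;> fin_cases j <;> simp <;> (try field_simp) <;>
          first | ring1 | linear_combination e00 | linear_combination e10 | linear_combination -e10 | linear_combination e01 | linear_combination -e01 | linear_combination -e00
    refine ⟨algebraMap F K a + algebraMap F K b * μ, ?_⟩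
    have hmap : (M (x : S)).map (algebraMap F K) = algebraMap F K a • (1 : Matrix (Fin 2) (Fin 2) K) + algebraMap F K b • Z := by
      rw [hab]; ext i j; fin_cases i <;> fin_cases j <;> simp [Z] <;> simp [Algebra.smul_def]
    rw [hmap, Matrix.add_mulVec, Matrix.smul_mulVec, Matrix.one_mulVec, Matrix.smul_mulVec, hZv, add_smul, mul_smul]
  choose l hl using hlin
  let φ : (R : Subgroup S) →* K :=
    { toFun := l
      map_one' := smul_left_injective K hv0 (by
        change l 1 • v = (1 : K) • v
        rw [← hl]; simp [M])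
      map_mul' := fun x y => smul_left_injective K hv0 (by
        change l (x * y) • v = (l x * l y) • v
        rw [← hl]
        simp only [M, Subgroup.coe_mul, Matrix.SpecialLinearGroup.coe_mul, Matrix.map_mul, ← Matrix.mulVec_mulVec]
        rw [hl y, Matrix.mulVec_smul, hl x, smul_smul, mul_comm]) }
  suffices hinj : Function.Injective φ.toHomUnits from
    isCyclic_of_subgroup_isDomain φ fun a b hab => hinj (Units.ext (by simpa using hab))
  rw [injective_iff_map_eq_one]
  intro x hx
  have hx' : l x = 1 := congrArg Units.val hx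
  -- `x` is unipotent
  obtain ⟨k, hk⟩ := hzR x
  set X := M (x : S) with hX
  have hsing : (X - 1).det = 0 := by
    apply (algebraMap F K).injective
    rw [map_zero, RingHom.map_det, RingHom.mapMatrix_apply]
    refine Matrix.exists_mulVec_eq_zero_iff.1 ⟨v, hv0, ?_⟩
    rw [Matrix.map_sub _ (map_sub _), Matrix.map_one _ (map_zero _) (map_one _), Matrix.sub_mulVec, hl, hx', one_smul, Matrix.one_mulVec, sub_self]
  have hdet : X.det = 1 := (x : S).2
  have hsq : (X - 1) * (X - 1) = 0 := by
    rw [Matrix.det_fin_two] at hsing hdet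
    simp at hsing
    ext i j; fin_cases i <;> fin_cases j <;> simp [Matrix.mul_apply, Fin.sum_univ_two] <;>
      first
      | linear_combination hsing + (X 0 0 - 1) * (hdet - hsing)
      | linear_combination X 0 1 * (hdet - hsing)
      | linear_combination X 1 0 * (hdet - hsing)
      | linear_combination hsing + (X 1 1 - 1) * (hdet - hsing)
      | linear_combination -hsing + (X 0 0 - 1) * (hdet - hsing)
      | linear_combination -hsing + (X 1 1 - 1) * (hdet - hsing)
  have hp : X ^ p = 1 := by
    have : CharP (Matrix (Fin 2) (Fin 2) F) p := inferInstance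
    have h1 := sub_pow_char_of_commute (p := p) (Commute.one_right X)
    rw [pow_eq_zero_of_le (Fact.out : p.Prime).two_le (by rwa [pow_two]), one_pow] at h1
    exact sub_eq_zero.1 h1.symm
  have hxp : x ^ p = 1 := Subtype.ext (Subtype.ext (by simpa [X, M] using hp))
  have hcop : Nat.Coprime p (r ^ k) :=
    Nat.Coprime.pow_right k ((Nat.coprime_primes Fact.out Fact.out).2 hrp.symm)
  exact orderOf_eq_one_iff.1 (Nat.eq_one_of_dvd_coprimes hcop (orderOf_dvd_of_pow_eq_one hxp) (orderOf_dvd_of_pow_eq_one hk))

end Cfsg.Agent.S0262
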