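import Cfsg.Statements.S0263
import Mathlib

set_option autoImplicit false
open Cfsg
open scoped Matrix

namespace Cfsg.Agent.S0263

/-- A Sylow p-subgroup of GL_n(q), p the characteristic, has order q^(n(n-1)/2). -/
theorem result {F : Type*} [Field F] [Fintype F] {q : ℕ} (hF : Fintype.card F = q) (p : ℕ) [Fact p.Prime] [CharP F p] (n : ℕ) (P : Sylow p (Matrix.GeneralLinearGroup (Fin n) F)) : Nat.card P = q ^ (n * (n - 1) / 2) := by
  subst hF
  classical
  have hp : p.Prime := Fact.out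
  obtain ⟨k, -, hk⟩ := FiniteField.card F p
  rw [P.card_eq_multiplicity, Matrix.card_GL_field]
  have hfac : ∀ i : Fin n, Fintype.card F ^ n - Fintype.card F ^ (i : ℕ) =
      Fintype.card F ^ (i : ℕ) * (Fintype.card F ^ (n - i) - 1) := by
    intro i
    rw [Nat.mul_sub, mul_one, ← pow_add, Nat.add_sub_cancel' i.isLt.le]
  have hne : ∀ i : Fin n, ¬ p ∣ Fintype.card F ^ (n - i) - 1 := by
    intro i hd
    have h1 : p ∣ Fintype.card F ^ (n - (i : ℕ)) := dvd_pow (hk ▸ dvd_pow_self p k.pos.ne') (by have := i.isLt; omega)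
    have h2 := Nat.dvd_sub h1 hd
    rw [Nat.sub_sub_self (Nat.one_le_pow _ _ Fintype.card_pos)] at h2
    exact hp.not_dvd_one h2
  simp only [hfac, Finset.prod_mul_distrib, Finset.prod_pow_eq_pow_sum]
  have hsum : ∑ i : Fin n, (i : ℕ) = n * (n - 1) / 2 := by
    rw [Fin.sum_univ_eq_sum_range (fun i => i) n, Finset.sum_range_id]
  have hprod : ¬ p ∣ ∏ i : Fin n, (Fintype.card F ^ (n - (i : ℕ)) - 1) := fun hd => by
    obtain ⟨i, -, hi⟩ := (hp.prime.dvd_finsetProd_iff _).1 hd
    exact hne i hi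
  rw [hsum, Nat.factorization_mul (pow_ne_zero _ Fintype.card_ne_zero) (fun e : (∏ i : Fin n, (Fintype.card F ^ (n - (i : ℕ)) - 1)) = 0 => hprod (by rw [e]; exact dvd_zero p)),
    Finsupp.add_apply, Nat.factorization_eq_zero_of_not_dvd hprod, add_zero, hk, ← pow_mul, hp.factorization_pow,
    Finsupp.single_eq_same]

end Cfsg.Agent.S0263
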