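import Cfsg.Statements.S0264
import Mathlib
import Cfsg.Agent.Lib.Classical.SLGroup

set_option autoImplicit false
open Cfsg

namespace Cfsg.Agent.S0264

/-- GL_n(F)' = SL_n(F) (as the kernel of det), for every field F and every n, except n = 2 over the field of two elements. -/
theorem result {F : Type*} [Field F] (n : ℕ) (h : n = 2 → ∃ a : F, a ≠ 0 ∧ a ≠ 1) : commutator (Matrix.GeneralLinearGroup (Fin n) F) = (Matrix.GeneralLinearGroup.det : Matrix.GeneralLinearGroup (Fin n) F →* Fˣ).ker := by
  rcases lt_trichotomy n 2 with h2 | h2 | h2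
  · have hsub : Subsingleton (Fin n) := Fin.subsingleton_iff_le_one.2 (by omega)
    refine le_antisymm (Abelianization.commutator_subset_ker _) fun g hg => ?_
    have hg1 : g = 1 := by
      have hd : (g : Matrix (Fin n) (Fin n) F).det = 1 := congrArg Units.val hg
      refine Units.ext (Matrix.ext fun i j => ?_)
      obtain rfl : n = 1 := by have := i.isLt; omega
      rw [Subsingleton.elim i 0, Subsingleton.elim j 0]
      rw [Matrix.det_fin_one] at hd
      simpa using hd
    rw [hg1]; exact Subgroup.one_mem _
  · exact Cfsg.Lib.Classical.SLGroup.commutator_gl_eq_ker (Or.inr (h h2))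
  · exact Cfsg.Lib.Classical.SLGroup.commutator_gl_eq_ker (Or.inl (by simp; omega))

end Cfsg.Agent.S0264
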