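import Cfsg.Statements.S0267
import Mathlib

set_option autoImplicit false
open Cfsg
open scoped Matrix

namespace Cfsg.Agent.S0267

/-- SL_2(q) is 3-transitive on the q+1 points of the projective line if and only if q is even. -/
theorem result {F : Type*} [Field F] [Fintype F] : MulAction.IsMultiplyPretransitive (Matrix.SpecialLinearGroup (Fin 2) F) (Projectivization F (Fin 2 → F)) 3 ↔ ringChar F = 2 := by
  classical
  have hbasis : ∀ x : Fin 3 ↪ Projectivization F (Fin 2 → F), ∃ u v : Fin 2 → F, ∃ (hu : u ≠ 0) (hv : v ≠ 0) (hw : u + v ≠ 0),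
      LinearIndependent F ![u, v] ∧ x 0 = Projectivization.mk F u hu ∧ x 1 = Projectivization.mk F v hv ∧ x 2 = Projectivization.mk F (u + v) hw := by
    intro x
    obtain ⟨a, ha, h0⟩ : ∃ a ha, x 0 = Projectivization.mk F a ha := ⟨_, _, (Projectivization.mk_rep _).symm⟩
    obtain ⟨b, hb, h1⟩ : ∃ b hb, x 1 = Projectivization.mk F b hb := ⟨_, _, (Projectivization.mk_rep _).symm⟩
    obtain ⟨c, hc, h2⟩ : ∃ c hc, x 2 = Projectivization.mk F c hc := ⟨_, _, (Projectivization.mk_rep _).symm⟩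
    have key : ∀ (i j : Fin 3) (r : F) (y z : Fin 2 → F) (hy : y ≠ 0) (hz : z ≠ 0), i ≠ j →
        x i = Projectivization.mk F y hy → x j = Projectivization.mk F z hz → r • y = z → False := by
      intro i j r y z hy hz hij hi hj hr
      refine hij (x.injective (hi.trans (Eq.trans ?_ hj.symm)))
      exact ((Projectivization.mk_eq_mk_iff' F z y hz hy).2 ⟨r, hr⟩).symm
    have hli : LinearIndependent F ![a, b] := by
      rw [LinearIndependent.pair_iff' ha]
      exact fun r hr => key 0 1 r a b ha hb (by decide) h0 h1 hr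
    have hspan := hli.span_eq_top_of_card_eq_finrank' (by simp)
    rw [Matrix.range_cons, Matrix.range_cons, Matrix.range_empty, Set.union_empty, ← Set.insert_eq] at hspan
    obtain ⟨s, t, hst⟩ := Submodule.mem_span_pair.1 (hspan ▸ Submodule.mem_top : c ∈ Submodule.span F {a, b})
    have hs : s ≠ 0 := fun h => key 1 2 t b c hb hc (by decide) h1 h2 (by simpa [h] using hst)
    have ht : t ≠ 0 := fun h => key 0 2 s a c ha hc (by decide) h0 h2 (by simpa [h] using hst)
    refine ⟨s • a, t • b, smul_ne_zero hs ha, smul_ne_zero ht hb, by rw [hst]; exact hc, ?_, ?_, ?_, ?_⟩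
    · rw [LinearIndependent.pair_iff' (smul_ne_zero hs ha)]
      intro r hr
      refine key 0 1 (t⁻¹ * r * s) a b ha hb (by decide) h0 h1 ?_
      rw [mul_smul, mul_smul, hr, inv_smul_smul₀ ht]
    · rw [h0]; exact ((Projectivization.mk_eq_mk_iff' F _ _ _ _).2 ⟨s⁻¹, inv_smul_smul₀ hs a⟩)
    · rw [h1]; exact ((Projectivization.mk_eq_mk_iff' F _ _ _ _).2 ⟨t⁻¹, inv_smul_smul₀ ht b⟩)
    · rw [h2]; exact (Projectivization.mk_eq_mk_iff' F _ _ _ _).2 ⟨1, by rw [one_smul, hst]⟩
  have hsmul : ∀ (g : Matrix.SpecialLinearGroup (Fin 2) F) (u : Fin 2 → F) (hu : u ≠ 0),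
      g • Projectivization.mk F u hu = Projectivization.mk F ((g : Matrix (Fin 2) (Fin 2) F) *ᵥ u)
        (fun h => hu (Matrix.mulVec_injective_iff_isUnit.2 ((Matrix.isUnit_iff_isUnit_det _).2 (by rw [g.2]; exact isUnit_one))
          (h.trans (Matrix.mulVec_zero _).symm))) := fun g u hu => rfl
  constructor
  · intro hpre
    by_contra hchar
    have hone : (![1, 0] : Fin 2 → F) ≠ 0 := fun h => one_ne_zero (congrFun h 0)
    have htwo : (![0, 1] : Fin 2 → F) ≠ 0 := fun h => one_ne_zero (congrFun h 1)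
    have hthree : ∀ d : F, (![1, d] : Fin 2 → F) ≠ 0 := fun d h => one_ne_zero (congrFun h 0)
    obtain ⟨d, hd0, hd⟩ : ∃ d : F, d ≠ 0 ∧ ¬ IsSquare d := by
      obtain ⟨d, hd⟩ := FiniteField.exists_nonsquare hchar
      exact ⟨d, fun h => hd (h ▸ IsSquare.zero), hd⟩
    have mkEmb : ∀ e : F, e ≠ 0 → ∃ x : Fin 3 ↪ Projectivization F (Fin 2 → F), x 0 = Projectivization.mk F _ hone ∧
        x 1 = Projectivization.mk F _ htwo ∧ x 2 = Projectivization.mk F _ (hthree e) := by
      intro e he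
      refine ⟨⟨![Projectivization.mk F _ hone, Projectivization.mk F _ htwo, Projectivization.mk F _ (hthree e)], ?_⟩, rfl, rfl, rfl⟩
      intro i j h
      fin_cases i <;> fin_cases j <;> first
        | rfl
        | (exfalso; obtain ⟨r, hr⟩ := (Projectivization.mk_eq_mk_iff' F _ _ _ _).1 h
           have h0 := congrFun hr 0; have h1 := congrFun hr 1
           simp at h0 h1
           all_goals simp_all)
    obtain ⟨x, x0, x1, x2⟩ := mkEmb 1 one_ne_zero
    obtain ⟨y, y0, y1, y2⟩ := mkEmb d hd0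
    obtain ⟨g, hg⟩ := MulAction.isMultiplyPretransitive_iff.1 hpre x y
    have e0 : g • x 0 = y 0 := by rw [← hg]; rfl
    have e1 : g • x 1 = y 1 := by rw [← hg]; rfl
    have e2 : g • x 2 = y 2 := by rw [← hg]; rfl
    rw [x0, y0, hsmul, Projectivization.mk_eq_mk_iff'] at e0
    rw [x1, y1, hsmul, Projectivization.mk_eq_mk_iff'] at e1
    rw [x2, y2, hsmul, Projectivization.mk_eq_mk_iff'] at e2
    obtain ⟨a, ha⟩ := e0; obtain ⟨b, hb⟩ := e1; obtain ⟨c, hc⟩ := e2
    have a0 := congrFun ha 0; have a1 := congrFun ha 1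
    have b0 := congrFun hb 0; have b1 := congrFun hb 1
    have c0 := congrFun hc 0; have c1 := congrFun hc 1
    simp [Matrix.mulVec, dotProduct, Fin.sum_univ_two] at a0 a1 b0 b1 c0 c1
    have hdet := g.2
    rw [Matrix.det_fin_two] at hdet
    refine hd ⟨(g : Matrix (Fin 2) (Fin 2) F) 1 1, ?_⟩
    grind
  · intro hchar
    rw [MulAction.isMultiplyPretransitive_iff]
    intro x y
    obtain ⟨u, v, hu, hv, hw, hli, x0, x1, x2⟩ := hbasis x
    obtain ⟨u', v', hu', hv', hw', hli', y0, y1, y2⟩ := hbasis y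
    let A : Matrix (Fin 2) (Fin 2) F := Matrix.of fun i j => ![u, v] j i
    let B : Matrix (Fin 2) (Fin 2) F := Matrix.of fun i j => ![u', v'] j i
    have hA : IsUnit A := Matrix.linearIndependent_cols_iff_isUnit.1 hli
    have hB : IsUnit B := Matrix.linearIndependent_cols_iff_isUnit.1 hli'
    have hAd := (Matrix.isUnit_iff_isUnit_det A).1 hA
    obtain ⟨r, hr⟩ := FiniteField.isSquare_of_char_two hchar (A.det / B.det)
    let M := r • (B * A⁻¹)
    have hdet : M.det = 1 := by
      simp only [M, Matrix.det_smul, Fintype.card_fin, Matrix.det_mul, Matrix.det_nonsing_inv, Ring.inverse_eq_inv', pow_two, ← hr]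
      have h1 : A.det ≠ 0 := hAd.ne_zero
      have h2 : B.det ≠ 0 := ((Matrix.isUnit_iff_isUnit_det B).1 hB).ne_zero
      field_simp
    have hMu : M *ᵥ u = r • u' := by
      have : u = A *ᵥ Pi.single 0 1 := by ext i; simp [A, Matrix.mulVec_single_one]
      rw [this]; simp only [M, Matrix.smul_mulVec, ← Matrix.mulVec_mulVec]
      rw [Matrix.mulVec_mulVec _ A⁻¹, Matrix.nonsing_inv_mul _ hAd, Matrix.one_mulVec]
      ext i; simp [B, Matrix.mulVec_single_one]
    have hMv : M *ᵥ v = r • v' := by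
      have : v = A *ᵥ Pi.single 1 1 := by ext i; simp [A, Matrix.mulVec_single_one]
      rw [this]; simp only [M, Matrix.smul_mulVec, ← Matrix.mulVec_mulVec]
      rw [Matrix.mulVec_mulVec _ A⁻¹, Matrix.nonsing_inv_mul _ hAd, Matrix.one_mulVec]
      ext i; simp [B, Matrix.mulVec_single_one]
    let g0 : Matrix.SpecialLinearGroup (Fin 2) F := ⟨M, hdet⟩
    refine ⟨g0, ?_⟩
    ext i
    show g0 • x i = y i
    fin_cases i
    · show _ • x 0 = y 0
      rw [x0, y0, hsmul, Projectivization.mk_eq_mk_iff']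
      exact ⟨r, hMu.symm⟩
    · show _ • x 1 = y 1
      rw [x1, y1, hsmul, Projectivization.mk_eq_mk_iff']
      exact ⟨r, hMv.symm⟩
    · show _ • x 2 = y 2
      rw [x2, y2, hsmul, Projectivization.mk_eq_mk_iff']
      exact ⟨r, by rw [show (g0 : Matrix (Fin 2) (Fin 2) F) *ᵥ (u + v) = M *ᵥ u + M *ᵥ v from Matrix.mulVec_add _ _ _, hMu, hMv, smul_add]⟩

end Cfsg.Agent.S0267
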