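import Cfsg.Statements.S0268
import Mathlib

set_option autoImplicit false
open Cfsg

namespace Cfsg.Agent.S0268

/-- For q odd, -1 is the unique involution of SL_2(q). -/
theorem result {F : Type*} [Field F] [Fintype F] (hF : Odd (Fintype.card F)) (g : Matrix.SpecialLinearGroup (Fin 2) F) (h1 : g ≠ 1) (h2 : g * g = 1) : (g : Matrix (Fin 2) (Fin 2) F) = -1 := by
  have hgg := h2
  clear h2
  have h2 : (2 : F) ≠ 0 := by
    intro h
    have hc : ringChar F = 2 := by
      have : Fact (ringChar F).Prime := ⟨CharP.char_is_prime F _⟩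
      exact (Nat.prime_dvd_prime_iff_eq this.out Nat.prime_two).1 ((ringChar.spec F 2).1 (by exact_mod_cast h))
    exact Nat.not_even_iff_odd.2 hF (Nat.even_iff.2 (FiniteField.even_card_of_char_two (F := F) hc))
  set A := (g : Matrix (Fin 2) (Fin 2) F) with hA
  have hdet : A 0 0 * A 1 1 - A 0 1 * A 1 0 = 1 := by rw [← Matrix.det_fin_two]; exact g.2
  have hsq : A * A = 1 := by
    have := congrArg Subtype.val hgg
    exact this
  have e00 := congrFun (congrFun hsq 0) 0
  have e01 := congrFun (congrFun hsq 0) 1
  have e10 := congrFun (congrFun hsq 1) 0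
  have e11 := congrFun (congrFun hsq 1) 1
  simp [Matrix.mul_apply, Fin.sum_univ_two] at e00 e01 e10 e11
  have ht : A 0 0 + A 1 1 ≠ 0 := by
    intro h0
    refine h2 ?_
    linear_combination A 0 0 * h0 - e00 - hdet
  have hb : A 0 1 = 0 := by
    rcases mul_eq_zero.1 (show A 0 1 * (A 0 0 + A 1 1) = 0 by linear_combination e01) with h | h
    · exact h
    · exact absurd h ht
  have hc : A 1 0 = 0 := by
    rcases mul_eq_zero.1 (show A 1 0 * (A 0 0 + A 1 1) = 0 by linear_combination e10) with h | h
    · exact h
    · exact absurd h ht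
  rw [hb] at hdet e00
  rw [hc] at e11
  have had : A 0 0 = A 1 1 := by linear_combination A 1 1 * e00 - A 0 0 * hdet
  rcases mul_self_eq_one_iff.1 (show A 0 0 * A 0 0 = 1 by linear_combination e00) with h | h
  · exact absurd (Subtype.ext (Matrix.ext fun i j => by
      fin_cases i <;> fin_cases j <;> simp [← hA, hb, hc, h, ← had])) h1
  · ext i j
    fin_cases i <;> fin_cases j <;> simp [hb, hc, h, ← had]

end Cfsg.Agent.S0268
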