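import Cfsg.Statements.S0271
import Mathlib
import Cfsg.Agent.Lib.Classical.SymplecticMatrix

set_option autoImplicit false
open Cfsg

namespace Cfsg.Agent.S0271

open Cfsg.Lib.Classical Matrix

/-- Sp_{2m}(F) is transitive on non-zero vectors. -/
theorem result {F : Type*} [Field F] (m : ℕ) (v w : Fin m ⊕ Fin m → F) (hv : v ≠ 0) (hw : w ≠ 0) : ∃ g : Matrix.symplecticGroup (Fin m) F, (g : Matrix (Fin m ⊕ Fin m) (Fin m ⊕ Fin m) F).mulVec v = w := by
  obtain ⟨e, he, hev⟩ := exists_move_vec (sympBilin F m) (sympBilin_isAlt F m) ⊤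
    (nondegOn_top (sympBilin_nondegenerate F m)) Submodule.mem_top Submodule.mem_top hv hw
  have hg : (glEquiv _ F).symm e ∈ Cfsg.spGL m F := mem_spGL_iff.2 fun x y => by
    rw [glEquiv_symm_mulVec, glEquiv_symm_mulVec]
    exact tvClosure_le_isoGroup _ _ _ he x y
  refine ⟨⟨_, (mem_symplecticGroup_iff_spGL _).2 hg⟩, ?_⟩
  exact (glEquiv_symm_mulVec e v).trans hev

end Cfsg.Agent.S0271
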