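import Cfsg.Statements.S0273
import Mathlib
import Cfsg.Agent.Lib.Classical.GL2

set_option autoImplicit false
open Cfsg
open scoped Matrix

namespace Cfsg.Agent.S0273

/-- In GL_2(q) the centraliser of a non-trivial element of a Sylow p-subgroup (p the characteristic) has order q (q-1): the Sylow subgroup times the scalars. -/
theorem result {F : Type*} [Field F] [Fintype F] {q : ℕ} (hF : Fintype.card F = q) (p : ℕ) [Fact p.Prime] [CharP F p] (P : Sylow p (Matrix.GeneralLinearGroup (Fin 2) F)) (a : Matrix.GeneralLinearGroup (Fin 2) F) (ha : a ∈ P) (ha1 : a ≠ 1) : Nat.card (Subgroup.centralizer ({a} : Set (Matrix.GeneralLinearGroup (Fin 2) F))) = q * (q - 1) := by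
  subst hF
  classical
  obtain ⟨g, hg⟩ := Cfsg.Lib.Classical.GL2.exists_conj p P
  obtain ⟨b, hb, rfl⟩ : a ∈ (Cfsg.Lib.Classical.GL2.U F).map (MulAut.conj g).toMonoidHom := hg ▸ ha
  have hb1 : b ≠ 1 := fun e => ha1 (by rw [e, map_one])
  have hcen : Subgroup.centralizer ({(MulAut.conj g).toMonoidHom b} : Set (Matrix.GeneralLinearGroup (Fin 2) F)) =
      (Subgroup.centralizer {b}).map (MulAut.conj g).toMonoidHom := by
    ext x
    constructor
    · intro hx
      refine ⟨g⁻¹ * x * g, Subgroup.mem_centralizer_singleton_iff.2 ?_, by simp [mul_assoc]⟩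
      have h1 : x * (g * b * g⁻¹) = g * b * g⁻¹ * x := Subgroup.mem_centralizer_singleton_iff.1 hx
      calc g⁻¹ * x * g * b = g⁻¹ * (x * (g * b * g⁻¹)) * g := by group
        _ = g⁻¹ * (g * b * g⁻¹ * x) * g := by rw [h1]
        _ = b * (g⁻¹ * x * g) := by group
    · rintro ⟨y, hy, rfl⟩
      refine Subgroup.mem_centralizer_singleton_iff.2 ?_
      rw [← map_mul, ← map_mul, Subgroup.mem_centralizer_singleton_iff.1 hy]
  rw [hcen, ← Nat.card_congr ((Subgroup.centralizer {b}).equivMapOfInjective _ (MulAut.conj g).injective).toEquiv]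
  set c := (b : Matrix (Fin 2) (Fin 2) F) 0 1
  have hbu : (b : Matrix (Fin 2) (Fin 2) F) = !![1, c; 0, 1] :=
    congrArg Units.val (Cfsg.Lib.Classical.GL2.eq_u hb)
  have hc : c ≠ 0 := fun e => hb1 (Units.ext (by rw [hbu, e]; ext i j; fin_cases i <;> fin_cases j <;> simp))
  have hmem : ∀ x : Matrix.GeneralLinearGroup (Fin 2) F, x ∈ Subgroup.centralizer {b} ↔
      (x : Matrix (Fin 2) (Fin 2) F) 1 0 = 0 ∧ (x : Matrix (Fin 2) (Fin 2) F) 1 1 = (x : Matrix (Fin 2) (Fin 2) F) 0 0 := by
    intro x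
    rw [Subgroup.mem_centralizer_singleton_iff, Units.ext_iff, Units.val_mul, Units.val_mul, hbu, ← Matrix.ext_iff]
    simp [Fin.forall_fin_two, Matrix.mul_apply, Fin.sum_univ_two]
    constructor
    · rintro ⟨⟨h1, h2⟩, h3⟩
      exact ⟨(mul_eq_zero.1 (show c * (x : Matrix (Fin 2) (Fin 2) F) 1 0 = 0 by simp_all)).resolve_left hc,
        mul_left_cancel₀ hc (by linear_combination -h2)⟩
    · rintro ⟨h1, h2⟩
      simp [h1, h2, mul_comm, add_comm]
  have e : Subgroup.centralizer {b} ≃ F × Fˣ :=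
    { toFun := fun x => ((x.1 : Matrix (Fin 2) (Fin 2) F) 0 1,
        Units.mk0 ((x.1 : Matrix (Fin 2) (Fin 2) F) 0 0) (fun e => by
          have hd : (x.1 : Matrix (Fin 2) (Fin 2) F).det ≠ 0 := by
            rw [← Matrix.GeneralLinearGroup.val_det_apply]; exact Units.ne_zero _
          rw [Matrix.det_fin_two, e, ((hmem x.1).1 x.2).1] at hd
          simp at hd))
      invFun := fun p => ⟨Matrix.GeneralLinearGroup.mkOfDetNeZero !![(p.2 : F), p.1; 0, (p.2 : F)]
        (by simp [Matrix.det_fin_two]), (hmem _).2 (by simp)⟩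
      left_inv := fun x => Subtype.ext (Units.ext (by
        ext i j
        fin_cases i <;> fin_cases j <;> simp [((hmem x.1).1 x.2).1, ((hmem x.1).1 x.2).2]))
      right_inv := fun p => Prod.ext (by simp) (Units.ext (by simp)) }
  rw [Nat.card_congr e, Nat.card_prod, Nat.card_units, Nat.card_eq_fintype_card]

end Cfsg.Agent.S0273
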