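import Cfsg.Statements.S0276
import Mathlib
import Cfsg.Agent.Lib.Classical.PSLTwoOdd

set_option autoImplicit false
open Cfsg
open scoped Matrix

namespace Cfsg.Agent.S0276

/-- For q = 3 or 5 mod 8 the Sylow 2-subgroups of PSL_2(q) are elementary abelian of order 4. -/
theorem result {F : Type*} [Field F] [Fintype F] {q : ℕ} (hF : Fintype.card F = q) (hq : q % 8 = 3 ∨ q % 8 = 5) (P : Sylow 2 (Matrix.ProjectiveSpecialLinearGroup (Fin 2) F)) : IsKleinFour (P : Subgroup (Matrix.ProjectiveSpecialLinearGroup (Fin 2) F)) := by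
  have hq2 : Fintype.card F % 2 = 1 := by rw [hF]; omega
  subst hF
  haveI h2 : NeZero (2 : F) := ⟨fun h => by
    haveI := CharTwo.of_one_ne_zero_of_two_eq_zero (R := F) one_ne_zero h
    have := FiniteField.even_card_iff_char_two.1 (ringChar.eq F 2)
    omega⟩
  haveI : Fact (Nat.Prime 2) := ⟨Nat.prime_two⟩
  have hsl := Cfsg.Lib.Classical.LinearOrders.card_sl_mul (F := F) (n := 2) (by norm_num)
  have hpsl := Cfsg.Lib.Classical.LinearOrders.card_psl_mul (F := F) (n := 2) (by norm_num)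
  have hkl : 0 < Nat.card {V : Subgroup (Matrix.ProjectiveSpecialLinearGroup (Fin 2) F) // IsKleinFour V} := by
    have h1 := Cfsg.Lib.PSLTwoOdd.card_klein_mul_six (Matrix.ProjectiveSpecialLinearGroup (Fin 2) F)
    have h2 := Cfsg.Lib.PSLTwoOdd.card_pairs (F := F)
    have : 0 < Nat.card (Matrix.ProjectiveSpecialLinearGroup (Fin 2) F) := Nat.card_pos
    omega
  obtain ⟨⟨V, hV⟩⟩ := (Nat.card_pos_iff.1 hkl).1
  have h8 : ¬ 8 ∣ Nat.card (Matrix.ProjectiveSpecialLinearGroup (Fin 2) F) := by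
    intro h
    have h16 : 16 ∣ Nat.card (Matrix.SpecialLinearGroup (Fin 2) F) := by
      rw [← hpsl]
      have hg : Nat.gcd (Fintype.card F - 1) 2 = 2 := Nat.gcd_eq_right (by omega)
      first
        | (rw [hg]; exact mul_dvd_mul (dvd_refl 2) h)
        | (rw [hg, mul_comm]; exact mul_dvd_mul (dvd_refl 2) h)
        | (rw [Nat.gcd_comm, hg]; exact mul_dvd_mul (dvd_refl 2) h)
        | (rw [Nat.gcd_comm, hg, mul_comm]; exact mul_dvd_mul (dvd_refl 2) h)
    set q := Fintype.card F with hqd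

    simp only [Fin.prod_univ_two, Fin.val_zero, Fin.val_one, pow_zero, pow_one] at hsl
    have hq1 : 1 ≤ q := by omega
    have e : Nat.card (Matrix.SpecialLinearGroup (Fin 2) F) = q * (q ^ 2 - 1) := by
      apply Nat.eq_of_mul_eq_mul_left (show 0 < q - 1 by omega)
      rw [hsl, show q ^ 2 - q = q * (q - 1) by rw [pow_two, Nat.mul_sub_one]]
      ring
    rw [e] at h16
    have h0 := Nat.mod_eq_zero_of_dvd h16
    obtain ⟨m, hm⟩ : ∃ m, q ^ 2 = m + 1 := ⟨q ^ 2 - 1, by have := Nat.one_le_pow 2 q hq1; omega⟩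
    rw [hm, Nat.add_sub_cancel, Nat.mul_mod] at h0
    have h1 : (m + 1) % 16 = (q % 16) ^ 2 % 16 := by rw [← hm, Nat.pow_mod]
    have hr : q % 16 = 3 ∨ q % 16 = 5 ∨ q % 16 = 11 ∨ q % 16 = 13 := by omega
    rcases hr with r | r | r | r <;> rw [r] at h0 h1 <;> norm_num at h1 <;> omega
  have h4 : 2 ^ 2 ∣ Nat.card (Matrix.ProjectiveSpecialLinearGroup (Fin 2) F) :=
    (show Nat.card V = 2 ^ 2 from hV.card_four) ▸ Subgroup.card_subgroup_dvd_card V
  have hne : Nat.card (Matrix.ProjectiveSpecialLinearGroup (Fin 2) F) ≠ 0 := Nat.card_pos.ne'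
  have hf : (Nat.card (Matrix.ProjectiveSpecialLinearGroup (Fin 2) F)).factorization 2 = 2 := by
    have h1 := (Nat.Prime.pow_dvd_iff_le_factorization Nat.prime_two hne).1 h4
    by_contra h
    exact h8 ((Nat.Prime.pow_dvd_iff_le_factorization (k := 3) Nat.prime_two hne).2 (by omega))
  let Q : Sylow 2 (Matrix.ProjectiveSpecialLinearGroup (Fin 2) F) :=
    Sylow.ofCard V (by rw [hf]; exact hV.card_four)
  let e : V ≃* (P : Subgroup (Matrix.ProjectiveSpecialLinearGroup (Fin 2) F)) := Sylow.equiv Q P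
  exact ⟨(Nat.card_congr e.toEquiv.symm).trans hV.card_four, (Monoid.exponent_eq_of_mulEquiv e).symm.trans hV.exponent_two⟩

end Cfsg.Agent.S0276
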