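import Cfsg.Statements.S0281
import Mathlib
import Cfsg.Agent.Lib.Classical.UnitaryStd

set_option autoImplicit false
open Cfsg
open scoped Matrix

namespace Cfsg.Agent.S0281

/-- SU_2(q) is isomorphic to SL_2(q). -/
theorem result {F K : Type*} [Field F] [Fintype F] [Field K] [Fintype K] {q : ℕ} (hF : Fintype.card F = q ^ 2) (hK : Fintype.card K = q) : Nonempty (Cfsg.SU 2 F q ≃* Matrix.SpecialLinearGroup (Fin 2) K) := by
  classical
  obtain ⟨σ, hσne, hσq, hσ2⟩ := Cfsg.Lib.Classical.exists_frobSq hF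
  obtain ⟨p, hp⟩ := CharP.exists K
  haveI : Fact p.Prime := ⟨CharP.char_is_prime K p⟩
  haveI : CharP F p := by
    obtain ⟨p', hp'⟩ := CharP.exists F
    obtain ⟨k, hk', hk⟩ := FiniteField.card K p
    obtain ⟨m, hm', hm⟩ := FiniteField.card F p'
    have he : p' = p := by
      have h1 : p' ∣ p ^ (2 * (k : ℕ)) := by
        rw [mul_comm, pow_mul, ← hk, hK, ← hF, hm]; exact dvd_pow_self _ m.pos.ne'
      exact (Nat.prime_dvd_prime_iff_eq hm' hk').1 (hm'.dvd_of_dvd_pow h1)
    exact he ▸ hp'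
  letI : Algebra (ZMod p) K := ZMod.algebra K p
  letI : Algebra (ZMod p) F := ZMod.algebra F p
  have hdim : Module.finrank (ZMod p) K ∣ Module.finrank (ZMod p) F := by
    have h1 := Module.card_eq_pow_finrank (K := ZMod p) (V := K)
    have h2 := Module.card_eq_pow_finrank (K := ZMod p) (V := F)
    rw [ZMod.card, hK] at h1
    rw [ZMod.card, hF, h1, ← pow_mul] at h2
    exact ⟨2, (Nat.pow_right_injective (Fact.out : p.Prime).two_le h2).symm⟩
  obtain ⟨ι'⟩ := FiniteField.nonempty_algHom_of_finrank_dvd (F := ZMod p) hdim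
  let ι : K →+* F := ι'.toRingHom
  have hfix : ∀ x, σ (ι x) = ι x := fun x => by rw [hσq, ← map_pow, ← hK, FiniteField.pow_card]
  have hq1 : 1 < q := hK ▸ Fintype.one_lt_card
  have hrange : ∀ y : F, σ y = y → ∃ x, ι x = y := by
    intro y hy
    have hne : (Polynomial.X ^ q - Polynomial.X : Polynomial F) ≠ 0 := FiniteField.X_pow_card_sub_X_ne_zero F hq1
    have hsub : (Finset.univ.image ι) ⊆ (Polynomial.X ^ q - Polynomial.X : Polynomial F).roots.toFinset := by
      intro z hz
      obtain ⟨x, -, rfl⟩ := Finset.mem_image.1 hz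
      rw [Multiset.mem_toFinset, Polynomial.mem_roots hne]
      simp [← hσq, hfix]
    have heq := Finset.eq_of_subset_of_card_le hsub (by
      rw [Finset.card_image_of_injective _ ι.injective, Finset.card_univ, hK]
      exact (Multiset.toFinset_card_le _).trans ((Polynomial.card_roots' _).trans (by rw [FiniteField.X_pow_card_sub_X_natDegree_eq F hq1])))
    have : y ∈ (Finset.univ.image ι) := by
      rw [heq, Multiset.mem_toFinset, Polynomial.mem_roots hne]
      simp [← hσq, hy]
    obtain ⟨x, -, hx⟩ := Finset.mem_image.1 this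
    exact ⟨x, hx⟩
  obtain ⟨a, ha⟩ : ∃ a, σ a ≠ a := by
    by_contra h
    push Not at h
    exact hσne (RingEquiv.ext h)
  set δ := a - σ a with hδ
  have hδ0 : δ ≠ 0 := sub_ne_zero.2 (Ne.symm ha)
  have hσδ : σ δ = -δ := by rw [hδ, map_sub, hσ2]; ring
  obtain ⟨θ, hθ⟩ : ∃ θ, θ + σ θ = 1 := by
    obtain ⟨c, hc⟩ : ∃ c, c + σ c ≠ 0 := by
      by_contra h
      push Not at h
      refine ha ?_
      have h1 := h 1
      rw [map_one] at h1
      linear_combination h a - a * h1
    refine ⟨c / (c + σ c), ?_⟩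
    rw [map_div₀, map_add, hσ2, add_comm (σ c) c, ← add_div, div_self hc]
  obtain ⟨η, hη⟩ := Cfsg.Lib.Classical.exists_norm_eq hσne hσ2 (a := -1) (by rw [map_neg, map_one])
  have hη0 : η ≠ 0 := fun h => by simp [h] at hη
  set y := σ (δ / η) with hy
  set t := -(y * σ y) * θ / δ with ht
  -- columns e = (1, η), f = (t, y + t η)
  let P : Matrix (Fin 2) (Fin 2) F := !![1, t; η, y + t * η]
  let J : Matrix (Fin 2) (Fin 2) F := !![0, δ; -δ, 0]
  have hσy : σ y = δ / η := by rw [hy, hσ2]
  have hH : P.transpose * P.map σ = J := by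
    have hση : σ η = -1 / η := by rw [eq_div_iff hη0]; linear_combination hη
    have hyη : η * σ y = δ := by rw [hσy, mul_div_cancel₀ _ hη0]
    have hyη' : y * σ η = -δ := by rw [hy, ← map_mul, div_mul_cancel₀ _ hη0, hσδ]
    have hnfix : σ (y * σ y) = y * σ y := by rw [map_mul, hσ2, mul_comm]
    have htδ : t * δ = -(y * σ y) * θ := by rw [ht, div_mul_cancel₀ _ hδ0]
    have htδ' : σ t * (-δ) = -(y * σ y) * σ θ := by rw [← hσδ, ← map_mul, htδ, map_mul, map_neg, hnfix]
    ext i j
    fin_cases i <;> fin_cases j <;> simp [P, J, Matrix.mul_apply, Fin.sum_univ_two, Matrix.transpose_apply, map_add, map_mul]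
    · linear_combination hη
    · linear_combination hyη + σ t * hη
    · linear_combination hyη' + t * hη
    · linear_combination t * σ t * hη + t * hyη + σ t * hyη' + htδ + htδ' - (y * σ y) * hθ
  have hPdet : P.det ≠ 0 := by
    intro h0
    have := congrArg Matrix.det hH
    rw [Matrix.det_mul, Matrix.det_transpose, h0, zero_mul, Matrix.det_fin_two_of] at this
    simp [hδ0] at this
  have hPu : IsUnit P.det := isUnit_iff_ne_zero.2 hPdet
  have hh : ∀ (M : Matrix (Fin 2) (Fin 2) F) u v, Cfsg.hermForm 2 F q (M *ᵥ u) (M *ᵥ v) = u ⬝ᵥ ((M.transpose * M.map σ) *ᵥ fun i => σ (v i)) := by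
    intro M u v
    have e1 : Cfsg.hermForm 2 F q (M *ᵥ u) (M *ᵥ v) = (M *ᵥ u) ⬝ᵥ (M.map σ *ᵥ fun i => σ (v i)) := by
      refine Finset.sum_congr rfl fun i _ => ?_
      rw [← hσq]
      congr 1
      exact RingHom.map_mulVec (σ : F →+* F) M v i
    rw [e1, ← Matrix.mulVec_mulVec, Matrix.dotProduct_mulVec u, Matrix.vecMul_transpose]
  have hSU : ∀ g : Matrix.SpecialLinearGroup (Fin 2) F, g ∈ Cfsg.SU 2 F q ↔ (g : Matrix (Fin 2) (Fin 2) F).transpose * (g : Matrix (Fin 2) (Fin 2) F).map σ = 1 := by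
    intro g
    constructor
    · intro h
      ext i j
      have := h (Pi.single i 1) (Pi.single j 1)
      change Cfsg.hermForm 2 F q ((g : Matrix (Fin 2) (Fin 2) F) *ᵥ _) ((g : Matrix (Fin 2) (Fin 2) F) *ᵥ _) = _ at this
      rw [hh] at this
      have e2 : (fun k => σ ((Pi.single j (1 : F) : Fin 2 → F) k)) = Pi.single j 1 := by
        ext k; rcases eq_or_ne k j with rfl | hk
        · simp
        · rw [Pi.single_eq_of_ne hk, map_zero]
      rw [e2, single_dotProduct, one_mul, Matrix.mulVec_single_one, Matrix.col_apply] at this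
      rw [this]
      fin_cases i <;> fin_cases j <;> simp [Cfsg.hermForm, Fin.sum_univ_two, ← hσq, show q ≠ 0 by omega]
    · intro h u v
      show Cfsg.hermForm 2 F q ((g : Matrix (Fin 2) (Fin 2) F) *ᵥ u) ((g : Matrix (Fin 2) (Fin 2) F) *ᵥ v) = _
      rw [hh, h, Matrix.one_mulVec]
      exact Finset.sum_congr rfl fun i _ => by simp only [hσq]
  -- rational matrices preserve J
  have hJ : ∀ k : Matrix (Fin 2) (Fin 2) F, k.transpose * J * k = k.det • J := by
    intro k
    ext i j
    fin_cases i <;> fin_cases j <;> simp [J, Matrix.mul_apply, Fin.sum_univ_two, Matrix.det_fin_two] <;> ring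
  have hPmap : ∀ M N : Matrix (Fin 2) (Fin 2) F, (M * N).map σ = M.map σ * N.map σ := fun M N => Matrix.map_mul
  have hPi : (P⁻¹).map σ = (P.map σ)⁻¹ := by
    refine (Matrix.inv_eq_left_inv ?_).symm
    rw [← hPmap, Matrix.nonsing_inv_mul _ hPu, Matrix.map_one _ (map_zero σ) (map_one σ)]
  have hPσu : IsUnit (P.map σ).det := by
    have : (P.map σ).det = σ P.det := (RingHom.map_det (σ : F →+* F) P).symm
    rw [this, isUnit_iff_ne_zero, map_ne_zero]
    exact hPdet
  let f : Matrix.SpecialLinearGroup (Fin 2) K →* Cfsg.SU 2 F q := MonoidHom.mk' (fun g => ⟨⟨P * (g : Matrix (Fin 2) (Fin 2) K).map ι * P⁻¹, by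
      rw [Matrix.det_mul, Matrix.det_mul, mul_comm P.det, mul_assoc, ← Matrix.det_mul, Matrix.mul_nonsing_inv _ hPu, Matrix.det_one, mul_one]
      exact (RingHom.map_det ι (g : Matrix (Fin 2) (Fin 2) K)).symm.trans (by rw [g.2, map_one])⟩, (hSU _).2 (by
      have hd : ((g : Matrix (Fin 2) (Fin 2) K).map ι).det = 1 := (RingHom.map_det ι _).symm.trans (by rw [g.2, map_one])
      have hgσ : ((g : Matrix (Fin 2) (Fin 2) K).map ι).map σ = (g : Matrix (Fin 2) (Fin 2) K).map ι := by ext i j; simp [hfix]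
      simp only [Matrix.SpecialLinearGroup.coe_mk]
      calc (P * (g : Matrix (Fin 2) (Fin 2) K).map ι * P⁻¹).transpose * (P * (g : Matrix (Fin 2) (Fin 2) K).map ι * P⁻¹).map σ
          = P⁻¹.transpose * (((g : Matrix (Fin 2) (Fin 2) K).map ι).transpose * (P.transpose * P.map σ) * (g : Matrix (Fin 2) (Fin 2) K).map ι) * P⁻¹.map σ := by
            rw [hPmap, hPmap, hgσ, Matrix.transpose_mul, Matrix.transpose_mul]
            simp only [Matrix.mul_assoc]
        _ = P⁻¹.transpose * (P.transpose * P.map σ) * P⁻¹.map σ := by rw [hH, hJ, hd, one_smul]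
        _ = 1 := by
            rw [← Matrix.mul_assoc, ← Matrix.transpose_mul, Matrix.mul_nonsing_inv _ hPu, Matrix.transpose_one, Matrix.one_mul, hPi, Matrix.mul_nonsing_inv _ hPσu])⟩)
    (fun g h => Subtype.ext (Subtype.ext (by
      show P * ((g * h : Matrix.SpecialLinearGroup (Fin 2) K) : Matrix (Fin 2) (Fin 2) K).map ι * P⁻¹ = (P * _ * P⁻¹) * (P * _ * P⁻¹)
      rw [Matrix.SpecialLinearGroup.coe_mul, Matrix.map_mul]
      simp only [Matrix.mul_assoc, Matrix.nonsing_inv_mul_cancel_left _ _ hPu])))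
  refine ⟨(MulEquiv.ofBijective f ⟨fun g h e => ?_, fun g => ?_⟩).symm⟩
  · have e' : P * (g : Matrix (Fin 2) (Fin 2) K).map ι * P⁻¹ = P * (h : Matrix (Fin 2) (Fin 2) K).map ι * P⁻¹ := congrArg (fun x : Cfsg.SU 2 F q => (x.1 : Matrix (Fin 2) (Fin 2) F)) e
    have e'' := congrArg (fun M => P⁻¹ * M * P) e'
    simp only [Matrix.mul_assoc, Matrix.nonsing_inv_mul_cancel_left _ _ hPu, Matrix.nonsing_inv_mul _ hPu, Matrix.mul_one] at e''
    exact Subtype.ext (Matrix.map_injective ι.injective e'')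
  · set M := (g.1 : Matrix (Fin 2) (Fin 2) F) with hM
    have hg := (hSU g.1).1 g.2
    rw [← hM] at hg
    set k := P⁻¹ * M * P with hk
    have hkd : k.det = 1 := by
      rw [hk, Matrix.det_mul, Matrix.det_mul, mul_comm P⁻¹.det, mul_assoc, ← Matrix.det_mul, Matrix.nonsing_inv_mul _ hPu, Matrix.det_one, mul_one, hM, g.1.2]
    have hPk : P * k = M * P := by rw [hk]; simp only [Matrix.mul_assoc, Matrix.mul_nonsing_inv_cancel_left _ _ hPu]
    have h1 : k.transpose * J * k.map σ = J := by
      rw [← hH]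
      calc k.transpose * (P.transpose * P.map σ) * k.map σ = (P * k).transpose * (P * k).map σ := by
            rw [Matrix.transpose_mul P k, hPmap P k]; simp only [Matrix.mul_assoc]
        _ = _ := by
            rw [hPk, hPmap, Matrix.transpose_mul, Matrix.mul_assoc, ← Matrix.mul_assoc M.transpose, hg, Matrix.one_mul]
    have hJu : IsUnit (k.transpose * J).det := by
      rw [Matrix.det_mul, Matrix.det_transpose, hkd, one_mul, Matrix.det_fin_two_of, isUnit_iff_ne_zero]
      simp [hδ0]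
    have h2 : k.map σ = k := by
      have h3 := (hJ k).trans (by rw [hkd, one_smul])
      have := congrArg ((k.transpose * J)⁻¹ * ·) (h1.trans h3.symm)
      simpa only [Matrix.nonsing_inv_mul_cancel_left _ _ hJu] using this
    choose x hx using fun i j => hrange (k i j) (congrFun (congrFun h2 i) j)
    have hxm : (Matrix.of x).map ι = k := by ext i j; exact hx i j
    refine ⟨⟨Matrix.of x, ι.injective ?_⟩, Subtype.ext (Subtype.ext ?_)⟩
    · rw [RingHom.map_det ι, map_one, ← hkd, ← hxm]; rfl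
    · show P * (Matrix.of x).map ι * P⁻¹ = M
      rw [hxm, hPk, Matrix.mul_assoc, Matrix.mul_nonsing_inv _ hPu, Matrix.mul_one]

end Cfsg.Agent.S0281
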