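import Cfsg.Statements.S0285
import Mathlib
import Cfsg.Agent.Lib.Classical.UnitaryOrders

set_option autoImplicit false
open Cfsg
open scoped Matrix

namespace Cfsg.Agent.S0285

/-- The standard Hermitian form on F^n, |F| = q^2, has exactly (q^n - (-1)^n)(q^(n-1) + (-1)^n) non-zero isotropic vectors; counting the zero vector too: -/
theorem result {F : Type*} [Field F] [Fintype F] {q : ℕ} (hF : Fintype.card F = q ^ 2) (n : ℕ) : Nat.card {v : Fin n → F // Cfsg.hermForm n F q v v = 0} = (if Even n then (q ^ n - 1) * (q ^ (n - 1) + 1) else (q ^ n + 1) * (q ^ (n - 1) - 1)) + 1 := by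
  classical
  obtain ⟨σ, hne, hσ, hinv⟩ := Cfsg.Lib.Classical.exists_frobSq hF
  have hf := Cfsg.Lib.Classical.hermForm_isUnitaryForm hne hσ hinv n
  have hq : 1 < q := by
    by_contra h
    have := Fintype.one_lt_card (α := F)
    rw [hF] at this
    interval_cases q <;> simp at this
  obtain ⟨a0, a1⟩ := Cfsg.Lib.Classical.UnitaryOrders.num_formula hf hF n ⊤ (Cfsg.Lib.Classical.nondegOnH_top hf) (by simp)
  have e : ∀ α : F, Nat.card {v : Fin n → F // Cfsg.hermForm n F q v v = α} = Cfsg.Lib.Classical.UnitaryOrders.num (Cfsg.hermForm n F q) (⊤ : Submodule F (Fin n → F)) α :=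
    fun α => Nat.card_congr (Equiv.subtypeEquivRight fun v => ⟨fun h => ⟨Submodule.mem_top, h⟩, fun h => h.2⟩)
  rw [e]
  rcases Nat.eq_zero_or_pos n with rfl | hn
  · simp at a0 ⊢
    exact_mod_cast mul_left_cancel₀ (show (q : ℤ) ≠ 0 by omega) (a0.trans (mul_one (q : ℤ)).symm)
  obtain ⟨m, rfl⟩ : ∃ m, n = m + 1 := ⟨n - 1, by omega⟩
  rw [Nat.add_sub_cancel]
  have h1 : 1 ≤ q ^ (m + 1) := Nat.one_le_pow _ _ (by omega)
  have h2 : 1 ≤ q ^ m := Nat.one_le_pow _ _ (by omega)
  apply Nat.cast_injective (R := ℤ)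
  refine mul_left_cancel₀ (show (q : ℤ) ≠ 0 by omega) (a0.trans ?_)
  split_ifs with he
  · rw [he.neg_one_pow]; push_cast [Nat.cast_sub h1]; ring
  · rw [(Nat.not_even_iff_odd.1 he).neg_one_pow]; push_cast [Nat.cast_sub h2]; ring

end Cfsg.Agent.S0285
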