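import Cfsg.Statements.S0292
import Mathlib
import Cfsg.Agent.Lib.Classical.OmegaCentre
import Cfsg.Agent.Lib.Classical.ClassicalOrders
import Cfsg.Agent.Lib.Classical.SphereMod

set_option autoImplicit false
open Cfsg
open scoped Matrix

namespace Cfsg.Agent.S0292

/-- 2 |PΩ_{2m+1}(q)| = q^(m^2) prod_{i=1}^{m} (q^(2i) - 1), for q odd and m at least 3 (type B_m). -/
theorem result {F : Type*} [Field F] [Fintype F] {q : ℕ} (hF : Fintype.card F = q) (hodd : Odd q) (m : ℕ) (hm : 3 ≤ m) : 2 * Nat.card (Cfsg.POmega F (Cfsg.quadFormOdd m F)) = q ^ (m ^ 2) * ∏ i ∈ Finset.range m, (q ^ (2 * (i + 1)) - 1) := by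
  classical
  have h2 := Cfsg.Lib.Classical.ClassicalOrders.two_ne hF hodd
  let Q : QuadraticForm F (Unit ⊕ (Fin m ⊕ Fin m) → F) := (Cfsg.Lib.Classical.QuadOrders.Qs m (Cfsg.Lib.Classical.QuadOrders.Q1 (F := F))).comp (Cfsg.Lib.Classical.QuadOrders.eOdd F m).toLinearMap
  have hQ : ∀ v, Q v = Cfsg.quadFormOdd m F v := fun v => Cfsg.Lib.Classical.QuadOrders.eOdd_form m v
  have hB : (QuadraticMap.polarBilin Q).Nondegenerate :=
    Cfsg.Lib.Classical.QuadOrders.nondeg_comp _ (Cfsg.Lib.Classical.QuadOrders.nondeg_std (Cfsg.Lib.Classical.QuadOrders.Q1_nondeg h2))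
  have hex : (∃ c : F, c ≠ 0 ∧ c ≠ 1) ∨ Module.finrank F (Unit ⊕ (Fin m ⊕ Fin m) → F) ≠ 4 := Cfsg.Lib.Classical.OrthMatrix.hex_of_two_ne h2
  have hd : 2 ≤ Module.finrank F (Unit ⊕ (Fin m ⊕ Fin m) → F) := by simp; omega
  have hno : ¬ ∃ g : Cfsg.isometryGroup F (Cfsg.quadFormOdd m F), g ∈ Cfsg.Omega F (Cfsg.quadFormOdd m F) ∧ ((g : Matrix.GeneralLinearGroup (Unit ⊕ (Fin m ⊕ Fin m)) F) : Matrix (Unit ⊕ (Fin m ⊕ Fin m)) (Unit ⊕ (Fin m ⊕ Fin m)) F) = -1 := by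
    rintro ⟨g, hg, e⟩
    have hdet := Cfsg.Lib.Classical.OrthMatrix.det_eq_delta hQ hB hex g
    rw [((Cfsg.Lib.Classical.OrthMatrix.mem_omega_iff hQ hB hex h2 hd g).1 hg).1, e, Matrix.det_neg, Matrix.det_one] at hdet
    have hcard : Odd (Fintype.card (Unit ⊕ (Fin m ⊕ Fin m))) := ⟨m, by simp; omega⟩
    rw [hcard.neg_one_pow] at hdet
    simp at hdet
    exact h2 (by linear_combination -hdet)
  have hc := Cfsg.Lib.Classical.OmegaCentre.card_center_one hQ hB (Cfsg.Lib.Classical.OmegaCentre.stdTriple hm _ (Cfsg.Lib.Classical.QuadOrders.eOdd F m)) (Or.inr hno)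
  have h := Cfsg.Lib.Classical.OmegaCentre.card_pomega 4 (Cfsg.Lib.Classical.OrthMatrix.omega_index hQ hB hex h2 hd) 1 hc
  rw [Cfsg.Lib.Classical.ClassicalOrders.card_odd hF hodd m, mul_assoc 2] at h
  omega

end Cfsg.Agent.S0292
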