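import Cfsg.Statements.S0293
import Mathlib
import Cfsg.Agent.Lib.Classical.OmegaCentre
import Cfsg.Agent.Lib.Classical.ClassicalOrders
import Cfsg.Agent.Lib.Classical.SphereMod
import Cfsg.Agent.S0790

set_option autoImplicit false
open Cfsg
open scoped Matrix

namespace Cfsg.Agent.S0293

/-- gcd(4, q^m - 1) |PΩ^+_{2m}(q)| = q^(m(m-1)) (q^m - 1) prod_{i=1}^{m-1} (q^(2i) - 1), m at least 4 (type D_m). -/
theorem result {F : Type*} [Field F] [Fintype F] {q : ℕ} (hF : Fintype.card F = q) (m : ℕ) (hm : 4 ≤ m) : Nat.gcd 4 (q ^ m - 1) * Nat.card (Cfsg.POmega F (Cfsg.quadFormPlus m F)) = q ^ (m * (m - 1)) * (q ^ m - 1) * ∏ i ∈ Finset.range (m - 1), (q ^ (2 * (i + 1)) - 1) := by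
  classical
  let Q : QuadraticForm F (Fin m ⊕ Fin m → F) := (Cfsg.Lib.Classical.QuadOrders.Qs m (Cfsg.Lib.Classical.QuadOrders.Q0 (F := F))).comp (Cfsg.Lib.Classical.QuadOrders.ePlus F m).toLinearMap
  have hQ : ∀ v, Q v = Cfsg.quadFormPlus m F v := fun v => Cfsg.Lib.Classical.QuadOrders.ePlus_form m v
  have hB : (QuadraticMap.polarBilin Q).Nondegenerate :=
    Cfsg.Lib.Classical.QuadOrders.nondeg_comp _ (Cfsg.Lib.Classical.QuadOrders.nondeg_std Cfsg.Lib.Classical.QuadOrders.Q0_nondeg)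
  have hex : (∃ c : F, c ≠ 0 ∧ c ≠ 1) ∨ Module.finrank F (Fin m ⊕ Fin m → F) ≠ 4 := Or.inr (by simp; omega)
  have hd : 2 ≤ Module.finrank F (Fin m ⊕ Fin m → F) := by simp <;> omega
  have T : Cfsg.Lib.Classical.OmegaCentre.Triple Q := Cfsg.Lib.Classical.OmegaCentre.stdTriple (by omega : 3 ≤ m) _ (Cfsg.Lib.Classical.QuadOrders.ePlus F m)
  have hq : 1 < q := hF ▸ Fintype.one_lt_card
  have hp : 1 < q ^ m := Nat.one_lt_pow (by omega) hq
  have key : ∀ i c, (Cfsg.Omega F (Cfsg.quadFormPlus m F)).index = i → Nat.card (Subgroup.center (Cfsg.Omega F (Cfsg.quadFormPlus m F))) = c → i * c = 2 * Nat.gcd 4 (q ^ m - 1) →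
      Nat.gcd 4 (q ^ m - 1) * Nat.card (Cfsg.POmega F (Cfsg.quadFormPlus m F)) = q ^ (m * (m - 1)) * (q ^ m - 1) * ∏ i ∈ Finset.range (m - 1), (q ^ (2 * (i + 1)) - 1) := by
    intro i c hi hc e
    have h := Cfsg.Lib.Classical.OmegaCentre.card_pomega i hi c hc
    rw [Cfsg.Lib.Classical.ClassicalOrders.card_plus hF m (by omega), e, mul_assoc 2, mul_assoc 2, mul_assoc 2] at h
    rw [Nat.eq_of_mul_eq_mul_left two_pos h]
  rcases Nat.even_or_odd q with heven | hodd
  · have h2 : (2 : F) = 0 := by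
      by_contra hne
      have := FiniteField.odd_card_of_char_ne_two (F := F) fun h => hne (by haveI := ringChar.of_eq h; exact CharTwo.two_eq_zero)
      rw [hF] at this
      rw [Nat.even_iff] at heven; omega
    refine key 2 1 (Cfsg.Lib.Classical.OrthMatrix.omega_index_even hQ hB hex h2 (by omega)) (Cfsg.Lib.Classical.OmegaCentre.card_center_one hQ hB T (Or.inl h2)) ?_
    have := Nat.even_iff.1 (heven.pow_of_ne_zero (show m ≠ 0 by omega))
    have hco : Nat.Coprime 4 (q ^ m - 1) := Nat.Coprime.pow_left 2 (Nat.coprime_two_left.2 (Nat.odd_iff.2 (by omega)))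
    rw [hco]
  · have h2 := Cfsg.Lib.Classical.ClassicalOrders.two_ne hF hodd
    have hiff := Cfsg.Agent.S0790.result hF hodd m (by omega)
    have hpo := Nat.odd_iff.1 (hodd.pow (n := m))
    by_cases h4 : q ^ m % 4 = 1
    · refine key 4 2 (Cfsg.Lib.Classical.OrthMatrix.omega_index hQ hB hex h2 hd) (Cfsg.Lib.Classical.OmegaCentre.card_center_two hQ hB T h2 (hiff.2 h4)) ?_
      rw [Nat.gcd_eq_left (Nat.dvd_of_mod_eq_zero (by omega))]
    · refine key 4 1 (Cfsg.Lib.Classical.OrthMatrix.omega_index hQ hB hex h2 hd) (Cfsg.Lib.Classical.OmegaCentre.card_center_one hQ hB T (Or.inr fun h => h4 (hiff.1 h))) ?_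
      rw [Nat.gcd_rec, show (q ^ m - 1) % 4 = 2 by omega]
      rfl

end Cfsg.Agent.S0293
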