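import Cfsg.Statements.S0295
import Mathlib
import Cfsg.Agent.Lib.Classical.OrthSimple
import Cfsg.Agent.Lib.Classical.SphereMod
import Cfsg.Agent.Lib.Classical.ClassicalOrders

set_option autoImplicit false
open Cfsg
open scoped Matrix

namespace Cfsg.Agent.S0295

/-- PΩ_{2m+1}(q) is simple for q odd and m at least 3. -/
theorem result {F : Type*} [Field F] [Fintype F] (hodd : Odd (Fintype.card F)) (m : ℕ) (hm : 3 ≤ m) : IsSimpleGroup (Cfsg.POmega F (Cfsg.quadFormOdd m F)) := by
  classical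
  have : Finite F := Finite.of_fintype F
  have h2 := Cfsg.Lib.Classical.ClassicalOrders.two_ne (q := Fintype.card F) rfl hodd
  exact Cfsg.Lib.Classical.OrthSimple.isSimpleGroup_pomega
    (Q := (Cfsg.Lib.Classical.QuadOrders.Qs m (Cfsg.Lib.Classical.QuadOrders.Q1 (F := F))).comp (Cfsg.Lib.Classical.QuadOrders.eOdd F m).toLinearMap)
    (fun v => Cfsg.Lib.Classical.QuadOrders.eOdd_form m v)
    (Cfsg.Lib.Classical.QuadOrders.nondeg_comp _ (Cfsg.Lib.Classical.QuadOrders.nondeg_std (Cfsg.Lib.Classical.QuadOrders.Q1_nondeg h2)))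
    (by simp; omega)

end Cfsg.Agent.S0295
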