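import Cfsg.Statements.S0296
import Mathlib
import Cfsg.Agent.Lib.Classical.OrthSimple
import Cfsg.Agent.Lib.Classical.SphereMod
import Cfsg.Agent.Lib.Classical.ClassicalOrders

set_option autoImplicit false
open Cfsg
open scoped Matrix

namespace Cfsg.Agent.S0296

/-- PΩ^+_{2m}(q) is simple for m at least 4. -/
theorem result {F : Type*} [Field F] [Fintype F] (m : ℕ) (hm : 4 ≤ m) : IsSimpleGroup (Cfsg.POmega F (Cfsg.quadFormPlus m F)) := by
  classical
  have : Finite F := Finite.of_fintype F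
  exact Cfsg.Lib.Classical.OrthSimple.isSimpleGroup_pomega
    (Q := (Cfsg.Lib.Classical.QuadOrders.Qs m (Cfsg.Lib.Classical.QuadOrders.Q0 (F := F))).comp (Cfsg.Lib.Classical.QuadOrders.ePlus F m).toLinearMap)
    (fun v => Cfsg.Lib.Classical.QuadOrders.ePlus_form m v)
    (Cfsg.Lib.Classical.QuadOrders.nondeg_comp _ (Cfsg.Lib.Classical.QuadOrders.nondeg_std Cfsg.Lib.Classical.QuadOrders.Q0_nondeg))
    (by simp; omega)

end Cfsg.Agent.S0296
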