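import Cfsg.Statements.S0298
import Mathlib
import Cfsg.Agent.Lib.Classical.ClassicalOrders
import Cfsg.Agent.Lib.Classical.LinearOrders
import Cfsg.Agent.Lib.Classical.SLGroup
-- import your own Cfsg.Agent.* helpers here

set_option autoImplicit false
open Cfsg

namespace Cfsg.Agent.S0298

open scoped Matrix in
/-- The conjugation action of `GL₂` on trace zero matrices, as isometries of `x₀² + x y`. -/
theorem exists_adjoint (F : Type*) [Field F] :
    ∃ (Φ : GL (Fin 2) F →* Cfsg.isometryGroup F (Cfsg.quadFormOdd 1 F))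
      (mat : (Unit ⊕ (Fin 1 ⊕ Fin 1) → F) →ₗ[F] Matrix (Fin 2) (Fin 2) F),
      Function.Injective mat ∧ (∀ v, (mat v).trace = 0) ∧ (∀ X : Matrix (Fin 2) (Fin 2) F, X.trace = 0 → ∃ v, mat v = X) ∧
      ∀ g v, mat ((((Φ g : Cfsg.isometryGroup F (Cfsg.quadFormOdd 1 F)) : GL (Unit ⊕ (Fin 1 ⊕ Fin 1)) F) : Matrix (Unit ⊕ (Fin 1 ⊕ Fin 1)) (Unit ⊕ (Fin 1 ⊕ Fin 1)) F) *ᵥ v) =
        (g : Matrix (Fin 2) (Fin 2) F) * mat v * ((g⁻¹ : GL (Fin 2) F) : Matrix (Fin 2) (Fin 2) F) := by
  classical
  let mat : (Unit ⊕ (Fin 1 ⊕ Fin 1) → F) →ₗ[F] Matrix (Fin 2) (Fin 2) F :=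
    { toFun := fun v => !![v (.inl ()), v (.inr (.inl 0)); v (.inr (.inr 0)), -v (.inl ())]
      map_add' := fun v w => by ext i j; fin_cases i <;> fin_cases j <;> simp [add_comm]
      map_smul' := fun c v => by ext i j; fin_cases i <;> fin_cases j <;> simp }
  let coord : Matrix (Fin 2) (Fin 2) F →ₗ[F] (Unit ⊕ (Fin 1 ⊕ Fin 1) → F) :=
    { toFun := fun M => Sum.elim (fun _ => M 0 0) (Sum.elim (fun _ => M 0 1) (fun _ => M 1 0))
      map_add' := fun v w => by funext x; rcases x with x | x | x <;> simp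
      map_smul' := fun c v => by funext x; rcases x with x | x | x <;> simp }
  have hcm : ∀ v, coord (mat v) = v := fun v => by
    funext x
    rcases x with x | x | x
    · rfl
    · fin_cases x; rfl
    · fin_cases x; rfl
  have hmc : ∀ X : Matrix (Fin 2) (Fin 2) F, X.trace = 0 → mat (coord X) = X := fun X hX => by
    rw [Matrix.trace_fin_two] at hX
    ext i j
    fin_cases i <;> fin_cases j <;> simp [mat, coord]
    linear_combination -hX
  have htr : ∀ v, (mat v).trace = 0 := fun v => by simp [mat, Matrix.trace_fin_two]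
  have hQ : ∀ v, Cfsg.quadFormOdd 1 F v = -(mat v).det := fun v => by
    simp [mat, Cfsg.quadFormOdd, Matrix.det_fin_two]; ring
  let T : GL (Fin 2) F → Module.End F (Unit ⊕ (Fin 1 ⊕ Fin 1) → F) := fun g =>
    coord ∘ₗ LinearMap.mulLeft F (g : Matrix (Fin 2) (Fin 2) F) ∘ₗ
      LinearMap.mulRight F ((g⁻¹ : GL (Fin 2) F) : Matrix (Fin 2) (Fin 2) F) ∘ₗ mat
  have hT : ∀ g v, mat (T g v) = (g : Matrix (Fin 2) (Fin 2) F) * mat v * ((g⁻¹ : GL (Fin 2) F) : Matrix (Fin 2) (Fin 2) F) := fun g v => by
    show mat (coord _) = _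
    rw [Matrix.mul_assoc]
    refine hmc _ ?_
    show ((g : Matrix (Fin 2) (Fin 2) F) * (mat v * ((g⁻¹ : GL (Fin 2) F) : Matrix (Fin 2) (Fin 2) F))).trace = 0
    rw [← Matrix.mul_assoc, Matrix.trace_units_conj, htr]
  have hmi : Function.Injective mat := Function.LeftInverse.injective hcm
  let M : GL (Fin 2) F →* Matrix (Unit ⊕ (Fin 1 ⊕ Fin 1)) (Unit ⊕ (Fin 1 ⊕ Fin 1)) F :=
    { toFun := fun g => LinearMap.toMatrix' (T g)
      map_one' := by
        show LinearMap.toMatrix' (T 1) = 1
        rw [show T 1 = LinearMap.id from LinearMap.ext fun v => hmi (by rw [hT]; simp), LinearMap.toMatrix'_id]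
      map_mul' := fun g h => by
        show LinearMap.toMatrix' (T (g * h)) = LinearMap.toMatrix' (T g) * LinearMap.toMatrix' (T h)
        rw [← LinearMap.toMatrix'_comp]
        congr 1
        exact LinearMap.ext fun v => hmi (by show mat (T (g * h) v) = mat (T g (T h v)); rw [hT, hT, hT]; simp [mul_assoc]) }
  have hMv : ∀ g v, M g *ᵥ v = T g v := fun g v => LinearMap.toMatrix'_mulVec _ _
  have hiso : ∀ g, M.toHomUnits g ∈ Cfsg.isometryGroup F (Cfsg.quadFormOdd 1 F) := fun g u v => by
    show Cfsg.quadFormOdd 1 F (M g *ᵥ u) = Cfsg.quadFormOdd 1 F u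
    rw [hMv, hQ, hQ, hT, Matrix.det_units_conj]
  refine ⟨(M.toHomUnits).codRestrict _ hiso, mat, hmi, htr, fun X hX => ⟨coord X, hmc X hX⟩, fun g v => ?_⟩
  show mat (M g *ᵥ v) = _
  rw [hMv, hT]

open scoped Matrix commutatorElement in
/-- PΩ_3(q) is isomorphic to PSL_2(q) for q odd. -/
theorem result {F : Type*} [Field F] [Fintype F] (hodd : Odd (Fintype.card F)) : Nonempty (Cfsg.POmega F (Cfsg.quadFormOdd 1 F) ≃* Matrix.ProjectiveSpecialLinearGroup (Fin 2) F) := by
  classical
  obtain ⟨Φ, mat, hmi, htr, hms, hΦ⟩ := exists_adjoint F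
  set q := Fintype.card F with hq
  have h2 : (2 : F) ≠ 0 := Cfsg.Lib.Classical.ClassicalOrders.two_ne rfl hodd
  have hq3 : 3 ≤ q := by obtain ⟨t, ht⟩ := hodd; have := Fintype.one_lt_card (α := F); omega
  let G2 := GL (Fin 2) F
  -- the kernel
  have hker : Φ.ker = Subgroup.center G2 := by
    ext g
    rw [MonoidHom.mem_ker]
    constructor
    · intro hg
      refine Subgroup.mem_center_iff.2 fun y => Units.ext ?_
      have hcomm : ∀ X : Matrix (Fin 2) (Fin 2) F, X.trace = 0 → (g : Matrix (Fin 2) (Fin 2) F) * X = X * (g : Matrix (Fin 2) (Fin 2) F) := by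
        intro X hX
        obtain ⟨v, rfl⟩ := hms X hX
        have h := hΦ g v
        rw [hg] at h
        simp only [OneMemClass.coe_one, Units.val_one, Matrix.one_mulVec] at h
        have h' := congrArg (fun Z => Z * (g : Matrix (Fin 2) (Fin 2) F)) h
        simp only [Matrix.mul_assoc, Units.inv_mul, Matrix.mul_one] at h'
        exact h'.symm
      show (y : Matrix (Fin 2) (Fin 2) F) * (g : Matrix (Fin 2) (Fin 2) F) = (g : Matrix (Fin 2) (Fin 2) F) * (y : Matrix (Fin 2) (Fin 2) F)
      set Y := (y : Matrix (Fin 2) (Fin 2) F)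
      have e : Y = (Y.trace / 2) • (1 : Matrix (Fin 2) (Fin 2) F) + (Y - (Y.trace / 2) • (1 : Matrix (Fin 2) (Fin 2) F)) := by abel
      have ht : (Y - (Y.trace / 2) • (1 : Matrix (Fin 2) (Fin 2) F)).trace = 0 := by
        rw [Matrix.trace_sub, Matrix.trace_smul, Matrix.trace_one, Fintype.card_fin, smul_eq_mul]
        push_cast
        field_simp
        ring
      rw [e, Matrix.add_mul, Matrix.mul_add, hcomm _ ht, Matrix.smul_mul, Matrix.mul_smul, Matrix.one_mul, Matrix.mul_one]
    · intro hg
      refine Subtype.ext (Units.ext (Matrix.ext_iff_mulVec.2 fun v => hmi ?_))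
      rw [hΦ]
      have hc : ∀ X : Matrix (Fin 2) (Fin 2) F, X.trace = 0 → (g : Matrix (Fin 2) (Fin 2) F) * X = X * (g : Matrix (Fin 2) (Fin 2) F) := fun X _ => by
        have hs : ∀ y : G2, (y : Matrix (Fin 2) (Fin 2) F) * (g : Matrix (Fin 2) (Fin 2) F) = (g : Matrix (Fin 2) (Fin 2) F) * (y : Matrix (Fin 2) (Fin 2) F) :=
          fun y => congrArg Units.val (Subgroup.mem_center_iff.1 hg y)
        have e01 := hs (Matrix.GeneralLinearGroup.mkOfDetNeZero !![1, 1; 0, 1] (by simp [Matrix.det_fin_two]))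
        have e10 := hs (Matrix.GeneralLinearGroup.mkOfDetNeZero !![1, 0; 1, 1] (by simp [Matrix.det_fin_two]))
        have a00 := congrFun (congrFun e01 0) 0
        have a01 := congrFun (congrFun e01 0) 1
        have b00 := congrFun (congrFun e10 0) 0
        simp [Matrix.GeneralLinearGroup.mkOfDetNeZero, Matrix.mul_apply, Fin.sum_univ_two] at a00 a01 b00
        have a : (g : Matrix (Fin 2) (Fin 2) F) = (g : Matrix (Fin 2) (Fin 2) F) 0 0 • (1 : Matrix (Fin 2) (Fin 2) F) := by
          ext i j
          fin_cases i <;> fin_cases j <;> simp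
          all_goals first
            | linear_combination b00
            | linear_combination -b00
            | linear_combination a00
            | linear_combination -a00
            | linear_combination a01
            | linear_combination -a01
        rw [a, Matrix.smul_mul, Matrix.mul_smul, Matrix.one_mul, Matrix.mul_one]
      rw [hc _ (htr v), Matrix.mul_assoc, Units.mul_inv, Matrix.mul_one]
      simp
  -- counting
  have hO : Nat.card (Cfsg.isometryGroup F (Cfsg.quadFormOdd 1 F)) = 2 * (q * (q ^ 2 - 1)) := by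
    rw [Cfsg.Lib.Classical.ClassicalOrders.card_odd rfl hodd]; simp; ring
  have hsl : Nat.card (Matrix.SpecialLinearGroup (Fin 2) F) = q * (q ^ 2 - 1) := by
    have h := Cfsg.Lib.Classical.LinearOrders.card_sl_mul (F := F) (n := 2) (by omega)
    rw [Fin.prod_univ_two] at h
    simp only [Fin.val_zero, Fin.val_one, pow_zero, pow_one] at h
    rw [show q ^ 2 - q = q * (q - 1) by rw [Nat.mul_sub, mul_one, pow_two]] at h
    exact Nat.eq_of_mul_eq_mul_left (show 0 < q - 1 by omega) (by rw [h]; ring)
  have hR : Nat.card Φ.range = q * (q ^ 2 - 1) := by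
    rw [← hsl, ← Cfsg.Lib.Classical.LinearOrders.card_pgl]
    exact Nat.card_congr ((QuotientGroup.quotientKerEquivRange Φ).symm.trans (QuotientGroup.quotientMulEquivOfEq hker)).toEquiv
  let negO : Cfsg.isometryGroup F (Cfsg.quadFormOdd 1 F) := ⟨-1, fun u v => by
    show Cfsg.quadFormOdd 1 F (-1 *ᵥ u) = Cfsg.quadFormOdd 1 F u
    rw [Matrix.neg_mulVec, Matrix.one_mulVec]
    simp [Cfsg.quadFormOdd]⟩
  have hneg : negO ∉ Φ.range := by
    rintro ⟨g, hg⟩
    have hanti : ∀ X : Matrix (Fin 2) (Fin 2) F, X.trace = 0 → (g : Matrix (Fin 2) (Fin 2) F) * X = -(X * (g : Matrix (Fin 2) (Fin 2) F)) := by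
      intro X hX
      obtain ⟨v, rfl⟩ := hms X hX
      have h := hΦ g v
      rw [hg] at h
      change mat ((-1 : Matrix _ _ F) *ᵥ v) = _ at h
      rw [Matrix.neg_mulVec, Matrix.one_mulVec, map_neg] at h
      have h' := congrArg (fun Z => Z * (g : Matrix (Fin 2) (Fin 2) F)) h
      simp only [Matrix.mul_assoc, Units.inv_mul, Matrix.mul_one, Matrix.neg_mul] at h'
      exact h'.symm
    have eh := hanti !![1, 0; 0, -1] (by simp [Matrix.trace_fin_two])
    have ee := hanti !![0, 1; 0, 0] (by simp [Matrix.trace_fin_two])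
    have h00 := congrFun (congrFun eh 0) 0
    have h11 := congrFun (congrFun eh 1) 1
    have e00 := congrFun (congrFun ee 0) 0
    simp [Matrix.mul_apply, Fin.sum_univ_two, Matrix.vecMul, dotProduct] at h00 h11 e00
    refine Matrix.GeneralLinearGroup.det_ne_zero g ?_
    rw [Matrix.det_fin_two]
    have a : (g : Matrix (Fin 2) (Fin 2) F) 0 0 = 0 := (mul_eq_zero.1 (show (2 : F) * (g : Matrix (Fin 2) (Fin 2) F) 0 0 = 0 by linear_combination h00)).resolve_left h2
    rw [a]
    linear_combination -((g : Matrix (Fin 2) (Fin 2) F) 0 1) * e00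
  have hnc : ∀ x, negO * x = x * negO := fun x => Subtype.ext (Units.ext (by
    show (-1 : Matrix _ _ F) * _ = _ * (-1 : Matrix _ _ F)
    rw [Matrix.neg_mul, Matrix.mul_neg, Matrix.one_mul, Matrix.mul_one]))
  have hidx : Φ.range.index = 2 := by
    have h := Φ.range.card_mul_index
    rw [hR, hO] at h
    exact Nat.eq_of_mul_eq_mul_left (Nat.mul_pos (by omega) (by have := Nat.pow_le_pow_left hq3 2; omega)) (h.trans (by ring))
  have hsplit : ∀ x, x ∈ Φ.range ∨ negO * x ∈ Φ.range := fun x => by
    by_cases hx : x ∈ Φ.range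
    · exact Or.inl hx
    · exact Or.inr ((Subgroup.mul_mem_iff_of_index_two hidx).2 (by simp [hx, hneg]))
  have hn2 : negO * negO = 1 := Subtype.ext (Units.ext (by show (-1 : Matrix _ _ F) * -1 = 1; simp))
  let slGL : Matrix.SpecialLinearGroup (Fin 2) F →* G2 := Matrix.SpecialLinearGroup.toGL
  have hΩ : commutator (Cfsg.isometryGroup F (Cfsg.quadFormOdd 1 F)) = (Φ.comp slGL).range := by
    apply le_antisymm
    · rw [commutator_def, Subgroup.commutator_le]
      intro x _ y _
      have hrep : ∀ x, ∃ g, ⁅x, y⁆ = ⁅Φ g, y⁆ := fun x => by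
        rcases hsplit x with ⟨g, hg⟩ | ⟨g, hg⟩
        · exact ⟨g, by rw [hg]⟩
        · refine ⟨g, ?_⟩
          rw [hg, commutatorElement_def, commutatorElement_def, mul_inv_rev, show negO⁻¹ = negO from inv_eq_of_mul_eq_one_right hn2]
          rw [show negO * x * y * (x⁻¹ * negO) * y⁻¹ = negO * (x * y * x⁻¹) * negO * y⁻¹ by group, hnc, mul_assoc (x * y * x⁻¹), hn2, mul_one]
      obtain ⟨g, hg⟩ := hrep x
      have hrep2 : ∃ g', ⁅Φ g, y⁆ = ⁅Φ g, Φ g'⁆ := by
        rcases hsplit y with ⟨g', hg'⟩ | ⟨g', hg'⟩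
        · exact ⟨g', by rw [hg']⟩
        · refine ⟨g', ?_⟩
          rw [hg', commutatorElement_def, commutatorElement_def, mul_inv_rev, show negO⁻¹ = negO from inv_eq_of_mul_eq_one_right hn2,
            ← mul_assoc (Φ g) negO, ← hnc (Φ g)]
          rw [show negO * Φ g * y * (Φ g)⁻¹ * (y⁻¹ * negO) = negO * (Φ g * y * (Φ g)⁻¹ * y⁻¹) * negO by group, hnc, mul_assoc _ negO, hn2, mul_one]
      obtain ⟨g', hg'⟩ := hrep2
      rw [hg, hg', ← map_commutatorElement]
      refine ⟨⟨(⁅g, g'⁆ : G2), ?_⟩, ?_⟩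
      · have : Matrix.GeneralLinearGroup.det ⁅g, g'⁆ = 1 := by rw [map_commutatorElement, commutatorElement_eq_one_iff_mul_comm, mul_comm]
        exact congrArg Units.val this
      · exact congrArg Φ (Units.ext rfl)
    · rintro _ ⟨A, rfl⟩
      have hcl : A ∈ (commutator (Cfsg.isometryGroup F (Cfsg.quadFormOdd 1 F))).comap (Φ.comp slGL) := by
        obtain ⟨g, hg⟩ := IsCyclic.exists_generator (α := Fˣ)
        have ha1 : (g : F) ≠ 1 := fun e => by
          have hg1 : g = 1 := Units.ext e
          have := orderOf_eq_card_of_forall_mem_zpowers hg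
          rw [hg1, orderOf_one, Nat.card_units, Nat.card_eq_fintype_card] at this
          omega
        refine (show (⊤ : Subgroup (Matrix.SpecialLinearGroup (Fin 2) F)) ≤ _ from ?_) (Subgroup.mem_top A)
        rw [top_le_iff]
        refine Cfsg.Lib.Classical.SLGroup.eq_top_of_transvection _ fun i j hij c => ?_
        rw [Subgroup.mem_comap, MonoidHom.comp_apply]
        let D : G2 := Matrix.GeneralLinearGroup.mkOfDetNeZero (Matrix.diagonal fun k => if k = i then (g : F) else 1)
          (by rw [Matrix.det_diagonal, Finset.prod_ite_eq']; simp)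
        let T : G2 := Matrix.GeneralLinearGroup.mkOfDetNeZero (Matrix.transvection i j (c / ((g : F) - 1)))
          (by rw [Matrix.det_transvection_of_ne i j hij]; exact one_ne_zero)
        have e : slGL (Matrix.SpecialLinearGroup.transvection hij c) = ⁅D, T⁆ := by
          rw [commutatorElement_def, eq_mul_inv_iff_mul_eq, eq_mul_inv_iff_mul_eq]
          refine Units.ext ?_
          rw [Units.val_mul, Units.val_mul, Units.val_mul]
          show Matrix.transvection i j c * Matrix.transvection i j (c / ((g : F) - 1)) * Matrix.diagonal (fun k => if k = i then (g : F) else 1) =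
            Matrix.diagonal (fun k => if k = i then (g : F) else 1) * Matrix.transvection i j (c / ((g : F) - 1))
          rw [Matrix.transvection_mul_transvection_same _ _ hij]
          ext k l
          rw [Matrix.mul_diagonal, Matrix.diagonal_mul]
          simp only [Matrix.transvection, Matrix.add_apply, Matrix.one_apply, Matrix.single_apply]
          fin_cases i <;> fin_cases j <;> fin_cases k <;> fin_cases l <;> simp at hij ⊢
          all_goals (field_simp [sub_ne_zero.2 ha1]; ring)
        rw [e, map_commutatorElement]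
        exact Subgroup.commutator_mem_commutator (Subgroup.mem_top _) (Subgroup.mem_top _)
      exact hcl
  -- projective group
  let ψ : Matrix.SpecialLinearGroup (Fin 2) F →* Cfsg.Omega F (Cfsg.quadFormOdd 1 F) :=
    (Φ.comp slGL).codRestrict _ (fun A => by show _ ∈ commutator _; rw [hΩ]; exact ⟨A, rfl⟩)
  have hψs : Function.Surjective ψ := by
    rintro ⟨x, hx⟩
    rw [Cfsg.Omega, hΩ] at hx
    obtain ⟨A, rfl⟩ := hx
    exact ⟨A, rfl⟩
  have hψk : ψ.ker = Subgroup.center (Matrix.SpecialLinearGroup (Fin 2) F) := by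
    ext A
    have : A ∈ ψ.ker ↔ slGL A ∈ Φ.ker := by
      rw [MonoidHom.mem_ker, MonoidHom.mem_ker]
      exact ⟨fun h => congrArg Subtype.val h, fun h => Subtype.ext h⟩
    rw [this, hker, ← Matrix.SpecialLinearGroup.toPGL_ker, MonoidHom.mem_ker, MonoidHom.comp_apply]
    exact (QuotientGroup.eq_one_iff _).symm
  let e1 : Matrix.ProjectiveSpecialLinearGroup (Fin 2) F ≃* Cfsg.Omega F (Cfsg.quadFormOdd 1 F) :=
    (QuotientGroup.quotientMulEquivOfEq hψk.symm).trans (QuotientGroup.quotientKerEquivOfSurjective ψ hψs)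
  have hcent : Subgroup.center (Cfsg.Omega F (Cfsg.quadFormOdd 1 F)) = ⊥ := by
    rw [eq_bot_iff]
    intro z hz
    obtain ⟨A, rfl⟩ := hψs z
    rw [Subgroup.mem_bot, ← MonoidHom.mem_ker, hψk]
    have hcom : ∀ B, B * A = A * B ∨ B * A = -(A * B) := fun B => by
      have h : ψ (B * A) = ψ (A * B) := by rw [map_mul, map_mul]; exact Subgroup.mem_center_iff.1 hz (ψ B)
      rw [MonoidHom.eq_iff, hψk] at h
      obtain ⟨r, hr, hrs⟩ := Matrix.SpecialLinearGroup.mem_center_iff.1 h
      rw [Fintype.card_fin] at hr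
      rcases sq_eq_one_iff.1 hr with e | e
      · left
        have : (A * B)⁻¹ * (B * A) = 1 := Subtype.ext (by rw [← hrs, e]; simp)
        exact (inv_mul_eq_one.1 this).symm
      · right
        have : (A * B)⁻¹ * (B * A) = -1 := Subtype.ext (by rw [← hrs, e]; ext i j; by_cases h : i = j <;> simp [h])
        rw [inv_mul_eq_iff_eq_mul] at this
        rw [this, mul_neg, mul_one]
    refine Subgroup.mem_center_iff.2 fun B => ?_
    refine (show (⊤ : Subgroup (Matrix.SpecialLinearGroup (Fin 2) F)) ≤ Subgroup.centralizer {A} from ?_) (Subgroup.mem_top B) A rfl |>.symm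
    rw [top_le_iff]
    refine Cfsg.Lib.Classical.SLGroup.eq_top_of_transvection _ fun i j hij c => ?_
    rw [Subgroup.mem_centralizer_iff]
    intro x hx
    rw [Set.mem_singleton_iff] at hx
    subst x
    rcases hcom _ with e | e
    · exact e.symm
    · exfalso
      have hm := congrArg (fun X : Matrix.SpecialLinearGroup (Fin 2) F => (X : Matrix (Fin 2) (Fin 2) F)) e
      simp only [Matrix.SpecialLinearGroup.coe_mul, Matrix.SpecialLinearGroup.coe_neg] at hm
      set M := (A : Matrix (Fin 2) (Fin 2) F)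
      have hm' : Matrix.transvection i j c * M = -(M * Matrix.transvection i j c) := hm
      have h1 := congrArg Matrix.trace hm'
      have h2' : M * Matrix.transvection i j c * M⁻¹ = -Matrix.transvection i j c := by
        have hu : IsUnit M.det := by rw [A.2]; exact isUnit_one
        calc M * Matrix.transvection i j c * M⁻¹ = -(Matrix.transvection i j c * M) * M⁻¹ := by rw [hm', neg_neg]
          _ = _ := by rw [Matrix.neg_mul, Matrix.mul_assoc, Matrix.mul_nonsing_inv _ hu, Matrix.mul_one]
      have h3 := congrArg Matrix.trace h2'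
      rw [Matrix.trace_mul_cycle, Matrix.nonsing_inv_mul _ (by rw [A.2]; exact isUnit_one), Matrix.one_mul, Matrix.trace_neg] at h3
      have ht : (Matrix.transvection i j c).trace = 2 := by
        rw [Matrix.transvection, Matrix.trace_add, Matrix.trace_one, Matrix.trace_single_eq_of_ne _ _ _ hij, Fintype.card_fin, add_zero]
        norm_num
      rw [ht] at h3
      exact h2 ((mul_eq_zero.1 (show (2 : F) * 2 = 0 by linear_combination h3)).elim id id)
  exact ⟨((QuotientGroup.quotientMulEquivOfEq hcent).trans (QuotientGroup.quotientBot)).trans e1.symm⟩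

end Cfsg.Agent.S0298
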