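import Cfsg.Statements.S0299
import Mathlib
import Cfsg.Agent.Lib.Classical.ClassicalOrders
import Cfsg.Agent.Lib.Classical.LinearOrders
import Cfsg.Agent.Lib.Classical.SLGroup
-- import your own Cfsg.Agent.* helpers here

set_option autoImplicit false
open Cfsg

namespace Cfsg.Agent.S0299

open scoped Matrix in
/-- The action of pairs of matrices of equal determinant on `M₂(F)`, and the transposition, as isometries of the determinant. -/
theorem exists_action (F : Type*) [Field F] :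
    ∃ (G : Subgroup (GL (Fin 2) F × GL (Fin 2) F)) (Φ : G →* Cfsg.isometryGroup F (Cfsg.quadFormPlus 2 F))
      (τ : Cfsg.isometryGroup F (Cfsg.quadFormPlus 2 F)) (e : (Fin 2 ⊕ Fin 2 → F) ≃ₗ[F] Matrix (Fin 2) (Fin 2) F),
      (∀ p, p ∈ G ↔ Matrix.GeneralLinearGroup.det p.1 = Matrix.GeneralLinearGroup.det p.2) ∧
      (∀ (p : G) v, e ((((Φ p : Cfsg.isometryGroup F (Cfsg.quadFormPlus 2 F)) : GL (Fin 2 ⊕ Fin 2) F) : Matrix (Fin 2 ⊕ Fin 2) (Fin 2 ⊕ Fin 2) F) *ᵥ v) =
        (p.1.1 : Matrix (Fin 2) (Fin 2) F) * e v * ((p.1.2⁻¹ : GL (Fin 2) F) : Matrix (Fin 2) (Fin 2) F)) ∧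
      (∀ v, e ((((τ : Cfsg.isometryGroup F (Cfsg.quadFormPlus 2 F)) : GL (Fin 2 ⊕ Fin 2) F) : Matrix (Fin 2 ⊕ Fin 2) (Fin 2 ⊕ Fin 2) F) *ᵥ v) = (e v)ᵀ) := by
  classical
  let e : (Fin 2 ⊕ Fin 2 → F) ≃ₗ[F] Matrix (Fin 2) (Fin 2) F :=
    { toFun := fun v => !![v (.inl 0), v (.inl 1); -v (.inr 1), v (.inr 0)]
      invFun := fun M => Sum.elim ![M 0 0, M 0 1] ![M 1 1, -M 1 0]
      map_add' := fun v w => by ext i j; fin_cases i <;> fin_cases j <;> simp [add_comm]
      map_smul' := fun c v => by ext i j; fin_cases i <;> fin_cases j <;> simp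
      left_inv := fun v => by funext x; rcases x with x | x <;> fin_cases x <;> simp
      right_inv := fun M => by ext i j; fin_cases i <;> fin_cases j <;> simp }
  have hQ : ∀ v, Cfsg.quadFormPlus 2 F v = (e v).det := fun v => by
    simp [e, Cfsg.quadFormPlus, Matrix.det_fin_two, Fin.sum_univ_two]
  let T : GL (Fin 2) F × GL (Fin 2) F → Module.End F (Fin 2 ⊕ Fin 2 → F) := fun p =>
    e.symm.toLinearMap ∘ₗ LinearMap.mulLeft F (p.1 : Matrix (Fin 2) (Fin 2) F) ∘ₗ
      LinearMap.mulRight F ((p.2⁻¹ : GL (Fin 2) F) : Matrix (Fin 2) (Fin 2) F) ∘ₗ e.toLinearMap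
  have hT : ∀ p v, e (T p v) = (p.1 : Matrix (Fin 2) (Fin 2) F) * e v * ((p.2⁻¹ : GL (Fin 2) F) : Matrix (Fin 2) (Fin 2) F) := fun p v => by
    show e (e.symm _) = _
    rw [e.apply_symm_apply, Matrix.mul_assoc]
    rfl
  let M : GL (Fin 2) F × GL (Fin 2) F →* Matrix (Fin 2 ⊕ Fin 2) (Fin 2 ⊕ Fin 2) F :=
    { toFun := fun g => LinearMap.toMatrix' (T g)
      map_one' := by
        show LinearMap.toMatrix' (T 1) = 1
        rw [show T 1 = LinearMap.id from LinearMap.ext fun v => e.injective (by rw [hT]; simp), LinearMap.toMatrix'_id]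
      map_mul' := fun g h => by
        show LinearMap.toMatrix' (T (g * h)) = LinearMap.toMatrix' (T g) * LinearMap.toMatrix' (T h)
        rw [← LinearMap.toMatrix'_comp]
        congr 1
        exact LinearMap.ext fun v => e.injective (by show e (T (g * h) v) = e (T g (T h v)); rw [hT, hT, hT]; simp [mul_assoc]) }
  have hMv : ∀ g v, M g *ᵥ v = T g v := fun g v => LinearMap.toMatrix'_mulVec _ _
  let G : Subgroup (GL (Fin 2) F × GL (Fin 2) F) :=
    (Matrix.GeneralLinearGroup.det.comp (MonoidHom.fst _ _)).eqLocus (Matrix.GeneralLinearGroup.det.comp (MonoidHom.snd _ _))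
  have hiso : ∀ p : G, (M.toHomUnits.comp G.subtype) p ∈ Cfsg.isometryGroup F (Cfsg.quadFormPlus 2 F) := fun p u v => by
    show Cfsg.quadFormPlus 2 F (M p.1 *ᵥ u) = Cfsg.quadFormPlus 2 F u
    rw [hMv, hQ, hQ, hT, Matrix.det_mul, Matrix.det_mul]
    have h := p.2
    change Matrix.GeneralLinearGroup.det p.1.1 = Matrix.GeneralLinearGroup.det p.1.2 at h
    have hd : (p.1.1 : Matrix (Fin 2) (Fin 2) F).det = (p.1.2 : Matrix (Fin 2) (Fin 2) F).det := congrArg Units.val h
    rw [hd, mul_right_comm, ← Matrix.det_mul, Units.mul_inv, Matrix.det_one, one_mul]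
  let N : Matrix (Fin 2 ⊕ Fin 2) (Fin 2 ⊕ Fin 2) F :=
    LinearMap.toMatrix' (e.symm.toLinearMap ∘ₗ (Matrix.transposeLinearEquiv (Fin 2) (Fin 2) F F).toLinearMap ∘ₗ e.toLinearMap)
  have hN : ∀ v, e (N *ᵥ v) = (e v)ᵀ := fun v => by
    rw [LinearMap.toMatrix'_mulVec]
    show e (e.symm _) = _
    rw [e.apply_symm_apply]
    rfl
  have hNN : N * N = 1 := Matrix.ext_iff_mulVec.2 fun v => e.injective (by
    rw [← Matrix.mulVec_mulVec, hN, hN, Matrix.transpose_transpose, Matrix.one_mulVec])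
  refine ⟨G, (M.toHomUnits.comp G.subtype).codRestrict _ hiso, ⟨⟨N, N, hNN, hNN⟩, fun u v => ?_⟩, e, fun p => Iff.rfl, fun p v => ?_, hN⟩
  · show Cfsg.quadFormPlus 2 F (N *ᵥ u) = Cfsg.quadFormPlus 2 F u
    rw [hQ, hQ, hN, Matrix.det_transpose]
  · show e (M p.1 *ᵥ v) = _
    rw [hMv, hT]

open scoped Matrix commutatorElement in
set_option maxHeartbeats 1000000 in
/-- PΩ^+_4(q) is isomorphic to PSL_2(q) x PSL_2(q) for q at least 3. -/
theorem result {F : Type*} [Field F] [Fintype F] (hF : 3 ≤ Fintype.card F) : Nonempty (Cfsg.POmega F (Cfsg.quadFormPlus 2 F) ≃* Matrix.ProjectiveSpecialLinearGroup (Fin 2) F × Matrix.ProjectiveSpecialLinearGroup (Fin 2) F) := by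
  classical
  obtain ⟨G, Φ, τ, e, hG, hΦ, hτ⟩ := exists_action F
  set q := Fintype.card F with hq
  let S2 := Matrix.SpecialLinearGroup (Fin 2) F
  -- the kernel
  have hker : ∀ p : G, p ∈ Φ.ker ↔ p.1.1 = p.1.2 ∧ p.1.1 ∈ Subgroup.center (GL (Fin 2) F) := by
    intro p
    rw [MonoidHom.mem_ker]
    constructor
    · intro hp
      have hall : ∀ X : Matrix (Fin 2) (Fin 2) F, (p.1.1 : Matrix (Fin 2) (Fin 2) F) * X = X * (p.1.2 : Matrix (Fin 2) (Fin 2) F) := by
        intro X
        obtain ⟨v, rfl⟩ := e.surjective X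
        have h := hΦ p v
        rw [hp] at h
        simp only [OneMemClass.coe_one, Units.val_one, Matrix.one_mulVec] at h
        conv_rhs => rw [h]
        rw [Matrix.mul_assoc _ _ (p.1.2 : Matrix (Fin 2) (Fin 2) F), Units.inv_mul, Matrix.mul_one]
      have heq : p.1.1 = p.1.2 := Units.ext (by simpa using hall 1)
      refine ⟨heq, Subgroup.mem_center_iff.2 fun y => Units.ext ?_⟩
      show (y : Matrix (Fin 2) (Fin 2) F) * _ = _ * (y : Matrix (Fin 2) (Fin 2) F)
      rw [hall y, heq]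
    · rintro ⟨heq, hc⟩
      refine Subtype.ext (Units.ext (Matrix.ext_iff_mulVec.2 fun v => e.injective ?_))
      rw [hΦ, ← heq]
      rw [Matrix.GeneralLinearGroup.center_eq_range_scalar] at hc
      obtain ⟨r, hr⟩ := hc
      rw [← hr]
      show Matrix.scalar (Fin 2) (r : F) * e v * ((Matrix.GeneralLinearGroup.scalar (Fin 2) r)⁻¹ : GL (Fin 2) F).val = _
      rw [(Matrix.scalar_commute _ (fun r' => Commute.all _ _) (e v)).eq, Matrix.mul_assoc,
        show Matrix.scalar (Fin 2) (r : F) = ((Matrix.GeneralLinearGroup.scalar (Fin 2) r : GL (Fin 2) F) : Matrix (Fin 2) (Fin 2) F) from rfl,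
        Units.mul_inv, Matrix.mul_one]
      simp
  let ι : S2 × S2 →* G := (MonoidHom.prodMap Matrix.SpecialLinearGroup.toGL Matrix.SpecialLinearGroup.toGL).codRestrict G
    (fun p => (hG _).2 (Units.ext (by
      show (p.1 : Matrix (Fin 2) (Fin 2) F).det = (p.2 : Matrix (Fin 2) (Fin 2) F).det
      rw [p.1.2, p.2.2])))
  let ψ := Φ.comp ι
  set S := ψ.range with hSdef
  -- membership in `S`
  have hmemS : ∀ (p : G) (s : Fˣ), (p.1.1 : Matrix (Fin 2) (Fin 2) F).det = (s : F) * s → Φ p ∈ S := by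
    intro p s hs
    have hs2 : (p.1.2 : Matrix (Fin 2) (Fin 2) F).det = (s : F) * s :=
      (congrArg Units.val ((hG p.1).1 p.2)).symm.trans hs
    let C : S2 := ⟨(s : F)⁻¹ • (p.1.1 : Matrix (Fin 2) (Fin 2) F), by rw [Matrix.det_smul, hs, Fintype.card_fin]; field_simp⟩
    let D : S2 := ⟨(s : F)⁻¹ • (p.1.2 : Matrix (Fin 2) (Fin 2) F), by rw [Matrix.det_smul, hs2, Fintype.card_fin]; field_simp⟩
    refine ⟨(C, D), Subtype.ext (Units.ext (Matrix.ext_iff_mulVec.2 fun v => e.injective ?_))⟩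
    show e _ = e _
    rw [hΦ, MonoidHom.comp_apply, hΦ]
    show ((s : F)⁻¹ • (p.1.1 : Matrix (Fin 2) (Fin 2) F)) * e v * ((Matrix.SpecialLinearGroup.toGL D)⁻¹ : GL (Fin 2) F).val = _
    have hD : ((Matrix.SpecialLinearGroup.toGL D)⁻¹ : GL (Fin 2) F).val = (s : F) • ((p.1.2⁻¹ : GL (Fin 2) F) : Matrix (Fin 2) (Fin 2) F) := by
      rw [Units.inv_eq_of_mul_eq_one_right]
      show ((s : F)⁻¹ • (p.1.2 : Matrix (Fin 2) (Fin 2) F)) * ((s : F) • ((p.1.2⁻¹ : GL (Fin 2) F) : Matrix (Fin 2) (Fin 2) F)) = 1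
      rw [Matrix.smul_mul, Matrix.mul_smul, smul_smul, Units.mul_inv, inv_mul_cancel₀ s.ne_zero, one_smul]
    rw [hD, Matrix.smul_mul, Matrix.smul_mul, Matrix.mul_smul, smul_smul, inv_mul_cancel₀ s.ne_zero, one_smul]
  -- transposition
  have hττ : τ * τ = 1 := Subtype.ext (Units.ext (Matrix.ext_iff_mulVec.2 fun v => e.injective (by
    show e (((τ.1 : Matrix _ _ F) * (τ.1 : Matrix _ _ F)) *ᵥ v) = e ((1 : Matrix _ _ F) *ᵥ v)
    rw [← Matrix.mulVec_mulVec, hτ, hτ, Matrix.transpose_transpose, Matrix.one_mulVec])))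
  let it : GL (Fin 2) F → GL (Fin 2) F := fun A => ⟨((A⁻¹ : GL (Fin 2) F) : Matrix (Fin 2) (Fin 2) F)ᵀ, (A : Matrix (Fin 2) (Fin 2) F)ᵀ,
    by rw [← Matrix.transpose_mul, Units.mul_inv, Matrix.transpose_one], by rw [← Matrix.transpose_mul, Units.inv_mul, Matrix.transpose_one]⟩
  have hτc : ∀ p : G, ∃ p' : G, τ * Φ p * τ = Φ p' ∧ p'.1.1 = it p.1.2 := by
    intro p
    have hmem : (it p.1.2, it p.1.1) ∈ G := (hG _).2 (Units.ext (by
      show ((p.1.2⁻¹ : GL (Fin 2) F) : Matrix (Fin 2) (Fin 2) F)ᵀ.det = ((p.1.1⁻¹ : GL (Fin 2) F) : Matrix (Fin 2) (Fin 2) F)ᵀ.det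
      have := congrArg (fun u : Fˣ => ((u⁻¹ : Fˣ) : F)) ((hG p.1).1 p.2)
      simp only [← map_inv, Matrix.GeneralLinearGroup.val_det_apply] at this
      rw [Matrix.det_transpose, Matrix.det_transpose, this]))
    refine ⟨⟨_, hmem⟩, Subtype.ext (Units.ext (Matrix.ext_iff_mulVec.2 fun v => e.injective ?_)), rfl⟩
    show e (((τ.1 : Matrix _ _ F) * _ * (τ.1 : Matrix _ _ F)) *ᵥ v) = e _
    rw [← Matrix.mulVec_mulVec, ← Matrix.mulVec_mulVec, hτ, hΦ, hτ, hΦ]
    show _ = ((p.1.2⁻¹ : GL (Fin 2) F) : Matrix (Fin 2) (Fin 2) F)ᵀ * e v * (p.1.1 : Matrix (Fin 2) (Fin 2) F)ᵀ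
    rw [Matrix.transpose_mul, Matrix.transpose_mul, Matrix.transpose_transpose, ← Matrix.mul_assoc]
  -- counting
  have hsl : Nat.card S2 = q * (q ^ 2 - 1) := by
    have h := Cfsg.Lib.Classical.LinearOrders.card_sl_mul (F := F) (n := 2) (by omega)
    rw [Fin.prod_univ_two] at h
    simp only [Fin.val_zero, Fin.val_one, pow_zero, pow_one] at h
    rw [show q ^ 2 - q = q * (q - 1) by rw [Nat.mul_sub, mul_one, pow_two]] at h
    exact Nat.eq_of_mul_eq_mul_left (show 0 < q - 1 by omega) (by rw [h]; ring)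
  have hO : Nat.card (Cfsg.isometryGroup F (Cfsg.quadFormPlus 2 F)) = 2 * (Nat.card S2 * Nat.card S2) := by
    rw [Cfsg.Lib.Classical.ClassicalOrders.card_plus rfl 2 (by norm_num), hsl]; simp; ring
  have hR : Nat.card Φ.range = Nat.card S2 * Nat.card S2 := by
    have hGcard : Nat.card G = Nat.card (GL (Fin 2) F) * Nat.card S2 := by
      rw [← Nat.card_prod]
      refine Nat.card_congr
        { toFun := fun p => (p.1.1, ⟨((p.1.1⁻¹ * p.1.2 : GL (Fin 2) F) : Matrix (Fin 2) (Fin 2) F), ?_⟩)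
          invFun := fun x => ⟨(x.1, x.1 * Matrix.SpecialLinearGroup.toGL x.2), (hG _).2 ?_⟩
          left_inv := fun p => ?_
          right_inv := fun x => ?_ }
      · have : Matrix.GeneralLinearGroup.det (p.1.1⁻¹ * p.1.2) = 1 := by
          rw [map_mul, map_inv, (hG p.1).1 p.2, inv_mul_cancel]
        exact congrArg Units.val this
      · show Matrix.GeneralLinearGroup.det x.1 = Matrix.GeneralLinearGroup.det (x.1 * Matrix.SpecialLinearGroup.toGL x.2)
        rw [map_mul, show Matrix.GeneralLinearGroup.det (Matrix.SpecialLinearGroup.toGL x.2) = 1 from Units.ext x.2.2, mul_one]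
      · refine Subtype.ext (Prod.ext rfl ?_)
        show p.1.1 * _ = p.1.2
        rw [show Matrix.SpecialLinearGroup.toGL _ = p.1.1⁻¹ * p.1.2 from Units.ext rfl, mul_inv_cancel_left]
      · refine Prod.ext rfl (Subtype.ext ?_)
        show ((x.1⁻¹ * (x.1 * Matrix.SpecialLinearGroup.toGL x.2) : GL (Fin 2) F) : Matrix (Fin 2) (Fin 2) F) = _
        rw [inv_mul_cancel_left]
        rfl
    have hK : Nat.card Φ.ker = q - 1 := by
      rw [← Cfsg.Lib.Classical.LinearOrders.card_center_gl (F := F) (n := 2) (by omega)]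
      refine Nat.card_congr
        { toFun := fun p => ⟨p.1.1.1, ((hker _).1 p.2).2⟩
          invFun := fun c => ⟨⟨(c.1, c.1), (hG _).2 rfl⟩, (hker _).2 ⟨rfl, c.2⟩⟩
          left_inv := fun p => Subtype.ext (Subtype.ext (Prod.ext rfl ((hker _).1 p.2).1))
          right_inv := fun c => rfl }
    have h := Subgroup.card_eq_card_quotient_mul_card_subgroup Φ.ker
    rw [Nat.card_congr (QuotientGroup.quotientKerEquivRange Φ).toEquiv, hK, hGcard, Matrix.card_GL_field,
      ← Cfsg.Lib.Classical.LinearOrders.card_sl_mul (by omega)] at h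
    exact Nat.eq_of_mul_eq_mul_right (show 0 < q - 1 by omega) (by rw [← h]; ring)
  have hτn : τ ∉ Φ.range := by
    rintro ⟨p, hp⟩
    have hall : ∀ X : Matrix (Fin 2) (Fin 2) F, (p.1.1 : Matrix (Fin 2) (Fin 2) F) * X = Xᵀ * (p.1.2 : Matrix (Fin 2) (Fin 2) F) := by
      intro X
      obtain ⟨v, rfl⟩ := e.surjective X
      rw [← hτ, ← hp, hΦ, Matrix.mul_assoc _ _ (p.1.2 : Matrix (Fin 2) (Fin 2) F), Units.inv_mul, Matrix.mul_one]
    have h1 := hall 1
    rw [Matrix.transpose_one, Matrix.one_mul, Matrix.mul_one] at h1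
    have hd := hall !![1, 0; 0, 0]
    have he := hall !![0, 1; 0, 0]
    rw [← h1] at hd he
    have d01 := congrFun (congrFun hd 0) 1
    have e01 := congrFun (congrFun he 0) 1
    simp [Matrix.mul_apply, Fin.sum_univ_two] at d01 e01
    refine Matrix.GeneralLinearGroup.det_ne_zero p.1.1 ?_
    rw [Matrix.det_fin_two]
    linear_combination (p.1.1 : Matrix (Fin 2) (Fin 2) F) 1 1 * e01 + (p.1.1 : Matrix (Fin 2) (Fin 2) F) 1 0 * d01
  have hidx : Φ.range.index = 2 := by
    have h := Φ.range.card_mul_index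
    rw [hR, hO] at h
    exact Nat.eq_of_mul_eq_mul_left (Nat.mul_pos Nat.card_pos Nat.card_pos) (h.trans (by ring))
  have hsplit : ∀ x, x ∈ Φ.range ∨ τ * x ∈ Φ.range := fun x => by
    by_cases hx : x ∈ Φ.range
    · exact Or.inl hx
    · exact Or.inr ((Subgroup.mul_mem_iff_of_index_two hidx).2 (by simp [hx, hτn]))
  have hτinv : τ⁻¹ = τ := inv_eq_of_mul_eq_one_right hττ
  have hnormal : S.Normal := by
    constructor
    rintro _ ⟨⟨C, D⟩, rfl⟩ x
    have hin : ∀ p : G, Φ p * ψ (C, D) * (Φ p)⁻¹ ∈ S := fun p => by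
      rw [MonoidHom.comp_apply, ← map_inv, ← map_mul, ← map_mul]
      refine hmemS _ 1 ?_
      have : Matrix.GeneralLinearGroup.det (p.1.1 * Matrix.SpecialLinearGroup.toGL C * p.1.1⁻¹) = 1 := by
        rw [map_mul, map_mul, map_inv, show Matrix.GeneralLinearGroup.det (Matrix.SpecialLinearGroup.toGL C) = 1 from Units.ext C.2, mul_one, mul_inv_cancel]
      rw [Units.val_one, one_mul]
      exact congrArg Units.val this
    rcases hsplit x with ⟨p, hp⟩ | ⟨p, hp⟩
    · rw [← hp]; exact hin p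
    · obtain ⟨⟨C', D'⟩, h'⟩ := hin p
      obtain ⟨p', hp', hp'1⟩ := hτc (ι (C', D'))
      have hx : x = τ * Φ p := by rw [hp, ← mul_assoc, hττ, one_mul]
      rw [show x * ψ (C, D) * x⁻¹ = τ * (Φ p * ψ (C, D) * (Φ p)⁻¹) * τ by rw [hx, mul_inv_rev, hτinv]; group, ← h', MonoidHom.comp_apply, hp']
      refine hmemS p' 1 ?_
      rw [hp'1, Units.val_one, one_mul]
      show ((Matrix.SpecialLinearGroup.toGL D')⁻¹ : GL (Fin 2) F).val.transpose.det = 1
      rw [Matrix.det_transpose, ← map_inv]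
      exact (D'⁻¹).2
  have hcomm : ∀ x y : Cfsg.isometryGroup F (Cfsg.quadFormPlus 2 F), ⁅x, y⁆ ∈ S := by
    let π := QuotientGroup.mk' S
    have hab : ∀ p p' : G, π (Φ p) * π (Φ p') = π (Φ p') * π (Φ p) := fun p p' => by
      rw [← commutatorElement_eq_one_iff_mul_comm, ← map_commutatorElement, ← map_commutatorElement, QuotientGroup.mk'_apply,
        QuotientGroup.eq_one_iff]
      refine hmemS _ 1 ?_
      have : Matrix.GeneralLinearGroup.det ⁅p.1.1, p'.1.1⁆ = 1 := by
        rw [map_commutatorElement, commutatorElement_eq_one_iff_mul_comm, mul_comm]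
      rw [Units.val_one, one_mul]
      exact congrArg Units.val this
    have htau : ∀ p : G, π τ * π (Φ p) = π (Φ p) * π τ := fun p => by
      obtain ⟨p', hp', hp'1⟩ := hτc p
      rw [← commutatorElement_eq_one_iff_mul_comm, ← map_commutatorElement, QuotientGroup.mk'_apply,
        QuotientGroup.eq_one_iff, commutatorElement_def, hτinv, hp', ← map_inv, ← map_mul]
      refine hmemS _ (Matrix.GeneralLinearGroup.det p.1.1)⁻¹ ?_
      have hdd : Matrix.GeneralLinearGroup.det (p'.1.1 * p.1.1⁻¹) = (Matrix.GeneralLinearGroup.det p.1.1)⁻¹ * (Matrix.GeneralLinearGroup.det p.1.1)⁻¹ := by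
        rw [map_mul, map_inv, hp'1]
        congr 1
        rw [(hG p.1).1 p.2, ← map_inv]
        exact Units.ext (Matrix.det_transpose _)
      exact congrArg Units.val hdd
    have hgen : ∀ x, ∃ p : G, π x = π (Φ p) ∨ π x = π τ * π (Φ p) := fun x => by
      rcases hsplit x with ⟨p, hp⟩ | ⟨p, hp⟩
      · exact ⟨p, Or.inl (by rw [hp])⟩
      · exact ⟨p, Or.inr (by rw [← map_mul, hp, ← mul_assoc, hττ, one_mul])⟩
    intro x y
    rw [← QuotientGroup.eq_one_iff, ← QuotientGroup.mk'_apply, map_commutatorElement, commutatorElement_eq_one_iff_mul_comm]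
    obtain ⟨p, hp⟩ := hgen x
    obtain ⟨p', hp'⟩ := hgen y
    have c1 : Commute (π τ) (π (Φ p)) := htau p
    have c2 : Commute (π τ) (π (Φ p')) := htau p'
    have c3 : Commute (π (Φ p)) (π (Φ p')) := hab p p'
    rcases hp with e1 | e1 <;> rcases hp' with e2 | e2 <;> rw [e1, e2]
    · exact c3.eq
    · exact (c1.symm.mul_right c3).eq
    · exact (c2.mul_left c3).eq
    · exact (((Commute.refl _).mul_right c2).mul_left (c1.symm.mul_right c3)).eq
  have hΩ : commutator (Cfsg.isometryGroup F (Cfsg.quadFormPlus 2 F)) = S := by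
    apply le_antisymm
    · rw [commutator_def, Subgroup.commutator_le]
      exact fun x _ y _ => hcomm x y
    · rw [hSdef, MonoidHom.range_eq_map, Subgroup.map_le_iff_le_comap]
      obtain ⟨g, hg⟩ := IsCyclic.exists_generator (α := Fˣ)
      have ha1 : (g : F) ≠ 1 := fun e => by
        have hg1 : g = 1 := Units.ext e
        have := orderOf_eq_card_of_forall_mem_zpowers hg
        rw [hg1, orderOf_one, Nat.card_units, Nat.card_eq_fintype_card] at this
        omega
      set H := (commutator (Cfsg.isometryGroup F (Cfsg.quadFormPlus 2 F))).comap ψ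
      have h12 : ∀ C : S2, ((C, 1) : S2 × S2) ∈ H ∧ ((1, C) : S2 × S2) ∈ H := by
        suffices h : (H.comap (MonoidHom.inl S2 S2) ⊓ H.comap (MonoidHom.inr S2 S2)) = ⊤ by
          intro C; exact (show C ∈ H.comap (MonoidHom.inl S2 S2) ⊓ H.comap (MonoidHom.inr S2 S2) by rw [h]; trivial)
        refine Cfsg.Lib.Classical.SLGroup.eq_top_of_transvection _ fun i j hij c => ?_
        let D : GL (Fin 2) F := Matrix.GeneralLinearGroup.mkOfDetNeZero (Matrix.diagonal fun k => if k = i then (g : F) else 1)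
          (by rw [Matrix.det_diagonal, Finset.prod_ite_eq']; simp)
        let T : GL (Fin 2) F := Matrix.SpecialLinearGroup.toGL (Matrix.SpecialLinearGroup.transvection hij (c / ((g : F) - 1)))
        have hDT : Matrix.SpecialLinearGroup.toGL (Matrix.SpecialLinearGroup.transvection hij c) = ⁅D, T⁆ := by
          rw [commutatorElement_def, eq_mul_inv_iff_mul_eq, eq_mul_inv_iff_mul_eq]
          refine Units.ext ?_
          rw [Units.val_mul, Units.val_mul, Units.val_mul]
          show Matrix.transvection i j c * Matrix.transvection i j (c / ((g : F) - 1)) * Matrix.diagonal (fun k => if k = i then (g : F) else 1) =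
            Matrix.diagonal (fun k => if k = i then (g : F) else 1) * Matrix.transvection i j (c / ((g : F) - 1))
          rw [Matrix.transvection_mul_transvection_same _ _ hij]
          ext k l
          rw [Matrix.mul_diagonal, Matrix.diagonal_mul]
          simp only [Matrix.transvection, Matrix.add_apply, Matrix.one_apply, Matrix.single_apply]
          fin_cases i <;> fin_cases j <;> fin_cases k <;> fin_cases l <;> simp at hij ⊢
          all_goals (field_simp [sub_ne_zero.2 ha1]; ring)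
        let pD : G := ⟨(D, D), (hG _).2 rfl⟩
        let pT : G := ι (Matrix.SpecialLinearGroup.transvection hij (c / ((g : F) - 1)), 1)
        let pT' : G := ι (1, Matrix.SpecialLinearGroup.transvection hij (c / ((g : F) - 1)))
        refine ⟨?_, ?_⟩
        · show ψ _ ∈ commutator _
          rw [MonoidHom.comp_apply, MonoidHom.inl_apply, show ι (Matrix.SpecialLinearGroup.transvection hij c, 1) = ⁅pD, pT⁆ from Subtype.ext (Prod.ext hDT ?_), map_commutatorElement]
          · exact Subgroup.commutator_mem_commutator (Subgroup.mem_top _) (Subgroup.mem_top _)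
          · show Matrix.SpecialLinearGroup.toGL 1 = ⁅D, Matrix.SpecialLinearGroup.toGL 1⁆
            rw [map_one, commutatorElement_one_right]
        · show ψ _ ∈ commutator _
          rw [MonoidHom.comp_apply, MonoidHom.inr_apply, show ι (1, Matrix.SpecialLinearGroup.transvection hij c) = ⁅pD, pT'⁆ from Subtype.ext (Prod.ext ?_ hDT), map_commutatorElement]
          · exact Subgroup.commutator_mem_commutator (Subgroup.mem_top _) (Subgroup.mem_top _)
          · show Matrix.SpecialLinearGroup.toGL 1 = ⁅D, Matrix.SpecialLinearGroup.toGL 1⁆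
            rw [map_one, commutatorElement_one_right]
      rintro ⟨C, D⟩ -
      have := H.mul_mem (h12 C).1 (h12 D).2
      simpa using this
  -- projective group
  let ψ' : S2 × S2 →* Cfsg.Omega F (Cfsg.quadFormPlus 2 F) :=
    ψ.codRestrict _ (fun A => by show _ ∈ commutator _; rw [hΩ]; exact ⟨A, rfl⟩)
  have hψs : Function.Surjective ψ' := by
    rintro ⟨x, hx⟩
    rw [Cfsg.Omega, hΩ] at hx
    obtain ⟨A, rfl⟩ := hx
    exact ⟨A, rfl⟩
  let χ : S2 × S2 →* Cfsg.POmega F (Cfsg.quadFormPlus 2 F) := (QuotientGroup.mk' _).comp ψ'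
  have hχs : Function.Surjective χ := (QuotientGroup.mk'_surjective _).comp hψs
  let π2 : S2 × S2 →* Matrix.ProjectiveSpecialLinearGroup (Fin 2) F × Matrix.ProjectiveSpecialLinearGroup (Fin 2) F :=
    MonoidHom.prodMap (QuotientGroup.mk' _) (QuotientGroup.mk' _)
  have hπs : Function.Surjective π2 := Function.Surjective.prodMap (QuotientGroup.mk'_surjective _) (QuotientGroup.mk'_surjective _)
  have hk : χ.ker = π2.ker := by
    ext ⟨A, B⟩
    rw [MonoidHom.mem_ker, MonoidHom.mem_ker]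
    show (QuotientGroup.mk' _) (ψ' (A, B)) = 1 ↔ (QuotientGroup.mk A, QuotientGroup.mk B) = 1
    rw [QuotientGroup.mk'_apply, QuotientGroup.eq_one_iff, Prod.mk_eq_one, QuotientGroup.eq_one_iff, QuotientGroup.eq_one_iff]
    have hcrit : ∀ x y : S2 × S2, ψ' x = ψ' y → (y.1 = 1 → x.1 = 1 → y.2 = x.2) ∧ (y.2 = 1 → x.2 = 1 → y.1 = x.1) := by
      intro x y h
      have hk : ι (x⁻¹ * y) ∈ Φ.ker := by
        rw [MonoidHom.mem_ker]
        have : ψ' (x⁻¹ * y) = 1 := by rw [map_mul, map_inv, h, inv_mul_cancel]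
        exact congrArg Subtype.val this
      have e := ((hker _).1 hk).1
      refine ⟨fun hy hx => ?_, fun hy hx => ?_⟩
      · have e' : Matrix.SpecialLinearGroup.toGL (x.1⁻¹ * y.1) = Matrix.SpecialLinearGroup.toGL (x.2⁻¹ * y.2) := e
        rw [hy, hx, inv_one, mul_one, map_one] at e'
        have e'' : x.2⁻¹ * y.2 = 1 := Subtype.ext (congrArg Units.val e'.symm)
        exact (inv_mul_eq_one.1 e'').symm
      · have e' : Matrix.SpecialLinearGroup.toGL (x.1⁻¹ * y.1) = Matrix.SpecialLinearGroup.toGL (x.2⁻¹ * y.2) := e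
        rw [hy, hx, inv_one, mul_one, map_one] at e'
        have e'' : x.1⁻¹ * y.1 = 1 := Subtype.ext (congrArg Units.val e')
        exact (inv_mul_eq_one.1 e'').symm
    constructor
    · intro hc
      have hcomm' : ∀ p, ψ' (p * (A, B) * p⁻¹ * (A, B)⁻¹) = ψ' 1 := fun p => by
        rw [map_mul, map_mul, map_mul, Subgroup.mem_center_iff.1 hc (ψ' p), map_inv, map_inv, map_one]
        group
      refine ⟨Subgroup.mem_center_iff.2 fun C => ?_, Subgroup.mem_center_iff.2 fun C => ?_⟩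
      · have h := (hcrit _ _ (hcomm' (C, 1))).2 rfl (by simp [Prod.snd_mul, Prod.snd_inv]; exact mul_inv_cancel (G := Matrix.SpecialLinearGroup (Fin 2) F) _)
        simp only [Prod.fst_mul, Prod.fst_inv, Prod.fst_one] at h
        exact commutatorElement_eq_one_iff_mul_comm.1 h.symm
      · have h := (hcrit _ _ (hcomm' (1, C))).1 rfl (by simp [Prod.fst_mul, Prod.fst_inv]; exact mul_inv_cancel (G := Matrix.SpecialLinearGroup (Fin 2) F) _)
        simp only [Prod.snd_mul, Prod.snd_inv, Prod.snd_one] at h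
        exact commutatorElement_eq_one_iff_mul_comm.1 h.symm
    · rintro ⟨hA, hB⟩
      refine Subgroup.mem_center_iff.2 fun z => ?_
      obtain ⟨p, rfl⟩ := hψs z
      rw [← map_mul, ← map_mul]
      congr 1
      exact Prod.ext (Subgroup.mem_center_iff.1 hA p.1) (Subgroup.mem_center_iff.1 hB p.2)
  exact ⟨((QuotientGroup.quotientKerEquivOfSurjective χ hχs).symm.trans (QuotientGroup.quotientMulEquivOfEq hk)).trans
    (QuotientGroup.quotientKerEquivOfSurjective π2 hπs)⟩

end Cfsg.Agent.S0299
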