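import Cfsg.Statements.S0300
import Mathlib
import Cfsg.Agent.Lib.Classical.LowRankIso
import Cfsg.Agent.Lib.Classical.ClassicalOrders
import Cfsg.Agent.Lib.Classical.LinearOrders
import Cfsg.Agent.Lib.Classical.SLGroup
import Cfsg.Agent.Lib.Classical.OrthMatrix
import Cfsg.Agent.Lib.Classical.LeviOmega
-- import your own Cfsg.Agent.* helpers here

set_option autoImplicit false
open Cfsg

namespace Cfsg.Agent.S0300

open scoped Matrix in
set_option maxHeartbeats 1000000 in
/-- The conjugation action of `SL₂(K)` on hermitian matrices, as isometries. -/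
theorem exists_herm {F K : Type*} [Field F] [Fintype F] [Field K] [Fintype K] {q : ℕ} (hF : Fintype.card F = q)
    (hK : Fintype.card K = q ^ 2) (a b : F)
    (hab : ∀ z₁ z₂ : F, z₁ ^ 2 + a * z₁ * z₂ + b * z₂ ^ 2 = 0 → z₁ = 0 ∧ z₂ = 0) :
    ∃ ψ : Matrix.SpecialLinearGroup (Fin 2) K →* Cfsg.isometryGroup F (Cfsg.quadFormMinus 1 F a b),
      ψ.ker = Subgroup.center (Matrix.SpecialLinearGroup (Fin 2) K) := by
  classical
  have hq1 : 1 < q := hF ▸ Fintype.one_lt_card
  obtain ⟨d, hp, hd⟩ := FiniteField.card F (ringChar F)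
  set p := ringChar F
  haveI : Fact p.Prime := ⟨hp⟩
  haveI : CharP F p := ringChar.charP F
  haveI : CharP K p := by
    have h0 : ((p : ℕ) : K) = 0 := by
      have h := FiniteField.cast_card_eq_zero K
      rw [hK, ← hF, hd, ← pow_mul, Nat.cast_pow] at h
      exact eq_zero_of_pow_eq_zero h
    obtain ⟨r, hr⟩ := CharP.exists K
    rcases (Nat.dvd_prime hp).1 ((CharP.cast_eq_zero_iff K r p).1 h0) with e | e
    · exact absurd e (CharP.char_ne_one K r)
    · exact e ▸ hr
  letI := ZMod.algebra F p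
  letI := ZMod.algebra K p
  have hfF : Module.finrank (ZMod p) F = d := by
    have h := Module.card_eq_pow_finrank (K := ZMod p) (V := F)
    rw [ZMod.card, hd] at h
    exact (Nat.pow_right_injective hp.two_le h).symm
  have hfK : Module.finrank (ZMod p) K = d * 2 := by
    have h := Module.card_eq_pow_finrank (K := ZMod p) (V := K)
    rw [ZMod.card, hK, ← hF, hd, ← pow_mul] at h
    exact (Nat.pow_right_injective hp.two_le h).symm
  obtain ⟨ι₀⟩ := FiniteField.nonempty_algHom_of_finrank_dvd (F := ZMod p) (K := F) (L := K) (by rw [hfF, hfK]; exact dvd_mul_right _ _)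
  letI : Algebra F K := ι₀.toRingHom.toAlgebra
  have hFK : Module.finrank F K = 2 := by
    have h := Module.card_eq_pow_finrank (K := F) (V := K)
    rw [hF, hK] at h
    exact (Nat.pow_right_injective hq1 h).symm
  -- the quadratic
  let P : Polynomial F := Polynomial.X ^ 2 - Polynomial.C a * Polynomial.X + Polynomial.C b
  have hPd : P.natDegree = 2 := by simp only [P]; compute_degree!
  have hPm : P.Monic := by simp only [P]; monicity!
  have hPr : ∀ x : F, ¬ P.IsRoot x := fun x hx => by
    simp [P] at hx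
    exact one_ne_zero (hab (-x) 1 (by linear_combination hx)).2
  haveI : Fact (Irreducible P) := ⟨(Polynomial.irreducible_iff_roots_eq_zero_of_degree_le_three (by omega) (by omega)).2
    (Multiset.eq_zero_of_forall_notMem fun x hx => hPr x ((Polynomial.mem_roots hPm.ne_zero).1 hx))⟩
  haveI : Module.Finite F (AdjoinRoot P) := hPm.finite_adjoinRoot
  haveI : Finite (AdjoinRoot P) := Module.finite_of_finite F
  obtain ⟨j⟩ := FiniteField.nonempty_algHom_of_finrank_dvd (F := F) (K := AdjoinRoot P) (L := K) (by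
    rw [hFK, (AdjoinRoot.powerBasis hPm.ne_zero).finrank, AdjoinRoot.powerBasis_dim, hPd])
  set θ := j (AdjoinRoot.root P)
  have hθ : θ ^ 2 - algebraMap F K a * θ + algebraMap F K b = 0 := by
    have h := congrArg j (AdjoinRoot.eval₂_root P)
    simp [P, θ, ← AdjoinRoot.algebraMap_eq] at h ⊢
    exact h
  have hθF : ∀ x : F, θ ≠ algebraMap F K x := fun x e => by
    refine hPr x ?_
    rw [e] at hθ
    simp [P]
    exact (algebraMap F K).injective (by simpa using hθ)
  -- conjugation
  let σ : K →ₐ[F] K := FiniteField.frobeniusAlgHom F K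
  have hσ : ∀ x, σ x = x ^ q := fun x => by rw [FiniteField.coe_frobeniusAlgHom, hF]
  have hσσ : ∀ x, σ (σ x) = x := fun x => by rw [hσ, hσ, ← pow_mul, ← pow_two, ← hK, FiniteField.pow_card]
  have hbasis : ∀ z : K, ∃ z₁ z₂ : F, z = algebraMap F K z₁ + algebraMap F K z₂ * θ := by
    have hli : LinearIndependent F ![(1 : K), θ] := by
      rw [LinearIndependent.pair_iff' one_ne_zero]
      intro x hx
      exact hθF x (by rw [← hx, Algebra.smul_def, mul_one])
    intro z
    let bs := basisOfLinearIndependentOfCardEqFinrank hli (by simp [hFK])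
    refine ⟨bs.repr z 0, bs.repr z 1, ?_⟩
    conv_lhs => rw [← bs.sum_repr z]
    simp [bs, Fin.sum_univ_two, Algebra.smul_def]
  have hσθ : σ θ = algebraMap F K a - θ := by
    have h0 : σ θ ^ 2 - algebraMap F K a * σ θ + algebraMap F K b = 0 := by
      have := congrArg σ hθ
      simpa using this
    have : (σ θ - θ) * (σ θ + θ - algebraMap F K a) = 0 := by linear_combination h0 - hθ
    rcases mul_eq_zero.1 this with h | h
    · exfalso
      rw [sub_eq_zero] at h
      have hall : σ = AlgHom.id F K := by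
        refine AlgHom.ext fun z => ?_
        obtain ⟨z₁, z₂, rfl⟩ := hbasis z
        simp [h]
      have ho := FiniteField.orderOf_frobeniusAlgHom F K
      rw [show FiniteField.frobeniusAlgHom F K = 1 from hall, orderOf_one, hFK] at ho
      omega
    · linear_combination h
  have hfix : ∀ x : K, σ x = x → ∃ x' : F, algebraMap F K x' = x := by
    intro x hx
    obtain ⟨z₁, z₂, rfl⟩ := hbasis x
    simp [hσθ] at hx
    by_cases hz : z₂ = 0
    · exact ⟨z₁, by simp [hz]⟩
    · exfalso
      have h0 : algebraMap F K a - θ = θ := hx.resolve_right hz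
      by_cases h2 : (2 : F) = 0
      · have ha : a = 0 := by
          have h2K : (2 : K) = 0 := by rw [← map_ofNat (algebraMap F K) 2, h2, map_zero]
          exact (algebraMap F K).injective (by rw [map_zero]; linear_combination h0 + θ * h2K)
        obtain ⟨r, hr⟩ := FiniteField.isSquare_of_char_two (F := F) (by
          haveI : CharP F 2 := CharTwo.of_one_ne_zero_of_two_eq_zero one_ne_zero h2
          exact ringChar.eq F 2) b
        exact one_ne_zero (hab r 1 (by rw [ha, hr]; linear_combination r * r * h2)).2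
      · refine hθF (a / 2) ?_
        have h2K : (2 : K) ≠ 0 := by rw [← map_ofNat (algebraMap F K) 2]; simpa using h2
        rw [map_div₀, map_ofNat, eq_div_iff h2K]
        linear_combination -h0
  -- hermitian matrices
  let mat : ((Fin 1 ⊕ Fin 1) ⊕ Fin 2 → F) →ₗ[F] Matrix (Fin 2) (Fin 2) K :=
    { toFun := fun v => !![algebraMap F K (v (.inl (.inl 0))), algebraMap F K (v (.inr 0)) + algebraMap F K (v (.inr 1)) * θ;
        algebraMap F K (v (.inr 0)) + algebraMap F K (v (.inr 1)) * σ θ, -algebraMap F K (v (.inl (.inr 0)))]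
      map_add' := fun v w => by ext i j; fin_cases i <;> fin_cases j <;> simp <;> ring
      map_smul' := fun c v => by ext i j; fin_cases i <;> fin_cases j <;> simp [Algebra.smul_def] <;> ring }
  let star' : Matrix (Fin 2) (Fin 2) K → Matrix (Fin 2) (Fin 2) K := fun X => Xᵀ.map σ
  have hstar : ∀ X Y, star' (X * Y) = star' Y * star' X := fun X Y => by
    show (X * Y)ᵀ.map σ = _
    rw [Matrix.transpose_mul, Matrix.map_mul]
  have hstar2 : ∀ X, star' (star' X) = X := fun X => by ext i j; simp [star', hσσ]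
  have hmi : Function.Injective mat := by
    intro v w h
    have h00 := congrFun (congrFun h 0) 0
    have h11 := congrFun (congrFun h 1) 1
    have h01 := congrFun (congrFun h 0) 1
    simp [mat] at h00 h11 h01
    have key : v (.inr 1) = w (.inr 1) := by
      by_contra hne
      refine hθF ((w (.inr 0) - v (.inr 0)) / (v (.inr 1) - w (.inr 1))) ?_
      rw [map_div₀, eq_div_iff (by rw [ne_eq, map_eq_zero, sub_eq_zero]; exact hne), map_sub, map_sub]
      linear_combination h01
    rw [key, add_left_inj] at h01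
    funext x
    rcases x with (x | x) | x <;> fin_cases x
    · exact h00
    · exact h11
    · exact (algebraMap F K).injective h01
    · exact key
  have hherm : ∀ v, star' (mat v) = mat v := fun v => by
    ext i j
    fin_cases i <;> fin_cases j <;> simp [star', mat, hσσ]
  have hsurj : ∀ X, star' X = X → ∃ v, mat v = X := by
    intro X hX
    have h00 := congrFun (congrFun hX 0) 0
    have h11 := congrFun (congrFun hX 1) 1
    have h10 := congrFun (congrFun hX 1) 0
    simp [star'] at h00 h11 h10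
    obtain ⟨x, hx⟩ := hfix _ h00
    obtain ⟨y, hy⟩ := hfix _ h11
    obtain ⟨z₁, z₂, hz⟩ := hbasis (X 0 1)
    refine ⟨Sum.elim (Sum.elim (fun _ => x) (fun _ => -y)) ![z₁, z₂], ?_⟩
    ext i j
    fin_cases i <;> fin_cases j <;> simp [mat, hx, hy]
    · exact hz.symm
    · rw [← h10, hz]; simp
  have hdet : ∀ v, algebraMap F K (Cfsg.quadFormMinus 1 F a b v) = -(mat v).det := fun v => by
    simp [mat, Cfsg.quadFormMinus, Matrix.det_fin_two, hσθ]
    linear_combination ((algebraMap F K) (v (.inr 1))) ^ 2 * hθ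
  let e := LinearEquiv.ofInjective mat hmi
  have hmem : ∀ (g : Matrix.SpecialLinearGroup (Fin 2) K) (v : (Fin 1 ⊕ Fin 1) ⊕ Fin 2 → F),
      (g : Matrix (Fin 2) (Fin 2) K) * mat v * star' (g : Matrix (Fin 2) (Fin 2) K) ∈ LinearMap.range mat := fun g v => by
    obtain ⟨w, hw⟩ := hsurj ((g : Matrix (Fin 2) (Fin 2) K) * mat v * star' (g : Matrix (Fin 2) (Fin 2) K))
      (by rw [hstar, hstar, hstar2, hherm, Matrix.mul_assoc])
    exact ⟨w, hw⟩
  let T : Matrix.SpecialLinearGroup (Fin 2) K → Module.End F ((Fin 1 ⊕ Fin 1) ⊕ Fin 2 → F) := fun g =>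
    e.symm.toLinearMap ∘ₗ LinearMap.codRestrict (LinearMap.range mat)
      ((LinearMap.mulLeft F (g : Matrix (Fin 2) (Fin 2) K)).comp ((LinearMap.mulRight F (star' (g : Matrix (Fin 2) (Fin 2) K))).comp mat))
      (fun v => by
        show (g : Matrix (Fin 2) (Fin 2) K) * (mat v * star' (g : Matrix (Fin 2) (Fin 2) K)) ∈ _
        rw [← Matrix.mul_assoc]; exact hmem g v)
  have hT : ∀ g v, mat (T g v) = (g : Matrix (Fin 2) (Fin 2) K) * mat v * star' (g : Matrix (Fin 2) (Fin 2) K) := fun g v => by
    have h := congrArg Subtype.val (e.apply_symm_apply (⟨_, hmem g v⟩ : LinearMap.range mat))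
    rw [LinearEquiv.ofInjective_apply] at h
    refine Eq.trans ?_ h
    congr 1
    show e.symm _ = e.symm _
    congr 1
    exact Subtype.ext (by show (g : Matrix (Fin 2) (Fin 2) K) * (mat v * star' (g : Matrix (Fin 2) (Fin 2) K)) = (g : Matrix (Fin 2) (Fin 2) K) * mat v * star' (g : Matrix (Fin 2) (Fin 2) K); rw [Matrix.mul_assoc])
  let M : Matrix.SpecialLinearGroup (Fin 2) K →* Matrix ((Fin 1 ⊕ Fin 1) ⊕ Fin 2) ((Fin 1 ⊕ Fin 1) ⊕ Fin 2) F :=
    { toFun := fun g => LinearMap.toMatrix' (T g)
      map_one' := by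
        show LinearMap.toMatrix' (T 1) = 1
        rw [show T 1 = LinearMap.id from LinearMap.ext fun v => hmi (by
          rw [hT, Matrix.SpecialLinearGroup.coe_one, Matrix.one_mul, show star' (1 : Matrix (Fin 2) (Fin 2) K) = 1 by simp [star'], Matrix.mul_one]
          rfl), LinearMap.toMatrix'_id]
      map_mul' := fun g h => by
        show LinearMap.toMatrix' (T (g * h)) = LinearMap.toMatrix' (T g) * LinearMap.toMatrix' (T h)
        rw [← LinearMap.toMatrix'_comp]
        congr 1
        exact LinearMap.ext fun v => hmi (by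
          show mat (T (g * h) v) = mat (T g (T h v))
          rw [hT, hT, hT, Matrix.SpecialLinearGroup.coe_mul, hstar]
          simp only [Matrix.mul_assoc]) }
  have hMv : ∀ g v, M g *ᵥ v = T g v := fun g v => LinearMap.toMatrix'_mulVec _ _
  have hiso : ∀ g, M.toHomUnits g ∈ Cfsg.isometryGroup F (Cfsg.quadFormMinus 1 F a b) := fun g u v => by
    show Cfsg.quadFormMinus 1 F a b (M g *ᵥ u) = Cfsg.quadFormMinus 1 F a b u
    refine (algebraMap F K).injective ?_
    rw [hMv, hdet, hdet, hT, Matrix.det_mul, Matrix.det_mul, g.2, show (star' (g : Matrix (Fin 2) (Fin 2) K)).det = 1 by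
      show ((g : Matrix (Fin 2) (Fin 2) K)ᵀ.map σ).det = 1
      rw [← AlgHom.mapMatrix_apply, ← AlgHom.map_det, Matrix.det_transpose, g.2, map_one], one_mul, mul_one]
  refine ⟨(M.toHomUnits).codRestrict _ hiso, ?_⟩
  ext g
  rw [MonoidHom.mem_ker]
  have hiff : (M.toHomUnits).codRestrict _ hiso g = 1 ↔ ∀ X, star' X = X → (g : Matrix (Fin 2) (Fin 2) K) * X * star' (g : Matrix (Fin 2) (Fin 2) K) = X := by
    constructor
    · intro h X hX
      obtain ⟨v, rfl⟩ := hsurj X hX
      have h' : M g = 1 := congrArg Units.val (congrArg Subtype.val h)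
      rw [← hT, ← hMv, h', Matrix.one_mulVec]
    · intro h
      refine Subtype.ext (Units.ext ?_)
      show M g = 1
      refine Matrix.ext_iff_mulVec.2 fun v => hmi ?_
      rw [hMv, hT, h _ (hherm v), Matrix.one_mulVec]
  rw [hiff]
  constructor
  · intro h
    have h1 : (g : Matrix (Fin 2) (Fin 2) K) * star' (g : Matrix (Fin 2) (Fin 2) K) = 1 := by
      have := h 1 (by simp [star'])
      rwa [Matrix.mul_one] at this
    have hc : ∀ X, star' X = X → (g : Matrix (Fin 2) (Fin 2) K) * X = X * (g : Matrix (Fin 2) (Fin 2) K) := fun X hX => by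
      calc (g : Matrix (Fin 2) (Fin 2) K) * X = (g : Matrix (Fin 2) (Fin 2) K) * X * (star' (g : Matrix (Fin 2) (Fin 2) K) * (g : Matrix (Fin 2) (Fin 2) K)) := by
            rw [mul_eq_one_comm.1 h1, Matrix.mul_one]
        _ = _ := by rw [← Matrix.mul_assoc, h X hX]
    have c1 := hc !![1, 0; 0, 0] (by ext i j; fin_cases i <;> fin_cases j <;> simp [star'])
    have c2 := hc !![0, 1; 1, 0] (by ext i j; fin_cases i <;> fin_cases j <;> simp [star'])
    have a01 := congrFun (congrFun c1 0) 1
    have a10 := congrFun (congrFun c1 1) 0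
    have a00 := congrFun (congrFun c2 0) 1
    simp [Matrix.mul_apply, Fin.sum_univ_two] at a01 a10 a00
    have hg : (g : Matrix (Fin 2) (Fin 2) K) = Matrix.scalar (Fin 2) ((g : Matrix (Fin 2) (Fin 2) K) 0 0) := by
      ext i j
      fin_cases i <;> fin_cases j <;> simp [a01, a10]
      all_goals first | exact a00.symm | exact a00 | exact a01 | exact a01.symm | exact a10 | exact a10.symm
    refine Matrix.SpecialLinearGroup.mem_center_iff.2 ⟨(g : Matrix (Fin 2) (Fin 2) K) 0 0, ?_, hg.symm⟩
    have := g.2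
    rw [hg] at this
    simpa [Matrix.scalar_apply, Matrix.det_diagonal, pow_two] using this
  · intro hg X _
    obtain ⟨r, hr, hrg⟩ := Matrix.SpecialLinearGroup.mem_center_iff.1 hg
    rw [Fintype.card_fin] at hr
    have hrσ : r * σ r = 1 := by
      rcases sq_eq_one_iff.1 hr with e | e <;> simp [e]
    rw [← hrg]
    ext i j
    simp [star', Matrix.mul_diagonal, Matrix.diagonal_transpose, Matrix.diagonal_map]
    linear_combination X i j * hrσ

/-- PΩ^-_4(q) is isomorphic to PSL_2(q^2). -/
theorem result {F K : Type*} [Field F] [Fintype F] [Field K] [Fintype K] {q : ℕ} (hF : Fintype.card F = q) (hK : Fintype.card K = q ^ 2) (a b : F) (hab : ∀ z₁ z₂ : F, z₁ ^ 2 + a * z₁ * z₂ + b * z₂ ^ 2 = 0 → z₁ = 0 ∧ z₂ = 0) : Nonempty (Cfsg.POmega F (Cfsg.quadFormMinus 1 F a b) ≃* Matrix.ProjectiveSpecialLinearGroup (Fin 2) K) := by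
  classical
  obtain ⟨ψ, hker⟩ := exists_herm hF hK a b hab
  have hq1 : 1 < q := hF ▸ Fintype.one_lt_card
  have hK4 : 4 ≤ Fintype.card K := by rw [hK]; have := Nat.pow_le_pow_left hq1 2; omega
  have hperf : commutator (Matrix.SpecialLinearGroup (Fin 2) K) = ⊤ := by
    refine Cfsg.Lib.Classical.SLGroup.commutator_sl_eq_top (Or.inr ?_)
    obtain ⟨g, hg⟩ := IsCyclic.exists_generator (α := Kˣ)
    refine ⟨g, g.ne_zero, fun e => ?_⟩
    have h2 : g ^ 2 = 1 := Units.ext (by rw [Units.val_pow_eq_pow_val]; exact e)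
    have := orderOf_le_of_pow_eq_one two_pos h2
    rw [orderOf_eq_card_of_forall_mem_zpowers hg, Nat.card_units, Nat.card_eq_fintype_card] at this
    omega
  have hO : Nat.card (Cfsg.isometryGroup F (Cfsg.quadFormMinus 1 F a b)) = 2 * q ^ 2 * (q ^ 2 + 1) * (q ^ 2 - 1) := by
    rw [show (1 : ℕ) = 2 - 1 from rfl, Cfsg.Lib.Classical.ClassicalOrders.card_minus hF 2 (by norm_num) a b hab]; simp
  have hsl : Nat.card (Matrix.SpecialLinearGroup (Fin 2) K) = q ^ 2 * (q ^ 2 + 1) * (q ^ 2 - 1) := by
    have h := Cfsg.Lib.Classical.LinearOrders.card_sl_mul (F := K) (n := 2) (by omega)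
    rw [Fin.prod_univ_two] at h
    simp only [Fin.val_zero, Fin.val_one, pow_zero, pow_one] at h
    rw [hK] at h
    set Q := q ^ 2
    rw [show Q ^ 2 - Q = Q * (Q - 1) by rw [Nat.mul_sub, mul_one, pow_two], show Q ^ 2 - 1 = (Q + 1) * (Q - 1) by
      rw [← Nat.sq_sub_sq, one_pow]] at h
    exact Nat.eq_of_mul_eq_mul_left (show 0 < Q - 1 by rw [hK] at hK4; omega) (by rw [h]; ring)
  have hz : Nat.card ψ.ker = Nat.gcd 2 (q ^ 2 - 1) := by
    rw [hker, Cfsg.Lib.Classical.LinearOrders.card_center_sl (by norm_num), hK]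
  have hR : Nat.card ψ.range * Nat.gcd 2 (q ^ 2 - 1) = q ^ 2 * (q ^ 2 + 1) * (q ^ 2 - 1) := by
    rw [← hsl, Subgroup.card_eq_card_quotient_mul_card_subgroup ψ.ker, hz, Nat.card_congr (QuotientGroup.quotientKerEquivRange ψ).toEquiv]
  have hle : commutator (Cfsg.isometryGroup F (Cfsg.quadFormMinus 1 F a b)) ≤ ψ.range := by
    by_cases h2 : (2 : F) = 0
    · refine Cfsg.Lib.Classical.OrthMatrix.commutator_le_of_index_two ?_
      haveI : CharP F 2 := CharTwo.of_one_ne_zero_of_two_eq_zero one_ne_zero h2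
      have he := FiniteField.even_card_of_char_two (ringChar.eq F 2)
      rw [hF] at he
      obtain ⟨t, ht⟩ : ∃ t, q ^ 2 = 2 * t := ⟨q ^ 2 / 2, by have := Nat.pow_mod q 2 2; rw [he] at this; simp at this; omega⟩
      have hg : Nat.gcd 2 (q ^ 2 - 1) = 1 := by
        rw [Nat.gcd_rec, show (q ^ 2 - 1) % 2 = 1 by rw [hK] at hK4; omega]; rfl
      rw [hg, mul_one] at hR
      have h := ψ.range.card_mul_index
      rw [hR, hO] at h
      exact Nat.eq_of_mul_eq_mul_left (Nat.mul_pos (by positivity) (by rw [hK] at hK4; omega)) (h.trans (by ring))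
    · refine Cfsg.Lib.Classical.LowRankIso.le_range_of_card hperf ψ ?_
      let Q : QuadraticForm F ((Fin 1 ⊕ Fin 1) ⊕ Fin 2 → F) :=
        (Cfsg.Lib.Classical.QuadOrders.Qs 1 (Cfsg.Lib.Classical.QuadOrders.Q2 a b)).comp (Cfsg.Lib.Classical.QuadOrders.eMinus F 1).toLinearMap
      have hidx : (Cfsg.Omega F (Cfsg.quadFormMinus 1 F a b)).index = 4 :=
        Cfsg.Lib.Classical.OrthMatrix.omega_index (Q := Q) (fun v => Cfsg.Lib.Classical.QuadOrders.eMinus_form 1 a b v)
          (Cfsg.Lib.Classical.QuadOrders.nondeg_comp _ (Cfsg.Lib.Classical.QuadOrders.nondeg_std (Cfsg.Lib.Classical.QuadOrders.Q2_nondeg hab)))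
          (Cfsg.Lib.Classical.OrthMatrix.hex_of_two_ne h2) h2 (by simp)
      have h := (Cfsg.Omega F (Cfsg.quadFormMinus 1 F a b)).card_mul_index
      rw [hidx, hO] at h
      obtain ⟨t, ht⟩ : ∃ t, q ^ 2 - 1 = 2 * t := by
        have hqo : q % 2 = 1 := by
          rw [← hF]
          exact FiniteField.odd_card_of_char_ne_two fun e => h2 (by
            haveI : CharP F 2 := e ▸ ringChar.charP F
            exact CharP.cast_eq_zero F 2)
        refine ⟨(q ^ 2 - 1) / 2, ?_⟩
        have := Nat.pow_mod q 2 2; rw [hqo] at this; simp at this; omega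
      rw [show Nat.gcd 2 (q ^ 2 - 1) = 2 from Nat.gcd_eq_left (ht ▸ dvd_mul_right _ _)] at hR
      rw [show 2 * q ^ 2 * (q ^ 2 + 1) * (q ^ 2 - 1) = 2 * (q ^ 2 * (q ^ 2 + 1) * (q ^ 2 - 1)) by ring] at h
      change Nat.card ψ.range = Nat.card (Cfsg.Omega F (Cfsg.quadFormMinus 1 F a b))
      omega
  exact Cfsg.Lib.Classical.LowRankIso.nonempty_iso hperf ψ hker.le hle

end Cfsg.Agent.S0300
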