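import Cfsg.Statements.S0302
import Mathlib
import Cfsg.Agent.Lib.Classical.LowRankIso
import Cfsg.Agent.Lib.Classical.ClassicalOrders
import Cfsg.Agent.Lib.Classical.LinearOrders
import Cfsg.Agent.Lib.Classical.SLGroup
import Cfsg.Agent.Lib.Classical.OrthMatrix
import Cfsg.Agent.Lib.Classical.LeviOmega
-- import your own Cfsg.Agent.* helpers here

set_option autoImplicit false
open Cfsg

namespace Cfsg.Agent.S0302

open Matrix in
/-- Transvections preserve the Pfaffian. -/
lemma pf_transvection {F : Type*} [Field F] (Y : Matrix (Fin 4) (Fin 4) F) (h0 : ∀ a, Y a a = 0) (hs : ∀ a b, Y a b = -Y b a)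
    (i j : Fin 4) (hij : i ≠ j) (c : F) :
    let W := Matrix.transvection i j c * Y * (Matrix.transvection i j c)ᵀ
    W 0 1 * W 2 3 + W 0 2 * (-W 1 3) + W 0 3 * W 1 2 = Y 0 1 * Y 2 3 + Y 0 2 * (-Y 1 3) + Y 0 3 * Y 1 2 := by
  have ht : (Matrix.transvection i j c)ᵀ = Matrix.transvection j i c := by
    simp [Matrix.transvection, Matrix.transpose_single]
  intro W
  simp only [W, ht]
  fin_cases i <;> fin_cases j <;> simp at hij <;>
    simp [h0, hs 1 0, hs 2 0, hs 3 0, hs 2 1, hs 3 1, hs 3 2] <;> ring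

open scoped Matrix in
set_option maxHeartbeats 1000000 in
/-- The action of `SL₄` on alternating matrices, as isometries of the Pfaffian. -/
theorem exists_wedge (F : Type*) [Field F] [Fintype F] :
    ∃ ψ : Matrix.SpecialLinearGroup (Fin 4) F →* Cfsg.isometryGroup F (Cfsg.quadFormPlus 3 F),
      ψ.ker ≤ Subgroup.center (Matrix.SpecialLinearGroup (Fin 4) F) ∧
      Nat.card ψ.ker = Nat.gcd (Fintype.card F - 1) 2 := by
  classical
  let U : (Fin 3 ⊕ Fin 3 → F) →ₗ[F] Matrix (Fin 4) (Fin 4) F :=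
    { toFun := fun v => !![0, v (.inl 0), v (.inl 1), v (.inl 2); 0, 0, v (.inr 2), -v (.inr 1); 0, 0, 0, v (.inr 0); 0, 0, 0, 0]
      map_add' := fun v w => by ext i j; fin_cases i <;> fin_cases j <;> simp [add_comm]
      map_smul' := fun c v => by ext i j; fin_cases i <;> fin_cases j <;> simp }
  let mat : (Fin 3 ⊕ Fin 3 → F) →ₗ[F] Matrix (Fin 4) (Fin 4) F := U - (Matrix.transposeLinearEquiv (Fin 4) (Fin 4) F F).toLinearMap ∘ₗ U
  have hmat : ∀ v, mat v = U v - (U v)ᵀ := fun v => rfl
  let coord : Matrix (Fin 4) (Fin 4) F →ₗ[F] (Fin 3 ⊕ Fin 3 → F) :=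
    { toFun := fun M => Sum.elim ![M 0 1, M 0 2, M 0 3] ![M 2 3, -M 1 3, M 1 2]
      map_add' := fun v w => by funext x; rcases x with x | x <;> fin_cases x <;> simp [add_comm]
      map_smul' := fun c v => by funext x; rcases x with x | x <;> fin_cases x <;> simp }
  have hcm : ∀ v, coord (mat v) = v := fun v => by
    funext x
    rcases x with x | x <;> fin_cases x <;> simp [hmat, coord, U]
  have hmc : ∀ W : Matrix (Fin 4) (Fin 4) F, mat (coord (W - Wᵀ)) = W - Wᵀ := fun W => by
    rw [hmat]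
    ext i j
    fin_cases i <;> fin_cases j <;> simp [coord, U]
  have hmi : Function.Injective mat := Function.LeftInverse.injective hcm
  let T : Matrix (Fin 4) (Fin 4) F → Module.End F (Fin 3 ⊕ Fin 3 → F) := fun g =>
    coord ∘ₗ LinearMap.mulLeft F g ∘ₗ LinearMap.mulRight F gᵀ ∘ₗ mat
  have hTc : ∀ g v, T g v = coord (g * mat v * gᵀ) := fun g v => by
    show coord (g * (mat v * gᵀ)) = _
    rw [← Matrix.mul_assoc]
  have hT : ∀ g v, mat (T g v) = g * mat v * gᵀ := fun g v => by
    have e : g * mat v * gᵀ = g * U v * gᵀ - (g * U v * gᵀ)ᵀ := by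
      rw [hmat, Matrix.mul_sub, Matrix.sub_mul, Matrix.transpose_mul, Matrix.transpose_mul, Matrix.transpose_transpose, Matrix.mul_assoc g (U v)ᵀ]
    rw [hTc, e, hmc]
  let M : Matrix.SpecialLinearGroup (Fin 4) F →* Matrix (Fin 3 ⊕ Fin 3) (Fin 3 ⊕ Fin 3) F :=
    { toFun := fun g => LinearMap.toMatrix' (T g)
      map_one' := by
        show LinearMap.toMatrix' (T _) = 1
        rw [show T ((1 : Matrix.SpecialLinearGroup (Fin 4) F) : Matrix (Fin 4) (Fin 4) F) = LinearMap.id from LinearMap.ext fun v => hmi (by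
          rw [hT]; simp), LinearMap.toMatrix'_id]
      map_mul' := fun g h => by
        show LinearMap.toMatrix' (T _) = LinearMap.toMatrix' (T _) * LinearMap.toMatrix' (T _)
        rw [← LinearMap.toMatrix'_comp]
        congr 1
        refine LinearMap.ext fun v => hmi ?_
        show mat (T ((g * h : Matrix.SpecialLinearGroup (Fin 4) F) : Matrix (Fin 4) (Fin 4) F) v) = mat (T (g : Matrix (Fin 4) (Fin 4) F) (T (h : Matrix (Fin 4) (Fin 4) F) v))
        rw [hT, hT, hT, Matrix.SpecialLinearGroup.coe_mul, Matrix.transpose_mul]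
        simp only [Matrix.mul_assoc] }
  have hMv : ∀ g : Matrix.SpecialLinearGroup (Fin 4) F, ∀ v, M g *ᵥ v = T (g : Matrix (Fin 4) (Fin 4) F) v := fun g v => LinearMap.toMatrix'_mulVec _ _
  have hiso : ∀ g, M.toHomUnits g ∈ Cfsg.isometryGroup F (Cfsg.quadFormPlus 3 F) := by
    intro g
    refine (show (⊤ : Subgroup _) ≤ (Cfsg.isometryGroup F (Cfsg.quadFormPlus 3 F)).comap M.toHomUnits from ?_) (Subgroup.mem_top g)
    rw [top_le_iff]
    refine Cfsg.Lib.Classical.SLGroup.eq_top_of_transvection _ fun i j hij c => ?_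
    intro u v
    show Cfsg.quadFormPlus 3 F (M _ *ᵥ u) = Cfsg.quadFormPlus 3 F u
    rw [hMv, hTc]
    have hY0 : ∀ a, mat u a a = 0 := fun a => by rw [hmat]; simp
    have hYs : ∀ a b, mat u a b = -mat u b a := fun a b => by rw [hmat]; simp
    have h := pf_transvection (mat u) hY0 hYs i j hij c
    rw [Cfsg.quadFormPlus, Cfsg.quadFormPlus, Fin.sum_univ_three, Fin.sum_univ_three]
    conv_rhs => rw [← hcm u]
    exact h
  refine ⟨(M.toHomUnits).codRestrict _ hiso, ?_⟩
  set ψ := (M.toHomUnits).codRestrict _ hiso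
  have hker : ∀ g : Matrix.SpecialLinearGroup (Fin 4) F, g ∈ ψ.ker ↔ ∃ r : F, r * r = 1 ∧ Matrix.scalar (Fin 4) r = (g : Matrix (Fin 4) (Fin 4) F) := by
    intro g
    rw [MonoidHom.mem_ker]
    constructor
    · intro h
      have h' : M g = 1 := congrArg Units.val (congrArg Subtype.val h)
      set G := (g : Matrix (Fin 4) (Fin 4) F)
      have hfix : ∀ a b : Fin 4, a ≠ b → ∀ k l : Fin 4, G k a * G l b - G l a * G k b =
          (if k = a ∧ l = b then 1 else 0) - (if l = a ∧ k = b then 1 else 0) := by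
        intro a b _ k l
        have hX := hmc (Matrix.single a b 1)
        have h1 : G * (Matrix.single a b 1 - (Matrix.single a b 1)ᵀ) * Gᵀ = Matrix.single a b 1 - (Matrix.single a b 1)ᵀ := by
          rw [← hX, ← hT, ← hMv, h', Matrix.one_mulVec]
        have hsab : ∀ a b : Fin 4, (G * Matrix.single a b (1 : F) * Gᵀ) k l = G k a * G l b := fun a b => by
          rw [Matrix.mul_apply, Finset.sum_eq_single b (fun y _ hy => by rw [Matrix.mul_single_apply_of_ne (hbj := hy), zero_mul]) (by simp),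
            Matrix.mul_single_apply_same, mul_one, Matrix.transpose_apply]
        have h2 := congrFun (congrFun h1 k) l
        rw [Matrix.transpose_single, Matrix.mul_sub, Matrix.sub_mul, Matrix.sub_apply, hsab, hsab, Matrix.sub_apply,
          Matrix.single_apply, Matrix.single_apply] at h2
        rw [mul_comm (G l a) (G k b), h2]
        simp [eq_comm, and_comm]
      have hoff : ∀ k a : Fin 4, k ≠ a → G k a = 0 := by
        intro k a hka
        obtain ⟨b, hbk, hba⟩ : ∃ b : Fin 4, b ≠ k ∧ b ≠ a := by revert k a; decide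
        have e1 := hfix a b hba.symm a b
        have e2 := hfix a b hba.symm k a
        have e3 := hfix a b hba.symm k b
        simp [hka, hba, hba.symm, hbk, hbk.symm, Ne.symm hka] at e1 e2 e3
        linear_combination (-(G k a)) * e1 + (G a a) * e3 - (G b a) * e2
      have hdiag : ∀ a b : Fin 4, a ≠ b → G a a * G b b = 1 := fun a b hab => by
        have e1 := hfix a b hab a b
        simp [hab, hab.symm, hoff a b hab, hoff b a hab.symm] at e1
        exact e1
      have d01 := hdiag 0 1 (by decide)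
      have d02 := hdiag 0 2 (by decide)
      have d03 := hdiag 0 3 (by decide)
      have d12 := hdiag 1 2 (by decide)
      have d13 := hdiag 1 3 (by decide)
      have h11 : G 1 1 * G 1 1 = 1 := by linear_combination (G 1 1 * G 1 1) * (-d02) + (G 1 1 * G 2 2) * d01 + d12
      have h0 : G 0 0 = G 1 1 := by linear_combination (-G 0 0) * h11 + G 1 1 * d01
      have h2 : G 2 2 = G 1 1 := by linear_combination (-G 2 2) * h11 + G 1 1 * d12
      have h3 : G 3 3 = G 1 1 := by linear_combination (-G 3 3) * h11 + G 1 1 * d13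
      refine ⟨G 1 1, h11, ?_⟩
      ext i j
      by_cases hij : i = j
      · subst hij; fin_cases i <;> simp [h0, h2, h3]
      · simp [hij, hoff i j hij]
    · rintro ⟨r, hr, hrg⟩
      refine Subtype.ext (Units.ext ?_)
      show M g = 1
      refine Matrix.ext_iff_mulVec.2 fun v => hmi ?_
      rw [hMv, hT, ← hrg, Matrix.one_mulVec]
      ext i j
      simp [Matrix.mul_diagonal, Matrix.diagonal_transpose]
      linear_combination mat v i j * hr
  refine ⟨fun g hg => ?_, ?_⟩
  · obtain ⟨r, hr, hrg⟩ := (hker g).1 hg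
    exact Matrix.SpecialLinearGroup.mem_center_iff.2 ⟨r, by rw [Fintype.card_fin]; linear_combination (r * r + 1) * hr, hrg⟩
  · rw [← Cfsg.Lib.Classical.LinearOrders.card_rootsOfUnity_field (F := F) 2]
    symm
    refine Nat.card_congr (Equiv.ofBijective (fun u : rootsOfUnity 2 F => (⟨⟨Matrix.scalar (Fin 4) ((u : Fˣ) : F), ?_⟩, ?_⟩ : ψ.ker)) ⟨?_, ?_⟩)
    · have h : ((u : Fˣ) : F) ^ 2 = 1 := by rw [← Units.val_pow_eq_pow_val, (mem_rootsOfUnity 2 _).1 u.2]; rfl
      simp [Matrix.det_diagonal]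
      linear_combination (((u : Fˣ) : F) ^ 2 + 1) * h
    · refine (hker _).2 ⟨((u : Fˣ) : F), ?_, rfl⟩
      rw [← Units.val_mul, ← pow_two, (mem_rootsOfUnity 2 _).1 u.2]; rfl
    · intro u w h
      have := congrFun (congrFun (congrArg (fun x : ψ.ker => ((x : Matrix.SpecialLinearGroup (Fin 4) F) : Matrix (Fin 4) (Fin 4) F)) h) 0) 0
      simp at this
      exact Subtype.ext (Units.ext this)
    · intro g
      obtain ⟨r, hr, hrg⟩ := (hker g.1).1 g.2
      refine ⟨⟨⟨r, r, hr, hr⟩, (mem_rootsOfUnity 2 _).2 (Units.ext (by rw [Units.val_pow_eq_pow_val, pow_two]; exact hr))⟩, ?_⟩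
      exact Subtype.ext (Subtype.ext hrg)

/-- PΩ^+_6(q) is isomorphic to PSL_4(q). -/
theorem result {F : Type*} [Field F] [Fintype F] : Nonempty (Cfsg.POmega F (Cfsg.quadFormPlus 3 F) ≃* Matrix.ProjectiveSpecialLinearGroup (Fin 4) F) := by
  classical
  obtain ⟨ψ, hker, hz⟩ := exists_wedge F
  set q := Fintype.card F with hq
  have hq1 : 1 < q := Fintype.one_lt_card
  have hperf : commutator (Matrix.SpecialLinearGroup (Fin 4) F) = ⊤ :=
    Cfsg.Lib.Classical.SLGroup.commutator_sl_eq_top (Or.inl (by simp))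
  set N := q ^ 6 * ((q ^ 2 - 1) * (q ^ 3 - 1) * (q ^ 4 - 1)) with hN
  have hNpos : 0 < N := by
    have h2 : 2 ≤ q ^ 2 := le_trans hq1 (Nat.le_self_pow (by norm_num) q)
    have h3 : 2 ≤ q ^ 3 := le_trans hq1 (Nat.le_self_pow (by norm_num) q)
    have h4 : 2 ≤ q ^ 4 := le_trans hq1 (Nat.le_self_pow (by norm_num) q)
    exact Nat.mul_pos (by positivity) (Nat.mul_pos (Nat.mul_pos (by omega) (by omega)) (by omega))
  have hO : Nat.card (Cfsg.isometryGroup F (Cfsg.quadFormPlus 3 F)) = 2 * N := by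
    rw [Cfsg.Lib.Classical.ClassicalOrders.card_plus rfl 3 (by norm_num), hN]
    simp [Finset.prod_range_succ]
    ring
  have hsl : Nat.card (Matrix.SpecialLinearGroup (Fin 4) F) = N := by
    have h := Cfsg.Lib.Classical.LinearOrders.card_sl_mul (F := F) (n := 4) (by omega)
    rw [Fin.prod_univ_four] at h
    simp only [Fin.val_zero, Fin.val_one, Fin.val_two, show ((3 : Fin 4) : ℕ) = 3 from rfl, pow_zero, pow_one] at h
    refine Nat.eq_of_mul_eq_mul_left (show 0 < q - 1 by omega) (h.trans ?_)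
    rw [hN, show q ^ 4 - q = q * (q ^ 3 - 1) by rw [Nat.mul_sub, mul_one, ← pow_succ'],
      show q ^ 4 - q ^ 2 = q ^ 2 * (q ^ 2 - 1) by rw [Nat.mul_sub, mul_one, ← pow_add],
      show q ^ 4 - q ^ 3 = q ^ 3 * (q - 1) by rw [Nat.mul_sub, mul_one, ← pow_succ]]
    ring
  have hR : Nat.card ψ.range * Nat.gcd (q - 1) 2 = N := by
    rw [← hsl, Subgroup.card_eq_card_quotient_mul_card_subgroup ψ.ker, hz, Nat.card_congr (QuotientGroup.quotientKerEquivRange ψ).toEquiv]
  have hle : commutator (Cfsg.isometryGroup F (Cfsg.quadFormPlus 3 F)) ≤ ψ.range := by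
    by_cases h2 : (2 : F) = 0
    · refine Cfsg.Lib.Classical.OrthMatrix.commutator_le_of_index_two ?_
      haveI : CharP F 2 := CharTwo.of_one_ne_zero_of_two_eq_zero one_ne_zero h2
      have he : q % 2 = 0 := FiniteField.even_card_of_char_two (ringChar.eq F 2)
      rw [show Nat.gcd (q - 1) 2 = 1 by rw [Nat.gcd_comm, Nat.gcd_rec, show (q - 1) % 2 = 1 by omega]; rfl, mul_one] at hR
      have h := ψ.range.card_mul_index
      rw [hR, hO] at h
      exact Nat.eq_of_mul_eq_mul_left hNpos (h.trans (by ring))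
    · refine Cfsg.Lib.Classical.LowRankIso.le_range_of_card hperf ψ ?_
      let Q : QuadraticForm F (Fin 3 ⊕ Fin 3 → F) :=
        (Cfsg.Lib.Classical.QuadOrders.Qs 3 (Cfsg.Lib.Classical.QuadOrders.Q0 (F := F))).comp (Cfsg.Lib.Classical.QuadOrders.ePlus F 3).toLinearMap
      have hidx : (Cfsg.Omega F (Cfsg.quadFormPlus 3 F)).index = 4 :=
        Cfsg.Lib.Classical.OrthMatrix.omega_index (Q := Q) (fun v => Cfsg.Lib.Classical.QuadOrders.ePlus_form 3 v)
          (Cfsg.Lib.Classical.QuadOrders.nondeg_comp _ (Cfsg.Lib.Classical.QuadOrders.nondeg_std Cfsg.Lib.Classical.QuadOrders.Q0_nondeg))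
          (Cfsg.Lib.Classical.OrthMatrix.hex_of_two_ne h2) h2 (by simp)
      have h := (Cfsg.Omega F (Cfsg.quadFormPlus 3 F)).card_mul_index
      rw [hidx, hO] at h
      have hqo : q % 2 = 1 := FiniteField.odd_card_of_char_ne_two fun e => h2 (by
        haveI : CharP F 2 := e ▸ ringChar.charP F
        exact CharP.cast_eq_zero F 2)
      rw [show Nat.gcd (q - 1) 2 = 2 from Nat.gcd_eq_right (by omega)] at hR
      change Nat.card ψ.range = Nat.card (Cfsg.Omega F (Cfsg.quadFormPlus 3 F))
      omega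
  exact Cfsg.Lib.Classical.LowRankIso.nonempty_iso hperf ψ hker hle

end Cfsg.Agent.S0302
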