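import Cfsg.Statements.S0303
import Mathlib
import Cfsg.Agent.Lib.Classical.LowRankIso
import Cfsg.Agent.Lib.Classical.ClassicalOrders
import Cfsg.Agent.Lib.Classical.LinearOrders
import Cfsg.Agent.Lib.Classical.SLGroup
import Cfsg.Agent.Lib.Classical.OrthMatrix
import Cfsg.Agent.Lib.Classical.LeviOmega
import Cfsg.Agent.Lib.Classical.UnitaryStd
import Cfsg.Agent.Lib.Classical.UnitaryCentre
import Cfsg.Agent.Lib.Classical.UnitaryOrders
import Cfsg.Agent.Lib.Classical.UnitarySimple
import Cfsg.Agent.Lib.Classical.Unitary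
import Cfsg.Agent.S0301
-- import your own Cfsg.Agent.* helpers here

set_option autoImplicit false
open Cfsg

namespace Cfsg.Agent.S0303

/-- The Hodge star on alternating matrices of size four. -/
def hodge {K : Type*} [Field K] (W : Matrix (Fin 4) (Fin 4) K) : Matrix (Fin 4) (Fin 4) K :=
  !![0, W 2 3, -W 1 3, W 1 2; -W 2 3, 0, W 0 3, -W 0 2; W 1 3, -W 0 3, 0, W 0 1; -W 1 2, W 0 2, -W 0 1, 0]

open scoped Matrix in
set_option maxHeartbeats 2000000 in
/-- Transvections commute with the Hodge star, up to contragredience. -/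
lemma hodge_transvection {K : Type*} [Field K] (U : Matrix (Fin 4) (Fin 4) K) (i j : Fin 4) (hij : i ≠ j) (c : K) :
    (Matrix.transvection i j c)ᵀ * hodge (Matrix.transvection i j c * (U - Uᵀ) * (Matrix.transvection i j c)ᵀ) *
      Matrix.transvection i j c = hodge (U - Uᵀ) := by
  fin_cases i <;> fin_cases j <;> simp at hij <;>
    (ext k l; fin_cases k <;> fin_cases l <;>
      simp [hodge, Matrix.transvection, Matrix.mul_apply, Fin.sum_univ_four, Matrix.single_apply, Matrix.one_apply, Matrix.transpose_apply] <;> ring)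

open scoped Matrix in
/-- Matrices of determinant one commute with the Hodge star, up to contragredience. -/
lemma hodge_det_one {K : Type*} [Field K] (g : Matrix.SpecialLinearGroup (Fin 4) K) (U : Matrix (Fin 4) (Fin 4) K) :
    (g : Matrix (Fin 4) (Fin 4) K)ᵀ * hodge ((g : Matrix (Fin 4) (Fin 4) K) * (U - Uᵀ) * (g : Matrix (Fin 4) (Fin 4) K)ᵀ) * g
      = hodge (U - Uᵀ) := by
  classical
  let Alt : Matrix (Fin 4) (Fin 4) K → Prop := fun Z => ∃ U : Matrix (Fin 4) (Fin 4) K, Z = U - Uᵀ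
  have hclos : ∀ (B Z : Matrix (Fin 4) (Fin 4) K), Alt Z → Alt (B * Z * Bᵀ) := by
    rintro B Z ⟨U, rfl⟩
    exact ⟨B * U * Bᵀ, by rw [Matrix.mul_sub, Matrix.sub_mul, Matrix.transpose_mul, Matrix.transpose_mul, Matrix.transpose_transpose, Matrix.mul_assoc B Uᵀ]⟩
  let G : Subgroup (Matrix.SpecialLinearGroup (Fin 4) K) :=
    { carrier := {g | ∀ Z, Alt Z → (g : Matrix (Fin 4) (Fin 4) K)ᵀ * hodge ((g : Matrix (Fin 4) (Fin 4) K) * Z * (g : Matrix (Fin 4) (Fin 4) K)ᵀ) * g = hodge Z}
      one_mem' := fun Z _ => by simp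
      mul_mem' := fun {x y} hx hy Z hZ => by
        rw [Matrix.SpecialLinearGroup.coe_mul, Matrix.transpose_mul,
          show (x : Matrix (Fin 4) (Fin 4) K) * y * Z * ((y : Matrix (Fin 4) (Fin 4) K)ᵀ * (x : Matrix (Fin 4) (Fin 4) K)ᵀ) =
            x * (y * Z * (y : Matrix (Fin 4) (Fin 4) K)ᵀ) * (x : Matrix (Fin 4) (Fin 4) K)ᵀ by simp only [Matrix.mul_assoc]]
        conv_rhs => rw [← hy Z hZ, ← hx _ (hclos _ _ hZ)]
        simp only [Matrix.mul_assoc]
      inv_mem' := fun {x} hx Z hZ => by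
        have e : (x : Matrix (Fin 4) (Fin 4) K) * (x⁻¹ : Matrix.SpecialLinearGroup (Fin 4) K) = 1 := by
          rw [← Matrix.SpecialLinearGroup.coe_mul, mul_inv_cancel, Matrix.SpecialLinearGroup.coe_one]
        set y := ((x⁻¹ : Matrix.SpecialLinearGroup (Fin 4) K) : Matrix (Fin 4) (Fin 4) K)
        have h := hx _ (hclos y Z hZ)
        rw [show (x : Matrix (Fin 4) (Fin 4) K) * (y * Z * yᵀ) * (x : Matrix (Fin 4) (Fin 4) K)ᵀ =
          ((x : Matrix (Fin 4) (Fin 4) K) * y) * Z * ((x : Matrix (Fin 4) (Fin 4) K) * y)ᵀ by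
            simp only [Matrix.transpose_mul, Matrix.mul_assoc], e, Matrix.one_mul, Matrix.transpose_one, Matrix.mul_one] at h
        rw [← h, show yᵀ * ((x : Matrix (Fin 4) (Fin 4) K)ᵀ * hodge Z * (x : Matrix (Fin 4) (Fin 4) K)) * y =
          ((x : Matrix (Fin 4) (Fin 4) K) * y)ᵀ * hodge Z * ((x : Matrix (Fin 4) (Fin 4) K) * y) by
            simp only [Matrix.transpose_mul, Matrix.mul_assoc], e, Matrix.transpose_one, Matrix.one_mul, Matrix.mul_one] }
  have hG : G = ⊤ := Cfsg.Lib.Classical.SLGroup.eq_top_of_transvection _ fun i j hij c => by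
    rintro Z ⟨U, rfl⟩
    exact hodge_transvection U i j hij c
  exact (show g ∈ G by rw [hG]; trivial) _ ⟨U, rfl⟩

/-- The hyperbolic quadric as a difference of two norms. -/
lemma norm_split {K : Type*} [Field K] (θ τ A1 A2 B1 B2 c d : K) (hδ : τ - θ ≠ 0) (hc : c * d = -1) :
    ((A1 + θ * B2) * τ - (-A2 + θ * B1)) / (τ - θ) * (((A1 + τ * B2) * θ - (-A2 + τ * B1)) / -(τ - θ)) +
      c * ((-(A1 + θ * B2) * θ + (-A2 + θ * B1)) / (τ - θ)) * (d * ((-(A1 + τ * B2) * τ + (-A2 + τ * B1)) / -(τ - θ))) =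
        A1 * B1 + A2 * B2 := by
  rw [div_neg, div_neg, show ∀ x y : K, c * x * (d * -y) = -(c * d) * (x * y) from fun x y => by ring, hc]
  field_simp
  ring

/-- An alternating matrix of size four is determined by its six entries above the diagonal. -/
lemma alt_ext {K : Type*} [Field K] {V V' : Matrix (Fin 4) (Fin 4) K} (h0 : ∀ i, V i i = 0) (hs : ∀ i j, V i j = -V j i)
    (h0' : ∀ i, V' i i = 0) (hs' : ∀ i j, V' i j = -V' j i) (e01 : V 0 1 = V' 0 1) (e02 : V 0 2 = V' 0 2) (e03 : V 0 3 = V' 0 3)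
    (e12 : V 1 2 = V' 1 2) (e13 : V 1 3 = V' 1 3) (e23 : V 2 3 = V' 2 3) : V = V' := by
  ext i j
  fin_cases i <;> fin_cases j <;>
    first
    | exact (h0 _).trans (h0' _).symm
    | assumption
    | exact (hs _ _).trans ((congrArg Neg.neg (by assumption)).trans (hs' _ _).symm)

open scoped Matrix in
set_option maxHeartbeats 6000000 in
/-- The action of `SU₄` on self-dual alternating matrices, as isometries of the Pfaffian. -/
theorem exists_self_dual {F K : Type*} [Field F] [Fintype F] [Field K] [Fintype K] {q : ℕ} (hF : Fintype.card F = q)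
    (hK : Fintype.card K = q ^ 2) (a b : F)
    (hab : ∀ z₁ z₂ : F, z₁ ^ 2 + a * z₁ * z₂ + b * z₂ ^ 2 = 0 → z₁ = 0 ∧ z₂ = 0) :
    ∃ ψ : Cfsg.SU 4 K q →* Cfsg.isometryGroup F (Cfsg.quadFormMinus 2 F a b),
      ψ.ker ≤ Subgroup.center (Cfsg.SU 4 K q) ∧ Nat.card ψ.ker = Nat.gcd (q ^ 2 - 1) 2 := by
  classical
  have hq1 : 1 < q := hF ▸ Fintype.one_lt_card
  obtain ⟨d, hp, hd⟩ := FiniteField.card F (ringChar F)
  set p := ringChar F
  haveI : Fact p.Prime := ⟨hp⟩
  haveI : CharP F p := ringChar.charP F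
  haveI : CharP K p := by
    have h0 : ((p : ℕ) : K) = 0 := by
      have h := FiniteField.cast_card_eq_zero K
      rw [hK, ← hF, hd, ← pow_mul, Nat.cast_pow] at h
      exact eq_zero_of_pow_eq_zero h
    obtain ⟨r, hr⟩ := CharP.exists K
    rcases (Nat.dvd_prime hp).1 ((CharP.cast_eq_zero_iff K r p).1 h0) with e | e
    · exact absurd e (CharP.char_ne_one K r)
    · exact e ▸ hr
  letI := ZMod.algebra F p
  letI := ZMod.algebra K p
  have hfF : Module.finrank (ZMod p) F = d := by
    have h := Module.card_eq_pow_finrank (K := ZMod p) (V := F)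
    rw [ZMod.card, hd] at h
    exact (Nat.pow_right_injective hp.two_le h).symm
  have hfK : Module.finrank (ZMod p) K = d * 2 := by
    have h := Module.card_eq_pow_finrank (K := ZMod p) (V := K)
    rw [ZMod.card, hK, ← hF, hd, ← pow_mul] at h
    exact (Nat.pow_right_injective hp.two_le h).symm
  obtain ⟨ι₀⟩ := FiniteField.nonempty_algHom_of_finrank_dvd (F := ZMod p) (K := F) (L := K) (by rw [hfF, hfK]; exact dvd_mul_right _ _)
  letI : Algebra F K := ι₀.toRingHom.toAlgebra
  have hFK : Module.finrank F K = 2 := by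
    have h := Module.card_eq_pow_finrank (K := F) (V := K)
    rw [hF, hK] at h
    exact (Nat.pow_right_injective hq1 h).symm
  -- the quadratic
  let P : Polynomial F := Polynomial.X ^ 2 - Polynomial.C a * Polynomial.X + Polynomial.C b
  have hPd : P.natDegree = 2 := by simp only [P]; compute_degree!
  have hPm : P.Monic := by simp only [P]; monicity!
  have hPr : ∀ x : F, ¬ P.IsRoot x := fun x hx => by
    simp [P] at hx
    exact one_ne_zero (hab (-x) 1 (by linear_combination hx)).2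
  haveI : Fact (Irreducible P) := ⟨(Polynomial.irreducible_iff_roots_eq_zero_of_degree_le_three (by omega) (by omega)).2
    (Multiset.eq_zero_of_forall_notMem fun x hx => hPr x ((Polynomial.mem_roots hPm.ne_zero).1 hx))⟩
  haveI : Module.Finite F (AdjoinRoot P) := hPm.finite_adjoinRoot
  haveI : Finite (AdjoinRoot P) := Module.finite_of_finite F
  obtain ⟨j⟩ := FiniteField.nonempty_algHom_of_finrank_dvd (F := F) (K := AdjoinRoot P) (L := K) (by
    rw [hFK, (AdjoinRoot.powerBasis hPm.ne_zero).finrank, AdjoinRoot.powerBasis_dim, hPd])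
  set θ := j (AdjoinRoot.root P)
  have hθ : θ ^ 2 - algebraMap F K a * θ + algebraMap F K b = 0 := by
    have h := congrArg j (AdjoinRoot.eval₂_root P)
    simp [P, θ, ← AdjoinRoot.algebraMap_eq] at h ⊢
    exact h
  have hθF : ∀ x : F, θ ≠ algebraMap F K x := fun x e => by
    refine hPr x ?_
    rw [e] at hθ
    simp [P]
    exact (algebraMap F K).injective (by simpa using hθ)
  -- conjugation
  let σ : K →ₐ[F] K := FiniteField.frobeniusAlgHom F K
  have hσ : ∀ x, σ x = x ^ q := fun x => by rw [FiniteField.coe_frobeniusAlgHom, hF]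
  have hσσ : ∀ x, σ (σ x) = x := fun x => by rw [hσ, hσ, ← pow_mul, ← pow_two, ← hK, FiniteField.pow_card]
  have hbasis : ∀ z : K, ∃ z₁ z₂ : F, z = algebraMap F K z₁ + algebraMap F K z₂ * θ := by
    have hli : LinearIndependent F ![(1 : K), θ] := by
      rw [LinearIndependent.pair_iff' one_ne_zero]
      intro x hx
      exact hθF x (by rw [← hx, Algebra.smul_def, mul_one])
    intro z
    let bs := basisOfLinearIndependentOfCardEqFinrank hli (by simp [hFK])
    refine ⟨bs.repr z 0, bs.repr z 1, ?_⟩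
    conv_lhs => rw [← bs.sum_repr z]
    simp [bs, Fin.sum_univ_two, Algebra.smul_def]
  have hσθ : σ θ = algebraMap F K a - θ := by
    have h0 : σ θ ^ 2 - algebraMap F K a * σ θ + algebraMap F K b = 0 := by
      have := congrArg σ hθ
      simpa using this
    have : (σ θ - θ) * (σ θ + θ - algebraMap F K a) = 0 := by linear_combination h0 - hθ
    rcases mul_eq_zero.1 this with h | h
    · exfalso
      rw [sub_eq_zero] at h
      have hall : σ = AlgHom.id F K := by
        refine AlgHom.ext fun z => ?_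
        obtain ⟨z₁, z₂, rfl⟩ := hbasis z
        simp [h]
      have ho := FiniteField.orderOf_frobeniusAlgHom F K
      rw [show FiniteField.frobeniusAlgHom F K = 1 from hall, orderOf_one, hFK] at ho
      omega
    · linear_combination h
  have hδ : σ θ - θ ≠ 0 := by
    intro h0
    rw [sub_eq_zero, hσθ] at h0
    by_cases h2 : (2 : F) = 0
    · have ha : a = 0 := by
        have h2K : (2 : K) = 0 := by rw [← map_ofNat (algebraMap F K) 2, h2, map_zero]
        exact (algebraMap F K).injective (by rw [map_zero]; linear_combination h0 + θ * h2K)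
      obtain ⟨r, hr⟩ := FiniteField.isSquare_of_char_two (F := F) (by
        haveI : CharP F 2 := CharTwo.of_one_ne_zero_of_two_eq_zero one_ne_zero h2
        exact ringChar.eq F 2) b
      exact one_ne_zero (hab r 1 (by rw [ha, hr]; linear_combination r * r * h2)).2
    · refine hθF (a / 2) ?_
      have h2K : (2 : K) ≠ 0 := by rw [← map_ofNat (algebraMap F K) 2]; simpa using h2
      rw [map_div₀, map_ofNat, eq_div_iff h2K]
      linear_combination -h0
  obtain ⟨c, hc⟩ : ∃ c : K, c * σ c = -1 := by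
    obtain ⟨τ, hne, hτ, hinv⟩ := Cfsg.Lib.Classical.exists_frobSq hK
    obtain ⟨c, hc⟩ := Cfsg.Lib.Classical.exists_norm_eq hne hinv (a := (-1 : K)) (by simp)
    exact ⟨c, by rw [hσ, ← hτ]; exact hc⟩
  have hc0 : c ≠ 0 := by rintro rfl; simp at hc
  set δ := σ θ - θ with hδdef
  have hσδ : σ δ = -δ := by rw [hδdef, map_sub, hσσ]; ring
  let ι := algebraMap F K
  let pmap : ((Fin 2 ⊕ Fin 2) ⊕ Fin 2 → F) →ₗ[F] (Fin 3 → K) :=
    { toFun := fun v => ![((ι (v (.inl (.inl 0))) + θ * ι (v (.inl (.inr 1)))) * σ θ - (-ι (v (.inl (.inl 1))) + θ * ι (v (.inl (.inr 0))))) / δ,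
        c * ((-(ι (v (.inl (.inl 0))) + θ * ι (v (.inl (.inr 1)))) * θ + (-ι (v (.inl (.inl 1))) + θ * ι (v (.inl (.inr 0))))) / δ),
        ι (v (.inr 0)) + ι (v (.inr 1)) * θ]
      map_add' := fun v w => by ext i; fin_cases i <;> simp <;> ring
      map_smul' := fun r v => by ext i; fin_cases i <;> simp [Algebra.smul_def, ι] <;> ring }
  have hli2 : ∀ x y : F, ι x + θ * ι y = 0 → x = 0 ∧ y = 0 := by
    intro x y h
    by_cases hy : y = 0
    · subst hy; simp [ι] at h; exact ⟨h, rfl⟩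
    · refine absurd ?_ (hθF (-x / y))
      rw [map_div₀, eq_div_iff (by simpa using hy), map_neg]
      linear_combination h
  have hinj : Function.Injective pmap := by
    rw [← LinearMap.ker_eq_bot, LinearMap.ker_eq_bot']
    intro v hv
    have h0 := congrFun hv 0
    have h1 := congrFun hv 1
    have h2 := congrFun hv 2
    simp [pmap, hδ, hc0] at h0 h1 h2
    set A := ι (v (.inl (.inl 0))) + θ * ι (v (.inl (.inr 1)))
    set B := -ι (v (.inl (.inl 1))) + θ * ι (v (.inl (.inr 0)))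
    have hA : A = 0 := (mul_eq_zero.1 (show A * δ = 0 by rw [hδdef]; linear_combination h0 + h1)).resolve_right hδ
    have hB : B = 0 := by linear_combination σ θ * hA - h0
    obtain ⟨e1, e2⟩ := hli2 _ _ hA
    obtain ⟨e3, e4⟩ := hli2 (-v (.inl (.inl 1))) (v (.inl (.inr 0))) (by rw [map_neg]; exact hB)
    obtain ⟨e5, e6⟩ := hli2 (v (.inr 0)) (v (.inr 1)) (by linear_combination h2)
    funext x
    rcases x with (x | x) | x <;> fin_cases x
    · exact e1
    · exact neg_eq_zero.1 e3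
    · exact e4
    · exact e2
    · exact e5
    · exact e6
  let p : ((Fin 2 ⊕ Fin 2) ⊕ Fin 2 → F) ≃ₗ[F] (Fin 3 → K) :=
    LinearEquiv.ofBijective pmap ⟨hinj, (LinearMap.injective_iff_surjective_of_finrank_eq_finrank (by
      rw [Module.finrank_pi, Module.finrank_pi_fintype]; simp [hFK])).1 hinj⟩
  let H : (Fin 3 → K) →ₗ[F] Matrix (Fin 4) (Fin 4) K :=
    { toFun := fun x => !![0, x 0, x 1, x 2; -x 0, 0, σ (x 2), -σ (x 1); -x 1, -σ (x 2), 0, σ (x 0); -x 2, σ (x 1), -σ (x 0), 0]
      map_add' := fun v w => by ext i j; fin_cases i <;> fin_cases j <;> simp <;> ring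
      map_smul' := fun r v => by ext i j; fin_cases i <;> fin_cases j <;> simp }
  let coord : Matrix (Fin 4) (Fin 4) K →ₗ[F] (Fin 3 → K) :=
    { toFun := fun W => ![W 0 1, W 0 2, W 0 3]
      map_add' := fun v w => by ext i; fin_cases i <;> simp
      map_smul' := fun r v => by ext i; fin_cases i <;> simp }
  have hcH : ∀ x, coord (H x) = x := fun x => by ext i; fin_cases i <;> simp [coord, H]
  let U : (Fin 3 → K) → Matrix (Fin 4) (Fin 4) K := fun x =>
    !![0, x 0, x 1, x 2; 0, 0, σ (x 2), -σ (x 1); 0, 0, 0, σ (x 0); 0, 0, 0, 0]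
  have hHU : ∀ x, H x = U x - (U x)ᵀ := fun x => by ext i j; fin_cases i <;> fin_cases j <;> simp [H, U]
  have hHs : ∀ x, (H x).map σ = hodge (H x) := fun x => by
    ext i j; fin_cases i <;> fin_cases j <;> simp [hodge, H, hσσ]
  have hHW : ∀ W : Matrix (Fin 4) (Fin 4) K, (W - Wᵀ).map σ = hodge (W - Wᵀ) → H (coord (W - Wᵀ)) = W - Wᵀ := fun W hW => by
    have e23 := congrFun (congrFun hW 0) 1
    have e13 := congrFun (congrFun hW 0) 2
    have e12 := congrFun (congrFun hW 0) 3
    simp [hodge] at e23 e13 e12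
    ext i j
    fin_cases i <;> fin_cases j <;> simp [H, coord, e23, e13, e12]
  have hSU : ∀ g : Cfsg.SU 4 K q, ((g : Matrix.SpecialLinearGroup (Fin 4) K) : Matrix (Fin 4) (Fin 4) K)ᵀ *
      ((g : Matrix.SpecialLinearGroup (Fin 4) K) : Matrix (Fin 4) (Fin 4) K).map σ = 1 := fun g => by
    ext i j
    have h : Cfsg.hermForm 4 K q (((g : Matrix.SpecialLinearGroup (Fin 4) K) : Matrix (Fin 4) (Fin 4) K) *ᵥ Pi.single i 1)
      (((g : Matrix.SpecialLinearGroup (Fin 4) K) : Matrix (Fin 4) (Fin 4) K) *ᵥ Pi.single j 1) = Cfsg.hermForm 4 K q (Pi.single i 1) (Pi.single j 1) :=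
      g.2 (Pi.single i 1) (Pi.single j 1)
    rw [Matrix.mulVec_single_one, Matrix.mulVec_single_one] at h
    have e : Cfsg.hermForm 4 K q (Pi.single i 1) (Pi.single j 1) = (1 : Matrix (Fin 4) (Fin 4) K) i j := by
      have hq0 : q ≠ 0 := by omega
      rcases eq_or_ne i j with rfl | hij <;> simp [Cfsg.hermForm, Pi.single_apply, *]
      simp [hij.symm]
    rw [← e, ← h, Matrix.mul_apply]
    exact Finset.sum_congr rfl fun k _ => by simp [hσ]
  let B : Cfsg.SU 4 K q → Matrix (Fin 4) (Fin 4) K := fun g => ((g : Matrix.SpecialLinearGroup (Fin 4) K) : Matrix (Fin 4) (Fin 4) K)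
  have hinv : ∀ g x, H (coord (B g * H x * (B g)ᵀ)) = B g * H x * (B g)ᵀ := fun g x => by
    have e : B g * H x * (B g)ᵀ = B g * U x * (B g)ᵀ - (B g * U x * (B g)ᵀ)ᵀ := by
      rw [hHU, Matrix.mul_sub, Matrix.sub_mul, Matrix.transpose_mul, Matrix.transpose_mul, Matrix.transpose_transpose, Matrix.mul_assoc (B g) (U x)ᵀ]
    have hh : (B g)ᵀ * hodge (B g * H x * (B g)ᵀ) * B g = hodge (H x) := by
      rw [hHU]; exact hodge_det_one _ _
    have h1 : (B g).map σ * (B g)ᵀ = 1 := mul_eq_one_comm.1 (hSU g)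
    have h2 : B g * ((B g).map σ)ᵀ = 1 := by
      have := congrArg Matrix.transpose h1
      simpa using this
    have hs : (B g * H x * (B g)ᵀ).map σ = hodge (B g * H x * (B g)ᵀ) := by
      rw [Matrix.map_mul, Matrix.map_mul, hHs, ← hh, Matrix.transpose_map]
      calc _ = ((B g).map σ * (B g)ᵀ) * hodge (B g * H x * (B g)ᵀ) * (B g * ((B g).map σ)ᵀ) := by simp only [Matrix.mul_assoc]
        _ = _ := by rw [h1, h2, Matrix.one_mul, Matrix.mul_one]
    rw [e] at hs ⊢
    exact hHW _ hs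
  let mat : ((Fin 2 ⊕ Fin 2) ⊕ Fin 2 → F) →ₗ[F] Matrix (Fin 4) (Fin 4) K := H ∘ₗ p.toLinearMap
  have hmi : Function.Injective mat := fun v w h => p.injective (by
    have := congrArg coord h
    simpa [mat, hcH] using this)
  let T : Cfsg.SU 4 K q → Module.End F ((Fin 2 ⊕ Fin 2) ⊕ Fin 2 → F) := fun g =>
    p.symm.toLinearMap ∘ₗ coord ∘ₗ LinearMap.mulLeft F (B g) ∘ₗ LinearMap.mulRight F (B g)ᵀ ∘ₗ mat
  have hT : ∀ g v, mat (T g v) = B g * mat v * (B g)ᵀ := fun g v => by
    show H (p (p.symm (coord (B g * (H (p v) * (B g)ᵀ))))) = _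
    rw [LinearEquiv.apply_symm_apply, ← Matrix.mul_assoc, hinv]
    rfl
  have hBm : ∀ g h, B (g * h) = B g * B h := fun g h => rfl
  let M : Cfsg.SU 4 K q →* Matrix ((Fin 2 ⊕ Fin 2) ⊕ Fin 2) ((Fin 2 ⊕ Fin 2) ⊕ Fin 2) F :=
    { toFun := fun g => LinearMap.toMatrix' (T g)
      map_one' := by
        show LinearMap.toMatrix' (T 1) = 1
        rw [show T 1 = LinearMap.id from LinearMap.ext fun v => hmi (by rw [hT, show B 1 = 1 from rfl]; simp), LinearMap.toMatrix'_id]
      map_mul' := fun g h => by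
        show LinearMap.toMatrix' (T (g * h)) = LinearMap.toMatrix' (T g) * LinearMap.toMatrix' (T h)
        rw [← LinearMap.toMatrix'_comp]
        congr 1
        refine LinearMap.ext fun v => hmi ?_
        show mat (T (g * h) v) = mat (T g (T h v))
        rw [hT, hT, hT, hBm, Matrix.transpose_mul]
        simp only [Matrix.mul_assoc] }
  have hMv : ∀ g v, M g *ᵥ v = T g v := fun g v => LinearMap.toMatrix'_mulVec _ _
  have hQ : ∀ v, ι (Cfsg.quadFormMinus 2 F a b v) = mat v 0 1 * mat v 2 3 + mat v 0 2 * (-mat v 1 3) + mat v 0 3 * mat v 1 2 := fun v => by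
    show _ = H (pmap v) 0 1 * H (pmap v) 2 3 + H (pmap v) 0 2 * (-H (pmap v) 1 3) + H (pmap v) 0 3 * H (pmap v) 1 2
    simp [H, pmap, Cfsg.quadFormMinus, Fin.sum_univ_two, map_div₀, hσδ, ι, hσσ]
    set A1 := algebraMap F K (v (.inl (.inl 0)))
    set A2 := algebraMap F K (v (.inl (.inl 1)))
    set B1 := algebraMap F K (v (.inl (.inr 0)))
    set B2 := algebraMap F K (v (.inl (.inr 1)))
    set Z1 := algebraMap F K (v (.inr 0))
    set Z2 := algebraMap F K (v (.inr 1))
    have hz : (Z1 + Z2 * θ) * (Z1 + Z2 * σ θ) = Z1 ^ 2 + algebraMap F K a * Z1 * Z2 + algebraMap F K b * Z2 ^ 2 := by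
      rw [hσθ]; linear_combination (-(Z2 ^ 2)) * hθ
    have key := norm_split θ (σ θ) A1 A2 B1 B2 c (σ c) (hδdef ▸ hδ) hc
    linear_combination -key - hz
  have hiso : ∀ g, M.toHomUnits g ∈ Cfsg.isometryGroup F (Cfsg.quadFormMinus 2 F a b) := by
    intro g u v
    show Cfsg.quadFormMinus 2 F a b (M g *ᵥ u) = Cfsg.quadFormMinus 2 F a b u
    refine (algebraMap F K).injective ?_
    show ι _ = ι _
    rw [hMv, hQ, hQ, hT]
    show _ = H (p u) 0 1 * H (p u) 2 3 + H (p u) 0 2 * (-H (p u) 1 3) + H (p u) 0 3 * H (p u) 1 2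
    exact Cfsg.Agent.S0301.pf_det_one (g : Matrix.SpecialLinearGroup (Fin 4) K) (H (p u))
      (fun x => by rw [hHU]; simp) (fun x y => by rw [hHU]; simp)
  refine ⟨(M.toHomUnits).codRestrict _ hiso, ?_⟩
  set ψ := (M.toHomUnits).codRestrict _ hiso
  have hker : ∀ g : Cfsg.SU 4 K q, g ∈ ψ.ker ↔ ∃ r : K, r * r = 1 ∧ Matrix.scalar (Fin 4) r = B g := by
    intro g
    rw [MonoidHom.mem_ker]
    constructor
    · intro h
      have h' : M g = 1 := congrArg Units.val (congrArg Subtype.val h)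
      set G := B g
      have hfH : ∀ x, G * H x * Gᵀ = H x := fun x => by
        have hx : mat (p.symm x) = H x := by simp [mat]
        rw [← hx, ← hT, ← hMv, h', Matrix.one_mulVec]
      have hfA : ∀ W : Matrix (Fin 4) (Fin 4) K, G * (W - Wᵀ) * Gᵀ = W - Wᵀ := by
        intro W
        have dec : ∀ u w : K, ∃ x x' : K, x + θ * x' = u ∧ σ x + θ * σ x' = w := fun u w => by
          refine ⟨u - θ * ((σ w - u) / δ), (σ w - u) / δ, by ring, ?_⟩
          simp [map_div₀, hσδ, hσσ]
          field_simp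
          rw [hδdef]; ring
        set V := W - Wᵀ with hV
        obtain ⟨x, x', hx, hx'⟩ := dec (V 0 1) (V 2 3)
        obtain ⟨y, y', hy, hy'⟩ := dec (V 0 2) (-V 1 3)
        obtain ⟨z, z', hz, hz'⟩ := dec (V 0 3) (V 1 2)
        have hVd : V = H ![x, y, z] + θ • H ![x', y', z'] := by
          have hH : ∀ x, (∀ i, H x i i = 0) ∧ ∀ i j, H x i j = -H x j i := fun x => by rw [hHU]; simp
          refine alt_ext (fun i => by simp [hV]) (fun i j => by simp [hV]) (fun i => by simp [(hH _).1 i])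
            (fun i j => by simp only [Matrix.add_apply, Matrix.smul_apply, smul_eq_mul]; rw [(hH _).2 i j, (hH ![x', y', z']).2 i j]; ring) ?_ ?_ ?_ ?_ ?_ ?_
          all_goals simp [H]
          · exact hx.symm
          · exact hy.symm
          · exact hz.symm
          · exact hz'.symm
          · linear_combination hy'
          · exact hx'.symm
        rw [hVd, Matrix.mul_add, Matrix.add_mul, Matrix.mul_smul, Matrix.smul_mul, hfH, hfH]
      have hfix : ∀ a b : Fin 4, a ≠ b → ∀ k l : Fin 4, G k a * G l b - G l a * G k b =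
          (if k = a ∧ l = b then 1 else 0) - (if l = a ∧ k = b then 1 else 0) := by
        intro a b _ k l
        have h2 := congrFun (congrFun (hfA (Matrix.single a b 1)) k) l
        rw [Matrix.transpose_single, Matrix.mul_sub, Matrix.sub_mul, Matrix.sub_apply, Matrix.mul_apply, Matrix.mul_apply] at h2
        simp [Matrix.mul_apply, Matrix.single_apply, ite_and, eq_comm] at h2
        rw [mul_comm (G l a), ← h2, ← ite_and, ← ite_and]
        exact congrArg₂ (· - ·) (if_congr ⟨fun h => ⟨h.1.symm, h.2.symm⟩, fun h => ⟨h.1.symm, h.2.symm⟩⟩ rfl rfl)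
          (if_congr ⟨fun h => ⟨h.2.symm, h.1.symm⟩, fun h => ⟨h.2.symm, h.1.symm⟩⟩ rfl rfl)
      have hoff : ∀ k a : Fin 4, k ≠ a → G k a = 0 := by
        intro k a hka
        obtain ⟨b, hbk, hba⟩ : ∃ b : Fin 4, b ≠ k ∧ b ≠ a := by revert k a; decide
        have e1 := hfix a b hba.symm a b
        have e2 := hfix a b hba.symm k a
        have e3 := hfix a b hba.symm k b
        simp [hka, hba, hba.symm, hbk, hbk.symm, Ne.symm hka] at e1 e2 e3
        linear_combination (-(G k a)) * e1 + (G a a) * e3 - (G b a) * e2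
      have hdiag : ∀ a b : Fin 4, a ≠ b → G a a * G b b = 1 := fun a b hab => by
        have e1 := hfix a b hab a b
        simp [hab, hab.symm, hoff a b hab, hoff b a hab.symm] at e1
        exact e1
      have d01 := hdiag 0 1 (by decide)
      have d02 := hdiag 0 2 (by decide)
      have d03 := hdiag 0 3 (by decide)
      have d12 := hdiag 1 2 (by decide)
      have d13 := hdiag 1 3 (by decide)
      have h11 : G 1 1 * G 1 1 = 1 := by linear_combination (G 1 1 * G 1 1) * (-d02) + (G 1 1 * G 2 2) * d01 + d12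
      have h0 : G 0 0 = G 1 1 := by linear_combination (-G 0 0) * h11 + G 1 1 * d01
      have h2 : G 2 2 = G 1 1 := by linear_combination (-G 2 2) * h11 + G 1 1 * d12
      have h3 : G 3 3 = G 1 1 := by linear_combination (-G 3 3) * h11 + G 1 1 * d13
      refine ⟨G 1 1, h11, ?_⟩
      ext i j
      by_cases hij : i = j
      · subst hij; fin_cases i <;> simp [h0, h2, h3]
      · simp [hij, hoff i j hij]
    · rintro ⟨r, hr, hrg⟩
      refine Subtype.ext (Units.ext ?_)
      show M g = 1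
      refine Matrix.ext_iff_mulVec.2 fun v => hmi ?_
      rw [hMv, hT, ← hrg, Matrix.one_mulVec]
      ext i j
      simp [Matrix.mul_diagonal, Matrix.diagonal_transpose]
      linear_combination mat v i j * hr
  have hBinj : Function.Injective B := fun g h e => Subtype.ext (Subtype.ext e)
  refine ⟨fun g hg => ?_, ?_⟩
  · obtain ⟨r, hr, hrg⟩ := (hker g).1 hg
    refine Subgroup.mem_center_iff.2 fun h => hBinj ?_
    rw [hBm, hBm, ← hrg, (Matrix.scalar_commute _ (fun r' => Commute.all _ _) (B h)).eq]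
  · rw [← hK, ← Cfsg.Lib.Classical.LinearOrders.card_rootsOfUnity_field (F := K) 2]
    symm
    have hu : ∀ u : rootsOfUnity 2 K, ((u : Kˣ) : K) * ((u : Kˣ) : K) = 1 := fun u => by
      rw [← Units.val_mul, ← pow_two, (mem_rootsOfUnity 2 _).1 u.2]; rfl
    refine Nat.card_congr (Equiv.ofBijective (fun u : rootsOfUnity 2 K => (⟨⟨⟨Matrix.scalar (Fin 4) ((u : Kˣ) : K), ?_⟩, ?_⟩, ?_⟩ : ψ.ker)) ⟨?_, ?_⟩)
    · simp [Matrix.det_diagonal]
      linear_combination (((u : Kˣ) : K) ^ 2 + 1) * hu u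
    · intro x y
      show Cfsg.hermForm 4 K q (Matrix.scalar (Fin 4) ((u : Kˣ) : K) *ᵥ x) (Matrix.scalar (Fin 4) ((u : Kˣ) : K) *ᵥ y) = _
      have hrσ : ((u : Kˣ) : K) * σ ((u : Kˣ) : K) = 1 := by
        rcases sq_eq_one_iff.1 ((pow_two _).trans (hu u)) with e | e <;> simp [e]
      simp only [Cfsg.hermForm, Matrix.scalar_apply, Matrix.mulVec_diagonal, mul_pow]
      refine Finset.sum_congr rfl fun i _ => ?_
      rw [← hσ, ← hσ]
      linear_combination (x i * σ (y i)) * hrσ
    · exact (hker _).2 ⟨((u : Kˣ) : K), hu u, rfl⟩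
    · intro u w h
      have := congrFun (congrFun (congrArg (fun x : ψ.ker => B x.1) h) 0) 0
      simp [B] at this
      exact Subtype.ext (Units.ext this)
    · intro g
      obtain ⟨r, hr, hrg⟩ := (hker g.1).1 g.2
      let u : Kˣ := ⟨r, r, hr, hr⟩
      have hu2 : u ∈ rootsOfUnity 2 K := (mem_rootsOfUnity 2 u).2 (Units.ext (by rw [Units.val_pow_eq_pow_val, pow_two, Units.val_one]; exact hr))
      refine ⟨(⟨u, hu2⟩ : rootsOfUnity 2 K), ?_⟩
      refine Subtype.ext (Subtype.ext (Subtype.ext ?_))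
      exact hrg

/-- PΩ^-_6(q) is isomorphic to PSU_4(q). -/
theorem result {F K : Type*} [Field F] [Fintype F] [Field K] [Fintype K] {q : ℕ} (hF : Fintype.card F = q) (hK : Fintype.card K = q ^ 2) (a b : F) (hab : ∀ z₁ z₂ : F, z₁ ^ 2 + a * z₁ * z₂ + b * z₂ ^ 2 = 0 → z₁ = 0 ∧ z₂ = 0) : Nonempty (Cfsg.POmega F (Cfsg.quadFormMinus 2 F a b) ≃* Cfsg.PSU 4 K q) := by
  classical
  obtain ⟨ψ, hker, hz⟩ := exists_self_dual hF hK a b hab
  have hq1 : 1 < q := hF ▸ Fintype.one_lt_card
  obtain ⟨τ, hne, hτ, hinv⟩ := Cfsg.Lib.Classical.exists_frobSq hK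
  have hperf : commutator (Cfsg.SU 4 K q) = ⊤ :=
    Cfsg.Lib.Classical.SUSimple.commutator_eq_top (Cfsg.Lib.Classical.hermForm_isUnitaryForm hne hτ hinv 4) (by norm_num) (by norm_num)
  set N := q ^ 6 * ((q ^ 2 - 1) * (q ^ 3 + 1) * (q ^ 4 - 1)) with hN
  have h2q : 2 ≤ q ^ 2 := le_trans hq1 (Nat.le_self_pow (by norm_num) q)
  have hNpos : 0 < N := by
    have h4 : 2 ≤ q ^ 4 := le_trans hq1 (Nat.le_self_pow (by norm_num) q)
    exact Nat.mul_pos (by positivity) (Nat.mul_pos (Nat.mul_pos (by omega) (by positivity)) (by omega))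
  have hO : Nat.card (Cfsg.isometryGroup F (Cfsg.quadFormMinus 2 F a b)) = 2 * N := by
    refine (Cfsg.Lib.Classical.ClassicalOrders.card_minus hF 3 (by norm_num) a b hab).trans ?_
    rw [hN]
    simp [Finset.prod_range_succ]
    ring
  have hsu : Nat.card (Cfsg.SU 4 K q) = N := by
    have h := Cfsg.Lib.Classical.UnitaryCentre.card_SU (n := 4) hK (by norm_num)
    rw [Cfsg.Lib.Classical.UnitaryOrders.card_GU hK] at h
    refine Nat.eq_of_mul_eq_mul_left (Nat.succ_pos q) ?_
    rw [h, hN]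
    simp [Finset.prod_range_succ, Nat.even_iff]
    ring
  have hR : Nat.card ψ.range * Nat.gcd (q ^ 2 - 1) 2 = N := by
    rw [← hsu, Subgroup.card_eq_card_quotient_mul_card_subgroup ψ.ker, hz, Nat.card_congr (QuotientGroup.quotientKerEquivRange ψ).toEquiv]
  have hle : commutator (Cfsg.isometryGroup F (Cfsg.quadFormMinus 2 F a b)) ≤ ψ.range := by
    by_cases h2 : (2 : F) = 0
    · refine Cfsg.Lib.Classical.OrthMatrix.commutator_le_of_index_two ?_
      haveI : CharP F 2 := CharTwo.of_one_ne_zero_of_two_eq_zero one_ne_zero h2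
      have he := FiniteField.even_card_of_char_two (ringChar.eq F 2)
      rw [hF] at he
      have he2 : q ^ 2 % 2 = 0 := by rw [Nat.pow_mod, he]
      rw [show Nat.gcd (q ^ 2 - 1) 2 = 1 by rw [Nat.gcd_comm, Nat.gcd_rec, show (q ^ 2 - 1) % 2 = 1 by omega]; rfl, mul_one] at hR
      have h := ψ.range.card_mul_index
      rw [hR, hO] at h
      exact Nat.eq_of_mul_eq_mul_left hNpos (h.trans (by ring))
    · refine Cfsg.Lib.Classical.LowRankIso.le_range_of_card hperf ψ ?_
      let Q : QuadraticForm F ((Fin 2 ⊕ Fin 2) ⊕ Fin 2 → F) :=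
        (Cfsg.Lib.Classical.QuadOrders.Qs 2 (Cfsg.Lib.Classical.QuadOrders.Q2 a b)).comp (Cfsg.Lib.Classical.QuadOrders.eMinus F 2).toLinearMap
      have hidx : (Cfsg.Omega F (Cfsg.quadFormMinus 2 F a b)).index = 4 :=
        Cfsg.Lib.Classical.OrthMatrix.omega_index (Q := Q) (fun v => Cfsg.Lib.Classical.QuadOrders.eMinus_form 2 a b v)
          (Cfsg.Lib.Classical.QuadOrders.nondeg_comp _ (Cfsg.Lib.Classical.QuadOrders.nondeg_std (Cfsg.Lib.Classical.QuadOrders.Q2_nondeg hab)))
          (Cfsg.Lib.Classical.OrthMatrix.hex_of_two_ne h2) h2 (by simp)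
      have h := (Cfsg.Omega F (Cfsg.quadFormMinus 2 F a b)).card_mul_index
      rw [hidx, hO] at h
      have hqo : q % 2 = 1 := by
        rw [← hF]
        exact FiniteField.odd_card_of_char_ne_two fun e => h2 (by
          haveI : CharP F 2 := e ▸ ringChar.charP F
          exact CharP.cast_eq_zero F 2)
      have hqo2 : q ^ 2 % 2 = 1 := by rw [Nat.pow_mod, hqo]
      rw [show Nat.gcd (q ^ 2 - 1) 2 = 2 from Nat.gcd_eq_right (by omega)] at hR
      change Nat.card ψ.range = Nat.card (Cfsg.Omega F (Cfsg.quadFormMinus 2 F a b))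
      omega
  exact Cfsg.Lib.Classical.LowRankIso.nonempty_iso hperf ψ hker hle

end Cfsg.Agent.S0303
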