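import Cfsg.Statements.S0304
import Mathlib
import Cfsg.Agent.Lib.Classical.SymplecticMatrix

set_option autoImplicit false
open Cfsg
open scoped Matrix

namespace Cfsg.Agent.S0304

/-- In characteristic 2, O_{2m+1}(q) is isomorphic to Sp_{2m}(q). -/
theorem result {F : Type*} [Field F] [Fintype F] [CharP F 2] (m : ℕ) : Nonempty (Cfsg.isometryGroup F (Cfsg.quadFormOdd m F) ≃* Matrix.symplecticGroup (Fin m) F) := by
  classical
  have h2 : (2 : F) = 0 := CharTwo.two_eq_zero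
  set G := Cfsg.isometryGroup F (Cfsg.quadFormOdd m F)
  let Q' : (Fin m ⊕ Fin m → F) → F := fun v => ∑ i, v (Sum.inl i) * v (Sum.inr i)
  have hQ : ∀ (v : Unit ⊕ (Fin m ⊕ Fin m) → F), Cfsg.quadFormOdd m F v = v (Sum.inl ()) ^ 2 + Q' (v ∘ Sum.inr) := fun v => rfl
  have hQadd : ∀ u v, Q' (u + v) = Q' u + Q' v + Cfsg.sympForm m F u v := fun u v => by
    rw [Cfsg.Lib.Classical.sympForm_eq_sum]
    simp only [Q', Pi.add_apply, ← Finset.sum_add_distrib]
    refine Finset.sum_congr rfl fun i _ => ?_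
    linear_combination (u (Sum.inl i) * v (Sum.inr i)) * h2
  have hQsmul : ∀ (c : F) v, Q' (c • v) = c ^ 2 * Q' v := fun c v => by
    simp only [Q', Finset.mul_sum, Pi.smul_apply, smul_eq_mul]
    exact Finset.sum_congr rfl fun i _ => by ring
  have hiso : ∀ (g : G) v, Cfsg.quadFormOdd m F (g.1.1 *ᵥ v) = Cfsg.quadFormOdd m F v := fun g v => g.2 v v
  let e0 : Unit ⊕ (Fin m ⊕ Fin m) → F := Pi.single (Sum.inl ()) 1
  have hpol : ∀ (u v : Unit ⊕ (Fin m ⊕ Fin m) → F), Cfsg.quadFormOdd m F (u + v) =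
      Cfsg.quadFormOdd m F u + Cfsg.quadFormOdd m F v + Cfsg.sympForm m F (u ∘ Sum.inr) (v ∘ Sum.inr) := fun u v => by
    have hc : (u + v) ∘ Sum.inr = u ∘ Sum.inr + v ∘ Sum.inr := rfl
    rw [hQ, hQ, hQ, hc, hQadd, Pi.add_apply]
    linear_combination (u (Sum.inl ()) * v (Sum.inl ())) * h2
  have hform : ∀ (g : G) u v, Cfsg.sympForm m F ((g.1.1 *ᵥ u) ∘ Sum.inr) ((g.1.1 *ᵥ v) ∘ Sum.inr) =
      Cfsg.sympForm m F (u ∘ Sum.inr) (v ∘ Sum.inr) := fun g u v => by
    have h := hiso g (u + v)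
    rw [Matrix.mulVec_add, hpol, hpol, hiso, hiso] at h
    exact add_left_cancel h
  have hcol : ∀ (g : G) a, g.1.1 (Sum.inr a) (Sum.inl ()) = 0 := by
    intro g a
    have hw : ((g.1.1 *ᵥ e0) ∘ Sum.inr) = 0 := by
      refine (Cfsg.Lib.Classical.sympBilin_nondegenerate F m).1 _ fun z => ?_
      let u : Unit ⊕ (Fin m ⊕ Fin m) → F := Sum.elim 0 z
      obtain ⟨u', hu'⟩ : ∃ u', g.1.1 *ᵥ u' = u := ⟨(g.1⁻¹).1 *ᵥ u, by rw [Matrix.mulVec_mulVec, Units.mul_inv, Matrix.one_mulVec]⟩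
      have hz : z = (g.1.1 *ᵥ u') ∘ Sum.inr := by rw [hu']; rfl
      rw [Cfsg.Lib.Classical.sympBilin_apply, hz, hform]
      have : e0 ∘ Sum.inr = (0 : Fin m ⊕ Fin m → F) := by ext i; simp [e0]
      rw [this, ← Cfsg.Lib.Classical.sympBilin_apply, map_zero, LinearMap.zero_apply]
    simpa [e0] using congrFun hw a
  let M : G → Matrix (Fin m ⊕ Fin m) (Fin m ⊕ Fin m) F := fun g => g.1.1.toBlocks₂₂
  have hMv : ∀ (g : G) v, (g.1.1 *ᵥ v) ∘ Sum.inr = M g *ᵥ (v ∘ Sum.inr) := fun g v => by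
    ext a
    simp [M, Matrix.mulVec, dotProduct, Fintype.sum_sum_type, hcol, Matrix.toBlocks₂₂]
  have hMmem : ∀ g, M g ∈ Matrix.symplecticGroup (Fin m) F := by
    intro g
    rw [SymplecticGroup.mem_iff']
    refine Matrix.ext fun i j => ?_
    have h := hform g (Sum.elim 0 (Pi.single i 1)) (Sum.elim 0 (Pi.single j 1))
    rw [hMv, hMv, Sum.elim_comp_inr, Sum.elim_comp_inr, Cfsg.sympForm, Cfsg.sympForm, Matrix.mulVec_mulVec,
      Matrix.dotProduct_mulVec, Matrix.vecMul_mulVec, ← Matrix.mul_assoc, ← Matrix.dotProduct_mulVec] at h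
    simpa using h
  let φ : G →* Matrix.symplecticGroup (Fin m) F :=
    { toFun := fun g => ⟨M g, hMmem g⟩
      map_one' := Subtype.ext (by simp [M, ← Matrix.fromBlocks_one])
      map_mul' := fun g h => Subtype.ext (by
        change (g.1.1 * h.1.1).toBlocks₂₂ = g.1.1.toBlocks₂₂ * h.1.1.toBlocks₂₂
        ext a b
        simp [Matrix.mul_apply, Fintype.sum_sum_type, Matrix.toBlocks₂₂, hcol]) }
  refine ⟨MulEquiv.ofBijective φ ⟨(injective_iff_map_eq_one φ).2 ?_, ?_⟩⟩
  · intro g hg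
    have hM : M g = 1 := congrArg Subtype.val hg
    refine Subtype.ext (Units.ext (Matrix.ext_iff_mulVec.2 fun v => ?_))
    have h := hiso g v
    rw [hQ, hQ, hMv, hM, Matrix.one_mulVec, add_left_inj, CharTwo.sq_inj] at h
    rw [OneMemClass.coe_one, Units.val_one, Matrix.one_mulVec]
    funext a
    rcases a with ⟨⟩ | a
    · exact h
    · have := congrFun (hMv g v) a
      rwa [hM, Matrix.one_mulVec] at this
  · rintro ⟨A, hA⟩
    have hA' : ∀ u v, Cfsg.sympForm m F (A *ᵥ u) (A *ᵥ v) = Cfsg.sympForm m F u v := fun u v => by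
      have h := SymplecticGroup.mem_iff'.1 hA
      rw [Cfsg.sympForm, Cfsg.sympForm, Matrix.mulVec_mulVec, Matrix.dotProduct_mulVec, Matrix.vecMul_mulVec,
        ← Matrix.mul_assoc, h, ← Matrix.dotProduct_mulVec]
    have hsurj : ∀ x : F, ∃ r : F, r ^ 2 = x := fun x => by
      obtain ⟨r, hr⟩ := surjective_frobenius F 2 x
      exact ⟨r, by rwa [frobenius_def] at hr⟩
    choose s hs using hsurj
    let l : (Fin m ⊕ Fin m → F) →ₗ[F] F :=
      { toFun := fun v => s (Q' v + Q' (A *ᵥ v))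
        map_add' := fun u v => CharTwo.sq_injective (by
          simp only
          rw [hs, CharTwo.add_sq, hs, hs, Matrix.mulVec_add, hQadd, hQadd, hA']
          linear_combination (Cfsg.sympForm m F u v) * h2)
        map_smul' := fun c v => CharTwo.sq_injective (by
          simp only [RingHom.id_apply, smul_eq_mul]
          rw [hs, mul_pow, hs, Matrix.mulVec_smul, hQsmul, hQsmul]
          ring) }
    let R : Matrix Unit (Fin m ⊕ Fin m) F := fun _ b => l (Pi.single b 1)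
    let N := Matrix.fromBlocks (1 : Matrix Unit Unit F) R 0 A
    have hdet : N.det ≠ 0 := by
      rw [Matrix.det_fromBlocks_zero₂₁, Matrix.det_one, one_mul]
      exact (SymplecticGroup.symplectic_det hA).ne_zero
    have hR : ∀ v, (R *ᵥ v) () = l v := fun v => by
      conv_rhs => rw [pi_eq_sum_univ' v]
      simp [R, Matrix.mulVec, dotProduct, mul_comm]
    refine ⟨⟨Matrix.GeneralLinearGroup.mkOfDetNeZero N hdet, fun v _ => ?_⟩, Subtype.ext (by
      change N.toBlocks₂₂ = A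
      simp [N])⟩
    change Cfsg.quadFormOdd m F (N *ᵥ v) = Cfsg.quadFormOdd m F v
    rw [hQ, hQ, Matrix.fromBlocks_mulVec]
    simp only [Sum.elim_inl, Sum.elim_comp_inr, Matrix.one_mulVec, Pi.add_apply, Function.comp_apply, hR,
      Matrix.zero_mulVec, zero_add]
    rw [CharTwo.add_sq, show l (v ∘ Sum.inr) = s _ from rfl, hs]
    linear_combination (Q' (A *ᵥ (v ∘ Sum.inr))) * h2

end Cfsg.Agent.S0304
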