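import Cfsg.Statements.S0305
import Mathlib
import Cfsg.Agent.Lib.Classical.DihedralIso

set_option autoImplicit false
open Cfsg
open scoped Matrix

namespace Cfsg.Agent.S0305

/-- GO^+_2(q) is dihedral of order 2(q-1). -/
theorem result {F : Type*} [Field F] [Fintype F] {q : ℕ} (hF : Fintype.card F = q) : Nonempty (Cfsg.isometryGroup F (Cfsg.quadFormPlus 1 F) ≃* DihedralGroup (q - 1)) := by
  classical
  have hq : 1 < q := hF ▸ Fintype.one_lt_card
  let I := Fin 1 ⊕ Fin 1
  have hQ : ∀ v : I → F, Cfsg.quadFormPlus 1 F v = v (.inl 0) * v (.inr 0) := fun v => by simp [Cfsg.quadFormPlus]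
  have hmul : ∀ (g : Matrix I I F) (v : I → F) (i : I), (g *ᵥ v) i = g i (.inl 0) * v (.inl 0) + g i (.inr 0) * v (.inr 0) := fun g v i => by
    simp [I, Matrix.mulVec, dotProduct, Fintype.sum_sum_type]
  have hsum : ∀ f : I → F, ∑ j, f j = f (.inl 0) + f (.inr 0) := fun f => by simp [I, Fintype.sum_sum_type]
  let D : Fˣ →* Matrix.GeneralLinearGroup I F :=
    { toFun := fun a => ⟨Matrix.diagonal (Sum.elim (fun _ => (a : F)) (fun _ => ((a⁻¹ : Fˣ) : F))), Matrix.diagonal (Sum.elim (fun _ => ((a⁻¹ : Fˣ) : F)) (fun _ => (a : F))),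
        by rw [Matrix.diagonal_mul_diagonal, ← Matrix.diagonal_one]; congr 1; ext (i | i) <;> simp,
        by rw [Matrix.diagonal_mul_diagonal, ← Matrix.diagonal_one]; congr 1; ext (i | i) <;> simp⟩
      map_one' := Units.ext (by simp [← Matrix.diagonal_one])
      map_mul' := fun a b => Units.ext (by simp [Matrix.diagonal_mul_diagonal]; rintro (i | i) <;> simp [mul_comm]) }
  have hD : ∀ a, D a ∈ Cfsg.isometryGroup F (Cfsg.quadFormPlus 1 F) := fun a u v => by
    show Cfsg.quadFormPlus 1 F ((D a : Matrix I I F) *ᵥ u) = Cfsg.quadFormPlus 1 F u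
    rw [hQ, hQ, show (D a : Matrix I I F) = Matrix.diagonal _ from rfl, Matrix.mulVec_diagonal, Matrix.mulVec_diagonal]
    simp only [Sum.elim_inl, Sum.elim_inr]
    linear_combination u (.inl 0) * u (.inr 0) * a.mul_inv
  let D' := D.codRestrict _ hD
  let sm : Matrix I I F := Matrix.of fun i j => if i = j then 0 else 1
  have hsm : sm * sm = 1 := by
    ext (i | i) (j | j) <;> fin_cases i <;> fin_cases j <;> simp [sm, Matrix.mul_apply, hsum]
  let S : Cfsg.isometryGroup F (Cfsg.quadFormPlus 1 F) := ⟨⟨sm, sm, hsm, hsm⟩, fun u v => by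
    show Cfsg.quadFormPlus 1 F (sm *ᵥ u) = Cfsg.quadFormPlus 1 F u
    rw [hQ, hQ, hmul, hmul]; simp [sm, mul_comm]⟩
  have hmem : ∀ g : Cfsg.isometryGroup F (Cfsg.quadFormPlus 1 F), ((g.1 : Matrix I I F) (.inr 0) (.inl 0) = 0 ∧ (g.1 : Matrix I I F) (.inl 0) (.inr 0) = 0) → g ∈ D'.range := by
    rintro g ⟨hc, hb⟩
    have hg : ∀ u, Cfsg.quadFormPlus 1 F ((g.1 : Matrix I I F) *ᵥ u) = Cfsg.quadFormPlus 1 F u := fun u => g.2 u u
    have h1 := hg (fun _ => 1)
    rw [hQ, hQ, hmul, hmul, hc, hb] at h1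
    simp at h1
    have ha : (g.1 : Matrix I I F) (.inl 0) (.inl 0) ≠ 0 := left_ne_zero_of_mul_eq_one h1
    refine ⟨Units.mk0 _ ha, Subtype.ext (Units.ext ?_)⟩
    show Matrix.diagonal _ = (g.1 : Matrix I I F)
    ext (i | i) (j | j) <;> fin_cases i <;> fin_cases j <;> simp [hc, hb]
    exact inv_eq_of_mul_eq_one_right h1
  have hgen : ∀ g, g ∈ D'.range ∨ S * g ∈ D'.range := by
    intro g
    have hg : ∀ u, Cfsg.quadFormPlus 1 F ((g.1 : Matrix I I F) *ᵥ u) = Cfsg.quadFormPlus 1 F u := fun u => g.2 u u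
    have h1 := hg (fun _ => 1)
    have h2 := hg (Sum.elim (fun _ => 1) (fun _ => 0))
    have h3 := hg (Sum.elim (fun _ => 0) (fun _ => 1))
    rw [hQ, hQ, hmul, hmul] at h1 h2 h3
    simp at h1 h2 h3
    rcases h2 with ha | hc
    · refine Or.inr (hmem _ ?_)
      have hb : (g.1 : Matrix I I F) (.inl 0) (.inr 0) ≠ 0 := fun hb => by simp [ha, hb] at h1
      have hd := h3.resolve_left hb
      constructor
      · show (sm * (g.1 : Matrix I I F)) _ _ = 0
        simp [sm, Matrix.mul_apply, hsum, ha]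
      · show (sm * (g.1 : Matrix I I F)) _ _ = 0
        simp [sm, Matrix.mul_apply, hsum, hd]
    · refine Or.inl (hmem g ⟨hc, ?_⟩)
      rcases h3 with h | h
      · exact h
      · simp [hc, h] at h1
  have hinj : Function.Injective D' := fun a b h => Units.ext (by
    have := congrArg (fun g : Cfsg.isometryGroup F (Cfsg.quadFormPlus 1 F) => (g.1 : Matrix I I F) (.inl 0) (.inl 0)) h
    simpa [D', D] using this)
  haveI : IsCyclic D'.range := isCyclic_of_surjective D'.rangeRestrict D'.rangeRestrict_surjective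
  refine Cfsg.Lib.Classical.nonempty_mulEquiv_dihedral D'.range ?_ (by omega) S (Subtype.ext (Units.ext hsm)) ?_ ?_ hgen
  · rw [← Nat.card_congr (MonoidHom.ofInjective hinj).toEquiv, Nat.card_units, Nat.card_eq_fintype_card, hF]
  · rintro ⟨a, ha⟩
    have := congrArg (fun g : Cfsg.isometryGroup F (Cfsg.quadFormPlus 1 F) => (g.1 : Matrix I I F) (.inl 0) (.inr 0)) ha
    simp [D', D, S, sm] at this
  · rintro _ ⟨a, rfl⟩
    refine Subtype.ext (Units.ext ?_)
    show sm * Matrix.diagonal _ * sm = Matrix.diagonal _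
    ext (i | i) (j | j) <;> fin_cases i <;> fin_cases j <;> simp [sm, Matrix.mul_apply, hsum, Matrix.diagonal_apply]

end Cfsg.Agent.S0305
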