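import Cfsg.Statements.S0306
import Mathlib
import Cfsg.Agent.Lib.Classical.DihedralIso

set_option autoImplicit false
open Cfsg
open scoped Matrix

namespace Cfsg.Agent.S0306

/-- GO^-_2(q) is dihedral of order 2(q+1). -/
theorem result {F : Type*} [Field F] [Fintype F] {q : ℕ} (hF : Fintype.card F = q) (a b : F) (hab : ∀ z₁ z₂ : F, z₁ ^ 2 + a * z₁ * z₂ + b * z₂ ^ 2 = 0 → z₁ = 0 ∧ z₂ = 0) : Nonempty (Cfsg.isometryGroup F (Cfsg.quadFormMinus 0 F a b) ≃* DihedralGroup (q + 1)) := by
  open QuadraticAlgebra in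
  classical
  let I := (Fin 0 ⊕ Fin 0) ⊕ Fin 2
  haveI : Fact (∀ r : F, r ^ 2 ≠ -b + a * r) := ⟨fun r hr => one_ne_zero (α := F) (hab (-r) 1 (by linear_combination hr)).2⟩
  haveI : Finite (QuadraticAlgebra F (-b) a) := Finite.of_equiv _ (QuadraticAlgebra.equivProd (-b) a).symm
  let e : Fin 2 ≃ I := (Equiv.emptySum _ _).symm
  let L : Matrix (Fin 2) (Fin 2) F ≃ₐ[F] Matrix I I F := Matrix.reindexAlgEquiv F F e
  have hL : ∀ (A : Matrix (Fin 2) (Fin 2) F) (i j : Fin 2), L A (.inr i) (.inr j) = A i j := fun A i j => rfl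
  have hsum : ∀ f : I → F, ∑ j, f j = f (.inr 0) + f (.inr 1) := fun f => by simp [I, Fintype.sum_sum_type, Fin.sum_univ_two]
  have hv : ∀ (M : Matrix I I F) (v : I → F) (i : I), (M *ᵥ v) i = M i (.inr 0) * v (.inr 0) + M i (.inr 1) * v (.inr 1) := fun M v i => by simp only [Matrix.mulVec, dotProduct]; exact hsum _
  have hext : ∀ M N : Matrix I I F, (∀ i j : Fin 2, M (.inr i) (.inr j) = N (.inr i) (.inr j)) → M = N := fun M N h => by
    ext i j
    obtain ⟨i', rfl⟩ := e.surjective i
    obtain ⟨j', rfl⟩ := e.surjective j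
    exact h i' j'
  have hQ : ∀ v : I → F, Cfsg.quadFormMinus 0 F a b v = v (.inr 0) ^ 2 + a * v (.inr 0) * v (.inr 1) + b * v (.inr 1) ^ 2 := fun v => by simp [Cfsg.quadFormMinus]
  have hiso : ∀ g : GL I F, g ∈ Cfsg.isometryGroup F (Cfsg.quadFormMinus 0 F a b) ↔ ∀ x y : F,
      ((g : Matrix I I F) (.inr 0) (.inr 0) * x + (g : Matrix I I F) (.inr 0) (.inr 1) * y) ^ 2
      + a * ((g : Matrix I I F) (.inr 0) (.inr 0) * x + (g : Matrix I I F) (.inr 0) (.inr 1) * y) * ((g : Matrix I I F) (.inr 1) (.inr 0) * x + (g : Matrix I I F) (.inr 1) (.inr 1) * y)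
      + b * ((g : Matrix I I F) (.inr 1) (.inr 0) * x + (g : Matrix I I F) (.inr 1) (.inr 1) * y) ^ 2 = x ^ 2 + a * x * y + b * y ^ 2 := by
    intro g
    constructor
    · intro h x y
      have := h (Sum.elim (fun _ => 0) ![x, y]) 0
      change Cfsg.quadFormMinus 0 F a b ((g : Matrix I I F) *ᵥ _) = Cfsg.quadFormMinus 0 F a b _ at this
      rw [hQ, hQ, hv, hv] at this
      simpa using this
    · intro h u v
      show Cfsg.quadFormMinus 0 F a b ((g : Matrix I I F) *ᵥ u) = Cfsg.quadFormMinus 0 F a b u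
      rw [hQ, hQ, hv, hv]
      exact h _ _
  -- rotations
  let R : QuadraticAlgebra F (-b) a →* Matrix I I F :=
    { toFun := fun z => L !![z.re, -b * z.im; z.im, z.re + a * z.im]
      map_one' := by rw [← map_one L]; congr 1; simp [Matrix.one_fin_two]
      map_mul' := fun z w => by
        rw [← map_mul]; congr 1
        ext i j
        fin_cases i <;> fin_cases j <;> simp [Matrix.mul_apply, Fin.sum_univ_two] <;> ring }
  have hR : ∀ z : QuadraticAlgebra F (-b) a, R z (.inr 0) (.inr 0) = z.re ∧ R z (.inr 0) (.inr 1) = -b * z.im ∧ R z (.inr 1) (.inr 0) = z.im ∧ R z (.inr 1) (.inr 1) = z.re + a * z.im :=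
    fun z => ⟨by simp [R, hL], by simp [R, hL], by simp [R, hL], by simp [R, hL]⟩
  let RU := Units.map R
  let Φ₀ : (QuadraticAlgebra F (-b) a)ˣ →* GL I F := MonoidHom.mk' (fun z => RU (z * (Units.map (starRingEnd (QuadraticAlgebra F (-b) a)).toMonoidHom z)⁻¹)) (fun z w => by
    simp only [map_mul, mul_inv]
    rw [← map_mul RU, ← map_mul RU, ← map_mul RU, ← map_mul RU, ← map_mul RU, ← map_mul RU]
    congr 1
    ac_rfl)
  have hnorm : ∀ z : (QuadraticAlgebra F (-b) a)ˣ, QuadraticAlgebra.norm ((z * (Units.map (starRingEnd (QuadraticAlgebra F (-b) a)).toMonoidHom z)⁻¹ : (QuadraticAlgebra F (-b) a)ˣ) : QuadraticAlgebra F (-b) a) = 1 := by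
    intro z
    have : Units.map (QuadraticAlgebra.norm (R := F) (a := -b) (b := a)) (z * (Units.map (starRingEnd (QuadraticAlgebra F (-b) a)).toMonoidHom z)⁻¹) = 1 := by
      rw [map_mul, map_inv, mul_inv_eq_one]
      exact Units.ext (QuadraticAlgebra.norm_star _).symm
    exact congrArg Units.val this
  have hΦ : ∀ z, Φ₀ z ∈ Cfsg.isometryGroup F (Cfsg.quadFormMinus 0 F a b) := fun z => by
    rw [hiso]
    intro x y
    set c := ((z * (Units.map (starRingEnd (QuadraticAlgebra F (-b) a)).toMonoidHom z)⁻¹ : (QuadraticAlgebra F (-b) a)ˣ) : QuadraticAlgebra F (-b) a) with hc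
    have hn : QuadraticAlgebra.norm c = 1 := hnorm z
    rw [QuadraticAlgebra.norm_def] at hn
    obtain ⟨h1, h2, h3, h4⟩ := hR c
    show (R c (.inr 0) (.inr 0) * x + R c (.inr 0) (.inr 1) * y) ^ 2 + a * (R c (.inr 0) (.inr 0) * x + R c (.inr 0) (.inr 1) * y) * (R c (.inr 1) (.inr 0) * x + R c (.inr 1) (.inr 1) * y) + b * (R c (.inr 1) (.inr 0) * x + R c (.inr 1) (.inr 1) * y) ^ 2 = _
    rw [h1, h2, h3, h4]
    linear_combination (x ^ 2 + a * x * y + b * y ^ 2) * hn
  let Φ := Φ₀.codRestrict _ hΦ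
  have hne : ∀ y : F, a * y = 0 → 2 * y = 0 → y = 0 := by
    intro y h1 h2
    by_contra hy
    have ha : a = 0 := (mul_eq_zero.1 h1).resolve_right hy
    have h2' : (2 : F) = 0 := (mul_eq_zero.1 h2).resolve_right hy
    obtain ⟨r, hr⟩ := FiniteField.isSquare_of_char_two (CharP.ringChar_of_prime_eq_zero Nat.prime_two (by exact_mod_cast h2')) b
    exact one_ne_zero (α := F) (hab r 1 (by rw [ha, hr]; linear_combination (r ^ 2) * h2')).2
  have hker : ∀ z : (QuadraticAlgebra F (-b) a)ˣ, Φ z = 1 ↔ (z : QuadraticAlgebra F (-b) a).im = 0 := by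
    intro z
    have hRinj : ∀ c d : (QuadraticAlgebra F (-b) a)ˣ, RU c = RU d → c = d := fun c d h => by
      have h' := congrArg (fun g : GL I F => (g : Matrix I I F)) h
      refine Units.ext (QuadraticAlgebra.ext ?_ ?_)
      · have := congrFun (congrFun h' (.inr 0)) (.inr 0); simpa [RU, (hR _).1] using this
      · have := congrFun (congrFun h' (.inr 1)) (.inr 0); simpa [RU, (hR _).2.2.1] using this
    constructor
    · intro h
      have h' : z * (Units.map (starRingEnd (QuadraticAlgebra F (-b) a)).toMonoidHom z)⁻¹ = 1 := hRinj _ _ (by rw [map_one]; exact congrArg Subtype.val h)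
      rw [mul_inv_eq_one] at h'
      have h'' : (z : QuadraticAlgebra F (-b) a) = star (z : QuadraticAlgebra F (-b) a) := congrArg Units.val h'
      have h1 := congrArg QuadraticAlgebra.re h''
      have h2 := congrArg QuadraticAlgebra.im h''
      simp at h1 h2
      exact hne _ (mul_eq_zero.2 h1) (by linear_combination h2)
    · intro h
      have : Units.map (starRingEnd (QuadraticAlgebra F (-b) a)).toMonoidHom z = z := Units.ext (QuadraticAlgebra.ext
        (by show (star (z : QuadraticAlgebra F (-b) a)).re = _; simp [h]) (by show (star (z : QuadraticAlgebra F (-b) a)).im = _; simp [h]))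
      refine Subtype.ext ?_
      show RU _ = 1
      rw [this, mul_inv_cancel, map_one]
  have hkc : Nat.card Φ.ker = q - 1 := by
    rw [← hF, ← Nat.card_eq_fintype_card, ← Nat.card_units]
    refine (Nat.card_congr (Equiv.ofBijective (fun u : Fˣ => (⟨Units.map (algebraMap F (QuadraticAlgebra F (-b) a)).toMonoidHom u, (hker _).2 (by simp)⟩ : Φ.ker)) ⟨fun u v h => ?_, fun z => ?_⟩)).symm
    · refine Units.ext ?_
      have := congrArg (fun z : Φ.ker => ((z : (QuadraticAlgebra F (-b) a)ˣ) : QuadraticAlgebra F (-b) a).re) h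
      simpa using this
    · have hz := (hker z.1).1 z.2
      refine ⟨Units.mk0 ((z.1 : QuadraticAlgebra F (-b) a).re) (fun h0 => z.1.ne_zero (QuadraticAlgebra.ext h0 hz)), Subtype.ext (Units.ext (QuadraticAlgebra.ext ?_ ?_))⟩
      · simp
      · simp [hz]
  have hEc : Nat.card (QuadraticAlgebra F (-b) a)ˣ = q * q - 1 := by
    rw [Nat.card_units, Nat.card_congr (QuadraticAlgebra.equivProd (-b) a), Nat.card_prod, Nat.card_eq_fintype_card, hF]
  have hrc : Nat.card Φ.range = q + 1 := by
    have h := Φ.ker.card_mul_index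
    rw [hkc, hEc, Subgroup.index_ker, show q * q - 1 = (q - 1) * (q + 1) by rw [← Nat.sq_sub_sq q 1 |>.trans (mul_comm _ _)]; simp [sq]] at h
    exact Nat.eq_of_mul_eq_mul_left (by have := Fintype.one_lt_card (α := F); omega) h
  let Sm : Matrix I I F := L !![1, a; 0, -1]
  have hSm : Sm * Sm = 1 := by
    rw [← map_mul, ← map_one L]; congr 1; simp [Matrix.mul_fin_two, Matrix.one_fin_two]
  have hS : (⟨Sm, Sm, hSm, hSm⟩ : GL I F) ∈ Cfsg.isometryGroup F (Cfsg.quadFormMinus 0 F a b) := by
    rw [hiso]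
    intro x y
    simp [Sm, hL]
    ring
  haveI : IsCyclic Φ.range := isCyclic_of_surjective Φ.rangeRestrict Φ.rangeRestrict_surjective
  refine Cfsg.Lib.Classical.nonempty_mulEquiv_dihedral Φ.range hrc (by omega) ⟨_, hS⟩ (Subtype.ext (Units.ext hSm)) ?_ ?_ ?_
  · rintro ⟨z, hz⟩
    have h' : RU (z * (Units.map (starRingEnd (QuadraticAlgebra F (-b) a)).toMonoidHom z)⁻¹) = ⟨Sm, Sm, hSm, hSm⟩ := congrArg Subtype.val hz
    set c := z * (Units.map (starRingEnd (QuadraticAlgebra F (-b) a)).toMonoidHom z)⁻¹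
    have h'' : R (c : QuadraticAlgebra F (-b) a) = Sm := congrArg Units.val h'
    obtain ⟨h1, h2, h3, h4⟩ := hR (c : QuadraticAlgebra F (-b) a)
    rw [h''] at h1 h2 h3 h4
    simp [Sm, hL] at h1 h2 h3 h4
    rw [← h3, ← h1] at h4
    rw [← h3] at h2
    exact one_ne_zero (hne 1 (by linear_combination h2) (by linear_combination -h4))
  · rintro _ ⟨z, rfl⟩
    rw [← map_inv]
    refine Subtype.ext (Units.ext ?_)
    show Sm * R ((z * (Units.map (starRingEnd (QuadraticAlgebra F (-b) a)).toMonoidHom z)⁻¹ : (QuadraticAlgebra F (-b) a)ˣ) : QuadraticAlgebra F (-b) a) * Sm = R _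
    set c := z * (Units.map (starRingEnd (QuadraticAlgebra F (-b) a)).toMonoidHom z)⁻¹ with hc
    have e1 : z⁻¹ * (Units.map (starRingEnd (QuadraticAlgebra F (-b) a)).toMonoidHom z⁻¹)⁻¹ = Units.map (starRingEnd (QuadraticAlgebra F (-b) a)).toMonoidHom c := by
      rw [hc, map_mul, map_inv, map_inv, inv_inv, mul_comm]
      congr 1
      exact Units.ext (star_star _).symm
    rw [e1]
    show Sm * R (c : QuadraticAlgebra F (-b) a) * Sm = R (star (c : QuadraticAlgebra F (-b) a))
    show L _ * L _ * L _ = L _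
    rw [← map_mul, ← map_mul]
    congr 1
    simp [Matrix.mul_fin_two]
    refine ⟨?_, ?_⟩ <;> ring
  · intro g
    obtain ⟨g, hg⟩ := g
    have hg' := (hiso g).1 hg
    set p := (g : Matrix I I F) (.inr 0) (.inr 0) with hp
    set r := (g : Matrix I I F) (.inr 1) (.inr 0) with hr
    have h10 := hg' 1 0
    simp only [mul_one, mul_zero, add_zero, one_pow, zero_pow two_ne_zero] at h10
    let c : QuadraticAlgebra F (-b) a := ⟨p, r⟩
    have hcn : c * star c = 1 := by
      ext
      · simp [c]; linear_combination h10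
      · simp [c]; ring
    -- Hilbert 90
    obtain ⟨z, hz⟩ : ∃ z, z ∈ (Set.univ : Set (QuadraticAlgebra F (-b) a)ˣ) ∧ ((z * (Units.map (starRingEnd (QuadraticAlgebra F (-b) a)).toMonoidHom z)⁻¹ : (QuadraticAlgebra F (-b) a)ˣ) : QuadraticAlgebra F (-b) a) = c := by
      have key : ∀ w : QuadraticAlgebra F (-b) a, w ≠ 0 → w = c * star w →
          ∃ z, z ∈ (Set.univ : Set (QuadraticAlgebra F (-b) a)ˣ) ∧ ((z * (Units.map (starRingEnd (QuadraticAlgebra F (-b) a)).toMonoidHom z)⁻¹ : (QuadraticAlgebra F (-b) a)ˣ) : QuadraticAlgebra F (-b) a) = c := by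
        intro w hw h
        refine ⟨Units.mk0 w hw, trivial, ?_⟩
        rw [Units.val_mul, Units.val_inv_eq_inv_val]
        show w * (star w)⁻¹ = c
        rw [← div_eq_mul_inv, div_eq_iff (star_ne_zero.2 hw)]
        exact h
      by_cases h1 : 1 + c = 0
      · refine key ⟨-a, 2⟩ (fun h0 => ?_) ?_
        · have e1 := congrArg QuadraticAlgebra.re h0
          have e2 := congrArg QuadraticAlgebra.im h0
          simp at e1 e2
          exact one_ne_zero (hne 1 (by linear_combination e1) (by linear_combination e2))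
        · rw [eq_neg_of_add_eq_zero_right h1]
          ext <;> simp <;> ring
      · refine key (1 + c) h1 ?_
        rw [star_add, star_one, mul_add, mul_one, hcn, add_comm]
    set cu := z * (Units.map (starRingEnd (QuadraticAlgebra F (-b) a)).toMonoidHom z)⁻¹ with hcu
    have hk : (RU cu)⁻¹ * g ∈ Cfsg.isometryGroup F (Cfsg.quadFormMinus 0 F a b) :=
      Subgroup.mul_mem _ (Subgroup.inv_mem _ (hΦ z)) hg
    have hcol0 : ∀ i : Fin 2, (((RU cu)⁻¹ * g : GL I F) : Matrix I I F) (.inr i) (.inr 0) = if i = 0 then 1 else 0 := by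
      intro i
      have h1 : ∀ j : Fin 2, (g : Matrix I I F) (.inr j) (.inr 0) = ((RU cu : GL I F) : Matrix I I F) (.inr j) (.inr 0) := by
        intro j
        show _ = R (cu : QuadraticAlgebra F (-b) a) (.inr j) (.inr 0)
        rw [hz.2]
        fin_cases j
        · exact ((hR c).1).symm
        · exact ((hR c).2.2.1).symm
      rw [Units.val_mul, Matrix.mul_apply, hsum, h1 0, h1 1, ← hsum (fun j => (((RU cu)⁻¹ : GL I F) : Matrix I I F) (.inr i) j * ((RU cu : GL I F) : Matrix I I F) j (.inr 0)), ← Matrix.mul_apply, Units.inv_mul]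
      simp [Matrix.one_apply]
    set k := (RU cu)⁻¹ * g with hkd
    have hk' := (hiso k).1 hk
    have k00 : (k : Matrix I I F) (.inr 0) (.inr 0) = 1 := by simpa using hcol0 0
    have k10 : (k : Matrix I I F) (.inr 1) (.inr 0) = 0 := by simpa using hcol0 1
    set u := (k : Matrix I I F) (.inr 0) (.inr 1) with hu
    set v := (k : Matrix I I F) (.inr 1) (.inr 1) with hv'
    have h01 := hk' 0 1
    have h11 := hk' 1 1
    rw [k00, k10] at h01 h11
    simp at h01 h11
    have hlin : 2 * u + a * v = a := by linear_combination h11 - h01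
    have hvv : (v - 1) * (v + 1) = 0 := by
      have : (4 * b - a ^ 2) * ((v - 1) * (v + 1)) = 0 := by linear_combination 4 * h01 - (2 * u + a * v + a) * hlin
      refine (mul_eq_zero.1 this).resolve_left fun hd => ?_
      by_cases h2 : (2 : F) = 0
      · have : a = 0 := by
          have : a ^ 2 = 0 := by linear_combination -hd + 2 * b * h2
          simpa using this
        exact one_ne_zero (hne 1 (by rw [this, zero_mul]) (by rw [h2, zero_mul]))
      · exact h2 (hab (-a) 2 (by linear_combination hd)).2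
    have hcase : (u = 0 ∧ v = 1) ∨ (u = a ∧ v = -1) := by
      rcases mul_eq_zero.1 hvv with h | h
      · have hv1 : v = 1 := sub_eq_zero.1 h
        have h2u : 2 * u = 0 := by rw [hv1] at hlin; linear_combination hlin
        have huu : u * (u + a) = 0 := by rw [hv1] at h01; linear_combination h01
        rcases mul_eq_zero.1 huu with h' | h'
        · exact Or.inl ⟨h', hv1⟩
        · have hua : u = -a := eq_neg_of_add_eq_zero_left h'
          by_cases ha : a = 0
          · exact Or.inl ⟨by rw [hua, ha, neg_zero], hv1⟩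
          · have h2 : (2 : F) = 0 := (mul_eq_zero.1 h2u).resolve_right (by rw [hua]; simpa using ha)
            exact Or.inr ⟨by linear_combination hua - a * h2, by linear_combination hv1 + h2⟩
      · have hv1 : v = -1 := eq_neg_of_add_eq_zero_left h
        have h2u : 2 * (u - a) = 0 := by rw [hv1] at hlin; linear_combination hlin
        have huu : u * (u - a) = 0 := by rw [hv1] at h01; linear_combination h01
        rcases mul_eq_zero.1 huu with h' | h'
        · by_cases ha : a = 0
          · exact Or.inr ⟨by rw [h', ha], hv1⟩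
          · have h2 : (2 : F) = 0 := (mul_eq_zero.1 h2u).resolve_right (by rw [h', zero_sub]; simpa using ha)
            exact Or.inl ⟨h', by linear_combination hv1 - h2⟩
        · exact Or.inr ⟨sub_eq_zero.1 h', hv1⟩
    have hmemR : (⟨RU cu, hΦ z⟩ : Cfsg.isometryGroup F (Cfsg.quadFormMinus 0 F a b)) ∈ Φ.range := ⟨z, rfl⟩
    rcases hcase with ⟨hu0, hv0⟩ | ⟨hu0, hv0⟩
    · left
      have hk1 : k = 1 := Units.ext (hext _ _ fun i j => by
        fin_cases i <;> fin_cases j <;> simp [Matrix.one_apply, k00, k10, ← hu, ← hv', hu0, hv0])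
      rw [hkd, inv_mul_eq_one] at hk1
      convert hmemR using 1
      exact Subtype.ext hk1.symm
    · right
      have hk1 : k = ⟨Sm, Sm, hSm, hSm⟩ := Units.ext (hext _ _ fun i j => by
        fin_cases i <;> fin_cases j <;> simp [Sm, hL, k00, k10, ← hu, ← hv', hu0, hv0])
      have hSS : (⟨Sm, Sm, hSm, hSm⟩ : GL I F) * (⟨Sm, Sm, hSm, hSm⟩ : GL I F) = 1 := Units.ext hSm
      rw [hkd, inv_mul_eq_iff_eq_mul] at hk1
      -- S * g = S * R(c) * S
      refine ⟨z⁻¹, Subtype.ext (Units.ext ?_)⟩
      show R _ = Sm * (g : Matrix I I F)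
      rw [hk1]
      show R _ = Sm * (R (cu : QuadraticAlgebra F (-b) a) * Sm)
      have e1 : z⁻¹ * (Units.map (starRingEnd (QuadraticAlgebra F (-b) a)).toMonoidHom z⁻¹)⁻¹ = Units.map (starRingEnd (QuadraticAlgebra F (-b) a)).toMonoidHom cu := by
        rw [hcu, map_mul, map_inv, map_inv, inv_inv, mul_comm]
        congr 1
        exact Units.ext (star_star _).symm
      rw [e1]
      show R (star (cu : QuadraticAlgebra F (-b) a)) = _
      show L _ = L _ * (L _ * L _)
      rw [← map_mul, ← map_mul]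
      congr 1
      simp [Matrix.mul_fin_two]
      refine ⟨?_, ?_⟩ <;> ring

end Cfsg.Agent.S0306
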