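import Cfsg.Statements.S0307
import Mathlib
import Cfsg.Agent.Lib.Classical.LinearOrders

set_option autoImplicit false
open Cfsg

namespace Cfsg.Agent.S0307

/-- PSL_n(q) is normal in PGL_n(q) with cyclic quotient of order gcd(n, q-1): the image of the natural map PSL_n → PGL_n is the kernel of a surjective homomorphism onto the cyclic group of that order. -/
theorem result {F : Type*} [Field F] [Fintype F] {q : ℕ} (hF : Fintype.card F = q) (n : ℕ) (hn : 1 ≤ n) : ∃ g : Matrix.ProjGenLinGroup (Fin n) F →* Multiplicative (ZMod (Nat.gcd n (q - 1))), Function.Surjective g ∧ g.ker = (Matrix.ProjectiveSpecialLinearGroup.toPGL : Matrix.ProjectiveSpecialLinearGroup (Fin n) F →* Matrix.ProjGenLinGroup (Fin n) F).range := by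
  subst hF
  classical
  let D := Fˣ ⧸ (powMonoidHom n : Fˣ →* Fˣ).range
  have hcyc : IsCyclic D := isCyclic_of_surjective _ (QuotientGroup.mk'_surjective _)
  have hcard : Nat.card D = Nat.gcd n (Fintype.card F - 1) := by
    change (powMonoidHom n : Fˣ →* Fˣ).range.index = _
    rw [IsCyclic.index_powMonoidHom_range, Cfsg.Lib.Classical.LinearOrders.card_units_eq, Nat.gcd_comm]
  let e : D ≃* Multiplicative (ZMod (Nat.gcd n (Fintype.card F - 1))) :=
    (hcard ▸ zmodCyclicMulEquiv hcyc : Multiplicative (ZMod (Nat.gcd n (Fintype.card F - 1))) ≃* D).symm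
  let f : GL (Fin n) F →* Multiplicative (ZMod (Nat.gcd n (Fintype.card F - 1))) :=
    e.toMonoidHom.comp ((QuotientGroup.mk' _).comp Matrix.GeneralLinearGroup.det)
  have hf : f.comp (Matrix.GeneralLinearGroup.scalar (Fin n)) = 1 := by
    refine MonoidHom.ext fun u => ?_
    have h1 : Matrix.GeneralLinearGroup.det (Matrix.GeneralLinearGroup.scalar (Fin n) u) ∈
        (powMonoidHom n : Fˣ →* Fˣ).range := ⟨u, Units.ext (by simp)⟩
    change e (QuotientGroup.mk (Matrix.GeneralLinearGroup.det (Matrix.GeneralLinearGroup.scalar (Fin n) u))) = 1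
    rw [(QuotientGroup.eq_one_iff _).2 h1, map_one]
  refine ⟨Matrix.ProjGenLinGroup.lift f hf, ?_, ?_⟩
  · intro y
    obtain ⟨d, hd⟩ := QuotientGroup.mk'_surjective (powMonoidHom n : Fˣ →* Fˣ).range (e.symm y)
    obtain ⟨g, rfl⟩ := Cfsg.Lib.Classical.LinearOrders.det_surjective hn d
    exact ⟨Matrix.ProjGenLinGroup.mk g, by rw [Matrix.ProjGenLinGroup.lift_mk]; change e _ = y; exact (congrArg e hd).trans (e.apply_symm_apply y)⟩
  · ext x
    obtain ⟨g, rfl⟩ := Matrix.ProjGenLinGroup.mk_surjective x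
    rw [MonoidHom.mem_ker, Matrix.ProjGenLinGroup.lift_mk]
    constructor
    · intro h
      simp only [f, MonoidHom.comp_apply, MulEquiv.coe_toMonoidHom, MulEquiv.map_eq_one_iff] at h
      obtain ⟨u, hu⟩ := (QuotientGroup.eq_one_iff _).1 h
      have hu' : (u : F) ^ n = (g : Matrix (Fin n) (Fin n) F).det := congrArg Units.val hu
      let A : Matrix.SpecialLinearGroup (Fin n) F := ⟨((u⁻¹ : Fˣ) : F) • (g : Matrix (Fin n) (Fin n) F), by
        rw [Matrix.det_smul, Fintype.card_fin, ← hu', ← mul_pow, Units.inv_mul, one_pow]⟩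
      refine ⟨QuotientGroup.mk A, ?_⟩
      rw [Matrix.ProjectiveSpecialLinearGroup.toPGL_mk]
      have : Matrix.SpecialLinearGroup.toGL A = Matrix.GeneralLinearGroup.scalar (Fin n) u⁻¹ * g := by
        refine Units.ext ?_
        change ((u⁻¹ : Fˣ) : F) • (g : Matrix (Fin n) (Fin n) F) = Matrix.scalar (Fin n) ((u⁻¹ : Fˣ) : F) * (g : Matrix (Fin n) (Fin n) F)
        rw [Matrix.smul_eq_diagonal_mul]; rfl
      rw [this, map_mul, Matrix.ProjGenLinGroup.mk_scalar, one_mul]
    · rintro ⟨a, ha⟩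
      obtain ⟨A, rfl⟩ := QuotientGroup.mk_surjective a
      rw [Matrix.ProjectiveSpecialLinearGroup.toPGL_mk] at ha
      rw [← Matrix.ProjGenLinGroup.lift_mk hf g, ← ha, Matrix.ProjGenLinGroup.lift_mk]
      have : Matrix.GeneralLinearGroup.det (Matrix.SpecialLinearGroup.toGL A) = 1 := Units.ext (by simp)
      simp [f, this]

end Cfsg.Agent.S0307
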