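import Cfsg.Statements.S0313
import Mathlib
import Cfsg.Agent.Lib.LieBN.Basic

set_option autoImplicit false
open Cfsg Cfsg.Lib.LieBN

namespace Cfsg.Agent.S0313

/-- Two standard parabolic subgroups of a group with a (B,N)-pair which are conjugate in `G` coincide. -/
theorem result {G : Type*} [Group G] (P : Cfsg.BNPair G) {J K : Set G}
    (hJ : J ⊆ P.S) (hK : K ⊆ P.S) (g : G)
    (h : (P.parabolic J).map (MulAut.conj g).toMonoidHom = P.parabolic K) :
    P.parabolic J = P.parabolic K := by
  have hg : g ∈ P.parabolic K := mem_parabolic_of_conj_le (J := J) h.le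
  have e : ∀ y, y ∈ P.parabolic J ↔ g * y * g⁻¹ ∈ P.parabolic K := by
    intro y
    rw [← h]
    constructor
    · intro hy; exact ⟨y, hy, rfl⟩
    · rintro ⟨z, hz, hzy⟩
      have : z = y := (MulAut.conj g).injective hzy
      exact this ▸ hz
  ext y
  rw [e]
  constructor
  · intro hy
    have := mul_mem (mul_mem (inv_mem hg) hy) hg
    simpa [mul_assoc] using this
  · intro hy
    exact mul_mem (mul_mem hg hy) (inv_mem hg)

end Cfsg.Agent.S0313
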