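import Cfsg.Statements.S0316
import Mathlib
import Cfsg.Agent.Lib.LieBN.Basic

set_option autoImplicit false
open Cfsg Cfsg.Lib.LieBN

namespace Cfsg.Agent.S0316

/-- The map `J ↦ P_J` is a lattice isomorphism from the power set of the set of distinguished generators onto the
subgroups containing `B`. -/
theorem result {G : Type*} [Group G] (P : Cfsg.BNPair G) :
    ∃ e : Set P.S ≃o {M : Subgroup G // P.B ≤ M},
      ∀ J : Set P.S, ((e J : {M : Subgroup G // P.B ≤ M}) : Subgroup G) = P.parabolic (Subtype.val '' J) := by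
  have hsub : ∀ J : Set P.S, Subtype.val '' J ⊆ P.S := by rintro J _ ⟨x, -, rfl⟩; exact x.2
  refine ⟨{ toFun := fun J => ⟨P.parabolic (Subtype.val '' J), le_sup_left⟩
            invFun := fun M => {s | (s : G) ∈ M.1}
            left_inv := fun J => ?_
            right_inv := fun M => ?_
            map_rel_iff' := fun {J K} => ?_ }, fun J => rfl⟩
  · ext s
    change (s : G) ∈ P.parabolic _ ↔ _
    rw [mem_of_mem_parabolic (hsub J) s.2]
    exact Subtype.val_injective.mem_set_image
  · refine Subtype.ext ?_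
    change P.parabolic _ = M.1
    rw [eq_parabolic_of_le M.2]
    congr 1
    ext s
    constructor
    · rintro ⟨⟨s, hs⟩, h, rfl⟩
      exact ⟨hs, by rw [eq_parabolic_of_le M.2]; exact (mem_of_mem_parabolic (fun _ h => h.1) hs).2 ⟨hs, h⟩⟩
    · rintro ⟨hs, h⟩
      exact ⟨⟨s, hs⟩, h, rfl⟩
  · change P.parabolic _ ≤ P.parabolic _ ↔ _
    rw [parabolic_le_iff (hsub J) (hsub K)]
    exact Set.image_subset_image_iff Subtype.val_injective

end Cfsg.Agent.S0316
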