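import Cfsg.Statements.S0321
import Mathlib
import Cfsg.Agent.Lib.LieBN.Basic

set_option autoImplicit false
open Cfsg Cfsg.Lib.LieBN

namespace Cfsg.Agent.S0321

/-- For `n ∈ N` not in `B`, the union `B ∪ B n B` is (the underlying set of) a subgroup exactly when `n` agrees
modulo `B ⊓ N` with one of the distinguished representatives; thus the distinguished involutions are
determined by `B` and `N`. -/
theorem result {G : Type*} [Group G] (P : Cfsg.BNPair G) {n : G}
    (hn : n ∈ P.N) (hnB : n ∉ P.B) :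
    (∃ H : Subgroup G, (H : Set G) = (P.B : Set G) ∪ DoubleCoset.doubleCoset n (P.B : Set G) P.B) ↔ ∃ s ∈ P.S, s⁻¹ * n ∈ P.B := by
  constructor
  · rintro ⟨H, hH⟩
    have hmem : ∀ g, g ∈ H ↔ g ∈ P.B ∨ InC P g (wc P ⟨n, hn⟩) := by
      intro g
      rw [InC.iff_doubleCoset]
      exact Set.ext_iff.1 hH g
    have hB : P.B ≤ H := fun b hb => (hmem b).2 (Or.inl hb)
    have hnH : n ∈ H := (hmem n).2 (Or.inr (InC.mk _))
    obtain ⟨L, hL, e⟩ := (invGen P).exists_reduced (wc P ⟨n, hn⟩)
    have hr : IsReducedWord (sref P) L := by rw [IsReducedWord, e]; exact hL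
    have hl := letters_mem_of_conj hB L hr ⟨n, hn⟩ e.symm fun b hb => mul_mem (mul_mem hnH (hB hb)) (inv_mem hnH)
    cases L with
    | nil => exact absurd ((wc_eq_one_iff P (n := ⟨n, hn⟩)).1 (by simpa using e.symm)) hnB
    | cons s L =>
      rcases (hmem _).1 (hl s List.mem_cons_self) with h | h
      · exact absurd ((wc_eq_one_iff P (n := ⟨(s : G), P.subset s.2⟩)).2 h) (sref_ne_one s)
      · exact ⟨s, s.2, (wc_eq_iff P (n := ⟨(s : G), P.subset s.2⟩) (m := ⟨n, hn⟩)).1 ((InC.mk _).unique h)⟩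
  · rintro ⟨s, hs, hsn⟩
    refine ⟨P.parabolic {s}, ?_⟩
    have he : wc P ⟨n, hn⟩ = sref P ⟨s, hs⟩ :=
      ((wc_eq_iff P (n := ⟨s, P.subset hs⟩) (m := ⟨n, hn⟩)).2 hsn).symm
    have hJ : ({s} : Set G) ⊆ P.S := Set.singleton_subset_iff.2 hs
    ext g
    rw [SetLike.mem_coe, mem_parabolic_iff hJ, Set.mem_union, ← InC.iff_doubleCoset (n := (⟨n, hn⟩ : P.N))]
    constructor
    · rintro ⟨w, hw, hg⟩
      obtain ⟨L₀, hL₀, e₀⟩ := mem_weylSub_iff.1 hw
      obtain ⟨L, hL, hr, e⟩ := exch.exists_reduced_of_word {i : P.S | (i : G) ∈ ({s} : Set G)} L₀ hL₀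
      rw [e₀] at e
      subst e
      match L, hL, hr with
      | [], _, _ =>
        left
        exact InC.one_iff.1 (by simpa using hg)
      | [a], hL, _ =>
        right
        have : a = ⟨s, hs⟩ := Subtype.ext (hL a (by simp))
        subst this
        rw [he]
        simpa using hg
      | a :: b :: L, hL, hr =>
        exfalso
        have h2 : IsReducedWord (sref P) [a, b] := (invGen P).isReduced_left (M := L) hr
        have hab : a = b := Subtype.ext ((hL a (by simp) : (a : G) = s).trans (hL b (by simp) : (b : G) = s).symm)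
        subst hab
        rw [IsReducedWord] at h2
        simp [sref_mul_self P a, (invGen P).wlen_eq_zero.2] at h2
    · rintro (h | h)
      · exact ⟨1, one_mem _, InC.one_iff.2 h⟩
      · exact ⟨_, by rw [he]; exact sref_mem_weylSub_iff.2 rfl, h⟩

end Cfsg.Agent.S0321
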