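import Cfsg.Statements.S0322
import Mathlib
import Cfsg.Agent.Lib.LieBN.Basic

set_option autoImplicit false
open Cfsg Cfsg.Lib.LieBN

namespace Cfsg.Agent.S0322

/-- A group with a (B,N)-pair of rank one acts doubly transitively on the left cosets of `B`. -/
theorem result {G : Type*} [Group G] (P : Cfsg.BNPair G) (h : P.rank = 1) : MulAction.IsMultiplyPretransitive G (G ⧸ P.B) 2 := by
  obtain ⟨hne, ⟨s⟩⟩ := Nat.card_eq_one_iff_unique.1 h
  have hW : ∀ w : Weyl P, w = 1 ∨ w = sref P s := by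
    intro w
    obtain ⟨L, rfl⟩ := (invGen P).surj w
    induction L with
    | nil => left; simp
    | cons a L ih =>
      rw [Subsingleton.elim a s]
      rcases ih with h | h <;> simp [h, sref_mul_self]
  rw [MulAction.is_two_pretransitive_iff]
  intro a b c d hab hcd
  -- every pair is a translate of (B, sB)
  have key : ∀ a b : G ⧸ P.B, a ≠ b → ∃ g : G,
      g • ((1 : G) : G ⧸ P.B) = a ∧ g • (((s : G) : G) : G ⧸ P.B) = b := by
    intro a b hab
    obtain ⟨x, rfl⟩ := QuotientGroup.mk_surjective a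
    obtain ⟨y, rfl⟩ := QuotientGroup.mk_surjective b
    obtain ⟨w, hw⟩ := bruhat (P := P) (x⁻¹ * y)
    rcases hW w with rfl | rfl
    · exact absurd (QuotientGroup.eq.2 (InC.one_iff.1 hw)) hab
    · obtain ⟨b₁, h1, b₂, h2, e⟩ := hw.trans (InC.mk (⟨(s : G), P.subset s.2⟩ : P.N))
      refine ⟨x * b₁, ?_, ?_⟩
      · change QuotientGroup.mk (x * b₁ * 1) = _
        rw [QuotientGroup.eq]
        simpa using h1
      · change QuotientGroup.mk (x * b₁ * (s : G)) = _
        rw [QuotientGroup.eq, show (x * b₁ * (s : G))⁻¹ * y = (b₁ * s)⁻¹ * (x⁻¹ * y) by group, e]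
        simpa [mul_assoc] using h2
  obtain ⟨g, rfl, rfl⟩ := key a b hab
  obtain ⟨k, rfl, rfl⟩ := key c d hcd
  exact ⟨k * g⁻¹, by simp [mul_smul], by simp [mul_smul]⟩

end Cfsg.Agent.S0322
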