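import Cfsg.Statements.S0323
import Mathlib

set_option autoImplicit false
open scoped Pointwise
open Cfsg

namespace Cfsg.Agent.S0323

/-- A doubly transitive action on a set with at least three points yields a (B,N)-pair of rank one:
`B` is the stabiliser of a point `x`, `N` the setwise stabiliser of a pair `{x, y}`. -/
theorem result {G Ω : Type*} [Group G] [MulAction G Ω]
    (h2 : MulAction.IsMultiplyPretransitive G Ω 2) {x y z : Ω} (hxy : x ≠ y) (hyz : y ≠ z) (hxz : x ≠ z) :
    ∃ P : Cfsg.BNPair G, P.B = MulAction.stabilizer G x ∧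
      P.N = MulAction.stabilizer G ({x, y} : Set Ω) ∧ P.rank = 1 := by
  classical
  have tr : ∀ a b c d : Ω, a ≠ b → c ≠ d → ∃ g : G, g • a = c ∧ g • b = d :=
    fun a b c d hab hcd => MulAction.is_two_pretransitive_iff.1 h2 hab hcd
  obtain ⟨s, hsx, hsy⟩ := tr x y y x hxy hxy.symm
  set B : Subgroup G := MulAction.stabilizer G x with hBdef
  set N : Subgroup G := MulAction.stabilizer G ({x, y} : Set Ω) with hNdef
  have hB : ∀ g : G, g ∈ B ↔ g • x = x := fun g => MulAction.mem_stabilizer_iff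
  have hN : ∀ g : G, g ∈ N ↔ (g • x = x ∧ g • y = y) ∨ (g • x = y ∧ g • y = x) := by
    intro g
    rw [hNdef, MulAction.mem_stabilizer_iff, Set.smul_set_insert, Set.smul_set_singleton,
      Set.pair_eq_pair_iff]
  have hsN : s ∈ N := (hN s).2 (Or.inr ⟨hsx, hsy⟩)
  have fix : ∀ g m : G, g • x = x → m • x = x → g ∈ DoubleCoset.doubleCoset m (B : Set G) B := by
    intro g m hg hm
    refine DoubleCoset.mem_doubleCoset.2 ⟨g * m⁻¹, mul_mem ((hB g).2 hg) (inv_mem ((hB m).2 hm)), 1,
      one_mem B, by group⟩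
  have move : ∀ g m : G, g • x ≠ x → m • x ≠ x → g ∈ DoubleCoset.doubleCoset m (B : Set G) B := by
    intro g m hg hm
    obtain ⟨b, hbx, hbm⟩ := tr x (m • x) x (g • x) (Ne.symm hm) (Ne.symm hg)
    refine DoubleCoset.mem_doubleCoset.2 ⟨b, (hB b).2 hbx, m⁻¹ * b⁻¹ * g, (hB _).2 ?_, by group⟩
    rw [mul_smul, mul_smul, ← hbm, inv_smul_smul, inv_smul_smul]
  have sq : s * s ∈ B := (hB _).2 (by rw [mul_smul, hsx, hsy])
  refine ⟨{
    B := B
    N := N
    S := {s}
    sup_eq_top := ?_
    conj_mem := ?_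
    subset := by simpa using hsN
    sq_mem := by simpa using sq
    inj := by simp
    closure_sup := ?_
    mul_mem_union := ?_
    conj_ne := ?_ }, rfl, rfl, by simp [BNPair.rank]⟩
  · rw [eq_top_iff]
    intro g _
    by_cases hg : g • x = x
    · exact Subgroup.mem_sup_left ((hB g).2 hg)
    · obtain ⟨b, hb, c, hc, e⟩ := DoubleCoset.mem_doubleCoset.1
        (move g s hg (by rw [hsx]; exact hxy.symm))
      rw [e]
      exact mul_mem (mul_mem (Subgroup.mem_sup_left hb) (Subgroup.mem_sup_right hsN))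
        (Subgroup.mem_sup_left hc)
  · intro n hn t ht
    obtain ⟨ht1, ht2⟩ := ht
    have htx : t • x = x := (hB t).1 ht1
    have hty : t • y = y := by
      rcases (hN t).1 ht2 with ⟨-, h⟩ | ⟨h, -⟩
      · exact h
      · exact absurd (htx.symm.trans h) hxy
    rw [hB, mul_smul, mul_smul]
    rcases (hN n).1 hn with ⟨h, -⟩ | ⟨-, h⟩
    · have e : n⁻¹ • x = x := by rw [inv_smul_eq_iff]; exact h.symm
      rw [e, htx, h]
    · have e : n⁻¹ • x = y := by rw [inv_smul_eq_iff]; exact h.symm
      rw [e, hty, h]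
  · refine le_antisymm (sup_le ((Subgroup.closure_le _).2 (by simpa using hsN)) inf_le_right) ?_
    intro n hn
    rcases (hN n).1 hn with ⟨h, -⟩ | ⟨h, -⟩
    · exact Subgroup.mem_sup_right ⟨(hB n).2 h, hn⟩
    · have e : n = s * (s⁻¹ * n) := by group
      rw [e]
      refine mul_mem (Subgroup.mem_sup_left (Subgroup.subset_closure (Set.mem_singleton s)))
        (Subgroup.mem_sup_right ⟨(hB _).2 ?_, N.mul_mem (N.inv_mem hsN) hn⟩)
      rw [mul_smul, h, inv_smul_eq_iff, hsx]
  · intro t ht n hn b hb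
    rw [Set.mem_singleton_iff] at ht
    subst ht
    rcases (hN n).1 hn with ⟨h, -⟩ | ⟨h, -⟩
    · have h' : (t * n) • x ≠ x := by rw [mul_smul, h, hsx]; exact hxy.symm
      by_cases hg : (t * b * n) • x = x
      · exact Or.inr (fix _ _ hg h)
      · exact Or.inl (move _ _ hg h')
    · have h' : (t * n) • x = x := by rw [mul_smul, h, hsy]
      by_cases hg : (t * b * n) • x = x
      · exact Or.inl (fix _ _ hg h')
      · exact Or.inr (move _ _ hg (by rw [h]; exact hxy.symm))
  · intro t ht heq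
    rw [Set.mem_singleton_iff] at ht
    subst ht
    obtain ⟨g, hgx, hgy⟩ := tr x y x z hxy hxz
    have hmem : t * g * t ∈ (B : Set G) := by
      rw [← heq]
      exact ⟨g, (hB g).2 hgx, rfl⟩
    have := (hB _).1 hmem
    rw [mul_smul, mul_smul, hsx, hgy] at this
    exact hyz (smul_left_cancel t (hsy.trans this.symm))

end Cfsg.Agent.S0323
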