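import Cfsg.Statements.S0326


set_option autoImplicit false
open Cfsg

namespace Cfsg.Agent.S0326

/-- The Suzuki–Tits ovoid over a finite field with `q` elements has `q² + 1` points. -/
theorem result {F : Type*} [Field F] [Fintype F] (m : ℕ) :
    Nat.card (Cfsg.suzukiOvoid F m) = Fintype.card F ^ 2 + 1 := by
  classical
  have hne : ∀ a b c : F, (![a, b, c, 1] : Fin 4 → F) ≠ 0 := fun a b c h => by simpa using congrFun h 3
  let f : Option (F × F) → Cfsg.suzukiOvoid F m := fun o => o.elim
    ⟨Projectivization.mk F ![1, 0, 0, 0] (by simp), _, by simp, rfl, Or.inl rfl⟩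
    (fun p => ⟨Projectivization.mk F
      ![p.1 * p.2 + p.1 ^ (2 ^ (m + 1) + 2) + p.2 ^ (2 ^ (m + 1)), p.2, p.1, 1] (hne _ _ _),
      _, hne _ _ _, rfl, Or.inr ⟨p.1, p.2, rfl⟩⟩)
  have hb : Function.Bijective f := by
    constructor
    · rintro (_ | ⟨a, b⟩) (_ | ⟨a', b'⟩) h
      · rfl
      · exfalso
        obtain ⟨c, hc⟩ := (Projectivization.mk_eq_mk_iff' F _ _ _ _).mp (congrArg Subtype.val h).symm
        have h3 := congrFun hc 3
        simp at h3
      · exfalso
        obtain ⟨c, hc⟩ := (Projectivization.mk_eq_mk_iff' F _ _ _ _).mp (congrArg Subtype.val h)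
        have h3 := congrFun hc 3
        simp at h3
      · obtain ⟨c, hc⟩ := (Projectivization.mk_eq_mk_iff' F _ _ _ _).mp (congrArg Subtype.val h)
        have h3 := congrFun hc 3
        have h2 := congrFun hc 2
        have h1 := congrFun hc 1
        simp at h1 h2 h3
        rw [h3, one_mul] at h1 h2
        rw [h1, h2]
    · rintro ⟨p, v, hv, rfl, rfl | ⟨x, y, rfl⟩⟩
      · exact ⟨none, rfl⟩
      · exact ⟨some (x, y), rfl⟩
  rw [← Nat.card_congr (Equiv.ofBijective f hb), Nat.card_eq_fintype_card, Fintype.card_option,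
    Fintype.card_prod, pow_two]

end Cfsg.Agent.S0326
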