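import Cfsg.Statements.S0338
import Cfsg.Agent.Lib.Zassenhaus.Normal
import Cfsg.Agent.Lib.RankOne.Fix
import Cfsg.Agent.Lib.Solv.Coprime2
-- import your own Cfsg.Agent.* helpers here

set_option autoImplicit false
open Cfsg

namespace Cfsg.Agent.S0338

/-- A Zassenhaus group of odd degree is a simple group. -/
theorem result {G Ω : Type*} [Group G] [MulAction G Ω] [Fintype Ω]
    (hZ : Cfsg.IsZassenhausGroup G Ω) (hodd : Odd (Fintype.card Ω)) : IsSimpleGroup G := by
  classical
  have := hZ.1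
  have hfin := Cfsg.Lib.Zassenhaus.finite_of_faithful G Ω
  have hpre := Cfsg.Lib.Zassenhaus.pretransitive hZ
  -- an involution and a moved point
  obtain ⟨a₀⟩ : Nonempty Ω := Fintype.card_pos_iff.mp (by have := Cfsg.Lib.Zassenhaus.three_le hZ; omega)
  obtain ⟨U₀, hU₀a, hU₀c, -⟩ := Cfsg.Lib.Zassenhaus.exists_kernel hZ a₀
  have h2U : 2 ∣ Nat.card U₀ := by
    obtain ⟨k, hk⟩ := hodd; exact ⟨k, by omega⟩
  have := Fact.mk Nat.prime_two
  obtain ⟨z₀, hz₀⟩ := exists_prime_orderOf_dvd_card' (G := U₀) 2 h2U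
  set t : G := (z₀ : G) with htdef
  have ht : orderOf t = 2 := by rw [htdef, Subgroup.orderOf_coe, hz₀]
  have ht1 : t ≠ 1 := fun h => by rw [h, orderOf_one] at ht; omega
  have ht2 : t * t = 1 := by rw [← pow_two, ← ht, pow_orderOf_eq_one]
  obtain ⟨a, hta⟩ : ∃ a : Ω, t • a ≠ a := by
    by_contra h
    push Not at h
    exact ht1 (Cfsg.Lib.Zassenhaus.eq_one hZ h)
  obtain ⟨U, hUa, hUc, hUf⟩ := Cfsg.Lib.Zassenhaus.exists_kernel hZ a
  set D := MulAction.stabilizer G a ⊓ MulAction.stabilizer G (t • a) with hD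
  have hDodd : Odd (Nat.card D) := by
    rw [← Nat.not_even_iff_odd]
    intro hev
    obtain ⟨⟨z, hz⟩, hzo⟩ := exists_prime_orderOf_dvd_card' (G := D) 2 (even_iff_two_dvd.1 hev)
    rw [Subgroup.orderOf_mk] at hzo
    have hz1 : z ≠ 1 := fun h => by rw [h, orderOf_one] at hzo; omega
    have hP : IsPGroup 2 (Subgroup.zpowers z) := IsPGroup.of_card (n := 1) (by rw [Nat.card_zpowers, hzo, pow_one])
    have hmod := hP.card_modEq_card_fixedPoints Ω
    have hfx : MulAction.fixedPoints (Subgroup.zpowers z) Ω = {a, t • a} := by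
      ext c
      constructor
      · intro hc
        by_contra hne
        simp only [Set.mem_insert_iff, Set.mem_singleton_iff, not_or] at hne
        exact hz1 (Cfsg.Lib.Zassenhaus.three hZ hta.symm (Ne.symm hne.2) (Ne.symm hne.1) hz.1 hz.2
          (hc ⟨z, Subgroup.mem_zpowers z⟩))
      · intro hc
        have : Subgroup.zpowers z ≤ MulAction.stabilizer G c := by
          rw [Subgroup.zpowers_le]
          rcases hc with rfl | rfl
          · exact hz.1
          · exact hz.2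
        intro x
        exact this x.2
    rw [Nat.card_coe_set_eq, hfx, Set.ncard_pair hta.symm, Nat.card_eq_fintype_card, Nat.ModEq] at hmod
    obtain ⟨k, hk⟩ := hodd
    omega
  have hconj : ∀ h ∈ MulAction.stabilizer G a, ∀ x ∈ U, h * x * h⁻¹ ∈ U := fun h hh x hx =>
    Cfsg.Lib.Zassenhaus.kernel_conj_mem hZ hUa hUc hUf hh hx
  have hS : Cfsg.IsRankOneSetup G Ω a t U :=
    { two_transitive := hZ.2.1
      mul_self := ht2
      ne_one := ht1
      not_mem := hta
      le := hUa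
      conj_mem := hconj
      inf_eq_bot := Cfsg.Lib.Zassenhaus.kernel_inf hZ hUa hUc hUf hta
      sup_eq := by
        refine le_antisymm (sup_le hUa inf_le_left) fun g hg => ?_
        obtain ⟨u, hu, hug⟩ := Cfsg.Lib.Zassenhaus.kernel_move hZ hUa hUc hUf (c := g • (t • a)) (d := t • a)
          (fun h => hta (smul_left_cancel g (h.trans (MulAction.mem_stabilizer_iff.1 hg).symm))) hta
        rw [show g = u⁻¹ * (u * g) by group]
        refine Subgroup.mul_mem _ (Subgroup.mem_sup_left (U.inv_mem hu)) (Subgroup.mem_sup_right ⟨?_, ?_⟩)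
        · show (u * g) • a = a
          rw [mul_smul, MulAction.mem_stabilizer_iff.1 hg, MulAction.mem_stabilizer_iff.1 (hUa hu)]
        · show (u * g) • (t • a) = t • a
          rw [mul_smul, hug]
      even_card := by
        obtain ⟨k, hk⟩ := hodd; exact ⟨k, by omega⟩
      odd_card := hDodd }
  -- every element of D is inverted by t
  obtain ⟨⟨s, r⟩, ⟨hs, -, -⟩, -⟩ := RankOne.structure_equation hS
  set J := Cfsg.involutionsIn (MulAction.stabilizer G a : Set G) with hJ
  set I := Cfsg.invertedBy D t with hI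
  have hsU : s ∈ U := RankOne.invol_mem hS hs.1 hs.2.2
  have hinj : Function.Injective (fun d : D => (⟨(d : G) * s * (d : G)⁻¹,
      ⟨Subgroup.mul_mem _ (Subgroup.mul_mem _ d.2.1 hs.1) (Subgroup.inv_mem _ d.2.1),
       fun h => hs.2.1 (conj_eq_one_iff.1 h), by
        rw [show (d : G) * s * (d : G)⁻¹ * ((d : G) * s * (d : G)⁻¹) = (d : G) * (s * s) * (d : G)⁻¹ by group,
          hs.2.2]; group⟩⟩ : J)) := by
    intro d e h
    have h' : (d : G) * s * (d : G)⁻¹ = (e : G) * s * (e : G)⁻¹ := congrArg Subtype.val h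
    have hcomm : ((e : G)⁻¹ * d) * s = s * ((e : G)⁻¹ * d) := by
      calc ((e : G)⁻¹ * d) * s = (e : G)⁻¹ * ((d : G) * s * (d : G)⁻¹) * d := by group
        _ = (e : G)⁻¹ * ((e : G) * s * (e : G)⁻¹) * d := by rw [h']
        _ = _ := by group
    have hU := Cfsg.Lib.Zassenhaus.centralizer_kernel_le hZ hUa hUc hUf hsU hs.2.1
      (Subgroup.mem_centralizer_singleton_iff.2 hcomm)
    have hD' : (e : G)⁻¹ * d ∈ U ⊓ MulAction.stabilizer G (t • a) :=
      ⟨hU, Subgroup.mul_mem _ (Subgroup.inv_mem _ e.2.2) d.2.2⟩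
    rw [hS.inf_eq_bot, Subgroup.mem_bot, inv_mul_eq_one] at hD'
    exact Subtype.ext hD'.symm
  have hle : (D : Set G).ncard ≤ I.ncard := by
    rw [← Nat.card_coe_set_eq I, RankOne.card_I hS, ← Nat.card_coe_set_eq]
    exact Nat.card_le_card_of_injective _ hinj
  have hDI : I = (D : Set G) := Set.eq_of_subset_of_ncard_le (fun x hx => hx.1) hle (Set.toFinite _)
  obtain ⟨k, hkD, hk1⟩ := Cfsg.Lib.Zassenhaus.exists_fixer hZ hta.symm
  have hkI : k ∈ I := by rw [hDI]; exact hkD
  -- a four group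
  set s' := k⁻¹ * s * k with hs'
  have hs'J : s' ∈ J := ⟨Subgroup.mul_mem _ (Subgroup.mul_mem _ (Subgroup.inv_mem _ hkD.1) hs.1) hkD.1,
    fun h => hs.2.1 (by rw [show s = k * s' * k⁻¹ by rw [hs']; group, h]; group),
    by rw [hs', show k⁻¹ * s * k * (k⁻¹ * s * k) = k⁻¹ * (s * s) * k by group, hs.2.2]; group⟩
  have hne : s ≠ s' := fun h => hk1 (RankOne.conj_I_injective hS hs hkI (RankOne.one_mem_I hS)
    (by rw [← hs', ← h]; group))
  have hcen := fun {x : G} hx {q : G} hq => RankOne.invol_central_of hS hkI hk1 (s := x) hx (q := q) hq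
  have hcommU : ∀ x ∈ U, x * x = 1 → ∀ y ∈ U, x * y = y * x := by
    intro x hx hx2 y hy
    by_cases h1 : x = 1
    · rw [h1, one_mul, mul_one]
    · exact hcen ⟨hUa hx, h1, hx2⟩ hy
  let E : Subgroup G :=
    { carrier := {x | x ∈ U ∧ x * x = 1}
      one_mem' := ⟨U.one_mem, one_mul 1⟩
      mul_mem' := fun {x y} hx hy => ⟨U.mul_mem hx.1 hy.1, by
        calc x * y * (x * y) = x * (y * x) * y := by group
          _ = x * (x * y) * y := by rw [hcommU x hx.1 hx.2 y hy.1]
          _ = (x * x) * (y * y) := by group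
          _ = 1 := by rw [hx.2, hy.2, one_mul]⟩
      inv_mem' := fun {x} hx => by
        show x⁻¹ ∈ U ∧ x⁻¹ * x⁻¹ = 1
        rw [inv_eq_of_mul_eq_one_right hx.2]; exact hx }
  have hEcomm : IsMulCommutative E := ⟨⟨fun x y => Subtype.ext (hcommU x x.2.1 x.2.2 y y.2.1)⟩⟩
  have hsE : s ∈ E := ⟨hsU, hs.2.2⟩
  have hs'E : s' ∈ E := ⟨RankOne.invol_mem hS hs'J.1 hs'J.2.2, hs'J.2.2⟩
  have hEncyc : ¬ IsCyclic E := by
    intro hc
    obtain ⟨g, hg⟩ := hc.exists_generator
    have hg2 : g ^ 2 = 1 := by rw [pow_two]; exact Subtype.ext g.2.2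
    have hcard : Nat.card E ≤ 2 := by
      rw [← Nat.card_congr (Equiv.subtypeUnivEquiv hg)]
      change Nat.card (Subgroup.zpowers g) ≤ 2
      rw [Nat.card_zpowers]
      exact Nat.le_of_dvd two_pos (orderOf_dvd_of_pow_eq_one hg2)
    have h3 : ({1, s, s'} : Set G).ncard ≤ (E : Set G).ncard := Set.ncard_le_ncard (by
      rintro x (rfl | rfl | rfl)
      · exact E.one_mem
      · exact hsE
      · exact hs'E) (Set.toFinite _)
    rw [Set.ncard_eq_three.2 ⟨1, s, s', hs.2.1.symm, hs'J.2.1.symm, hne, rfl⟩, ← Nat.card_coe_set_eq] at h3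
    have : Nat.card (E : Set G) = Nat.card E := rfl
    omega
  have : Nontrivial G := nontrivial_of_ne _ _ ht1
  refine ⟨fun N hNn => or_iff_not_imp_left.2 fun hN => ?_⟩
  -- N has even order
  have hNeven : 2 ∣ Nat.card N := by
    by_contra hno
    have hcop : (Nat.card E).Coprime (Nat.card N) := by
      have hp : IsPGroup 2 E := fun x => ⟨1, by rw [pow_one, pow_two]; exact Subtype.ext x.2.2⟩
      obtain ⟨n, hn⟩ := IsPGroup.iff_card.1 hp
      rw [hn]
      exact (Nat.prime_two.coprime_iff_not_dvd.2 hno).pow_left n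
    have hW := Cfsg.Lib.Solv.le_of_fixed_le E N (MulAction.stabilizer G a) hEncyc
      (by rw [Subgroup.normalizer_eq_top]; exact le_top) hcop fun x hx hx1 g hg => by
      have hxa : x • a = a := hUa hx.1
      have hgx : g * x = x * g := Subgroup.mem_centralizer_singleton_iff.1 hg.2
      refine hUf x hx.1 hx1 (g • a) ?_
      rw [smul_smul, ← hgx, mul_smul, hxa]
    obtain ⟨n, hn, hna⟩ := Cfsg.Lib.Zassenhaus.normal_move hZ N hN a (t • a)
    exact hta (hna.symm.trans (hW hn))
  obtain ⟨⟨w, hwN⟩, hw⟩ := exists_prime_orderOf_dvd_card' (G := N) 2 hNeven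
  rw [Subgroup.orderOf_mk] at hw
  obtain ⟨g, hg⟩ := RankOne.all_conj hS (u := w) (v := t) (fun h => by rw [h, orderOf_one] at hw; omega)
    (by rw [← pow_two, ← hw, pow_orderOf_eq_one]) ht1 ht2
  have htN : t ∈ N := hg ▸ hNn.conj_mem w hwN g
  have hDN : ∀ d ∈ D, d ∈ N := by
    intro d hd
    have hdI : d ∈ I := by rw [hDI]; exact hd
    obtain ⟨-, hdt⟩ := (RankOne.mem_I hS).1 hdI
    have hsq : d ^ 2 ∈ N := by
      have : d ^ 2 = d * t * d⁻¹ * t := by
        have h' : d = t * d⁻¹ * t := by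
          rw [← hdt, show t * (t * d * t) * t = (t * t) * d * (t * t) by group, ht2]; group
        calc d ^ 2 = d * (t * d⁻¹ * t) := by rw [pow_two]; nth_rewrite 2 [h']; rfl
          _ = _ := by group
      rw [this]; exact N.mul_mem (hNn.conj_mem t htN d) htN
    have ho : Odd (orderOf d) := RankOne.odd_orderOf_mem hS.odd_card hd
    rw [← RankOne.root_sq ho, ← pow_mul, mul_comm, pow_mul]
    exact N.pow_mem hsq _
  have hstab : MulAction.stabilizer G a ≤ N := by
    rw [← hS.sup_eq]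
    exact sup_le (Cfsg.Lib.Zassenhaus.kernel_le hZ N hN hUa hUc hUf) hDN
  rw [eq_top_iff]
  intro g _
  obtain ⟨n, hn, hna⟩ := Cfsg.Lib.Zassenhaus.normal_move hZ N hN a (g • a)
  have : n⁻¹ * g ∈ N := hstab (by show (n⁻¹ * g) • a = a; rw [mul_smul, ← hna, inv_smul_smul])
  simpa using N.mul_mem hn this

end Cfsg.Agent.S0338
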