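import Cfsg.Statements.S0341
import Cfsg.Agent.Lib.Solv.Frobenius
import Cfsg.Agent.Lib.Solv.Coprime
-- import your own Cfsg.Agent.* helpers here

set_option autoImplicit false
open Cfsg

namespace Cfsg.Agent.S0341

section helper

open MulAction Subgroup

theorem vandermonde_elim {E : Type*} [AddCommGroup E] (w : ℕ → AddMonoid.End E)
    (hc : ∀ i j, Commute (w i) (w j)) (S : Finset ℕ) :
    ∀ v : ℕ → E, (∀ i ∈ S, ∀ j ∈ S, i ≠ j → ∀ e : E, w i e = w j e → e = 0) →
      (∀ j < S.card, ∑ i ∈ S, (w i ^ j) (v i) = 0) → ∀ i ∈ S, v i = 0 := by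
  classical
  induction S using Finset.induction_on with
  | empty => intro v _ _ i hi; exact absurd hi (Finset.notMem_empty i)
  | insert k S hk ih =>
    intro v hd h
    rw [Finset.card_insert_of_notMem hk] at h
    have hv' := ih (fun i => w i (v i) - w k (v i))
      (fun i hi j hj => hd i (Finset.mem_insert_of_mem hi) j (Finset.mem_insert_of_mem hj)) (fun j hj => by
        have e1 := h (j + 1) (by omega)
        have e0 := congrArg (w k) (h j (by omega))
        rw [map_sum, map_zero] at e0
        have e2 : ∑ i ∈ insert k S, (w i ^ j) (w i (v i) - w k (v i)) = 0 := by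
          rw [← sub_zero (0 : E)]
          conv_rhs => arg 1; rw [← e1]
          conv_rhs => arg 2; rw [← e0]
          rw [← Finset.sum_sub_distrib]
          refine Finset.sum_congr rfl fun i _ => ?_
          rw [map_sub, pow_succ]
          congr 1
          exact congrArg (fun f : AddMonoid.End E => f (v i)) ((hc k i).pow_right j).eq.symm
        rwa [Finset.sum_insert hk, sub_self, map_zero, zero_add] at e2)
    have hS : ∀ i ∈ S, v i = 0 := fun i hi =>
      hd i (Finset.mem_insert_of_mem hi) k (Finset.mem_insert_self k S) (fun e => hk (e ▸ hi)) _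
        (sub_eq_zero.1 (hv' i hi))
    have h0 := h 0 (by omega)
    rw [Finset.sum_insert hk, Finset.sum_eq_zero (fun i hi => by rw [hS i hi, map_zero]), add_zero] at h0
    intro i hi
    rcases Finset.mem_insert.1 hi with rfl | hi
    · exact h0
    · exact hS i hi

theorem card_eq_two_pow {E : Type*} [AddCommGroup E] [Finite E] (h2 : ∀ e : E, 2 • e = 0)
    (z s : AddMonoid.End E) (p r t : ℕ) [Fact p.Prime] [Fact r.Prime] (hzp : z ^ p = 1) (hsr : s ^ r = 1)
    (hsz : s * z = z ^ t * s) (hfree : ∀ e : E, e ≠ 0 → ∀ i, (z ^ i) e = e → p ∣ i)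
    (a : E) (ha : a ≠ 0) (hfix : ∀ e, s e = e ↔ e = 0 ∨ e = a) : Nat.card E = 2 ^ r := by
  classical
  have hp : p.Prime := Fact.out
  have hr : r.Prime := Fact.out
  have hsa : s a = a := (hfix a).2 (Or.inr rfl)
  have hpa : ∀ (n : ℕ), (s ^ n) a = a := by
    intro n
    induction n with
    | zero => rfl
    | succ n ih => rw [pow_succ']; show s ((s ^ n) a) = a; rw [ih, hsa]
  have hconj : ∀ i : ℕ, SemiconjBy (s ^ i) z (z ^ (t ^ i)) := by
    intro i
    induction i with
    | zero => simp [SemiconjBy]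
    | succ i ih =>
      have hs1 : SemiconjBy s z (z ^ t) := hsz
      have h1 : SemiconjBy s (z ^ (t ^ i)) ((z ^ t) ^ (t ^ i)) := hs1.pow_right _
      rw [← pow_mul, mul_comm, ← pow_succ] at h1
      rw [pow_succ']
      exact h1.mul_left ih
  -- equal powers on a non-zero vector
  have heq : ∀ (e : E), e ≠ 0 → ∀ u v : ℕ, (z ^ u) e = (z ^ v) e → (u : ZMod p) = v := by
    intro e he u v huv
    have h1 := congrArg (z ^ (v * (p - 1))) huv
    have h2' : ∀ x y : ℕ, (z ^ x) ((z ^ y) e) = (z ^ (x + y)) e := fun x y => by rw [pow_add]; rfl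
    rw [h2', h2', show v * (p - 1) + v = p * v by
      obtain ⟨m, hm⟩ := Nat.exists_eq_succ_of_ne_zero hp.ne_zero
      subst hm
      simp only [Nat.succ_sub_one]
      rw [Nat.succ_eq_add_one]
      ring, pow_mul, hzp, one_pow] at h1
    have h3 := hfree e he _ h1
    rw [← ZMod.natCast_eq_zero_iff, Nat.cast_add, Nat.cast_mul, Nat.cast_sub hp.one_le,
      ZMod.natCast_self, zero_sub, Nat.cast_one] at h3
    linear_combination h3
  -- the twisting exponent has order r
  have ht : ∀ d : ℕ, 0 < d → d < r → (t ^ d : ZMod p) ≠ 1 := by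
    intro d hd0 hdr h
    have hzd : z ^ (t ^ d) = z := by
      have h1 : ((t ^ d : ℕ) : ZMod p) = (1 : ℕ) := by simpa using h
      rw [ZMod.natCast_eq_natCast_iff'] at h1
      rw [← Nat.mod_add_div (t ^ d) p, pow_add, pow_mul, hzp, one_pow, mul_one, h1,
        Nat.one_mod_eq_one.2 hp.ne_one, pow_one]
    have h2' : (s ^ d) (z a) = z a := by
      have h3 := congrArg (fun f : AddMonoid.End E => f a) (hconj d).eq
      rw [hzd] at h3
      exact h3.trans (congrArg z (hpa d))
    obtain ⟨j, -, hj⟩ := Nat.exists_mul_mod_eq_one_of_coprime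
      (Nat.Coprime.symm (hr.coprime_iff_not_dvd.2 fun hdvd =>
        absurd (Nat.le_of_dvd hd0 hdvd) (by omega))) hr.one_lt
    have hsd : ∀ m : ℕ, ((s ^ d) ^ m) (z a) = z a := by
      intro m
      induction m with
      | zero => rfl
      | succ m ih => rw [pow_succ']; show (s ^ d) (((s ^ d) ^ m) (z a)) = z a; rw [ih, h2']
    have hs1 : s (z a) = z a := by
      have hj' : (s ^ d) ^ j = s := by
        rw [← pow_mul, ← Nat.mod_add_div (d * j) r, pow_add, pow_mul s r, hsr, one_pow, mul_one, hj, pow_one]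
      have := hsd j
      rwa [hj'] at this
    rcases (hfix _).1 hs1 with h3 | h3
    · have : (z ^ p) a = 0 := by
        rw [← Nat.succ_pred_eq_of_pos hp.pos, pow_succ]
        show (z ^ p.pred) (z a) = 0
        rw [h3, map_zero]
      rw [hzp] at this
      exact ha this
    · have := hfree a ha 1 (by rw [pow_one]; exact h3)
      exact hp.not_dvd_one this
  have ht0 : (t : ZMod p) ≠ 0 := by
    intro h
    have hzt : z ^ t = 1 := by
      rw [ZMod.natCast_eq_zero_iff] at h
      obtain ⟨m, rfl⟩ := h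
      rw [pow_mul, hzp, one_pow]
    rw [hzt, one_mul] at hsz
    have hz1 : z = 1 := by
      have h1 := congrArg (fun f => s ^ (r - 1) * f) hsz
      simp only [← mul_assoc, ← pow_succ, Nat.sub_add_cancel hr.one_le, hsr, one_mul] at h1
      exact h1
    exact hp.not_dvd_one (hfree a ha 1 (by rw [pow_one, hz1]; rfl))
  let w : ℕ → AddMonoid.End E := fun i => z ^ (t ^ i)
  have hwc : ∀ i j, Commute (w i) (w j) := fun i j => Commute.pow_pow_self z _ _
  have hwd : ∀ i < r, ∀ j < r, i ≠ j → ∀ e : E, w i e = w j e → e = 0 := by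
    intro i hi j hj hij e he
    by_contra he0
    wlog hlt : i < j generalizing i j
    · exact this j hj i hi hij.symm he.symm (by omega)
    have h := heq e he0 _ _ he
    push_cast at h
    refine ht (j - i) (by omega) (by omega) (mul_left_cancel₀ (pow_ne_zero i ht0) ?_)
    rw [← pow_add, Nat.add_sub_cancel' hlt.le, mul_one, h]
  have hshift : ∀ (i j : ℕ) (e : E), (s ^ i) ((z ^ j) e) = (w i ^ j) ((s ^ i) e) := fun i j e =>
    congrArg (fun f : AddMonoid.End E => f e) ((hconj i).pow_right j).eq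
  -- upper bound
  let N : E → E := fun e => ∑ i ∈ Finset.range r, (s ^ i) e
  have hN : ∀ e, N e = 0 ∨ N e = a := fun e => (hfix _).1 (by
    show s (∑ i ∈ Finset.range r, (s ^ i) e) = ∑ i ∈ Finset.range r, (s ^ i) e
    rw [map_sum]
    have h1 := Finset.sum_range_succ' (fun i => (s ^ i) e) r
    have h2' := Finset.sum_range_succ (fun i => (s ^ i) e) r
    rw [hsr] at h2'
    rw [h2'] at h1
    have h3 : (∑ i ∈ Finset.range r, (s ^ i) e) = ∑ i ∈ Finset.range r, (s ^ (i + 1)) e := add_right_cancel h1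
    conv_rhs => rw [h3]
    refine Finset.sum_congr rfl fun i _ => ?_
    rw [pow_succ']
    rfl)
  have hup : Nat.card E ≤ 2 ^ r := by
    let Φ : E → (Fin r → {x : E // x = 0 ∨ x = a}) := fun e j => ⟨N ((z ^ (j : ℕ)) e), hN _⟩
    have hΦ : Function.Injective Φ := by
      intro x y hxy
      rw [← sub_eq_zero]
      have h := vandermonde_elim w hwc (Finset.range r) (fun i => (s ^ i) (x - y))
        (fun i hi j hj => hwd i (Finset.mem_range.1 hi) j (Finset.mem_range.1 hj)) (fun j hj => by
          rw [Finset.card_range] at hj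
          have h1 : N ((z ^ j) x) = N ((z ^ j) y) := congrArg Subtype.val (congrFun hxy ⟨j, hj⟩)
          calc ∑ i ∈ Finset.range r, (w i ^ j) ((s ^ i) (x - y))
              = N ((z ^ j) x) - N ((z ^ j) y) := by
                simp only [N, hshift, map_sub, Finset.sum_sub_distrib]
            _ = 0 := sub_eq_zero.2 h1) 0 (Finset.mem_range.2 hr.pos)
      exact h
    have hc2 : Nat.card {x : E // x = 0 ∨ x = a} = 2 := by
      rw [show {x : E // x = 0 ∨ x = a} = ↥({0, a} : Set E) from rfl, Nat.card_coe_set_eq, Set.ncard_pair ha.symm]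
    have := Nat.card_le_card_of_injective Φ hΦ
    rwa [Nat.card_fun, hc2, Nat.card_fin] at this
  -- lower bound
  let _ : Module (ZMod 2) E := AddCommGroup.zmodModule h2
  have hE : Nat.card E = 2 ^ Module.finrank (ZMod 2) E := by
    rw [Module.natCard_eq_pow_finrank (K := ZMod 2), Nat.card_zmod]
  rcases Nat.lt_or_ge (Module.finrank (ZMod 2) E) r with hlt | hge
  · exfalso
    let L : E →ₗ[ZMod 2] E := (s : E →+ E).toZModLinearMap 2
    have hL : ∀ (i : ℕ) (e : E), (L ^ i) e = (s ^ i) e := by
      intro i e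
      induction i generalizing e with
      | zero => rfl
      | succ i ih => rw [pow_succ, pow_succ]; exact ih (s e)
    have hCH := LinearMap.aeval_self_charpoly L
    rw [Polynomial.aeval_eq_sum_range' (n := r) (by rw [LinearMap.charpoly_natDegree]; exact hlt)] at hCH
    let S := (Finset.range r).filter fun i => L.charpoly.coeff i = 1
    have hsum : ∀ e : E, ∑ i ∈ S, (s ^ i) e = 0 := by
      intro e
      have h := congrArg (fun f : E →ₗ[ZMod 2] E => f e) hCH
      simp only [LinearMap.coe_sum, Finset.sum_apply, LinearMap.smul_apply, LinearMap.zero_apply, hL] at h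
      rw [← h]
      show ∑ i ∈ (Finset.range r).filter (fun i => L.charpoly.coeff i = 1), (s ^ i) e = _
      rw [Finset.sum_filter]
      refine Finset.sum_congr rfl fun i _ => ?_
      rcases (show ∀ c : ZMod 2, c = 0 ∨ c = 1 by decide) (L.charpoly.coeff i) with hc | hc <;> rw [hc]
      · rw [zero_smul, if_neg zero_ne_one]
      · rw [one_smul, if_pos rfl]
    have hmem : Module.finrank (ZMod 2) E ∈ S := Finset.mem_filter.2 ⟨Finset.mem_range.2 hlt, by
      have := L.charpoly_monic.coeff_natDegree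
      rwa [LinearMap.charpoly_natDegree] at this⟩
    have h := vandermonde_elim w hwc S (fun i => (s ^ i) a)
      (fun i hi j hj => hwd i (Finset.mem_range.1 (Finset.mem_filter.1 hi).1) j
        (Finset.mem_range.1 (Finset.mem_filter.1 hj).1))
      (fun j _ => by rw [← hsum ((z ^ j) a)]; exact Finset.sum_congr rfl fun i _ => (hshift i j a).symm)
      _ hmem
    exact ha (by rw [← hpa]; exact h)
  · rw [hE] at hup ⊢
    exact le_antisymm hup (Nat.pow_le_pow_right (by norm_num) hge)

theorem two_pow_prime {G Ω : Type*} [Group G] [MulAction G Ω] [Fintype Ω] [FaithfulSMul G Ω]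
    (h2 : IsMultiplyPretransitive G Ω 2)
    (h3 : ∀ g : G, ∀ a b c : Ω, a ≠ b → b ≠ c → a ≠ c → g • a = a → g • b = b → g • c = c → g = 1)
    (hfix : ∃ g : G, g ≠ 1 ∧ ∃ a b : Ω, a ≠ b ∧ g • a = a ∧ g • b = b)
    (N : Subgroup G) [hNn : N.Normal] (hNt : IsPretransitive N Ω) (hNr : ∀ a : Ω, stabilizer N a = ⊥) :
    ∃ p : ℕ, p.Prime ∧ Fintype.card Ω = 2 ^ p := by
  classical
  have : Finite G := Finite.of_injective (fun g : G => MulAction.toPerm (α := G) (β := Ω) g)
    MulAction.toPerm_injective
  obtain ⟨g, hg1, a, b, hab, hga, hgb⟩ := hfix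
  have h2' : ∀ {x y u v : Ω}, x ≠ y → u ≠ v → ∃ g : G, g • x = u ∧ g • y = v := fun hx hu =>
    MulAction.is_two_pretransitive_iff.1 h2 hx hu
  obtain ⟨c, hca, hcb⟩ : ∃ c, c ≠ a ∧ c ≠ b := by
    by_contra hh
    push Not at hh
    refine hg1 (FaithfulSMul.eq_of_smul_eq_smul (α := Ω) fun x => ?_)
    rw [one_smul]
    by_cases hx : x = a
    · rw [hx, hga]
    · rw [hh x hx, hgb]
  let G0 := stabilizer G a
  let H : Subgroup G0 := (stabilizer G b).subgroupOf G0
  have hmemH : ∀ x : G0, x ∈ H ↔ (x : G) • b = b := fun x => Iff.rfl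
  have hH1 : H ≠ ⊥ := by
    intro h
    have hm : (⟨g, hga⟩ : G0) ∈ H := hgb
    rw [h, mem_bot] at hm
    exact hg1 (congrArg Subtype.val hm)
  have hmove : ∀ y, y ≠ a → ∃ x : G0, (x : G) • b = y := by
    intro y hy
    obtain ⟨x, hxa, hxb⟩ := h2' hab (Ne.symm hy)
    exact ⟨⟨x, hxa⟩, hxb⟩
  have hfrob : Cfsg.IsFrobeniusComplement H := by
    refine ⟨hH1, fun h => ?_, fun x hx => ?_⟩
    · obtain ⟨x, hx⟩ := hmove c hca
      exact hcb (hx.symm.trans ((hmemH x).1 (h ▸ mem_top x)))
    · rw [eq_bot_iff]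
      intro y hy
      rw [mem_bot]
      have h1 : (y : G) • (x : G) • b = (x : G) • b := by
        have h := (hmemH _).1 (Cfsg.Lib.Solv.mem_conj_smul.1 hy.2)
        simp only [Subgroup.coe_mul, InvMemClass.coe_inv, mul_smul, inv_smul_eq_iff] at h
        exact h
      refine Subtype.ext (h3 (y : G) a b ((x : G) • b) hab (fun e => hx ((hmemH x).2 e.symm)) ?_ y.2
        ((hmemH y).1 hy.1) h1)
      intro e
      exact hab (smul_left_cancel (x : G) ((x.2 : (x : G) • a = a).trans e))
  obtain ⟨K, hKn, -, hKc⟩ := Cfsg.Lib.Solv.exists_frobeniusKernel hfrob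
  -- elements of the kernel fix only `a`
  have hKfree : ∀ k ∈ K, k ≠ 1 → ∀ y, y ≠ a → (k : G) • y ≠ y := by
    intro k hk hk1 y hy hky
    obtain ⟨x, rfl⟩ := hmove y hy
    have h : x⁻¹ * k * x ∈ K ⊓ H := ⟨by simpa using hKn.conj_mem k hk x⁻¹, (hmemH _).2 (by
      simp only [Subgroup.coe_mul, InvMemClass.coe_inv, mul_smul, inv_smul_eq_iff]
      exact hky)⟩
    rw [hKc.disjoint.eq_bot, mem_bot] at h
    exact hk1 (by
      calc k = x * (x⁻¹ * k * x) * x⁻¹ := by group
        _ = 1 := by rw [h]; group)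
  have hidx : H.index + 1 = Fintype.card Ω := by
    have he : H = stabilizer G0 b := by ext x; exact Iff.rfl
    have horb : orbit G0 b = {a}ᶜ := by
      ext y
      constructor
      · rintro ⟨x, rfl⟩ e
        exact hab (smul_left_cancel (x : G) ((x.2 : (x : G) • a = a).trans (Set.mem_singleton_iff.1 e).symm))
      · intro hy
        obtain ⟨x, hx⟩ := hmove y hy
        exact ⟨x, hx⟩
    have hpos : 0 < Fintype.card Ω := Fintype.card_pos_iff.2 ⟨a⟩
    rw [he, index_stabilizer, horb, Set.ncard_compl, Set.ncard_singleton, Nat.card_eq_fintype_card]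
    omega
  have hKcard : Nat.card K = H.index := hKc.index_eq_card.symm
  -- the regular normal subgroup
  have hfree : ∀ x ∈ N, ∀ y : Ω, x • y = y → x = 1 := by
    intro x hx y hy
    have h : (⟨x, hx⟩ : N) ∈ stabilizer N y := hy
    rw [hNr y, mem_bot] at h
    exact congrArg Subtype.val h
  have hbij : Function.Bijective fun x : N => (x : G) • a := by
    refine ⟨fun x y e => ?_, fun y => ?_⟩
    · have h := hfree _ (N.mul_mem (N.inv_mem y.2) x.2) a (by
        rw [mul_smul]; exact inv_smul_eq_iff.2 e)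
      exact Subtype.ext (inv_mul_eq_one.1 h).symm
    · obtain ⟨x, hx⟩ := hNt.exists_smul_eq a y
      exact ⟨x, hx⟩
  have hconja : ∀ x : G0, ∀ u : G, ((x : G) * u * (x : G)⁻¹) • a = (x : G) • u • a := by
    intro x u
    rw [mul_smul, mul_smul]
    exact congrArg (fun w => (x : G) • u • w) (inv_smul_eq_iff.2 (x.2 : (x : G) • a = a).symm)
  -- an element of prime order fixing a and b
  obtain ⟨r, hr, hrH⟩ := Nat.exists_prime_and_dvd (n := Nat.card H) (fun h => hH1 (Subgroup.card_eq_one.1 h))
  have := Fact.mk hr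
  obtain ⟨h, hh⟩ := exists_prime_orderOf_dvd_card' r hrH
  have hhr : orderOf (h : G0) = r := by rw [Subgroup.orderOf_coe]; exact hh
  have hhG : orderOf ((h : G0) : G) = r := by rw [Subgroup.orderOf_coe]; exact hhr
  have hhb : ((h : G0) : G) • b = b := (hmemH _).1 h.2
  have hha : ((h : G0) : G) • a = a := (h : G0).2
  have hh1 : ((h : G0) : G) ≠ 1 := fun e => hr.ne_one (by rw [← hhG, e, orderOf_one])
  have hhfix : ∀ y, ((h : G0) : G) • y = y → y = a ∨ y = b := by
    intro y hy
    by_contra hcon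
    push Not at hcon
    exact hh1 (h3 _ a b y hab (Ne.symm hcon.2) (Ne.symm hcon.1) hha hhb hy)
  obtain ⟨n0, hn0⟩ := hbij.2 b
  have hn01 : (n0 : G) ≠ 1 := fun e => hab (by rw [← hn0]; show a = (n0 : G) • a; rw [e, one_smul])
  have hcomm : ((h : G0) : G) * n0 * ((h : G0) : G)⁻¹ = n0 := by
    refine congrArg Subtype.val (hbij.1 (a₁ := ⟨_, hNn.conj_mem n0 n0.2 ((h : G0) : G)⟩) (a₂ := n0) ?_)
    show (((h : G0) : G) * n0 * ((h : G0) : G)⁻¹) • a = (n0 : G) • a
    rw [hconja]
    show ((h : G0) : G) • (fun x : N => (x : G) • a) n0 = _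
    rw [hn0, hhb]
    exact hn0.symm
  have hsq : ∀ x : N, x * x = 1 := by
    intro x
    have h0 : (n0 : G) * n0 = 1 := by
      have hy : ((h : G0) : G) • (((n0 : G) * n0) • a) = ((n0 : G) * n0) • a := by
        rw [← hconja, ← conj_mul, hcomm]
      rcases hhfix _ hy with e | e
      · exact hfree _ (N.mul_mem n0.2 n0.2) a e
      · exfalso
        have := congrArg Subtype.val (hbij.1 (a₁ := n0 * n0) (a₂ := n0) (e.trans hn0.symm))
        exact hn01 (mul_left_cancel (a := (n0 : G)) (this.trans (mul_one _).symm))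
    by_cases hx : x = 1
    · rw [hx, one_mul]
    have hxa : (x : G) • a ≠ a := fun e => hx (Subtype.ext (hfree _ x.2 a e))
    obtain ⟨u, hu⟩ := hmove _ hxa
    have he := congrArg Subtype.val (hbij.1 (a₁ := ⟨_, hNn.conj_mem n0 n0.2 (u : G)⟩) (a₂ := x) (by
      show ((u : G) * n0 * (u : G)⁻¹) • a = (x : G) • a
      rw [hconja]
      show (u : G) • (fun y : N => (y : G) • a) n0 = _
      rw [hn0, hu]))
    refine Subtype.ext ?_
    show (x : G) * x = 1
    rw [← he]
    calc _ = (u : G) * ((n0 : G) * n0) * (u : G)⁻¹ := by group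
      _ = 1 := by rw [h0]; group
  let _ : CommGroup N := { (inferInstance : Group N) with
    mul_comm := fun x y => by
      have e : ∀ w : N, w⁻¹ = w := fun w => inv_eq_of_mul_eq_one_right (hsq w)
      calc x * y = (x * y)⁻¹ := (e _).symm
        _ = y * x := by rw [mul_inv_rev, e, e] }
  -- an invariant subgroup of prime order of the kernel
  have hK1 : Nat.card K ≠ 1 := by
    rw [hKcard]
    intro e
    exact hfrob.2.1 (index_eq_one.1 e)
  obtain ⟨p, hp, hpK⟩ := Nat.exists_prime_and_dvd hK1
  have := Fact.mk hp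
  obtain ⟨P, hP⟩ := Cfsg.Lib.Solv.exists_invariant_sylow (zpowers (h : G0)) K le_normalizer_of_normal
    (by
      rw [Nat.card_zpowers, hhr, hKcard]
      exact (Cfsg.Lib.Solv.frob_coprime_index hfrob).coprime_dvd_left hrH)
    (Or.inl (Group.isSolvable_of_comm fun x y => IsMulCommutative.is_comm.comm x y)) p
  let Q : Subgroup G := ((P : Subgroup K).map K.subtype).map G0.subtype
  have hQp : IsPGroup p Q := (P.isPGroup'.map _).map _
  have : Nontrivial Q := by
    refine (Subgroup.nontrivial_iff_ne_bot _).2 ?_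
    simp only [Q, ne_eq, Subgroup.map_eq_bot_iff_of_injective _ (Subgroup.subtype_injective _)]
    exact P.ne_bot_of_dvd_card hpK
  let Z : Subgroup G := (center Q).map Q.subtype
  have hZK : ∀ x ∈ Z, ∃ k ∈ K, (k : G) = x := by
    rintro _ ⟨⟨_, k, ⟨k', -, rfl⟩, rfl⟩, -, rfl⟩
    exact ⟨k', k'.2, rfl⟩
  have hVab : IsMulCommutative N := ⟨⟨mul_comm⟩⟩
  have hcyc : IsCyclic Z := by
    refine Cfsg.Lib.Solv.fpf_isCyclic Z N ?_ le_normalizer_of_normal ?_ (Or.inl ?_)
    · exact fun e => hn01 ((Subgroup.mem_bot).1 (e ▸ n0.2))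
    · intro x hx hx1
      rw [eq_bot_iff]
      intro y hy
      rw [mem_bot]
      by_contra hy1
      obtain ⟨k, hk, rfl⟩ := hZK x hx
      refine hKfree k hk (fun e => hx1 (by rw [e]; rfl)) (y • a) (fun e => hy1 (hfree y hy.1 a e)) ?_
      have hc : y * (k : G) = k * y := Subgroup.mem_centralizer_singleton_iff.1 hy.2
      rw [← mul_smul, ← hc, mul_smul]
      exact congrArg (y • ·) k.2
    · refine ⟨⟨?_⟩⟩
      rintro ⟨_, u, hu, rfl⟩ ⟨_, v, hv, rfl⟩
      exact Subtype.ext (congrArg (fun w : Q => (w : G)) (Subgroup.mem_center_iff.1 hv u))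
  have : Nontrivial (center Q) := hQp.center_nontrivial
  have hZp : p ∣ Nat.card Z := by
    rw [Subgroup.card_map_of_injective Q.subtype_injective]
    obtain ⟨n, hn⟩ := (hQp.to_subgroup (center Q)).exists_card_eq
    rcases n with _ | n
    · rw [pow_zero] at hn
      exact absurd hn (Finite.one_lt_card.ne')
    · rw [hn]; exact dvd_pow_self p (by omega)
  obtain ⟨z, hz⟩ := exists_prime_orderOf_dvd_card' p hZp
  have hQnorm : ∀ x : G, x ∈ Q → ((h : G0) : G) * x * ((h : G0) : G)⁻¹ ∈ Q := by
    rintro _ ⟨x, hx, rfl⟩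
    exact ⟨_, (Subgroup.mem_normalizer_iff.1 (hP (mem_zpowers _)) x).1 hx, rfl⟩
  have hQnorm' : ∀ x : G, x ∈ Q → ((h : G0) : G)⁻¹ * x * ((h : G0) : G) ∈ Q := by
    rintro _ ⟨x, hx, rfl⟩
    refine ⟨_, (Subgroup.mem_normalizer_iff.1 (hP ((zpowers (h : G0)).inv_mem (mem_zpowers _))) x).1 hx, ?_⟩
    simp
  have hzh : ((h : G0) : G) * (z : G) * ((h : G0) : G)⁻¹ ∈ Z := by
    obtain ⟨u, hu, hue⟩ := z.2
    rw [← hue]
    refine ⟨⟨_, hQnorm _ u.2⟩, ?_, rfl⟩
    rw [SetLike.mem_coe, Subgroup.mem_center_iff]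
    intro v
    have hcv := congrArg Subtype.val (Subgroup.mem_center_iff.1 hu ⟨_, hQnorm' _ v.2⟩)
    simp only [Subgroup.coe_mul] at hcv
    refine Subtype.ext ?_
    show (v : G) * (((h : G0) : G) * (u : G) * ((h : G0) : G)⁻¹) =
      ((h : G0) : G) * (u : G) * ((h : G0) : G)⁻¹ * (v : G)
    calc _ = ((h : G0) : G) * ((((h : G0) : G)⁻¹ * (v : G) * ((h : G0) : G)) * (u : G)) * ((h : G0) : G)⁻¹ := by group
      _ = _ := by rw [hcv]; group
  obtain ⟨t, ht⟩ : ∃ t : ℕ, (z : G) ^ t = ((h : G0) : G) * (z : G) * ((h : G0) : G)⁻¹ := by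
    have := Fintype.ofFinite Z
    have hle := IsCyclic.card_pow_eq_one_le (α := Z) hp.pos
    have hsub : (zpowers z : Set Z).toFinset ⊆ Finset.univ.filter fun x : Z => x ^ p = 1 := by
      intro x hx
      obtain ⟨i, rfl⟩ := Set.mem_toFinset.1 hx
      rw [Finset.mem_filter]
      refine ⟨Finset.mem_univ _, ?_⟩
      rw [← zpow_natCast, ← zpow_mul, mul_comm, zpow_mul, zpow_natCast, ← hz, pow_orderOf_eq_one, one_zpow]
    have heq' := Finset.eq_of_subset_of_card_le hsub (hle.trans (by
      rw [Set.toFinset_card, ← Nat.card_eq_fintype_card]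
      exact le_of_eq ((Nat.card_zpowers z).trans hz).symm))
    have hm : (⟨_, hzh⟩ : Z) ∈ (zpowers z : Set Z).toFinset := by
      rw [heq', Finset.mem_filter]
      refine ⟨Finset.mem_univ _, Subtype.ext ?_⟩
      show (((h : G0) : G) * (z : G) * ((h : G0) : G)⁻¹) ^ p = 1
      rw [conj_pow, ← hz, ← Subgroup.orderOf_coe, pow_orderOf_eq_one, mul_one, mul_inv_cancel]
    obtain ⟨i, hi⟩ := mem_powers_iff_mem_zpowers.2 (Set.mem_toFinset.1 hm)
    exact ⟨i, congrArg Subtype.val hi⟩
  let φ : G →* AddMonoid.End (Additive N) :=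
    { toFun := fun x => MonoidHom.toAdditive (MulAut.conjNormal x : N ≃* N).toMonoidHom
      map_one' := by
        refine AddMonoidHom.ext fun e => ?_
        show Additive.ofMul (MulAut.conjNormal (1 : G) (Additive.toMul e)) = e
        simp
      map_mul' := fun x y => by
        refine AddMonoidHom.ext fun e => ?_
        show Additive.ofMul (MulAut.conjNormal (x * y) (Additive.toMul e)) = _
        rw [map_mul]
        rfl }
  have hφ : ∀ (x : G) (e : Additive N), φ x e = e ↔ x * ((Additive.toMul e : N) : G) * x⁻¹ = (Additive.toMul e : N) := by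
    intro x e
    constructor
    · intro he
      exact congrArg (fun w : Additive N => ((Additive.toMul w : N) : G)) he
    · intro he
      exact congrArg Additive.ofMul (Subtype.ext he)
  have hzG : orderOf (z : G) = p := by rw [Subgroup.orderOf_coe]; exact hz
  have hcard := card_eq_two_pow (E := Additive N) (fun e => by
      rw [two_nsmul]; exact congrArg Additive.ofMul (hsq (Additive.toMul e)))
    (φ z) (φ ((h : G0) : G)) p r t (by rw [← map_pow, ← hzG, pow_orderOf_eq_one, map_one])
    (by rw [← map_pow, ← hhG, pow_orderOf_eq_one, map_one])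
    (by rw [← map_pow, ← map_mul, ← map_mul, ht]; congr 1; group)
    (fun e he i hi => by
      rw [← map_pow, hφ] at hi
      rw [← hzG, orderOf_dvd_iff_pow_eq_one]
      by_contra hne
      obtain ⟨k, hk, hkz⟩ := hZK _ (Z.pow_mem z.2 i)
      set y : G := ((Additive.toMul e : N) : G) with hy
      have hy1 : y ≠ 1 := fun e' => he (congrArg Additive.ofMul (Subtype.ext e' : Additive.toMul e = 1))
      refine hKfree k hk (fun e' => hne (by rw [← hkz, e']; rfl)) (y • a)
        (fun e' => hy1 (hfree y (Additive.toMul e).2 a e')) ?_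
      rw [← hconja, hkz, hi])
    (Additive.ofMul n0) (fun e => hn01 (congrArg (fun w : Additive N => ((Additive.toMul w : N) : G)) e))
    (fun e => by
      rw [hφ]
      set x : N := Additive.toMul e with hx
      constructor
      · intro he
        have hy : ((h : G0) : G) • ((x : G) • a) = (x : G) • a := by rw [← hconja, he]
        rcases hhfix _ hy with e' | e'
        · exact Or.inl (congrArg Additive.ofMul (Subtype.ext (hfree _ x.2 a e') : x = 1))
        · exact Or.inr (congrArg Additive.ofMul (hbij.1 (e'.trans hn0.symm) : x = n0))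
      · rintro (e' | e')
        · have : x = 1 := congrArg Additive.toMul e'
          rw [this]
          simp
        · have : x = n0 := congrArg Additive.toMul e'
          rw [this]
          exact hcomm)
  refine ⟨r, hr, ?_⟩
  rw [← hcard, Nat.card_congr Additive.toMul, Nat.card_congr (Equiv.ofBijective _ hbij), Nat.card_eq_fintype_card]

end helper


/-- If a finite group acts faithfully and doubly transitively, no non-identity element fixes three points, some
non-identity element fixes two points, and some normal subgroup acts regularly, then the number of points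
is `2^p` with `p` prime. -/
theorem result {G Ω : Type*} [Group G]
    [MulAction G Ω] [Fintype Ω] [FaithfulSMul G Ω] (h2 : MulAction.IsMultiplyPretransitive G Ω 2)
    (h3 : ∀ g : G, ∀ a b c : Ω, a ≠ b → b ≠ c → a ≠ c → g • a = a → g • b = b → g • c = c → g = 1)
    (hfix : ∃ g : G, g ≠ 1 ∧ ∃ a b : Ω, a ≠ b ∧ g • a = a ∧ g • b = b)
    (N : Subgroup G) [N.Normal] (hNt : MulAction.IsPretransitive N Ω)
    (hNr : ∀ a : Ω, MulAction.stabilizer N a = ⊥) :
    ∃ p : ℕ, p.Prime ∧ Fintype.card Ω = 2 ^ p := by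
  exact two_pow_prime h2 h3 hfix N hNt hNr

end Cfsg.Agent.S0341
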