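import Cfsg.Statements.S0351
import Mathlib

set_option autoImplicit false
open Cfsg

namespace Cfsg.Agent.S0351

/-- Derived design: removing a point p from the blocks through p of an S(t+1, k+1, v) yields an S(t, k, v-1) on the points other than p. -/
theorem result {α : Type*} [Fintype α] [DecidableEq α] {t k : ℕ} {B : Set (Finset α)} (hB : Cfsg.IsSteinerSystem (t + 1) (k + 1) B) (p : α) : Cfsg.IsSteinerSystem t k {b' : Finset {a : α // a ≠ p} | ∃ b ∈ B, p ∈ b ∧ b' = Finset.subtype (fun a => a ≠ p) b} := by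
  obtain ⟨h1, h2⟩ := hB
  refine ⟨?_, fun s hs => ?_⟩
  · rintro b' ⟨b, hb, hpb, rfl⟩
    rw [Finset.card_subtype, Finset.filter_ne' b p, Finset.card_erase_of_mem hpb, h1 b hb]
    omega
  · have hp : p ∉ s.map (Function.Embedding.subtype _) := by simp
    have hc : (insert p (s.map (Function.Embedding.subtype _))).card = t + 1 := by
      rw [Finset.card_insert_of_notMem hp, Finset.card_map, hs]
    obtain ⟨b, ⟨hb, hsb⟩, huniq⟩ := h2 _ hc
    refine ⟨Finset.subtype (fun a => a ≠ p) b,
      ⟨⟨b, hb, hsb (Finset.mem_insert_self _ _), rfl⟩, fun x hx => ?_⟩, ?_⟩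
    · rw [Finset.mem_subtype]
      exact hsb (Finset.mem_insert_of_mem (Finset.mem_map.2 ⟨x, hx, rfl⟩))
    · rintro c' ⟨⟨c, hc', hpc, rfl⟩, hsc⟩
      rw [huniq c ⟨hc', ?_⟩]
      intro x hx
      rcases Finset.mem_insert.1 hx with rfl | hx
      · exact hpc
      · obtain ⟨y, hy, rfl⟩ := Finset.mem_map.1 hx
        exact Finset.mem_subtype.1 (hsc hy)

end Cfsg.Agent.S0351
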