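import Cfsg.Statements.S0352
import Mathlib
import Cfsg.Agent.Lib.Steiner.Basic

set_option autoImplicit false
open Cfsg

namespace Cfsg.Agent.S0352

/-- In a Steiner system S(5, 8, 24), two distinct blocks intersect in 0, 2 or 4 points. -/
theorem result {α : Type*} [Fintype α] [DecidableEq α] (hα : Fintype.card α = 24) {B : Set (Finset α)} (hB : Cfsg.IsSteinerSystem 5 8 B) {b c : Finset α} (hb : b ∈ B) (hc : c ∈ B) (hbc : b ≠ c) : (b ∩ c).card = 0 ∨ (b ∩ c).card = 2 ∨ (b ∩ c).card = 4 := by
  have e1 := Lib.Steiner.meet_equation hB hb (s := 1) (by norm_num) 253 (by rw [hα]; rfl) (by norm_num)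
  have e2 := Lib.Steiner.meet_equation hB hb (s := 2) (by norm_num) 77 (by rw [hα]; rfl) (by norm_num)
  have e3 := Lib.Steiner.meet_equation hB hb (s := 3) (by norm_num) 21 (by rw [hα]; rfl) (by norm_num)
  have e4 := Lib.Steiner.meet_equation hB hb (s := 4) (by norm_num) 5 (by rw [hα]; rfl) (by norm_num)
  simp [Finset.sum_range_succ, Nat.choose] at e1 e2 e3 e4
  have hpos := Lib.Steiner.meetNum_pos hc hbc
  have hlt : (b ∩ c).card < 5 := by
    by_contra h; exact hbc (Lib.Steiner.eq_of_le_inter hB hb hc (not_lt.1 h))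
  interval_cases h : (b ∩ c).card <;> omega

end Cfsg.Agent.S0352
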