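import Cfsg.Statements.S0353
import Cfsg.Agent.Lib.Steiner.Basic
-- import your own Cfsg.Agent.* helpers here

set_option autoImplicit false
open Cfsg

namespace Cfsg.Agent.S0353

/-- In an S(5, 8, 24), the symmetric difference of two blocks meeting in four points is a block. -/
theorem result {α : Type*} [Fintype α] [DecidableEq α] (hα : Fintype.card α = 24) {B : Set (Finset α)} (hB : Cfsg.IsSteinerSystem 5 8 B) {b c : Finset α} (hb : b ∈ B) (hc : c ∈ B) (h4 : (b ∩ c).card = 4) : symmDiff b c ∈ B := by
  classical
  open Cfsg.Lib.Steiner Finset in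
  exact by
    have hb8 := card_of_mem hB hb
    have hc8 := card_of_mem hB hc
    have hne : b ≠ c := fun e => by rw [← e, inter_self, hb8] at h4; omega
    have hparity : ∀ x ∈ B, ∀ y ∈ B, x ≠ y → (x ∩ y).card = 0 ∨ (x ∩ y).card = 2 ∨ (x ∩ y).card = 4 := by
      intro x hx y hy hxy
      have h1 := meet_equation hB hx (show 1 ≤ 5 by norm_num) 253 (by rw [hα]; decide) (by norm_num)
      have h2 := meet_equation hB hx (show 2 ≤ 5 by norm_num) 77 (by rw [hα]; decide) (by norm_num)
      have h3 := meet_equation hB hx (show 3 ≤ 5 by norm_num) 21 (by rw [hα]; decide) (by norm_num)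
      have h4' := meet_equation hB hx (show 4 ≤ 5 by norm_num) 5 (by rw [hα]; decide) (by norm_num)
      simp only [Finset.sum_range_succ, Finset.sum_range_zero] at h1 h2 h3 h4'
      norm_num [Nat.choose_eq_zero_of_lt, show Nat.choose 4 2 = 6 by decide, show Nat.choose 8 2 = 28 by decide,
        show Nat.choose 8 3 = 56 by decide, show Nat.choose 8 4 = 70 by decide, show Nat.choose 3 2 = 3 by decide,
        show Nat.choose 4 3 = 4 by decide] at h1 h2 h3 h4'
      have hlt : (x ∩ y).card < 5 := lt_of_not_ge fun h => hxy (eq_of_le_inter hB hx hy h)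
      have hpos := meetNum_pos (b := x) hy hxy
      interval_cases h : (x ∩ y).card <;> omega
    set T := b ∩ c with hT
    set F := (blocks B).filter fun e => T ⊆ e with hF
    have hFm : ∀ e ∈ F, e ∈ B ∧ T ⊆ e := fun e he =>
      ⟨mem_blocks.1 (Finset.mem_filter.1 he).1, (Finset.mem_filter.1 he).2⟩
    have hFc : F.card = 5 := by
      have h := through_mul hB T (le_of_eq h4 |>.trans (by norm_num))
      rw [h4, hα] at h
      norm_num at h
      rw [← hF] at h
      omega
    have hbF : b ∈ F := Finset.mem_filter.2 ⟨mem_blocks.2 hb, inter_subset_left⟩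
    have hcF : c ∈ F := Finset.mem_filter.2 ⟨mem_blocks.2 hc, inter_subset_right⟩
    have hdisj : ∀ e ∈ F, ∀ f ∈ F, e ≠ f → Disjoint (e \ T) (f \ T) := by
      intro e he f hf hef
      rw [Finset.disjoint_left]
      intro p hpe hpf
      rw [Finset.mem_sdiff] at hpe hpf
      refine hef (eq_of_le_inter hB (hFm e he).1 (hFm f hf).1 ?_)
      have : insert p T ⊆ e ∩ f := by
        intro q hq
        rcases Finset.mem_insert.1 hq with rfl | hq
        · exact Finset.mem_inter.2 ⟨hpe.1, hpf.1⟩
        · exact Finset.mem_inter.2 ⟨(hFm e he).2 hq, (hFm f hf).2 hq⟩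
      refine le_trans ?_ (Finset.card_le_card this)
      rw [Finset.card_insert_of_notMem hpe.2, h4]
    have h1c : (b \ T).card = 4 := by rw [Finset.card_sdiff_of_subset inter_subset_left, hb8, h4]
    have h2c : (c \ T).card = 4 := by rw [Finset.card_sdiff_of_subset inter_subset_right, hc8, h4]
    obtain ⟨S, hS, hS3⟩ := Finset.exists_subset_card_eq (show 3 ≤ (b \ T).card by omega)
    have key : ∀ d ∈ B, S ⊆ d → ∀ y z, y ∈ c \ T → z ∈ c \ T → y ≠ z → y ∈ d → z ∈ d → b \ T ⊆ d := by
      intro d hd hSd y z hy hz hyz hyd hzd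
      by_contra hsub
      have hdb : d ≠ b := fun e => by
        rw [e] at hyd
        rw [Finset.mem_sdiff, hT, Finset.mem_inter] at hy
        exact hy.2 ⟨hyd, hy.1⟩
      have hdF : d ∉ F := fun h => by
        have hs := hdisj d h b hbF hdb
        obtain ⟨p, hp⟩ := Finset.card_pos.1 (show 0 < S.card by omega)
        exact Finset.disjoint_left.1 hs (Finset.mem_sdiff.2 ⟨hSd hp, (Finset.mem_sdiff.1 (hS hp)).2⟩) (hS hp)
      have hsplit : ∀ e ∈ F, (d ∩ e).card = (d ∩ T).card + (d ∩ (e \ T)).card := by
        intro e he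
        rw [← Finset.card_union_of_disjoint (Finset.disjoint_of_subset_left inter_subset_right
          (Finset.disjoint_of_subset_right inter_subset_right Finset.disjoint_sdiff)), ← Finset.inter_union_distrib_left,
          Finset.union_sdiff_of_subset (hFm e he).2]
      have hS1 : (d ∩ (b \ T)).card = 3 := by
        have h1 : 3 ≤ (d ∩ (b \ T)).card := hS3 ▸ Finset.card_le_card (Finset.subset_inter hSd hS)
        have h2 : (d ∩ (b \ T)).card < 4 := by
          rw [← h1c]
          refine Finset.card_lt_card (Finset.ssubset_iff_subset_ne.2 ⟨inter_subset_right, fun e => hsub ?_⟩)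
          rw [← e]; exact inter_subset_left
        omega
      have hS2 : 2 ≤ (d ∩ (c \ T)).card := by
        rw [← Finset.card_pair hyz]
        refine Finset.card_le_card ?_
        simp [Finset.insert_subset_iff, hyd, hzd, hy, hz]
      have hpar : ∀ e ∈ F, (d ∩ e).card = 0 ∨ (d ∩ e).card = 2 ∨ (d ∩ e).card = 4 := fun e he =>
        hparity d hd e (hFm e he).1 fun h => hdF (h ▸ he)
      have hT1 : (d ∩ T).card = 1 := by
        have := hsplit b hbF
        have := hpar b hbF
        omega
      have hge : ∀ e ∈ F, 1 ≤ (d ∩ (e \ T)).card := fun e he => by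
        have := hsplit e he
        have := hpar e he
        omega
      have hc3 : 3 ≤ (d ∩ (c \ T)).card := by
        have := hsplit c hcF
        have := hpar c hcF
        omega
      have hsum : ∑ e ∈ F, (d ∩ (e \ T)).card + 1 ≤ 8 := by
        rw [← Finset.card_biUnion fun e he f hf hef => Finset.disjoint_of_subset_left inter_subset_right
          (Finset.disjoint_of_subset_right inter_subset_right (hdisj e he f hf hef)), ← hT1,
          ← Finset.card_union_of_disjoint, ← card_of_mem hB hd]
        · refine Finset.card_le_card ?_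
          intro p hp
          simp only [Finset.mem_union, Finset.mem_biUnion, Finset.mem_inter] at hp
          rcases hp with ⟨e, -, hp, -⟩ | ⟨hp, -⟩ <;> exact hp
        · rw [Finset.disjoint_left]
          intro p hp hp'
          simp only [Finset.mem_biUnion, Finset.mem_inter, Finset.mem_sdiff] at hp hp'
          obtain ⟨e, -, -, -, h⟩ := hp
          exact h hp'.2
      rw [← Finset.add_sum_erase F _ hbF, ← Finset.add_sum_erase (F.erase b) _ (Finset.mem_erase.2 ⟨hne.symm, hcF⟩)] at hsum
      have h3' : 3 ≤ ∑ e ∈ (F.erase b).erase c, (d ∩ (e \ T)).card := by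
        have hk : ((F.erase b).erase c).card = 3 := by
          rw [Finset.card_erase_of_mem (Finset.mem_erase.2 ⟨hne.symm, hcF⟩), Finset.card_erase_of_mem hbF, hFc]
        have := Finset.card_nsmul_le_sum ((F.erase b).erase c) (fun e => (d ∩ (e \ T)).card) 1
          fun e he => hge e (Finset.mem_of_mem_erase (Finset.mem_of_mem_erase he))
        simpa [hk] using this
      omega
    obtain ⟨y, hy⟩ := Finset.card_pos.1 (show 0 < (c \ T).card by omega)
    have hyn : y ∉ b \ T := fun h => by
      rw [Finset.mem_sdiff, hT, Finset.mem_inter] at hy h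
      exact h.2 ⟨h.1, hy.1⟩
    obtain ⟨g, ⟨hgB, hgs⟩, hguniq⟩ := hB.2 (insert y (b \ T)) (by rw [Finset.card_insert_of_notMem hyn, h1c])
    have hall : c \ T ⊆ g := by
      intro z hz
      by_cases hzy : y = z
      · exact hzy ▸ hgs (Finset.mem_insert_self _ _)
      have hzn : z ∉ S := fun h => by
        have h' := hS h
        rw [Finset.mem_sdiff, hT, Finset.mem_inter] at hz h'
        exact h'.2 ⟨h'.1, hz.1⟩
      have hyS : y ∉ S := fun h => hyn (hS h)
      obtain ⟨d, ⟨hdB, hds⟩, -⟩ := hB.2 (insert y (insert z S))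
        (by rw [Finset.card_insert_of_notMem (by simp [hzy, hyS]), Finset.card_insert_of_notMem hzn, hS3])
      simp only [Finset.insert_subset_iff] at hds
      have h1 := key d hdB hds.2.2 y z hy hz hzy hds.1 hds.2.1
      rw [← hguniq d ⟨hdB, Finset.insert_subset hds.1 h1⟩]
      exact hds.2.1
    have hsd : symmDiff b c = (b \ T) ∪ (c \ T) := by
      ext p
      simp only [Finset.mem_symmDiff, Finset.mem_union, Finset.mem_sdiff, hT, Finset.mem_inter]
      tauto
    have heq : symmDiff b c = g := by
      rw [hsd]
      refine Finset.eq_of_subset_of_card_le (Finset.union_subset (fun p hp => hgs (Finset.mem_insert_of_mem hp)) hall) ?_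
      rw [card_of_mem hB hgB, Finset.card_union_of_disjoint (hdisj b hbF c hcF hne), h1c, h2c]
    rw [heq]
    exact hgB

end Cfsg.Agent.S0353
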