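import Cfsg.Statements.S0354
import Mathlib
import Cfsg.Agent.Lib.Steiner.Basic

set_option autoImplicit false
open Cfsg

namespace Cfsg.Agent.S0354

/-- In an S(5, 8, 24), each block is disjoint from exactly 30 blocks. -/
theorem result {α : Type*} [Fintype α] [DecidableEq α] (hα : Fintype.card α = 24) {B : Set (Finset α)} (hB : Cfsg.IsSteinerSystem 5 8 B) {b : Finset α} (hb : b ∈ B) : {c : Finset α | c ∈ B ∧ Disjoint b c}.ncard = 30 := by
  have e0 := Lib.Steiner.meet_equation hB hb (s := 0) (by norm_num) 759 (by rw [hα]; rfl) (by norm_num)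
  have e1 := Lib.Steiner.meet_equation hB hb (s := 1) (by norm_num) 253 (by rw [hα]; rfl) (by norm_num)
  have e2 := Lib.Steiner.meet_equation hB hb (s := 2) (by norm_num) 77 (by rw [hα]; rfl) (by norm_num)
  have e3 := Lib.Steiner.meet_equation hB hb (s := 3) (by norm_num) 21 (by rw [hα]; rfl) (by norm_num)
  have e4 := Lib.Steiner.meet_equation hB hb (s := 4) (by norm_num) 5 (by rw [hα]; rfl) (by norm_num)
  simp [Finset.sum_range_succ, Nat.choose] at e0 e1 e2 e3 e4
  rw [Lib.Steiner.ncard_disjoint (by rw [hB.1 b hb]; norm_num)]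
  omega

end Cfsg.Agent.S0354
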