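import Cfsg.Statements.S0357
import Mathlib
import Cfsg.Agent.Lib.Steiner.Basic

set_option autoImplicit false
open Cfsg

namespace Cfsg.Agent.S0357

/-- In a Steiner system S(5, 6, 12), the complement of every block is again a block. -/
theorem result {α : Type*} [Fintype α] [DecidableEq α] (hα : Fintype.card α = 12) {B : Set (Finset α)} (hB : Cfsg.IsSteinerSystem 5 6 B) {b : Finset α} (hb : b ∈ B) : bᶜ ∈ B := by
  have e0 := Lib.Steiner.meet_equation hB hb (s := 0) (by norm_num) 132 (by rw [hα]; rfl) (by norm_num)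
  have e1 := Lib.Steiner.meet_equation hB hb (s := 1) (by norm_num) 66 (by rw [hα]; rfl) (by norm_num)
  have e2 := Lib.Steiner.meet_equation hB hb (s := 2) (by norm_num) 30 (by rw [hα]; rfl) (by norm_num)
  have e3 := Lib.Steiner.meet_equation hB hb (s := 3) (by norm_num) 12 (by rw [hα]; rfl) (by norm_num)
  have e4 := Lib.Steiner.meet_equation hB hb (s := 4) (by norm_num) 4 (by rw [hα]; rfl) (by norm_num)
  simp [Finset.sum_range_succ, Nat.choose] at e0 e1 e2 e3 e4
  have h0 := Lib.Steiner.ncard_disjoint (B := B) (b := b) (by rw [hB.1 b hb]; norm_num)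
  have h1 : {c : Finset α | c ∈ B ∧ Disjoint b c}.ncard ≠ 0 := by omega
  obtain ⟨c, hc, hd⟩ := Set.nonempty_of_ncard_ne_zero h1
  have : c = bᶜ := by
    refine Finset.eq_of_subset_of_card_le (fun x hx => ?_) ?_
    · rw [Finset.mem_compl]; exact Finset.disjoint_right.1 hd hx
    · rw [Finset.card_compl, hB.1 b hb, hB.1 c hc, hα]
  exact this ▸ hc

end Cfsg.Agent.S0357
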