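import Cfsg.Statements.S0358
import Mathlib
import Cfsg.Agent.Lib.Golay.Code

set_option autoImplicit false
open Cfsg

namespace Cfsg.Agent.S0358

/-- The length-24 code built from the squares modulo 23 has dimension 12 over the field with two elements. -/
theorem result : Module.finrank (ZMod 2) Cfsg.golayCode = 12 := by
  have hset : (Cfsg.golayCode : Set (Cfsg.GolayPt → ZMod 2)) =
      ((Lib.Golay.spanL Lib.Golay.codeGens).toFinset.image Lib.Golay.toWord : Finset _) := by
    ext w
    simp only [SetLike.mem_coe, Finset.coe_image, List.coe_toFinset, Set.mem_image, Set.mem_ofPred_eq]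
    constructor
    · intro h
      obtain ⟨n, hn, rfl⟩ := Lib.Golay.exists_mask h
      exact ⟨n, (Lib.Golay.inCode_iff n).1 hn, rfl⟩
    · rintro ⟨n, hn, rfl⟩
      exact Lib.Golay.toWord_mem_golayCode ((Lib.Golay.inCode_iff n).2 hn)
  have hcard : Nat.card Cfsg.golayCode = 4096 := by
    have hinj : Set.InjOn Lib.Golay.toWord
        ↑(Lib.Golay.spanL Lib.Golay.codeGens).toFinset := by
      intro a ha b hb h
      simp only [List.coe_toFinset, Set.mem_ofPred_eq, ← Lib.Golay.inCode_iff] at ha hb
      rw [← Lib.Golay.setNat_toSet (Lib.Golay.lt_of_inCode ha),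
        ← Lib.Golay.setNat_toSet (Lib.Golay.lt_of_inCode hb), ← Lib.Golay.support_toWord,
        ← Lib.Golay.support_toWord, h]
    rw [← SetLike.coe_sort_coe, Nat.card_coe_set_eq, hset, Set.ncard_coe_finset,
      Finset.card_image_of_injOn hinj, List.toFinset_card_of_nodup]
    · set_option maxRecDepth 100000 in decide +kernel
    · refine List.Nodup.of_map (fun n => (List.range 12).foldl
        (fun acc i => if n.testBit i then acc ||| (1 <<< (11 - i)) else acc) 0) ?_
      have : ((Lib.Golay.spanL Lib.Golay.codeGens).map fun n => (List.range 12).foldl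
          (fun acc i => if n.testBit i then acc ||| (1 <<< (11 - i)) else acc) 0) = List.range 4096 := by
        set_option maxRecDepth 100000 in decide +kernel
      rw [this]; exact List.nodup_range
  have h := Module.natCard_eq_pow_finrank (K := ZMod 2) (V := Cfsg.golayCode)
  rw [hcard, Nat.card_zmod] at h
  exact Nat.pow_right_injective (by norm_num : 2 ≤ 2) (h.symm.trans (by norm_num))

end Cfsg.Agent.S0358
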