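import Cfsg.Statements.S0362
import Mathlib
import Cfsg.Agent.Lib.Golay.Code

set_option autoImplicit false
open Cfsg

namespace Cfsg.Agent.S0362

/-- The length-24 code is self-orthogonal: the dot product over ZMod 2 of any two of its words vanishes (with dimension 12 this makes it self-dual). -/
theorem result (v w : Cfsg.GolayPt → ZMod 2) (hv : v ∈ Cfsg.golayCode) (hw : w ∈ Cfsg.golayCode) : ∑ i, v i * w i = 0 := by
  obtain ⟨a, ha, rfl⟩ := Lib.Golay.exists_mask hv
  obtain ⟨b, hb, rfl⟩ := Lib.Golay.exists_mask hw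
  have h := Lib.Golay.card_toSet (a ^^^ b)
  have h1 := Lib.Golay.pop_cases ha
  have h2 := Lib.Golay.pop_cases hb
  have h3 := Lib.Golay.pop_cases (Lib.Golay.inCode_xor ha hb)
  have hsum : ∀ p, Lib.Golay.toWord a p * Lib.Golay.toWord b p =
      if p ∈ Lib.Golay.toSet a ∩ Lib.Golay.toSet b then 1 else 0 := by
    intro p
    simp only [Finset.mem_inter, Lib.Golay.mem_toSet, Lib.Golay.toWord]
    cases a.testBit (Lib.Golay.idx p) <;> cases b.testBit (Lib.Golay.idx p) <;> simp
  simp only [hsum, Finset.sum_boole, Finset.filter_mem_eq_inter, Finset.univ_inter]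
  have h4 := Finset.card_union_add_card_inter (Lib.Golay.toSet a) (Lib.Golay.toSet b)
  have h5 : (symmDiff (Lib.Golay.toSet a) (Lib.Golay.toSet b)).card +
      (Lib.Golay.toSet a ∩ Lib.Golay.toSet b).card =
      (Lib.Golay.toSet a ∪ Lib.Golay.toSet b).card := by
    rw [symmDiff_eq_sup_sdiff_inf, Finset.sup_eq_union, Finset.inf_eq_inter]
    exact Finset.card_sdiff_add_card_eq_card fun x hx =>
      Finset.mem_union_left _ (Finset.mem_inter.1 hx).1
  rw [Lib.Golay.card_toSet, Lib.Golay.card_toSet] at h4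
  rw [← Lib.Golay.toSet_xor, Lib.Golay.card_toSet] at h5
  rw [ZMod.natCast_eq_zero_iff_even, Nat.even_iff]
  omega

end Cfsg.Agent.S0362
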