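import Cfsg.Statements.S0371
import Mathlib
import Cfsg.Agent.Lib.Golay.M24

set_option autoImplicit false
open Cfsg

namespace Cfsg.Agent.S0371

/-- Multiplication by a nonzero square residue modulo 23, fixing the extra point, lies in the group of the length-24 code. -/
theorem result (u : (ZMod 23)ˣ) (hu : IsSquare u) : Equiv.optionCongr (Units.mulLeft u) ∈ Cfsg.M24 := by
  obtain ⟨r, hr⟩ := hu
  have key : ∀ u : ZMod 23, (∃ r : ZMod 23, u = r * r) → u ≠ 0 →
      ∃ k : Fin 11, u = 2 ^ (k : ℕ) := by decide +kernel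
  haveI : Fact (Nat.Prime 23) := ⟨by norm_num⟩
  obtain ⟨k, hk⟩ := key (u : ZMod 23) ⟨r, by rw [hr]; rfl⟩ u.ne_zero
  have hu' : u = (ZMod.unitOfCoprime 2 (by decide) : (ZMod 23)ˣ) ^ (k : ℕ) := by
    ext; rw [hk, Units.val_pow_eq_pow_val]; simp
  have hpow : ∀ n : ℕ, ∀ v : (ZMod 23)ˣ, Equiv.optionCongr (Units.mulLeft (v ^ n)) =
      (Equiv.optionCongr (Units.mulLeft v)) ^ n := by
    intro n v
    induction n with
    | zero => ext1 p; cases p <;> simp
    | succ n ih =>
      rw [pow_succ' (Equiv.optionCongr (Units.mulLeft v)), ← ih, pow_succ' v]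
      ext1 p; cases p <;> simp [mul_assoc]
  rw [hu', hpow]
  refine Subgroup.pow_mem _ ?_ _
  rw [Lib.Golay.double_eq]
  exact Lib.Golay.permOf_mem_M24 (by decide +kernel)

end Cfsg.Agent.S0371
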