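import Cfsg.Statements.S0376
import Mathlib
import Cfsg.Agent.Lib.Golay.M24

set_option autoImplicit false
open Cfsg

namespace Cfsg.Agent.S0376

/-- A point stabiliser in the group of the length-24 code has order 10200960 = 2^7·3^2·5·7·11·23. -/
theorem result (p : Cfsg.GolayPt) : Nat.card (MulAction.stabilizer Cfsg.M24 p) = 10200960 := by
  have hT : MulAction.IsPretransitive Cfsg.M24 Cfsg.GolayPt := by
    refine ⟨fun a b => ?_⟩
    obtain ⟨g, hg, hga⟩ := Lib.Golay.exists_tuple_to_base (show 1 ≤ 5 by norm_num)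
      ⟨fun _ => a, fun i j _ => Subsingleton.elim i j⟩
    obtain ⟨k, hk, hkb⟩ := Lib.Golay.exists_tuple_to_base (show 1 ≤ 5 by norm_num)
      ⟨fun _ => b, fun i j _ => Subsingleton.elim i j⟩
    refine ⟨⟨k⁻¹ * g, Subgroup.mul_mem _ (Subgroup.inv_mem _ hk) hg⟩, ?_⟩
    change k⁻¹ (g a) = b
    rw [show g a = _ from hga 0, ← show k b = _ from hkb 0]
    exact k.symm_apply_apply b
  have h := Nat.card_congr (MulAction.orbitProdStabilizerEquivGroup Cfsg.M24 p)
  rw [Nat.card_prod, MulAction.orbit_eq_univ, Nat.card_univ, Lib.Golay.card_M24] at h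
  have h24 : Nat.card Cfsg.GolayPt = 24 := by
    rw [Nat.card_eq_fintype_card, Fintype.card_option, ZMod.card]
  rw [h24] at h
  exact Nat.eq_of_mul_eq_mul_left (by norm_num : 0 < 24) (h.trans (by norm_num))

end Cfsg.Agent.S0376
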