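import Cfsg.Statements.S0377
import Cfsg.Agent.Lib.Golay.Simple

set_option autoImplicit false
open Cfsg

namespace Cfsg.Agent.S0377

/-- A point stabiliser in the group of the length-24 code is simple. -/
theorem result (p : Cfsg.GolayPt) : IsSimpleGroup (MulAction.stabilizer Cfsg.M24 p) := by
  haveI := Cfsg.Lib.Golay.Simp.isSimpleGroup_fixer (A := {p}) (by simp)
  let e : ↥(MulAction.stabilizer Cfsg.M24 p) ≃* ↥(Cfsg.Lib.Golay.fixer {p}) :=
    { toFun := fun g => ⟨((g : Cfsg.M24) : Equiv.Perm Cfsg.GolayPt), (g : Cfsg.M24).2, fun a ha => by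
        rw [Finset.mem_singleton] at ha; subst ha; exact g.2⟩
      invFun := fun g => ⟨⟨(g : Equiv.Perm Cfsg.GolayPt), g.2.1⟩, g.2.2 p (Finset.mem_singleton_self p)⟩
      left_inv := fun _ => rfl
      right_inv := fun _ => rfl
      map_mul' := fun _ _ => rfl }
  exact e.isSimpleGroup

end Cfsg.Agent.S0377
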