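import Cfsg.Statements.S0383
import Cfsg.Agent.Lib.Golay.DodGroups

set_option autoImplicit false
open scoped Pointwise
open Cfsg

namespace Cfsg.Agent.S0383

/-- A dodecad stabiliser in the group of the length-24 code is simple. -/
theorem result (d : Finset Cfsg.GolayPt) (hd : d ∈ Cfsg.dodecads) : IsSimpleGroup (MulAction.stabilizer Cfsg.M24 d) := by
  obtain ⟨p₀, hp₀⟩ : d.Nonempty := Finset.card_pos.1 (by rw [show d.card = 12 from hd.2]; norm_num)
  obtain ⟨τ, hτ, rfl, hp'⟩ := Cfsg.Lib.Golay.Chain.exists_move hd hp₀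
  have := Cfsg.Lib.Golay.Chain.isSimpleGroup_G12
  exact (Cfsg.Lib.Golay.Chain.equivG12 τ hτ).symm.isSimpleGroup

end Cfsg.Agent.S0383
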