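import Cfsg.Statements.S0384
import Cfsg.Agent.Lib.Golay.DodGroups

set_option autoImplicit false
open scoped Pointwise
open Cfsg

namespace Cfsg.Agent.S0384

/-- A dodecad stabiliser is sharply 5-transitive on the dodecad. -/
theorem result (d : Finset Cfsg.GolayPt) (hd : d ∈ Cfsg.dodecads) (x y : Fin 5 ↪ Cfsg.GolayPt) (hx : ∀ i, x i ∈ d) (hy : ∀ i, y i ∈ d) : ∃! g : MulAction.stabilizer Cfsg.M24 d, ∀ i, ((g : Cfsg.M24) : Equiv.Perm Cfsg.GolayPt) (x i) = y i := by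
  obtain ⟨p₀, hp₀⟩ : d.Nonempty := Finset.card_pos.1 (by rw [show d.card = 12 from hd.2]; norm_num)
  obtain ⟨τ, hτ, rfl, hp'⟩ := Cfsg.Lib.Golay.Chain.exists_move hd hp₀
  open Cfsg.Lib.Golay.Chain in
  have hin : ∀ z : Fin 5 ↪ Cfsg.GolayPt, (∀ i, z i ∈ τ • Cfsg.Lib.Golay.toSet Cfsg.Lib.Golay.baseDod) →
      ∀ i, τ⁻¹ (z i) ∈ Cfsg.Lib.Golay.toSet Cfsg.Lib.Golay.baseDod := fun z hz i => Finset.inv_smul_mem_iff.2 (hz i)
  obtain ⟨g, hg, hge⟩ := Cfsg.Lib.Golay.Chain.trans12 (k := 5) le_rfl (x.trans (τ⁻¹).toEmbedding) (y.trans (τ⁻¹).toEmbedding)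
    (hin x hx) (hin y hy)
  have hge' : ∀ i, g (τ⁻¹ (x i)) = τ⁻¹ (y i) := hge
  refine ⟨Cfsg.Lib.Golay.Chain.equivG12 τ hτ ⟨g, hg⟩, fun i => ?_, fun h hh => ?_⟩
  · show (τ * g * τ⁻¹) (x i) = y i
    rw [Equiv.Perm.mul_apply, Equiv.Perm.mul_apply, hge']
    exact τ.apply_symm_apply _
  · apply (Cfsg.Lib.Golay.Chain.equivG12 τ hτ).symm.injective
    rw [MulEquiv.symm_apply_apply]
    apply Subtype.ext
    refine Cfsg.Lib.Golay.Chain.sharp12.2 (x.trans (τ⁻¹).toEmbedding) (hin x hx) _ (Subtype.prop _) g hg fun i => ?_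
    show (τ⁻¹ * ((h : Cfsg.M24) : Equiv.Perm Cfsg.GolayPt) * τ) (τ⁻¹ (x i)) = g (τ⁻¹ (x i))
    rw [hge', Equiv.Perm.mul_apply, Equiv.Perm.mul_apply, show τ (τ⁻¹ (x i)) = x i from τ.apply_symm_apply _, hh]

end Cfsg.Agent.S0384
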