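import Cfsg.Statements.S0385
import Mathlib
import Cfsg.Agent.Lib.Golay.Octads

set_option autoImplicit false
open Cfsg

namespace Cfsg.Agent.S0385

/-- The 6-point intersections of octads with a fixed dodecad form a Steiner system S(5, 6, 12) on the dodecad. -/
theorem result (d : Finset Cfsg.GolayPt) (hd : d ∈ Cfsg.dodecads) : Cfsg.IsSteinerSystem 5 6 {h : Finset {p : Cfsg.GolayPt // p ∈ d} | ∃ o ∈ Cfsg.octads, (o ∩ d).card = 6 ∧ h = Finset.subtype (fun p => p ∈ d) o} := by
  refine ⟨?_, fun s hs => ?_⟩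
  · rintro h ⟨o, ho, h6, rfl⟩
    rw [Finset.card_subtype, ← h6]; congr 1
  · obtain ⟨o, ho, hso⟩ := Lib.Golay.exists_octad (s := s.map (Function.Embedding.subtype _))
      (by rw [Finset.card_map, hs])
    have h5 : 5 ≤ (o ∩ d).card := by
      rw [← hs, ← Finset.card_map (Function.Embedding.subtype fun p => p ∈ d)]
      refine Finset.card_le_card fun x hx => Finset.mem_inter.2 ⟨hso hx, ?_⟩
      obtain ⟨y, -, rfl⟩ := Finset.mem_map.1 hx
      exact y.2
    have h6 : (o ∩ d).card = 6 := by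
      have h1 := Lib.Golay.card_symmDiff_add o d
      rw [Lib.Golay.card_octad ho, Lib.Golay.card_dodecad hd] at h1
      have h2 := Lib.Golay.weight_cases (Lib.Golay.symmDiff_mem_supports ho.1 hd.1)
      have h3 : (o ∩ d).card ≤ 8 := (Finset.card_le_card Finset.inter_subset_left).trans
        (le_of_eq (Lib.Golay.card_octad ho))
      omega
    refine ⟨Finset.subtype (fun p => p ∈ d) o, ⟨⟨o, ho, h6, rfl⟩, fun x hx =>
      Finset.mem_subtype.2 (hso (Finset.mem_map.2 ⟨x, hx, rfl⟩))⟩, ?_⟩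
    rintro h ⟨⟨o', ho', -, rfl⟩, hsub⟩
    rw [Lib.Golay.octad_eq_of_five ho' ho]
    rw [← hs, ← Finset.card_map (Function.Embedding.subtype fun p => p ∈ d)]
    refine Finset.card_le_card fun x hx => Finset.mem_inter.2 ⟨?_, hso hx⟩
    obtain ⟨y, hy, rfl⟩ := Finset.mem_map.1 hx
    exact Finset.mem_subtype.1 (hsub hy)

end Cfsg.Agent.S0385
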