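import Cfsg.Statements.S0386
import Cfsg.Agent.Lib.Golay.DodGroups

set_option autoImplicit false
open Cfsg
open scoped Pointwise

namespace Cfsg.Agent.S0386

/-- For a fixed dodecad, 132 octads meet it in 6 points, 132 in 2 points and 495 in 4 points. -/
theorem result (d : Finset Cfsg.GolayPt) (hd : d ∈ Cfsg.dodecads) : {o : Finset Cfsg.GolayPt | o ∈ Cfsg.octads ∧ (o ∩ d).card = 6}.ncard = 132 ∧ {o : Finset Cfsg.GolayPt | o ∈ Cfsg.octads ∧ (o ∩ d).card = 2}.ncard = 132 ∧ {o : Finset Cfsg.GolayPt | o ∈ Cfsg.octads ∧ (o ∩ d).card = 4}.ncard = 495 := by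
  have key : ∀ k n : ℕ, Cfsg.Lib.Golay.octMasks.countP (fun o => Cfsg.Lib.Golay.pop (o &&& Cfsg.Lib.Golay.baseDod) == k) = n →
      {o : Finset Cfsg.GolayPt | o ∈ Cfsg.octads ∧ (o ∩ d).card = k}.ncard = n := by
    intro k n hn
    obtain ⟨τ, hτ, rfl⟩ := Cfsg.Lib.Golay.dodecad_transitive Cfsg.Lib.Golay.Chain.baseDod_mem hd
    have hb := Cfsg.Lib.Golay.ncard_octads_filter
      (fun o => (o ∩ Cfsg.Lib.Golay.toSet Cfsg.Lib.Golay.baseDod).card = k)
      (fun o => Cfsg.Lib.Golay.pop (o &&& Cfsg.Lib.Golay.baseDod) == k)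
      (fun m _ => by rw [Cfsg.Lib.Golay.card_inter_toSet, beq_iff_eq])
    rw [hn] at hb
    rw [← hb, ← Set.ncard_image_of_injective
      {o : Finset Cfsg.GolayPt | o ∈ Cfsg.octads ∧ (o ∩ Cfsg.Lib.Golay.toSet Cfsg.Lib.Golay.baseDod).card = k}
      (MulAction.injective τ)]
    congr 1
    ext o
    simp only [Set.mem_image, Set.mem_ofPred_eq]
    constructor
    · intro hoc
      obtain ⟨ho, hc⟩ := hoc
      refine ⟨τ⁻¹ • o, ⟨Cfsg.Lib.Golay.smul_mem_words (Cfsg.M24.inv_mem hτ) ho, ?_⟩, smul_inv_smul τ o⟩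
      rw [← Finset.card_smul_finset τ, Finset.smul_finset_inter, smul_inv_smul]; exact hc
    · rintro ⟨a, ⟨ha, hc⟩, rfl⟩
      exact ⟨Cfsg.Lib.Golay.smul_mem_words hτ ha, by rw [← Finset.smul_finset_inter, Finset.card_smul_finset]; exact hc⟩
  exact ⟨key 6 132 (by decide +kernel), key 2 132 (by decide +kernel), key 4 495 (by decide +kernel)⟩

end Cfsg.Agent.S0386
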