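import Cfsg.Statements.S0389
import Cfsg.Agent.Lib.Golay.DodGroups

set_option autoImplicit false
open scoped Pointwise
open Cfsg

namespace Cfsg.Agent.S0389

/-- The stabiliser of a dodecad and a point on it is 3-transitive on the complementary dodecad. -/
theorem result (d : Finset Cfsg.GolayPt) (hd : d ∈ Cfsg.dodecads) (p : Cfsg.GolayPt) (hp : p ∈ d) (x y : Fin 3 ↪ Cfsg.GolayPt) (hx : ∀ i, x i ∉ d) (hy : ∀ i, y i ∉ d) : ∃ g ∈ MulAction.stabilizer Cfsg.M24 d ⊓ MulAction.stabilizer Cfsg.M24 p, ∀ i, (g : Equiv.Perm Cfsg.GolayPt) (x i) = y i := by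
  obtain ⟨τ, hτ, rfl, hp'⟩ := Cfsg.Lib.Golay.Chain.exists_move hd hp
  have hin : ∀ z : Fin 3 ↪ Cfsg.GolayPt, (∀ i, z i ∉ τ • Cfsg.Lib.Golay.toSet Cfsg.Lib.Golay.baseDod) →
      ∀ i, τ⁻¹ (z i) ∉ Cfsg.Lib.Golay.toSet Cfsg.Lib.Golay.baseDod := fun z hz i h => hz i (Finset.inv_smul_mem_iff.1 h)
  obtain ⟨g, hg, hge⟩ := Cfsg.Lib.Golay.Chain.trans11out (x.trans (τ⁻¹).toEmbedding) (y.trans (τ⁻¹).toEmbedding)
    (hin x hx) (hin y hy)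
  have hge' : ∀ i, g (τ⁻¹ (x i)) = τ⁻¹ (y i) := hge
  refine ⟨_, (Cfsg.Lib.Golay.Chain.equivG11 τ hτ hp' ⟨g, hg⟩).2, fun i => ?_⟩
  show (τ * g * τ⁻¹) (x i) = y i
  rw [Equiv.Perm.mul_apply, Equiv.Perm.mul_apply, hge']
  exact τ.apply_symm_apply _

end Cfsg.Agent.S0389
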