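import Cfsg.Statements.S0395
import Mathlib
import Cfsg.Agent.Lib.Leech.Counts

set_option autoImplicit false
open Cfsg

namespace Cfsg.Agent.S0395

/-- Exactly 16773120 lattice vectors have sum of squares 48. -/
theorem result : {x : Cfsg.GolayPt → ℤ | x ∈ Cfsg.leechLattice ∧ Cfsg.sqNorm x = 48}.ncard = 16773120 := by
  exact Lib.Leech.ncard48

end Cfsg.Agent.S0395
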