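import Mathlib
import Cfsg.Statements.S0405
import Cfsg.Agent.Lib.Leech.Tri.HSStab
-- import your own Cfsg.Agent.* helpers here

set_option autoImplicit false
open Cfsg

namespace Cfsg.Agent.S0405

/-- Joint stabiliser of two vectors of sum of squares 48 with coordinate dot product −32 is simple of order 44352000. -/
theorem result (v w : Cfsg.leechLattice) (hv : Cfsg.sqNorm (v : Cfsg.GolayPt → ℤ) = 48) (hw : Cfsg.sqNorm (w : Cfsg.GolayPt → ℤ) = 48) (hvw : Cfsg.dotInt (v : Cfsg.GolayPt → ℤ) (w : Cfsg.GolayPt → ℤ) = -32) : Cfsg.IsHS ↥(MulAction.stabilizer Cfsg.Co0 v ⊓ MulAction.stabilizer Cfsg.Co0 w) := by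
  open Cfsg.Lib.Leech Cfsg.Lib.Leech.Tri in
  have hn : nm (v + w) = 32 := by rw [nm_add]; simp only [nm, dt]; rw [hv, hw, hvw]; norm_num
  open Cfsg.Lib.Leech Cfsg.Lib.Leech.Tri in
  have hd : dt v (v + w) = 16 := by rw [dt_add, dt_self]; simp only [nm, dt]; rw [hv, hvw]; norm_num
  have h := Cfsg.Lib.Leech.Tri.isHS_stab hv hn hd
  have e : MulAction.stabilizer Cfsg.Co0 v ⊓ MulAction.stabilizer Cfsg.Co0 (v + w) =
      MulAction.stabilizer Cfsg.Co0 v ⊓ MulAction.stabilizer Cfsg.Co0 w := by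
    ext g
    simp only [Subgroup.mem_inf, MulAction.mem_stabilizer_iff, Cfsg.Lib.Leech.co0_add]
    exact ⟨fun ⟨a, b⟩ => ⟨a, by rw [a] at b; exact add_left_cancel b⟩, fun ⟨a, b⟩ => ⟨a, by rw [a, b]⟩⟩
  rwa [e] at h

end Cfsg.Agent.S0405
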