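import Mathlib
import Cfsg.Statements.S0407
import Cfsg.Agent.Lib.SteinerCert.Steiner24
import Cfsg.Agent.Lib.SteinerCert.Data24
import Cfsg.Agent.S0358


set_option autoImplicit false
open Cfsg

namespace Cfsg.Agent.S0407

/-- Uniqueness of the Steiner system S(5, 8, 24) up to isomorphism. -/
theorem result {α β : Type*} [Fintype α] [DecidableEq α] [Fintype β] [DecidableEq β] (hα : Fintype.card α = 24) (hβ : Fintype.card β = 24) {B : Set (Finset α)} {B' : Set (Finset β)} (hB : Cfsg.IsSteinerSystem 5 8 B) (hB' : Cfsg.IsSteinerSystem 5 8 B') : Cfsg.SetSystemIso B B' := by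
  obtain ⟨e, he⟩ := Cfsg.Lib.SteinerCert.Steiner24.iso_octads
    (Cfsg.Lib.SteinerCert.Code24.good_nil Cfsg.Agent.S0358.result) hα hB
  obtain ⟨e', he'⟩ := Cfsg.Lib.SteinerCert.Steiner24.iso_octads
    (Cfsg.Lib.SteinerCert.Code24.good_nil Cfsg.Agent.S0358.result) hβ hB'
  refine ⟨e.trans e'.symm, ?_⟩
  have h1 : (fun b : Finset α => b.image (e.trans e'.symm)) '' B =
      (fun c : Finset Cfsg.GolayPt => c.image e'.symm) '' ((fun b : Finset α => b.image e) '' B) := by
    rw [Set.image_image]
    exact Set.image_congr fun b _ => by rw [Finset.image_image]; rfl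
  rw [h1, he, ← he', Set.image_image]
  simp [Finset.image_image]

end Cfsg.Agent.S0407
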