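import Mathlib
import Cfsg.Statements.S0412
import Cfsg.Agent.Lib.SteinerCert.Steiner24
import Cfsg.Agent.Lib.SteinerCert.Data24
import Cfsg.Agent.S0358
import Cfsg.Agent.S0365


set_option autoImplicit false
open Cfsg

namespace Cfsg.Agent.S0412

/-- Aut of an S(5, 8, 24) is simple of order 244823040 and 5-transitive on points. -/
theorem result {α : Type*} [Fintype α] [DecidableEq α] (hα : Fintype.card α = 24) {B : Set (Finset α)} (hB : Cfsg.IsSteinerSystem 5 8 B) : Cfsg.IsM24 (Cfsg.setSystemAut B) ∧ MulAction.IsMultiplyPretransitive (Cfsg.setSystemAut B) α 5 := by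
  obtain ⟨e, he⟩ := Cfsg.Lib.SteinerCert.Steiner24.iso_octads
    (Cfsg.Lib.SteinerCert.Code24.good_nil Cfsg.Agent.S0358.result) hα hB
  let ψ : Cfsg.setSystemAut B ≃* Cfsg.M24 :=
    (Cfsg.Lib.SteinerCert.Steiner24.autEquiv e he).trans
      (MulEquiv.subgroupCongr Cfsg.Lib.Golay.M24_eq_setSystemAut.symm)
  haveI := Cfsg.Agent.S0365.result
  refine ⟨⟨ψ.isSimpleGroup, (Nat.card_congr ψ.toEquiv).trans Cfsg.Lib.Golay.card_M24⟩, ⟨fun x y => ?_⟩⟩
  haveI := Cfsg.Lib.Golay.five_transitive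
  obtain ⟨g, hg⟩ := MulAction.exists_smul_eq Cfsg.M24 (x.trans e.toEmbedding) (y.trans e.toEmbedding)
  refine ⟨ψ.symm g, DFunLike.ext _ _ fun i => e.injective ?_⟩
  have h := Cfsg.Lib.SteinerCert.Steiner24.autEquiv_apply e he (ψ.symm g) (x i)
  show e (((ψ.symm g : Cfsg.setSystemAut B) : Equiv.Perm α) (x i)) = e (y i)
  rw [← h]
  have h2 : Cfsg.Lib.SteinerCert.Steiner24.autEquiv e he (ψ.symm g) =
      MulEquiv.subgroupCongr Cfsg.Lib.Golay.M24_eq_setSystemAut g := MulEquiv.apply_symm_apply _ _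
  rw [h2]
  exact DFunLike.congr_fun hg i

end Cfsg.Agent.S0412
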