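import Mathlib
import Cfsg.Statements.S0413
import Cfsg.Agent.Lib.SteinerCert.PunctureGroups

set_option autoImplicit false
open Cfsg

namespace Cfsg.Agent.S0413

/-- Aut of an S(4, 7, 23) is simple of order 10200960 and 4-transitive. -/
theorem result {α : Type*} [Fintype α] [DecidableEq α] (hα : Fintype.card α = 23) {B : Set (Finset α)} (hB : Cfsg.IsSteinerSystem 4 7 B) : Cfsg.IsM23 (Cfsg.setSystemAut B) ∧ MulAction.IsMultiplyPretransitive (Cfsg.setSystemAut B) α 4 := by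
  obtain ⟨⟨ψ⟩, h4⟩ := Cfsg.Lib.SteinerCert.PunctureGroups.aut23 hα hB
  haveI := Cfsg.Lib.Golay.Simp.isSimpleGroup_fixer (A := {Cfsg.Lib.Golay.pt 23}) (by simp)
  refine ⟨⟨ψ.symm.isSimpleGroup, ?_⟩, h4⟩
  rw [← Nat.card_congr ψ.toEquiv, Cfsg.Lib.Golay.card_fixer (by simp), Finset.card_singleton]
  exact Cfsg.Lib.Golay.card_lev.2.2.2.2.2.2.1

end Cfsg.Agent.S0413
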