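import Mathlib
import Cfsg.Statements.S0426
import Cfsg.Agent.Lib.SteinerCert.Models

set_option autoImplicit false
open Cfsg

namespace Cfsg.Agent.S0426

/-- Aut of an S(4, 5, 11) is simple of order 7920 and sharply 4-transitive on points. -/
theorem result {α : Type*} [Fintype α] [DecidableEq α] (hα : Fintype.card α = 11) {B : Set (Finset α)} (hB : Cfsg.IsSteinerSystem 4 5 B) : Cfsg.IsM11 (Cfsg.setSystemAut B) ∧ MulAction.IsMultiplyPretransitive (Cfsg.setSystemAut B) α 4 ∧ ∀ x : Fin 4 ↪ α, MulAction.stabilizer (Cfsg.setSystemAut B) x = ⊥ := by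
  obtain ⟨e, he⟩ := Cfsg.Lib.SteinerCert.unique_eleven hα hB
  obtain ⟨hiso, htr, hfix⟩ := Cfsg.Lib.SteinerCert.eleven
  obtain ⟨⟨i⟩, h4, hs⟩ := Cfsg.Lib.SteinerCert.transfer hiso htr hfix e he
  haveI := Cfsg.Lib.Golay.Chain.isSimpleGroup_G11
  exact ⟨⟨i.symm.isSimpleGroup, (Nat.card_congr i.toEquiv).symm.trans Cfsg.Lib.Golay.Chain.card_G11⟩, h4, hs⟩

end Cfsg.Agent.S0426
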