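import Cfsg.Statements.S0427
import Mathlib
import Cfsg.Agent.Lib.Steiner.S22

set_option autoImplicit false
open Cfsg Cfsg.Lib.Steiner

namespace Cfsg.Agent.S0427

/-- The block graph (adjacent = disjoint) of an S(3, 6, 22) is strongly regular with parameters (77, 16, 0, 4). -/
theorem result {α : Type*} [Fintype α] (hα : Fintype.card α = 22) {B : Set (Finset α)} (hB : Cfsg.IsSteinerSystem 3 6 B) [Fintype B] [DecidableRel (Cfsg.blockGraph B).Adj] : (Cfsg.blockGraph B).IsSRGWith 77 16 0 4 := by
  classical
  have hadj : ∀ b c : B, (blockGraph B).Adj b c ↔ Disjoint (b : Finset α) c := by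
    intro b c
    simp only [blockGraph, SimpleGraph.fromRel_adj, disjoint_comm (a := (c : Finset α)), or_self]
    refine ⟨fun h => h.2, fun h => ⟨fun e => ?_, h⟩⟩
    subst e
    have := hB.1 _ b.2
    rw [disjoint_self] at h
    simp [h] at this
  have hcn : ∀ b c : B, b ≠ c → Fintype.card ((blockGraph B).commonNeighbors b c) =
      if Disjoint (b : Finset α) c then 0 else 4 := by
    intro b c hne
    rw [← S22.card_disjoint_both hα hB b.2 c.2 fun e => hne (Subtype.ext e),
      ← S22.card_filter_subtype, ← Set.toFinset_card]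
    congr 1
    ext d; simp [SimpleGraph.mem_commonNeighbors, hadj]
  refine ⟨?_, fun b => ?_, fun b c h => ?_, fun b c hne h => ?_⟩
  · rw [← S22.card_blocks hα hB, ← Set.toFinset_card]
    congr 1
    ext d; simp
  · rw [← S22.card_disjoint hα hB b.2, ← S22.card_filter_subtype,
      ← SimpleGraph.card_neighborFinset_eq_degree]
    congr 1
    ext d; simp [hadj]
  · rw [hcn b c h.ne, if_pos ((hadj b c).1 h)]
  · rw [hcn b c hne, if_neg fun h' => h ((hadj b c).2 h')]

end Cfsg.Agent.S0427
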