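import Mathlib
import Cfsg.Statements.S0431
import Cfsg.Agent.Lib.HSGraph.Group
import Cfsg.Agent.S0410

set_option autoImplicit false
open Cfsg

namespace Cfsg.Agent.S0431

/-- Aut of the point-block graph of an S(3, 6, 22) contains a simple subgroup of order 44352000. -/
theorem result {α : Type*} [Fintype α] (hα : Fintype.card α = 22) {B : Set (Finset α)} (hB : Cfsg.IsSteinerSystem 3 6 B) : ∃ H : Subgroup (Cfsg.pointBlockGraph B ≃g Cfsg.pointBlockGraph B), Cfsg.IsHS H := by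
  classical
  open Cfsg.Lib.Golay Cfsg.Lib.SteinerCert in
  obtain ⟨H0, hH0⟩ : ∃ H : Subgroup (Cfsg.pointBlockGraph (Puncture.sysAt Puncture.pair) ≃g Cfsg.pointBlockGraph (Puncture.sysAt Puncture.pair)), Cfsg.IsHS H := by
    have hc : Fintype.card {p : Cfsg.GolayPt // p ∉ Puncture.pair} = 22 := by
      rw [Fintype.card_subtype_compl, Fintype.card_coe, Puncture.pair_check.2.1,
        show Fintype.card Cfsg.GolayPt = 24 from rfl]
    obtain ⟨e, he⟩ : ∃ e : α ≃ {p : Cfsg.GolayPt // p ∉ Puncture.pair}, (fun b : Finset α => b.image e) '' B = Puncture.sysAt Puncture.pair := by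
      have hF : (toF 24 Fam.S22.fm).card = 2 := by decide +kernel
      obtain ⟨ι, hι⟩ := Derived.exists_emb (α := α) Fam.S22.fm (by omega)
      obtain ⟨e0, he0⟩ := Derived.model ι hι Fam.S22.good_nil (Derived.fam22 hα hB _ hF ι hι)
      exact PunctureGroups.to_golay (F := Puncture.pair) (by rw [PunctureGroups.image_toF]; exact PunctureGroups.fm_sets.2) PunctureGroups.std22 e0 he0
    have hB0 : Cfsg.IsSteinerSystem 3 6 (Puncture.sysAt Puncture.pair) := he ▸ steiner_image e hB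
    haveI : Fintype (Puncture.sysAt Puncture.pair) := Fintype.ofFinite _
    obtain ⟨⟨a0, ha0⟩, ⟨b0, hb0⟩⟩ := Cfsg.Lib.HSGraph.psi0_fix
    exact Cfsg.Lib.HSGraph.isHS_exists hc hB0 Cfsg.Lib.HSGraph.psi0 rfl
      (Cfsg.Lib.HSGraph.psi0_odd (Cfsg.Agent.S0428.result hc hB0).card) a0 ha0 b0 hb0
  have hc : Fintype.card {p : Cfsg.GolayPt // p ∉ Cfsg.Lib.SteinerCert.Puncture.pair} = 22 := by
    rw [Fintype.card_subtype_compl, Fintype.card_coe, Cfsg.Lib.SteinerCert.Puncture.pair_check.2.1,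
      show Fintype.card Cfsg.GolayPt = 24 from rfl]
  obtain ⟨e, he⟩ : ∃ e : α ≃ {p : Cfsg.GolayPt // p ∉ Cfsg.Lib.SteinerCert.Puncture.pair},
      (fun b : Finset α => b.image e) '' B = Cfsg.Lib.SteinerCert.Puncture.sysAt Cfsg.Lib.SteinerCert.Puncture.pair := by
    have hF : (Cfsg.Lib.SteinerCert.toF 24 Cfsg.Lib.SteinerCert.Fam.S22.fm).card = 2 := by decide +kernel
    obtain ⟨ι, hι⟩ := Cfsg.Lib.SteinerCert.Derived.exists_emb (α := α) Cfsg.Lib.SteinerCert.Fam.S22.fm (by omega)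
    obtain ⟨e0, he0⟩ := Cfsg.Lib.SteinerCert.Derived.model ι hι Cfsg.Lib.SteinerCert.Fam.S22.good_nil
      (Cfsg.Lib.SteinerCert.Derived.fam22 hα hB _ hF ι hι)
    exact Cfsg.Lib.SteinerCert.PunctureGroups.to_golay (F := Cfsg.Lib.SteinerCert.Puncture.pair)
      (by rw [Cfsg.Lib.SteinerCert.PunctureGroups.image_toF]; exact Cfsg.Lib.SteinerCert.PunctureGroups.fm_sets.2)
      Cfsg.Lib.SteinerCert.PunctureGroups.std22 e0 he0
  let φ := Cfsg.Lib.HSGraph.mapGraph e he
  let Φ : (Cfsg.pointBlockGraph (Cfsg.Lib.SteinerCert.Puncture.sysAt Cfsg.Lib.SteinerCert.Puncture.pair) ≃g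
      Cfsg.pointBlockGraph (Cfsg.Lib.SteinerCert.Puncture.sysAt Cfsg.Lib.SteinerCert.Puncture.pair)) ≃*
      (Cfsg.pointBlockGraph B ≃g Cfsg.pointBlockGraph B) :=
    { toFun := fun g => (φ.trans g).trans φ.symm
      invFun := fun g => (φ.symm.trans g).trans φ
      left_inv := fun g => RelIso.ext fun x => by simp
      right_inv := fun g => RelIso.ext fun x => by simp
      map_mul' := fun a b => RelIso.ext fun x => by simp [RelIso.mul_apply] }
  let E := H0.equivMapOfInjective Φ.toMonoidHom Φ.injective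
  haveI := hH0.1
  exact ⟨H0.map Φ.toMonoidHom, E.symm.isSimpleGroup, (Nat.card_congr E.toEquiv).symm.trans hH0.2⟩

end Cfsg.Agent.S0431
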