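import Cfsg.Statements.S0432
import Mathlib
import Cfsg.Agent.Lib.Golay.M24

set_option autoImplicit false
open Cfsg

namespace Cfsg.Agent.S0432

/-- Coordinate permutations from the code's group preserve the lattice. -/
theorem result (σ : Equiv.Perm Cfsg.GolayPt) (hσ : σ ∈ Cfsg.M24) (x : Cfsg.GolayPt → ℤ) (hx : x ∈ Cfsg.leechLattice) : (fun i => x (σ i)) ∈ Cfsg.leechLattice := by
  have hclos : ∀ y ∈ Cfsg.leechSet, (fun i => y (σ i)) ∈ Cfsg.leechSet := by
    rintro y ⟨m, h1, h2, h3⟩
    refine ⟨m, fun i => h1 _, ?_, fun k => ?_⟩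
    · rwa [Equiv.sum_comp σ y]
    · have h := Lib.Golay.smul_mem_supports (Subgroup.inv_mem _ hσ) (h3 k)
      convert h using 1
      ext i
      simp only [Finset.mem_smul_finset, Equiv.Perm.smul_def, Finset.mem_filter, Finset.mem_univ, true_and]
      exact ⟨fun h => ⟨σ i, h, σ.symm_apply_apply i⟩, fun ⟨j, hj, hji⟩ => by
        rw [← hji, Equiv.Perm.coe_inv, Equiv.apply_symm_apply]; exact hj⟩
  exact AddSubgroup.closure_induction (p := fun y _ => (fun i => y (σ i)) ∈ Cfsg.leechLattice)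
    (fun y hy => AddSubgroup.subset_closure (hclos y hy)) (AddSubgroup.zero_mem _)
    (fun a b _ _ ha hb => AddSubgroup.add_mem _ ha hb) (fun a _ ha => AddSubgroup.neg_mem _ ha) hx

end Cfsg.Agent.S0432
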