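import Cfsg.Statements.S0439
import Mathlib

set_option autoImplicit false
open Cfsg

namespace Cfsg.Agent.S0439

/-- In the symmetric group of degree n ≥ 2, the set of transpositions is a conjugacy class of 3-transpositions which generates the group. -/
theorem result (n : ℕ) (hn : 2 ≤ n) : Cfsg.IsThreeTranspositionClass {σ : Equiv.Perm (Fin n) | σ.IsSwap} := by
  have h2 : ∀ σ : Equiv.Perm (Fin n), σ.IsSwap → orderOf σ = 2 := by
    rintro σ ⟨x, y, hxy, rfl⟩
    exact orderOf_eq_prime (by rw [sq, Equiv.swap_mul_self]) (by simpa [Equiv.swap_eq_one_iff] using hxy)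
  refine ⟨⟨h2, ?_⟩, ⟨Equiv.swap ⟨0, by omega⟩ ⟨1, by omega⟩,
    ⟨_, _, by simp [Fin.ext_iff], rfl⟩, ?_⟩, Equiv.Perm.closure_isSwap⟩
  · rintro σ ⟨x, y, hxy, rfl⟩ τ ⟨u, v, huv, rfl⟩
    have h3 : ∀ p q r : Fin n, p ≠ q → p ≠ r → q ≠ r →
        (Equiv.swap p q * Equiv.swap p r) ^ 3 = 1 := fun p q r h1 h2 h3 => by
      rw [← (Equiv.Perm.isThreeCycle_swap_mul_swap_same h1 h2 h3).orderOf, pow_orderOf_eq_one]
    by_cases hu : u = x
    · subst hu
      by_cases hv : v = y
      · subst hv; left; simp [Equiv.swap_mul_self]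
      · right; exact h3 _ _ _ hxy huv (Ne.symm hv)
    by_cases hu' : u = y
    · subst hu'
      rw [Equiv.swap_comm x u]
      by_cases hv : v = x
      · subst hv; left; simp [Equiv.swap_mul_self]
      · right; exact h3 _ _ _ hxy.symm huv (Ne.symm hv)
    by_cases hv : v = x
    · subst hv
      rw [Equiv.swap_comm u v]
      right; exact h3 _ _ _ hxy huv.symm (Ne.symm hu')
    by_cases hv' : v = y
    · subst hv'
      rw [Equiv.swap_comm u v, Equiv.swap_comm x v]
      right; exact h3 _ _ _ hxy.symm huv.symm (Ne.symm hu)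
    left
    have hd : Equiv.Perm.Disjoint (Equiv.swap x y) (Equiv.swap u v) := fun z => by
      by_cases hz : z = x ∨ z = y
      · right; rcases hz with rfl | rfl <;> exact Equiv.swap_apply_of_ne_of_ne (Ne.symm ‹_›) (Ne.symm ‹_›)
      · left; push Not at hz; exact Equiv.swap_apply_of_ne_of_ne hz.1 hz.2
    rw [hd.commute.mul_pow, sq, sq, Equiv.swap_mul_self, Equiv.swap_mul_self, one_mul]
  · ext σ
    constructor
    · rintro ⟨x, y, hxy, rfl⟩
      exact Equiv.Perm.isConj_swap (by simp [Fin.ext_iff]) hxy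
    · intro h
      obtain ⟨g, rfl⟩ := isConj_iff.1 h
      refine ⟨g ⟨0, by omega⟩, g ⟨1, by omega⟩, g.injective.ne (by simp [Fin.ext_iff]), ?_⟩
      exact (Equiv.swap_apply_apply g _ _).symm

end Cfsg.Agent.S0439
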