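import Cfsg.Statements.S0440
import Cfsg.Agent.Lib.Classical.SymplecticMatrix

set_option autoImplicit false
open Cfsg

namespace Cfsg.Agent.S0440

open Matrix Cfsg.Lib.Classical

variable {n : ℕ}

local notation "𝕍" => Fin n ⊕ Fin n → ZMod 2

/-- the transvection in `GL` -/
noncomputable def tg (v : Fin n ⊕ Fin n → ZMod 2) : GL (Fin n ⊕ Fin n) (ZMod 2) :=
  sTGL (sympBilin (ZMod 2) n) (sympBilin_isAlt (ZMod 2) n) v 1

theorem tg_sq (v : 𝕍) : tg v * tg v = 1 := by
  rw [tg, sTGL_mul, show (1 : ZMod 2) + 1 = 0 by decide, sTGL_zero]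

theorem tg_conj (g : GL (Fin n ⊕ Fin n) (ZMod 2)) (hg : g ∈ Cfsg.spGL n (ZMod 2)) (v : 𝕍) :
    g * tg v * g⁻¹ = tg ((g : Matrix _ _ (ZMod 2)) *ᵥ v) := conj_sTGL_iso _ _ g (mem_spGL_iff.1 hg) v 1

theorem tg_mem (v : 𝕍) : tg v ∈ Cfsg.spGL n (ZMod 2) := sTGL_mem_spGL v 1

theorem tg_inv (v : 𝕍) : (tg v)⁻¹ = tg v := inv_eq_of_mul_eq_one_right (tg_sq v)

theorem tg_pair (u v : 𝕍) : (tg u * tg v) ^ 2 = 1 ∨ (tg u * tg v) ^ 3 = 1 := by
  have hc : ∀ a b : 𝕍, tg a * tg b * tg a = tg (b + (sympBilin (ZMod 2) n b a) • a) := fun a b => by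
    conv_lhs => arg 2; rw [← tg_inv a]
    rw [tg_conj _ (tg_mem a)]
    congr 1
    rw [tg, sTGL_mulVec, one_mul]
  have h01 : ∀ x : ZMod 2, x = 0 ∨ x = 1 := by decide
  rcases h01 (sympBilin (ZMod 2) n u v) with h | h
  · left
    have h' : sympBilin (ZMod 2) n v u = 0 := by
      rw [alt_swap (sympBilin_isAlt (ZMod 2) n), h, neg_zero]
    have := hc u v
    rw [h', zero_smul, add_zero] at this
    rw [pow_two, ← mul_assoc, this, tg_sq]
  · right
    have h' : sympBilin (ZMod 2) n v u = 1 := by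
      rw [alt_swap (sympBilin_isAlt (ZMod 2) n), h]; decide
    have h1 := hc u v
    have h2 := hc v u
    rw [h', one_smul] at h1
    rw [h, one_smul, add_comm] at h2
    have h3 : (tg u * tg v) ^ 3 = (tg u * tg v * tg u) * (tg v * tg u * tg v) := by simp only [pow_succ, pow_zero, one_mul, mul_assoc]
    rw [h3, h1, h2, tg_sq]

theorem tg_rank {v : 𝕍} (hv : v ≠ 0) : ((tg v : Matrix (Fin n ⊕ Fin n) (Fin n ⊕ Fin n) (ZMod 2)) - 1).rank = 1 := by
  set M := ((tg v : Matrix (Fin n ⊕ Fin n) (Fin n ⊕ Fin n) (ZMod 2)) - 1) with hM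
  have happly : ∀ x, M *ᵥ x = sympBilin (ZMod 2) n x v • v := fun x => by
    rw [hM, Matrix.sub_mulVec, Matrix.one_mulVec, tg, sTGL_mulVec, one_mul, add_sub_cancel_left]
  have hrange : LinearMap.range M.mulVecLin = (ZMod 2) ∙ v := by
    apply le_antisymm
    · rintro _ ⟨x, rfl⟩
      rw [Matrix.mulVecLin_apply, happly]
      exact Submodule.smul_mem _ _ (Submodule.mem_span_singleton_self v)
    · rw [Submodule.span_singleton_le_iff_mem]
      obtain ⟨x, hx⟩ : ∃ x, sympBilin (ZMod 2) n x v ≠ 0 := by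
        by_contra hc
        push Not at hc
        exact hv ((sympBilin_nondegenerate (ZMod 2) n).2 v hc)
      exact ⟨(sympBilin (ZMod 2) n x v)⁻¹ • x, by
        rw [Matrix.mulVecLin_apply, Matrix.mulVec_smul, happly, smul_smul, inv_mul_cancel₀ hx, one_smul]⟩
  show Module.finrank _ (LinearMap.range M.mulVecLin) = 1
  rw [hrange, finrank_span_singleton hv]

theorem exists_tg {g : GL (Fin n ⊕ Fin n) (ZMod 2)} (hg : g ∈ Cfsg.spGL n (ZMod 2))
    (hr : ((g : Matrix (Fin n ⊕ Fin n) (Fin n ⊕ Fin n) (ZMod 2)) - 1).rank = 1) : ∃ v, v ≠ 0 ∧ g = tg v := by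
  set M := ((g : Matrix (Fin n ⊕ Fin n) (Fin n ⊕ Fin n) (ZMod 2)) - 1) with hM
  obtain ⟨⟨v, hvmem⟩, hv0, hspan⟩ := finrank_eq_one_iff'.mp
    (show Module.finrank (ZMod 2) (LinearMap.range M.mulVecLin) = 1 from hr)
  have hv : v ≠ 0 := fun h => hv0 (Subtype.ext h)
  have hA := sympBilin_isAlt (ZMod 2) n
  have hx : ∀ x, ∃ c : ZMod 2, (g : Matrix _ _ (ZMod 2)) *ᵥ x = x + c • v := fun x => by
    obtain ⟨c, hc⟩ := hspan ⟨M.mulVecLin x, ⟨x, rfl⟩⟩
    refine ⟨c, ?_⟩
    have : c • v = M *ᵥ x := congrArg Subtype.val hc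
    rw [this, hM, Matrix.sub_mulVec, Matrix.one_mulVec, add_sub_cancel]
  choose φ hφ using hx
  obtain ⟨y, hy⟩ : ∃ y, sympBilin (ZMod 2) n v y = 1 := by
    by_contra hc
    push Not at hc
    have h01 : ∀ x : ZMod 2, x ≠ 1 → x = 0 := by decide
    exact hv ((sympBilin_nondegenerate (ZMod 2) n).1 v fun y => h01 _ (hc y))
  have key : ∀ x, φ x = φ y * sympBilin (ZMod 2) n x v := fun x => by
    have h := mem_spGL_iff.1 hg x y
    rw [hφ, hφ] at h
    simp only [map_add, map_smul, LinearMap.add_apply, LinearMap.smul_apply, smul_eq_mul,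
      alt_self hA, hy, mul_zero, mul_one, add_zero] at h
    linear_combination h - CharTwo.add_self_eq_zero (φ y * sympBilin (ZMod 2) n x v)
  have h01 : ∀ x : ZMod 2, x = 0 ∨ x = 1 := by decide
  refine ⟨v, hv, gl_ext fun x => ?_⟩
  rcases h01 (φ y) with h | h
  · exfalso
    have hM0 : M = 0 := by
      refine Matrix.ext_iff_mulVec.mpr fun z => ?_
      rw [hM, Matrix.sub_mulVec, Matrix.one_mulVec, hφ, key, h, zero_mul, zero_smul, add_zero, sub_self,
        Matrix.zero_mulVec]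
    rw [hM0, Matrix.rank_zero] at hr
    exact absurd hr zero_ne_one
  · rw [tg, sTGL_mulVec, one_mul, hφ, key, h, one_mul]

/-- In the symplectic group in dimension 2n ≥ 2 over the field with two elements, the elements g for which g - 1 has rank one (the symplectic transvections) form a conjugacy class of 3-transpositions generating the group. -/
theorem result (n : ℕ) (hn : 1 ≤ n) : Cfsg.IsThreeTranspositionClass {g : Matrix.symplecticGroup (Fin n) (ZMod 2) | ((g : Matrix (Fin n ⊕ Fin n) (Fin n ⊕ Fin n) (ZMod 2)) - 1).rank = 1} := by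
  classical
  let T : (Fin n ⊕ Fin n → ZMod 2) → Matrix.symplecticGroup (Fin n) (ZMod 2) := fun v =>
    spEquiv.symm ⟨tg v, tg_mem v⟩
  have hT : ∀ v, spToGL (T v) = tg v := fun v => Units.ext (by
    rw [coe_spToGL, ← coe_spEquiv, MulEquiv.apply_symm_apply])
  have hrank : ∀ v, v ≠ 0 → ((T v : Matrix (Fin n ⊕ Fin n) (Fin n ⊕ Fin n) (ZMod 2)) - 1).rank = 1 := fun v hv => by
    rw [← coe_spToGL, hT]; exact tg_rank hv
  have hD : ∀ d : Matrix.symplecticGroup (Fin n) (ZMod 2),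
      ((d : Matrix (Fin n ⊕ Fin n) (Fin n ⊕ Fin n) (ZMod 2)) - 1).rank = 1 → ∃ v, v ≠ 0 ∧ d = T v := fun d hd => by
    obtain ⟨v, hv, he⟩ := exists_tg (g := spToGL d) (by rw [← spToGL_range]; exact ⟨d, rfl⟩)
      (by rw [coe_spToGL]; exact hd)
    exact ⟨v, hv, spToGL_injective (he.trans (hT v).symm)⟩
  refine ⟨⟨fun d hd => ?_, fun d hd e he => ?_⟩, ?_, ?_⟩
  · obtain ⟨v, hv, rfl⟩ := hD d hd
    refine orderOf_eq_prime (spToGL_injective ?_) fun h1 => ?_
    · rw [map_pow, map_one, hT, pow_two, tg_sq]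
    · have := hrank v hv
      rw [h1] at this
      simp at this
  · obtain ⟨u, -, rfl⟩ := hD d hd
    obtain ⟨v, -, rfl⟩ := hD e he
    rcases tg_pair u v with h | h
    · exact Or.inl (spToGL_injective (by rw [map_pow, map_mul, map_one, hT, hT, h]))
    · exact Or.inr (spToGL_injective (by rw [map_pow, map_mul, map_one, hT, hT, h]))
  · let v0 : Fin n ⊕ Fin n → ZMod 2 := Pi.single (Sum.inl ⟨0, hn⟩) 1
    have hv0 : v0 ≠ 0 := fun h => by simpa [v0] using congrFun h (Sum.inl ⟨0, hn⟩)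
    refine ⟨T v0, hrank v0 hv0, Set.ext fun d => ⟨fun hd => ?_, fun hd => ?_⟩⟩
    · obtain ⟨v, hv, rfl⟩ := hD d hd
      have hA := sympBilin_isAlt (ZMod 2) n
      obtain ⟨h, hh, hhv⟩ := exists_move_vec (sympBilin (ZMod 2) n) hA ⊤
        (nondegOn_top (sympBilin_nondegenerate (ZMod 2) n)) (u := v0) (v := v) trivial trivial hv0 hv
      have hiso := tvClosure_le_isoGroup (sympBilin (ZMod 2) n) hA ⊤ hh
      set g := (glEquiv (Fin n ⊕ Fin n) (ZMod 2)).symm h with hg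
      have hgm : g ∈ Cfsg.spGL n (ZMod 2) := mem_spGL_iff.2 fun x y => by
        rw [hg, glEquiv_symm_mulVec, glEquiv_symm_mulVec]; exact hiso x y
      obtain ⟨k, hk⟩ : ∃ k, spToGL k = g := by
        rw [← spToGL_range] at hgm; exact hgm
      refine isConj_iff.mpr ⟨k, spToGL_injective ?_⟩
      rw [map_mul, map_mul, map_inv, hk, hT, hT, tg_conj g hgm, hg, glEquiv_symm_mulVec, hhv]
    · obtain ⟨k, hk⟩ := isConj_iff.mp hd
      subst hk
      have hkm : spToGL k ∈ Cfsg.spGL n (ZMod 2) := by rw [← spToGL_range]; exact ⟨k, rfl⟩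
      show ((_ : Matrix (Fin n ⊕ Fin n) (Fin n ⊕ Fin n) (ZMod 2)) - 1).rank = 1
      rw [← coe_spToGL, map_mul, map_mul, map_inv, hT, tg_conj _ hkm]
      refine tg_rank fun h0 => hv0 ?_
      have := congrArg (fun w => (((spToGL k)⁻¹ : GL (Fin n ⊕ Fin n) (ZMod 2)) :
        Matrix (Fin n ⊕ Fin n) (Fin n ⊕ Fin n) (ZMod 2)) *ᵥ w) h0
      simp only [Matrix.mulVec_mulVec, Units.inv_mul, Matrix.one_mulVec, Matrix.mulVec_zero] at this
      exact this
  · rw [eq_top_iff]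
    intro k _
    have hH : Cfsg.spGL n (ZMod 2) ≤ (Subgroup.closure {g : Matrix.symplecticGroup (Fin n) (ZMod 2) |
        ((g : Matrix (Fin n ⊕ Fin n) (Fin n ⊕ Fin n) (ZMod 2)) - 1).rank = 1}).map spToGL := by
      refine spGL_le_of_sTGL_mem fun v c => ?_
      have h01 : ∀ x : ZMod 2, x = 0 ∨ x = 1 := by decide
      rcases h01 c with rfl | rfl
      · rw [sTGL_zero]; exact one_mem _
      · by_cases hv : v = 0
        · rw [hv, sTGL_zero_left]; exact one_mem _
        · exact ⟨T v, Subgroup.subset_closure (hrank v hv), hT v⟩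
    obtain ⟨k', hk', he⟩ := hH (show spToGL k ∈ Cfsg.spGL n (ZMod 2) by rw [← spToGL_range]; exact ⟨k, rfl⟩)
    rwa [← spToGL_injective he]

end Cfsg.Agent.S0440
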