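import Cfsg.Statements.S0442
import Mathlib
import Cfsg.Agent.Lib.ThreeT.Basic

set_option autoImplicit false
open Cfsg

namespace Cfsg.Agent.S0442

/-- A standard trick for producing elements of an involution centraliser: for an involution a and an element g, let b be the conjugate g⁻¹ * a * g. If a * b has odd order 2m + 1 then g * (a * b) ^ m commutes with a; if a * b has even order 2m then (a * b) ^ m and (a * (g * a * g⁻¹)) ^ m commute with a. -/
theorem result {G : Type*} [Group G] (a g : G) (ha : orderOf a = 2) : (∀ m : ℕ, orderOf (a * (g⁻¹ * a * g)) = 2 * m + 1 → Commute (g * (a * (g⁻¹ * a * g)) ^ m) a) ∧ (∀ m : ℕ, orderOf (a * (g⁻¹ * a * g)) = 2 * m → Commute ((a * (g⁻¹ * a * g)) ^ m) a ∧ Commute ((a * (g * a * g⁻¹)) ^ m) a) := by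
  have haa := Lib.ThreeT.mul_self ha
  have hai := Lib.ThreeT.inv_self ha
  set b := g⁻¹ * a * g with hb
  have hbb : b * b = 1 := by
    rw [hb, show g⁻¹ * a * g * (g⁻¹ * a * g) = g⁻¹ * (a * a) * g by group, haa]; group
  have hconj : ∀ k : ℕ, a * (a * b) ^ k * a = ((a * b) ^ k)⁻¹ := by
    intro k
    have h := conj_pow (i := k) (a := a) (b := a * b)
    rw [hai] at h
    rw [← h, ← inv_pow, mul_inv_rev, inv_eq_of_mul_eq_one_right hbb, hai, ← mul_assoc, haa, one_mul]
  refine ⟨fun m hm => ?_, fun m hm => ?_⟩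
  · have h1 : (a * b) ^ (m + 1) = ((a * b) ^ m)⁻¹ := by
      apply eq_inv_of_mul_eq_one_left
      rw [← pow_add, show m + 1 + m = orderOf (a * b) by omega, pow_orderOf_eq_one]
    show g * (a * b) ^ m * a = a * (g * (a * b) ^ m)
    calc g * (a * b) ^ m * a = g * (a * (a * (a * b) ^ m * a)) := by
          simp only [mul_assoc, Lib.ThreeT.cancel haa]
      _ = g * (a * ((a * b) * (a * b) ^ m)) := by rw [hconj, ← h1, pow_succ']
      _ = g * b * (a * b) ^ m := by simp only [mul_assoc, Lib.ThreeT.cancel haa]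
      _ = a * (g * (a * b) ^ m) := by rw [hb]; group
  · have h1 : ((a * b) ^ m)⁻¹ = (a * b) ^ m := by
      apply inv_eq_of_mul_eq_one_right
      rw [← pow_add, show m + m = orderOf (a * b) by omega, pow_orderOf_eq_one]
    constructor
    · show (a * b) ^ m * a = a * (a * b) ^ m
      calc (a * b) ^ m * a = a * (a * (a * b) ^ m * a) := by
            simp only [mul_assoc, Lib.ThreeT.cancel haa]
        _ = a * (a * b) ^ m := by rw [hconj, h1]
    · set c := a * (g * a * g⁻¹) with hc
      have hcg : c = g * (a * b)⁻¹ * g⁻¹ := by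
        rw [hc, mul_inv_rev, inv_eq_of_mul_eq_one_right hbb, hai, hb]; group
      have h2 : (c ^ m)⁻¹ = c ^ m := by
        rw [hcg, conj_pow, inv_pow, h1]
        simp only [mul_inv_rev, inv_inv, h1, mul_assoc]
      show c ^ m * a = a * c ^ m
      have hac : a * c * a = c⁻¹ := by
        rw [hc]; simp only [mul_inv_rev, inv_inv, hai, mul_assoc, Lib.ThreeT.cancel haa]
      calc c ^ m * a = a * (a * c ^ m * a) := by simp only [mul_assoc, Lib.ThreeT.cancel haa]
        _ = a * c ^ m := by
          have h := conj_pow (i := m) (a := a) (b := c)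
          rw [hai, hac, inv_pow, h2] at h
          rw [← h]

end Cfsg.Agent.S0442
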