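import Cfsg.Statements.S0443
import Mathlib

set_option autoImplicit false
open Cfsg

namespace Cfsg.Agent.S0443

/-- Two definitions of a 2-central involution agree: an element t of order 2 of a finite group lies in the centre of some Sylow 2-subgroup if and only if its centraliser contains some Sylow 2-subgroup. -/
theorem result {G : Type*} [Group G] [Finite G] (t : G) (ht : orderOf t = 2) : Cfsg.IsTwoCentralInvolution t ↔ ∃ P : Sylow 2 G, (P : Subgroup G) ≤ Subgroup.centralizer ({t} : Set G) := by
  constructor
  · rintro ⟨-, P, -, hP⟩
    exact ⟨P, fun x hx => Subgroup.mem_centralizer_iff.2 fun y hy => by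
      rw [Set.mem_singleton_iff.1 hy]; exact (hP x hx).symm⟩
  · rintro ⟨P, hP⟩
    have hc : ∀ x ∈ P, x * t = t * x := fun x hx =>
      (Subgroup.mem_centralizer_iff.1 (hP hx) t rfl).symm
    refine ⟨ht, P, ?_, hc⟩
    have hz : IsPGroup 2 (Subgroup.zpowers t) := IsPGroup.of_card (n := 1) (by simp [ht])
    have hn : Subgroup.zpowers t ≤ Subgroup.normalizer ((P : Subgroup G) : Set G) := by
      rw [Subgroup.zpowers_le]
      rw [Subgroup.mem_normalizer_iff]
      intro x
      constructor
      · intro hx
        rw [← hc x hx, mul_inv_cancel_right]; exact hx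
      · intro hx
        have h := hc _ hx
        rw [inv_mul_cancel_right] at h
        have : x = t * x * t⁻¹ := mul_left_cancel h |>.trans (by group) |>.symm.symm
        rw [this]; exact hx
    have h2 := IsPGroup.to_sup_of_normal_left' (H := (P : Subgroup G)) P.isPGroup' hz hn
    exact SetLike.le_def.1 (le_of_eq (P.is_maximal' h2 le_sup_left))
      (Subgroup.mem_sup_right (Subgroup.mem_zpowers t))

end Cfsg.Agent.S0443
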