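import Cfsg.Statements.S0444
import Mathlib
import Cfsg.Agent.Lib.ThreeT.Basic

set_option autoImplicit false
open Cfsg

namespace Cfsg.Agent.S0444

/-- Two members of a set of 3-transpositions which do not commute generate a subgroup isomorphic to the symmetric group on three letters. -/
theorem result {G : Type*} [Group G] {E : Set G} (hE : Cfsg.IsThreeTranspositionSet E) {d e : G} (hd : d ∈ E) (he : e ∈ E) (h : ¬ Commute d e) : Nonempty (Subgroup.closure ({d, e} : Set G) ≃* Equiv.Perm (Fin 3)) := by
  obtain ⟨φ, h1, h2⟩ := Lib.ThreeT.exists_hom_perm3 (Lib.ThreeT.mul_self (hE.1 d hd))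
    (Lib.ThreeT.mul_self (hE.1 e he)) (Lib.ThreeT.braid hE hd he h)
  have hinj := Lib.ThreeT.injective_perm3 φ (by
    rw [h1, h2]; rintro rfl; exact h (Commute.refl _))
  have hr : φ.range = Subgroup.closure {d, e} := by
    have htop : Subgroup.closure ({Equiv.swap 0 1, Equiv.swap 1 2} : Set (Equiv.Perm (Fin 3))) = ⊤ := by
      rw [eq_top_iff]
      intro p _
      have key : ∀ p : Equiv.Perm (Fin 3), ∃ t : Fin 2 × Fin 3,
          Lib.ThreeT.u (Equiv.swap 0 1) (Equiv.swap 1 2) t = p := by decide +kernel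
      obtain ⟨⟨i, j⟩, rfl⟩ := key p
      refine mul_mem ?_ ?_
      · fin_cases i
        · simp [one_mem]
        · exact Subgroup.subset_closure (Set.mem_insert _ _)
      · have ha : (Equiv.swap 0 1 : Equiv.Perm (Fin 3)) ∈ Subgroup.closure
            ({Equiv.swap 0 1, Equiv.swap 1 2} : Set (Equiv.Perm (Fin 3))) := Subgroup.subset_closure (by simp)
        have hb : (Equiv.swap 1 2 : Equiv.Perm (Fin 3)) ∈ Subgroup.closure
            ({Equiv.swap 0 1, Equiv.swap 1 2} : Set (Equiv.Perm (Fin 3))) := Subgroup.subset_closure (by simp)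
        fin_cases j <;> simp [one_mem, hb, mul_mem hb ha]
    rw [MonoidHom.range_eq_map, ← htop, MonoidHom.map_closure, Set.image_pair, h1, h2]
  exact ⟨((MonoidHom.ofInjective hinj).trans (MulEquiv.subgroupCongr hr)).symm⟩

end Cfsg.Agent.S0444
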