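import Mathlib
import Cfsg.Statements.S0445
-- import your own Cfsg.Agent.* helpers here

set_option autoImplicit false
open Cfsg

namespace Cfsg.Agent.S0445

open Matrix

/-- A centraliser element built from its parameters. -/
def mat (a : ZMod 2) (r c : Fin 3 → ZMod 2) (B : Matrix (Fin 3) (Fin 3) (ZMod 2)) :
    Matrix (Fin 5) (Fin 5) (ZMod 2) :=
  Matrix.of (Fin.cases (Fin.cases 1 (Fin.cases a r))
    (Fin.cases (Fin.cases 0 (Fin.cases 1 fun _ => 0))
      fun i => Fin.cases 0 (Fin.cases (c i) (B i))))

theorem det_of_shape (m : Matrix (Fin 5) (Fin 5) (ZMod 2)) (h0 : ∀ i : Fin 4, m i.succ 0 = 0)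
    (h1 : ∀ j : Fin 3, m 1 j.succ.succ = 0) :
    m.det = m 0 0 * (m 1 1 * (Matrix.of fun i j : Fin 3 => m i.succ.succ j.succ.succ).det) := by
  rw [Matrix.det_succ_column_zero, Fin.sum_univ_succ]
  simp only [h0, mul_zero, zero_mul, Finset.sum_const_zero, add_zero, Fin.val_zero, pow_zero, one_mul]
  refine congrArg (m 0 0 * ·) ?_
  rw [Matrix.det_succ_row_zero, Fin.sum_univ_succ]
  have h : ∀ j : Fin 3, (m.submatrix (Fin.succAbove 0) Fin.succ) 0 j.succ = 0 := fun j => by
    rw [Matrix.submatrix_apply]; exact h1 j
  simp only [h, mul_zero, zero_mul, Finset.sum_const_zero, add_zero, Fin.val_zero, pow_zero, one_mul]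
  refine congrArg₂ (· * ·) rfl (congrArg Matrix.det ?_)
  ext i j
  simp [Fin.succAbove_zero]

theorem commute_iff (m : Matrix (Fin 5) (Fin 5) (ZMod 2)) :
    m * transvection 0 1 1 = transvection 0 1 1 * m ↔
      (∀ i : Fin 4, m i.succ 0 = 0) ∧ (∀ j, j ≠ 1 → m 1 j = 0) ∧ m 0 0 = m 1 1 := by
  rw [transvection, mul_add, add_mul, mul_one, one_mul, add_right_inj, ← Matrix.ext_iff]
  constructor
  · intro h
    refine ⟨fun i => ?_, fun j hj => ?_, ?_⟩
    · have := h i.succ 1
      simpa [Matrix.single_mul_apply_of_ne, Fin.succ_ne_zero] using this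
    · have := h 0 j
      simpa [Matrix.mul_single_apply_of_ne, hj] using this.symm
    · simpa using h 0 1
  · rintro ⟨h0, h1, h2⟩ i j
    by_cases hj : j = 1 <;> by_cases hi : i = 0
    · subst hi hj; simpa using h2
    · subst hj
      obtain ⟨i, rfl⟩ := Fin.exists_succ_eq.2 hi
      simp [Matrix.single_mul_apply_of_ne, Fin.succ_ne_zero, h0]
    · subst hi
      simp [Matrix.mul_single_apply_of_ne, hj, h1 j hj]
    · simp [Matrix.mul_single_apply_of_ne, Matrix.single_mul_apply_of_ne, hj, hi]

theorem det_mat (a : ZMod 2) (r c : Fin 3 → ZMod 2) (B : Matrix (Fin 3) (Fin 3) (ZMod 2)) :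
    (mat a r c B).det = B.det := by
  rw [det_of_shape]
  · show (1 : ZMod 2) * (1 * B.det) = B.det
    rw [one_mul, one_mul]
  · intro i; cases i using Fin.cases <;> rfl
  · intro j; rfl

theorem mat_commute (a : ZMod 2) (r c : Fin 3 → ZMod 2) (B : Matrix (Fin 3) (Fin 3) (ZMod 2)) :
    mat a r c B * transvection 0 1 1 = transvection 0 1 1 * mat a r c B := by
  rw [commute_iff]
  refine ⟨fun i => ?_, fun j hj => ?_, rfl⟩
  · cases i using Fin.cases <;> rfl
  · cases j using Fin.cases with
    | zero => rfl
    | succ j => cases j using Fin.cases with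
      | zero => exact absurd rfl hj
      | succ j => rfl

/-- In the special linear group of dimension 5 over the field with two elements, the centraliser of a transvection has order 21504 = 2 ^ 7 · 168 (it is an extension of an extraspecial group of order 2 ^ 7 by the simple group of order 168). -/
theorem result (s : Matrix.SpecialLinearGroup (Fin 5) (ZMod 2)) (hs : (s : Matrix (Fin 5) (Fin 5) (ZMod 2)) = Matrix.transvection 0 1 1) : Nat.card (Subgroup.centralizer ({s} : Set (Matrix.SpecialLinearGroup (Fin 5) (ZMod 2)))) = 21504 := by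
  classical
  have hiff : ∀ g : Matrix.SpecialLinearGroup (Fin 5) (ZMod 2),
      g ∈ Subgroup.centralizer ({s} : Set (Matrix.SpecialLinearGroup (Fin 5) (ZMod 2))) ↔
        g.1 * transvection 0 1 1 = transvection 0 1 1 * g.1 := fun g => by
    rw [Subgroup.mem_centralizer_singleton_iff]
    constructor
    · intro h
      have := congrArg Subtype.val h
      simpa only [Matrix.SpecialLinearGroup.coe_mul, hs] using this
    · intro h
      exact Subtype.ext (by simpa only [Matrix.SpecialLinearGroup.coe_mul, hs] using h)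
  have hunit : ∀ a : ZMod 2, IsUnit a → a = 1 := fun a ha => by
    have h2 : ∀ a : ZMod 2, a = 0 ∨ a = 1 := by decide
    exact (h2 a).resolve_left ha.ne_zero
  let f : ZMod 2 × (Fin 3 → ZMod 2) × (Fin 3 → ZMod 2) × GL (Fin 3) (ZMod 2) →
      ↥(Subgroup.centralizer ({s} : Set (Matrix.SpecialLinearGroup (Fin 5) (ZMod 2)))) := fun p =>
    ⟨⟨mat p.1 p.2.1 p.2.2.1 p.2.2.2.1, by
      rw [det_mat]; exact hunit _ ((Matrix.isUnit_iff_isUnit_det _).1 p.2.2.2.isUnit)⟩,
      (hiff _).2 (mat_commute _ _ _ _)⟩
  have hf : Function.Bijective f := by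
    refine ⟨fun p q h => ?_, fun g => ?_⟩
    · have h' : ∀ i j, mat p.1 p.2.1 p.2.2.1 p.2.2.2.1 i j = mat q.1 q.2.1 q.2.2.1 q.2.2.2.1 i j :=
        fun i j => congrFun (congrFun (congrArg (fun x => x.1.1) h) i) j
      refine Prod.ext (h' 0 1) (Prod.ext (funext fun j => h' 0 j.succ.succ)
        (Prod.ext (funext fun i => h' i.succ.succ 1) (Units.ext ?_)))
      exact Matrix.ext fun i j => h' i.succ.succ j.succ.succ
    · set m := g.1.1 with hm
      obtain ⟨h0, h1, h2⟩ := (commute_iff m).1 ((hiff g.1).1 g.2)
      have h1' : ∀ j : Fin 3, m 1 j.succ.succ = 0 := fun j => h1 _ (by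
        intro h
        have := congrArg Fin.val h
        simp at this)
      have hdet := det_of_shape m h0 h1'
      rw [show m.det = 1 from g.1.2] at hdet
      set B : Matrix (Fin 3) (Fin 3) (ZMod 2) := Matrix.of fun i j => m i.succ.succ j.succ.succ
      have hu : IsUnit (m 0 0) := IsUnit.of_mul_eq_one _ hdet.symm
      have h00 : m 0 0 = 1 := hunit _ hu
      have hB : B.det = 1 := by
        rw [← h2, h00, one_mul, one_mul] at hdet
        exact hdet.symm
      refine ⟨(m 0 1, fun j => m 0 j.succ.succ, fun i => m i.succ.succ 1,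
        Matrix.GeneralLinearGroup.mkOfDetNeZero B (by rw [hB]; exact one_ne_zero)), ?_⟩
      refine Subtype.ext (Subtype.ext (Matrix.ext fun i j => ?_))
      show mat _ _ _ _ i j = m i j
      cases i using Fin.cases with
      | zero =>
        cases j using Fin.cases with
        | zero => exact h00.symm
        | succ j => cases j using Fin.cases <;> rfl
      | succ i =>
        cases i using Fin.cases with
        | zero =>
          cases j using Fin.cases with
          | zero => exact (h0 0).symm
          | succ j =>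
            cases j using Fin.cases with
            | zero => exact (h00.symm.trans h2)
            | succ j => exact (h1' j).symm
        | succ i =>
          cases j using Fin.cases with
          | zero => exact (h0 i.succ).symm
          | succ j => cases j using Fin.cases <;> rfl
  rw [← Nat.card_eq_of_bijective f hf]
  simp only [Nat.card_prod, Nat.card_fun, Nat.card_zmod, Matrix.card_GL_field]
  simp [Fin.prod_univ_three, ZMod.card]

end Cfsg.Agent.S0445
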