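import Cfsg.Statements.S0446
import Mathlib

set_option autoImplicit false
open Cfsg

namespace Cfsg.Agent.S0446

/-- Every finite group of even order contains a 2-central involution, i.e. an element of order 2 in the centre of some Sylow 2-subgroup. -/
theorem result {G : Type*} [Group G] [Finite G] (h : Even (Nat.card G)) : ∃ t : G, Cfsg.IsTwoCentralInvolution t := by
  haveI : Fact (Nat.Prime 2) := ⟨Nat.prime_two⟩
  obtain ⟨P⟩ : Nonempty (Sylow 2 G) := inferInstance
  have hne : Nontrivial (P : Subgroup G) := by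
    rw [Subgroup.nontrivial_iff_ne_bot]
    exact P.ne_bot_of_dvd_card h.two_dvd
  haveI := P.isPGroup'.center_nontrivial
  have h2 : 2 ∣ Nat.card (Subgroup.center (P : Subgroup G)) := by
    obtain ⟨n, hn⟩ := IsPGroup.iff_card.1 (P.isPGroup'.to_subgroup (Subgroup.center (P : Subgroup G)))
    rw [hn]
    refine dvd_pow_self 2 fun h0 => ?_
    rw [h0, pow_zero] at hn
    exact absurd hn (Finite.one_lt_card).ne'
  obtain ⟨⟨⟨t, htP⟩, htc⟩, ht⟩ := exists_prime_orderOf_dvd_card' 2 h2
  refine ⟨t, by simpa [Subgroup.orderOf_mk] using ht, P, htP, fun x hx => ?_⟩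
  exact congrArg Subtype.val (Subgroup.mem_center_iff.1 htc ⟨x, hx⟩)

end Cfsg.Agent.S0446
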