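import Cfsg.Statements.S0481
import Mathlib
import Cfsg.Agent.Lib.Solv.Cores
import Cfsg.Agent.Lib.Transfer.ExtraspecialClass

set_option autoImplicit false
open Cfsg
open scoped commutatorElement Pointwise

namespace Cfsg.Agent.S0481

/-- Large extraspecial subgroups: let z be an involution of a finite group G whose centraliser C contains a normal 2-subgroup Q with centre of order 2 and all squares central, such that every element of G centralising Q lies in Q. Then C contains a Sylow 2-subgroup of G, and any involution of G whose centraliser contains a Sylow 2-subgroup of G is conjugate to z. -/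
theorem result {G : Type*} [Group G] [Finite G] (z : G) (hz : orderOf z = 2) (Q : Subgroup G) (hQC : Q ≤ Subgroup.centralizer ({z} : Set G)) (hQn : ∀ g ∈ Subgroup.centralizer ({z} : Set G), ∀ q ∈ Q, g * q * g⁻¹ ∈ Q) (hQ2 : IsPGroup 2 Q) (hZ : Nat.card (Subgroup.center Q) = 2) (hsq : ∀ x : Q, x ^ 2 ∈ Subgroup.center Q) (hlarge : Subgroup.centralizer (Q : Set G) ≤ Q) : (∃ P : Sylow 2 G, (P : Subgroup G) ≤ Subgroup.centralizer ({z} : Set G)) ∧ ∀ u : G, orderOf u = 2 → (∃ P : Sylow 2 G, (P : Subgroup G) ≤ Subgroup.centralizer ({u} : Set G)) → IsConj z u := by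
  classical
  haveI : Fact (Nat.Prime 2) := ⟨Nat.prime_two⟩
  set C := Subgroup.centralizer ({z} : Set G)
  have hz1 : z ≠ 1 := fun e => by simp [e] at hz
  have hzQ : z ∈ Q := hlarge (Subgroup.mem_centralizer_iff.mpr fun q hq =>
    Subgroup.mem_centralizer_singleton_iff.mp (hQC hq))
  have hzc : (⟨z, hzQ⟩ : Q) ∈ Subgroup.center Q := Subgroup.mem_center_iff.mpr fun q => Subtype.ext
    (Subgroup.mem_centralizer_singleton_iff.mp (hQC q.2))
  -- a nontrivial central element of Q is z
  have huniq : ∀ u : G, u ≠ 1 → u ∈ Subgroup.centralizer (Q : Set G) → u = z := by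
    intro u hu huC
    have huc : (⟨u, hlarge huC⟩ : Q) ∈ Subgroup.center Q := Subgroup.mem_center_iff.mpr fun q => Subtype.ext
      (Subgroup.mem_centralizer_iff.mp huC q q.2)
    haveI : Fintype (Subgroup.center Q) := Fintype.ofFinite _
    haveI := Fintype.card_le_one_iff_subsingleton.mp (show Fintype.card {k : Subgroup.center Q // k ≠ 1} ≤ 1 by
      rw [Fintype.card_subtype_compl, Fintype.card_subtype_eq, ← Nat.card_eq_fintype_card, hZ])
    have h := Subsingleton.elim
      (⟨⟨⟨u, hlarge huC⟩, huc⟩, fun e => hu (congrArg (fun k : Subgroup.center Q => ((k : Q) : G)) e)⟩ : {k : Subgroup.center Q // k ≠ 1})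
      ⟨⟨⟨z, hzQ⟩, hzc⟩, fun e => hz1 (congrArg (fun k : Subgroup.center Q => ((k : Q) : G)) e)⟩
    exact congrArg (fun k : {k : Subgroup.center Q // k ≠ 1} => (((k : Subgroup.center Q) : Q) : G)) h
  obtain ⟨T, hT⟩ := hQ2.exists_le_sylow
  have hTC : (T : Subgroup G) ≤ C := by
    haveI : Nontrivial (T : Subgroup G) := ⟨⟨⟨z, hT hzQ⟩, 1, fun e => hz1 (congrArg Subtype.val e)⟩⟩
    haveI := T.isPGroup'.center_nontrivial
    obtain ⟨⟨⟨c, hcT⟩, hc⟩, hc1⟩ := exists_ne (1 : Subgroup.center (T : Subgroup G))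
    have hcz : c = z := huniq c (fun e => hc1 (Subtype.ext (Subtype.ext e)))
      (Subgroup.mem_centralizer_iff.mpr fun q hq =>
        congrArg Subtype.val (Subgroup.mem_center_iff.mp hc ⟨q, hT hq⟩))
    subst hcz
    intro x hx
    exact Subgroup.mem_centralizer_singleton_iff.mpr
      (congrArg Subtype.val (Subgroup.mem_center_iff.mp hc ⟨x, hx⟩))
  refine ⟨⟨T, hTC⟩, fun u hu ⟨P, hP⟩ => ?_⟩
  obtain ⟨g, hg⟩ := MulAction.exists_smul_eq G P T
  have hcen : g * u * g⁻¹ ∈ Subgroup.centralizer (Q : Set G) := by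
    rw [Subgroup.mem_centralizer_iff]
    intro q hq
    have h1 := hT hq
    rw [← hg] at h1
    obtain ⟨y, hy, rfl⟩ : ∃ y ∈ (P : Subgroup G), g * y * g⁻¹ = q := by
      obtain ⟨y, hy, e⟩ := h1
      exact ⟨y, hy, e⟩
    have := Subgroup.mem_centralizer_singleton_iff.mp (hP hy)
    calc g * y * g⁻¹ * (g * u * g⁻¹) = g * (y * u) * g⁻¹ := by group
      _ = g * u * g⁻¹ * (g * y * g⁻¹) := by rw [this]; group
  have hne : g * u * g⁻¹ ≠ 1 := fun e => by
    have : u = 1 := by simpa using e
    simp [this] at hu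
  exact isConj_iff.mpr ⟨g⁻¹, by rw [← huniq _ hne hcen]; group⟩

end Cfsg.Agent.S0481
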