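import Cfsg.Statements.S0493
import Mathlib
import Cfsg.Agent.Lib.Characters.Burnside
import Cfsg.Agent.Lib.TwoFus.CyclicSylow
import Cfsg.Agent.Lib.Invol.BrauerFowler
-- import your own Cfsg.Agent.* helpers here

set_option autoImplicit false
open Cfsg

namespace Cfsg.Agent.S0493

open Subgroup

/-- A finite simple group of order at most 100 that is not cyclic has order 60. -/
theorem result {G : Type*} [Group G] [Finite G] [IsSimpleGroup G]
    (hG : ¬ IsCyclic G) (h : Nat.card G ≤ 100) : Nat.card G = 60 := by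
  classical
  have hna : ¬ IsMulCommutative G := fun hc => by
    have : Fact (Nat.card G).Prime := ⟨Cfsg.Lib.Invol.card_prime_of_simple_comm hc⟩
    exact hG (isCyclic_of_prime_card rfl)
  have hns : ¬ Group.IsSolvable G := fun hs => hna
    ⟨⟨IsSimpleGroup.comm_iff_isSolvable.2 hs⟩⟩
  have h1 : 1 < Nat.card G := Finite.one_lt_card
  have key : ∀ n : ℕ, 1 < n → n ≤ 100 → (∃ p q a b : ℕ, p.Prime ∧ q.Prime ∧ n = p ^ a * q ^ b) ∨
      n = 60 ∨ n % 4 = 2 ∨ n = 84 := by
    intro n h1 h
    by_cases hb : n = 60 ∨ n % 4 = 2 ∨ n = 84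
    · exact Or.inr hb
    push Not at hb
    left
    interval_cases n
    · exact ⟨2, 2, 1, 0, by norm_num, by norm_num, by norm_num⟩
    · exact ⟨3, 3, 1, 0, by norm_num, by norm_num, by norm_num⟩
    · exact ⟨2, 2, 2, 0, by norm_num, by norm_num, by norm_num⟩
    · exact ⟨5, 5, 1, 0, by norm_num, by norm_num, by norm_num⟩
    · exact ⟨2, 3, 1, 1, by norm_num, by norm_num, by norm_num⟩
    · exact ⟨7, 7, 1, 0, by norm_num, by norm_num, by norm_num⟩
    · exact ⟨2, 2, 3, 0, by norm_num, by norm_num, by norm_num⟩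
    · exact ⟨3, 3, 2, 0, by norm_num, by norm_num, by norm_num⟩
    · exact ⟨2, 5, 1, 1, by norm_num, by norm_num, by norm_num⟩
    · exact ⟨11, 11, 1, 0, by norm_num, by norm_num, by norm_num⟩
    · exact ⟨2, 3, 2, 1, by norm_num, by norm_num, by norm_num⟩
    · exact ⟨13, 13, 1, 0, by norm_num, by norm_num, by norm_num⟩
    · exact ⟨2, 7, 1, 1, by norm_num, by norm_num, by norm_num⟩
    · exact ⟨3, 5, 1, 1, by norm_num, by norm_num, by norm_num⟩
    · exact ⟨2, 2, 4, 0, by norm_num, by norm_num, by norm_num⟩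
    · exact ⟨17, 17, 1, 0, by norm_num, by norm_num, by norm_num⟩
    · exact ⟨2, 3, 1, 2, by norm_num, by norm_num, by norm_num⟩
    · exact ⟨19, 19, 1, 0, by norm_num, by norm_num, by norm_num⟩
    · exact ⟨2, 5, 2, 1, by norm_num, by norm_num, by norm_num⟩
    · exact ⟨3, 7, 1, 1, by norm_num, by norm_num, by norm_num⟩
    · exact ⟨2, 11, 1, 1, by norm_num, by norm_num, by norm_num⟩
    · exact ⟨23, 23, 1, 0, by norm_num, by norm_num, by norm_num⟩
    · exact ⟨2, 3, 3, 1, by norm_num, by norm_num, by norm_num⟩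
    · exact ⟨5, 5, 2, 0, by norm_num, by norm_num, by norm_num⟩
    · exact ⟨2, 13, 1, 1, by norm_num, by norm_num, by norm_num⟩
    · exact ⟨3, 3, 3, 0, by norm_num, by norm_num, by norm_num⟩
    · exact ⟨2, 7, 2, 1, by norm_num, by norm_num, by norm_num⟩
    · exact ⟨29, 29, 1, 0, by norm_num, by norm_num, by norm_num⟩
    · omega
    · exact ⟨31, 31, 1, 0, by norm_num, by norm_num, by norm_num⟩
    · exact ⟨2, 2, 5, 0, by norm_num, by norm_num, by norm_num⟩
    · exact ⟨3, 11, 1, 1, by norm_num, by norm_num, by norm_num⟩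
    · exact ⟨2, 17, 1, 1, by norm_num, by norm_num, by norm_num⟩
    · exact ⟨5, 7, 1, 1, by norm_num, by norm_num, by norm_num⟩
    · exact ⟨2, 3, 2, 2, by norm_num, by norm_num, by norm_num⟩
    · exact ⟨37, 37, 1, 0, by norm_num, by norm_num, by norm_num⟩
    · exact ⟨2, 19, 1, 1, by norm_num, by norm_num, by norm_num⟩
    · exact ⟨3, 13, 1, 1, by norm_num, by norm_num, by norm_num⟩
    · exact ⟨2, 5, 3, 1, by norm_num, by norm_num, by norm_num⟩
    · exact ⟨41, 41, 1, 0, by norm_num, by norm_num, by norm_num⟩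
    · omega
    · exact ⟨43, 43, 1, 0, by norm_num, by norm_num, by norm_num⟩
    · exact ⟨2, 11, 2, 1, by norm_num, by norm_num, by norm_num⟩
    · exact ⟨3, 5, 2, 1, by norm_num, by norm_num, by norm_num⟩
    · exact ⟨2, 23, 1, 1, by norm_num, by norm_num, by norm_num⟩
    · exact ⟨47, 47, 1, 0, by norm_num, by norm_num, by norm_num⟩
    · exact ⟨2, 3, 4, 1, by norm_num, by norm_num, by norm_num⟩
    · exact ⟨7, 7, 2, 0, by norm_num, by norm_num, by norm_num⟩
    · exact ⟨2, 5, 1, 2, by norm_num, by norm_num, by norm_num⟩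
    · exact ⟨3, 17, 1, 1, by norm_num, by norm_num, by norm_num⟩
    · exact ⟨2, 13, 2, 1, by norm_num, by norm_num, by norm_num⟩
    · exact ⟨53, 53, 1, 0, by norm_num, by norm_num, by norm_num⟩
    · exact ⟨2, 3, 1, 3, by norm_num, by norm_num, by norm_num⟩
    · exact ⟨5, 11, 1, 1, by norm_num, by norm_num, by norm_num⟩
    · exact ⟨2, 7, 3, 1, by norm_num, by norm_num, by norm_num⟩
    · exact ⟨3, 19, 1, 1, by norm_num, by norm_num, by norm_num⟩
    · exact ⟨2, 29, 1, 1, by norm_num, by norm_num, by norm_num⟩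
    · exact ⟨59, 59, 1, 0, by norm_num, by norm_num, by norm_num⟩
    · omega
    · exact ⟨61, 61, 1, 0, by norm_num, by norm_num, by norm_num⟩
    · exact ⟨2, 31, 1, 1, by norm_num, by norm_num, by norm_num⟩
    · exact ⟨3, 7, 2, 1, by norm_num, by norm_num, by norm_num⟩
    · exact ⟨2, 2, 6, 0, by norm_num, by norm_num, by norm_num⟩
    · exact ⟨5, 13, 1, 1, by norm_num, by norm_num, by norm_num⟩
    · omega
    · exact ⟨67, 67, 1, 0, by norm_num, by norm_num, by norm_num⟩
    · exact ⟨2, 17, 2, 1, by norm_num, by norm_num, by norm_num⟩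
    · exact ⟨3, 23, 1, 1, by norm_num, by norm_num, by norm_num⟩
    · omega
    · exact ⟨71, 71, 1, 0, by norm_num, by norm_num, by norm_num⟩
    · exact ⟨2, 3, 3, 2, by norm_num, by norm_num, by norm_num⟩
    · exact ⟨73, 73, 1, 0, by norm_num, by norm_num, by norm_num⟩
    · exact ⟨2, 37, 1, 1, by norm_num, by norm_num, by norm_num⟩
    · exact ⟨3, 5, 1, 2, by norm_num, by norm_num, by norm_num⟩
    · exact ⟨2, 19, 2, 1, by norm_num, by norm_num, by norm_num⟩
    · exact ⟨7, 11, 1, 1, by norm_num, by norm_num, by norm_num⟩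
    · omega
    · exact ⟨79, 79, 1, 0, by norm_num, by norm_num, by norm_num⟩
    · exact ⟨2, 5, 4, 1, by norm_num, by norm_num, by norm_num⟩
    · exact ⟨3, 3, 4, 0, by norm_num, by norm_num, by norm_num⟩
    · exact ⟨2, 41, 1, 1, by norm_num, by norm_num, by norm_num⟩
    · exact ⟨83, 83, 1, 0, by norm_num, by norm_num, by norm_num⟩
    · omega
    · exact ⟨5, 17, 1, 1, by norm_num, by norm_num, by norm_num⟩
    · exact ⟨2, 43, 1, 1, by norm_num, by norm_num, by norm_num⟩
    · exact ⟨3, 29, 1, 1, by norm_num, by norm_num, by norm_num⟩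
    · exact ⟨2, 11, 3, 1, by norm_num, by norm_num, by norm_num⟩
    · exact ⟨89, 89, 1, 0, by norm_num, by norm_num, by norm_num⟩
    · omega
    · exact ⟨7, 13, 1, 1, by norm_num, by norm_num, by norm_num⟩
    · exact ⟨2, 23, 2, 1, by norm_num, by norm_num, by norm_num⟩
    · exact ⟨3, 31, 1, 1, by norm_num, by norm_num, by norm_num⟩
    · exact ⟨2, 47, 1, 1, by norm_num, by norm_num, by norm_num⟩
    · exact ⟨5, 19, 1, 1, by norm_num, by norm_num, by norm_num⟩
    · exact ⟨2, 3, 5, 1, by norm_num, by norm_num, by norm_num⟩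
    · exact ⟨97, 97, 1, 0, by norm_num, by norm_num, by norm_num⟩
    · exact ⟨2, 7, 1, 2, by norm_num, by norm_num, by norm_num⟩
    · exact ⟨3, 11, 2, 1, by norm_num, by norm_num, by norm_num⟩
    · exact ⟨2, 5, 2, 2, by norm_num, by norm_num, by norm_num⟩
  rcases key _ h1 h with ⟨p, q, a, b, hp, hq, he⟩ | h60 | h2 | h84
  · exact absurd (Cfsg.Lib.Characters.isSolvable_of_card_eq_pow_mul_pow hp hq _ G rfl ⟨a, b, he⟩) hns
  · exact h60
  · exfalso
    have : Fact (Nat.Prime 2) := ⟨Nat.prime_two⟩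
    have heven : Even (Nat.card G) := ⟨Nat.card G / 2, by omega⟩
    let T : Sylow 2 G := default
    have hT : Nat.card (T : Subgroup G) = 2 := by
      obtain ⟨k, hk⟩ := IsPGroup.iff_card.1 T.2
      have hd : 2 ∣ Nat.card (T : Subgroup G) := T.dvd_card_of_dvd_card (even_iff_two_dvd.1 heven)
      have hdG : 2 ^ k ∣ Nat.card G := hk ▸ (T : Subgroup G).card_subgroup_dvd_card
      rcases k with _ | _ | k
      · rw [hk] at hd; omega
      · rw [hk]; norm_num
      · have : 4 ∣ Nat.card G := (Dvd.intro_left (2 ^ k) (by ring)).trans hdG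
        omega
    obtain ⟨H, hH⟩ := Cfsg.Lib.TwoFus.exists_index_two_of_cyclic heven T (isCyclic_of_prime_card hT)
    exact Cfsg.Lib.Invol.index_ne_two_of_simple hna H hH
  · exfalso
    have : Fact (Nat.Prime 7) := ⟨by norm_num⟩
    let T : Sylow 7 G := default
    have hT := T.card_eq_multiplicity
    rw [h84, show (84 : ℕ).factorization 7 = 1 by decide +kernel, pow_one] at hT
    have h2 := T.card_mul_index
    have h3 := Sylow.card_dvd_index T
    have h4 : Nat.card (Sylow 7 G) ≡ 1 [MOD 7] := card_sylow_modEq_one 7 G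
    rw [hT, h84] at h2
    have h5 : (T : Subgroup G).index = 12 := by omega
    rw [h5] at h3
    have h6 := Nat.le_of_dvd (by norm_num) h3
    unfold Nat.ModEq at h4
    have h7 : Nat.card (Sylow 7 G) = 1 := by
      interval_cases hc : Nat.card (Sylow 7 G) <;> omega
    have hn := T.card_eq_index_normalizer
    rw [h7] at hn
    have : (T : Subgroup G).Normal := normalizer_eq_top_iff.1 (index_eq_one.1 hn.symm)
    rcases this.eq_bot_or_eq_top with hb | hb
    · rw [hb, Subgroup.card_bot] at hT; omega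
    · rw [hb, Subgroup.card_top] at hT; omega

end Cfsg.Agent.S0493
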