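import Cfsg.Statements.S0498
import Mathlib
import Cfsg.Agent.Lib.Recog.SimplePSLTwoPrime
import Cfsg.Agent.Lib.Recog.SimplePSLTwoThirteen
import Cfsg.Agent.Lib.Classical.PSLSeven
-- import your own Cfsg.Agent.* helpers here

set_option autoImplicit false
open Cfsg

namespace Cfsg.Agent.S0498

/-- A simple group of order 660, respectively 1092, is isomorphic to the projective special linear group of dimension 2
over the field with 11, respectively 13, elements. -/
theorem result {G : Type*} [Group G] [Finite G] [IsSimpleGroup G] (p : ℕ)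
    (hp : p = 11 ∨ p = 13) (h : 2 * Nat.card G = p * (p ^ 2 - 1)) {F : Type*} [Field F] [Fintype F]
    (hF : Fintype.card F = p) : Nonempty (G ≃* Matrix.ProjectiveSpecialLinearGroup (Fin 2) F) := by
  obtain ⟨q, hq⟩ := CharP.exists F
  obtain ⟨m, hqp, hm⟩ := FiniteField.card F q
  rcases hp with rfl | rfl
  · haveI : Fact (Nat.Prime 11) := ⟨by norm_num⟩
    obtain ⟨e⟩ := Cfsg.Lib.Recog.SimplePSLTwo.nonempty_equiv (G := G) (p := 11) (k := 5) (by norm_num)
      Nat.prime_five (by norm_num) (by omega) (by norm_num)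
      (fun n hn hn7 => by
        have := Nat.le_of_dvd (by norm_num) hn
        interval_cases n <;> first | omega | (norm_num at hn))
    have φ : ZMod 11 ≃+* F := ZMod.ringEquivOfPrime F (by norm_num) hF
    obtain ⟨e'⟩ := Cfsg.Lib.Classical.PSLSeven.psl_congr 2 φ
    exact ⟨e.trans e'⟩
  · haveI : Fact (Nat.Prime 13) := ⟨by norm_num⟩
    obtain ⟨e⟩ := Cfsg.Lib.Recog.SimplePSLTwo.nonempty_equiv_thirteen (G := G) (by omega)
    have φ : ZMod 13 ≃+* F := ZMod.ringEquivOfPrime F (by norm_num) hF
    obtain ⟨e'⟩ := Cfsg.Lib.Classical.PSLSeven.psl_congr 2 φ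
    exact ⟨e.trans e'⟩

end Cfsg.Agent.S0498
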