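import Cfsg.Statements.S0499
import Mathlib
import Cfsg.Agent.Lib.Transfer.Frobenius
import Cfsg.Agent.Lib.Transfer.NormalPComplement
import Cfsg.Agent.Lib.TwoFus.CyclicSylow
-- import your own Cfsg.Agent.* helpers here

set_option autoImplicit false
open Cfsg

namespace Cfsg.Agent.S0499

/-- A non-abelian finite simple group of even order has order divisible by 12, 16 or 56. -/
theorem result {G : Type*} [Group G] [Finite G] [IsSimpleGroup G]
    (hG : ¬ IsMulCommutative G) (h2 : Even (Nat.card G)) :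
    12 ∣ Nat.card G ∨ 16 ∣ Nat.card G ∨ 56 ∣ Nat.card G := by
  have : Fact (Nat.Prime 2) := ⟨Nat.prime_two⟩
  obtain ⟨S⟩ : Nonempty (Sylow 2 G) := inferInstance
  obtain ⟨k, hk⟩ := S.2.exists_card_eq
  by_cases hk4 : 4 ≤ k
  · exact Or.inr (Or.inl ((pow_dvd_pow 2 hk4).trans (hk ▸ Subgroup.card_subgroup_dvd_card _)))
  have hbot : (S : Subgroup G) ≠ ⊥ := S.ne_bot_of_dvd_card (even_iff_two_dvd.1 h2)
  have hk2 : 2 ≤ k := by
    by_contra hlt
    have hcyc : IsCyclic ↥(S : Subgroup G) := by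
      rcases Nat.lt_succ_iff.1 (Nat.lt_of_not_le hlt) |>.eq_or_lt with rfl | h0
      · exact isCyclic_of_prime_card (p := 2) (by rw [hk, pow_one])
      · obtain rfl : k = 0 := by omega
        exact absurd (Subgroup.card_eq_one.1 (by simpa using hk)) hbot
    obtain ⟨H, hH⟩ := Cfsg.Lib.TwoFus.exists_index_two_of_cyclic h2 S hcyc
    haveI := Subgroup.normal_of_index_eq_two hH
    rcases Subgroup.Normal.eq_bot_or_eq_top (inferInstance : H.Normal) with rfl | rfl
    · rw [Subgroup.index_bot] at hH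
      exact hG (isCyclic_of_prime_card hH).isMulCommutative
    · rw [Subgroup.index_top] at hH
      omega
  have h4 : 4 ∣ Nat.card G :=
    (pow_dvd_pow 2 hk2).trans (hk ▸ Subgroup.card_subgroup_dvd_card (S : Subgroup G))
  have hnp : ¬ Cfsg.HasNormalPComplement 2 G := by
    intro h
    obtain ⟨P, N, hN, hc⟩ := h
    rcases hN.eq_bot_or_eq_top with rfl | rfl
    · have htop := Subgroup.isComplement'_bot_left.1 hc
      have hp : IsPGroup 2 G := by
        have := P.2
        rw [htop] at this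
        exact this.of_equiv Subgroup.topEquiv
      haveI : Nontrivial G := IsSimpleGroup.toNontrivial
      rcases (Subgroup.center G).normal_of_characteristic.eq_bot_or_eq_top with h | h
      · exact (Subgroup.nontrivial_iff_ne_bot _).1 hp.center_nontrivial h
      · exact hG ⟨⟨fun a b => (Subgroup.mem_center_iff.1 (h ▸ Subgroup.mem_top a) b).symm⟩⟩
    · exact P.ne_bot_of_dvd_card (even_iff_two_dvd.1 h2) (Subgroup.isComplement'_top_left.1 hc)
  rw [Cfsg.Lib.Transfer.frobenius_iff S] at hnp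
  simp only [Cfsg.Lib.Transfer.FrobeniusCond, not_forall] at hnp
  obtain ⟨Q, hQS, g, hg, hgc, hgn⟩ := hnp
  set φ := Q.normalizerMonoidHom with hφ
  set x := φ ⟨g, hg⟩ with hx
  have hx1 : x ≠ 1 := by
    intro h
    apply hgn
    have hk' := MonoidHom.mem_ker.2 h
    rw [hφ, Subgroup.normalizerMonoidHom_ker] at hk'
    exact Subgroup.mem_subgroupOf.1 hk'
  have hxord : orderOf x ∣ orderOf g := by
    have := orderOf_map_dvd φ ⟨g, hg⟩
    rwa [Subgroup.orderOf_mk] at this
  have hxne : orderOf x ≠ 1 := fun h => hx1 (orderOf_eq_one_iff.1 h)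
  set q := (orderOf x).minFac with hq
  have hqp : q.Prime := Nat.minFac_prime hxne
  haveI := Fact.mk hqp
  have hqx : q ∣ orderOf x := Nat.minFac_dvd _
  have hqG : q ∣ Nat.card G := (hqx.trans hxord).trans (orderOf_dvd_natCard g)
  have hq2 : q ≠ 2 := by
    intro e
    have h2g : 2 ∣ orderOf g := e ▸ hqx.trans hxord
    exact Nat.prime_two.coprime_iff_not_dvd.1 hgc.symm h2g
  -- an automorphism of prime order
  set α := x ^ (orderOf x / q) with hα
  have hαq : orderOf α = q := by
    rw [hα, orderOf_pow_of_dvd (Nat.div_pos (Nat.le_of_dvd (orderOf_pos x) hqx) hqp.pos).ne'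
      (Nat.div_dvd_of_dvd hqx), Nat.div_div_self hqx (orderOf_pos x).ne']
  set F : Subgroup ↥Q := (MulEquiv.toMonoidHom α).eqLocus (MonoidHom.id ↥Q) with hF
  have hFQ : Nat.card ↥F < Nat.card ↥Q := by
    refine lt_of_le_of_ne (Subgroup.card_le_card_group F) fun e => ?_
    have htop := Subgroup.eq_top_of_card_eq F e
    have : α = 1 := by
      ext y
      have hy : y ∈ F := htop ▸ Subgroup.mem_top y
      exact congrArg Subtype.val (hy : α y = y)
    rw [this, orderOf_one] at hαq
    exact hqp.one_lt.ne hαq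
  have hmod : Nat.card ↥Q ≡ Nat.card ↥F [MOD q] := by
    have hzp : IsPGroup q ↥(Subgroup.zpowers α) :=
      IsPGroup.of_card (n := 1) (by rw [Nat.card_zpowers, hαq, pow_one])
    have h := hzp.card_modEq_card_fixedPoints ↥Q
    suffices e : Nat.card (MulAction.fixedPoints ↥(Subgroup.zpowers α) ↥Q) = Nat.card ↥F by
      rwa [e] at h
    refine Nat.card_congr (Equiv.subtypeEquivRight fun y => ⟨fun hy => ?_, fun hy => ?_⟩)
    · exact hy ⟨α, Subgroup.mem_zpowers α⟩
    · rintro ⟨β, hβ⟩
      obtain ⟨i, rfl⟩ := Subgroup.mem_zpowers_iff.1 hβ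
      show (α ^ i : MulAut ↥Q) • y = y
      exact zpow_smul_eq_iff_fixed α (show α • y = y from hy) i
  have hQ8 : Nat.card ↥Q ∣ 8 := by
    have h1 := hk ▸ Subgroup.card_dvd_of_le hQS
    exact h1.trans (pow_dvd_pow 2 (show k ≤ 3 by omega))
  have hF8 : Nat.card ↥F ∣ Nat.card ↥Q := Subgroup.card_subgroup_dvd_card F
  have hd : q ∣ Nat.card ↥Q - Nat.card ↥F := (Nat.modEq_iff_dvd' hFQ.le).1 hmod.symm
  have hQ1 : Nat.card ↥Q ≤ 8 := Nat.le_of_dvd (by norm_num) hQ8
  have hFpos : 0 < Nat.card ↥F := Nat.card_pos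
  have key : q = 3 ∨ q = 7 ∧ Nat.card ↥Q = 8 := by
    generalize Nat.card ↥Q = a at *
    generalize Nat.card ↥F = b at *
    have hq8 : q ≤ 8 := (Nat.le_of_dvd (by omega) hd).trans (by omega)
    have hq0 := hqp.two_le
    interval_cases a <;> (try norm_num at hQ8) <;> interval_cases b <;> (try norm_num at hF8) <;>
      interval_cases q <;> (try norm_num at hqp) <;> (try norm_num at hd) <;> (try norm_num) <;>
      omega
  rcases key with h3 | ⟨h7, h8⟩
  · left
    exact Nat.Coprime.mul_dvd_of_dvd_of_dvd (by norm_num : Nat.Coprime 4 3) h4 (h3 ▸ hqG)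
  · right; right
    exact Nat.Coprime.mul_dvd_of_dvd_of_dvd (by norm_num : Nat.Coprime 8 7)
      (h8 ▸ Subgroup.card_subgroup_dvd_card Q) (h7 ▸ hqG)
where
  zpow_smul_eq_iff_fixed {M Y : Type _} [Group M] [MulAction M Y] (a : M) {y : Y} (hy : a • y = y)
      (i : ℤ) : (a ^ i) • y = y := by
    have h : a ∈ MulAction.stabilizer M y := hy
    exact MulAction.mem_stabilizer_iff.1 (Subgroup.zpow_mem _ h i)

end Cfsg.Agent.S0499
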