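import Cfsg.Statements.S0502
import Mathlib
import Cfsg.Agent.Lib.Transfer.PGroupNormal
-- import your own Cfsg.Agent.* helpers here

set_option autoImplicit false
open Cfsg

namespace Cfsg.Agent.S0502

/-- If a finite 2-group has a normal elementary abelian subgroup of order at least 8, then any two of its Klein
four-subgroups are joined by a chain of Klein four-subgroups with consecutive members commuting elementwise. -/
theorem result {P : Type*} [Group P] [Finite P] (hP : IsPGroup 2 P)
    (E : Subgroup P) [E.Normal] (hE : IsMulCommutative E) (hE2 : ∀ e ∈ E, e ^ 2 = 1) (hE8 : 8 ≤ Nat.card E) :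
    Cfsg.IsFourConnected P := by
  have : Fact (Nat.Prime 2) := ⟨Nat.prime_two⟩
  classical
  have hE1 : ∀ e ∈ E, e * e = 1 := fun e he => by rw [← pow_two]; exact hE2 e he
  have hEc : ∀ a ∈ E, ∀ b ∈ E, a * b = b * a := fun a ha b hb =>
    congrArg Subtype.val (hE.is_comm.comm ⟨a, ha⟩ ⟨b, hb⟩)
  have hkl : ∀ u z : P, u * u = 1 → z * z = 1 → u * z = z * u → u ≠ 1 → z ≠ 1 → u ≠ z →
      ∃ W : Subgroup P, IsKleinFour W ∧ ∀ w ∈ W, w = 1 ∨ w = u ∨ w = z ∨ w = u * z := by
    intro u z hu hz hc hu1 hz1 huz
    let W : Subgroup P :=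
      { carrier := {w | w = 1 ∨ w = u ∨ w = z ∨ w = u * z}
        one_mem' := Or.inl rfl
        mul_mem' := fun {a b} ha hb => by
          have e1 : u * (u * z) = z := by rw [← mul_assoc, hu, one_mul]
          have e2 : z * (u * z) = u := by rw [← mul_assoc, ← hc, mul_assoc, hz, mul_one]
          have e3 : u * z * u = z := by rw [mul_assoc, ← hc, e1]
          have e4 : u * z * z = u := by rw [mul_assoc, hz, mul_one]
          have e5 : u * z * (u * z) = 1 := by rw [← mul_assoc, e3, hz]
          rcases ha with rfl | rfl | rfl | rfl <;> rcases hb with rfl | rfl | rfl | rfl <;>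
            simp only [Set.mem_setOf_eq, one_mul, mul_one, hu, hz, e1, e2, e3, e4, e5, ← hc] <;> simp
        inv_mem' := fun {a} ha => by
          have : a * a = 1 := by
            rcases ha with rfl | rfl | rfl | rfl
            · exact one_mul _
            · exact hu
            · exact hz
            · rw [mul_assoc u z, ← mul_assoc z u z, ← hc, mul_assoc u z z, hz, mul_one, hu]
          rwa [inv_eq_of_mul_eq_one_right this] }
    haveI : Nontrivial W := ⟨⟨u, Or.inr (Or.inl rfl)⟩, 1, fun h => hu1 (congrArg Subtype.val h)⟩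
    refine ⟨W, ⟨?_, Monoid.exponent_eq_prime_iff (p := 2) Nat.prime_two |>.2 ?_⟩, fun w hw => hw⟩
    · have hset : (W : Set P) = (({1, u, z, u * z} : Finset P) : Set P) := by
        ext w; simp [W]
      rw [← SetLike.coe_sort_coe, hset]
      rw [Nat.card_coe_set_eq, Set.ncard_coe_finset]
      have h1 : u * z ≠ 1 := fun h => huz (by rw [← inv_eq_of_mul_eq_one_right h]; exact (inv_eq_of_mul_eq_one_right hu).symm)
      rw [Finset.card_insert_of_notMem, Finset.card_insert_of_notMem, Finset.card_insert_of_notMem,
        Finset.card_singleton] <;> simp [hu1, hz1, huz, h1, Ne.symm hu1, Ne.symm hz1, Ne.symm h1]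
    · intro w hw
      refine orderOf_eq_prime (Subtype.ext ?_) hw
      show (w : P) ^ 2 = 1
      rw [pow_two]
      rcases w.2 with h | h | h | h <;> rw [h]
      · exact one_mul _
      · exact hu
      · exact hz
      · rw [mul_assoc u z, ← mul_assoc z u z, ← hc, mul_assoc u z z, hz, mul_one, hu]
  obtain ⟨z, hz, hz1⟩ := (Subgroup.ne_bot_iff_exists_ne_one.1
    (Cfsg.Lib.Transfer.inf_center_ne_bot hP E (fun h => by rw [h, Subgroup.card_bot] at hE8; omega)) |>
      fun ⟨⟨z, hz⟩, h⟩ => (⟨z, hz, fun h' => h (Subtype.ext h')⟩ : ∃ z, z ∈ E ⊓ Subgroup.center P ∧ z ≠ 1))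
  have hzc : ∀ g, g * z = z * g := fun g => Subgroup.mem_center_iff.1 hz.2 g
  let R := fun A B : Subgroup P => IsKleinFour A ∧ IsKleinFour B ∧ ∀ a ∈ A, ∀ b ∈ B, a * b = b * a
  have hsymm : ∀ A B, R A B → R B A := fun A B h => ⟨h.2.1, h.1, fun b hb a ha => (h.2.2 a ha b hb).symm⟩
  have hmain : ∀ U : Subgroup P, IsKleinFour U →
      ∃ F : Subgroup P, F ≤ E ∧ IsKleinFour F ∧ Relation.ReflTransGen R U F := by
    intro U hU
    haveI := hU
    have hUc : ∀ a ∈ U, ∀ b ∈ U, a * b = b * a := fun a ha b hb => by
      have hs : ∀ c ∈ U, c⁻¹ = c := fun c hc => inv_eq_of_mul_eq_one_right (by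
        simpa using congrArg Subtype.val (IsKleinFour.mul_self (⟨c, hc⟩ : U)))
      rw [← hs _ (mul_mem ha hb), mul_inv_rev, hs a ha, hs b hb]
    obtain ⟨u, hu, hu1, huz⟩ : ∃ u ∈ U, u ≠ 1 ∧ u ≠ z := by
      by_contra h
      push Not at h
      have : Nat.card U ≤ 2 := by
        refine (Nat.card_le_card_of_injective (fun e : U => if (e : P) = 1 then (0 : Fin 2) else 1) ?_).trans (by simp)
        intro a b hab
        rcases eq_or_ne (a : P) 1 with ha | ha <;> rcases eq_or_ne (b : P) 1 with hb | hb <;>
          simp [ha, hb] at hab ⊢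
        · exact Subtype.ext (ha.trans hb.symm)
        · exact Subtype.ext ((h a a.2 ha).trans (h b b.2 hb).symm)
      have := hU.card_four
      omega
    have hu2 : u * u = 1 := by
      have := congrArg Subtype.val (IsKleinFour.mul_self (⟨u, hu⟩ : U))
      simpa using this
    obtain ⟨W, hW, hWm⟩ := hkl u z hu2 (hE1 z hz.1) (hzc u) hu1 hz1 huz
    -- the fixed points of `u` in `E`
    let φ : E →* E :=
      { toFun := fun e => e * ⟨u * e * u⁻¹, (inferInstance : E.Normal).conj_mem _ e.2 u⟩
        map_one' := Subtype.ext (by simp)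
        map_mul' := fun v w => Subtype.ext (by
          show (v : P) * w * (u * (v * w) * u⁻¹) = v * (u * v * u⁻¹) * (w * (u * w * u⁻¹))
          have h := hEc _ ((inferInstance : E.Normal).conj_mem _ v.2 u) _ w.2
          calc (v : P) * w * (u * (v * w) * u⁻¹) = v * ((w : P) * (u * v * u⁻¹)) * (u * w * u⁻¹) := by group
            _ = v * ((u * v * u⁻¹) * w) * (u * w * u⁻¹) := by rw [← h]
            _ = _ := by group) }
    let K : Subgroup E := (Subgroup.centralizer ({u} : Set P)).subgroupOf E
    have hker : φ.ker ≤ K := fun v hv => by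
      have h : (v : P) * (u * v * u⁻¹) = 1 := congrArg Subtype.val hv
      have h' : u * v * u⁻¹ = v := mul_left_cancel (h.trans (hE1 v v.2).symm)
      exact Subgroup.mem_centralizer_singleton_iff.2 (mul_inv_eq_iff_eq_mul.1 h').symm
    have hran : φ.range ≤ K := by
      rintro _ ⟨v, rfl⟩
      refine Subgroup.mem_centralizer_singleton_iff.2 ?_
      show (v : P) * (u * v * u⁻¹) * u = u * ((v : P) * (u * v * u⁻¹))
      rw [inv_eq_of_mul_eq_one_right hu2]
      have h : (v : P) * (u * v * u) = u * v * u * v := by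
        have := hEc _ v.2 _ ((inferInstance : E.Normal).conj_mem _ v.2 u)
        rwa [inv_eq_of_mul_eq_one_right hu2] at this
      rw [h]
      calc u * v * u * v * u = u * (v * (u * v * u)) := by group
        _ = u * (u * v * u * v) := by rw [h]
    have hK : 4 ≤ Nat.card K := by
      by_contra hK
      have h1 := φ.ker.card_mul_index
      rw [Subgroup.index_ker] at h1
      have hp : IsPGroup 2 K := (hP.to_subgroup E).to_subgroup K
      obtain ⟨n, hn⟩ := IsPGroup.iff_card.1 hp
      have hK2 : Nat.card K ≤ 2 := by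
        rcases n with _ | _ | n
        · omega
        · omega
        · rw [hn, pow_succ, pow_succ] at hK
          have := Nat.one_le_two_pow (n := n)
          omega
      have := Nat.mul_le_mul ((Subgroup.card_le_of_le hker).trans hK2) ((Subgroup.card_le_of_le hran).trans hK2)
      omega
    obtain ⟨f, hf, hf1, hfz⟩ : ∃ f : P, (f ∈ E ∧ f * u = u * f) ∧ f ≠ 1 ∧ f ≠ z := by
      by_contra h
      push Not at h
      have : Nat.card K ≤ 2 := by
        refine (Nat.card_le_card_of_injective (fun e : K => if ((e : E) : P) = 1 then (0 : Fin 2) else 1) ?_).trans (by simp)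
        intro a b hab
        have hh : ∀ e : K, ((e : E) : P) ≠ 1 → ((e : E) : P) = z := fun e he =>
          h _ ⟨e.1.2, Subgroup.mem_centralizer_singleton_iff.1 e.2⟩ he
        rcases eq_or_ne ((a : E) : P) 1 with ha | ha <;> rcases eq_or_ne ((b : E) : P) 1 with hb | hb <;>
          simp [ha, hb] at hab ⊢
        · exact Subtype.ext (Subtype.ext (ha.trans hb.symm))
        · exact Subtype.ext (Subtype.ext ((hh a ha).trans (hh b hb).symm))
      omega
    obtain ⟨F, hF, hFm⟩ := hkl f z (hE1 f hf.1) (hE1 z hz.1) (hzc f) hf1 hz1 hfz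
    refine ⟨F, fun w hw => ?_, hF, (Relation.ReflTransGen.single (b := W) ⟨hU, hW, fun a ha b hb => ?_⟩).tail ⟨hW, hF, fun a ha b hb => ?_⟩⟩
    · rcases hFm w hw with rfl | rfl | rfl | rfl
      · exact one_mem _
      · exact hf.1
      · exact hz.1
      · exact mul_mem hf.1 hz.1
    · have hzC : ∀ c, Commute c z := hzc
      have hfu : Commute u f := hf.2.symm
      rcases hWm a ha with rfl | rfl | rfl | rfl <;> rcases hFm b hb with rfl | rfl | rfl | rfl <;>
        first
          | simp; done
          | exact hfu.eq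
          | exact (hzC _).eq
          | exact (hzC _).symm.eq
          | exact (hfu.mul_right (hzC _)).eq
          | exact (hfu.mul_left (hzC _).symm).eq
          | exact (Commute.mul_left (hfu.mul_right (hzC _)) (((hzC _).symm).mul_right (Commute.refl _))).eq
    · have h1 : a * u = u * a := hUc a ha u hu
      rcases hWm b hb with rfl | rfl | rfl | rfl
      · simp
      · exact h1
      · exact hzc a
      · exact (show Commute a u from h1).mul_right (hzc a)
  have hrev : ∀ A B, Relation.ReflTransGen R A B → Relation.ReflTransGen R B A := fun A B h => by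
    induction h with
    | refl => exact Relation.ReflTransGen.refl
    | tail _ h ih => exact Relation.ReflTransGen.head (hsymm _ _ h) ih
  intro U V hU hV
  obtain ⟨F, hFE, hF, hUF⟩ := hmain U hU
  obtain ⟨F', hF'E, hF', hVF⟩ := hmain V hV
  exact (hUF.tail ⟨hF, hF', fun a ha b hb => hEc a (hFE ha) b (hF'E hb)⟩).trans
    (hrev _ _ hVF)

end Cfsg.Agent.S0502
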