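import Cfsg.Statements.S0505
import Mathlib
import Cfsg.Agent.Lib.Comp.CharP
-- import your own Cfsg.Agent.* helpers here

set_option autoImplicit false
open Cfsg

namespace Cfsg.Agent.S0505

/-- Let G be a finite group of even order in which the centralizer of every involution is solvable and has trivial
core (no nontrivial normal subgroup of odd order). Then G is of characteristic 2 type. -/
theorem result {G : Type*} [Group G] [Finite G]
    (h2 : Even (Nat.card G))
    (hs : ∀ t : G, orderOf t = 2 → Group.IsSolvable (Subgroup.centralizer ({t} : Set G)))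
    (hc : ∀ t : G, orderOf t = 2 → Cfsg.oddCore (Subgroup.centralizer ({t} : Set G)) = ⊥) :
    Cfsg.IsCharacteristicTwoType G := by
  have key : ∀ t : G, orderOf t = 2 →
      Cfsg.generalizedFittingSubgroup ↥(Subgroup.centralizer ({t} : Set G)) =
        Cfsg.pCore 2 ↥(Subgroup.centralizer ({t} : Set G)) := fun t ht => by
    have := hs t ht
    exact Cfsg.Lib.Comp.fstar_eq_pCore_of_centralizer (hc t ht)
      (Cfsg.Lib.Solv.centralizer_pCore_le 2 (hc t ht))
  refine ⟨h2, fun T hT hT1 => ?_⟩
  have h := Cfsg.Lib.Comp.fstar_normalizer_eq_of_centralizers key hT hT1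
  unfold Cfsg.IsOfCharacteristicTwo
  rw [← h]
  exact Cfsg.Lib.Comp.centralizer_fstar_le

end Cfsg.Agent.S0505
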