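import Cfsg.Statements.S0514
import Mathlib
import Cfsg.Agent.Lib.TwoFus.DihedralFusion
-- import your own Cfsg.Agent.* helpers here

set_option autoImplicit false
open Cfsg

namespace Cfsg.Agent.S0514

/-- In a finite group whose Sylow 2-subgroups are dihedral of order at least 4, the centralizer of any involution has a
normal subgroup of odd order whose index in the centralizer is a power of 2. -/
theorem result {X : Type*} [Group X] [Finite X]
    (S : Sylow 2 X) (n : ℕ) (hn : 2 ≤ n) (hS : Nonempty ((S : Subgroup X) ≃* DihedralGroup n)) (t : X)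
    (ht : orderOf t = 2) :
    ∃ N : Subgroup (Subgroup.centralizer ({t} : Set X)), N.Normal ∧ Odd (Nat.card N) ∧ ∃ k : ℕ, N.index = 2 ^ k := by
  classical
  haveI : Fact (Nat.Prime 2) := ⟨Nat.prime_two⟩
  set C := Subgroup.centralizer ({t} : Set X) with hC
  obtain ⟨R⟩ := (inferInstance : Nonempty (Sylow 2 ↥C))
  obtain ⟨S', hS'⟩ := (R.isPGroup'.map C.subtype).exists_le_sylow
  obtain ⟨e⟩ := hS
  obtain ⟨a, g, k, D, -⟩ := Cfsg.Lib.TwoFus.exists_dihSylow S' hn ((S'.equiv S).trans e)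
  have ht1 : t ≠ 1 := fun h => by rw [h, orderOf_one] at ht; omega
  have htC : t ∈ C := Subgroup.mem_centralizer_singleton_iff.2 rfl
  have htR : (⟨t, htC⟩ : ↥C) ∈ (R : Subgroup ↥C) := by
    have hp : IsPGroup 2 ↥(Subgroup.zpowers (⟨t, htC⟩ : ↥C)) :=
      IsPGroup.of_card (n := 1) (by rw [Nat.card_zpowers, Subgroup.orderOf_mk, ht, pow_one])
    haveI : (Subgroup.zpowers (⟨t, htC⟩ : ↥C)).Normal := ⟨fun z hz g => by
      have hc : g * (⟨t, htC⟩ : ↥C) * g⁻¹ = ⟨t, htC⟩ :=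
        mul_inv_eq_iff_eq_mul.2 (Subtype.ext (Subgroup.mem_centralizer_singleton_iff.1 g.2))
      obtain ⟨i, rfl⟩ := Subgroup.mem_zpowers_iff.1 hz
      rw [← conj_zpow, hc]
      exact Subgroup.zpow_mem _ (Subgroup.mem_zpowers _) i⟩
    exact hp.le_sylow_of_normal R (Subgroup.mem_zpowers _)
  have hnpc : Cfsg.HasNormalPComplement 2 ↥C := by
    rw [Cfsg.Lib.Transfer.frobenius_iff R]
    intro Q hQ y hy hyc
    set Q' : Subgroup X := (Q ⊔ Subgroup.zpowers (⟨t, htC⟩ : ↥C)).map C.subtype with hQ'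
    have hQ'S : Q' ≤ (S' : Subgroup X) :=
      (Subgroup.map_mono (sup_le hQ (Subgroup.zpowers_le.2 htR))).trans hS'
    have hyt : y * (⟨t, htC⟩ : ↥C) * y⁻¹ = ⟨t, htC⟩ :=
      mul_inv_eq_iff_eq_mul.2 (Subtype.ext (Subgroup.mem_centralizer_singleton_iff.1 y.2))
    have hyn : y ∈ Subgroup.normalizer ((Q ⊔ Subgroup.zpowers (⟨t, htC⟩ : ↥C) : Subgroup ↥C) : Set ↥C) := by
      have hfwd : ∀ w ∈ Subgroup.normalizer (Q : Set ↥C), w * (⟨t, htC⟩ : ↥C) * w⁻¹ = ⟨t, htC⟩ →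
          ∀ z ∈ Q ⊔ Subgroup.zpowers (⟨t, htC⟩ : ↥C), w * z * w⁻¹ ∈ Q ⊔ Subgroup.zpowers (⟨t, htC⟩ : ↥C) := by
        intro w hw hwt
        have hle : Q ⊔ Subgroup.zpowers (⟨t, htC⟩ : ↥C) ≤
            (Q ⊔ Subgroup.zpowers (⟨t, htC⟩ : ↥C)).comap (MulAut.conj w).toMonoidHom := by
          refine sup_le (fun z hz => Subgroup.mem_sup_left ((Subgroup.mem_normalizer_iff.1 hw z).1 hz)) ?_
          rw [Subgroup.zpowers_le]
          refine Subgroup.mem_comap.2 ?_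
          show w * (⟨t, htC⟩ : ↥C) * w⁻¹ ∈ _
          rw [hwt]; exact Subgroup.mem_sup_right (Subgroup.mem_zpowers _)
        exact fun z hz => hle hz
      refine Subgroup.mem_normalizer_iff.2 fun z => ⟨hfwd y hy hyt z, fun hz => ?_⟩
      have := hfwd y⁻¹ (inv_mem hy) (by
        rw [inv_inv]
        calc y⁻¹ * (⟨t, htC⟩ : ↥C) * y = y⁻¹ * (y * (⟨t, htC⟩ : ↥C) * y⁻¹) * y := by rw [hyt]
          _ = _ := by group) _ hz
      rwa [show y⁻¹ * (y * z * y⁻¹) * y⁻¹⁻¹ = z by group] at this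
    have hyn' : (y : X) ∈ Subgroup.normalizer (Q' : Set X) :=
      Subgroup.le_normalizer_map _ (Subgroup.mem_map_of_mem C.subtype hyn)
    have hodd : Odd (orderOf (y : X)) := Nat.coprime_two_right.1 (by rwa [Subgroup.orderOf_coe])
    have hcen : (y : X) ∈ Subgroup.centralizer (Q' : Set X) := by
      rcases D.klein_or_centralizes hQ'S hodd hyn' with hK | h
      · exact Cfsg.Lib.TwoFus.klein_fix hK hodd hyn'
          ⟨⟨t, htC⟩, Subgroup.mem_sup_right (Subgroup.mem_zpowers _), rfl⟩ ht1 (congrArg Subtype.val hyt)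
      · exact h
    rw [Subgroup.mem_centralizer_iff]
    intro q hq
    exact Subtype.ext (Subgroup.mem_centralizer_iff.1 hcen q ⟨q, Subgroup.mem_sup_left hq, rfl⟩)
  obtain ⟨P, N, hN, hc⟩ := hnpc
  obtain ⟨j, hj⟩ := IsPGroup.iff_card.1 P.isPGroup'
  refine ⟨N, hN, ?_, j, by rw [hc.symm.index_eq_card, hj]⟩
  rw [← hc.index_eq_card]
  exact Nat.not_even_iff_odd.1 fun h => P.not_dvd_index (even_iff_two_dvd.1 h)

end Cfsg.Agent.S0514
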