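import Cfsg.Statements.S0519
import Mathlib
import Cfsg.Agent.Lib.ZStar.UniqueInvolution
import Cfsg.Agent.Lib.Transfer.CyclicMaximal
import Cfsg.Agent.Lib.Classical.DihedralIso
import Cfsg.Agent.Lib.TwoFus.CyclicSylow
-- import your own Cfsg.Agent.* helpers here

set_option autoImplicit false
open Cfsg

namespace Cfsg.Agent.S0519

/-- Let P be a finite p-group in which every abelian normal subgroup is cyclic, but which has a non-cyclic abelian
subgroup. Then p = 2 and P is generalized quaternion, dihedral of order at least 16, or quasi-dihedral. -/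
theorem result {P : Type*} [Group P] [Finite P] (p : ℕ) [Fact p.Prime]
    (hP : IsPGroup p P) (hn : ∀ A : Subgroup P, A.Normal → IsMulCommutative A → IsCyclic A)
    (hm : ∃ B : Subgroup P, IsMulCommutative B ∧ ¬ IsCyclic B) :
    p = 2 ∧ ((∃ n : ℕ, Nonempty (P ≃* QuaternionGroup n)) ∨ (∃ n : ℕ, 8 ≤ n ∧ Nonempty (P ≃* DihedralGroup n)) ∨
      Cfsg.IsQuasiDihedral P) := by
  classical
  have hp := (Fact.out : p.Prime)
  obtain ⟨A, ⟨hAn, hAc⟩, hAmax⟩ := Set.Finite.exists_maximalFor id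
    {B : Subgroup P | B.Normal ∧ IsMulCommutative B} (Set.toFinite _)
    ⟨⊥, inferInstance, ⟨⟨fun a b => Subsingleton.elim _ _⟩⟩⟩
  haveI := hAn
  have hself := Cfsg.Lib.Transfer.centralizer_eq_of_maximal_normal_abelian hP A hAc
    fun B hB hBc hle => le_antisymm (hAmax ⟨hB, hBc⟩ hle) hle
  obtain ⟨a, rfl⟩ : ∃ a, A = Subgroup.zpowers a := by
    obtain ⟨⟨a, ha⟩, hga⟩ := hn A hAn hAc
    refine ⟨a, le_antisymm (fun y hy => ?_) (Subgroup.zpowers_le.2 ha)⟩
    obtain ⟨i, hi⟩ := hga ⟨y, hy⟩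
    exact ⟨i, congrArg Subtype.val hi⟩
  obtain ⟨k, hk⟩ := hP.exists_orderOf_eq_pow a
  have hfix : ∀ g : P, g * a * g⁻¹ = a → g ∈ Subgroup.zpowers a := by
    intro g hg
    rw [← hself, Subgroup.mem_centralizer_iff]
    intro b hb
    obtain ⟨i, rfl⟩ := Subgroup.mem_zpowers_iff.mp hb
    exact ((Commute.zpow_right (show Commute g a from mul_inv_eq_iff_eq_mul.mp hg) i)).eq.symm
  have hexp : ∀ g : P, ∃ r : ℤ, g * a * g⁻¹ = a ^ r := fun g => by
    obtain ⟨r, hr⟩ := Subgroup.mem_zpowers_iff.mp (hAn.conj_mem a (Subgroup.mem_zpowers a) g)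
    exact ⟨r, hr.symm⟩
  choose r hr using hexp
  have hmod : ∀ i j : ℤ, a ^ i = a ^ j ↔ ((p : ℤ) ^ k) ∣ i - j := fun i j => by
    rw [zpow_eq_zpow_iff_modEq, Int.modEq_comm, Int.modEq_iff_dvd, hk, Nat.cast_pow]
  have hrmul : ∀ g h : P, g * h * a * (g * h)⁻¹ = a ^ (r g * r h) := fun g h => by
    rw [zpow_mul, ← hr g, conj_zpow, ← hr h]; group
  have hcommq : ∀ g h : P, g * h * g⁻¹ * h⁻¹ ∈ Subgroup.zpowers a := by
    intro g h
    have hc : (g * h) * a * (g * h)⁻¹ = (h * g) * a * (h * g)⁻¹ := by rw [hrmul, hrmul, mul_comm]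
    have := hfix ((h * g)⁻¹ * (g * h)) (by
      calc (h * g)⁻¹ * (g * h) * a * ((h * g)⁻¹ * (g * h))⁻¹
          = (h * g)⁻¹ * ((g * h) * a * (g * h)⁻¹) * (h * g) := by group
        _ = (h * g)⁻¹ * ((h * g) * a * (h * g)⁻¹) * (h * g) := by rw [hc]
        _ = a := by group)
    have := hAn.conj_mem _ this (h * g)
    rw [show h * g * ((h * g)⁻¹ * (g * h)) * (h * g)⁻¹ = g * h * g⁻¹ * h⁻¹ by group] at this
    exact this
  -- an element of order p outside
  obtain ⟨x₀, hx₀, hx₀p⟩ : ∃ x, x ∉ Subgroup.zpowers a ∧ x ^ p = 1 := by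
    by_contra hno
    push Not at hno
    obtain ⟨B, hB, hBc⟩ := hm
    apply hBc
    have huniq : ∀ x y : P, orderOf x = p → orderOf y = p → y ∈ Subgroup.zpowers x := by
      intro x y hx hy
      have hxA : x ∈ Subgroup.zpowers a := by_contra fun h => hno x h (hx ▸ pow_orderOf_eq_one x)
      have hyA : y ∈ Subgroup.zpowers a := by_contra fun h => hno y h (hy ▸ pow_orderOf_eq_one y)
      have heq : Subgroup.zpowers (⟨x, hxA⟩ : ↥(Subgroup.zpowers a)) = Subgroup.zpowers ⟨y, hyA⟩ :=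
        Cfsg.Lib.TwoFus.eq_of_card_eq_cyclic (by
          rw [Nat.card_zpowers, Nat.card_zpowers, Subgroup.orderOf_mk, Subgroup.orderOf_mk, hx, hy])
      have hm : (⟨y, hyA⟩ : ↥(Subgroup.zpowers a)) ∈ Subgroup.zpowers (⟨x, hxA⟩ : ↥(Subgroup.zpowers a)) :=
        heq ▸ Subgroup.mem_zpowers _
      obtain ⟨i, hi⟩ := hm
      exact ⟨i, congrArg Subtype.val hi⟩
    obtain ⟨b, rfl⟩ := Cfsg.Lib.ZStar.exists_generator_of_unique hP huniq B hB
    infer_instance
  have hk1 : 1 ≤ k := by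
    by_contra h
    have ha1 : a = 1 := orderOf_eq_one_iff.1 (by rw [hk, show k = 0 by omega, pow_zero])
    exact hx₀ (hfix x₀ (by simp [ha1]))
  -- residues modulo `p`
  have hrpk : ∀ x : P, x ^ p ∈ Subgroup.zpowers a → ((p : ℤ) ^ k) ∣ r x ^ p - 1 := by
    intro x hx
    have hpw : ∀ n : ℕ, x ^ n * a * (x ^ n)⁻¹ = a ^ (r x ^ n) := by
      intro n
      induction n with
      | zero => simp
      | succ n ih =>
        calc x ^ (n + 1) * a * (x ^ (n + 1))⁻¹ = x * (x ^ n * a * (x ^ n)⁻¹) * x⁻¹ := by rw [pow_succ']; group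
          _ = a ^ (r x ^ (n + 1)) := by rw [ih, ← conj_zpow, hr, ← zpow_mul, pow_succ']
    rw [← hmod, zpow_one, ← hpw]
    obtain ⟨i, hi⟩ := Subgroup.mem_zpowers_iff.1 hx
    rw [← hi, ((Commute.refl a).zpow_left i).eq, mul_inv_cancel_right]
  -- forbidden configuration
  have hbad : ∀ x : P, x ∉ Subgroup.zpowers a → x ^ p = 1 →
      (∀ i : ℤ, ∀ g : P, g * x * g⁻¹ = a ^ i * x → ((p : ℤ) ^ (k - 1)) ∣ i) → False := by
    intro x hx hxp hcl
    set z := a ^ p ^ (k - 1) with hz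
    have hzp : z ^ p = 1 := by
      rw [hz, ← pow_mul, ← pow_succ, Nat.sub_add_cancel hk1, ← hk, pow_orderOf_eq_one]
    have hzo : orderOf z = p := orderOf_eq_prime hzp (fun h => by
      have hd := orderOf_dvd_of_pow_eq_one h
      rw [hk] at hd
      have := (Nat.pow_dvd_pow_iff_le_right hp.one_lt).1 hd
      omega)
    have hxz : x * z * x⁻¹ = z := by
      rw [hz, ← conj_pow, hr, ← zpow_natCast, ← zpow_natCast, ← zpow_mul, hmod]
      have h1 : (p : ℤ) ∣ r x ^ p - 1 :=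
        (dvd_pow_self _ (by omega)).trans (hrpk x (hxp ▸ one_mem _))
      have h2 : (p : ℤ) ∣ r x - 1 := by
        rw [← ZMod.intCast_zmod_eq_zero_iff_dvd] at h1 ⊢
        push_cast at h1 ⊢
        rwa [ZMod.pow_card] at h1
      obtain ⟨c, hc⟩ := h2
      refine ⟨c, ?_⟩
      have hpk : ((p : ℤ) ^ k) = (p : ℤ) ^ (k - 1) * p := by rw [← pow_succ, Nat.sub_add_cancel hk1]
      push_cast
      linear_combination ((p : ℤ) ^ (k - 1)) * hc - c * hpk
    set E := Subgroup.closure ({z, x} : Set P) with hE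
    have hzE : z ∈ E := Subgroup.subset_closure (Set.mem_insert _ _)
    have hxE : x ∈ E := Subgroup.subset_closure (Set.mem_insert_of_mem _ rfl)
    have hEn : E.Normal := by
      refine ⟨fun w hw g => ?_⟩
      have hle : E ≤ E.comap (MulAut.conj g).toMonoidHom := by
        rw [hE, Subgroup.closure_le]
        rintro w (rfl | rfl)
        · show g * z * g⁻¹ ∈ E
          rw [hz, ← conj_pow, hr, ← zpow_natCast, ← zpow_mul, mul_comm, zpow_mul, zpow_natCast, ← hz]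
          exact Subgroup.zpow_mem _ hzE _
        · show g * w * g⁻¹ ∈ E
          obtain ⟨i, hi⟩ := Subgroup.mem_zpowers_iff.1 (hcommq g w)
          have he : g * w * g⁻¹ = a ^ i * w := by rw [hi]; group
          obtain ⟨c, rfl⟩ := hcl i g he
          rw [he, zpow_mul, ← Nat.cast_pow, zpow_natCast, ← hz]
          exact mul_mem (Subgroup.zpow_mem _ hzE _) hxE
      exact hle hw
    have hEc : IsMulCommutative ↥E := by
      refine Subgroup.isMulCommutative_closure ?_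
      have hzx : z * x = x * z := (mul_inv_eq_iff_eq_mul.1 hxz).symm
      rintro u (rfl | rfl) v (rfl | rfl)
      · rfl
      · exact hzx
      · exact hzx.symm
      · rfl
    obtain ⟨⟨b, hb⟩, hgb⟩ := hn E hEn hEc
    haveI := hn E hEn hEc
    have heq : Subgroup.zpowers (⟨z, hzE⟩ : ↥E) = Subgroup.zpowers ⟨x, hxE⟩ :=
      Cfsg.Lib.TwoFus.eq_of_card_eq_cyclic (by
        rw [Nat.card_zpowers, Nat.card_zpowers, Subgroup.orderOf_mk, Subgroup.orderOf_mk, hzo,
          orderOf_eq_prime hxp (fun h => hx (h ▸ one_mem _))])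
    have hm : (⟨x, hxE⟩ : ↥E) ∈ Subgroup.zpowers (⟨z, hzE⟩ : ↥E) := heq ▸ Subgroup.mem_zpowers _
    obtain ⟨i, hi⟩ := hm
    refine hx ?_
    rw [← show z ^ i = x from congrArg Subtype.val hi, hz]
    exact Subgroup.zpow_mem _ (Subgroup.pow_mem _ (Subgroup.mem_zpowers a) _) i
  -- the element `a ^ i * x` of order `p`
  have hsum : ∀ x : P, x ^ p = 1 → ∀ (i : ℤ) (g : P), g * x * g⁻¹ = a ^ i * x →
      ((p : ℤ) ^ k) ∣ i * ∑ j ∈ Finset.range p, r x ^ j := by
    intro x hx i g hg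
    have h : (a ^ i * x) ^ p = 1 := by rw [← hg, conj_pow, hx, mul_one, mul_inv_cancel]
    rw [Cfsg.Lib.ZStar.conj_mul_pow_eq (hr x), hx, mul_one, ← zpow_zero a, hmod, sub_zero] at h
    exact h
  by_cases hp2 : p = 2
  swap
  · exfalso
    refine hbad x₀ hx₀ hx₀p fun i g hg => ?_
    rcases Nat.lt_or_ge k 2 with hk2 | hk2
    · rw [show k - 1 = 0 by omega, pow_zero]; exact one_dvd _
    obtain ⟨N, rfl⟩ : ∃ N, k = N + 1 := ⟨k - 1, by omega⟩
    have h1 : (p : ℤ) ^ N ∣ r x₀ - 1 :=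
      Cfsg.Lib.Transfer.CyclicMaximal.dvd_of_pow_sub_one hp hp2 (hrpk x₀ (hx₀p ▸ one_mem _))
    set m := r x₀ - 1 with hm
    have hm2 : (p : ℤ) ^ (N + 1) ∣ m * m := by
      refine (pow_dvd_pow _ (show N + 1 ≤ N + N by omega)).trans ?_
      rw [pow_add]; exact mul_dvd_mul h1 h1
    have hs : ∀ n : ℕ, ((p : ℤ) ^ (N + 1) ∣ r x₀ ^ n - (1 + n * m)) ∧
        ((p : ℤ) ^ (N + 1) ∣ (∑ j ∈ Finset.range n, r x₀ ^ j) - (n + (n.choose 2 : ℕ) * m)) := by
      intro n
      induction n with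
      | zero => simp
      | succ n ih =>
        constructor
        · rw [show r x₀ ^ (n + 1) - (1 + ((n + 1 : ℕ) : ℤ) * m) = (r x₀ ^ n - (1 + n * m)) * r x₀ + n * (m * m) by
            rw [pow_succ, hm]; push_cast; ring]
          exact dvd_add (ih.1.mul_right _) (hm2.mul_left _)
        · rw [Finset.sum_range_succ, show ((n + 1).choose 2 : ℕ) = n + n.choose 2 by
            rw [Nat.choose_succ_succ', Nat.choose_one_right]]
          rw [show (∑ j ∈ Finset.range n, r x₀ ^ j) + r x₀ ^ n - (((n + 1 : ℕ) : ℤ) + ((n + n.choose 2 : ℕ) : ℤ) * m) =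
            ((∑ j ∈ Finset.range n, r x₀ ^ j) - (n + (n.choose 2 : ℕ) * m)) + (r x₀ ^ n - (1 + n * m)) by
              push_cast; ring]
          exact dvd_add ih.2 ih.1
    have hc : (p : ℤ) ∣ (p.choose 2 : ℕ) :=
      Int.natCast_dvd_natCast.2 (hp.dvd_choose_self two_ne_zero (lt_of_le_of_ne hp.two_le (Ne.symm hp2)))
    have hS : (p : ℤ) ^ (N + 1) ∣ (∑ j ∈ Finset.range p, r x₀ ^ j) - p := by
      have h3 : (p : ℤ) ^ (N + 1) ∣ (p.choose 2 : ℕ) * m := by rw [pow_succ']; exact mul_dvd_mul hc h1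
      have := dvd_add (hs p).2 h3
      rwa [show (∑ j ∈ Finset.range p, r x₀ ^ j) - ((p : ℤ) + (p.choose 2 : ℕ) * m) + (p.choose 2 : ℕ) * m = (∑ j ∈ Finset.range p, r x₀ ^ j) - (p : ℤ) by ring] at this
    have hip : (p : ℤ) ^ (N + 1) ∣ i * p := by
      have := dvd_sub (hsum x₀ hx₀p i g hg) (hS.mul_left i)
      rwa [show i * (∑ j ∈ Finset.range p, r x₀ ^ j) - i * ((∑ j ∈ Finset.range p, r x₀ ^ j) - (p : ℤ)) = i * (p : ℤ) by ring] at this
    rw [pow_succ] at hip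
    rw [Nat.add_sub_cancel]
    exact Int.dvd_of_mul_dvd_mul_right (by exact_mod_cast hp.ne_zero) hip
  subst hp2
  refine ⟨rfl, ?_⟩
  have hS2 : ∀ x : P, ∑ j ∈ Finset.range 2, r x ^ j = 1 + r x := fun x => by simp [Finset.sum_range_succ]
  -- residues
  rcases Nat.lt_or_ge k 3 with hk3 | hk3
  · exfalso
    refine hbad x₀ hx₀ hx₀p fun i g hg => ?_
    rcases (show k = 1 ∨ k = 2 by omega) with rfl | rfl
    · simp
    -- everything outside `A` inverts `a`
    have hinv : ∀ u : P, u ∉ Subgroup.zpowers a → (4 : ℤ) ∣ r u + 1 := by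
      intro u hu
      have hodd : Odd (r u) := by
        rcases Int.even_or_odd (r u) with ⟨c, hc⟩ | ho
        · exfalso
          have h1 : (u * a * u⁻¹) ^ 2 = 1 := by
            rw [hr, ← zpow_natCast, ← zpow_mul, ← zpow_zero a, hmod, hc]
            exact ⟨c, by push_cast; ring⟩
          rw [conj_pow, conj_eq_one_iff] at h1
          have := Nat.le_of_dvd two_pos (orderOf_dvd_of_pow_eq_one h1)
          rw [hk] at this; norm_num at this
        · exact ho
      obtain ⟨c, hc⟩ := hodd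
      rcases Int.even_or_odd c with ⟨d, hd⟩ | ⟨d, hd⟩
      · exfalso
        refine hu (hfix u ?_)
        rw [hr u]
        conv_rhs => rw [← zpow_one a]
        rw [hmod]
        exact ⟨d, by rw [hc, hd]; push_cast; ring⟩
      · exact ⟨d + 1, by rw [hc, hd]; ring⟩
    obtain ⟨b, j, hb, hgb⟩ : ∃ b : P, ∃ j : ℤ, (b = 1 ∨ b = x₀) ∧ g = a ^ j * b := by
      by_cases hgA : g ∈ Subgroup.zpowers a
      · obtain ⟨j, hj⟩ := Subgroup.mem_zpowers_iff.1 hgA
        exact ⟨1, j, Or.inl rfl, by rw [hj, mul_one]⟩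
      · have hgx : g * x₀ ∈ Subgroup.zpowers a := hfix _ (by
          rw [hrmul]
          conv_rhs => rw [← zpow_one a]
          rw [hmod]
          obtain ⟨c, hc⟩ := hinv g hgA
          obtain ⟨d, hd⟩ := hinv x₀ hx₀
          exact ⟨4 * c * d - c - d, by push_cast; linear_combination (4 * d - 1) * hc + (r g) * hd⟩)
        obtain ⟨j, hj⟩ := Subgroup.mem_zpowers_iff.1 hgx
        refine ⟨x₀, j, Or.inr rfl, ?_⟩
        rw [hj, mul_assoc, ← pow_two, hx₀p, mul_one]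
    have hbx : b * x₀ * b⁻¹ = x₀ := by rcases hb with rfl | rfl <;> simp
    have he : g * x₀ * g⁻¹ = a ^ (j * (1 - r x₀)) * x₀ := by
      calc g * x₀ * g⁻¹ = a ^ j * (b * x₀ * b⁻¹) * (a ^ j)⁻¹ := by rw [hgb]; group
        _ = a ^ j * (x₀ * (a ^ (-j)) * x₀⁻¹) * x₀ := by rw [hbx, zpow_neg]; group
        _ = a ^ (j * (1 - r x₀)) * x₀ := by
          rw [← conj_zpow, hr, ← zpow_mul, ← zpow_add]; congr 2; ring
    rw [he, mul_left_inj, hmod] at hg
    obtain ⟨c, hc⟩ := hg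
    obtain ⟨d, hd⟩ := hinv x₀ hx₀
    refine ⟨j * (1 - 2 * d) - 2 * c, ?_⟩
    push_cast at hc ⊢
    linear_combination -hc - j * hd
  obtain ⟨e, rfl⟩ : ∃ e, k = e + 3 := ⟨k - 3, by omega⟩
  have hres : ∀ x : P, x ^ 2 ∈ Subgroup.zpowers a → x ∉ Subgroup.zpowers a →
      (2 : ℤ) ^ (e + 3) ∣ r x + 1 ∨ (2 : ℤ) ^ (e + 3) ∣ r x - (1 + 2 ^ (e + 2)) ∨
        (2 : ℤ) ^ (e + 3) ∣ r x - (2 ^ (e + 2) - 1) := by
    intro x hx hxA
    rcases Cfsg.Lib.Transfer.CyclicMaximal.two_residue (e := e + 1) (by exact_mod_cast hrpk x hx) with h | h | h | h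
    · exact absurd (hfix x (by rw [hr]; conv_rhs => rw [← zpow_one a]
                               rw [hmod]; exact_mod_cast h)) hxA
    · exact Or.inl h
    · exact Or.inr (Or.inl h)
    · exact Or.inr (Or.inr h)
  have hL : ∀ h : P, h ∉ Subgroup.zpowers a → h ^ 2 ∈ Subgroup.zpowers a →
      (2 : ℤ) ^ (e + 3) ∣ r h - (1 + 2 ^ (e + 2)) → False := by
    intro h hh hh2 ⟨c, hc⟩
    obtain ⟨t, ht⟩ := Subgroup.mem_zpowers_iff.1 hh2
    -- `t` is even
    have hteven : Even t := by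
      have h1 : h * a ^ t * h⁻¹ = a ^ t := by rw [ht]; group
      rw [← conj_zpow, hr, ← zpow_mul, hmod] at h1
      obtain ⟨d, hd⟩ := h1
      rcases Int.even_or_odd t with ht' | ⟨u, hu⟩
      · exact ht'
      · exfalso
        push_cast at hd
        have : (2 : ℤ) ^ (e + 2) * (1 + 2 * c) * t = 2 ^ (e + 2) * (2 * d) := by linear_combination hd - t * hc
        rw [mul_assoc] at this
        have h2 := mul_left_cancel₀ (by positivity) this
        subst hu
        ring_nf at h2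
        omega
    obtain ⟨s, rfl⟩ := hteven
    set u : ℤ := 1 + 2 ^ (e + 1) + 2 ^ (e + 2) * c with hu
    obtain ⟨v, w, hvw⟩ : IsCoprime u ((2 : ℤ) ^ (e + 2)) := by
      refine IsCoprime.pow_right (Int.isCoprime_iff_gcd_eq_one.2 ?_)
      have ho : Odd u := ⟨2 ^ e + 2 ^ (e + 1) * c, by rw [hu]; ring⟩
      obtain ⟨q, hq⟩ := ho
      rw [hq]; simp [Int.gcd_comm]
    -- an involution with the same residue
    set y := a ^ (-s * v) * h with hy
    have hy2 : y ^ 2 = 1 := by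
      rw [hy, Cfsg.Lib.ZStar.conj_mul_pow_eq (hr h), hS2, ← ht, ← zpow_add, ← zpow_zero a, hmod, sub_zero]
      refine ⟨s * w, ?_⟩
      push_cast
      linear_combination (-s * v) * hc + (-2 * s) * hvw + (2 * s * v) * hu
    have hyA : y ∉ Subgroup.zpowers a := fun hm => hh (by
      have := mul_mem (Subgroup.zpow_mem _ (Subgroup.mem_zpowers a) (s * v)) hm
      rwa [hy, ← mul_assoc, ← zpow_add, show s * v + -s * v = 0 by ring, zpow_zero, one_mul] at this)
    refine hbad y hyA hy2 fun i g hg => ?_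
    have hd := hsum y hy2 i g hg
    rw [hS2] at hd
    obtain ⟨d, hd⟩ := hd
    have hry : a ^ r y = a ^ r h := by
      rw [← hr y, ← hr h, hy]
      calc a ^ (-s * v) * h * a * (a ^ (-s * v) * h)⁻¹ = a ^ (-s * v) * (h * a * h⁻¹) * (a ^ (-s * v))⁻¹ := by group
        _ = h * a * h⁻¹ := by rw [hr, ← zpow_add, ← zpow_neg, ← zpow_add]; congr 1; ring
    rw [hmod] at hry
    obtain ⟨q, hq⟩ := hry
    push_cast at hd hq ⊢
    have hiu : (2 : ℤ) ^ (e + 2) ∣ i * u :=
      ⟨d - i * q, by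
        have : 2 * (i * u) = 2 * (2 ^ (e + 2) * (d - i * q)) := by linear_combination hd - i * hq - i * hc + (2 * i) * hu
        linarith⟩
    have hcop : IsCoprime ((2 : ℤ) ^ (e + 2)) u := ⟨w, v, by linear_combination hvw⟩
    exact hcop.dvd_of_dvd_mul_right hiu
  -- every element squares into `A`
  have hrsq : ∀ x : P, ((2 : ℤ) ^ (e + 3)) ∣ r (x ^ 2) - r x ^ 2 := fun x => by
    have h : a ^ r (x ^ 2) = a ^ (r x * r x) := by rw [← hr, pow_two, hrmul]
    rw [hmod] at h; push_cast at h; rw [pow_two (r x)]; exact h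
  have hsq : ∀ g : P, g ^ 2 ∈ Subgroup.zpowers a := by
    suffices ∀ (N : ℕ) (g : P), g ^ 2 ^ N = 1 → g ^ 2 ∈ Subgroup.zpowers a from fun g => by
      obtain ⟨N, hN⟩ := hP g; exact this N g hN
    intro N
    induction N with
    | zero => intro g hg; rw [pow_zero, pow_one] at hg; simp [hg]
    | succ N ih =>
      intro g hg
      by_contra hg2
      have h4 := ih (g ^ 2) (by rw [← pow_mul, ← pow_succ']; exact hg)
      have hsqr : (8 : ℤ) ∣ r (g ^ 2) - r g ^ 2 :=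
        (show (8 : ℤ) ∣ 2 ^ (e + 3) from ⟨2 ^ e, by rw [pow_add]; ring⟩).trans (hrsq g)
      obtain ⟨c, hc⟩ := hsqr
      have hQ : ∃ q : ℤ, r g ^ 2 = 4 * q ∨ r g ^ 2 = 4 * q + 1 := by
        rcases Int.even_or_odd (r g) with ⟨w, hw⟩ | ⟨w, hw⟩
        · exact ⟨w * w, Or.inl (by rw [hw]; ring)⟩
        · exact ⟨w * w + w, Or.inr (by rw [hw]; ring)⟩
      obtain ⟨q, hq⟩ := hQ
      rcases hres (g ^ 2) h4 hg2 with ⟨d, hd⟩ | h | ⟨d, hd⟩
      · rw [show (2 : ℤ) ^ (e + 3) * d = 4 * (2 ^ (e + 1) * d) by ring] at hd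
        rcases hq with hq | hq <;> omega
      · exact hL _ hg2 h4 h
      · rw [show (2 : ℤ) ^ (e + 3) * d = 4 * (2 ^ (e + 1) * d) by ring,
          show (2 : ℤ) ^ (e + 2) = 4 * 2 ^ e by ring] at hd
        rcases hq with hq | hq <;> omega
  -- `A` has index two
  have hcover : ∀ g : P, g ∈ Subgroup.zpowers a ∨ g * x₀ ∈ Subgroup.zpowers a := by
    intro g
    by_cases hg : g ∈ Subgroup.zpowers a
    · exact Or.inl hg
    refine Or.inr (by_contra fun hgx => ?_)
    have hmm : ((2 : ℤ) ^ (e + 3)) ∣ r (g * x₀) - r g * r x₀ := by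
      have h : a ^ r (g * x₀) = a ^ (r g * r x₀) := by rw [← hr, hrmul]
      rw [hmod] at h; push_cast at h; exact h
    obtain ⟨m, hm⟩ := hmm
    have h4e : (2 : ℤ) ^ (e + 3) = 4 * 2 ^ (e + 1) := by ring
    have h4h : (2 : ℤ) ^ (e + 2) = 4 * 2 ^ e := by ring
    have hnot : ∀ u : P, u ^ 2 ∈ Subgroup.zpowers a → u ∉ Subgroup.zpowers a → ∃ c : ℤ, r u = 4 * c - 1 := by
      intro u hu2 hu
      rcases hres u hu2 hu with ⟨d, hd⟩ | h | ⟨d, hd⟩
      · exact ⟨2 ^ (e + 1) * d, by linear_combination hd + d * h4e⟩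
      · exact absurd h (hL u hu hu2)
      · exact ⟨2 ^ (e + 1) * d + 2 ^ e, by linear_combination hd + d * h4e + h4h⟩
    obtain ⟨c₁, hc₁⟩ := hnot g (hsq g) hg
    obtain ⟨c₂, hc₂⟩ := hnot x₀ (hsq x₀) hx₀
    obtain ⟨c₃, hc₃⟩ := hnot (g * x₀) (hsq _) hgx
    have h42 : 4 * (c₃ - (4 * c₁ * c₂ - c₁ - c₂) - 2 ^ (e + 1) * m) = 2 := by
      linear_combination hm - hc₃ + (4 * c₂ - 1) * hc₁ + (r g) * hc₂ + m * h4e
    omega
  have hxx : x₀ * x₀ = 1 := by rw [← pow_two]; exact hx₀p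
  rcases hres x₀ (hsq x₀) hx₀ with ⟨d, hd⟩ | h | ⟨d, hd⟩
  · -- dihedral
    refine Or.inr (Or.inl ⟨2 ^ (e + 3), ?_, ?_⟩)
    · calc 8 = 2 ^ 3 := by norm_num
        _ ≤ 2 ^ (e + 3) := Nat.pow_le_pow_right (by norm_num) (by omega)
    refine Cfsg.Lib.Classical.nonempty_mulEquiv_dihedral (Subgroup.zpowers a)
      (by rw [Nat.card_zpowers, hk]) (by positivity) x₀ hxx hx₀ (fun w hw => ?_) (fun g => ?_)
    · obtain ⟨i, rfl⟩ := Subgroup.mem_zpowers_iff.1 hw
      have hinv : x₀⁻¹ = x₀ := inv_eq_of_mul_eq_one_right hxx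
      calc x₀ * a ^ i * x₀ = x₀ * a ^ i * x₀⁻¹ := by rw [hinv]
        _ = (a ^ i)⁻¹ := by
          rw [← conj_zpow, hr, ← zpow_mul, ← zpow_neg, hmod]
          exact ⟨d * i, by push_cast; linear_combination i * hd⟩
    · rcases hcover g with h | h
      · exact Or.inl h
      · refine Or.inr ?_
        have := hAn.conj_mem _ h x₀
        rwa [inv_eq_of_mul_eq_one_right hxx, show x₀ * (g * x₀) * x₀ = x₀ * g * (x₀ * x₀) by group, hxx, mul_one] at this
  · exact absurd h (hL x₀ hx₀ (hsq x₀))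
  · -- semidihedral
    have hidx : (Subgroup.zpowers a).index = 2 := by
      rw [Subgroup.index_eq_two_iff]
      refine ⟨x₀, fun b => ?_⟩
      rcases hcover b with h | h
      · refine Or.inr ⟨h, fun hb => hx₀ ?_⟩
        have := mul_mem (inv_mem h) hb
        rwa [inv_mul_cancel_left] at this
      · refine Or.inl ⟨h, fun hb => hx₀ ?_⟩
        have := mul_mem (inv_mem hb) h
        rwa [inv_mul_cancel_left] at this
    refine Or.inr (Or.inr ⟨e + 3, by omega, ?_, a, x₀, hk, orderOf_eq_prime hx₀p (fun h => hx₀ (h ▸ one_mem _)), ?_⟩)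
    · rw [← (Subgroup.zpowers a).card_mul_index, hidx, Nat.card_zpowers, hk, ← pow_succ]
    · have hle : 1 ≤ 2 ^ (e + 3 - 1) := Nat.one_le_two_pow
      rw [hr, ← zpow_natCast, hmod, Nat.cast_sub hle]
      exact ⟨d, by push_cast; linear_combination hd⟩

end Cfsg.Agent.S0519
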