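import Cfsg.Statements.S0520
-- import your own Cfsg.Agent.* helpers here

set_option autoImplicit false
open Cfsg

namespace Cfsg.Agent.S0520

open Subgroup
open scoped Pointwise

variable {G : Type*} [Group G] [Finite G]

/-- Conjugate of a subgroup. -/
def cj (g : G) (H : Subgroup G) : Subgroup G := H.map (MulAut.conj g).toMonoidHom

theorem mem_cj {g x : G} {H : Subgroup G} : x ∈ cj g H ↔ g⁻¹ * x * g ∈ H := by
  constructor
  · rintro ⟨y, hy, rfl⟩
    simpa [mul_assoc] using hy
  · exact fun h => ⟨_, h, by simp [mul_assoc]⟩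

theorem cj_cj (g h : G) (H : Subgroup G) : cj g (cj h H) = cj (g * h) H := by
  ext x; simp only [mem_cj, mul_inv_rev, mul_assoc]

theorem cj_one (H : Subgroup G) : cj 1 H = H := by
  ext x; simp [mem_cj]

theorem cj_mono (g : G) {H K : Subgroup G} (h : H ≤ K) : cj g H ≤ cj g K := Subgroup.map_mono h

theorem card_cj (g : G) (H : Subgroup G) : Nat.card (cj g H) = Nat.card H :=
  Subgroup.card_map_of_injective (MulAut.conj g).injective

theorem klein_cj (g : G) {H : Subgroup G} (h : IsKleinFour H) : IsKleinFour (cj g H) :=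
  ⟨by rw [card_cj]; exact h.card_four,
    by rw [← h.exponent_two]
       exact (Monoid.exponent_eq_of_mulEquiv (H.equivMapOfInjective _ (MulAut.conj g).injective)).symm⟩

theorem rank_of_klein {K R : Subgroup G} (hK : IsKleinFour K) (h : K ≤ R) : ¬ Cfsg.PRankLE 2 1 R := by
  intro hR
  have := hR (K.subgroupOf R) ⟨⟨fun a b => by
    refine Subtype.ext (Subtype.ext ?_)
    have h := congrArg Subtype.val
      (mul_comm_of_exponent_two hK.exponent_two (⟨_, a.2⟩ : K) ⟨_, b.2⟩)
    exact h⟩⟩ (fun a ha => by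
      refine Subtype.ext ?_
      have h1 := Monoid.pow_exponent_eq_one (⟨_, ha⟩ : K)
      rw [hK.exponent_two] at h1
      have h2 := congrArg Subtype.val h1
      exact h2)
  rw [Nat.card_congr (Subgroup.subgroupOfEquivOfLe h).toEquiv, hK.card_four] at this
  omega

theorem exists_klein {R : Subgroup G} (h : ¬ Cfsg.PRankLE 2 1 R) :
    ∃ K : Subgroup G, K ≤ R ∧ IsKleinFour K := by
  haveI := Fact.mk Nat.prime_two
  simp only [Cfsg.PRankLE, not_forall, not_le] at h
  obtain ⟨A, -, hA2, hcard⟩ := h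
  have hAp : IsPGroup 2 A := fun a => ⟨1, Subtype.ext (by simpa using hA2 a a.2)⟩
  obtain ⟨n, hn⟩ := IsPGroup.iff_card.1 hAp
  have hn2 : 2 ≤ n := by
    by_contra hlt
    have : 2 ^ n ≤ 2 ^ 1 := Nat.pow_le_pow_right two_pos (by omega)
    omega
  obtain ⟨B, hB⟩ := Sylow.exists_subgroup_card_pow_prime 2 (G := A) (n := 2) (hn ▸ pow_dvd_pow 2 hn2)
  let K := (B.map A.subtype).map R.subtype
  have hKc : Nat.card K = 4 := by
    rw [Subgroup.card_map_of_injective R.subtype_injective, Subgroup.card_map_of_injective A.subtype_injective, hB]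
    norm_num
  haveI : Nontrivial K := Finite.one_lt_card_iff_nontrivial.mp (by omega)
  refine ⟨K, Subgroup.map_subtype_le _, hKc, ((Nat.dvd_prime Nat.prime_two).mp
    (Monoid.exponent_dvd_of_forall_pow_eq_one ?_)).resolve_left
    fun e => not_subsingleton K (Monoid.exp_eq_one_iff.mp e)⟩
  rintro ⟨_, _, ⟨a, _, rfl⟩, rfl⟩
  refine Subtype.ext ?_
  have h := congrArg Subtype.val (hA2 a a.2)
  exact h

theorem rank_mono {R R' : Subgroup G} (h : R ≤ R') (hR : ¬ Cfsg.PRankLE 2 1 R) :
    ¬ Cfsg.PRankLE 2 1 R' :=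
  let ⟨_, hKR, hK⟩ := exists_klein hR
  rank_of_klein hK (hKR.trans h)

theorem rank_cj (g : G) {R : Subgroup G} (hR : ¬ Cfsg.PRankLE 2 1 R) : ¬ Cfsg.PRankLE 2 1 (cj g R) :=
  let ⟨_, hKR, hK⟩ := exists_klein hR
  rank_of_klein (klein_cj g hK) (cj_mono g hKR)

theorem exists_cj_ge (S : Sylow 2 G) {T : Subgroup G} (hT : IsPGroup 2 T) :
    ∃ a : G, T ≤ cj a (S : Subgroup G) := by
  haveI := Fact.mk Nat.prime_two
  obtain ⟨P, hP⟩ := hT.exists_le_sylow
  obtain ⟨a, rfl⟩ := MulAction.exists_smul_eq G S P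
  exact ⟨a, fun x hx => mem_cj.2 (by
    have h := hP hx
    rw [Sylow.smul_def, Sylow.pointwise_smul_def, Subgroup.mem_pointwise_smul_iff_inv_smul_mem] at h
    simpa [MulAut.smul_def, mul_assoc] using h)⟩

theorem grows {P R : Subgroup G} (hP : IsPGroup 2 P) (h : R < P) :
    R < P ⊓ normalizer (R : Set G) := by
  haveI := Fact.mk Nat.prime_two
  haveI := hP.isNilpotent
  refine lt_of_le_not_ge (le_inf h.le le_normalizer) fun hle => ?_
  have hne : R.subgroupOf P ≠ ⊤ := fun e => h.not_ge (subgroupOf_eq_top.mp e)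
  refine (Group.normalizerCondition_of_isNilpotent _ (lt_top_iff_ne_top.mpr hne)).not_ge fun y hy => ?_
  refine hle ⟨y.2, mem_normalizer_iff.2 fun x => ⟨fun hx => ?_, fun hx => ?_⟩⟩
  · exact (mem_normalizer_iff.1 hy ⟨x, h.le hx⟩).1 hx
  · have hxP : x ∈ P := by
      have := P.mul_mem (P.mul_mem (P.inv_mem y.2) (h.le hx)) y.2
      simpa [mul_assoc] using this
    exact (mem_normalizer_iff.1 hy ⟨x, hxP⟩).2 hx

/-- Sylow subgroups sharing a subgroup of rank two give the same coset of the 2-generated core. -/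
theorem coset (S : Sylow 2 G) (M : Subgroup G)
    (hM : ∀ Q : Subgroup G, Q ≤ (S : Subgroup G) → ¬ Cfsg.PRankLE 2 1 Q → normalizer (Q : Set G) ≤ M)
    (R : Subgroup G) : ∀ g h : G, R ≤ cj g (S : Subgroup G) → R ≤ cj h (S : Subgroup G) →
      ¬ Cfsg.PRankLE 2 1 R → g⁻¹ * h ∈ M := by
  haveI := Fact.mk Nat.prime_two
  induction R using (wellFounded_gt (α := Subgroup G)).induction with
  | _ R ih =>
    intro g h hg hh hR
    have hSrank : ¬ Cfsg.PRankLE 2 1 (S : Subgroup G) := by
      have := rank_mono (cj_mono g⁻¹ hg) (rank_cj g⁻¹ hR)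
      rwa [cj_cj, inv_mul_cancel, cj_one] at this
    by_cases heq : R = cj g (S : Subgroup G) ∨ R = cj h (S : Subgroup G)
    · have heq' : cj g (S : Subgroup G) = cj h (S : Subgroup G) := by
        rcases heq with rfl | rfl
        · exact Subgroup.eq_of_le_of_card_ge hh (by rw [card_cj, card_cj])
        · exact (Subgroup.eq_of_le_of_card_ge hg (by rw [card_cj, card_cj])).symm
      refine hM _ le_rfl hSrank (mem_normalizer_iff.2 fun x => ?_)
      have h1 := congrArg (cj g⁻¹) heq'
      rw [cj_cj, cj_cj, inv_mul_cancel, cj_one] at h1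
      conv_rhs => rw [h1, mem_cj]
      simp [mul_assoc]
    push Not at heq
    have hPg : IsPGroup 2 (cj g (S : Subgroup G)) := S.isPGroup'.map _
    have hPh : IsPGroup 2 (cj h (S : Subgroup G)) := S.isPGroup'.map _
    have hR1 := grows hPg (lt_of_le_of_ne hg heq.1)
    have hR2 := grows hPh (lt_of_le_of_ne hh heq.2)
    obtain ⟨T1, hT1⟩ := ((hPg.to_inf_left (K := normalizer (R : Set G))).comap_subtype
      (K := normalizer (R : Set G))).exists_le_sylow
    obtain ⟨T2, hT2⟩ := ((hPh.to_inf_left (K := normalizer (R : Set G))).comap_subtype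
      (K := normalizer (R : Set G))).exists_le_sylow
    obtain ⟨n, hn⟩ := MulAction.exists_smul_eq (normalizer (R : Set G)) T1 T2
    obtain ⟨a, ha⟩ := exists_cj_ge S (T1.isPGroup'.map (normalizer (R : Set G)).subtype)
    have h1 : cj g (S : Subgroup G) ⊓ normalizer (R : Set G) ≤ cj a (S : Subgroup G) := fun x hx =>
      ha ⟨⟨x, hx.2⟩, hT1 hx, rfl⟩
    have h2 : cj h (S : Subgroup G) ⊓ normalizer (R : Set G) ≤ cj ((n : G) * a) (S : Subgroup G) := by
      intro x hx
      have hx' : (⟨x, hx.2⟩ : normalizer (R : Set G)) ∈ (n • T1 : Sylow 2 (normalizer (R : Set G))) :=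
        hn ▸ hT2 hx
      change _ ∈ MulAut.conj n • (T1 : Subgroup (normalizer (R : Set G))) at hx'
      rw [Subgroup.mem_pointwise_smul_iff_inv_smul_mem] at hx'
      have h5 : x ∈ cj (n : G) (cj a (S : Subgroup G)) :=
        mem_cj.2 (ha ⟨_, hx', by simp [MulAut.smul_def]⟩)
      rwa [cj_cj] at h5
    have hga := ih _ hR1 g a inf_le_left h1 (rank_mono hR1.le hR)
    have hhna := ih _ hR2 h ((n : G) * a) inf_le_left h2 (rank_mono hR2.le hR)
    have hRa : cj a⁻¹ R ≤ (S : Subgroup G) := by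
      have := cj_mono a⁻¹ (hR1.le.trans h1)
      rwa [cj_cj, inv_mul_cancel, cj_one] at this
    have hm : a⁻¹ * n * a ∈ M := by
      refine hM _ hRa (rank_cj a⁻¹ hR) (mem_normalizer_iff.2 fun x => ?_)
      rw [mem_cj, mem_cj]
      have h3 := mem_normalizer_iff.1 n.2 (a * x * a⁻¹)
      simpa [mul_assoc] using h3
    have := M.mul_mem (M.mul_mem hga hm) (M.inv_mem hhna)
    simpa [mul_assoc] using this


/-- Let G be a finite group of 2-rank at least 2 and S a Sylow 2-subgroup whose commuting graph of Klein four-subgroups is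
connected. Then the commuting graph of Klein four-subgroups of G is disconnected if and only if the 2-generated core — the
subgroup generated by the normalizers N_G(Q) of the subgroups Q of S that contain a Klein four-group — is a proper
subgroup of G. -/
theorem result {G : Type*} [Group G] [Finite G] (h2 : ¬ Cfsg.PRankLE 2 1 G)
    (S : Sylow 2 G) (hS : Cfsg.IsFourConnected (S : Subgroup G)) :
    ¬ Cfsg.IsFourConnected G ↔
      (⨆ Q : {Q : Subgroup G // Q ≤ (S : Subgroup G) ∧ ¬ Cfsg.PRankLE 2 1 Q},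
          Subgroup.normalizer ((Q : Subgroup G) : Set G)) ≠ ⊤ := by
  classical
  haveI := Fact.mk Nat.prime_two
  let M : Subgroup G := ⨆ Q : {Q : Subgroup G // Q ≤ (S : Subgroup G) ∧ ¬ Cfsg.PRankLE 2 1 Q},
    Subgroup.normalizer ((Q : Subgroup G) : Set G)
  have hM : ∀ Q : Subgroup G, Q ≤ (S : Subgroup G) → ¬ Cfsg.PRankLE 2 1 Q →
      Subgroup.normalizer (Q : Set G) ≤ M := fun Q hQ hQr =>
    le_iSup_of_le (⟨Q, hQ, hQr⟩ : {Q : Subgroup G // Q ≤ (S : Subgroup G) ∧ ¬ Cfsg.PRankLE 2 1 Q}) le_rfl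
  show _ ↔ M ≠ ⊤
  let Rel := fun A B : Subgroup G => IsKleinFour A ∧ IsKleinFour B ∧ ∀ a ∈ A, ∀ b ∈ B, a * b = b * a
  let C := Relation.ReflTransGen Rel
  have hsymm : ∀ {A B}, C A B → C B A := fun {A B} h =>
    @Relation.ReflTransGen.symmetric _ Rel ⟨fun A B h => ⟨h.2.1, h.1, fun b hb a ha => (h.2.2 a ha b hb).symm⟩⟩ |>.symm A B h
  have hconj : ∀ (g : G) {A B}, C A B → C (cj g A) (cj g B) := fun g {A B} h =>
    h.lift (cj g) fun A B h => ⟨klein_cj g h.1, klein_cj g h.2.1, by
      rintro _ ⟨a, ha, rfl⟩ _ ⟨b, hb, rfl⟩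
      rw [← map_mul, ← map_mul, h.2.2 a ha b hb]⟩
  have hlift : ∀ {K L : Subgroup G}, IsKleinFour K → IsKleinFour L → K ≤ (S : Subgroup G) →
      L ≤ (S : Subgroup G) → C K L := by
    intro K L hK hL hKS hLS
    have hsub : ∀ {K : Subgroup G}, IsKleinFour K → K ≤ (S : Subgroup G) →
        IsKleinFour (K.subgroupOf (S : Subgroup G)) := fun {K} hK hKS =>
      ⟨by rw [Nat.card_congr (Subgroup.subgroupOfEquivOfLe hKS).toEquiv]; exact hK.card_four,
        by rw [Monoid.exponent_eq_of_mulEquiv (Subgroup.subgroupOfEquivOfLe hKS)]; exact hK.exponent_two⟩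
    have hup : ∀ A : Subgroup (S : Subgroup G), IsKleinFour A → IsKleinFour (A.map (S : Subgroup G).subtype) :=
      fun A hA => ⟨by rw [Subgroup.card_map_of_injective (Subgroup.subtype_injective _)]; exact hA.card_four,
        by rw [← Monoid.exponent_eq_of_mulEquiv (A.equivMapOfInjective _ (Subgroup.subtype_injective _))]
           exact hA.exponent_two⟩
    have h := (hS _ _ (hsub hK hKS) (hsub hL hLS)).lift (p := Rel) (fun A => A.map (S : Subgroup G).subtype)
      fun A B h => ⟨hup A h.1, hup B h.2.1, by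
        rintro _ ⟨a, ha, rfl⟩ _ ⟨b, hb, rfl⟩
        rw [← map_mul, ← map_mul, h.2.2 a ha b hb]⟩
    have h' : C ((K.subgroupOf (S : Subgroup G)).map (S : Subgroup G).subtype)
        ((L.subgroupOf (S : Subgroup G)).map (S : Subgroup G).subtype) := h
    rwa [Subgroup.map_subgroupOf_eq_of_le hKS, Subgroup.map_subgroupOf_eq_of_le hLS] at h' 
  obtain ⟨F, hFS, hF⟩ : ∃ F : Subgroup G, F ≤ (S : Subgroup G) ∧ IsKleinFour F := by
    have h2' : ¬ Cfsg.PRankLE 2 1 (⊤ : Subgroup G) := fun h => h2 fun A hA hA2 => by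
      haveI := hA
      have := h (A.subgroupOf ⊤) inferInstance
        (fun a ha => Subtype.ext (hA2 _ ha))
      rwa [Nat.card_congr (Subgroup.subgroupOfEquivOfLe le_top).toEquiv] at this
    obtain ⟨K, -, hK⟩ := exists_klein h2'
    obtain ⟨a, ha⟩ := exists_cj_ge S (IsPGroup.of_card (p := 2) (n := 2)
      (show Nat.card K = 2 ^ 2 by rw [hK.card_four]; norm_num))
    refine ⟨cj a⁻¹ K, ?_, klein_cj _ hK⟩
    have := cj_mono a⁻¹ ha
    rwa [cj_cj, inv_mul_cancel, cj_one] at this
  constructor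
  · intro hdis hMtop
    apply hdis
    let Hs : Subgroup G :=
      { carrier := {g | C F (cj g F)}
        one_mem' := by show C F (cj 1 F); rw [cj_one]
        mul_mem' := fun {g h} hg hh => by
          show C F (cj (g * h) F)
          have h1 := hconj g hh
          rw [cj_cj] at h1
          exact Relation.ReflTransGen.trans hg h1
        inv_mem' := fun {g} hg => by
          show C F (cj g⁻¹ F)
          have h1 := hsymm (hconj g⁻¹ hg)
          rwa [cj_cj, inv_mul_cancel, cj_one] at h1 }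
    have hle : M ≤ Hs := by
      refine iSup_le fun Q n hn => ?_
      obtain ⟨Q, hQS, hQr⟩ := Q
      obtain ⟨K, hKQ, hK⟩ := exists_klein hQr
      have h1 : cj n K ≤ (S : Subgroup G) := by
        rintro _ ⟨k, hk, rfl⟩
        exact hQS ((Subgroup.mem_normalizer_iff.1 hn k).1 (hKQ hk))
      show C F (cj n F)
      exact (hlift hF (klein_cj n hK) hFS h1).trans (hconj n (hlift hK hF (hKQ.trans hQS) hFS))
    have hall : ∀ U : Subgroup G, IsKleinFour U → C F U := by
      intro U hU
      obtain ⟨g, hg⟩ := exists_cj_ge S (IsPGroup.of_card (p := 2) (n := 2)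
        (show Nat.card U = 2 ^ 2 by rw [hU.card_four]; norm_num))
      have hg' : C F (cj g F) := hle (hMtop ▸ Subgroup.mem_top g)
      have h1 : cj g⁻¹ U ≤ (S : Subgroup G) := by
        have := cj_mono g⁻¹ hg
        rwa [cj_cj, inv_mul_cancel, cj_one] at this
      have h2 := hconj g (hlift hF (klein_cj g⁻¹ hU) hFS h1)
      rw [cj_cj, mul_inv_cancel, cj_one] at h2
      exact hg'.trans h2
    intro U V hU hV
    exact (hsymm (hall U hU)).trans (hall V hV)
  · intro hne hcon
    apply hne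
    rw [eq_top_iff]
    intro g _
    have hgood : ∀ U : Subgroup G, C F U → ∀ h : G, U ≤ cj h (S : Subgroup G) → h ∈ M := by
      intro U hU
      induction hU with
      | refl =>
        intro h hh
        have := coset S M hM F 1 h (by rw [cj_one]; exact hFS) hh (rank_of_klein hF le_rfl)
        simpa using this
      | tail _ hAB ih =>
        rename_i A B _
        intro h hh
        have hp : ∀ {K : Subgroup G}, IsKleinFour K → IsPGroup 2 K := fun {K} hK =>
          IsPGroup.of_card (p := 2) (n := 2) (by rw [hK.card_four]; norm_num)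
        have hAB2 : IsPGroup 2 (A ⊔ B : Subgroup G) :=
          IsPGroup.to_sup_of_normal_right' (hp hAB.1) (hp hAB.2.1) ((show A ≤ Subgroup.centralizer (B : Set G) from
            fun a ha => Subgroup.mem_centralizer_iff.2 fun b hb => (hAB.2.2 a ha b hb).symm).trans
              (Subgroup.centralizer_le_normalizer _))
        obtain ⟨c, hc⟩ := exists_cj_ge S hAB2
        have hcM := ih c (le_sup_left.trans hc)
        have := M.mul_mem hcM (coset S M hM B c h (le_sup_right.trans hc) hh (rank_of_klein hAB.2.1 le_rfl))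
        rwa [mul_inv_cancel_left] at this
    exact hgood (cj g F) (hcon F (cj g F) hF (klein_cj g hF)) g (cj_mono g hFS)

end Cfsg.Agent.S0520
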