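import Cfsg.Statements.S0522
import Cfsg.Agent.Lib.PLocal.InvariantCoprime
import Cfsg.Agent.Lib.Sig.Transitivity
import Cfsg.Agent.Lib.Solv.MinNormal
import Cfsg.Agent.Lib.Solv.Coprime
-- import your own Cfsg.Agent.* helpers here

set_option autoImplicit false
open Cfsg

namespace Cfsg.Agent.S0522

open Subgroup
open scoped Pointwise

theorem isPConstrained_solvable {H : Type*} [Group H] [Finite H] (p : ℕ) [Fact p.Prime]
    [Group.IsSolvable H] : Cfsg.IsPConstrained p H := by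
  haveI := Cfsg.Lib.Transfer.pPrimeCore_normal (G := H) p
  rw [Cfsg.Lib.PLocal.isPConstrained_iff_quotient]
  have h0 := Cfsg.Lib.Solv.pPrimeCore_quotient_eq_bot (G := H) p
  have hsol : Group.IsSolvable (H ⧸ Cfsg.pPrimeCore p H) :=
    Group.isSolvable_of_surjective (QuotientGroup.mk'_surjective (Cfsg.pPrimeCore p H))
  haveI := hsol
  have h := Cfsg.Lib.Solv.centralizer_fitting_inf_le (⊤ : Subgroup (H ⧸ Cfsg.pPrimeCore p H)) inferInstance
  rw [inf_top_eq, Cfsg.Lib.Solv.fitting_eq_pCore p h0] at h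
  exact h

/-- Transitivity Theorem (odd-order setting). Let X be a finite group of odd order in which the normalizer of every
nontrivial p-subgroup is solvable, P a Sylow p-subgroup, and B an abelian subgroup of P, normalized by P, with
C_P(B) = B and containing an elementary abelian subgroup of order p^3. Then for every prime q ≠ p, any two q-subgroups
that are maximal among the q-subgroups normalized by B are conjugate by an element of the centralizer of B. -/
theorem result {X : Type*} [Group X] [Finite X] (hX : Odd (Nat.card X)) (p : ℕ)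
    [Fact p.Prime] (hloc : ∀ T : Subgroup X, IsPGroup p T → T ≠ ⊥ → Group.IsSolvable (Subgroup.normalizer (T : Set X)))
    (P : Sylow p X) (B : Subgroup X) (hBP : B ≤ (P : Subgroup X))
    (hBn : ∀ x ∈ (P : Subgroup X), ∀ b ∈ B, x * b * x⁻¹ ∈ B) (hBa : IsMulCommutative B)
    (hBc : (P : Subgroup X) ⊓ Subgroup.centralizer (B : Set X) = B)
    (hB3 : ∃ E : Subgroup X, E ≤ B ∧ (∀ e ∈ E, e ^ p = 1) ∧ p ^ 3 ≤ Nat.card E)
    (q : ℕ) [Fact q.Prime] (hqp : q ≠ p) (Q₁ Q₂ : Subgroup X)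
    (h₁ : IsPGroup q Q₁ ∧ B ≤ Subgroup.normalizer (Q₁ : Set X) ∧
      ∀ R : Subgroup X, IsPGroup q R → B ≤ Subgroup.normalizer (R : Set X) → Q₁ ≤ R → R = Q₁)
    (h₂ : IsPGroup q Q₂ ∧ B ≤ Subgroup.normalizer (Q₂ : Set X) ∧
      ∀ R : Subgroup X, IsPGroup q R → B ≤ Subgroup.normalizer (R : Set X) → Q₂ ≤ R → R = Q₂) :
    ∃ c ∈ Subgroup.centralizer (B : Set X), Q₂ = Q₁.map (MulAut.conj c).toMonoidHom := by
  classical
  obtain ⟨hq₁, hB₁, hmax₁⟩ := h₁
  obtain ⟨hq₂, hB₂, hmax₂⟩ := h₂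
  obtain ⟨E, hEB, hEp, hE3⟩ := hB3
  have hp := (Fact.out : p.Prime)
  have hEA : Cfsg.IsElementaryAbelian p E :=
    ⟨⟨⟨fun a b => Subtype.ext (congrArg Subtype.val (hBa.is_comm.comm ⟨a, hEB a.2⟩ ⟨b, hEB b.2⟩) : _)⟩⟩, hEp⟩
  have hBp : IsPGroup p B := P.isPGroup'.to_le hBP
  have hp2 : p ≠ 2 := by
    rintro rfl
    have h1 : 2 ∣ Nat.card E := by
      obtain ⟨n, hn⟩ := IsPGroup.iff_card.1 (hBp.to_le hEB)
      rcases n with _ | n
      · rw [hn] at hE3; norm_num at hE3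
      · exact hn ▸ dvd_pow_self 2 n.succ_ne_zero
    exact Nat.not_even_iff_odd.2 (hX.of_dvd_nat (E.card_subgroup_dvd_card)) (even_iff_two_dvd.2 h1)
  have hBcomm : ∀ {x y : X}, x ∈ B → y ∈ B → x * y = y * x := fun hx hy =>
    congrArg Subtype.val (hBa.is_comm.comm ⟨_, hx⟩ ⟨_, hy⟩)
  -- the `p`-elements of `C(B)` lie in `B`
  have hBfull : ∀ x ∈ centralizer (B : Set X), IsPGroup p (zpowers x) → x ∈ B := by
    intro x hx hxp
    have hNP : (P : Subgroup X) ≤ normalizer (B : Set X) := fun g hg =>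
      Cfsg.Lib.Sig.inv_iff.1 hBn hg
    set N := normalizer (B : Set X) with hN
    set C := (centralizer (B : Set X)).subgroupOf N with hC
    have hCn : C.Normal := Subgroup.normal_subgroupOf_of_le_normalizer
      (Cfsg.Lib.Solv.normalizer_le_normalizer_centralizer _)
    haveI := hCn
    have hxN : x ∈ N := centralizer_le_normalizer _ hx
    have hTp : IsPGroup p ↥((zpowers (⟨x, hxN⟩ : N))) := by
      refine IsPGroup.of_injective hxp ((N.subtype.comp (zpowers (⟨x, hxN⟩ : N)).subtype).codRestrict (zpowers x) ?_) ?_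
      · rintro ⟨_, k, rfl⟩; exact ⟨k, by simp⟩
      · exact fun a b h => Subtype.ext (Subtype.ext (congrArg Subtype.val h :))
    obtain ⟨Q, hQ⟩ := hTp.exists_le_sylow
    obtain ⟨g, hg⟩ := MulAction.exists_smul_eq ↥N Q (P.subtype hNP)
    have h1 : g * ⟨x, hxN⟩ * g⁻¹ ∈ (P.subtype hNP : Subgroup N) := by
      rw [← hg, Sylow.coe_subgroup_smul]
      exact ⟨_, hQ (mem_zpowers _), rfl⟩
    have h2 : g * ⟨x, hxN⟩ * g⁻¹ ∈ C := hCn.conj_mem _ (show (⟨x, hxN⟩ : N) ∈ C from hx) g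
    have h3 : (g : X) * x * (g : X)⁻¹ ∈ B := hBc.le ⟨h1, h2⟩
    exact (mem_normalizer_iff.1 g.2 x).2 h3
  -- invariant `p'`-subgroups of `C(a)` lie in the core
  have hlem : ∀ a ∈ E, a ≠ 1 → ∀ U : Subgroup X, U ≤ centralizer ({a} : Set X) → ¬ p ∣ Nat.card U →
      B ≤ normalizer (U : Set X) → U ≤ Cfsg.centralizerPPrimeCore p a := by
    intro a haE ha1 U hUC hUp hBU
    set H := centralizer ({a} : Set X) with hH
    have hBH : B ≤ H := fun b hb => mem_centralizer_singleton_iff.2 (hBcomm hb (hEB haE))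
    have hsol : Group.IsSolvable H := by
      have hle : H ≤ normalizer (zpowers a : Set X) := by
        rw [hH, ← centralizer_closure, ← zpowers_eq_closure]
        exact centralizer_le_normalizer _
      exact Cfsg.Lib.Solv.solvable_of_le hle (hloc _ ((hBp.to_le hEB).to_le (zpowers_le.2 haE))
        (by rwa [Ne, zpowers_eq_bot]))
    haveI := hsol
    have h := Cfsg.Lib.PLocal.le_pPrimeCore_of_invariant (E := B.subgroupOf H) (Q := U.subgroupOf H)
      (isPConstrained_solvable p) (hBp.of_equiv (subgroupOfEquivOfLe hBH).symm)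
      (fun y hy hyp => hBfull y (mem_centralizer_iff.2 fun b hb =>
        congrArg Subtype.val (mem_centralizer_iff.1 hy ⟨b, hBH hb⟩ hb))
        (by
          obtain ⟨n, hn⟩ := IsPGroup.iff_card.1 hyp
          exact IsPGroup.of_card (n := n) (by rw [← hn, Nat.card_zpowers, Nat.card_zpowers, Subgroup.orderOf_coe])))
      (fun h => absurd h hp2)
      (by
        rw [Nat.card_congr (subgroupOfEquivOfLe hUC).toEquiv]
        exact (hp.coprime_iff_not_dvd.2 hUp).symm)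
      (fun y hy => mem_normalizer_iff.2 fun z => mem_normalizer_iff.1 (hBU hy) (z : X))
    intro u hu
    exact ⟨⟨u, hUC hu⟩, h hu, rfl⟩
  -- the signalizer functor
  set θ : X → Subgroup X := fun a => Cfsg.centralizerPPrimeCore p a with hθdef
  have hθp : ∀ a, ¬ p ∣ Nat.card (θ a) := by
    intro a hd
    have hd : p ∣ Nat.card (Cfsg.centralizerPPrimeCore p a) := hd
    rw [Cfsg.centralizerPPrimeCore, card_map_of_injective (subtype_injective _)] at hd
    exact hp.ne_one (Nat.eq_one_of_dvd_coprimes (Cfsg.Lib.Solv.coprime_pPrimeCore p) hd dvd_rfl)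
  have hθB : ∀ a ∈ E, B ≤ normalizer (θ a : Set X) := by
    intro a ha
    refine Cfsg.Lib.Sig.inv_iff.1 fun b hb u hu => ?_
    obtain ⟨v, hv, rfl⟩ := hu
    have hbC : b ∈ centralizer ({a} : Set X) := mem_centralizer_singleton_iff.2 (hBcomm hb (hEB ha))
    exact ⟨⟨b, hbC⟩ * v * ⟨b, hbC⟩⁻¹, (Cfsg.Lib.Transfer.pPrimeCore_normal p).conj_mem v hv _, rfl⟩
  have hCB : ∀ b ∈ E, B ≤ normalizer (centralizer ({b} : Set X) : Set X) := fun b hb y hy =>
    Subgroup.le_normalizer (mem_centralizer_singleton_iff.2 (hBcomm hy (hEB hb)))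
  have hinv_inf : ∀ U V : Subgroup X, B ≤ normalizer (U : Set X) → B ≤ normalizer (V : Set X) →
      B ≤ normalizer ((U ⊓ V : Subgroup X) : Set X) := fun U V hU hV =>
    Cfsg.Lib.Sig.inv_inf hU hV
  have hθ : Cfsg.IsSolvableSignalizerFunctor p E θ := by
    refine ⟨⟨fun a _ _ => map_subtype_le _, fun a _ _ => hθp a, fun a ha _ b hb x hx =>
      Cfsg.Lib.Sig.inv_iff.2 (hθB a ha) b (hEB hb) x hx, fun a ha ha1 b hb hb1 => ?_⟩, fun a ha ha1 => ?_⟩
    · exact hlem b hb hb1 _ inf_le_right (fun h => hθp a (h.trans (card_dvd_of_le inf_le_left)))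
        (hinv_inf _ _ (hθB a ha) (hCB b hb))
    · have hle : centralizer ({a} : Set X) ≤ normalizer (zpowers a : Set X) := by
        rw [← centralizer_closure, ← zpowers_eq_closure]
        exact centralizer_le_normalizer _
      exact Cfsg.Lib.Solv.solvable_of_le ((map_subtype_le _).trans hle)
        (hloc _ ((hBp.to_le hEB).to_le (zpowers_le.2 ha)) (by rwa [Ne, zpowers_eq_bot]))
  -- `q`-subgroups have order prime to `p`
  have hqp' : ∀ U : Subgroup X, IsPGroup q U → ¬ p ∣ Nat.card U := by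
    intro U hU hd
    obtain ⟨n, hn⟩ := IsPGroup.iff_card.1 hU
    rw [hn] at hd
    exact hqp ((Nat.prime_dvd_prime_iff_eq hp (Fact.out : q.Prime)).1 (hp.dvd_of_dvd_pow hd)).symm
  have hfam : ∀ Q : Subgroup X, IsPGroup q Q → B ≤ normalizer (Q : Set X) →
      Q ∈ Cfsg.signalizerFamily p E θ := fun Q hQ hBQ =>
    ⟨by haveI := hQ.isNilpotent; infer_instance, hqp' Q hQ, fun b hb u hu => Cfsg.Lib.Sig.inv_iff.2 hBQ b (hEB hb) u hu,
      fun a ha ha1 => hlem a ha ha1 _ inf_le_right (fun h => hqp' Q hQ (h.trans (card_dvd_of_le inf_le_left)))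
        (hinv_inf _ _ hBQ (hCB a ha))⟩
  have hfmax : ∀ Q : Subgroup X, IsPGroup q Q → B ≤ normalizer (Q : Set X) →
      (∀ R : Subgroup X, IsPGroup q R → B ≤ normalizer (R : Set X) → Q ≤ R → R = Q) →
      ∀ R ∈ Cfsg.signalizerFamily p E θ, IsPGroup q R → Q ≤ R → R = Q := by
    intro Q hQ hBQ hmax R hR hRq hQR
    by_contra hne
    have hlt : Q < R := lt_of_le_of_ne hQR (Ne.symm hne)
    have hgt := Cfsg.Lib.Sig.inf_normalizer_gt hRq hlt
    have hER : E ≤ normalizer (R : Set X) := Cfsg.Lib.Sig.inv_iff.1 hR.2.2.1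
    have hEX : E ≤ normalizer ((normalizer (Q : Set X) ⊓ R : Subgroup X) : Set X) :=
      Cfsg.Lib.Sig.inv_normalizer_inf hER (hEB.trans hBQ)
    obtain ⟨B', hB'E, hB'i, hnot⟩ := Cfsg.Lib.Sig.exists_index_witness (D := Q) hEA
      (hqp' _ (hRq.to_le inf_le_right)) hEX (fun h => hgt.not_ge h)
    have hB'ne : B' ≠ ⊥ := by
      rintro rfl
      rw [Subgroup.relIndex_bot_left] at hB'i
      have : p < p ^ 3 := by
        calc p = p ^ 1 := (pow_one p).symm
          _ < p ^ 3 := Nat.pow_lt_pow_right hp.one_lt (by norm_num)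
      omega
    obtain ⟨⟨a, haB'⟩, ha1⟩ := B'.ne_bot_iff_exists_ne_one.1 hB'ne
    have ha1 : a ≠ 1 := fun h => ha1 (Subtype.ext h)
    have haE := hB'E haB'
    obtain ⟨y, hy, hyQ⟩ := SetLike.not_le_iff_exists.1 hnot
    set Y := θ a ⊓ normalizer (Q : Set X) with hY
    have hyY : y ∈ Y := ⟨hR.2.2.2 a haE ha1 ⟨hy.1.2, mem_centralizer_singleton_iff.2
      (mem_centralizer_iff.1 hy.2 a haB').symm⟩, hy.1.1⟩
    set W := Q ⊔ Y with hW
    have hBY : B ≤ normalizer (Y : Set X) :=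
      hinv_inf _ _ (hθB a haE) (hBQ.trans Subgroup.le_normalizer)
    have hBW : B ≤ normalizer (W : Set X) := fun b hb => by
      rw [← Cfsg.Lib.Solv.conj_smul_eq_self_iff, hW, Subgroup.smul_sup,
        Cfsg.Lib.Solv.conj_smul_eq_self_iff.2 (hBQ hb), Cfsg.Lib.Solv.conj_smul_eq_self_iff.2 (hBY hb)]
    have hWn : W ≤ normalizer (Q : Set X) := sup_le Subgroup.le_normalizer inf_le_right
    haveI : (Q.subgroupOf W).Normal := normal_subgroupOf_of_le_normalizer hWn
    have hWp : ¬ p ∣ Nat.card W := by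
      intro hd
      have h1 := Cfsg.Lib.Solv.card_sup_dvd_mul (Y.subgroupOf W) (Q.subgroupOf W)
      rw [← subgroupOf_sup le_sup_right le_sup_left, sup_comm Y Q, subgroupOf_self, card_top,
        Nat.card_congr (subgroupOfEquivOfLe (le_sup_left : Q ≤ W)).toEquiv,
        Nat.card_congr (subgroupOfEquivOfLe (le_sup_right : Y ≤ W)).toEquiv] at h1
      rcases hp.dvd_mul.1 (hd.trans h1) with h | h
      · exact hθp a (h.trans (card_dvd_of_le inf_le_left))
      · exact hqp' Q hQ h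
    have hcop : (Nat.card B).Coprime (Nat.card W) := by
      obtain ⟨n, hn⟩ := IsPGroup.iff_card.1 hBp
      rw [hn]
      exact (hp.coprime_iff_not_dvd.2 hWp).pow_left n
    have hBsol : Group.IsSolvable B := by haveI := hBp.isNilpotent; infer_instance
    obtain ⟨S, hS⟩ := Cfsg.Lib.Solv.exists_invariant_sylow B W hBW hcop (Or.inl hBsol) q
    have hQS : Q.subgroupOf W ≤ (S : Subgroup W) :=
      (hQ.of_equiv (subgroupOfEquivOfLe (le_sup_left : Q ≤ W)).symm).le_sylow_of_normal S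
    set S' := (S : Subgroup W).map W.subtype with hS'
    have hQS' : Q ≤ S' := by
      intro z hz
      exact ⟨⟨z, le_sup_left (b := Y) hz⟩, hQS hz, rfl⟩
    have hSQ := hmax S' (S.isPGroup'.map _) hS hQS'
    -- so `Q` is the Sylow subgroup of `W`; but `y` is a `q`-element outside it
    have hyW : y ∈ W := le_sup_right (a := Q) hyY
    have hyq : IsPGroup q (zpowers (⟨y, hyW⟩ : W)) := by
      obtain ⟨n, hn⟩ := hRq.exists_orderOf_eq_pow ⟨y, hy.1.2⟩
      refine IsPGroup.of_card (n := n) ?_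
      rw [Nat.card_zpowers, ← Subgroup.orderOf_coe]
      rw [Subgroup.orderOf_mk] at hn
      exact hn
    obtain ⟨S2, hS2⟩ := hyq.exists_le_sylow
    have heq : (S : Subgroup W) = Q.subgroupOf W := by
      refine le_antisymm (fun z hz => ?_) hQS
      exact mem_subgroupOf.2 (hSQ.le ⟨z, hz, rfl⟩)
    obtain ⟨g, hg⟩ := MulAction.exists_smul_eq ↥W S2 S
    have h3 : g * ⟨y, hyW⟩ * g⁻¹ ∈ (S : Subgroup W) := by
      rw [← hg, Sylow.coe_subgroup_smul]
      exact ⟨_, hS2 (mem_zpowers _), rfl⟩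
    rw [heq] at h3
    have h4 := (inferInstance : (Q.subgroupOf W).Normal).conj_mem _ h3 g⁻¹
    rw [show g⁻¹ * (g * ⟨y, hyW⟩ * g⁻¹) * g⁻¹⁻¹ = ⟨y, hyW⟩ by group] at h4
    exact hyQ h4
  obtain ⟨c, hc, hcQ⟩ := Cfsg.Lib.Sig.transitivity hEA hE3 hθ (q := q) Q₁ Q₂ (hfam _ hq₁ hB₁) hq₁
    (hfmax _ hq₁ hB₁ hmax₁) (hfam _ hq₂ hB₂) hq₂ (hfmax _ hq₂ hB₂ hmax₂)
  set K := Cfsg.signalizerInf E θ with hK
  have hBK : B ≤ normalizer (K : Set X) := by
    refine Cfsg.Lib.Sig.inv_iff.1 fun b hb u hu => ?_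
    rw [hK, Cfsg.signalizerInf, mem_iInf] at hu ⊢
    exact fun a => Cfsg.Lib.Sig.inv_iff.2 (hθB a a.2.1) b hb u (hu a)
  obtain ⟨⟨a0, ha0⟩, ha01⟩ : ∃ a : E, a ≠ 1 := by
    refine E.ne_bot_iff_exists_ne_one.1 ?_
    rintro rfl
    rw [card_bot] at hE3
    exact absurd hE3 (not_le.2 (Nat.one_lt_pow three_ne_zero hp.one_lt))
  have hKle : K ≤ θ a0 := iInf_le (fun a : {a : X // a ∈ E ∧ a ≠ 1} => θ (a : X)) ⟨a0, ha0, fun h => ha01 (Subtype.ext h)⟩
  have hcop : (Nat.card B).Coprime (Nat.card K) := by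
    obtain ⟨n, hn⟩ := IsPGroup.iff_card.1 hBp
    rw [hn]
    exact (hp.coprime_iff_not_dvd.2 (fun h => hθp a0 (h.trans (card_dvd_of_le hKle)))).pow_left n
  have hBsol : Group.IsSolvable B := by haveI := hBp.isNilpotent; infer_instance
  have hQc : MulAut.conj c • Q₁ = Q₂ := by
    rw [Cfsg.Lib.Solv.conj_smul_eq_map]
    exact hcQ
  obtain ⟨d, hd, hdQ⟩ := Cfsg.Lib.Solv.invariant_conj_fixed B K Q₁ hBK hcop (Or.inl hBsol) hB₁ hc
    (by rw [hQc]; exact hB₂)
  refine ⟨d, hd.2, ?_⟩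
  rw [← hcQ, ← Cfsg.Lib.Solv.conj_smul_eq_map, ← Cfsg.Lib.Solv.conj_smul_eq_map, hdQ]

end Cfsg.Agent.S0522
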