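import Cfsg.Statements.S0534
import Mathlib
import Cfsg.Agent.Lib.Solv.Supersolvable2
-- import your own Cfsg.Agent.* helpers here

set_option autoImplicit false
open Cfsg

namespace Cfsg.Agent.S0534

/-- Let G be a finite solvable group and A a finite abelian group such that every prime dividing the order of A divides the order of G and, for each prime p dividing the order of G, the exponent of p in the order of A is one less than its exponent in the order of G. Then G × A has a subgroup of every order dividing its order. -/
theorem result {G A : Type*} [Group G] [CommGroup A] [Finite G] [Finite A] [Group.IsSolvable G] (hA : ∀ p : ℕ, p.Prime → p ∣ Nat.card A → p ∣ Nat.card G) (hexp : ∀ p : ℕ, p.Prime → p ∣ Nat.card G → (Nat.card A).factorization p + 1 = (Nat.card G).factorization p) : Cfsg.HasSubgroupOfEveryOrder (G × A) := by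
  intro d hd
  rw [Nat.card_prod] at hd
  set e := (Nat.card G).factorization with he
  have hd0 : d ≠ 0 := fun h => by
    rw [h, zero_dvd_iff] at hd
    exact (Nat.mul_ne_zero Nat.card_pos.ne' Nat.card_pos.ne') hd
  have hfd : ∀ p, d.factorization p ≤ e p + (Nat.card A).factorization p := fun p => by
    have h := (Nat.factorization_le_iff_dvd hd0
      (Nat.mul_ne_zero Nat.card_pos.ne' Nat.card_pos.ne')).2 hd p
    rwa [Nat.factorization_mul Nat.card_pos.ne' Nat.card_pos.ne', Finsupp.add_apply] at h
  obtain ⟨H, hH⟩ := Cfsg.Lib.Solv.hall_exists (G := G) {p | p ∣ Nat.card G ∧ e p ≤ d.factorization p}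
  have hHG : Nat.card H * H.index = Nat.card G := H.card_mul_index
  have hin : ∀ p : ℕ, p.Prime → p ∣ Nat.card G → e p ≤ d.factorization p →
      (Nat.card H).factorization p = e p := by
    intro p hp hpd hle
    have h := congrArg (fun n => n.factorization p) hHG
    simp only [Nat.factorization_mul Nat.card_pos.ne' Subgroup.index_ne_zero_of_finite,
      Finsupp.add_apply] at h
    rwa [Nat.factorization_eq_zero_of_not_dvd (hH.2 p hp ⟨hpd, hle⟩), add_zero, ← he] at h
  have hout : ∀ p : ℕ, ¬ (p ∣ Nat.card G ∧ e p ≤ d.factorization p) →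
      (Nat.card H).factorization p = 0 := by
    intro p hn
    by_cases hp : p.Prime
    · exact Nat.factorization_eq_zero_of_not_dvd fun hdv => hn (hH.1 p hp hdv)
    · exact Nat.factorization_eq_zero_of_not_prime _ hp
  have hHd : Nat.card H ∣ d := by
    refine (Nat.factorization_le_iff_dvd Nat.card_pos.ne' hd0).1 fun p => ?_
    by_cases hcase : p.Prime ∧ p ∣ Nat.card G ∧ e p ≤ d.factorization p
    · rw [hin p hcase.1 hcase.2.1 hcase.2.2]; exact hcase.2.2
    · by_cases hp : p.Prime
      · rw [hout p fun h => hcase ⟨hp, h⟩]; exact Nat.zero_le _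
      · rw [Nat.factorization_eq_zero_of_not_prime _ hp]; exact Nat.zero_le _
  obtain ⟨c, hc⟩ := hHd
  have hc0 : c ≠ 0 := fun h => hd0 (by rw [hc, h, mul_zero])
  have hcA : c ∣ Nat.card A := by
    refine (Nat.factorization_le_iff_dvd hc0 Nat.card_pos.ne').1 fun p => ?_
    by_cases hp : p.Prime
    swap
    · rw [Nat.factorization_eq_zero_of_not_prime _ hp]; exact Nat.zero_le _
    have hsum : d.factorization p = (Nat.card H).factorization p + c.factorization p := by
      rw [hc, Nat.factorization_mul Nat.card_pos.ne' hc0, Finsupp.add_apply]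
    have hle := hfd p
    by_cases hpd : p ∣ Nat.card G
    · by_cases hge : e p ≤ d.factorization p
      · rw [hin p hp hpd hge] at hsum
        omega
      · rw [hout p fun h => hge h.2] at hsum
        have hx := hexp p hp hpd
        omega
    · rw [hout p fun h => hpd h.1] at hsum
      have h0 : e p = 0 := Nat.factorization_eq_zero_of_not_dvd hpd
      omega
  obtain ⟨B, hB⟩ := Cfsg.Lib.Solv.exists_subgroup_every_order A
    (Cfsg.Lib.Solv.supersolvable_of_nilpotent _ A le_rfl) c hcA
  exact ⟨H.prod B, by rw [Nat.card_congr (H.prodEquiv B).toEquiv, Nat.card_prod, hB, hc]⟩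

end Cfsg.Agent.S0534
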