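import Cfsg.Statements.S0535
import Mathlib
import Cfsg.Agent.Lib.Solv.Systems
-- import your own Cfsg.Agent.* helpers here

set_option autoImplicit false
open Cfsg

namespace Cfsg.Agent.S0535

/-- Suppose that for every nontrivial subgroup H of a finite group and every prime p dividing the order of H there is a proper subgroup of H whose index in H is a power of p. Then the group is solvable. -/
theorem result {G : Type*} [Group G] [Finite G] (h : ∀ H : Subgroup G, H ≠ ⊥ → ∀ p : ℕ, p.Prime → p ∣ Nat.card H → ∃ K : Subgroup H, K ≠ ⊤ ∧ ∃ k : ℕ, K.index = p ^ k) : Group.IsSolvable G := by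
  classical
  refine Cfsg.Lib.Solv.solvable_of_complements _ G le_rfl fun p hp => ?_
  have key : ∀ (n : ℕ) (H : Subgroup G), Nat.card H ≤ n → (∃ k, H.index = p ^ k) →
      ∃ K : Subgroup G, (∃ k, K.index = p ^ k) ∧ ¬ p ∣ Nat.card K := by
    intro n
    induction n with
    | zero => intro H hn; exact absurd hn (Nat.not_le.2 Nat.card_pos)
    | succ n ih =>
      intro H hn hH
      by_cases hpd : p ∣ Nat.card H
      swap
      · exact ⟨H, hH, hpd⟩
      have hne : H ≠ ⊥ := fun e => by
        rw [e, Subgroup.card_bot] at hpd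
        exact hp.ne_one (Nat.dvd_one.1 hpd)
      obtain ⟨K, hK, k, hk⟩ := h H hne p hp hpd
      obtain ⟨j, hj⟩ := hH
      refine ih (K.map H.subtype) ?_ ⟨k + j, by rw [Subgroup.index_map_subtype, hk, hj, pow_add]⟩
      have hlt : Nat.card K < Nat.card H :=
        lt_of_le_of_ne K.card_le_card_group fun e => hK (Subgroup.eq_top_of_card_eq K e)
      rw [Cfsg.Lib.Solv.card_map_subtype']
      omega
  obtain ⟨K, ⟨k, hk⟩, hnd⟩ := key _ ⊤ le_rfl ⟨0, by rw [Subgroup.index_top, pow_zero]⟩
  refine ⟨K, ?_⟩
  rw [hk]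
  congr 1
  conv_rhs => rw [← K.card_mul_index, hk]
  rw [Nat.factorization_mul Nat.card_pos.ne' (pow_ne_zero _ hp.ne_zero), Finsupp.add_apply,
    Nat.factorization_eq_zero_of_not_dvd hnd, Nat.Prime.factorization_pow hp, Finsupp.single_eq_same,
    zero_add]

end Cfsg.Agent.S0535
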