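import Cfsg.Statements.S0536
import Mathlib
import Cfsg.Agent.Lib.Solv.MinimalNonNilpotent
-- import your own Cfsg.Agent.* helpers here

set_option autoImplicit false
open Cfsg

namespace Cfsg.Agent.S0536

/-- Structure of minimal non-nilpotent groups: if a finite group is not nilpotent but all its proper subgroups are, then there are distinct primes p and q, a cyclic Sylow p-subgroup P and a normal Sylow q-subgroup Q with G generated by P and Q. -/
theorem result {G : Type*} [Group G] [Finite G] (hG : Cfsg.IsMinimalNonNilpotent G) : ∃ p q : ℕ, p.Prime ∧ q.Prime ∧ p ≠ q ∧ ∃ (P : Sylow p G) (Q : Sylow q G), IsCyclic P ∧ (Q : Subgroup G).Normal ∧ (P : Subgroup G) ⊔ Q = ⊤ := by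
  obtain ⟨p, q, hp, hq, hpq, y, b, hb, Q, hQn, hc, -⟩ := Cfsg.Lib.Solv.minimal_non_nilpotent_structure hG
  haveI := Fact.mk hp
  haveI := Fact.mk hq
  obtain ⟨a, ha⟩ := IsPGroup.iff_card.1 Q.isPGroup'
  obtain ⟨P, hP⟩ := Cfsg.Lib.Solv.sylow_structure hb hc (by
    rw [ha]; intro hd
    exact hpq ((Nat.prime_dvd_prime_iff_eq hp hq).1 (hp.dvd_of_dvd_pow hd)))
  exact ⟨p, q, hp, hq, hpq, P, Q, by rw [hP]; infer_instance, hQn, by rw [hP, sup_comm, hc.sup_eq_top]⟩

end Cfsg.Agent.S0536
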