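import Cfsg.Statements.S0539
import Mathlib
import Cfsg.Agent.Lib.Solv.Subnormal
-- import your own Cfsg.Agent.* helpers here

set_option autoImplicit false
open Pointwise
open Cfsg
open scoped Pointwise

namespace Cfsg.Agent.S0539

/-- Let S be a family of subnormal subgroups of a finite group that is closed under conjugation, and S₀ a proper subfamily. Then some member of S not in S₀ normalizes the join of S₀. -/
theorem result {G : Type*} [Group G] [Finite G] (S S₀ : Set (Subgroup G)) (hS : ∀ U ∈ S, U.IsSubnormal) (hconj : ∀ U ∈ S, ∀ g : G, MulAut.conj g • U ∈ S) (h₀ : S₀ ⊂ S) : ∃ X ∈ S, X ∉ S₀ ∧ X ≤ Subgroup.normalizer ((sSup S₀ : Subgroup G) : Set G) := by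
  classical
  set T := sSup S₀ with hT
  have hTs : T.IsSubnormal := by
    suffices h : ∀ A : Set (Subgroup G), A ⊆ S₀ → A.Finite → (sSup A : Subgroup G).IsSubnormal from
      h S₀ subset_rfl (Set.toFinite _)
    intro A hA hfin
    induction A, hfin using Set.Finite.induction_on with
    | empty => rw [sSup_empty]; exact Subgroup.IsSubnormal.bot
    | @insert a A _ _ ih =>
      rw [sSup_insert]
      exact Cfsg.Lib.Solv.sup_isSubnormal (hS a (h₀.subset (hA (Set.mem_insert _ _))))
        (ih ((Set.subset_insert _ _).trans hA))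
  obtain ⟨U, hU, hU0⟩ := Set.exists_of_ssubset h₀
  by_cases htop : Subgroup.normalizer (T : Set G) = ⊤
  · exact ⟨U, hU, hU0, by rw [htop]; exact le_top⟩
  have key : ∀ H : Subgroup G, H.IsSubnormal → T ≤ H → H ≤ Subgroup.normalizer (T : Set G) →
      ∃ g : G, g ∉ Subgroup.normalizer (T : Set G) ∧ MulAut.conj g • T ≤ Subgroup.normalizer (T : Set G) := by
    intro H hH
    induction hH with
    | top => intro _ h; exact absurd (top_le_iff.1 h) htop
    | step H K hle _ hN ih =>
      intro hTH hHN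
      by_cases hKN : K ≤ Subgroup.normalizer (T : Set G)
      · exact ih (hTH.trans hle) hKN
      obtain ⟨g, hgK, hg⟩ := SetLike.not_le_iff_exists.1 hKN
      refine ⟨g, hg, fun x hx => hHN ?_⟩
      have h1 := hTH (Cfsg.Lib.Solv.mem_conj_smul.1 hx)
      have h2 := (Subgroup.mem_normalizer_iff.1
        ((Subgroup.normal_subgroupOf_iff_le_normalizer hle).1 hN hgK) _).1 h1
      have e : g * (g⁻¹ * x * g) * g⁻¹ = x := by group
      rwa [e] at h2
  obtain ⟨g, hg, hgT⟩ := key T hTs le_rfl Subgroup.le_normalizer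
  by_contra hno
  push Not at hno
  refine hg ?_
  have hle : ∀ X ∈ S₀, MulAut.conj g • X ≤ T := by
    intro X hX
    have h1 : MulAut.conj g • X ≤ Subgroup.normalizer (T : Set G) :=
      (smul_le_smul_left _ (le_sSup hX)).trans hgT
    by_cases h2 : MulAut.conj g • X ∈ S₀
    · exact le_sSup h2
    · exact absurd h1 (hno _ (hconj X (h₀.subset hX) g) h2)
  have h3 : T ≤ MulAut.conj g⁻¹ • T := sSup_le fun X hX x hx => by
    refine Cfsg.Lib.Solv.mem_conj_smul.2 (hle X hX (Cfsg.Lib.Solv.mem_conj_smul.2 ?_))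
    have e : g⁻¹ * (g⁻¹⁻¹ * x * g⁻¹) * g = x := by group
    rwa [e]
  have heq : T = MulAut.conj g⁻¹ • T :=
    Subgroup.eq_of_le_of_card_ge h3 (Cfsg.Lib.Solv.card_conj_smul _ _).le
  refine Subgroup.mem_normalizer_iff.2 fun x => ⟨fun hx => ?_, fun hx => ?_⟩
  · have h4 := Cfsg.Lib.Solv.mem_conj_smul.1 (h3 hx)
    rwa [inv_inv] at h4
  · rw [heq]
    exact Cfsg.Lib.Solv.mem_conj_smul.2 (by rwa [inv_inv])

end Cfsg.Agent.S0539
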