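import Cfsg.Statements.S0540
import Mathlib
import Cfsg.Agent.Lib.Solv.SubnormalFamily
-- import your own Cfsg.Agent.* helpers here

set_option autoImplicit false
open Pointwise
open Cfsg
open scoped Pointwise

namespace Cfsg.Agent.S0540

/-- A uniqueness lemma of zipper type. Let A be a subgroup of a finite group G and U a nonempty family of subgroups. For V in U write S(V) for the set of conjugates of A that lie in V and are subnormal in V. Assume: A belongs to S(V) for every V in U; a member of some S(W) that lies in V belongs to S(V); and for all V, W in U the normalizer of the join of S(V) ∩ S(W) lies in some member of U. Then U has a greatest element. -/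
theorem result {G : Type*} [Group G] [Finite G] (A : Subgroup G) (U : Set (Subgroup G)) (hU : U.Nonempty) (S : Subgroup G → Set (Subgroup G)) (hS : ∀ V B : Subgroup G, B ∈ S V ↔ (∃ g : G, B = MulAut.conj g • A) ∧ B ≤ V ∧ (B.subgroupOf V).IsSubnormal) (h1 : ∀ V ∈ U, A ∈ S V) (h2 : ∀ V ∈ U, ∀ W ∈ U, ∀ B ∈ S W, B ≤ V → B ∈ S V) (h3 : ∀ V ∈ U, ∀ W ∈ U, ∃ X ∈ U, Subgroup.normalizer ((sSup (S V ∩ S W) : Subgroup G) : Set G) ≤ X) : ∃ M ∈ U, ∀ V ∈ U, V ≤ M := by
  classical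
  have hinv : ∀ V : Subgroup G, ∀ w ∈ V, ∀ B ∈ S V, MulAut.conj w • B ∈ S V := by
    intro V w hw B hB
    obtain ⟨⟨g, hg⟩, hBV, hsn⟩ := (hS V B).1 hB
    have hle : MulAut.conj w • B ≤ V := by
      rintro _ ⟨b, hb, rfl⟩
      exact V.mul_mem (V.mul_mem hw (hBV hb)) (V.inv_mem hw)
    refine (hS V _).2 ⟨⟨w * g, by rw [map_mul, mul_smul, ← hg]⟩, hle, ?_⟩
    have e : (MulAut.conj w • B).subgroupOf V = MulAut.conj (⟨w, hw⟩ : V) • B.subgroupOf V := by
      apply Subgroup.map_injective V.subtype_injective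
      rw [Cfsg.Lib.Solv.map_conj_smul, Subgroup.subgroupOf_map_subtype, Subgroup.subgroupOf_map_subtype,
        inf_eq_left.2 hle, inf_eq_left.2 hBV]
      rfl
    rw [e]
    exact Cfsg.Lib.Solv.isSubnormal_conj _ hsn
  set Mx := {V : Subgroup G | Maximal (· ∈ U) V} with hMx
  have hmaxex : ∀ X ∈ U, ∃ X' ∈ Mx, X ≤ X' := fun X hX => by
    obtain ⟨X', hXX', hX'⟩ := (Set.toFinite U).exists_le_maximal hX
    exact ⟨X', hX', hXX'⟩
  have huniq : ∀ V ∈ Mx, ∀ W ∈ Mx, V = W := by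
    by_contra hcon
    push_neg at hcon
    obtain ⟨V0, hV0, W0, hW0, hne0⟩ := hcon
    obtain ⟨⟨V, W⟩, ⟨hV, hW, hne⟩, hmax⟩ := (Set.toFinite
      {q : Subgroup G × Subgroup G | q.1 ∈ Mx ∧ q.2 ∈ Mx ∧ q.1 ≠ q.2}).exists_maximalFor
        (fun q => S q.1 ∩ S q.2) _ ⟨(V0, W0), hV0, hW0, hne0⟩
    set F := S V ∩ S W with hF
    set T := (sSup F : Subgroup G) with hT
    obtain ⟨X, hX, hNX⟩ := h3 V hV.1 W hW.1
    obtain ⟨X', hX', hXX'⟩ := hmaxex X hX
    have step : ∀ P Q : Subgroup G, P ∈ Mx → Q ∈ Mx → S P ∩ S Q = F → X' ≠ P → False := by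
      intro P Q hP hQ hPQ hXP
      have hFP : ∀ B ∈ F, B ∈ S P := fun B hB => (hPQ.symm ▸ hB : B ∈ S P ∩ S Q).1
      have hFQ : ∀ B ∈ F, B ∈ S Q := fun B hB => (hPQ.symm ▸ hB : B ∈ S P ∩ S Q).2
      have hTP : T ≤ P := sSup_le fun B hB => ((hS P B).1 (hFP B hB)).2.1
      have hTQ : T ≤ Q := sSup_le fun B hB => ((hS Q B).1 (hFQ B hB)).2.1
      have hTX : T ≤ X' := (Subgroup.le_normalizer.trans hNX).trans hXX'
      have hmemF : ∀ B ∈ S P, B ≤ T → B ∈ F := fun B hB hBT =>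
        hPQ ▸ ⟨hB, h2 Q hQ.1 P hP.1 B hB (hBT.trans hTQ)⟩
      by_cases hall : ∀ B ∈ S P, B ≤ T
      · -- then P normalizes T
        have hPN : P ≤ Subgroup.normalizer (T : Set G) := by
          intro w hw
          rw [← Cfsg.Lib.Solv.conj_smul_eq_self_iff]
          refine Subgroup.eq_of_le_of_card_ge ?_ (Cfsg.Lib.Solv.card_conj_smul _ _).ge
          rw [hT, Cfsg.Lib.Solv.conj_smul_eq_map, Subgroup.map_le_iff_le_comap]
          refine sSup_le fun B hB => ?_
          rw [← Subgroup.map_le_iff_le_comap, ← Cfsg.Lib.Solv.conj_smul_eq_map]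
          exact le_sSup (hmemF _ (hinv P w hw B (hFP B hB)) (hall _ (hinv P w hw B (hFP B hB))))
        exact hXP (le_antisymm (hP.2 hX'.1 ((hPN.trans hNX).trans hXX')) ((hPN.trans hNX).trans hXX'))
      · push_neg at hall
        have hTeq : T = sSup {B ∈ S P | B ≤ T} := le_antisymm
          (sSup_le fun B hB => le_sSup ⟨hFP B hB, le_sSup hB⟩) (sSup_le fun B hB => hB.2)
        obtain ⟨B, hB, hBT, hBN⟩ := Cfsg.Lib.Solv.exists_normalizing_member P (S P)
          (fun B hB => ((hS P B).1 hB).2.1) (hinv P) T hTeq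
          (Cfsg.Lib.Solv.sSup_isSubnormal P F (fun B hB => ((hS P B).1 (hFP B hB)).2.1)
            (fun B hB => ((hS P B).1 (hFP B hB)).2.2)) hall
        have hBX : B ∈ S X' := h2 X' hX'.1 P hP.1 B hB ((hBN.trans hNX).trans hXX')
        have hsub : F ⊆ S P ∩ S X' := fun C hC =>
          ⟨hFP C hC, h2 X' hX'.1 P hP.1 C (hFP C hC) ((le_sSup hC : C ≤ T).trans hTX)⟩
        have := hmax (j := (P, X')) ⟨hP, hX', fun h => hXP h.symm⟩ hsub
        exact hBT (le_sSup (this ⟨hB, hBX⟩))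
    by_cases hXV : X' = V
    · exact step W V hW hV (Set.inter_comm _ _) (fun h => hne (hXV.symm.trans h))
    · exact step V W hV hW rfl hXV
  obtain ⟨V0, hV0⟩ := hU
  obtain ⟨M, hM, -⟩ := hmaxex V0 hV0
  refine ⟨M, hM.1, fun V hV => ?_⟩
  obtain ⟨V', hV', hle⟩ := hmaxex V hV
  exact huniq V' hV' M hM ▸ hle

end Cfsg.Agent.S0540
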