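import Cfsg.Statements.S0541
import Mathlib
import Cfsg.Agent.Lib.Solv.SubnormalFamily
-- import your own Cfsg.Agent.* helpers here

set_option autoImplicit false
open Pointwise
open Cfsg
open scoped Pointwise

namespace Cfsg.Agent.S0541

/-- Let Z and Y be subgroups of a finite group G and p a prime. Suppose that for every g in G the subgroup generated by the conjugates of g Z g⁻¹ under Y is a p-group. Then there is a Sylow p-subgroup P of G such that Y normalizes the subgroup generated by all conjugates of Z contained in P. -/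
theorem result {G : Type*} [Group G] [Finite G] (p : ℕ) [Fact p.Prime] (Z Y : Subgroup G) (h : ∀ g : G, IsPGroup p ↥(⨆ y ∈ Y, MulAut.conj (y * g) • Z)) : ∃ P : Sylow p G, Y ≤ Subgroup.normalizer ((⨆ g ∈ {g : G | MulAut.conj g • Z ≤ (P : Subgroup G)}, MulAut.conj g • Z : Subgroup G) : Set G) := by
  classical
  set F := Set.range (fun g : G => MulAut.conj g • Z) with hF
  set good := {T : Subgroup G | IsPGroup p T ∧ Y ≤ Subgroup.normalizer (T : Set G) ∧
    T = sSup {B ∈ F | B ≤ T}} with hgood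
  have hbot : (⊥ : Subgroup G) ∈ good := by
    refine ⟨IsPGroup.of_bot, ?_, le_antisymm bot_le (sSup_le fun B hB => hB.2)⟩
    rw [Subgroup.normalizer_eq_top]
    exact le_top
  obtain ⟨T, ⟨hTp, hYT, hTgen⟩, hmax⟩ := (Set.toFinite good).exists_maximal ⟨⊥, hbot⟩
  obtain ⟨P, hTP⟩ := hTp.exists_le_sylow
  refine ⟨P, ?_⟩
  suffices hW : (⨆ g ∈ {g : G | MulAut.conj g • Z ≤ (P : Subgroup G)}, MulAut.conj g • Z : Subgroup G) = T by
    rw [hW]; exact hYT
  refine le_antisymm ?_ ?_
  · refine iSup₂_le fun g hg => ?_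
    by_contra hgT
    set FP := {B ∈ F | B ≤ (P : Subgroup G)} with hFP
    haveI : Group.IsNilpotent ↥(P : Subgroup G) := P.isPGroup'.isNilpotent
    have hTgen' : T = sSup {B ∈ FP | B ≤ T} := le_antisymm
      (hTgen.le.trans (sSup_le fun B hB => le_sSup ⟨⟨hB.1, hB.2.trans hTP⟩, hB.2⟩))
      (sSup_le fun B hB => hB.2)
    obtain ⟨B, ⟨⟨g', rfl⟩, -⟩, hBT, hBN⟩ := Cfsg.Lib.Solv.exists_normalizing_member (P : Subgroup G) FP
      (fun B hB => hB.2)
      (fun w hw B hB => by
        obtain ⟨⟨g1, rfl⟩, hle⟩ := hB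
        refine ⟨⟨w * g1, by simp only [map_mul, mul_smul]⟩, ?_⟩
        rintro _ ⟨b, hb, rfl⟩
        exact (P : Subgroup G).mul_mem ((P : Subgroup G).mul_mem hw (hle hb)) ((P : Subgroup G).inv_mem hw))
      T hTgen' (Cfsg.Lib.Solv.isSubnormal_of_nilpotent _) ⟨_, ⟨⟨g, rfl⟩, hg⟩, hgT⟩
    set U : Subgroup G := ⨆ y ∈ Y, MulAut.conj (y * g') • Z with hU
    have hUN : U ≤ Subgroup.normalizer (T : Set G) := by
      refine iSup₂_le fun y hy => ?_
      rw [map_mul, mul_smul]
      refine (smul_le_smul_left _ hBN).trans ?_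
      rintro _ ⟨b, hb, rfl⟩
      exact mul_mem (mul_mem (hYT hy) hb) (inv_mem (hYT hy))
    have hnew : T ⊔ U ∈ good := by
      refine ⟨IsPGroup.to_sup_of_normal_left' hTp (h g') hUN, ?_, le_antisymm ?_ (sSup_le fun B hB => hB.2)⟩
      · intro y hy
        rw [← Cfsg.Lib.Solv.conj_smul_eq_self_iff]
        refine Subgroup.eq_of_le_of_card_ge ?_ (Cfsg.Lib.Solv.card_conj_smul _ _).ge
        rw [Subgroup.smul_sup]
        refine sup_le ((Cfsg.Lib.Solv.conj_smul_eq_self_iff.2 (hYT hy)).le.trans le_sup_left)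
          (le_trans ?_ le_sup_right)
        rw [hU, Cfsg.Lib.Solv.conj_smul_eq_map, Subgroup.map_le_iff_le_comap]
        refine iSup₂_le fun y' hy' => ?_
        rw [← Subgroup.map_le_iff_le_comap, ← Cfsg.Lib.Solv.conj_smul_eq_map, ← mul_smul, ← map_mul,
          ← mul_assoc]
        exact le_iSup₂ (f := fun z (_ : z ∈ Y) => MulAut.conj (z * g') • Z) (y * y') (Y.mul_mem hy hy')
      · refine sup_le (hTgen.le.trans (sSup_le fun B hB => le_sSup ⟨hB.1, hB.2.trans le_sup_left⟩)) ?_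
        refine iSup₂_le fun y hy => le_sSup ⟨⟨y * g', rfl⟩, ?_⟩
        exact le_trans (le_iSup₂ (f := fun z (_ : z ∈ Y) => MulAut.conj (z * g') • Z) y hy) le_sup_right
    have hTU := hmax hnew le_sup_left
    refine hBT (le_trans ?_ (le_sup_right.trans hTU))
    have := le_iSup₂ (f := fun z (_ : z ∈ Y) => MulAut.conj (z * g') • Z) 1 Y.one_mem
    simpa [hU] using this
  · conv_lhs => rw [hTgen]
    refine sSup_le ?_
    rintro B ⟨⟨g1, rfl⟩, hle⟩
    exact le_iSup₂ (f := fun z (_ : z ∈ {g : G | MulAut.conj g • Z ≤ (P : Subgroup G)}) =>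
      MulAut.conj z • Z) g1 (hle.trans hTP)

end Cfsg.Agent.S0541
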