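import Cfsg.Statements.S0547
import Mathlib
import Cfsg.Agent.Lib.Solv.Primitive
-- import your own Cfsg.Agent.* helpers here

set_option autoImplicit false
open Cfsg

namespace Cfsg.Agent.S0547

/-- Let a finite solvable group G act faithfully and primitively on a set, and let M be a minimal normal subgroup of G. Then M is transitive with trivial point stabilizers, and the number of points equals the order of M, which is a prime power p ^ d with d ≥ 1. -/
theorem result {G : Type*} [Group G] [Finite G] [Group.IsSolvable G] {Ω : Type*} [Nonempty Ω] [MulAction G Ω] [FaithfulSMul G Ω] (hprim : MulAction.IsPreprimitive G Ω) (M : Subgroup G) [M.Normal] (hM : M ≠ ⊥) (hmin : ∀ K : Subgroup G, K.Normal → K ≤ M → K = ⊥ ∨ K = M) : MulAction.IsPretransitive M Ω ∧ (∀ ω : Ω, MulAction.stabilizer M ω = ⊥) ∧ ∃ p d : ℕ, p.Prime ∧ 0 < d ∧ Nat.card Ω = p ^ d ∧ Nat.card M = p ^ d := by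
  obtain ⟨hc, p, hp, hpM, -⟩ := Cfsg.Lib.Solv.minimal_normal_elementary hM inferInstance hmin
  have := Fact.mk hp
  have htr := Cfsg.Lib.Solv.primitive_normal_pretransitive hprim M hM
  have hst := fun ω : Ω => Cfsg.Lib.Solv.stabilizer_eq_bot_of_abelian M hc ω
  obtain ⟨d, hd⟩ := IsPGroup.iff_card.1 hpM
  obtain ⟨ω⟩ := ‹Nonempty Ω›
  have hcard : Nat.card Ω = Nat.card M := by
    rw [← MulAction.index_stabilizer_of_transitive M ω, hst ω, Subgroup.index_bot]
  refine ⟨htr, hst, p, d, hp, Nat.pos_of_ne_zero fun h => hM ?_, hcard.trans hd, hd⟩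
  exact Subgroup.eq_bot_of_card_eq M (by rw [hd, h, pow_zero])

end Cfsg.Agent.S0547
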