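import Cfsg.Statements.S0548
import Mathlib
import Cfsg.Agent.Lib.Solv.Primitive
-- import your own Cfsg.Agent.* helpers here

set_option autoImplicit false
open Cfsg

namespace Cfsg.Agent.S0548

/-- Let a finite solvable group G act faithfully and primitively on a set, let M be a minimal normal subgroup and H the stabilizer of a point. Then H is a complement to M, no non-identity element of H centralizes M, and the only subgroups of M normalized by H are the trivial subgroup and M. -/
theorem result {G : Type*} [Group G] [Finite G] [Group.IsSolvable G] {Ω : Type*} [MulAction G Ω] [FaithfulSMul G Ω] (hprim : MulAction.IsPreprimitive G Ω) (M : Subgroup G) [M.Normal] (hM : M ≠ ⊥) (hmin : ∀ K : Subgroup G, K.Normal → K ≤ M → K = ⊥ ∨ K = M) (ω : Ω) : Subgroup.IsComplement' M (MulAction.stabilizer G ω) ∧ MulAction.stabilizer G ω ⊓ Subgroup.centralizer (M : Set G) = ⊥ ∧ ∀ K : Subgroup G, K ≤ M → MulAction.stabilizer G ω ≤ Subgroup.normalizer (K : Set G) → K = ⊥ ∨ K = M := by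
  obtain ⟨hc, -⟩ := Cfsg.Lib.Solv.minimal_normal_elementary hM inferInstance hmin
  have htr := Cfsg.Lib.Solv.primitive_normal_pretransitive hprim M hM
  have hd : M ⊓ MulAction.stabilizer G ω = ⊥ := by
    rw [eq_bot_iff]
    intro g hg
    rw [Subgroup.mem_bot]
    exact Cfsg.Lib.Solv.eq_one_of_fix_of_commute M
      (Cfsg.Lib.Solv.le_centralizer_of_abelian hc (Subgroup.mem_inf.1 hg).1)
      (Subgroup.mem_inf.1 hg).2
  have hmul : ∀ g : G, ∃ m ∈ M, m⁻¹ * g ∈ MulAction.stabilizer G ω := fun g => by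
    obtain ⟨m, hm⟩ := htr.exists_smul_eq ω (g • ω)
    exact ⟨m, m.2, by rw [MulAction.mem_stabilizer_iff, mul_smul, ← hm]; exact inv_smul_smul _ _⟩
  refine ⟨Subgroup.isComplement'_of_disjoint_and_mul_eq_univ (disjoint_iff.2 hd) ?_, ?_, ?_⟩
  · refine Set.eq_univ_of_forall fun g => ?_
    obtain ⟨m, hm, hh⟩ := hmul g
    exact ⟨m, hm, m⁻¹ * g, hh, mul_inv_cancel_left m g⟩
  · rw [eq_bot_iff]
    intro g hg
    rw [Subgroup.mem_bot]
    exact Cfsg.Lib.Solv.eq_one_of_fix_of_commute M (Subgroup.mem_inf.1 hg).2 (Subgroup.mem_inf.1 hg).1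
  · intro K hKM hK
    refine hmin K ?_ hKM
    refine Subgroup.normalizer_eq_top_iff.1 (top_le_iff.1 fun g _ => ?_)
    obtain ⟨m, hm, hh⟩ := hmul g
    rw [← mul_inv_cancel_left m g]
    refine mul_mem (Subgroup.mem_normalizer_iff.2 fun x => ⟨fun hx => ?_, fun hx => ?_⟩) (hK hh)
    · rw [Cfsg.Lib.Solv.commute_of_abelian hc hm (hKM hx), mul_inv_cancel_right]; exact hx
    · have hxM : x ∈ M := by
        simpa [mul_assoc] using M.mul_mem (M.mul_mem (M.inv_mem hm) (hKM hx)) hm
      rw [Cfsg.Lib.Solv.commute_of_abelian hc hm hxM, mul_inv_cancel_right] at hx; exact hx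

end Cfsg.Agent.S0548
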