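import Cfsg.Statements.S0549
import Mathlib
import Cfsg.Agent.Lib.Solv.Frattini
-- import your own Cfsg.Agent.* helpers here

set_option autoImplicit false
open Cfsg

namespace Cfsg.Agent.S0549

/-- Let U be a maximal subgroup of a finite group G whose normal core is trivial, and N a nontrivial normal subgroup with centralizer C. Then C ∩ U = 1, and either C = 1 or C is a minimal normal subgroup of G. -/
theorem result {G : Type*} [Group G] [Finite G] (U : Subgroup G) (hU : IsCoatom U) (hcore : U.normalCore = ⊥) (N : Subgroup G) [N.Normal] (hN : N ≠ ⊥) : Subgroup.centralizer (N : Set G) ⊓ U = ⊥ ∧ (Subgroup.centralizer (N : Set G) = ⊥ ∨ (Subgroup.centralizer (N : Set G) ≠ ⊥ ∧ ∀ K : Subgroup G, K.Normal → K ≤ Subgroup.centralizer (N : Set G) → K = ⊥ ∨ K = Subgroup.centralizer (N : Set G))) := by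
  set C := Subgroup.centralizer (N : Set G)
  have hsup : ∀ K : Subgroup G, K.Normal → K ≠ ⊥ → U ⊔ K = ⊤ := by
    intro K hK hKne
    refine hU.2 _ (lt_of_le_of_ne le_sup_left fun h => hKne ?_)
    have hKU : K ≤ U := sup_eq_left.1 h.symm
    have h2 : K ≤ U.normalCore := fun x hx g => hKU (hK.conj_mem x hx g)
    rw [hcore, le_bot_iff] at h2
    exact h2
  haveI : C.Normal := inferInstance
  have hn : (C ⊓ U).Normal := by
    rw [← Subgroup.normalizer_eq_top_iff, ← top_le_iff, ← hsup N inferInstance hN]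
    refine sup_le (fun a ha => ?_) (fun a ha => ?_)
    · rw [← Cfsg.Lib.Solv.conj_smul_eq_self_iff, Subgroup.smul_inf, Cfsg.Lib.Solv.conj_smul_normal, Cfsg.Lib.Solv.conj_smul_eq_self_iff.2 (Subgroup.le_normalizer ha)]
    · rw [Subgroup.mem_normalizer_iff]
      intro y
      constructor
      · intro hy
        rwa [(Subgroup.mem_centralizer_iff.1 hy.1) a ha, mul_inv_cancel_right]
      · intro hy
        have hyC : y ∈ C := by
          have := (inferInstance : C.Normal).conj_mem _ hy.1 a⁻¹
          simpa [mul_assoc] using this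
        rwa [(Subgroup.mem_centralizer_iff.1 hyC) a ha, mul_inv_cancel_right] at hy
  have hbot : C ⊓ U = ⊥ := by
    have h2 : C ⊓ U ≤ U.normalCore := fun x hx g => (hn.conj_mem x hx g).2
    rw [hcore, le_bot_iff] at h2
    exact h2
  refine ⟨hbot, ?_⟩
  by_cases hC : C = ⊥
  · exact Or.inl hC
  refine Or.inr ⟨hC, fun K hK hKC => ?_⟩
  by_cases hKne : K = ⊥
  · exact Or.inl hKne
  refine Or.inr (le_antisymm hKC fun x hx => ?_)
  haveI := hK
  obtain ⟨u, hu, k, hk, rfl⟩ := Subgroup.mem_sup_of_normal_right.1 ((hsup K hK hKne) ▸ Subgroup.mem_top x)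
  have huC : u ∈ C ⊓ U := ⟨by simpa using C.mul_mem hx (C.inv_mem (hKC hk)), hu⟩
  rw [hbot, Subgroup.mem_bot] at huC
  rw [huC, one_mul]
  exact hk

end Cfsg.Agent.S0549
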