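import Cfsg.Statements.S0550
import Mathlib
import Cfsg.Agent.Lib.Solv.Primitive2
-- import your own Cfsg.Agent.* helpers here

set_option autoImplicit false
open Cfsg

namespace Cfsg.Agent.S0550

/-- Let U be a maximal subgroup with trivial normal core in a finite group G, and A ≠ B two minimal normal subgroups. Then A is the centralizer of B and B that of A, U complements each of them, A and B are non-abelian, and A, B and (A ⊔ B) ∩ U are pairwise isomorphic. -/
theorem result {G : Type*} [Group G] [Finite G] (U : Subgroup G) (hU : IsCoatom U) (hcore : U.normalCore = ⊥) (A B : Subgroup G) [A.Normal] [B.Normal] (hA : A ≠ ⊥) (hB : B ≠ ⊥) (hAmin : ∀ K : Subgroup G, K.Normal → K ≤ A → K = ⊥ ∨ K = A) (hBmin : ∀ K : Subgroup G, K.Normal → K ≤ B → K = ⊥ ∨ K = B) (hAB : A ≠ B) : Subgroup.centralizer (B : Set G) = A ∧ Subgroup.centralizer (A : Set G) = B ∧ Subgroup.IsComplement' A U ∧ Subgroup.IsComplement' B U ∧ ¬ IsMulCommutative A ∧ Nonempty (A ≃* B) ∧ Nonempty (A ≃*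 ↥((A ⊔ B) ⊓ U)) := by
  have hd : A ⊓ B = ⊥ := by
    rcases hAmin (A ⊓ B) inferInstance inf_le_left with h | h
    · exact h
    · exfalso
      rcases hBmin A inferInstance (inf_eq_left.1 h) with h' | h'
      · exact hA h'
      · exact hAB h'
  have main : ∀ (A B : Subgroup G) [A.Normal] [B.Normal], A ≠ ⊥ → B ≠ ⊥ → A ⊓ B = ⊥ →
      Subgroup.centralizer (B : Set G) = A ∧ Subgroup.IsComplement' A U ∧
        Nonempty (A ≃* ↥((A ⊔ B) ⊓ U)) := by
    intro A B _ _ hA hB hd
    have hcomm : B ≤ Subgroup.centralizer (A : Set G) :=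
      Subgroup.commutator_eq_bot_iff_le_centralizer.1 (le_bot_iff.1
        ((Subgroup.commutator_le_inf B A).trans (inf_comm B A ▸ hd).le))
    have top : ∀ N : Subgroup G, N.Normal → N ≠ ⊥ → U ⊔ N = ⊤ := fun N hN hne =>
      hU.2 _ (lt_of_le_of_ne le_sup_left fun e => hne (le_bot_iff.1
        (hcore ▸ Subgroup.normal_le_normalCore.2 (e.symm ▸ le_sup_right))))
    have hCU : Subgroup.centralizer (B : Set G) ⊓ U = ⊥ :=
      Cfsg.Lib.Solv.inf_eq_bot_of_centralized hcore _ B (Subgroup.le_centralizer_iff.1 le_rfl)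
        (top B inferInstance hB)
    have hAC : A ≤ Subgroup.centralizer (B : Set G) := Subgroup.le_centralizer_iff.1 hcomm
    have hAU : A ⊓ U = ⊥ := le_bot_iff.1 ((inf_le_inf_right U hAC).trans hCU.le)
    have hBU : B ⊓ U = ⊥ := Cfsg.Lib.Solv.inf_eq_bot_of_centralized hcore B A hAC (top A inferInstance hA)
    have htA : U ⊔ A = ⊤ := top A inferInstance hA
    refine ⟨le_antisymm (fun c hc => ?_) hAC, Subgroup.isComplement'_of_disjoint_and_mul_eq_univ
      (disjoint_iff.2 hAU) (by rw [← Subgroup.normal_mul, sup_comm, htA, Subgroup.coe_top]), ?_⟩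
    · have hcU : c ∈ A ⊔ U := by rw [sup_comm, htA]; exact Subgroup.mem_top c
      obtain ⟨a, ha, u, hu, rfl⟩ := Subgroup.mem_sup_of_normal_left.1 hcU
      have huC : u ∈ Subgroup.centralizer (B : Set G) := by
        simpa using mul_mem (inv_mem (hAC ha)) hc
      have hu' : u ∈ Subgroup.centralizer (B : Set G) ⊓ U := ⟨huC, hu⟩
      rw [hCU, Subgroup.mem_bot] at hu'
      rw [hu', mul_one]; exact ha
    · refine Cfsg.Lib.Solv.nonempty_mulEquiv_of_complements (B := B) hd
        (le_bot_iff.1 ((le_inf inf_le_right (inf_le_left.trans inf_le_right)).trans hBU.le)) ?_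
      refine le_antisymm (sup_le (fun a ha => ?_) le_sup_right) (sup_le (a := (A ⊔ B) ⊓ U) inf_le_left le_sup_right)
      have haU : a ∈ U ⊔ B := by rw [top B inferInstance hB]; exact Subgroup.mem_top a
      obtain ⟨u, hu, b, hb, rfl⟩ := Subgroup.mem_sup_of_normal_right.1 haU
      refine Subgroup.mul_mem_sup ⟨?_, hu⟩ hb
      simpa using mul_mem (le_sup_left (b := B) ha) (inv_mem (le_sup_right (a := A) hb))
  obtain ⟨h1, h2, ⟨e1⟩⟩ := main A B hA hB hd
  obtain ⟨h3, h4, ⟨e2⟩⟩ := main B A hB hA (inf_comm A B ▸ hd)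
  refine ⟨h1, h3, h2, h4, fun hc => hA ?_, ⟨(e1.trans (MulEquiv.subgroupCongr
    (by rw [sup_comm]))).trans e2.symm⟩, ⟨e1⟩⟩
  have : A ≤ B := h3 ▸ Cfsg.Lib.Solv.le_centralizer_of_abelian hc
  rw [← inf_eq_left.2 this]; exact hd

end Cfsg.Agent.S0550
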