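import Cfsg.Statements.S0552
import Mathlib
import Cfsg.Agent.Lib.Solv.Coprime3
import Cfsg.Agent.Lib.Solv.MinNormal
-- import your own Cfsg.Agent.* helpers here

set_option autoImplicit false
open Cfsg

namespace Cfsg.Agent.S0552

/-- Let σ be an automorphism of a finite solvable group G fixing every element of the Fitting subgroup. If σ is not the identity then the order of σ and the order of G have a common prime factor. -/
theorem result {G : Type*} [Group G] [Finite G] [Group.IsSolvable G] (σ : G ≃* G) (hσ : ∀ x ∈ Cfsg.fittingSubgroup G, σ x = x) (hne : σ ≠ MulEquiv.refl G) : ¬ (orderOf σ).Coprime (Nat.card G) := by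
  intro hcop
  exact hne (Cfsg.Lib.Solv.eq_refl_of_fixes σ _ Cfsg.Lib.Solv.centralizer_fitting_le hσ hcop)

end Cfsg.Agent.S0552
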