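import Cfsg.Statements.S0553
import Mathlib
import Cfsg.Agent.Lib.Solv.Primitive
import Cfsg.Agent.Lib.Solv.PGroupBasic
-- import your own Cfsg.Agent.* helpers here

set_option autoImplicit false
open Cfsg

namespace Cfsg.Agent.S0553

/-- Let G be a nontrivial finite solvable group in which every maximal subgroup has order coprime to its index. Then for some prime p dividing the order of G the Sylow p-subgroups of G are normal. -/
theorem result {G : Type*} [Group G] [Finite G] [Group.IsSolvable G] [Nontrivial G] (h : ∀ M : Subgroup G, IsCoatom M → (Nat.card M).Coprime M.index) : ∃ p : ℕ, p.Prime ∧ p ∣ Nat.card G ∧ ∀ P : Sylow p G, (P : Subgroup G).Normal := by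
  have hΦ : frattini G ≠ ⊤ := fun h => by
    obtain ⟨M, hM, -⟩ := Cfsg.Lib.Solv.exists_coatom_ge (G := G) (H := ⊥) bot_ne_top
    exact hM.1 (top_le_iff.1 (h ▸ frattini_le_coatom hM))
  have : Nontrivial (G ⧸ frattini G) := by
    rw [← not_subsingleton_iff_nontrivial]
    exact fun h => hΦ (QuotientGroup.subgroup_eq_top_of_subsingleton _ h)
  obtain ⟨L, hLn, -, hLne, hLmin⟩ := Cfsg.Lib.Solv.exists_minimal_normal_le
    (N := (⊤ : Subgroup (G ⧸ frattini G))) top_ne_bot
  obtain ⟨hLc, p, hp, hpL, -⟩ := Cfsg.Lib.Solv.minimal_normal_elementary hLne inferInstance hLmin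
  have := Fact.mk hp
  set π := QuotientGroup.mk' (frattini G) with hπ
  have hsurj : Function.Surjective π := QuotientGroup.mk'_surjective _
  set M := L.comap π with hMdef
  have hMn : M.Normal := hLn.comap _
  have hΦM : frattini G ≤ M := by
    rw [← QuotientGroup.ker_mk' (frattini G)]; exact Subgroup.ker_le_comap π L
  have hMmap : M.map π = L := Subgroup.map_comap_eq_self_of_surjective hsurj L
  have hMΦ : ¬ M ≤ frattini G := fun h => hLne (by
    rw [← hMmap, Subgroup.map_eq_bot_iff, hπ, QuotientGroup.ker_mk']; exact h)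
  obtain ⟨U, hU, hMU⟩ : ∃ U : Subgroup G, IsCoatom U ∧ ¬ M ≤ U := by
    by_contra! hcon
    refine hMΦ ?_
    show M ≤ Order.radical (Subgroup G)
    exact le_iInf₂ hcon
  have hΦU : frattini G ≤ U := frattini_le_coatom hU
  have htop : U ⊔ M = ⊤ := hU.2 _ (lt_of_le_of_ne le_sup_left fun e => hMU (e ▸ le_sup_right))
  have hinf : M ⊓ U = frattini G := by
    set K := (M ⊓ U).map π with hK
    have hKL : K ≤ L := hMmap ▸ Subgroup.map_mono inf_le_left
    have hKn : K.Normal := by
      refine Subgroup.normalizer_eq_top_iff.1 (top_le_iff.1 ?_)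
      rw [← Subgroup.map_top_of_surjective π hsurj, ← htop, Subgroup.map_sup]
      refine sup_le ?_ ?_
      · refine le_trans (Subgroup.map_mono fun u hu => ?_) (Subgroup.le_normalizer_map π)
        refine Subgroup.mem_normalizer_iff.2 fun x => ⟨fun hx => ⟨hMn.conj_mem x hx.1 u,
          U.mul_mem (U.mul_mem hu hx.2) (U.inv_mem hu)⟩, fun hx => ⟨by
            have := hMn.conj_mem _ hx.1 u⁻¹
            simpa [mul_assoc] using this, by
            have := U.mul_mem (U.mul_mem (U.inv_mem hu) hx.2) hu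
            simpa [mul_assoc] using this⟩⟩
      · rw [hMmap]
        refine fun l hl => Subgroup.mem_normalizer_iff.2 fun x => ⟨fun hx => ?_, fun hx => ?_⟩
        · rw [Cfsg.Lib.Solv.commute_of_abelian hLc hl (hKL hx), mul_inv_cancel_right]; exact hx
        · have hxL : x ∈ L := by
            simpa [mul_assoc] using L.mul_mem (L.mul_mem (L.inv_mem hl) (hKL hx)) hl
          rw [Cfsg.Lib.Solv.commute_of_abelian hLc hl hxL, mul_inv_cancel_right] at hx; exact hx
    rcases hLmin K hKn hKL with h0 | h0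
    · refine le_antisymm ?_ (le_inf hΦM hΦU)
      rw [hK, Subgroup.map_eq_bot_iff, hπ, QuotientGroup.ker_mk'] at h0
      exact h0
    · refine absurd (fun m hm => ?_) hMU
      have : π m ∈ K := h0 ▸ hm
      obtain ⟨u, hu, hum⟩ := Subgroup.mem_map.1 this
      have h3 : u⁻¹ * m ∈ U := hΦU (by
        rw [← QuotientGroup.ker_mk' (frattini G), MonoidHom.mem_ker, map_mul, map_inv, ← hπ, hum,
          inv_mul_cancel])
      simpa using U.mul_mem hu.2 h3
  obtain ⟨a, ha⟩ := IsPGroup.iff_card.1 hpL
  have hrel : (frattini G).relIndex M = p ^ a := by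
    have h1 := Cfsg.Lib.Solv.card_map_eq_relIndex π M
    rw [hMmap, hπ, QuotientGroup.ker_mk'] at h1
    rw [← h1, ha]
  have hidx : U.index = p ^ a := by
    rw [← Subgroup.relIndex_top_right, ← htop,
      Cfsg.Lib.Solv.relIndex_sup_left_normal, ← Subgroup.inf_relIndex_right, inf_comm, hinf, hrel]
  have ha0 : a ≠ 0 := fun h => hLne (Subgroup.eq_bot_of_card_eq L (by rw [ha, h, pow_zero]))
  have hpU : ¬ p ∣ Nat.card U := fun h' => by
    have := h U hU
    rw [hidx] at this
    exact hp.ne_one (Nat.eq_one_of_dvd_coprimes this h' (dvd_pow_self p ha0))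
  refine ⟨p, hp, by rw [← U.card_mul_index, hidx]; exact dvd_mul_of_dvd_right (dvd_pow_self p ha0) _, ?_⟩
  intro P
  have hcardM : Nat.card M = Nat.card (frattini G) * p ^ a := by
    rw [Cfsg.Lib.Solv.card_eq_mul_relIndex hΦM, hrel]
  have hpΦ : ¬ p ∣ Nat.card (frattini G) := fun h' =>
    hpU (h'.trans (Subgroup.card_dvd_of_le hΦU))
  let Q : Sylow p M := default
  have hQc : Nat.card Q = p ^ a := by
    rw [Sylow.card_eq_multiplicity, hcardM, Nat.factorization_mul Nat.card_pos.ne'
      (pow_ne_zero _ hp.ne_zero), hp.factorization_pow]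
    simp [Nat.factorization_eq_zero_of_not_dvd hpΦ]
  set Q' := (Q : Subgroup M).map M.subtype with hQ'
  have hQ'c : Nat.card Q' = p ^ a := by rw [hQ', Cfsg.Lib.Solv.card_map_subtype']; exact hQc
  have hPc : Nat.card P = p ^ a := by
    rw [Sylow.card_eq_multiplicity, ← U.card_mul_index, hidx, Nat.factorization_mul Nat.card_pos.ne'
      (pow_ne_zero _ hp.ne_zero), hp.factorization_pow]
    simp [Nat.factorization_eq_zero_of_not_dvd hpU]
  have hsup : M = Q' ⊔ frattini G := by
    refine (Subgroup.eq_of_le_of_card_ge (sup_le (Subgroup.map_subtype_le _) hΦM) ?_).symm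
    have hd : Q' ⊓ frattini G = ⊥ := Cfsg.Lib.Solv.inf_eq_bot_of_coprime_card (by
      rw [hQ'c]; exact Nat.Coprime.pow_left _ (hp.coprime_iff_not_dvd.2 hpΦ))
    rw [hcardM, Cfsg.Lib.Solv.card_sup_eq_mul hd, hQ'c, mul_comm]
  have hfr := Sylow.normalizer_sup_eq_top Q
  have hnt : Subgroup.normalizer (Q' : Set G) = ⊤ := by
    refine frattini_nongenerating (top_le_iff.1 ?_)
    rw [← hfr]
    refine sup_le le_sup_left ?_
    conv_lhs => rw [hsup]
    exact sup_le_sup_right Subgroup.le_normalizer _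
  have hQn : Q'.Normal := Subgroup.normalizer_eq_top_iff.1 hnt
  have hQP : Q' ≤ P :=
    (IsPGroup.of_card (n := a) hQ'c).le_sylow_of_normal P
  rw [← Subgroup.eq_of_le_of_card_ge hQP (by rw [hQ'c, hPc])]
  exact hQn

end Cfsg.Agent.S0553
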