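import Cfsg.Statements.S0554
import Mathlib
import Cfsg.Agent.Lib.Solv.MinNormal
import Cfsg.Agent.Lib.Solv.Supersolvable
-- import your own Cfsg.Agent.* helpers here

set_option autoImplicit false
open Cfsg

namespace Cfsg.Agent.S0554

/-- Let G be a finite solvable group and let S assign to each of t distinct primes, including every prime divisor of the order of G, a Sylow subgroup of G. Then every element of G is a product s_0 s_1 ⋯ s_(t-1) with s_i in S i, the factors taken in the given order. -/
theorem result {G : Type*} [Group G] [Finite G] [Group.IsSolvable G] (t : ℕ) (p : Fin t → ℕ) (hp : ∀ i, (p i).Prime) (hinj : Function.Injective p) (hall : ∀ q : ℕ, q.Prime → q ∣ Nat.card G → ∃ i, p i = q) (S : (i : Fin t) → Sylow (p i) G) : ∀ g : G, ∃ s : (i : Fin t) → G, (∀ i, s i ∈ (S i : Subgroup G)) ∧ g = (List.ofFn s).prod := by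
  suffices main : ∀ (n : ℕ) (G : Type _) [Group G] [Finite G] [Group.IsSolvable G], Nat.card G ≤ n →
      (∀ q : ℕ, q.Prime → q ∣ Nat.card G → ∃ i, p i = q) → ∀ S : (i : Fin t) → Sylow (p i) G,
      ∀ g : G, ∃ s : (i : Fin t) → G, (∀ i, s i ∈ (S i : Subgroup G)) ∧ g = (List.ofFn s).prod from
    main _ G le_rfl hall S
  intro n
  induction n with
  | zero => intro G _ _ _ hn; exact absurd hn (Nat.not_le.2 Nat.card_pos)
  | succ n ih =>
    intro G _ _ _ hn hall S g
    rcases subsingleton_or_nontrivial G with hG | hG
    · exact ⟨fun _ => 1, fun i => one_mem _, Subsingleton.elim _ _⟩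
    obtain ⟨M, hMn, -, hMne, hmin⟩ :=
      Cfsg.Lib.Solv.exists_minimal_normal_le (N := (⊤ : Subgroup G)) top_ne_bot
    obtain ⟨-, r, hr, hrM, -⟩ := Cfsg.Lib.Solv.minimal_normal_elementary hMne inferInstance hmin
    haveI := Fact.mk hr
    obtain ⟨d, hd⟩ := IsPGroup.iff_card.1 hrM
    have hd0 : d ≠ 0 := fun h => hMne (Subgroup.eq_bot_of_card_eq M (by rw [hd, h, pow_zero]))
    obtain ⟨j, hj⟩ := hall r hr (dvd_trans (hd ▸ dvd_pow_self r hd0) (Subgroup.card_subgroup_dvd_card M))
    haveI : ∀ i, Fact (p i).Prime := fun i => ⟨hp i⟩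
    have hMS : M ≤ S j := by
      subst hj
      exact hrM.le_sylow_of_normal (S j)
    set π := QuotientGroup.mk' M with hπ
    have hsurj : Function.Surjective π := QuotientGroup.mk'_surjective M
    have hcardlt : Nat.card (G ⧸ M) < Nat.card G := Cfsg.Lib.Solv.card_quotient_lt M hMne
    obtain ⟨s, hs, hg⟩ := ih (G ⧸ M) (by omega)
      (fun q hq hqd => hall q hq (hqd.trans (Subgroup.card_quotient_dvd_card M)))
      (fun i => (S i).mapSurjective hsurj) (π g)
    choose s' hs' hs'e using fun i => Subgroup.mem_map.1 (hs i)
    -- move a normal factor to position `j`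
    have hmove : ∀ (k : ℕ) (f : Fin k → G) (P : Fin k → Subgroup G) (j : Fin k) (m : G), m ∈ M →
        M ≤ P j → (∀ i, f i ∈ P i) →
        ∃ f' : Fin k → G, (∀ i, f' i ∈ P i) ∧ (List.ofFn f).prod * m = (List.ofFn f').prod := by
      intro k
      induction k with
      | zero => intro f P j; exact j.elim0
      | succ k ihk =>
        intro f P j m hm hMP hf
        induction j using Fin.cases with
        | zero =>
          set T := (List.ofFn fun i : Fin k => f i.succ).prod
          refine ⟨Fin.cons (f 0 * (T * m * T⁻¹)) (fun i : Fin k => f i.succ), ?_, ?_⟩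
          · intro i
            induction i using Fin.cases with
            | zero => simpa using (P 0).mul_mem (hf 0) (hMP (hMn.conj_mem m hm T))
            | succ i => simpa using hf i.succ
          · rw [List.ofFn_succ, List.ofFn_succ, List.prod_cons, List.prod_cons]
            simp only [Fin.cons_zero, Fin.cons_succ]
            show f 0 * T * m = f 0 * (T * m * T⁻¹) * T
            group
        | succ j =>
          obtain ⟨f', hf', e⟩ := ihk (fun i : Fin k => f i.succ) (fun i => P i.succ) j m hm hMP
            fun i => hf i.succ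
          refine ⟨Fin.cons (f 0) f', ?_, ?_⟩
          · intro i
            induction i using Fin.cases with
            | zero => simpa using hf 0
            | succ i => simpa using hf' i
          · rw [List.ofFn_succ, List.ofFn_succ, List.prod_cons, List.prod_cons, mul_assoc, e]
            simp only [Fin.cons_zero, Fin.cons_succ]
    have hgM : (List.ofFn s').prod⁻¹ * g ∈ M := by
      rw [← QuotientGroup.eq_one_iff]
      show π _ = 1
      rw [map_mul, map_inv, map_list_prod, List.map_ofFn, hg]
      have : (π ∘ s') = s := funext hs'e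
      rw [this, inv_mul_cancel]
    obtain ⟨f', hf', e⟩ := hmove t s' (fun i => (S i : Subgroup G)) j _ hgM hMS hs'
    exact ⟨f', hf', by rw [← e, mul_inv_cancel_left]⟩

end Cfsg.Agent.S0554
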