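import Cfsg.Statements.S0555
import Mathlib
import Cfsg.Agent.Lib.Solv.Supersolvable
-- import your own Cfsg.Agent.* helpers here

set_option autoImplicit false
open Cfsg

namespace Cfsg.Agent.S0555

/-- Let i ≥ 1. If in the derived series of a group the quotient of the i-th term by the (i+1)-st and the quotient of the (i+1)-st by the (i+2)-nd are both cyclic, then the (i+1)-st and (i+2)-nd terms coincide. -/
theorem result {G : Type*} [Group G] (i : ℕ) (hi : 1 ≤ i) (h₁ : IsCyclic (↥(derivedSeries G i) ⧸ (derivedSeries G (i + 1)).subgroupOf (derivedSeries G i))) (h₂ : IsCyclic (↥(derivedSeries G (i + 1)) ⧸ (derivedSeries G (i + 2)).subgroupOf (derivedSeries G (i + 1)))) : derivedSeries G (i + 1) = derivedSeries G (i + 2) := by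
  have gen : ∀ (N M : Subgroup G) [(M.subgroupOf N).Normal], IsCyclic (↥N ⧸ M.subgroupOf N) →
      ∃ x ∈ N, ∀ y ∈ N, ∃ n : ℤ, (x ^ n)⁻¹ * y ∈ M := by
    intro N M _ hc
    obtain ⟨w, hw⟩ := hc.exists_generator
    induction w using QuotientGroup.induction_on with | H x => ?_
    refine ⟨x, x.2, fun y hy => ?_⟩
    obtain ⟨n, hn⟩ := Subgroup.mem_zpowers_iff.1 (hw ((⟨y, hy⟩ : N) : ↥N ⧸ M.subgroupOf N))
    rw [← QuotientGroup.mk_zpow] at hn
    have h' := QuotientGroup.eq.1 hn
    exact ⟨n, by simpa [Subgroup.mem_subgroupOf] using h'⟩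
  set a := derivedSeries G i with ha
  set b := derivedSeries G (i + 1) with hb
  set c := derivedSeries G (i + 2) with hc
  haveI : c.Normal := derivedSeries_normal G _
  haveI : b.Normal := derivedSeries_normal G _
  obtain ⟨z, hz, hza⟩ := gen a b h₁
  obtain ⟨x, hx, hxb⟩ := gen b c h₂
  set q := QuotientGroup.mk' c with hq
  refine le_antisymm ?_ (derivedSeries_antitone G (Nat.le_succ _))
  have hB : b.map q = Subgroup.zpowers (q x) := by
    refine le_antisymm ?_ (Subgroup.zpowers_le.2 (Subgroup.mem_map_of_mem q hx))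
    rintro _ ⟨y, hy, rfl⟩
    obtain ⟨n, hn⟩ := hxb y hy
    refine Subgroup.mem_zpowers_iff.2 ⟨n, ?_⟩
    rw [← map_zpow]
    exact QuotientGroup.eq.2 hn
  haveI : (b.map q).Normal := Subgroup.Normal.map inferInstance q (QuotientGroup.mk'_surjective c)
  haveI : IsCyclic ↥(b.map q) := by rw [hB]; infer_instance
  have hcen := Cfsg.Lib.Solv.commutator_le_centralizer_cyclic (b.map q)
  have haG : a.map q ≤ commutator (G ⧸ c) := by
    refine le_trans (Subgroup.map_mono (derivedSeries_antitone G hi)) ?_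
    rw [derivedSeries_one, commutator_def, commutator_def, Subgroup.map_commutator]
    exact Subgroup.commutator_mono le_top le_top
  have hcomm : ⁅a.map q, a.map q⁆ = ⊥ := by
    rw [Subgroup.commutator_eq_bot_iff_le_centralizer]
    have hdec : ∀ u ∈ a, ∃ n : ℤ, ∃ v ∈ b.map q, q u = q z ^ n * v := by
      intro u hu
      obtain ⟨n, hn⟩ := hza u hu
      exact ⟨n, _, Subgroup.mem_map_of_mem q hn, by rw [map_mul, map_inv, map_zpow, mul_inv_cancel_left]⟩
    rintro _ ⟨u, hu, rfl⟩
    rw [Subgroup.mem_centralizer_iff]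
    rintro _ ⟨u', hu', rfl⟩
    obtain ⟨n, v, hv, e⟩ := hdec u hu
    obtain ⟨m, v', hv', e'⟩ := hdec u' hu'
    have hzc : ∀ w ∈ b.map q, Commute (q z) w := fun w hw =>
      ((Subgroup.mem_centralizer_iff.1 (hcen (haG (Subgroup.mem_map_of_mem q hz)))) w hw).symm
    have hbb : Commute v v' := by
      rw [hB] at hv hv'
      obtain ⟨r, rfl⟩ := Subgroup.mem_zpowers_iff.1 hv
      obtain ⟨r', rfl⟩ := Subgroup.mem_zpowers_iff.1 hv'
      exact (Commute.refl (q x)).zpow_zpow r r'
    rw [e, e']
    exact (Commute.mul_left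
      (Commute.mul_right ((Commute.refl (q z)).zpow_zpow m n) ((hzc v hv).zpow_left m))
      (Commute.mul_right ((hzc v' hv').zpow_left n).symm hbb.symm)).eq
  rw [← Subgroup.map_commutator, ← derivedSeries_succ, Subgroup.map_eq_bot_iff, hq,
    QuotientGroup.ker_mk'] at hcomm
  exact hcomm

end Cfsg.Agent.S0555
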