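import Cfsg.Statements.S0556
import Mathlib
import Cfsg.Agent.Lib.Solv.Frobenius
import Cfsg.Agent.Lib.Solv.Coprime
-- import your own Cfsg.Agent.* helpers here

set_option autoImplicit false
open Cfsg
open scoped Pointwise commutatorElement

namespace Cfsg.Agent.S0556

/-- If a finite group has a maximal subgroup that is abelian, then the third term of its derived series is trivial (so the group is solvable of derived length at most three). -/
theorem result {G : Type*} [Group G] [Finite G] (A : Subgroup G) (hA : IsCoatom A) [IsMulCommutative A] : derivedSeries G 3 = ⊥ := by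
  classical
  set N := A.normalCore with hNdef
  have hNA : N ≤ A := A.normalCore_le
  have hnc : ∀ B : Subgroup G, A ≤ B → B = A ∨ B = ⊤ := fun B h =>
    (hA.le_iff.1 h).symm
  rcases eq_or_ne (Subgroup.normalizer (A : Set G)) ⊤ with hn | hn
  · -- normal maximal subgroup
    rw [Subgroup.normalizer_eq_top_iff] at hn
    haveI := hn
    have h1 : derivedSeries G 1 ≤ A := by
      rw [derivedSeries_one]
      have hp : IsMulCommutative (G ⧸ A) := by
        rcases subsingleton_or_nontrivial (G ⧸ A) with h | h
        · exact ⟨⟨fun a b => Subsingleton.elim _ _⟩⟩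
        · obtain ⟨x, hx⟩ := exists_ne (1 : G ⧸ A)
          have hz : Subgroup.zpowers x = ⊤ := by
            have := hnc ((Subgroup.zpowers x).comap (QuotientGroup.mk' A)) (fun a ha => by
              show QuotientGroup.mk' A a ∈ Subgroup.zpowers x
              rw [show QuotientGroup.mk' A a = 1 from (QuotientGroup.eq_one_iff a).2 ha]
              exact one_mem _)
            rcases this with h2 | h2
            · exfalso
              obtain ⟨g, rfl⟩ := QuotientGroup.mk'_surjective A x
              have : g ∈ A := by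
                rw [← h2]; exact Subgroup.mem_zpowers _
              exact hx ((QuotientGroup.eq_one_iff g).2 this)
            · exact Subgroup.comap_injective (QuotientGroup.mk'_surjective A) (h2.trans (Subgroup.comap_top _).symm)
          haveI : IsCyclic (G ⧸ A) := ⟨x, fun y => (hz ▸ Subgroup.mem_top y : y ∈ Subgroup.zpowers x)⟩
          exact IsCyclic.isMulCommutative
      rw [_root_.commutator_def, Subgroup.commutator_le]
      intro a _ b _
      refine (QuotientGroup.eq_one_iff _).1 ?_
      rw [← QuotientGroup.mk'_apply, map_commutatorElement, commutatorElement_eq_one_iff_mul_comm]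
      exact hp.is_comm.comm _ _
    refine le_bot_iff.1 ((derivedSeries_antitone G (show 2 ≤ 3 by norm_num)).trans ?_)
    rw [derivedSeries_succ]
    refine (Subgroup.commutator_mono h1 h1).trans ?_
    rw [Subgroup.commutator_le]
    intro a ha b hb
    rw [Subgroup.mem_bot, commutatorElement_eq_one_iff_mul_comm]
    exact congrArg Subtype.val (IsMulCommutative.is_comm.comm (⟨a, ha⟩ : A) ⟨b, hb⟩)
  have hself : Subgroup.normalizer (A : Set G) = A := (hnc _ Subgroup.le_normalizer).resolve_right hn
  have hcen : N ≤ Subgroup.center G := by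
    intro z hz
    have hle : (⊤ : Subgroup G) ≤ Subgroup.centralizer ({z} : Set G) := by
      obtain ⟨g, hg⟩ : ∃ g : G, g ∉ A := by
        by_contra h
        exact hA.1 (Subgroup.eq_top_iff' A |>.2 fun g => not_not.1 fun hg => h ⟨g, hg⟩)
      have hAC : ∀ y ∈ A, ∀ w ∈ N, y * w = w * y := fun y hy w hw =>
        congrArg Subtype.val (IsMulCommutative.is_comm.comm (⟨y, hy⟩ : A) ⟨w, hNA hw⟩)
      have h1 : A ≤ Subgroup.centralizer ({z} : Set G) := fun y hy =>
        Subgroup.mem_centralizer_singleton_iff.2 (hAC y hy z hz)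
      have h2 : MulAut.conj g • A ≤ Subgroup.centralizer ({z} : Set G) := by
        rintro _ ⟨y, hy, rfl⟩
        refine Subgroup.mem_centralizer_singleton_iff.2 ?_
        have hw : g⁻¹ * z * g ∈ N := by simpa using A.normalCore_normal.conj_mem z hz g⁻¹
        have e := hAC y hy _ hw
        show g * y * g⁻¹ * z = z * (g * y * g⁻¹)
        calc g * y * g⁻¹ * z = g * (y * (g⁻¹ * z * g)) * g⁻¹ := by group
          _ = g * (g⁻¹ * z * g * y) * g⁻¹ := by rw [e]
          _ = _ := by group
      refine le_of_eq_of_le ?_ (sup_le h1 h2)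
      rcases hnc (A ⊔ MulAut.conj g • A) le_sup_left with h | h
      · exfalso
        have h' : MulAut.conj g • A ≤ A := le_sup_right.trans h.le
        have : MulAut.conj g • A = A := Subgroup.eq_of_le_of_card_ge h'
          (Cfsg.Lib.Solv.card_conj_smul g A).ge
        rw [Cfsg.Lib.Solv.conj_smul_eq_self_iff, hself] at this
        exact hg this
      · exact h.symm
    exact Subgroup.mem_center_iff.2 fun g => Subgroup.mem_centralizer_singleton_iff.1 (hle (Subgroup.mem_top g))
  suffices h2 : derivedSeries G 2 ≤ Subgroup.center G by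
    rw [derivedSeries_succ, eq_bot_iff, Subgroup.commutator_le]
    intro a ha b hb
    rw [Subgroup.mem_bot, commutatorElement_eq_one_iff_mul_comm]
    exact Subgroup.mem_center_iff.1 (h2 hb) a
  haveI : N.Normal := A.normalCore_normal
  set π := QuotientGroup.mk' N with hπ
  suffices hq : derivedSeries (G ⧸ N) 2 = ⊥ by
    refine le_trans ?_ hcen
    have := map_derivedSeries_le_derivedSeries π 2
    rw [hq, le_bot_iff, Subgroup.map_eq_bot_iff, QuotientGroup.ker_mk'] at this
    exact this
  set B := A.map π with hB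
  have hAeq : B.comap π = A := by rw [hB, Subgroup.comap_map_eq, QuotientGroup.ker_mk', sup_eq_left.2 hNA]
  have hBc : IsMulCommutative B := Subgroup.map_isMulCommutative A π
  have hBmax : ∀ C : Subgroup (G ⧸ N), B ≤ C → C = B ∨ C = ⊤ := by
    intro C hC
    refine (hnc (C.comap π) (hAeq ▸ Subgroup.comap_mono hC)).imp ?_ ?_ <;> intro h
    · exact Subgroup.comap_injective (QuotientGroup.mk'_surjective N) (h.trans hAeq.symm)
    · exact Subgroup.comap_injective (QuotientGroup.mk'_surjective N) (h.trans (Subgroup.comap_top _).symm)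
  have hBbot : B.normalCore = ⊥ := by
    have h1 : B.normalCore.comap π ≤ N :=
      Subgroup.normal_le_normalCore.2 (hAeq ▸ Subgroup.comap_mono B.normalCore_le)
    have := Subgroup.map_mono (f := π) h1
    rwa [Subgroup.map_comap_eq_self_of_surjective (QuotientGroup.mk'_surjective N),
      QuotientGroup.map_mk'_self, le_bot_iff] at this
  rcases eq_or_ne B ⊥ with hB0 | hB0
  · haveI : IsMulCommutative (G ⧸ N) := by
      rcases subsingleton_or_nontrivial (G ⧸ N) with h | h
      · exact ⟨⟨fun a b => Subsingleton.elim _ _⟩⟩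
      · obtain ⟨x, hx⟩ := exists_ne (1 : G ⧸ N)
        rcases hBmax (Subgroup.zpowers x) (hB0 ▸ bot_le) with h2 | h2
        · exact absurd (Subgroup.zpowers_eq_bot.1 (h2.trans hB0)) hx
        · haveI : IsCyclic (G ⧸ N) := ⟨x, fun y => (h2 ▸ Subgroup.mem_top y : y ∈ Subgroup.zpowers x)⟩
          exact IsCyclic.isMulCommutative
    refine le_bot_iff.1 ((derivedSeries_antitone _ (show 1 ≤ 2 by norm_num)).trans ?_)
    rw [derivedSeries_one, _root_.commutator_def, Subgroup.commutator_le]
    intro a _ b _
    rw [Subgroup.mem_bot, commutatorElement_eq_one_iff_mul_comm]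
    exact IsMulCommutative.is_comm.comm a b
  have hBne : Subgroup.normalizer (B : Set (G ⧸ N)) = B := by
    refine (hBmax _ Subgroup.le_normalizer).resolve_right fun h => ?_
    rw [Subgroup.normalizer_eq_top_iff] at h
    haveI := h
    exact hB0 (le_bot_iff.1 (hBbot ▸ Subgroup.normal_le_normalCore.2 le_rfl))
  have hBtop : B ≠ ⊤ := fun h => hA.1 (by rw [← hAeq, h, Subgroup.comap_top])
  have hfrob : Cfsg.IsFrobeniusComplement B := by
    refine ⟨hB0, hBtop, fun g hg => le_bot_iff.1 fun z hz => ?_⟩
    have h1 : B ≤ Subgroup.centralizer ({z} : Set (G ⧸ N)) := fun y hy =>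
      Subgroup.mem_centralizer_singleton_iff.2 (congrArg Subtype.val (hBc.is_comm.comm (⟨y, hy⟩ : B) ⟨z, hz.1⟩))
    have h2 : MulAut.conj g • B ≤ Subgroup.centralizer ({z} : Set (G ⧸ N)) := by
      rintro _ ⟨y, hy, rfl⟩
      obtain ⟨w, hw, rfl⟩ := hz.2
      refine Subgroup.mem_centralizer_singleton_iff.2 ?_
      show MulAut.conj g y * MulAut.conj g w = MulAut.conj g w * MulAut.conj g y
      rw [← map_mul, ← map_mul]
      exact congrArg _ (congrArg Subtype.val (hBc.is_comm.comm (⟨y, hy⟩ : B) ⟨w, hw⟩))
    have h3 : B ⊔ MulAut.conj g • B = ⊤ := (hBmax _ le_sup_left).resolve_left fun h => by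
      have : MulAut.conj g • B = B := Subgroup.eq_of_le_of_card_ge (le_sup_right.trans h.le)
        (Cfsg.Lib.Solv.card_conj_smul g B).ge
      rw [Cfsg.Lib.Solv.conj_smul_eq_self_iff, hBne] at this
      exact hg this
    have h4 : (Subgroup.zpowers z).Normal := by
      refine ⟨fun x hx t => ?_⟩
      obtain ⟨i, rfl⟩ := hx
      have := Subgroup.mem_centralizer_singleton_iff.1 ((h3 ▸ sup_le h1 h2) (Subgroup.mem_top t))
      show t * z ^ i * t⁻¹ ∈ _
      rw [((show Commute t z from this).zpow_right i).eq, mul_inv_cancel_right]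
      exact ⟨i, rfl⟩
    have h5 : Subgroup.zpowers z ≤ B.normalCore :=
      Subgroup.normal_le_normalCore.2 (Subgroup.zpowers_le.2 hz.1)
    rw [hBbot] at h5
    exact h5 (Subgroup.mem_zpowers z)
  obtain ⟨K, hKn, -, hKc⟩ := Cfsg.Lib.Solv.exists_frobeniusKernel hfrob
  haveI := hKn
  have hcop : (Nat.card B).Coprime (Nat.card K) := by
    rw [← hKc.index_eq_card]; exact Cfsg.Lib.Solv.frob_coprime_index hfrob
  have hBK : B ≤ Subgroup.normalizer (K : Set (G ⧸ N)) := by
    rw [Subgroup.normalizer_eq_top_iff.2 hKn]; exact le_top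
  have hKne : K ≠ ⊥ := fun h => hBtop (by simpa [h] using hKc.sup_eq_top)
  have hmin : ∀ P : Subgroup (G ⧸ N), P ≤ K → B ≤ Subgroup.normalizer (P : Set (G ⧸ N)) → P = ⊥ ∨ P = K := by
    intro P hPK hP
    rcases hBmax (B ⊔ P) le_sup_left with h | h
    · left
      refine le_bot_iff.1 (le_trans (le_inf hPK (le_sup_right.trans h.le)) hKc.disjoint.le_bot)
    · right
      refine le_antisymm hPK fun k hk => ?_
      have hk' : k ∈ ((B ⊔ P : Subgroup (G ⧸ N)) : Set (G ⧸ N)) := by rw [h]; trivial
      rw [Subgroup.coe_mul_of_left_le_normalizer_right B P hP] at hk'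
      obtain ⟨b, hb, q, hq, rfl⟩ := Set.mem_mul.1 hk'
      have hbK : b ∈ K ⊓ B := ⟨by simpa using K.mul_mem hk (K.inv_mem (hPK hq)), hb⟩
      rw [hKc.disjoint.eq_bot, Subgroup.mem_bot] at hbK
      rw [hbK, one_mul]; exact hq
  have hBs : Group.IsSolvable B := Group.isSolvable_of_comm fun a b => hBc.is_comm.comm a b
  obtain ⟨q, hq, hqd⟩ := Nat.exists_prime_and_dvd (fun h => hKne (Subgroup.eq_bot_of_card_eq K h))
  haveI := Fact.mk hq
  obtain ⟨P, hP⟩ := Cfsg.Lib.Solv.exists_invariant_sylow B K hBK hcop (Or.inl hBs) q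
  set P' := (P : Subgroup K).map K.subtype with hP'
  have hPK : P' = K := (hmin P' (Subgroup.map_subtype_le _) hP).resolve_left fun h =>
    P.ne_bot_of_dvd_card hqd ((Subgroup.map_eq_bot_iff_of_injective _ K.subtype_injective).1 h)
  have hKp : IsPGroup q K := by
    rw [← hPK]; exact P.2.map _
  haveI : Group.IsNilpotent K := hKp.isNilpotent
  have hKder : (commutator K).map K.subtype = ⊥ := by
    refine (hmin _ (Subgroup.map_subtype_le _) ?_).resolve_right fun h => ?_
    · haveI : ((commutator K).map K.subtype).Normal := inferInstance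
      rw [Subgroup.normalizer_eq_top_iff.2 this]; exact le_top
    · haveI : Nontrivial K := (Subgroup.nontrivial_iff_ne_bot K).2 hKne
      refine (Group.IsSolvable.commutator_lt_top_of_nontrivial (G := K)).ne ?_
      refine Subgroup.map_injective K.subtype_injective ?_
      rw [h, ← MonoidHom.range_eq_map, Subgroup.range_subtype]
  have h1 : derivedSeries (G ⧸ N) 1 ≤ K := by
    rw [derivedSeries_one, _root_.commutator_def, Subgroup.commutator_le]
    intro a _ b _
    refine (QuotientGroup.eq_one_iff _).1 ?_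
    rw [← QuotientGroup.mk'_apply, map_commutatorElement, commutatorElement_eq_one_iff_mul_comm]
    haveI : IsMulCommutative ((G ⧸ N) ⧸ K) := by
      refine ⟨⟨fun x y => ?_⟩⟩
      have hs : ∀ x : (G ⧸ N) ⧸ K, ∃ b ∈ B, QuotientGroup.mk' K b = x := fun x => by
        obtain ⟨g, rfl⟩ := QuotientGroup.mk'_surjective K x
        have hg : g ∈ B ⊔ K := by rw [sup_comm, hKc.sup_eq_top]; exact Subgroup.mem_top g
        rw [← SetLike.mem_coe, Subgroup.mul_normal] at hg
        obtain ⟨b, hb, k, hk, rfl⟩ := Set.mem_mul.1 hg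
        exact ⟨b, hb, by rw [map_mul, show QuotientGroup.mk' K k = 1 from (QuotientGroup.eq_one_iff k).2 hk, mul_one]⟩
      obtain ⟨b₁, hb₁, rfl⟩ := hs x
      obtain ⟨b₂, hb₂, rfl⟩ := hs y
      rw [← map_mul, ← map_mul]
      exact congrArg _ (congrArg Subtype.val (hBc.is_comm.comm (⟨b₁, hb₁⟩ : B) ⟨b₂, hb₂⟩))
    exact IsMulCommutative.is_comm.comm _ _
  rw [derivedSeries_succ, eq_bot_iff]
  refine (Subgroup.commutator_mono h1 h1).trans ?_
  rw [← hKder, Subgroup.map_subtype_commutator]

end Cfsg.Agent.S0556
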