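import Cfsg.Statements.S0557


set_option autoImplicit false
open Cfsg
open scoped Pointwise commutatorElement

namespace Cfsg.Agent.S0557

open Subgroup in
theorem focal_map_le {G : Type*} [Group G] (K : Subgroup G) (A : Subgroup K) (B : Subgroup G)
    (h : A.map K.subtype ≤ B) : A.focalSubgroup.map K.subtype ≤ B.focalSubgroup := by
  rw [focalSubgroup_def, focalSubgroup_def, MonoidHom.map_closure]
  apply closure_mono
  rintro _ ⟨g, ⟨hg, x, hx, u, rfl⟩, rfl⟩
  exact ⟨h ⟨_, hg, rfl⟩, x, h ⟨x, hx, rfl⟩, u, map_commutatorElement K.subtype x u⟩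

open Subgroup in
theorem focal_iterate_map_le {G : Type*} [Group G] (K : Subgroup G) :
    ∀ (n : ℕ) (A : Subgroup K) (B : Subgroup G), A.map K.subtype ≤ B →
      ((fun X : Subgroup K => X.focalSubgroup)^[n] A).map K.subtype ≤
        (fun X : Subgroup G => X.focalSubgroup)^[n] B
  | 0, _, _, h => h
  | n + 1, A, B, h => by
    rw [Function.iterate_succ_apply, Function.iterate_succ_apply]
    exact focal_iterate_map_le K n _ _ (focal_map_le K A B h)

universe u

open Subgroup in
theorem main : ∀ (n : ℕ) {G : Type u} [Group G] [Finite G] (H : Subgroup G),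
    (Nat.card H).Coprime H.index → (fun K : Subgroup G => Subgroup.focalSubgroup K)^[n] H = ⊥ →
    ∃ N : Subgroup G, N.Normal ∧ Subgroup.IsComplement' N H := by
  intro n
  induction n with
  | zero =>
    intro G _ _ H _ hfoc
    simp only [Function.iterate_zero, id_eq] at hfoc
    exact ⟨⊤, inferInstance, by rw [hfoc]; exact isComplement'_top_bot⟩
  | succ n ih =>
    intro G _ _ H hHall hfoc
    rw [Function.iterate_succ_apply] at hfoc
    let V := H.transferFocal
    let Q := H ⧸ H.focalSubgroupOf
    have hQcop : (Nat.card Q).Coprime H.index :=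
      hHall.coprime_dvd_left (card_quotient_dvd_card _)
    have hbij : Function.Bijective fun y : Q => y ^ H.index := (powCoprime hQcop).bijective
    have hsurj : Function.Surjective V := by
      intro x
      obtain ⟨y, rfl⟩ := hbij.2 x
      obtain ⟨y, rfl⟩ := QuotientGroup.mk'_surjective _ y
      exact ⟨y, H.transferFocal_eq_pow y⟩
    set K := V.ker with hK
    have hKH : ∀ x : G, x ∈ H → (x ∈ K ↔ x ∈ H.focalSubgroup) := by
      intro x hx
      rw [hK, MonoidHom.mem_ker, show V x = _ from H.transferFocal_eq_pow ⟨x, hx⟩]
      constructor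
      · intro h
        have h1 : (QuotientGroup.mk (⟨x, hx⟩ : H) : Q) = 1 := hbij.1 (by simpa using h)
        have h2 : (⟨x, hx⟩ : H) ∈ H.focalSubgroupOf := (QuotientGroup.eq_one_iff _).1 h1
        exact h2
      · intro h
        rw [(QuotientGroup.eq_one_iff (N := H.focalSubgroupOf) (⟨x, hx⟩ : H)).2 h, one_pow]
    have hfle : H.focalSubgroup ≤ K := fun x hx => (hKH x (H.focalSubgroup_le hx)).2 hx
    let A : Subgroup K := H.focalSubgroup.subgroupOf K
    have hAcard : Nat.card A = Nat.card H.focalSubgroup :=
      Nat.card_congr (subgroupOfEquivOfLe hfle).toEquiv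
    have hKi : K.index = Nat.card Q := by
      rw [hK, index_ker, MonoidHom.range_eq_top.2 hsurj, card_top]
    have hAindex : A.index = H.index := by
      have h1 : Nat.card K * K.index = Nat.card G := K.card_mul_index
      have h2 : Nat.card H * H.index = Nat.card G := H.card_mul_index
      have h3 : Nat.card A * A.index = Nat.card K := A.card_mul_index
      have h4 : Nat.card Q * Nat.card H.focalSubgroup = Nat.card H := by
        have := H.focalSubgroupOf.index_mul_card
        rw [show Nat.card H.focalSubgroupOf = Nat.card H.focalSubgroup from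
          Nat.card_congr (subgroupOfEquivOfLe H.focalSubgroup_le).toEquiv] at this
        exact this
      rw [← hAcard] at h4
      rw [← h3, hKi, ← h2, ← h4] at h1
      have hpos : 0 < Nat.card A * Nat.card Q := Nat.mul_pos Nat.card_pos Nat.card_pos
      refine Nat.eq_of_mul_eq_mul_left hpos ?_
      calc Nat.card A * Nat.card Q * A.index = Nat.card A * A.index * Nat.card Q := by ring
        _ = _ := by rw [h1]; ring
    have hAHall : (Nat.card A).Coprime A.index := by
      rw [hAindex, hAcard]
      exact hHall.coprime_dvd_left (card_dvd_of_le H.focalSubgroup_le)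
    have hAfoc : (fun X : Subgroup K => X.focalSubgroup)^[n] A = ⊥ := by
      have h1 := focal_iterate_map_le K n A H.focalSubgroup (map_subgroupOf_eq_of_le hfle).le
      rw [hfoc, le_bot_iff, Subgroup.map_eq_bot_iff, K.ker_subtype, le_bot_iff] at h1
      exact h1
    obtain ⟨N, hN, hcomp⟩ := ih A hAHall hAfoc
    have hNcard : Nat.card N = A.index := by
      refine Nat.eq_of_mul_eq_mul_right (Nat.card_pos (α := A)) ?_
      rw [hcomp.card_mul, A.index_mul_card]
    have hNidx : N.index = Nat.card A := by
      refine Nat.eq_of_mul_eq_mul_left (Nat.card_pos (α := N)) ?_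
      rw [N.card_mul_index, hcomp.card_mul]
    haveI := hN
    haveI hNch : N.Characteristic := characteristic_iff_map_le.2 fun φ => by
      rintro _ ⟨x, hx, rfl⟩
      rw [← QuotientGroup.eq_one_iff (N := N), ← orderOf_eq_one_iff]
      have h1 : orderOf ((φ x : K) : K ⧸ N) ∣ Nat.card N :=
        (orderOf_map_dvd (QuotientGroup.mk' N) (φ x)).trans
          (by rw [MulEquiv.orderOf_eq φ x]; exact N.orderOf_dvd_natCard hx)
      have h2 : orderOf ((φ x : K) : K ⧸ N) ∣ N.index := orderOf_dvd_natCard _
      refine Nat.eq_one_of_dvd_coprimes ?_ h1 h2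
      rw [hNcard, hNidx]; exact hAHall.symm
    refine ⟨N.map K.subtype, inferInstance, isComplement'_of_coprime ?_ ?_⟩
    · rw [card_map_of_injective K.subtype_injective, hNcard, hAindex, mul_comm, H.card_mul_index]
    · rw [card_map_of_injective K.subtype_injective, hNcard, hAindex]
      exact hHall.symm

/-- Let H be a subgroup of a finite group G with order coprime to its index. If iterating the focal-subgroup construction starting from H reaches the trivial subgroup after finitely many steps, then H has a normal complement in G. -/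
theorem result {G : Type*} [Group G] [Finite G] (H : Subgroup G) (hHall : (Nat.card H).Coprime H.index) (n : ℕ) (hfoc : (fun K : Subgroup G => Subgroup.focalSubgroup K)^[n] H = ⊥) : ∃ N : Subgroup G, N.Normal ∧ Subgroup.IsComplement' N H := main n H hHall hfoc

end Cfsg.Agent.S0557
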