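import Cfsg.Statements.S0558
import Cfsg.Agent.Lib.Transfer.NilpotentHall
import Cfsg.Agent.Lib.Solv.Coprime
-- import your own Cfsg.Agent.* helpers here

set_option autoImplicit false
open Cfsg
open scoped Pointwise
open Cfsg.Lib.Transfer

namespace Cfsg.Agent.S0558

/-- Let H be a subgroup of a finite group G that is not a Sylow subgroup of G for any prime, and suppose that for every prime p dividing the order of H and every Sylow p-subgroup P of H the normalizer of P in G is exactly H. Then some normal subgroup of G is a complement to H. -/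
theorem result {G : Type*} [Group G] [Finite G] (H : Subgroup G) (hnot : ∀ p : ℕ, p.Prime → ∀ P : Sylow p G, (P : Subgroup G) ≠ H) (hnorm : ∀ p : ℕ, p.Prime → p ∣ Nat.card H → ∀ P : Sylow p H, Subgroup.normalizer (((P : Subgroup H).map H.subtype : Subgroup G) : Set G) = H) : ∃ N : Subgroup G, N.Normal ∧ Subgroup.IsComplement' N H := by
  by_cases hb : H = ⊥
  · subst hb
    exact ⟨⊤, inferInstance, Subgroup.isComplement'_top_bot⟩
  -- H is a nilpotent Hall subgroup
  have hnormP : ∀ (q : ℕ) [Fact q.Prime] (P : Sylow q H), q ∣ Nat.card H → (P : Subgroup H).Normal := by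
    intro q hqF P hq
    have h := hnorm q hqF.out hq P
    refine ⟨fun y hy x => ?_⟩
    have hx : (x : G) ∈ Subgroup.normalizer (((P : Subgroup H).map H.subtype : Subgroup G) : Set G) := h.symm ▸ x.2
    obtain ⟨z, hz, heq⟩ := Subgroup.mem_map.1
      ((Subgroup.mem_normalizer_iff.1 hx (y : G)).1 (Subgroup.mem_map_of_mem H.subtype hy))
    rwa [show x * y * x⁻¹ = z from Subtype.ext heq.symm]
  have hHnil : Group.IsNilpotent H := by
    refine (Group.isNilpotent_of_finite_tfae.out 0 3).2 fun q hq P => ?_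
    haveI := hq
    by_cases hqH : q ∣ Nat.card H
    · exact hnormP q P hqH
    · have : (P : Subgroup H) = ⊥ := by
        apply Subgroup.eq_bot_of_card_eq
        rw [P.card_eq_multiplicity, Nat.factorization_eq_zero_of_not_dvd hqH, pow_zero]
      rw [this]
      infer_instance
  have hsyl : ∀ (q : ℕ) [Fact q.Prime] (P : Sylow q H), q ∣ Nat.card H →
      ¬ q ∣ ((P : Subgroup H).map H.subtype).index := by
    intro q hqF P hq hd
    set P' := (P : Subgroup H).map H.subtype with hP'
    have hPp : IsPGroup q P' := P.isPGroup'.map _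
    obtain ⟨R, hR⟩ := hPp.exists_le_sylow
    have hlt : P' < (R : Subgroup G) := by
      refine lt_of_le_of_ne hR fun he => ?_
      rw [he] at hd
      exact R.not_dvd_index hd
    haveI : Group.IsNilpotent ↥(R : Subgroup G) := R.isPGroup'.isNilpotent
    have hne : P'.subgroupOf (R : Subgroup G) < ⊤ := by
      rw [lt_top_iff_ne_top, Ne, Subgroup.subgroupOf_eq_top]
      exact hlt.not_ge
    obtain ⟨r, hrN, hrP⟩ := SetLike.exists_of_lt (Group.normalizerCondition_of_isNilpotent _ hne)
    have hrN' : (r : G) ∈ Subgroup.normalizer (P' : Set G) := by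
      rw [← Cfsg.Lib.Solv.conj_smul_eq_self_iff]
      refine Subgroup.eq_of_le_of_card_ge ?_ (Cfsg.Lib.Solv.card_conj_smul _ _).ge
      rintro _ ⟨v, hv, rfl⟩
      exact (Subgroup.mem_normalizer_iff.1 hrN ⟨v, hR hv⟩).1 hv
    rw [hnorm q hqF.out hq P] at hrN'
    -- r is a q-element of H outside the normal Sylow subgroup P
    haveI := hnormP q P hq
    obtain ⟨k, hk⟩ := R.isPGroup' r
    obtain ⟨m, hm⟩ := IsPGroup.iff_orderOf.1 R.isPGroup' r
    have hz : IsPGroup q ↥(Subgroup.zpowers (⟨r, hrN'⟩ : H)) := by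
      refine IsPGroup.of_card (n := m) ?_
      rw [Nat.card_zpowers, ← Subgroup.orderOf_coe, Subgroup.coe_mk, Subgroup.orderOf_coe, hm]
    obtain ⟨P2, hP2⟩ := hz.exists_le_sylow
    have : P2 = P := by
      have := Sylow.unique_of_normal P inferInstance
      exact Subsingleton.elim _ _
    rw [this] at hP2
    exact hrP ⟨_, hP2 (Subgroup.mem_zpowers _), rfl⟩
  have hcop : (Nat.card H).Coprime H.index := by
    refine Nat.coprime_of_dvd fun q hq h1 h2 => ?_
    haveI := Fact.mk hq
    obtain P : Sylow q H := default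
    exact hsyl q P h1 (h2.trans (Subgroup.index_dvd_of_le (Subgroup.map_subtype_le _)))
  have key : ∀ p : ℕ, p.Prime → p ∣ Nat.card H → Cfsg.HasNormalPComplement p G := by
    intro p hp hpH
    haveI := Fact.mk hp
    obtain PH : Sylow p H := default
    set P0 := (PH : Subgroup H).map H.subtype with hP0
    let P : Sylow p G := (PH.isPGroup'.map H.subtype).toSylow (hsyl p PH hpH)
    have hPeq : (P : Subgroup G) = P0 := rfl
    -- another prime
    obtain ⟨q, hq, hqH, hqp⟩ : ∃ q : ℕ, q.Prime ∧ q ∣ Nat.card H ∧ q ≠ p := by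
      by_contra hcon
      push_neg at hcon
      apply hnot p hp P
      rw [hPeq]
      refine le_antisymm (Subgroup.map_subtype_le _) ?_
      have htop : (PH : Subgroup H) = ⊤ := by
        rw [← Subgroup.index_eq_one]
        by_contra h1
        obtain ⟨r, hr, hrd⟩ := Nat.exists_prime_and_dvd h1
        have := hcon r hr (hrd.trans (Subgroup.index_dvd_card _))
        exact PH.not_dvd_index (this ▸ hrd)
      rw [hP0, htop, ← MonoidHom.range_eq_map, Subgroup.range_subtype]
    haveI := Fact.mk hq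
    obtain RH : Sylow q H := default
    set R := (RH : Subgroup H).map H.subtype with hR
    let RG : Sylow q G := (RH.isPGroup'.map H.subtype).toSylow (hsyl q RH hqH)
    haveI hPn := hnormP p PH hpH
    haveI hRn := hnormP q RH hqH
    have hdisj : Disjoint (PH : Subgroup H) (RH : Subgroup H) :=
      disjoint_iff.2 (IsPGroup.disjoint_of_ne p q (fun h => hqp h.symm) _ _ PH.isPGroup' RH.isPGroup').eq_bot
    refine (frobenius_iff P).2 fun Q hQ g hg hgord => ?_
    set C := Subgroup.centralizer (Q : Set G) with hC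
    have hRC : R ≤ C := by
      rintro _ ⟨x, hx, rfl⟩
      rw [hC, Subgroup.mem_centralizer_iff]
      intro y hy
      obtain ⟨y', hy', rfl⟩ := Subgroup.mem_map.1 (hPeq ▸ hQ hy)
      exact congrArg H.subtype
        (Subgroup.commute_of_normal_of_disjoint _ _ hPn hRn hdisj y' x hy' hx).eq
    have hCn : ∀ z ∈ C, g * z * g⁻¹ ∈ C := fun z hz => by
      haveI := Subgroup.normal_subgroupOf_centralizer_normalizer (Q : Set G)
      exact this.conj_mem ⟨z, Subgroup.centralizer_le_normalizer _ hz⟩ hz ⟨g, hg⟩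
    have hgR : MulAut.conj g • R ≤ C := by
      rintro _ ⟨z, hz, rfl⟩
      exact hCn z (hRC hz)
    obtain P1 : Sylow q C := default
    have hcR : ∀ S : Subgroup G, S ≤ C → Nat.card S = Nat.card R →
        ∃ S' : Sylow q C, (S' : Subgroup C).map C.subtype = S := by
      intro S hS hcard
      refine Cfsg.Lib.Solv.exists_sylow_map_eq hS P1 (hcard.trans (le_antisymm ?_ ?_))
      · obtain ⟨S', hS'⟩ := ((RH.isPGroup'.map H.subtype).comap_subtype
          (K := C)).exists_le_sylow
        rw [show Nat.card P1 = Nat.card S' by rw [P1.card_eq_multiplicity, S'.card_eq_multiplicity],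
          show Nat.card R = Nat.card ↥(R.subgroupOf C) from
            (Nat.card_congr (Subgroup.subgroupOfEquivOfLe hRC).toEquiv).symm]
        exact Subgroup.card_le_of_le hS'
      · obtain ⟨S'', hS''⟩ := (P1.isPGroup'.map C.subtype).exists_le_sylow
        rw [← Nat.card_congr (((P1 : Subgroup C).equivMapOfInjective C.subtype C.subtype_injective).symm).toEquiv,
          show Nat.card R = Nat.card RG from rfl,
          show Nat.card RG = Nat.card S'' by rw [RG.card_eq_multiplicity, S''.card_eq_multiplicity]]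
        exact Subgroup.card_le_of_le hS''
    obtain ⟨S1, hS1⟩ := hcR _ hgR (Cfsg.Lib.Solv.card_conj_smul _ _)
    obtain ⟨S2, hS2⟩ := hcR _ hRC rfl
    obtain ⟨c, hc, hcc⟩ := Cfsg.Lib.Solv.sylow_conj_eq S1 S2
    rw [hS1, hS2, ← mul_smul, ← map_mul, Cfsg.Lib.Solv.conj_smul_eq_self_iff,
      show Subgroup.normalizer (R : Set G) = H from hnorm q hq hqH RH] at hcc
    have hmem : (⟨c * g, hcc⟩ : H) ∈ (PH : Subgroup H) ⊔ Cfsg.pPrimeCore p H := by
      have htop : (PH : Subgroup H) ⊔ Cfsg.pPrimeCore p H = ⊤ := by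
        rw [eq_top_iff]
        refine le_trans (b := Cfsg.pCore p H ⊔ Cfsg.pPrimeCore p H) ?_ (sup_le_sup_right ?_ _)
        · refine le_trans ?_ (fittingSubgroup_le_pCore_sup p)
          exact le_sSup ⟨inferInstance, (Group.isNilpotent_congr Subgroup.topEquiv).2 hHnil⟩
        · exact pCore_le_sylow PH
      rw [htop]
      trivial
    rw [← SetLike.mem_coe, Subgroup.normal_mul] at hmem
    obtain ⟨u, hu, v, hv, huv⟩ := hmem
    have hvC : (v : G) ∈ C := by
      haveI := pPrimeCore_normal (G := H) p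
      have hd : Disjoint (PH : Subgroup H) (Cfsg.pPrimeCore p H) :=
        (pCore_disjoint_pPrimeCore (G := H) p).mono_left
          (le_sSup (s := {N : Subgroup H | N.Normal ∧ IsPGroup p N}) ⟨hPn, PH.isPGroup'⟩)
      rw [hC, Subgroup.mem_centralizer_iff]
      intro y hy
      obtain ⟨y', hy', rfl⟩ := Subgroup.mem_map.1 (hPeq ▸ hQ hy)
      exact congrArg H.subtype
        (Subgroup.commute_of_normal_of_disjoint _ _ hPn inferInstance hd y' v hy' hv).eq
    have huv' : (u : G) * v = c * g := congrArg Subtype.val huv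
    haveI := Subgroup.normal_subgroupOf_centralizer_normalizer (Q : Set G)
    have hCN := Subgroup.centralizer_le_normalizer (Q : Set G)
    have huN : (u : G) ∈ Subgroup.normalizer (Q : Set G) := by
      have : (u : G) = c * g * (v : G)⁻¹ := by rw [← huv', mul_inv_cancel_right]
      rw [this]
      exact mul_mem (mul_mem (hCN hc) hg) (inv_mem (hCN hvC))
    let f := QuotientGroup.mk' (C.subgroupOf (Subgroup.normalizer (Q : Set G)))
    have h1 : ∀ (z : G) (hz : z ∈ Subgroup.normalizer (Q : Set G)), z ∈ C → f ⟨z, hz⟩ = 1 :=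
      fun z hz hzC => (QuotientGroup.eq_one_iff _).2 hzC
    have hfg : f ⟨g, hg⟩ = f ⟨u, huN⟩ := by
      have e : (⟨c, hCN hc⟩ : ↥(Subgroup.normalizer (Q : Set G))) * ⟨g, hg⟩ =
          ⟨u, huN⟩ * ⟨v, hCN hvC⟩ := Subtype.ext huv'.symm
      have e2 := congrArg f e
      rwa [map_mul, map_mul, h1 c _ hc, h1 v _ hvC, one_mul, mul_one] at e2
    obtain ⟨k, hk⟩ := IsPGroup.iff_orderOf.1 PH.isPGroup' ⟨u, hu⟩
    rw [← Subgroup.orderOf_coe] at hk
    have hd1 : orderOf (f ⟨g, hg⟩) ∣ orderOf g := by
      have := orderOf_map_dvd f ⟨g, hg⟩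
      rwa [← Subgroup.orderOf_coe] at this
    have hd2 : orderOf (f ⟨g, hg⟩) ∣ p ^ k := by
      rw [hfg, ← hk]
      have := orderOf_map_dvd f ⟨u, huN⟩
      refine this.trans (dvd_of_eq ?_)
      rw [← Subgroup.orderOf_coe, ← Subgroup.orderOf_coe]
    have h2 : orderOf (f ⟨g, hg⟩) = 1 :=
      Nat.eq_one_of_dvd_coprimes (hgord.pow_right k) hd1 hd2
    exact (QuotientGroup.eq_one_iff (⟨g, hg⟩ : ↥(Subgroup.normalizer (Q : Set G)))).1 (orderOf_eq_one_iff.1 h2)
  classical
  let N : Subgroup G := ⨅ p ∈ (Nat.card H).primeFactors, Cfsg.pResidual p G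
  have hNn : N.Normal := by
    refine ⟨fun n hn g => ?_⟩
    simp only [N, Subgroup.mem_iInf] at hn ⊢
    exact fun p hp => (pResidual_normal p).conj_mem n (hn p hp) g
  have hmem : ∀ p ∈ (Nat.card H).primeFactors, p.Prime ∧ p ∣ Nat.card H :=
    fun p hp => ⟨Nat.prime_of_mem_primeFactors hp, Nat.dvd_of_mem_primeFactors hp⟩
  refine ⟨N, hNn, ?_⟩
  have hcN : (Nat.card N).Coprime (Nat.card H) := by
    refine Nat.coprime_of_dvd fun q hq hqN hqH => ?_
    haveI := Fact.mk hq
    have hk := key q hq hqH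
    rw [hasNormalPComplement_iff_pResidual] at hk
    refine hq.coprime_iff_not_dvd.1 hk.symm (hqN.trans (Subgroup.card_dvd_of_le ?_))
    exact iInf₂_le q (Nat.mem_primeFactors.2 ⟨hq, hqH, Nat.card_pos.ne'⟩)
  have hexp : ∀ x : G, x ^ Nat.card H ∈ N := by
    intro x
    simp only [N, Subgroup.mem_iInf]
    intro p hp
    haveI := Fact.mk (hmem p hp).1
    have hd : ordProj[p] (orderOf x) ∣ Nat.card H := by
      have h2 : ordProj[p] (orderOf x) ∣ Nat.card H * H.index := by
        rw [Subgroup.card_mul_index]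
        exact (Nat.ordProj_dvd _ _).trans (orderOf_dvd_natCard x)
      refine Nat.Coprime.dvd_of_dvd_mul_right (Nat.Coprime.pow_left _ ?_) h2
      exact Nat.Coprime.coprime_dvd_left (hmem p hp).2 hcop
    obtain ⟨c, hc⟩ := hd
    rw [hc, pow_mul]
    exact pow_mem (pow_ordProj_mem_pResidual x) c
  have hidx : N.index.Coprime H.index := by
    refine Nat.coprime_of_dvd fun q hq hqN hqH => ?_
    haveI := Fact.mk hq
    haveI := hNn
    rw [Subgroup.index_eq_card] at hqN
    obtain ⟨z, hz⟩ := exists_prime_orderOf_dvd_card' q hqN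
    obtain ⟨x, rfl⟩ := QuotientGroup.mk'_surjective N z
    have h3 : (QuotientGroup.mk' N x) ^ Nat.card H = 1 := by
      rw [← map_pow]
      exact (QuotientGroup.eq_one_iff _).2 (hexp x)
    have h4 : q ∣ Nat.card H := hz ▸ orderOf_dvd_of_pow_eq_one h3
    exact hq.coprime_iff_not_dvd.1 (Nat.Coprime.coprime_dvd_left h4 hcop) hqH
  have e : Nat.card N * N.index = Nat.card H * H.index := by
    rw [Subgroup.card_mul_index, Subgroup.card_mul_index]
  refine Subgroup.isComplement'_of_coprime ?_ hcN
  refine Nat.dvd_antisymm ?_ ?_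
  · rw [mul_comm, ← Subgroup.card_mul_index H]
    exact Nat.mul_dvd_mul_left _ (hcN.dvd_of_dvd_mul_left ⟨N.index, e.symm⟩)
  · rw [← Subgroup.card_mul_index N]
    refine Nat.mul_dvd_mul_left _ ?_
    exact hidx.dvd_of_dvd_mul_right ⟨Nat.card N, by rw [← e, mul_comm]⟩

end Cfsg.Agent.S0558
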