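import Cfsg.Statements.S0560
import Mathlib
import Cfsg.Agent.Lib.Solv.Products
-- import your own Cfsg.Agent.* helpers here

set_option autoImplicit false
open Pointwise
open Cfsg

namespace Cfsg.Agent.S0560

/-- Let the finite group G be the product HK of two subgroups and p a prime. Then there are Sylow p-subgroups P of H and Q of K and a Sylow p-subgroup R of G whose underlying set is the product set of P and Q. -/
theorem result {G : Type*} [Group G] [Finite G] (H K : Subgroup G) (hHK : ∀ g : G, ∃ h ∈ H, ∃ k ∈ K, g = h * k) (p : ℕ) [Fact p.Prime] : ∃ (P : Sylow p H) (Q : Sylow p K) (R : Sylow p G), ((R : Subgroup G) : Set G) = (((P : Subgroup H).map H.subtype : Subgroup G) : Set G) * (((Q : Subgroup K).map K.subtype : Subgroup G) : Set G) := by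
  let P₀ : Sylow p H := default
  let Q₀ : Sylow p K := default
  obtain ⟨R₁, hR₁⟩ := (P₀.isPGroup'.map H.subtype).exists_le_sylow
  obtain ⟨R₂, hR₂⟩ := (Q₀.isPGroup'.map K.subtype).exists_le_sylow
  obtain ⟨c, hc⟩ := MulAction.exists_smul_eq G R₁ R₂
  obtain ⟨h, hh, k, hk, e⟩ := hHK c⁻¹
  have hc' : c = k⁻¹ * h⁻¹ := by rw [← mul_inv_rev, ← e, inv_inv]
  have hsm : ∀ (W : Subgroup G) (w : W) (P : Sylow p W),
      ((w • P : Sylow p W) : Subgroup W).map W.subtype =
        MulAut.conj (w : G) • (P : Subgroup W).map W.subtype := fun W w P => by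
    rw [Sylow.coe_subgroup_smul, Cfsg.Lib.Solv.map_conj_smul]
    rfl
  refine ⟨(⟨h⁻¹, H.inv_mem hh⟩ : H) • P₀, (⟨k, hk⟩ : K) • Q₀, h⁻¹ • R₁, ?_⟩
  rw [hsm, hsm]
  set P := MulAut.conj h⁻¹ • (P₀ : Subgroup H).map H.subtype with hP
  set Q := MulAut.conj k • (Q₀ : Subgroup K).map K.subtype with hQ
  set R : Subgroup G := ((h⁻¹ • R₁ : Sylow p G) : Subgroup G) with hR
  have hR1 : R = MulAut.conj h⁻¹ • (R₁ : Subgroup G) := Sylow.coe_subgroup_smul
  have hR2 : R = MulAut.conj k • (R₂ : Subgroup G) := by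
    rw [hR1, ← hc, Sylow.coe_subgroup_smul, hc', ← mul_smul, ← map_mul, mul_inv_cancel_left]
  have hPR : P ≤ R := hR1 ▸ Subgroup.pointwise_smul_le_pointwise_smul_iff.2 hR₁
  have hQR : Q ≤ R := hR2 ▸ Subgroup.pointwise_smul_le_pointwise_smul_iff.2 hR₂
  have hPH : P ≤ H := by
    exact le_trans (Subgroup.pointwise_smul_le_pointwise_smul_iff.2 (Subgroup.map_subtype_le _))
      (Cfsg.Lib.Solv.conj_smul_eq_self_iff.2 (Subgroup.le_normalizer (H.inv_mem hh))).le
  have hQK : Q ≤ K := by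
    exact le_trans (Subgroup.pointwise_smul_le_pointwise_smul_iff.2 (Subgroup.map_subtype_le _))
      (Cfsg.Lib.Solv.conj_smul_eq_self_iff.2 (Subgroup.le_normalizer hk)).le
  refine Cfsg.Lib.Solv.factor_of_relIndex hQR hPR ?_
  have cR : Nat.card R = p ^ (Nat.card G).factorization p := Sylow.card_eq_multiplicity (h⁻¹ • R₁)
  have cP : Nat.card P = p ^ (Nat.card H).factorization p := by
    rw [hP, Cfsg.Lib.Solv.card_conj_smul, Cfsg.Lib.Solv.card_map_subtype']
    exact Sylow.card_eq_multiplicity P₀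
  have cQ : Nat.card Q = p ^ (Nat.card K).factorization p := by
    rw [hQ, Cfsg.Lib.Solv.card_conj_smul, Cfsg.Lib.Solv.card_map_subtype']
    exact Sylow.card_eq_multiplicity Q₀
  obtain ⟨j, hj⟩ := IsPGroup.iff_card.1
    (((h⁻¹ • R₁ : Sylow p G).isPGroup'.to_le hPR).to_le (inf_le_right : Q ⊓ P ≤ P))
  have hji : j ≤ (Nat.card ↥(H ⊓ K)).factorization p := by
    refine ((Fact.out : p.Prime).pow_dvd_iff_le_factorization Nat.card_pos.ne').1 ?_
    rw [← hj]
    exact Subgroup.card_dvd_of_le (le_inf (inf_le_right.trans hPH) (inf_le_left.trans hQK))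
  have e1 : Nat.card K = Nat.card ↥(H ⊓ K) * H.index := by
    rw [Cfsg.Lib.Solv.card_eq_mul_relIndex (inf_le_right : H ⊓ K ≤ K), Subgroup.inf_relIndex_right,
      Cfsg.Lib.Solv.relIndex_of_factor hHK]
  have e2 : Nat.card G * Nat.card ↥(H ⊓ K) = Nat.card H * Nat.card K := by
    rw [e1, ← H.card_mul_index]; ring
  have e3 : (Nat.card G).factorization p + (Nat.card ↥(H ⊓ K)).factorization p =
      (Nat.card H).factorization p + (Nat.card K).factorization p := by
    have := congrArg (fun n => n.factorization p) e2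
    rwa [Nat.factorization_mul Nat.card_pos.ne' Nat.card_pos.ne',
      Nat.factorization_mul Nat.card_pos.ne' Nat.card_pos.ne', Finsupp.add_apply, Finsupp.add_apply] at this
  have r1 := Cfsg.Lib.Solv.card_eq_mul_relIndex hQR
  have r2 := Cfsg.Lib.Solv.card_eq_mul_relIndex (inf_le_right : Q ⊓ P ≤ P)
  rw [Subgroup.inf_relIndex_right] at r2
  have hle : Nat.card R * p ^ j ≤ Nat.card P * Nat.card Q := by
    rw [cR, cP, cQ, ← pow_add, ← pow_add]
    exact Nat.pow_le_pow_right (Fact.out : p.Prime).pos (by omega)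
  rw [r1, r2, hj] at hle
  refine Nat.le_of_mul_le_mul_left ?_ (Nat.mul_pos (Nat.card_pos (α := Q)) (pow_pos (Fact.out : p.Prime).pos j))
  linarith

end Cfsg.Agent.S0560
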