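import Cfsg.Statements.S0562
import Mathlib
import Cfsg.Agent.Lib.Solv.Products
-- import your own Cfsg.Agent.* helpers here

set_option autoImplicit false
open Cfsg
open scoped Pointwise

namespace Cfsg.Agent.S0562

/-- Let the finite group G be the product HK of subgroups, A normal in H, B normal in K, and L the normalizer of the subgroup generated by A and B. Then every element of L is a product of an element of L ∩ H and an element of L ∩ K. -/
theorem result {G : Type*} [Group G] [Finite G] (H K A B : Subgroup G) (hHK : ∀ g : G, ∃ h ∈ H, ∃ k ∈ K, g = h * k) (hA : A ≤ H) (hAn : (A.subgroupOf H).Normal) (hB : B ≤ K) (hBn : (B.subgroupOf K).Normal) : ∀ g ∈ Subgroup.normalizer ((A ⊔ B : Subgroup G) : Set G), ∃ h ∈ Subgroup.normalizer ((A ⊔ B : Subgroup G) : Set G) ⊓ H, ∃ k ∈ Subgroup.normalizer ((A ⊔ B : Subgroup G) : Set G) ⊓ K, g = h * k := by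
  intro g hg
  obtain ⟨h, hh, k, hk, rfl⟩ := hHK g
  set J := A ⊔ B with hJ
  have hgJ : MulAut.conj (h * k) • J = J := Cfsg.Lib.Solv.conj_smul_eq_self_iff.2 hg
  set T := MulAut.conj k • J with hT
  have hTB : B ≤ T := by
    rw [hT, ← Cfsg.Lib.Solv.conj_smul_eq_of_normal_in hBn hB hk]
    exact Subgroup.pointwise_smul_le_pointwise_smul_iff.2 le_sup_right
  have hTA : A ≤ T := by
    have e : T = MulAut.conj h⁻¹ • J := by
      conv_rhs => rw [← hgJ]
      rw [← mul_smul, ← map_mul, inv_mul_cancel_left]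
    rw [e, ← Cfsg.Lib.Solv.conj_smul_eq_of_normal_in hAn hA (H.inv_mem hh)]
    exact Subgroup.pointwise_smul_le_pointwise_smul_iff.2 le_sup_left
  have hTJ : T = J := (Subgroup.eq_of_le_of_card_ge (sup_le hTA hTB) (by
    rw [hT, Cfsg.Lib.Solv.card_conj_smul])).symm
  have hkL : k ∈ Subgroup.normalizer (J : Set G) := Cfsg.Lib.Solv.conj_smul_eq_self_iff.1 hTJ
  have hhL : h ∈ Subgroup.normalizer (J : Set G) := by
    simpa using mul_mem hg (inv_mem hkL)
  exact ⟨h, ⟨hhL, hh⟩, k, ⟨hkL, hk⟩, rfl⟩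

end Cfsg.Agent.S0562
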