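import Cfsg.Statements.S0567
import Mathlib
import Cfsg.Agent.Lib.Solv.Coprime
-- import your own Cfsg.Agent.* helpers here

set_option autoImplicit false
open Cfsg
open scoped commutatorElement

namespace Cfsg.Agent.S0567

/-- A subgroup H of a group G is subnormal exactly when, for some m, the subgroup obtained from G by taking the commutator with H m times in succession is contained in H. -/
theorem result {G : Type*} [Group G] (H : Subgroup G) : H.IsSubnormal ↔ ∃ m : ℕ, (fun K : Subgroup G => ⁅K, H⁆)^[m] ⊤ ≤ H := by
  constructor
  · intro h
    induction h with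
    | top => exact ⟨0, le_rfl⟩
    | step H K hle hK hN ih =>
      obtain ⟨m, hm⟩ := ih
      refine ⟨m + 1, ?_⟩
      rw [Function.iterate_succ_apply']
      have hmono : ∀ m : ℕ, (fun L : Subgroup G => ⁅L, H⁆)^[m] ⊤ ≤ (fun L : Subgroup G => ⁅L, K⁆)^[m] ⊤ := by
        intro m
        induction m with
        | zero => exact le_rfl
        | succ m ih =>
          rw [Function.iterate_succ_apply', Function.iterate_succ_apply']
          exact Subgroup.commutator_mono ih hle
      refine le_trans (Subgroup.commutator_mono ((hmono m).trans hm) le_rfl) ?_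
      rw [Subgroup.commutator_comm]
      exact Cfsg.Lib.Solv.commutator_le_of_normalizes ((Subgroup.normal_subgroupOf_iff_le_normalizer hle).1 hN)
  · rintro ⟨m, hm⟩
    set f := fun K : Subgroup G => ⁅K, H⁆ with hf
    have hH : ∀ i, H ≤ Subgroup.normalizer ((f^[i] ⊤ : Subgroup G) : Set G) := by
      intro i
      cases i with
      | zero => exact fun x _ => Subgroup.le_normalizer (Subgroup.mem_top x)
      | succ i =>
        rw [Function.iterate_succ_apply']
        exact Cfsg.Lib.Solv.le_normalizer_commutator_right _ _
    have hS : ∀ i, (H ⊔ f^[i] ⊤).IsSubnormal := by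
      intro i
      induction i with
      | zero => simp
      | succ i ih =>
        have hle : f^[i+1] ⊤ ≤ f^[i] ⊤ := by
          rw [Function.iterate_succ_apply']
          exact Cfsg.Lib.Solv.commutator_le_of_normalizes (hH i)
        have hle2 : H ⊔ f^[i+1] ⊤ ≤ H ⊔ f^[i] ⊤ := sup_le_sup_left hle _
        refine .step _ _ hle2 ih ((Subgroup.normal_subgroupOf_iff_le_normalizer hle2).2 (sup_le ?_ ?_))
        · intro x hx
          exact Subgroup.le_normalizer (Subgroup.mem_sup_left hx)
        · rw [Function.iterate_succ_apply']
          generalize f^[i] ⊤ = K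
          intro k hk
          have key : ∀ k ∈ K, ∀ y ∈ H ⊔ ⁅K, H⁆, k * y * k⁻¹ ∈ H ⊔ ⁅K, H⁆ := by
            intro k hk y hy
            have : H ⊔ ⁅K, H⁆ ≤ (H ⊔ ⁅K, H⁆).comap (MulAut.conj k).toMonoidHom := by
              refine sup_le ?_ ?_
              · intro h hh
                have e : k * h * k⁻¹ = ⁅k, h⁆ * h := by simp only [commutatorElement_def]; group
                show k * h * k⁻¹ ∈ H ⊔ ⁅K, H⁆
                rw [e]
                exact mul_mem (Subgroup.mem_sup_right (Subgroup.commutator_mem_commutator hk hh)) (Subgroup.mem_sup_left hh)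
              · intro x hx
                exact Subgroup.mem_sup_right
                  ((Subgroup.mem_normalizer_iff.1 (Cfsg.Lib.Solv.le_normalizer_commutator_left K H hk) x).1 hx)
            exact this hy
          rw [Subgroup.mem_normalizer_iff]
          intro y
          refine ⟨key k hk y, fun h => ?_⟩
          have := key k⁻¹ (inv_mem hk) _ h
          simpa [mul_assoc] using this
    have h2 := hS m
    rwa [sup_eq_left.2 hm] at h2

end Cfsg.Agent.S0567
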