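import Cfsg.Statements.S0570
import Mathlib
import Cfsg.Agent.Lib.Solv.CarterSystem
-- import your own Cfsg.Agent.* helpers here

set_option autoImplicit false
open Cfsg
open scoped Pointwise

namespace Cfsg.Agent.S0570

/-- Let G be a finite group with a nilpotent normal subgroup F such that G modulo F is nilpotent (nilpotent length at most two). Then a subgroup of G is a Carter subgroup if and only if it is the system normalizer of some Hall complement system. -/
theorem result {G : Type*} [Group G] [Finite G] (F : Subgroup G) [F.Normal] (hF : Group.IsNilpotent F) (hGF : Group.IsNilpotent (G ⧸ F)) (C : Subgroup G) : Cfsg.IsCarterSubgroup C ↔ ∃ K : Nat.Primes → Subgroup G, Cfsg.IsComplementSystem K ∧ C = Cfsg.systemNormalizer K := by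
  haveI : Group.IsSolvable G := by
    haveI := hF
    haveI := hGF
    exact Group.isSolvable_of_ker_le_range F.subtype (QuotientGroup.mk' F) (by simp [QuotientGroup.ker_mk'])
  haveI := hGF
  constructor
  · intro hC
    exact Cfsg.Lib.Solv.Carter.carter_eq_systemNormalizer F hF hC
  · rintro ⟨K, hK, rfl⟩
    obtain ⟨C, hC⟩ := Cfsg.Lib.Solv.Carter.exists_carter (G := G)
    obtain ⟨L, hL, rfl⟩ := Cfsg.Lib.Solv.Carter.carter_eq_systemNormalizer F hF hC
    obtain ⟨g, hg⟩ := Cfsg.Lib.Solv.complement_system_conj hL hK
    rw [show K = fun p => MulAut.conj g • L p from funext fun p => (hg p).symm,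
      Cfsg.Lib.Solv.Carter.systemNormalizer_conj]
    exact Cfsg.Lib.Solv.Carter.isC_conj hC g

end Cfsg.Agent.S0570
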