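import Cfsg.Statements.S0572
import Mathlib
import Cfsg.Agent.Lib.Solv.Frattini
-- import your own Cfsg.Agent.* helpers here

set_option autoImplicit false
open Cfsg
open scoped commutatorElement

namespace Cfsg.Agent.S0572

/-- Itô's Theorem: if a group G is the product AB of two abelian subgroups, then the commutator subgroup of G is abelian, i.e. the second term of the derived series is trivial. -/
theorem result {G : Type*} [Group G] (A B : Subgroup G) [IsMulCommutative A] [IsMulCommutative B] (hAB : ∀ g : G, ∃ a ∈ A, ∃ b ∈ B, g = a * b) : derivedSeries G 2 = ⊥ := by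
  have base : ∀ a ∈ A, ∀ b ∈ B, ∀ a₁ ∈ A, ∀ b₁ ∈ B,
      b₁ * (a₁ * (a * b * a⁻¹ * b⁻¹) * a₁⁻¹) * b₁⁻¹
        = a₁ * (b₁ * (a * b * a⁻¹ * b⁻¹) * b₁⁻¹) * a₁⁻¹ := by
    intro a ha b hb a₁ ha₁ b₁ hb₁
    obtain ⟨b₂, hb₂, a₂, ha₂, h2⟩ : ∃ b₂ ∈ B, ∃ a₂ ∈ A, a₁ * b * a₁⁻¹ = b₂ * a₂ := by
      obtain ⟨x, hx, y, hy, h⟩ := hAB (a₁ * b * a₁⁻¹)⁻¹
      exact ⟨y⁻¹, B.inv_mem hy, x⁻¹, A.inv_mem hx, by rw [← mul_inv_rev, ← h, inv_inv]⟩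
    obtain ⟨a₃, ha₃, b₃, hb₃, h3⟩ := hAB (b₁ * a * b₁⁻¹)
    have caa : a₁ * a = a * a₁ := setLike_mul_comm ha₁ ha
    have cbb : b₁ * b = b * b₁ := setLike_mul_comm hb₁ hb
    have e1 : a₁ * (a * b * a⁻¹ * b⁻¹) * a₁⁻¹ = a * b₂ * a⁻¹ * b₂⁻¹ := by
      have hb' : a₁ * b * a₁⁻¹ = b₂ * a₂ := h2
      calc a₁ * (a * b * a⁻¹ * b⁻¹) * a₁⁻¹
          = (a₁ * a * a₁⁻¹) * (a₁ * b * a₁⁻¹) * (a₁ * a * a₁⁻¹)⁻¹ * (a₁ * b * a₁⁻¹)⁻¹ := by group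
        _ = a * (b₂ * a₂) * a⁻¹ * (b₂ * a₂)⁻¹ := by rw [hb', caa, mul_inv_cancel_right]
        _ = a * b₂ * (a₂ * a⁻¹) * a₂⁻¹ * b₂⁻¹ := by group
        _ = a * b₂ * (a⁻¹ * a₂) * a₂⁻¹ * b₂⁻¹ := by rw [setLike_mul_comm ha₂ (A.inv_mem ha)]
        _ = _ := by group
    have e2 : b₁ * (a * b₂ * a⁻¹ * b₂⁻¹) * b₁⁻¹ = a₃ * b₂ * a₃⁻¹ * b₂⁻¹ := by
      calc b₁ * (a * b₂ * a⁻¹ * b₂⁻¹) * b₁⁻¹
          = (b₁ * a * b₁⁻¹) * (b₁ * b₂ * b₁⁻¹) * (b₁ * a * b₁⁻¹)⁻¹ * (b₁ * b₂ * b₁⁻¹)⁻¹ := by group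
        _ = (a₃ * b₃) * b₂ * (a₃ * b₃)⁻¹ * b₂⁻¹ := by rw [h3, setLike_mul_comm hb₁ hb₂, mul_inv_cancel_right]
        _ = a₃ * (b₃ * b₂) * b₃⁻¹ * a₃⁻¹ * b₂⁻¹ := by group
        _ = a₃ * (b₂ * b₃) * b₃⁻¹ * a₃⁻¹ * b₂⁻¹ := by rw [setLike_mul_comm hb₃ hb₂]
        _ = _ := by group
    have e3 : b₁ * (a * b * a⁻¹ * b⁻¹) * b₁⁻¹ = a₃ * b * a₃⁻¹ * b⁻¹ := by
      calc b₁ * (a * b * a⁻¹ * b⁻¹) * b₁⁻¹
          = (b₁ * a * b₁⁻¹) * (b₁ * b * b₁⁻¹) * (b₁ * a * b₁⁻¹)⁻¹ * (b₁ * b * b₁⁻¹)⁻¹ := by group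
        _ = (a₃ * b₃) * b * (a₃ * b₃)⁻¹ * b⁻¹ := by rw [h3, cbb, mul_inv_cancel_right]
        _ = a₃ * (b₃ * b) * b₃⁻¹ * a₃⁻¹ * b⁻¹ := by group
        _ = a₃ * (b * b₃) * b₃⁻¹ * a₃⁻¹ * b⁻¹ := by rw [setLike_mul_comm hb₃ hb]
        _ = _ := by group
    have e4 : a₁ * (a₃ * b * a₃⁻¹ * b⁻¹) * a₁⁻¹ = a₃ * b₂ * a₃⁻¹ * b₂⁻¹ := by
      calc a₁ * (a₃ * b * a₃⁻¹ * b⁻¹) * a₁⁻¹
          = (a₁ * a₃ * a₁⁻¹) * (a₁ * b * a₁⁻¹) * (a₁ * a₃ * a₁⁻¹)⁻¹ * (a₁ * b * a₁⁻¹)⁻¹ := by group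
        _ = a₃ * (b₂ * a₂) * a₃⁻¹ * (b₂ * a₂)⁻¹ := by rw [h2, setLike_mul_comm ha₁ ha₃, mul_inv_cancel_right]
        _ = a₃ * b₂ * (a₂ * a₃⁻¹) * a₂⁻¹ * b₂⁻¹ := by group
        _ = a₃ * b₂ * (a₃⁻¹ * a₂) * a₂⁻¹ * b₂⁻¹ := by rw [setLike_mul_comm ha₂ (A.inv_mem ha₃)]
        _ = _ := by group
    have h12 : b₁ * (a₁ * (a * b * a⁻¹ * b⁻¹) * a₁⁻¹) * b₁⁻¹ = a₁ * (b₁ * (a * b * a⁻¹ * b⁻¹) * b₁⁻¹) * a₁⁻¹ := by
      rw [e1, e2, e3, e4]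
    exact h12
  have key : ∀ a ∈ A, ∀ b ∈ B, ∀ a₁ ∈ A, ∀ b₁ ∈ B,
      Commute (a₁ * b₁ * a₁⁻¹ * b₁⁻¹) (a * b * a⁻¹ * b⁻¹) := by
    intro a ha b hb a₁ ha₁ b₁ hb₁
    have h := base a ha b hb a₁⁻¹ (A.inv_mem ha₁) b₁⁻¹ (B.inv_mem hb₁)
    generalize a * b * a⁻¹ * b⁻¹ = c at h ⊢
    show a₁ * b₁ * a₁⁻¹ * b₁⁻¹ * c = c * (a₁ * b₁ * a₁⁻¹ * b₁⁻¹)
    calc a₁ * b₁ * a₁⁻¹ * b₁⁻¹ * c
        = a₁ * b₁ * (a₁⁻¹ * (b₁⁻¹ * c * b₁⁻¹⁻¹) * a₁⁻¹⁻¹) * a₁⁻¹ * b₁⁻¹ := by group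
      _ = a₁ * b₁ * (b₁⁻¹ * (a₁⁻¹ * c * a₁⁻¹⁻¹) * b₁⁻¹⁻¹) * a₁⁻¹ * b₁⁻¹ := by rw [h]
      _ = _ := by group
  set S : Set G := {x | ∃ a ∈ A, ∃ b ∈ B, x = a * b * a⁻¹ * b⁻¹} with hS
  set N := Subgroup.closure S with hN
  have hmem : ∀ a ∈ A, ∀ b ∈ B, a * b * a⁻¹ * b⁻¹ ∈ N := fun a ha b hb =>
    Subgroup.subset_closure ⟨a, ha, b, hb, rfl⟩
  have hconjA : ∀ g ∈ A, N ≤ N.comap (MulAut.conj g).toMonoidHom := by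
    intro g hg
    rw [hN, Subgroup.closure_le]
    rintro _ ⟨a, ha, b, hb, rfl⟩
    show g * (a * b * a⁻¹ * b⁻¹) * g⁻¹ ∈ N
    have h : g * (a * b * a⁻¹ * b⁻¹) * g⁻¹
        = (g * a) * b * (g * a)⁻¹ * b⁻¹ * (g * b * g⁻¹ * b⁻¹)⁻¹ := by group
    rw [h]
    exact N.mul_mem (hmem _ (A.mul_mem hg ha) b hb) (N.inv_mem (hmem g hg b hb))
  have hconjB : ∀ g ∈ B, N ≤ N.comap (MulAut.conj g).toMonoidHom := by
    intro g hg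
    rw [hN, Subgroup.closure_le]
    rintro _ ⟨a, ha, b, hb, rfl⟩
    show g * (a * b * a⁻¹ * b⁻¹) * g⁻¹ ∈ N
    have h : g * (a * b * a⁻¹ * b⁻¹) * g⁻¹
        = (a * g * a⁻¹ * g⁻¹)⁻¹ * (a * (g * b) * a⁻¹ * (g * b)⁻¹) := by group
    rw [h]
    exact N.mul_mem (N.inv_mem (hmem a ha g hg)) (hmem a ha _ (B.mul_mem hg hb))
  haveI hNn : N.Normal := ⟨fun n hn g => by
    obtain ⟨a, ha, b, hb, rfl⟩ := hAB g
    have h1 : b * n * b⁻¹ ∈ N := hconjB b hb hn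
    have h2 : a * (b * n * b⁻¹) * a⁻¹ ∈ N := hconjA a ha h1
    simpa [mul_assoc] using h2⟩
  have hAB' : ∀ a ∈ A, ∀ b ∈ B, Commute (QuotientGroup.mk' N a) (QuotientGroup.mk' N b) := by
    intro a ha b hb
    have h : (QuotientGroup.mk' N) (a * b * a⁻¹ * b⁻¹) = 1 := (QuotientGroup.eq_one_iff _).2 (hmem a ha b hb)
    rw [map_mul, map_mul, map_mul, map_inv, map_inv, mul_inv_eq_one, mul_inv_eq_iff_eq_mul] at h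
    exact h
  have hG' : derivedSeries G 1 ≤ N := by
    rw [derivedSeries_succ, derivedSeries_zero, Subgroup.commutator_le]
    intro x _ y _
    obtain ⟨a, ha, b, hb, rfl⟩ := hAB x
    obtain ⟨c, hc, d, hd, rfl⟩ := hAB y
    rw [← QuotientGroup.eq_one_iff, ← QuotientGroup.mk'_apply, map_commutatorElement,
      commutatorElement_eq_one_iff_commute, map_mul, map_mul]
    refine Commute.mul_left (Commute.mul_right ?_ (hAB' a ha d hd)) (Commute.mul_right (hAB' c hc b hb).symm ?_)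
    · exact Commute.map (setLike_mul_comm ha hc) _
    · exact Commute.map (setLike_mul_comm hb hd) _
  have hNc : ∀ x ∈ N, ∀ y ∈ N, Commute x y := by
    intro x hx
    induction hx using Subgroup.closure_induction with
    | mem x hx =>
      intro y hy
      induction hy using Subgroup.closure_induction with
      | mem y hy =>
        obtain ⟨a, ha, b, hb, rfl⟩ := hx
        obtain ⟨c, hc, d, hd, rfl⟩ := hy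
        exact key c hc d hd a ha b hb
      | one => exact Commute.one_right _
      | mul y z _ _ h1 h2 => exact h1.mul_right h2
      | inv y _ h1 => exact h1.inv_right
    | one => exact fun y _ => Commute.one_left _
    | mul x z _ _ h1 h2 => exact fun y hy => (h1 y hy).mul_left (h2 y hy)
    | inv x _ h1 => exact fun y hy => (h1 y hy).inv_left
  rw [derivedSeries_succ, eq_bot_iff, Subgroup.commutator_le]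
  intro x hx y hy
  rw [Subgroup.mem_bot, commutatorElement_eq_one_iff_commute]
  exact hNc x (hG' hx) y (hG' hy)

end Cfsg.Agent.S0572
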