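import Cfsg.Statements.S0576
import Mathlib
import Cfsg.Agent.Lib.Solv.PGroupBasic
-- import your own Cfsg.Agent.* helpers here

set_option autoImplicit false
open Cfsg

namespace Cfsg.Agent.S0576

/-- Let H be a normal subgroup of a finite group G with H contained in the Frattini subgroup of G. Then the group of inner automorphisms of H is contained in the Frattini subgroup of the automorphism group of H. -/
theorem result {G : Type*} [Group G] [Finite G] (H : Subgroup G) [H.Normal] (hH : H ≤ frattini G) : (MulAut.conj : ↥H →* MulAut ↥H).range ≤ frattini (MulAut ↥H) := by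
  intro φ hφ
  rw [Cfsg.Lib.Solv.mem_frattini_iff]
  intro M hM
  by_contra hφM
  haveI hn : (MulAut.conj : ↥H →* MulAut ↥H).range.Normal := by
    refine ⟨?_⟩
    rintro _ ⟨a, rfl⟩ ψ
    refine ⟨ψ a, ?_⟩
    refine MulEquiv.ext fun x => ?_
    simp only [MulAut.mul_apply, MulAut.conj_apply, map_mul, map_inv, MulAut.apply_inv_self]
  have htop : M ⊔ (MulAut.conj : ↥H →* MulAut ↥H).range = ⊤ :=
    hM.2 _ (lt_of_le_of_ne le_sup_left fun e => hφM (e ▸ Subgroup.mem_sup_right hφ))
  let c : G →* MulAut ↥H := MulAut.conjNormal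
  have hc : ∀ a : ↥H, c (a : G) = MulAut.conj a := fun a => MulAut.conjNormal_val
  have hX : M.comap c ⊔ H = ⊤ := by
    refine top_le_iff.1 fun g _ => ?_
    obtain ⟨m, hm, i, ⟨a, rfl⟩, e⟩ := Subgroup.mem_sup_of_normal_right.1 (htop.ge (Subgroup.mem_top (c g)))
    have hmem : g * (a : G)⁻¹ ∈ M.comap c := by
      rw [Subgroup.mem_comap, map_mul, map_inv, hc, ← e, mul_inv_cancel_right]
      exact hm
    have h2 := Subgroup.mul_mem_sup hmem a.2
    rwa [inv_mul_cancel_right] at h2
  have htop' : M.comap c = ⊤ :=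
    frattini_nongenerating (top_le_iff.1 (hX.ge.trans (sup_le_sup_left hH _)))
  obtain ⟨a, rfl⟩ := hφ
  refine hφM ?_
  rw [← hc]
  exact htop'.ge (Subgroup.mem_top _)

end Cfsg.Agent.S0576
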