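import Cfsg.Statements.S0578
import Mathlib
import Cfsg.Agent.Lib.Solv.MinimalNonNilpotent
import Cfsg.Agent.Lib.Solv.Coprime
import Cfsg.Agent.S0015
-- import your own Cfsg.Agent.* helpers here

set_option autoImplicit false
open Cfsg

namespace Cfsg.Agent.S0578

/-- If in a finite group the normalizer of each abelian subgroup coincides with its centralizer, then the group is abelian. -/
theorem result {G : Type*} [Group G] [Finite G] (h : ∀ A : Subgroup G, IsMulCommutative A → Subgroup.normalizer (A : Set G) = Subgroup.centralizer (A : Set G)) : IsMulCommutative G := by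
  have habel : ∀ H : Subgroup G, Group.IsNilpotent H → IsMulCommutative H := by
    intro H hH
    haveI := hH
    obtain ⟨A, hA⟩ := (Set.toFinite {A : Subgroup H | A.Normal ∧ IsMulCommutative A}).exists_maximal
      ⟨⊥, inferInstance, ⟨⟨fun a b => Subsingleton.elim _ _⟩⟩⟩
    obtain ⟨hAn, hAc⟩ := hA.1
    haveI := hAn
    haveI := hAc
    have hC : Subgroup.centralizer (A : Set H) = A :=
      Cfsg.Agent.S0015.result A fun M hM hMc hle => le_antisymm (hA.2 ⟨hM, hMc⟩ hle) hle
    have hAm : IsMulCommutative (A.map H.subtype) := by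
      refine ⟨⟨fun a b => Subtype.ext ?_⟩⟩
      obtain ⟨a', ha', ea⟩ := a.2
      obtain ⟨b', hb', eb⟩ := b.2
      show (a : G) * b = b * a
      rw [← ea, ← eb, ← map_mul, ← map_mul]
      exact congrArg _ (congrArg Subtype.val (mul_comm' (⟨a', ha'⟩ : A) ⟨b', hb'⟩))
    have htop : A = ⊤ := by
      rw [← hC, eq_top_iff]
      intro x _
      refine Subgroup.mem_centralizer_iff.2 fun a ha => Subtype.ext ?_
      have hx : (x : G) ∈ Subgroup.normalizer ((A.map H.subtype : Subgroup G) : Set G) :=
        Subgroup.le_normalizer_map H.subtype (Subgroup.mem_map_of_mem H.subtype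
          (Subgroup.normalizer_eq_top_iff.2 hAn ▸ Subgroup.mem_top x))
      rw [h _ hAm] at hx
      exact Subgroup.mem_centralizer_iff.1 hx _ (Subgroup.mem_map_of_mem H.subtype ha)
    refine ⟨⟨fun a b => ?_⟩⟩
    exact congrArg Subtype.val (mul_comm' (⟨a, htop ▸ Subgroup.mem_top a⟩ : A) ⟨b, htop ▸ Subgroup.mem_top b⟩)
  have hnil : Group.IsNilpotent G := Cfsg.Lib.Solv.nilpotent_of_all_complements fun p hp => by
    haveI := Fact.mk hp
    let P : Sylow p G := default
    have hP : IsMulCommutative (P : Subgroup G) := habel _ P.isPGroup'.isNilpotent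
    exact ⟨P, (MonoidHom.transferSylow P (h _ hP).le).ker, inferInstance,
      MonoidHom.ker_transferSylow_isComplement' P (h _ hP).le⟩
  have ht := habel ⊤ (Group.isNilpotent_top.2 hnil)
  exact ⟨⟨fun a b => congrArg Subtype.val (mul_comm' (⟨a, Subgroup.mem_top a⟩ : (⊤ : Subgroup G)) ⟨b, Subgroup.mem_top b⟩)⟩⟩

end Cfsg.Agent.S0578
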