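import Cfsg.Statements.S0586
import Mathlib
import Cfsg.Agent.Lib.Solv.Frattini
import Cfsg.Agent.Lib.Solv.MinNormal
import Cfsg.Agent.Lib.Solv.Coprime
-- import your own Cfsg.Agent.* helpers here

set_option autoImplicit false
open Cfsg
open scoped Pointwise

namespace Cfsg.Agent.S0586

/-- If the Frattini subgroup of a finite group G is trivial, then the Fitting subgroup of G equals the join of all abelian minimal normal subgroups of G. -/
theorem result {G : Type*} [Group G] [Finite G] (hΦ : frattini G = ⊥) : Cfsg.fittingSubgroup G = sSup {N : Subgroup G | N.Normal ∧ N ≠ ⊥ ∧ IsMulCommutative N ∧ ∀ K : Subgroup G, K.Normal → K ≤ N → K = ⊥ ∨ K = N} := by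
  classical
  set F := Cfsg.fittingSubgroup G with hF
  set S := {N : Subgroup G | N.Normal ∧ N ≠ ⊥ ∧ IsMulCommutative N ∧ ∀ K : Subgroup G, K.Normal → K ≤ N → K = ⊥ ∨ K = N} with hS
  have hSF : sSup S ≤ F := sSup_le fun N hN => by
    haveI := hN.2.2.1
    exact Cfsg.Lib.Solv.le_fitting hN.1
      (Cfsg.Lib.Solv.nilpotent_of_commutator_le_center fun x _ => Subgroup.mem_center_iff.2 fun y =>
        IsMulCommutative.is_comm.comm y x)
  haveI hFn : Group.IsNilpotent F := Cfsg.Lib.Solv.fitting_isNilpotent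
  have hΦF : frattini ↥F = ⊥ := by
    have h := Cfsg.Lib.Solv.map_frattini_le F
    rw [hΦ, le_bot_iff] at h
    exact (Subgroup.map_eq_bot_iff_of_injective _ F.subtype_injective).1 h
  have hFc : IsMulCommutative F := by
    have h1 : commutator ↥F ≤ frattini ↥F := fun x hx => Cfsg.Lib.Solv.mem_frattini_iff.2 fun M hM => by
      haveI := Cfsg.Lib.Solv.coatom_normal_of_nilpotent hM
      obtain ⟨y, -, hy⟩ := SetLike.exists_of_lt (lt_top_iff_ne_top.2 hM.1)
      have htop : M ⊔ Subgroup.zpowers y = ⊤ :=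
        hM.2 _ (lt_of_le_of_ne le_sup_left fun e => hy (e ▸ Subgroup.mem_sup_right (Subgroup.mem_zpowers y)))
      exact Subgroup.Normal.commutator_le_of_self_sup_commutative_eq_top htop inferInstance hx
    rw [hΦF, le_bot_iff] at h1
    refine ⟨⟨fun a b => commutatorElement_eq_one_iff_commute.1 ?_⟩⟩
    rw [← Subgroup.mem_bot, ← h1]
    exact Subgroup.commutator_mem_commutator (Subgroup.mem_top a) (Subgroup.mem_top b)
  haveI : (sSup S).Normal := Subgroup.sSup_normal _ fun N hN => hN.1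
  haveI : IsMulCommutative ↥(sSup S) :=
    ⟨⟨fun a b => Subtype.ext (setLike_mul_comm (hSF a.2) (hSF b.2))⟩⟩
  obtain ⟨H, hH⟩ := Cfsg.Lib.Solv.exists_complement_of_frattini_eq_bot hΦ (sSup S)
  have hbot : F ⊓ H = ⊥ := by
    by_contra hne
    haveI : (F ⊓ H).Normal := by
      rw [← Subgroup.normalizer_eq_top_iff, ← top_le_iff, ← hH.sup_eq_top]
      refine sup_le (fun a ha => ?_) (fun a ha => ?_)
      · exact Cfsg.Lib.Solv.normalizer_eq_of_centralizes
          (Subgroup.mem_centralizer_iff.2 fun z hz => setLike_mul_comm hz.1 (hSF ha))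
      · rw [← Cfsg.Lib.Solv.conj_smul_eq_self_iff, Subgroup.smul_inf, Cfsg.Lib.Solv.conj_smul_normal,
          Cfsg.Lib.Solv.conj_smul_eq_self_iff.2 (Subgroup.le_normalizer ha)]
    obtain ⟨N, hN, hNle, hNne, hNmin⟩ := Cfsg.Lib.Solv.exists_minimal_normal_le hne
    have hmem : N ∈ S := ⟨hN, hNne,
      ⟨⟨fun a b => Subtype.ext (setLike_mul_comm (hNle a.2).1 (hNle b.2).1)⟩⟩, hNmin⟩
    refine hNne (le_bot_iff.1 ?_)
    rw [← hH.disjoint.eq_bot]
    exact le_inf (le_sSup hmem) (hNle.trans inf_le_right)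
  refine le_antisymm (fun x hx => ?_) hSF
  obtain ⟨a, ha, k, hk, rfl⟩ := Subgroup.mem_sup_of_normal_left.1 (hH.sup_eq_top.ge (Subgroup.mem_top x))
  have hkb : k ∈ F ⊓ H := ⟨by
    have := F.mul_mem (F.inv_mem (hSF ha)) hx
    rwa [inv_mul_cancel_left] at this, hk⟩
  rw [hbot, Subgroup.mem_bot] at hkb
  rw [hkb, mul_one]
  exact ha

end Cfsg.Agent.S0586
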