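import Cfsg.Statements.S0587
import Mathlib
import Cfsg.Agent.Lib.Solv.Primitive
import Cfsg.Agent.Lib.Solv.Frattini
import Cfsg.Agent.Lib.Solv.PGroupBasic
import Cfsg.Agent.Lib.Solv.Cores
import Cfsg.Agent.Lib.Transfer.Action
import Cfsg.Agent.Lib.Solv.Coprime2
-- import your own Cfsg.Agent.* helpers here

set_option autoImplicit false
open Cfsg

namespace Cfsg.Agent.S0587

/-- Let G be a finite group whose largest normal p-subgroup L is nontrivial, and M a maximal subgroup of G with trivial normal core. Then L is elementary abelian, M is a complement to L, L is a minimal normal subgroup of G, the centralizer of L is L, and for every prime q such that the largest normal q-subgroup of M is nontrivial, the order of L is congruent to 1 modulo q and q ≠ p. -/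
theorem result {G : Type*} [Group G] [Finite G] (p : ℕ) [Fact p.Prime] (hL : Cfsg.pCore p G ≠ ⊥) (M : Subgroup G) (hM : IsCoatom M) (hcore : M.normalCore = ⊥) : Cfsg.IsElementaryAbelian p (Cfsg.pCore p G) ∧ Subgroup.IsComplement' (Cfsg.pCore p G) M ∧ (∀ K : Subgroup G, K.Normal → K ≤ Cfsg.pCore p G → K = ⊥ ∨ K = Cfsg.pCore p G) ∧ Subgroup.centralizer ((Cfsg.pCore p G : Subgroup G) : Set G) = Cfsg.pCore p G ∧ ∀ (q : ℕ) [Fact q.Prime], Cfsg.pCore q ↥M ≠ ⊥ → Nat.card (Cfsg.pCore p G) % q = 1 % q ∧ q ≠ p := by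
  set L := Cfsg.pCore p G with hLdef
  haveI : L.Characteristic := Cfsg.Lib.Solv.pCore_characteristic p
  have hpL : IsPGroup p L := Cfsg.Lib.Solv.isPGroup_pCore p
  have hfr : frattini L = ⊥ := by
    have h1 : (frattini L).map L.subtype ≤ M :=
      (Cfsg.Lib.Solv.map_frattini_le L).trans (frattini_le_coatom hM)
    haveI : ((frattini L).map L.subtype).Normal := inferInstance
    have h2 := Subgroup.normal_le_normalCore.2 h1
    rw [hcore, le_bot_iff, Subgroup.map_eq_bot_iff_of_injective _ L.subtype_injective] at h2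
    exact h2
  have hLc : IsMulCommutative L := by
    have h := Cfsg.Lib.Solv.commutator_le_frattini hpL
    rw [hfr] at h
    refine ⟨⟨fun a b => ?_⟩⟩
    have h2 := h (Subgroup.commutator_mem_commutator (Subgroup.mem_top a) (Subgroup.mem_top b))
    exact commutatorElement_eq_one_iff_mul_comm.1 (Subgroup.mem_bot.1 h2)
  have hpow : ∀ a ∈ L, a ^ p = 1 := fun a ha => by
    have h2 := Cfsg.Lib.Solv.pow_mem_frattini hpL ⟨a, ha⟩
    rw [hfr, Subgroup.mem_bot] at h2
    exact congrArg Subtype.val h2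
  obtain ⟨hcompl, hCL⟩ := Cfsg.Lib.Solv.core_free_maximal hM hcore L hL hLc
  have hmin : ∀ K : Subgroup G, K.Normal → K ≤ L → K = ⊥ ∨ K = L := by
    intro K hK hKL
    by_cases hK0 : K = ⊥
    · exact Or.inl hK0
    refine Or.inr (Subgroup.eq_of_le_of_card_ge hKL ?_)
    have hKc : IsMulCommutative K := ⟨⟨fun a b => Subtype.ext
      (Cfsg.Lib.Solv.commute_of_abelian hLc (hKL a.2) (hKL b.2))⟩⟩
    have h1 := (Cfsg.Lib.Solv.core_free_maximal hM hcore K hK0 hKc).1.card_mul
    have h2 := hcompl.card_mul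
    rw [← h2] at h1
    exact le_of_eq (Nat.eq_of_mul_eq_mul_right Nat.card_pos h1).symm
  refine ⟨⟨hLc, hpow⟩, hcompl, hmin, hCL, fun q hq hQ => ?_⟩
  set Q := (Cfsg.pCore q ↥M).map M.subtype with hQdef
  have hQq : IsPGroup q Q := (Cfsg.Lib.Solv.isPGroup_pCore q).map _
  have hQne : Q ≠ ⊥ := fun h => hQ ((Subgroup.map_eq_bot_iff_of_injective _ M.subtype_injective).1 h)
  have hQM : M ≤ Subgroup.normalizer (Q : Set G) := by
    intro m hm
    exact Subgroup.le_normalizer_map M.subtype (Subgroup.mem_map_of_mem M.subtype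
      (Subgroup.normalizer_eq_top_iff.2 (inferInstance : (Cfsg.pCore q ↥M).Normal) ▸
        Subgroup.mem_top (⟨m, hm⟩ : M)))
  have hfix : L ⊓ Subgroup.centralizer (Q : Set G) = ⊥ := by
    set C := L ⊓ Subgroup.centralizer (Q : Set G) with hC
    have hCn : C.Normal := by
      refine Subgroup.normalizer_eq_top_iff.1 (top_le_iff.1 ?_)
      rw [← hcompl.sup_eq_top]
      refine sup_le (fun l hl => ?_) (le_trans (show M ≤ Subgroup.normalizer (L : Set G) ⊓ Subgroup.normalizer (Subgroup.centralizer (Q : Set G) : Set G) from le_inf ?_ (hQM.trans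
        (Cfsg.Lib.Solv.normalizer_le_normalizer_centralizer Q))) ?_)
      · refine Subgroup.mem_normalizer_iff.2 fun x => ⟨fun hx => ?_, fun hx => ?_⟩
        · rw [Cfsg.Lib.Solv.commute_of_abelian hLc hl hx.1, mul_inv_cancel_right]; exact hx
        · have hxL : x ∈ L := by
            simpa [mul_assoc] using L.mul_mem (L.mul_mem (L.inv_mem hl) hx.1) hl
          rw [Cfsg.Lib.Solv.commute_of_abelian hLc hl hxL, mul_inv_cancel_right] at hx; exact hx
      · exact le_top.trans (Subgroup.normalizer_eq_top_iff.2 (inferInstance : L.Normal)).ge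
      · intro g hg
        refine Subgroup.mem_normalizer_iff.2 fun x => ?_
        rw [hC, Subgroup.mem_inf, Subgroup.mem_inf, (Subgroup.mem_normalizer_iff.1 hg.1 x),
          (Subgroup.mem_normalizer_iff.1 hg.2 x)]
    refine (hmin C hCn inf_le_left).resolve_right fun h => hQne (le_bot_iff.1 ?_)
    have h' : L ≤ Subgroup.centralizer (Q : Set G) := inf_eq_left.1 h
    have hQL : Q ≤ L := (Subgroup.le_centralizer_iff.1 h').trans hCL.le
    exact (le_inf hQL (Subgroup.map_subtype_le _)).trans hcompl.disjoint.eq_bot.le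
  have hmod := Cfsg.Lib.Transfer.card_modEq_card_inf_centralizer (p := q) L Q hQq
    ((Subgroup.map_subtype_le _).trans (by rw [Subgroup.normalizer_eq_top]; exact le_top))
  rw [hfix, Subgroup.card_bot] at hmod
  refine ⟨hmod, ?_⟩
  intro hqp
  obtain ⟨d, hd⟩ := IsPGroup.iff_card.1 hpL
  rcases d with _ | d
  · exact hL (Subgroup.eq_bot_of_card_eq L (by simpa using hd))
  · rw [hd, hqp] at hmod
    have h0 : p ^ (d + 1) ≡ 0 [MOD p] := Nat.modEq_zero_iff_dvd.2 (dvd_pow_self p d.succ_ne_zero)
    exact (Fact.out : p.Prime).ne_one (Nat.dvd_one.1 (Nat.modEq_zero_iff_dvd.1 (hmod.symm.trans h0)))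

end Cfsg.Agent.S0587
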