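import Cfsg.Statements.S0590
import Mathlib
import Cfsg.Agent.Lib.PLocal.Offender
-- import your own Cfsg.Agent.* helpers here

set_option autoImplicit false
open Cfsg
open scoped commutatorElement

namespace Cfsg.Agent.S0590

/-- Quadratic action on an elementary abelian p-group forces the acting group modulo the kernel of the action to be elementary abelian. -/
theorem result {G : Type*} [Group G] [Finite G] {p : ℕ} [Fact p.Prime] (V H : Subgroup G) (hV : Cfsg.IsElementaryAbelian p V) (hHV : H ≤ Subgroup.normalizer (V : Set G)) (hq : ⁅⁅V, H⁆, H⁆ = ⊥) : ⁅H, H⁆ ≤ Subgroup.centralizer (V : Set G) ∧ ∀ a ∈ H, a ^ p ∈ Subgroup.centralizer (V : Set G) := by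
  have h1 : ⁅⁅H, V⁆, H⁆ = ⊥ := by rw [Subgroup.commutator_comm H V]; exact hq
  refine ⟨Subgroup.commutator_eq_bot_iff_le_centralizer.1 (Subgroup.commutator_commutator_eq_bot_of_rotate h1 hq), fun a ha => ?_⟩
  rw [Subgroup.mem_centralizer_iff]
  intro v hv
  set c := a * v * a⁻¹ * v⁻¹ with hc
  have hcV : c ∈ V := mul_mem (Lib.PLocal.conj_mem_of_le_normalizer hHV ha hv) (inv_mem hv)
  have hca : Commute a c := by
    have h2 : ⁅V, H⁆ ≤ Subgroup.centralizer (H : Set G) := Subgroup.commutator_eq_bot_iff_le_centralizer.1 hq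
    have h3 : c ∈ ⁅V, H⁆ := by
      have : c = ⁅v, a⁆⁻¹ := by rw [hc]; simp only [commutatorElement_def]; group
      rw [this]; exact inv_mem (Subgroup.commutator_mem_commutator hv ha)
    exact Subgroup.mem_centralizer_iff.1 (h2 h3) a ha
  have key : ∀ n : ℕ, a ^ n * v * (a ^ n)⁻¹ = c ^ n * v := by
    intro n
    induction n with
    | zero => simp
    | succ n ih =>
      calc a ^ (n + 1) * v * (a ^ (n + 1))⁻¹ = a * (a ^ n * v * (a ^ n)⁻¹) * a⁻¹ := by rw [pow_succ']; group
        _ = (a * c ^ n) * v * a⁻¹ := by rw [ih]; group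
        _ = c ^ n * (a * v * a⁻¹) := by rw [(hca.pow_right n).eq]; group
        _ = _ := by rw [pow_succ, hc]; group
  have h4 := key p
  rw [hV.2 c hcV, one_mul, mul_inv_eq_iff_eq_mul] at h4
  exact h4.symm

end Cfsg.Agent.S0590
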