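import Cfsg.Statements.S0591
import Mathlib
import Cfsg.Agent.Lib.PLocal.Offender
-- import your own Cfsg.Agent.* helpers here

set_option autoImplicit false
open Cfsg
open scoped commutatorElement

namespace Cfsg.Agent.S0591

/-- For a quadratically acting element a on an elementary abelian p-group V, the fixed points C_V(a) have order at least the square root of the order of V. -/
theorem result {G : Type*} [Group G] [Finite G] {p : ℕ} [Fact p.Prime] (V : Subgroup G) (hV : Cfsg.IsElementaryAbelian p V) (a : G) (ha : a ∈ Subgroup.normalizer (V : Set G)) (hq : ⁅⁅V, Subgroup.zpowers a⁆, Subgroup.zpowers a⁆ = ⊥) : Nat.card V ≤ Nat.card ↥(V ⊓ Subgroup.centralizer (Subgroup.zpowers a : Set G)) ^ 2 := by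
  set C := V ⊓ Subgroup.centralizer (Subgroup.zpowers a : Set G)
  have hconj : ∀ v ∈ V, a * v * a⁻¹ ∈ V := fun v hv => (Subgroup.mem_normalizer_iff.1 ha v).1 hv
  let f : V →* V := MonoidHom.mk' (fun v => ⟨a * v * a⁻¹ * (v : G)⁻¹, mul_mem (hconj v v.2) (inv_mem v.2)⟩)
    (fun v w => Subtype.ext (by
      show a * ((v : G) * w) * a⁻¹ * ((v : G) * w)⁻¹ = a * v * a⁻¹ * (v : G)⁻¹ * (a * w * a⁻¹ * (w : G)⁻¹)
      calc a * ((v : G) * w) * a⁻¹ * ((v : G) * w)⁻¹ = a * v * a⁻¹ * ((a * w * a⁻¹ * (w : G)⁻¹) * (v : G)⁻¹) := by group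
        _ = _ := by rw [Lib.PLocal.elem_comm hV (mul_mem (hconj w w.2) (inv_mem w.2)) (inv_mem v.2)]; group))
  have hker : f.ker.map V.subtype ≤ C := by
    rintro _ ⟨v, hv, rfl⟩
    have h1 : a * (v : G) * a⁻¹ * (v : G)⁻¹ = 1 := congrArg Subtype.val hv
    refine ⟨v.2, Subgroup.mem_centralizer_iff.2 ?_⟩
    rintro _ ⟨i, rfl⟩
    exact ((show Commute a (v : G) from mul_inv_eq_iff_eq_mul.1 (mul_inv_eq_one.1 h1)).zpow_left i).eq
  have hrange : f.range.map V.subtype ≤ C := by
    rintro _ ⟨_, ⟨v, rfl⟩, rfl⟩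
    refine ⟨(f v).2, ?_⟩
    have h2 := Subgroup.commutator_eq_bot_iff_le_centralizer.1 hq
    have h3 : a * (v : G) * a⁻¹ * (v : G)⁻¹ = ⁅(v : G), a⁆⁻¹ := by simp only [commutatorElement_def]; group
    show a * (v : G) * a⁻¹ * (v : G)⁻¹ ∈ Subgroup.centralizer (Subgroup.zpowers a : Set G)
    rw [h3]
    exact inv_mem (h2 (Subgroup.commutator_mem_commutator v.2 (Subgroup.mem_zpowers a)))
  rw [← f.ker.card_mul_index, Subgroup.index_ker, sq]
  exact Nat.mul_le_mul ((Subgroup.card_map_of_injective V.subtype_injective).ge.trans (Subgroup.card_le_of_le hker))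
    ((Subgroup.card_map_of_injective V.subtype_injective).ge.trans (Subgroup.card_le_of_le hrange))

end Cfsg.Agent.S0591
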