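import Cfsg.Statements.S0592
import Mathlib
-- import your own Cfsg.Agent.* helpers here

set_option autoImplicit false
open Cfsg

namespace Cfsg.Agent.S0592

open Module

universe uK uG uW

variable {K : Type uK} [Field K] [Fintype K] {p : ℕ} [hp : Fact p.Prime] [CharP K p]
variable {H : Type uG} [Group H] {a b : H}

/-- The quadratic relation for a representation. -/
def Quad {W : Type*} [AddCommGroup W] [Module K W] (ρ : H →* Module.End K W) (g : H) : Prop :=
  (ρ g - 1) * (ρ g - 1) = 0

theorem exists_eigen {W : Type*} [AddCommGroup W] [Module K W] [Nontrivial W] (T : Module.End K W)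
    {e k : ℕ} (hT : T ^ (p ^ e * k) = 1) (hk : k ∣ Fintype.card K - 1) :
    ∃ (μ : K) (w : W), w ≠ 0 ∧ T w = μ • w := by
  classical
  have hk0 : k ≠ 0 := by
    rintro rfl
    have := Fintype.one_lt_card (α := K)
    obtain ⟨c, hc⟩ := hk
    omega
  haveI : NeZero k := ⟨hk0⟩
  obtain ⟨g, hg⟩ := IsCyclic.exists_ofOrder_eq_natCard (α := Kˣ)
  rw [Nat.card_units, Nat.card_eq_fintype_card] at hg
  obtain ⟨ζ, hζ⟩ : ∃ ζ : K, IsPrimitiveRoot ζ k := by
    obtain ⟨c, hc⟩ := hk
    have h1 : IsPrimitiveRoot ((g : K)) (Fintype.card K - 1) := by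
      rw [← hg]; exact (IsPrimitiveRoot.orderOf g).map_of_injective (f := Units.coeHom K) Units.val_injective
    exact ⟨(g : K) ^ c, h1.pow (by have := Fintype.one_lt_card (α := K); omega) (by rw [hc, mul_comm])⟩
  have hS : Polynomial.aeval (T ^ p ^ e) (∏ z ∈ Polynomial.nthRootsFinset k (1 : K), (Polynomial.X - Polynomial.C z)) = 0 := by
    rw [← Polynomial.X_pow_sub_one_eq_prod (Nat.pos_of_ne_zero hk0) hζ, map_sub, map_pow, map_one,
      Polynomial.aeval_X, ← pow_mul, hT, sub_self]
  obtain ⟨z, hz⟩ : ∃ z : K, ¬ Function.Injective (T ^ p ^ e - algebraMap K (Module.End K W) z) := by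
    by_contra hc
    push Not at hc
    have hinj : ∀ s : Finset K, Function.Injective
        (Polynomial.aeval (T ^ p ^ e) (∏ z ∈ s, (Polynomial.X - Polynomial.C z))) := by
      intro s
      induction s using Finset.induction_on with
      | empty => simp [Function.Injective]
      | insert x s hx ih =>
        rw [Finset.prod_insert hx, map_mul, map_sub, Polynomial.aeval_X, Polynomial.aeval_C]
        exact (hc x).comp ih
    have h0 := hinj (Polynomial.nthRootsFinset k (1 : K))
    rw [hS] at h0
    obtain ⟨w, hw⟩ := exists_ne (0 : W)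
    exact hw (h0 (by simp))
  obtain ⟨μ, hμ⟩ := (PerfectRing.bijective_frobenius (R := K) (p := p)).2.iterate e z
  simp only [pow_iterate] at hμ
  haveI : CharP (Module.End K W) p := charP_of_injective_algebraMap (algebraMap K (Module.End K W)).injective p
  have hpow : T ^ p ^ e - algebraMap K (Module.End K W) z = (T - algebraMap K (Module.End K W) μ) ^ p ^ e := by
    rw [sub_pow_char_pow_of_commute _ _ (Algebra.commute_algebraMap_right μ T), ← map_pow, hμ]
  have hni : ¬ Function.Injective (T - algebraMap K (Module.End K W) μ) := fun hi => hz (by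
    rw [hpow, Module.End.coe_pow]; exact hi.iterate _)
  rw [← LinearMap.ker_eq_bot, ← ne_eq, Submodule.ne_bot_iff] at hni
  obtain ⟨w, hw, hw0⟩ := hni
  refine ⟨μ, w, hw0, ?_⟩
  rw [LinearMap.mem_ker, LinearMap.sub_apply, Module.algebraMap_end_apply, sub_eq_zero] at hw
  exact hw

theorem eq_zero_of_pgroup [Finite H] {W : Type*} [AddCommGroup W] [Module K W] [Finite W]
    (ρ : H →* Module.End K W) (hgen : Subgroup.closure {a, b} = ⊤) (hpg : ∀ h : H, ∃ j : ℕ, ρ h ^ p ^ j = 1)
    [Nontrivial W] : ∃ w : W, w ≠ 0 ∧ ∀ h : H, ρ h w = w := by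
  let R := ρ.toHomUnits.range
  have hR : IsPGroup p R := by
    rintro ⟨_, h, rfl⟩
    obtain ⟨j, hj⟩ := hpg h
    refine ⟨j, Subtype.ext (Units.ext ?_)⟩
    simpa using hj
  letI : MulAction R W :=
    { smul := fun r w => ((r : (Module.End K W)ˣ) : Module.End K W) w
      one_smul := fun w => rfl
      mul_smul := fun r s w => rfl }
  have hpW : p ∣ Nat.card W := by
    have hW : Module.finrank K W ≠ 0 := (Module.finrank_pos (R := K) (M := W)).ne'
    rw [Nat.card_eq_fintype_card (α := K) |>.symm.trans rfl |> fun _ => Module.natCard_eq_pow_finrank (K := K) (V := W)]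
    obtain ⟨n, -, hn⟩ := FiniteField.card K p
    rw [Nat.card_eq_fintype_card, hn]
    exact dvd_pow (dvd_pow_self p n.ne_zero) hW
  obtain ⟨w, hw, hne⟩ := hR.exists_fixed_point_of_prime_dvd_card_of_fixed_point W hpW
    (a := (0 : W)) (fun r => map_zero ((r : (Module.End K W)ˣ) : Module.End K W))
  exact ⟨w, hne.symm, fun h => hw ⟨ρ.toHomUnits h, h, rfl⟩⟩

theorem irreducible_case [Finite H] {W : Type*} [AddCommGroup W] [Module K W] [Finite W] [Nontrivial W]
    (ρ : H →* Module.End K W) (hgen : Subgroup.closure {a, b} = ⊤)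
    (ha : Quad ρ a) (hb : Quad ρ b) {e k : ℕ} (hab : (a * b) ^ (p ^ e * k) = 1)
    (hk : k ∣ Fintype.card K - 1)
    (hirr : ∀ U : Submodule K W, (∀ h : H, ∀ u ∈ U, ρ h u ∈ U) → U = ⊥ ∨ U = ⊤)
    (hnt : ∃ h : H, ρ h ≠ 1) :
    ∃ φ : H →* Matrix.SpecialLinearGroup (Fin 2) K, ¬ IsPGroup p φ.range := by
  haveI : Module.Finite K W := Module.Finite.of_finite
  set A := ρ a - 1 with hAdef
  set B := ρ b - 1 with hBdef
  have hA : A * A = 0 := ha
  have hB : B * B = 0 := hb
  have hρa : ρ a = 1 + A := by rw [hAdef, add_sub_cancel]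
  have hρb : ρ b = 1 + B := by rw [hBdef, add_sub_cancel]
  have hinv_of : ∀ (g : H) (X : Module.End K W), ρ g = 1 + X → X * X = 0 → ρ g⁻¹ = 1 - X := by
    intro g X hX hXX
    have h1 : ρ g⁻¹ * ρ g = 1 := by rw [← map_mul, inv_mul_cancel, map_one]
    have h2 : ρ g * (1 - X) = 1 := by
      rw [hX, add_mul, one_mul, mul_sub, mul_one, hXX, sub_zero, sub_add_cancel]
    exact left_inv_eq_right_inv h1 h2
  have hai := hinv_of a A hρa hA
  have hbi := hinv_of b B hρb hB
  have hclo : ∀ U : Submodule K W, (∀ u ∈ U, A u ∈ U) → (∀ u ∈ U, B u ∈ U) →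
      ∀ h : H, ∀ u ∈ U, ρ h u ∈ U := by
    intro U hUA hUB h
    have hh : h ∈ Subgroup.closure {a, b} := hgen ▸ Subgroup.mem_top h
    induction hh using Subgroup.closure_induction'' with
    | one => intro u hu; simpa using hu
    | mem x hx =>
      intro u hu
      rcases hx with rfl | rfl
      · rw [hρa, LinearMap.add_apply]; exact U.add_mem hu (hUA u hu)
      · rw [hρb, LinearMap.add_apply]; exact U.add_mem hu (hUB u hu)
    | inv_mem x hx =>
      intro u hu
      rcases hx with rfl | rfl
      · rw [hai, LinearMap.sub_apply]; exact U.sub_mem hu (hUA u hu)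
      · rw [hbi, LinearMap.sub_apply]; exact U.sub_mem hu (hUB u hu)
    | mul x y _ _ hx hy => intro u hu; rw [map_mul, Module.End.mul_apply]; exact hx _ (hy u hu)
  -- the central element
  set T := ρ (a * b) with hT
  obtain ⟨μ, v, hv, hTv⟩ := exists_eigen (p := p) T (e := e) (k := k) (by rw [hT, ← map_pow, hab, map_one]) hk
  have hμ : μ ≠ 0 := by
    rintro rfl
    rw [zero_smul] at hTv
    refine hv ?_
    have h2 := congrArg (ρ (a * b)⁻¹) hTv
    rw [hT, ← Module.End.mul_apply, ← map_mul, inv_mul_cancel, map_one, Module.End.one_apply, map_zero] at h2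
    exact h2
  have hTiv : ρ (a * b)⁻¹ v = μ⁻¹ • v := by
    have h2 := congrArg (ρ (a * b)⁻¹) hTv
    rw [hT, ← Module.End.mul_apply, ← map_mul, inv_mul_cancel, map_one, Module.End.one_apply, map_smul] at h2
    rw [eq_inv_smul_iff₀ hμ, ← h2]
  set C := A * B + B * A with hC
  have hsum : ρ (a * b) + ρ (a * b)⁻¹ = 2 + C := by
    rw [mul_inv_rev, map_mul, map_mul, hρa, hρb, hai, hbi, hC]
    simp only [add_mul, mul_add, sub_mul, mul_sub, one_mul, mul_one]
    rw [show (2 : Module.End K W) = 1 + 1 from one_add_one_eq_two.symm]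
    abel
  set c := μ + μ⁻¹ - 2
  have hCv : C v = c • v := by
    have h3 := congrArg (fun X : Module.End K W => X v) hsum
    simp only [LinearMap.add_apply] at h3
    rw [← hT, hTv, hTiv] at h3
    have h4 : (2 : Module.End K W) v = (2 : K) • v := by
      rw [show (2 : Module.End K W) = 1 + 1 from one_add_one_eq_two.symm, LinearMap.add_apply,
        Module.End.one_apply, show (2 : K) = 1 + 1 from one_add_one_eq_two.symm, add_smul, one_smul]
    rw [h4] at h3
    simp only [c, sub_smul, add_smul]
    rw [h3]; abel
  have hCA : C * A = A * C := by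
    rw [hC, add_mul, mul_add, mul_assoc B A A, hA, mul_zero, ← mul_assoc A A B, hA, zero_mul, zero_add,
      add_zero, mul_assoc]
  have hCB : C * B = B * C := by
    rw [hC, add_mul, mul_add, mul_assoc A B B, hB, mul_zero, ← mul_assoc B B A, hB, zero_mul, zero_add,
      add_zero, mul_assoc]
  have hscal : ∀ u : W, C u = c • u := by
    let U : Submodule K W := LinearMap.ker (C - algebraMap K (Module.End K W) c)
    have hU : ∀ u, u ∈ U ↔ C u = c • u := fun u => by
      rw [LinearMap.mem_ker, LinearMap.sub_apply, Module.algebraMap_end_apply, sub_eq_zero]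
    have hinv := hclo U (fun u hu => (hU _).2 (by
        rw [← Module.End.mul_apply, hCA, Module.End.mul_apply, (hU u).1 hu, map_smul]))
      (fun u hu => (hU _).2 (by
        rw [← Module.End.mul_apply, hCB, Module.End.mul_apply, (hU u).1 hu, map_smul]))
    have htop : U = ⊤ := (hirr U hinv).resolve_left fun e => hv (by
      have := (hU v).2 hCv
      rwa [e, Submodule.mem_bot] at this)
    exact fun u => (hU u).1 (htop ▸ Submodule.mem_top)
  obtain ⟨u, hu, hAu⟩ : ∃ u : W, u ≠ 0 ∧ A u = 0 := by
    obtain ⟨w, hw⟩ := exists_ne (0 : W)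
    by_cases hAw : A w = 0
    · exact ⟨w, hw, hAw⟩
    · exact ⟨A w, hAw, by rw [← Module.End.mul_apply, hA, LinearMap.zero_apply]⟩
  have hBB : B (B u) = 0 := by rw [← Module.End.mul_apply, hB, LinearMap.zero_apply]
  have hAB : A (B u) = c • u := by
    have := hscal u
    rw [hC, LinearMap.add_apply, Module.End.mul_apply, Module.End.mul_apply, hAu, map_zero, add_zero] at this
    exact this
  have hspan : Submodule.span K ({u, B u} : Set W) = ⊤ := by
    refine (hirr _ (hclo _ ?_ ?_)).resolve_left fun e => hu ?_
    · intro w hw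
      induction hw using Submodule.span_induction with
      | mem x hx =>
        rcases hx with rfl | rfl
        · rw [hAu]; exact Submodule.zero_mem _
        · rw [hAB]; exact Submodule.smul_mem _ _ (Submodule.subset_span (by simp))
      | zero => simp
      | add x y _ _ hx hy => rw [map_add]; exact Submodule.add_mem _ hx hy
      | smul t x _ hx => rw [map_smul]; exact Submodule.smul_mem _ _ hx
    · intro w hw
      induction hw using Submodule.span_induction with
      | mem x hx =>
        rcases hx with rfl | rfl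
        · exact Submodule.subset_span (by simp)
        · rw [hBB]; exact Submodule.zero_mem _
      | zero => simp
      | add x y _ _ hx hy => rw [map_add]; exact Submodule.add_mem _ hx hy
      | smul t x _ hx => rw [map_smul]; exact Submodule.smul_mem _ _ hx
    · have := Submodule.subset_span (R := K) (show u ∈ ({u, B u} : Set W) by simp)
      rw [e] at this
      exact this
  have hnfix : ¬ ∃ w : W, w ≠ 0 ∧ ∀ h : H, ρ h w = w := by
    rintro ⟨w, hw, hfix⟩
    obtain ⟨h, hh⟩ := hnt
    apply hh
    let U : Submodule K W := Submodule.span K {w}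
    have hUtop : U = ⊤ := (hirr U (fun g x hx => by
      obtain ⟨t, rfl⟩ := Submodule.mem_span_singleton.1 hx
      rw [map_smul, hfix]; exact hx)).resolve_left (by simpa [U] using hw)
    refine LinearMap.ext fun x => ?_
    obtain ⟨t, rfl⟩ := Submodule.mem_span_singleton.1 (hUtop ▸ Submodule.mem_top : x ∈ U)
    rw [map_smul, hfix, Module.End.one_apply]
  have hli : LinearIndependent K ![u, B u] := by
    rw [LinearIndependent.pair_iff' hu]
    intro t ht
    refine hnfix ⟨u, hu, fun h => ?_⟩
    have hBu : B u = 0 := by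
      have h2 := hBB
      rw [← ht, map_smul, ← ht, smul_smul, smul_eq_zero] at h2
      rcases h2 with h2 | h2
      · rw [mul_self_eq_zero] at h2
        rw [← ht, h2, zero_smul]
      · exact absurd h2 hu
    have hinv := hclo (Submodule.span K {u}) (fun x hx => by
        obtain ⟨s, rfl⟩ := Submodule.mem_span_singleton.1 hx
        rw [map_smul, hAu, smul_zero]; exact Submodule.zero_mem _) (fun x hx => by
        obtain ⟨s, rfl⟩ := Submodule.mem_span_singleton.1 hx
        rw [map_smul, hBu, smul_zero]; exact Submodule.zero_mem _)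
    have hh : h ∈ Subgroup.closure {a, b} := hgen ▸ Subgroup.mem_top h
    induction hh using Subgroup.closure_induction'' with
    | one => simp
    | mem x hx =>
      rcases hx with rfl | rfl
      · rw [hρa, LinearMap.add_apply, hAu, Module.End.one_apply, add_zero]
      · rw [hρb, LinearMap.add_apply, hBu, Module.End.one_apply, add_zero]
    | inv_mem x hx =>
      rcases hx with rfl | rfl
      · rw [hai, LinearMap.sub_apply, hAu, Module.End.one_apply, sub_zero]
      · rw [hbi, LinearMap.sub_apply, hBu, Module.End.one_apply, sub_zero]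
    | mul x y _ _ hx hy => rw [map_mul, Module.End.mul_apply, hy, hx]
  let bs : Module.Basis (Fin 2) K W := Module.Basis.mk hli (by
    rw [← hspan]
    exact Submodule.span_mono (by rintro x (rfl | rfl) <;> simp))
  let m : H →* Matrix (Fin 2) (Fin 2) K :=
    { toFun := fun h => LinearMap.toMatrixAlgEquiv bs (ρ h)
      map_one' := by rw [map_one]; exact map_one _
      map_mul' := fun x y => by rw [map_mul]; exact map_mul _ _ _ }
  have hdet : ∀ h : H, (m h).det = 1 := by
    intro h
    let d : H →* K :=
      { toFun := fun h => (m h).det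
        map_one' := by rw [map_one, Matrix.det_one]
        map_mul' := fun x y => by rw [map_mul, Matrix.det_mul] }
    have hq : ∀ g : H, Quad ρ g → d g = 1 := by
      intro g hg
      haveI : CharP (Module.End K W) p := charP_of_injective_algebraMap (algebraMap K (Module.End K W)).injective p
      have h1 : ρ g ^ p = 1 := by
        have h2 : (ρ g - 1) ^ p = 0 := by
          obtain ⟨j, hj⟩ := Nat.exists_eq_add_of_le hp.out.two_le
          rw [hj, pow_add, pow_two, show (ρ g - 1) * (ρ g - 1) = 0 from hg, zero_mul]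
        rwa [sub_pow_char_of_commute p (Commute.one_right _), one_pow, sub_eq_zero] at h2
      have h3 : d g ^ p = 1 := by
        show (m g).det ^ p = 1
        rw [← Matrix.det_pow]
        show ((LinearMap.toMatrixAlgEquiv bs) (ρ g) ^ p).det = 1
        rw [← map_pow, h1, map_one, Matrix.det_one]
      exact frobenius_inj K p (by rw [frobenius_def, h3, map_one])
    have hh : h ∈ Subgroup.closure {a, b} := hgen ▸ Subgroup.mem_top h
    show d h = 1
    induction hh using Subgroup.closure_induction with
    | one => exact map_one d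
    | mem x hx =>
      rcases hx with rfl | rfl
      · exact hq _ ha
      · exact hq _ hb
    | inv x _ hx =>
      have := (map_mul d x⁻¹ x).symm
      rw [hx, mul_one, inv_mul_cancel, map_one] at this
      exact this
    | mul x y _ _ hx hy => rw [map_mul, hx, hy, mul_one]
  let φ : H →* Matrix.SpecialLinearGroup (Fin 2) K :=
    { toFun := fun h => ⟨m h, hdet h⟩
      map_one' := Subtype.ext (map_one m)
      map_mul' := fun x y => Subtype.ext (map_mul m x y) }
  refine ⟨φ, fun hpg => hnfix (eq_zero_of_pgroup (p := p) ρ hgen fun h => ?_)⟩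
  obtain ⟨j, hj⟩ := hpg ⟨φ h, h, rfl⟩
  refine ⟨j, (LinearMap.toMatrixAlgEquiv bs).injective ?_⟩
  rw [map_pow, map_one]
  have h2 := congrArg (fun z : φ.range => ((z : Matrix.SpecialLinearGroup (Fin 2) K) : Matrix (Fin 2) (Fin 2) K)) hj
  have h3 : m (h ^ p ^ j) = 1 := by
    have h4 : φ (h ^ p ^ j) = 1 := by
      rw [map_pow]; exact congrArg Subtype.val hj
    exact congrArg Subtype.val h4
  rw [← map_pow, ← map_pow]
  exact h3

theorem main_aux [Finite H] (hgen : Subgroup.closure {a, b} = ⊤) {e k : ℕ}
    (hab : (a * b) ^ (p ^ e * k) = 1) (hk : k ∣ Fintype.card K - 1) :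
    ∀ (n : ℕ) (W : Type uW) [AddCommGroup W] [Module K W] [Finite W], Nat.card W ≤ n →
      ∀ ρ : H →* Module.End K W, Quad ρ a → Quad ρ b → (∃ h : H, ∀ j : ℕ, ρ h ^ p ^ j ≠ 1) →
      ∃ φ : H →* Matrix.SpecialLinearGroup (Fin 2) K, ¬ IsPGroup p φ.range := by
  intro n
  induction n with
  | zero => intro W _ _ _ h; exact absurd Nat.card_pos (Nat.not_lt.2 h)
  | succ n ih =>
    intro W _ _ _ hn ρ ha hb hnp
    obtain ⟨h, hh⟩ := hnp
    haveI : Nontrivial W := by
      by_contra hc
      rw [not_nontrivial_iff_subsingleton] at hc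
      exact hh 0 (LinearMap.ext fun x => Subsingleton.elim _ _)
    obtain ⟨U, hU⟩ := (Set.toFinite {U : Submodule K W | U ≠ ⊥ ∧ ∀ h : H, ∀ u ∈ U, ρ h u ∈ U}).exists_minimal
      ⟨⊤, top_ne_bot, fun _ _ _ => Submodule.mem_top⟩
    obtain ⟨hU1, hUinv⟩ := hU.1
    by_cases htriv : ∀ h : H, ∀ u ∈ U, ρ h u = u
    · -- pass to the quotient
      let ρ' : H →* Module.End K (W ⧸ U) :=
        { toFun := fun g => U.mapQ U (ρ g) (fun u hu => hUinv g u hu)
          map_one' := LinearMap.ext fun x => by
            induction x using Submodule.Quotient.induction_on with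
            | H y => simp
          map_mul' := fun x y => LinearMap.ext fun z => by
            induction z using Submodule.Quotient.induction_on with
            | H w => simp }
      have hquad : ∀ g : H, Quad ρ g → Quad ρ' g := by
        intro g hg
        refine LinearMap.ext fun x => ?_
        induction x using Submodule.Quotient.induction_on with
        | H w =>
          have h1 := congrArg (fun X : Module.End K W => Submodule.Quotient.mk (p := U) (X w))
            (show (ρ g - 1) * (ρ g - 1) = 0 from hg)
          simpa [ρ', Module.End.mul_apply] using h1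
      haveI : Finite (W ⧸ U) := Finite.of_surjective _ (Submodule.mkQ_surjective U)
      refine ih (W ⧸ U) ?_ ρ' (hquad a ha) (hquad b hb) ⟨h, fun j hj => ?_⟩
      · have h1 : Nat.card W = Nat.card U * Nat.card (W ⧸ U) := by
          rw [Submodule.card_eq_card_quotient_mul_card U]
        have h2 : 1 < Nat.card U := by
          haveI := Submodule.nontrivial_iff_ne_bot.2 hU1
          exact Finite.one_lt_card
        have := Nat.mul_lt_mul_of_pos_right h2 (Nat.card_pos (α := W ⧸ U))
        omega
      · haveI : CharP (Module.End K W) p := charP_of_injective_algebraMap (algebraMap K (Module.End K W)).injective p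
        rw [← map_pow] at hj
        set g := h ^ p ^ j with hg
        have hz : (ρ g - 1) * (ρ g - 1) = 0 := by
          refine LinearMap.ext fun w => ?_
          have hmem : (ρ g - 1) w ∈ U := by
            have h3 := congrArg (fun X : Module.End K (W ⧸ U) => X (Submodule.Quotient.mk w)) hj
            simp [ρ'] at h3
            rw [← Submodule.Quotient.mk_eq_zero, LinearMap.sub_apply, Module.End.one_apply,
              Submodule.Quotient.mk_sub, sub_eq_zero]
            exact h3
          rw [Module.End.mul_apply, LinearMap.zero_apply, LinearMap.sub_apply, Module.End.one_apply,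
            htriv g _ hmem, sub_self]
        have h1 : ρ g ^ p = 1 := by
          have h2 : (ρ g - 1) ^ p = 0 := by
            obtain ⟨i, hi⟩ := Nat.exists_eq_add_of_le hp.out.two_le
            rw [hi, pow_add, pow_two, hz, zero_mul]
          rwa [sub_pow_char_of_commute p (Commute.one_right _), one_pow, sub_eq_zero] at h2
        rw [hg, map_pow, ← pow_mul, ← pow_succ] at h1
        exact hh (j + 1) h1
    · push Not at htriv
      obtain ⟨g, u, hu, hgu⟩ := htriv
      let ρU : H →* Module.End K U :=
        { toFun := fun g => (ρ g).restrict (hUinv g)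
          map_one' := LinearMap.ext fun x => Subtype.ext (by simp)
          map_mul' := fun x y => LinearMap.ext fun z => Subtype.ext (by simp) }
      have hquad : ∀ g : H, Quad ρ g → Quad ρU g := fun g hg => LinearMap.ext fun x => Subtype.ext (by
        have h1 := congrArg (fun X : Module.End K W => X (x : W))
          (show (ρ g - 1) * (ρ g - 1) = 0 from hg)
        simpa [ρU, Module.End.mul_apply] using h1)
      haveI := Submodule.nontrivial_iff_ne_bot.2 hU1
      refine irreducible_case ρU hgen (hquad a ha) (hquad b hb) hab hk (fun V hV => ?_)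
        ⟨g, fun e => hgu (congrArg Subtype.val (LinearMap.congr_fun e ⟨u, hu⟩))⟩
      by_cases hV1 : V = ⊥
      · exact Or.inl hV1
      · refine Or.inr ?_
        have hle : U ≤ V.map U.subtype := hU.2
          ⟨fun e => hV1 (Submodule.map_injective_of_injective U.injective_subtype (by rw [e, Submodule.map_bot])),
            by rintro g _ ⟨v, hv, rfl⟩; exact ⟨_, hV g v hv, rfl⟩⟩
          (Submodule.map_subtype_le U V)
        rw [eq_top_iff]
        intro x _
        obtain ⟨v, hv, hvx⟩ := hle x.2
        rwa [← show v = x from Subtype.ext hvx]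

/-- Two quadratically acting generators of a linear group that is not a p-group, with the p'-part of the order of their product dividing q - 1, give a homomorphism onto a subgroup of SL(2, q) that is not a p-group. -/
theorem result {K : Type*} [Field K] [Fintype K] {p : ℕ} [Fact p.Prime] [CharP K p] {W : Type*} [AddCommGroup W] [Module K W] [FiniteDimensional K W] [Finite W] [Nontrivial W] (H : Subgroup (W ≃ₗ[K] W)) (a b : W ≃ₗ[K] W) (hH : H = Subgroup.closure {a, b}) (ha : ∀ w : W, a (a w - w) = a w - w) (hb : ∀ w : W, b (b w - w) = b w - w) (hnp : ¬ IsPGroup p H) (hk : ∃ e k : ℕ, orderOf (a * b) = p ^ e * k ∧ k ∣ Fintype.card K - 1) : ∃ φ : H →* Matrix.SpecialLinearGroup (Fin 2) K, ¬ IsPGroup p φ.range := by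
  subst hH
  set H := Subgroup.closure ({a, b} : Set (W ≃ₗ[K] W))
  obtain ⟨e, k, hord, hk⟩ := hk
  haveI : Finite (W ≃ₗ[K] W) := Finite.of_injective (fun f : W ≃ₗ[K] W => (f : W → W)) DFunLike.coe_injective
  let a' : H := ⟨a, Subgroup.subset_closure (by simp)⟩
  let b' : H := ⟨b, Subgroup.subset_closure (by simp)⟩
  let ρ : H →* Module.End K W :=
    { toFun := fun h => ((h : W ≃ₗ[K] W) : W →ₗ[K] W)
      map_one' := rfl
      map_mul' := fun x y => rfl }
  have hgen : Subgroup.closure ({a', b'} : Set H) = ⊤ := by
    apply Subgroup.map_injective H.subtype_injective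
    rw [MonoidHom.map_closure, ← MonoidHom.range_eq_map, Subgroup.range_subtype]
    congr 1
    rw [Set.image_pair]; rfl
  have hq : ∀ g : H, (∀ w : W, (g : W ≃ₗ[K] W) ((g : W ≃ₗ[K] W) w - w) = (g : W ≃ₗ[K] W) w - w) → Quad ρ g := by
    intro g hg
    refine LinearMap.ext fun w => ?_
    show (g : W ≃ₗ[K] W) ((g : W ≃ₗ[K] W) w - w) - ((g : W ≃ₗ[K] W) w - w) = 0
    rw [hg, sub_self]
  refine main_aux (p := p) hgen (e := e) (k := k) ?_ hk _ W le_rfl ρ (hq a' ha) (hq b' hb) ?_
  · refine Subtype.ext ?_
    show (a * b) ^ (p ^ e * k) = 1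
    rw [← hord]; exact pow_orderOf_eq_one _
  · by_contra hc
    push Not at hc
    refine hnp fun x => ?_
    obtain ⟨j, hj⟩ := hc x
    refine ⟨j, Subtype.ext (LinearEquiv.toLinearMap_injective ?_)⟩
    rw [← map_pow] at hj
    exact hj

end Cfsg.Agent.S0592
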