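import Cfsg.Statements.S0597
import Mathlib
import Cfsg.Agent.Lib.Solv.Subnormal
import Cfsg.Agent.Lib.Solv.Cores
import Cfsg.Agent.Lib.PLocal.Factorization
import Cfsg.Agent.Lib.PLocal.Offender
-- import your own Cfsg.Agent.* helpers here

set_option autoImplicit false
open Cfsg
open scoped commutatorElement

namespace Cfsg.Agent.S0597

/-- If two subnormal subgroups of a faithful group on an elementary abelian p-group satisfy [V, E₁, E₂] = 1, then their commutator lies in the largest normal p-subgroup. -/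
theorem result {G : Type*} [Group G] [Finite G] {p : ℕ} [Fact p.Prime] (V H : Subgroup G) (hV : Cfsg.IsElementaryAbelian p V) (hHV : H ≤ Subgroup.normalizer (V : Set G)) (hf : H ⊓ Subgroup.centralizer (V : Set G) = ⊥) (E₁ E₂ : Subgroup G) (h₁ : E₁ ≤ H) (h₂ : E₂ ≤ H) (hs₁ : (E₁.subgroupOf H).IsSubnormal) (hs₂ : (E₂.subgroupOf H).IsSubnormal) (hc : ⁅⁅V, E₁⁆, E₂⁆ = ⊥) : ⁅E₁, E₂⁆ ≤ (Cfsg.pCore p H).map H.subtype := by
  have hne : ∀ e ∈ H, ∀ v ∈ V, e * v * e⁻¹ ∈ V := fun e he v hv => (Subgroup.mem_normalizer_iff.1 (hHV he) v).1 hv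
  set W := ⁅V, E₁⁆ with hW
  have hWV : W ≤ V := Cfsg.Lib.PLocal.commutator_le_of_le_normalizer (h₁.trans hHV) le_rfl
  have hE1W : ∀ e ∈ E₁, ∀ w ∈ W, e * w * e⁻¹ ∈ W := by
    intro e he w hw
    rw [hW, Subgroup.commutator_def] at hw
    induction hw using Subgroup.closure_induction with
    | mem x hx =>
      obtain ⟨v, hv, a, ha, rfl⟩ := hx
      rw [show e * ⁅v, a⁆ * e⁻¹ = ⁅e * v * e⁻¹, e * a * e⁻¹⁆ by simp only [commutatorElement_def]; group]
      exact Subgroup.commutator_mem_commutator (hne e (h₁ he) v hv) (mul_mem (mul_mem he ha) (inv_mem he))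
    | one => rw [mul_one, mul_inv_cancel]; exact one_mem _
    | mul x y _ _ h1 h2 => rw [← conj_mul]; exact mul_mem h1 h2
    | inv x _ h1 => rw [← conj_inv]; exact inv_mem h1
  have hE2W : E₂ ≤ Subgroup.centralizer (W : Set G) :=
    Subgroup.le_centralizer_iff.1 (Subgroup.commutator_eq_bot_iff_le_centralizer.1 hc)
  have hbw : ∀ b ∈ E₂, ∀ w ∈ W, b * w * b⁻¹ = w := fun b hb w hw => by
    rw [← Subgroup.mem_centralizer_iff.1 (hE2W hb) w hw, mul_inv_cancel_right]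
  have hcv : ∀ x ∈ V, ∀ y ∈ V, x * y = y * x := fun x hx y hy =>
    congrArg Subtype.val (hV.1.is_comm.comm (⟨x, hx⟩ : V) ⟨y, hy⟩)
  let M : Subgroup G :=
    { carrier := {d | d ∈ H ∧ (∀ w ∈ W, d * w * d⁻¹ = w) ∧ ∀ v ∈ V, d * v * d⁻¹ * v⁻¹ ∈ W}
      one_mem' := ⟨one_mem _, fun w _ => by simp, fun v _ => by simp⟩
      mul_mem' := by
        rintro x y ⟨hx, hxw, hxv⟩ ⟨hy, hyw, hyv⟩
        refine ⟨mul_mem hx hy, fun w hw => ?_, fun v hv => ?_⟩
        · rw [show x * y * w * (x * y)⁻¹ = x * (y * w * y⁻¹) * x⁻¹ by group, hyw w hw, hxw w hw]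
        · rw [show x * y * v * (x * y)⁻¹ * v⁻¹ = x * (y * v * y⁻¹ * v⁻¹) * x⁻¹ * (x * v * x⁻¹ * v⁻¹) by group,
            hxw _ (hyv v hv)]
          exact mul_mem (hyv v hv) (hxv v hv)
      inv_mem' := by
        rintro x ⟨hx, hxw, hxv⟩
        have key : ∀ w ∈ W, x⁻¹ * w * x⁻¹⁻¹ = w := fun w hw => by
          calc x⁻¹ * w * x⁻¹⁻¹ = x⁻¹ * (x * w * x⁻¹) * x := by rw [hxw w hw, inv_inv]
            _ = w := by group
        refine ⟨inv_mem hx, key, fun v hv => ?_⟩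
        rw [show x⁻¹ * v * x⁻¹⁻¹ * v⁻¹ = x⁻¹ * (x * v * x⁻¹ * v⁻¹)⁻¹ * x⁻¹⁻¹ by group, key _ (inv_mem (hxv v hv))]
        exact inv_mem (hxv v hv) }
  have hDM : ⁅E₁, E₂⁆ ≤ M := by
    rw [Subgroup.commutator_le]
    intro a ha b hb
    refine ⟨?_, fun w hw => ?_, fun v hv => ?_⟩
    · rw [commutatorElement_def]
      exact mul_mem (mul_mem (mul_mem (h₁ ha) (h₂ hb)) (inv_mem (h₁ ha))) (inv_mem (h₂ hb))
    · have e1 := hbw b⁻¹ (inv_mem hb) w hw
      have e2 : a⁻¹ * w * a⁻¹⁻¹ ∈ W := hE1W _ (inv_mem ha) w hw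
      calc ⁅a, b⁆ * w * ⁅a, b⁆⁻¹ = a * (b * (a⁻¹ * (b⁻¹ * w * b⁻¹⁻¹) * a⁻¹⁻¹) * b⁻¹) * a⁻¹ := by
            simp only [commutatorElement_def]; group
        _ = a * (a⁻¹ * w * a⁻¹⁻¹) * a⁻¹ := by rw [e1, hbw b hb _ e2]
        _ = w := by group
    · set v' := b⁻¹ * v * b with hv'
      have hv'V : v' ∈ V := by
        have := hne b⁻¹ (inv_mem (h₂ hb)) v hv
        rwa [inv_inv] at this
      have hw1 : ⁅a⁻¹, v'⁆ ∈ W := by
        rw [← commutatorElement_inv]; exact inv_mem (Subgroup.commutator_mem_commutator hv'V (inv_mem ha))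
      have hw2 : ⁅a, v⁆ ∈ W := by
        rw [← commutatorElement_inv]; exact inv_mem (Subgroup.commutator_mem_commutator hv ha)
      have e : ⁅a, b⁆ * v * ⁅a, b⁆⁻¹ * v⁻¹ = a * (b * ⁅a⁻¹, v'⁆ * b⁻¹) * a⁻¹ * ⁅a, v⁆ := by
        rw [hv']; simp only [commutatorElement_def]; group
      rw [e, hbw b hb _ hw1]
      exact mul_mem (hE1W a ha _ hw1) hw2
  have hMp : ∀ d ∈ M, d ^ p = 1 := by
    rintro d ⟨hdH, hdw, hdv⟩
    have : d ^ p ∈ H ⊓ Subgroup.centralizer (V : Set G) := by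
      refine ⟨pow_mem hdH p, Subgroup.mem_centralizer_iff.2 fun v hv => ?_⟩
      set w := d * v * d⁻¹ * v⁻¹ with hw'
      have key : ∀ k : ℕ, d ^ k * v * (d ^ k)⁻¹ = w ^ k * v := by
        intro k
        induction k with
        | zero => simp
        | succ k ih =>
          calc d ^ (k + 1) * v * (d ^ (k + 1))⁻¹ = d * (d ^ k * v * (d ^ k)⁻¹) * d⁻¹ := by rw [pow_succ']; group
            _ = (d * w ^ k * d⁻¹) * (d * v * d⁻¹) := by rw [ih]; group
            _ = w ^ k * (d * v * d⁻¹) := by rw [hdw _ (pow_mem (hdv v hv) k)]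
            _ = _ := by rw [pow_succ, show d * v * d⁻¹ = w * v by rw [hw', inv_mul_cancel_right], ← mul_assoc]
      have h1 := key p
      rw [hV.2 w (hWV (hdv v hv)), one_mul] at h1
      calc v * d ^ p = d ^ p * v * (d ^ p)⁻¹ * d ^ p := by rw [h1]
        _ = _ := by group
    rw [hf, Subgroup.mem_bot] at this
    exact this
  set E1 := E₁.subgroupOf H
  set E2 := E₂.subgroupOf H
  have hmap : (⁅E1, E2⁆).map H.subtype = ⁅E₁, E₂⁆ := by
    rw [Subgroup.map_commutator, Subgroup.map_subgroupOf_eq_of_le h₁, Subgroup.map_subgroupOf_eq_of_le h₂]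
  rw [← hmap]
  refine Subgroup.map_mono ?_
  have hp : IsPGroup p ↥(⁅E1, E2⁆) := fun x => ⟨1, by
    refine Subtype.ext (Subtype.ext ?_)
    rw [pow_one]
    exact hMp _ (hDM (hmap ▸ ⟨(x : H), x.2, rfl⟩))⟩
  haveI : Group.IsNilpotent ↥(⁅E1, E2⁆) := hp.isNilpotent
  refine Cfsg.Lib.Solv.le_pCore_of_le_fitting (Cfsg.Lib.Solv.subnormal_nilpotent_le_fitting ?_ inferInstance) hp
  have hle : ⁅E1, E2⁆ ≤ E1 ⊔ E2 := Subgroup.commutator_le.2 fun a ha b hb => by
    rw [commutatorElement_def]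
    exact mul_mem (mul_mem (mul_mem (Subgroup.mem_sup_left ha) (Subgroup.mem_sup_right hb))
      (inv_mem (Subgroup.mem_sup_left ha))) (inv_mem (Subgroup.mem_sup_right hb))
  refine Cfsg.Lib.Solv.isSubnormal_of_normal_le hle (Cfsg.Lib.Solv.sup_isSubnormal hs₁ hs₂) (sup_le ?_ ?_)
  all_goals
    intro c hc'
    refine Cfsg.Lib.PLocal.mem_normalizer_of_map_conj (Subgroup.eq_of_le_of_card_ge ?_ (Subgroup.card_map_of_injective (MulAut.conj c).injective).ge)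
    rw [Subgroup.map_le_iff_le_comap, Subgroup.commutator_le]
    intro a ha b hb
    show c * ⁅a, b⁆ * c⁻¹ ∈ ⁅E1, E2⁆
  · rw [show c * ⁅a, b⁆ * c⁻¹ = ⁅c * a, b⁆ * ⁅c, b⁆⁻¹ by simp only [commutatorElement_def]; group]
    exact mul_mem (Subgroup.commutator_mem_commutator (mul_mem hc' ha) hb) (inv_mem (Subgroup.commutator_mem_commutator hc' hb))
  · rw [show c * ⁅a, b⁆ * c⁻¹ = ⁅a, c⁆⁻¹ * ⁅a, c * b⁆ by simp only [commutatorElement_def]; group]
    exact mul_mem (inv_mem (Subgroup.commutator_mem_commutator ha hc')) (Subgroup.commutator_mem_commutator ha (mul_mem hc' hb))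

end Cfsg.Agent.S0597
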