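import Cfsg.Statements.S0601
import Mathlib
import Cfsg.Agent.Lib.PLocal.Factorization
-- import your own Cfsg.Agent.* helpers here

set_option autoImplicit false
open Cfsg

namespace Cfsg.Agent.S0601

/-- When O_p(G) contains its centralizer, the normal closure of Ω₁(Z(S)) is elementary abelian and G has no nontrivial normal p-subgroup modulo its centralizer. -/
theorem result {G : Type*} [Group G] [Finite G] {p : ℕ} [Fact p.Prime] (hc : Subgroup.centralizer (Cfsg.pCore p G : Set G) ≤ Cfsg.pCore p G) : (⨆ S : Sylow p G, Cfsg.omegaOne p (((S : Subgroup G)) ⊓ Subgroup.centralizer ((S : Subgroup G) : Set G))).Normal ∧ Cfsg.IsElementaryAbelian p (⨆ S : Sylow p G, Cfsg.omegaOne p (((S : Subgroup G)) ⊓ Subgroup.centralizer ((S : Subgroup G) : Set G))) ∧ ∀ D : Subgroup G, D.Normal → Subgroup.centralizer ((⨆ S : Sylow p G, Cfsg.omegaOne p (((S : Subgroup G)) ⊓ Subgroup.centralizer ((S : Subgroup G) : Set G)) : Subgroup G) : Set G) ≤ D → (∃ k : ℕ, (Subgroup.centralizer ((⨆ S : Sylow p G, Cfsg.omegaOne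 p (((S : Subgroup G)) ⊓ Subgroup.centralizer ((S : Subgroup G) : Set G)) : Subgroup G) : Set G)).relIndex D = p ^ k) → D = Subgroup.centralizer ((⨆ S : Sylow p G, Cfsg.omegaOne p (((S : Subgroup G)) ⊓ Subgroup.centralizer ((S : Subgroup G) : Set G)) : Subgroup G) : Set G) := by
  have hYn := Lib.PLocal.iSup_omegaZ_normal (G := G) (p := p)
  set Y := ⨆ S : Sylow p G, Cfsg.omegaOne p ((S : Subgroup G) ⊓ Subgroup.centralizer ((S : Subgroup G) : Set G))
  haveI : Y.Normal := hYn
  refine ⟨hYn, ?_, fun D hD hle hk => ?_⟩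
  · have hle : ∀ S : Sylow p G, (S : Subgroup G) ⊓ Subgroup.centralizer ((S : Subgroup G) : Set G) ≤
        Cfsg.pCore p G ⊓ Subgroup.centralizer (Cfsg.pCore p G : Set G) := fun S =>
      le_inf ((inf_le_right.trans (Subgroup.centralizer_le (Lib.Transfer.pCore_le_sylow S))).trans hc)
        (inf_le_right.trans (Subgroup.centralizer_le (Lib.Transfer.pCore_le_sylow S)))
    have hY : Y ≤ Cfsg.omegaOne p (Cfsg.pCore p G ⊓ Subgroup.centralizer (Cfsg.pCore p G : Set G)) :=
      iSup_le fun S => Subgroup.closure_mono fun x hx => ⟨hle S hx.1, hx.2⟩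
    exact Lib.PLocal.elem_le (Lib.PLocal.omegaOne_elem (H := Cfsg.pCore p G ⊓ Subgroup.centralizer (Cfsg.pCore p G : Set G)) fun x hx y hy =>
      (Subgroup.mem_centralizer_iff.1 hy.2 x hx.1)) hY
  · have h0 := Lib.PLocal.pCore_quotient_eq_bot Y (iSup_le fun S => by
      refine le_iSup_of_le (f := fun S : Sylow p G => Y ⊓ Subgroup.centralizer ((S : Subgroup G) : Set G)) S
        (le_inf ?_ ((Lib.PLocal.omegaOne_le _).trans inf_le_right))
      exact le_iSup (fun T : Sylow p G => Cfsg.omegaOne p ((T : Subgroup G) ⊓ Subgroup.centralizer ((T : Subgroup G) : Set G))) S)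
    set q := QuotientGroup.mk' (Subgroup.centralizer (Y : Set G))
    obtain ⟨k, hk⟩ := hk
    have hp' : IsPGroup p (D.map q) := by
      refine IsPGroup.of_card (n := k) ?_
      have := Subgroup.relIndex_ker D q
      rw [QuotientGroup.ker_mk', hk] at this
      exact this.symm
    have hle' := Lib.Transfer.le_pCore (hD.map q (QuotientGroup.mk'_surjective _)) hp'
    rw [h0, le_bot_iff, Subgroup.map_eq_bot_iff, QuotientGroup.ker_mk'] at hle'
    exact le_antisymm hle' hle

end Cfsg.Agent.S0601
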