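import Cfsg.Statements.S0602
import Mathlib
import Cfsg.Agent.Lib.PLocal.ElementaryAbelian
-- import your own Cfsg.Agent.* helpers here

set_option autoImplicit false
open Cfsg

namespace Cfsg.Agent.S0602

/-- The Thompson subgroup is characteristic, and nontrivial as soon as p divides the group order. -/
theorem result {G : Type*} [Group G] [Finite G] {p : ℕ} [Fact p.Prime] : (Cfsg.thompsonSubgroup p G).Characteristic ∧ (p ∣ Nat.card G → Cfsg.thompsonSubgroup p G ≠ ⊥) := by
  refine ⟨Lib.PLocal.thompsonSubgroup_characteristic, fun hd hbot => ?_⟩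
  obtain ⟨x, hx⟩ := exists_prime_orderOf_dvd_card' p hd
  obtain ⟨A, hA⟩ := Lib.PLocal.maxElem_nonempty (p := p) (G := G)
  have h1 := hA.2 _ (Lib.PLocal.elem_zpowers (p := p) (x := x) (hx ▸ pow_orderOf_eq_one x))
  have h2 : A = ⊥ := le_bot_iff.1 (hbot ▸ Lib.PLocal.le_thompsonSubgroup hA)
  rw [h2, Subgroup.card_bot, Nat.card_zpowers, hx] at h1
  exact absurd h1 (not_le.2 (Fact.out : p.Prime).one_lt)

end Cfsg.Agent.S0602
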