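import Cfsg.Statements.S0604
import Mathlib
import Cfsg.Agent.Lib.PLocal.ElementaryAbelian
-- import your own Cfsg.Agent.* helpers here

set_option autoImplicit false
open Cfsg
open scoped Pointwise

namespace Cfsg.Agent.S0604

/-- The Thompson subgroup of G is the join of the Thompson subgroups of its Sylow p-subgroups. -/
theorem result {G : Type*} [Group G] [Finite G] {p : ℕ} [Fact p.Prime] : Cfsg.thompsonSubgroup p G = ⨆ S : Sylow p G, Cfsg.thompsonSubgroupOf p (S : Subgroup G) := by
  refine le_antisymm (sSup_le fun A hA => ?_) (iSup_le fun S => ?_)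
  · obtain ⟨S, hS⟩ := (Lib.PLocal.elem_isPGroup hA.1).exists_le_sylow
    exact le_iSup_of_le S (Lib.PLocal.le_thompsonSubgroupOf hS hA.1 fun B _ hB => hA.2 B hB)
  · rw [Lib.PLocal.thompsonSubgroupOf_eq_iSup]
    refine iSup₂_le fun A hA => Lib.PLocal.le_thompsonSubgroup ⟨hA.2.1, fun B hB => ?_⟩
    obtain ⟨T, hT⟩ := (Lib.PLocal.elem_isPGroup hB).exists_le_sylow
    obtain ⟨g, hg⟩ := MulAction.exists_smul_eq G T S
    have hle : B.map (MulAut.conj g).toMonoidHom ≤ (S : Subgroup G) := by
      rintro _ ⟨b, hb, rfl⟩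
      rw [← hg]
      show _ ∈ (MulAut.conj g) • (T : Subgroup G)
      exact Subgroup.smul_mem_pointwise_smul _ _ _ (hT hb)
    have := hA.2.2 _ hle (Lib.PLocal.elem_map hB _)
    rwa [Subgroup.card_map_of_injective (MulAut.conj g).injective] at this

end Cfsg.Agent.S0604
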