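import Cfsg.Statements.S0608
import Mathlib
import Cfsg.Agent.Lib.PLocal.Factorization
-- import your own Cfsg.Agent.* helpers here

set_option autoImplicit false
open Cfsg

namespace Cfsg.Agent.S0608

/-- With trivial p'-core, Thompson factorizability is equivalent to J(G) centralizing the subgroup generated by all Ω₁(Z(S)), S Sylow. -/
theorem result {G : Type*} [Group G] [Finite G] {p : ℕ} [Fact p.Prime] (hO : Cfsg.pPrimeCore p G = ⊥) : Cfsg.IsThompsonFactorizable p G ↔ Cfsg.thompsonSubgroup p G ≤ Subgroup.centralizer ((⨆ S : Sylow p G, Cfsg.omegaOne p (((S : Subgroup G)) ⊓ Subgroup.centralizer ((S : Subgroup G) : Set G)) : Subgroup G) : Set G) := by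
  constructor
  · intro h
    rw [Subgroup.le_centralizer_iff]
    refine iSup_le fun T => ?_
    rw [Subgroup.le_centralizer_iff]
    refine sSup_le fun A hA => ?_
    obtain ⟨S, hS⟩ := (Lib.PLocal.elem_isPGroup hA.1).exists_le_sylow
    refine le_trans (Lib.PLocal.le_thompsonSubgroupOf hS hA.1 fun B _ hB => hA.2 B hB) ?_
    obtain ⟨g, rfl⟩ := MulAction.exists_smul_eq G S T
    obtain ⟨x, hx, c, hc, n, hn, he⟩ := h S g⁻¹
    rw [hO, Subgroup.mem_bot] at hx
    subst hx
    rw [one_mul] at he
    rw [Subgroup.le_centralizer_iff]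
    intro z hz
    have hz' : z ∈ (Lib.PLocal.omegaZ p (S : Subgroup G)).map (MulAut.conj g).toMonoidHom := by
      rw [Lib.PLocal.omegaZ_map]; exact hz
    rw [Lib.PLocal.conj_map_iff] at hz'
    rw [Subgroup.mem_centralizer_iff]
    intro a ha
    set z0 := g⁻¹ * z * g with hz0
    -- `z = n⁻¹ z0 n`
    have hcz : Commute z0 c := Subgroup.mem_centralizer_iff.1 hc z0 hz'
    have hz1 : z = n⁻¹ * z0 * n := by
      calc z = g * z0 * g⁻¹ := by rw [hz0]; group
        _ = n⁻¹ * (c⁻¹ * (z0 * c)) * n := by rw [show g = n⁻¹ * c⁻¹ by rw [← inv_inv g, he]; group]; group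
        _ = _ := by rw [hcz.eq, inv_mul_cancel_left]
    have ha' : n * a * n⁻¹ ∈ Cfsg.thompsonSubgroupOf p (S : Subgroup G) := (Subgroup.mem_normalizer_iff.1 hn a).1 ha
    have hz2 : z0 ∈ Subgroup.centralizer ((S : Subgroup G) : Set G) :=
      ((Lib.PLocal.omegaOne_le _).trans inf_le_right) hz'
    have := Subgroup.mem_centralizer_iff.1 hz2 _ (Lib.PLocal.thompsonSubgroupOf_le _ ha')
    calc a * z = n⁻¹ * ((n * a * n⁻¹) * z0) * n := by rw [hz1]; group
      _ = n⁻¹ * (z0 * (n * a * n⁻¹)) * n := by rw [this]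
      _ = z * a := by rw [hz1]; group
  · intro h S g
    obtain ⟨c, hc, n, hn, rfl⟩ := Lib.PLocal.exists_factorization S (by
      refine le_trans ?_ h
      rw [Cfsg.thompsonSubgroupOf, Subgroup.map_le_iff_le_comap]
      refine sSup_le fun B hB => ?_
      rw [← Subgroup.map_le_iff_le_comap]
      refine Lib.PLocal.le_thompsonSubgroup ⟨Lib.PLocal.elem_map hB.1 _, fun C hC => ?_⟩
      obtain ⟨T, hT⟩ := (Lib.PLocal.elem_isPGroup hC).exists_le_sylow
      obtain ⟨k, hk⟩ := MulAction.exists_smul_eq G T S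
      have hle : C.map (MulAut.conj k).toMonoidHom ≤ (S : Subgroup G) := by
        rw [← hk]; exact Subgroup.map_mono hT
      have := hB.2 _ (Lib.PLocal.elem_subgroupOf (Lib.PLocal.elem_map hC (MulAut.conj k).toMonoidHom) (S : Subgroup G))
      rwa [Nat.card_congr (Subgroup.subgroupOfEquivOfLe hle).toEquiv,
        Subgroup.card_map_of_injective (MulAut.conj k).injective,
        ← Subgroup.card_map_of_injective (K := B) (S : Subgroup G).subtype_injective] at this) g
    exact ⟨1, one_mem _, c, hc, n, hn, by rw [one_mul]⟩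

end Cfsg.Agent.S0608
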