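import Cfsg.Statements.S0609
import Mathlib
import Cfsg.Agent.Lib.PLocal.Factorization
-- import your own Cfsg.Agent.* helpers here

set_option autoImplicit false
open Cfsg

namespace Cfsg.Agent.S0609

/-- Thompson factorizability passes to and from the quotient by the largest normal subgroup of order prime to p. -/
theorem result {G : Type*} [Group G] [Finite G] {p : ℕ} [Fact p.Prime] : Cfsg.IsThompsonFactorizable p G ↔ Cfsg.IsThompsonFactorizable p (G ⧸ Cfsg.pPrimeCore p G) := by
  haveI := Lib.Transfer.pPrimeCore_normal (G := G) p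
  set O := Cfsg.pPrimeCore p G with hOdef
  set q := QuotientGroup.mk' O
  have hO := Lib.Transfer.coprime_card_pPrimeCore (G := G) p
  have hbot : Cfsg.pPrimeCore p (G ⧸ O) = ⊥ := by
    haveI := Lib.Transfer.pPrimeCore_normal (G := G ⧸ O) p
    set M := (Cfsg.pPrimeCore p (G ⧸ O)).comap q
    have hc : (Nat.card M).Coprime p := by
      have h2 := (q.comp M.subtype).ker.card_mul_index
      have h3 : (q.comp M.subtype).ker = O.subgroupOf M := by
        rw [← MonoidHom.comap_ker, QuotientGroup.ker_mk']; rfl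
      rw [Subgroup.index_ker, MonoidHom.range_comp, Subgroup.range_subtype,
        Subgroup.map_comap_eq_self_of_surjective (QuotientGroup.mk'_surjective O), h3,
        Nat.card_congr (Subgroup.subgroupOfEquivOfLe (show O ≤ M from fun x hx => by
          show q x ∈ Cfsg.pPrimeCore p (G ⧸ O)
          rw [show q x = 1 from (QuotientGroup.eq_one_iff x).2 hx]; exact one_mem _)).toEquiv] at h2
      rw [← h2]
      exact hO.mul_left (Lib.Transfer.coprime_card_pPrimeCore p)
    have hle : M ≤ O := Lib.Transfer.le_pPrimeCore inferInstance hc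
    rw [eq_bot_iff]
    intro y hy
    obtain ⟨x, rfl⟩ := QuotientGroup.mk'_surjective O y
    exact Subgroup.mem_bot.2 ((QuotientGroup.eq_one_iff x).2 (hle hy))
  have hd : ∀ S : Subgroup G, IsPGroup p S → O ⊓ S = ⊥ := fun S hS => by
    obtain ⟨n, hn⟩ := IsPGroup.iff_card.1 hS
    exact Subgroup.inf_eq_bot_of_coprime (by rw [hn]; exact hO.pow_right n)
  constructor
  · intro h T g
    obtain ⟨S, rfl⟩ := Sylow.mapSurjective_surjective (QuotientGroup.mk'_surjective O) p T
    obtain ⟨g, rfl⟩ := QuotientGroup.mk'_surjective O g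
    obtain ⟨x, hx, c, hc, n, hn, rfl⟩ := h S g
    refine ⟨1, one_mem _, q c, ?_, q n, ?_, by rw [map_mul, map_mul, show q x = 1 from (QuotientGroup.eq_one_iff x).2 hx]⟩
    · rw [Subgroup.mem_centralizer_iff]
      intro z hz
      have hz' : z ∈ (Lib.PLocal.omegaZ p (S : Subgroup G)).map q := by
        rw [← Lib.PLocal.omegaZ_map_mk O _ (hd _ S.isPGroup')]; exact hz
      obtain ⟨z, hz'', rfl⟩ := hz'
      rw [← map_mul, ← map_mul, Subgroup.mem_centralizer_iff.1 hc z hz'']
    · rw [Sylow.coe_mapSurjective, Lib.PLocal.thompsonSubgroupOf_map_mk O _ (hd _ S.isPGroup')]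
      exact Subgroup.le_normalizer_map q ⟨n, hn, rfl⟩
  · intro h S g
    obtain ⟨x, hx, c, hc, n, hn, he⟩ := h (S.mapSurjective (QuotientGroup.mk'_surjective O)) (q g)
    rw [hbot, Subgroup.mem_bot] at hx
    subst hx
    rw [one_mul] at he
    rw [Sylow.coe_mapSurjective] at hc hn
    rw [Lib.PLocal.thompsonSubgroupOf_map_mk O _ (hd _ S.isPGroup')] at hn
    obtain ⟨c, rfl⟩ := QuotientGroup.mk'_surjective O c
    obtain ⟨n, rfl⟩ := QuotientGroup.mk'_surjective O n
    set Z := Lib.PLocal.omegaZ p (S : Subgroup G)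
    set J := Cfsg.thompsonSubgroupOf p (S : Subgroup G)
    have hZp : IsPGroup p Z := S.isPGroup'.to_le ((Lib.PLocal.omegaOne_le _).trans inf_le_left)
    have hJp : IsPGroup p J := S.isPGroup'.to_le (Lib.PLocal.thompsonSubgroupOf_le _)
    have hcz : ∀ z ∈ Z, q (c * z * c⁻¹) = q z := fun z hz => by
      have : q z ∈ Lib.PLocal.omegaZ p ((S : Subgroup G).map q) := by
        rw [Lib.PLocal.omegaZ_map_mk O _ (hd _ S.isPGroup')]; exact ⟨z, hz, rfl⟩
      rw [map_mul, map_mul, map_inv, ← Subgroup.mem_centralizer_iff.1 hc _ this, mul_inv_cancel_right]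
    obtain ⟨o₁, ho₁, hoc⟩ := Lib.PLocal.exists_mul_mem_normalizer O Z hO hZp (g := c)
      (Lib.PLocal.map_conj_le_sup fun z hz => ⟨z, hz, (hcz z hz).symm⟩)
    have hoc' : o₁ * c ∈ Subgroup.centralizer (Z : Set G) := by
      refine Lib.PLocal.mem_centralizer_of_disjoint (hd _ hZp) hoc fun z hz => ?_
      rw [← QuotientGroup.eq_one_iff]
      show q (o₁ * c * z * (o₁ * c)⁻¹ * z⁻¹) = 1
      have := hcz z hz
      rw [map_mul, map_mul, map_inv] at this
      simp only [map_mul, map_inv, mul_inv_rev, show q o₁ = 1 from (QuotientGroup.eq_one_iff o₁).2 ho₁, one_mul, inv_one, mul_one]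
      rw [this, mul_inv_cancel]
    obtain ⟨o₂, ho₂, hon⟩ := Lib.PLocal.exists_mul_mem_normalizer O J hO hJp (g := n)
      (Lib.PLocal.map_conj_le_sup fun z hz => by
        have := (Subgroup.mem_normalizer_iff.1 hn (q z)).1 ⟨z, hz, rfl⟩
        rwa [map_mul, map_mul, map_inv])
    refine ⟨g * (o₁ * c * (o₂ * n))⁻¹, ?_, o₁ * c, hoc', o₂ * n, hon, by group⟩
    rw [← QuotientGroup.eq_one_iff]
    show q (g * (o₁ * c * (o₂ * n))⁻¹) = 1
    have he' : q g = q c * q n := he
    simp only [map_mul, map_inv, he', mul_inv_rev, show q o₁ = 1 from (QuotientGroup.eq_one_iff o₁).2 ho₁,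
      show q o₂ = 1 from (QuotientGroup.eq_one_iff o₂).2 ho₂]
    group

end Cfsg.Agent.S0609
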