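import Cfsg.Statements.S0611
import Mathlib
import Cfsg.Agent.Lib.PLocal.FFBridge
-- import your own Cfsg.Agent.* helpers here

set_option autoImplicit false
open Cfsg

namespace Cfsg.Agent.S0611

open Subgroup Cfsg.Lib.PLocal.FF
open scoped IsMulCommutative

/-- Minimal nontrivially-acting best offenders in such a faithful group have order p, commutator [V, B] of order p and fixed points of index p. -/
theorem result {G : Type*} [Group G] [Finite G] {p : ℕ} [Fact p.Prime] (V H : Subgroup G) (hV : Cfsg.IsElementaryAbelian p V) (hHV : H ≤ Subgroup.normalizer (V : Set G)) (hf : H ⊓ Subgroup.centralizer (V : Set G) = ⊥) (hS1 : Subgroup.centralizer (Cfsg.pPrimeCore p ↥H : Set ↥H) ≤ Cfsg.pPrimeCore p ↥H) (hS3 : H = ⨆ A : {A : Subgroup G // A ≤ H ∧ Cfsg.IsBestOffenderOn p V A}, (A : Subgroup G)) (hH1 : H ≠ ⊥) (A : Subgroup G) (hAH : A ≤ H) (hA : Cfsg.IsBestOffenderOn p V A) (hAV : ⁅V, A⁆ ≠ ⊥) (hmin : ∀ B : Subgroup G, B ≤ A → Cfsg.IsBestOffenderOn p V B → ⁅V, B⁆ ≠ ⊥ → B = A)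 : Nat.card A = p ∧ Nat.card ↥(⁅V, A⁆) = p ∧ ((V ⊓ Subgroup.centralizer (A : Set G))).relIndex V = p := by
  haveI := hV.1
  have hmod : ∀ x : Additive ↥V, p • x = 0 := fun x => Subtype.ext (hV.2 _ (Additive.toMul x).2)
  haveI := AddCommGroup.zmodModule hmod
  have h := hyp_conjRep (p := p) hHV hf hS1
  have hoff := (off_iff (p := p) hHV hf hAH).1 hA
  have hA1 : A ≠ ⊥ := fun e => hAV ((commutator_eq_bot_iff' hf hAH).2 e)
  have hcA : Nat.card ↥(A.subgroupOf H) = Nat.card ↥A := Nat.card_congr (subgroupOfEquivOfLe hAH).toEquiv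
  have hc : Nat.card ↥(A.subgroupOf H) = p := by
    refine card_prime_of_minimal h hoff (fun e => hA1 ?_) fun B hB hBo hB1 => ?_
    · rw [subgroupOf_eq_bot, disjoint_iff, inf_eq_left.2 hAH] at e
      exact e
    · have hle : B.map H.subtype ≤ A := map_le_iff_le_comap.2 hB
      have hBm : (B.map H.subtype).subgroupOf H = B := comap_map_eq_self_of_injective H.subtype_injective B
      have e := hmin _ hle ((off_iff (p := p) hHV hf (hle.trans hAH)).2 (by rwa [hBm]))
        (fun e => hB1 (by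
          rw [← hBm, (commutator_eq_bot_iff' hf (hle.trans hAH)).1 e, bot_subgroupOf]))
      rw [← hBm, e]
  have hcard : Nat.card ↥A = p := hcA ▸ hc
  refine ⟨hcard, ?_, ?_⟩
  · rw [card_commutator_eq (p := p) hHV hAH]
    exact card_bracket_prime h hoff hc
  · have h1 := hoff.card_eq h
    rw [card_fix_eq hHV hAH, hc] at h1
    change p * _ = Nat.card ↥V at h1
    have h2 := Subgroup.relIndex_mul_relIndex ⊥ (V ⊓ centralizer (A : Set G)) V bot_le inf_le_left
    rw [relIndex_bot_left, relIndex_bot_left, ← h1, mul_comm p] at h2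
    exact Nat.eq_of_mul_eq_mul_left Nat.card_pos h2

end Cfsg.Agent.S0611
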