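import Cfsg.Statements.S0612
import Mathlib
import Cfsg.Agent.Lib.PLocal.FFBridge
-- import your own Cfsg.Agent.* helpers here

set_option autoImplicit false
open Cfsg

namespace Cfsg.Agent.S0612

open Subgroup Cfsg.Lib.PLocal.FF
open scoped IsMulCommutative

/-- In such a faithful group every nontrivial best offender decomposes as a direct product of minimal nontrivially-acting best offenders. -/
theorem result {G : Type*} [Group G] [Finite G] {p : ℕ} [Fact p.Prime] (V H : Subgroup G) (hV : Cfsg.IsElementaryAbelian p V) (hHV : H ≤ Subgroup.normalizer (V : Set G)) (hf : H ⊓ Subgroup.centralizer (V : Set G) = ⊥) (hS1 : Subgroup.centralizer (Cfsg.pPrimeCore p ↥H : Set ↥H) ≤ Cfsg.pPrimeCore p ↥H) (hS3 : H = ⨆ A : {A : Subgroup G // A ≤ H ∧ Cfsg.IsBestOffenderOn p V A}, (A : Subgroup G)) (hH1 : H ≠ ⊥) (A : Subgroup G) (hAH : A ≤ H) (hA : Cfsg.IsBestOffenderOn p V A) (hA1 : A ≠ ⊥) : ∃ (k : ℕ) (B : Fin k → Subgroup G), (∀ i, B i ≤ A ∧ Cfsg.IsBestOffenderOn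 p V (B i) ∧ ⁅V, B i⁆ ≠ ⊥ ∧ ∀ C : Subgroup G, C ≤ B i → Cfsg.IsBestOffenderOn p V C → ⁅V, C⁆ ≠ ⊥ → C = B i) ∧ iSupIndep B ∧ ⨆ i, B i = A := by
  haveI := hV.1
  have hmod : ∀ x : Additive ↥V, p • x = 0 := fun x => Subtype.ext (hV.2 _ (Additive.toMul x).2)
  haveI := AddCommGroup.zmodModule hmod
  have h := hyp_conjRep (p := p) hHV hf hS1
  have hoff := (off_iff (p := p) hHV hf hAH).1 hA
  set S : Set (Subgroup G) := {C | C ≤ A ∧ Cfsg.IsBestOffenderOn p V C ∧ Nat.card ↥C = p}
  have hsup : sSup S = A := by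
    refine le_antisymm (sSup_le fun C hC => hC.1) ?_
    have h1 := eq_iSup_prime h _ hoff
    have h2 := (map_mono h1 (f := H.subtype))
    rw [subgroupOf_map_subtype, inf_eq_left.2 hAH] at h2
    refine h2.trans (map_le_iff_le_comap.2 (sSup_le ?_))
    rintro B ⟨hBA, hBo, hBc⟩
    rw [← map_le_iff_le_comap]
    have hle : B.map H.subtype ≤ A := map_le_iff_le_comap.2 hBA
    refine le_sSup ⟨hle, (off_iff (p := p) hHV hf (hle.trans hAH)).2 ?_, ?_⟩
    · rw [show (B.map H.subtype).subgroupOf H = B from comap_map_eq_self_of_injective H.subtype_injective B]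
      exact hBo
    · rw [card_map_of_injective H.subtype_injective, hBc]
  obtain ⟨k, B, hB, hind, hBA⟩ := exists_indep (A := A) S (fun C hC => by rw [hC.2.2]; exact (Fact.out : p.Prime)) hsup
  refine ⟨k, B, fun i => ⟨(hB i).1, (hB i).2.1, fun e => ?_, fun C hC _ hC1 => ?_⟩, hind, hBA⟩
  · have h1 := (hB i).2.2
    rw [(commutator_eq_bot_iff' hf ((hB i).1.trans hAH)).1 e, card_bot] at h1
    exact (Fact.out : p.Prime).one_lt.ne h1
  · have h1 := card_dvd_of_le hC
    rw [(hB i).2.2] at h1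
    refine eq_of_le_of_card_ge hC ?_
    rw [(hB i).2.2]
    exact (((Nat.dvd_prime (Fact.out : p.Prime)).1 h1).resolve_left fun e => hC1 (by
      rw [card_eq_one.1 e, commutator_bot_right])).ge

end Cfsg.Agent.S0612
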