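import Cfsg.Statements.S0613
import Mathlib
import Cfsg.Agent.Lib.PLocal.FFBridge
-- import your own Cfsg.Agent.* helpers here

set_option autoImplicit false
open Cfsg

namespace Cfsg.Agent.S0613

open Subgroup Cfsg.Lib.PLocal.FF
open scoped IsMulCommutative

/-- A minimal nontrivially-acting best offender and a conjugate of it under a non-centralizing element of the p'-core generate SL(2, p) acting naturally on a plane, and p is 2 or 3. -/
theorem result {G : Type*} [Group G] [Finite G] {p : ℕ} [Fact p.Prime] (V H : Subgroup G) (hV : Cfsg.IsElementaryAbelian p V) (hHV : H ≤ Subgroup.normalizer (V : Set G)) (hf : H ⊓ Subgroup.centralizer (V : Set G) = ⊥) (hS1 : Subgroup.centralizer (Cfsg.pPrimeCore p ↥H : Set ↥H) ≤ Cfsg.pPrimeCore p ↥H) (hS3 : H = ⨆ A : {A : Subgroup G // A ≤ H ∧ Cfsg.IsBestOffenderOn p V A}, (A : Subgroup G)) (hH1 : H ≠ ⊥) (A : Subgroup G) (hAH : A ≤ H) (hA : Cfsg.IsBestOffenderOn p V A) (hAV : ⁅V, A⁆ ≠ ⊥) (hmin : ∀ B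 : Subgroup G, B ≤ A → Cfsg.IsBestOffenderOn p V B → ⁅V, B⁆ ≠ ⊥ → B = A) (x : G) (hx : x ∈ ((Cfsg.pPrimeCore p ↥H).map H.subtype)) (hxA : x ∉ Subgroup.centralizer (A : Set G)) : (p = 2 ∨ p = 3) ∧ Nat.card ↥(⁅V, A ⊔ A.map (MulAut.conj x).toMonoidHom⁆) = p ^ 2 ∧ (A ⊔ A.map (MulAut.conj x).toMonoidHom) ⊓ Subgroup.centralizer ((⁅V, A ⊔ A.map (MulAut.conj x).toMonoidHom⁆ : Subgroup G) : Set G) = ⊥ ∧ Nonempty (↥(A ⊔ A.map (MulAut.conj x).toMonoidHom) ≃* Matrix.SpecialLinearGroup (Fin 2) (ZMod p)) := by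
  haveI := hV.1
  have hmod : ∀ x : Additive ↥V, p • x = 0 := fun x => Subtype.ext (hV.2 _ (Additive.toMul x).2)
  haveI := AddCommGroup.zmodModule hmod
  have h := hyp_conjRep (p := p) hHV hf hS1
  obtain ⟨hoff, hc⟩ := prime_card_of_minimal (p := p) hHV hf hS1 hAH hA hAV hmin
  set K := Cfsg.pPrimeCore p ↥H
  obtain ⟨k, hk, rfl⟩ := hx
  obtain ⟨a, ha, ha1, hgen⟩ := exists_gen hc
  have hgenG : zpowers (a : G) = A := by
    have := MonoidHom.map_zpowers H.subtype a
    rw [hgen, subgroupOf_map_subtype, inf_eq_left.2 hAH] at this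
    exact this.symm
  have hne : k * a * k⁻¹ ≠ a := by
    intro e
    apply hxA
    rw [mem_centralizer_iff]
    intro y hy
    rw [← hgenG] at hy
    obtain ⟨i, rfl⟩ := mem_zpowers_iff.1 hy
    have h1 : Commute (k : G) (a : G) := congrArg Subtype.val (mul_inv_eq_iff_eq_mul.1 e)
    exact (h1.zpow_right i).symm.eq
  obtain ⟨u, w, φ, ψ, hP⟩ := pair_of_conj h hoff hc ha ha1 hgen hk hne
  have hL : (blk K (A.subgroupOf H)).map H.subtype = A ⊔ A.map (MulAut.conj (H.subtype k)).toMonoidHom := by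
    rw [hP.blk_eq, MonoidHom.map_closure, Set.image_pair, ← hgenG, MonoidHom.map_zpowers, zpowers_eq_closure,
      zpowers_eq_closure, ← Subgroup.closure_union, Set.singleton_union]
    rfl
  have hsub : ((A ⊔ A.map (MulAut.conj (H.subtype k)).toMonoidHom) : Subgroup G).subgroupOf H = blk K (A.subgroupOf H) := by
    rw [← hL]; exact comap_map_eq_self_of_injective H.subtype_injective _
  have hLH : A ⊔ A.map (MulAut.conj (H.subtype k)).toMonoidHom ≤ H := hL ▸ map_subtype_le _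
  refine ⟨prime_two_or_three h hoff hc, ?_, ?_, ?_⟩
  · rw [card_commutator_eq (p := p) hHV hLH, hsub]
    exact card_bracket_blk h hoff hc
  · rw [← hL]; exact inf_centralizer_commutator_blk hHV h hoff hc
  · obtain ⟨e⟩ := slTwo_blk h hoff hc
    exact ⟨(subgroupOfEquivOfLe hLH).symm.trans ((MulEquiv.subgroupCongr hsub).trans e)⟩

end Cfsg.Agent.S0613
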