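import Cfsg.Statements.S0614
import Mathlib
import Cfsg.Agent.Lib.PLocal.FFBridge
-- import your own Cfsg.Agent.* helpers here

set_option autoImplicit false
open Cfsg

namespace Cfsg.Agent.S0614

open Subgroup Cfsg.Lib.PLocal.FF
open scoped IsMulCommutative

/-- The commutator of the p'-core with a minimal nontrivially-acting best offender is a 3-group (when p = 2) or a non-abelian 2-group (when p = 3). -/
theorem result {G : Type*} [Group G] [Finite G] {p : ℕ} [Fact p.Prime] (V H : Subgroup G) (hV : Cfsg.IsElementaryAbelian p V) (hHV : H ≤ Subgroup.normalizer (V : Set G)) (hf : H ⊓ Subgroup.centralizer (V : Set G) = ⊥) (hS1 : Subgroup.centralizer (Cfsg.pPrimeCore p ↥H : Set ↥H) ≤ Cfsg.pPrimeCore p ↥H) (hS3 : H = ⨆ A : {A : Subgroup G // A ≤ H ∧ Cfsg.IsBestOffenderOn p V A}, (A : Subgroup G)) (hH1 : H ≠ ⊥) (A : Subgroup G) (hAH : A ≤ H) (hA : Cfsg.IsBestOffenderOn p V A) (hAV : ⁅V, A⁆ ≠ ⊥) (hmin : ∀ B :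 Subgroup G, B ≤ A → Cfsg.IsBestOffenderOn p V B → ⁅V, B⁆ ≠ ⊥ → B = A) : (p = 2 ∧ IsPGroup 3 ↥(⁅((Cfsg.pPrimeCore p ↥H).map H.subtype), A⁆)) ∨ (p = 3 ∧ IsPGroup 2 ↥(⁅((Cfsg.pPrimeCore p ↥H).map H.subtype), A⁆) ∧ ¬ IsMulCommutative ↥(⁅((Cfsg.pPrimeCore p ↥H).map H.subtype), A⁆)) := by
  haveI := hV.1
  have hmod : ∀ x : Additive ↥V, p • x = 0 := fun x => Subtype.ext (hV.2 _ (Additive.toMul x).2)
  haveI := AddCommGroup.zmodModule hmod
  have h := hyp_conjRep (p := p) hHV hf hS1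
  obtain ⟨hoff, hc⟩ := prime_card_of_minimal (p := p) hHV hf hS1 hAH hA hAV hmin
  have hmap : (blk (Cfsg.pPrimeCore p ↥H) (A.subgroupOf H) ⊓ Cfsg.pPrimeCore p ↥H).map H.subtype =
      ⁅(Cfsg.pPrimeCore p ↥H).map H.subtype, A⁆ := by
    rw [← core_eq h hoff, Subgroup.map_commutator, subgroupOf_map_subtype, inf_eq_left.2 hAH]
  rcases prime_two_or_three h hoff hc with rfl | rfl
  · refine Or.inl ⟨rfl, IsPGroup.of_card (n := 1) ?_⟩
    rw [← hmap, card_map_of_injective H.subtype_injective, inter_two h hoff hc rfl, pow_one]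
  · obtain ⟨h8, x, hx, y, hy, hxy, -⟩ := inter_three h hoff hc rfl
    refine Or.inr ⟨rfl, IsPGroup.of_card (n := 3) ?_, fun hcm => hxy ?_⟩
    · rw [← hmap, card_map_of_injective H.subtype_injective, h8]; rfl
    · haveI := hcm
      refine Subtype.ext ?_
      have h2 := congrArg Subtype.val (mul_comm'
        (⟨(x : G), by rw [← hmap]; exact ⟨x, hx, rfl⟩⟩ : ↥(⁅(Cfsg.pPrimeCore 3 ↥H).map H.subtype, A⁆))
        ⟨(y : G), by rw [← hmap]; exact ⟨y, hy, rfl⟩⟩)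
      exact h2

end Cfsg.Agent.S0614
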