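import Cfsg.Statements.S0615
import Mathlib
import Cfsg.Agent.Lib.PLocal.FFSubnormal
-- import your own Cfsg.Agent.* helpers here

set_option autoImplicit false
open Cfsg

namespace Cfsg.Agent.S0615

open Subgroup Cfsg.Lib.PLocal.FF
open scoped IsMulCommutative

/-- Two subnormal subgroups acting irreducibly on their incomparable commutator modules, in a faithful group with trivial largest normal p-subgroup, generate their direct product, and the commutator module splits accordingly. -/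
theorem result {G : Type*} [Group G] [Finite G] {p : ℕ} [Fact p.Prime] (V E E₁ E₂ : Subgroup G) (hV : Cfsg.IsElementaryAbelian p V) (hEV : E ≤ Subgroup.normalizer (V : Set G)) (hf : E ⊓ Subgroup.centralizer (V : Set G) = ⊥) (hgen : E = E₁ ⊔ E₂) (hs₁ : (E₁.subgroupOf E).IsSubnormal) (hs₂ : (E₂.subgroupOf E).IsSubnormal) (hOp : Cfsg.pCore p ↥E = ⊥) (hirr₁ : (∀ U : Subgroup G, U ≤ ⁅V, E₁⁆ → E₁ ≤ Subgroup.normalizer (U : Set G) → U = ⊥ ∨ U = ⁅V, E₁⁆)) (hirr₂ : (∀ U : Subgroup G, U ≤ ⁅V, E₂⁆ → E₂ ≤ Subgroup.normalizer (U : Set G) → U = ⊥ ∨ U = ⁅V, E₂⁆)) (h12 : ¬ ⁅V, E₁⁆ ≤ ⁅V, E₂⁆) (h21 : ¬ ⁅V, E₂⁆ ≤ ⁅V, E₁⁆) (hc₁ : 2 < Nat.card E₁) (hc₂ : 2 < Nat.card E₂) : ⁅E₁, E₂⁆ = ⊥ ∧ E₁ ⊓ E₂ = ⊥ ∧ ⁅V, E₁⁆ ⊓ ⁅V, E₂⁆ = ⊥ ∧ ⁅V, E⁆ = ⁅V, E₁⁆ ⊔ ⁅V, E₂⁆ := by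
  haveI := hV.1
  have hmod : ∀ x : Additive ↥V, p • x = 0 := fun x => Subtype.ext (hV.2 _ (Additive.toMul x).2)
  haveI := AddCommGroup.zmodModule hmod
  set ρ := conjRep (p := p) hEV
  have hρ : Function.Injective ρ := conjRep_injective hEV hf
  have hle₁ : E₁ ≤ E := hgen ▸ le_sup_left
  have hle₂ : E₂ ≤ E := hgen ▸ le_sup_right
  have hbr : ∀ {D : Subgroup G}, D ≤ E → ⁅V, D⁆ = toG (bracket ρ (D.subgroupOf E)) := fun hD => toG_bracket (p := p) hEV hD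
  have hinj : ∀ {U U' : Submodule (ZMod p) (Additive ↥V)}, toG U ≤ toG U' → U ≤ U' := fun {U U'} h x hx => by
    obtain ⟨_, h2⟩ := mem_toG.1 (h (mem_toG.2 ⟨(Additive.toMul x).2, hx⟩))
    exact h2
  have hirr : ∀ {D : Subgroup G}, D ≤ E →
      (∀ U : Subgroup G, U ≤ ⁅V, D⁆ → D ≤ normalizer (U : Set G) → U = ⊥ ∨ U = ⁅V, D⁆) → Irr ρ (D.subgroupOf E) := by
    intro D hD h U hU hinv
    have hn : D ≤ normalizer (toG U : Set G) := fun d hd => mem_normalizer_fintype fun x hx => by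
      obtain ⟨hxV, hxU⟩ := mem_toG.1 hx
      exact mem_toG.2 ⟨_, hinv ⟨d, hD hd⟩ hd _ hxU⟩
    rcases h (toG U) (by rw [hbr hD]; exact toG_mono hU) hn with e | e
    · exact Or.inl (le_bot_iff.1 (hinj (e.le.trans (le_of_eq toG_bot.symm))))
    · rw [hbr hD] at e
      exact Or.inr (le_antisymm hU (hinj e.ge))
  have hc : ∀ {D : Subgroup G}, D ≤ E → Nat.card ↥(D.subgroupOf E) = Nat.card ↥D := fun hD =>
    Nat.card_congr (subgroupOfEquivOfLe hD).toEquiv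
  obtain ⟨k1, k2, k3⟩ := split_subnormal hρ hOp _ (E₁.subgroupOf E) (E₂.subgroupOf E) le_rfl hs₁ hs₂ (hirr hle₁ hirr₁)
    (hirr hle₂ hirr₂) (fun h => h12 (by rw [hbr hle₁, hbr hle₂]; exact toG_mono h))
    (fun h => h21 (by rw [hbr hle₁, hbr hle₂]; exact toG_mono h)) (by rwa [hc hle₁]) (by rwa [hc hle₂])
  have hm : ∀ {D : Subgroup G}, D ≤ E → (D.subgroupOf E).map E.subtype = D := fun {D} hD => by
    rw [subgroupOf_map_subtype, inf_eq_left.2 hD]
  refine ⟨?_, ?_, ?_, ?_⟩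
  · rw [← hm hle₁, ← hm hle₂, ← Subgroup.map_commutator, k1, Subgroup.map_bot]
  · rw [← hm hle₁, ← hm hle₂, ← Subgroup.map_inf _ _ _ E.subtype_injective, k2, Subgroup.map_bot]
  · rw [hbr hle₁, hbr hle₂, ← toG_inf, k3, toG_bot]
  · refine le_antisymm ?_ (sup_le (commutator_mono le_rfl hle₁) (commutator_mono le_rfl hle₂))
    rw [hbr (le_refl E), hbr hle₁, hbr hle₂, ← toG_sup]
    set W := bracket ρ (E₁.subgroupOf E) ⊔ bracket ρ (E₂.subgroupOf E)
    let S : Subgroup ↥E :=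
      { carrier := {g | ∀ v, ρ g v - v ∈ W}
        mul_mem' := fun {a b} ha hb v => by
          rw [apply_mul, show ρ a (ρ b v) - v = (ρ a (ρ b v) - ρ b v) + (ρ b v - v) by abel]
          exact W.add_mem (ha _) (hb v)
        one_mem' := fun v => by simp
        inv_mem' := fun {a} ha v => by
          have h := ha (ρ a⁻¹ v)
          rw [apply_cancel_inv] at h
          rw [← neg_sub]; exact W.neg_mem h }
    have hle : E ≤ S.map E.subtype := hgen.le.trans (sup_le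
      ((hm hle₁).ge.trans (map_mono fun g hg v => Submodule.mem_sup_left (sub_mem_bracket hg v)))
      ((hm hle₂).ge.trans (map_mono fun g hg v => Submodule.mem_sup_right (sub_mem_bracket hg v))))
    refine toG_mono (bracket_le fun g _ => ?_)
    obtain ⟨g', hg', e⟩ := hle g.2
    rw [← show g' = g from Subtype.ext e]
    exact hg'

end Cfsg.Agent.S0615
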