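import Cfsg.Statements.S0616
import Mathlib
import Cfsg.Agent.Lib.PLocal.FFBridge
-- import your own Cfsg.Agent.* helpers here

set_option autoImplicit false
open Cfsg

namespace Cfsg.Agent.S0616

open Subgroup Cfsg.Lib.PLocal.FF
open scoped IsMulCommutative

/-- Each minimal nontrivially-acting best offender spans, with its commutator on the p'-core, a direct factor E of H isomorphic to SL(2, p) with a 2-dimensional commutator module complementing C_V(E). -/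
theorem result {G : Type*} [Group G] [Finite G] {p : ℕ} [Fact p.Prime] (V H : Subgroup G) (hV : Cfsg.IsElementaryAbelian p V) (hHV : H ≤ Subgroup.normalizer (V : Set G)) (hf : H ⊓ Subgroup.centralizer (V : Set G) = ⊥) (hS1 : Subgroup.centralizer (Cfsg.pPrimeCore p ↥H : Set ↥H) ≤ Cfsg.pPrimeCore p ↥H) (hS3 : H = ⨆ A : {A : Subgroup G // A ≤ H ∧ Cfsg.IsBestOffenderOn p V A}, (A : Subgroup G)) (hH1 : H ≠ ⊥) (A : Subgroup G) (hAH : A ≤ H) (hA : Cfsg.IsBestOffenderOn p V A) (hAV : ⁅V, A⁆ ≠ ⊥) (hmin : ∀ B : Subgroup G, B ≤ A → Cfsg.IsBestOffenderOn p V B → ⁅V, B⁆ ≠ ⊥ → B = A) : (p = 2 ∨ p = 3) ∧ Nonempty (↥(⁅((Cfsg.pPrimeCore p ↥H).map H.subtype), A⁆ ⊔ A) ≃* Matrix.SpecialLinearGroup (Fin 2) (ZMod p)) ∧ Nat.card ↥(⁅V, ⁅((Cfsg.pPrimeCore p ↥H).map H.subtype), A⁆ ⊔ A⁆) = p ^ 2 ∧ ⁅V, ⁅((Cfsg.pPrimeCore p ↥H).map H.subtype), A⁆ ⊔ A⁆ ⊓ (V ⊓ Subgroup.centralizer ((⁅((Cfsg.pPrimeCore p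 ↥H).map H.subtype), A⁆ ⊔ A : Subgroup G) : Set G)) = ⊥ ∧ ⁅V, ⁅((Cfsg.pPrimeCore p ↥H).map H.subtype), A⁆ ⊔ A⁆ ⊔ (V ⊓ Subgroup.centralizer ((⁅((Cfsg.pPrimeCore p ↥H).map H.subtype), A⁆ ⊔ A : Subgroup G) : Set G)) = V ∧ ⁅⁅((Cfsg.pPrimeCore p ↥H).map H.subtype), A⁆ ⊔ A, H ⊓ Subgroup.centralizer ((⁅V, ⁅((Cfsg.pPrimeCore p ↥H).map H.subtype), A⁆ ⊔ A⁆ : Subgroup G) : Set G)⁆ = ⊥ ∧ (⁅((Cfsg.pPrimeCore p ↥H).map H.subtype), A⁆ ⊔ A) ⊓ (H ⊓ Subgroup.centralizer ((⁅V, ⁅((Cfsg.pPrimeCore p ↥H).map H.subtype), A⁆ ⊔ A⁆ : Subgroup G) : Set G)) = ⊥ ∧ (⁅((Cfsg.pPrimeCore p ↥H).map H.subtype), A⁆ ⊔ A) ⊔ (H ⊓ Subgroup.centralizer ((⁅V, ⁅((Cfsg.pPrimeCore p ↥H).map H.subtype), A⁆ ⊔ A⁆ : Subgroup G) : Set G)) = H ∧ ⁅V, H ⊓ Subgroup.centralizer ((⁅V, ⁅((Cfsg.pPrimeCore p ↥H).map H.subtype), A⁆ ⊔ A⁆ : Subgroup G) : Set G)⁆ ≤ V ⊓ Subgroup.centralizer ((⁅((Cfsg.pPrimeCore p ↥H).map H.subtype), A⁆ ⊔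 A : Subgroup G) : Set G) := by
  haveI := hV.1
  have hmod : ∀ x : Additive ↥V, p • x = 0 := fun x => Subtype.ext (hV.2 _ (Additive.toMul x).2)
  haveI := AddCommGroup.zmodModule hmod
  have h := hyp_conjRep (p := p) hHV hf hS1
  obtain ⟨hoff, hc⟩ := prime_card_of_minimal (p := p) hHV hf hS1 hAH hA hAV hmin
  have hgen := gens_eq_top hHV hf h hS3
  rw [← map_blk (K := Cfsg.pPrimeCore p ↥H) hAH]
  set E := blk (Cfsg.pPrimeCore p ↥H) (A.subgroupOf H)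
  have hEH : E.map H.subtype ≤ H := map_subtype_le _
  have hE : (E.map H.subtype).subgroupOf H = E := comap_map_eq_self_of_injective H.subtype_injective _
  rw [toG_bracket (p := p) hHV hEH, toG_fix (p := p) hHV hEH, hE, ← map_stab (p := p) hHV]
  set C := stab (conjRep (p := p) hHV) (pl (conjRep (p := p) hHV) (Cfsg.pPrimeCore p ↥H) (A.subgroupOf H))
  have hcompl := isCompl_blk h hoff hc
  refine ⟨prime_two_or_three h hoff hc, ?_, ?_, ?_, ?_, ?_, ?_, ?_, ?_⟩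
  · obtain ⟨e⟩ := slTwo_blk h hoff hc
    exact ⟨(E.equivMapOfInjective H.subtype H.subtype_injective).symm.trans e⟩
  · rw [show bracket (conjRep (p := p) hHV) E = bracket (conjRep (p := p) hHV) ((E.map H.subtype).subgroupOf H) by rw [hE],
      ← toG_bracket hHV hEH, card_commutator_eq (p := p) hHV hEH, hE]
    exact card_bracket_blk h hoff hc
  · rw [← toG_inf, hcompl.inf_eq_bot, toG_bot]
  · rw [← toG_sup, hcompl.sup_eq_top, toG_top]
  · rw [← Subgroup.map_commutator, commutator_eq_bot_iff_le_centralizer.2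
      (le_centralizer_iff.1 (stab_le_centralizer h hgen hoff hc)), Subgroup.map_bot]
  · rw [← Subgroup.map_inf _ _ _ H.subtype_injective, blk_inf_stab h hoff hc, Subgroup.map_bot]
  · rw [← Subgroup.map_sup, sup_stab h hgen hoff hc, ← MonoidHom.range_eq_map, range_subtype]
  · rw [toG_bracket (p := p) hHV (map_subtype_le C)]
    refine toG_mono (bracket_le fun g hg v => ?_)
    rw [show (C.map H.subtype).subgroupOf H = C from comap_map_eq_self_of_injective H.subtype_injective _] at hg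
    exact stab_sub_mem h hgen hoff hc hg v

end Cfsg.Agent.S0616
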