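import Cfsg.Statements.S0617
import Mathlib
import Cfsg.Agent.Lib.PLocal.FFBridge
-- import your own Cfsg.Agent.* helpers here

set_option autoImplicit false
open Cfsg

namespace Cfsg.Agent.S0617

open Subgroup Cfsg.Lib.PLocal.FF
open scoped IsMulCommutative

/-- Structure Theorem for failure of factorization: a faithful group generated by best offenders, with self-centralizing p'-core, is a direct product of copies of SL(2, p) (p = 2 or 3), each acting on its own plane in V, which is the direct product of these planes and C_V(H). -/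
theorem result {G : Type*} [Group G] [Finite G] {p : ℕ} [Fact p.Prime] (V H : Subgroup G) (hV : Cfsg.IsElementaryAbelian p V) (hHV : H ≤ Subgroup.normalizer (V : Set G)) (hf : H ⊓ Subgroup.centralizer (V : Set G) = ⊥) (hS1 : Subgroup.centralizer (Cfsg.pPrimeCore p ↥H : Set ↥H) ≤ Cfsg.pPrimeCore p ↥H) (hS3 : H = ⨆ A : {A : Subgroup G // A ≤ H ∧ Cfsg.IsBestOffenderOn p V A}, (A : Subgroup G)) (hH1 : H ≠ ⊥) : (p = 2 ∨ p = 3) ∧ (∀ E : {E : Subgroup G // ∃ A : Subgroup G, A ≤ H ∧ Cfsg.IsBestOffenderOn p V A ∧ ⁅V, A⁆ ≠ ⊥ ∧ (∀ B : Subgroup G, B ≤ A → Cfsg.IsBestOffenderOn p V B → ⁅V, B⁆ ≠ ⊥ → B = A) ∧ E = ⁅((Cfsg.pPrimeCore p ↥H).map H.subtype), A⁆ ⊔ A}, H ≤ Subgroup.normalizer ((E : Subgroup G) : Set G) ∧ Nonempty (↥(E : Subgroup G) ≃* Matrix.SpecialLinearGroup (Fin 2) (ZMod p)) ∧ Nat.card ↥(⁅V, (E : Subgroup G)⁆) = p ^ 2) ∧ iSupIndep (fun E : {E : Subgroup G // ∃ A : Subgroup G, A ≤ H ∧ Cfsg.IsBestOffenderOn p V A ∧ ⁅V,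 A⁆ ≠ ⊥ ∧ (∀ B : Subgroup G, B ≤ A → Cfsg.IsBestOffenderOn p V B → ⁅V, B⁆ ≠ ⊥ → B = A) ∧ E = ⁅((Cfsg.pPrimeCore p ↥H).map H.subtype), A⁆ ⊔ A} => (E : Subgroup G)) ∧ (⨆ E : {E : Subgroup G // ∃ A : Subgroup G, A ≤ H ∧ Cfsg.IsBestOffenderOn p V A ∧ ⁅V, A⁆ ≠ ⊥ ∧ (∀ B : Subgroup G, B ≤ A → Cfsg.IsBestOffenderOn p V B → ⁅V, B⁆ ≠ ⊥ → B = A) ∧ E = ⁅((Cfsg.pPrimeCore p ↥H).map H.subtype), A⁆ ⊔ A}, (E : Subgroup G)) = H ∧ iSupIndep (fun o : Option {E : Subgroup G // ∃ A : Subgroup G, A ≤ H ∧ Cfsg.IsBestOffenderOn p V A ∧ ⁅V, A⁆ ≠ ⊥ ∧ (∀ B : Subgroup G, B ≤ A → Cfsg.IsBestOffenderOn p V B → ⁅V, B⁆ ≠ ⊥ → B = A) ∧ E = ⁅((Cfsg.pPrimeCore p ↥H).map H.subtype), A⁆ ⊔ A} => o.elim (V ⊓ Subgroup.centralizer (H : Set G)) (fun E => ⁅V, (E : Subgroup G)⁆)) ∧ (V ⊓ Subgroup.centralizer (H : Set G)) ⊔ (⨆ E : {E : Subgroup G // ∃ A : Subgroup G, A ≤ H ∧ Cfsg.IsBestOffenderOn p V A ∧ ⁅V, A⁆ ≠ ⊥ ∧ (∀ B : Subgroup G, B ≤ A → Cfsg.IsBestOffenderOn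 p V B → ⁅V, B⁆ ≠ ⊥ → B = A) ∧ E = ⁅((Cfsg.pPrimeCore p ↥H).map H.subtype), A⁆ ⊔ A}, ⁅V, (E : Subgroup G)⁆) = V := by
  haveI := hV.1
  have hmod : ∀ x : Additive ↥V, p • x = 0 := fun x => Subtype.ext (hV.2 _ (Additive.toMul x).2)
  haveI := AddCommGroup.zmodModule hmod
  have h := hyp_conjRep (p := p) hHV hf hS1
  have hgen := gens_eq_top hHV hf h hS3
  set ρ := conjRep (p := p) hHV
  set K := Cfsg.pPrimeCore p ↥H
  set P : Subgroup G → Prop := fun E => ∃ A : Subgroup G, A ≤ H ∧ Cfsg.IsBestOffenderOn p V A ∧ ⁅V, A⁆ ≠ ⊥ ∧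
    (∀ B : Subgroup G, B ≤ A → Cfsg.IsBestOffenderOn p V B → ⁅V, B⁆ ≠ ⊥ → B = A) ∧
    E = ⁅((Cfsg.pPrimeCore p ↥H).map H.subtype), A⁆ ⊔ A
  have hdata : ∀ E : {E : Subgroup G // P E}, ∃ B : Subgroup ↥H, Off ρ B ∧ Nat.card B = p ∧ (E : Subgroup G) = (blk K B).map H.subtype := by
    rintro ⟨_, A, hAH, hA, hAV, hmin, rfl⟩
    obtain ⟨hoff, hc⟩ := prime_card_of_minimal (p := p) hHV hf hS1 hAH hA hAV hmin
    exact ⟨_, hoff, hc, (map_blk hAH).symm⟩
  choose β hoff hc hE using hdata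
  have hex : ∀ B, Off ρ B → Nat.card B = p → ∃ E : {E : Subgroup G // P E}, (E : Subgroup G) = (blk K B).map H.subtype := by
    intro B hB hcB
    have hBm : (B.map H.subtype).subgroupOf H = B := comap_map_eq_self_of_injective H.subtype_injective B
    have hAH : B.map H.subtype ≤ H := map_subtype_le _
    have hcA : Nat.card ↥(B.map H.subtype) = p := by rw [card_map_of_injective H.subtype_injective, hcB]
    refine ⟨⟨_, B.map H.subtype, hAH, (off_iff (p := p) hHV hf hAH).2 (by rwa [hBm]), fun e => ?_, fun D hD _ hD1 => ?_, rfl⟩, ?_⟩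
    · rw [(commutator_eq_bot_iff' hf hAH).1 e, card_bot] at hcA
      exact (Fact.out : p.Prime).one_lt.ne hcA
    · have h1 := card_dvd_of_le hD
      rw [hcA] at h1
      exact eq_of_le_of_card_ge hD (by
        rw [hcA]; exact (((Nat.dvd_prime (Fact.out : p.Prime)).1 h1).resolve_left fun e => hD1 (by
          rw [card_eq_one.1 e, commutator_bot_right])).ge)
    · show _ ⊔ B.map H.subtype = _
      rw [← map_blk hAH, hBm]
  have hne : ∀ {i j : {E : Subgroup G // P E}}, i ≠ j → pl ρ K (β i) ≠ pl ρ K (β j) := fun {i j} hij e =>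
    hij (Subtype.ext (by rw [hE i, hE j, (blk_eq_iff h (hoff i) (hc i) (hoff j) (hc j)).2 e]))
  have hpl : ∀ i : {E : Subgroup G // P E}, ⁅V, (i : Subgroup G)⁆ = toG (pl ρ K (β i)) := fun i => by
    rw [hE i, toG_bracket (p := p) hHV (map_subtype_le _),
      show ((blk K (β i)).map H.subtype).subgroupOf H = blk K (β i) from comap_map_eq_self_of_injective H.subtype_injective _]
  have htop : (⨆ i : {E : Subgroup G // P E}, blk K (β i)) = ⊤ := by
    rw [eq_top_iff, ← hgen]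
    refine sSup_le fun B hB => ?_
    obtain ⟨i, hi⟩ := hex B hB.1 hB.2
    refine le_trans (le_sup_right : B ≤ blk K B) (le_trans (le_of_eq ?_) (le_iSup _ i))
    exact map_injective H.subtype_injective (hi.symm.trans (hE i))
  have hfixtop : fix ρ ⊤ = ⨅ i : {E : Subgroup G // P E}, fix ρ (blk K (β i)) := by
    refine le_antisymm (le_iInf fun i => fix_anti le_top) fun v hv => mem_fix.2 fun g _ => ?_
    rw [Submodule.mem_iInf] at hv
    have hle : (⊤ : Subgroup ↥H) ≤ stab ρ ((ZMod p) ∙ v) := htop.ge.trans (iSup_le fun i g hg x hx => by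
      obtain ⟨t, rfl⟩ := Submodule.mem_span_singleton.1 hx
      rw [map_smul, mem_fix.1 (hv i) g hg])
    exact hle (mem_top g) v (Submodule.mem_span_singleton_self v)
  have hCV : V ⊓ centralizer (H : Set G) = toG (fix ρ ⊤) := by
    rw [toG_fix (p := p) hHV (le_refl H), subgroupOf_self]
  have hfamily := fun S => plane_family (fun i : {E : Subgroup G // P E} => pl ρ K (β i)) (fun i => fix ρ (blk K (β i)))
    (fun i => (isCompl_blk h (hoff i) (hc i)).inf_eq_bot) (fun i => (isCompl_blk h (hoff i) (hc i)).sup_eq_top)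
    (fun i j hij => pl_le_fix_of_ne h hgen (hoff j) (hc j) (hoff i) (hc i) (hne (Ne.symm hij))) S
  classical
  haveI : Fintype {E : Subgroup G // P E} := Fintype.ofFinite _
  obtain ⟨hsup, hinf⟩ := hfamily Finset.univ
  simp only [Finset.mem_univ, iSup_pos, iInf_pos] at hsup hinf
  rw [← hfixtop] at hsup hinf
  obtain ⟨A, hAH, hA, hA1⟩ : ∃ A, A ≤ H ∧ Cfsg.IsBestOffenderOn p V A ∧ A ≠ ⊥ := by
    by_contra hcon
    push Not at hcon
    exact hH1 (by rw [hS3]; exact iSup_eq_bot.2 fun A => hcon A A.2.1 A.2.2)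
  obtain ⟨B, hB⟩ : ∃ B, Off ρ B ∧ Nat.card B = p := by
    by_contra hcon
    push Not at hcon
    have : sSup (Gens ρ) = ⊥ := sSup_eq_bot.2 fun B hB => absurd hB.2 (hcon B hB.1)
    rw [hgen] at this
    refine hH1 ?_
    have h2 := congrArg (Subgroup.map H.subtype) this
    rwa [← MonoidHom.range_eq_map, range_subtype, Subgroup.map_bot] at h2
  refine ⟨prime_two_or_three h hB.1 hB.2, fun E => ⟨?_, ?_, ?_⟩, ?_, ?_, ?_, ?_⟩
  · rw [hE E]
    intro g hg
    refine mem_normalizer_fintype ?_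
    rintro _ ⟨x, hx, rfl⟩
    exact ⟨⟨g, hg⟩ * x * ⟨g, hg⟩⁻¹, (blk_normal h hgen (hoff E) (hc E)).conj_mem x hx _, rfl⟩
  · obtain ⟨e⟩ := slTwo_blk h (hoff E) (hc E)
    rw [hE E]
    exact ⟨((blk K (β E)).equivMapOfInjective H.subtype H.subtype_injective).symm.trans e⟩
  · rw [hE E, card_commutator_eq (p := p) hHV (map_subtype_le _),
      show ((blk K (β E)).map H.subtype).subgroupOf H = blk K (β E) from comap_map_eq_self_of_injective H.subtype_injective _]
    exact card_bracket_blk h (hoff E) (hc E)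
  · intro i
    refine Disjoint.mono_right (iSup₂_le (a := (stab ρ (pl ρ K (β i))).map H.subtype) fun j hj => ?_) (disjoint_iff.2 ?_)
    · show (j : Subgroup G) ≤ _
      rw [hE j]
      exact map_mono (blk_le_stab_of_ne h hgen (hoff i) (hc i) (hoff j) (hc j) (hne (Ne.symm hj)))
    · show (i : Subgroup G) ⊓ _ = ⊥
      rw [hE i, ← Subgroup.map_inf _ _ _ H.subtype_injective, blk_inf_stab h (hoff i) (hc i), Subgroup.map_bot]
  · rw [iSup_congr hE, ← Subgroup.map_iSup, htop, ← MonoidHom.range_eq_map, range_subtype]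
  · intro o
    cases o with
    | none =>
      refine Disjoint.mono_right (iSup₂_le (a := toG (⨆ i, pl ρ K (β i))) fun j hj => ?_) (disjoint_iff.2 ?_)
      · cases j with
        | none => exact absurd rfl hj
        | some j => show ⁅V, (j : Subgroup G)⁆ ≤ _; rw [hpl j]; exact toG_mono (le_iSup (fun i => pl ρ K (β i)) j)
      · show (V ⊓ centralizer (H : Set G)) ⊓ _ = ⊥
        rw [hCV, inf_comm, ← toG_inf, hinf, toG_bot]
    | some i =>
      refine Disjoint.mono_right (iSup₂_le (a := toG (fix ρ (blk K (β i)))) fun j hj => ?_) (disjoint_iff.2 ?_)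
      · cases j with
        | none => show V ⊓ centralizer (H : Set G) ≤ _; rw [hCV]; exact toG_mono (fix_anti le_top)
        | some j =>
          show ⁅V, (j : Subgroup G)⁆ ≤ _
          rw [hpl j]
          exact toG_mono (pl_le_fix_of_ne h hgen (hoff i) (hc i) (hoff j) (hc j)
            (hne fun e => hj (by rw [e])))
      · show ⁅V, (i : Subgroup G)⁆ ⊓ _ = ⊥
        rw [hpl i, ← toG_inf, (isCompl_blk h (hoff i) (hc i)).inf_eq_bot, toG_bot]
  · rw [hCV, iSup_congr hpl, ← toG_iSup, ← toG_sup, sup_comm, hsup, toG_top]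

end Cfsg.Agent.S0617
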