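import Cfsg.Statements.S0619
import Mathlib
import Cfsg.Agent.Lib.PLocal.FFQuotient
-- import your own Cfsg.Agent.* helpers here

set_option autoImplicit false
open Cfsg

namespace Cfsg.Agent.S0619

open Subgroup Cfsg.Lib.PLocal Cfsg.Lib.PLocal.FF
open scoped IsMulCommutative

/-- For a p-separable group and a normal elementary abelian p-subgroup V with no nontrivial normal p-subgroup modulo its centralizer C, the Thompson subgroup J(G) moves Ω₁(Z(J(C))) only inside V. -/
theorem result {G : Type*} [Group G] [Finite G] {p : ℕ} [Fact p.Prime] (hsep : Cfsg.IsPSolvable p G) (V : Subgroup G) [V.Normal] (hV : Cfsg.IsElementaryAbelian p V) (hO : Cfsg.pCore p (G ⧸ Subgroup.centralizer (V : Set G)) = ⊥) : ⁅Cfsg.omegaOne p (Cfsg.centerThompsonOf p (Subgroup.centralizer (V : Set G))), Cfsg.thompsonSubgroup p G⁆ ≤ V := by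
  haveI := hV.1
  have hmod : ∀ x : Additive ↥V, p • x = 0 := fun x => Subtype.ext (hV.2 _ (Additive.toMul x).2)
  haveI := AddCommGroup.zmodModule hmod
  have h := hyp_quotRep (p := p) (V := V) hsep hO
  set C := centralizer (V : Set G)
  set W := Cfsg.omegaOne p (Cfsg.centerThompsonOf p C)
  set q := QuotientGroup.mk' V
  suffices hmain : ∀ A ∈ Cfsg.maxElementaryAbelianSubgroups p G, A.map q ≤ centralizer (W.map q : Set (G ⧸ V)) by
    have hJ : (Cfsg.thompsonSubgroup p G).map q ≤ centralizer (W.map q : Set (G ⧸ V)) := by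
      rw [map_le_iff_le_comap]
      exact sSup_le fun A hA => map_le_iff_le_comap.1 (hmain A hA)
    have h0 := commutator_eq_bot_iff_le_centralizer.2 (le_centralizer_iff.1 hJ)
    rw [← Subgroup.map_commutator, Subgroup.map_eq_bot_iff, QuotientGroup.ker_mk'] at h0
    exact h0
  intro A hA
  set A₀ := A ⊓ C
  have hVC : V ≤ C := fun x hx => mem_centralizer_iff.2 fun y hy => elem_comm hV hy hx
  set B := A₀ ⊔ V
  have hB : Cfsg.IsElementaryAbelian p B := elem_sup (elem_le hA.1 inf_le_left) hV inf_le_right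
  have hcard : Nat.card ↥A ≤ Nat.card ↥B := by
    have h1 := card_fix_le h _ (elem_map hA.1 (QuotientGroup.mk' C))
    rw [card_fix_map (p := p)] at h1
    have hfixA : V ⊓ centralizer (A : Set G) = A₀ ⊓ V := by
      refine le_antisymm (fun x hx => ⟨⟨mem_of_centralizes_max hA hx.2 (hV.2 x hx.1), hVC hx.1⟩, hx.1⟩) ?_
      exact fun x hx => ⟨hx.2, mem_centralizer_iff.2 fun y hy => elem_comm hA.1 hy hx.1.1⟩
    rw [hfixA] at h1
    change _ ≤ Nat.card ↥V at h1
    have h2 := card_sup_mul_card_inf (A := A₀) (B := V) inf_le_right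
    refine Nat.le_of_mul_le_mul_left ?_ (Nat.card_pos (α := ↥(A₀ ⊓ V)))
    calc Nat.card ↥(A₀ ⊓ V) * Nat.card ↥A
        = Nat.card ↥A₀ * (Nat.card ↥(A.map (QuotientGroup.mk' C)) * Nat.card ↥(A₀ ⊓ V)) := by
          rw [← card_map_mul (C := C) A]; ring
      _ ≤ Nat.card ↥A₀ * Nat.card ↥V := Nat.mul_le_mul_left _ h1
      _ = _ := by rw [← h2]; ring
  have hBmax : B ∈ Cfsg.maxElementaryAbelianSubgroups p G := ⟨hB, fun D hD => (hA.2 D hD).trans hcard⟩
  have hBC : B ≤ C := sup_le inf_le_right hVC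
  have hBJ : B ≤ Cfsg.thompsonSubgroupOf p C := le_thompsonSubgroupOf hBC hB fun D _ hD => hBmax.2 D hD
  have hWB : W ≤ B := by
    refine (closure_le _).2 ?_
    rintro w ⟨hw, hwp⟩
    exact mem_of_centralizes_max hBmax (mem_centralizer_iff.2 fun y hy => mem_centralizer_iff.1 hw.2 y (hBJ hy)) hwp
  rw [le_centralizer_iff]
  refine (map_mono hWB).trans ?_
  rw [Subgroup.map_sup]
  refine sup_le ?_ ?_
  · rintro _ ⟨x, hx, rfl⟩
    rw [mem_centralizer_iff]
    rintro _ ⟨a, ha, rfl⟩
    rw [← map_mul, ← map_mul, elem_comm hA.1 ha hx.1]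
  · rw [show V.map q = ⊥ by rw [Subgroup.map_eq_bot_iff, QuotientGroup.ker_mk']]
    exact bot_le

end Cfsg.Agent.S0619
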