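import Cfsg.Statements.S0629
import Mathlib
import Cfsg.Agent.Lib.PLocal.Constraint
-- import your own Cfsg.Agent.* helpers here

set_option autoImplicit false
open Cfsg

namespace Cfsg.Agent.S0629

/-- A group in which the centralizer of a Sylow p-subgroup of O_{p',p}(G) is p-solvable is p-constrained. -/
theorem result {G : Type*} [Group G] [Finite G] {p : ℕ} [Fact p.Prime] (P : Sylow p ↥(Cfsg.pPrimePCore p G)) (hsol : Cfsg.IsPSolvable p ↥(Subgroup.centralizer (((P : Subgroup ↥(Cfsg.pPrimePCore p G)).map (Cfsg.pPrimePCore p G).subtype : Subgroup G) : Set G))) : Cfsg.IsPConstrained p G := by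
  rw [Lib.PLocal.isPConstrained_iff_quotient]
  haveI := Lib.Transfer.pPrimeCore_normal (G := G) p
  set q := QuotientGroup.mk' (Cfsg.pPrimeCore p G)
  set P' := (P : Subgroup ↥(Cfsg.pPrimePCore p G)).map (Cfsg.pPrimePCore p G).subtype
  have hP' : IsPGroup p P' := P.isPGroup'.map _
  have hC := Lib.PLocal.map_centralizer_mk hP'
  rw [Lib.PLocal.pPrimePCore_sylow_map P] at hC
  haveI := Lib.Transfer.pCore_normal (G := G ⧸ Cfsg.pPrimeCore p G) p
  intro x hx
  set D := Subgroup.centralizer (Cfsg.pCore p (G ⧸ Cfsg.pPrimeCore p G) : Set (G ⧸ Cfsg.pPrimeCore p G)) with hD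
  haveI hDn : D.Normal := inferInstance
  let f : Subgroup.centralizer (P' : Set G) →* D :=
    (q.comp (Subgroup.centralizer (P' : Set G)).subtype).codRestrict D fun u => hC.le ⟨u, u.2, rfl⟩
  have hfs : Function.Surjective f := by
    rintro ⟨y, hy⟩
    obtain ⟨u, hu, rfl⟩ := hC.ge hy
    exact ⟨⟨u, hu⟩, rfl⟩
  have hO : Cfsg.pPrimeCore p D = ⊥ := by
    have h1 := Lib.Solv.map_pPrimeCore_subgroup p D
    rwa [Lib.Solv.pPrimeCore_quotient_eq_bot, bot_inf_eq, Subgroup.map_eq_bot_iff, Subgroup.ker_subtype, le_bot_iff] at h1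
  have hHH := Lib.PLocal.selfCentralizingCore_of_pSolvable (Lib.PLocal.IsPSolvable.of_surjective f hfs hsol) hO
  have hxm : (⟨x, hx⟩ : D) ∈ Cfsg.pCore p D := hHH (Subgroup.mem_centralizer_iff.2 fun y hy => by
    have h1 : (y : G ⧸ Cfsg.pPrimeCore p G) ∈ Cfsg.pCore p (G ⧸ Cfsg.pPrimeCore p G) :=
      ((Lib.Solv.map_pCore_subgroup p D).le ⟨y, hy, rfl⟩).1
    exact Subtype.ext (Subgroup.mem_centralizer_iff.1 hx _ h1))
  exact ((Lib.Solv.map_pCore_subgroup p D).le ⟨_, hxm, rfl⟩).1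

end Cfsg.Agent.S0629
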