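import Cfsg.Statements.S0632
import Mathlib
import Cfsg.Agent.Lib.PLocal.Constraint
-- import your own Cfsg.Agent.* helpers here

set_option autoImplicit false
open Cfsg

namespace Cfsg.Agent.S0632

/-- For a group with a nontrivial normal p-subgroup, p-stability passes to and from the quotient by the largest normal subgroup of order prime to p. -/
theorem result {G : Type*} [Group G] [Finite G] {p : ℕ} [Fact p.Prime] (hO : Cfsg.pCore p G ≠ ⊥) : Cfsg.IsPStable p G ↔ Cfsg.IsPStable p (G ⧸ Cfsg.pPrimeCore p G) := by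
  haveI := Lib.Transfer.pPrimeCore_normal (G := G) p
  haveI := Lib.Transfer.pCore_normal (G := G) p
  set O := Cfsg.pPrimeCore p G with hOdef
  set q := QuotientGroup.mk' O
  have hcO := Lib.Transfer.coprime_card_pPrimeCore (G := G) p
  have hbot : Cfsg.pPrimeCore p (G ⧸ O) = ⊥ := Lib.Solv.pPrimeCore_quotient_eq_bot p
  have hd : ∀ S : Subgroup G, IsPGroup p S → O ⊓ S = ⊥ := fun S hS => by
    obtain ⟨n, hn⟩ := IsPGroup.iff_card.1 hS
    exact Subgroup.inf_eq_bot_of_coprime (by rw [hn]; exact hcO.pow_right n)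
  have hPPC : Cfsg.pPrimePCore p (G ⧸ O) = Cfsg.pCore p (G ⧸ O) := by
    haveI := Lib.Transfer.pPrimeCore_normal (G := G ⧸ O) p
    refine le_antisymm (fun x hx => ?_) fun x hx => Lib.Solv.map_pCore_le p (QuotientGroup.mk'_surjective _) ⟨x, hx, rfl⟩
    have := (Lib.PLocal.map_pCore_equiv (Lib.PLocal.equivQuotientCore hbot)).le
      (Subgroup.mem_map_of_mem _ (show QuotientGroup.mk' _ x ∈ Cfsg.pCore p _ from hx))
    exact this
  have hmapT : (Cfsg.pPrimePCore p G).map q = Cfsg.pCore p (G ⧸ O) :=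
    Subgroup.map_comap_eq_self_of_surjective (QuotientGroup.mk'_surjective _) _
  have hpne : Cfsg.pCore p (G ⧸ O) ≠ ⊥ := by
    intro h
    have h1 : (Cfsg.pCore p G).map q = ⊥ := le_bot_iff.1 (h ▸ Lib.Solv.map_pCore_le p (QuotientGroup.mk'_surjective O))
    rw [Subgroup.map_eq_bot_iff, QuotientGroup.ker_mk'] at h1
    refine hO (le_bot_iff.1 ?_)
    rw [← hd _ (Lib.Transfer.pCore_isPGroup p)]
    exact le_inf h1 le_rfl
  -- transport between the two automizers
  have key : ∀ A P : Subgroup G, IsPGroup p P → A ≤ Subgroup.normalizer (P : Set G) →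
      ((A.subgroupOf (Subgroup.normalizer (P : Set G))).map
          (QuotientGroup.mk' ((Subgroup.centralizer (P : Set G)).subgroupOf (Subgroup.normalizer (P : Set G))))
        ≤ Cfsg.pCore p _ ↔
      ((A.map q).subgroupOf (Subgroup.normalizer ((P.map q : Subgroup (G ⧸ O)) : Set (G ⧸ O)))).map
          (QuotientGroup.mk' ((Subgroup.centralizer ((P.map q : Subgroup (G ⧸ O)) : Set (G ⧸ O))).subgroupOf
            (Subgroup.normalizer ((P.map q : Subgroup (G ⧸ O)) : Set (G ⧸ O)))))
        ≤ Cfsg.pCore p _) := by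
    intro A P hP hAP
    set C' := (Subgroup.centralizer (P : Set G)).subgroupOf (Subgroup.normalizer (P : Set G))
    set C'' := (Subgroup.centralizer ((P.map q : Subgroup (G ⧸ O)) : Set (G ⧸ O))).subgroupOf
      (Subgroup.normalizer ((P.map q : Subgroup (G ⧸ O)) : Set (G ⧸ O)))
    have hN := Lib.PLocal.map_normalizer_mk hP
    let g : Subgroup.normalizer (P : Set G) →* Subgroup.normalizer ((P.map q : Subgroup (G ⧸ O)) : Set (G ⧸ O)) :=
      (q.comp (Subgroup.normalizer (P : Set G)).subtype).codRestrict _ fun x => hN.le ⟨x, x.2, rfl⟩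
    have hgs : Function.Surjective g := by
      rintro ⟨y, hy⟩
      obtain ⟨x, hx, rfl⟩ := hN.ge hy
      exact ⟨⟨x, hx⟩, rfl⟩
    let f := (QuotientGroup.mk' C'').comp g
    have hfs : Function.Surjective f := (QuotientGroup.mk'_surjective C'').comp hgs
    have hker : f.ker = C' := by
      ext x
      rw [MonoidHom.mem_ker]
      show QuotientGroup.mk' C'' (g x) = 1 ↔ _
      rw [QuotientGroup.mk'_apply, QuotientGroup.eq_one_iff, Subgroup.mem_subgroupOf, Subgroup.mem_subgroupOf]
      constructor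
      · intro h
        refine Lib.PLocal.mem_centralizer_of_disjoint (O := O) (hd P hP) x.2 fun u hu => ?_
        rw [← QuotientGroup.eq_one_iff]
        show q ((x : G) * u * (x : G)⁻¹ * u⁻¹) = 1
        rw [map_mul, map_mul, map_mul, map_inv, map_inv,
          ← Subgroup.mem_centralizer_iff.1 (show q (x : G) ∈ _ from h) (q u) ⟨u, hu, rfl⟩]
        group
      · intro h
        show q (x : G) ∈ _
        rw [Subgroup.mem_centralizer_iff]
        rintro _ ⟨u, hu, rfl⟩
        rw [← map_mul, ← map_mul, Subgroup.mem_centralizer_iff.1 h u hu]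
    let e := (QuotientGroup.quotientMulEquivOfEq hker.symm).trans (QuotientGroup.quotientKerEquivOfSurjective f hfs)
    have he : ((A.subgroupOf (Subgroup.normalizer (P : Set G))).map (QuotientGroup.mk' C')).map e.toMonoidHom =
        ((A.map q).subgroupOf _).map (QuotientGroup.mk' C'') := by
      ext y
      constructor
      · rintro ⟨_, ⟨x, hx, rfl⟩, rfl⟩
        exact ⟨g x, ⟨x, hx, rfl⟩, rfl⟩
      · rintro ⟨u, ⟨a, ha, hau⟩, rfl⟩
        exact ⟨QuotientGroup.mk' C' ⟨a, hAP ha⟩, ⟨⟨a, hAP ha⟩, ha, rfl⟩,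
          congrArg (QuotientGroup.mk' C'') (show g ⟨a, hAP ha⟩ = u from Subtype.ext hau)⟩
    rw [← he, ← Lib.PLocal.map_pCore_equiv e, Subgroup.map_le_map_iff_of_injective e.injective]
  have hnorm : ∀ {A P : Subgroup G}, (∀ a ∈ A, ∀ x ∈ P, a * x * a⁻¹ ∈ P) → A ≤ Subgroup.normalizer (P : Set G) := by
    intro A P h a ha
    rw [Subgroup.mem_normalizer_iff]
    intro x
    refine ⟨h a ha x, fun hx => ?_⟩
    have := h a⁻¹ (inv_mem ha) _ hx
    simpa [mul_assoc] using this
  constructor
  · rintro ⟨hodd, -, hst⟩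
    refine ⟨hodd, hpne, fun A' P' hA' hP' hnorm' hPT hPn hq => ?_⟩
    rw [hbot, bot_sup_eq] at hPn
    haveI := hPn
    rw [hPPC] at hPT
    set M := P'.comap q
    set K := (A' ⊔ P').comap q
    obtain ⟨S0⟩ := (inferInstance : Nonempty (Sylow p K))
    set S := (S0 : Subgroup K).map K.subtype
    have hS : IsPGroup p S := S0.isPGroup'.map _
    have hsup' : IsPGroup p (A' ⊔ P' : Subgroup (G ⧸ O)) :=
      hA'.to_sup_of_normal_right hP'
    have hfs : Function.Surjective ((q.comp K.subtype).codRestrict (A' ⊔ P') fun x => x.2) := by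
      rintro ⟨y, hy⟩
      obtain ⟨x, rfl⟩ := QuotientGroup.mk'_surjective O y
      exact ⟨⟨x, hy⟩, rfl⟩
    have hSq : S.map q = A' ⊔ P' := by
      have htop : ((S0.mapSurjective hfs : Sylow p ↥(A' ⊔ P')) : Subgroup ↥(A' ⊔ P')) = ⊤ :=
        Subgroup.index_eq_one.1 (by
          obtain ⟨k, hk⟩ := hsup'.index ((S0.mapSurjective hfs : Sylow p ↥(A' ⊔ P')) : Subgroup ↥(A' ⊔ P'))
          rcases k with _ | k
          · simpa using hk
          · exact absurd (hk ▸ dvd_pow_self p k.succ_ne_zero) (S0.mapSurjective hfs).not_dvd_index)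
      have h1 := congrArg (Subgroup.map (A' ⊔ P').subtype) htop
      rw [Sylow.coe_mapSurjective, Subgroup.map_map, ← MonoidHom.range_eq_map, Subgroup.range_subtype] at h1
      rw [← h1, Subgroup.map_map]
      rfl
    set P := S ⊓ M
    set A := S ⊓ A'.comap q
    have hA : A.map q = A' := by
      refine le_antisymm ?_ fun y hy => ?_
      · rintro _ ⟨x, hx, rfl⟩; exact hx.2
      · obtain ⟨x, hx, rfl⟩ := hSq.ge (Subgroup.mem_sup_left hy)
        exact ⟨x, ⟨hx, hy⟩, rfl⟩
    have hP : P.map q = P' := by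
      refine le_antisymm ?_ fun y hy => ?_
      · rintro _ ⟨x, hx, rfl⟩; exact hx.2
      · obtain ⟨x, hx, rfl⟩ := hSq.ge (Subgroup.mem_sup_right hy)
        exact ⟨x, ⟨hx, hy⟩, rfl⟩
    have hPp : IsPGroup p P := hS.to_le inf_le_left
    have hAP : ∀ a ∈ A, ∀ x ∈ P, a * x * a⁻¹ ∈ P := fun a ha x hx =>
      have h0 : a * x * a⁻¹ ∈ S := mul_mem (mul_mem ha.1 hx.1) (inv_mem ha.1)
      ⟨h0, (inferInstance : M.Normal).conj_mem x hx.2 a⟩
    have hOP : O ⊔ P = M := by
      rw [sup_comm]
      have h1 := congrArg (Subgroup.comap q) hP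
      rwa [Subgroup.comap_map_eq, QuotientGroup.ker_mk'] at h1
    have hPT' : P ≤ Cfsg.pPrimePCore p G := fun x hx => hPT hx.2
    have hq' : ⁅⁅P, A⁆, A⁆ = ⊥ := by
      refine le_bot_iff.1 ?_
      rw [← hd P hPp]
      refine le_inf ?_ ?_
      · rw [← QuotientGroup.ker_mk' O, ← Subgroup.map_eq_bot_iff, Subgroup.map_commutator, Subgroup.map_commutator, hP, hA, hq]
      · exact Lib.Solv.commutator_le_of_normalizes (hnorm hAP) |> fun h =>
          (Subgroup.commutator_mono h le_rfl).trans h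
    have := hst A P (hS.to_le inf_le_left) hPp hAP hPT' (by rw [hOP]; infer_instance) hq'
    rw [key A P hPp (hnorm hAP), hA, hP] at this
    exact this
  · rintro ⟨hodd, -, hst⟩
    refine ⟨hodd, hO, fun A P hA hP hAP hPT hPn hq => ?_⟩
    rw [key A P hP (hnorm hAP)]
    refine hst (A.map q) (P.map q) (hA.map q) (hP.map q) ?_ ?_ ?_ ?_
    · rintro _ ⟨a, ha, rfl⟩ _ ⟨x, hx, rfl⟩
      exact ⟨_, hAP a ha x hx, by rw [map_mul, map_mul, map_inv]⟩
    · rw [hPPC, ← hmapT]; exact Subgroup.map_mono hPT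
    · rw [hbot, bot_sup_eq]
      have := hPn.map q (QuotientGroup.mk'_surjective O)
      rwa [Subgroup.map_sup, QuotientGroup.map_mk'_self, bot_sup_eq] at this
    · rw [← Subgroup.map_commutator, ← Subgroup.map_commutator, hq, Subgroup.map_bot]

end Cfsg.Agent.S0632
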