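import Cfsg.Statements.S0633
import Mathlib
import Cfsg.Agent.Lib.Solv.HHGroup
-- import your own Cfsg.Agent.* helpers here

set_option autoImplicit false
open Cfsg

namespace Cfsg.Agent.S0633

/-- Theorem B of Hall and Higman on the minimal polynomial of a p-element of order p^n in a p-solvable linear group on a nonzero vector space in characteristic p with no nontrivial normal p-subgroup: its degree is p^n, except when some p^n₀ - 1 (n₀ ≤ n) is a power of a prime q for which the Sylow q-subgroups are non-abelian, in which case the degree is at least p^(n-n₀)(p^n₀ - 1). -/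
theorem result {F : Type*} [Field F] {p : ℕ} [Fact p.Prime] [CharP F p] {V : Type*} [AddCommGroup V] [Module F V] [FiniteDimensional F V] [Nontrivial V] (H : Subgroup (V ≃ₗ[F] V)) [Finite H] (hsol : Cfsg.IsPSolvable p H) (hOp : Cfsg.pCore p H = ⊥) (x : V ≃ₗ[F] V) (hx : x ∈ H) (n : ℕ) (hn : orderOf x = p ^ n) (r : ℕ) (hr : minpoly F (x : Module.End F V) = (Polynomial.X - 1) ^ r) : r = p ^ n ∨ ∃ n₀ q m : ℕ, 1 ≤ n₀ ∧ n₀ ≤ n ∧ q.Prime ∧ 1 ≤ m ∧ p ^ n₀ - 1 = q ^ m ∧ (∀ Q : Sylow q H, ¬ IsMulCommutative Q) ∧ p ^ (n - n₀) * (p ^ n₀ - 1) ≤ r := by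
  classical
  have hp : p.Prime := Fact.out
  set T : Module.End F V := (x : Module.End F V) with hT
  have hint : IsIntegral F T := Algebra.IsIntegral.isIntegral T
  have hxord : orderOf (⟨x, hx⟩ : H) = p ^ n := by rw [Subgroup.orderOf_mk]; exact hn
  have hTpow : T ^ p ^ n = 1 := by
    have h1 : x ^ p ^ n = 1 := by rw [← hn, pow_orderOf_eq_one]
    have h2 := congr_arg LinearEquiv.automorphismGroup.toLinearMapMonoidHom h1
    rw [map_pow, map_one] at h2
    exact h2
  have hdeg : (minpoly F T).natDegree = r := by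
    have h1 : minpoly F T = (Polynomial.X - 1) ^ r := hr
    rw [h1, Polynomial.natDegree_pow, ← Polynomial.C_1, Polynomial.natDegree_X_sub_C, mul_one]
  have hle : r ≤ p ^ n := by
    rw [← hdeg]
    have h1 : Polynomial.aeval T ((Polynomial.X - 1 : Polynomial F) ^ p ^ n) = 0 := by
      rw [sub_pow_char_pow, one_pow, map_sub, map_pow, Polynomial.aeval_X, map_one, hTpow, sub_self]
    have h2 := minpoly.natDegree_le (A := F) T
    refine (Polynomial.natDegree_le_of_dvd (minpoly.dvd F T h1) ?_).trans ?_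
    · exact pow_ne_zero _ (by rw [← Polynomial.C_1]; exact Polynomial.X_sub_C_ne_zero 1)
    · rw [Polynomial.natDegree_pow, ← Polynomial.C_1, Polynomial.natDegree_X_sub_C, mul_one]
  have hpos : 0 < r := hdeg ▸ minpoly.natDegree_pos hint
  rcases Nat.eq_zero_or_pos n with hn0 | hn0
  · subst hn0
    left
    simp only [pow_zero] at hle ⊢
    omega
  let ρ : H →* Module.End F V := LinearEquiv.automorphismGroup.toLinearMapMonoidHom.comp H.subtype
  have hinj : Function.Injective ρ := fun a b h => Subtype.ext (LinearEquiv.toLinearMap_injective h)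
  have hge : ∀ s, Cfsg.Lib.Solv.HH.DegGE (ρ ⟨x, hx⟩) s → s ≤ r := fun s h =>
    hdeg ▸ h _ (minpoly.ne_zero hint) (minpoly.aeval F T)
  rcases Cfsg.Lib.Solv.HH.hall_higman_group hsol hOp ρ hinj ⟨x, hx⟩ n hn0 hxord with
    h | ⟨q, e, m, hq, he, hen, hm, hPe, hnab, h⟩
  · exact Or.inl (le_antisymm hle (hge _ h))
  · refine Or.inr ⟨e, q, m, he, hen, hq, hm, by omega, hnab, ?_⟩
    rw [show p ^ e - 1 = q ^ m by omega]
    exact hge _ h

end Cfsg.Agent.S0633
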