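import Cfsg.Statements.S0635
import Mathlib
import Cfsg.Agent.S0634
import Cfsg.Agent.Lib.Transfer.Basic
-- import your own Cfsg.Agent.* helpers here

set_option autoImplicit false
open Cfsg
open scoped commutatorElement

namespace Cfsg.Agent.S0635

/-- The p-length of a p-soluble group is at most the nilpotency class of its Sylow p-subgroups. -/
theorem result {G : Type*} [Group G] [Finite G] {p : ℕ} [Fact p.Prime] (hsol : Cfsg.IsPSolvable p G) (S : Sylow p G) : Cfsg.PLengthLE p (Group.nilpotencyClass ↥(S : Subgroup G)) G := by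
  classical
  set c := Group.nilpotencyClass (S : Subgroup G) with hc
  set X := fun m => (Cfsg.upperPSeries p G m).1 with hXdef
  have hmono : ∀ m, X m ≤ X (m + 1) := by
    intro m x hx
    show x ∈ (Cfsg.upperPSeries p G (m + 1)).1
    rw [Cfsg.upperPSeries]
    split_ifs <;>
    · refine Subgroup.mem_comap.2 ?_
      rw [show QuotientGroup.mk' (Cfsg.upperPSeries p G m).1 x = 1 from (QuotientGroup.eq_one_iff x).2 hx]
      exact one_mem _
  have key : ∀ k, k ≤ c → (S : Subgroup G).lowerCentralSeries (c - k) ≤ X (2 * k) := by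
    intro k
    induction k with
    | zero =>
      intro _
      haveI : Group.IsNilpotent (S : Subgroup G) := S.isPGroup'.isNilpotent
      rw [Nat.sub_zero, ← Subgroup.top_subtype_lowerCentralSeries, hc, Subgroup.lowerCentralSeries_nilpotencyClass,
        Subgroup.map_bot]
      exact bot_le
    | succ k ih =>
      intro hk
      have ih' := ih (by omega)
      rw [show c - k = c - (k + 1) + 1 by omega, Subgroup.lowerCentralSeries_succ] at ih'
      intro w hw
      set Y := (Cfsg.upperPSeries p G (2 * k + 1)).1 with hY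
      set q := QuotientGroup.mk' Y with hq
      have hsc := Cfsg.Agent.S0634.result (G := G) (p := p) hsol k
      have h2 : (Cfsg.upperPSeries p G (2 * k + 2)).1 = (Cfsg.pCore p (G ⧸ Y)).comap q := by
        rw [show 2 * k + 2 = (2 * k + 1) + 1 from rfl, Cfsg.upperPSeries]
        simp only [show ¬ Even (2 * k + 1) from Nat.not_even_two_mul_add_one k, if_false]
        rfl
      have hmem : q w ∈ Subgroup.centralizer ((((Cfsg.upperPSeries p G (2 * k + 2)).1.map q) : Subgroup (G ⧸ Y)) : Set (G ⧸ Y)) := by
        refine Subgroup.mem_centralizer_iff.2 fun y hy => ?_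
        rw [h2, Subgroup.map_comap_eq_self_of_surjective (QuotientGroup.mk'_surjective Y)] at hy
        obtain ⟨s, hs, rfl⟩ := (Cfsg.Lib.Transfer.pCore_le_sylow (S.mapSurjective (QuotientGroup.mk'_surjective Y))) hy
        have h := hmono _ (ih' (Subgroup.commutator_mem_commutator hw hs))
        have h1 : q ⁅w, s⁆ = 1 := (QuotientGroup.eq_one_iff _).2 h
        rw [map_commutatorElement, commutatorElement_eq_one_iff_mul_comm] at h1
        exact h1.symm
      obtain ⟨z, hz, hzw⟩ := hsc hmem
      show w ∈ (Cfsg.upperPSeries p G (2 * k + 2)).1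
      rw [show w = z * (z⁻¹ * w) by group]
      exact mul_mem hz (hmono _ (QuotientGroup.eq.1 hzw))
  have hS : (S : Subgroup G) ≤ X (2 * c) := by simpa using key c le_rfl
  show (Cfsg.upperPSeries p G (2 * c + 1)).1 = ⊤
  rw [Cfsg.upperPSeries]
  simp only [show Even (2 * c) from even_two_mul c, if_true]
  show (Cfsg.pPrimeCore p (G ⧸ (Cfsg.upperPSeries p G (2 * c)).1)).comap _ = ⊤
  rw [eq_top_iff]
  intro x _
  refine Cfsg.Lib.Transfer.le_pPrimeCore inferInstance ?_ (Subgroup.mem_top _)
  rw [Subgroup.card_top, ← Subgroup.index_eq_card]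
  exact ((Nat.Prime.coprime_iff_not_dvd Fact.out).2 fun h => S.not_dvd_index (h.trans (Subgroup.index_dvd_of_le hS))).symm

end Cfsg.Agent.S0635
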