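import Cfsg.Statements.S0638
import Mathlib
import Cfsg.Agent.S0126
import Cfsg.Agent.S0127
-- import your own Cfsg.Agent.* helpers here

set_option autoImplicit false
open Cfsg

namespace Cfsg.Agent.S0638

/-- For odd p, in a non-cyclic metacyclic p-group the elements of order dividing p generate an elementary abelian subgroup of order p². -/
theorem result {R : Type*} [Group R] [Finite R] {p : ℕ} [Fact p.Prime] (hp : p ≠ 2) (hR : IsPGroup p R) (hm : Cfsg.IsMetacyclic R) (hnc : ¬ IsCyclic R) : Cfsg.IsElementaryAbelian p (Cfsg.omegaOne p (⊤ : Subgroup R)) ∧ Nat.card ↥(Cfsg.omegaOne p (⊤ : Subgroup R)) = p ^ 2 := by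
  classical
  haveI : Fintype R := Fintype.ofFinite R
  obtain ⟨N, hN, hNc, hQc⟩ := hm
  haveI hp' : Fact p.Prime := inferInstance
  haveI : Fintype (R ⧸ N) := Fintype.ofFinite _
  have hQp : IsPGroup p (R ⧸ N) := hR.to_quotient N
  obtain ⟨j, hj⟩ := IsPGroup.iff_card.1 hQp
  have hj0 : j ≠ 0 := by
    rintro rfl
    rw [pow_zero] at hj
    have htop : N = ⊤ := Subgroup.index_eq_one.1 hj
    subst htop
    exact hnc (isCyclic_of_surjective (Subgroup.topEquiv : (⊤ : Subgroup R) ≃* R).toMonoidHom (Subgroup.topEquiv : (⊤ : Subgroup R) ≃* R).surjective)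
  obtain ⟨U, hU⟩ := Sylow.exists_subgroup_card_pow_prime p (G := R ⧸ N) (n := 1) (hj ▸ dvd_pow_self p hj0 |> fun h => by rwa [pow_one])
  rw [pow_one] at hU
  have hUall : ∀ y : R ⧸ N, y ^ p = 1 → y ∈ U := by
    intro y hy
    by_contra hyU
    have h1 : (insert y (U : Set (R ⧸ N))).toFinset ⊆ Finset.univ.filter (fun z : R ⧸ N => z ^ p = 1) := by
      intro z hz
      rw [Set.mem_toFinset, Set.mem_insert_iff] at hz
      rw [Finset.mem_filter]
      refine ⟨Finset.mem_univ _, ?_⟩
      rcases hz with rfl | hz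
      · exact hy
      · have := pow_card_eq_one' (x := (⟨z, hz⟩ : U))
        rw [hU] at this
        exact congrArg Subtype.val this
    have h2 := (Finset.card_le_card h1).trans (IsCyclic.card_pow_eq_one_le hp'.out.pos)
    rw [← Set.ncard_eq_toFinset_card', Set.ncard_insert_of_notMem hyU, ← Nat.card_coe_set_eq] at h2
    change Nat.card U + 1 ≤ p at h2
    omega
  set K := U.comap (QuotientGroup.mk' N)
  have hxK : ∀ x : R, x ^ p = 1 → x ∈ K := fun x hx => hUall _ (by rw [← map_pow, hx, map_one])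
  have hNK : N ≤ K := fun x hx => by
    show QuotientGroup.mk' N x ∈ U
    rw [show QuotientGroup.mk' N x = 1 from (QuotientGroup.eq_one_iff x).2 hx]
    exact one_mem _
  have hKnc : ¬ IsCyclic K := by
    intro hK
    obtain ⟨A, -, hAe, hAc⟩ := Cfsg.Agent.S0126.result hp hR hnc
    have hAK : A ≤ K := fun x hx => hxK x (hAe.2 x hx)
    haveI := Subgroup.isCyclic_of_le hAK
    have h1 : Monoid.exponent A ∣ p := Monoid.exponent_dvd_of_forall_pow_eq_one fun x =>
      Subtype.ext (by rw [SubgroupClass.coe_pow, hAe.2 x x.2, OneMemClass.coe_one])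
    rw [IsCyclic.exponent_eq_card, hAc] at h1
    exact absurd (Nat.le_of_dvd hp'.out.pos h1) (not_le.2 (lt_self_pow₀ hp'.out.one_lt one_lt_two))
  haveI : IsCyclic (N.subgroupOf K) :=
    isCyclic_of_surjective (Subgroup.subgroupOfEquivOfLe hNK).symm.toMonoidHom (Subgroup.subgroupOfEquivOfLe hNK).symm.surjective
  have hidx : (N.subgroupOf K).index = p := by
    have hk := Subgroup.relIndex_ker (QuotientGroup.mk' N) (K := K)
    rw [QuotientGroup.ker_mk', Subgroup.map_comap_eq_self_of_surjective (QuotientGroup.mk'_surjective N), hU] at hk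
    exact hk
  obtain ⟨he, hc⟩ := Cfsg.Agent.S0127.result hp (hR.to_subgroup K) hKnc (N.subgroupOf K) inferInstance hidx
  have heq : (Subgroup.closure {x : K | x ^ p = 1}).map K.subtype = Cfsg.omegaOne p (⊤ : Subgroup R) := by
    rw [MonoidHom.map_closure, Cfsg.omegaOne]
    congr 1
    ext x
    constructor
    · rintro ⟨y, hy, rfl⟩
      exact ⟨Subgroup.mem_top _, congrArg Subtype.val hy⟩
    · rintro ⟨-, hx⟩
      exact ⟨⟨x, hxK x hx⟩, Subtype.ext hx, rfl⟩
  rw [← heq]
  haveI := he.1
  refine ⟨⟨inferInstance, ?_⟩, by rw [Subgroup.card_map_of_injective K.subtype_injective]; exact hc⟩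
  rintro _ ⟨y, hy, rfl⟩
  rw [← map_pow, he.2 y hy, map_one]

end Cfsg.Agent.S0638
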