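import Cfsg.Statements.S0640
import Mathlib
import Cfsg.Agent.Lib.Transfer.RankTwo
import Cfsg.Agent.Lib.Transfer.Critical
import Cfsg.Agent.Lib.Transfer.Regular
import Cfsg.Agent.S4209
-- import your own Cfsg.Agent.* helpers here

set_option autoImplicit false
open Cfsg

namespace Cfsg.Agent.S0640

open Cfsg.Lib.Transfer Cfsg.Lib.Transfer.Regular

theorem count {X : Type*} [Group X] [Finite X] {p q : ℕ} [hp : Fact p.Prime] [hq : Fact q.Prime] (hqp : q ≠ p)
    (hX : IsPGroup p X) (hcard : Nat.card X ≤ p ^ 3)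
    (f : X ≃* X) (hf : ∀ x, f^[q] x = x) (hne : ∃ x, f x ≠ x) :
    q ∣ p ^ 2 - 1 ∨ ((∀ x, f x = x → x = 1) ∧ Nat.card X = p ^ 3) := by
  classical
  let F : Subgroup X :=
    { carrier := {x | f x = x}
      one_mem' := map_one f
      mul_mem' := fun {a b} (ha : f a = a) (hb : f b = b) => by show f (a * b) = a * b; rw [map_mul, ha, hb]
      inv_mem' := fun {a} (ha : f a = a) => by show f a⁻¹ = a⁻¹; rw [map_inv, ha] }
  let σ : Equiv.Perm X := f.toEquiv
  have hσ : σ ^ q = 1 := by
    ext x
    rw [Equiv.Perm.coe_pow]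
    exact hf x
  have hS : IsPGroup q (Subgroup.zpowers σ) := by
    intro g
    obtain ⟨g, i, rfl⟩ := g
    refine ⟨1, Subtype.ext ?_⟩
    show (σ ^ i) ^ q ^ 1 = 1
    rw [pow_one, ← zpow_natCast, ← zpow_mul, mul_comm, zpow_mul, zpow_natCast, hσ, one_zpow]
  have hmod := hS.card_modEq_card_fixedPoints X
  have hfix : Nat.card (MulAction.fixedPoints (Subgroup.zpowers σ) X) = Nat.card F := by
    refine Nat.card_congr (Equiv.subtypeEquivRight fun x => ⟨fun h => h ⟨σ, Subgroup.mem_zpowers σ⟩, fun h => ?_⟩)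
    rintro ⟨g, i, rfl⟩
    exact Equiv.Perm.zpow_apply_eq_self_of_apply_eq_self (h : σ x = x) i
  rw [hfix] at hmod
  obtain ⟨j, hj⟩ := IsPGroup.iff_card.1 hX
  obtain ⟨i, hi⟩ := IsPGroup.iff_card.1 (hX.to_subgroup F)
  obtain ⟨x, hx⟩ := hne
  have hij : i < j := by
    refine (Nat.pow_lt_pow_iff_right hp.out.one_lt).1 ?_
    rw [← hi, ← hj]
    refine lt_of_le_of_ne (Subgroup.card_le_card_group F) fun e => hx ?_
    exact ((Subgroup.eq_top_of_card_eq F e) ▸ Subgroup.mem_top x : x ∈ F)
  have hj3 : j ≤ 3 := (Nat.pow_le_pow_iff_right hp.out.one_lt).1 (hj ▸ hcard)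
  rw [hi, hj] at hmod
  have hd : q ∣ p ^ (j - i) - 1 := by
    have h1 : q ∣ p ^ j - p ^ i := (Nat.modEq_iff_dvd' (Nat.pow_le_pow_right hp.out.pos hij.le)).1 hmod.symm
    rw [show p ^ j - p ^ i = p ^ i * (p ^ (j - i) - 1) by rw [Nat.mul_sub, mul_one, ← pow_add, Nat.add_sub_cancel' hij.le]] at h1
    exact (((Nat.coprime_primes hq.out hp.out).2 hqp).pow_right i).dvd_of_dvd_mul_left h1
  by_cases h : j - i ≤ 2
  · left
    rcases (show j - i = 1 ∨ j - i = 2 by omega) with h | h <;> rw [h] at hd
    · have h1 : p ^ 2 - 1 = (p + 1) * (p ^ 1 - 1) := by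
        have := Nat.sq_sub_sq p 1
        simpa using this
      rw [h1]; exact dvd_mul_of_dvd_right hd _
    · exact hd
  · right
    obtain ⟨rfl, rfl⟩ : i = 0 ∧ j = 3 := by omega
    refine ⟨fun y hy => ?_, hj⟩
    have : F = ⊥ := Subgroup.eq_bot_of_card_eq F (by rw [hi, pow_zero])
    exact Subgroup.mem_bot.1 (this ▸ (hy : y ∈ F))

/-- For odd p, a prime q ≠ p dividing the order of the automorphism group of a p-group of rank at most 2 divides p² - 1 and is less than p. -/
theorem result {R : Type*} [Group R] [Finite R] {p : ℕ} [Fact p.Prime] (hp : p ≠ 2) (hR : IsPGroup p R) (hrk : Cfsg.PRankLE p 2 R) (q : ℕ) (hq : q.Prime) (hqp : q ≠ p) (hdvd : q ∣ Nat.card (MulAut R)) : q ∣ p ^ 2 - 1 ∧ q < p := by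
  classical
  haveI := Fact.mk hq
  obtain ⟨a, ha⟩ := exists_prime_orderOf_dvd_card' q hdvd
  have haq : ∀ x : R, (⇑a)^[q] x = x := by
    have hit : ∀ (k : ℕ) (x : R), (⇑a)^[k] x = (a ^ k) x := by
      intro k
      induction k with
      | zero => intro x; rfl
      | succ k ih => intro x; rw [Function.iterate_succ_apply', ih, pow_succ']; rfl
    intro x
    rw [hit, ← ha, pow_orderOf_eq_one]; rfl
  have hane : ∃ x, a x ≠ x := by
    by_contra h
    push Not at h
    have : a = 1 := MulEquiv.ext h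
    rw [this, orderOf_one] at ha
    exact hq.ne_one ha.symm
  have hcop : q.Coprime p := (Nat.coprime_primes hq Fact.out).2 hqp
  have hrk' : ∀ E : Subgroup R, Cfsg.IsElementaryAbelian p E → Nat.card E ≤ p ^ 2 := fun E hE => hrk E hE.1 hE.2
  obtain ⟨H, hHc, -, hHcomm, hC⟩ := exists_critical (p := p) hR
  haveI := hHc
  have hp3 : 3 ≤ p := by have := (Fact.out : p.Prime).two_le; omega
  have hcl : (⊤ : Subgroup H).lowerCentralSeries (p - 1) = ⊥ := by
    refine eq_bot_iff.2 ((Subgroup.lowerCentralSeries_antitone _ (show 2 ≤ p - 1 by omega)).trans ?_)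
    apply le_of_eq
    apply Subgroup.map_injective H.subtype_injective
    rw [Subgroup.map_bot, Subgroup.top_subtype_lowerCentralSeries]
    show ⁅⁅H, H⁆, H⁆ = ⊥
    rw [Subgroup.commutator_eq_bot_iff_le_centralizer]
    exact ((Subgroup.commutator_mono le_rfl le_top).trans hHcomm).trans inf_le_right
  have hRH := reg_of_isRegular (Cfsg.Agent.S4209.result (hR.to_subgroup H) hcl)
  set W := omega (hR.to_subgroup H) hRH with hW
  set X := W.map H.subtype with hXdef
  have hXe : ∀ x ∈ X, x ^ p = 1 := by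
    rintro _ ⟨y, hy, rfl⟩
    exact congrArg Subtype.val (show y ^ p = 1 from hy)
  have hXinv : X.map a.toMonoidHom = X := by
    refine Subgroup.eq_of_le_of_card_ge ?_ (Subgroup.card_map_of_injective a.injective).ge
    rintro _ ⟨_, ⟨y, hy, rfl⟩, rfl⟩
    exact ⟨⟨a (y : R), map_mem_of_characteristic a y.2⟩, (Subtype.ext (by
      show a (y : R) ^ p = 1
      rw [← map_pow, show ((y : R)) ^ p = 1 from congrArg Subtype.val (show y ^ p = 1 from hy), map_one]) :
        (⟨a (y : R), map_mem_of_characteristic a y.2⟩ : H) ^ p = 1), rfl⟩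
  let f : X ≃* X := (a.subgroupMap X).trans (MulEquiv.subgroupCongr hXinv)
  have hfv : ∀ y : X, ((f y : X) : R) = a (y : R) := fun y => rfl
  have hfq : ∀ y : X, f^[q] y = y := by
    have hit : ∀ (k : ℕ) (y : X), ((f^[k] y : X) : R) = (⇑a)^[k] (y : R) := by
      intro k
      induction k with
      | zero => intro y; rfl
      | succ k ih => intro y; rw [Function.iterate_succ_apply', Function.iterate_succ_apply', hfv, ih]
    exact fun y => Subtype.ext (by rw [hit, haq])
  have hmoved : ∃ x : X, f x ≠ x := by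
    by_contra hh
    push Not at hh
    obtain ⟨x, hx⟩ := hane
    refine hx (fixed_of_fix_selfCentralizing hR a.toMonoidHom hcop haq H hC (fun u hu => ?_) x)
    have hmap : H.map a.toMonoidHom = H := Subgroup.characteristic_iff_map_eq.1 hHc a
    let g : H ≃* H := (a.subgroupMap H).trans (MulEquiv.subgroupCongr hmap)
    have hgv : ∀ y : H, ((g y : H) : R) = a (y : R) := fun y => rfl
    have hit : ∀ (k : ℕ) (y : H), ((g^[k] y : H) : R) = (⇑a)^[k] (y : R) := by
      intro k
      induction k with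
      | zero => intro y; rfl
      | succ k ih => intro y; rw [Function.iterate_succ_apply', Function.iterate_succ_apply', hgv, ih]
    have := fixed_of_fix_omega hp _ H rfl (hR.to_subgroup H) g q hcop (fun y => Subtype.ext (by rw [hit, haq]))
      (fun y hy => by
        have h1 := congrArg Subtype.val (hh ⟨(y : R), ⟨y, hy, rfl⟩⟩)
        exact Subtype.ext h1) ⟨u, hu⟩
    exact congrArg Subtype.val this
  have hXcard : Nat.card X ≤ p ^ 3 := RankTwo.card_le_of_exponent hp hR hrk' X hXe
  have key : q ∣ p ^ 2 - 1 := by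
    rcases count hqp (hR.to_subgroup X) hXcard f hfq hmoved with h | ⟨hfree, hc3⟩
    · exact h
    · -- move to the centre
      haveI : Nontrivial X := by
        obtain ⟨x, hx⟩ := hmoved
        exact ⟨f x, x, hx⟩
      have hZbot : Subgroup.center X ≠ ⊥ := (Subgroup.nontrivial_iff_ne_bot _).1 (hR.to_subgroup X).center_nontrivial
      set Z := Subgroup.center X
      have hZmap : Z.map f.toMonoidHom = Z := Subgroup.characteristic_iff_map_eq.1 inferInstance f
      let g : Z ≃* Z := (f.subgroupMap Z).trans (MulEquiv.subgroupCongr hZmap)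
      have hgv : ∀ y : Z, ((g y : Z) : X) = f (y : X) := fun y => rfl
      have hit : ∀ (k : ℕ) (y : Z), ((g^[k] y : Z) : X) = f^[k] (y : X) := by
        intro k
        induction k with
        | zero => intro y; rfl
        | succ k ih => intro y; rw [Function.iterate_succ_apply', Function.iterate_succ_apply', hgv, ih]
      obtain ⟨z, hz, hz1⟩ := (Subgroup.bot_or_exists_ne_one Z).resolve_left hZbot
      have hZmoved : ∃ y : Z, g y ≠ y := ⟨⟨z, hz⟩, fun e => hz1 (hfree z (congrArg Subtype.val e))⟩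
      have hZ2 : Nat.card Z ≤ p ^ 2 := by
        haveI hZc : IsMulCommutative (Z.map X.subtype) := inferInstance
        exact (Subgroup.card_map_of_injective X.subtype_injective).ge.trans (hrk' (Z.map X.subtype) ⟨hZc, by
          rintro _ ⟨y, _, rfl⟩; exact hXe y y.2⟩)
      rcases count hqp ((hR.to_subgroup X).to_subgroup Z) (hZ2.trans (Nat.pow_le_pow_right (Fact.out : p.Prime).pos (by norm_num)))
        g (fun y => Subtype.ext (by rw [hit, hfq])) hZmoved with h | ⟨-, h3⟩
      · exact h
      · exfalso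
        rw [h3] at hZ2
        exact absurd ((Nat.pow_le_pow_iff_right (Fact.out : p.Prime).one_lt).1 hZ2) (by norm_num)
  refine ⟨key, ?_⟩
  have h1 : p ^ 2 - 1 = (p + 1) * (p - 1) := by
    have := Nat.sq_sub_sq p 1
    simpa using this
  rw [h1] at key
  rcases hq.dvd_mul.1 key with h | h
  · rcases Nat.lt_or_ge q p with h2 | h2
    · exact h2
    exfalso
    have h3 := Nat.le_of_dvd (by omega) h
    have h4 : q = p + 1 := by omega
    have h5 : Even q := by rw [h4]; exact ((Fact.out : p.Prime).odd_of_ne_two hp).add_one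
    have := hq.even_iff.1 h5
    omega
  · have := Nat.le_of_dvd (by omega) h
    omega

end Cfsg.Agent.S0640
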