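import Cfsg.Statements.S0641
import Mathlib
-- import your own Cfsg.Agent.* helpers here

set_option autoImplicit false
open Cfsg
open scoped commutatorElement

namespace Cfsg.Agent.S0641

/-- Regularity of a p-group passes to quotient groups. -/
theorem result {G : Type*} [Group G] {p : ℕ} [Fact p.Prime] (hG : Cfsg.IsRegularPGroup p G) (N : Subgroup G) [N.Normal] : Cfsg.IsRegularPGroup p (G ⧸ N) := by
  refine ⟨hG.1.to_quotient N, fun a b n => ?_⟩
  obtain ⟨a, rfl⟩ := QuotientGroup.mk'_surjective N a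
  obtain ⟨b, rfl⟩ := QuotientGroup.mk'_surjective N b
  obtain ⟨c, hc, he⟩ := hG.2 a b n
  set q := QuotientGroup.mk' N
  refine ⟨q c, ?_, by rw [← map_mul, ← map_pow, he, map_mul, map_mul, map_pow, map_pow]⟩
  have hH : Subgroup.closure ({q a, q b} : Set (G ⧸ N)) = (Subgroup.closure ({a, b} : Set G)).map q := by
    rw [MonoidHom.map_closure, Set.image_insert_eq, Set.image_singleton]
  rw [hH, ← Subgroup.map_commutator]
  have hle : Cfsg.powerClosure p n ⁅Subgroup.closure ({a, b} : Set G), Subgroup.closure ({a, b} : Set G)⁆ ≤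
      (Cfsg.powerClosure p n ((⁅Subgroup.closure ({a, b} : Set G), Subgroup.closure ({a, b} : Set G)⁆).map q)).comap q :=
    (Subgroup.closure_le _).2 fun y ⟨x, hx, e⟩ => Subgroup.subset_closure ⟨q x, ⟨x, hx, rfl⟩, by rw [e, map_pow]⟩
  exact hle hc

end Cfsg.Agent.S0641
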