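import Cfsg.Statements.S0642
import Mathlib
import Cfsg.Agent.Lib.Transfer.PGroupFrattini
-- import your own Cfsg.Agent.* helpers here

set_option autoImplicit false
open Cfsg
open scoped commutatorElement

namespace Cfsg.Agent.S0642

/-- Among finite 2-groups the regular ones are exactly the abelian ones. -/
theorem result {G : Type*} [Group G] [Finite G] (hG : IsPGroup 2 G) : Cfsg.IsRegularPGroup 2 G ↔ ∀ a b : G, a * b = b * a := by
  constructor
  · intro hreg
    set D := commutator G
    have hle : D ≤ Cfsg.powerClosure 2 1 D := by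
      refine (show D = _ from commutator_eq_closure G).le.trans ((Subgroup.closure_le _).2 ?_)
      rintro _ ⟨x, y, rfl⟩
      obtain ⟨c, hc, he⟩ := hreg.2 y⁻¹ x 1
      have hsub : Cfsg.powerClosure 2 1 ⁅Subgroup.closure ({y⁻¹, x} : Set G), Subgroup.closure ({y⁻¹, x} : Set G)⁆ ≤
          Cfsg.powerClosure 2 1 D := Subgroup.closure_mono fun z ⟨w, hw, e⟩ =>
        ⟨w, Subgroup.commutator_mono le_top le_top hw, e⟩
      rw [pow_one, pow_two, pow_two, pow_two] at he
      have hconj : ∀ g z : G, z ∈ Cfsg.powerClosure 2 1 D → g * z * g⁻¹ ∈ Cfsg.powerClosure 2 1 D := by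
        intro g z hz
        induction hz using Subgroup.closure_induction with
        | mem w hw =>
          obtain ⟨v, hv, rfl⟩ := hw
          refine Subgroup.subset_closure ⟨g * v * g⁻¹, (inferInstance : D.Normal).conj_mem v hv g, ?_⟩
          rw [conj_pow]
        | one => rw [mul_one, mul_inv_cancel]; exact one_mem _
        | mul u v _ _ h1 h2 => rw [← conj_mul]; exact mul_mem h1 h2
        | inv u _ h1 => rw [← conj_inv]; exact inv_mem h1
      have e : c = x⁻¹ * ⁅x⁻¹, y⁆ * x := by
        have : c = (y⁻¹ * y⁻¹ * (x * x))⁻¹ * (y⁻¹ * x * (y⁻¹ * x)) := by rw [he]; group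
        rw [this, commutatorElement_def]; group
      have h1 : ⁅x⁻¹, y⁆ ∈ Cfsg.powerClosure 2 1 D := by
        have := hconj x c (hsub hc)
        rwa [e, show x * (x⁻¹ * ⁅x⁻¹, y⁆ * x) * x⁻¹ = ⁅x⁻¹, y⁆ by group] at this
      have h2 := inv_mem (hconj x _ h1)
      show ⁅x, y⁆ ∈ Cfsg.powerClosure 2 1 D
      rwa [show (x * ⁅x⁻¹, y⁆ * x⁻¹)⁻¹ = ⁅x, y⁆ by simp only [commutatorElement_def]; group] at h2
    have hF : (⊤ : Subgroup D) ≤ frattini D := by
      have h2 : Cfsg.powerClosure 2 1 D ≤ (frattini D).map D.subtype := by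
        refine (Subgroup.closure_le _).2 ?_
        rintro _ ⟨x, hx, rfl⟩
        rw [pow_one]
        exact ⟨_, Cfsg.Lib.Transfer.pow_mem_frattini (hG.to_subgroup D) ⟨x, hx⟩, rfl⟩
      intro x _
      obtain ⟨y, hy, e⟩ := (hle.trans h2) x.2
      rwa [← Subtype.ext e]
    have hbot : D = ⊥ := by
      have h3 : (⊥ : Subgroup D) = ⊤ := frattini_nongenerating (by rw [bot_sup_eq]; exact top_le_iff.1 hF)
      rw [Subgroup.eq_bot_iff_forall]
      intro x hx
      have : (⟨x, hx⟩ : D) ∈ (⊥ : Subgroup D) := h3 ▸ Subgroup.mem_top _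
      exact congrArg Subtype.val (Subgroup.mem_bot.1 this)
    intro a b
    rw [← commutatorElement_eq_one_iff_mul_comm, ← Subgroup.mem_bot, ← hbot]
    exact Subgroup.commutator_mem_commutator (Subgroup.mem_top a) (Subgroup.mem_top b)
  · intro h
    exact ⟨hG, fun a b n => ⟨1, one_mem _, by rw [mul_one]; exact Commute.mul_pow (h a b) _⟩⟩

end Cfsg.Agent.S0642
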