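import Cfsg.Statements.S0660
import Mathlib
import Cfsg.Agent.Lib.PLocal.Offender
-- import your own Cfsg.Agent.* helpers here

set_option autoImplicit false
open Cfsg

namespace Cfsg.Agent.S0660

/-- Under a coprime action on an abelian group, an invariant subgroup that is complemented admits an invariant complement. -/
theorem result {G : Type*} [Group G] [Finite G] (V A U : Subgroup G) (hVab : IsMulCommutative V) (hAV : A ≤ Subgroup.normalizer (V : Set G)) (hcop : (Nat.card A).Coprime (Nat.card V)) (hUV : U ≤ V) (hAU : A ≤ Subgroup.normalizer (U : Set G)) (W : Subgroup G) (hWV : W ≤ V) (hUW : U ⊓ W = ⊥) (hUWV : U ⊔ W = V) : ∃ W' : Subgroup G, W' ≤ V ∧ A ≤ Subgroup.normalizer (W' : Set G) ∧ U ⊓ W' = ⊥ ∧ U ⊔ W' = V := by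
  classical
  haveI := hVab
  have hc : ∀ x ∈ V, ∀ y ∈ V, x * y = y * x := fun x hx y hy => congrArg Subtype.val (hVab.is_comm.comm (⟨x, hx⟩ : V) ⟨y, hy⟩)
  letI : CommGroup V := { (inferInstance : Group V) with mul_comm := fun x y => hVab.is_comm.comm x y }
  haveI : Fintype A := Fintype.ofFinite A
  let f : (U.subgroupOf V) × (W.subgroupOf V) →* V := (U.subgroupOf V).subtype.coprod (W.subgroupOf V).subtype
  have hf : Function.Bijective f := by
    refine ⟨(injective_iff_map_eq_one f).2 ?_, fun v => ?_⟩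
    · rintro ⟨u, w⟩ h
      have h1 : ((u : V) : G) * ((w : V) : G) = 1 := congrArg Subtype.val h
      have h0 : (((w : V) : G))⁻¹ ∈ W := inv_mem (show ((w : V) : G) ∈ W from w.2)
      have h2 : ((u : V) : G) ∈ U ⊓ W := ⟨u.2, (eq_inv_of_mul_eq_one_left h1).symm ▸ h0⟩
      rw [hUW, Subgroup.mem_bot] at h2
      rw [h2, one_mul] at h1
      exact Prod.ext (Subtype.ext (Subtype.ext h2)) (Subtype.ext (Subtype.ext h1))
    · have hv : (v : G) ∈ U ⊔ W := hUWV.ge v.2
      rw [← SetLike.mem_coe, Subgroup.coe_mul_of_left_le_normalizer_right U W (fun x hx => by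
        rw [Subgroup.mem_normalizer_iff]
        intro y
        refine ⟨fun hy => ?_, fun hy => ?_⟩
        · rw [hc x (hUV hx) y (hWV hy), mul_inv_cancel_right]; exact hy
        · have h := hc x⁻¹ (inv_mem (hUV hx)) _ (hWV hy)
          have h' : y = x * y * x⁻¹ := by
            calc y = x⁻¹ * (x * y * x⁻¹) * x := by group
              _ = _ := by rw [h, inv_mul_cancel_right]
          rw [h']; exact hy)] at hv
      obtain ⟨u, hu, w, hw, e⟩ := hv
      exact ⟨(⟨⟨u, hUV hu⟩, hu⟩, ⟨⟨w, hWV hw⟩, hw⟩), Subtype.ext e⟩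
  let e : (U.subgroupOf V) × (W.subgroupOf V) ≃* V := MulEquiv.ofBijective f hf
  let π : V →* V := (U.subgroupOf V).subtype.comp ((MonoidHom.fst _ _).comp e.symm.toMonoidHom)
  have hπU : ∀ v : V, ((π v : V) : G) ∈ U := fun v => (e.symm v).1.2
  have hπfix : ∀ u : V, (u : G) ∈ U → π u = u := by
    intro u hu
    have : e (⟨u, hu⟩, 1) = u := by
      show f (⟨u, hu⟩, 1) = u
      simp [f]
    show ((e.symm u).1 : V) = u
    rw [← this, e.symm_apply_apply]
    exact this.symm
  have hA : ∀ a : A, ∀ v : V, (a : G) * v * (a : G)⁻¹ ∈ V := fun a v =>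
    (Subgroup.mem_normalizer_iff.1 (hAV a.2) v).1 v.2
  let c : A → (V →* V) := fun a =>
    { toFun := fun v => ⟨(a : G) * v * (a : G)⁻¹, hA a v⟩
      map_one' := Subtype.ext (by simp)
      map_mul' := fun x y => Subtype.ext (by simp) }
  let φ : V →* V :=
    { toFun := fun v => ∏ a : A, c a (π (c a⁻¹ v))
      map_one' := by simp
      map_mul' := fun x y => by simp [Finset.prod_mul_distrib] }
  have hφU : ∀ v : V, ((φ v : V) : G) ∈ U := fun v => by
    show ((∏ a : A, c a (π (c a⁻¹ v)) : V) : G) ∈ U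
    have := Subgroup.prod_mem (U.subgroupOf V) (t := Finset.univ) (f := fun a : A => c a (π (c a⁻¹ v)))
      fun a _ => (Subgroup.mem_normalizer_iff.1 (hAU a.2) _).1 (hπU _)
    exact this
  have hφfix : ∀ u : V, (u : G) ∈ U → φ u = u ^ Nat.card A := fun u hu => by
    show (∏ a : A, c a (π (c a⁻¹ u))) = _
    rw [show u ^ Nat.card A = ∏ _a : A, u by simp]
    refine Finset.prod_congr rfl fun a _ => ?_
    rw [hπfix _ ((Subgroup.mem_normalizer_iff.1 (hAU (inv_mem a.2)) _).1 hu)]
    exact Subtype.ext (by simp [c, mul_assoc])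
  have hequiv : ∀ (b : A) (v : V), φ (c b v) = c b (φ v) := by
    intro b v
    show (∏ a : A, c a (π (c a⁻¹ (c b v)))) = c b (∏ a : A, c a (π (c a⁻¹ v)))
    rw [map_prod]
    refine (Fintype.prod_equiv (Equiv.mulLeft b) _ _ fun a => ?_).symm
    simp only [Equiv.coe_mulLeft]
    have e1 : c (b * a)⁻¹ (c b v) = c a⁻¹ v := Subtype.ext (by simp [c, mul_assoc])
    rw [e1]
    exact Subtype.ext (by simp [c, mul_assoc])
  set W' := φ.ker.map V.subtype
  have hW'V : W' ≤ V := Subgroup.map_subtype_le _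
  have hUW' : U ⊓ W' = ⊥ := by
    rw [eq_bot_iff]
    rintro x ⟨hxU, v, hv, rfl⟩
    have h1 : v ^ Nat.card A = 1 := by rw [← hφfix v hxU]; exact hv
    have h2 := pow_gcd_eq_one.2 ⟨h1, pow_card_eq_one' (x := v)⟩
    rw [hcop.gcd_eq_one, pow_one] at h2
    rw [h2]; exact one_mem _
  refine ⟨W', hW'V, fun b hb => ?_, hUW', ?_⟩
  · rw [Subgroup.mem_normalizer_iff]
    have key : ∀ (b' : A) (x : G), x ∈ W' → (b' : G) * x * (b' : G)⁻¹ ∈ W' := by
      rintro b' _ ⟨v, hv, rfl⟩
      refine ⟨c b' v, ?_, rfl⟩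
      show φ (c b' v) = 1
      rw [hequiv, show φ v = 1 from hv, map_one]
    intro x
    refine ⟨key ⟨b, hb⟩ x, fun h => ?_⟩
    have := key ⟨b, hb⟩⁻¹ _ h
    simpa [mul_assoc] using this
  · refine Subgroup.eq_of_le_of_card_ge (sup_le hUV hW'V) ?_
    have h0 : U.subgroupOf V ⊔ φ.ker = ⊤ := by
      refine Subgroup.eq_top_of_le_card _ ?_
      have h3 := Cfsg.Lib.PLocal.card_sup_mul_card_inf_normal (U.subgroupOf V) φ.ker
      have h4 : U.subgroupOf V ⊓ φ.ker = ⊥ := by
        rw [eq_bot_iff]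
        intro v hv
        have : (v : G) ∈ U ⊓ W' := ⟨hv.1, v, hv.2, rfl⟩
        rw [hUW'] at this
        exact Subtype.ext this
      rw [h4, Subgroup.card_bot, mul_one] at h3
      rw [h3]
      have h5 := φ.ker.card_mul_index
      rw [Subgroup.index_ker, mul_comm] at h5
      rw [← h5]
      refine Nat.mul_le_mul_right _ (Subgroup.card_le_of_le fun v hv => ?_)
      obtain ⟨w, rfl⟩ := hv
      exact hφU w
    have h6 := congrArg (Subgroup.map V.subtype) h0
    rw [Subgroup.map_sup, Subgroup.map_subgroupOf_eq_of_le hUV, ← MonoidHom.range_eq_map, Subgroup.range_subtype] at h6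
    rw [h6]

end Cfsg.Agent.S0660
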