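import Cfsg.Statements.S0662
import Mathlib
-- import your own Cfsg.Agent.* helpers here

set_option autoImplicit false
open Cfsg

namespace Cfsg.Agent.S0662

open scoped commutatorElement

universe v

theorem stationary {Q : Type v} [Group Q] [Group.IsNilpotent Q] {k : ℕ}
    (h : (⊤ : Subgroup Q).lowerCentralSeries k ≤ (⊤ : Subgroup Q).lowerCentralSeries (k + 1)) :
    (⊤ : Subgroup Q).lowerCentralSeries k = ⊥ := by
  obtain ⟨c, hc⟩ := nilpotent_iff_lowerCentralSeries.1 (‹Group.IsNilpotent Q›)
  have key : ∀ j, (⊤ : Subgroup Q).lowerCentralSeries k ≤ (⊤ : Subgroup Q).lowerCentralSeries (k + j) := by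
    intro j
    induction j with
    | zero => exact le_rfl
    | succ j ih =>
      refine h.trans ?_
      rw [Subgroup.lowerCentralSeries_succ, ← add_assoc, Subgroup.lowerCentralSeries_succ]
      exact Subgroup.commutator_mono ih le_rfl
  refine eq_bot_iff.2 ((key c).trans ?_)
  rw [← hc]
  exact (⊤ : Subgroup Q).lowerCentralSeries_antitone (Nat.le_add_left _ _)

theorem bot_of_cyclic {Q : Type v} [Group Q] [Group.IsNilpotent Q]
    (hc : IsCyclic (Q ⧸ (⊤ : Subgroup Q).lowerCentralSeries 1)) : (⊤ : Subgroup Q).lowerCentralSeries 1 = ⊥ := by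
  set D := (⊤ : Subgroup Q).lowerCentralSeries 1
  refine stationary ?_
  set M := (⊤ : Subgroup Q).lowerCentralSeries 2
  obtain ⟨g, hg⟩ : ∃ g : Q, ∀ x : Q, ∃ i : ℤ, (g ^ i)⁻¹ * x ∈ D := by
    obtain ⟨c, hc⟩ := IsCyclic.exists_generator (α := Q ⧸ D)
    obtain ⟨g, rfl⟩ := QuotientGroup.mk'_surjective D c
    refine ⟨g, fun x => ?_⟩
    obtain ⟨i, hi⟩ := Subgroup.mem_zpowers_iff.1 (hc (QuotientGroup.mk x))
    refine ⟨i, ?_⟩
    rw [← QuotientGroup.eq, ← hi]
    rfl
  set q := QuotientGroup.mk' M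
  have hcen : ∀ d ∈ D, ∀ x : Q, Commute (q d) (q x) := fun d hd x => by
    refine commutatorElement_eq_one_iff_mul_comm.1 ?_
    rw [← map_commutatorElement]
    exact (QuotientGroup.eq_one_iff _).2 (Subgroup.commutator_mem_commutator hd (Subgroup.mem_top x))
  show (⊤ : Subgroup Q).lowerCentralSeries (0 + 1) ≤ M
  rw [Subgroup.lowerCentralSeries_succ, Subgroup.lowerCentralSeries_zero, Subgroup.commutator_le]
  intro x _ y _
  refine (QuotientGroup.eq_one_iff _).1 ?_
  show q ⁅x, y⁆ = 1
  rw [map_commutatorElement, commutatorElement_eq_one_iff_mul_comm]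
  obtain ⟨i, hi⟩ := hg x
  obtain ⟨i', hi'⟩ := hg y
  have ex : q x = q (g ^ i) * q ((g ^ i)⁻¹ * x) := by rw [← map_mul, mul_inv_cancel_left]
  have ey : q y = q (g ^ i') * q ((g ^ i')⁻¹ * y) := by rw [← map_mul, mul_inv_cancel_left]
  rw [ex, ey]
  have hgg : Commute (q (g ^ i)) (q (g ^ i')) := ((Commute.refl g).zpow_zpow i i').map q
  exact ((hgg.mul_right (hcen _ hi' _).symm).mul_left ((hcen _ hi _).mul_right (hcen _ hi _))).eq

theorem lcs_card {Q : Type v} [Group Q] [Finite Q] {p : ℕ} [Fact p.Prime] {r : ℕ} (hQ : Nat.card Q = p ^ r) (hr : 2 ≤ r) :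
    ∀ k, 1 ≤ k → (⊤ : Subgroup Q).lowerCentralSeries k = ⊥ ∨
      Nat.card ((⊤ : Subgroup Q).lowerCentralSeries k) * p ^ (k + 1) ≤ p ^ r := by
  classical
  haveI : Group.IsNilpotent Q := (IsPGroup.of_card hQ).isNilpotent
  have hp2 := (Fact.out : p.Prime).two_le
  intro k hk
  induction k, hk using Nat.le_induction with
  | base =>
    set D := (⊤ : Subgroup Q).lowerCentralSeries 1
    haveI hDn : D.Normal := inferInstance
    obtain ⟨j, hj, hDj⟩ := (Nat.dvd_prime_pow (Fact.out : p.Prime)).1 (hQ ▸ Subgroup.card_subgroup_dvd_card D)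
    by_cases hjr : j + 2 ≤ r
    · right
      rw [hDj, ← pow_add]
      exact Nat.pow_le_pow_right (by omega) hjr
    left
    have hidx : D.index ∣ p := by
      have h1 := D.card_mul_index
      rw [hDj, hQ] at h1
      have h2 : D.index = p ^ (r - j) := Nat.eq_of_mul_eq_mul_left (pow_pos (by omega : 0 < p) j) (by
        rw [h1, ← pow_add, Nat.add_sub_cancel' hj])
      rw [h2]
      exact (pow_dvd_pow p (by omega : r - j ≤ 1)).trans (dvd_of_eq (pow_one p))
    refine bot_of_cyclic ?_
    rcases (Nat.dvd_prime (Fact.out : p.Prime)).1 hidx with h | h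
    · haveI : Subsingleton (Q ⧸ D) := (Nat.card_eq_one_iff_unique.1 h).1
      infer_instance
    · exact isCyclic_of_prime_card h
  | succ k hk ih =>
    by_cases hk0 : (⊤ : Subgroup Q).lowerCentralSeries k = ⊥
    · left
      rw [Subgroup.lowerCentralSeries_succ, hk0, Subgroup.commutator_bot_left]
    · right
      have hle : (⊤ : Subgroup Q).lowerCentralSeries (k + 1) ≤ (⊤ : Subgroup Q).lowerCentralSeries k :=
        (⊤ : Subgroup Q).lowerCentralSeries_antitone (Nat.le_succ k)
      have hlt : (⊤ : Subgroup Q).lowerCentralSeries (k + 1) < (⊤ : Subgroup Q).lowerCentralSeries k :=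
        lt_of_le_of_ne hle fun e => hk0 (stationary e.ge)
      obtain ⟨a, -, ha⟩ := (Nat.dvd_prime_pow (Fact.out : p.Prime)).1 (hQ ▸ Subgroup.card_subgroup_dvd_card ((⊤ : Subgroup Q).lowerCentralSeries k))
      obtain ⟨b, -, hb⟩ := (Nat.dvd_prime_pow (Fact.out : p.Prime)).1 (hQ ▸ Subgroup.card_subgroup_dvd_card ((⊤ : Subgroup Q).lowerCentralSeries (k + 1)))
      have hab : b < a := by
        by_contra hge
        exact hlt.ne (Subgroup.eq_of_le_of_card_ge hle (by rw [ha, hb]; exact Nat.pow_le_pow_right (by omega) (by omega)))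
      refine le_trans ?_ (ih.resolve_left hk0)
      rw [hb, ha, ← pow_add, ← pow_add]
      exact Nat.pow_le_pow_right (by omega) (by omega)

theorem lcs_eq_bot {Q : Type v} [Group Q] [Finite Q] {p : ℕ} [Fact p.Prime] {r : ℕ} (hQ : Nat.card Q = p ^ r) (hr : 2 ≤ r) :
    (⊤ : Subgroup Q).lowerCentralSeries (r - 1) = ⊥ := by
  by_contra hne
  have h := (lcs_card hQ hr (r - 1) (by omega)).resolve_left hne
  rw [show r - 1 + 1 = r by omega] at h
  haveI := (Subgroup.nontrivial_iff_ne_bot _).2 hne
  have h1 : 1 < Nat.card ((⊤ : Subgroup Q).lowerCentralSeries (r - 1)) := Finite.one_lt_card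
  nlinarith [pow_pos (Fact.out : p.Prime).pos r]

theorem map_lcs_le {G H : Type v} [Group G] [Group H] (f : G →* H) (k : ℕ) :
    ((⊤ : Subgroup G).lowerCentralSeries k).map f ≤ (⊤ : Subgroup H).lowerCentralSeries k := by
  induction k with
  | zero => exact le_top
  | succ k ih =>
    rw [Subgroup.lowerCentralSeries_succ, Subgroup.map_commutator, Subgroup.lowerCentralSeries_succ]
    exact Subgroup.commutator_mono ih le_top

theorem count_lines {E : Type v} [Group E] [Finite E] {p : ℕ} [Fact p.Prime] (hE : Nat.card E = p ^ 2)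
    (hexp : ∀ x : E, x ^ p = 1) : Nat.card {S : Subgroup E // Nat.card S = p} = p + 1 := by
  classical
  have hp := (Fact.out : p.Prime)
  haveI := Fintype.ofFinite {S : Subgroup E // Nat.card S = p}
  let f : {x : E // x ≠ 1} → {S : Subgroup E // Nat.card S = p} := fun x =>
    ⟨Subgroup.zpowers x.1, by rw [Nat.card_zpowers, orderOf_eq_prime (hexp _) x.2]⟩
  have hfib : ∀ S : {S : Subgroup E // Nat.card S = p}, Nat.card {x // f x = S} = p - 1 := by
    intro S
    have hfib' : Nat.card {x // f x = S} = Nat.card {y : S.1 // y ≠ 1} := by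
      refine Nat.card_congr
        { toFun := fun x => ⟨⟨x.1.1, ?_⟩, fun e => x.1.2 (congrArg Subtype.val e)⟩
          invFun := fun y => ⟨⟨y.1.1, fun e => y.2 (Subtype.ext e)⟩, ?_⟩
          left_inv := fun x => rfl
          right_inv := fun y => rfl }
      · have h : Subgroup.zpowers x.1.1 = S.1 := congrArg Subtype.val x.2
        exact h ▸ Subgroup.mem_zpowers x.1.1
      · refine Subtype.ext (Subgroup.eq_of_le_of_card_ge (Subgroup.zpowers_le.2 y.1.2) ?_)
        rw [S.2, Nat.card_zpowers, orderOf_eq_prime (hexp _) fun e => y.2 (Subtype.ext e)]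
    haveI := Fintype.ofFinite S.1
    rw [hfib', Nat.card_eq_fintype_card, Fintype.card_subtype_compl, Fintype.card_subtype_eq, ← Nat.card_eq_fintype_card, S.2]
  haveI := Fintype.ofFinite E
  have h1 := Nat.card_congr (Equiv.sigmaFiberEquiv f)
  rw [Nat.card_sigma, Finset.sum_congr rfl fun S _ => hfib S, Finset.sum_const, Finset.card_univ, smul_eq_mul,
    ← Nat.card_eq_fintype_card] at h1
  have h2 : Nat.card {x : E // x ≠ 1} = p ^ 2 - 1 := by
    rw [Nat.card_eq_fintype_card, Fintype.card_subtype_compl, Fintype.card_subtype_eq, ← Nat.card_eq_fintype_card, hE]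
  rw [h2] at h1
  refine Nat.eq_of_mul_eq_mul_right (by have := hp.two_le; omega : 0 < p - 1) ?_
  rw [h1]
  obtain ⟨m, rfl⟩ : ∃ m, p = m + 1 := ⟨p - 1, by have := hp.two_le; omega⟩
  rw [Nat.add_sub_cancel, show (m + 1) ^ 2 = (m + 1 + 1) * m + 1 by ring, Nat.add_sub_cancel]

/-- In a p-group of maximal class of order at least p³ the normal subgroups of index at least p² are exactly the terms of the lower central series, and there are exactly p + 1 normal subgroups of index p. -/
theorem result {G : Type*} [Group G] [Finite G] {p : ℕ} [Fact p.Prime] (n : ℕ) (hG : Nat.card G = p ^ n) (hcl : Group.nilpotencyClass G = n - 1) (hn : 3 ≤ n) : (∀ (N : Subgroup G) [N.Normal] (r : ℕ), 2 ≤ r → N.index = p ^ r → N = (⊤ : Subgroup G).lowerCentralSeries (r - 1)) ∧ Nat.card {N : Subgroup G // N.Normal ∧ N.index = p} = p + 1 := by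
  classical
  have hp2 := (Fact.out : p.Prime).two_le
  haveI : Group.IsNilpotent G := (IsPGroup.of_card hG).isNilpotent
  set L := fun k => (⊤ : Subgroup G).lowerCentralSeries k
  have hne : L (n - 2) ≠ ⊥ := fun e => by
    have := Subgroup.lowerCentralSeries_eq_bot_iff_nilpotencyClass_le.1 e
    omega
  have hanti : ∀ {a b : ℕ}, a ≤ b → L b ≤ L a := fun h => (⊤ : Subgroup G).lowerCentralSeries_antitone h
  have hneq : ∀ k, k ≤ n - 2 → L k ≠ ⊥ := fun k hk e => hne (eq_bot_iff.2 (e ▸ hanti hk))
  have hlow : ∀ j, j ≤ n - 2 → p ^ (j + 1) ≤ Nat.card (L (n - 2 - j)) := by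
    intro j
    induction j with
    | zero =>
      intro _
      obtain ⟨b, -, hb⟩ := (Nat.dvd_prime_pow (Fact.out : p.Prime)).1 (hG ▸ Subgroup.card_subgroup_dvd_card (L (n - 2)))
      rw [Nat.sub_zero, hb]
      exact Nat.pow_le_pow_right (by omega) (Nat.pos_of_ne_zero fun h => hne (Subgroup.card_eq_one.1 (by rw [hb, h, pow_zero])))
    | succ j ih =>
      intro hj
      have h1 := ih (by omega)
      obtain ⟨a, -, ha⟩ := (Nat.dvd_prime_pow (Fact.out : p.Prime)).1 (hG ▸ Subgroup.card_subgroup_dvd_card (L (n - 2 - j)))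
      obtain ⟨b, -, hb⟩ := (Nat.dvd_prime_pow (Fact.out : p.Prime)).1 (hG ▸ Subgroup.card_subgroup_dvd_card (L (n - 2 - (j + 1))))
      have hab : a < b := by
        by_contra hge
        have e : n - 2 - j = n - 2 - (j + 1) + 1 := by omega
        have heq := Subgroup.eq_of_le_of_card_ge (hanti (by omega : n - 2 - (j + 1) ≤ n - 2 - j))
          (by rw [ha, hb]; exact Nat.pow_le_pow_right (by omega) (by omega))
        exact hneq (n - 2 - (j + 1)) (by omega) (stationary (by
          rw [← e]
          exact heq.ge))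
      rw [ha] at h1
      rw [hb]
      have h2 := (Nat.pow_le_pow_iff_right (by omega : 1 < p)).1 h1
      exact Nat.pow_le_pow_right (by omega) (by omega)
  have hcard : ∀ k, 1 ≤ k → k ≤ n - 1 → Nat.card (L k) * p ^ (k + 1) = p ^ n := by
    intro k hk1 hk2
    rcases eq_or_lt_of_le hk2 with h | h
    · have hb : L k = ⊥ := by
        refine Subgroup.lowerCentralSeries_eq_bot_iff_nilpotencyClass_le.2 ?_
        omega
      rw [hb, Subgroup.card_bot, one_mul, h, Nat.sub_add_cancel (by omega)]
    · refine le_antisymm ((lcs_card hG (by omega) k hk1).resolve_left (hneq k (by omega))) ?_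
      have h1 := hlow (n - 2 - k) (by omega)
      rw [show n - 2 - (n - 2 - k) = k by omega] at h1
      calc p ^ n = p ^ (n - 2 - k + 1) * p ^ (k + 1) := by rw [← pow_add]; congr 1; omega
        _ ≤ _ := Nat.mul_le_mul_right _ h1
  refine ⟨fun N hN r hr hidx => ?_, ?_⟩
  · have hrn : r ≤ n := (Nat.pow_dvd_pow_iff_le_right (by omega : 1 < p)).1 (hidx ▸ hG ▸ N.index_dvd_card)
    have hle : L (r - 1) ≤ N := by
      have h1 := map_lcs_le (QuotientGroup.mk' N) (r - 1)
      rw [lcs_eq_bot (Q := G ⧸ N) hidx hr, le_bot_iff, Subgroup.map_eq_bot_iff, QuotientGroup.ker_mk'] at h1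
      exact h1
    refine (Subgroup.eq_of_le_of_card_ge hle (le_of_eq ?_)).symm
    have h1 := hcard (r - 1) (by omega) (by omega)
    rw [Nat.sub_add_cancel (by omega : 1 ≤ r)] at h1
    have h2 := N.card_mul_index
    rw [hidx, hG] at h2
    exact Nat.eq_of_mul_eq_mul_right (pow_pos (by omega) r) (h2.trans h1.symm)
  · set D := L 1
    haveI hDn : D.Normal := (inferInstance : ((⊤ : Subgroup G).lowerCentralSeries 1).Normal)
    have hD1 := hcard 1 le_rfl (by omega)
    have hDidx : D.index = p ^ 2 := Nat.eq_of_mul_eq_mul_left Nat.card_pos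
      ((D.card_mul_index.trans hG).trans hD1.symm)
    have hexp : ∀ x : G ⧸ D, x ^ p = 1 := by
      intro x
      obtain ⟨a, ha, hxa⟩ := (Nat.dvd_prime_pow (Fact.out : p.Prime)).1
        ((orderOf_dvd_natCard x).trans (dvd_of_eq hDidx))
      by_cases ha2 : a = 2
      · exact absurd (bot_of_cyclic (isCyclic_of_orderOf_eq_card x (by rw [hxa, ha2]; exact hDidx.symm))) (hneq 1 (by omega))
      · exact orderOf_dvd_iff_pow_eq_one.1 (hxa ▸ (pow_dvd_pow p (by omega : a ≤ 1)).trans (dvd_of_eq (pow_one p)))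
    have hcommQ : ∀ a b : G ⧸ D, a * b = b * a := by
      intro a b
      obtain ⟨x, rfl⟩ := QuotientGroup.mk'_surjective D a
      obtain ⟨y, rfl⟩ := QuotientGroup.mk'_surjective D b
      refine commutatorElement_eq_one_iff_mul_comm.1 ?_
      rw [← map_commutatorElement]
      refine (QuotientGroup.eq_one_iff _).2 ?_
      show ⁅x, y⁆ ∈ (⊤ : Subgroup G).lowerCentralSeries (0 + 1)
      rw [Subgroup.lowerCentralSeries_succ, Subgroup.lowerCentralSeries_zero]
      exact Subgroup.commutator_mem_commutator (Subgroup.mem_top x) (Subgroup.mem_top y)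
    have hDle : ∀ N : Subgroup G, N.Normal → N.index = p → D ≤ N := by
      intro N hN hidx
      haveI : IsCyclic (G ⧸ N) := isCyclic_of_prime_card hidx
      show (⊤ : Subgroup G).lowerCentralSeries (0 + 1) ≤ N
      rw [Subgroup.lowerCentralSeries_succ, Subgroup.lowerCentralSeries_zero, Subgroup.commutator_le]
      intro x _ y _
      refine (QuotientGroup.eq_one_iff _).1 ?_
      show QuotientGroup.mk' N ⁅x, y⁆ = 1
      rw [map_commutatorElement, commutatorElement_eq_one_iff_mul_comm]
      exact IsCyclic.commutative.is_comm.comm _ _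
    rw [← count_lines hDidx hexp]
    have hsurj := QuotientGroup.mk'_surjective D
    have hker := QuotientGroup.ker_mk' D
    have hidxS : ∀ S : Subgroup (G ⧸ D), Nat.card S = p ↔ S.index = p := by
      intro S
      have h := S.card_mul_index
      rw [show Nat.card (G ⧸ D) = p ^ 2 from hDidx, pow_two] at h
      constructor <;> intro e <;> rw [e] at h
      · exact Nat.eq_of_mul_eq_mul_left (by omega) h
      · exact Nat.eq_of_mul_eq_mul_right (by omega) h
    refine Nat.card_congr
      { toFun := fun N => ⟨N.1.map (QuotientGroup.mk' D), ?_⟩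
        invFun := fun S => ⟨S.1.comap (QuotientGroup.mk' D), ?_, ?_⟩
        left_inv := fun N => Subtype.ext ?_
        right_inv := fun S => Subtype.ext (Subgroup.map_comap_eq_self_of_surjective hsurj S.1) }
    · rw [hidxS, Subgroup.index_map_eq _ hsurj (hker.le.trans (hDle N.1 N.2.1 N.2.2))]
      exact N.2.2
    · refine ⟨fun x hx g => ?_⟩
      show QuotientGroup.mk' D (g * x * g⁻¹) ∈ S.1
      rw [map_mul, map_mul, map_inv, hcommQ (QuotientGroup.mk' D g), mul_inv_cancel_right]
      exact hx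
    · rw [Subgroup.index_comap_of_surjective _ hsurj]
      exact (hidxS S.1).1 S.2
    · exact Subgroup.comap_map_eq_self (hker.le.trans (hDle N.1 N.2.1 N.2.2))

end Cfsg.Agent.S0662
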