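import Cfsg.Statements.S0663
import Mathlib
import Cfsg.Agent.Lib.Solv.Cores
import Cfsg.Agent.Lib.Solv.Coprime
-- import your own Cfsg.Agent.* helpers here

set_option autoImplicit false
open Cfsg Cfsg.Lib
open scoped commutatorElement Pointwise

namespace Cfsg.Agent.S0663

universe v

theorem le_normalizer_of_conj {L : Type v} [Group L] [Finite L] {X : Subgroup L} {g : L}
    (h : ∀ x ∈ X, g * x * g⁻¹ ∈ X) : g ∈ Subgroup.normalizer (X : Set L) :=
  Subgroup.mem_normalizer_iff.2 fun x => ⟨h x, fun hx => by
    obtain ⟨⟨y, hy⟩, hye⟩ := Finite.injective_iff_surjective.1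
      (show Function.Injective (fun y : X => (⟨g * y * g⁻¹, h y y.2⟩ : X)) from fun a b e =>
        Subtype.ext (by simpa using congrArg Subtype.val e)) ⟨_, hx⟩
    have := congrArg Subtype.val hye
    simp only [mul_left_inj, mul_right_inj] at this
    exact this ▸ hy⟩

theorem iter_le_normalizer {L : Type v} [Group L] [Finite L] {N G : Subgroup L} (hGN : G ≤ Subgroup.normalizer (N : Set L)) :
    ∀ i, iterCommutator N G i ≤ N ∧ G ≤ Subgroup.normalizer (iterCommutator N G i : Set L) := by
  intro i
  induction i with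
  | zero => exact ⟨le_rfl, hGN⟩
  | succ i ih =>
    exact ⟨(Solv.commutator_le_of_normalizes ih.2).trans ih.1, Solv.le_normalizer_commutator_right _ _⟩

theorem iter_succ {L : Type v} [Group L] {N G : Subgroup L} (i : ℕ) :
    iterCommutator N G (i + 1) = ⁅iterCommutator N G i, G⁆ := rfl

theorem comm_lt {L : Type v} [Group L] [Finite L] {p : ℕ} [Fact p.Prime] {P X : Subgroup L} (hP : IsPGroup p P)
    (hXP : X ≤ P) (hn : P ≤ Subgroup.normalizer (X : Set L)) (hX : X ≠ ⊥) : ⁅X, P⁆ < X := by
  refine lt_of_le_of_ne (Solv.commutator_le_of_normalizes hn) fun e => hX ?_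
  haveI : Group.IsNilpotent P := hP.isNilpotent
  obtain ⟨c, hc⟩ := nilpotent_iff_lowerCentralSeries.1 this
  have hle : ∀ k, X ≤ ((⊤ : Subgroup P).lowerCentralSeries k).map P.subtype := by
    intro k
    induction k with
    | zero => rw [Subgroup.lowerCentralSeries_zero, ← MonoidHom.range_eq_map, Subgroup.range_subtype]; exact hXP
    | succ k ih =>
      conv_lhs => rw [← e]
      rw [Subgroup.lowerCentralSeries_succ, Subgroup.map_commutator, ← MonoidHom.range_eq_map, Subgroup.range_subtype]
      exact Subgroup.commutator_mono ih le_rfl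
  have := hle c
  rwa [hc, Subgroup.map_bot, le_bot_iff] at this

/-- A p-group acts uniserially on a p-group N of order p^n exactly when the iterated commutator chain from N has length n; in that case the chain terms are all the invariant subgroups of N and they are normal in N. -/
theorem result {L : Type*} [Group L] [Finite L] {p : ℕ} [Fact p.Prime] (N G : Subgroup L) (hN : IsPGroup p N) (hG : IsPGroup p G) (hGN : G ≤ Subgroup.normalizer (N : Set L)) (n : ℕ) (hn : Nat.card N = p ^ n) : ((∀ H : Subgroup L, H ≤ N → G ≤ Subgroup.normalizer (H : Set L) → H ≠ ⊥ → (⁅H, G⁆).relIndex H = p) ↔ Cfsg.iterCommutator N G (n - 1) ≠ ⊥ ∨ n = 0) ∧ ((∀ H : Subgroup L, H ≤ N → G ≤ Subgroup.normalizer (H : Set L) → H ≠ ⊥ → (⁅H, G⁆).relIndex H = p) → ∀ H : Subgroup L, H ≤ N → G ≤ Subgroup.normalizer (H : Set L) → (∃ i ≤ n, H = Cfsg.iterCommutator N G i) ∧ N ≤ Subgroup.normalizer (H : Set L)) := by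
  classical
  set P := N ⊔ G
  have hP : IsPGroup p P := by
    show IsPGroup p ↥(N ⊔ G)
    rw [sup_comm]
    exact IsPGroup.to_sup_of_normal_right' hG hN hGN
  have hPN : P ≤ Subgroup.normalizer (N : Set L) := sup_le Subgroup.le_normalizer hGN
  have hp2 := (Fact.out : p.Prime).two_le
  have hbasic := fun i => iter_le_normalizer hGN (N := N) i
  have hpdvd : ∀ X : Subgroup L, X ≤ N → ∃ k ≤ n, Nat.card X = p ^ k := fun X hX => by
    obtain ⟨k, hk, hk'⟩ := (Nat.dvd_prime_pow (Fact.out : p.Prime)).1 (hn ▸ Subgroup.card_dvd_of_le hX)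
    exact ⟨k, hk, hk'⟩
  have hlt : ∀ X Y : Subgroup L, X ≤ N → Y < X → p * Nat.card Y ≤ Nat.card X := by
    intro X Y hX hYX
    obtain ⟨a, -, ha⟩ := hpdvd X hX
    obtain ⟨b, -, hb⟩ := hpdvd Y (hYX.le.trans hX)
    have hab : b < a := by
      by_contra hge
      exact hYX.ne (Subgroup.eq_of_le_of_card_ge hYX.le (by rw [ha, hb]; exact Nat.pow_le_pow_right (by omega) (by omega)))
    rw [ha, hb, ← pow_succ']
    exact Nat.pow_le_pow_right (by omega) hab
  let J : ℕ → Subgroup L := fun i => iterCommutator N P i
  have hJb : ∀ i, J i ≤ N ∧ P ≤ Subgroup.normalizer (J i : Set L) := fun i => iter_le_normalizer hPN i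
  have hIJ : ∀ i, iterCommutator N G i ≤ J i := by
    intro i
    induction i with
    | zero => exact le_rfl
    | succ i ih => exact Subgroup.commutator_mono ih le_sup_right
  have hJcard : ∀ i, J i ≠ ⊥ → Nat.card (J i) * p ^ i ≤ p ^ n := by
    intro i
    induction i with
    | zero => intro _; rw [pow_zero, mul_one, ← hn]; exact le_rfl
    | succ i ih =>
      intro hne
      have hne' : J i ≠ ⊥ := fun e => hne (by
        show ⁅J i, P⁆ = ⊥
        rw [e, Subgroup.commutator_bot_left])
      calc Nat.card (J (i + 1)) * p ^ (i + 1) = (p * Nat.card (J (i + 1))) * p ^ i := by ring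
        _ ≤ Nat.card (J i) * p ^ i := Nat.mul_le_mul_right _
            (hlt _ _ (hJb i).1 (comm_lt hP ((hJb i).1.trans le_sup_left) (hJb i).2 hne'))
        _ ≤ p ^ n := ih hne'
  have hItriv : ∀ i, n ≤ i → iterCommutator N G i = ⊥ := by
    intro i hi
    by_contra hne
    have hne' : J i ≠ ⊥ := fun e => hne (eq_bot_iff.2 (e ▸ hIJ i))
    obtain ⟨k, -, hk⟩ := hpdvd _ (hJb i).1
    have hk1 : k ≠ 0 := fun h => hne' (Subgroup.card_eq_one.1 (by rw [hk, h, pow_zero]))
    have h1 := hJcard i hne'
    rw [hk, ← pow_add] at h1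
    have := (Nat.pow_le_pow_iff_right (by omega : 1 < p)).1 h1
    omega
  have hGlt : ∀ X : Subgroup L, X ≤ N → G ≤ Subgroup.normalizer (X : Set L) → X ≠ ⊥ → ⁅X, G⁆ < X := by
    intro X hX hXn hne
    refine lt_of_le_of_ne (Solv.commutator_le_of_normalizes hXn) fun e => hne ?_
    have hle : ∀ k, X ≤ iterCommutator N G k := by
      intro k
      induction k with
      | zero => exact hX
      | succ k ih =>
        conv_lhs => rw [← e]
        exact Subgroup.commutator_mono ih le_rfl
    exact le_bot_iff.1 (hItriv n le_rfl ▸ hle n)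
  -- the two conditions give the orders of the chain
  have hA : (∀ H : Subgroup L, H ≤ N → G ≤ Subgroup.normalizer (H : Set L) → H ≠ ⊥ → (⁅H, G⁆).relIndex H = p) →
      ∀ i ≤ n, Nat.card (iterCommutator N G i) = p ^ (n - i) := by
    intro hA i
    induction i with
    | zero => intro _; exact hn
    | succ i ih =>
      intro hi
      have hc := ih (by omega)
      have hne : iterCommutator N G i ≠ ⊥ := fun e => by
        rw [e, Subgroup.card_bot] at hc
        exact absurd hc.symm (Nat.one_lt_pow (by omega) (by omega)).ne'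
      have h1 := hA _ (hbasic i).1 (hbasic i).2 hne
      have h2 := Subgroup.relIndex_mul_relIndex ⊥ (⁅iterCommutator N G i, G⁆) (iterCommutator N G i) bot_le
        (Solv.commutator_le_of_normalizes (hbasic i).2)
      rw [Subgroup.relIndex_bot_left, Subgroup.relIndex_bot_left, h1, hc] at h2
      refine Nat.eq_of_mul_eq_mul_right (by omega : 0 < p) ?_
      rw [iter_succ, h2, ← pow_succ]
      congr 1
      omega
  have hB : (iterCommutator N G (n - 1) ≠ ⊥ ∨ n = 0) → ∀ i ≤ n, Nat.card (iterCommutator N G i) = p ^ (n - i) := by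
    intro hB i hi
    rcases hB with hB | hB
    swap
    · subst hB
      obtain rfl : i = 0 := by omega
      exact hn
    rcases eq_or_lt_of_le hi with rfl | hlt'
    · rw [hItriv i le_rfl, Subgroup.card_bot, Nat.sub_self, pow_zero]
    have hup : ∀ j, j ≤ n - 1 → p ^ (j + 1) ≤ Nat.card (iterCommutator N G (n - 1 - j)) := by
      intro j
      induction j with
      | zero =>
        intro _
        obtain ⟨k, -, hk⟩ := hpdvd _ (hbasic (n - 1)).1
        rw [Nat.sub_zero, hk]
        refine Nat.pow_le_pow_right (by omega) (Nat.pos_of_ne_zero fun h => hB ?_)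
        exact Subgroup.card_eq_one.1 (by rw [hk, h, pow_zero])
      | succ j ih =>
        intro hj
        have e : n - 1 - j = (n - 1 - (j + 1)) + 1 := by omega
        have h1 := ih (by omega)
        rw [e, iter_succ] at h1
        have hne : iterCommutator N G (n - 1 - (j + 1)) ≠ ⊥ := fun h0 => by
          rw [h0, Subgroup.commutator_bot_left, Subgroup.card_bot] at h1
          exact absurd h1 (not_le.2 (Nat.one_lt_pow (by omega) (by omega)))
        calc p ^ (j + 1 + 1) = p * p ^ (j + 1) := pow_succ' p (j + 1)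
          _ ≤ p * Nat.card ↥⁅iterCommutator N G (n - 1 - (j + 1)), G⁆ := Nat.mul_le_mul_left _ h1
          _ ≤ _ := hlt _ _ (hbasic _).1 (hGlt _ (hbasic _).1 (hbasic _).2 hne)
    have h1 := hup (n - 1 - i) (by omega)
    rw [show n - 1 - (n - 1 - i) = i by omega, show n - 1 - i + 1 = n - i by omega] at h1
    obtain ⟨k, -, hk⟩ := hpdvd _ (hbasic i).1
    have hne : J i ≠ ⊥ := fun e => by
      rw [show iterCommutator N G i = ⊥ from eq_bot_iff.2 (e ▸ hIJ i), Subgroup.card_bot] at h1
      exact absurd h1 (not_le.2 (Nat.one_lt_pow (by omega) (by omega)))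
    have h2 := (Nat.mul_le_mul_right (p ^ i) (Nat.le_of_dvd Nat.card_pos (Subgroup.card_dvd_of_le (hIJ i)))).trans (hJcard i hne)
    rw [hk, ← pow_add] at h2
    rw [hk] at h1 ⊢
    have h3 := (Nat.pow_le_pow_iff_right (by omega : 1 < p)).1 h2
    have h4 := (Nat.pow_le_pow_iff_right (by omega : 1 < p)).1 h1
    congr 1
    omega
  have hchain : (∀ i ≤ n, Nat.card (iterCommutator N G i) = p ^ (n - i)) →
      ∀ H : Subgroup L, H ≤ N → G ≤ Subgroup.normalizer (H : Set L) →
        (∃ i ≤ n, H = iterCommutator N G i) ∧ N ≤ Subgroup.normalizer (H : Set L) := by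
    intro hc H hH hHn
    have hIeq : ∀ i, iterCommutator N G i = J i := by
      intro i
      rcases le_or_gt n i with hi | hi
      · rw [hItriv i hi]
        by_contra hne
        obtain ⟨k, -, hk⟩ := hpdvd _ (hJb i).1
        have hk1 : k ≠ 0 := fun h => hne (Subgroup.card_eq_one.1 (by rw [hk, h, pow_zero])).symm
        have h1 := hJcard i (Ne.symm hne)
        rw [hk, ← pow_add] at h1
        have := (Nat.pow_le_pow_iff_right (by omega : 1 < p)).1 h1
        omega
      · refine Subgroup.eq_of_le_of_card_ge (hIJ i) ?_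
        rw [hc i hi.le]
        by_cases hne : J i = ⊥
        · rw [hne, Subgroup.card_bot]; exact Nat.one_le_pow _ _ (by omega)
        · refine Nat.le_of_mul_le_mul_right ?_ (pow_pos (by omega : 0 < p) i)
          rw [← pow_add, Nat.sub_add_cancel hi.le]
          exact hJcard i hne
    have hIn : ∀ i, N ≤ Subgroup.normalizer (iterCommutator N G i : Set L) := fun i =>
      hIeq i ▸ le_sup_left.trans (hJb i).2
    suffices hex : ∃ i ≤ n, H = iterCommutator N G i from ⟨hex, by
      obtain ⟨i, -, rfl⟩ := hex
      exact hIn i⟩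
    by_cases hH0 : H = ⊥
    · exact ⟨n, le_rfl, by rw [hH0, hItriv n le_rfl]⟩
    obtain ⟨i, hi, hiH, hi'⟩ : ∃ i < n, H ≤ iterCommutator N G i ∧ ¬ H ≤ iterCommutator N G (i + 1) := by
      by_contra hno
      have : ∀ i ≤ n, H ≤ iterCommutator N G i := by
        intro i
        induction i with
        | zero => exact fun _ => hH
        | succ i ih => exact fun hi => by_contra fun h => hno ⟨i, by omega, ih (by omega), h⟩
      exact hH0 (le_bot_iff.1 (hItriv n le_rfl ▸ this n le_rfl))
    refine ⟨i, hi.le, le_antisymm hiH ?_⟩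
    have hstep : ∀ j, iterCommutator N G i ≤ H ⊔ iterCommutator N G (i + 1 + j) := by
      intro j
      induction j with
      | zero =>
        have hle : H ⊔ iterCommutator N G (i + 1) ≤ iterCommutator N G i :=
          sup_le hiH (Solv.commutator_le_of_normalizes (hbasic i).2)
        refine (Subgroup.eq_of_le_of_card_ge hle ?_).ge
        have hlt' : iterCommutator N G (i + 1) < H ⊔ iterCommutator N G (i + 1) :=
          lt_of_le_of_ne le_sup_right fun e => hi' (le_sup_left.trans e.ge)
        have := hlt _ _ (hle.trans (hbasic i).1) hlt'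
        rw [hc (i + 1) (by omega), ← pow_succ', show n - (i + 1) + 1 = n - i by omega, ← hc i hi.le] at this
        exact this
      | succ j ih =>
        have hsub : iterCommutator N G (i + 1) ≤ H ⊔ iterCommutator N G (i + 1 + j + 1) := by
          rw [iter_succ]
          refine Subgroup.commutator_le.2 fun x hx g hg => ?_
          obtain ⟨a, ha, b, hb, rfl⟩ : ∃ a ∈ H, ∃ b ∈ iterCommutator N G (i + 1 + j), a * b = x := by
            have h1 := ih hx
            rw [← SetLike.mem_coe, Subgroup.coe_mul_of_left_le_normalizer_right _ _ (hH.trans (hIn _))] at h1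
            exact h1
          have e : ⁅a * b, g⁆ = a * ⁅b, g⁆ * a⁻¹ * ⁅a, g⁆ := by simp only [commutatorElement_def]; group
          rw [e]
          refine mul_mem (Subgroup.mem_sup_right ((Subgroup.mem_normalizer_iff.1 (hIn _ (hH ha)) _).1
            (Subgroup.commutator_mem_commutator hb hg))) (Subgroup.mem_sup_left ?_)
          exact Solv.commutator_le_of_normalizes hHn (Subgroup.commutator_mem_commutator ha hg)
        have h2 : iterCommutator N G i ≤ H ⊔ iterCommutator N G (i + 1) := by
          have hle : H ⊔ iterCommutator N G (i + 1) ≤ iterCommutator N G i :=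
            sup_le hiH (Solv.commutator_le_of_normalizes (hbasic i).2)
          refine (Subgroup.eq_of_le_of_card_ge hle ?_).ge
          have hlt' : iterCommutator N G (i + 1) < H ⊔ iterCommutator N G (i + 1) :=
            lt_of_le_of_ne le_sup_right fun e => hi' (le_sup_left.trans e.ge)
          have := hlt _ _ (hle.trans (hbasic i).1) hlt'
          rw [hc (i + 1) (by omega), ← pow_succ', show n - (i + 1) + 1 = n - i by omega, ← hc i hi.le] at this
          exact this
        exact h2.trans (sup_le le_sup_left hsub)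
    have := hstep n
    rwa [hItriv (i + 1 + n) (by omega), sup_bot_eq] at this
  refine ⟨⟨fun h => ?_, fun h => ?_⟩, fun h => hchain (hA h)⟩
  · rcases Nat.eq_zero_or_pos n with h0 | h0
    · exact Or.inr h0
    refine Or.inl fun e => ?_
    have := hA h (n - 1) (by omega)
    rw [e, Subgroup.card_bot] at this
    exact absurd this.symm (Nat.one_lt_pow (by omega) (by omega)).ne'
  · intro H hH hHn hne
    have hc := hB h
    obtain ⟨⟨i, hi, rfl⟩, -⟩ := hchain hc H hH hHn
    have hi' : i < n := lt_of_le_of_ne hi fun e => hne (hItriv i e.ge)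
    have h2 := Subgroup.relIndex_mul_relIndex ⊥ (⁅iterCommutator N G i, G⁆) (iterCommutator N G i) bot_le
      (Solv.commutator_le_of_normalizes (hbasic i).2)
    rw [Subgroup.relIndex_bot_left, Subgroup.relIndex_bot_left, ← iter_succ, hc (i + 1) (by omega), hc i hi,
      show n - i = n - (i + 1) + 1 by omega, pow_succ] at h2
    rw [← iter_succ]
    exact Nat.eq_of_mul_eq_mul_left (pow_pos (by omega) _) h2

end Cfsg.Agent.S0663
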