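import Cfsg.Statements.S0666
import Mathlib
import Cfsg.Agent.Lib.Solv.Frobenius
-- import your own Cfsg.Agent.* helpers here

set_option autoImplicit false
open Cfsg Cfsg.Lib

namespace Cfsg.Agent.S0666

/-- A Frobenius group acting on a nontrivial abelian group of order prime to that of its kernel, with the kernel acting without nontrivial fixed points, has a complement with a nontrivial fixed point. -/
theorem result {G : Type*} [Group G] [Finite G] (V F : Subgroup G) (hVab : IsMulCommutative V) (hV1 : V ≠ ⊥) (hFV : F ≤ Subgroup.normalizer (V : Set G)) (H : Subgroup ↥F) (hH : Cfsg.IsFrobeniusComplement H) (hcop : (Nat.card V).Coprime (Nat.card (Cfsg.frobeniusKernel H))) (hCK : V ⊓ Subgroup.centralizer (Subtype.val '' Cfsg.frobeniusKernel H : Set G) = ⊥) : V ⊓ Subgroup.centralizer ((H.map F.subtype : Subgroup G) : Set G) ≠ ⊥ := by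
  classical
  letI : CommGroup V := { (inferInstance : Group V) with mul_comm := fun a b => hVab.is_comm.comm a b }
  haveI := Fintype.ofFinite F
  obtain ⟨K, hKn, hKset, hKc⟩ := Solv.exists_frobeniusKernel hH
  obtain ⟨E, hE⟩ := Solv.frob_union_bijective hH
  let cj : F →* MulAut V := (Subgroup.normalizerMonoidHom V).comp (Subgroup.inclusion hFV)
  have hcj : ∀ (f : F) (v : V), ((cj f v : V) : G) = (f : G) * v * (f : G)⁻¹ := fun f v => rfl
  have hzero : ∀ w : V, (∀ k : F, k ∈ Cfsg.frobeniusKernel H → cj k w = w) → w = 1 := by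
    intro w hw
    have : (w : G) ∈ V ⊓ Subgroup.centralizer (Subtype.val '' Cfsg.frobeniusKernel H : Set G) := by
      refine ⟨w.2, Subgroup.mem_centralizer_iff.2 ?_⟩
      rintro _ ⟨k, hk, rfl⟩
      have := congrArg Subtype.val (hw k hk)
      rw [hcj, mul_inv_eq_iff_eq_mul] at this
      exact this
    rw [hCK, Subgroup.mem_bot] at this
    exact Subtype.ext this
  intro hbot
  have hH1 : ∀ u : V, ∏ h : H, cj h u = 1 := by
    intro u
    set w := ∏ h : H, cj h u with hwdef
    have : (w : G) ∈ V ⊓ Subgroup.centralizer ((H.map F.subtype : Subgroup G) : Set G) := by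
      refine ⟨w.2, Subgroup.mem_centralizer_iff.2 ?_⟩
      rintro _ ⟨h0, hh0, rfl⟩
      have hfix : cj h0 w = w := by
        rw [hwdef, map_prod, ← Equiv.prod_comp (Equiv.mulLeft (⟨h0, hh0⟩ : H)) (fun h : H => cj h u)]
        refine Finset.prod_congr rfl fun h _ => ?_
        simp
      have := congrArg Subtype.val hfix
      rw [hcj, mul_inv_eq_iff_eq_mul] at this
      exact this
    rw [hbot, Subgroup.mem_bot] at this
    exact Subtype.ext this
  refine hV1 (eq_bot_iff.2 fun v0 hv0 => ?_)
  set v : V := ⟨v0, hv0⟩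
  set S := Finset.univ.filter (fun f : F => f ∈ Cfsg.frobeniusKernel H)
  have hfixmul : ∀ T : Finset F, (∀ k : F, k ∈ Cfsg.frobeniusKernel H → ∀ f, k * f ∈ T ↔ f ∈ T) →
      ∏ f ∈ T, cj f v = 1 := by
    intro T hT
    refine hzero _ fun k hk => ?_
    rw [map_prod]
    refine Finset.prod_equiv (Equiv.mulLeft k) (fun f => (hT k hk f).symm) (fun f _ => ?_)
    simp
  have hall : ∏ f : F, cj f v = 1 := hfixmul _ fun k _ f => by simp
  have hK : ∏ f ∈ S, cj f v = 1 := hfixmul _ fun k hk f => by
    simp only [S, Finset.mem_filter, Finset.mem_univ, true_and, ← hKset, SetLike.mem_coe] at hk ⊢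
    exact K.mul_mem_cancel_left hk
  have hcompl : ∏ f ∈ Finset.univ \ S, cj f v = (v⁻¹) ^ H.index := by
    haveI := Fintype.ofFinite (F ⧸ H)
    haveI : Fintype {h : H // h ≠ 1} := Fintype.ofFinite _
    rw [Finset.prod_subtype (p := fun f => f ∈ (Cfsg.frobeniusKernel H)ᶜ) _ (fun f => by simp [S]),
      ← Equiv.prod_comp E, Fintype.prod_prod_type]
    have : ∀ c : F ⧸ H, ∏ h : {h : H // h ≠ 1}, cj (E (c, h) : F) v = v⁻¹ := by
      intro c
      have h1 := hH1 (cj c.out⁻¹ v)
      rw [← Finset.mul_prod_erase Finset.univ _ (Finset.mem_univ (1 : H)),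
        Finset.prod_subtype (p := fun h : H => h ≠ 1) _ (fun h => by simp)] at h1
      simp only [OneMemClass.coe_one, map_one, MulAut.one_apply] at h1
      have h2 : ∀ h : {h : H // h ≠ 1}, cj (E (c, h) : F) v = cj c.out (cj (h.1 : F) (cj c.out⁻¹ v)) := fun h => by
        rw [hE, map_mul, map_mul]
        rfl
      rw [Finset.prod_congr rfl fun h _ => h2 h, ← map_prod, eq_inv_of_mul_eq_one_right h1, map_inv,
        ← MulAut.mul_apply, ← map_mul, mul_inv_cancel, map_one, MulAut.one_apply]
    rw [Finset.prod_congr rfl fun c _ => this c, Finset.prod_const, Finset.card_univ, ← Nat.card_eq_fintype_card]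
    rfl
  have hpow : v⁻¹ ^ H.index = 1 := by
    rw [← hcompl]
    rw [← Finset.prod_sdiff (Finset.subset_univ S), hK, mul_one] at hall
    exact hall
  have hcardK : (Nat.card V).Coprime H.index := Solv.card_frobeniusKernel hH ▸ hcop
  have hv1 : v⁻¹ = 1 := orderOf_eq_one_iff.1
    (Nat.eq_one_of_dvd_coprimes hcardK (orderOf_dvd_natCard _) (orderOf_dvd_of_pow_eq_one hpow))
  exact Subgroup.mem_bot.2 (congrArg Subtype.val (inv_eq_one.1 hv1))

end Cfsg.Agent.S0666
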