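import Cfsg.Statements.S0668
import Mathlib

set_option autoImplicit false
open Cfsg

namespace Cfsg.Agent.S0668

/-- The equivariant linear maps between the permutation modules of two finite `G`-sets form a space whose dimension is the number of `G`-orbits on the product of the two sets. -/
theorem result {G : Type*} [Group G] {K : Type*} [Field K] {Ω₁ Ω₂ : Type*} [Fintype Ω₁] [Fintype Ω₂] [MulAction G Ω₁] [MulAction G Ω₂] : Module.finrank K ((Cfsg.permRep K G Ω₁).linHom (Cfsg.permRep K G Ω₂)).invariants = Nat.card (MulAction.orbitRel.Quotient G (Ω₁ × Ω₂)) := by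
  classical
  let Q := MulAction.orbitRel.Quotient G (Ω₁ × Ω₂)
  haveI : Fintype Q := Fintype.ofFinite _
  have hact : ∀ (g : G) (f : Ω₁ → K) x, Cfsg.permRep K G Ω₁ g f x = f (g⁻¹ • x) := fun g f x => rfl
  have hact2 : ∀ (g : G) (f : Ω₂ → K) x, Cfsg.permRep K G Ω₂ g f x = f (g⁻¹ • x) := fun g f x => rfl
  let L : ((Cfsg.permRep K G Ω₁).linHom (Cfsg.permRep K G Ω₂)).invariants →ₗ[K] (Q → K) :=
    { toFun := fun T => Quotient.lift (fun p : Ω₁ × Ω₂ => T.1 (Pi.single p.1 1) p.2) (by
        rintro ⟨x, y⟩ ⟨x', y'⟩ ⟨g, hg⟩
        simp only [Prod.smul_mk, Prod.mk.injEq] at hg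
        obtain ⟨rfl, rfl⟩ := hg
        have h := LinearMap.congr_fun (T.2 g) (Pi.single (g • x') 1)
        rw [Representation.linHom_apply, LinearMap.comp_apply, LinearMap.comp_apply] at h
        have h1 : Cfsg.permRep K G Ω₁ g⁻¹ (Pi.single (g • x') 1) = Pi.single x' 1 := by
          funext z
          simp only [hact, inv_inv, Pi.single_apply, smul_left_cancel_iff]
        rw [h1] at h
        have h2 := congrFun h (g • y')
        rw [hact2, inv_smul_smul] at h2
        exact h2.symm)
      map_add' := fun S T => funext fun q => by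
        induction q using Quotient.inductionOn with
        | h p => rfl
      map_smul' := fun c T => funext fun q => by
        induction q using Quotient.inductionOn with
        | h p => rfl }
  have hbasis : ∀ (T : (Ω₁ → K) →ₗ[K] (Ω₂ → K)) (f : Ω₁ → K) y,
      T f y = ∑ x, f x * T (Pi.single x 1) y := by
    intro T f y
    conv_lhs => rw [pi_eq_sum_univ' f]
    simp [map_sum, map_smul, Finset.sum_apply]
  have hinj : Function.Injective L := by
    intro S T e
    refine Subtype.ext (LinearMap.ext fun f => funext fun y => ?_)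
    rw [hbasis, hbasis]
    exact Finset.sum_congr rfl fun x _ => congrArg (f x * ·) (congrFun e (Quotient.mk'' (x, y)))
  have hsurj : Function.Surjective L := by
    intro φ
    let T : (Ω₁ → K) →ₗ[K] (Ω₂ → K) :=
      { toFun := fun f y => ∑ x, f x * φ (Quotient.mk'' (x, y))
        map_add' := fun f f' => funext fun y => by simp [add_mul, Finset.sum_add_distrib]
        map_smul' := fun c f => funext fun y => by simp [Finset.mul_sum, mul_assoc] }
    refine ⟨⟨T, fun g => LinearMap.ext fun f => funext fun y => ?_⟩, funext fun q => ?_⟩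
    · rw [Representation.linHom_apply, LinearMap.comp_apply, LinearMap.comp_apply, hact2]
      change ∑ x, Cfsg.permRep K G Ω₁ g⁻¹ f x * φ (Quotient.mk'' (x, g⁻¹ • y)) =
        ∑ x, f x * φ (Quotient.mk'' (x, y))
      refine Fintype.sum_equiv (MulAction.toPerm g) _ _ fun x => ?_
      rw [hact, inv_inv]
      congr 2
      exact Quotient.sound' ⟨g⁻¹, by simp [Prod.smul_mk]⟩
    · induction q using Quotient.inductionOn with
      | h p =>
        change ∑ x, (Pi.single p.1 (1 : K) : Ω₁ → K) x * φ (Quotient.mk'' (x, p.2)) = φ (Quotient.mk'' p)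
        simp [Pi.single_apply]
  rw [(LinearEquiv.ofBijective L ⟨hinj, hsurj⟩).finrank_eq, Module.finrank_fintype_fun_eq_card,
    Nat.card_eq_fintype_card]

end Cfsg.Agent.S0668
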