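import Cfsg.Statements.S0669


set_option autoImplicit false
open Cfsg

namespace Cfsg.Agent.S0669

/-- The rank of a transitive action: orbits on ordered pairs correspond to orbits of a point stabiliser. -/
theorem result {G : Type*} [Group G] {Ω : Type*} [Finite Ω] [MulAction G Ω] [MulAction.IsPretransitive G Ω] (a : Ω) : Nat.card (MulAction.orbitRel.Quotient G (Ω × Ω)) = Nat.card (MulAction.orbitRel.Quotient (MulAction.stabilizer G a) Ω) := by
  let f : MulAction.orbitRel.Quotient (MulAction.stabilizer G a) Ω →
      MulAction.orbitRel.Quotient G (Ω × Ω) :=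
    Quotient.map' (fun b => (a, b)) (by
      intro x y hxy
      rw [MulAction.orbitRel_apply, MulAction.mem_orbit_iff] at hxy ⊢
      obtain ⟨⟨g, hg⟩, hgy⟩ := hxy
      refine ⟨g, ?_⟩
      rw [MulAction.mem_stabilizer_iff] at hg
      change (g • a, g • y) = (a, x)
      rw [hg]; exact Prod.ext rfl hgy)
  refine (Nat.card_eq_of_bijective f ⟨?_, ?_⟩).symm
  · intro q r
    refine Quotient.inductionOn₂' q r fun x y h => ?_
    have h' := Quotient.exact' h
    rw [MulAction.orbitRel_apply, MulAction.mem_orbit_iff] at h'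
    obtain ⟨g, hg⟩ := h'
    have h1 : g • a = a := congrArg Prod.fst hg
    have h2 : g • y = x := congrArg Prod.snd hg
    exact Quotient.sound' (by
      rw [MulAction.orbitRel_apply, MulAction.mem_orbit_iff]
      exact ⟨⟨g, h1⟩, h2⟩)
  · intro q
    refine Quotient.inductionOn' q fun p => ?_
    obtain ⟨g, hg⟩ := MulAction.exists_smul_eq G p.1 a
    refine ⟨Quotient.mk'' (g • p.2), Quotient.sound' ?_⟩
    rw [MulAction.orbitRel_apply, MulAction.mem_orbit_iff]
    exact ⟨g, Prod.ext hg rfl⟩

end Cfsg.Agent.S0669
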