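import Cfsg.Statements.S0670
import Mathlib.GroupTheory.FiniteAbelian.Basic
import Mathlib.GroupTheory.Sylow
import Mathlib.GroupTheory.GroupAction.Quotient
import Mathlib.Algebra.Module.ZMod
import Mathlib.LinearAlgebra.FiniteDimensional.Basic
import Mathlib.FieldTheory.Finiteness

set_option autoImplicit false
open Cfsg

namespace Cfsg.Agent.S0670

/-- In characteristic `p`, the permutation module of a transitive action of degree `p ^ f` has the line of constant functions as its only irreducible submodule: every non-zero subrepresentation contains it. -/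
theorem result {G : Type*} [Group G] [Finite G] {K : Type*} [Field K] {p f : ℕ} [Fact p.Prime] [CharP K p] {Ω : Type*} [Fintype Ω] [MulAction G Ω] [MulAction.IsPretransitive G Ω] (hf : 1 ≤ f) (hcard : Fintype.card Ω = p ^ f) (W : Subrepresentation (Cfsg.permRep K G Ω)) (hW : W.toSubmodule ≠ ⊥) : (Cfsg.permConstants K G Ω).toSubmodule ≤ W.toSubmodule := by
  classical
  obtain ⟨P⟩ : Nonempty (Sylow p G) := inferInstance
  obtain ⟨w, hwW, hw0⟩ := (Submodule.ne_bot_iff _).mp hW
  haveI : Nonempty Ω := Fintype.card_pos_iff.mp (hcard ▸ pow_pos (Fact.out : p.Prime).pos f)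
  obtain ⟨a⟩ := ‹Nonempty Ω›
  -- the Sylow subgroup is transitive
  have hPtr : ∀ x : Ω, x ∈ MulAction.orbit P a := by
    have hH : (MulAction.stabilizer G a).index = p ^ f := by
      rw [MulAction.index_stabilizer_of_transitive, Nat.card_eq_fintype_card, hcard]
    have horb : Nat.card (MulAction.orbit P a) = ((MulAction.stabilizer G a).subgroupOf (P : Subgroup G)).index := by
      have e : (MulAction.stabilizer G a).subgroupOf (P : Subgroup G) = MulAction.stabilizer P a := rfl
      rw [e, Nat.card_congr (MulAction.orbitEquivQuotientStabilizer P a)]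
      rfl
    have hdvd : p ^ f ∣ Nat.card (MulAction.orbit P a) := by
      have hmul : (MulAction.stabilizer G a ⊓ (P : Subgroup G)).index =
          Nat.card (MulAction.orbit P a) * (P : Subgroup G).index := by
        rw [horb]
        exact (Subgroup.relIndex_mul_index inf_le_right).symm.trans (by
          rw [Subgroup.inf_relIndex_right]; rfl)
      have h1 : p ^ f ∣ Nat.card (MulAction.orbit P a) * (P : Subgroup G).index :=
        hmul ▸ hH ▸ Subgroup.index_dvd_of_le inf_le_left
      exact ((Nat.Prime.coprime_iff_not_dvd Fact.out).mpr P.not_dvd_index).pow_left f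
        |>.dvd_of_dvd_mul_right h1
    have hle : Nat.card (MulAction.orbit P a) = Nat.card Ω := by
      refine le_antisymm ((MulAction.orbit P a).ncard_le_card) ?_
      rw [Nat.card_eq_fintype_card (α := Ω), hcard]
      haveI : Nonempty (MulAction.orbit P a) := ⟨⟨a, MulAction.mem_orbit_self a⟩⟩
      exact Nat.le_of_dvd Nat.card_pos hdvd
    intro x
    have : MulAction.orbit P a = Set.univ := by
      apply Set.eq_of_subset_of_ncard_le (Set.subset_univ _)
      rw [Set.ncard_univ, ← Nat.card_coe_set_eq, hle]
    rw [this]; trivial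
  -- the additive group generated by the translates of w is a finite p-group
  let ρ := Cfsg.permRep K G Ω
  let A : AddSubgroup (Ω → K) := AddSubgroup.closure (Set.range fun g : G => ρ g w)
  have hAfin : Finite A := by
    haveI : AddGroup.FG A := by
      rw [AddGroup.fg_iff_addSubgroup_fg, AddSubgroup.fg_iff]
      exact ⟨_, rfl, Set.finite_range _⟩
    refine AddCommGroup.finite_of_fg_isAddTorsion A (fun v => ?_)
    exact isOfFinAddOrder_iff_nsmul_eq_zero.mpr ⟨p, (Fact.out : p.Prime).pos, Subtype.ext (funext fun x => by simp)⟩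
  have hAW : ∀ v ∈ A, v ∈ W.toSubmodule := fun v hv =>
    (AddSubgroup.closure_le W.toSubmodule.toAddSubgroup).mpr (by
      rintro _ ⟨g, rfl⟩
      exact W.apply_mem_toSubmodule g hwW) hv
  have hAinv : ∀ (g : G) (v : Ω → K), v ∈ A → ρ g v ∈ A := by
    intro g v hv
    induction hv using AddSubgroup.closure_induction with
    | mem u hu =>
      obtain ⟨k, rfl⟩ := hu
      refine AddSubgroup.subset_closure ⟨g * k, ?_⟩
      simp [map_mul]
    | zero => simp
    | add u v _ _ h1 h2 => rw [map_add]; exact A.add_mem h1 h2
    | neg u _ h1 => rw [map_neg]; exact A.neg_mem h1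
  letI : MulAction P A :=
    { smul := fun g v => ⟨ρ (g : G) v, hAinv g v v.2⟩
      one_smul := fun v => Subtype.ext (by
        change ρ ((1 : P) : G) (v : Ω → K) = _
        simp)
      mul_smul := fun g k v => Subtype.ext (by
        change ρ ((g * k : P) : G) (v : Ω → K) = ρ (g : G) (ρ (k : G) v)
        simp [map_mul]) }
  have hwA : w ∈ A := AddSubgroup.subset_closure ⟨1, by simp⟩
  have hpA : p ∣ Nat.card A := by
    have hp1 : addOrderOf (⟨w, hwA⟩ : A) = p := by
      refine addOrderOf_eq_prime ?_ (fun e => hw0 (congrArg Subtype.val e))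
      ext x
      simp [CharP.cast_eq_zero K p]
    exact hp1 ▸ addOrderOf_dvd_natCard _
  obtain ⟨v, hvfix, hv0⟩ := P.isPGroup'.exists_fixed_point_of_prime_dvd_card_of_fixed_point A hpA
    (a := (0 : A)) (fun g => Subtype.ext (by change ρ (g : G) 0 = 0; simp))
  have hconst : ∀ x, (v : Ω → K) x = (v : Ω → K) a := by
    intro x
    obtain ⟨g, hg⟩ := hPtr x
    have h1 := congrFun (congrArg Subtype.val (hvfix g)) x
    change (v : Ω → K) ((g : G)⁻¹ • x) = _ at h1
    rw [← h1, ← hg]
    exact congrArg _ (inv_smul_smul (g : G) a).symm.symm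
  have hc : (v : Ω → K) a ≠ 0 := fun e => hv0 (Subtype.ext (funext fun x => by
    change (0 : K) = (v : Ω → K) x
    rw [hconst, e]))
  change Submodule.span K {fun _ => (1 : K)} ≤ W.toSubmodule
  rw [Submodule.span_le, Set.singleton_subset_iff]
  have : (fun _ => (1 : K)) = ((v : Ω → K) a)⁻¹ • (v : Ω → K) := funext fun x => by
    simp [hconst x, inv_mul_cancel₀ hc]
  rw [this]
  exact W.toSubmodule.smul_mem _ (hAW _ v.2)

end Cfsg.Agent.S0670
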