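import Cfsg.Statements.S0675
import Mathlib
import Cfsg.Agent.Lib.PermGroup.BurnsidePrime

set_option autoImplicit false
open Cfsg

namespace Cfsg.Agent.S0675

/-- Burnside's Theorem on permutation groups of prime degree: a transitive permutation group of prime degree that is not solvable is doubly transitive. -/
theorem result {α : Type*} [Fintype α] [DecidableEq α] (hα : (Fintype.card α).Prime) (G : Subgroup (Equiv.Perm α)) [MulAction.IsPretransitive G α] : Group.IsSolvable G ∨ MulAction.IsMultiplyPretransitive G α 2 := by
  by_cases h : MulAction.IsMultiplyPretransitive G α 2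
  · exact Or.inr h
  · exact Or.inl (Cfsg.Lib.PermGroup.BurnsidePrime.isSolvable hα G h)

end Cfsg.Agent.S0675
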