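import Cfsg.Statements.S0680
import Mathlib

set_option autoImplicit false
open Cfsg

namespace Cfsg.Agent.S0680

/-- A finite sharply doubly transitive permutation group has degree a prime power `p ^ j`; a Sylow `p`-subgroup is normal, elementary abelian and regular, and consists of the identity together with the elements without fixed points. (Frobenius' Theorem is not needed.) -/
theorem result {α : Type*} [Fintype α] [DecidableEq α] (G : Subgroup (Equiv.Perm α)) [MulAction.IsMultiplyPretransitive G α 2] (hsharp : ∀ x : Fin 2 ↪ α, MulAction.stabilizer G x = ⊥) (h2 : 2 ≤ Fintype.card α) : ∃ p j : ℕ, p.Prime ∧ 1 ≤ j ∧ Fintype.card α = p ^ j ∧ ∀ (hp : Fact p.Prime) (P : Sylow p G), (P : Subgroup G).Normal ∧ IsMulCommutative (P : Subgroup G) ∧ (∀ x ∈ (P : Subgroup G), x ^ p = 1) ∧ MulAction.IsPretransitive (P : Subgroup G) α ∧ (∀ a : α, MulAction.stabilizer (P : Subgroup G) a = ⊥) ∧ ∀ g : G, g ∈ (P : Subgroup G) ↔ g = 1 ∨ ∀ a : α, g • a ≠ a := by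
  classical
  haveI : MulAction.IsPretransitive G α := MulAction.isPretransitive_of_is_two_pretransitive
  have hfix2 : ∀ (g : G) (a b : α), a ≠ b → g • a = a → g • b = b → g = 1 := by
    intro g a b hab ha hb
    have hx : g ∈ MulAction.stabilizer G (⟨![a, b], by
        intro i j e; fin_cases i <;> fin_cases j <;> simp [hab, hab.symm] at e ⊢⟩ : Fin 2 ↪ α) := by
      rw [MulAction.mem_stabilizer_iff]
      ext i; fin_cases i
      · exact ha
      · exact hb
    rwa [hsharp, Subgroup.mem_bot] at hx
  obtain ⟨a, b, hab⟩ := Fintype.exists_pair_of_one_lt_card (show 1 < Fintype.card α by omega)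
  -- the order of `G`
  set n := Fintype.card α with hn
  have hinj : ∀ g h : G, g • a = h • a → g • b = h • b → g = h := fun g h e1 e2 => by
    have := hfix2 (h⁻¹ * g) a b hab (by rw [mul_smul, e1, inv_smul_smul]) (by rw [mul_smul, e2, inv_smul_smul])
    exact (inv_mul_eq_one.1 this).symm
  have hstab : ∀ c : α, Nat.card (MulAction.stabilizer G c) * n = Nat.card G := by
    intro c
    have h := MulAction.card_orbit_mul_card_stabilizer_eq_card_group G c
    simp only [← Nat.card_eq_fintype_card] at h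
    rw [← h, MulAction.orbit_eq_univ, mul_comm]
    simp [hn, Nat.card_eq_fintype_card]
  have h2' : ∀ {a b c d : α}, a ≠ b → c ≠ d → ∃ g : G, g • a = c ∧ g • b = d :=
    MulAction.is_two_pretransitive_iff.1 inferInstance
  have hGa : Nat.card (MulAction.stabilizer G a) = n - 1 := by
    rw [show n - 1 = ((Finset.univ : Finset α).erase a).card by simp [hn],
      ← Nat.card_eq_finsetCard]
    refine Nat.card_eq_of_bijective (fun g => ⟨g.1 • b, ?_⟩) ⟨fun g h e => ?_, fun c => ?_⟩
    · refine Finset.mem_erase.2 ⟨fun e => hab ?_, Finset.mem_univ _⟩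
      exact (MulAction.injective g.1 (e.trans g.2.symm)).symm
    · refine Subtype.ext (hinj g.1 h.1 (g.2.trans h.2.symm) ?_)
      exact congrArg Subtype.val e
    · obtain ⟨g, hg1, hg2⟩ := h2' hab (Finset.mem_erase.1 c.2).1.symm
      exact ⟨⟨g, hg1⟩, Subtype.ext hg2⟩
  have hG : Nat.card G = (n - 1) * n := by rw [← hstab a, hGa]
  -- the fixed point free elements
  set F : Finset G := Finset.univ.filter fun g => ∀ c : α, g • c ≠ c with hF
  have hFcard : F.card = n - 1 := by
    have hsplit : (Finset.univ.erase (1 : G)) = F ∪ Finset.univ.biUnion fun c : α =>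
        (Finset.univ.filter fun g : G => g • c = c).erase 1 := by
      ext g
      simp only [Finset.mem_erase, Finset.mem_univ, and_true, Finset.mem_union, hF, Finset.mem_filter,
        true_and, Finset.mem_biUnion]
      constructor
      · intro hg
        by_cases h : ∀ c : α, g • c ≠ c
        · exact Or.inl h
        · push Not at h; obtain ⟨c, hc⟩ := h; exact Or.inr ⟨c, hg, hc⟩
      · rintro (h | ⟨c, hg, -⟩)
        · rintro rfl; exact h a (one_smul _ a)
        · exact hg
    have h1 : ∀ c : α, ((Finset.univ.filter fun g : G => g • c = c).erase 1).card = n - 2 := by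
      intro c
      rw [Finset.card_erase_of_mem (by simp)]
      have hc' : (Finset.univ.filter fun g : G => g • c = c).card = Nat.card (MulAction.stabilizer G c) := by
        rw [← Nat.card_eq_finsetCard]
        exact Nat.card_congr (Equiv.subtypeEquivRight fun g => by simp)
      have hmul := (hstab c).trans hG
      have : Nat.card (MulAction.stabilizer G c) = n - 1 := Nat.eq_of_mul_eq_mul_right (by omega) hmul
      omega
    have h2c := congrArg Finset.card hsplit
    rw [Finset.card_erase_of_mem (Finset.mem_univ _), Finset.card_univ, ← Nat.card_eq_fintype_card, hG,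
      Finset.card_union_of_disjoint, Finset.card_biUnion, Finset.sum_const_nat (fun c _ => h1 c),
      Finset.card_univ, ← hn] at h2c
    · have e1 : (n - 1) * n = n * n - n := Nat.sub_one_mul n n
      have e2 : n * (n - 2) = n * n - n * 2 := Nat.mul_sub_left_distrib n n 2
      have e3 : n * 2 ≤ n * n := Nat.mul_le_mul_left n h2
      omega
    · intro c _ d _ hcd
      rw [Function.onFun, Finset.disjoint_left]
      intro g hg hg'
      simp only [Finset.mem_erase, Finset.mem_filter, Finset.mem_univ, true_and] at hg hg'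
      exact hg.1 (hfix2 g c d hcd hg.2 hg'.2)
    · rw [Finset.disjoint_left]
      intro g hg hg'
      simp only [hF, Finset.mem_biUnion, Finset.mem_erase, Finset.mem_filter, Finset.mem_univ, true_and] at hg hg'
      obtain ⟨c, -, hc⟩ := hg'
      exact hg c hc
  have hconj : ∀ x ∈ F, ∀ y ∈ F, ∃ g : G, g * x * g⁻¹ = y := by
    intro x hx y hy
    let φ : MulAction.stabilizer G a → {z : G // z ∈ F} := fun g => ⟨g.1 * x * g.1⁻¹, by
      simp only [hF, Finset.mem_filter, Finset.mem_univ, true_and] at hx ⊢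
      intro c hc
      apply hx (g.1⁻¹ • c)
      rw [mul_smul, mul_smul, ← eq_inv_smul_iff] at hc
      exact hc⟩
    have hφ : Function.Injective φ := by
      intro g h e
      have e' : g.1 * x * g.1⁻¹ = h.1 * x * h.1⁻¹ := congrArg Subtype.val e
      have hx' : x • a ≠ a := by
        simp only [hF, Finset.mem_filter, Finset.mem_univ, true_and] at hx; exact hx a
      have hk : (h.1⁻¹ * g.1) * x = x * (h.1⁻¹ * g.1) := by
        calc (h.1⁻¹ * g.1) * x = h.1⁻¹ * (g.1 * x * g.1⁻¹) * g.1 := by group
          _ = h.1⁻¹ * (h.1 * x * h.1⁻¹) * g.1 := by rw [e']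
          _ = x * (h.1⁻¹ * g.1) := by group
      have hka : (h.1⁻¹ * g.1) • a = a := by rw [mul_smul, g.2, inv_smul_eq_iff, h.2]
      refine Subtype.ext (inv_mul_eq_one.1 ?_).symm
      exact hfix2 _ a (x • a) (Ne.symm hx') hka (by rw [← mul_smul, hk, mul_smul, hka])
    have hbij : Function.Bijective φ := (Fintype.bijective_iff_injective_and_card φ).2 ⟨hφ, by
      rw [← Nat.card_eq_fintype_card, hGa, Fintype.card_coe, hFcard]⟩
    obtain ⟨g, hg⟩ := hbij.2 ⟨y, hy⟩
    exact ⟨g.1, congrArg Subtype.val hg⟩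
  -- elements of prime power order for a prime dividing `n`
  have hpp : ∀ p : ℕ, p.Prime → p ∣ n → ∀ (g : G) (k : ℕ), g ^ p ^ k = 1 → g ≠ 1 → g ∈ F := by
    intro p hp hpn g k hgk hg1
    simp only [hF, Finset.mem_filter, Finset.mem_univ, true_and]
    intro c hc
    haveI : Fact p.Prime := ⟨hp⟩
    have hpg : IsPGroup p (Subgroup.zpowers g) := by
      obtain ⟨i, -, hi⟩ := (Nat.dvd_prime_pow hp).1 (orderOf_dvd_of_pow_eq_one hgk)
      exact IsPGroup.of_card (n := i) (by rw [Nat.card_zpowers, hi])
    have hmod := hpg.card_modEq_card_fixedPoints α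
    have hfix : MulAction.fixedPoints (Subgroup.zpowers g) α = {c} := by
      refine Set.eq_singleton_iff_unique_mem.2 ⟨?_, fun d hd => ?_⟩
      · rintro ⟨z, m, rfl⟩
        exact (MulAction.mem_stabilizer_iff).1 ((MulAction.stabilizer G c).zpow_mem hc m)
      · by_contra hdc
        exact hg1 (hfix2 g d c hdc (hd ⟨g, Subgroup.mem_zpowers g⟩) hc)
    rw [hfix, Nat.card_eq_fintype_card, Nat.card_eq_fintype_card, Set.card_singleton, ← hn] at hmod
    have := (Nat.modEq_zero_iff_dvd.2 hpn).symm.trans hmod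
    have h10 : (1 : ℕ) ≡ 0 [MOD p] := this.symm
    exact hp.not_dvd_one (Nat.modEq_zero_iff_dvd.1 h10)
  obtain ⟨p, hp, hpn⟩ := Nat.exists_prime_and_dvd (show n ≠ 1 by omega)
  haveI hpF : Fact p.Prime := ⟨hp⟩
  have hpG : p ∣ Nat.card G := hG ▸ Dvd.dvd.mul_left hpn _
  obtain ⟨x₀, hx₀⟩ := exists_prime_orderOf_dvd_card' p hpG
  have hx₀F : x₀ ∈ F := hpp p hp hpn x₀ 1 (by rw [pow_one, ← hx₀, pow_orderOf_eq_one])
    (fun h => by rw [h, orderOf_one] at hx₀; exact hp.one_lt.ne hx₀)
  have hFord : ∀ y ∈ F, orderOf y = p := by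
    intro y hy
    obtain ⟨g, rfl⟩ := hconj x₀ hx₀F y hy
    rw [← hx₀]
    exact orderOf_injective (MulAut.conj g).toMonoidHom (MulAut.conj g).injective x₀
  have honly : ∀ r : ℕ, r.Prime → r ∣ n → r = p := by
    intro r hr hrn
    haveI : Fact r.Prime := ⟨hr⟩
    obtain ⟨y, hy⟩ := exists_prime_orderOf_dvd_card' r (hG ▸ Dvd.dvd.mul_left hrn _ : r ∣ Nat.card G)
    have := hFord y (hpp r hr hrn y 1 (by rw [pow_one, ← hy, pow_orderOf_eq_one])
      (fun h => by rw [h, orderOf_one] at hy; exact hr.one_lt.ne hy))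
    omega
  obtain ⟨j, hj⟩ : ∃ j, n = p ^ j := by
    refine ⟨n.primeFactorsList.length, ?_⟩
    exact Nat.eq_prime_pow_of_unique_prime_dvd (by omega) fun {d} hd hdn => honly d hd hdn
  refine ⟨p, j, hp, ?_, hj, fun hp' P => ?_⟩
  · refine Nat.one_le_iff_ne_zero.2 fun e => ?_
    rw [e, pow_zero] at hj; omega
  have hPF : ∀ g : G, g ∈ (P : Subgroup G) → g ≠ 1 → g ∈ F := by
    intro g hg hg1
    obtain ⟨k, hk⟩ := P.2 ⟨g, hg⟩
    exact hpp p hp hpn g k (congrArg Subtype.val hk) hg1
  have hPcard : Nat.card P = n := by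
    have h := P.card_eq_multiplicity
    rw [hG, Nat.factorization_mul (by omega) (by omega), Finsupp.add_apply, hj,
      Nat.Prime.factorization_pow hp, Finsupp.single_eq_same, ← hj,
      Nat.factorization_eq_zero_of_not_dvd (n := n - 1) (p := p) ?_, zero_add, ← hj] at h
    · exact h
    · intro hd
      have h11 : p ∣ n - (n - 1) := Nat.dvd_sub hpn hd
      rw [show n - (n - 1) = 1 by omega] at h11
      exact hp.not_dvd_one h11
  have hPset : ∀ g : G, g ∈ (P : Subgroup G) ↔ g = 1 ∨ g ∈ F := by
    have h1 : ((Finset.univ.filter fun g : G => g ∈ (P : Subgroup G)).erase 1) = F := by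
      refine Finset.eq_of_subset_of_card_le ?_ ?_
      · intro g hg
        simp only [Finset.mem_erase, Finset.mem_filter, Finset.mem_univ, true_and] at hg
        exact hPF g hg.2 hg.1
      · rw [Finset.card_erase_of_mem (by simp), hFcard]
        have : (Finset.univ.filter fun g : G => g ∈ (P : Subgroup G)).card = n := by
          rw [← hPcard, ← Nat.card_eq_finsetCard]
          exact Nat.card_congr (Equiv.subtypeEquivRight fun g => by simp)
        omega
    intro g
    by_cases hg : g = 1
    · simp [hg]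
    · rw [← h1]; simp [hg]
  have hFmem : ∀ g, g ∈ F ↔ ∀ c : α, g • c ≠ c := fun g => by simp [hF]
  have hnorm : (P : Subgroup G).Normal := ⟨fun x hx g => by
    rw [hPset] at hx ⊢
    rcases hx with rfl | hx
    · simp
    · right
      rw [hFmem] at hx ⊢
      intro c hc
      apply hx (g⁻¹ • c)
      rw [mul_smul, mul_smul, ← eq_inv_smul_iff] at hc
      exact hc⟩
  haveI := hnorm
  have hfree : ∀ c : α, MulAction.stabilizer (P : Subgroup G) c = ⊥ := fun c => by
    rw [eq_bot_iff]
    intro g hg
    rw [Subgroup.mem_bot]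
    by_contra h
    exact (hFmem _).1 (hPF g.1 g.2 fun e => h (Subtype.ext e)) c hg
  have htrans : MulAction.IsPretransitive (P : Subgroup G) α := by
    refine ⟨fun c d => ?_⟩
    have hbij : Function.Bijective fun g : (P : Subgroup G) => g • c :=
      (Fintype.bijective_iff_injective_and_card _).2 ⟨fun g h e => by
        have : h⁻¹ * g ∈ MulAction.stabilizer (P : Subgroup G) c := by
          rw [MulAction.mem_stabilizer_iff, mul_smul]
          exact inv_smul_eq_iff.2 e
        rw [hfree, Subgroup.mem_bot] at this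
        exact (inv_mul_eq_one.1 this).symm, by rw [← Nat.card_eq_fintype_card, hPcard]⟩
    exact hbij.2 d
  have hcomm : IsMulCommutative (P : Subgroup G) := by
    haveI : Nontrivial (P : Subgroup G) := Finite.one_lt_card_iff_nontrivial.1 (by rw [hPcard]; omega)
    haveI := P.2.center_nontrivial
    obtain ⟨⟨z, hz⟩, hz1⟩ := exists_ne (1 : Subgroup.center (P : Subgroup G))
    refine ⟨⟨fun x y => ?_⟩⟩
    by_cases hx1 : x = 1
    · simp [hx1]
    have hzF : (z : G) ∈ F := hPF z.1 z.2 fun e => hz1 (Subtype.ext (Subtype.ext e))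
    obtain ⟨g, hg⟩ := hconj z.1 hzF x.1 (hPF x.1 x.2 fun e => hx1 (Subtype.ext e))
    refine Subtype.ext ?_
    have hy' : g⁻¹ * y.1 * g ∈ (P : Subgroup G) := by simpa using hnorm.conj_mem y.1 y.2 g⁻¹
    have hcz : g⁻¹ * y.1 * g * z.1 = z.1 * (g⁻¹ * y.1 * g) :=
      congrArg Subtype.val (Subgroup.mem_center_iff.1 hz ⟨_, hy'⟩)
    change x.1 * y.1 = y.1 * x.1
    rw [← hg]
    calc g * z.1 * g⁻¹ * y.1 = g * (z.1 * (g⁻¹ * y.1 * g)) * g⁻¹ := by group
      _ = g * (g⁻¹ * y.1 * g * z.1) * g⁻¹ := by rw [hcz]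
      _ = y.1 * (g * z.1 * g⁻¹) := by group
  refine ⟨hnorm, hcomm, fun x hx => ?_, htrans, hfree, fun g => by rw [hPset, hFmem]⟩
  rcases (hPset x).1 hx with rfl | h
  · simp
  · rw [← hFord x h, pow_orderOf_eq_one]

end Cfsg.Agent.S0680
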