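import Cfsg.Statements.S0681


set_option autoImplicit false
open Cfsg

namespace Cfsg.Agent.S0681

/-- The affine maps `x ↦ x * a + b`, `a ≠ 0`, of a near-field form a sharply doubly transitive permutation group. -/
theorem result {F : Type*} [Cfsg.NearField F] : ∃ H : Subgroup (Equiv.Perm F), (∀ σ : Equiv.Perm F, σ ∈ H ↔ ∃ a b : F, a ≠ 0 ∧ ∀ x : F, σ x = x * a + b) ∧ MulAction.IsMultiplyPretransitive H F 2 ∧ ∀ x : Fin 2 ↪ F, MulAction.stabilizer H x = ⊥ := by
  have hz : ∀ x : F, (0 : F) * x = 0 := by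
    intro x
    have h := NearField.right_distrib (0 : F) 0 x
    rw [add_zero] at h
    exact add_left_cancel (h.symm.trans (add_zero _).symm)
  have hab : ∀ a b : F, a ≠ 0 → b ≠ 0 → a * b ≠ 0 := by
    intro a b ha hb h
    obtain ⟨c, hc, -⟩ := NearField.exists_inv b hb
    have := congrArg (· * c) h
    simp only [mul_assoc, hc, mul_one, hz] at this
    exact ha this
  have hneg : ∀ a c : F, (-a) * c = -(a * c) := by
    intro a c
    apply eq_neg_of_add_eq_zero_left
    rw [← NearField.right_distrib, neg_add_cancel, hz]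
  let H : Subgroup (Equiv.Perm F) :=
    { carrier := {σ | ∃ a b : F, a ≠ 0 ∧ ∀ x : F, σ x = x * a + b}
      one_mem' := ⟨1, 0, (NearField.zero_ne_one (F := F)).symm, fun x => by simp⟩
      mul_mem' := by
        rintro σ τ ⟨a, b, ha, hσ⟩ ⟨c, d, hc, hτ⟩
        refine ⟨c * a, d * a + b, hab c a hc ha, fun x => ?_⟩
        rw [Equiv.Perm.mul_apply, hσ, hτ, NearField.right_distrib, mul_assoc, add_assoc]
      inv_mem' := by
        rintro σ ⟨a, b, ha, hσ⟩
        obtain ⟨c, hac, hca⟩ := NearField.exists_inv a ha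
        have hc : c ≠ 0 := fun e => by
          rw [e, NearField.mul_zero] at hac; exact NearField.zero_ne_one hac
        refine ⟨c, (-b) * c, hc, fun x => ?_⟩
        apply σ.injective
        rw [Equiv.Perm.inv_def, Equiv.apply_symm_apply, hσ, ← NearField.right_distrib, mul_assoc,
          hca, mul_one, add_assoc, neg_add_cancel, add_zero] }
  refine ⟨H, fun σ => Iff.rfl, ?_, fun x => ?_⟩
  · have hmk : ∀ a b : F, a ≠ 0 → ∃ h : H, ∀ x : F, (h : Equiv.Perm F) x = x * a + b := by
      intro a b ha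
      obtain ⟨c, hac, hca⟩ := NearField.exists_inv a ha
      refine ⟨⟨⟨fun x => x * a + b, fun x => (x + -b) * c, fun x => ?_, fun x => ?_⟩,
        a, b, ha, fun x => rfl⟩, fun x => rfl⟩
      · simp only [add_assoc, add_neg_cancel, add_zero, mul_assoc, hac, mul_one]
      · simp only [mul_assoc, hca, mul_one, add_assoc, neg_add_cancel, add_zero]
    have h01 : ∀ u : Fin 2 ↪ F, ∃ h : H, ∀ i, (h : Equiv.Perm F) (if i = 0 then 0 else 1) = u i := by
      intro u
      have hne : u 1 + -u 0 ≠ 0 := fun e => by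
        have h1 := u.injective (add_neg_eq_zero.mp e)
        exact absurd h1 (by decide)
      obtain ⟨h, hh⟩ := hmk (u 1 + -u 0) (u 0) hne
      refine ⟨h, fun i => ?_⟩
      fin_cases i
      · simp [hh, hz]
      · simp [hh, add_assoc]
    refine ⟨fun u v => ?_⟩
    obtain ⟨g, hg⟩ := h01 u
    obtain ⟨k, hk⟩ := h01 v
    refine ⟨k * g⁻¹, Function.Embedding.ext fun i => ?_⟩
    change (k : Equiv.Perm F) ((g : Equiv.Perm F)⁻¹ (u i)) = v i
    rw [← hg i, Equiv.Perm.inv_def, Equiv.symm_apply_apply, hk]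
  · rw [eq_bot_iff]
    intro g hg
    rw [MulAction.mem_stabilizer_iff] at hg
    obtain ⟨a, b, ha, hσ⟩ := g.2
    have h0 : (g : Equiv.Perm F) (x 0) = x 0 := DFunLike.congr_fun hg 0
    have h1 : (g : Equiv.Perm F) (x 1) = x 1 := DFunLike.congr_fun hg 1
    rw [hσ] at h0 h1
    -- subtract
    have hd : (x 1 + -x 0) * a = x 1 + -x 0 := by
      rw [NearField.right_distrib, hneg]
      calc x 1 * a + -(x 0 * a) = (x 1 * a + b) + -(x 0 * a + b) := by
            rw [neg_add_rev, add_assoc, add_neg_cancel_left]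
        _ = x 1 + -x 0 := by rw [h0, h1]
    have hne : x 1 + -x 0 ≠ 0 := fun e => by
      have h1 := x.injective (add_neg_eq_zero.mp e)
      exact absurd h1 (by decide)
    obtain ⟨c, -, hc⟩ := NearField.exists_inv _ hne
    have ha1 : a = 1 := by
      have := congrArg (c * ·) hd
      simp only [← mul_assoc, hc, one_mul] at this
      exact this
    have hb : b = 0 := by
      rw [ha1, mul_one] at h0
      exact add_left_cancel (h0.trans (add_zero _).symm)
    rw [Subgroup.mem_bot]
    refine Subtype.ext (Equiv.ext fun y => ?_)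
    rw [hσ, ha1, hb]
    simp

end Cfsg.Agent.S0681
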