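import Cfsg.Statements.S0682
import Mathlib.GroupTheory.PGroup

set_option autoImplicit false
open Cfsg

namespace Cfsg.Agent.S0682

/-- A finite near-field has prime-power order; its additive group is commutative of prime exponent. -/
theorem result {F : Type*} [Cfsg.NearField F] [Finite F] : ∃ p j : ℕ, p.Prime ∧ 1 ≤ j ∧ Nat.card F = p ^ j ∧ (∀ x y : F, x + y = y + x) ∧ ∀ x : F, p • x = 0 := by
  obtain ⟨p, hp, hpd⟩ : ∃ p : ℕ, p.Prime ∧ p = addOrderOf (1 : F) := by
    refine ⟨_, ?_, rfl⟩
    set n := addOrderOf (1 : F) with hn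
    have hne : (1 : F) ≠ 0 := (NearField.zero_ne_one (F := F)).symm
    have hpos : 0 < n := addOrderOf_pos _
    have hz : ∀ x : F, (0 : F) * x = 0 := by
      intro x
      have h := NearField.right_distrib (0 : F) 0 x
      rw [add_zero] at h
      exact add_left_cancel (h.symm.trans (add_zero _).symm)
    have hsm : ∀ (k : ℕ) (x : F), k • x = (k • (1 : F)) * x := by
      intro k x
      induction k with
      | zero => simp [hz]
      | succ k ih => rw [succ_nsmul, succ_nsmul, NearField.right_distrib, one_mul, ih]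
    rw [Nat.prime_def_lt]
    refine ⟨?_, fun m hm hmd => ?_⟩
    · rcases Nat.lt_or_ge n 2 with h2 | h2
      · exact absurd (AddMonoid.addOrderOf_eq_one_iff.mp (by omega : addOrderOf (1 : F) = 1)) hne
      · exact h2
    · by_contra hm1
      have hmpos : 0 < m := Nat.pos_of_dvd_of_pos hmd hpos
      obtain ⟨j, hj⟩ := hmd
      have h0 : (n : ℕ) • (1 : F) = 0 := addOrderOf_nsmul_eq_zero _
      rw [hj, mul_nsmul, hsm j (m • (1 : F))] at h0
      have hj1 : j • (1 : F) ≠ 0 := fun e => by
        have h1 := Nat.le_of_dvd (Nat.pos_of_ne_zero (fun e0 => by simp [hj, e0] at hpos))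
          (addOrderOf_dvd_iff_nsmul_eq_zero.mpr e)
        rw [← hn, hj] at h1
        nlinarith [show 2 ≤ m by omega, show 0 < j from Nat.pos_of_ne_zero (fun e0 => by simp [hj, e0] at hpos)]
      have hm0 : m • (1 : F) ≠ 0 := fun e => by
        have h1 := Nat.le_of_dvd hmpos (addOrderOf_dvd_iff_nsmul_eq_zero.mpr e)
        omega
      obtain ⟨c, -, hc⟩ := NearField.exists_inv _ hj1
      have := congrArg (c * ·) h0
      simp only [← mul_assoc, hc, one_mul, NearField.mul_zero] at this
      exact hm0 this
  have hz : ∀ x : F, (0 : F) * x = 0 := by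
    intro x
    have h := NearField.right_distrib (0 : F) 0 x
    rw [add_zero] at h
    exact add_left_cancel (h.symm.trans (add_zero _).symm)
  have hexp : ∀ x : F, p • x = 0 := by
    intro x
    have hsm : ∀ (k : ℕ), k • x = (k • (1 : F)) * x := by
      intro k
      induction k with
      | zero => simp [hz]
      | succ k ih => rw [succ_nsmul, succ_nsmul, NearField.right_distrib, one_mul, ih]
    rw [hsm, hpd, addOrderOf_nsmul_eq_zero, hz]
  haveI := Fact.mk hp
  let M := Multiplicative F
  have hP : IsPGroup p M := fun x => ⟨1, by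
    rw [pow_one]; exact congrArg Multiplicative.ofAdd (hexp x.toAdd)⟩
  obtain ⟨j, hj⟩ := IsPGroup.iff_card.mp hP
  haveI : Nontrivial F := ⟨⟨0, 1, NearField.zero_ne_one⟩⟩
  haveI : Finite M := inferInstanceAs (Finite F)
  have hcard : Nat.card F = p ^ j := hj
  refine ⟨p, j, hp, ?_, hcard, ?_, hexp⟩
  · rcases Nat.eq_zero_or_pos j with rfl | h
    · have := Finite.one_lt_card (α := F); simp [hcard] at this
    · exact h
  · -- a central non-zero element, carried to every element by right multiplication
    haveI : Nontrivial M := inferInstanceAs (Nontrivial F)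
    haveI := hP.center_nontrivial
    obtain ⟨⟨z, hz'⟩, hz1⟩ := exists_ne (1 : Subgroup.center M)
    have hz0 : z.toAdd ≠ 0 := fun e => hz1 (Subtype.ext (congrArg Multiplicative.ofAdd e))
    intro x y
    by_cases hx : x = 0
    · simp [hx]
    obtain ⟨c, hzc, hcz⟩ := NearField.exists_inv _ hz0
    obtain ⟨d, hd⟩ : ∃ d, z.toAdd * d = x := ⟨c * x, by rw [← mul_assoc, hzc, one_mul]⟩
    by_cases hd0 : d = 0
    · rw [hd0, NearField.mul_zero] at hd; exact absurd hd.symm hx
    obtain ⟨e, -, hed⟩ := NearField.exists_inv d hd0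
    have hy : y = (y * e) * d := by rw [mul_assoc, hed, mul_one]
    rw [← hd, hy, ← NearField.right_distrib, ← NearField.right_distrib]
    have hc2 : Multiplicative.ofAdd (y * e) * z = z * Multiplicative.ofAdd (y * e) :=
      Subgroup.mem_center_iff.mp hz' _
    exact congrArg (· * d) (congrArg Multiplicative.toAdd hc2).symm

end Cfsg.Agent.S0682
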