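import Cfsg.Statements.S0683
import Mathlib
import Cfsg.Agent.S0680

set_option autoImplicit false
open Cfsg

namespace Cfsg.Agent.S0683

/-- A finite sharply doubly transitive permutation group is the affine group of a near-field: the permuted set carries a near-field structure for which the group consists exactly of the maps `x ↦ x * a + b` with `a ≠ 0`. -/
theorem result {α : Type*} [Fintype α] [DecidableEq α] (H : Subgroup (Equiv.Perm α)) [MulAction.IsMultiplyPretransitive H α 2] (hsharp : ∀ x : Fin 2 ↪ α, MulAction.stabilizer H x = ⊥) (h2 : 2 ≤ Fintype.card α) : ∃ _ : Cfsg.NearField α, ∀ σ : Equiv.Perm α, σ ∈ H ↔ ∃ a b : α, a ≠ 0 ∧ ∀ x : α, σ x = x * a + b := by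
  classical
  obtain ⟨p, j, hp, -, -, hall⟩ := Cfsg.Agent.S0680.result H hsharp h2
  haveI hpF : Fact p.Prime := ⟨hp⟩
  obtain ⟨P⟩ : Nonempty (Sylow p H) := inferInstance
  obtain ⟨hPn, hPc, -, hPt, hPr, -⟩ := hall hpF P
  obtain ⟨o, one, ho1⟩ := Fintype.exists_pair_of_one_lt_card (show 1 < Fintype.card α by omega)
  have h2' : ∀ {a b c d : α}, a ≠ b → c ≠ d → ∃ g : H, g • a = c ∧ g • b = d :=
    MulAction.is_two_pretransitive_iff.1 inferInstance
  have huniq : ∀ g h : H, g • o = h • o → g • one = h • one → g = h := by
    intro g h e1 e2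
    have hx : h⁻¹ * g ∈ MulAction.stabilizer H (⟨![o, one], by
        intro i k e; fin_cases i <;> fin_cases k <;> simp [ho1, Ne.symm ho1] at e ⊢⟩ : Fin 2 ↪ α) := by
      rw [MulAction.mem_stabilizer_iff]
      ext i; fin_cases i
      · change (h⁻¹ * g) • o = o; rw [mul_smul, e1, inv_smul_smul]
      · change (h⁻¹ * g) • one = one; rw [mul_smul, e2, inv_smul_smul]
    rw [hsharp, Subgroup.mem_bot] at hx
    exact (inv_mul_eq_one.1 hx).symm
  have hTu : ∀ t s : (P : Subgroup H), t • o = s • o → t = s := by
    intro t s e
    have : s⁻¹ * t ∈ MulAction.stabilizer (P : Subgroup H) o := by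
      rw [MulAction.mem_stabilizer_iff, mul_smul, e, inv_smul_smul]
    rw [hPr, Subgroup.mem_bot] at this
    exact (inv_mul_eq_one.1 this).symm
  choose T hT using fun x : α => hPt.exists_smul_eq o x
  have hM : ∀ a : α, ∃ g : H, g • o = o ∧ (a ≠ o → g • one = a) ∧ (a = o → g = 1) := by
    intro a
    by_cases ha : a = o
    · exact ⟨1, one_smul _ _, fun h => absurd ha h, fun _ => rfl⟩
    · obtain ⟨g, g1, g2⟩ := h2' ho1 (Ne.symm ha)
      exact ⟨g, g1, fun _ => g2, fun h => absurd h ha⟩
  choose M hMo hM1 hM0 using hM
  have hMone : M one = 1 := huniq _ _ (by rw [hMo, one_smul]) (by rw [hM1 _ ho1.symm, one_smul])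
  -- the operations
  let add : α → α → α := fun x y => T y • x
  let mul : α → α → α := fun x a => if a = o then o else M a • x
  have hconj : ∀ (g : H), g • o = o → ∀ x y : α, g • (T y • x) = T (g • y) • (g • x) := by
    intro g hg x y
    let t : (P : Subgroup H) := ⟨g * (T y : H) * g⁻¹, hPn.conj_mem _ (T y).2 g⟩
    have ht : t = T (g • y) := hTu _ _ (by
      rw [hT]
      change (g * (T y : H) * g⁻¹) • o = g • y
      have hgi : g⁻¹ • o = o := by rw [inv_smul_eq_iff, hg]
      rw [mul_smul, mul_smul, hgi]
      exact congrArg (g • ·) (hT y))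
    rw [← ht]
    change g • ((T y : H) • x) = (g * (T y : H) * g⁻¹) • (g • x)
    rw [mul_smul, mul_smul, inv_smul_smul]
  have hadd : ∀ x y, T (add x y) = T y * T x := fun x y => hTu _ _ (by rw [hT, mul_smul, hT])
  have hmulo : ∀ x, mul o x = o := fun x => by
    simp only [mul]; split_ifs
    · rfl
    · exact hMo x
  have hne : ∀ a b, a ≠ o → b ≠ o → M b • a ≠ o := fun a b ha hb h => ha (by
    rw [← MulAction.injective (M b) (h.trans (hMo b).symm)])
  have hMmul : ∀ a b, a ≠ o → b ≠ o → M (M b • a) = M b * M a := fun a b ha hb => huniq _ _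
    (by rw [hMo, mul_smul, hMo, hMo]) (by rw [hM1 _ (hne a b ha hb), mul_smul, hM1 _ ha])
  let iAdd : AddGroup α :=
    { add := add
      zero := o
      neg := fun x => (T x)⁻¹ • o
      nsmul := @nsmulRec α ⟨o⟩ ⟨add⟩
      zsmul := @zsmulRec α ⟨o⟩ ⟨add⟩ ⟨fun x => (T x)⁻¹ • o⟩ (@nsmulRec α ⟨o⟩ ⟨add⟩)
      sub_eq_add_neg := fun _ _ => rfl
      add_assoc := fun x y z => by
        change T z • (T y • x) = T (add y z) • x
        rw [hadd, mul_smul]
      zero_add := fun x => hT x
      add_zero := fun x => by
        change T o • x = x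
        rw [show T o = 1 from hTu _ _ (by rw [hT, one_smul]), one_smul]
      neg_add_cancel := fun x => by
        change T x • ((T x)⁻¹ • o) = o
        rw [smul_inv_smul] }
  let iMul : Monoid α :=
    { mul := mul
      one := one
      npow := @npowRec α ⟨one⟩ ⟨mul⟩
      mul_assoc := fun x a b => by
        change mul (mul x a) b = mul x (mul a b)
        simp only [mul]
        by_cases hb : b = o
        · simp [hb]
        by_cases ha : a = o
        · simp [ha, hb, hMo]
        rw [if_neg hb, if_neg ha, if_neg hb, if_neg (hne a b ha hb), hMmul a b ha hb, mul_smul]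
      one_mul := fun a => by
        change (if a = o then o else M a • one) = a
        split_ifs with h
        · exact h.symm
        · exact hM1 a h
      mul_one := fun x => by
        change (if one = o then o else M one • x) = x
        rw [if_neg ho1.symm, hMone, one_smul] }
  refine ⟨{ toAddGroup := iAdd, toMonoid := iMul, right_distrib := ?_, mul_zero := ?_, zero_ne_one := ?_,
            exists_inv := ?_ }, ?_⟩
  · intro x y a
    change mul (add x y) a = add (mul x a) (mul y a)
    simp only [mul]
    by_cases ha : a = o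
    · simp only [ha, if_true]
      exact (hT o).symm
    · simp only [ha, if_false, add]
      exact hconj _ (hMo a) x y
  · intro x; exact if_pos rfl
  · exact ho1
  · intro a ha
    have ha' : a ≠ o := ha
    refine ⟨(M a)⁻¹ • one, ?_, ?_⟩
    · change mul a ((M a)⁻¹ • one) = one
      have hb : (M a)⁻¹ • one ≠ o := fun h => ho1.symm (by rw [inv_smul_eq_iff, hMo] at h; exact h)
      have hMb : M ((M a)⁻¹ • one) = (M a)⁻¹ := huniq _ _
        (by rw [hMo, eq_inv_smul_iff, hMo]) (by rw [hM1 _ hb])
      simp only [mul]
      rw [if_neg hb, hMb, inv_smul_eq_iff, hM1 a ha']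
    · change mul ((M a)⁻¹ • one) a = one
      simp only [mul]
      rw [if_neg ha', smul_inv_smul]
  · intro σ
    constructor
    · intro hσ
      let g : H := ⟨σ, hσ⟩
      set b := g • o with hb
      let h : H := (T b : H)⁻¹ * g
      have hho : h • o = o := by
        rw [mul_smul, ← hb, inv_smul_eq_iff]
        exact (hT b).symm
      refine ⟨h • one, b, ?_, fun x => ?_⟩
      · intro e; exact ho1.symm (MulAction.injective h (e.trans hho.symm))
      · change g • x = T b • (if h • one = o then o else M (h • one) • x)
        have hne' : h • one ≠ o := fun e => ho1.symm (MulAction.injective h (e.trans hho.symm))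
        rw [if_neg hne', show M (h • one) = h from huniq _ _ (by rw [hMo, hho]) (hM1 _ hne')]
        change g • x = (T b : H) • h • x
        rw [mul_smul, smul_inv_smul]
    · rintro ⟨a, b, ha, hx⟩
      have ha' : a ≠ o := ha
      have : σ = (((T b : H) * M a : H) : Equiv.Perm α) := Equiv.ext fun x => by
        rw [hx x]
        change T b • (if a = o then o else M a • x) = ((T b : H) * M a) • x
        rw [if_neg ha', mul_smul]
        rfl
      rw [this]
      exact ((T b : H) * M a).2

end Cfsg.Agent.S0683
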