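import Cfsg.Statements.S0684
import Cfsg.Agent.Lib.PermGroup.SharpLinear

set_option autoImplicit false
open Cfsg
open Cfsg.Lib.SharpLinear

namespace Cfsg.Agent.S0684

/-- Point stabiliser of a sharply doubly transitive group not of semilinear type: a maximal normal abelian subgroup `A` of a linear group `H` that is regular on non-zero vectors and has no irreducible cyclic normal subgroup is cyclic and reducible, and the order of `A` divides `p ^ k - 1` for `k` the dimension of a minimal `A`-invariant subspace. -/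
theorem result {p : ℕ} [Fact p.Prime] {V : Type*} [AddCommGroup V] [Module (ZMod p) V] [Finite V] (H : Subgroup (V ≃ₗ[ZMod p] V)) (hreg : ∀ v w : V, v ≠ 0 → w ≠ 0 → ∃! h : H, (h : V ≃ₗ[ZMod p] V) v = w) (hI : ∀ A : Subgroup H, A.Normal → IsCyclic A → ∃ W : Submodule (ZMod p) V, W ≠ ⊥ ∧ W ≠ ⊤ ∧ ∀ a ∈ A, ∀ v ∈ W, ((a : H) : V ≃ₗ[ZMod p] V) v ∈ W) (A : Subgroup H) (hAn : A.Normal) (hAc : IsMulCommutative A) (hAmax : ∀ B : Subgroup H, B.Normal → IsMulCommutative B → A ≤ B → B = A) : IsCyclic A ∧ ∃ W : Submodule (ZMod p) V, W ≠ ⊥ ∧ W ≠ ⊤ ∧ (∀ a ∈ A, ∀ v ∈ W, ((a : H) : V ≃ₗ[ZMod p] V) v ∈ W) ∧ (∀ W' : Submodule (ZMod p) V, W' ≤ W → (∀ a ∈ A, ∀ v ∈ W', ((a : H) : V ≃ₗ[ZMod p] V) v ∈ W') → W' = ⊥ ∨ W' = W) ∧ Nat.card A ∣ p ^ Module.finrank (ZMod p) W - 1 := by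
  classical
  haveI : Nontrivial V := by
    obtain ⟨W, hW, -, -⟩ := hI ⊥ inferInstance inferInstance
    obtain ⟨x, -, hx⟩ := W.ne_bot_iff.1 hW
    exact nontrivial_of_ne x 0 hx
  haveI : Finite (Module.End (ZMod p) V) := Finite.of_injective _ DFunLike.coe_injective
  haveI : Finite (V ≃ₗ[ZMod p] V) := Finite.of_injective _ DFunLike.coe_injective
  obtain ⟨hcyc, hdvd, hinv⟩ := facts H hreg hAn hAc
  obtain ⟨W₀, hW₀b, hW₀t, hW₀⟩ := hI A hAn hcyc
  obtain ⟨v, hvW, hv⟩ := W₀.ne_bot_iff.1 hW₀b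
  let ev : alg H A →ₗ[ZMod p] V :=
    { toFun := fun x => x.1 v
      map_add' := fun x y => rfl
      map_smul' := fun c x => rfl }
  have hev : Function.Injective ev := by
    rw [injective_iff_map_eq_zero]
    intro x hx
    by_contra hne
    obtain ⟨y, -, hy⟩ := hinv x.1 x.2 (fun e => hne (Subtype.ext e))
    have := LinearMap.congr_fun hy v
    rw [Module.End.mul_apply, show x.1 v = 0 from hx, map_zero] at this
    exact hv this.symm
  set W := LinearMap.range ev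
  have hWW : W ≤ W₀ := by
    rintro _ ⟨x, rfl⟩
    exact alg_mapsTo H W₀ hW₀ x.2 v hvW
  have hW1 : W ≠ ⊥ := fun e => hv (by
    have : v ∈ W := ⟨1, rfl⟩
    rwa [e, Submodule.mem_bot] at this)
  refine ⟨hcyc, W, hW1, fun e => hW₀t (top_le_iff.1 (e ▸ hWW)), ?_, ?_, ?_⟩
  · rintro a ha _ ⟨x, rfl⟩
    exact ⟨⟨toEnd H a * x.1, mul_mem (mem_alg H ha) x.2⟩, rfl⟩
  · intro W' hle hW'
    by_cases h : W' = ⊥
    · exact Or.inl h
    right
    refine le_antisymm hle ?_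
    obtain ⟨w, hw, hw0⟩ := W'.ne_bot_iff.1 h
    obtain ⟨x, rfl⟩ := hle hw
    obtain ⟨y, hy, hyx⟩ := hinv x.1 x.2 (fun e => hw0 (by show x.1 v = 0; rw [e]; rfl))
    rintro _ ⟨u, rfl⟩
    have h1 := alg_mapsTo H W' hW' (mul_mem u.2 hy) _ hw
    show u.1 v ∈ W'
    convert h1 using 1
    show u.1 v = ((u.1 * y) * x.1) v
    rw [mul_assoc, hyx, mul_one]
  · have hc : Nat.card W = p ^ Module.finrank (ZMod p) W := by
      rw [Module.natCard_eq_pow_finrank (K := ZMod p), Nat.card_zmod]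
    rwa [Nat.card_congr (LinearEquiv.ofInjective ev hev).toEquiv, hc] at hdvd

end Cfsg.Agent.S0684
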