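import Cfsg.Statements.S0685
import Cfsg.Agent.Lib.PermGroup.SharpLinear

set_option autoImplicit false
open Cfsg
open Cfsg.Lib.SharpLinear

namespace Cfsg.Agent.S0685

/-- In a linear group over the prime field that is regular on non-zero vectors and has no irreducible cyclic normal subgroup, a maximal normal abelian subgroup is properly contained in its centraliser, which is non-abelian. -/
theorem result {p : ℕ} [Fact p.Prime] {V : Type*} [AddCommGroup V] [Module (ZMod p) V] [Finite V] (H : Subgroup (V ≃ₗ[ZMod p] V)) (hreg : ∀ v w : V, v ≠ 0 → w ≠ 0 → ∃! h : H, (h : V ≃ₗ[ZMod p] V) v = w) (hI : ∀ A : Subgroup H, A.Normal → IsCyclic A → ∃ W : Submodule (ZMod p) V, W ≠ ⊥ ∧ W ≠ ⊤ ∧ ∀ a ∈ A, ∀ v ∈ W, ((a : H) : V ≃ₗ[ZMod p] V) v ∈ W) (A : Subgroup H) (hAn : A.Normal) (hAc : IsMulCommutative A) (hAmax : ∀ B : Subgroup H, B.Normal → IsMulCommutative B → A ≤ B → B = A) : A < Subgroup.centralizer (A : Set H) ∧ ¬ IsMulCommutative (Subgroup.centralizer (A : Set H)) := by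
  classical
  haveI : Nontrivial V := by
    obtain ⟨W, hW, -, -⟩ := hI ⊥ inferInstance inferInstance
    obtain ⟨x, -, hx⟩ := W.ne_bot_iff.1 hW
    exact nontrivial_of_ne x 0 hx
  haveI : Finite (Module.End (ZMod p) V) := Finite.of_injective _ DFunLike.coe_injective
  haveI : Finite (V ≃ₗ[ZMod p] V) := Finite.of_injective _ DFunLike.coe_injective
  obtain ⟨hcyc, hdvd, hinv⟩ := facts H hreg hAn hAc
  obtain ⟨W₀, hW₀b, hW₀t, hW₀⟩ := hI A hAn hcyc
  obtain ⟨v, hvW, hv⟩ := W₀.ne_bot_iff.1 hW₀b
  let ev : alg H A →ₗ[ZMod p] V :=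
    { toFun := fun x => x.1 v
      map_add' := fun x y => rfl
      map_smul' := fun c x => rfl }
  have hev : Function.Injective ev := by
    rw [injective_iff_map_eq_zero]
    intro x hx
    by_contra hne
    obtain ⟨y, -, hy⟩ := hinv x.1 x.2 (fun e => hne (Subtype.ext e))
    have := LinearMap.congr_fun hy v
    rw [Module.End.mul_apply, show x.1 v = 0 from hx, map_zero] at this
    exact hv this.symm
  have hne : Subgroup.centralizer (A : Set H) ≠ A := by
    intro hCA
    -- `V` contains two copies of the field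
    obtain ⟨w, hw⟩ : ∃ w, w ∉ W₀ := by
      by_contra hc
      push Not at hc
      exact hW₀t (eq_top_iff.2 fun x _ => hc x)
    let ev2 : alg H A × alg H A → V := fun t => t.1.1 v + t.2.1 w
    have hev2 : Function.Injective ev2 := by
      rintro ⟨a, b⟩ ⟨c, d⟩ e
      simp only [ev2] at e
      have hbd : b = d := by
        by_contra hne
        obtain ⟨y, hy, hyx⟩ := hinv (b.1 - d.1) (sub_mem b.2 d.2) (fun e' => hne (Subtype.ext (sub_eq_zero.1 e')))
        refine hw ?_
        have h1 : (b.1 - d.1) w = (c.1 - a.1) v := by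
          simp only [LinearMap.sub_apply]
          rw [sub_eq_sub_iff_add_eq_add, add_comm, e, add_comm]
        have h2 : w = (y * (c.1 - a.1)) v := by
          rw [Module.End.mul_apply, ← h1, ← Module.End.mul_apply, hyx]; rfl
        rw [h2]
        exact alg_mapsTo H W₀ hW₀ (mul_mem hy (sub_mem c.2 a.2)) v hvW
      subst hbd
      rw [add_left_inj] at e
      exact Prod.ext (hev e) rfl
    have hVcard : Nat.card (alg H A) * Nat.card (alg H A) ≤ Nat.card V := by
      rw [← Nat.card_prod]
      exact Nat.card_le_card_of_injective ev2 hev2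
    obtain ⟨a₀, ha₀⟩ := hcyc.exists_generator
    let f : H ⧸ A → A := Quotient.lift (fun h => (⟨h * a₀.1 * h⁻¹, hAn.conj_mem _ a₀.2 h⟩ : A)) (by
      intro a b hab
      replace hab : a⁻¹ * b ∈ A := QuotientGroup.leftRel_apply.1 hab
      refine Subtype.ext ?_
      show a * a₀.1 * a⁻¹ = b * a₀.1 * b⁻¹
      have hc : (a⁻¹ * b) * a₀.1 = a₀.1 * (a⁻¹ * b) :=
        congrArg Subtype.val (hAc.is_comm.comm (⟨a⁻¹ * b, hab⟩ : A) a₀)
      calc a * a₀.1 * a⁻¹ = a * (a₀.1 * (a⁻¹ * b)) * b⁻¹ := by group
        _ = a * ((a⁻¹ * b) * a₀.1) * b⁻¹ := by rw [hc]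
        _ = _ := by group)
    have hf : Function.Injective f := by
      intro x y
      induction x using Quotient.inductionOn with
      | h a =>
        induction y using Quotient.inductionOn with
        | h b =>
          intro e
          have e' : a * a₀.1 * a⁻¹ = b * a₀.1 * b⁻¹ := congrArg Subtype.val e
          refine Quotient.sound (QuotientGroup.leftRel_apply.2 ?_)
          rw [← hCA, Subgroup.mem_centralizer_iff]
          intro c hc
          obtain ⟨i, hi⟩ := Subgroup.mem_zpowers_iff.1 (ha₀ ⟨c, hc⟩)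
          have hc' : c = a₀.1 ^ i := by
            have := congrArg Subtype.val hi
            simpa using this.symm
          rw [hc']
          have hcom : Commute (a⁻¹ * b) a₀.1 := by
            show a⁻¹ * b * a₀.1 = a₀.1 * (a⁻¹ * b)
            calc a⁻¹ * b * a₀.1 = a⁻¹ * (b * a₀.1 * b⁻¹) * b := by group
              _ = _ := by rw [← e']; group
          exact (hcom.zpow_right i).eq.symm
    have h1 : Nat.card H ≤ Nat.card A * Nat.card A := by
      rw [Subgroup.card_eq_card_quotient_mul_card_subgroup A]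
      exact Nat.mul_le_mul_right _ (Nat.card_le_card_of_injective f hf)
    rw [card_H H hreg] at h1
    have hR : 2 ≤ Nat.card (alg H A) := by
      haveI : Nontrivial (alg H A) := ⟨⟨0, 1, fun e => zero_ne_one (congrArg Subtype.val e)⟩⟩
      exact Finite.one_lt_card
    have hA : Nat.card A ≤ Nat.card (alg H A) - 1 := Nat.le_of_dvd (by omega) hdvd
    have h2 := Nat.mul_le_mul hA hA
    obtain ⟨m, hm⟩ : ∃ m, Nat.card (alg H A) = m + 1 := ⟨_, (Nat.succ_pred_eq_of_pos (by omega)).symm⟩
    rw [hm, Nat.add_sub_cancel] at h2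
    rw [hm] at hVcard hR
    nlinarith [Nat.sub_add_cancel (show 1 ≤ Nat.card V from Nat.card_pos)]
  have hle : A ≤ Subgroup.centralizer (A : Set H) := fun a ha => Subgroup.mem_centralizer_iff.2 fun b hb =>
    congrArg Subtype.val (hAc.is_comm.comm (⟨b, hb⟩ : A) ⟨a, ha⟩)
  refine ⟨lt_of_le_of_ne hle hne.symm, fun hc => hne (hAmax _ ?_ hc hle)⟩
  haveI := hAn
  infer_instance

end Cfsg.Agent.S0685
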