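import Cfsg.Statements.S0691
import Mathlib

set_option autoImplicit false
open Cfsg

namespace Cfsg.Agent.S0691


/-- Matrices as quadruples. -/
def qmul (x y : ZMod 5 × ZMod 5 × ZMod 5 × ZMod 5) : ZMod 5 × ZMod 5 × ZMod 5 × ZMod 5 :=
  (x.1 * y.1 + x.2.1 * y.2.2.1, x.1 * y.2.1 + x.2.1 * y.2.2.2,
   x.2.2.1 * y.1 + x.2.2.2 * y.2.2.1, x.2.2.1 * y.2.1 + x.2.2.2 * y.2.2.2)

def gens : Fin 3 → ZMod 5 × ZMod 5 × ZMod 5 × ZMod 5 :=
  ![(2, 0, 0, 3), (0, 4, 1, 0), (1, 2, 1, 3)]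

def elems : List (ZMod 5 × ZMod 5 × ZMod 5 × ZMod 5) :=
  [(1, 0, 0, 1), (2, 0, 0, 3), (0, 4, 1, 0), (1, 2, 1, 3), (4, 0, 0, 4), (0, 3, 3, 0), (2, 4, 3, 4), (0, 2, 2, 0), (4, 2, 1, 2), (2, 1, 2, 4), (3, 3, 4, 1), (3, 0, 0, 2), (0, 1, 4, 0), (4, 3, 4, 2), (3, 4, 3, 1), (1, 1, 2, 3), (3, 1, 2, 1), (1, 4, 3, 3), (1, 3, 4, 3), (3, 2, 1, 1), (2, 2, 1, 4), (2, 3, 4, 4), (4, 4, 3, 2), (4, 1, 2, 2)]

def words : List (List (Fin 3)) :=
  [[], [0], [1], [2], [0, 0], [0, 1], [0, 2], [1, 0], [1, 2], [2, 0], [2, 2], [0, 0, 0], [0, 0, 1], [0, 0, 2], [0, 1, 2], [0, 2, 2], [1, 2, 0], [1, 2, 2], [2, 0, 1], [2, 0, 2], [0, 0, 2, 2], [0, 1, 2, 2], [1, 2, 0, 2], [2, 0, 1, 2]]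

theorem elems_closed : ∀ x ∈ elems, ∀ k, qmul x (gens k) ∈ elems := by decide +kernel

theorem elems_words : words.map (fun w => w.foldl (fun x k => qmul x (gens k)) (1, 0, 0, 1)) = elems := by
  decide +kernel

theorem elems_nodup : elems.Nodup := by decide +kernel

theorem elems_free : ∀ x ∈ elems, ∀ v : ZMod 5 × ZMod 5, v ≠ 0 →
    (x.1 * v.1 + x.2.1 * v.2, x.2.2.1 * v.1 + x.2.2.2 * v.2) = v → x = (1, 0, 0, 1) := by decide +kernel

open Matrix in
def toQ (M : Matrix (Fin 2) (Fin 2) (ZMod 5)) : ZMod 5 × ZMod 5 × ZMod 5 × ZMod 5 :=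
  (M 0 0, M 0 1, M 1 0, M 1 1)

theorem toQ_mul (M N : Matrix (Fin 2) (Fin 2) (ZMod 5)) : toQ (M * N) = qmul (toQ M) (toQ N) := by
  simp [toQ, qmul, Matrix.mul_apply, Fin.sum_univ_two]

theorem toQ_inj {M N : Matrix (Fin 2) (Fin 2) (ZMod 5)} (h : toQ M = toQ N) : M = N := by
  simp only [toQ, Prod.mk.injEq] at h
  ext i j
  fin_cases i <;> fin_cases j
  · exact h.1
  · exact h.2.1
  · exact h.2.2.1
  · exact h.2.2.2

theorem main (g : Fin 3 → GL (Fin 2) (ZMod 5)) (hg : ∀ k, toQ (g k : Matrix (Fin 2) (Fin 2) (ZMod 5)) = gens k) :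
    Nat.card (Subgroup.closure (Set.range g)) = 24 ∧
    ∀ v w : Fin 2 → ZMod 5, v ≠ 0 → w ≠ 0 → ∃! h : Subgroup.closure (Set.range g),
      Matrix.mulVec ((h : GL (Fin 2) (ZMod 5)) : Matrix (Fin 2) (Fin 2) (ZMod 5)) v = w := by
  classical
  set H := Subgroup.closure (Set.range g)
  have hmem : ∀ h ∈ H, toQ (h : Matrix (Fin 2) (Fin 2) (ZMod 5)) ∈ elems := by
    intro h hh
    rw [← Subgroup.mem_toSubmonoid, Subgroup.closure_toSubmonoid_of_finite] at hh
    induction hh using Submonoid.closure_induction_right with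
    | one => decide
    | mul_right x _ y hy ih =>
      obtain ⟨k, rfl⟩ := hy
      rw [Units.val_mul, toQ_mul, hg]
      exact elems_closed _ ih k
  have hex : ∀ q ∈ elems, ∃ h : H, toQ ((h : GL (Fin 2) (ZMod 5)) : Matrix (Fin 2) (Fin 2) (ZMod 5)) = q := by
    intro q hq
    rw [← elems_words, List.mem_map] at hq
    obtain ⟨w, -, rfl⟩ := hq
    induction w using List.reverseRecOn with
    | nil => exact ⟨1, by simp [toQ]⟩
    | append_singleton w k ih =>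
      obtain ⟨h, hh⟩ := ih
      refine ⟨h * ⟨g k, Subgroup.subset_closure ⟨k, rfl⟩⟩, ?_⟩
      rw [List.foldl_append, List.foldl_cons, List.foldl_nil, Subgroup.coe_mul, Units.val_mul, toQ_mul, hh, hg]
  let f : H → {q // q ∈ elems} := fun h => ⟨_, hmem h h.2⟩
  have hcard : Nat.card H = 24 := by
    rw [Nat.card_eq_of_bijective f ⟨fun a b e => Subtype.ext (Units.ext (toQ_inj (congrArg Subtype.val e))),
      fun q => ⟨(hex q q.2).choose, Subtype.ext (hex q q.2).choose_spec⟩⟩,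
      Nat.card_eq_fintype_card, Fintype.card_of_subtype elems.toFinset (fun x => List.mem_toFinset),
      List.toFinset_card_of_nodup elems_nodup]
    rfl
  refine ⟨hcard, fun v w hv hw => ?_⟩
  let act : H → {u : Fin 2 → ZMod 5 // u ≠ 0} := fun h =>
    ⟨Matrix.mulVec ((h : GL (Fin 2) (ZMod 5)) : Matrix (Fin 2) (Fin 2) (ZMod 5)) v, fun e => hv (by
      have := congrArg (Matrix.mulVec (((h : GL (Fin 2) (ZMod 5))⁻¹ : GL _ _) : Matrix (Fin 2) (Fin 2) (ZMod 5))) e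
      rwa [Matrix.mulVec_mulVec, ← Units.val_mul, inv_mul_cancel, Units.val_one, Matrix.one_mulVec,
        Matrix.mulVec_zero] at this)⟩
  have hinj : Function.Injective act := by
    intro a b e
    have e' := congrArg Subtype.val e
    have h1 : Matrix.mulVec (((a⁻¹ * b : H) : GL (Fin 2) (ZMod 5)) : Matrix (Fin 2) (Fin 2) (ZMod 5)) v = v := by
      simp only [act] at e'
      rw [Subgroup.coe_mul, Units.val_mul, ← Matrix.mulVec_mulVec, ← e', Matrix.mulVec_mulVec, ← Units.val_mul,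
        ← Subgroup.coe_mul, inv_mul_cancel]
      simp
    have h2 := elems_free _ (hmem _ (a⁻¹ * b).2) (v 0, v 1) (fun h0 => hv (by
      simp only [Prod.ext_iff, Prod.fst_zero, Prod.snd_zero] at h0
      funext i; fin_cases i
      · exact h0.1
      · exact h0.2)) (by
      conv_rhs => rw [← h1]
      simp [toQ, Matrix.mulVec, dotProduct, Fin.sum_univ_two])
    have h3 : a⁻¹ * b = 1 := Subtype.ext (Units.ext (toQ_inj (h2.trans (by simp [toQ]))))
    exact inv_mul_eq_one.mp h3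
  have hbij := (Nat.bijective_iff_injective_and_card act).mpr ⟨hinj, by
    rw [hcard, Nat.card_eq_fintype_card, Fintype.card_subtype_compl, Fintype.card_subtype_eq]
    simp⟩
  obtain ⟨h, hh⟩ := hbij.2 ⟨w, hw⟩
  exact ⟨h, congrArg Subtype.val hh, fun k hk => hinj ((Subtype.ext hk).trans hh.symm)⟩

/-- An exceptional sharply doubly transitive group of degree 5^2: the listed matrices generate a subgroup of GL(2,5) of order 24 acting regularly on the non-zero vectors. -/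
theorem result (A : Matrix.GeneralLinearGroup (Fin 2) (ZMod 5)) (B : Matrix.GeneralLinearGroup (Fin 2) (ZMod 5)) (C : Matrix.GeneralLinearGroup (Fin 2) (ZMod 5)) (hA : (A : Matrix (Fin 2) (Fin 2) (ZMod 5)) = !![2, 0; 0, -2]) (hB : (B : Matrix (Fin 2) (Fin 2) (ZMod 5)) = !![0, -1; 1, 0]) (hC : (C : Matrix (Fin 2) (Fin 2) (ZMod 5)) = !![1, 2; 1, -2]) : Nat.card (Subgroup.closure ({A, B, C} : Set (Matrix.GeneralLinearGroup (Fin 2) (ZMod 5)))) = 24 ∧ ∀ v w : Fin 2 → ZMod 5, v ≠ 0 → w ≠ 0 → ∃! h : Subgroup.closure ({A, B, C} : Set (Matrix.GeneralLinearGroup (Fin 2) (ZMod 5))), Matrix.mulVec ((h : Matrix.GeneralLinearGroup (Fin 2) (ZMod 5)) : Matrix (Fin 2) (Fin 2) (ZMod 5)) v = w := by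
  have hr : Set.range ![A, B, C] = ({A, B, C} : Set (Matrix.GeneralLinearGroup (Fin 2) (ZMod 5))) := by
    simp [Matrix.range_cons, Matrix.range_empty]
    try aesop
  have h := main ![A, B, C] (fun k => by fin_cases k <;> simp [toQ, gens, hA, hB, hC] <;> decide)
  rw [hr] at h
  exact h

end Cfsg.Agent.S0691
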