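import Cfsg.Statements.S0695
import Cfsg.Agent.Lib.PermGroup.RegularNormal

set_option autoImplicit false
open Cfsg

namespace Cfsg.Agent.S0695

/-- A regular normal subgroup of a doubly primitive group of finite degree at least 2 is an elementary abelian 2-group (and the degree is a power of 2), unless the degree is 3. -/
theorem result {G : Type*} [Group G] {X : Type*} [Fintype X] [MulAction G X] (hX : 2 ≤ Fintype.card X) (h2 : MulAction.IsMultiplyPreprimitive G X 2) (N : Subgroup G) [N.Normal] (htrans : MulAction.IsPretransitive N X) (hreg : ∀ x : X, MulAction.stabilizer N x = ⊥) : Fintype.card X = 3 ∨ (IsMulCommutative N ∧ (∀ n ∈ N, n ^ 2 = 1) ∧ ∃ m : ℕ, Fintype.card X = 2 ^ m) := by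
  haveI : Nonempty X := Fintype.card_pos_iff.mp (by omega)
  rcases Cfsg.Lib.RegularNormal.double_cases N inferInstance h2 htrans hreg with h | h
  · exact Or.inl h
  · refine Or.inr ⟨⟨⟨fun a b => Subtype.ext ?_⟩⟩, h, Cfsg.Lib.RegularNormal.card_eq_two_pow N htrans hreg h⟩
    have hab := h ((a : G) * b) (N.mul_mem a.2 b.2)
    have ha := h a a.2
    have hb := h b b.2
    rw [sq] at hab ha hb
    change (a : G) * b = b * a
    have h1 : ((a : G) * b)⁻¹ = (a : G) * b := inv_eq_of_mul_eq_one_right hab
    rw [mul_inv_rev, inv_eq_of_mul_eq_one_right ha, inv_eq_of_mul_eq_one_right hb] at h1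
    exact h1.symm

end Cfsg.Agent.S0695
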