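import Cfsg.Statements.S0698
import Mathlib
import Cfsg.Agent.Lib.PermGroup.NormalPrimitive

set_option autoImplicit false
open Cfsg

namespace Cfsg.Agent.S0698

/-- Jordan's Theorem on normal subgroups of multiply transitive groups: if `G` is `k`-transitive (`k > 1`) of degree greater than `k`, a non-trivial normal subgroup is `(k-1)`-transitive, except possibly for `k = 3` when it may be an elementary abelian 2-group. -/
theorem result {α : Type*} [Fintype α] [DecidableEq α] (G : Subgroup (Equiv.Perm α)) {k : ℕ} (hk : 1 < k) (hdeg : k < Fintype.card α) (hG : MulAction.IsMultiplyPretransitive G α k) (N : Subgroup G) [N.Normal] (hN : N ≠ ⊥) : MulAction.IsMultiplyPretransitive N α (k - 1) ∨ (k = 3 ∧ IsMulCommutative N ∧ ∀ n ∈ N, n ^ 2 = 1) := by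
  classical
  obtain ⟨j, rfl⟩ : ∃ j, k = j + 1 := ⟨k - 1, by omega⟩
  haveI hG' := hG
  have hcard : ((j + 1 : ℕ) : ℕ∞) ≤ ENat.card α := by
    rw [ENat.card_eq_coe_fintype_card]; exact_mod_cast hdeg.le
  have hprim : MulAction.IsMultiplyPreprimitive G α j :=
    MulAction.isMultiplyPreprimitive_of_isMultiplyPretransitive_succ G α (n := j) hcard
  have hprim1 : MulAction.IsPreprimitive G α := by
    rw [← MulAction.is_one_preprimitive_iff]
    exact MulAction.isMultiplyPreprimitive_of_le G α hprim (by omega)
      (by rw [ENat.card_eq_coe_fintype_card]; exact_mod_cast (by omega : j ≤ Fintype.card α))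
  have hfix : MulAction.fixedPoints N α ≠ .univ := by
    intro e
    refine hN (Subgroup.ext fun g => ⟨fun hg => ?_, fun hg => by rw [Subgroup.mem_bot.1 hg]; exact N.one_mem⟩)
    rw [Subgroup.mem_bot]
    exact Subtype.ext (Equiv.ext fun x => Set.eq_univ_iff_forall.1 e x ⟨g, hg⟩)
  have htrans : MulAction.IsPretransitive N α := MulAction.IsQuasiPreprimitive.isPretransitive_of_normal hfix
  simp only [Nat.add_sub_cancel]
  by_cases hj : j = 1
  · left; subst hj; exact MulAction.is_one_pretransitive_iff.2 htrans
  by_cases hnr : ∃ a : α, MulAction.stabilizer N a ≠ ⊥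
  · exact Or.inl (Cfsg.Lib.PermGroup.NormalPrimitive.isMultiplyPretransitive (by omega) (by omega) hprim N hN hnr)
  push Not at hnr
  right
  by_cases hj3 : 3 ≤ j
  · exfalso
    have h3 := MulAction.isMultiplyPreprimitive_of_le G α hprim hj3
      (by rw [ENat.card_eq_coe_fintype_card]; exact_mod_cast (by omega : j ≤ Fintype.card α))
    rcases Cfsg.Lib.RegularNormal.triple_cases N h3 (by omega) htrans hnr with h | h <;> omega
  · obtain rfl : j = 2 := by omega
    rcases Cfsg.Lib.RegularNormal.double_cases N (Fintype.card_pos_iff.1 (by omega)) hprim htrans hnr with h | h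
    · omega
    refine ⟨rfl, ⟨⟨fun x y => Subtype.ext ?_⟩⟩, h⟩
    have hx := h x x.2
    have hy := h y y.2
    have hxy := h _ (N.mul_mem x.2 y.2)
    rw [sq] at hx hy hxy
    change (x : G) * y = y * x
    calc (x : G) * y = (x : G)⁻¹ * (y : G)⁻¹ := by rw [inv_eq_of_mul_eq_one_right hx, inv_eq_of_mul_eq_one_right hy]
      _ = ((y : G) * x)⁻¹ := (mul_inv_rev _ _).symm
      _ = y * x := by
        have := h _ (N.mul_mem y.2 x.2)
        rw [sq] at this
        exact inv_eq_of_mul_eq_one_right this

end Cfsg.Agent.S0698
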