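import Cfsg.Statements.S0700
import Cfsg.Agent.Lib.Solv.Frobenius

set_option autoImplicit false
open Cfsg
open scoped Pointwise

namespace Cfsg.Agent.S0700

open MulAction

section

variable {G α : Type*} [Group G] [MulAction G α]

/-- `T` is semiregular. -/
def Semireg (T : Subgroup G) (α : Type*) [MulAction G α] : Prop :=
  ∀ x : α, ∀ t ∈ T, t • x = x → t = 1

theorem exists_prime_exponent [Finite G] (h2 : IsMultiplyPretransitive G α 2) (T : Subgroup G)
    (hsr : Semireg T α) (hT : T ≠ ⊥) (a : α)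
    (hcom : ∀ g : G, (∀ t ∈ T, g * t * g⁻¹ ∈ T) ∨ ∀ t ∈ T, ∀ s ∈ T, Commute (g * t * g⁻¹) s) :
    ∃ p : ℕ, p.Prime ∧ ∀ t ∈ T, t ^ p = 1 := by
  have key : ∀ s ∈ T, ∀ t ∈ T, s ≠ 1 → t ≠ 1 → orderOf s = orderOf t := by
    intro s hs t ht hs1 ht1
    obtain ⟨g, hga, hgs⟩ := is_two_pretransitive_iff.1 h2
      (fun e : a = s • a => hs1 (hsr a s hs e.symm)) (fun e : a = t • a => ht1 (hsr a t ht e.symm))
    set u := g * s * g⁻¹ with hu
    have hua : u • a = t • a := by
      rw [hu, mul_smul, mul_smul, inv_smul_eq_iff.2 hga.symm, hgs]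
    have hord : orderOf u = orderOf s := by rw [hu, ← MulAut.conj_apply, MulEquiv.orderOf_eq]
    rcases hcom g with h | h
    · rw [← hord]
      congr 1
      have := hsr a _ (T.mul_mem (T.inv_mem ht) (h s hs)) (by rw [mul_smul, hua, inv_smul_smul])
      rw [inv_mul_eq_one] at this
      exact this.symm
    · have hc : Commute u t := h s hs t ht
      have hpow : ∀ m : ℕ, u ^ m • a = t ^ m • a := by
        intro m
        induction m with
        | zero => simp only [pow_zero]
        | succ m ih =>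
          rw [pow_succ', mul_smul, ih, ← mul_smul, (hc.pow_right m).eq, mul_smul, hua, ← mul_smul,
            ← pow_succ]
      have husr : ∀ m : ℕ, u ^ m • a = a → u ^ m = 1 := by
        intro m hm
        have e : u ^ m = g * s ^ m * g⁻¹ := by rw [hu, conj_pow]
        rw [e] at hm ⊢
        rw [mul_smul, mul_smul, inv_smul_eq_iff.2 hga.symm, smul_eq_iff_eq_inv_smul,
          inv_smul_eq_iff.2 hga.symm] at hm
        rw [hsr a _ (T.pow_mem hs m) hm, mul_one, mul_inv_cancel]
      rw [← hord]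
      refine Nat.dvd_antisymm (orderOf_dvd_of_pow_eq_one (husr _ ?_))
        (orderOf_dvd_of_pow_eq_one (hsr a _ (T.pow_mem ht _) ?_))
      · rw [hpow, pow_orderOf_eq_one, one_smul]
      · rw [← hpow, pow_orderOf_eq_one, one_smul]
  obtain ⟨s, hs, hs1⟩ := (Subgroup.bot_or_exists_ne_one T).resolve_left hT
  set m := orderOf s
  have hm : m ≠ 1 := fun e => hs1 (orderOf_eq_one_iff.1 e)
  obtain ⟨p, hp, hpm⟩ := Nat.exists_prime_and_dvd hm
  have ho : orderOf (s ^ (m / p)) = p := orderOf_pow_orderOf_div (orderOf_pos s).ne' hpm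
  have hmp : m = p := by
    rw [← ho]
    exact key s hs _ (T.pow_mem hs _) hs1 (fun e => hp.ne_one (by rw [← ho, e, orderOf_one]))
  refine ⟨p, hp, fun t ht => ?_⟩
  by_cases ht1 : t = 1
  · rw [ht1, one_pow]
  · rw [← hmp, show m = orderOf t from key s hs t ht hs1 ht1, pow_orderOf_eq_one]

theorem exists_center_ne_one [Finite G] {T : Subgroup G} (hT : T ≠ ⊥) {p : ℕ} (hp : p.Prime)
    (h : ∀ t ∈ T, t ^ p = 1) : ∃ z ∈ T, z ≠ 1 ∧ ∀ t ∈ T, Commute t z := by
  haveI := Fact.mk hp
  haveI : Nontrivial T := T.nontrivial_iff_ne_bot.2 hT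
  have hP : IsPGroup p T := fun t => ⟨1, Subtype.ext (by rw [pow_one]; exact h t t.2)⟩
  obtain ⟨z, hz⟩ := (Subgroup.nontrivial_iff_exists_ne_one _).1 hP.center_nontrivial
  exact ⟨z, z.2, fun e => hz.2 (Subtype.ext e),
    fun t ht => congrArg Subtype.val (Subgroup.mem_center_iff.1 hz.1 ⟨t, ht⟩)⟩

theorem semireg_of_commute [FaithfulSMul G α] {T U : Subgroup G} (hU : ∀ x y : α, ∃ u ∈ U, u • x = y)
    (h : ∀ t ∈ T, ∀ u ∈ U, Commute t u) : Semireg T α := by
  intro x t ht htx
  refine eq_of_smul_eq_smul (α := α) fun y => ?_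
  obtain ⟨u, hu, rfl⟩ := hU x y
  rw [one_smul, ← mul_smul, (h t ht u hu).eq, mul_smul, htx]

/-- An invariant finite set whose orbits all have size `d`. -/
theorem dvd_ncard_of_orbits [Finite α] (H : Subgroup G) (S : Set α) (d : ℕ)
    (hinv : ∀ h ∈ H, ∀ x ∈ S, h • x ∈ S) (hd : ∀ x ∈ S, (orbit H x).ncard = d) : d ∣ S.ncard := by
  let A : SubMulAction H α := { carrier := S, smul_mem' := fun h x hx => hinv h h.2 x hx }
  have := Fintype.ofFinite (orbitRel.Quotient H A)
  rw [← Nat.card_coe_set_eq, show Nat.card S = Nat.card A from rfl,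
    Nat.card_congr (selfEquivSigmaOrbits H A), Nat.card_sigma]
  refine Finset.dvd_sum fun q _ => dvd_of_eq ?_
  rw [← hd _ (q.out : A).2, ← SubMulAction.val_image_orbit, Set.ncard_image_of_injective _
    Subtype.val_injective, Nat.card_coe_set_eq]

theorem ncard_orbit_mul (H : Subgroup G) (x : α) :
    (orbit H x).ncard * Nat.card ↥(H ⊓ stabilizer G x) = Nat.card H := by
  rw [← index_stabilizer H x, mul_comm, ← Nat.card_congr (Subgroup.subgroupOfEquivOfLe
      (inf_le_left : H ⊓ stabilizer G x ≤ H)).toEquiv,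
    show (H ⊓ stabilizer G x).subgroupOf H = stabilizer H x by
      ext h; simp [Subgroup.mem_subgroupOf, Subgroup.smul_def, h.2]]
  exact Subgroup.card_mul_index _

theorem frobenius_case [Finite G] [Finite α] [FaithfulSMul G α] (h2 : IsMultiplyPretransitive G α 2)
    (N : Subgroup G) [N.Normal] (htr : ∀ x y : α, ∃ n ∈ N, n • x = y)
    (B : Set α) (hB : IsBlock N B) (hBs : ¬ B.Subsingleton) (hBu : B ≠ Set.univ) :
    ∀ a b : α, a ≠ b → ∀ n ∈ N, n • a = a → n • b = b → n = 1 := by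
  set F : α → α → Subgroup G := fun a x => (N ⊓ stabilizer G a) ⊓ stabilizer G x with hF
  have hFmem : ∀ {a x : α} {n : G}, n ∈ F a x ↔ n ∈ N ∧ n • a = a ∧ n • x = x := fun {a x n} => by
    simp [hF, and_assoc]
  have hFsymm : ∀ a x, F a x = F x a := fun a x => by ext n; rw [hFmem, hFmem]; tauto
  -- equal orders
  have hcard : ∀ a x b y : α, a ≠ x → b ≠ y → Nat.card (F a x) = Nat.card (F b y) := by
    suffices hle : ∀ a x b y : α, a ≠ x → b ≠ y → Nat.card (F a x) ≤ Nat.card (F b y) from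
      fun a x b y h1 h2' => le_antisymm (hle a x b y h1 h2') (hle b y a x h2' h1)
    intro a x b y hax hby
    obtain ⟨g, hga, hgx⟩ := is_two_pretransitive_iff.1 h2 hax hby
    refine Nat.card_le_card_of_injective (fun n => ⟨g * n * g⁻¹, hFmem.2 ⟨?_, ?_, ?_⟩⟩)
      fun n m h => Subtype.ext (mul_left_cancel (mul_right_cancel (congrArg Subtype.val h)))
    · exact (inferInstance : N.Normal).conj_mem _ (hFmem.1 n.2).1 g
    · rw [mul_smul, mul_smul, inv_smul_eq_iff.2 hga.symm, (hFmem.1 n.2).2.1, hga]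
    · rw [mul_smul, mul_smul, inv_smul_eq_iff.2 hgx.symm, (hFmem.1 n.2).2.2, hgx]
  rw [Set.not_subsingleton_iff] at hBs
  -- the key step
  have key : ∀ (B : Set α), IsBlock N B → B.Nontrivial → ∀ a ∈ B, ∀ x ∉ B, ∀ g ∈ N, ∀ b ∈ B, g • b = x →
      ∀ n ∈ F a x, ∀ z ∈ B, n • (g • z) = g • z := by
    intro B hB hBn a haB x hx g hg b hb hgb n hn z hz
    set C : Set α := (fun w => g • w) '' B with hC
    have hxC : x ∈ C := ⟨b, hb, hgb⟩
    have hCblock : IsBlock N C := by
      have := hB.translate (⟨g, hg⟩ : N)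
      rwa [← Set.image_smul] at this
    have hCne : C ≠ B := fun e => hx (e ▸ hxC)
    have hdisj : Disjoint C B := by
      have h := hB (g₁ := (⟨g, hg⟩ : N)) (g₂ := (1 : N)) (by
        rw [one_smul, ← Set.image_smul]; exact hCne)
      rwa [one_smul, ← Set.image_smul] at h
    have haC : a ∉ C := fun h => Set.disjoint_left.1 hdisj h haB
    set H := (N ⊓ stabilizer G a) ⊓ stabilizer G C with hH
    have hFH : ∀ w ∈ C, F a w ≤ H := by
      intro w hw m hm
      obtain ⟨hmN, hma, hmw⟩ := hFmem.1 hm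
      refine ⟨⟨hmN, hma⟩, ?_⟩
      show m • C = C
      by_contra hne
      have h := hCblock (g₁ := (⟨m, hmN⟩ : N)) (g₂ := (1 : N)) (by rw [one_smul]; exact hne)
      rw [one_smul] at h
      exact Set.disjoint_left.1 h ⟨w, hw, hmw⟩ hw
    have horb : ∀ w ∈ C, (orbit H w).ncard * Nat.card (F a x) = Nat.card H := by
      intro w hw
      rw [hcard a x a w (fun e => hx (e ▸ haB)) (fun e => haC (e ▸ hw)),
        show F a w = H ⊓ stabilizer G w from le_antisymm (le_inf (hFH w hw) inf_le_right)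
          (inf_le_inf_right _ inf_le_left)]
      exact ncard_orbit_mul H w
    set d := (orbit H x).ncard with hd
    have hpos : 0 < Nat.card (F a x) := Nat.card_pos
    have hdC : d ∣ B.ncard := by
      rw [← Set.ncard_image_of_injective B (MulAction.injective g)]
      refine dvd_ncard_of_orbits H C d (fun h hh w hw => ?_) fun w hw => ?_
      · have e : h • C = C := hh.2
        exact e ▸ Set.smul_mem_smul_set hw
      · exact Nat.eq_of_mul_eq_mul_right hpos ((horb w hw).trans (horb x hxC).symm)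
    set Na := N ⊓ stabilizer G a with hNa
    have hm : ∀ w, w ≠ a → (orbit Na w).ncard * Nat.card (F a x) = Nat.card Na := fun w hw => by
      rw [hcard a x a w (fun e => hx (e ▸ haB)) (Ne.symm hw)]
      exact ncard_orbit_mul Na w
    have hmd : d ∣ (orbit Na x).ncard := by
      refine Nat.dvd_of_mul_dvd_mul_right hpos ?_
      rw [hd, horb x hxC, hm x (fun e => hx (e ▸ haB))]
      exact Subgroup.card_dvd_of_le inf_le_left
    have hmB : (orbit Na x).ncard ∣ (B \ {a}).ncard := by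
      refine dvd_ncard_of_orbits Na _ _ (fun h hh w hw => ?_) fun w hw => ?_
      · refine ⟨?_, fun e => hw.2 ?_⟩
        · have hsame : h • B = B := by
            by_contra hne
            have h' := hB (g₁ := (⟨h, hh.1⟩ : N)) (g₂ := (1 : N)) (by rw [one_smul]; exact hne)
            rw [one_smul] at h'
            exact Set.disjoint_left.1 h' ⟨a, haB, hh.2⟩ haB
          exact hsame ▸ Set.smul_mem_smul_set hw.1
        · exact smul_left_cancel h (e.trans (Eq.symm hh.2) : h • w = h • a)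
      · exact Nat.eq_of_mul_eq_mul_right hpos ((hm w hw.2).trans (hm x (fun e => hx (e ▸ haB))).symm)
    rw [Set.ncard_diff_singleton_of_mem haB] at hmB
    have hd1 : d = 1 := by
      have h1 := Nat.dvd_sub hdC (hmd.trans hmB)
      have h2 : 0 < B.ncard := (Set.ncard_pos (Set.toFinite B)).2 ⟨a, haB⟩
      rw [show B.ncard - (B.ncard - 1) = 1 by omega] at h1
      exact Nat.dvd_one.1 h1
    have hHF : H = F a x := (Subgroup.eq_of_le_of_card_ge (hFH x hxC) (by
      rw [← horb x hxC, ← hd, hd1, one_mul])).symm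
    have hgz : g • z ∈ C := ⟨z, hz, rfl⟩
    have : n ∈ F a (g • z) := by
      have hle : F a (g • z) = H := Subgroup.eq_of_le_of_card_ge (hFH _ hgz) (by
        rw [hcard a (g • z) a x (fun e => haC (e ▸ hgz)) (fun e => hx (e ▸ haB)), hHF])
      rw [hle, hHF]; exact hn
    exact (hFmem.1 this).2.2
  obtain ⟨a, haB, b, hbB, hab⟩ := hBs
  obtain ⟨x, hx⟩ := (Set.ne_univ_iff_exists_notMem B).1 hBu
  -- fixing `a` and a point outside fixes `B`
  have hinB : ∀ x ∉ B, F a x ≤ F a b := by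
    intro x hx n hn
    obtain ⟨g, hg, hga⟩ := htr a x
    refine hFmem.2 ⟨(hFmem.1 hn).1, (hFmem.1 hn).2.1, ?_⟩
    have hblock : IsBlock N ((fun w => g • w) '' B) := by
      have := hB.translate (⟨g, hg⟩ : N)
      rwa [← Set.image_smul] at this
    have haC : a ∉ (fun w => g • w) '' B := by
      intro h
      have hd := hB (g₁ := (⟨g, hg⟩ : N)) (g₂ := (1 : N)) (by
        rw [one_smul, ← Set.image_smul]
        exact fun e => hx (e ▸ (⟨a, haB, hga⟩ : x ∈ (fun w => g • w) '' B)))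
      rw [one_smul, ← Set.image_smul] at hd
      exact Set.disjoint_left.1 hd h haB
    have hk := key _ hblock ((Set.nontrivial_of_mem_mem_ne haB hbB hab).image (MulAction.injective g))
      x ⟨a, haB, hga⟩ a haC g⁻¹ (N.inv_mem hg) x ⟨a, haB, hga⟩ (inv_smul_eq_iff.2 hga.symm) n
      (hFsymm a x ▸ hn) (g • b) ⟨b, hbB, rfl⟩
    rwa [inv_smul_smul] at hk
  have heq : ∀ y ∉ B, F a y = F a b := fun y hy => Subgroup.eq_of_le_of_card_ge (hinB y hy)
    (hcard a b a y hab fun e => hy (e ▸ haB)).le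
  have hone : ∀ n ∈ F a b, n = 1 := by
    intro n hn
    refine eq_of_smul_eq_smul (α := α) fun y => ?_
    rw [one_smul]
    by_cases hy : y ∈ B
    · by_cases hya : y = a
      · rw [hya]; exact (hFmem.1 hn).2.1
      · obtain ⟨g, hg, hgy⟩ := htr a x
        have hblock : IsBlock N ((fun w => g • w) '' B) := by
          have := hB.translate (⟨g, hg⟩ : N)
          rwa [← Set.image_smul] at this
        have haC : a ∉ (fun w => g • w) '' B := by
          intro h
          have hd := hB (g₁ := (⟨g, hg⟩ : N)) (g₂ := (1 : N)) (by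
            rw [one_smul, ← Set.image_smul]
            exact fun e => hx (e ▸ (⟨a, haB, hgy⟩ : x ∈ (fun w => g • w) '' B)))
          rw [one_smul, ← Set.image_smul] at hd
          exact Set.disjoint_left.1 hd h haB
        have hk := key _ hblock ((Set.nontrivial_of_mem_mem_ne haB hbB hab).image (MulAction.injective g))
          x ⟨a, haB, hgy⟩ a haC g⁻¹ (N.inv_mem hg) x ⟨a, haB, hgy⟩ (inv_smul_eq_iff.2 hgy.symm) n
          (hFsymm a x ▸ ((heq x hx).symm ▸ hn)) (g • y) ⟨y, hy, rfl⟩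
        rwa [inv_smul_smul] at hk
    · exact (hFmem.1 ((heq y hy).symm ▸ hn)).2.2
  intro u v huv n hn hnu hnv
  have h1 : Nat.card (F u v) = 1 := by
    rw [hcard u v a b huv hab, Subgroup.card_eq_one, Subgroup.eq_bot_iff_forall]
    exact hone
  exact (Subgroup.eq_bot_iff_forall _).1 (Subgroup.card_eq_one.1 h1) n (hFmem.2 ⟨hn, hnu, hnv⟩)

theorem dichotomy [Finite G] [Finite α] [FaithfulSMul G α] (h2 : IsMultiplyPretransitive G α 2)
    (N : Subgroup G) [N.Normal] (hN : N ≠ ⊥)
    (hmin : ∀ M : Subgroup G, M.Normal → M ≤ N → M = ⊥ ∨ M = N) :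
    ((∀ x ∈ N, ∀ y ∈ N, Commute x y) ∧ (∃ p : ℕ, p.Prime ∧ ∀ n ∈ N, n ^ p = 1) ∧ Semireg N α) ∨
      ((∀ M : Subgroup G, M ≤ N → (∀ n ∈ N, ∀ m ∈ M, n * m * n⁻¹ ∈ M) → M = ⊥ ∨ M = N) ∧
        IsPreprimitive N α ∧ ∃ n ∈ N, ∃ m ∈ N, ¬ Commute n m) := by
  haveI := isPreprimitive_of_is_two_pretransitive h2
  have hNfix : fixedPoints N α ≠ Set.univ := fun e => hN ((Subgroup.eq_bot_iff_forall _).2 fun n hn =>
    eq_of_smul_eq_smul (α := α) fun x => by
      rw [one_smul]; exact Set.eq_univ_iff_forall.1 e x ⟨n, hn⟩)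
  have hNpre := IsQuasiPreprimitive.isPretransitive_of_normal hNfix
  have htr : ∀ x y : α, ∃ n ∈ N, n • x = y := fun x y => by
    obtain ⟨n, hn⟩ := hNpre.exists_smul_eq x y
    exact ⟨n, n.2, hn⟩
  obtain ⟨a⟩ : Nonempty α := not_isEmpty_iff.1 fun h => hNfix (Set.eq_univ_of_forall fun x => h.elim x)
  -- central elements
  have hcentral : (∃ z ∈ N, z ≠ 1 ∧ ∀ n ∈ N, Commute n z) → ∀ x ∈ N, ∀ y ∈ N, Commute x y := by
    rintro ⟨z, hz, hz1, hzc⟩ x hx y hy
    rcases hmin (N ⊓ Subgroup.centralizer (N : Set G)) inferInstance inf_le_left with h | h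
    · exact absurd ((Subgroup.eq_bot_iff_forall _).1 h z ⟨hz, fun n hn => (hzc n hn).eq⟩) hz1
    · exact (h.ge hy).2 x hx
  have hregular : Semireg N α → ((∀ x ∈ N, ∀ y ∈ N, Commute x y) ∧
      (∃ p : ℕ, p.Prime ∧ ∀ n ∈ N, n ^ p = 1) ∧ Semireg N α) := fun hsr => by
    obtain ⟨p, hp, hexp⟩ := exists_prime_exponent h2 N hsr hN a
      fun g => Or.inl fun t ht => (inferInstance : N.Normal).conj_mem t ht g
    obtain ⟨z, hz, hz1, hzc⟩ := exists_center_ne_one hN hp hexp
    exact ⟨hcentral ⟨z, hz, hz1, hzc⟩, ⟨p, hp, hexp⟩, hsr⟩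
  by_cases hab : ∀ x ∈ N, ∀ y ∈ N, Commute x y
  · exact Or.inl (hregular (semireg_of_commute htr hab))
  by_cases hsr : Semireg N α
  · exact Or.inl (hregular hsr)
  haveI := hNpre
  have hprim : IsPreprimitive N α := by
    refine ⟨fun {B} hB => ?_⟩
    by_contra hcon
    simp only [IsTrivialBlock, not_or] at hcon
    have h1 := frobenius_case h2 N htr B hB hcon.1 hcon.2
    -- a Frobenius group
    set H := stabilizer N a with hH
    have hHbot : H ≠ ⊥ := by
      intro e
      refine hsr fun x n hn hnx => ?_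
      obtain ⟨g, hg, hgx⟩ := htr a x
      have := (Subgroup.eq_bot_iff_forall _).1 e ⟨g⁻¹ * n * g, N.mul_mem (N.mul_mem (N.inv_mem hg) hn) hg⟩
        (show (g⁻¹ * n * g) • a = a by rw [mul_smul, mul_smul, hgx, hnx, inv_smul_eq_iff, hgx])
      have h' : g⁻¹ * n * g = 1 := congrArg Subtype.val this
      calc n = g * (g⁻¹ * n * g) * g⁻¹ := by group
        _ = 1 := by rw [h']; group
    have hHtop : H ≠ ⊤ := by
      intro e
      refine hcon.1 fun x _ y _ => ?_
      have hall : ∀ x : α, x = a := fun x => by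
        obtain ⟨n, hn, rfl⟩ := htr a x
        exact e.ge (Subgroup.mem_top (⟨n, hn⟩ : N))
      rw [hall x, hall y]
    have hFC : Cfsg.IsFrobeniusComplement H := by
      refine ⟨hHbot, hHtop, fun g hg => (Subgroup.eq_bot_iff_forall _).2 fun n hn => ?_⟩
      have hga : n • (g • a) = g • a := by
        have : n ∈ (stabilizer N a).map (MulAut.conj g).toMonoidHom := hn.2
        rw [← stabilizer_smul_eq_stabilizer_map_conj] at this
        exact this
      exact Subtype.ext (h1 a (g • a) (fun e => hg e.symm) n n.2 hn.1 hga)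
    obtain ⟨K, hKn, hKset, hKc⟩ := Cfsg.Lib.Solv.exists_frobeniusKernel hFC
    have hKmem : ∀ k : N, k ∈ K ↔ k = 1 ∨ ∀ x : α, k • x ≠ x := by
      intro k
      rw [← SetLike.mem_coe, hKset]
      refine or_congr Iff.rfl ⟨fun h x hx => ?_, fun h g hg => h (g • a) ?_⟩
      · obtain ⟨g, hg, rfl⟩ := htr a x
        refine h ⟨g, hg⟩ ?_
        show k ∈ (stabilizer N a).map (MulAut.conj (⟨g, hg⟩ : N)).toMonoidHom
        rw [← stabilizer_smul_eq_stabilizer_map_conj]
        exact hx
      · have : k ∈ (stabilizer N a).map (MulAut.conj g).toMonoidHom := hg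
        rw [← stabilizer_smul_eq_stabilizer_map_conj] at this
        exact this
    have hK : (K.map N.subtype).Normal := ⟨fun k hk g => by
      obtain ⟨k, hkK, rfl⟩ := hk
      refine ⟨⟨g * k * g⁻¹, (inferInstance : N.Normal).conj_mem _ k.2 g⟩, (hKmem _).2 ?_, rfl⟩
      rcases (hKmem k).1 hkK with rfl | h
      · left; ext; simp
      · right
        intro x hx
        have hx' : (g * (k : G) * g⁻¹) • x = x := hx
        rw [mul_smul, mul_smul, smul_eq_iff_eq_inv_smul] at hx'
        exact h (g⁻¹ • x) hx'⟩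
    rcases hmin _ hK (Subgroup.map_subtype_le K) with h | h
    · rw [Subgroup.map_eq_bot_iff_of_injective _ N.subtype_injective] at h
      subst h
      exact hHtop (Subgroup.isComplement'_bot_left.1 hKc)
    · have hKtop : K = ⊤ := Subgroup.map_injective N.subtype_injective
        (by rw [h, ← MonoidHom.range_eq_map, Subgroup.range_subtype])
      subst hKtop
      exact hHbot (Subgroup.isComplement'_top_left.1 hKc)
  refine Or.inr ⟨?_, hprim, by push Not at hab; exact hab⟩
  -- simplicity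
  intro M hMN hMinv
  by_contra hcon
  push Not at hcon
  obtain ⟨T, hTmem, hTmin⟩ := (Set.toFinite {T : Subgroup G | T ≤ M ∧ T ≠ ⊥ ∧
    ∀ n ∈ N, ∀ t ∈ T, n * t * n⁻¹ ∈ T}).exists_minimal ⟨M, le_rfl, hcon.1, hMinv⟩
  obtain ⟨hTM, hTne, hTinv⟩ := hTmem
  have hTN : T ≤ N := hTM.trans hMN
  set cj : G → Subgroup G := fun g => T.map (MulAut.conj g).toMonoidHom with hcj
  have hcjmem : ∀ g t, t ∈ cj g ↔ g⁻¹ * t * g ∈ T := fun g t => by
    simp only [hcj, Subgroup.mem_map_equiv, MulAut.conj_symm_apply]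
  have hcjN : ∀ g, cj g ≤ N := fun g t ht => by
    have := (inferInstance : N.Normal).conj_mem _ (hTN ((hcjmem g t).1 ht)) g
    rwa [show g * (g⁻¹ * t * g) * g⁻¹ = t by group] at this
  have hcjinv : ∀ g, ∀ n ∈ N, ∀ t ∈ cj g, n * t * n⁻¹ ∈ cj g := fun g n hn t ht => by
    rw [hcjmem] at ht ⊢
    have := hTinv (g⁻¹ * n * g) (by
      have := (inferInstance : N.Normal).conj_mem n hn g⁻¹
      rwa [inv_inv] at this) _ ht
    rwa [show g⁻¹ * n * g * (g⁻¹ * t * g) * (g⁻¹ * n * g)⁻¹ = g⁻¹ * (n * t * n⁻¹) * g by group] at this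
  have hdicho : ∀ g : G, (∀ t ∈ T, g * t * g⁻¹ ∈ T) ∨ ∀ u ∈ cj g, ∀ s ∈ T, Commute u s := by
    intro g
    by_cases hbot : T ⊓ cj g = ⊥
    · refine Or.inr fun u hu s hs => ?_
      have hmem : u * s * u⁻¹ * s⁻¹ ∈ T ⊓ cj g := ⟨T.mul_mem (hTinv u (hcjN g hu) s hs) (T.inv_mem hs), by
        rw [show u * s * u⁻¹ * s⁻¹ = u * (s * u⁻¹ * s⁻¹) by group]
        exact (cj g).mul_mem hu (hcjinv g s (hTN hs) _ ((cj g).inv_mem hu))⟩
      rw [hbot, Subgroup.mem_bot, mul_inv_eq_one, mul_inv_eq_iff_eq_mul] at hmem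
      exact hmem
    · refine Or.inl fun t ht => ?_
      have hle : T ≤ T ⊓ cj g := hTmin ⟨inf_le_left.trans hTM, hbot, fun n hn t ht =>
        ⟨hTinv n hn t ht.1, hcjinv g n hn t ht.2⟩⟩ inf_le_left
      have heq : T = cj g := Subgroup.eq_of_le_of_card_ge (hle.trans inf_le_right)
        (Nat.card_congr (T.equivMapOfInjective _ (MulAut.conj g).injective).toEquiv).ge
      rw [heq, hcjmem, show g⁻¹ * (g * t * g⁻¹) * g = t by group]
      exact heq ▸ (by rw [← heq]; exact ht)
  -- some conjugate differs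
  obtain ⟨g0, hg0⟩ : ∃ g : G, ∀ u ∈ cj g, ∀ s ∈ T, Commute u s := by
    by_contra hno
    have hTn : T.Normal := ⟨fun t ht g => ((hdicho g).resolve_right fun h => hno ⟨g, h⟩) t ht⟩
    rcases hmin T hTn hTN with h | h
    · exact hTne h
    · exact hcon.2 (le_antisymm hMN (h.ge.trans hTM))
  have htrans : ∀ g, ∀ x y : α, ∃ u ∈ cj g, u • x = y := by
    intro g x y
    haveI : IsPretransitive N α := hNpre
    by_cases hx : ∀ u ∈ cj g, u • x = x
    · exfalso
      refine hTne ((Subgroup.eq_bot_iff_forall _).2 fun t ht => ?_)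
      have hu : g * t * g⁻¹ ∈ cj g := by
        rw [hcjmem, show g⁻¹ * (g * t * g⁻¹) * g = t by group]; exact ht
      have : g * t * g⁻¹ = 1 := eq_of_smul_eq_smul (α := α) fun z => by
        obtain ⟨n, hn, rfl⟩ := htr x z
        have h' := hx _ (hcjinv g n⁻¹ (N.inv_mem hn) _ hu)
        rw [inv_inv, mul_smul, mul_smul, inv_smul_eq_iff] at h'
        rw [one_smul, h']
      exact conj_eq_one_iff.1 this
    · haveI := hprim
      haveI : ((cj g).subgroupOf N).Normal := ⟨fun u hu n => hcjinv g n n.2 u hu⟩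
      have hfix : fixedPoints ((cj g).subgroupOf N) α ≠ Set.univ := fun e => hx fun u hu =>
        Set.eq_univ_iff_forall.1 e x ⟨⟨u, hcjN g hu⟩, hu⟩
      obtain ⟨u, hu⟩ := (IsQuasiPreprimitive.isPretransitive_of_normal hfix).exists_smul_eq x y
      exact ⟨u.1.1, u.2, hu⟩
  have hTsr : Semireg T α := semireg_of_commute (htrans g0) fun t ht u hu => (hg0 u hu t ht).symm
  obtain ⟨p, hp, hexp⟩ := exists_prime_exponent h2 T hTsr hTne a fun g =>
    (hdicho g).imp_right fun h t ht s hs => h _ (by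
      rw [hcjmem, show g⁻¹ * (g * t * g⁻¹) * g = t by group]; exact ht) s hs
  obtain ⟨z, hz, hz1, hzc⟩ := exists_center_ne_one hTne hp hexp
  refine hab (hcentral ⟨z, hTN hz, hz1, fun n hn => ?_⟩)
  have hgen : Subgroup.normalClosure (T : Set G) = N := by
    rcases hmin _ Subgroup.normalClosure_normal (Subgroup.normalClosure_le_normal hTN) with h | h
    · exact absurd (le_bot_iff.1 (h ▸ Subgroup.le_normalClosure)) hTne
    · exact h
  have hle : Subgroup.normalClosure (T : Set G) ≤ Subgroup.centralizer {z} := by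
    rw [Subgroup.normalClosure, Subgroup.closure_le]
    intro w hw
    obtain ⟨t, ht, hc⟩ := Group.mem_conjugatesOfSet_iff.1 hw
    obtain ⟨g, rfl⟩ := isConj_iff.1 hc
    rw [SetLike.mem_coe, Subgroup.mem_centralizer_singleton_iff]
    rcases hdicho g with h | h
    · exact (hzc _ (h t ht)).eq
    · exact (h _ (by rw [hcjmem, show g⁻¹ * (g * t * g⁻¹) * g = t by group]; exact ht) z hz).eq
  exact Subgroup.mem_centralizer_singleton_iff.1 (hle (hgen.ge hn))

end

/-- Burnside's Theorem on doubly transitive groups: a minimal normal subgroup of a finite doubly transitive permutation group is elementary abelian and regular, or simple and primitive. -/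
theorem result {α : Type*} [Fintype α] [DecidableEq α] (G : Subgroup (Equiv.Perm α)) (hG : MulAction.IsMultiplyPretransitive G α 2) (N : Subgroup G) [N.Normal] (hN : N ≠ ⊥) (hmin : ∀ M : Subgroup G, M.Normal → M ≤ N → M = ⊥ ∨ M = N) : (IsMulCommutative N ∧ (∃ p : ℕ, p.Prime ∧ ∀ n ∈ N, n ^ p = 1) ∧ ∀ a : α, MulAction.stabilizer N a = ⊥) ∨ (IsSimpleGroup N ∧ MulAction.IsPreprimitive N α) := by
  rcases dichotomy hG N hN hmin with ⟨hab, hexp, hsr⟩ | ⟨hsimple, hprim, n, hn, m, hm, hnm⟩
  · refine Or.inl ⟨⟨⟨fun x y => Subtype.ext (hab x x.2 y y.2).eq⟩⟩, hexp, fun a => ?_⟩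
    rw [Subgroup.eq_bot_iff_forall]
    exact fun n hn => Subtype.ext (hsr a n n.2 hn)
  · refine Or.inr ⟨?_, hprim⟩
    haveI : Nontrivial N := N.nontrivial_iff_ne_bot.2 hN
    refine ⟨fun M hM => ?_⟩
    have hMi : ∀ n ∈ N, ∀ m ∈ M.map N.subtype, n * m * n⁻¹ ∈ M.map N.subtype := by
      rintro n hn _ ⟨m, hm, rfl⟩
      exact ⟨(⟨n, hn⟩ : N) * m * (⟨n, hn⟩ : N)⁻¹, hM.conj_mem m hm _, rfl⟩
    rcases hsimple (M.map N.subtype) (Subgroup.map_subtype_le M) hMi with h | h
    · exact Or.inl ((Subgroup.map_eq_bot_iff_of_injective _ N.subtype_injective).1 h)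
    · exact Or.inr (Subgroup.map_injective N.subtype_injective
        (by rw [h, ← MonoidHom.range_eq_map, Subgroup.range_subtype]))

end Cfsg.Agent.S0700
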