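import Cfsg.Statements.S0701


set_option autoImplicit false
open Cfsg

namespace Cfsg.Agent.S0701

/-- The centraliser in the full symmetric group of a transitive permutation group `G` is semiregular, and it is transitive if and only if `G` is regular. -/
theorem result {α : Type*} (G : Subgroup (Equiv.Perm α)) [MulAction.IsPretransitive G α] : (∀ c ∈ Subgroup.centralizer (G : Set (Equiv.Perm α)), ∀ a : α, c a = a → c = 1) ∧ (MulAction.IsPretransitive (Subgroup.centralizer (G : Set (Equiv.Perm α))) α ↔ ∀ a : α, MulAction.stabilizer G a = ⊥) := by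
  have hsemi : ∀ c ∈ Subgroup.centralizer (G : Set (Equiv.Perm α)), ∀ a : α, c a = a → c = 1 := by
    intro c hc a ha
    refine Equiv.ext fun x => ?_
    obtain ⟨⟨g, hg⟩, hgx⟩ := MulAction.exists_smul_eq G a x
    have hgx' : g a = x := hgx
    have h := congrArg (fun s : Equiv.Perm α => s a) (Subgroup.mem_centralizer_iff.mp hc g hg)
    simp only [Equiv.Perm.mul_apply, ha] at h
    rw [Equiv.Perm.one_apply, ← hgx']
    exact h.symm
  refine ⟨hsemi, fun hC a => ?_, fun hreg => ⟨fun x y => ?_⟩⟩
  · rw [eq_bot_iff]
    rintro ⟨g, hg⟩ hga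
    have hga' : g a = a := hga
    rw [Subgroup.mem_bot]
    refine Subtype.ext (Equiv.ext fun y => ?_)
    obtain ⟨⟨c, hc⟩, hcy⟩ := MulAction.exists_smul_eq
      (Subgroup.centralizer (G : Set (Equiv.Perm α))) a y
    have hcy' : c a = y := hcy
    have h := congrArg (fun s : Equiv.Perm α => s a) (Subgroup.mem_centralizer_iff.mp hc g hg)
    simp only [Equiv.Perm.mul_apply, hga'] at h
    change g y = y
    rw [← hcy']
    exact h
  · choose k hk using fun z : α => MulAction.exists_smul_eq G x z
    have hu : ∀ (z : α) (h : G), h • x = z → h = k z := by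
      intro z h hh
      have : (k z)⁻¹ * h ∈ MulAction.stabilizer G x := by
        rw [MulAction.mem_stabilizer_iff, mul_smul, hh, inv_smul_eq_iff, hk]
      rw [hreg x, Subgroup.mem_bot] at this
      exact (inv_mul_eq_one.mp this).symm
    let f : α → α := fun z => (k z : G) • y
    have hf : Function.Bijective f := by
      refine ⟨fun z w hzw => ?_, fun w => ?_⟩
      · have : (k w)⁻¹ * k z ∈ MulAction.stabilizer G y := by
          rw [MulAction.mem_stabilizer_iff, mul_smul, inv_smul_eq_iff]
          exact hzw
        rw [hreg y, Subgroup.mem_bot] at this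
        rw [← hk z, ← hk w, (inv_mul_eq_one.mp this)]
      · obtain ⟨g, hg⟩ := MulAction.exists_smul_eq G y w
        exact ⟨g • x, by change k (g • x) • y = w; rw [← hu _ g rfl, hg]⟩
    refine ⟨⟨Equiv.ofBijective f hf, ?_⟩, ?_⟩
    · rw [Subgroup.mem_centralizer_iff]
      intro g hg
      refine Equiv.ext fun z => ?_
      have e : (⟨g, hg⟩ : G) * k z = k ((⟨g, hg⟩ : G) • z) :=
        hu _ _ (by rw [mul_smul, hk])
      change g (k z • y) = k (g z) • y
      rw [show k (g z) = (⟨g, hg⟩ : G) * k z from e.symm, mul_smul]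
      rfl
    · change k x • y = y
      rw [← hu x 1 (one_smul _ _), one_smul]

end Cfsg.Agent.S0701
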