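import Cfsg.Statements.S0702
import Mathlib
import Cfsg.Agent.Lib.PermGroup.TwinDegree

set_option autoImplicit false
open Cfsg

namespace Cfsg.Agent.S0702

/-- For a transitive permutation group `G` on a finite set, the centraliser of `G` in the symmetric group is isomorphic to `N_G(G_ω)/G_ω`, and its orbit of `ω` is the set of fixed points of `G_ω`. -/
theorem result {α : Type*} [Finite α] (G : Subgroup (Equiv.Perm α)) [MulAction.IsPretransitive G α] (a : α) : Nonempty (Subgroup.centralizer (G : Set (Equiv.Perm α)) ≃* Subgroup.normalizer ((MulAction.stabilizer G a : Subgroup G) : Set G) ⧸ (MulAction.stabilizer G a).subgroupOf (Subgroup.normalizer ((MulAction.stabilizer G a : Subgroup G) : Set G))) ∧ MulAction.orbit (Subgroup.centralizer (G : Set (Equiv.Perm α))) a = MulAction.fixedPoints (MulAction.stabilizer G a) α := by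
  classical
  set S := MulAction.stabilizer G a with hS
  set N := Subgroup.normalizer ((S : Subgroup G) : Set G) with hN
  set C := Subgroup.centralizer (G : Set (Equiv.Perm α))
  -- a normalising element gives a commuting map
  choose k hk using fun z : α => MulAction.exists_smul_eq G a z
  have hwd : ∀ (n : N) (g h : G), g • a = h • a → (g * (n : G)⁻¹) • a = (h * (n : G)⁻¹) • a := by
    intro n g h e
    have h1 : h⁻¹ * g ∈ S := by rw [hS, MulAction.mem_stabilizer_iff, mul_smul, e, inv_smul_smul]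
    have h2 : (n : G) * (h⁻¹ * g) * (n : G)⁻¹ ∈ S := (Subgroup.mem_normalizer_iff.mp n.2 _).mp h1
    rw [hS, MulAction.mem_stabilizer_iff] at h2
    rw [show g * (n : G)⁻¹ = h * (n : G)⁻¹ * ((n : G) * (h⁻¹ * g) * (n : G)⁻¹) by group, mul_smul, h2]
  let f : N → α → α := fun n z => (k z * (n : G)⁻¹) • a
  have hf : ∀ (n : N) (g : G), f n (g • a) = (g * (n : G)⁻¹) • a := fun n g => hwd n _ _ (hk _)
  have hmul : ∀ (n m : N) (z : α), f (n * m) z = f n (f m z) := by
    intro n m z
    change _ = f n ((k z * (m : G)⁻¹) • a)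
    rw [hf]
    simp [f, mul_inv_rev, mul_assoc]
  have hone : ∀ z, f 1 z = z := fun z => by simp [f, hk]
  let φ : N →* Equiv.Perm α :=
    { toFun := fun n => ⟨f n, f n⁻¹, fun z => by rw [← hmul, inv_mul_cancel, hone],
        fun z => by rw [← hmul, mul_inv_cancel, hone]⟩
      map_one' := Equiv.ext hone
      map_mul' := fun n m => Equiv.ext (hmul n m) }
  have hφC : ∀ n, φ n ∈ C := by
    intro n
    rw [Subgroup.mem_centralizer_iff]
    intro g hg
    refine Equiv.ext fun z => ?_
    have e : f n ((⟨g, hg⟩ : G) • (k z • a)) = (⟨g, hg⟩ : G) • f n z := by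
      rw [smul_smul, hf]
      simp [f, mul_smul, mul_assoc]
    rw [hk] at e
    exact e.symm
  let ψ : N →* C := φ.codRestrict C hφC
  have hker : ψ.ker = S.subgroupOf N := by
    ext n
    rw [MonoidHom.mem_ker, Subgroup.mem_subgroupOf]
    constructor
    · intro h
      have h1 : f n ((1 : G) • a) = (1 : G) • a := congrArg (fun c : C => (c : Equiv.Perm α) ((1 : G) • a)) h
      rw [hf, one_mul, one_smul] at h1
      rw [hS, MulAction.mem_stabilizer_iff]
      exact (inv_smul_eq_iff.mp h1).symm
    · intro h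
      refine Subtype.ext (Equiv.ext fun z => ?_)
      rw [hS, MulAction.mem_stabilizer_iff] at h
      change (k z * (n : G)⁻¹) • a = z
      rw [mul_smul, inv_smul_eq_iff.mpr h.symm, hk]
  have hsurj : Function.Surjective ψ := by
    intro c
    obtain ⟨g, hg⟩ := MulAction.exists_smul_eq G a ((c : Equiv.Perm α) a)
    have hcomm : ∀ (h : G) (z : α), (c : Equiv.Perm α) (h • z) = h • (c : Equiv.Perm α) z := fun h z =>
      (congrArg (fun s : Equiv.Perm α => s z) (Subgroup.mem_centralizer_iff.mp c.2 h h.2)).symm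
    have hfix : ∀ s : G, s ∈ S ↔ g⁻¹ * s * g ∈ S := by
      intro s
      rw [hS, MulAction.mem_stabilizer_iff, MulAction.mem_stabilizer_iff, mul_smul, mul_smul, hg,
        inv_smul_eq_iff, hg, ← hcomm]
      exact ⟨fun e => by rw [e], fun e => (c : Equiv.Perm α).injective e⟩
    have hn : g⁻¹ ∈ N := by
      rw [hN, Subgroup.mem_normalizer_iff]
      intro s
      rw [inv_inv]
      exact hfix s
    refine ⟨⟨g⁻¹, hn⟩, Subtype.ext (Equiv.ext fun z => ?_)⟩
    change (k z * (g⁻¹)⁻¹) • a = (c : Equiv.Perm α) z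
    rw [inv_inv, mul_smul, hg, ← hcomm, hk]
  refine ⟨⟨((QuotientGroup.quotientMulEquivOfEq hker.symm).trans (QuotientGroup.quotientKerEquivOfSurjective ψ hsurj)).symm⟩, ?_⟩
  ext z
  rw [MulAction.mem_fixedPoints]
  constructor
  · rintro ⟨c, rfl⟩ s
    have e : (c : Equiv.Perm α) ((s : G) • a) = (s : G) • (c : Equiv.Perm α) a :=
      (congrArg (fun u : Equiv.Perm α => u a) (Subgroup.mem_centralizer_iff.mp c.2 (s : G) (s : G).2)).symm
    rw [(s.2 : (s : G) • a = a)] at e
    exact e.symm
  · intro hz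
    have hn : (k z)⁻¹ ∈ N := by
      have hsub : ∀ s ∈ S, (k z)⁻¹ * s * k z ∈ S := by
        intro s hs
        rw [hS, MulAction.mem_stabilizer_iff, mul_smul, mul_smul, hk, inv_smul_eq_iff, hk]
        exact hz ⟨s, hs⟩
      have e : S.map (MulAut.conj (k z)⁻¹).toMonoidHom = S := by
        refine Subgroup.eq_of_le_of_card_ge ?_ ?_
        · rintro _ ⟨s, hs, rfl⟩
          change (k z)⁻¹ * s * ((k z)⁻¹)⁻¹ ∈ S
          rw [inv_inv]; exact hsub s hs
        · exact le_of_eq (Nat.card_congr (S.equivMapOfInjective _ (MulAut.conj (k z)⁻¹).injective).toEquiv)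
      rw [hN, Subgroup.mem_normalizer_iff]
      intro s
      constructor
      · intro hs
        rw [inv_inv]; exact hsub s hs
      · intro hs
        rw [← e] at hs
        obtain ⟨u, hu, hue⟩ := hs
        rwa [← (MulAut.conj (k z)⁻¹).injective hue]
    refine ⟨ψ ⟨(k z)⁻¹, hn⟩, ?_⟩
    have h1 := hf ⟨(k z)⁻¹, hn⟩ 1
    rw [one_smul, one_mul] at h1
    change f ⟨(k z)⁻¹, hn⟩ a = z
    rw [h1]; simp [hk]

end Cfsg.Agent.S0702
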