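import Cfsg.Statements.S0703
import Mathlib
import Cfsg.Agent.Lib.PermGroup.TransitiveNormal

set_option autoImplicit false
open Cfsg Cfsg.Lib.PermGroup.TransitiveNormal

namespace Cfsg.Agent.S0703

/-- An abelian transitive minimal normal subgroup `M` of a permutation group on a finite set is self-centralising in the symmetric group, regular, elementary abelian, and is the unique minimal normal subgroup. -/
theorem result {α : Type*} [Finite α] (G : Subgroup (Equiv.Perm α)) (M : Subgroup G) [M.Normal] (hM : M ≠ ⊥) (hmin : ∀ L : Subgroup G, L.Normal → L ≤ M → L = ⊥ ∨ L = M) (hab : IsMulCommutative M) (htrans : MulAction.IsPretransitive M α) : Subgroup.centralizer ((M.map G.subtype : Subgroup (Equiv.Perm α)) : Set (Equiv.Perm α)) = M.map G.subtype ∧ (∀ a : α, MulAction.stabilizer M a = ⊥) ∧ (∃ p : ℕ, p.Prime ∧ ∀ m ∈ M, m ^ p = 1) ∧ ∀ L : Subgroup G, L.Normal → L ≠ ⊥ → (∀ L' : Subgroup G, L'.Normal → L' ≤ L → L' = ⊥ ∨ L' = L) → L = M := by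
  haveI := nonempty_of_ne_bot hM
  have hcomm : ∀ k ∈ M, ∀ n ∈ M, Commute k n := fun k hk n hn =>
    congrArg Subtype.val (hab.is_comm.comm ⟨k, hk⟩ ⟨n, hn⟩)
  obtain ⟨hc, hreg⟩ := centralizer_eq htrans htrans hcomm
  refine ⟨hc, hreg, ?_, fun L hLn hL hLmin => ?_⟩
  · haveI := Fintype.ofFinite α
    classical
    have hcard : Nat.card M ≠ 1 := fun h => hM (Subgroup.card_eq_one.1 h)
    obtain ⟨p, hp, hpd⟩ := Nat.exists_prime_and_dvd hcard
    haveI : Fact p.Prime := ⟨hp⟩
    let O : Subgroup G :=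
      { carrier := {x | x ∈ M ∧ x ^ p = 1}
        one_mem' := ⟨M.one_mem, one_pow _⟩
        mul_mem' := fun {x y} hx hy => ⟨M.mul_mem hx.1 hy.1, by
          rw [(hcomm x hx.1 y hy.1).mul_pow, hx.2, hy.2, one_mul]⟩
        inv_mem' := fun {x} hx => ⟨M.inv_mem hx.1, by rw [inv_pow, hx.2, inv_one]⟩ }
    have hO : O.Normal := ⟨fun x hx g => ⟨Subgroup.Normal.conj_mem inferInstance x hx.1 g, by
      rw [conj_pow, hx.2, mul_one, mul_inv_cancel]⟩⟩
    obtain ⟨x, hx⟩ := exists_prime_orderOf_dvd_card' p hpd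
    rcases hmin O hO (fun x hx => hx.1) with h | h
    · exfalso
      have hxp : (x : G) ^ p = 1 := by rw [← hx, ← Subgroup.orderOf_coe, pow_orderOf_eq_one]
      have h1 : (x : G) ∈ (⊥ : Subgroup G) := h ▸ (⟨x.2, hxp⟩ : (x : G) ∈ O)
      rw [show x = 1 from Subtype.ext (Subgroup.mem_bot.1 h1), orderOf_one] at hx
      exact hp.one_lt.ne hx
    · exact ⟨p, hp, fun m hm => ((h ▸ hm : m ∈ O)).2⟩
  · by_contra hne
    haveI := hLn
    rcases hmin L hLn (le_of_commute htrans htrans hcomm (commute_of_minimal hLmin hmin hne)) with h | h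
    · exact hL h
    · exact hne h

end Cfsg.Agent.S0703
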