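import Cfsg.Statements.S0704
import Mathlib
import Cfsg.Agent.Lib.PermGroup.TransitiveNormal

set_option autoImplicit false
open Cfsg Cfsg.Lib.PermGroup.TransitiveNormal

namespace Cfsg.Agent.S0704

/-- Two distinct transitive minimal normal subgroups `M`, `N` of a permutation group are regular, non-abelian, isomorphic, each other's centraliser in the symmetric group, and the only minimal normal subgroups. -/
theorem result {α : Type*} (G : Subgroup (Equiv.Perm α)) (M N : Subgroup G) [M.Normal] [N.Normal] (hM : M ≠ ⊥) (hN : N ≠ ⊥) (hMmin : ∀ L : Subgroup G, L.Normal → L ≤ M → L = ⊥ ∨ L = M) (hNmin : ∀ L : Subgroup G, L.Normal → L ≤ N → L = ⊥ ∨ L = N) (hMN : M ≠ N) (hMt : MulAction.IsPretransitive M α) (hNt : MulAction.IsPretransitive N α) : (∀ a : α, MulAction.stabilizer M a = ⊥) ∧ (∀ a : α, MulAction.stabilizer N a = ⊥) ∧ ¬ IsMulCommutative M ∧ Nonempty (M ≃* N) ∧ Subgroup.centralizer ((M.map G.subtype : Subgroup (Equiv.Perm α)) : Set (Equiv.Perm α)) = N.map G.subtype ∧ Subgroup.centralizer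 ((N.map G.subtype : Subgroup (Equiv.Perm α)) : Set (Equiv.Perm α)) = M.map G.subtype ∧ ∀ L : Subgroup G, L.Normal → L ≠ ⊥ → (∀ L' : Subgroup G, L'.Normal → L' ≤ L → L' = ⊥ ∨ L' = L) → L = M ∨ L = N := by
  haveI := nonempty_of_ne_bot hM
  have hMN' := commute_of_minimal hNmin hMmin (Ne.symm hMN)
  have hNM' : ∀ n ∈ N, ∀ m ∈ M, Commute n m := fun n hn m hm => (hMN' m hm n hn).symm
  obtain ⟨hcM, hregN⟩ := centralizer_eq hMt hNt hMN'
  obtain ⟨hcN, hregM⟩ := centralizer_eq hNt hMt hNM'
  refine ⟨hregM, hregN, fun hab => ?_, ?_, hcM, hcN, fun L hLn hL hLmin => ?_⟩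
  · have hle : M ≤ N := le_of_commute hMt hNt hMN' fun k hk l hl =>
      congrArg Subtype.val (hab.is_comm.comm ⟨k, hk⟩ ⟨l, hl⟩)
    rcases hNmin M inferInstance hle with h | h
    · exact hM h
    · exact hMN h
  · obtain ⟨a⟩ := ‹Nonempty α›
    choose θ hθ using fun m : M => hNt.exists_smul_eq a (m • a)
    have huN : ∀ n n' : N, n • a = n' • a → n = n' := fun n n' e => by
      have : n'⁻¹ * n ∈ MulAction.stabilizer N a := by
        rw [MulAction.mem_stabilizer_iff, mul_smul, e, inv_smul_smul]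
      rw [hregN, Subgroup.mem_bot] at this
      exact (inv_mul_eq_one.1 this).symm
    have huM : ∀ n n' : M, n • a = n' • a → n = n' := fun n n' e => by
      have : n'⁻¹ * n ∈ MulAction.stabilizer M a := by
        rw [MulAction.mem_stabilizer_iff, mul_smul, e, inv_smul_smul]
      rw [hregM, Subgroup.mem_bot] at this
      exact (inv_mul_eq_one.1 this).symm
    have hswap : ∀ (m : M) (n : N) (x : α), m • n • x = n • m • x := fun m n x => by
      change (m : G) • (n : G) • x = (n : G) • (m : G) • x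
      rw [← mul_smul, ← mul_smul, (hMN' m.1 m.2 n.1 n.2).eq]
    have hmul : ∀ m m', θ (m * m') = θ m' * θ m := fun m m' => huN _ _ (by
      rw [hθ, mul_smul, mul_smul, hθ m, ← hθ m', hswap])
    refine ⟨MulEquiv.ofBijective (MonoidHom.mk' (fun m => (θ m)⁻¹) fun m m' => by
      rw [hmul, mul_inv_rev]) ⟨fun m m' e => ?_, fun n => ?_⟩⟩
    · have e' : θ m = θ m' := inv_injective e
      exact huM _ _ (by rw [← hθ m, ← hθ m', e'])
    · obtain ⟨m, hm⟩ := hMt.exists_smul_eq a (n⁻¹ • a)
      refine ⟨m, inv_eq_iff_eq_inv.2 (huN _ _ ?_)⟩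
      rw [hθ, hm]
  · by_contra hne
    rw [not_or] at hne
    haveI := hLn
    rcases hNmin L hLn (le_of_commute hMt hNt hMN' (commute_of_minimal hLmin hMmin hne.1)) with h | h
    · exact hL h
    · exact hne.2 h

end Cfsg.Agent.S0704
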