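import Cfsg.Statements.S0705
import Cfsg.Agent.Lib.PermGroup.MultiTrans

set_option autoImplicit false
open scoped Pointwise
open Cfsg

namespace Cfsg.Agent.S0705

/-- A generously `k`-transitive permutation group (every `(k+1)`-subset has its full symmetric group induced by the setwise stabiliser) of degree greater than `k` is `k`-transitive, and for a `k`-subset the setwise and pointwise stabilisers have the same orbits outside it. -/
theorem result {α : Type*} [Fintype α] [DecidableEq α] (G : Subgroup (Equiv.Perm α)) {k : ℕ} (hk : k < Fintype.card α) (hgen : ∀ s : Finset α, s.card = k + 1 → ∀ σ : Equiv.Perm ↥s, ∃ g ∈ G, ∀ x : ↥s, g (x : α) = σ x) : MulAction.IsMultiplyPretransitive G α k ∧ ∀ s : Finset α, s.card = k → ∀ a b : α, a ∉ s → b ∉ s → (∃ g ∈ G, g • s = s ∧ g a = b) → ∃ g ∈ G, (∀ x ∈ s, g x = x) ∧ g a = b := by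
  refine ⟨Cfsg.Lib.MultiTrans.isMultiplyPretransitive_of_fixing k fun s hs a b ha hb => ?_, ?_⟩
  · by_cases hab : a = b
    · exact ⟨1, fun t _ => one_smul _ t, by rw [one_smul]; exact hab⟩
    obtain ⟨u, hu1, -, hu3⟩ := Finset.exists_subsuperset_card_eq
      (s := insert a (insert b s)) (t := Finset.univ) (n := k + 1) (Finset.subset_univ _)
      (by
        rw [Finset.card_insert_of_notMem (by simp [hab, ha]), Finset.card_insert_of_notMem hb]
        omega)
      (by rw [Finset.card_univ]; omega)
    have hau : a ∈ u := hu1 (by simp)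
    have hbu : b ∈ u := hu1 (by simp)
    obtain ⟨g, hg, hgx⟩ := hgen u hu3 (Equiv.swap ⟨a, hau⟩ ⟨b, hbu⟩)
    refine ⟨⟨g, hg⟩, fun t ht => ?_, ?_⟩
    · change g t = t
      rw [hgx ⟨t, hu1 (by simp [ht])⟩, Equiv.swap_apply_of_ne_of_ne]
      · intro e; have h : t = a := congrArg Subtype.val e; exact ha (h ▸ ht)
      · intro e; have h : t = b := congrArg Subtype.val e; exact hb (h ▸ ht)
    · change g a = b
      rw [hgx ⟨a, hau⟩, Equiv.swap_apply_left]
  · intro s hs a b ha hb hgg
    obtain ⟨g, hg, hgs, hgab⟩ := hgg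
    have hmem : ∀ x, x ∈ s ↔ g x ∈ s := fun x => by
      conv_rhs => rw [← hgs, show g x = g • x from rfl, Finset.smul_mem_smul_finset_iff]
    have hinv : ∀ x, x ∈ s → g⁻¹ x ∈ s := fun x hx => by
      rw [hmem, Equiv.Perm.inv_def, Equiv.apply_symm_apply]; exact hx
    let σ : Equiv.Perm ↥(insert a s : Finset α) :=
      { toFun := fun x => if hx : (x : α) = a then ⟨a, Finset.mem_insert_self a s⟩
          else ⟨g⁻¹ x, Finset.mem_insert_of_mem (hinv x ((Finset.mem_insert.mp x.2).resolve_left hx))⟩
        invFun := fun x => if hx : (x : α) = a then ⟨a, Finset.mem_insert_self a s⟩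
          else ⟨g x, Finset.mem_insert_of_mem ((hmem x).mp ((Finset.mem_insert.mp x.2).resolve_left hx))⟩
        left_inv := fun x => by
          by_cases hx : (x : α) = a
          · simp only [hx, dite_true]; exact Subtype.ext hx.symm
          · have : g⁻¹ (x : α) ≠ a := fun e => ha (e ▸ hinv x ((Finset.mem_insert.mp x.2).resolve_left hx))
            simp only [hx, dite_false, this]
            exact Subtype.ext (by simp)
        right_inv := fun x => by
          by_cases hx : (x : α) = a
          · simp only [hx, dite_true]; exact Subtype.ext hx.symm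
          · have : g (x : α) ≠ a := fun e => ha (e ▸ (hmem x).mp ((Finset.mem_insert.mp x.2).resolve_left hx))
            simp only [hx, dite_false, this]
            exact Subtype.ext (by simp) }
    obtain ⟨m, hm, hmx⟩ := hgen (insert a s) (by rw [Finset.card_insert_of_notMem ha, hs]) σ
    refine ⟨g * m, mul_mem hg hm, fun x hx => ?_, ?_⟩
    · rw [Equiv.Perm.mul_apply, hmx ⟨x, Finset.mem_insert_of_mem hx⟩]
      have : x ≠ a := fun e => ha (e ▸ hx)
      simp [σ, this]
    · rw [Equiv.Perm.mul_apply, hmx ⟨a, Finset.mem_insert_self a s⟩]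
      simp [σ, hgab]

end Cfsg.Agent.S0705
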