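import Cfsg.Statements.S0707
import Mathlib.Tactic.Group
import Mathlib.GroupTheory.Sylow


set_option autoImplicit false
open Cfsg

namespace Cfsg.Agent.S0707

/-- In a primitive permutation group, distinct points have distinct stabilisers unless the group is regular of prime degree. -/
theorem result {α : Type*} (G : Subgroup (Equiv.Perm α)) [MulAction.IsPreprimitive G α] (h : ¬ (Nat.card α).Prime ∨ ∃ a : α, MulAction.stabilizer G a ≠ ⊥) {a b : α} (hab : a ≠ b) : MulAction.stabilizer G a ≠ MulAction.stabilizer G b := by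
  intro heq
  haveI : Nontrivial α := ⟨⟨a, b, hab⟩⟩
  have hcoa := MulAction.IsPreprimitive.isCoatom_stabilizer_of_isPreprimitive (G := G) a
  -- an element moving a to b normalises the stabiliser, which is then normal
  obtain ⟨t, ht⟩ := MulAction.exists_smul_eq G a b
  have hts : t ∉ MulAction.stabilizer G a := by
    rw [MulAction.mem_stabilizer_iff, ht]; exact hab.symm
  have htn : t ∈ Subgroup.normalizer ((MulAction.stabilizer G a : Subgroup G) : Set G) := by
    rw [Subgroup.mem_normalizer_iff]
    intro h
    conv_rhs => rw [heq, MulAction.mem_stabilizer_iff, ← ht, smul_smul, mul_assoc, mul_assoc,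
      inv_mul_cancel, mul_one, mul_smul, smul_left_cancel_iff, ← MulAction.mem_stabilizer_iff]
  have hnt : Subgroup.normalizer ((MulAction.stabilizer G a : Subgroup G) : Set G) = ⊤ :=
    hcoa.2 _ (lt_of_le_of_ne Subgroup.le_normalizer (fun e => hts (e ▸ htn)))
  haveI hn : (MulAction.stabilizer G a).Normal := Subgroup.normalizer_eq_top_iff.mp hnt
  have hall : ∀ x : α, MulAction.stabilizer G x = ⊥ := by
    have hfix : ∀ h ∈ MulAction.stabilizer G a, h = 1 := by
      intro h hh
      refine Subtype.ext (Equiv.ext fun x => ?_)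
      obtain ⟨g, hg⟩ := MulAction.exists_smul_eq G a x
      have := hn.conj_mem h hh g⁻¹
      rw [inv_inv, MulAction.mem_stabilizer_iff, mul_smul, mul_smul, hg, inv_smul_eq_iff, hg] at this
      exact this
    intro x
    obtain ⟨g, hg⟩ := MulAction.exists_smul_eq G a x
    rw [eq_bot_iff]
    intro h hh
    rw [MulAction.mem_stabilizer_iff] at hh
    have : g⁻¹ * h * g ∈ MulAction.stabilizer G a := by
      rw [MulAction.mem_stabilizer_iff, mul_smul, mul_smul, hg, hh, inv_smul_eq_iff, hg]
    have e := hfix _ this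
    rw [Subgroup.mem_bot]
    calc h = g * (g⁻¹ * h * g) * g⁻¹ := by group
      _ = 1 := by rw [e]; group
  rcases h with hnp | ⟨c, hc⟩
  · apply hnp
    have hcard : Nat.card α = Nat.card G := by
      refine (Nat.card_eq_of_bijective (fun g : G => g • a) ⟨fun g h e => ?_, fun x => ?_⟩).symm
      · have : h⁻¹ * g ∈ MulAction.stabilizer G a := by
          rw [MulAction.mem_stabilizer_iff, mul_smul, inv_smul_eq_iff]; exact e
        rw [hall a, Subgroup.mem_bot] at this
        exact (inv_mul_eq_one.mp this).symm
      · exact MulAction.exists_smul_eq G a x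
    rw [hcard]
    rw [hall a] at hcoa
    have hgen : ∀ g : G, g ≠ 1 → Subgroup.zpowers g = ⊤ := fun g hg => hcoa.2 _
      (lt_of_le_of_ne bot_le (Ne.symm (by simpa using hg)))
    have ht1 : t ≠ 1 := fun e => hts (e ▸ one_mem _)
    have hfin : IsOfFinOrder t := by
      by_contra hinf
      have h2 : t ^ 2 ≠ 1 := fun e => hinf (isOfFinOrder_iff_pow_eq_one.mpr ⟨2, two_pos, e⟩)
      have hmem : t ∈ Subgroup.zpowers (t ^ 2) := (hgen _ h2).ge (Subgroup.mem_top t)
      obtain ⟨k, hk⟩ := hmem
      have : t ^ (2 * k) = t ^ (1 : ℤ) := by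
        rw [zpow_one, zpow_mul]; exact_mod_cast hk
      have := (injective_zpow_iff_not_isOfFinOrder.mpr hinf) this
      omega
    have hord : orderOf t = Nat.card G := by
      rw [← Nat.card_zpowers, hgen t ht1, Subgroup.card_top]
    rw [← hord]
    refine Nat.prime_def_lt.mpr ⟨?_, fun m hm hmd => ?_⟩
    · rcases Nat.lt_or_ge (orderOf t) 2 with h2 | h2
      · exact absurd (orderOf_eq_one_iff.mp (by
          have := hfin.orderOf_pos; omega)) ht1
      · exact h2
    · by_contra hm1
      have hmpos : 0 < m := Nat.pos_of_dvd_of_pos hmd hfin.orderOf_pos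
      have hne : t ^ m ≠ 1 := fun e => by
        have := Nat.le_of_dvd hmpos (orderOf_dvd_of_pow_eq_one e); omega
      have hm2 : orderOf (t ^ m) = orderOf t := by
        rw [← Nat.card_zpowers, hgen _ hne, Subgroup.card_top, hord]
      rw [orderOf_pow_of_dvd hmpos.ne' hmd] at hm2
      exact absurd hm2 (Nat.div_lt_self hfin.orderOf_pos (by omega)).ne
  · exact hc (hall c)

end Cfsg.Agent.S0707
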