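import Cfsg.Statements.S0709
-- import your own Cfsg.Agent.* helpers here

set_option autoImplicit false
open Cfsg

namespace Cfsg.Agent.S0709

/-- Witt's Lemma for constructing transitive extensions. Points `q 1, …, q t` (`t ≥ 2`) of a finite set are given; `G` fixes `q i` for `i ≥ 3` and is doubly transitive on the remaining points; `s 1 ∈ G` swaps `q 1, q 2`; for `2 ≤ i ≤ t-1`, `s i` swaps `q i, q (i+1)` and fixes the other `q j`; with `H` the stabiliser of `q 1, q 2` in `G`: `s i ^ 2 ∈ H`, `(s i * s (i+1)) ^ 3 ∈ H`, `(s i * s j) ^ 2 ∈ H` for `j ≥ i + 2`, and `s i` (`i ≥ 2`) normalises the stabiliser of `q 2` in `G`. Then `G` and the `s i` generate a `t`-transitive group whose pointwise stabiliser of the `q`'s is `H`. -/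
theorem result {α : Type*} [Fintype α] [DecidableEq α] (t : ℕ) (ht : 2 ≤ t) (q : ℕ → α) (hq : ∀ i j : ℕ, 1 ≤ i → i ≤ t → 1 ≤ j → j ≤ t → q i = q j → i = j) (G : Subgroup (Equiv.Perm α)) (hfix : ∀ g ∈ G, ∀ i : ℕ, 3 ≤ i → i ≤ t → g (q i) = q i) (h2 : ∀ a b c d : α, (∀ i, 3 ≤ i → i ≤ t → a ≠ q i ∧ b ≠ q i ∧ c ≠ q i ∧ d ≠ q i) → a ≠ b → c ≠ d → ∃ g ∈ G, g a = c ∧ g b = d) (s : ℕ → Equiv.Perm α) (hs1 : s 1 ∈ G) (hs1q : s 1 (q 1) = q 2 ∧ s 1 (q 2) = q 1) (hsq : ∀ i : ℕ, 2 ≤ i → i + 1 ≤ t → s i (q i) = q (i + 1) ∧ s i (q (i + 1)) = q i ∧ ∀ j : ℕ, 1 ≤ j → j ≤ t → j ≠ i → j ≠ i + 1 → s i (q j) = q j) (H : Subgroup (Equiv.Perm α)) (hH : H = G ⊓ MulAction.stabilizer (Equiv.Perm α) (q 1) ⊓ MulAction.stabilizer (Equiv.Perm α) (q 2)) (hsq2 : ∀ i : ℕ, 1 ≤ i → i + 1 ≤ t → s i ^ 2 ∈ H) (hbraid : ∀ i : ℕ, 1 ≤ i → i + 2 ≤ t → (s i * s (i + 1)) ^ 3 ∈ H) (hcomm : ∀ i j : ℕ, 1 ≤ i → i + 2 ≤ j → j + 1 ≤ t → (s i * s j) ^ 2 ∈ H ∧ (s j * s i) ^ 2 ∈ H) (hnorm : ∀ i : ℕ, 2 ≤ i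 → i + 1 ≤ t → ∀ g ∈ G ⊓ MulAction.stabilizer (Equiv.Perm α) (q 2), s i * g * (s i)⁻¹ ∈ G ⊓ MulAction.stabilizer (Equiv.Perm α) (q 2)) : MulAction.IsMultiplyPretransitive ↥(Subgroup.closure ((G : Set (Equiv.Perm α)) ∪ {x | ∃ i : ℕ, 2 ≤ i ∧ i + 1 ≤ t ∧ x = s i})) α t ∧ Subgroup.closure ((G : Set (Equiv.Perm α)) ∪ {x | ∃ i : ℕ, 2 ≤ i ∧ i + 1 ≤ t ∧ x = s i}) ⊓ fixingSubgroup (Equiv.Perm α) {x | ∃ i : ℕ, 1 ≤ i ∧ i ≤ t ∧ x = q i} = H := by
  classical
  obtain ⟨P, hP⟩ : ∃ P : Subgroup (Equiv.Perm α),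
      P = G ⊓ MulAction.stabilizer (Equiv.Perm α) (q 2) := ⟨_, rfl⟩
  rw [← hP] at hnorm
  have memP : ∀ g, g ∈ P ↔ g ∈ G ∧ g (q 2) = q 2 := fun g => by
    simp [hP, MulAction.mem_stabilizer_iff]
  have memH : ∀ g, g ∈ H ↔ g ∈ G ∧ g (q 1) = q 1 ∧ g (q 2) = q 2 := fun g => by
    simp [hH, MulAction.mem_stabilizer_iff, and_assoc]
  obtain ⟨M, M0, Msucc⟩ : ∃ M : ℕ → Subgroup (Equiv.Perm α), M 0 = P ∧
      ∀ k, M (k + 1) = Subgroup.closure ((M k : Set (Equiv.Perm α)) ∪ {s (k + 1)}) :=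
    ⟨Nat.rec P (fun k A => Subgroup.closure ((A : Set (Equiv.Perm α)) ∪ {s (k + 1)})), rfl, fun _ => rfl⟩
  have Mle : ∀ k, M k ≤ M (k + 1) := fun k x hx => by
    rw [Msucc]; exact Subgroup.subset_closure (Or.inl hx)
  have Mmono : ∀ i k, i ≤ k → M i ≤ M k := fun i k h => monotone_nat_of_le_succ Mle h
  have smem : ∀ i k, 1 ≤ i → i ≤ k → s i ∈ M k := fun i k h1 h => by
    obtain ⟨j, rfl⟩ : ∃ j, i = j + 1 := ⟨i - 1, by omega⟩
    exact Mmono _ k h (by rw [Msucc]; exact Subgroup.subset_closure (Or.inr rfl))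
  have HM : ∀ k, H ≤ M k := fun k x hx => Mmono 0 k (Nat.zero_le k) (by
    rw [M0, memP]; exact ⟨((memH x).1 hx).1, ((memH x).1 hx).2.2⟩)
  have qne : ∀ i j, 1 ≤ i → i ≤ t → 1 ≤ j → j ≤ t → i ≠ j → q i ≠ q j :=
    fun i j a b c d e f => e (hq i j a b c d f)
  -- move a point to `q 1` inside `P`
  have Pmove : ∀ x, (∀ i, 2 ≤ i → i ≤ t → x ≠ q i) → ∃ p ∈ P, p x = q 1 := by
    intro x hx
    obtain ⟨g, hg, g1, g2⟩ := h2 x (q 2) (q 1) (q 2) (fun i a b => ⟨hx i (by omega) b,
      qne 2 i (by omega) ht (by omega) b (by omega), qne 1 i le_rfl (by omega) (by omega) b (by omega),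
      qne 2 i (by omega) ht (by omega) b (by omega)⟩) (hx 2 le_rfl ht)
      (qne 1 2 le_rfl (by omega) (by omega) ht (by omega))
    exact ⟨g, (memP g).2 ⟨hg, g2⟩, g1⟩
  -- the first step
  have hG1 : ∀ g ∈ G, g ∈ P ∨ ∃ a ∈ P, ∃ b ∈ P, g = a * s 1 * b := by
    intro g hg
    by_cases h : g (q 2) = q 2
    · exact Or.inl ((memP g).2 ⟨hg, h⟩)
    · obtain ⟨p, hp, hpx⟩ := Pmove (g (q 2)) (fun i a b e => by
        rcases eq_or_lt_of_le a with r | r
        · exact h (r ▸ e)
        · have := g.injective (e.trans (hfix g hg i r b).symm)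
          exact qne 2 i (by omega) ht (by omega) b (by omega) this)
      refine Or.inr ⟨p⁻¹, P.inv_mem hp, (s 1)⁻¹ * (p * g), (memP _).2 ⟨?_, ?_⟩, by group⟩
      · exact G.mul_mem (G.inv_mem hs1) (G.mul_mem ((memP p).1 hp).1 hg)
      · show (s 1).symm (p (g (q 2))) = q 2
        rw [hpx, Equiv.symm_apply_eq, hs1q.2]
  have M1 : M 1 = G := by
    rw [Msucc, M0]
    refine le_antisymm ((Subgroup.closure_le _).2 ?_) fun g hg => ?_
    · rintro x (hx | rfl)
      · exact ((memP x).1 hx).1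
      · exact hs1
    · have hs : s 1 ∈ Subgroup.closure ((P : Set (Equiv.Perm α)) ∪ {s (0 + 1)}) :=
        Subgroup.subset_closure (Or.inr rfl)
      have hP' : ∀ x ∈ P, x ∈ Subgroup.closure ((P : Set (Equiv.Perm α)) ∪ {s (0 + 1)}) :=
        fun x hx => Subgroup.subset_closure (Or.inl hx)
      rcases hG1 g hg with h | ⟨a, ha, b, hb, rfl⟩
      · exact hP' g h
      · exact mul_mem (mul_mem (hP' a ha) hs) (hP' b hb)
  -- conjugation by `s k` fixes `M (k - 2)`
  have hconj : ∀ k, 2 ≤ k → k + 1 ≤ t → ∀ i, i + 2 ≤ k → ∀ g ∈ M i, s k * g * (s k)⁻¹ ∈ M i := by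
    intro k hk hkt i
    induction i with
    | zero => intro _ g hg; rw [M0] at hg ⊢; exact hnorm k hk hkt g hg
    | succ i ih =>
      intro hik g hg
      rw [Msucc] at hg
      induction hg using Subgroup.closure_induction with
      | mem x hx =>
        rcases hx with hx | hx
        · exact Mle i (ih (by omega) x hx)
        · obtain rfl : x = s (i + 1) := hx
          have h := (hcomm (i + 1) k (by omega) (by omega) hkt).1
          have e : s k * s (i + 1) * (s k)⁻¹ =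
              (s (i + 1))⁻¹ * (s (i + 1) * s k) ^ 2 * (s k ^ 2)⁻¹ := by simp only [pow_succ, pow_zero, one_mul]; group
          rw [e]
          exact mul_mem (mul_mem (inv_mem (smem _ _ (by omega) le_rfl)) (HM _ h))
            (inv_mem (HM _ (hsq2 k (by omega) hkt)))
      | one => simp
      | mul x y _ _ hx hy =>
        have e : s k * (x * y) * (s k)⁻¹ = s k * x * (s k)⁻¹ * (s k * y * (s k)⁻¹) := by group
        rw [e]; exact mul_mem hx hy
      | inv x _ hx =>
        have e : s k * x⁻¹ * (s k)⁻¹ = (s k * x * (s k)⁻¹)⁻¹ := by group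
        rw [e]; exact inv_mem hx
  -- the double coset decomposition
  have hA : ∀ k, k + 2 ≤ t → ∀ g ∈ M (k + 1),
      g ∈ M k ∨ ∃ a ∈ M k, ∃ b ∈ M k, g = a * s (k + 1) * b := by
    intro k
    induction k with
    | zero =>
      intro _ g hg
      rw [M1] at hg
      rw [M0]
      exact hG1 g hg
    | succ k ih =>
      intro hkt
      let S : Set (Equiv.Perm α) := {g | g ∈ M (k + 1) ∨ ∃ a ∈ M (k + 1), ∃ b ∈ M (k + 1), g = a * s (k + 2) * b}
      have sandwich : ∀ a ∈ M (k + 1), ∀ b ∈ M (k + 1), ∀ g, g ∈ S → a * g * b ∈ S := by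
        rintro a ha b hb g (hg | ⟨c, hc, d, hd, rfl⟩)
        · exact Or.inl (mul_mem (mul_mem ha hg) hb)
        · exact Or.inr ⟨a * c, mul_mem ha hc, d * b, mul_mem hd hb, by group⟩
      have hsq' := HM (k + 1) (hsq2 (k + 2) (by omega) (by omega))
      have turn : ∀ x ∈ M (k + 1), s (k + 2) * x * s (k + 2) ∈ S := by
        intro x hx
        have e : s (k + 2) * x * s (k + 2) = 1 * (s (k + 2) * x * (s (k + 2))⁻¹) * s (k + 2) ^ 2 := by group
        rw [e]
        refine sandwich _ (one_mem _) _ hsq' _ ?_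
        rcases ih (by omega) x hx with hx | ⟨a, ha, b, hb, rfl⟩
        · exact Or.inl (Mle k (hconj (k + 2) (by omega) (by omega) k le_rfl x hx))
        · have e : s (k + 2) * (a * s (k + 1) * b) * (s (k + 2))⁻¹ = (s (k + 2) * a * (s (k + 2))⁻¹) *
              (s (k + 2) * s (k + 1) * (s (k + 2))⁻¹) * (s (k + 2) * b * (s (k + 2))⁻¹) := by group
          rw [e]
          refine sandwich _ (Mle k (hconj (k + 2) (by omega) (by omega) k le_rfl a ha)) _
            (Mle k (hconj (k + 2) (by omega) (by omega) k le_rfl b hb)) _ (Or.inr ?_)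
          have e2 : s (k + 2) * s (k + 1) * (s (k + 2))⁻¹ =
              ((s (k + 1))⁻¹ * (s (k + 1) * s (k + 2)) ^ 3) * s (k + 2) *
                ((s (k + 2) ^ 2)⁻¹ * (s (k + 1))⁻¹ * (s (k + 2) ^ 2)⁻¹) := by simp only [pow_succ, pow_zero, one_mul]; group
          have hu : (s (k + 1))⁻¹ ∈ M (k + 1) := inv_mem (smem _ _ (by omega) le_rfl)
          exact ⟨_, mul_mem hu (HM _ (hbraid (k + 1) (by omega) (by omega))), _,
            mul_mem (mul_mem (inv_mem hsq') hu) (inv_mem hsq'), e2⟩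
      intro g hg
      suffices g ∈ S from this
      rw [Msucc] at hg
      induction hg using Subgroup.closure_induction with
      | mem x hx =>
        rcases hx with hx | hx
        · exact Or.inl hx
        · exact Or.inr ⟨1, one_mem _, 1, one_mem _, by simp [Set.mem_singleton_iff.1 hx]⟩
      | one => exact Or.inl (one_mem _)
      | mul x y _ _ hx hy =>
        rcases hx with hx | ⟨a, ha, b, hb, rfl⟩
        · simpa using sandwich x hx 1 (one_mem _) y hy
        · rcases hy with hy | ⟨c, hc, d, hd, rfl⟩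
          · exact Or.inr ⟨a, ha, b * y, mul_mem hb hy, by group⟩
          · have e : a * s (k + 2) * b * (c * s (k + 2) * d) = a * (s (k + 2) * (b * c) * s (k + 2)) * d := by
              group
            rw [e]; exact sandwich a ha d hd _ (turn _ (mul_mem hb hc))
      | inv x _ hx =>
        rcases hx with hx | ⟨a, ha, b, hb, rfl⟩
        · exact Or.inl (inv_mem hx)
        · exact Or.inr ⟨b⁻¹ * (s (k + 2) ^ 2)⁻¹, mul_mem (inv_mem hb) (inv_mem hsq'), a⁻¹, inv_mem ha,
            by group⟩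
  -- fixed points
  have hfixM : ∀ k, k + 1 ≤ t → ∀ g ∈ M k, ∀ j, k + 2 ≤ j → j ≤ t → g (q j) = q j := by
    intro k
    induction k with
    | zero =>
      intro _ g hg j hj hjt
      rw [M0] at hg
      obtain ⟨hgG, hg2⟩ := (memP g).1 hg
      rcases eq_or_lt_of_le hj with r | r
      · subst r; exact hg2
      · exact hfix g hgG j r hjt
    | succ k ih =>
      intro hkt g hg j hj hjt
      rcases eq_or_ne k 0 with rfl | hk
      · rw [M1] at hg; exact hfix g hg j hj hjt
      · rcases hA k (by omega) g hg with h | ⟨a, ha, b, hb, rfl⟩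
        · exact ih (by omega) g h j (by omega) hjt
        · show a (s (k + 1) (b (q j))) = q j
          rw [ih (by omega) b hb j (by omega) hjt,
            (hsq (k + 1) (by omega) (by omega)).2.2 j (by omega) hjt (by omega) (by omega),
            ih (by omega) a ha j (by omega) hjt]
  have hswap : ∀ i, 1 ≤ i → i + 1 ≤ t → s i (q i) = q (i + 1) ∧ s i (q (i + 1)) = q i := by
    intro i hi hit
    rcases eq_or_lt_of_le hi with r | r
    · subst r; exact hs1q
    · exact ⟨(hsq i r hit).1, (hsq i r hit).2.1⟩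
  have hstab : ∀ k, k + 2 ≤ t → ∀ g ∈ M (k + 1), g (q (k + 2)) = q (k + 2) → g ∈ M k := by
    intro k hkt g hg he
    rcases hA k hkt g hg with h | ⟨a, ha, b, hb, rfl⟩
    · exact h
    · exfalso
      have he' : a (s (k + 1) (b (q (k + 2)))) = q (k + 2) := he
      rw [hfixM k (by omega) b hb (k + 2) le_rfl hkt, (hswap (k + 1) (by omega) (by omega)).2] at he'
      have := a.injective (he'.trans (hfixM k (by omega) a ha (k + 2) le_rfl hkt).symm)
      exact qne (k + 1) (k + 2) (by omega) (by omega) (by omega) hkt (by omega) this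
  -- transitivity
  have hmove : ∀ k, k + 1 ≤ t → ∀ x, (∀ j, k + 2 ≤ j → j ≤ t → x ≠ q j) → ∃ g ∈ M k, g x = q (k + 1) := by
    intro k
    induction k with
    | zero =>
      intro _ x hx
      rw [M0]
      exact Pmove x hx
    | succ k ih =>
      intro hkt x hx
      by_cases hxe : x = q (k + 2)
      · exact ⟨1, one_mem _, hxe⟩
      · obtain ⟨g, hg, hgx⟩ := ih (by omega) x (fun j a b => by
          rcases eq_or_lt_of_le a with r | r
          · subst r; exact hxe
          · exact hx j r b)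
        refine ⟨s (k + 1) * g, mul_mem (smem _ _ (by omega) le_rfl) (Mle k hg), ?_⟩
        show s (k + 1) (g x) = _
        rw [hgx, (hswap (k + 1) (by omega) (by omega)).1]
  have htuple : ∀ k, k + 1 ≤ t → ∀ x : ℕ → α,
      (∀ i j, 1 ≤ i → i ≤ k + 1 → 1 ≤ j → j ≤ k + 1 → x i = x j → i = j) →
      (∀ i j, 1 ≤ i → i ≤ k + 1 → k + 2 ≤ j → j ≤ t → x i ≠ q j) →
      ∃ g ∈ M k, ∀ i, 1 ≤ i → i ≤ k + 1 → g (x i) = q i := by
    intro k
    induction k with
    | zero =>
      intro _ x _ hx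
      obtain ⟨g, hg, hgx⟩ := hmove 0 (by omega) (x 1) (hx 1 · le_rfl le_rfl)
      exact ⟨g, hg, fun i a b => by obtain rfl : i = 1 := by omega
                                    exact hgx⟩
    | succ k ih =>
      intro hkt x hinj hx
      obtain ⟨g, hg, hgx⟩ := hmove (k + 1) hkt (x (k + 2)) (hx (k + 2) · (by omega) le_rfl)
      obtain ⟨h, hh, hhx⟩ := ih (by omega) (fun i => g (x i))
        (fun i j a b c d e => hinj i j a (by omega) c (by omega) (g.injective e))
        (fun i j a b c d e => by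
          rcases eq_or_lt_of_le c with r | r
          · subst r
            have := hinj i (k + 2) a (by omega) (by omega) le_rfl (g.injective (e.trans hgx.symm))
            omega
          · exact hx i j a (by omega) r d (g.injective (e.trans (hfixM (k + 1) hkt g hg j r d).symm)))
      refine ⟨h * g, mul_mem (Mle k hh) hg, fun i a b => ?_⟩
      show h (g (x i)) = q i
      rcases eq_or_lt_of_le b with r | r
      · subst r
        rw [hgx, hfixM k (by omega) h hh (k + 1 + 1) le_rfl (by omega)]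
      · exact hhx i a (by omega)
  have hpt : ∀ k, k + 1 ≤ t → ∀ g ∈ M k, (∀ i, 1 ≤ i → i ≤ k + 1 → g (q i) = q i) → g ∈ H := by
    intro k
    induction k with
    | zero => intro _ g hg h; rw [M0] at hg; exact (memH g).2 ⟨((memP g).1 hg).1, h 1 le_rfl le_rfl, ((memP g).1 hg).2⟩
    | succ k ih =>
      intro hkt g hg h
      exact ih (by omega) g (hstab k hkt g hg (h (k + 2) (by omega) le_rfl)) fun i a b => h i a (by omega)
  -- identify the generated group
  have hK : Subgroup.closure ((G : Set (Equiv.Perm α)) ∪ {x | ∃ i : ℕ, 2 ≤ i ∧ i + 1 ≤ t ∧ x = s i}) =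
      M (t - 1) := by
    apply le_antisymm
    · rw [Subgroup.closure_le]
      rintro x (hx | ⟨i, hi, hit, rfl⟩)
      · exact Mmono 1 _ (by omega) (M1.symm ▸ hx)
      · exact smem i _ (by omega) (by omega)
    · suffices ∀ k, k + 1 ≤ t →
          M k ≤ Subgroup.closure ((G : Set (Equiv.Perm α)) ∪ {x | ∃ i : ℕ, 2 ≤ i ∧ i + 1 ≤ t ∧ x = s i}) from
        this (t - 1) (by omega)
      intro k
      induction k with
      | zero => intro _ g hg; rw [M0] at hg; exact Subgroup.subset_closure (Or.inl ((memP g).1 hg).1)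
      | succ k ih =>
        intro hkt
        rw [Msucc, Subgroup.closure_le]
        rintro x (hx | hx)
        · exact ih (by omega) hx
        · obtain rfl : x = s (k + 1) := hx
          rcases eq_or_ne k 0 with rfl | hk
          · exact Subgroup.subset_closure (Or.inl hs1)
          · exact Subgroup.subset_closure (Or.inr ⟨k + 1, by omega, hkt, rfl⟩)
  have htt : t - 1 + 1 = t := by omega
  rw [hK]
  refine ⟨⟨fun x y => ?_⟩, le_antisymm ?_ ?_⟩
  · let ext : (Fin t ↪ α) → ℕ → α := fun z i => z ⟨(i - 1) % t, Nat.mod_lt _ (by omega)⟩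
    have hz : ∀ z : Fin t ↪ α, ∃ g ∈ M (t - 1), ∀ i : Fin t, g (z i) = q (i.val + 1) := by
      intro z
      obtain ⟨g, hg, hgz⟩ := htuple (t - 1) (by omega) (ext z)
        (fun i j a b c d e => by
          have := congrArg Fin.val (z.injective e)
          simp only [Nat.mod_eq_of_lt (show i - 1 < t by omega), Nat.mod_eq_of_lt (show j - 1 < t by omega)] at this
          omega)
        (fun i j _ _ c d => absurd c (by omega))
      refine ⟨g, hg, fun i => ?_⟩
      have := hgz (i.val + 1) (by omega) (by omega)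
      simpa [ext, Nat.mod_eq_of_lt i.isLt] using this
    obtain ⟨g, hg, hgx⟩ := hz x
    obtain ⟨h, hh, hhy⟩ := hz y
    refine ⟨⟨h⁻¹ * g, mul_mem (inv_mem hh) hg⟩, ?_⟩
    ext i
    show h.symm (g (x i)) = y i
    rw [hgx, Equiv.symm_apply_eq, hhy]
  · rintro g ⟨hg, hgf⟩
    refine hpt (t - 1) (by omega) g hg fun i a b => ?_
    exact (mem_fixingSubgroup_iff _).1 hgf (q i) ⟨i, a, by omega, rfl⟩
  · intro g hg
    refine ⟨HM _ hg, (mem_fixingSubgroup_iff _).2 ?_⟩
    rintro x ⟨i, a, b, rfl⟩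
    obtain ⟨hgG, g1, g2⟩ := (memH g).1 hg
    show g (q i) = q i
    rcases (show i = 1 ∨ i = 2 ∨ 3 ≤ i by omega) with r | r | r
    · subst r; exact g1
    · subst r; exact g2
    · exact hfix g hgG i r b

end Cfsg.Agent.S0709
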