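import Cfsg.Statements.S0710
import Mathlib
import Cfsg.Agent.Lib.PermGroup.TwinDegree

set_option autoImplicit false
open Cfsg

namespace Cfsg.Agent.S0710

/-- No transitive permutation group on 13 points has order `13 * 12 * 11 * 10 * 9 * 8`. -/
theorem result {α : Type*} [Fintype α] [DecidableEq α] (hα : Fintype.card α = 13) (G : Subgroup (Equiv.Perm α)) [MulAction.IsPretransitive G α] : Nat.card G ≠ 13 * 12 * 11 * 10 * 9 * 8 := by
  classical
  intro hG
  haveI : Nonempty α := Fintype.card_pos_iff.mp (by rw [hα]; norm_num)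
  haveI : Fact (Nat.Prime 11) := ⟨by norm_num⟩
  haveI : Fact (Nat.Prime 13) := ⟨by norm_num⟩
  set A : Subgroup (Equiv.Perm α) := G ⊓ alternatingGroup α
  haveI : Nontrivial α := Fintype.one_lt_card_iff_nontrivial.mp (by rw [hα]; norm_num)
  have hrel : (alternatingGroup α).relIndex G ∣ 2 := by
    have h := Subgroup.relIndex_dvd_index_of_normal (alternatingGroup α) G
    rwa [alternatingGroup.index_eq_two] at h
  have hAcard : Nat.card A * (alternatingGroup α).relIndex G = Nat.card G := by
    rw [← Nat.card_congr (Subgroup.subgroupOfEquivOfLe (inf_le_left : A ≤ G)).toEquiv,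
      Subgroup.inf_subgroupOf_left]
    exact (((alternatingGroup α).subgroupOf G).card_mul_index)
  have hd : ∀ q : ℕ, q.Prime → q ∣ Nat.card G → q ≠ 2 → q ∣ Nat.card A := by
    intro q hq h hq2
    rw [← hAcard] at h
    refine (hq.dvd_mul.mp h).resolve_right fun h' => hq2 ?_
    exact (Nat.prime_dvd_prime_iff_eq hq Nat.prime_two).mp (h'.trans hrel)
  obtain ⟨x, hx⟩ := exists_prime_orderOf_dvd_card' (G := A) 11 (hd 11 (by norm_num) (by rw [hG]; norm_num) (by norm_num))
  obtain ⟨y, hy⟩ := exists_prime_orderOf_dvd_card' (G := A) 13 (hd 13 (by norm_num) (by rw [hG]; norm_num) (by norm_num))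
  rw [← Subgroup.orderOf_coe] at hx hy
  have hcyc : ∀ (g : Equiv.Perm α) (q : ℕ), q.Prime → 13 < 2 * q → orderOf g = q → g.IsCycle ∧ g.support.card = q := by
    intro g q hq hlt hg
    have h1 : g.IsCycle := Equiv.Perm.isCycle_of_prime_order (hg ▸ hq) (by
      have := Finset.card_le_univ g.support
      rw [hα] at this
      omega)
    exact ⟨h1, by rw [← h1.orderOf, hg]⟩
  obtain ⟨hxc, hxs⟩ := hcyc _ 11 (by norm_num) (by norm_num) hx
  obtain ⟨hyc, hys⟩ := hcyc _ 13 (by norm_num) (by norm_num) hy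
  have htr : MulAction.IsPretransitive A α := by
    refine ⟨fun u v => ?_⟩
    have hu : (y : Equiv.Perm α).support = Finset.univ := Finset.eq_univ_of_card _ (by rw [hys, hα])
    obtain ⟨i, hi⟩ := hyc.exists_pow_eq (Equiv.Perm.mem_support.mp (hu ▸ Finset.mem_univ u))
      (Equiv.Perm.mem_support.mp (hu ▸ Finset.mem_univ v))
    exact ⟨y ^ i, hi⟩
  haveI := htr
  have hprim : MulAction.IsPreprimitive A α :=
    MulAction.IsPreprimitive.of_prime_card (by rw [Nat.card_eq_fintype_card, hα]; norm_num)
  have hle := Cfsg.Lib.PermGroup.le_of_thirteen hprim hα inf_le_right hxc hxs x.2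
  have h1 := Nat.le_of_dvd Nat.card_pos (Subgroup.card_dvd_of_le hle)
  have h2 := two_mul_card_alternatingGroup (α := α)
  rw [Fintype.card_perm, hα] at h2
  have h3 : Nat.card A ≤ Nat.card G := Nat.le_of_dvd Nat.card_pos (Subgroup.card_dvd_of_le inf_le_left)
  rw [hG] at h3
  rw [Nat.card_eq_fintype_card (α := alternatingGroup α)] at h1
  have h4 : (13 : ℕ).factorial = 6227020800 := by decide
  rw [h4] at h2
  omega

end Cfsg.Agent.S0710
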