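import Cfsg.Statements.S0711
import Mathlib

set_option autoImplicit false
open Cfsg

namespace Cfsg.Agent.S0711

/-- A `k`-transitive permutation group (`k ≥ 3`) with a non-identity element of support smaller than `2k - 2` contains a non-identity element of support at most 3, and therefore contains the alternating group. -/
theorem result {α : Type*} [Fintype α] [DecidableEq α] (G : Subgroup (Equiv.Perm α)) {k : ℕ} (hk : 3 ≤ k) (hkn : k ≤ Fintype.card α) (hG : MulAction.IsMultiplyPretransitive G α k) (g : Equiv.Perm α) (hg : g ∈ G) (hg1 : g ≠ 1) (hsupp : g.support.card < 2 * k - 2) : (∃ h : Equiv.Perm α, h ∈ G ∧ h ≠ 1 ∧ h.support.card ≤ 3) ∧ alternatingGroup α ≤ G := by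
  classical
  have hia : ∀ (f : Equiv.Perm α) x, f⁻¹ (f x) = x := fun f x => f.symm_apply_apply x
  have hai : ∀ (f : Equiv.Perm α) x, f (f⁻¹ x) = x := fun f x => f.apply_symm_apply x
  have hkn' : k ≤ Nat.card α := by rw [Nat.card_eq_fintype_card]; exact hkn
  -- prescribe an element of `G` on at most `k` points
  have hpres : ∀ (F : Finset α) (φ : α → α), F.card ≤ k → Set.InjOn φ F →
      ∃ h : Equiv.Perm α, h ∈ G ∧ ∀ x ∈ F, h x = φ x := by
    intro F φ hF hinj
    haveI := hG
    haveI : MulAction.IsMultiplyPretransitive G α F.card :=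
      MulAction.isMultiplyPretransitive_of_le (n := k) hF hkn'
    let u : Fin F.card ↪ α := F.equivFin.symm.toEmbedding.trans (Function.Embedding.subtype _)
    let v : Fin F.card ↪ α := ⟨fun i => φ (F.equivFin.symm i), fun i j e =>
      F.equivFin.symm.injective (Subtype.ext (hinj (F.equivFin.symm i).2 (F.equivFin.symm j).2 e))⟩
    obtain ⟨h, hh⟩ := MulAction.exists_smul_eq G u v
    refine ⟨h, h.2, fun x hx => ?_⟩
    have := congrArg (fun e : Fin F.card ↪ α => e (F.equivFin ⟨x, hx⟩)) hh
    simp only [u, Function.Embedding.smul_apply, Function.Embedding.trans_apply,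
      Equiv.toEmbedding_apply, Equiv.symm_apply_apply, Function.Embedding.subtype_apply] at this
    refine this.trans ?_
    change φ (F.equivFin.symm (F.equivFin ⟨x, hx⟩) : α) = φ x
    rw [Equiv.symm_apply_apply]
  -- a minimal element
  have hex : ∃ s, ∃ x ∈ G, x ≠ 1 ∧ x.support.card = s := ⟨_, g, hg, hg1, rfl⟩
  set m := Nat.find hex with hm
  obtain ⟨g₀, hg₀, hg₀1, hg₀m⟩ := Nat.find_spec hex
  rw [← hm] at hg₀m
  have hmlt : m < 2 * k - 2 := lt_of_le_of_lt (Nat.find_min' hex ⟨g, hg, hg1, rfl⟩) hsupp
  have hmin : ∀ x ∈ G, x ≠ 1 → m ≤ x.support.card := fun x hx hx1 => Nat.find_min' hex ⟨x, hx, hx1, rfl⟩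
  have hm3 : m ≤ 3 := by
    by_contra hm4
    rw [not_le] at hm4
    set S := g₀.support with hS
    have hSm : ∀ x, x ∈ S ↔ g₀ x ≠ x := fun x => Equiv.Perm.mem_support
    -- comparing `g₀` with a conjugate
    have hcomp : ∀ (h : Equiv.Perm α), h ∈ G → ∀ (I E : Finset α), I ⊆ S → (∀ x ∈ I, ∃ t ∈ S, h t = x) →
        E ⊆ S → (∀ x ∈ E, (h * g₀ * h⁻¹) x = g₀ x) → h * g₀ * h⁻¹ ≠ g₀ →
        m + I.card + E.card ≤ 2 * m := by
      intro h hh I E hI1 hI2 hE1 hE2 hne
      set g' := h * g₀ * h⁻¹ with hg'
      have hg'G : g' ∈ G := G.mul_mem (G.mul_mem hh hg₀) (G.inv_mem hh)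
      have hd1 : g₀⁻¹ * g' ≠ 1 := fun e => hne (inv_mul_eq_one.1 e).symm
      have hle := hmin _ (G.mul_mem (G.inv_mem hg₀) hg'G) hd1
      have hS' : g'.support.card = m := by rw [hg', Equiv.Perm.card_support_conj, hg₀m]
      have hsub : (g₀⁻¹ * g').support ⊆ (S ∪ g'.support) \ E := by
        intro x hx
        rw [Equiv.Perm.mem_support, Equiv.Perm.mul_apply] at hx
        rw [Finset.mem_sdiff, Finset.mem_union]
        refine ⟨?_, fun hxE => hx (by rw [hE2 x hxE]; exact Equiv.symm_apply_apply _ _)⟩
        by_contra h'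
        rw [not_or, hSm, Equiv.Perm.mem_support, not_not, not_not] at h'
        apply hx
        rw [h'.2, Equiv.Perm.inv_eq_iff_eq, h'.1]
      have hI : I ⊆ S ∩ g'.support := by
        intro x hx
        obtain ⟨t, ht, rfl⟩ := hI2 x hx
        refine Finset.mem_inter.2 ⟨hI1 hx, Equiv.Perm.mem_support.2 ?_⟩
        rw [hg']
        simp only [Equiv.Perm.mul_apply, hia]
        exact fun e => (hSm t).1 ht (h.injective e)
      have h1 := Finset.card_le_card hsub
      rw [Finset.card_sdiff_of_subset (hE1.trans Finset.subset_union_left)] at h1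
      have h2 := Finset.card_union_add_card_inter S g'.support
      have h3 := Finset.card_le_card hI
      have h4 := Finset.card_le_card (hE1.trans (Finset.subset_union_left (s₂ := g'.support)))
      omega
    have hagree : ∀ (h : Equiv.Perm α) x, h x = x → h (g₀ x) = g₀ x → (h * g₀ * h⁻¹) x = g₀ x := by
      intro h x h1 h2
      rw [Equiv.Perm.mul_apply, Equiv.Perm.mul_apply, Equiv.Perm.inv_eq_iff_eq.2 h1.symm, h2]
    -- a subset with at most one exit
    have hpath : ∀ r ≤ m, ∃ A ⊆ S, A.card = r ∧ (A.filter fun x => g₀ x ∉ A).card ≤ 1 := by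
      intro r
      induction r with
      | zero => exact fun _ => ⟨∅, Finset.empty_subset _, rfl, by simp⟩
      | succ r ih =>
        intro hr
        obtain ⟨A, hAS, hAc, hA⟩ := ih (by omega)
        by_cases hex' : (A.filter fun x => g₀ x ∉ A).Nonempty
        · obtain ⟨x, hx⟩ := hex'
          obtain ⟨hxA, hgx⟩ := Finset.mem_filter.1 hx
          refine ⟨insert (g₀ x) A, Finset.insert_subset (Equiv.Perm.apply_mem_support.2 (hAS hxA)) hAS,
            by rw [Finset.card_insert_of_notMem hgx, hAc], ?_⟩
          refine (Finset.card_le_card (fun y hy => ?_)).trans (Finset.card_singleton (g₀ x)).le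
          simp only [Finset.mem_filter, Finset.mem_insert, not_or] at hy
          rw [Finset.mem_singleton]
          rcases hy.1 with rfl | hyA
          · rfl
          · have : y = x := Finset.card_le_one.1 hA y (Finset.mem_filter.2 ⟨hyA, hy.2.2⟩) x hx
            exact absurd (congrArg g₀ this) hy.2.1
        · obtain ⟨y, hy⟩ : (S \ A).Nonempty := by
            rw [← Finset.card_pos, Finset.card_sdiff_of_subset hAS]; omega
          rw [Finset.mem_sdiff] at hy
          refine ⟨insert y A, Finset.insert_subset hy.1 hAS,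
            by rw [Finset.card_insert_of_notMem hy.2, hAc], ?_⟩
          refine (Finset.card_le_card (fun z hz => ?_)).trans (Finset.card_singleton y).le
          simp only [Finset.mem_filter, Finset.mem_insert, not_or] at hz
          rw [Finset.mem_singleton]
          rcases hz.1 with rfl | hzA
          · rfl
          · exact absurd ⟨z, Finset.mem_filter.2 ⟨hzA, hz.2.2⟩⟩ hex'
    -- fixing `A`, sending `y` to `z`
    have hmove : ∀ (A : Finset α) (y z : α), A.card + 1 ≤ k → y ∉ A → z ∉ A →
        ∃ h : Equiv.Perm α, h ∈ G ∧ (∀ x ∈ A, h x = x) ∧ h y = z := by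
      intro A y z hA hy hz
      have hinj : Set.InjOn (Function.update id y z) (insert y A : Finset α) := by
        intro x hx x' hx' e
        simp only [Finset.coe_insert, Set.mem_insert_iff, Finset.mem_coe] at hx hx'
        rcases hx with rfl | hx <;> rcases hx' with rfl | hx'
        · rfl
        · rw [Function.update_self, Function.update_of_ne (by rintro rfl; exact hy hx')] at e
          exact absurd (e ▸ hx' : z ∈ A) hz
        · rw [Function.update_self, Function.update_of_ne (by rintro rfl; exact hy hx)] at e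
          exact absurd (e ▸ hx : z ∈ A) hz
        · rw [Function.update_of_ne (by rintro rfl; exact hy hx),
            Function.update_of_ne (by rintro rfl; exact hy hx')] at e
          exact e
      obtain ⟨h, hh, hh'⟩ := hpres (insert y A) (Function.update id y z)
        (by rw [Finset.card_insert_of_notMem hy]; exact hA) hinj
      refine ⟨h, hh, fun x hx => ?_, ?_⟩
      · rw [hh' x (Finset.mem_insert_of_mem hx), Function.update_of_ne (by rintro rfl; exact hy hx)]; rfl
      · rw [hh' y (Finset.mem_insert_self _ _), Function.update_self]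
    have hEsub : ∀ A : Finset α, (A.filter fun x => g₀ x ∈ A).card + (A.filter fun x => g₀ x ∉ A).card = A.card :=
      fun A => Finset.card_filter_add_card_filter_not _
    have hk4 : 4 ≤ k := by omega
    by_cases hfull : S = Finset.univ
    · -- every point is moved
      have hmn : m = Fintype.card α := by rw [← hg₀m, hfull, Finset.card_univ]
      by_cases h4 : Fintype.card α = 4
      · obtain ⟨p, q, hpq⟩ := Fintype.exists_pair_of_one_lt_card (show 1 < Fintype.card α by omega)
        obtain ⟨h, hh, hh'⟩ := hpres Finset.univ (Equiv.swap p q) (by rw [Finset.card_univ]; omega)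
          (Equiv.injective _).injOn
        have he : h = Equiv.swap p q := Equiv.ext fun x => hh' x (Finset.mem_univ x)
        subst he
        have := hmin _ hh (fun e => hpq (Equiv.swap_eq_one_iff.1 e))
        rw [Equiv.Perm.card_support_swap hpq] at this
        omega
      obtain ⟨y, hy⟩ : ∃ y, y ∈ S := Finset.card_pos.1 (by omega) |>.imp fun x hx => hx
      have hlt : ∀ F : Finset α, F.card < Fintype.card α → ∃ x, x ∉ F := fun F hF => by
        by_contra h; push Not at h
        rw [Finset.eq_univ_of_forall h, Finset.card_univ] at hF; omega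
      obtain ⟨a, ha⟩ := hlt {y, g₀ y, g₀⁻¹ y} (Finset.card_le_three.trans_lt (by omega))
      simp only [Finset.mem_insert, Finset.mem_singleton, not_or] at ha
      obtain ⟨z, hz⟩ := hlt {a, g₀ a, y, g₀ y} (Finset.card_le_four.trans_lt (by omega))
      simp only [Finset.mem_insert, Finset.mem_singleton, not_or] at hz
      have hgy : g₀ y ∉ ({a, g₀ a, y} : Finset α) := by
        simp only [Finset.mem_insert, Finset.mem_singleton, not_or]
        exact ⟨Ne.symm ha.2.1, fun e => ha.1 (g₀.injective e).symm, (hSm y).1 hy⟩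
      obtain ⟨h, hh, hfix, hmv⟩ := hmove {a, g₀ a, y} (g₀ y) z
        (by have := Finset.card_le_three (a := a) (b := g₀ a) (c := y); omega) hgy
        (by simp [hz.1, hz.2.1, hz.2.2.1])
      have hne : h * g₀ * h⁻¹ ≠ g₀ := by
        intro e
        have := congrArg (fun f : Equiv.Perm α => f y) e
        simp only [Equiv.Perm.mul_apply, Equiv.Perm.inv_eq_iff_eq.2 (hfix y (by simp)).symm, hmv] at this
        exact hz.2.2.2 this
      have := hcomp h hh S {a} subset_rfl (fun x _ => ⟨h⁻¹ x, by simp [hfull], by simp⟩)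
        (by simp [hfull]) (by
          intro x hx
          rw [Finset.mem_singleton] at hx
          subst hx
          exact hagree h _ (hfix _ (by simp)) (hfix _ (by simp))) hne
      rw [Finset.card_singleton, hg₀m] at this
      omega
    obtain ⟨w, hw⟩ : ∃ w, w ∉ S := by
      by_contra h; push Not at h; exact hfull (Finset.eq_univ_of_forall h)
    obtain ⟨A, hAS, hAc, hA⟩ := hpath (min (k - 1) (m - 1)) (by omega)
    have hlow := hEsub A
    -- sending a point out of `S`
    have hout : ∀ y ∈ S, y ∉ A → m + A.card + (A.filter fun x => g₀ x ∈ A).card ≤ 2 * m := by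
      intro y hyS hyA
      obtain ⟨h, hh, hfix, hmv⟩ := hmove A y w (by omega) hyA (fun h => hw (hAS h))
      refine hcomp h hh A _ hAS (fun x hx => ⟨x, hAS hx, hfix x hx⟩)
        ((Finset.filter_subset _ _).trans hAS) (fun x hx => ?_) ?_
      · rw [Finset.mem_filter] at hx
        exact hagree h x (hfix x hx.1) (hfix _ hx.2)
      · intro e
        have := congrArg (fun f : Equiv.Perm α => f w) e
        simp only [Equiv.Perm.mul_apply, Equiv.Perm.inv_eq_iff_eq.2 hmv.symm] at this
        have hgw : g₀ w = w := by by_contra h; exact hw ((hSm w).2 h)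
        rw [hgw] at this
        exact (hSm y).1 hyS (h.injective (this.trans hmv.symm))
    obtain ⟨y₀, hy₀⟩ : (S \ A).Nonempty := by
      rw [← Finset.card_pos, Finset.card_sdiff_of_subset hAS, hg₀m]; omega
    rw [Finset.mem_sdiff] at hy₀
    have := hout y₀ hy₀.1 hy₀.2
    by_cases hlast : 2 * k - 3 ≤ m
    · have hAk : A.card = k - 1 := by omega
      by_cases hinv : ∀ x ∈ A, g₀ x ∈ A
      · rw [Finset.filter_true_of_mem hinv] at this; omega
      push Not at hinv
      obtain ⟨x₁, hx₁, hx₁'⟩ := hinv
      -- some point outside `A` goes into `A`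
      obtain ⟨y, hyA, hgy⟩ : ∃ y, y ∉ A ∧ g₀ y ∈ A := by
        by_contra h
        push Not at h
        have hsub : A.image ⇑(g₀⁻¹) ⊆ A := by
          intro x hx
          obtain ⟨t, ht, rfl⟩ := Finset.mem_image.1 hx
          by_contra h'
          exact h _ h' (by rw [hai]; exact ht)
        have := Finset.eq_of_subset_of_card_le hsub (by rw [Finset.card_image_of_injective _ (Equiv.injective _)])
        obtain ⟨t, ht, htx⟩ := Finset.mem_image.1 (this.symm ▸ hx₁ : x₁ ∈ A.image ⇑(g₀⁻¹))
        rw [Equiv.Perm.inv_eq_iff_eq] at htx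
        exact hx₁' (htx ▸ ht)
      have hyS : y ∈ S := Equiv.Perm.apply_mem_support.1 (hAS hgy)
      obtain ⟨z, hz⟩ : (S \ insert y A).Nonempty := by
        rw [← Finset.card_pos, Finset.card_sdiff_of_subset (Finset.insert_subset hyS hAS), hg₀m,
          Finset.card_insert_of_notMem hyA]
        omega
      simp only [Finset.mem_sdiff, Finset.mem_insert, not_or] at hz
      obtain ⟨h, hh, hfix, hmv⟩ := hmove A y z (by omega) hyA hz.2.2
      have := hcomp h hh (insert z A) (A.filter fun x => g₀ x ∈ A) (Finset.insert_subset hz.1 hAS) ?_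
        ((Finset.filter_subset _ _).trans hAS) (fun x hx => ?_) ?_
      · rw [Finset.card_insert_of_notMem hz.2.2] at this; omega
      · intro x hx
        rcases Finset.mem_insert.1 hx with rfl | hx
        · exact ⟨y, hyS, hmv⟩
        · exact ⟨x, hAS hx, hfix x hx⟩
      · rw [Finset.mem_filter] at hx
        exact hagree h x (hfix x hx.1) (hfix _ hx.2)
      · intro e
        have h' := congrArg (fun f : Equiv.Perm α => f z) e
        simp only [Equiv.Perm.mul_apply, Equiv.Perm.inv_eq_iff_eq.2 hmv.symm, hfix _ hgy] at h'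
        exact hz.2.1 (g₀.injective h').symm
    · omega
  refine ⟨⟨g₀, hg₀, hg₀1, hg₀m ▸ hm3⟩, ?_⟩
  have hcard : g₀.support.card = 2 ∨ g₀.support.card = 3 := by
    have h0 : g₀.support.card ≠ 1 := Equiv.Perm.card_support_ne_one _
    have h1 : g₀.support.card ≠ 0 := fun e => hg₀1 (by rwa [Finset.card_eq_zero, Equiv.Perm.support_eq_empty_iff] at e)
    omega
  rcases hcard with h2 | h3
  · obtain ⟨p, q, hpq, hsw⟩ := Equiv.Perm.card_support_eq_two.1 h2
    subst hsw
    rw [show G = ⊤ from ?_]; · exact le_top
    rw [eq_top_iff, ← Equiv.Perm.closure_isSwap, Subgroup.closure_le]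
    rintro σ ⟨u, v, huv, rfl⟩
    obtain ⟨h, hh, hh'⟩ := hpres {p, q} (Function.update (Function.update id q v) p u)
      (by rw [Finset.card_pair hpq]; omega) (by
        intro x hx x' hx' e
        simp only [Finset.coe_insert, Finset.coe_singleton, Set.mem_insert_iff, Set.mem_singleton_iff] at hx hx'
        rcases hx with rfl | rfl <;> rcases hx' with rfl | rfl <;> simp_all [Function.update, eq_comm])
    have hp : h p = u := by rw [hh' p (by simp)]; simp
    have hq : h q = v := by rw [hh' q (by simp)]; simp [Function.update, hpq.symm]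
    have := G.mul_mem (G.mul_mem hh hg₀) (G.inv_mem hh)
    have he : h * Equiv.swap p q * h⁻¹ = Equiv.swap u v := by
      rw [← hp, ← hq]; exact (Equiv.swap_apply_apply h p q).symm
    rwa [he] at this
  · have hc3 : g₀.IsThreeCycle := card_support_eq_three_iff.1 h3
    rw [← Equiv.Perm.closure_three_cycles_eq_alternating, Subgroup.closure_le]
    intro σ hσ
    obtain ⟨h, hh⟩ := isConj_iff.1 ((Equiv.Perm.isConj_iff_cycleType_eq).2
      (show g₀.cycleType = σ.cycleType by rw [hc3, hσ]))
    obtain ⟨h', hh', hag⟩ := hpres g₀.support h (by omega) (Equiv.injective _).injOn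
    have hmem := G.mul_mem (G.mul_mem hh' hg₀) (G.inv_mem hh')
    have : h' * g₀ * h'⁻¹ = σ := by
      rw [← hh]
      ext x
      obtain ⟨t, rfl⟩ := h'.surjective x
      simp only [Equiv.Perm.mul_apply, hia]
      by_cases ht : t ∈ g₀.support
      · rw [hag t ht, hia, hag _ (Equiv.Perm.apply_mem_support.2 ht)]
      · rw [Equiv.Perm.notMem_support.1 ht]
        have hs : h⁻¹ (h' t) ∉ g₀.support := by
          intro hs
          have e1 := hag _ hs
          rw [hai] at e1
          exact ht (h'.injective e1 ▸ hs)
        rw [Equiv.Perm.notMem_support.1 hs, hai]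
    rwa [this] at hmem

end Cfsg.Agent.S0711
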