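import Cfsg.Statements.S0712
import Mathlib
import Cfsg.Agent.Lib.PermGroup.MultiTrans

set_option autoImplicit false
open Cfsg

namespace Cfsg.Agent.S0712

/-- Jordan: a primitive group in which the pointwise stabiliser of a set `s` is doubly transitive on the complement of `s` (which has at least 2 points) is `(|s| + 2)`-transitive. -/
theorem result {α : Type*} [Fintype α] [DecidableEq α] (G : Subgroup (Equiv.Perm α)) (hG : MulAction.IsPreprimitive G α) (s : Set α) {m : ℕ} (hsm : s.ncard = m) (hm : m + 2 ≤ Fintype.card α) (h2 : MulAction.IsMultiplyPretransitive (fixingSubgroup G s) (SubMulAction.ofFixingSubgroup G s) 2) : MulAction.IsMultiplyPretransitive G α (m + 2) := by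
  classical
  have hs : s.Finite := Set.toFinite s
  -- transitivity on m + 1 points
  have hk : MulAction.IsMultiplyPretransitive G α (m + 1) := by
    rcases Nat.eq_zero_or_pos m with rfl | hpos
    · rw [MulAction.is_one_pretransitive_iff]; exact hG.toIsPretransitive
    · have hprim : MulAction.IsPreprimitive (fixingSubgroup G s) (SubMulAction.ofFixingSubgroup G s) :=
        MulAction.isPreprimitive_of_is_two_pretransitive h2
      have h := hG.isMultiplyPreprimitive (s := s) (n := m - 1) (by omega)
        (by rw [Nat.card_eq_fintype_card]; omega) hprim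
      rw [show m - 1 + 2 = m + 1 by omega] at h
      exact h.isMultiplyPretransitive
  refine Cfsg.Lib.MultiTrans.isMultiplyPretransitive_of_fixing (m + 2) fun T hT x y hx hy => ?_
  -- moving a tuple listing a finite set
  have hmove : ∀ (A : Finset α) (f : A → α), Function.Injective f → A.card ≤ m + 1 →
      ∃ g : G, ∀ a : A, g • (a : α) = f a := by
    intro A f hf hA
    haveI : MulAction.IsMultiplyPretransitive G α A.card :=
      MulAction.isMultiplyPretransitive_of_le (G := G) (α := α) hA (by rw [Nat.card_eq_fintype_card]; omega)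
    let e := A.equivFin.symm
    obtain ⟨g, hg⟩ := MulAction.exists_smul_eq G
      (⟨fun i => (e i : α), fun i j h => e.injective (Subtype.ext h)⟩ : Fin A.card ↪ α)
      (⟨fun i => f (e i), fun i j h => e.injective (hf h)⟩ : Fin A.card ↪ α)
    refine ⟨g, fun a => ?_⟩
    have := DFunLike.congr_fun hg (e.symm a)
    change g • ((e (e.symm a) : A) : α) = f (e (e.symm a)) at this
    rwa [e.apply_symm_apply] at this
  rcases Nat.lt_or_ge T.card (m + 1) with hlt | hge
  · obtain ⟨g, hg⟩ := hmove (insert x T) (fun a => if (a : α) = x then y else a) (by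
      rintro ⟨a, ha⟩ ⟨b, hb⟩ h
      simp only at h
      split_ifs at h with h1 h2 h2
      · exact Subtype.ext (h1.trans h2.symm)
      · exact absurd (h ▸ (Finset.mem_insert.mp hb).resolve_left h2) hy
      · exact absurd (h ▸ (Finset.mem_insert.mp ha).resolve_left h1) hy
      · exact Subtype.ext h) (by rw [Finset.card_insert_of_notMem hx]; omega)
    refine ⟨g, fun t ht => ?_, ?_⟩
    · have := hg ⟨t, Finset.mem_insert_of_mem ht⟩
      rwa [if_neg (fun e : t = x => hx (e ▸ ht))] at this
    · have := hg ⟨x, Finset.mem_insert_self x T⟩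
      rwa [if_pos rfl] at this
  · obtain ⟨T', hT', hT'c⟩ := Finset.exists_subset_card_eq (show m ≤ T.card by omega)
    have hsc : hs.toFinset.card = m := by rw [← Set.ncard_eq_toFinset_card s hs, hsm]
    let e : T' ≃ hs.toFinset := Finset.equivOfCardEq (by rw [hT'c, hsc])
    obtain ⟨g, hg⟩ := hmove T' (fun a => (e a : α)) (fun a b h => e.injective (Subtype.ext h)) (by omega)
    have hgs : ∀ z : α, g • z ∈ s ↔ z ∈ T' := by
      intro z
      constructor
      · intro hz
        obtain ⟨a, ha⟩ := e.surjective ⟨g • z, hs.mem_toFinset.mpr hz⟩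
        have : g • (a : α) = g • z := (hg a).trans (congrArg Subtype.val ha)
        exact smul_left_cancel g this ▸ a.2
      · intro hz
        rw [hg ⟨z, hz⟩]
        exact hs.mem_toFinset.mp (e ⟨z, hz⟩).2
    obtain ⟨c, hc, hc'⟩ : ∃ c ∈ T, c ∉ T' := Finset.exists_mem_notMem_of_card_lt_card (by omega)
    have hout : ∀ z, z ∉ T' → g • z ∈ SubMulAction.ofFixingSubgroup G s := fun z hz =>
      fun h => hz ((hgs z).mp h)
    have hxT' : x ∉ T' := fun h => hx (hT' h)
    have hyT' : y ∉ T' := fun h => hy (hT' h)
    haveI := h2
    let gc : SubMulAction.ofFixingSubgroup G s := ⟨g • c, hout c hc'⟩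
    let gx : SubMulAction.ofFixingSubgroup G s := ⟨g • x, hout x hxT'⟩
    let gy : SubMulAction.ofFixingSubgroup G s := ⟨g • y, hout y hyT'⟩
    have hne1 : gc ≠ gx := fun h => hx (smul_left_cancel g (congrArg Subtype.val h : g • c = g • x) ▸ hc)
    have hne2 : gc ≠ gy := fun h => hy (smul_left_cancel g (congrArg Subtype.val h : g • c = g • y) ▸ hc)
    obtain ⟨⟨k, hk'⟩, hk1, hk2⟩ := (MulAction.is_two_pretransitive_iff.mp h2) hne1 hne2
    have hk1' : k • g • c = g • c := congrArg Subtype.val hk1
    have hk2' : k • g • x = g • y := congrArg Subtype.val hk2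
    refine ⟨g⁻¹ * k * g, fun t ht => ?_, by rw [mul_smul, mul_smul, hk2', inv_smul_smul]⟩
    rw [mul_smul, mul_smul, inv_smul_eq_iff]
    by_cases htT : t ∈ T'
    · exact (mem_fixingSubgroup_iff G).mp hk' _ ((hgs t).mpr htT)
    · have : t = c := by
        by_contra hne
        have h3 : (insert t (insert c T')).card ≤ T.card := Finset.card_le_card (by
          intro z hz
          simp only [Finset.mem_insert] at hz
          rcases hz with rfl | rfl | hz
          · exact ht
          · exact hc
          · exact hT' hz)
        rw [Finset.card_insert_of_notMem (by simp [hne, htT]), Finset.card_insert_of_notMem hc'] at h3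
        omega
      rw [this]; exact hk1'

end Cfsg.Agent.S0712
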