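import Cfsg.Statements.S0714
import Mathlib

set_option autoImplicit false
open Cfsg

namespace Cfsg.Agent.S0714

/-- Over any field, the permutation module of the alternating group of degree at least 5 has exactly four invariant subspaces: zero, the constant functions, the functions with coordinate sum zero, and everything. -/
theorem result {α : Type*} [Fintype α] [DecidableEq α] (hα : 5 ≤ Fintype.card α) {K : Type*} [Field K] (W : Subrepresentation (Cfsg.permRep K (alternatingGroup α) α)) : W.toSubmodule = ⊥ ∨ W = Cfsg.permConstants K (alternatingGroup α) α ∨ W = Cfsg.permSumZero K (alternatingGroup α) α ∨ W.toSubmodule = ⊤ := by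
  classical
  let e : α → α → K := fun x => Pi.single x 1
  have hact : ∀ (g : (alternatingGroup α)) (v : α → K) x, Cfsg.permRep K (alternatingGroup α) α g v x = v ((g : Equiv.Perm α)⁻¹ x) := fun g v x => rfl
  have hWmem : ∀ (g : (alternatingGroup α)) v, v ∈ W.toSubmodule → Cfsg.permRep K (alternatingGroup α) α g v ∈ W.toSubmodule := fun g v =>
    W.apply_mem_toSubmodule g (v := v)
  have hge : ∀ (g : (alternatingGroup α)) x, Cfsg.permRep K (alternatingGroup α) α g (e x) = e ((g : Equiv.Perm α) x) := by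
    intro g x; funext y
    simp only [hact, e, Pi.single_apply, Equiv.Perm.inv_eq_iff_eq]
  have hext : ∀ V V' : Subrepresentation (Cfsg.permRep K (alternatingGroup α) α), V.toSubmodule = V'.toSubmodule → V = V' := by
    intro V V' h; cases V; cases V'; cases h; rfl
  by_cases hconst : ∀ v ∈ W.toSubmodule, ∀ a b, v a = v b
  · obtain ⟨a⟩ : Nonempty α := Fintype.card_pos_iff.1 (by omega)
    by_cases hbot : W.toSubmodule = ⊥
    · exact Or.inl hbot
    obtain ⟨v, hv, hv0⟩ := Submodule.exists_mem_ne_zero_of_ne_bot hbot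
    refine Or.inr (Or.inl (hext _ _ (le_antisymm (fun w hw => ?_) ?_)))
    · exact Submodule.mem_span_singleton.2 ⟨w a, funext fun x => by simp [hconst w hw a x]⟩
    · change Submodule.span K {fun _ => (1 : K)} ≤ W.toSubmodule
      rw [Submodule.span_singleton_le_iff_mem]
      have hva : v a ≠ 0 := fun h => hv0 (funext fun x => by rw [hconst v hv x a, h]; rfl)
      have := W.toSubmodule.smul_mem (v a)⁻¹ hv
      rwa [show (v a)⁻¹ • v = fun _ => (1 : K) from funext fun x => by simp [hconst v hv x a, hva]] at this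
  push Not at hconst
  obtain ⟨v, hv, a, b, hvab⟩ := hconst
  have hab : a ≠ b := fun h => hvab (h ▸ rfl)
  have hpick : ∀ s : Finset α, s.card ≤ 4 → ∃ x, x ∉ s := fun s hs => by
    by_contra h; push Not at h
    have := Finset.card_le_card (fun x _ => h x : Finset.univ ⊆ s)
    rw [Finset.card_univ] at this; omega
  obtain ⟨c, hc⟩ := hpick {a, b} (Finset.card_le_two.trans (by norm_num))
  obtain ⟨d, hd⟩ := hpick {a, b, c} (Finset.card_le_three.trans (by norm_num))
  obtain ⟨f, hf⟩ := hpick {a, b, c, d} Finset.card_le_four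
  simp only [Finset.mem_insert, Finset.mem_singleton, not_or] at hc hd hf
  obtain ⟨hca, hcb⟩ := hc
  obtain ⟨hda, hdb, hdc⟩ := hd
  obtain ⟨hfa, hfb, hfc, hfd⟩ := hf
  have hsw : ∀ {p q r s : α}, p ≠ q → r ≠ s → Equiv.swap p q * Equiv.swap r s ∈ (alternatingGroup α) := by
    intro p q r s hpq hrs
    rw [Equiv.Perm.mem_alternatingGroup, map_mul, Equiv.Perm.sign_swap hpq, Equiv.Perm.sign_swap hrs]
    rfl
  have happ : ∀ {p q r s : α} (hpq : p ≠ q) (hrs : r ≠ s) (x : α),
      ((⟨_, hsw hpq hrs⟩ : (alternatingGroup α)) : Equiv.Perm α) x = Equiv.swap p q (Equiv.swap r s x) := fun _ _ _ => rfl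
  -- `u = α (e a - e b) + β (e c - e d)`
  set u := (v a - v b) • (e a - e b) + (v c - v d) • (e c - e d) with hu
  have huW : u ∈ W.toSubmodule := by
    have := W.toSubmodule.sub_mem hv (hWmem ⟨_, hsw hab (Ne.symm hdc)⟩ v hv)
    convert this using 1
    funext x
    simp only [hu, e, Pi.sub_apply, Pi.add_apply, Pi.smul_apply, smul_eq_mul, hact, mul_inv_rev,
      Equiv.swap_inv, Equiv.Perm.mul_apply]
    by_cases h1 : x = a
    · subst h1
      simp [hab, (Ne.symm hca), (Ne.symm hda), Equiv.swap_apply_of_ne_of_ne (Ne.symm hcb) (Ne.symm hdb)]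
    by_cases h2 : x = b
    · subst h2
      simp [(Ne.symm hab), (Ne.symm hcb), (Ne.symm hdb), Equiv.swap_apply_of_ne_of_ne (Ne.symm hca) (Ne.symm hda)]
    by_cases h3 : x = c
    · subst h3
      simp [h1, h2, (Ne.symm hdc), Equiv.swap_apply_of_ne_of_ne h1 h2]
    by_cases h4 : x = d
    · subst h4
      simp [h1, h2, h3, Equiv.swap_apply_of_ne_of_ne h1 h2]
    simp [h1, h2, h3, h4, Equiv.swap_apply_of_ne_of_ne h1 h2, Equiv.swap_apply_of_ne_of_ne h3 h4]
  have hone : ∃ x y, x ≠ y ∧ e x - e y ∈ W.toSubmodule := by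
    by_cases hβ : v c - v d = 0
    · refine ⟨a, b, hab, ?_⟩
      have := W.toSubmodule.smul_mem (v a - v b)⁻¹ huW
      rwa [hu, hβ, zero_smul, add_zero, smul_smul, inv_mul_cancel₀ (sub_ne_zero.2 hvab), one_smul] at this
    let ρ : (alternatingGroup α) := ⟨_, hsw (Ne.symm hdc) (Ne.symm hfd)⟩
    have r1 : (ρ : Equiv.Perm α) a = a := by
      rw [happ (Ne.symm hdc) (Ne.symm hfd), Equiv.swap_apply_of_ne_of_ne (Ne.symm hda) (Ne.symm hfa), Equiv.swap_apply_of_ne_of_ne (Ne.symm hca) (Ne.symm hda)]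
    have r2 : (ρ : Equiv.Perm α) b = b := by
      rw [happ (Ne.symm hdc) (Ne.symm hfd), Equiv.swap_apply_of_ne_of_ne (Ne.symm hdb) (Ne.symm hfb), Equiv.swap_apply_of_ne_of_ne (Ne.symm hcb) (Ne.symm hdb)]
    have r3 : (ρ : Equiv.Perm α) c = d := by
      rw [happ (Ne.symm hdc) (Ne.symm hfd), Equiv.swap_apply_of_ne_of_ne (Ne.symm hdc) (Ne.symm hfc), Equiv.swap_apply_left]
    have r4 : (ρ : Equiv.Perm α) d = f := by
      rw [happ (Ne.symm hdc) (Ne.symm hfd), Equiv.swap_apply_left, Equiv.swap_apply_of_ne_of_ne hfc hfd]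
    have hw : e c - (2 : K) • e d + e f ∈ W.toSubmodule := by
      have := W.toSubmodule.smul_mem (v c - v d)⁻¹ (W.toSubmodule.sub_mem huW (hWmem ρ u huW))
      convert this using 1
      simp only [hu, map_add, map_sub, map_smul, hge, r1, r2, r3, r4]
      match_scalars <;> field_simp <;> ring
    let τ : (alternatingGroup α) := ⟨_, hsw (Ne.symm (Ne.symm hab)) (Ne.symm (Ne.symm hfa))⟩
    have t1 : (τ : Equiv.Perm α) c = c := by
      rw [happ (Ne.symm (Ne.symm hab)) (Ne.symm (Ne.symm hfa)), Equiv.swap_apply_of_ne_of_ne (Ne.symm hfc) hca, Equiv.swap_apply_of_ne_of_ne hca hcb]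
    have t2 : (τ : Equiv.Perm α) d = d := by
      rw [happ (Ne.symm (Ne.symm hab)) (Ne.symm (Ne.symm hfa)), Equiv.swap_apply_of_ne_of_ne (Ne.symm hfd) hda, Equiv.swap_apply_of_ne_of_ne hda hdb]
    have t3 : (τ : Equiv.Perm α) f = b := by rw [happ (Ne.symm (Ne.symm hab)) (Ne.symm (Ne.symm hfa)), Equiv.swap_apply_left, Equiv.swap_apply_left]
    refine ⟨f, b, hfb, ?_⟩
    have := W.toSubmodule.sub_mem hw (hWmem τ _ hw)
    simp only [map_add, map_sub, map_smul, hge, t1, t2, t3] at this
    simpa [add_sub_add_left_eq_sub] using this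
  obtain ⟨x₀, y₀, hne, hmem⟩ := hone
  have h2 : MulAction.IsMultiplyPretransitive (alternatingGroup α) α 2 :=
    haveI := alternatingGroup.isMultiplyPretransitive α
    MulAction.isMultiplyPretransitive_of_le (m := 2) (n := Nat.card α - 2)
      (by rw [Nat.card_eq_fintype_card]; omega) (by simp)
  rw [MulAction.is_two_pretransitive_iff] at h2
  have hall : ∀ x y, e x - e y ∈ W.toSubmodule := by
    intro x y
    by_cases hxy : x = y
    · simp [hxy]
    obtain ⟨g, h1, h2'⟩ := h2 hne hxy
    change (g : Equiv.Perm α) x₀ = x at h1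
    change (g : Equiv.Perm α) y₀ = y at h2'
    have := hWmem g _ hmem
    rwa [map_sub, hge, hge, h1, h2'] at this
  have hsz : ∀ w : α → K, ∑ x, w x = 0 → w ∈ W.toSubmodule := by
    intro w hw
    have h1 : w = ∑ x, w x • (e x - e a) := by
      funext y
      simp only [e, smul_sub, Finset.sum_sub_distrib, Pi.sub_apply, Finset.sum_apply, Pi.smul_apply,
        smul_eq_mul, Pi.single_apply, mul_ite, mul_one, mul_zero, Finset.sum_ite_eq, Finset.mem_univ, if_true]
      split_ifs <;> simp [hw]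
    rw [h1]
    exact Submodule.sum_mem _ fun x _ => Submodule.smul_mem _ _ (hall x a)
  by_cases hle : ∀ w ∈ W.toSubmodule, ∑ x, w x = 0
  · exact Or.inr (Or.inr (Or.inl (hext _ _ (le_antisymm hle hsz))))
  push Not at hle
  obtain ⟨w, hw, hw0⟩ := hle
  refine Or.inr (Or.inr (Or.inr (eq_top_iff.2 fun z _ => ?_)))
  have hz : z - ((∑ x, z x) / ∑ x, w x) • w ∈ W.toSubmodule := hsz _ (by
    simp only [Pi.sub_apply, Pi.smul_apply, smul_eq_mul, Finset.sum_sub_distrib, ← Finset.mul_sum]
    field_simp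
    ring)
  simpa using W.toSubmodule.add_mem hz (W.toSubmodule.smul_mem ((∑ x, z x) / ∑ x, w x) hw)

end Cfsg.Agent.S0714
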