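import Cfsg.Statements.S0715
import Cfsg.Agent.Lib.PermGroup.EqualDegrees

set_option autoImplicit false
open Cfsg

namespace Cfsg.Agent.S0715

/-- If a natural number `f` divides the degree of every non-principal irreducible constituent of the permutation character of a transitive group, then `f` divides every non-trivial subdegree. -/
theorem result {G : Type*} [Group G] [Fintype G] {Ω : Type*} [Fintype Ω] [MulAction G Ω] [MulAction.IsPretransitive G Ω] (f : ℕ) (hf : ∀ χ : G → ℂ, Cfsg.IsIrrCharacter G χ → χ ≠ (fun _ => 1) → Cfsg.classInner (fun g : G => (Nat.card (MulAction.fixedBy Ω g) : ℂ)) χ ≠ 0 → ∃ m : ℕ, χ 1 = (f : ℂ) * m) (a b : Ω) (hab : b ≠ a) : f ∣ Nat.card (MulAction.orbit (MulAction.stabilizer G a) b) := by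
  classical
  have hab' := hab
  set one : Cfsg.IrrCharacter G := ⟨fun _ => 1, Cfsg.Lib.Characters.isIrrCharacter_one⟩ with hone
  let π := Cfsg.Agent.PermCharacter.permChar G Ω
  set N := Nat.card (MulAction.orbit (MulAction.stabilizer G a) b) with hN
  have hcoef : ∀ χ : Cfsg.IrrCharacter G, ∃ A : ℂ, IsIntegral ℤ A ∧
      (χ ≠ one → Cfsg.classInner (Cfsg.Agent.PermCharacter.orbFun G a b) (χ : G → ℂ) * (χ : G → ℂ) 1 =
        (f : ℂ) * A) := by
    rintro ⟨_, n, ρ, hρ, rfl⟩
    obtain ⟨hi, hz⟩ := Cfsg.Agent.PermCharacter.coeff_orbFun ρ a b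
    by_cases h0 : Cfsg.classInner π ρ.character = 0
    · exact ⟨0, isIntegral_zero, fun _ => by rw [hz h0, zero_mul, mul_zero]⟩
    · by_cases h1 : ρ.character = fun _ => (1 : ℂ)
      · exact ⟨0, isIntegral_zero, fun hne => absurd (Subtype.ext h1) hne⟩
      · obtain ⟨m, hm⟩ := hf ρ.character ⟨n, ρ, hρ, rfl⟩ h1 h0
        refine ⟨(m : ℂ) * Cfsg.classInner (Cfsg.Agent.PermCharacter.orbFun G a b) ρ.character,
          (isIntegral_algebraMap (R := ℤ) (A := ℂ) (x := (m : ℤ))).mul hi, fun _ => ?_⟩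
        show _ * ρ.character 1 = _
        rw [hm]
        ring
  choose A hA hAeq using hcoef
  have h1 := congrFun (Cfsg.Lib.Characters.classFunction_expansion
    (Cfsg.Agent.PermCharacter.isClassFunction_orbFun (G := G) a b)) 1
  simp only [Finset.sum_apply, Pi.smul_apply, smul_eq_mul] at h1
  rw [← Finset.add_sum_erase _ _ (Finset.mem_univ one)] at h1
  rw [Finset.sum_congr rfl (fun χ hχ => hAeq χ (Finset.ne_of_mem_erase hχ)), ← Finset.mul_sum] at h1
  have hc1 : Cfsg.Agent.PermCharacter.orbFun G a b 1 = 0 := by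
    rw [Cfsg.Agent.PermCharacter.orbFun, Nat.cast_eq_zero, Nat.card_eq_zero]
    left
    refine ⟨fun ⟨x, k, h1, h2⟩ => hab' ?_⟩
    rw [one_smul, ← h1] at h2
    exact MulAction.injective k h2
  rw [hc1, show ((one : Cfsg.IrrCharacter G) : G → ℂ) 1 = 1 from rfl,
    show ((one : Cfsg.IrrCharacter G) : G → ℂ) = (fun _ => 1) from rfl,
    Cfsg.Agent.PermCharacter.classInner_orbFun_one, mul_one, ← hN] at h1
  set B := ∑ χ ∈ (Finset.univ : Finset (Cfsg.IrrCharacter G)).erase one, A χ with hB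
  have hBint : IsIntegral ℤ B := IsIntegral.sum _ fun χ _ => hA χ
  have h2 : (f : ℂ) * B = -(N : ℂ) := eq_neg_of_add_eq_zero_right h1.symm
  rcases Nat.eq_zero_or_pos f with rfl | hfpos
  · rw [Nat.cast_zero, zero_mul] at h2
    have h3 : (N : ℂ) = 0 := neg_eq_zero.mp h2.symm
    rw [Nat.cast_eq_zero] at h3
    rw [h3]
  have hBeq : B = algebraMap ℚ ℂ (-(N : ℚ) / f) := by
    rw [map_div₀, map_neg, map_natCast, map_natCast, eq_div_iff (Nat.cast_ne_zero.mpr hfpos.ne'), mul_comm]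
    exact h2
  rw [hBeq, isIntegral_algebraMap_iff (algebraMap ℚ ℂ).injective] at hBint
  obtain ⟨z, hz⟩ := IsIntegrallyClosed.isIntegral_iff.mp hBint
  rw [eq_intCast, eq_div_iff (Nat.cast_ne_zero.mpr hfpos.ne')] at hz
  have hz' : (N : ℤ) = -z * f := by
    have : ((N : ℤ) : ℚ) = ((-z * f : ℤ) : ℚ) := by push_cast; linarith
    exact_mod_cast this
  exact Int.natCast_dvd_natCast.mp ⟨-z, by rw [hz', mul_comm]⟩

end Cfsg.Agent.S0715
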