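import Cfsg.Statements.S0718
import Cfsg.Agent.Lib.PermGroup.PermCharacter
import Cfsg.Agent.Lib.PermGroup.MultFree

set_option autoImplicit false
open Cfsg

namespace Cfsg.Agent.S0718

/-- Multiplicity-freeness of the permutation character is equivalent to commutativity of the centraliser ring, i.e. of the algebra of `G`-equivariant endomorphisms of the complex permutation module. -/
theorem result {G : Type*} [Group G] [Fintype G] {Ω : Type*} [Fintype Ω] [MulAction G Ω] : (∀ χ : G → ℂ, Cfsg.IsIrrCharacter G χ → Cfsg.classInner (fun g : G => (Nat.card (MulAction.fixedBy Ω g) : ℂ)) χ = 0 ∨ Cfsg.classInner (fun g : G => (Nat.card (MulAction.fixedBy Ω g) : ℂ)) χ = 1) ↔ ∀ S T : (Ω → ℂ) →ₗ[ℂ] (Ω → ℂ), S ∈ ((Cfsg.permRep ℂ G Ω).linHom (Cfsg.permRep ℂ G Ω)).invariants → T ∈ ((Cfsg.permRep ℂ G Ω).linHom (Cfsg.permRep ℂ G Ω)).invariants → S ∘ₗ T = T ∘ₗ S := by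
  classical
  have hmem : ∀ S : (Ω → ℂ) →ₗ[ℂ] (Ω → ℂ),
      S ∈ ((Cfsg.permRep ℂ G Ω).linHom (Cfsg.permRep ℂ G Ω)).invariants ↔
        ∀ g v, S (Cfsg.permRep ℂ G Ω g v) = Cfsg.permRep ℂ G Ω g (S v) := by
    intro S
    rw [Representation.mem_invariants]
    constructor
    · intro h g v
      have h1 := LinearMap.congr_fun (h g) (Cfsg.permRep ℂ G Ω g v)
      simp only [Representation.linHom_apply, LinearMap.comp_apply] at h1
      rw [← h1, ← Module.End.mul_apply (Cfsg.permRep ℂ G Ω g⁻¹), ← map_mul, inv_mul_cancel, map_one,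
        Module.End.one_apply]
    · intro h g
      apply LinearMap.ext
      intro v
      simp only [Representation.linHom_apply, LinearMap.comp_apply]
      rw [← h, ← Module.End.mul_apply (Cfsg.permRep ℂ G Ω g), ← map_mul, mul_inv_cancel, map_one,
        Module.End.one_apply]
  have hchar : (fun g : G => (Nat.card (MulAction.fixedBy Ω g) : ℂ)) = (Cfsg.permRep ℂ G Ω).character :=
    Cfsg.Agent.PermCharacter.permRep_character.symm
  rw [hchar]
  constructor
  · intro h S T hS hT
    exact Cfsg.Agent.MultFree.commute_of_multFree _ h S T ((hmem S).mp hS) ((hmem T).mp hT)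
  · intro h χ hχ
    exact Cfsg.Agent.MultFree.multFree_of_commute _
      (fun S T hS hT => h S T ((hmem S).mpr hS) ((hmem T).mpr hT)) χ hχ

end Cfsg.Agent.S0718
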