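import Cfsg.Statements.S0722


set_option autoImplicit false
open Cfsg

namespace Cfsg.Agent.S0722

/-- In a primitive group `H`, with `N` a minimal normal subgroup and `K` a point stabiliser, `K ⊓ N` is maximal among proper `K`-invariant subgroups of `N`. -/
theorem result {α : Type*} [Finite α] (H : Subgroup (Equiv.Perm α)) [MulAction.IsPreprimitive H α] (N : Subgroup H) [N.Normal] (hN : N ≠ ⊥) (hmin : ∀ M : Subgroup H, M.Normal → M ≤ N → M = ⊥ ∨ M = N) (a : α) (X : Subgroup H) (hX : X ≤ N) (hKX : MulAction.stabilizer H a ⊓ N ≤ X) (hinv : MulAction.stabilizer H a ≤ Subgroup.normalizer (X : Set H)) : X = MulAction.stabilizer H a ⊓ N ∨ X = N := by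
  by_cases hsing : Subsingleton α
  · right
    refine le_antisymm hX ?_
    refine le_trans ?_ hKX
    refine le_inf ?_ le_rfl
    intro h _
    exact MulAction.mem_stabilizer_iff.mpr (Subsingleton.elim _ _)
  rw [not_subsingleton_iff_nontrivial] at hsing
  have hco := MulAction.IsPreprimitive.isCoatom_stabilizer_of_isPreprimitive (G := H) a
  rcases eq_or_ne (MulAction.stabilizer H a ⊔ X) ⊤ with htop | hne
  · have hXn : X.Normal := by
      rw [← Subgroup.normalizer_eq_top_iff, eq_top_iff, ← htop]
      exact sup_le hinv Subgroup.le_normalizer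
    rcases hmin X hXn hX with rfl | h
    · exact absurd (by simpa using htop) hco.1
    · exact Or.inr h
  · have : X ≤ MulAction.stabilizer H a := by
      by_contra hc
      exact hne (hco.2 _ (lt_of_le_of_ne le_sup_left
        (fun e => hc (e ▸ le_sup_right))))
    exact Or.inl (le_antisymm (le_inf this hX) hKX)

end Cfsg.Agent.S0722
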