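import Cfsg.Statements.S0724
import Mathlib.GroupTheory.GroupAction.Quotient
import Mathlib.Algebra.Polynomial.Eval.Degree

set_option autoImplicit false
open Cfsg

namespace Cfsg.Agent.S0724

/-- Blichfeldt's Theorem: if a finite set `L` of natural numbers contains the number of fixed points of every non-identity element of a permutation group `G` of degree `n`, then the order of `G` divides `∏ (n - l)` over `l ∈ L`. -/
theorem result {α : Type*} [Fintype α] [DecidableEq α] (G : Subgroup (Equiv.Perm α)) (L : Finset ℕ) (hL : ∀ g ∈ G, g ≠ 1 → Nat.card (MulAction.fixedBy α g) ∈ L) : Nat.card G ∣ ∏ l ∈ L, (Fintype.card α - l) := by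
  classical
  haveI : Fintype G := Fintype.ofFinite _
  let P : Polynomial ℤ := ∏ l ∈ L, (Polynomial.X - Polynomial.C (l : ℤ))
  let fx : G → ℕ := fun g => Nat.card (MulAction.fixedBy α (g : Equiv.Perm α))
  -- each power sum of the fixed point numbers is a multiple of the order
  have hpow : ∀ k : ℕ, (Nat.card G : ℤ) ∣ ∑ g : G, (fx g : ℤ) ^ k := by
    intro k
    have hB := MulAction.sum_card_fixedBy_eq_card_orbits_mul_card_group G (Fin k → α)
    have hf : ∀ g : G, Fintype.card (MulAction.fixedBy (Fin k → α) g) = fx g ^ k := by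
      intro g
      have e : MulAction.fixedBy (Fin k → α) g ≃ (Fin k → MulAction.fixedBy α (g : Equiv.Perm α)) :=
        { toFun := fun f i => ⟨f.1 i, congrFun f.2 i⟩
          invFun := fun f => ⟨fun i => (f i).1, funext fun i => (f i).2⟩
          left_inv := fun f => rfl
          right_inv := fun f => rfl }
      rw [Fintype.card_congr e, Fintype.card_fun, Fintype.card_fin, ← Nat.card_eq_fintype_card]
    refine ⟨Fintype.card (MulAction.orbitRel.Quotient G (Fin k → α)), ?_⟩
    rw [mul_comm, Nat.card_eq_fintype_card]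
    simp only [hf] at hB
    exact_mod_cast hB
  have hP : (Nat.card G : ℤ) ∣ ∑ g : G, P.eval (fx g : ℤ) := by
    simp only [Polynomial.eval_eq_sum_range]
    rw [Finset.sum_comm]
    refine Finset.dvd_sum fun k _ => ?_
    rw [← Finset.mul_sum]
    exact (hpow k).mul_left _
  have hone : ∑ g : G, P.eval (fx g : ℤ) = P.eval (fx 1 : ℤ) := by
    refine Finset.sum_eq_single 1 (fun g _ hg => ?_) (fun h => absurd (Finset.mem_univ _) h)
    simp only [P, Polynomial.eval_prod, Polynomial.eval_sub, Polynomial.eval_X, Polynomial.eval_C]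
    refine Finset.prod_eq_zero (hL g g.2 (fun e => hg (Subtype.ext e))) ?_
    simp [fx]
  have hfx1 : fx 1 = Fintype.card α := by
    simp [fx, Nat.card_eq_fintype_card]
  rw [hone, hfx1] at hP
  by_cases hl : ∀ l ∈ L, l ≤ Fintype.card α
  · have : P.eval (Fintype.card α : ℤ) = ((∏ l ∈ L, (Fintype.card α - l) : ℕ) : ℤ) := by
      simp only [P, Polynomial.eval_prod, Polynomial.eval_sub, Polynomial.eval_X, Polynomial.eval_C,
        Nat.cast_prod]
      exact Finset.prod_congr rfl fun l hlL => (Int.natCast_sub (hl l hlL)).symm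
    rw [this] at hP
    exact Int.natCast_dvd_natCast.mp hP
  · push Not at hl
    obtain ⟨l, hlL, hll⟩ := hl
    rw [Finset.prod_eq_zero hlL (by omega)]
    exact dvd_zero _

end Cfsg.Agent.S0724
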