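import Cfsg.Statements.S0726


set_option autoImplicit false
open Cfsg

namespace Cfsg.Agent.S0726

/-- The left and right regular permutation representations of a group are each other's centralisers in the symmetric group: the centraliser of the left regular image is the right regular image, and a transitive subgroup centralising the left regular image is the whole right regular image. -/
theorem result {G : Type*} [Group G] : Subgroup.centralizer ((MulAction.toPermHom G G).range : Set (Equiv.Perm G)) = (MulAction.toPermHom Gᵐᵒᵖ G).range ∧ ∀ H : Subgroup (Equiv.Perm G), H ≤ Subgroup.centralizer ((MulAction.toPermHom G G).range : Set (Equiv.Perm G)) → MulAction.IsPretransitive H G → H = (MulAction.toPermHom Gᵐᵒᵖ G).range := by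
  have hR : ∀ c : Equiv.Perm G, c ∈ Subgroup.centralizer
      ((MulAction.toPermHom G G).range : Set (Equiv.Perm G)) → ∀ x, c x = x * c 1 := by
    intro c hc x
    have h := congrArg (fun s : Equiv.Perm G => s 1)
      (Subgroup.mem_centralizer_iff.mp hc _ ⟨x, rfl⟩)
    simp only [Equiv.Perm.mul_apply, MulAction.toPermHom_apply, MulAction.toPerm_apply, smul_eq_mul,
      mul_one] at h
    exact h.symm
  have heq : Subgroup.centralizer ((MulAction.toPermHom G G).range : Set (Equiv.Perm G)) =
      (MulAction.toPermHom Gᵐᵒᵖ G).range := by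
    ext c
    constructor
    · intro hc
      exact ⟨MulOpposite.op (c 1), Equiv.ext fun x => (hR c hc x).symm⟩
    · rintro ⟨u, rfl⟩
      rw [Subgroup.mem_centralizer_iff]
      rintro _ ⟨g, rfl⟩
      refine Equiv.ext fun x => ?_
      simp [MulOpposite.smul_eq_mul_unop, mul_assoc]
  refine ⟨heq, fun H hH hT => le_antisymm (heq ▸ hH) ?_⟩
  rintro _ ⟨u, rfl⟩
  obtain ⟨⟨h, hh⟩, hh1⟩ := MulAction.exists_smul_eq H (1 : G) u.unop
  have hh1' : h 1 = u.unop := hh1
  have : h = MulAction.toPermHom Gᵐᵒᵖ G u := by
    refine Equiv.ext fun x => ?_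
    rw [hR h (hH hh) x, hh1']
    simp [MulOpposite.smul_eq_mul_unop]
  exact this ▸ hh

end Cfsg.Agent.S0726
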