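import Cfsg.Statements.S0727
import Cfsg.Agent.Lib.PermGroup.SharpThreeOdd

set_option autoImplicit false
open Cfsg

namespace Cfsg.Agent.S0727

/-- A sharply triply transitive permutation group of degree `2^f + 1` is isomorphic to the projective general linear group of degree 2 over the field with `2^f` elements. -/
theorem result {α : Type*} [Fintype α] [DecidableEq α] {f : ℕ} (hf : 1 ≤ f) (hα : Fintype.card α = 2 ^ f + 1) (G : Subgroup (Equiv.Perm α)) (h3 : MulAction.IsMultiplyPretransitive G α 3) (hsharp : ∀ x : Fin 3 ↪ α, MulAction.stabilizer G x = ⊥) : ∃ (F : Type) (_ : Field F) (_ : Fintype F), Fintype.card F = 2 ^ f ∧ Nonempty (G ≃* Matrix.ProjGenLinGroup (Fin 2) F) := by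
  have hodd : Odd (Fintype.card α) := by
    rw [hα]; exact (Nat.even_pow.2 ⟨even_two, by omega⟩).add_one
  have hsh : ∀ g : G, ∀ x y z : α, x ≠ y → x ≠ z → y ≠ z → g • x = x → g • y = y → g • z = z → g = 1 := by
    intro g x y z hxy hxz hyz gx gy gz
    let u : Fin 3 ↪ α := ⟨![x, y, z], by
      intro i j h; fin_cases i <;> fin_cases j <;> simp [hxy, hxz, hyz, hxy.symm, hxz.symm, hyz.symm] at h ⊢⟩
    have hm : g ∈ MulAction.stabilizer G u := by
      refine MulAction.mem_stabilizer_iff.2 (DFunLike.ext _ _ fun i => ?_)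
      fin_cases i
      · exact gx
      · exact gy
      · exact gz
    rwa [hsharp u, Subgroup.mem_bot] at hm
  obtain ⟨f', -, hcard, F, i1, i2, hF, hiso⟩ := Cfsg.Lib.SharpThreeOdd.exists_iso h3 hsh hodd
    (by have : 2 ≤ 2 ^ f := Nat.le_self_pow (by omega) 2; omega)
  exact ⟨F, i1, i2, by omega, hiso⟩

end Cfsg.Agent.S0727
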