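import Cfsg.Statements.S0728
import Mathlib

set_option autoImplicit false
open Cfsg

namespace Cfsg.Agent.S0728

/-- In a sharply triply transitive group of even degree at least 6 (degree `q + 1`, `q` odd), a two-point stabiliser has at most one subgroup of order 3. -/
theorem result {α : Type*} [Fintype α] [DecidableEq α] (heven : Even (Fintype.card α)) (h6 : 6 ≤ Fintype.card α) (G : Subgroup (Equiv.Perm α)) (h3 : MulAction.IsMultiplyPretransitive G α 3) (hsharp : ∀ x : Fin 3 ↪ α, MulAction.stabilizer G x = ⊥) {a b : α} (hab : a ≠ b) (A B : Subgroup G) (hA : A ≤ MulAction.stabilizer G a ⊓ MulAction.stabilizer G b) (hB : B ≤ MulAction.stabilizer G a ⊓ MulAction.stabilizer G b) (hA3 : Nat.card A = 3) (hB3 : Nat.card B = 3) : A = B := by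
  classical
  set n := Fintype.card α with hn
  have h3' : ∀ x y z x' y' z' : α, x ≠ y → x ≠ z → y ≠ z → x' ≠ y' → x' ≠ z' → y' ≠ z' →
      ∃ g : G, g • x = x' ∧ g • y = y' ∧ g • z = z' := by
    intro x y z x' y' z' h1 h2 h3'' h4 h5 h6'
    haveI := h3
    obtain ⟨g, hg⟩ := MulAction.exists_smul_eq G
      (⟨![x, y, z], by intro i j e; fin_cases i <;> fin_cases j <;> simp [h1, h2, h3'', Ne.symm h1, Ne.symm h2, Ne.symm h3''] at e ⊢⟩ : Fin 3 ↪ α)
      (⟨![x', y', z'], by intro i j e; fin_cases i <;> fin_cases j <;> simp [h4, h5, h6', Ne.symm h4, Ne.symm h5, Ne.symm h6'] at e ⊢⟩ : Fin 3 ↪ α)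
    exact ⟨g, DFunLike.congr_fun hg 0, DFunLike.congr_fun hg 1, DFunLike.congr_fun hg 2⟩
  have hfix3 : ∀ (g : G) (x y z : α), x ≠ y → x ≠ z → y ≠ z → g • x = x → g • y = y → g • z = z → g = 1 := by
    intro g x y z h1 h2 h3'' e1 e2 e3
    have hx : g ∈ MulAction.stabilizer G
        (⟨![x, y, z], by intro i j e; fin_cases i <;> fin_cases j <;> simp [h1, h2, h3'', Ne.symm h1, Ne.symm h2, Ne.symm h3''] at e ⊢⟩ : Fin 3 ↪ α) := by
      rw [MulAction.mem_stabilizer_iff]
      ext i; fin_cases i
      · exact e1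
      · exact e2
      · exact e3
    rwa [hsharp, Subgroup.mem_bot] at hx
  let T : Finset G := Finset.univ.filter fun g => orderOf g = 3
  let Fx : G → Finset α := fun g => Finset.univ.filter fun x => g • x = x
  have hFle : ∀ g : G, g ≠ 1 → (Fx g).card ≤ 2 := by
    intro g hg
    by_contra hlt
    rw [not_le] at hlt
    obtain ⟨x, hx, y, hy, z, hz, hxy, hxz, hyz⟩ := Finset.two_lt_card.1 hlt
    simp only [Fx, Finset.mem_filter, Finset.mem_univ, true_and] at hx hy hz
    exact hg (hfix3 g x y z hxy hxz hyz hx hy hz)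
  -- `3` divides `n - 2`
  haveI : Fact (Nat.Prime 3) := ⟨Nat.prime_three⟩
  obtain ⟨x₀, hx₀⟩ := exists_prime_orderOf_dvd_card' (G := A) 3 (hA3 ▸ dvd_rfl)
  have hmod : ∀ g : G, orderOf g = 3 → n ≡ (Fx g).card [MOD 3] := by
    intro g hg
    have hP : IsPGroup 3 (Subgroup.zpowers g) := IsPGroup.of_card (n := 1) (by rw [Nat.card_zpowers, hg, pow_one])
    have h := hP.card_modEq_card_fixedPoints α
    have he : MulAction.fixedPoints (Subgroup.zpowers g) α = ↑(Fx g) := by
      ext x
      simp only [MulAction.mem_fixedPoints, Fx, Finset.coe_filter, Finset.mem_univ, true_and, Set.mem_ofPred_eq]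
      refine ⟨fun h => h ⟨g, Subgroup.mem_zpowers g⟩, fun h ⟨z, m, hm⟩ => ?_⟩
      subst hm
      exact (MulAction.stabilizer G x).zpow_mem h m
    rw [he, Nat.card_coe_set_eq, Set.ncard_coe_finset, Nat.card_eq_fintype_card] at h
    exact h
  have hn2 : n ≡ 2 [MOD 3] := by
    have hg : orderOf (x₀ : G) = 3 := by rw [Subgroup.orderOf_coe, hx₀]
    have h2 : (Fx (x₀ : G)).card = 2 := by
      refine le_antisymm (hFle _ fun e => by rw [e, orderOf_one] at hg; omega) ?_
      rw [← Finset.card_pair hab]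
      refine Finset.card_le_card fun x hx => ?_
      have hm := hA x₀.2
      simp only [Finset.mem_insert, Finset.mem_singleton] at hx
      simp only [Fx, Finset.mem_filter, Finset.mem_univ, true_and]
      rcases hx with rfl | rfl
      · exact hm.1
      · exact hm.2
    exact h2 ▸ hmod _ hg
  have hF2 : ∀ g ∈ T, (Fx g).card = 2 := by
    intro g hg
    have hg' := (Finset.mem_filter.1 hg).2
    have h1 := hFle g fun e => by rw [e, orderOf_one] at hg'; omega
    have h2 : (Fx g).card % 3 = 2 := ((hmod g hg').symm.trans hn2)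
    omega
  -- counting through 3-cycles
  have hT : T.card * (n - 2) = n * (n - 1) * (n - 2) := by
    have e : (T.sigma fun g => (Fx g)ᶜ).card = Fintype.card (Fin 3 ↪ α) := by
      rw [← Finset.card_univ]
      refine Finset.card_bij (fun q hq => ⟨![q.2, q.1 • q.2, q.1 • q.1 • q.2], ?_⟩) (fun _ _ => Finset.mem_univ _)
        ?_ ?_
      · obtain ⟨g, x⟩ := q
        simp only [Finset.mem_sigma, T, Fx, Finset.mem_filter, Finset.mem_univ, true_and, Finset.mem_compl] at hq
        have h3g : g • g • g • x = x := by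
          rw [← mul_smul, ← mul_smul, show g * g * g = g ^ 3 by simp [pow_succ], ← hq.1, pow_orderOf_eq_one, one_smul]
        have h1 : g • g • x ≠ g • x := fun e => hq.2 (MulAction.injective g e)
        have h2 : g • g • x ≠ x := fun e => hq.2 (by
          have := congrArg (g • ·) e; simp only [h3g] at this; exact this.symm)
        intro i j e
        fin_cases i <;> fin_cases j <;> simp [hq.2, Ne.symm hq.2, h1, Ne.symm h1, h2, Ne.symm h2] at e ⊢
      · rintro ⟨g, x⟩ hq ⟨g', x'⟩ hq' e
        simp only [Finset.mem_sigma, T, Fx, Finset.mem_filter, Finset.mem_univ, true_and, Finset.mem_compl] at hq hq'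
        have e0 := DFunLike.congr_fun e 0
        have e1 := DFunLike.congr_fun e 1
        have e2 := DFunLike.congr_fun e 2
        change x = x' at e0
        change g • x = g' • x' at e1
        change g • g • x = g' • g' • x' at e2
        subst e0
        have h1 : g • g • x ≠ g • x := fun e => hq.2 (MulAction.injective g e)
        have h3g : g • g • g • x = x := by
          rw [← mul_smul, ← mul_smul, show g * g * g = g ^ 3 by simp [pow_succ], ← hq.1, pow_orderOf_eq_one, one_smul]
        have h3g' : g' • g' • g' • x = x := by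
          rw [← mul_smul, ← mul_smul, show g' * g' * g' = g' ^ 3 by simp [pow_succ], ← hq'.1, pow_orderOf_eq_one, one_smul]
        have h2 : g • g • x ≠ x := fun e => hq.2 (by
          have := congrArg (g • ·) e; simp only [h3g] at this; exact this.symm)
        have : g'⁻¹ * g = 1 := by
          refine hfix3 _ x (g • x) (g • g • x) (Ne.symm hq.2) (Ne.symm h2) (Ne.symm h1) ?_ ?_ ?_
          · rw [mul_smul, inv_smul_eq_iff]; exact e1
          · rw [mul_smul, inv_smul_eq_iff, e2, e1]
          · rw [mul_smul, inv_smul_eq_iff, h3g, e2, h3g']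
        rw [inv_mul_eq_one] at this
        subst this
        rfl
      · intro u _
        have h01 : u 0 ≠ u 1 := fun e => absurd (u.injective e) (by decide)
        have h02 : u 0 ≠ u 2 := fun e => absurd (u.injective e) (by decide)
        have h12 : u 1 ≠ u 2 := fun e => absurd (u.injective e) (by decide)
        obtain ⟨g, g0, g1, g2⟩ := h3' (u 0) (u 1) (u 2) (u 1) (u 2) (u 0) h01 h02 h12 h12 h01.symm h02.symm
        have hg3 : g ^ 3 = 1 := by
          refine hfix3 _ (u 0) (u 1) (u 2) h01 h02 h12 ?_ ?_ ?_ <;>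
            simp only [pow_succ, pow_zero, one_mul, mul_smul, g0, g1, g2]
        have hg1 : g ≠ 1 := fun e => h01 (by rw [e, one_smul] at g0; exact g0)
        refine ⟨⟨g, u 0⟩, ?_, ?_⟩
        · simp only [Finset.mem_sigma, T, Fx, Finset.mem_filter, Finset.mem_univ, true_and, Finset.mem_compl]
          exact ⟨orderOf_eq_prime hg3 hg1, fun e => h01 (e.symm.trans g0)⟩
        · ext i; fin_cases i
          · rfl
          · exact g0
          · exact (congrArg (g • ·) g0).trans g1
    rw [Finset.card_sigma, Finset.sum_const_nat (m := n - 2) (fun g hg => by rw [Finset.card_compl, hF2 g hg]),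
      Fintype.card_embedding_eq, Fintype.card_fin, ← hn] at e
    rw [e]
    simp [Nat.descFactorial_succ, mul_assoc, mul_comm, mul_left_comm]
  have hTcard : T.card = n * (n - 1) := Nat.eq_of_mul_eq_mul_right (by omega) hT
  -- counting through fixed pairs
  let Tp : α × α → Finset G := fun q => T.filter fun g => g • q.1 = q.1 ∧ g • q.2 = q.2
  have hconj : ∀ q : α × α, q.1 ≠ q.2 → (Tp q).card = (Tp (a, b)).card := by
    intro q hq
    obtain ⟨c, hca, hcb⟩ : ∃ c, c ≠ q.1 ∧ c ≠ q.2 := by
      obtain ⟨c, hc⟩ : ∃ c, c ∉ ({q.1, q.2} : Finset α) := by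
        by_contra h; push Not at h
        have := Finset.card_le_card (fun x _ => h x : Finset.univ ⊆ _)
        rw [Finset.card_univ, Finset.card_pair hq] at this; omega
      simp only [Finset.mem_insert, Finset.mem_singleton, not_or] at hc
      exact ⟨c, hc⟩
    obtain ⟨d, hda, hdb⟩ : ∃ c, c ≠ a ∧ c ≠ b := by
      obtain ⟨c, hc⟩ : ∃ c, c ∉ ({a, b} : Finset α) := by
        by_contra h; push Not at h
        have := Finset.card_le_card (fun x _ => h x : Finset.univ ⊆ _)
        rw [Finset.card_univ, Finset.card_pair hab] at this; omega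
      simp only [Finset.mem_insert, Finset.mem_singleton, not_or] at hc
      exact ⟨c, hc⟩
    obtain ⟨k, k1, k2, -⟩ := h3' q.1 q.2 c a b d hq hca.symm hcb.symm hab hda.symm hdb.symm
    refine Finset.card_equiv (MulAut.conj k).toEquiv fun g => ?_
    simp only [Tp, T, Finset.mem_filter, Finset.mem_univ, true_and]
    have ho : orderOf (k * g * k⁻¹) = orderOf g := (orderOf_injective (MulAut.conj k).toMonoidHom (MulAut.conj k).injective g)
    change _ ↔ orderOf (k * g * k⁻¹) = 3 ∧ (k * g * k⁻¹) • a = a ∧ (k * g * k⁻¹) • b = b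
    rw [ho, mul_smul, mul_smul, mul_smul, mul_smul, inv_smul_eq_iff.2 k1.symm, inv_smul_eq_iff.2 k2.symm, ← k1, ← k2,
      smul_left_cancel_iff, smul_left_cancel_iff]
  have ht : (Tp (a, b)).card = 2 := by
    have e : (T.sigma fun g => (Fx g).offDiag).card = ((Finset.univ : Finset α).offDiag.sigma Tp).card := by
      refine Finset.card_bij (fun q _ => ⟨q.2, q.1⟩) ?_ ?_ ?_
      · rintro ⟨g, x, y⟩ hq
        simp only [Finset.mem_sigma, Finset.mem_offDiag, Fx, Tp, Finset.mem_filter, Finset.mem_univ, true_and] at hq ⊢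
        exact ⟨hq.2.2.2, hq.1, hq.2.1, hq.2.2.1⟩
      · rintro ⟨g, x⟩ _ ⟨g', x'⟩ _ e
        simp only [Sigma.mk.injEq, heq_eq_eq] at e
        obtain ⟨rfl, rfl⟩ := e
        rfl
      · rintro ⟨⟨x, y⟩, g⟩ hq
        simp only [Finset.mem_sigma, Finset.mem_offDiag, Tp, Finset.mem_filter, Finset.mem_univ, true_and] at hq
        exact ⟨⟨g, x, y⟩, by simp [Fx, hq.1, hq.2.1, hq.2.2.1, hq.2.2.2], rfl⟩
    rw [Finset.card_sigma, Finset.card_sigma, Finset.sum_const_nat (m := 2) (fun g hg => by
        rw [Finset.offDiag_card, hF2 g hg]), hTcard,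
      Finset.sum_const_nat (m := (Tp (a, b)).card) (fun q hq => hconj q (Finset.mem_offDiag.1 hq).2.2),
      Finset.offDiag_card, Finset.card_univ, ← hn, ← Nat.mul_sub_one] at e
    exact (Nat.eq_of_mul_eq_mul_left (Nat.mul_pos (by omega) (by omega)) e).symm
  -- conclusion
  have hmem : ∀ C : Subgroup G, C ≤ MulAction.stabilizer G a ⊓ MulAction.stabilizer G b → Nat.card C = 3 →
      ∃ g : G, C = Subgroup.zpowers g ∧ g ∈ Tp (a, b) ∧ g⁻¹ ∈ Tp (a, b) ∧ g⁻¹ ≠ g := by
    intro C hC hC3
    obtain ⟨x, hx⟩ := exists_prime_orderOf_dvd_card' (G := C) 3 (hC3 ▸ dvd_rfl)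
    have hx' : orderOf (x : G) = 3 := by rw [Subgroup.orderOf_coe, hx]
    refine ⟨x, (Subgroup.eq_of_le_of_card_ge (Subgroup.zpowers_le.2 x.2)
      (by rw [Nat.card_zpowers, hx', hC3])).symm, ?_, ?_, ?_⟩
    · simp only [Tp, T, Finset.mem_filter, Finset.mem_univ, true_and]
      exact ⟨hx', (hC x.2).1, (hC x.2).2⟩
    · simp only [Tp, T, Finset.mem_filter, Finset.mem_univ, true_and, orderOf_inv]
      exact ⟨hx', (hC (C.inv_mem x.2)).1, (hC (C.inv_mem x.2)).2⟩
    · intro e
      have h2 : (x : G) ^ 2 = 1 := by rw [sq]; nth_rewrite 1 [← e]; exact inv_mul_cancel _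
      have := orderOf_dvd_of_pow_eq_one h2
      rw [hx'] at this
      exact absurd (Nat.le_of_dvd (by norm_num) this) (by norm_num)
  obtain ⟨g, rfl, hg, hg', hgne⟩ := hmem A hA hA3
  obtain ⟨h, rfl, hh, -, -⟩ := hmem B hB hB3
  have hsub : ({g, g⁻¹} : Finset G) = Tp (a, b) := by
    refine Finset.eq_of_subset_of_card_le (Finset.insert_subset hg (Finset.singleton_subset_iff.2 hg')) ?_
    rw [ht, Finset.card_pair (Ne.symm hgne)]
  rw [← hsub, Finset.mem_insert, Finset.mem_singleton] at hh
  rcases hh with rfl | rfl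
  · rfl
  · exact Subgroup.zpowers_inv.symm

end Cfsg.Agent.S0728
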