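import Cfsg.Statements.S0733
import Mathlib.GroupTheory.GroupAction.Primitive
import Mathlib.Algebra.Module.ZMod

set_option autoImplicit false
open Cfsg
open scoped Pointwise

namespace Cfsg.Agent.S0733

/-- A permutation group of affine type — generated by the translations of a finite vector space `V` over `ZMod p` together with a group `G₀` of linear automorphisms — is primitive on `V` if and only if `G₀` is irreducible on `V`. -/
theorem result {p : ℕ} [Fact p.Prime] {V : Type*} [AddCommGroup V] [Module (ZMod p) V] [Finite V] [Nontrivial V] (G₀ : Subgroup (V ≃ₗ[ZMod p] V)) (G : Subgroup (Equiv.Perm V)) (hG : ∀ σ : Equiv.Perm V, σ ∈ G ↔ ∃ g ∈ G₀, ∃ b : V, ∀ x : V, σ x = (g : V ≃ₗ[ZMod p] V) x + b) : MulAction.IsPreprimitive G V ↔ ∀ W : Submodule (ZMod p) V, (∀ g ∈ G₀, ∀ v ∈ W, (g : V ≃ₗ[ZMod p] V) v ∈ W) → W = ⊥ ∨ W = ⊤ := by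
  classical
  have hmem : ∀ g ∈ G₀, ∀ b : V, ∃ σ : G, ∀ x : V, (σ : Equiv.Perm V) x = g x + b :=
    fun g hg b => ⟨⟨g.toEquiv.trans (Equiv.addRight b), (hG _).mpr ⟨g, hg, b, fun x => rfl⟩⟩, fun x => rfl⟩
  constructor
  · intro hP W hW
    by_cases hWb : W = ⊥
    · exact Or.inl hWb
    right
    have hblk : MulAction.IsBlock G (W : Set V) := by
      rw [MulAction.isBlock_iff_smul_eq_of_nonempty]
      rintro σ ⟨y, ⟨w, hw, hwy⟩, hy⟩
      obtain ⟨g, hg, b, hσ⟩ := (hG _).mp σ.2
      change (σ : Equiv.Perm V) w = y at hwy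
      rw [hσ] at hwy
      have hb : b ∈ W := by
        have := W.sub_mem (show y ∈ W from hy) (hW g hg w hw)
        rwa [← hwy, add_sub_cancel_left] at this
      ext x
      constructor
      · rintro ⟨u, hu, rfl⟩
        change (σ : Equiv.Perm V) u ∈ W
        rw [hσ]; exact W.add_mem (hW g hg u hu) hb
      · intro hx
        refine ⟨(g⁻¹ : V ≃ₗ[ZMod p] V) (x - b), hW _ (inv_mem hg) _ (W.sub_mem hx hb), ?_⟩
        change (σ : Equiv.Perm V) ((g⁻¹ : V ≃ₗ[ZMod p] V) (x - b)) = x
        rw [hσ, ← LinearEquiv.mul_apply, mul_inv_cancel]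
        exact sub_add_cancel x b
    rcases MulAction.IsPreprimitive.isTrivialBlock_of_isBlock hblk with h | h
    · exfalso
      obtain ⟨w, hw, hw0⟩ := (Submodule.ne_bot_iff W).mp hWb
      exact hw0 (h (show w ∈ (W : Set V) from hw) (show (0 : V) ∈ (W : Set V) from W.zero_mem))
    · exact eq_top_iff.mpr fun x _ => (h ▸ Set.mem_univ x : x ∈ (W : Set V))
  · intro hirr
    have htr : MulAction.IsPretransitive G V := ⟨fun x y => by
      obtain ⟨σ, hσ⟩ := hmem 1 (one_mem _) (y - x)
      exact ⟨σ, show (σ : Equiv.Perm V) x = y by rw [hσ]; simp⟩⟩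
    refine MulAction.IsPreprimitive.of_isTrivialBlock_base (0 : V) ?_
    intro B h0 hB
    have htrans : ∀ b ∈ B, ∀ x ∈ B, x + b ∈ B := by
      intro b hb x hx
      obtain ⟨σ, hσ⟩ := hmem 1 (one_mem _) b
      have hσB : σ • B = B := (MulAction.isBlock_iff_smul_eq_of_nonempty.mp hB)
        ⟨b, ⟨0, h0, show (σ : Equiv.Perm V) 0 = b by rw [hσ]; simp⟩, hb⟩
      exact hσB ▸ ⟨x, hx, show (σ : Equiv.Perm V) x = x + b by rw [hσ]; simp⟩
    let A : AddSubmonoid V := { carrier := B, zero_mem' := h0, add_mem' := fun {x y} hx hy => htrans y hy x hx }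
    let W : Submodule (ZMod p) V :=
      { carrier := B
        zero_mem' := h0
        add_mem' := fun {x y} hx hy => htrans y hy x hx
        smul_mem' := fun c x hx => by
          have : c • x = c.val • x := by
            rw [← Nat.cast_smul_eq_nsmul (ZMod p), ZMod.natCast_zmod_val]
          rw [this]
          exact A.nsmul_mem hx _ }
    have hinv : ∀ g ∈ G₀, ∀ v ∈ W, (g : V ≃ₗ[ZMod p] V) v ∈ W := by
      intro g hg v hv
      obtain ⟨σ, hσ⟩ := hmem g hg 0
      have hσB : σ • B = B := (MulAction.isBlock_iff_smul_eq_of_nonempty.mp hB)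
        ⟨0, ⟨0, h0, show (σ : Equiv.Perm V) 0 = 0 by rw [hσ]; simp⟩, h0⟩
      exact (hσB ▸ ⟨v, hv, show (σ : Equiv.Perm V) v = g v by rw [hσ]; simp⟩ : g v ∈ B)
    rcases hirr W hinv with h | h
    · exact Or.inl fun x hx y hy => by
        have h1 : x ∈ W := hx
        have h2 : y ∈ W := hy
        rw [h, Submodule.mem_bot] at h1 h2
        rw [h1, h2]
    · exact Or.inr (Set.eq_univ_of_forall fun x => (h ▸ Submodule.mem_top : x ∈ W))

end Cfsg.Agent.S0733
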