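import Cfsg.Statements.S0734


set_option autoImplicit false
open Cfsg
open scoped Pointwise

namespace Cfsg.Agent.S0734

/-- Higman's criterion for primitivity: a transitive action on a finite set is primitive if and only if every non-trivial orbital graph (edges = images of a fixed pair of distinct points) is connected. -/
theorem result {G : Type*} [Group G] {Ω : Type*} [Finite Ω] [MulAction G Ω] [MulAction.IsPretransitive G Ω] [Nontrivial Ω] : MulAction.IsPreprimitive G Ω ↔ ∀ a b : Ω, a ≠ b → (SimpleGraph.fromRel fun x y : Ω => ∃ g : G, g • a = x ∧ g • b = y).Connected := by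
  classical
  set gr := fun a b : Ω => (SimpleGraph.fromRel fun x y : Ω => ∃ g : G, g • a = x ∧ g • b = y)
  have hadj : ∀ (a b : Ω) (g : G) (x y : Ω), (gr a b).Adj x y → (gr a b).Adj (g • x) (g • y) := by
    intro a b g x y h
    rw [SimpleGraph.fromRel_adj] at h ⊢
    refine ⟨fun e => h.1 (smul_left_cancel g e), ?_⟩
    rcases h.2 with ⟨k, h1, h2⟩ | ⟨k, h1, h2⟩
    · exact Or.inl ⟨g * k, by rw [mul_smul, h1], by rw [mul_smul, h2]⟩
    · exact Or.inr ⟨g * k, by rw [mul_smul, h1], by rw [mul_smul, h2]⟩
  have hreach : ∀ (a b : Ω) (g : G) (x y : Ω), (gr a b).Reachable x y →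
      (gr a b).Reachable (g • x) (g • y) := by
    intro a b g x y h
    exact h.map ⟨fun z => g • z, fun {u v} huv => hadj a b g u v huv⟩
  constructor
  · intro hP a b hab
    set B : Set Ω := {x | (gr a b).Reachable a x} with hB
    have hblk : MulAction.IsBlock G B := by
      rw [MulAction.isBlock_iff_smul_eq_of_nonempty]
      rintro g ⟨z, hz1, hz2⟩
      obtain ⟨w, hw, rfl⟩ := hz1
      have hga : (gr a b).Reachable a (g • a) :=
        hz2.trans (hreach a b g _ _ hw).symm
      ext x
      constructor
      · rintro ⟨u, hu, rfl⟩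
        exact hga.trans (hreach a b g _ _ hu)
      · intro hx
        refine ⟨g⁻¹ • x, ?_, smul_inv_smul g x⟩
        have := hreach a b g⁻¹ _ _ (hga.symm.trans hx)
        rwa [inv_smul_smul] at this
    have hab' : (gr a b).Reachable a b :=
      SimpleGraph.Adj.reachable (by
        rw [SimpleGraph.fromRel_adj]; exact ⟨hab, Or.inl ⟨1, one_smul _ _, one_smul _ _⟩⟩)
    rcases MulAction.IsPreprimitive.isTrivialBlock_of_isBlock hblk with h | h
    · exact absurd (h (SimpleGraph.Reachable.refl _ : a ∈ B) (hab' : b ∈ B)) hab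
    · haveI : Nonempty Ω := ⟨a⟩
      refine ⟨fun x y => ?_⟩
      have hx : x ∈ B := h ▸ Set.mem_univ x
      have hy : y ∈ B := h ▸ Set.mem_univ y
      exact hx.symm.trans hy
  · intro hconn
    obtain ⟨a₀⟩ := (inferInstance : Nonempty Ω)
    refine MulAction.IsPreprimitive.of_isTrivialBlock_base a₀ ?_
    intro B ha hB
    by_cases hs : B.Subsingleton
    · exact Or.inl hs
    · right
      obtain ⟨c, hc, d, hd, hcd⟩ := Set.not_subsingleton_iff.mp hs
      have hstep : ∀ x y, (gr c d).Adj x y → x ∈ B → y ∈ B := by
        intro x y hxy hx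
        rw [SimpleGraph.fromRel_adj] at hxy
        rcases hxy.2 with ⟨k, h1, h2⟩ | ⟨k, h1, h2⟩
        all_goals
          have hk : k • B = B := by
            refine (MulAction.isBlock_iff_smul_eq_of_nonempty.mp hB) ⟨x, ?_, hx⟩
            first
              | exact h1 ▸ Set.smul_mem_smul_set hc
              | exact h2 ▸ Set.smul_mem_smul_set hd
          first
            | exact hk ▸ h2 ▸ Set.smul_mem_smul_set hd
            | exact hk ▸ h1 ▸ Set.smul_mem_smul_set hc
      refine Set.eq_univ_of_forall fun x => ?_
      obtain ⟨w⟩ := (hconn c d hcd).preconnected c x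
      have key : ∀ u v : Ω, (gr c d).Walk u v → u ∈ B → v ∈ B := by
        intro u v w
        induction w with
        | nil => exact id
        | cons h _ ih => exact fun hu => ih (hstep _ _ h hu)
      exact key _ _ w hc

end Cfsg.Agent.S0734
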