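import Cfsg.Statements.S0735
import Mathlib.GroupTheory.Perm.Cycle.Type
import Mathlib.GroupTheory.GroupAction.MultipleTransitivity

set_option autoImplicit false
open Cfsg
open scoped Pointwise

namespace Cfsg.Agent.S0735

/-- A 2-homogeneous permutation group (transitive on 2-subsets) of even order is doubly transitive; a non-trivial 2-homogeneous group is primitive. -/
theorem result {α : Type*} [Fintype α] [DecidableEq α] (G : Subgroup (Equiv.Perm α)) (h2 : MulAction.IsPretransitive G (Set.powersetCard α 2)) (hα : 3 ≤ Fintype.card α) : (Even (Nat.card G) → MulAction.IsMultiplyPretransitive G α 2) ∧ (G ≠ ⊥ → MulAction.IsPreprimitive G α) := by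
  classical
  have hpair : ∀ a b c d : α, a ≠ b → c ≠ d →
      ∃ g : G, (g • a = c ∧ g • b = d) ∨ (g • a = d ∧ g • b = c) := by
    intro a b c d hab hcd
    obtain ⟨g, hg⟩ := h2.exists_smul_eq ⟨{a, b}, Finset.card_pair hab⟩ ⟨{c, d}, Finset.card_pair hcd⟩
    refine ⟨g, ?_⟩
    have hset : ∀ x, (x = a ∨ x = b) → (g • x = c ∨ g • x = d) := by
      intro x hx
      have h1 : g • x ∈ (g • (⟨{a, b}, Finset.card_pair hab⟩ : Set.powersetCard α 2) : Set.powersetCard α 2).1 :=
        Finset.smul_mem_smul_finset (by simpa using hx)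
      rw [hg] at h1
      simpa using h1
    have hne : g • a ≠ g • b := fun e => hab (smul_left_cancel g e)
    rcases hset a (Or.inl rfl) with h1 | h1 <;> rcases hset b (Or.inr rfl) with h2 | h2
    · exact absurd (h1.trans h2.symm) hne
    · exact Or.inl ⟨h1, h2⟩
    · exact Or.inr ⟨h1, h2⟩
    · exact absurd (h1.trans h2.symm) hne
  have htr : MulAction.IsPretransitive G α := by
    refine ⟨fun x y => ?_⟩
    by_cases hxy : x = y
    · exact ⟨1, by rw [one_smul]; exact hxy⟩
    obtain ⟨z, hz⟩ : ∃ z, z ∉ ({x, y} : Finset α) := by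
      by_contra hc
      push Not at hc
      have := Finset.card_le_card (s := Finset.univ) (t := ({x, y} : Finset α)) (fun z _ => hc z)
      rw [Finset.card_univ, Finset.card_pair hxy] at this
      omega
    simp only [Finset.mem_insert, Finset.mem_singleton, not_or] at hz
    obtain ⟨g, ⟨h1, -⟩ | ⟨h1, h2⟩⟩ := hpair x z y z (fun e => hz.1 e.symm) (fun e => hz.2 e.symm)
    · exact ⟨g, h1⟩
    · obtain ⟨k, ⟨k1, k2⟩ | ⟨k1, k2⟩⟩ := hpair x y z y hxy hz.2
      · -- x to z, fixing y; then z to y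
        exact ⟨g * k, by rw [mul_smul, k1, h2]⟩
      · exact ⟨k, k1⟩
  refine ⟨fun heven => ?_, fun _ => ?_⟩
  · haveI : Fintype G := Fintype.ofFinite _
    obtain ⟨t, ht⟩ := exists_prime_orderOf_dvd_card' (G := G) 2 (even_iff_two_dvd.mp heven)
    have ht1 : t ≠ 1 := fun e => by simp [e] at ht
    obtain ⟨c, hc⟩ : ∃ c : α, t • c ≠ c := by
      by_contra hc
      push Not at hc
      exact ht1 (Subtype.ext (Equiv.ext hc))
    have htt : t • t • c = c := by
      have : t * t = 1 := by rw [← sq, ← ht, pow_orderOf_eq_one]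
      rw [smul_smul, this, one_smul]
    rw [MulAction.is_two_pretransitive_iff]
    intro a b c' d' hab hcd
    obtain ⟨g, hg⟩ := hpair a b c (t • c) hab hc.symm
    obtain ⟨k, hk⟩ := hpair c (t • c) c' d' hc.symm hcd
    obtain ⟨g', hg'a, hg'b⟩ : ∃ g' : G, g' • a = c ∧ g' • b = t • c := by
      rcases hg with hg | ⟨h1, h2⟩
      · exact ⟨g, hg⟩
      · exact ⟨t * g, by rw [mul_smul, h1, htt], by rw [mul_smul, h2]⟩
    obtain ⟨k', hk'a, hk'b⟩ : ∃ k' : G, k' • c = c' ∧ k' • (t • c) = d' := by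
      rcases hk with hk | ⟨h1, h2⟩
      · exact ⟨k, hk⟩
      · exact ⟨k * t, by rw [mul_smul, h2], by rw [mul_smul, htt, h1]⟩
    exact ⟨k' * g', by rw [mul_smul, hg'a, hk'a], by rw [mul_smul, hg'b, hk'b]⟩
  · obtain ⟨a⟩ : Nonempty α := Fintype.card_pos_iff.mp (by omega)
    refine MulAction.IsPreprimitive.of_isTrivialBlock_base a ?_
    intro B ha hB
    by_cases hs : B.Subsingleton
    · exact Or.inl hs
    right
    obtain ⟨c, hc, d, hd, hcd⟩ := Set.not_subsingleton_iff.mp hs
    refine Set.eq_univ_of_forall fun x => ?_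
    by_cases hxc : x = c
    · exact hxc ▸ hc
    obtain ⟨g, hg⟩ := hpair c d c x hcd (fun e => hxc e.symm)
    have hgB : g • B = B := by
      refine (MulAction.isBlock_iff_smul_eq_of_nonempty.mp hB) ⟨c, ?_, hc⟩
      rcases hg with ⟨h1, -⟩ | ⟨-, h2⟩
      · exact h1 ▸ Set.smul_mem_smul_set hc
      · exact h2 ▸ Set.smul_mem_smul_set hd
    rcases hg with ⟨-, h2⟩ | ⟨h1, -⟩
    · exact hgB ▸ h2 ▸ Set.smul_mem_smul_set hd
    · exact hgB ▸ h1 ▸ Set.smul_mem_smul_set hc

end Cfsg.Agent.S0735
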