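import Cfsg.Statements.S0736
import Mathlib

set_option autoImplicit false
open Cfsg

namespace Cfsg.Agent.S0736

/-- A `k`-homogeneous permutation group of degree `n`, `k ≥ 2`, with `k + q - 1 ≤ n` for every prime power `q` dividing `k`, is `(k-1)`-homogeneous. -/
theorem result {α : Type*} [Fintype α] [DecidableEq α] (G : Subgroup (Equiv.Perm α)) {k : ℕ} (hk : 2 ≤ k) (hG : MulAction.IsPretransitive G (Set.powersetCard α k)) (hq : ∀ q : ℕ, IsPrimePow q → q ∣ k → k + q - 1 ≤ Fintype.card α) : MulAction.IsPretransitive G (Set.powersetCard α (k - 1)) := by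
  classical
  set n := Fintype.card α with hn
  have hkn : k < n := by
    obtain ⟨p, hp, hpk⟩ := Nat.exists_prime_and_dvd (show k ≠ 1 by omega)
    have := hq p hp.isPrimePow hpk
    have := hp.two_le
    omega
  have hlucas : ∀ {p : ℕ}, p.Prime → ∀ (e j : ℕ), (p ^ e * j + (p ^ e - 1)).choose (p ^ e - 1) ≡ 1 [MOD p] := by
    intro p hp e
    haveI : Fact p.Prime := ⟨hp⟩
    induction e with
    | zero => intro j; simp [Nat.ModEq.refl]
    | succ e ih =>
      intro j
      have h1 : 1 ≤ p ^ e := Nat.one_le_pow _ _ hp.pos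
      have hp1 : p ^ (e + 1) = p * p ^ e := pow_succ' p e
      have hK : p ^ (e + 1) - 1 = (p - 1) + p * (p ^ e - 1) := by
        have h3 : p * (p ^ e - 1) = p * p ^ e - p := Nat.mul_sub_one _ _
        have h4 : p ≤ p * p ^ e := Nat.le_mul_of_pos_right _ h1
        have h5 := hp.one_le
        omega
      have hN : p ^ (e + 1) * j + (p ^ (e + 1) - 1) = (p - 1) + p * (p ^ e * j + (p ^ e - 1)) := by
        rw [hK, hp1, Nat.mul_add, mul_assoc]; omega
      have hlt : p - 1 < p := Nat.sub_lt hp.pos Nat.one_pos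
      refine Choose.choose_modEq_choose_mod_mul_choose_div_nat.trans ?_
      rw [hN, hK, Nat.add_mul_mod_self_left, Nat.add_mul_mod_self_left, Nat.mod_eq_of_lt hlt,
        Nat.choose_self, one_mul, Nat.add_mul_div_left _ _ hp.pos, Nat.add_mul_div_left _ _ hp.pos,
        Nat.div_eq_of_lt hlt, zero_add, zero_add]
      exact ih j
  refine ⟨fun u v => ?_⟩
  -- the orbit of `u`
  let O : Finset (Finset α) := Finset.univ.filter fun s => ∃ g : G, (g • u : Set.powersetCard α (k - 1)).1 = s
  have hOcard : ∀ s ∈ O, s.card = k - 1 := by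
    intro s hs
    obtain ⟨g, rfl⟩ := (Finset.mem_filter.1 hs).2
    exact (g • u).2
  have himg : ∀ (g : G) {m : ℕ} (t : Set.powersetCard α m),
      (g • t : Set.powersetCard α m).1 = t.1.map ⟨fun x => g • x, MulAction.injective g⟩ := by
    intro g m t
    refine (Set.powersetCard.coe_smul (G := G) (g := g) (s := t)).trans ?_
    rw [Finset.smul_finset_def, Finset.map_eq_image]
    rfl
  have hOinv : ∀ (g : G) s, s ∈ O ↔ s.map ⟨fun x => g • x, MulAction.injective g⟩ ∈ O := by
    intro g s
    simp only [O, Finset.mem_filter, Finset.mem_univ, true_and]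
    constructor
    · rintro ⟨h, rfl⟩
      exact ⟨g * h, by rw [mul_smul, himg g]⟩
    · rintro ⟨h, hh⟩
      refine ⟨g⁻¹ * h, ?_⟩
      rw [mul_smul, himg g⁻¹, hh, Finset.map_map]
      convert Finset.map_refl (s := s)
      ext x
      exact inv_smul_smul g x
  let mem : Finset α → ℕ := fun F => (O.filter fun s => s ⊆ F).card
  obtain ⟨F₀, hF₀1, hF₀2⟩ : ∃ F : Finset α, u.1 ⊆ F ∧ F.card = k :=
    Finset.exists_superset_card_eq (by rw [u.2]; omega) hkn.le
  have hconst : ∀ F : Finset α, F.card = k → mem F = mem F₀ := by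
    intro F hF
    obtain ⟨g, hg⟩ := hG.exists_smul_eq ⟨F, hF⟩ ⟨F₀, hF₀2⟩
    have hg' : F.map ⟨fun x => g • x, MulAction.injective g⟩ = F₀ :=
      (himg g ⟨F, hF⟩).symm.trans (congrArg Subtype.val hg)
    refine Finset.card_bij (fun s _ => s.map ⟨fun x => g • x, MulAction.injective g⟩) ?_ ?_ ?_
    · intro s hs
      rw [Finset.mem_filter] at hs ⊢
      exact ⟨(hOinv g s).1 hs.1, hg' ▸ Finset.map_subset_map.2 hs.2⟩
    · intro s _ t _ e; exact Finset.map_injective _ e
    · intro t ht
      rw [Finset.mem_filter] at ht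
      obtain ⟨s, -, hs, rfl⟩ : ∃ s, True ∧ s ⊆ F ∧ t = s.map ⟨fun x => g • x, MulAction.injective g⟩ := by
        obtain ⟨s, hs, e⟩ := Finset.subset_map_iff.1 (hg' ▸ ht.2)
        exact ⟨s, trivial, hs, e⟩
      exact ⟨s, Finset.mem_filter.2 ⟨(hOinv g s).2 ht.1, hs⟩, rfl⟩
  set m := mem F₀ with hm
  have hm1 : 1 ≤ m := Finset.card_pos.2
    ⟨u.1, Finset.mem_filter.2 ⟨Finset.mem_filter.2 ⟨Finset.mem_univ _, 1, by rw [one_smul]⟩, hF₀1⟩⟩
  have hmk : m ≤ k := by
    refine (Finset.card_le_card (t := F₀.powersetCard (k - 1)) ?_).trans ?_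
    · intro s hs
      rw [Finset.mem_filter] at hs
      exact Finset.mem_powersetCard.2 ⟨hs.2, hOcard s hs.1⟩
    · rw [Finset.card_powersetCard, hF₀2, ← Nat.choose_symm (by omega), show k - (k - 1) = 1 by omega,
        Nat.choose_one_right]
  have hdvd : k ∣ m := by
    rw [Nat.dvd_iff_prime_pow_dvd_dvd]
    intro p e hp hpe
    rcases Nat.eq_zero_or_pos e with rfl | he
    · simp
    set q := p ^ e with hq'
    have hle := hq q (hp.isPrimePow.pow he.ne') hpe
    obtain ⟨S, -, hS⟩ := Finset.exists_subset_card_eq (s := (Finset.univ : Finset α)) (n := k + q - 1)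
      (by rw [Finset.card_univ]; exact hle)
    have hcount : m * (k + q - 1).choose k = q * (O.filter fun s => s ⊆ S).card := by
      have e1 : ∑ F ∈ S.powersetCard k, mem F = m * (k + q - 1).choose k := by
        rw [Finset.sum_const_nat (m := m) (fun F hF => hconst F (Finset.mem_powersetCard.1 hF).2),
          Finset.card_powersetCard, hS, mul_comm]
      have e2 : ∑ F ∈ S.powersetCard k, mem F = q * (O.filter fun s => s ⊆ S).card := by
        simp only [mem, Finset.card_filter]
        rw [Finset.sum_comm, Finset.mul_sum]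
        refine Finset.sum_congr rfl fun s hs => ?_
        rw [← Finset.card_filter]
        by_cases hsS : s ⊆ S
        · rw [if_pos hsS, mul_one]
          have hc := hOcard s hs
          rw [show (S.powersetCard k).filter (fun F => s ⊆ F) = (S \ s).image (fun x => insert x s) from ?_,
            Finset.card_image_of_injOn, Finset.card_sdiff_of_subset hsS, hS, hc]
          · omega
          · intro x hx y hy e
            simp only [Finset.coe_sdiff, Set.mem_diff, Finset.mem_coe] at hx hy
            have e' : insert x s = insert y s := e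
            exact ((Finset.mem_insert.1 (e' ▸ Finset.mem_insert_self x s : x ∈ insert y s)).resolve_right hx.2)
          · ext F
            simp only [Finset.mem_filter, Finset.mem_powersetCard, Finset.mem_image, Finset.mem_sdiff]
            constructor
            · rintro ⟨⟨hFS, hFc⟩, hsF⟩
              obtain ⟨x, hx⟩ := Finset.card_eq_one.1 (show (F \ s).card = 1 by
                rw [Finset.card_sdiff_of_subset hsF]; omega)
              have hxF : x ∈ F \ s := by rw [hx]; exact Finset.mem_singleton_self x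
              rw [Finset.mem_sdiff] at hxF
              refine ⟨x, ⟨hFS hxF.1, hxF.2⟩, ?_⟩
              rw [Finset.insert_eq, ← hx, Finset.sdiff_union_of_subset hsF]
            · rintro ⟨x, ⟨hxS, hxs⟩, rfl⟩
              exact ⟨⟨Finset.insert_subset hxS hsS, by rw [Finset.card_insert_of_notMem hxs]; omega⟩,
                Finset.subset_insert _ _⟩
        · rw [if_neg hsS, mul_zero, Finset.card_eq_zero, Finset.filter_eq_empty_iff]
          intro F hF hsF
          exact hsS (hsF.trans (Finset.mem_powersetCard.1 hF).1)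
      rw [← e1, e2]
    obtain ⟨j, hj⟩ := hpe
    have hcop : Nat.Coprime q ((k + q - 1).choose k) := by
      refine Nat.Coprime.pow_left e ((Nat.Prime.coprime_iff_not_dvd hp).2 fun hd => ?_)
      have hq1 : 1 ≤ q := Nat.one_le_pow _ _ hp.pos
      have h1 := hlucas hp e j
      rw [← hq', ← hj, show k + (q - 1) = k + q - 1 by omega] at h1
      rw [← Nat.choose_symm (show q - 1 ≤ k + q - 1 by omega), show k + q - 1 - (q - 1) = k by omega] at h1
      have := (Nat.modEq_zero_iff_dvd.2 hd).symm.trans h1
      exact hp.not_dvd_one (Nat.modEq_zero_iff_dvd.1 this.symm)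
    exact hcop.dvd_of_dvd_mul_right ⟨_, hcount⟩
  have hmeq : m = k := le_antisymm hmk (Nat.le_of_dvd hm1 hdvd)
  obtain ⟨F, hF1, hF2⟩ : ∃ F : Finset α, v.1 ⊆ F ∧ F.card = k :=
    Finset.exists_superset_card_eq (by rw [v.2]; omega) hkn.le
  have hall : O.filter (fun s => s ⊆ F) = F.powersetCard (k - 1) := by
    refine Finset.eq_of_subset_of_card_le (fun s hs => ?_) ?_
    · rw [Finset.mem_filter] at hs
      exact Finset.mem_powersetCard.2 ⟨hs.2, hOcard s hs.1⟩
    · rw [Finset.card_powersetCard, hF2, show (O.filter fun s => s ⊆ F).card = k from (hconst F hF2).trans hmeq,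
        ← Nat.choose_symm (by omega), show k - (k - 1) = 1 by omega, Nat.choose_one_right]
  have hv : v.1 ∈ O.filter fun s => s ⊆ F := by
    rw [hall]; exact Finset.mem_powersetCard.2 ⟨hF1, v.2⟩
  obtain ⟨g, hg⟩ := (Finset.mem_filter.1 (Finset.mem_filter.1 hv).1).2
  exact ⟨g, Subtype.ext hg⟩

end Cfsg.Agent.S0736
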