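import Cfsg.Statements.S0738


set_option autoImplicit false
open Cfsg

namespace Cfsg.Agent.S0738

theorem free_dvd {H α : Type*} [Group H] [Finite H] [MulAction H α] (Q : Set α) (hQ : Q.Finite)
    (hinv : ∀ h : H, ∀ x ∈ Q, h • x ∈ Q) (hfree : ∀ h : H, ∀ x ∈ Q, h • x = x → h = 1) :
    Nat.card H ∣ Nat.card Q := by
  classical
  haveI := Fintype.ofFinite H
  rw [Nat.card_coe_set_eq, Set.ncard_eq_toFinset_card _ hQ]
  set s := hQ.toFinset
  let orb : α → Finset α := fun x => Finset.univ.image fun h : H => h • x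
  rw [Finset.card_eq_sum_card_fiberwise (f := orb) (t := s.image orb) (fun x hx => Finset.mem_image_of_mem _ hx)]
  refine Finset.dvd_sum fun o ho => ?_
  obtain ⟨x, hx, rfl⟩ := Finset.mem_image.1 ho
  have hxQ : x ∈ Q := hQ.mem_toFinset.1 hx
  have : (s.filter fun y => orb y = orb x) = orb x := by
    ext y
    rw [Finset.mem_filter]
    constructor
    · rintro ⟨-, e⟩
      rw [← e]
      exact Finset.mem_image.2 ⟨1, Finset.mem_univ _, one_smul _ _⟩
    · intro hy
      obtain ⟨h, -, rfl⟩ := Finset.mem_image.1 hy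
      refine ⟨hQ.mem_toFinset.2 (hinv h x hxQ), ?_⟩
      ext z
      simp only [orb, Finset.mem_image, Finset.mem_univ, true_and]
      constructor
      · rintro ⟨k, rfl⟩; exact ⟨k * h, mul_smul k h x⟩
      · rintro ⟨k, rfl⟩; exact ⟨k * h⁻¹, by rw [mul_smul, inv_smul_smul]⟩
  rw [this]
  rw [Finset.card_image_of_injective _ (fun h k e => ?_), Finset.card_univ, Nat.card_eq_fintype_card]
  have := hfree (k⁻¹ * h) x hxQ (by rw [mul_smul, e, inv_smul_smul])
  exact (inv_mul_eq_one.1 this).symm

/-- Let a finite Zassenhaus group of degree `n + 1` have two-point stabilisers of order `d` with `2d ≥ n - 1`. Then a normal subgroup of a point stabiliser acting regularly on the remaining points is elementary abelian, and the degree is a prime power plus one. -/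
theorem result {G Ω : Type*} [Group G] [Finite G] [MulAction G Ω] [Fintype Ω] (hZ : Cfsg.IsZassenhausGroup G Ω) {a b : Ω} (hab : a ≠ b) (hd : Fintype.card Ω - 2 ≤ 2 * Nat.card ↥(MulAction.stabilizer G a ⊓ MulAction.stabilizer G b)) (F : Subgroup G) (hFle : F ≤ MulAction.stabilizer G a) (hFn : (F.subgroupOf (MulAction.stabilizer G a)).Normal) (hreg : ∀ y z : Ω, y ≠ a → z ≠ a → ∃! u : F, (u : G) • y = z) : IsMulCommutative F ∧ ∃ p f : ℕ, p.Prime ∧ (∀ u ∈ F, u ^ p = 1) ∧ Fintype.card Ω = p ^ f + 1 := by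
  classical
  obtain ⟨hfaith, h2, h3, ⟨g, hg1, c, c', hcc, hgc, hgc'⟩, -⟩ := hZ
  set H := MulAction.stabilizer G a ⊓ MulAction.stabilizer G b with hH
  set d := Nat.card H
  have hd0 : 0 < d := Nat.card_pos
  have hΩ3 : 3 ≤ Fintype.card Ω := by
    by_contra hlt
    refine hg1 (hfaith.eq_of_smul_eq_smul fun x => ?_)
    rw [one_smul]
    by_cases hx : x = c
    · rw [hx, hgc]
    by_cases hx' : x = c'
    · rw [hx', hgc']
    exfalso
    have : ({c, c', x} : Finset Ω).card ≤ Fintype.card Ω := Finset.card_le_univ _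
    rw [Finset.card_insert_of_notMem (by simp [hcc, Ne.symm hx]), Finset.card_insert_of_notMem (by simp [Ne.symm hx']),
      Finset.card_singleton] at this
    omega
  let e : F → {y : Ω // y ≠ a} := fun u => ⟨(u : G) • b, fun e => hab (by
    have ha : (u : G) • a = a := hFle u.2
    exact (smul_left_cancel _ (e.trans ha.symm)).symm)⟩
  have he : Function.Bijective e := by
    refine ⟨fun u v h => (hreg b _ hab.symm (e u).2).unique rfl (congrArg Subtype.val h).symm, fun y => ?_⟩
    obtain ⟨u, hu, -⟩ := hreg b y.1 hab.symm y.2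
    exact ⟨u, Subtype.ext hu⟩
  have hcardF : Nat.card F = Fintype.card Ω - 1 := by
    rw [Nat.card_eq_of_bijective e he, Nat.card_eq_fintype_card, Fintype.card_subtype_compl, Fintype.card_subtype_eq]
  have hnormF : ∀ h ∈ H, ∀ u ∈ F, h * u * h⁻¹ ∈ F := fun h hh u hu =>
    hFn.conj_mem ⟨u, hFle hu⟩ hu ⟨h, hh.1⟩
  letI : MulAction H G := MulAction.compHom G (ConjAct.toConjAct.toMonoidHom.comp H.subtype)
  have hact : ∀ (h : H) (u : G), h • u = (h : G) * u * (h : G)⁻¹ := fun h u => ConjAct.toConjAct_smul _ _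
  have hfree : ∀ (h : H) (u : G), u ∈ F → u ≠ 1 → h • u = u → h = 1 := by
    intro h u hu hu1 hh
    rw [hact] at hh
    have ha : (h : G) • a = a := h.2.1
    have hb : (h : G) • b = b := h.2.2
    have hub : u • b ≠ b := fun e' => hu1 (congrArg Subtype.val (he.1 (a₁ := (⟨u, hu⟩ : F)) (a₂ := 1)
      (Subtype.ext (show u • b = (1 : G) • b by rw [one_smul, e']))))
    have hua : u • b ≠ a := (e ⟨u, hu⟩).2
    have hfix : (h : G) • (u • b) = u • b := by
      rw [smul_smul, mul_inv_eq_iff_eq_mul.1 hh, ← smul_smul, hb]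
    exact Subtype.ext (h3 _ a b (u • b) hab hub.symm hua.symm ha hb hfix)
  have horb : ∀ P : Set G, P ⊆ (F : Set G) \ {1} → (∀ h ∈ H, ∀ u ∈ P, h * u * h⁻¹ ∈ P) → d ∣ Nat.card P :=
    fun P hP hi => free_dvd P (Set.toFinite _) (fun h x hx => by rw [hact]; exact hi h h.2 x hx)
      fun h x hx => hfree h x (hP hx).1 (hP hx).2
  have hn : Nat.card F - 1 ≤ 2 * d := by omega
  have hn2 : 2 ≤ Nat.card F := by omega
  -- invariant subgroups are trivial or everything
  have hsub : ∀ M : Subgroup G, M ≤ F → (∀ h ∈ H, ∀ u ∈ M, h * u * h⁻¹ ∈ M) → M ≠ ⊥ → M = F := by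
    intro M hMF hMi hM1
    by_contra hne
    have hk : 2 ≤ Nat.card M := by
      by_contra hlt
      exact hM1 (Subgroup.card_eq_one.1 (by have := Nat.card_pos (α := M); omega))
    have hlt : Nat.card M < Nat.card F := lt_of_le_of_ne (Subgroup.card_le_of_le hMF)
      fun e => hne (Subgroup.eq_of_le_of_card_ge hMF e.ge)
    have c1 : d ∣ Nat.card M - 1 := by
      have := horb ((M : Set G) \ {1}) (Set.diff_subset_diff_left hMF) fun h hh u hu =>
        ⟨hMi h hh u hu.1, fun e => hu.2 (conj_eq_one_iff.1 e)⟩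
      rwa [Nat.card_coe_set_eq, Set.ncard_diff_singleton_of_mem M.one_mem, ← Nat.card_coe_set_eq] at this
    have c2 : d ∣ Nat.card F - Nat.card M := by
      have := horb ((F : Set G) \ (M : Set G)) (fun u hu => ⟨hu.1, fun e => hu.2 (e ▸ M.one_mem)⟩)
        fun h hh u hu => ⟨hnormF h hh u hu.1, fun e => hu.2 (by
          have := hMi h⁻¹ (inv_mem hh) _ e
          rwa [show h⁻¹ * (h * u * h⁻¹) * h⁻¹⁻¹ = u by group] at this)⟩
      rwa [Nat.card_coe_set_eq, Set.ncard_diff hMF, ← Nat.card_coe_set_eq, ← Nat.card_coe_set_eq] at this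
    have l1 := Nat.le_of_dvd (by omega) c1
    have l2 := Nat.le_of_dvd (by omega) c2
    obtain ⟨i, hi⟩ := Subgroup.card_dvd_of_le hMF
    have hi2 : i = 1 ∨ 2 ≤ i := by
      rcases i with _ | _ | i
      · omega
      · exact Or.inl rfl
      · exact Or.inr (by omega)
    rcases hi2 with rfl | hi2
    · omega
    · have := Nat.mul_le_mul_left (Nat.card M) hi2
      omega
  -- the order of `F` is a prime power
  obtain ⟨p, hp, hpF⟩ := Nat.exists_prime_and_dvd (show Nat.card F ≠ 1 by omega)
  haveI := Fact.mk hp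
  have hdall : d ∣ Nat.card F - 1 := by
    have := horb ((F : Set G) \ {1}) le_rfl fun h hh u hu =>
      ⟨hnormF h hh u hu.1, fun e => hu.2 (conj_eq_one_iff.1 e)⟩
    rwa [Nat.card_coe_set_eq, Set.ncard_diff_singleton_of_mem F.one_mem, ← Nat.card_coe_set_eq] at this
  have honly : ∀ q : ℕ, q.Prime → q ∣ Nat.card F → q = p := by
    intro q hq hqF
    by_contra hqp
    haveI := Fact.mk hq
    obtain ⟨x, hx⟩ := exists_prime_orderOf_dvd_card' p hpF
    obtain ⟨y, hy⟩ := exists_prime_orderOf_dvd_card' q hqF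
    rw [← Subgroup.orderOf_coe] at hx hy
    have hord : ∀ (h : G) (u : G), orderOf (h * u * h⁻¹) = orderOf u := fun h u =>
      ((SemiconjBy.conj_mk h u).orderOf_eq h).symm
    let S : ℕ → Set G := fun r => {u : G | u ∈ F ∧ orderOf u = r}
    have hSd : ∀ r, 1 < r → ∀ w : F, orderOf (w : G) = r → d ∣ Nat.card (S r) ∧ 0 < Nat.card (S r) := by
      intro r hr w hw
      refine ⟨horb (S r) (fun u hu => ⟨hu.1, fun e => ?_⟩) (fun h hh u hu => ⟨hnormF h hh u hu.1, by rw [hord]; exact hu.2⟩), ?_⟩
      · have := hu.2; rw [Set.mem_singleton_iff.1 e, orderOf_one] at this; omega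
      · haveI : Nonempty (S r) := ⟨⟨(w : G), w.2, hw⟩⟩
        exact Nat.card_pos
    obtain ⟨dp, pp⟩ := hSd p hp.one_lt x hx
    obtain ⟨dq, pq⟩ := hSd q hq.one_lt y hy
    have hpq_sub : S p ∪ S q ⊆ (F : Set G) \ {1} := by
      rintro u (hu | hu)
      all_goals refine ⟨hu.1, fun e => ?_⟩
      all_goals have := hu.2
      all_goals rw [Set.mem_singleton_iff.1 e, orderOf_one] at this
      · exact hp.one_lt.ne this
      · exact hq.one_lt.ne this
    have hdisj : Disjoint (S p) (S q) := Set.disjoint_left.2 fun u hu hu' => hqp (hu'.2.symm.trans hu.2)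
    have hcardU := Set.ncard_le_ncard hpq_sub (Set.toFinite _)
    rw [Set.ncard_union_eq hdisj, Set.ncard_diff_singleton_of_mem F.one_mem, ← Nat.card_coe_set_eq,
      ← Nat.card_coe_set_eq, ← Nat.card_coe_set_eq] at hcardU
    have lp := Nat.le_of_dvd pp dp
    have lq := Nat.le_of_dvd pq dq
    have hSq : Nat.card (S q) = d := by
      obtain ⟨i, hi⟩ := dq
      have : Nat.card (↥(F : Set G)) = Nat.card F := rfl
      rcases i with _ | _ | i
      · omega
      · omega
      · have := Nat.mul_le_mul_left d (show 2 ≤ i + 2 by omega)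
        rw [show i + 1 + 1 = i + 2 from rfl] at hi
        omega
    -- every nonidentity element has order `p` or `q`
    have hall : (F : Set G) \ {1} ⊆ S p ∪ S q := by
      refine (Set.eq_of_subset_of_ncard_le hpq_sub ?_ (Set.toFinite _)).ge
      rw [Set.ncard_union_eq hdisj, Set.ncard_diff_singleton_of_mem F.one_mem, ← Nat.card_coe_set_eq,
        ← Nat.card_coe_set_eq, ← Nat.card_coe_set_eq]
      have : Nat.card (↥(F : Set G)) = Nat.card F := rfl
      omega
    letI : MulAction (Subgroup.zpowers (x : G)) G :=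
      MulAction.compHom G (ConjAct.toConjAct.toMonoidHom.comp (Subgroup.zpowers (x : G)).subtype)
    have hxF : Subgroup.zpowers (x : G) ≤ F := Subgroup.zpowers_le.2 x.2
    have hpd : p ∣ Nat.card (S q) := by
      have := free_dvd (H := Subgroup.zpowers (x : G)) (S q) (Set.toFinite _) (fun k u hu => by
          show (k : G) * u * (k : G)⁻¹ ∈ S q
          exact ⟨F.mul_mem (F.mul_mem (hxF k.2) hu.1) (F.inv_mem (hxF k.2)), by rw [hord]; exact hu.2⟩)
        fun k u hu e => by
          replace e : (k : G) * u * (k : G)⁻¹ = u := e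
          by_contra hk
          have ho : orderOf (k : G) = p := by
            have h1 : orderOf (k : G) ∣ p := hx ▸ orderOf_dvd_of_mem_zpowers k.2
            refine (hp.eq_one_or_self_of_dvd _ h1).resolve_left fun h0 => hk (Subtype.ext ?_)
            exact orderOf_eq_one_iff.1 h0
          have hcom : Commute (k : G) u := mul_inv_eq_iff_eq_mul.1 e
          have hku := hcom.orderOf_mul_eq_mul_orderOf_of_coprime (by
            rw [ho, hu.2]; exact (Nat.coprime_primes hp hq).2 (Ne.symm hqp))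
          rw [ho, hu.2] at hku
          have hmem : (k : G) * u ∈ F := F.mul_mem (hxF k.2) hu.1
          have hne1 : (k : G) * u ≠ 1 := fun e1 => by
            rw [e1, orderOf_one] at hku
            exact hp.one_lt.ne' (Nat.eq_one_of_mul_eq_one_right hku.symm)
          rcases hall ⟨hmem, hne1⟩ with h' | h'
          · have := h'.2; rw [hku] at this
            exact hq.one_lt.ne' ((Nat.mul_eq_left hp.ne_zero).1 this)
          · have := h'.2; rw [hku] at this
            exact hp.one_lt.ne' ((Nat.mul_eq_right hq.ne_zero).1 this)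
      rwa [Nat.card_zpowers, hx] at this
    rw [hSq] at hpd
    have h1 := hpd.trans hdall
    have h2 : p ∣ 1 := by
      have := Nat.dvd_sub hpF h1
      rwa [show Nat.card F - (Nat.card F - 1) = 1 by omega] at this
    exact hp.one_lt.ne' (Nat.dvd_one.1 h2)
  have hpow : Nat.card F = p ^ (Nat.card F).primeFactorsList.length :=
    Nat.eq_prime_pow_of_unique_prime_dvd (by omega) fun {q} hq hqF => honly q hq hqF
  have hFp : IsPGroup p F := IsPGroup.of_card hpow
  haveI : Nontrivial F := Finite.one_lt_card_iff_nontrivial.1 (by omega)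
  -- abelian
  set M := (Subgroup.center F).map F.subtype
  have hMF : M = F := by
    refine hsub M (Subgroup.map_subtype_le _) ?_ ?_
    · rintro h hh _ ⟨u, hu, rfl⟩
      refine ⟨⟨h * u * h⁻¹, hnormF h hh u u.2⟩, Subgroup.mem_center_iff.2 fun v => Subtype.ext ?_, rfl⟩
      have hv : h⁻¹ * (v : G) * h ∈ F := by
        have := hnormF h⁻¹ (inv_mem hh) v v.2
        rwa [inv_inv] at this
      have := congrArg (fun t => h * t * h⁻¹) (congrArg Subtype.val (Subgroup.mem_center_iff.1 hu ⟨_, hv⟩))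
      show (v : G) * (h * u * h⁻¹) = h * u * h⁻¹ * v
      simpa [mul_assoc] using this
    · intro e'
      rw [Subgroup.map_eq_bot_iff_of_injective _ F.subtype_injective] at e'
      exact (Subgroup.nontrivial_iff_ne_bot _).1 hFp.center_nontrivial e'
  have hcomm : ∀ u ∈ F, ∀ v ∈ F, u * v = v * u := by
    intro u hu v hv
    rw [← hMF] at hu
    obtain ⟨u', hu', rfl⟩ := hu
    exact (congrArg Subtype.val (Subgroup.mem_center_iff.1 hu' ⟨v, hv⟩)).symm
  refine ⟨⟨⟨fun u v => Subtype.ext (hcomm u u.2 v v.2)⟩⟩, p, _, hp, ?_, by rw [← hpow]; omega⟩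
  let M2 : Subgroup G :=
    { carrier := {u | u ∈ F ∧ u ^ p = 1}
      one_mem' := ⟨F.one_mem, one_pow p⟩
      mul_mem' := fun {u v} hu hv => ⟨F.mul_mem hu.1 hv.1, by
        rw [(show Commute u v from hcomm u hu.1 v hv.1).mul_pow, hu.2, hv.2, one_mul]⟩
      inv_mem' := fun {u} hu => ⟨F.inv_mem hu.1, by rw [inv_pow, hu.2, inv_one]⟩ }
  have hM2 : M2 = F := by
    refine hsub M2 (fun u hu => hu.1) (fun h hh u hu => ⟨hnormF h hh u hu.1, ?_⟩) ?_
    · rw [conj_pow, hu.2, mul_one, mul_inv_cancel]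
    · intro e'
      obtain ⟨x, hx⟩ := exists_prime_orderOf_dvd_card' p hpF
      have : (x : G) ∈ M2 := ⟨x.2, by rw [← hx, ← Subgroup.orderOf_coe, pow_orderOf_eq_one]⟩
      rw [e', Subgroup.mem_bot] at this
      rw [← Subgroup.orderOf_coe, this, orderOf_one] at hx
      exact hp.one_lt.ne hx
  intro u hu
  exact (hM2.ge hu).2

end Cfsg.Agent.S0738
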