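import Cfsg.Statements.S0740
import Mathlib

set_option autoImplicit false
open Cfsg

namespace Cfsg.Agent.S0740

/-- In a finite Zassenhaus group any two points `a ≠ b` are swapped by an involution; every such involution has exactly one fixed point when the degree is odd and 0 or 2 fixed points when the degree is even; and if the two-point stabiliser has even order, some such involution has exactly 2 fixed points. -/
theorem result {G Ω : Type*} [Group G] [Finite G] [MulAction G Ω] [Fintype Ω] (hZ : Cfsg.IsZassenhausGroup G Ω) {a b : Ω} (hab : a ≠ b) : (∃ s : G, orderOf s = 2 ∧ s • a = b ∧ s • b = a) ∧ (∀ s : G, orderOf s = 2 → s • a = b → s • b = a → (Odd (Fintype.card Ω) → Nat.card (MulAction.fixedBy Ω s) = 1) ∧ (Even (Fintype.card Ω) → Nat.card (MulAction.fixedBy Ω s) = 0 ∨ Nat.card (MulAction.fixedBy Ω s) = 2)) ∧ (Even (Fintype.card Ω) → Even (Nat.card ↥(MulAction.stabilizer G a ⊓ MulAction.stabilizer G b)) → ∃ s : G, orderOf s = 2 ∧ s • a = b ∧ s • b = a ∧ Nat.card (MulAction.fixedBy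 Ω s) = 2) := by
  classical
  obtain ⟨hF, h2, h3, -, -⟩ := hZ
  haveI := hF
  have h2' : ∀ {x y u v : Ω}, x ≠ y → u ≠ v → ∃ g : G, g • x = u ∧ g • y = v :=
    MulAction.is_two_pretransitive_iff.1 h2
  haveI : Fact (Nat.Prime 2) := ⟨Nat.prime_two⟩
  -- moving an involution
  have hmove : ∀ w : G, orderOf w = 2 → ∃ k : G, orderOf (k * w * k⁻¹) = 2 ∧ (k * w * k⁻¹) • a = b ∧
      (k * w * k⁻¹) • b = a ∧ Nat.card (MulAction.fixedBy Ω (k * w * k⁻¹)) = Nat.card (MulAction.fixedBy Ω w) := by
    intro w hw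
    obtain ⟨x, hx⟩ : ∃ x : Ω, w • x ≠ x := by
      by_contra h
      push Not at h
      have : w = 1 := eq_of_smul_eq_smul fun x : Ω => by rw [h x, one_smul]
      rw [this, orderOf_one] at hw
      omega
    have hww : w • w • x = x := by rw [← mul_smul, ← sq, ← hw, pow_orderOf_eq_one, one_smul]
    obtain ⟨k, hk1, hk2⟩ := h2' (Ne.symm hx) hab
    refine ⟨k, ?_, ?_, ?_, ?_⟩
    · exact (orderOf_injective (MulAut.conj k).toMonoidHom (MulAut.conj k).injective w).trans hw
    · rw [mul_smul, mul_smul, inv_smul_eq_iff.2 hk1.symm, hk2]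
    · rw [mul_smul, mul_smul, inv_smul_eq_iff.2 hk2.symm, hww, hk1]
    · refine Nat.card_congr ((MulAction.toPerm k).symm.subtypeEquiv fun y => ?_)
      simp only [MulAction.mem_fixedBy, MulAction.toPerm_symm_apply, mul_smul]
      exact eq_inv_smul_iff.symm.trans ⟨fun h => h, fun h => h⟩
  have hparity : ∀ s : G, orderOf s = 2 →
      Nat.card (MulAction.fixedBy Ω s) ≤ 2 ∧ Fintype.card Ω ≡ Nat.card (MulAction.fixedBy Ω s) [MOD 2] := by
    intro s hs
    refine ⟨?_, ?_⟩
    · by_contra hlt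
      rw [not_le, Nat.card_eq_fintype_card, Fintype.two_lt_card_iff] at hlt
      obtain ⟨⟨x, hx⟩, ⟨y, hy⟩, ⟨z, hz⟩, hxy, hxz, hyz⟩ := hlt
      have := h3 s x y z (fun e => hxy (Subtype.ext e)) (fun e => hyz (Subtype.ext e)) (fun e => hxz (Subtype.ext e))
        hx hy hz
      rw [this, orderOf_one] at hs
      omega
    · have hP : IsPGroup 2 (Subgroup.zpowers s) := IsPGroup.of_card (n := 1) (by rw [Nat.card_zpowers, hs, pow_one])
      have h := hP.card_modEq_card_fixedPoints Ω
      have he : MulAction.fixedPoints (Subgroup.zpowers s) Ω = MulAction.fixedBy Ω s := by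
        ext x
        simp only [MulAction.mem_fixedPoints, MulAction.mem_fixedBy]
        refine ⟨fun h => h ⟨s, Subgroup.mem_zpowers s⟩, fun h ⟨z, m, hm⟩ => ?_⟩
        subst hm
        exact (MulAction.stabilizer G x).zpow_mem h m
      rwa [he, Nat.card_eq_fintype_card (α := Ω)] at h
  refine ⟨?_, fun s hs _ _ => ⟨fun ho => ?_, fun he => ?_⟩, fun heven hH => ?_⟩
  · obtain ⟨g, hg1, hg2⟩ := h2' hab hab.symm
    have hev : 2 ∣ Nat.card G := by
      have hg0 : g ≠ 1 := fun e => hab (by rw [e, one_smul] at hg1; exact hg1)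
      by_contra hodd
      have hord : ¬ 2 ∣ orderOf g := fun h => hodd (h.trans (orderOf_dvd_natCard g))
      have h2g : g ^ 2 ∈ MulAction.stabilizer G a := by
        rw [MulAction.mem_stabilizer_iff, sq, mul_smul, hg1, hg2]
      have hmem : g ∈ MulAction.stabilizer G a := by
        have hgen : Subgroup.zpowers g ≤ MulAction.stabilizer G a := by
          rw [← Subgroup.eq_of_le_of_card_ge (Subgroup.zpowers_le.2 (Subgroup.pow_mem _ (Subgroup.mem_zpowers g) 2))
            (by rw [Nat.card_zpowers, Nat.card_zpowers,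
              Nat.Coprime.orderOf_pow ((Nat.Prime.coprime_iff_not_dvd Nat.prime_two).2 hord).symm])]
          exact Subgroup.zpowers_le.2 h2g
        exact hgen (Subgroup.mem_zpowers g)
      exact hab (hmem.symm.trans hg1)
    obtain ⟨w, hw⟩ := exists_prime_orderOf_dvd_card' 2 hev
    obtain ⟨k, h1, h2a, h2b, -⟩ := hmove w hw
    exact ⟨_, h1, h2a, h2b⟩
  · obtain ⟨h1, h2'⟩ := hparity s hs
    rw [Nat.odd_iff] at ho
    unfold Nat.ModEq at h2'
    omega
  · obtain ⟨h1, h2'⟩ := hparity s hs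
    rw [Nat.even_iff] at he
    unfold Nat.ModEq at h2'
    omega
  · obtain ⟨z, hz⟩ := exists_prime_orderOf_dvd_card' 2 (even_iff_two_dvd.1 hH)
    have hz' : orderOf (z : G) = 2 := by rw [Subgroup.orderOf_coe, hz]
    obtain ⟨h1, h2'⟩ := hparity _ hz'
    have hpos : 0 < Nat.card (MulAction.fixedBy Ω (z : G)) := by
      haveI : Nonempty (MulAction.fixedBy Ω (z : G)) := ⟨⟨a, z.2.1⟩⟩
      exact Nat.card_pos
    rw [Nat.even_iff] at heven
    unfold Nat.ModEq at h2'
    obtain ⟨k, e1, e2, e3, e4⟩ := hmove _ hz'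
    exact ⟨_, e1, e2, e3, e4.trans (by omega)⟩

end Cfsg.Agent.S0740
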