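import Cfsg.Statements.S0741
import Mathlib
-- import your own Cfsg.Agent.* helpers here

set_option autoImplicit false
open Cfsg

namespace Cfsg.Agent.S0741

/-- If the two-point stabilisers of a finite Zassenhaus group of degree `n + 1` have even order `d`, then `2d ≥ n - 1`. -/
theorem result {G Ω : Type*} [Group G] [Finite G] [MulAction G Ω] [Fintype Ω] (hZ : Cfsg.IsZassenhausGroup G Ω) {a b : Ω} (hab : a ≠ b) (heven : Even (Nat.card ↥(MulAction.stabilizer G a ⊓ MulAction.stabilizer G b))) : Fintype.card Ω - 2 ≤ 2 * Nat.card ↥(MulAction.stabilizer G a ⊓ MulAction.stabilizer G b) := by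
  classical
  haveI := Fintype.ofFinite G
  obtain ⟨-, h2, h3, -, -⟩ := hZ
  haveI : Fact (Nat.Prime 2) := ⟨Nat.prime_two⟩
  set H := MulAction.stabilizer G a ⊓ MulAction.stabilizer G b with hH
  have h2' : ∀ {a b c d : Ω}, a ≠ b → c ≠ d → ∃ g : G, g • a = c ∧ g • b = d :=
    fun {a b c d} h1 h1' => MulAction.is_two_pretransitive_iff.1 h2 h1 h1'
  have hex : ∀ z : Ω × Ω, ∃ i : G, z.1 ≠ z.2 → i * i = 1 ∧ i ≠ 1 ∧ i • z.1 = z.1 ∧ i • z.2 = z.2 := by
    intro z
    by_cases hz : z.1 = z.2
    · exact ⟨1, fun h => absurd hz h⟩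
    obtain ⟨g, g1, g2⟩ := h2' hab hz
    obtain ⟨x, hx⟩ := exists_prime_orderOf_dvd_card' (G := H) 2 (even_iff_two_dvd.1 heven)
    have hx2 : (x : G) * x = 1 := by
      have := pow_orderOf_eq_one x
      rw [hx, pow_two] at this
      exact congrArg Subtype.val this
    have hx1 : (x : G) ≠ 1 := fun e => by
      rw [show x = 1 from Subtype.ext e, orderOf_one] at hx; omega
    have ha : (x : G) • a = a := x.2.1
    have hb : (x : G) • b = b := x.2.2
    refine ⟨g * x * g⁻¹, fun _ => ⟨by rw [conj_mul, hx2, mul_one, mul_inv_cancel],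
      fun e => hx1 (conj_eq_one_iff.1 e), ?_, ?_⟩⟩
    · rw [← g1, mul_smul, inv_smul_smul, mul_smul, ha]
    · rw [← g2, mul_smul, inv_smul_smul, mul_smul, hb]
  choose z hz using hex
  let P : Finset (Ω × Ω) := (Finset.univ : Finset Ω).offDiag
  have hP : ∀ w, w ∈ P ↔ w.1 ≠ w.2 := fun w => by simp [P]
  set S := P.image z with hS
  -- each involution of `S` fixes exactly the two points of its pairs
  have hfix : ∀ w ∈ P, ∀ u, z w • u = u → u = w.1 ∨ u = w.2 := by
    intro w hw u hu
    by_contra! hc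
    obtain ⟨-, h1, e1, e2⟩ := hz w ((hP w).1 hw)
    exact h1 (h3 (z w) w.1 w.2 u ((hP w).1 hw) (Ne.symm hc.2) (Ne.symm hc.1) e1 e2 hu)
  have hSlow : P.card ≤ 2 * S.card := by
    refine Finset.card_le_mul_card_image P 2 fun i hi => ?_
    obtain ⟨w, hw, rfl⟩ := Finset.mem_image.1 hi
    refine (Finset.card_le_card (t := ({(w.1, w.2), (w.2, w.1)} : Finset (Ω × Ω))) fun v hv => ?_).trans
      Finset.card_le_two
    obtain ⟨hv, e⟩ := Finset.mem_filter.1 hv
    obtain ⟨-, -, f1, f2⟩ := hz v ((hP v).1 hv)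
    rw [e] at f1 f2
    have hne := (hP v).1 hv
    obtain ⟨v1, v2⟩ := v
    simp only [Finset.mem_insert, Finset.mem_singleton, Prod.mk.injEq]
    rcases hfix w hw _ f1 with g1 | g1 <;> rcases hfix w hw _ f2 with g2 | g2
    · exact absurd (g1.trans g2.symm) hne
    · exact Or.inl ⟨g1, g2⟩
    · exact Or.inr ⟨g1, g2⟩
    · exact absurd (g1.trans g2.symm) hne
  let I : Finset (G × Ω) := (S ×ˢ (Finset.univ : Finset Ω)).filter fun p => p.1 • p.2 ≠ p.2
  have hI : S.card * (Fintype.card Ω - 2) ≤ I.card := by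
    rw [Finset.card_filter, Finset.sum_product, ← smul_eq_mul, ← Finset.sum_const]
    refine Finset.sum_le_sum fun i hi => ?_
    obtain ⟨w, hw, rfl⟩ := Finset.mem_image.1 hi
    rw [← Finset.card_filter]
    have h4 : ((Finset.univ : Finset Ω) \ {w.1, w.2}) ⊆ Finset.univ.filter fun u => z w • u ≠ u := by
      intro u hu
      simp only [Finset.mem_sdiff, Finset.mem_univ, true_and, Finset.mem_insert, Finset.mem_singleton,
        not_or] at hu
      refine Finset.mem_filter.2 ⟨Finset.mem_univ _, fun e => ?_⟩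
      rcases hfix w hw u e with e' | e'
      · exact hu.1 e'
      · exact hu.2 e'
    have := Finset.card_le_card h4
    rw [Finset.card_sdiff_of_subset (Finset.subset_univ _), Finset.card_pair ((hP w).1 hw),
      Finset.card_univ] at this
    exact this
  have hI2 : I.card ≤ Nat.card H * P.card := by
    refine (Finset.card_le_mul_card_image (f := fun p : G × Ω => (p.2, p.1 • p.2)) I (Nat.card H)
      fun q hq => ?_).trans (Nat.mul_le_mul_left _ (Finset.card_le_card fun q hq => ?_))
    · obtain ⟨⟨i, u⟩, hiu, rfl⟩ := Finset.mem_image.1 hq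
      obtain ⟨hi', hne⟩ := Finset.mem_filter.1 hiu
      obtain ⟨g, g1, g2⟩ := h2' (a := a) (b := b) (c := u) (d := i • u) hab (Ne.symm hne)
      -- the fibre maps injectively into the two-point stabiliser
      rw [Nat.card_eq_fintype_card, Fintype.card_subtype]
      refine Finset.card_le_card_of_injOn (fun p => g⁻¹ * (i * p.1) * g) (fun p hp => ?_) (fun p hp p' hp' e => ?_)
      · simp only [Finset.mem_coe, Finset.mem_filter, Prod.mk.injEq] at hp
        obtain ⟨hp0, e1, e2⟩ := hp
        obtain ⟨hp1, -⟩ := Finset.mem_product.1 (Finset.mem_filter.1 hp0).1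
        obtain ⟨w, hw, hwz⟩ := Finset.mem_image.1 hp1
        obtain ⟨w', hw', hwz'⟩ := Finset.mem_image.1 (Finset.mem_product.1 hi').1
        obtain ⟨sq, -, -, -⟩ := hz w ((hP w).1 hw)
        obtain ⟨sq', -, -, -⟩ := hz w' ((hP w').1 hw')
        rw [hwz] at sq
        rw [hwz'] at sq'
        have f1 : p.1 • u = i • u := by rw [e1] at e2; exact e2
        have f2 : p.1 • (i • u) = u := by rw [← f1, smul_smul, sq, one_smul]
        have f3 : i • (i • u) = u := by rw [smul_smul, sq', one_smul]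
        simp only [Finset.mem_coe, Finset.mem_filter, Finset.mem_univ, true_and]
        constructor
        · show (g⁻¹ * (i * p.1) * g) • a = a
          rw [mul_smul, mul_smul, g1, mul_smul, f1, f3, inv_smul_eq_iff, g1]
        · show (g⁻¹ * (i * p.1) * g) • b = b
          rw [mul_smul, mul_smul, g2, mul_smul, f2, inv_smul_eq_iff, g2]
      · simp only [Finset.mem_coe, Finset.mem_filter, Prod.mk.injEq] at hp hp'
        exact Prod.ext (mul_left_cancel (mul_left_cancel (mul_right_cancel e))) (hp.2.1.trans hp'.2.1.symm)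
    · obtain ⟨⟨i, u⟩, hiu, rfl⟩ := Finset.mem_image.1 hq
      exact (hP _).2 (Ne.symm (Finset.mem_filter.1 hiu).2)
  have hPpos : 0 < P.card := Finset.card_pos.2 ⟨(a, b), (hP _).2 hab⟩
  have h5 : P.card * (Fintype.card Ω - 2) ≤ P.card * (2 * Nat.card H) :=
    calc P.card * (Fintype.card Ω - 2) ≤ 2 * S.card * (Fintype.card Ω - 2) := Nat.mul_le_mul_right _ hSlow
      _ = 2 * (S.card * (Fintype.card Ω - 2)) := mul_assoc _ _ _
      _ ≤ 2 * (Nat.card H * P.card) := Nat.mul_le_mul_left _ (hI.trans hI2)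
      _ = P.card * (2 * Nat.card H) := by ring
  exact Nat.le_of_mul_le_mul_left h5 hPpos

end Cfsg.Agent.S0741
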