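import Cfsg.Statements.S0742
import Cfsg.Agent.Lib.Zassenhaus.Normal
import Cfsg.Agent.S0741
import Cfsg.Agent.S0738
import Cfsg.Agent.Lib.PermGroup.PSLCoord

set_option autoImplicit false
open Cfsg

namespace Cfsg.Agent.S0742

set_option maxHeartbeats 3200000 in
/-- A finite Zassenhaus group of degree `n + 1` with two-point stabilisers of even order `d` satisfying `2d ≤ n - 1` has `n = p^f` for an odd prime `p` and is isomorphic to `PSL(2, p^f)`. -/
theorem result {G Ω : Type*} [Group G] [Finite G] [MulAction G Ω] [Fintype Ω] (hZ : Cfsg.IsZassenhausGroup G Ω) {a b : Ω} (hab : a ≠ b) (heven : Even (Nat.card ↥(MulAction.stabilizer G a ⊓ MulAction.stabilizer G b))) (hd : 2 * Nat.card ↥(MulAction.stabilizer G a ⊓ MulAction.stabilizer G b) ≤ Fintype.card Ω - 2) : ∃ (p f : ℕ) (K : Type) (_ : Field K) (_ : Fintype K), p.Prime ∧ p ≠ 2 ∧ Fintype.card K = p ^ f ∧ Fintype.card Ω = p ^ f + 1 ∧ Nonempty (G ≃* Matrix.ProjectiveSpecialLinearGroup (Fin 2) K) := by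
  classical
  haveI := Fintype.ofFinite G
  have h3 := hZ.2.2.1
  have hfaith := hZ.1
  obtain ⟨U, hUa, hUc, hUf⟩ := Cfsg.Lib.Zassenhaus.exists_kernel hZ a
  have hUn : ∀ g : G, g • a = a → ∀ u ∈ U, g * u * g⁻¹ ∈ U := fun g hg u hu =>
    Cfsg.Lib.Zassenhaus.kernel_conj_mem hZ hUa hUc hUf hg hu
  have hmove : ∀ x y : Ω, x ≠ a → y ≠ a → ∃ u ∈ U, u • x = y := fun x y hx hy =>
    Cfsg.Lib.Zassenhaus.kernel_move hZ hUa hUc hUf hx hy
  have huniq : ∀ u ∈ U, ∀ v ∈ U, ∀ x : Ω, x ≠ a → u • x = v • x → u = v := by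
    intro u hu v hv x hx e
    by_contra hne
    exact hx (hUf (v⁻¹ * u) (U.mul_mem (U.inv_mem hv) hu) (fun h => hne (inv_mul_eq_one.1 h).symm) x
      (by rw [mul_smul, e, inv_smul_smul]))
  set H := MulAction.stabilizer G a ⊓ MulAction.stabilizer G b with hHdef
  set d := Nat.card H
  have hd' := Cfsg.Agent.S0741.result hZ hab heven
  obtain ⟨hUab, p, f, hp, hUexp, hcard⟩ := Cfsg.Agent.S0738.result hZ hab hd' U hUa
    ⟨fun n hn g => hUn g g.2 n hn⟩ (fun y z hy hz => by
      obtain ⟨u, hu, e⟩ := hmove y z hy hz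
      exact ⟨⟨u, hu⟩, e, fun v hv => Subtype.ext (huniq _ v.2 u hu y hy (hv.trans e.symm))⟩)
  have hdpos : 0 < d := Nat.card_pos
  have hd1 : 2 * d ≤ Fintype.card Ω - 2 := hd
  have hd3 : Fintype.card Ω - 2 ≤ 2 * d := hd'
  have hq : Nat.card U = 2 * d + 1 := by omega
  have hd2 : 2 ≤ d := by obtain ⟨k, hk⟩ := (show Even d from heven); omega
  have hf : f ≠ 0 := by rintro rfl; simp at hcard; omega
  have hp2 : p ≠ 2 := by
    rintro rfl
    have he : 2 ∣ 2 ^ f := dvd_pow_self 2 hf
    omega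
  haveI : Fact p.Prime := ⟨hp⟩
  -- the involution of `H`
  haveI : Fact (Nat.Prime 2) := ⟨Nat.prime_two⟩
  obtain ⟨z₀, hz₀⟩ := exists_prime_orderOf_dvd_card' (G := H) 2 (even_iff_two_dvd.1 heven)
  obtain ⟨z, hzH⟩ := z₀
  have hzz : z * z = 1 := by
    have := pow_orderOf_eq_one (⟨z, hzH⟩ : H)
    rw [hz₀, pow_two] at this
    exact congrArg Subtype.val this
  have hz1 : z ≠ 1 := fun e => by simp [e] at hz₀
  have hHfix : ∀ h ∈ H, h ≠ 1 → ∀ x : Ω, h • x = x → x = a ∨ x = b := by
    intro h hh h1 x hx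
    by_contra! hc
    exact h1 (h3 h a b x hab (Ne.symm hc.2) (Ne.symm hc.1) hh.1 hh.2 hx)
  have hfp : ∀ h ∈ H, h ≠ 1 → ∀ u ∈ U, h * u * h⁻¹ = u → u = 1 := by
    intro h hh h1 u hu e
    have e' : h * u = u * h := mul_inv_eq_iff_eq_mul.1 e
    have hx : h • (u • b) = u • b := by rw [← mul_smul, e', mul_smul, show h • b = b from hh.2]
    rcases hHfix h hh h1 _ hx with h' | h'
    · exact absurd (smul_left_cancel u (h'.trans (hUa hu).symm)) hab.symm
    · exact huniq u hu 1 U.one_mem b hab.symm (by rw [one_smul, h'])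
  let cg : H → (U →* U) := fun h =>
    { toFun := fun u => ⟨(h : G) * u * (h : G)⁻¹, hUn h h.2.1 u u.2⟩
      map_one' := Subtype.ext (by simp)
      map_mul' := fun u v => Subtype.ext (by simp [mul_assoc]) }
  have hcg : ∀ (h : H) (u : U), ((cg h u : U) : G) = (h : G) * u * (h : G)⁻¹ := fun _ _ => rfl
  have hzinv : ∀ u ∈ U, z * u * z⁻¹ = u⁻¹ := by
    intro u hu
    have hfpz : MonoidHom.FixedPointFree (cg ⟨z, hzH⟩) := fun v hv =>
      Subtype.ext (hfp z hzH hz1 v v.2 (congrArg Subtype.val hv))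
    have hinv : Function.Involutive (cg ⟨z, hzH⟩) := fun v => Subtype.ext (by
      rw [hcg, hcg, show z * (z * (v : G) * z⁻¹) * z⁻¹ = z * z * v * (z * z)⁻¹ by group, hzz]; simp)
    exact congrArg Subtype.val (congrFun (hfpz.coe_eq_inv_of_involutive hinv) ⟨u, hu⟩)
  have hzuniq : ∀ w ∈ H, w * w = 1 → w ≠ 1 → w = z := by
    intro w hw hww hw1
    have hfpw : MonoidHom.FixedPointFree (cg ⟨w, hw⟩) := fun v hv =>
      Subtype.ext (hfp w hw hw1 v v.2 (congrArg Subtype.val hv))
    have hinv : Function.Involutive (cg ⟨w, hw⟩) := fun v => Subtype.ext (by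
      rw [hcg, hcg, show w * (w * (v : G) * w⁻¹) * w⁻¹ = w * w * v * (w * w)⁻¹ by group, hww]; simp)
    refine hfaith.eq_of_smul_eq_smul fun x => ?_
    by_cases hx : x = a
    · rw [hx, show w • a = a from hw.1, show z • a = a from hzH.1]
    obtain ⟨u, hu, rfl⟩ := hmove b x hab.symm hx
    have e1 : w * u * w⁻¹ = u⁻¹ := congrArg Subtype.val (congrFun (hfpw.coe_eq_inv_of_involutive hinv) ⟨u, hu⟩)
    rw [← mul_smul, ← mul_smul, mul_inv_eq_iff_eq_mul.1 e1, mul_inv_eq_iff_eq_mul.1 (hzinv u hu),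
      mul_smul, mul_smul, show w • b = b from hw.2, show z • b = b from hzH.2]
  -- involutions with two fixed points
  let T : Finset G := Finset.univ.filter fun w => w * w = 1 ∧ w ≠ 1 ∧ ∃ x y : Ω, x ≠ y ∧ w • x = x ∧ w • y = y
  have hT2 : ∀ {x y : Ω}, x ≠ y → ∃ g : G, g • a = x ∧ g • b = y := fun h => Cfsg.Lib.Zassenhaus.exists_move hZ hab h
  let O : Finset (Ω × Ω) := (Finset.univ : Finset Ω).offDiag
  have hO : ∀ v, v ∈ O ↔ v.1 ≠ v.2 := fun v => by simp [O]
  have hconjT : ∀ g w : G, w ∈ T → g * w * g⁻¹ ∈ T := by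
    intro g w hw
    obtain ⟨-, e, h1, x, y, hxy, hx, hy⟩ := Finset.mem_filter.1 hw
    refine Finset.mem_filter.2 ⟨Finset.mem_univ _, by rw [conj_mul, e]; simp, fun h => h1 (conj_eq_one_iff.1 h),
      g • x, g • y, fun h => hxy (smul_left_cancel g h), ?_, ?_⟩
    · rw [mul_smul, inv_smul_smul, mul_smul, hx]
    · rw [mul_smul, inv_smul_smul, mul_smul, hy]
  have hzT : z ∈ T := Finset.mem_filter.2 ⟨Finset.mem_univ _, hzz, hz1, a, b, hab, hzH.1, hzH.2⟩
  have hfix1 : ∀ v ∈ O, (T.filter fun w => w • v.1 = v.1 ∧ w • v.2 = v.2).card = 1 := by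
    intro v hv
    obtain ⟨g, g1, g2⟩ := hT2 ((hO v).1 hv)
    rw [Finset.card_eq_one]
    refine ⟨g * z * g⁻¹, Finset.eq_singleton_iff_unique_mem.2 ⟨Finset.mem_filter.2 ⟨hconjT g z hzT, ?_, ?_⟩, ?_⟩⟩
    · rw [← g1, mul_smul, inv_smul_smul, mul_smul, show z • a = a from hzH.1]
    · rw [← g2, mul_smul, inv_smul_smul, mul_smul, show z • b = b from hzH.2]
    · intro w hw
      obtain ⟨hwT, w1, w2⟩ := Finset.mem_filter.1 hw
      obtain ⟨-, e, h1, -⟩ := Finset.mem_filter.1 hwT
      have hm : g⁻¹ * w * g ∈ H := by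
        constructor
        · show (g⁻¹ * w * g) • a = a
          rw [mul_smul, mul_smul, g1, w1, ← g1, inv_smul_smul]
        · show (g⁻¹ * w * g) • b = b
          rw [mul_smul, mul_smul, g2, w2, ← g2, inv_smul_smul]
      have := hzuniq _ hm (by rw [show g⁻¹ * w * g * (g⁻¹ * w * g) = g⁻¹ * (w * w) * g by group, e]; simp)
        (fun h => h1 (by simpa [mul_assoc, inv_mul_eq_iff_eq_mul] using h))
      rw [← this]; group
  have hTcount : T.card * 2 = O.card := by
    have e := Finset.sum_card_bipartiteAbove_eq_sum_card_bipartiteBelow (r := fun (w : G) (v : Ω × Ω) => w • v.1 = v.1 ∧ w • v.2 = v.2) (s := T) (t := O)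
    rw [Finset.sum_congr rfl (g := fun _ => 2) (fun w hw => ?_), Finset.sum_congr rfl (g := fun _ => 1) (fun (v : Ω × Ω) (hv : v ∈ O) => show (Finset.bipartiteBelow (fun (w : G) (v : Ω × Ω) => w • v.1 = v.1 ∧ w • v.2 = v.2) T v).card = 1 from hfix1 v hv)] at e
    · simpa using e
    obtain ⟨-, -, h1, x, y, hxy, hx, hy⟩ := Finset.mem_filter.1 hw
    have : Finset.bipartiteAbove (fun (w : G) (v : Ω × Ω) => w • v.1 = v.1 ∧ w • v.2 = v.2) O w = {(x, y), (y, x)} := by
      ext v
      simp only [Finset.bipartiteAbove, Finset.mem_filter, hO, Finset.mem_insert, Finset.mem_singleton]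
      constructor
      · rintro ⟨hne, v1, v2⟩
        have hxor : ∀ u, w • u = u → u = x ∨ u = y := fun u hu => by
          by_contra! hc
          exact h1 (h3 w x y u hxy (Ne.symm hc.2) (Ne.symm hc.1) hx hy hu)
        rcases hxor _ v1 with e1 | e1 <;> rcases hxor _ v2 with e2 | e2
        · exact absurd (e1.trans e2.symm) hne
        · exact Or.inl (Prod.ext e1 e2)
        · exact Or.inr (Prod.ext e1 e2)
        · exact absurd (e1.trans e2.symm) hne
      · rintro (rfl | rfl)
        · exact ⟨hxy, hx, hy⟩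
        · exact ⟨hxy.symm, hy, hx⟩
    rw [this, Finset.card_pair (fun h => hxy (congrArg Prod.fst h))]
  set M := (T.filter fun w => w • a = b).card with hMdef
  have hswapc : ∀ v ∈ O, (T.filter fun w => w • v.1 = v.2).card = M := by
    intro v hv
    obtain ⟨g, g1, g2⟩ := hT2 ((hO v).1 hv)
    refine Finset.card_bij (fun w _ => g⁻¹ * w * g) ?_ ?_ ?_
    · intro w hw
      obtain ⟨hwT, w1⟩ := Finset.mem_filter.1 hw
      refine Finset.mem_filter.2 ⟨by simpa using hconjT g⁻¹ w hwT, ?_⟩
      rw [mul_smul, mul_smul, g1, w1, ← g2, inv_smul_smul]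
    · intro w _ w' _ e; exact mul_left_cancel (mul_right_cancel e)
    · intro w hw
      obtain ⟨hwT, w1⟩ := Finset.mem_filter.1 hw
      refine ⟨g * w * g⁻¹, Finset.mem_filter.2 ⟨hconjT g w hwT, ?_⟩, by group⟩
      rw [← g1, mul_smul, inv_smul_smul, mul_smul, w1, g2]
  have hMd : M = d := by
    have e := Finset.sum_card_bipartiteAbove_eq_sum_card_bipartiteBelow (r := fun (w : G) (v : Ω × Ω) => w • v.1 = v.2) (s := T) (t := O)
    rw [Finset.sum_congr rfl (g := fun _ => Fintype.card Ω - 2) (fun w hw => ?_), Finset.sum_congr rfl (g := fun _ => M) (fun (v : Ω × Ω) (hv : v ∈ O) => show (Finset.bipartiteBelow (fun (w : G) (v : Ω × Ω) => w • v.1 = v.2) T v).card = M from hswapc v hv)] at e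
    · simp only [Finset.sum_const, smul_eq_mul, ← hTcount] at e
      have hTpos : 0 < T.card := Finset.card_pos.2 ⟨z, hzT⟩
      rw [mul_assoc] at e
      have := Nat.eq_of_mul_eq_mul_left hTpos e
      omega
    obtain ⟨-, -, h1, x, y, hxy, hx, hy⟩ := Finset.mem_filter.1 hw
    show (O.filter fun v : Ω × Ω => w • v.1 = v.2).card = _
    rw [show Fintype.card Ω - 2 = ((Finset.univ : Finset Ω) \ {x, y}).card by
      rw [Finset.card_sdiff, Finset.inter_univ, Finset.card_pair hxy, Finset.card_univ]]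
    refine Finset.card_bij (fun v _ => v.1) ?_ ?_ ?_
    · intro v hv
      obtain ⟨hv, e⟩ := Finset.mem_filter.1 hv
      simp only [Finset.mem_sdiff, Finset.mem_univ, true_and, Finset.mem_insert, Finset.mem_singleton]
      rintro (h | h) <;> refine (hO v).1 hv ?_ <;> rw [← e, h]
      · rw [hx]
      · rw [hy]
    · intro v hv v' hv' e
      exact Prod.ext e (((Finset.mem_filter.1 hv).2).symm.trans ((congrArg (w • ·) e).trans (Finset.mem_filter.1 hv').2))
    · intro u hu
      simp only [Finset.mem_sdiff, Finset.mem_univ, true_and, Finset.mem_insert, Finset.mem_singleton, not_or] at hu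
      refine ⟨(u, w • u), Finset.mem_filter.2 ⟨(hO _).2 fun h => ?_, rfl⟩, rfl⟩
      exact h1 (h3 w x y u hxy (Ne.symm hu.2) (Ne.symm hu.1) hx hy h.symm)
  have hswap : ∀ g : G, g • a = b → g • b = a → g ∈ T := by
    intro g ga gb
    have hsub : (T.filter fun w => w • a = b) ⊆ (Finset.univ : Finset H).image (fun h : H => g * (h : G)) := by
      intro w hw
      obtain ⟨hwT, w1⟩ := Finset.mem_filter.1 hw
      have w2 : w • b = a := by rw [← w1, ← mul_smul, (Finset.mem_filter.1 hwT).2.1, one_smul]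
      refine Finset.mem_image.2 ⟨⟨g⁻¹ * w, ?_, ?_⟩, Finset.mem_univ _, by simp⟩
      · show (g⁻¹ * w) • a = a; rw [mul_smul, w1, ← ga, inv_smul_smul]
      · show (g⁻¹ * w) • b = b; rw [mul_smul, w2, ← gb, inv_smul_smul]
    have := Finset.eq_of_subset_of_card_le hsub (Finset.card_image_le.trans (by
      rw [Finset.card_univ, ← Nat.card_eq_fintype_card, ← hMdef, hMd]))
    have hg : g ∈ T.filter fun w => w • a = b := by
      rw [this]; exact Finset.mem_image.2 ⟨1, Finset.mem_univ _, by simp⟩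
    exact (Finset.mem_filter.1 hg).1
  obtain ⟨s, sa, sb⟩ := Cfsg.Lib.Zassenhaus.exists_move hZ hab hab.symm
  obtain ⟨-, hss, -, c, c', -, sc, -⟩ := Finset.mem_filter.1 (hswap s sa sb)
  have hca : c ≠ a := fun h => hab (by rw [← sa, ← h, sc])
  have hcb : c ≠ b := fun h => hab (by rw [← sb, ← h, sc])
  have hsh : ∀ h ∈ H, s * h = h⁻¹ * s := by
    intro h hh
    have hT' := hswap (s * h) (by rw [mul_smul, show h • a = a from hh.1, sa]) (by rw [mul_smul, show h • b = b from hh.2, sb])
    have e := (Finset.mem_filter.1 hT').2.1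
    have e' : (s * h)⁻¹ = s * h := inv_eq_of_mul_eq_one_left e
    rw [← e', mul_inv_rev, inv_eq_of_mul_eq_one_left hss]
  have hHc : ∀ g h : H, g * h = h * g := by
    intro g h
    refine Subtype.ext ?_
    have e1 := hsh _ (H.mul_mem g.2 h.2)
    rw [← mul_assoc, hsh _ g.2, mul_assoc, hsh _ h.2, ← mul_assoc, mul_right_cancel_iff, ← mul_inv_rev,
      inv_inj] at e1
    exact e1.symm
  -- the field
  letI : CommGroup U := { (inferInstance : Group U) with mul_comm := fun x y => hUab.is_comm.comm x y }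
  let φ : H →* AddMonoid.End (Additive U) :=
    { toFun := fun h => MonoidHom.toAdditive (cg h)
      map_one' := AddMonoidHom.ext fun u => congrArg Additive.ofMul (Subtype.ext (by rw [hcg]; simp) : cg 1 (Additive.toMul u) = Additive.toMul u)
      map_mul' := fun g h => AddMonoidHom.ext fun u => congrArg Additive.ofMul (Subtype.ext (by
        rw [hcg, hcg, hcg]; simp [mul_assoc]) : cg (g * h) (Additive.toMul u) = cg g (cg h (Additive.toMul u))) }
  have hirr : ∀ W : AddSubgroup (Additive U), (∀ h, ∀ w ∈ W, φ h w ∈ W) → (∃ w ∈ W, w ≠ 0) → W = ⊤ := by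
    rintro W hW ⟨w, hw, hw0⟩
    have hlow : d + 1 ≤ Nat.card W := by
      let g : Option H → W := fun o => o.elim 0 fun h => ⟨φ h w, hW h w hw⟩
      have hg : Function.Injective g := by
        have hne : ∀ h : H, φ h w ≠ 0 := fun h e => hw0 (by
          have e1 : φ h⁻¹ (φ h w) = 0 := by rw [e, map_zero]
          have e2 : (φ h⁻¹ * φ h) w = 0 := e1
          rwa [← map_mul, inv_mul_cancel, map_one] at e2)
        rintro (_ | h) (_ | k) e
        · rfl
        · exact absurd (congrArg Subtype.val e).symm (hne k)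
        · exact absurd (congrArg Subtype.val e) (hne h)
        · have e1 : φ (k⁻¹ * h) w = w := by
            rw [map_mul]
            show φ k⁻¹ (φ h w) = w
            rw [show φ h w = φ k w from congrArg Subtype.val e]
            show (φ k⁻¹ * φ k) w = w
            rw [← map_mul, inv_mul_cancel, map_one]; rfl
          by_contra hne'
          refine hw0 (congrArg Additive.ofMul (Subtype.ext ?_ : Additive.toMul w = 1))
          exact hfp _ (k⁻¹ * h : H).2 (fun h1 => hne' (congrArg some (inv_mul_eq_one.1 (Subtype.ext h1 : k⁻¹ * h = 1)).symm))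
            _ (Additive.toMul w).2 (congrArg (fun u : Additive U => ((Additive.toMul u : U) : G)) e1)
      have := Nat.card_le_card_of_injective g hg
      rwa [Finite.card_option] at this
    have hdvd := W.card_addSubgroup_dvd_card
    have hU' : Nat.card (Additive U) = 2 * d + 1 := hq
    rw [hU'] at hdvd
    obtain ⟨k, hk⟩ := hdvd
    refine W.eq_top_of_card_eq ?_
    have : k = 1 := by
      rcases Nat.lt_or_ge k 2 with h | h
      · rcases Nat.eq_zero_or_pos k with h0 | h0
        · rw [h0] at hk; omega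
        · omega
      · have := Nat.mul_le_mul hlow h; omega
    rw [hU', hk, this, mul_one]
  let E := Subring.closure (Set.range φ)
  have hEcomm : ∀ e ∈ E, ∀ h, e * φ h = φ h * e := by
    intro e he h
    have hle : E ≤ Subring.centralizer (Set.range φ) := Subring.closure_le.2 (by
      rintro _ ⟨g, rfl⟩
      rw [SetLike.mem_coe, Subring.mem_centralizer_iff]
      rintro _ ⟨k, rfl⟩
      rw [← map_mul, ← map_mul, hHc])
    exact ((Subring.mem_centralizer_iff.1 (hle he)) (φ h) ⟨h, rfl⟩).symm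
  have hinjE : ∀ e : E, e ≠ 0 → ∀ u : Additive U, (e : AddMonoid.End (Additive U)) u = 0 → u = 0 := by
    intro e he u hu
    by_contra hu0
    have := hirr (e : AddMonoid.End (Additive U)).ker (fun h w hw => by
      show (e : AddMonoid.End (Additive U)) (φ h w) = 0
      rw [show (e : AddMonoid.End (Additive U)) (φ h w) = ((e : AddMonoid.End (Additive U)) * φ h) w from rfl, hEcomm e e.2 h]
      show φ h ((e : AddMonoid.End (Additive U)) w) = 0
      rw [show (e : AddMonoid.End (Additive U)) w = 0 from hw, map_zero]) ⟨u, hu, hu0⟩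
    exact he (Subtype.ext (AddMonoidHom.ext fun v => (this ▸ AddSubgroup.mem_top v : v ∈ (e : AddMonoid.End (Additive U)).ker)))
  obtain ⟨u₁, hu₁, hu₁c⟩ := hmove b c hab.symm hca
  let v₁ : Additive U := Additive.ofMul ⟨u₁, hu₁⟩
  have hv₁ : v₁ ≠ 0 := fun h => hcb (by
    have : u₁ = 1 := congrArg (fun u : Additive U => ((Additive.toMul u : U) : G)) h
    rw [← hu₁c, this, one_smul])
  let crd : E → Ω := fun e => ((Additive.toMul ((e : AddMonoid.End (Additive U)) v₁) : U) : G) • b
  have hcrda : ∀ e, crd e ≠ a := fun e h => hab.symm (smul_left_cancel _ (h.trans (hUa (Subtype.mem _)).symm))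
  have hev : Function.Bijective fun e : E => (e : AddMonoid.End (Additive U)) v₁ := by
    constructor
    · intro e e' h
      by_contra hne
      refine hv₁ (hinjE (e - e') (sub_ne_zero.2 hne) v₁ ?_)
      show (e : AddMonoid.End (Additive U)) v₁ - (e' : AddMonoid.End (Additive U)) v₁ = 0
      exact sub_eq_zero.2 h
    · let ev : E →+ Additive U :=
        { toFun := fun e => (e : AddMonoid.End (Additive U)) v₁
          map_zero' := rfl
          map_add' := fun _ _ => rfl }
      have := hirr ev.range (by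
        rintro h _ ⟨e, rfl⟩
        exact ⟨⟨φ h, Subring.subset_closure ⟨h, rfl⟩⟩ * e, rfl⟩) ⟨v₁, ⟨1, rfl⟩, hv₁⟩
      exact fun u => (this ▸ AddSubgroup.mem_top u : u ∈ ev.range)
  have hcrd : ∀ x : Ω, x ≠ a → ∃ e, crd e = x := by
    intro x hx
    obtain ⟨u, hu, rfl⟩ := hmove b x hab.symm hx
    obtain ⟨e, he⟩ := hev.2 (Additive.ofMul ⟨u, hu⟩)
    exact ⟨e, by simp only at he; simp [crd, he]⟩
  have hcrdi : Function.Injective crd := fun e e' h => hev.1 (congrArg Additive.ofMul
    (Subtype.ext (huniq _ (Subtype.mem _) _ (Subtype.mem _) b hab.symm h)))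
  letI : CommRing E := Subring.closureCommRingOfComm (by
    rintro _ ⟨g, rfl⟩ _ ⟨k, rfl⟩; rw [← map_mul, ← map_mul, hHc])
  haveI : Nontrivial E := ⟨0, 1, fun h => hv₁ (congrArg (fun e : E => (e : AddMonoid.End (Additive U)) v₁) h).symm⟩
  haveI : NoZeroDivisors E := ⟨fun {x y} hxy => by
    by_contra! hc
    exact hv₁ (hinjE y hc.2 v₁ (hinjE x hc.1 _ (congrArg (fun e : E => (e : AddMonoid.End (Additive U)) v₁) hxy)))⟩
  haveI : IsDomain E := NoZeroDivisors.to_isDomain _
  haveI : Finite E := Finite.of_injective _ hev.1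
  letI : Fintype E := Fintype.ofFinite E
  letI : Field E := Fintype.fieldOfDomain E
  have hEcard : Fintype.card E = 2 * d + 1 := by
    rw [← Nat.card_eq_fintype_card, Nat.card_eq_of_bijective _ hev]; exact hq
  have hE2 : ringChar E ≠ 2 := by
    intro h
    haveI := ringChar.charP E
    obtain ⟨n, hr, hn⟩ := FiniteField.card E (ringChar E)
    rw [h] at hn
    have he : 2 ∣ 2 ^ (n : ℕ) := dvd_pow_self 2 n.pos.ne'
    omega
  let φE : H →* E :=
    { toFun := fun h => ⟨φ h, Subring.subset_closure ⟨h, rfl⟩⟩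
      map_one' := Subtype.ext (map_one φ)
      map_mul' := fun g h => Subtype.ext (map_mul φ g h) }
  have hφne : ∀ h, φE h ≠ 0 := fun h e => by
    have := map_mul φE h h⁻¹
    rw [mul_inv_cancel, map_one, e, zero_mul] at this
    exact one_ne_zero this
  -- actions
  have crd_add : ∀ e e' : E, crd (e + e') = ((Additive.toMul ((e : AddMonoid.End (Additive U)) v₁) : U) : G) • crd e' := fun e e' => by
    show ((Additive.toMul ((e : AddMonoid.End (Additive U)) v₁ + (e' : AddMonoid.End (Additive U)) v₁) : U) : G) • b = _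
    rw [toMul_add, Subgroup.coe_mul, mul_smul]
  have crd_h : ∀ (h : H) (e : E), (h : G) • crd e = crd (φE h * e) := fun h e => by
    show (h : G) • _ = ((cg h (Additive.toMul ((e : AddMonoid.End (Additive U)) v₁)) : U) : G) • b
    rw [hcg, mul_smul, mul_smul, show (h : G)⁻¹ • b = b from inv_smul_eq_iff.2 (show (h : G) • b = b from h.2.2).symm]
  have crd0 : crd 0 = b := by
    show ((1 : U) : G) • b = b
    simp
  have crd1 : crd 1 = c := hu₁c
  have hφz : φE ⟨z, hzH⟩ = -1 := by
    refine Subtype.ext (AddMonoidHom.ext fun u => ?_)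
    show Additive.ofMul (cg ⟨z, hzH⟩ (Additive.toMul u)) = -u
    exact congrArg Additive.ofMul (Subtype.ext (hzinv _ (Additive.toMul u).2) : cg ⟨z, hzH⟩ (Additive.toMul u) = (Additive.toMul u)⁻¹)
  -- squares
  have hsq : ∀ e : E, e ≠ 0 → (IsSquare e ↔ ∃ h, φE h = e) := by
    have hpow : ∀ h, φE h ^ d = 1 := fun h => by
      rw [← map_pow, show h ^ d = 1 from pow_card_eq_one', map_one]
    have hφinj : Function.Injective φE := fun g h e => by
      refine Subtype.ext (hfaith.eq_of_smul_eq_smul fun x => ?_)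
      by_cases hx : x = a
      · rw [hx, show (g : G) • a = a from g.2.1, show (h : G) • a = a from h.2.1]
      · obtain ⟨w, rfl⟩ := hcrd x hx; rw [crd_h, crd_h, e]
    intro e he
    rw [FiniteField.isSquare_iff hE2 he, hEcard, show (2 * d + 1) / 2 = d by omega]
    refine ⟨fun h1 => ?_, fun ⟨h, hh⟩ => hh ▸ hpow h⟩
    have hsub : (Finset.univ : Finset H).image φE ⊆ (Polynomial.nthRoots d (1 : E)).toFinset := by
      intro x hx
      obtain ⟨h, -, rfl⟩ := Finset.mem_image.1 hx
      rw [Multiset.mem_toFinset, Polynomial.mem_nthRoots hdpos]; exact hpow h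
    have := Finset.eq_of_subset_of_card_le hsub (by
      rw [Finset.card_image_of_injective _ hφinj, Finset.card_univ, ← Nat.card_eq_fintype_card]
      exact (Multiset.toFinset_card_le _).trans (Polynomial.card_nthRoots d 1))
    have : e ∈ (Finset.univ : Finset H).image φE := by
      rw [this, Multiset.mem_toFinset, Polynomial.mem_nthRoots hdpos]; exact h1
    obtain ⟨h, -, hh⟩ := Finset.mem_image.1 this
    exact ⟨h, hh⟩
  have hφinv : ∀ h : H, φE h⁻¹ = (φE h)⁻¹ := fun h =>
    eq_inv_of_mul_eq_one_left (by rw [← map_mul, inv_mul_cancel, map_one])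
  have s_sq : ∀ h : H, s • crd (φE h) = crd (φE h)⁻¹ := fun h => by
    have e1 : crd (φE h) = (h : G) • c := by rw [← crd1, crd_h, mul_one]
    rw [e1, ← mul_smul, hsh _ h.2, mul_smul, sc, ← hφinv h, show ((h : G)⁻¹) = ((h⁻¹ : H) : G) from rfl]
    conv_lhs => rw [← crd1]
    rw [crd_h, mul_one]
  obtain ⟨n₀, hn₀⟩ := FiniteField.exists_nonsquare hE2
  have hn0 : n₀ ≠ 0 := fun h => hn₀ (h ▸ IsSquare.zero)
  obtain ⟨m, hm⟩ := hcrd (s • crd n₀) (fun h => hn0 (hcrdi ((smul_left_cancel s (h.trans sb.symm)).trans crd0.symm)))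
  set l := m * n₀
  have s_ns : ∀ n : E, ¬ IsSquare n → s • crd n = crd (l / n) := by
    intro n hn
    have hnne : n ≠ 0 := fun h => hn (h ▸ IsSquare.zero)
    obtain ⟨h, hh⟩ : ∃ h, φE h = n / n₀ := (hsq _ (div_ne_zero hnne hn0)).1 (by
      rcases FiniteField.isSquare_iff hE2 (div_ne_zero hnne hn0) with ⟨-, h2⟩
      refine h2 ?_
      rcases FiniteField.pow_dichotomy hE2 hn0 with e1 | e1
      · exact absurd ((FiniteField.isSquare_iff hE2 hn0).2 e1) hn₀
      rcases FiniteField.pow_dichotomy hE2 hnne with e2 | e2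
      · exact absurd ((FiniteField.isSquare_iff hE2 hnne).2 e2) hn
      rw [div_pow, e1, e2, div_self (neg_ne_zero.2 one_ne_zero)])
    have e1 : crd n = (h : G) • crd n₀ := by rw [crd_h, hh, div_mul_cancel₀ _ hn0]
    rw [e1, ← mul_smul, hsh _ h.2, mul_smul, ← hm, show ((h : G)⁻¹) = ((h⁻¹ : H) : G) from rfl, crd_h, hφinv, hh]
    congr 1
    simp only [l]
    field_simp
  -- the relation of order three
  have hl : l = 1 := by
    let t := ((Additive.toMul (((1 : E) : AddMonoid.End (Additive U)) v₁) : U) : G)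
    let r := t * (s * z)
    have ht : ∀ e : E, t • crd e = crd (1 + e) := fun e => (crd_add 1 e).symm
    have hta : t • a = a := hUa (Subtype.mem _)
    have hs' : ∀ e : E, (s * z) • crd e = s • crd (-e) := fun e => by
      rw [mul_smul, show z • crd e = crd (φE ⟨z, hzH⟩ * e) from crd_h ⟨z, hzH⟩ e, hφz, neg_one_mul]
    have hm1 : IsSquare (-1 : E) := (hsq _ (neg_ne_zero.2 one_ne_zero)).2 ⟨_, hφz⟩
    have ra : r • a = c := by
      rw [mul_smul, mul_smul, show z • a = a from hzH.1, sa, ← crd0, ht, add_zero, crd1]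
    have rb : r • b = a := by rw [mul_smul, mul_smul, show z • b = b from hzH.2, sb, hta]
    have rc : r • c = b := by
      obtain ⟨h, hh⟩ := (hsq _ (neg_ne_zero.2 one_ne_zero)).1 hm1
      rw [← crd1, mul_smul, hs', ← hh, s_sq, hh, inv_neg, inv_one, ht, add_neg_cancel, crd0]
    have r3 : r * r * r = 1 := h3 _ a b c hab hcb.symm hca.symm
      (by rw [mul_smul, mul_smul, ra, rc, rb]) (by rw [mul_smul, mul_smul, rb, ra, rc])
      (by rw [mul_smul, mul_smul, rc, rb, ra])
    obtain ⟨x, hx0, hx1, hxs, hy⟩ : ∃ x : E, x ≠ 0 ∧ x ≠ 1 ∧ IsSquare x ∧ ¬ IsSquare (1 - x⁻¹) := by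
      by_contra! hno
      have h1 : ∀ x : E, IsSquare x → IsSquare (x + 1) := by
        intro x hx
        by_cases hx0 : x = 0
        · rw [hx0, zero_add]; exact IsSquare.one
        by_cases hx1 : -x = 1
        · rw [show x + 1 = 0 by rw [← hx1]; ring]; exact IsSquare.zero
        have hsx : IsSquare (-x)⁻¹ := by
          rw [← neg_one_mul x]; exact (hm1.mul hx).inv
        have := hno (-x)⁻¹ (inv_ne_zero (neg_ne_zero.2 hx0)) (fun h => hx1 (inv_eq_one.1 h)) hsx
        rwa [inv_inv, sub_neg_eq_add, add_comm] at this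
      have hnat : ∀ n : ℕ, IsSquare (n : E) := fun n => by
        induction n with
        | zero => rw [Nat.cast_zero]; exact IsSquare.zero
        | succ n ih => rw [Nat.cast_succ]; exact h1 _ ih
      -- the squares form an additive subgroup
      let W : AddSubgroup (Additive U) :=
        { carrier := {u | ∃ e : E, IsSquare e ∧ (e : AddMonoid.End (Additive U)) v₁ = u}
          zero_mem' := ⟨0, IsSquare.zero, rfl⟩
          neg_mem' := by
            rintro _ ⟨e, he, rfl⟩
            exact ⟨-e, neg_one_mul e ▸ hm1.mul he, rfl⟩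
          add_mem' := by
            rintro _ _ ⟨e, he, rfl⟩ ⟨e', he', rfl⟩
            refine ⟨e + e', ?_, rfl⟩
            by_cases h0 : e' = 0
            · rwa [h0, add_zero]
            have := (h1 (e / e') (he.div he')).mul he'
            rwa [add_mul, div_mul_cancel₀ _ h0, one_mul] at this }
      have hWinv : ∀ (h : H) (w : Additive U), w ∈ W → (φE h : AddMonoid.End (Additive U)) w ∈ W := by
        intro h w hw
        obtain ⟨e, he, rfl⟩ := hw
        exact ⟨φE h * e, ((hsq _ (hφne h)).2 ⟨h, rfl⟩).mul he, rfl⟩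
      have := hirr W hWinv
        ⟨v₁, ⟨1, IsSquare.one, rfl⟩, hv₁⟩
      have hmemW : (n₀ : AddMonoid.End (Additive U)) v₁ ∈ W := by rw [this]; exact AddSubgroup.mem_top _
      obtain ⟨e, he, hev'⟩ := hmemW
      exact hn₀ (hev.1 hev' ▸ he)
    have hxneg : ∀ e : E, e ≠ 0 → IsSquare e → r • crd e = crd (1 - e⁻¹) := fun e he hes => by
      obtain ⟨h, hh⟩ := (hsq _ (neg_ne_zero.2 he)).1 (neg_one_mul e ▸ hm1.mul hes)
      rw [mul_smul, hs', ← hh, s_sq, hh, inv_neg, ht, sub_eq_add_neg]
    have hnneg : ∀ e : E, ¬ IsSquare e → r • crd e = crd (1 - l / e) := fun e he => by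
      rw [mul_smul, hs', s_ns _ (fun h => he (by simpa using hm1.mul h)), ht, div_neg, sub_eq_add_neg]
    set y := 1 - x⁻¹ with hydef
    have hyne : y ≠ 0 := fun h => hy (h ▸ IsSquare.zero)
    set v := 1 - l / y with hvdef
    have e3 : r • crd v = crd x := by
      have := congrArg (fun g : G => g • crd x) r3
      simp only [mul_smul, one_smul] at this
      rwa [hxneg x hx0 hxs, hnneg y hy] at this
    have hyx : x * y = x - 1 := by rw [hydef, mul_sub, mul_inv_cancel₀ hx0, mul_one]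
    have hv0 : v ≠ 0 := fun h => hcrda x (by rw [← e3, h, crd0, rb])
    have hly : l = (1 - v) * y := by rw [hvdef, sub_sub_cancel, div_mul_cancel₀ _ hyne]
    have hx1' : x - 1 ≠ 0 := sub_ne_zero.2 hx1
    by_cases hvs : IsSquare v
    · rw [hxneg v hv0 hvs] at e3
      have e4 : 1 - v⁻¹ = x := hcrdi e3
      have hv' : v * (1 - x) = 1 := by rw [← e4, sub_sub_cancel, mul_inv_cancel₀ hv0]
      have : (x - 1) * (l - 1) * x = 0 := by
        linear_combination (x - 1) * x * hly + (x - 1) * (1 - v) * hyx + (x - 1) * hv'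
      rcases mul_eq_zero.1 this with h | h
      · exact sub_eq_zero.1 ((mul_eq_zero.1 h).resolve_left hx1')
      · exact absurd h hx0
    · rw [hnneg v hvs] at e3
      have e4 : 1 - l / v = x := hcrdi e3
      have hv' : l = v * (1 - x) := by rw [← e4, sub_sub_cancel, mul_div_cancel₀ _ hv0]
      have : (x - 1) * (l - 1) = 0 := by
        linear_combination x * hly + (1 - v) * hyx - hv'
      exact sub_eq_zero.1 ((mul_eq_zero.1 this).resolve_left hx1')
  have s_all : ∀ e : E, e ≠ 0 → s • crd e = crd e⁻¹ := fun e he => by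
    by_cases hes : IsSquare e
    · obtain ⟨h, rfl⟩ := (hsq e he).1 hes; exact s_sq h
    · rw [s_ns e hes, hl, one_div]
  -- projective line
  let K := GaloisField p f
  haveI : Fintype K := Fintype.ofFinite K
  have hK : Fintype.card K = p ^ f := by rw [← Nat.card_eq_fintype_card]; exact GaloisField.card p f hf
  let ρ : E ≃+* K := FiniteField.ringEquivOfCardEq (hEcard.trans (by rw [hK]; omega))
  refine ⟨p, f, K, inferInstance, inferInstance, hp, hp2, hK, hcard, ?_⟩
  haveI := hfaith
  have hφsq : ∀ h : H, ∃ k : E, k ≠ 0 ∧ φE h = k * k := fun h => by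
    obtain ⟨k, hk⟩ := (hsq _ (hφne h)).2 ⟨h, rfl⟩
    exact ⟨k, fun h0 => hφne h (by rw [hk, h0, mul_zero]), hk⟩
  refine Cfsg.Lib.PSLCoord.exists_iso ρ (fun x y w v hxy hwv => Cfsg.Lib.Zassenhaus.exists_move hZ hxy hwv) a crd hcrda hcrdi
    (by rw [hEcard]; omega) (fun e => ⟨_, hUa (Subtype.mem _), fun e' => (crd_add e e').symm⟩) (fun k hk => ?_)
    ⟨s, by rw [crd0]; exact sa, by rw [crd0]; exact sb, s_all⟩ ((hsq _ (neg_ne_zero.2 one_ne_zero)).2 ⟨_, hφz⟩) (fun g ga gb => ?_)
  · obtain ⟨h, hh⟩ := (hsq _ (mul_ne_zero hk hk)).1 ⟨k, rfl⟩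
    exact ⟨h, h.2.1, fun e => by rw [crd_h, hh]⟩
  · rw [crd0] at gb
    obtain ⟨k, hk, hk'⟩ := hφsq ⟨g, ga, gb⟩
    exact ⟨k, hk, fun e => by rw [show g • crd e = _ from crd_h ⟨g, ga, gb⟩ e, hk']⟩

end Cfsg.Agent.S0742
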