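import Cfsg.Statements.S0743
import Cfsg.Agent.Lib.PermGroup.MultiTrans
import Mathlib.GroupTheory.PGroup

set_option autoImplicit false
open Cfsg

namespace Cfsg.Agent.S0743

/-- Gleason's Lemma: let `p` be a prime and `1 ≤ k < n`; if every `k`-subset of the `n` points is exactly the fixed-point set of some `p`-subgroup of `G`, then `G` is `k`-transitive. -/
theorem result {α : Type*} [Fintype α] [DecidableEq α] (G : Subgroup (Equiv.Perm α)) {p k : ℕ} (hp : p.Prime) (hk : 1 ≤ k) (hkn : k < Fintype.card α) (h : ∀ s : Finset α, s.card = k → ∃ P : Subgroup G, IsPGroup p P ∧ MulAction.fixedPoints P α = (s : Set α)) : MulAction.IsMultiplyPretransitive G α k := by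
  haveI := Fact.mk hp
  refine Cfsg.Lib.MultiTrans.isMultiplyPretransitive_of_fixing k fun T hT x y hx hy => ?_
  classical
  by_cases hxy : x = y
  · exact ⟨1, fun t _ => one_smul _ t, by rw [one_smul]; exact hxy⟩
  let H := fixingSubgroup G (T : Set α)
  by_contra hno
  push Not at hno
  let O : Set α := MulAction.orbit H x
  have hyO : y ∉ O := by
    rintro ⟨⟨g, hg⟩, hgy⟩
    exact hno g (fun t ht => (mem_fixingSubgroup_iff G).mp hg t ht) hgy
  have count : ∀ s : Finset α, s.card = k → T ⊆ s →
      Nat.card O ≡ Nat.card ↥((s : Set α) ∩ O) [MOD p] := by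
    intro s hs hTs
    obtain ⟨P, hP, hfix⟩ := h s hs
    have hPH : P ≤ H := by
      intro g hg
      rw [mem_fixingSubgroup_iff]
      intro t ht
      have : t ∈ MulAction.fixedPoints P α := hfix ▸ (hTs ht : t ∈ (s : Set α))
      exact this ⟨g, hg⟩
    let S : SubMulAction P α :=
      { carrier := O
        smul_mem' := by
          rintro ⟨g, hg⟩ z ⟨m, rfl⟩
          exact ⟨⟨g, hPH hg⟩ * m, mul_smul _ _ _⟩ }
    have hmod := hP.card_modEq_card_fixedPoints (α := S)
    refine hmod.trans (congrArg (· % p) (Nat.card_congr ?_))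
    exact
      { toFun := fun z => ⟨(z.1 : α), hfix ▸ (fun g => congrArg Subtype.val (z.2 g)), z.1.2⟩
        invFun := fun z => ⟨⟨(z : α), z.2.2⟩, fun g => Subtype.ext ((hfix.symm ▸ z.2.1 :
          (z : α) ∈ MulAction.fixedPoints P α) g)⟩
        left_inv := fun z => rfl
        right_inv := fun z => rfl }
  have hxO : x ∈ O := MulAction.mem_orbit_self x
  obtain ⟨u, hu1, hu2, hu3⟩ := Finset.exists_subsuperset_card_eq
    (s := insert x T) (t := Finset.univ.erase y) (n := k)
    (by
      intro z hz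
      rw [Finset.mem_insert] at hz
      refine Finset.mem_erase.mpr ⟨?_, Finset.mem_univ _⟩
      rintro rfl
      exact hz.elim (fun e => hxy e.symm) hy)
    (by rw [Finset.card_insert_of_notMem hx]; omega)
    (by rw [Finset.card_erase_of_mem (Finset.mem_univ _), Finset.card_univ]; omega)
  have hxu : x ∈ u := hu1 (Finset.mem_insert_self x T)
  have hyu : y ∉ u := fun hm => (Finset.mem_erase.mp (hu2 hm)).1 rfl
  let u' := insert y (u.erase x)
  have hu'c : u'.card = k := by
    rw [Finset.card_insert_of_notMem (fun hm => hyu (Finset.mem_erase.mp hm).2),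
      Finset.card_erase_of_mem hxu]
    omega
  have hTu' : T ⊆ u' := fun t ht => Finset.mem_insert_of_mem
    (Finset.mem_erase.mpr ⟨fun e => hx (e ▸ ht), hu1 (Finset.mem_insert_of_mem ht)⟩)
  have e1 := count u hu3 ((Finset.subset_insert _ _).trans hu1)
  have e2 := count u' hu'c hTu'
  have hset : ((u : Set α) ∩ O) = insert x ((u' : Set α) ∩ O) := by
    ext z
    simp only [u', Set.mem_inter_iff, Finset.mem_coe, Finset.mem_insert, Finset.mem_erase,
      Set.mem_insert_iff]
    constructor
    · rintro ⟨hz, hzO⟩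
      by_cases hzx : z = x
      · exact Or.inl hzx
      · exact Or.inr ⟨Or.inr ⟨hzx, hz⟩, hzO⟩
    · rintro (rfl | ⟨rfl | ⟨-, hz⟩, hzO⟩)
      · exact ⟨hxu, hxO⟩
      · exact absurd hzO hyO
      · exact ⟨hz, hzO⟩
  have hcard : Nat.card ↥((u : Set α) ∩ O) = Nat.card ↥((u' : Set α) ∩ O) + 1 := by
    rw [hset, Nat.card_coe_set_eq, Nat.card_coe_set_eq, Set.ncard_insert_of_notMem]
    simp [u', hxy]
  have e3 := e2.symm.trans e1
  rw [hcard] at e3
  have : 0 ≡ 1 [MOD p] := Nat.ModEq.add_left_cancel' (Nat.card ↥((u' : Set α) ∩ O)) e3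
  have hp1 : p ∣ 1 := Nat.modEq_zero_iff_dvd.mp this.symm
  exact hp.not_dvd_one hp1

end Cfsg.Agent.S0743
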