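import Cfsg.Statements.S0744
import Cfsg.Agent.Lib.PermGroup.MultiTrans
import Mathlib.GroupTheory.Index
import Mathlib.GroupTheory.GroupAction.Quotient

set_option autoImplicit false
open Cfsg

namespace Cfsg.Agent.S0744

/-- If for some `k > 1` the pointwise stabilisers of all `(k-1)`-subsets have the same order `> 1` and those of all `k`-subsets have the same order, then the group is `(k-1)`-transitive. -/
theorem result {α : Type*} [Fintype α] [DecidableEq α] (G : Subgroup (Equiv.Perm α)) {k : ℕ} (hk : 1 < k) (hkn : k ≤ Fintype.card α) (l m : ℕ) (hl : 1 < l) (hkm1 : ∀ s : Finset α, s.card = k - 1 → Nat.card (fixingSubgroup G (s : Set α)) = l) (hkm : ∀ s : Finset α, s.card = k → Nat.card (fixingSubgroup G (s : Set α)) = m) : MulAction.IsMultiplyPretransitive G α (k - 1) := by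
  classical
  refine Cfsg.Lib.MultiTrans.isMultiplyPretransitive_of_fixing (k - 1) fun T₀ hT₀ x y hx hy => ?_
  by_cases hxy : x = y
  · exact ⟨1, fun t _ => one_smul _ t, by rw [one_smul]; exact hxy⟩
  -- enlarge to a set of size k - 2
  obtain ⟨T, hT1, hT2, hT3⟩ := Finset.exists_subsuperset_card_eq
    (s := T₀) (t := (Finset.univ.erase y).erase x) (n := k - 2)
    (by
      intro z hz
      refine Finset.mem_erase.mpr ⟨fun e => hx (e ▸ hz),
        Finset.mem_erase.mpr ⟨fun e => hy (e ▸ hz), Finset.mem_univ _⟩⟩)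
    (by omega)
    (by
      rw [Finset.card_erase_of_mem (Finset.mem_erase.mpr ⟨hxy, Finset.mem_univ _⟩),
        Finset.card_erase_of_mem (Finset.mem_univ _), Finset.card_univ]
      omega)
  have hxT : x ∉ T := fun e => (Finset.mem_erase.mp (hT2 e)).1 rfl
  have hyT : y ∉ T := fun e => (Finset.mem_erase.mp (Finset.mem_erase.mp (hT2 e)).2).1 rfl
  let H := fixingSubgroup G (T : Set α)
  by_contra hno
  push Not at hno
  have hxyO : y ∉ MulAction.orbit H x := by
    rintro ⟨⟨g, hg⟩, hgy⟩
    exact hno g (fun t ht => (mem_fixingSubgroup_iff G).mp hg t (hT1 ht)) hgy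
  have hins : ∀ (s : Finset α) (z : α), fixingSubgroup G ((insert z s : Finset α) : Set α) =
      fixingSubgroup G (s : Set α) ⊓ MulAction.stabilizer G z := by
    intro s z
    ext g
    simp [mem_fixingSubgroup_iff, MulAction.mem_stabilizer_iff, and_comm]
  have horb : ∀ (L : Subgroup G) (z : α), Nat.card (MulAction.orbit L z) *
      Nat.card ↥(L ⊓ MulAction.stabilizer G z) = Nat.card L := by
    intro L z
    have e : Nat.card ↥(L ⊓ MulAction.stabilizer G z) = Nat.card (MulAction.stabilizer L z) := by
      refine Nat.card_congr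
        { toFun := fun g => ⟨⟨(g : G), g.2.1⟩, g.2.2⟩
          invFun := fun g => ⟨((g : L) : G), g.1.2, g.2⟩
          left_inv := fun g => rfl
          right_inv := fun g => rfl }
    rw [e, Nat.card_congr (MulAction.orbitEquivQuotientStabilizer L z),
      ← Subgroup.card_eq_card_quotient_mul_card_subgroup]
  let K := fixingSubgroup G ((insert x T : Finset α) : Set α)
  have hcx : (insert x T).card = k - 1 := by rw [Finset.card_insert_of_notMem hxT]; omega
  have hKl : Nat.card K = l := hkm1 _ hcx
  -- K-orbits outside insert x T have a common size r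
  have hK : ∀ z, z ∉ insert x T → Nat.card (MulAction.orbit K z) * m = l := by
    intro z hz
    rw [← hkm (insert z (insert x T)) (by rw [Finset.card_insert_of_notMem hz]; omega), hins,
      horb K z, hKl]
  have hH : ∀ z, z ∉ T → Nat.card (MulAction.orbit H z) * l = Nat.card H := by
    intro z hz
    rw [← hkm1 (insert z T) (by rw [Finset.card_insert_of_notMem hz]; omega), hins]
    exact horb H z
  have hKH : K ≤ H := fun g hg => by
    rw [mem_fixingSubgroup_iff] at hg ⊢
    exact fun t ht => hg t (by simp [Finset.mem_coe.mp ht])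
  set r := l / m with hr
  have hm0 : 0 < m := by
    obtain ⟨s, hs⟩ := Finset.exists_subset_card_eq (show k ≤ (Finset.univ : Finset α).card by
      rw [Finset.card_univ]; exact hkn)
    rw [← hkm s hs.2]
    exact Nat.card_pos
  have hKr : ∀ z, z ∉ insert x T → Nat.card (MulAction.orbit K z) = r := by
    intro z hz
    rw [hr, ← hK z hz, Nat.mul_div_cancel _ hm0]
  have hr1 : r ≠ 1 := by
    intro e
    have hone : K = ⊥ := by
      rw [eq_bot_iff]
      intro g hg
      rw [Subgroup.mem_bot]
      refine Subtype.ext (Equiv.ext fun z => ?_)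
      change (g : Equiv.Perm α) z = z
      by_cases hz : z ∈ insert x T
      · exact (mem_fixingSubgroup_iff G).mp hg z hz
      · have h1 : Nat.card (MulAction.orbit K z) = 1 := (hKr z hz).trans e
        rw [Nat.card_eq_one_iff_unique] at h1
        haveI := h1.1
        exact congrArg Subtype.val (Subsingleton.elim
          (⟨g • z, ⟨⟨g, hg⟩, rfl⟩⟩ : MulAction.orbit K z) ⟨z, MulAction.mem_orbit_self z⟩)
    rw [hone, Subgroup.card_bot] at hKl
    omega
  -- a K-invariant set avoiding insert x T has size divisible by r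
  have hdiv : ∀ S : Set α, (∀ g ∈ K, ∀ z ∈ S, g • z ∈ S) → (∀ z ∈ S, z ∉ insert x T) →
      r ∣ Nat.card S := by
    intro S hS hSd
    let M : SubMulAction K α :=
      { carrier := S
        smul_mem' := fun g z hz => hS g g.2 z hz }
    change r ∣ Nat.card M
    rw [Nat.card_congr (MulAction.selfEquivSigmaOrbits K M), Nat.card_sigma]
    refine Finset.dvd_sum fun ω _ => dvd_of_eq ?_
    rw [← hKr (ω.out : α) (hSd _ ω.out.2)]
    refine Nat.card_congr (Equiv.ofBijective
      (fun z => ⟨((z : M) : α), by
        obtain ⟨g, hg⟩ := z.2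
        exact ⟨g, congrArg Subtype.val hg⟩⟩) ⟨fun z w e => ?_, fun z => ?_⟩).symm
    · exact Subtype.ext (Subtype.ext (congrArg Subtype.val e :))
    · obtain ⟨g, hg⟩ := z.2
      exact ⟨⟨g • ω.out, ⟨g, rfl⟩⟩, Subtype.ext hg⟩
  have hinv : ∀ z : α, ∀ g ∈ K, ∀ w ∈ MulAction.orbit H z, g • w ∈ MulAction.orbit H z := by
    rintro z g hg w ⟨k', rfl⟩
    exact ⟨⟨g, hKH hg⟩ * k', mul_smul _ _ _⟩
  have hout : ∀ z, z ∉ T → ∀ w ∈ MulAction.orbit H z, w ∉ T := by
    rintro z hz w ⟨⟨g, hg⟩, rfl⟩ hw
    change g • z ∈ T at hw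
    have := (mem_fixingSubgroup_iff G).mp hg _ hw
    rw [smul_left_cancel_iff] at this
    exact hz (this ▸ hw)
  have hry : r ∣ Nat.card (MulAction.orbit H y) := by
    refine hdiv _ (hinv y) fun w hw hwm => ?_
    rcases Finset.mem_insert.mp hwm with rfl | hwT
    · exact hxyO (MulAction.mem_orbit_symm.mp hw)
    · exact hout y hyT w hw hwT
  have hrx : r ∣ Nat.card ↥(MulAction.orbit H x \ {x}) := by
    refine hdiv _ (fun g hg w hw => ⟨hinv x g hg w hw.1, fun e => ?_⟩) fun w hw hwm => ?_
    · have := (mem_fixingSubgroup_iff G).mp hg x (Finset.mem_coe.mpr (Finset.mem_insert_self x T))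
      rw [Set.mem_singleton_iff] at e
      rw [← this, smul_left_cancel_iff] at e
      exact hw.2 e
    · rcases Finset.mem_insert.mp hwm with rfl | hwT
      · exact hw.2 rfl
      · exact hout x hxT w hw.1 hwT
  have heq : Nat.card (MulAction.orbit H x) = Nat.card (MulAction.orbit H y) :=
    Nat.eq_of_mul_eq_mul_right (by omega : 0 < l) ((hH x hxT).trans (hH y hyT).symm)
  have hone : Nat.card ↥(MulAction.orbit H x \ {x}) + 1 = Nat.card (MulAction.orbit H x) := by
    rw [Nat.card_coe_set_eq, Nat.card_coe_set_eq,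
      Set.ncard_sdiff_singleton_add_one (MulAction.mem_orbit_self x)]
  rw [← heq, ← hone] at hry
  exact hr1 (Nat.dvd_one.mp ((Nat.dvd_add_right hrx).mp hry))

end Cfsg.Agent.S0744
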