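import Cfsg.Statements.S0749
import Mathlib
import Cfsg.Agent.Lib.Classical.Witt

set_option autoImplicit false
open Cfsg
open scoped Matrix

namespace Cfsg.Agent.S0749

/-- Witt's Lemma for alternating forms. If B is a non-degenerate alternating bilinear form on a finite-dimensional vector space V (over any field) and φ is a linear equivalence between subspaces X and Y of V preserving B, then φ extends to a B-preserving linear automorphism of V. -/
theorem result {F V : Type*} [Field F] [AddCommGroup V] [Module F V] [FiniteDimensional F V] (B : LinearMap.BilinForm F V) (hB : B.Nondegenerate) (hA : B.IsAlt) (X Y : Submodule F V) (φ : X ≃ₗ[F] Y) (hφ : ∀ x x' : X, B (φ x : V) (φ x' : V) = B (x : V) (x' : V)) : ∃ g : V ≃ₗ[F] V, (∀ u v : V, B (g u) (g v) = B u v) ∧ ∀ x : X, g (x : V) = (φ x : V) := by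
  classical
  let b := Module.finBasis F X
  have he : LinearIndependent F fun i => (b i : V) := b.linearIndependent.map' X.subtype (Submodule.ker_subtype X)
  have he' : LinearIndependent F fun i => (φ (b i) : V) :=
    (b.linearIndependent.map' φ.toLinearMap (LinearEquiv.ker φ)).map' Y.subtype (Submodule.ker_subtype Y)
  obtain ⟨g, hg, hge⟩ := Cfsg.Lib.Classical.Witt.alt_witt hB hA _ _ he he' fun i j => (hφ _ _).symm
  refine ⟨g, hg, fun x => ?_⟩
  have : g.toLinearMap.comp X.subtype = Y.subtype.comp φ.toLinearMap := b.ext fun i => hge i
  exact LinearMap.congr_fun this x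

end Cfsg.Agent.S0749
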