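import Cfsg.Statements.S0751
import Mathlib
import Cfsg.Agent.Lib.Classical.Witt

set_option autoImplicit false
open Cfsg
open scoped Matrix

namespace Cfsg.Agent.S0751

/-- Witt's Lemma for Hermitian forms. Let σ be a non-identity involutive automorphism of a finite field F and B a non-degenerate σ-sesquilinear form on a finite-dimensional F-space V which is conjugate-symmetric (σ (B x y) = B y x). Then every linear equivalence between subspaces X, Y of V preserving B extends to a B-preserving linear automorphism of V. -/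
theorem result {F V : Type*} [Field F] [Finite F] [AddCommGroup V] [Module F V] [FiniteDimensional F V] (σ : F →+* F) (hσ : σ ≠ RingHom.id F) (hσ2 : ∀ a : F, σ (σ a) = a) (B : V →ₛₗ[σ] V →ₗ[F] F) (hS : B.IsSymm) (hB : B.Nondegenerate) (X Y : Submodule F V) (φ : X ≃ₗ[F] Y) (hφ : ∀ x x' : X, B (φ x : V) (φ x' : V) = B (x : V) (x' : V)) : ∃ g : V ≃ₗ[F] V, (∀ u v : V, B (g u) (g v) = B u v) ∧ ∀ x : X, g (x : V) = (φ x : V) := by
  classical
  let b := Module.finBasis F X
  have he : LinearIndependent F fun i => (b i : V) := b.linearIndependent.map' X.subtype (Submodule.ker_subtype X)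
  have he' : LinearIndependent F fun i => (φ (b i) : V) :=
    (b.linearIndependent.map' φ.toLinearMap (LinearEquiv.ker φ)).map' Y.subtype (Submodule.ker_subtype Y)
  obtain ⟨θ, hθ⟩ : ∃ θ, θ + σ θ = 1 := by
    obtain ⟨c, hc⟩ : ∃ c, c + σ c ≠ 0 := by
      by_contra h
      push Not at h
      refine hσ (RingHom.ext fun a => ?_)
      have h1 := h 1
      rw [map_one] at h1
      rw [RingHom.id_apply]
      linear_combination h a - a * h1
    refine ⟨c / (c + σ c), ?_⟩
    rw [map_div₀, map_add, hσ2, add_comm (σ c) c, ← add_div, div_self hc]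
  obtain ⟨g, hg, hge⟩ := Cfsg.Lib.Classical.Witt.herm_witt hσ2 (fun x y => hS.eq x y) hθ hB _ _ he he' fun i j => (hφ _ _).symm
  refine ⟨g, hg, fun x => ?_⟩
  have : g.toLinearMap.comp X.subtype = Y.subtype.comp φ.toLinearMap := b.ext fun i => hge i
  exact LinearMap.congr_fun this x

end Cfsg.Agent.S0751
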