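import Cfsg.Statements.S0752
import Mathlib

set_option autoImplicit false
open Cfsg
open scoped Matrix

namespace Cfsg.Agent.S0752

/-- Classification of alternating forms: for an alternating bilinear form B on a finite-dimensional space over any field there is a basis indexed by (Fin m ⊕ Fin m) ⊕ Fin k such that B (e_i, f_j) = δ_ij, the e's are pairwise orthogonal, the f's are pairwise orthogonal, and the last k basis vectors are orthogonal to everything (they span the radical). -/
theorem result {F V : Type*} [Field F] [AddCommGroup V] [Module F V] [FiniteDimensional F V] (B : LinearMap.BilinForm F V) (hA : B.IsAlt) : ∃ (m k : ℕ) (b : Module.Basis ((Fin m ⊕ Fin m) ⊕ Fin k) F V), (∀ i j : Fin m, B (b (Sum.inl (Sum.inl i))) (b (Sum.inl (Sum.inr j))) = if i = j then 1 else 0) ∧ (∀ i j : Fin m, B (b (Sum.inl (Sum.inl i))) (b (Sum.inl (Sum.inl j))) = 0) ∧ (∀ i j : Fin m, B (b (Sum.inl (Sum.inr i))) (b (Sum.inl (Sum.inr j))) = 0) ∧ (∀ (j : Fin k) (v : V), B (b (Sum.inr j)) v = 0) := by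
  classical
  suffices h : ∀ (d : ℕ) (V : Type u_2) [AddCommGroup V] [Module F V] [FiniteDimensional F V] (B : LinearMap.BilinForm F V), B.IsAlt → Module.finrank F V = d →
      ∃ (m k : ℕ) (b : Module.Basis ((Fin m ⊕ Fin m) ⊕ Fin k) F V), (∀ i j : Fin m, B (b (Sum.inl (Sum.inl i))) (b (Sum.inl (Sum.inr j))) = if i = j then 1 else 0) ∧ (∀ i j : Fin m, B (b (Sum.inl (Sum.inl i))) (b (Sum.inl (Sum.inl j))) = 0) ∧ (∀ i j : Fin m, B (b (Sum.inl (Sum.inr i))) (b (Sum.inl (Sum.inr j))) = 0) ∧ (∀ (j : Fin k) (v : V), B (b (Sum.inr j)) v = 0) from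
    h _ V B hA rfl
  intro d
  induction d using Nat.strong_induction_on with
  | _ d ih =>
  intro V _ _ _ B hA hd
  by_cases hB : B = 0
  · refine ⟨0, Module.finrank F V, (Module.finBasis F V).reindex
      ((Equiv.emptySum (Fin 0 ⊕ Fin 0) (Fin (Module.finrank F V))).symm), ?_, ?_, ?_, ?_⟩
    · exact fun i => i.elim0
    · exact fun i => i.elim0
    · exact fun i => i.elim0
    · intro j v; simp [hB]
  obtain ⟨e, f₀, hef⟩ : ∃ e f₀, B e f₀ ≠ 0 := by
    by_contra! h
    exact hB (LinearMap.ext₂ h)
  let f := (B e f₀)⁻¹ • f₀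
  have hf : B e f = 1 := by simp [f, hef]
  have hfe : B f e = -1 := by rw [← LinearMap.IsAlt.neg hA, hf]
  let L : V →ₗ[F] F × F := (B e).prod (B f)
  let W := LinearMap.ker L
  have hW : ∀ x, x ∈ W ↔ B e x = 0 ∧ B f x = 0 := fun x => by
    simp [W, L, LinearMap.mem_ker, Prod.ext_iff]
  have hsurj : Function.Surjective L := fun p => ⟨p.1 • f + (-p.2) • e, by
    simp [L, hf, hfe, hA e, hA f]⟩
  have hdim : Module.finrank F W + 2 = d := by
    have : Module.finrank F (LinearMap.range L) + Module.finrank F W = Module.finrank F V := LinearMap.finrank_range_add_finrank_ker L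
    rw [LinearMap.range_eq_top.2 hsurj, finrank_top, Module.finrank_prod, Module.finrank_self, hd] at this
    omega
  obtain ⟨m, k, b, b1, b2, b3, b4⟩ := ih (Module.finrank F W) (by omega) W (B.compl₁₂ W.subtype W.subtype) (fun x => hA _) rfl
  let v : ((Fin (m + 1) ⊕ Fin (m + 1)) ⊕ Fin k) → V :=
    Sum.elim (Sum.elim (Fin.cases e fun i => (b (Sum.inl (Sum.inl i)) : V)) (Fin.cases f fun i => (b (Sum.inl (Sum.inr i)) : V)))
      (fun j => (b (Sum.inr j) : V))
  have hWe : ∀ x : W, B e x = 0 := fun x => ((hW x).1 x.2).1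
  have hWf : ∀ x : W, B f x = 0 := fun x => ((hW x).1 x.2).2
  have hWe' : ∀ x : W, B (x : V) e = 0 := fun x => by rw [← LinearMap.IsAlt.neg hA, hWe, neg_zero]
  have hWf' : ∀ x : W, B (x : V) f = 0 := fun x => by rw [← LinearMap.IsAlt.neg hA, hWf, neg_zero]
  have hspan : ⊤ ≤ Submodule.span F (Set.range v) := by
    intro x _
    let w : V := x - (B e x) • f + (B f x) • e
    have hw : w ∈ W := by
      rw [hW]
      constructor <;> simp [w, hf, hfe, hA e, hA f]
    have hx : x = w + (B e x) • f - (B f x) • e := by simp [w]; abel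
    have hmem : ∀ i, v i ∈ Submodule.span F (Set.range v) := fun i => Submodule.subset_span ⟨i, rfl⟩
    rw [hx]
    refine Submodule.sub_mem _ (Submodule.add_mem _ ?_ (Submodule.smul_mem _ _ (hmem (Sum.inl (Sum.inr 0)))))
      (Submodule.smul_mem _ _ (hmem (Sum.inl (Sum.inl 0))))
    have h1 : (⟨w, hw⟩ : W) ∈ Submodule.span F (Set.range b) := b.span_eq ▸ Submodule.mem_top
    have h2 : W.subtype ⟨w, hw⟩ ∈ (Submodule.span F (Set.range b)).map W.subtype := ⟨_, h1, rfl⟩
    rw [Submodule.map_span, ← Set.range_comp] at h2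
    refine Submodule.span_mono ?_ h2
    rintro _ ⟨(i | i) | j, rfl⟩
    · exact ⟨Sum.inl (Sum.inl i.succ), by simp [v]⟩
    · exact ⟨Sum.inl (Sum.inr i.succ), by simp [v]⟩
    · exact ⟨Sum.inr j, by simp [v]⟩
  have hcard : Fintype.card ((Fin (m + 1) ⊕ Fin (m + 1)) ⊕ Fin k) = Module.finrank F V := by
    have := Module.finrank_eq_card_basis b
    simp at this ⊢
    omega
  let b' := basisOfTopLeSpanOfCardEqFinrank v hspan hcard
  have hb : ∀ i, b' i = v i := fun i => by simp [b']
  refine ⟨m + 1, k, b', ?_, ?_, ?_, ?_⟩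
  · intro i j
    rw [hb, hb]
    induction i using Fin.cases with
    | zero => induction j using Fin.cases with
      | zero => simp [v, hf]
      | succ j => simp [v, hWe, (Fin.succ_ne_zero j).symm]
    | succ i => induction j using Fin.cases with
      | zero => simp [v, hWf', Fin.succ_ne_zero]
      | succ j => simpa [v, Fin.succ_inj] using b1 i j
  · intro i j
    rw [hb, hb]
    induction i using Fin.cases with
    | zero => induction j using Fin.cases with
      | zero => simp [v, hA e]
      | succ j => simp [v, hWe]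
    | succ i => induction j using Fin.cases with
      | zero => simp [v, hWe']
      | succ j => simpa [v] using b2 i j
  · intro i j
    rw [hb, hb]
    induction i using Fin.cases with
    | zero => induction j using Fin.cases with
      | zero => simp [v, hA f]
      | succ j => simp [v, hWf]
    | succ i => induction j using Fin.cases with
      | zero => simp [v, hWf']
      | succ j => simpa [v] using b3 i j
  · intro j x
    rw [hb]
    change B (b (Sum.inr j) : V) x = 0
    let w : V := x - (B e x) • f + (B f x) • e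
    have hw : w ∈ W := by
      rw [hW]
      constructor <;> simp [w, hf, hfe, hA e, hA f]
    have hx : x = w + (B e x) • f - (B f x) • e := by simp [w]; abel
    rw [hx]
    have h0 : B (b (Sum.inr j) : V) w = 0 := b4 j ⟨w, hw⟩
    simp [hWe', hWf', h0]

end Cfsg.Agent.S0752
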