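import Cfsg.Statements.S0754
import Mathlib

set_option autoImplicit false
open Cfsg

namespace Cfsg.Agent.S0754

/-- In a field F with q^2 elements, every non-zero μ with μ^q = μ (that is, μ in the subfield of order q) has exactly q + 1 solutions λ of λ^(q+1) = μ. -/
theorem result {F : Type*} [Field F] [Fintype F] {q : ℕ} (hF : Fintype.card F = q ^ 2) (μ : F) (hμ : μ ≠ 0) (hμq : μ ^ q = μ) : Nat.card {x : F // x ^ (q + 1) = μ} = q + 1 := by
  classical
  have hq : 2 ≤ q := by
    by_contra h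
    have := Fintype.one_lt_card (α := F)
    rw [hF] at this
    interval_cases q <;> simp at this
  let u : Fˣ := Units.mk0 μ hμ
  have hk : ∀ d : ℕ, d ∣ q ^ 2 - 1 → Nat.card (powMonoidHom d : Fˣ →* Fˣ).ker = d := fun d hd => by
    rw [IsCyclic.card_powMonoidHom_ker, Nat.card_units, Nat.card_eq_fintype_card, hF]
    exact Nat.gcd_eq_right hd
  have hfac : q ^ 2 - 1 = (q + 1) * (q - 1) := by
    rw [← Nat.sq_sub_sq q 1, one_pow]
  have hrange : u ∈ (powMonoidHom (q + 1) : Fˣ →* Fˣ).range := by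
    have hle : (powMonoidHom (q + 1) : Fˣ →* Fˣ).range ≤ (powMonoidHom (q - 1) : Fˣ →* Fˣ).ker := by
      rintro _ ⟨x, rfl⟩
      rw [MonoidHom.mem_ker, powMonoidHom_apply, powMonoidHom_apply, ← pow_mul, ← hfac, ← hF,
        ← Nat.card_eq_fintype_card, ← Nat.card_units, pow_card_eq_one']
    have heq : (powMonoidHom (q + 1) : Fˣ →* Fˣ).range = (powMonoidHom (q - 1) : Fˣ →* Fˣ).ker := by
      refine Subgroup.eq_of_le_of_card_ge hle ?_
      rw [hk (q - 1) ⟨q + 1, by rw [hfac, mul_comm]⟩, IsCyclic.card_powMonoidHom_range, Nat.card_units,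
        Nat.card_eq_fintype_card, hF, Nat.gcd_eq_right (Dvd.intro _ hfac.symm), hfac,
        Nat.mul_div_cancel_left _ (by omega)]
    rw [heq, MonoidHom.mem_ker, powMonoidHom_apply]
    refine Units.ext ?_
    have h1 : μ ^ (q - 1) * μ = 1 * μ := by
      rw [← pow_succ, Nat.sub_add_cancel (by omega), hμq, one_mul]
    simpa [u] using mul_right_cancel₀ hμ h1
  obtain ⟨x₀, hx₀⟩ := hrange
  have hx₀' : (x₀ : F) ^ (q + 1) = μ := congrArg Units.val hx₀
  refine Eq.trans ?_ (hk (q + 1) (Dvd.intro _ hfac.symm))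
  refine Nat.card_congr
    { toFun := fun x => ⟨Units.mk0 (x.1 / x₀) (div_ne_zero (fun h => hμ (by
          rw [← x.2, h, zero_pow (by omega)])) x₀.ne_zero), Units.ext (by
          simp [div_pow, x.2, hx₀', hμ])⟩
      invFun := fun y => ⟨(y.1 : F) * x₀, by
        rw [mul_pow, hx₀', show (y.1 : F) ^ (q + 1) = 1 from congrArg Units.val y.2, one_mul]⟩
      left_inv := fun x => Subtype.ext (by simp)
      right_inv := fun y => Subtype.ext (Units.ext (by simp)) }

end Cfsg.Agent.S0754
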