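import Cfsg.Statements.S0755
import Mathlib
import Cfsg.Agent.Lib.Classical.Unitary

set_option autoImplicit false
open Cfsg
open scoped Matrix

namespace Cfsg.Agent.S0755

/-- Classification of Hermitian forms over finite fields: if σ is a non-identity involutive automorphism of the finite field F and B is a non-degenerate conjugate-symmetric σ-sesquilinear form on the finite-dimensional space V, then V has a B-orthonormal basis. -/
theorem result {F V : Type*} [Field F] [Finite F] [AddCommGroup V] [Module F V] [FiniteDimensional F V] (σ : F →+* F) (hσ : σ ≠ RingHom.id F) (hσ2 : ∀ a : F, σ (σ a) = a) (B : V →ₛₗ[σ] V →ₗ[F] F) (hS : B.IsSymm) (hB : B.Nondegenerate) : ∃ b : Module.Basis (Fin (Module.finrank F V)) F V, ∀ i j, B (b i) (b j) = if i = j then 1 else 0 := by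
  classical
  let τ : F ≃+* F := RingEquiv.ofBijective σ ⟨σ.injective, fun a => ⟨σ a, hσ2 a⟩⟩
  have hτ : τ ≠ RingEquiv.refl F := fun h => hσ (RingHom.ext fun a => DFunLike.congr_fun h a)
  have hsym : ∀ x y, σ (B x y) = B y x := fun x y => hS.eq x y
  set n := Module.finrank F V with hn
  have main : ∀ k ≤ n, ∃ e : Fin k → V, ∀ i j, B (e i) (e j) = if i = j then 1 else 0 := by
    intro k
    induction k with
    | zero => intro _; exact ⟨Fin.elim0, fun i => i.elim0⟩
    | succ k ih =>
      intro hk
      obtain ⟨e, he⟩ := ih (by omega)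
      let T : V →ₗ[F] (Fin k → F) := LinearMap.pi fun i => B (e i)
      obtain ⟨x, hx, hx0⟩ := (LinearMap.ker T).exists_mem_ne_zero_of_ne_bot (LinearMap.ker_ne_bot_of_finrank_lt (by rw [Module.finrank_fin_fun]; omega))
      have hperp : ∀ {w}, w ∈ LinearMap.ker T → ∀ i, B (e i) w = 0 := fun {w} hw i => congrFun (LinearMap.mem_ker.1 hw) i
      obtain ⟨v, hv, hvv⟩ : ∃ v ∈ LinearMap.ker T, B v v ≠ 0 := by
        by_contra hc
        push Not at hc
        have hpol : ∀ w ∈ LinearMap.ker T, B x w = 0 := by
          intro w hw
          by_contra hne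
          have hy : ∀ y : F, y + σ y = 0 := by
            intro y
            have h := hc (x + (y / B x w) • w) (Submodule.add_mem _ hx (Submodule.smul_mem _ _ hw))
            simp only [map_add, LinearMap.add_apply, LinearMap.map_smulₛₗ, LinearMap.smul_apply, RingHom.id_apply, smul_eq_mul, hc x hx, hc w hw, ← hsym x w, map_div₀] at h
            have hne' : σ (B x w) ≠ 0 := fun h0 => hne (σ.injective (by rw [h0, map_zero]))
            rw [mul_zero, add_zero, zero_add, div_mul_cancel₀ _ hne, div_mul_cancel₀ _ hne'] at h
            linear_combination h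
          refine hσ (RingHom.ext fun y => ?_)
          have h1 := hy 1
          rw [map_one] at h1
          rw [RingHom.id_apply]
          linear_combination hy y - y * h1
        refine hx0 (hB.1 x fun y => ?_)
        have hw : y - ∑ i, B (e i) y • e i ∈ LinearMap.ker T := by
          rw [LinearMap.mem_ker]
          ext j
          show B (e j) (y - ∑ i, B (e i) y • e i) = 0
          simp [map_sum, he, Finset.sum_ite_eq]
        have := hpol _ hw
        have hxe : ∀ i, B x (e i) = 0 := fun i => by rw [← hsym, hperp hx i, map_zero]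
        simpa [map_sum, hxe] using this
      obtain ⟨z, hz⟩ := Cfsg.Lib.Classical.exists_norm_eq hτ (fun a => hσ2 a) (a := 1 / B v v) (by
        rw [map_div₀, map_one]; show 1 / σ (B v v) = _; rw [hsym])
      refine ⟨Fin.snoc e (z • v), fun i j => ?_⟩
      refine Fin.lastCases ?_ (fun i => ?_) i <;> refine Fin.lastCases ?_ (fun j => ?_) j
      · rw [Fin.snoc_last, if_pos rfl, map_smul, LinearMap.map_smulₛₗ, LinearMap.smul_apply, smul_eq_mul, smul_eq_mul, ← mul_assoc]
        show z * τ z * B v v = 1
        rw [hz, one_div, inv_mul_cancel₀ hvv]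
      · rw [Fin.snoc_last, Fin.snoc_castSucc, if_neg (Fin.castSucc_ne_last j).symm, LinearMap.map_smulₛₗ, LinearMap.smul_apply, ← hsym (e j) v, hperp hv j, map_zero, smul_zero]
      · rw [Fin.snoc_last, Fin.snoc_castSucc, if_neg (Fin.castSucc_ne_last i), map_smul, hperp hv i, smul_zero]
      · simp [he]
  obtain ⟨e, he⟩ := main n le_rfl
  have hli : LinearIndependent F e := by
    rw [Fintype.linearIndependent_iff]
    intro c hc i
    have := congrArg (B (e i)) hc
    simpa [map_sum, he] using this
  rcases Nat.eq_zero_or_pos n with h0 | h0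
  · exact ⟨Module.finBasis F V, fun i => absurd i.2 (by omega)⟩
  haveI : Nonempty (Fin n) := ⟨⟨0, h0⟩⟩
  exact ⟨basisOfLinearIndependentOfCardEqFinrank hli (by simp [hn]), fun i j => by simpa using he i j⟩

end Cfsg.Agent.S0755
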