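import Cfsg.Statements.S0757
import Mathlib

set_option autoImplicit false
open Cfsg

namespace Cfsg.Agent.S0757

/-- The two diagonal forms Σ x_i^2 and Σ_(i<n) x_i^2 + α x_n^2 on F^(n+1), with α a non-square and 2 ≠ 0 in F, are inequivalent quadratic forms (so over a finite field of odd order there are exactly two classes of non-singular symmetric bilinear forms in each dimension). -/
theorem result {F : Type*} [Field F] (h2 : (2 : F) ≠ 0) (n : ℕ) (α : F) (hα : ¬ IsSquare α) : ¬ (QuadraticMap.weightedSumSquares F (fun _ : Fin (n + 1) => (1 : F))).Equivalent (QuadraticMap.weightedSumSquares F (fun i : Fin (n + 1) => if i = Fin.last n then α else (1 : F))) := by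
  classical
  rintro ⟨φ⟩
  let M := LinearMap.toMatrix' φ.toLinearEquiv.toLinearMap
  let w : Fin (n + 1) → F := fun i => if i = Fin.last n then α else 1
  have hQ : ∀ x : Fin (n + 1) → F, ∑ i, w i * (φ x i * φ x i) = ∑ i, x i * x i := by
    intro x
    have h := φ.map_app x
    simp only [QuadraticMap.weightedSumSquares_apply, smul_eq_mul, one_mul] at h
    exact h
  have hpol : ∀ x y : Fin (n + 1) → F, ∑ i, w i * (φ x i * φ y i) = ∑ i, x i * y i := by
    intro x y
    have h := hQ (x + y)
    simp only [map_add, Pi.add_apply] at h
    have h1 : ∀ a b c d e : F, a * ((b + c) * (d + e)) = a * (b * d) + a * (b * e) + a * (c * d) + a * (c * e) :=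
      fun a b c d e => by ring
    simp only [h1, mul_add, add_mul, Finset.sum_add_distrib] at h
    have h3 : ∑ i, w i * (φ y i * φ x i) = ∑ i, w i * (φ x i * φ y i) :=
      Finset.sum_congr rfl fun i _ => by ring
    have h4 : ∑ i, y i * x i = ∑ i, x i * y i := Finset.sum_congr rfl fun i _ => by ring
    refine mul_left_cancel₀ h2 ?_
    linear_combination h - hQ x - hQ y - h3 + h4
  have hM : M.transpose * Matrix.diagonal w * M = 1 := by
    ext i j
    rw [Matrix.mul_assoc]
    simp only [Matrix.mul_apply, Matrix.transpose_apply, Matrix.diagonal_mul]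
    have := hpol (Pi.single i 1) (Pi.single j 1)
    simp only [Pi.single_apply, ite_mul, one_mul, zero_mul, Finset.sum_ite_eq', Finset.mem_univ, if_true] at this
    rw [Matrix.one_apply, ← this]
    refine Finset.sum_congr rfl fun k _ => ?_
    simp [M, LinearMap.toMatrix'_apply, Pi.single_apply, Matrix.diagonal_apply]
    ring
  have hd := congrArg Matrix.det hM
  simp [Matrix.det_mul, Matrix.det_transpose, w, Finset.prod_ite_eq'] at hd
  exact hα ⟨M.det⁻¹, by
    have hne : M.det ≠ 0 := fun e => by rw [e] at hd; simp at hd
    field_simp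
    linear_combination hd⟩

end Cfsg.Agent.S0757
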