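import Cfsg.Statements.S0758
import Mathlib

set_option autoImplicit false
open Cfsg

namespace Cfsg.Agent.S0758

/-- For a finite field F of odd order q and a non-square α: the form x² + y² is isotropic iff q ≡ 1 mod 4, and the form x² + α y² is isotropic iff q ≡ 3 mod 4. -/
theorem result {F : Type*} [Field F] [Fintype F] (h2 : (2 : F) ≠ 0) (α : F) (hα : ¬ IsSquare α) : ((∃ x y : F, (x ≠ 0 ∨ y ≠ 0) ∧ x ^ 2 + y ^ 2 = 0) ↔ Fintype.card F % 4 = 1) ∧ ((∃ x y : F, (x ≠ 0 ∨ y ≠ 0) ∧ x ^ 2 + α * y ^ 2 = 0) ↔ Fintype.card F % 4 = 3) := by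
  classical
  have hodd : ringChar F ≠ 2 := fun h => h2 (by
    have := ringChar.Nat.cast_ringChar (R := F)
    rw [h] at this
    exact_mod_cast this)
  have hcard : Fintype.card F % 2 = 1 := FiniteField.odd_card_of_char_ne_two hodd
  have hneg : IsSquare (-1 : F) ↔ Fintype.card F % 4 ≠ 3 := FiniteField.isSquare_neg_one_iff
  have iso : ∀ c : F, c ≠ 0 → ((∃ x y : F, (x ≠ 0 ∨ y ≠ 0) ∧ x ^ 2 + c * y ^ 2 = 0) ↔ IsSquare (-c)) := by
    intro c hc
    constructor
    · rintro ⟨x, y, hxy, h⟩
      have hy : y ≠ 0 := fun e => by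
        rw [e] at h hxy
        simp at h hxy
        exact hxy h
      exact ⟨x / y, by field_simp; linear_combination -h⟩
    · rintro ⟨r, hr⟩
      exact ⟨r, 1, Or.inr one_ne_zero, by linear_combination -hr⟩
  constructor
  · have := iso 1 one_ne_zero
    simp only [one_mul] at this
    rw [this, hneg]; omega
  · rw [iso α (fun e => hα (e ▸ IsSquare.zero))]
    have hαn : quadraticChar F α = -1 := quadraticChar_neg_one_iff_not_isSquare.2 hα
    have hα0 : α ≠ 0 := fun e => hα (e ▸ IsSquare.zero)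
    rw [← quadraticChar_one_iff_isSquare (neg_ne_zero.2 hα0), show -α = (-1) * α by ring, map_mul, hαn]
    rcases (quadraticChar_dichotomy (neg_ne_zero.2 one_ne_zero) : quadraticChar F (-1) = 1 ∨ _) with h | h
    · have := (quadraticChar_one_iff_isSquare (neg_ne_zero.2 one_ne_zero)).1 h
      rw [h]; simp; have := hneg.1 this; omega
    · have := quadraticChar_neg_one_iff_not_isSquare.1 h
      rw [h]; simp; rw [hneg] at this; omega

end Cfsg.Agent.S0758
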