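import Cfsg.Statements.S0759
import Mathlib
import Cfsg.Agent.Lib.Classical.SymmForm

set_option autoImplicit false
open Cfsg
open scoped Matrix

namespace Cfsg.Agent.S0759

/-- Type of the orthonormal form: over a finite field of odd order q and for m ≥ 1, the quadratic form Σ_(i<2m) x_i² on F^(2m) admits an m-dimensional subspace on which it vanishes identically if and only if it is not the case that q ≡ 3 (mod 4) and m is odd. -/
theorem result {F : Type*} [Field F] [Fintype F] (h2 : (2 : F) ≠ 0) (m : ℕ) (hm : 1 ≤ m) : (∃ W : Submodule F (Fin (2 * m) → F), Module.finrank F W = m ∧ ∀ w ∈ W, ∑ i, w i ^ 2 = 0) ↔ ¬ (Fintype.card F % 4 = 3 ∧ Odd m) := by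
  classical
  have hodd : ringChar F ≠ 2 := Cfsg.Lib.Classical.SymmForm.char_ne_two h2
  have hiff := FiniteField.isSquare_neg_one_iff (F := F)
  let e : Fin m × Fin 2 ≃ Fin (2 * m) := finProdFinEquiv.trans (finCongr (mul_comm m 2))
  constructor
  · rintro ⟨W, hW, hsq⟩ ⟨h3, hmodd⟩
    refine (hiff.not.2 (by simpa using h3)) ?_
    let bW : Module.Basis (Fin m) F W := (Module.finBasis F W).reindex (finCongr hW)
    obtain ⟨W', hW'⟩ := Submodule.exists_isCompl W
    have hWd : Module.finrank F W' = m := by
      have := Submodule.finrank_add_eq_of_isCompl hW'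
      simp [hW] at this
      omega
    let bW' : Module.Basis (Fin m) F W' := (Module.finBasis F W').reindex (finCongr hWd)
    let b : Module.Basis (Fin m ⊕ Fin m) F (Fin (2 * m) → F) := (bW.prod bW').map (Submodule.prodEquivOfIsCompl W W' hW')
    have hbl : ∀ i, b (Sum.inl i) = bW i := fun i => by simp [b]
    let f : Fin m ⊕ Fin m ≃ Fin (2 * m) := finSumFinEquiv.trans (finCongr (two_mul m).symm)
    let P : Matrix (Fin m ⊕ Fin m) (Fin m ⊕ Fin m) F := Matrix.of fun r c => b c (f r)
    set G := Pᵀ * P with hG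
    have hGe : ∀ i j, G i j = ∑ k, b i k * b j k := fun i j => by
      rw [hG, Matrix.mul_apply]
      exact Fintype.sum_equiv f _ _ fun k => rfl
    have h11 : G.toBlocks₁₁ = 0 := Matrix.ext fun i j => by
      change G (Sum.inl i) (Sum.inl j) = 0
      rw [hGe, hbl, hbl]
      have ha := hsq _ (W.add_mem (bW i).2 (bW j).2)
      have hb := hsq _ (bW i).2
      have hc := hsq _ (bW j).2
      simp only [Pi.add_apply, add_sq, Finset.sum_add_distrib, hb, hc, zero_add, add_zero, mul_assoc,
        ← Finset.mul_sum] at ha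
      exact (mul_eq_zero.1 ha).resolve_left h2
    have hGs : G.toBlocks₂₁ = G.toBlocks₁₂ᵀ := Matrix.ext fun i j => by
      change G (Sum.inr i) (Sum.inl j) = G (Sum.inl j) (Sum.inr i)
      rw [hGe, hGe]; simp [mul_comm]
    have hPdet : P.det ≠ 0 := by
      intro h0
      obtain ⟨x, hx0, hx⟩ := Matrix.exists_mulVec_eq_zero_iff.2 h0
      refine hx0 (funext fun c => Fintype.linearIndependent_iff.1 b.linearIndependent x ?_ c)
      funext k
      have := congrFun hx (f.symm k)
      simpa [P, Matrix.mulVec, dotProduct, mul_comm] using this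
    have hX : (Matrix.fromBlocks (0 : Matrix (Fin m) (Fin m) F) (1 : Matrix (Fin m) (Fin m) F) (1 : Matrix (Fin m) (Fin m) F) 0).det = (-1) ^ m := by
      have : Matrix.fromBlocks (0 : Matrix (Fin m) (Fin m) F) (1 : Matrix (Fin m) (Fin m) F) (1 : Matrix (Fin m) (Fin m) F) 0 = Matrix.fromBlocks (1 : Matrix (Fin m) (Fin m) F) (-1) 0 1 * Matrix.fromBlocks 1 1 1 0 := by
        simp [Matrix.fromBlocks_multiply]
      rw [this, Matrix.det_mul, Matrix.det_fromBlocks_zero₂₁, Matrix.det_fromBlocks_one₁₁]
      simp [Matrix.det_neg]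
    have hd : G.det * (-1) ^ m = G.toBlocks₁₂.det ^ 2 := by
      rw [← hX, ← Matrix.det_mul]
      conv_lhs => rw [← Matrix.fromBlocks_toBlocks G, h11, hGs]
      rw [Matrix.fromBlocks_multiply]
      simp [Matrix.det_fromBlocks_zero₁₂, pow_two]
    have hGd : G.det = P.det ^ 2 := by rw [hG, Matrix.det_mul, Matrix.det_transpose, pow_two]
    rw [hGd, hmodd.neg_one_pow] at hd
    refine ⟨G.toBlocks₁₂.det / P.det, ?_⟩
    rw [div_mul_div_comm, ← pow_two, ← hd]
    field_simp
  · intro h
    have make : ∀ (u : Fin m → Fin (2 * m) → F), (∀ i j, ∑ k, u i k * u j k = 0) → LinearIndependent F u →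
        ∃ W : Submodule F (Fin (2 * m) → F), Module.finrank F W = m ∧ ∀ w ∈ W, ∑ i, w i ^ 2 = 0 := by
      intro u hu hli
      refine ⟨Submodule.span F (Set.range u), by rw [finrank_span_eq_card hli, Fintype.card_fin], fun w hw => ?_⟩
      obtain ⟨c, rfl⟩ := (Submodule.mem_span_range_iff_exists_fun F).1 hw
      simp only [Finset.sum_apply, Pi.smul_apply, smul_eq_mul, pow_two, Finset.sum_mul_sum]
      rw [Finset.sum_comm]
      refine Finset.sum_eq_zero fun i _ => ?_
      rw [Finset.sum_comm]
      refine Finset.sum_eq_zero fun j _ => ?_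
      rw [show ∑ k, c i * u i k * (c j * u j k) = c i * c j * ∑ k, u i k * u j k by
        rw [Finset.mul_sum]; exact Finset.sum_congr rfl fun k _ => by ring]
      rw [hu, mul_zero]
    by_cases hs : IsSquare (-1 : F)
    · obtain ⟨s, hs⟩ := hs
      let u : Fin m → Fin (2 * m) → F := fun i k => if (e.symm k).1 = i then ![1, s] (e.symm k).2 else 0
      refine make u (fun i j => ?_) ?_
      · rw [← Equiv.sum_comp e, Fintype.sum_prod_type]
        simp [u]
        rcases eq_or_ne i j with rfl | hij
        · simp [Finset.sum_add_distrib]; linear_combination hs.symm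
        · exact fun h' => absurd h'.symm hij
      · refine Fintype.linearIndependent_iff.2 fun c hc i => ?_
        simpa [u] using congrFun hc (e (i, 0))
    · have hm2 : Even m := by
        rw [← Nat.not_odd_iff_even]; exact fun ho => h ⟨by simpa using hiff.not.1 hs, ho⟩
      obtain ⟨l, rfl⟩ := hm2
      obtain ⟨a, b, hab⟩ := Cfsg.Lib.Classical.SymmForm.exists_sq_add_sq h2 (-1)
      let f : Fin l × Fin 4 ≃ Fin (2 * (l + l)) := finProdFinEquiv.trans (finCongr (by ring))
      let g : Fin l × Fin 2 ≃ Fin (l + l) := finProdFinEquiv.trans (finCongr (by ring))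
      let u : Fin (l + l) → Fin (2 * (l + l)) → F := fun i k =>
        if (f.symm k).1 = (g.symm i).1 then ![![1, 0, a, b], ![0, 1, -b, a]] (g.symm i).2 (f.symm k).2 else 0
      refine make u (fun i j => ?_) ?_
      · obtain ⟨⟨i, x⟩, rfl⟩ := g.surjective i
        obtain ⟨⟨j, y⟩, rfl⟩ := g.surjective j
        rw [← Equiv.sum_comp f, Fintype.sum_prod_type]
        simp [u, Fin.sum_univ_four]
        rcases eq_or_ne i j with rfl | hij
        · simp [Finset.sum_add_distrib]
          fin_cases x <;> fin_cases y <;> simp <;> first | linear_combination hab | ring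
        · exact fun h' => absurd h'.symm hij
      · refine Fintype.linearIndependent_iff.2 fun c hc i => ?_
        obtain ⟨⟨i, x⟩, rfl⟩ := g.surjective i
        have key : ∀ p : Fin 4, ∑ y : Fin 2, c (g (i, y)) * ![![1, 0, a, b], ![0, 1, -b, a]] y p = 0 := by
          intro p
          have h1 := congrFun hc (f (i, p))
          rw [Finset.sum_apply, ← Equiv.sum_comp g, Fintype.sum_prod_type] at h1
          simpa [u, Fin.sum_univ_two] using h1
        fin_cases x
        · simpa [Fin.sum_univ_two] using key 0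
        · simpa [Fin.sum_univ_two] using key 1

end Cfsg.Agent.S0759
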