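import Cfsg.Statements.S0760
import Mathlib
import Cfsg.Agent.Lib.Classical.Witt

set_option autoImplicit false
open Cfsg
open scoped Matrix

namespace Cfsg.Agent.S0760

/-- Witt index is well defined: if Q is a quadratic form on a finite-dimensional space V over a finite field with non-degenerate polar form, and W₁, W₂ are subspaces on which Q vanishes that are maximal with this property, then W₁ and W₂ have the same dimension, and twice this dimension is at most dim V. -/
theorem result {F V : Type*} [Field F] [Finite F] [AddCommGroup V] [Module F V] [FiniteDimensional F V] (Q : QuadraticForm F V) (hQ : (QuadraticMap.polarBilin Q).Nondegenerate) (W₁ W₂ : Submodule F V) (h₁ : ∀ w ∈ W₁, Q w = 0) (h₂ : ∀ w ∈ W₂, Q w = 0) (hmax₁ : ∀ W : Submodule F V, W₁ ≤ W → (∀ w ∈ W, Q w = 0) → W = W₁) (hmax₂ : ∀ W : Submodule F V, W₂ ≤ W → (∀ w ∈ W, Q w = 0) → W = W₂) : Module.finrank F W₁ = Module.finrank F W₂ ∧ 2 * Module.finrank F W₁ ≤ Module.finrank F V := by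
  classical
  have hpol : ∀ W : Submodule F V, (∀ w ∈ W, Q w = 0) → ∀ x ∈ W, ∀ y ∈ W, QuadraticMap.polarBilin Q x y = 0 := by
    intro W hW x hx y hy
    rw [QuadraticMap.polarBilin_apply_apply, QuadraticMap.polar, hW _ hx, hW _ hy, hW _ (W.add_mem hx hy), sub_zero, sub_zero]
  have key : ∀ A C : Submodule F V, (∀ w ∈ A, Q w = 0) → (∀ w ∈ C, Q w = 0) →
      (∀ W : Submodule F V, A ≤ W → (∀ w ∈ W, Q w = 0) → W = A) → Module.finrank F C ≤ Module.finrank F A := by
    intro A C hA hC hmax
    by_contra! hlt
    let bA := Module.finBasis F A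
    let bC := Module.finBasis F C
    let c : Fin (Module.finrank F A) → V := fun i => (bC (i.castLE hlt.le) : V)
    have hc : LinearIndependent F c :=
      (bC.linearIndependent.comp _ (Fin.castLE_injective hlt.le)).map' C.subtype (Submodule.ker_subtype C)
    obtain ⟨g, hg, hge⟩ := Cfsg.Lib.Classical.Witt.quad_witt hQ (fun i => (bA i : V)) c
      (bA.linearIndependent.map' A.subtype (Submodule.ker_subtype A)) hc
      (fun i => by rw [hA _ (bA i).2, hC _ (bC _).2]) (fun i j => by rw [hpol A hA _ (bA i).2 _ (bA j).2, hpol C hC _ (bC _).2 _ (bC _).2])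
    have hle : A ≤ C.map g.symm.toLinearMap := by
      intro x hx
      have hx' := bA.sum_repr ⟨x, hx⟩
      have hv := congrArg Subtype.val hx'
      simp only [AddSubmonoidClass.coe_finsetSum, SetLike.val_smul] at hv
      rw [← hv]
      refine Submodule.sum_mem _ fun i _ => Submodule.smul_mem _ _ ⟨c i, (bC _).2, ?_⟩
      show g.symm (c i) = _
      rw [← hge i, g.symm_apply_apply]
    have := hmax _ hle (fun w hw => by
      obtain ⟨y, hy, rfl⟩ := hw
      rw [← hg]; simpa using hC y hy)
    have hd := (LinearEquiv.submoduleMap g.symm C).finrank_eq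
    rw [show C.map (g.symm : V →ₗ[F] V) = A from this] at hd
    omega
  refine ⟨le_antisymm (key W₂ W₁ h₂ h₁ hmax₂) (key W₁ W₂ h₁ h₂ hmax₁), ?_⟩
  have hsub : W₁ ≤ LinearMap.BilinForm.orthogonal (QuadraticMap.polarBilin Q) W₁ := fun x hx y hy => hpol W₁ h₁ y hy x hx
  have := Submodule.finrank_mono hsub
  rw [LinearMap.BilinForm.finrank_orthogonal hQ] at this
  have := Submodule.finrank_le W₁
  omega

end Cfsg.Agent.S0760
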