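import Cfsg.Statements.S0761
import Mathlib

set_option autoImplicit false
open Cfsg

namespace Cfsg.Agent.S0761

/-- Hyperbolic partners: let B be a non-degenerate bilinear form on a finite-dimensional space, either alternating, or symmetric with 2 ≠ 0. If Z is a subspace on which B vanishes, x ∉ Z is isotropic and orthogonal to Z, then there is an isotropic y with B x y = 1 which is orthogonal to Z. -/
theorem result {F V : Type*} [Field F] [AddCommGroup V] [Module F V] [FiniteDimensional F V] (B : LinearMap.BilinForm F V) (hB : B.Nondegenerate) (hform : B.IsAlt ∨ (B.IsSymm ∧ (2 : F) ≠ 0)) (x : V) (Z : Submodule F V) (hxZ : x ∉ Z) (hx : B x x = 0) (hxz : ∀ z ∈ Z, B x z = 0) (hZ : ∀ z ∈ Z, ∀ z' ∈ Z, B z z' = 0) : ∃ y : V, B y y = 0 ∧ B x y = 1 ∧ ∀ z ∈ Z, B z y = 0 := by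
  classical
  have hrefl : ∀ a b : V, B a b = 0 → B b a = 0 := by
    intro a b h
    rcases hform with hA | ⟨hS, -⟩
    · rw [← LinearMap.IsAlt.neg hA, h, neg_zero]
    · rw [hS.eq]; exact h
  obtain ⟨φ, hφx, hφZ⟩ := Submodule.exists_le_ker_of_notMem hxZ
  obtain ⟨y₀, hy₀⟩ : ∃ y₀ : V, ∀ w, B w y₀ = ((φ x)⁻¹ • φ) w :=
    ⟨(LinearMap.BilinForm.toDual B.flip hB.flip).symm ((φ x)⁻¹ • φ), fun w =>
      LinearMap.congr_fun ((LinearMap.BilinForm.toDual B.flip hB.flip).apply_symm_apply ((φ x)⁻¹ • φ)) w⟩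
  have hxy : B x y₀ = 1 := by rw [hy₀]; simp [hφx]
  have hzy : ∀ z ∈ Z, B z y₀ = 0 := fun z hz => by rw [hy₀]; simp [LinearMap.mem_ker.1 (hφZ hz)]
  rcases hform with hA | ⟨hS, h2⟩
  · exact ⟨y₀, hA y₀, hxy, hzy⟩
  · refine ⟨y₀ - (B y₀ y₀ / 2) • x, ?_, ?_, fun z hz => ?_⟩
    · simp only [map_sub, map_smul, LinearMap.sub_apply, LinearMap.smul_apply, smul_eq_mul]
      rw [hx, hS.eq y₀ x, hxy]
      field_simp
      ring
    · simp [hx, hxy]
    · simp [hzy z hz, hrefl x z (hxz z hz)]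

end Cfsg.Agent.S0761
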