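import Cfsg.Statements.S0762
import Mathlib

set_option autoImplicit false
open Cfsg

namespace Cfsg.Agent.S0762

/-- In characteristic two over a finite field, a quadratic form on a space of dimension at least 3 vanishes on some non-zero vector. -/
theorem result {F V : Type*} [Field F] [Finite F] [CharP F 2] [AddCommGroup V] [Module F V] [FiniteDimensional F V] (Q : QuadraticForm F V) (h3 : 3 ≤ Module.finrank F V) : ∃ v : V, v ≠ 0 ∧ Q v = 0 := by
  classical
  let n := Module.finrank F V
  have : Fintype F := Fintype.ofFinite F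
  let b := Module.finBasis F V
  let e : (Fin n → F) ≃ₗ[F] V := b.equivFun.symm
  let p : MvPolynomial (Fin n) F := ∑ i : Fin n, MvPolynomial.C (Q (b i)) * MvPolynomial.X i ^ 2 +
    ∑ ij ∈ (Finset.univ : Finset (Fin n)).sym2.filter (fun ij => ¬ ij.IsDiag),
      MvPolynomial.C (Sym2.lift ⟨fun i j => QuadraticMap.polar Q (b i) (b j), fun i j => QuadraticMap.polar_comm _ _ _⟩ ij) *
        Sym2.lift ⟨fun i j => MvPolynomial.X i * MvPolynomial.X j, fun i j => mul_comm _ _⟩ ij
  have heval : ∀ x : Fin n → F, MvPolynomial.eval x p = Q (e x) := by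
    intro x
    rw [show e x = ∑ i, x i • b i from Module.Basis.equivFun_symm_apply b x, QuadraticMap.map_sum]
    simp only [p, map_add, map_sum, map_mul, MvPolynomial.eval_C, map_pow, MvPolynomial.eval_X]
    congr 1
    · exact Finset.sum_congr rfl fun i _ => by rw [QuadraticMap.map_smul, smul_eq_mul]; ring
    · refine Finset.sum_congr rfl fun ij _ => ?_
      induction ij using Sym2.ind with
      | _ i j => simp [QuadraticMap.polar_smul_left, QuadraticMap.polar_smul_right]; ring
  have hdeg : p.totalDegree ≤ 2 := by
    refine (MvPolynomial.totalDegree_add _ _).trans (max_le ?_ ?_) <;>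
      refine MvPolynomial.totalDegree_finsetSum_le fun i _ => (MvPolynomial.totalDegree_mul _ _).trans ?_
    · simp
    · induction i using Sym2.ind with
      | _ i j => simp only [MvPolynomial.totalDegree_C, zero_add, Sym2.lift_mk]
                 exact (MvPolynomial.totalDegree_mul _ _).trans (by simp)
  have h := char_dvd_card_solutions 2 (show p.totalDegree < Fintype.card (Fin n) by simp [n]; omega)
  have h0 : MvPolynomial.eval (0 : Fin n → F) p = 0 := by rw [heval, map_zero, QuadraticMap.map_zero]
  obtain ⟨⟨x, hx⟩, hne⟩ := Fintype.exists_ne_of_one_lt_card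
    (α := {x : Fin n → F // MvPolynomial.eval x p = 0}) (by
      have hpos : 0 < Fintype.card {x : Fin n → F // MvPolynomial.eval x p = 0} := Fintype.card_pos_iff.2 ⟨⟨0, h0⟩⟩
      have := Nat.le_of_dvd hpos h
      omega) ⟨0, h0⟩
  exact ⟨e x, fun hz => hne (Subtype.ext (e.injective (hz.trans (map_zero e).symm))), (heval x).symm.trans hx⟩

end Cfsg.Agent.S0762
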