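import Cfsg.Statements.S0763
import Mathlib

set_option autoImplicit false
open Cfsg
open scoped Matrix

namespace Cfsg.Agent.S0763

/-- Binary quadratic forms in characteristic two over a finite field: if Q is a quadratic form on a 2-dimensional space whose polar form is non-degenerate, then either there are vectors v, w with Q v = Q w = 0 and polar value 1 (Q is xy in these coordinates), or there are v, w and μ with Q v = 1, Q w = μ, polar value 1 and x² + x + μ without roots in F (Q is x² + xy + μy²). -/
theorem result {F V : Type*} [Field F] [Finite F] [CharP F 2] [AddCommGroup V] [Module F V] (Q : QuadraticForm F V) (h2 : Module.finrank F V = 2) (hQ : (QuadraticMap.polarBilin Q).Nondegenerate) : (∃ v w : V, LinearIndependent F ![v, w] ∧ Q v = 0 ∧ Q w = 0 ∧ QuadraticMap.polar Q v w = 1) ∨ (∃ (v w : V) (μ : F), LinearIndependent F ![v, w] ∧ (∀ x : F, x ^ 2 + x + μ ≠ 0) ∧ Q v = 1 ∧ Q w = μ ∧ QuadraticMap.polar Q v w = 1) := by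
  classical
  have : FiniteDimensional F V := Module.finite_of_finrank_eq_succ h2
  have hch : (2 : F) = 0 := CharTwo.two_eq_zero
  have hex : ∀ v : V, v ≠ 0 → ∃ w, QuadraticMap.polar Q v w = 1 := by
    intro v hv
    obtain ⟨z, hz⟩ : ∃ z, QuadraticMap.polarBilin Q v z ≠ 0 := by
      by_contra! h
      exact hv (hQ.1 v h)
    exact ⟨((QuadraticMap.polarBilin Q) v z)⁻¹ • z, by
      rw [QuadraticMap.polar_smul_right]; exact inv_mul_cancel₀ hz⟩
  have hself : ∀ v : V, QuadraticMap.polar Q v v = 0 := fun v => by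
    rw [QuadraticMap.polar_self]; simp [hch]
  have hli : ∀ v w : V, QuadraticMap.polar Q v w = 1 → LinearIndependent F ![v, w] := by
    intro v w h
    rw [LinearIndependent.pair_iff]
    intro s t hst
    have h1 := congrArg (fun x => QuadraticMap.polar Q v x) hst
    have h2' := congrArg (fun x => QuadraticMap.polar Q x w) hst
    simp [QuadraticMap.polar_add_right, QuadraticMap.polar_add_left, QuadraticMap.polar_smul_right,
      QuadraticMap.polar_smul_left, hself, h] at h1 h2'
    exact ⟨h2', h1⟩
  by_cases hiso : ∃ v : V, v ≠ 0 ∧ Q v = 0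
  · obtain ⟨v, hv, hQv⟩ := hiso
    obtain ⟨w, hw⟩ := hex v hv
    left
    have hp : QuadraticMap.polar Q v (w + Q w • v) = 1 := by
      simp [QuadraticMap.polar_add_right, QuadraticMap.polar_smul_right, hself, hw]
    refine ⟨v, w + Q w • v, hli _ _ hp, hQv, ?_, hp⟩
    rw [QuadraticMap.map_add ⇑Q, QuadraticMap.map_smul, QuadraticMap.polar_smul_right, QuadraticMap.polar_comm, hw, hQv]
    simp [← two_mul, hch]
  · push Not at hiso
    right
    have : Nontrivial V := Module.nontrivial_of_finrank_eq_succ h2
    obtain ⟨u, hu⟩ := exists_ne (0 : V)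
    have : PerfectRing F 2 := inferInstance
    obtain ⟨r, hr⟩ := surjective_frobenius F 2 (Q u)
    rw [frobenius_def] at hr
    have hr0 : r ≠ 0 := fun h => hiso u hu (by rw [← hr, h]; simp)
    have hQ1 : Q (r⁻¹ • u) = 1 := by rw [QuadraticMap.map_smul, ← hr, smul_eq_mul]; field_simp
    obtain ⟨w, hw⟩ := hex (r⁻¹ • u) (smul_ne_zero (inv_ne_zero hr0) hu)
    refine ⟨r⁻¹ • u, w, Q w, hli _ _ hw, fun x hx => ?_, hQ1, rfl, hw⟩
    refine hiso (x • (r⁻¹ • u) + w) (fun h => ?_) ?_
    · have := congrArg (fun y => QuadraticMap.polar Q (r⁻¹ • u) y) h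
      simp [QuadraticMap.polar_add_right, QuadraticMap.polar_smul_right, hself, hw] at this
    · rw [QuadraticMap.map_add ⇑Q, QuadraticMap.map_smul, QuadraticMap.polar_smul_left, hQ1, hw]
      simp only [smul_eq_mul]
      linear_combination hx

end Cfsg.Agent.S0763
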