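import Cfsg.Statements.S0765
import Mathlib
import Cfsg.Agent.Lib.Classical.SymplecticMatrix

set_option autoImplicit false
open Cfsg

namespace Cfsg.Agent.S0765

open Cfsg.Lib.Classical Matrix

/-- Generation of the symplectic group by symplectic transvections: the subgroup of Sp_2m(F) generated by all matrices of maps x ↦ x + c f(x, w) w is the whole group. -/
theorem result {F : Type*} [Field F] (m : ℕ) : Subgroup.closure {A : Matrix.symplecticGroup (Fin m) F | ∃ (w : Fin m ⊕ Fin m → F) (c : F), (A : Matrix (Fin m ⊕ Fin m) (Fin m ⊕ Fin m) F) = Cfsg.sympTransvection m w c} = ⊤ := by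
  set S := {A : Matrix.symplecticGroup (Fin m) F | ∃ (w : Fin m ⊕ Fin m → F) (c : F), (A : Matrix (Fin m ⊕ Fin m) (Fin m ⊕ Fin m) F) = Cfsg.sympTransvection m w c} with hS
  rw [Subgroup.eq_top_iff']
  intro A
  have hle : Cfsg.spGL m F ≤ (Subgroup.closure S).map spToGL := by
    refine spGL_le_of_sTGL_mem fun v c => ?_
    refine ⟨⟨_, (mem_symplecticGroup_iff_spGL _).2 (sTGL_mem_spGL v c)⟩,
      Subgroup.subset_closure ⟨v, c, coe_sTGL_std v c⟩, Units.ext ?_⟩
    exact coe_spToGL _
  have hmem : spToGL A ∈ Cfsg.spGL m F := (mem_symplecticGroup_iff_spGL _).1 (by rw [coe_spToGL]; exact A.2)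
  obtain ⟨B, hB, hBA⟩ := hle hmem
  rwa [← spToGL_injective hBA]

end Cfsg.Agent.S0765
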