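import Cfsg.Statements.S0766
import Mathlib
import Cfsg.Agent.S0765
import Cfsg.Agent.Lib.Classical.SymplecticMatrix

set_option autoImplicit false
open Cfsg

namespace Cfsg.Agent.S0766

open Cfsg.Lib.Classical Matrix

/-- The subgroup generated by the symplectic transvections acts transitively on ordered pairs (u, v) with f(u, v) = 1. -/
theorem result {F : Type*} [Field F] (m : ℕ) (u v u' v' : Fin m ⊕ Fin m → F) (h : Cfsg.sympForm m F u v = 1) (h' : Cfsg.sympForm m F u' v' = 1) : ∃ A ∈ Subgroup.closure {A : Matrix.symplecticGroup (Fin m) F | ∃ (w : Fin m ⊕ Fin m → F) (c : F), (A : Matrix (Fin m ⊕ Fin m) (Fin m ⊕ Fin m) F) = Cfsg.sympTransvection m w c}, (A : Matrix (Fin m ⊕ Fin m) (Fin m ⊕ Fin m) F).mulVec u = u' ∧ (A : Matrix (Fin m ⊕ Fin m) (Fin m ⊕ Fin m) F).mulVec v = v' := by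
  obtain ⟨e, he, heu, hev⟩ := exists_move_pair (sympBilin F m) (sympBilin_isAlt F m) ⊤
    (nondegOn_top (sympBilin_nondegenerate F m)) (Submodule.mem_top (x := u)) (Submodule.mem_top (x := v))
    (Submodule.mem_top (x := u')) (Submodule.mem_top (x := v'))
    (by rw [sympBilin_apply, h]) (by rw [sympBilin_apply, h'])
  have hg : (glEquiv _ F).symm e ∈ Cfsg.spGL m F := mem_spGL_iff.2 fun x y => by
    rw [glEquiv_symm_mulVec, glEquiv_symm_mulVec]
    exact tvClosure_le_isoGroup _ _ _ he x y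
  refine ⟨⟨_, (mem_symplecticGroup_iff_spGL _).2 hg⟩, ?_,
    (glEquiv_symm_mulVec e u).trans heu, (glEquiv_symm_mulVec e v).trans hev⟩
  rw [Cfsg.Agent.S0765.result]
  exact Subgroup.mem_top _

end Cfsg.Agent.S0766
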