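import Cfsg.Statements.S0767
import Mathlib
import Cfsg.Agent.Lib.Classical.SymplecticMatrix

set_option autoImplicit false
open Cfsg

namespace Cfsg.Agent.S0767

open Cfsg.Lib.Classical Matrix

/-- The root group of a point: T_v(c) T_v(d) = T_v(c + d), and for A in the symplectic group with A v = a v, the conjugate A T_v(c) A⁻¹ is again some T_v(d). -/
theorem result {F : Type*} [Field F] (m : ℕ) (v : Fin m ⊕ Fin m → F) : (∀ c d : F, Cfsg.sympTransvection m v c * Cfsg.sympTransvection m v d = Cfsg.sympTransvection m v (c + d)) ∧ ∀ (A : Matrix (Fin m ⊕ Fin m) (Fin m ⊕ Fin m) F) (a : F), A ∈ Matrix.symplecticGroup (Fin m) F → A.mulVec v = a • v → ∀ c : F, ∃ d : F, A * Cfsg.sympTransvection m v c * A⁻¹ = Cfsg.sympTransvection m v d := by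
  refine ⟨fun c d => by rw [← coe_sTGL_std, ← coe_sTGL_std, ← Units.val_mul, sTGL_mul, coe_sTGL_std],
    fun A a hA hAv c => ?_⟩
  obtain ⟨g, hg⟩ := ((Matrix.isUnit_iff_isUnit_det A).2 (SymplecticGroup.symplectic_det hA))
  subst hg
  refine ⟨a * a * c, ?_⟩
  have hg := mem_spGL_iff.1 ((mem_symplecticGroup_iff_spGL g).1 hA)
  rw [← coe_sTGL_std, ← coe_sTGL_std, ← Matrix.coe_units_inv, ← Units.val_mul, ← Units.val_mul,
    conj_sTGL_iso _ _ g hg, hAv, sTGL_smul]

end Cfsg.Agent.S0767
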