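import Cfsg.Statements.S0769
import Mathlib

set_option autoImplicit false
open Cfsg
open scoped Matrix

namespace Cfsg.Agent.S0769

/-- Order of the Borel subgroup of GL_n(q): the invertible lower-triangular n × n matrices over a field with q elements number q^(n(n-1)/2) (q-1)^n (unitriangular part times the diagonal torus). -/
theorem result {F : Type*} [Field F] [Fintype F] {q : ℕ} (hF : Fintype.card F = q) (n : ℕ) : Nat.card {g : Matrix.GeneralLinearGroup (Fin n) F // ∀ i j : Fin n, i < j → (g : Matrix (Fin n) (Fin n) F) i j = 0} = q ^ (n * (n - 1) / 2) * (q - 1) ^ n := by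
  subst hF
  classical
  let L := {p : Fin n × Fin n // p.2 < p.1}
  have e : {g : Matrix.GeneralLinearGroup (Fin n) F // ∀ i j : Fin n, i < j → (g : Matrix (Fin n) (Fin n) F) i j = 0} ≃ (L → F) × (Fin n → Fˣ) :=
    { toFun := fun g => (fun p => (g.1 : Matrix (Fin n) (Fin n) F) p.1.1 p.1.2, fun i => Units.mk0 ((g.1 : Matrix (Fin n) (Fin n) F) i i) (by
        have hd : (g.1 : Matrix (Fin n) (Fin n) F).det ≠ 0 := by
          rw [← Matrix.GeneralLinearGroup.val_det_apply]; exact Units.ne_zero _
        rw [Matrix.det_of_isLowerTriangular _ (fun i j h => g.2 i j h), Finset.prod_ne_zero_iff] at hd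
        exact hd i (Finset.mem_univ i)))
      invFun := fun p => ⟨Matrix.GeneralLinearGroup.mkOfDetNeZero
        (Matrix.of fun i j => if h : j < i then p.1 ⟨(i, j), h⟩ else if i = j then (p.2 i : F) else 0) (by
          rw [Matrix.det_of_isLowerTriangular _ (fun i j h => by
            have h' : i < j := h
            simp [h'.not_gt, h'.ne])]
          exact Finset.prod_ne_zero_iff.2 fun i _ => by simp), fun i j h => by simp [h.not_gt, h.ne]⟩
      left_inv := fun g => Subtype.ext (Units.ext (Matrix.ext fun i j => by
        rcases lt_trichotomy j i with h | h | h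
        · simp [h]
        · subst h; simp
        · simp [h.not_gt, h.ne, g.2 i j h]))
      right_inv := fun p => Prod.ext (funext fun x => by simp [x.2]) (funext fun i => Units.ext (by simp)) }
  have hL : Fintype.card L = n * (n - 1) / 2 := by
    rw [Fintype.card_congr (Equiv.subtypeProdEquivSigmaSubtype fun a b : Fin n => b < a), Fintype.card_sigma,
      ← Finset.sum_range_id, ← Fin.sum_univ_eq_sum_range (fun i => i) n]
    refine Finset.sum_congr rfl fun i _ => ?_
    rw [Fintype.card_subtype, show (Finset.univ.filter fun b : Fin n => b < i) = Finset.Iio i by ext; simp, Fin.card_Iio]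
  rw [Nat.card_congr e, Nat.card_prod, Nat.card_fun, Nat.card_fun, Nat.card_units, Nat.card_eq_fintype_card,
    Nat.card_eq_fintype_card, hL, Nat.card_eq_fintype_card, Fintype.card_fin]

end Cfsg.Agent.S0769
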