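import Cfsg.Statements.S0770
import Mathlib

set_option autoImplicit false
open Cfsg
open scoped Pointwise

namespace Cfsg.Agent.S0770

/-- For a field with at least 3 elements, an invertible matrix normalises the subgroup of invertible diagonal matrices of GL_n if and only if it is monomial (exactly one non-zero entry in each row). -/
theorem result {F : Type*} [Field F] (hF : ∃ a : F, a ≠ 0 ∧ a ≠ 1) (n : ℕ) (g : Matrix.GeneralLinearGroup (Fin n) F) : g ∈ Subgroup.normalizer ((Units.map (Matrix.diagonalRingHom (Fin n) F).toMonoidHom).range : Subgroup (Matrix.GeneralLinearGroup (Fin n) F)) ↔ ∀ i : Fin n, ∃! j : Fin n, (g : Matrix (Fin n) (Fin n) F) i j ≠ 0 := by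
  classical
  let D : Subgroup (Matrix.GeneralLinearGroup (Fin n) F) :=
    (Units.map (Matrix.diagonalRingHom (Fin n) F).toMonoidHom).range
  change g ∈ Subgroup.normalizer (D : Set (Matrix.GeneralLinearGroup (Fin n) F)) ↔ _
  let G := (g : Matrix (Fin n) (Fin n) F)
  have hrow : ∀ i, ∃ j, G i j ≠ 0 := fun i => by
    by_contra! h
    have := congrFun (congrFun g.mul_inv i) i
    simp [G, Matrix.mul_apply, h] at this
  have hcol : ∀ j, ∃ i, G i j ≠ 0 := fun j => by
    by_contra! h
    have := congrFun (congrFun g.inv_mul j) j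
    simp [G, Matrix.mul_apply, h] at this
  have mem : ∀ (u : Fin n → Fˣ), ∃ d ∈ D, (d : Matrix (Fin n) (Fin n) F) = Matrix.diagonal fun k => (u k : F) :=
    fun u => ⟨_, ⟨MulEquiv.piUnits.symm u, rfl⟩, rfl⟩
  constructor
  · intro hg i
    obtain ⟨j, hj⟩ := hrow i
    refine ⟨j, hj, fun j' hj' => by_contra fun hne => ?_⟩
    obtain ⟨a, ha, ha1⟩ := hF
    obtain ⟨d, hdD, hd⟩ := mem fun k => if k = j then Units.mk0 a ha else 1
    obtain ⟨e, he⟩ := (Subgroup.mem_normalizer_iff.1 hg d).1 hdD
    have h1 : g * d = (Units.map (Matrix.diagonalRingHom (Fin n) F).toMonoidHom e) * g := by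
      rw [he, inv_mul_cancel_right]
    have h2 := congrArg (fun z : Matrix.GeneralLinearGroup (Fin n) F => (z : Matrix (Fin n) (Fin n) F)) h1
    simp only [Units.val_mul, hd] at h2
    change G * _ = Matrix.diagonal (e : Fin n → F) * G at h2
    have e1 := congrFun (congrFun h2 i) j
    have e2 := congrFun (congrFun h2 i) j'
    rw [Matrix.mul_diagonal, Matrix.diagonal_mul] at e1 e2
    simp [hne] at e1 e2
    have e3 : a = (e : Fin n → F) i := mul_left_cancel₀ hj (by rw [e1, mul_comm])
    have e4 : (1 : F) = (e : Fin n → F) i := mul_left_cancel₀ hj' (by rw [mul_one, mul_comm]; exact e2)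
    exact ha1 (e3.trans e4.symm)
  · intro h
    choose π hπ huniq using h
    have hzero : ∀ i j, j ≠ π i → G i j = 0 := fun i j hj => by_contra fun h0 => hj (huniq i j h0)
    have hsurj : Function.Surjective π := fun j => by
      obtain ⟨i, hi⟩ := hcol j
      exact ⟨i, (huniq i j hi).symm⟩
    let σ : Equiv.Perm (Fin n) := Equiv.ofBijective π ⟨Finite.injective_iff_surjective.2 hsurj, hsurj⟩
    have key : ∀ (d e : Fin n → F), (∀ i, e i = d (π i)) →
        G * Matrix.diagonal d = Matrix.diagonal e * G := by
      intro d e he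
      ext i j
      rw [Matrix.mul_diagonal, Matrix.diagonal_mul]
      rcases eq_or_ne j (π i) with rfl | hj
      · rw [he, mul_comm]
      · rw [hzero i j hj, zero_mul, mul_zero]
    refine Subgroup.mem_normalizer_iff.2 fun d => ⟨?_, ?_⟩
    · rintro ⟨u, rfl⟩
      obtain ⟨e, heD, he⟩ := mem fun i => MulEquiv.piUnits u (π i)
      convert heD using 1
      rw [mul_inv_eq_iff_eq_mul]
      refine Units.ext ?_
      rw [Units.val_mul, Units.val_mul, he]
      exact key _ _ fun i => rfl
    · rintro ⟨u, hu⟩
      obtain ⟨e, heD, he⟩ := mem fun j => MulEquiv.piUnits u (σ.symm j)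
      convert heD using 1
      have h1 : g * d = (Units.map (Matrix.diagonalRingHom (Fin n) F).toMonoidHom u) * g := by
        rw [hu, inv_mul_cancel_right]
      refine mul_left_cancel (h1.trans (Units.ext ?_))
      rw [Units.val_mul, Units.val_mul, he]
      exact (key _ _ fun i => by
        change _ = (u : Fin n → F) (σ.symm (σ i))
        rw [Equiv.symm_apply_apply]).symm

end Cfsg.Agent.S0770
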