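import Cfsg.Statements.S0771
import Mathlib
import Cfsg.Agent.Lib.Classical.SubspaceStab

set_option autoImplicit false
open Cfsg
open scoped Matrix

namespace Cfsg.Agent.S0771

/-- Maximal parabolic of GL_n(q): the stabiliser of the coordinate subspace spanned by the first k basis vectors has order q^(k(n-k)) · |GL_k(q)| · |GL_(n-k)(q)| (unipotent radical of order q^(k(n-k)) and Levi complement GL_k × GL_(n-k)). -/
theorem result {F : Type*} [Field F] [Fintype F] {q : ℕ} (hF : Fintype.card F = q) (n k : ℕ) (hk : k ≤ n) : Nat.card ↥(Cfsg.stabilizing (Cfsg.glToMat (Fin n) F) {v : Fin n → F | ∀ i : Fin n, k ≤ (i : ℕ) → v i = 0}) = q ^ (k * (n - k)) * (∏ i : Fin k, (q ^ k - q ^ (i : ℕ))) * ∏ i : Fin (n - k), (q ^ (n - k) - q ^ (i : ℕ)) := by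
  classical
  obtain ⟨m, rfl⟩ : ∃ m, n = k + m := ⟨n - k, by omega⟩
  rw [Nat.add_sub_cancel_left]
  let W : Submodule F (Fin (k + m) → F) :=
    { carrier := {v : Fin (k + m) → F | ∀ i : Fin (k + m), k ≤ (i : ℕ) → v i = 0}
      zero_mem' := fun i _ => rfl
      add_mem' := fun {a b} ha hb i hi => by simp [ha i hi, hb i hi]
      smul_mem' := fun c a ha i hi => by simp [ha i hi] }
  have hmaps : ∀ g : GL (Fin (k + m)) F, g ∈ Cfsg.stabilizing (Cfsg.glToMat (Fin (k + m)) F) {v : Fin (k + m) → F | ∀ i : Fin (k + m), k ≤ (i : ℕ) → v i = 0} ↔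
      ∀ i j : Fin (k + m), k ≤ (i : ℕ) → (j : ℕ) < k → (g : Matrix (Fin (k + m)) (Fin (k + m)) F) i j = 0 := by
    intro g
    constructor
    · intro h i j hi hj
      have := (h (Pi.single j 1)).1 (fun a ha => Pi.single_eq_of_ne (by rintro rfl; omega) _) i hi
      simpa [Matrix.mulVec_single] using this
    · intro h
      refine Cfsg.Lib.Classical.map_eq_of_maps_to (W := W) fun v hv i hi => ?_
      simp only [Matrix.mulVec, dotProduct]
      refine Finset.sum_eq_zero fun j _ => ?_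
      rcases lt_or_ge (j : ℕ) k with hj | hj
      · rw [h i j hi hj, zero_mul]
      · rw [hv j hj, mul_zero]
  let R := Matrix.reindex (α := F) (finSumFinEquiv (m := k) (n := m)) (finSumFinEquiv (m := k) (n := m))
  have hR : ∀ M, (R M).det = M.det := fun M => Matrix.det_reindex_self _ _
  have hu : ∀ (A : GL (Fin k) F) (B : Matrix (Fin k) (Fin m) F) (D : GL (Fin m) F),
      (R (Matrix.fromBlocks A B 0 D)).det ≠ 0 := fun A B D => by
    rw [hR, Matrix.det_fromBlocks_zero₂₁]
    exact mul_ne_zero ((Matrix.isUnit_iff_isUnit_det _).1 A.isUnit).ne_zero ((Matrix.isUnit_iff_isUnit_det _).1 D.isUnit).ne_zero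
  let f : GL (Fin k) F × GL (Fin m) F × Matrix (Fin k) (Fin m) F →
      ↥(Cfsg.stabilizing (Cfsg.glToMat (Fin (k + m)) F) {v : Fin (k + m) → F | ∀ i : Fin (k + m), k ≤ (i : ℕ) → v i = 0}) :=
    fun p => ⟨Matrix.GeneralLinearGroup.mkOfDetNeZero _ (hu p.1 p.2.2 p.2.1), (hmaps _).2 fun i j hi hj => by
      obtain ⟨a, rfl⟩ := (finSumFinEquiv (m := k) (n := m)).surjective i
      obtain ⟨b, rfl⟩ := (finSumFinEquiv (m := k) (n := m)).surjective j
      rcases a with a | a <;> rcases b with b | b <;> simp at hi hj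
      all_goals first | omega | simp [Matrix.GeneralLinearGroup.mkOfDetNeZero, R]⟩
  have hf : Function.Bijective f := by
    constructor
    · rintro ⟨A, D, B⟩ ⟨A', D', B'⟩ h
      have h' : R (Matrix.fromBlocks A B 0 D) = R (Matrix.fromBlocks A' B' 0 D') := congrArg Units.val (congrArg Subtype.val h)
      obtain ⟨h1, h2, -, h3⟩ := Matrix.fromBlocks_inj.1 (R.injective h')
      rw [Units.ext h1, Units.ext h3, h2]
    · rintro ⟨g, hg⟩
      set M := R.symm (g : Matrix (Fin (k + m)) (Fin (k + m)) F) with hM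
      have hC : M.toBlocks₂₁ = 0 := by
        ext i j
        simpa [hM, R, Matrix.toBlocks₂₁] using (hmaps g).1 hg (Fin.natAdd k i) (Fin.castAdd m j) (by simp) (by simp)
      have hd : M.toBlocks₁₁.det * M.toBlocks₂₂.det ≠ 0 := by
        rw [← Matrix.det_fromBlocks_zero₂₁ _ M.toBlocks₁₂, ← hC, Matrix.fromBlocks_toBlocks, ← hR, hM, Equiv.apply_symm_apply]
        exact ((Matrix.isUnit_iff_isUnit_det _).1 g.isUnit).ne_zero
      refine ⟨(Matrix.GeneralLinearGroup.mkOfDetNeZero _ (left_ne_zero_of_mul hd),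
        Matrix.GeneralLinearGroup.mkOfDetNeZero _ (right_ne_zero_of_mul hd), M.toBlocks₁₂), Subtype.ext (Units.ext ?_)⟩
      show R (Matrix.fromBlocks M.toBlocks₁₁ M.toBlocks₁₂ 0 M.toBlocks₂₂) = _
      rw [← hC, Matrix.fromBlocks_toBlocks, hM, Equiv.apply_symm_apply]
  rw [← Nat.card_congr (Equiv.ofBijective f hf), Nat.card_prod, Nat.card_prod, Matrix.card_GL_field, Matrix.card_GL_field, hF]
  have : Nat.card (Matrix (Fin k) (Fin m) F) = q ^ (k * m) := by
    simp [Nat.card_eq_fintype_card, Matrix, hF, ← pow_mul, mul_comm]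
  rw [this]
  ring

end Cfsg.Agent.S0771
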