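import Cfsg.Statements.S0772
import Mathlib
import Cfsg.Agent.Lib.Classical.SubspaceStab

set_option autoImplicit false
open Cfsg

namespace Cfsg.Agent.S0772

/-- Maximal parabolics are maximal: over a finite field, for 0 < k < n the stabiliser in GL_n of the span of the first k coordinate vectors is a maximal proper subgroup. -/
theorem result {F : Type*} [Field F] [Finite F] (n k : ℕ) (hk0 : 0 < k) (hkn : k < n) : IsCoatom (Cfsg.stabilizing (Cfsg.glToMat (Fin n) F) {v : Fin n → F | ∀ i : Fin n, k ≤ (i : ℕ) → v i = 0}) := by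
  let W : Submodule F (Fin n → F) :=
    { carrier := {v : Fin n → F | ∀ i : Fin n, k ≤ (i : ℕ) → v i = 0}
      zero_mem' := fun i _ => rfl
      add_mem' := fun {a b} ha hb i hi => by simp [ha i hi, hb i hi]
      smul_mem' := fun c a ha i hi => by simp [ha i hi] }
  have h0 : W ≠ ⊥ := by
    intro h
    have hm : (Pi.single (⟨0, by omega⟩ : Fin n) (1 : F) : Fin n → F) ∈ W := by
      intro i hi
      refine Pi.single_eq_of_ne ?_ _
      intro hc
      rw [hc] at hi
      simp at hi
      omega
    rw [h, Submodule.mem_bot] at hm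
    simpa using congrFun hm ⟨0, by omega⟩
  have h1 : W ≠ ⊤ := by
    intro h
    have hm : (Pi.single (⟨k, hkn⟩ : Fin n) (1 : F) : Fin n → F) ∈ W := h ▸ Submodule.mem_top
    simpa using hm ⟨k, hkn⟩ (le_refl k)
  exact Cfsg.Lib.Classical.isCoatom_subspaceStabilizer h0 h1

end Cfsg.Agent.S0772
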