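import Cfsg.Statements.S0773
import Mathlib
import Cfsg.Agent.Lib.Classical.SubspaceStab

set_option autoImplicit false
open Cfsg
open scoped Matrix

namespace Cfsg.Agent.S0773

/-- The stabilisers in GL_n(F), F finite, of the coordinate subspaces of dimensions k and n − k are isomorphic groups, but when 2k ≠ n (and 0 < k < n) no element of GL_n conjugates one onto the other. -/
theorem result {F : Type*} [Field F] [Finite F] (n k : ℕ) (hk0 : 0 < k) (hkn : k < n) (h2 : 2 * k ≠ n) : Nonempty (↥(Cfsg.stabilizing (Cfsg.glToMat (Fin n) F) {v : Fin n → F | ∀ i : Fin n, k ≤ (i : ℕ) → v i = 0}) ≃* ↥(Cfsg.stabilizing (Cfsg.glToMat (Fin n) F) {v : Fin n → F | ∀ i : Fin n, n - k ≤ (i : ℕ) → v i = 0})) ∧ ∀ g : Matrix.GeneralLinearGroup (Fin n) F, (Cfsg.stabilizing (Cfsg.glToMat (Fin n) F) {v : Fin n → F | ∀ i : Fin n, k ≤ (i : ℕ) → v i = 0}).map (MulAut.conj g).toMonoidHom ≠ Cfsg.stabilizing (Cfsg.glToMat (Fin n) F) {v : Fin n → F | ∀ i : Fin n, n - k ≤ (i : ℕ) → v i = 0} := by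
  classical
  let P : ℕ → Submodule F (Fin n → F) := fun k =>
    { carrier := {v : Fin n → F | ∀ i : Fin n, k ≤ (i : ℕ) → v i = 0}
      zero_mem' := fun i _ => rfl
      add_mem' := fun {a b} ha hb i hi => by simp [ha i hi, hb i hi]
      smul_mem' := fun c a ha i hi => by simp [ha i hi] }
  let S : ℕ → Subgroup (GL (Fin n) F) := fun k =>
    Cfsg.stabilizing (Cfsg.glToMat (Fin n) F) {v : Fin n → F | ∀ i : Fin n, k ≤ (i : ℕ) → v i = 0}
  have hmaps : ∀ (k : ℕ) (g : GL (Fin n) F), g ∈ S k ↔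
      ∀ i j : Fin n, k ≤ (i : ℕ) → (j : ℕ) < k → (g : Matrix (Fin n) (Fin n) F) i j = 0 := by
    intro k g
    constructor
    · intro h i j hi hj
      have := (h (Pi.single j 1)).1 (fun a ha => Pi.single_eq_of_ne (by rintro rfl; omega) _) i hi
      simpa [Matrix.mulVec_single] using this
    · intro h
      refine Cfsg.Lib.Classical.map_eq_of_maps_to (W := P k) fun v hv i hi => ?_
      simp only [Matrix.mulVec, dotProduct]
      refine Finset.sum_eq_zero fun j _ => ?_
      rcases lt_or_ge (j : ℕ) k with hj | hj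
      · rw [h i j hi hj, zero_mul]
      · rw [hv j hj, mul_zero]
  constructor
  · let T : Matrix (Fin n) (Fin n) F → Matrix (Fin n) (Fin n) F := fun M => M.transpose.submatrix Fin.rev Fin.rev
    have hT : ∀ A B, T (A * B) = T B * T A := fun A B => by
      simp only [T, Matrix.transpose_mul]
      exact (Matrix.submatrix_mul _ _ _ _ _ Fin.rev_bijective)
    have hT1 : T 1 = 1 := by
      simp only [T, Matrix.transpose_one]
      exact Matrix.submatrix_one _ Fin.rev_injective
    let ψ : GL (Fin n) F → GL (Fin n) F := fun g =>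
      ⟨T ((g⁻¹ : GL (Fin n) F) : Matrix (Fin n) (Fin n) F), T (g : Matrix (Fin n) (Fin n) F),
        by rw [← hT, Units.mul_inv, hT1], by rw [← hT, Units.inv_mul, hT1]⟩
    have hψψ : ∀ g, ψ (ψ g) = g := fun g => Units.ext (by
      ext i j
      show T (T (g : Matrix (Fin n) (Fin n) F)) i j = _
      simp [T])
    have hψ : ∀ a b, a + b = n → ∀ g, g ∈ S a → ψ g ∈ S b := fun a b hab g hg => (hmaps b _).2 fun i j hi hj => by
      show ((g⁻¹ : GL (Fin n) F) : Matrix (Fin n) (Fin n) F) (Fin.rev j) (Fin.rev i) = 0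
      refine (hmaps a _).1 ((S a).inv_mem hg) _ _ ?_ ?_ <;> simp only [Fin.val_rev] <;> omega
    exact ⟨{
      toFun := fun g => ⟨ψ g.1, hψ k (n - k) (by omega) _ g.2⟩
      invFun := fun g => ⟨ψ g.1, hψ (n - k) k (by omega) _ g.2⟩
      left_inv := fun g => Subtype.ext (hψψ g.1)
      right_inv := fun g => Subtype.ext (hψψ g.1)
      map_mul' := fun a b => Subtype.ext (Units.ext (by
        show T (((a.1 * b.1)⁻¹ : GL (Fin n) F) : Matrix (Fin n) (Fin n) F) = _
        rw [_root_.mul_inv_rev, Units.val_mul, hT]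
        rfl)) }⟩
  · intro g hg
    set U := (P k).map (Matrix.mulVecLin (g : Matrix (Fin n) (Fin n) F)) with hUdef
    have hinj : Function.Injective (Matrix.mulVecLin (g : Matrix (Fin n) (Fin n) F)) := fun x y h =>
      (Cfsg.Lib.Classical.mulVec_inj g).1 h
    have hU : ∀ h : GL (Fin n) F, (∀ v ∈ U, (h : Matrix (Fin n) (Fin n) F) *ᵥ v ∈ U) → h ∈ S (n - k) := by
      intro h hh
      rw [show S (n - k) = _ from hg.symm, Subgroup.mem_map]
      refine ⟨g⁻¹ * h * g, Cfsg.Lib.Classical.map_eq_of_maps_to (W := P k) fun v hv => ?_, by simp [mul_assoc]⟩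
      obtain ⟨y, hy, hyy⟩ := hh _ (Submodule.mem_map_of_mem hv)
      simp only [Matrix.mulVecLin_apply] at hyy
      rw [Units.val_mul, Units.val_mul, ← Matrix.mulVec_mulVec, ← Matrix.mulVec_mulVec, ← hyy, Cfsg.Lib.Classical.inv_mulVec_mulVec]
      exact hy
    have hU' : ∀ h ∈ S (n - k), ∀ v ∈ U, (h : Matrix (Fin n) (Fin n) F) *ᵥ v ∈ U := by
      intro h hh v hv
      rw [show S (n - k) = _ from hg.symm, Subgroup.mem_map] at hh
      obtain ⟨a, ha, rfl⟩ := hh
      obtain ⟨y, hy, rfl⟩ := hv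
      refine ⟨(a : Matrix (Fin n) (Fin n) F) *ᵥ y, (ha y).1 hy, ?_⟩
      simp [Matrix.mulVec_mulVec, Matrix.mul_assoc]
    have sub : ∀ A B : Submodule F (Fin n → F), B ≠ ⊤ → B ≠ ⊥ →
        (∀ h : GL (Fin n) F, (∀ v ∈ A, (h : Matrix (Fin n) (Fin n) F) *ᵥ v ∈ A) → ∀ v ∈ B, (h : Matrix (Fin n) (Fin n) F) *ᵥ v ∈ B) → A ≤ B := by
      intro A B _ hB hAB v hv
      by_contra hvB
      obtain ⟨x, hx, hx0⟩ := B.exists_mem_ne_zero_of_ne_bot hB
      obtain ⟨φ, hφv, hφx⟩ := Cfsg.Lib.Classical.exists_dot_of_notMem_span v (y := x) (fun hc => by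
        obtain ⟨c, rfl⟩ := Submodule.mem_span_singleton.1 hc
        rcases eq_or_ne c 0 with rfl | hc0
        · simp at hx0
        · exact hvB (by simpa [smul_smul, hc0] using B.smul_mem c⁻¹ hx))
      have := hAB (Cfsg.Lib.Classical.tvGL v φ hφv) (fun w hw => by
        rw [Cfsg.Lib.Classical.coe_tvGL, Cfsg.Lib.Classical.tv_mulVec]
        exact A.add_mem hw (A.smul_mem _ hv)) x hx
      rw [Cfsg.Lib.Classical.coe_tvGL, Cfsg.Lib.Classical.tv_mulVec, hφx, one_smul] at this
      exact hvB ((B.add_mem_iff_right hx).1 this)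
    have hdim : ∀ a, a ≤ n → Module.finrank F (P a) = a := by
      intro a ha
      let L : (Fin a → F) →ₗ[F] (Fin n → F) :=
        { toFun := fun v i => if h : (i : ℕ) < a then v ⟨i, h⟩ else 0
          map_add' := fun x y => by ext i; dsimp; split <;> simp
          map_smul' := fun c x => by ext i; dsimp; split <;> simp }
      have hL : LinearMap.range L = P a := by
        ext v
        constructor
        · rintro ⟨w, rfl⟩ i hi
          exact dif_neg (not_lt.2 hi)
        · intro hv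
          refine ⟨fun i => v (i.castLE ha), funext fun i => ?_⟩
          rcases lt_or_ge (i : ℕ) a with h | h
          · exact dif_pos h
          · exact (dif_neg (not_lt.2 h)).trans (hv i h).symm
      rw [← hL, LinearMap.finrank_range_of_inj, Module.finrank_fin_fun]
      intro x y h
      ext i
      simpa [L] using congrFun h (i.castLE ha)
    have dU : Module.finrank F U = k := by
      rw [hUdef, ← (Submodule.equivMapOfInjective _ hinj _).finrank_eq, hdim k hkn.le]
    have dW : Module.finrank F (P (n - k)) = n - k := hdim _ (Nat.sub_le _ _)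
    have ne : ∀ A : Submodule F (Fin n → F), ∀ d, Module.finrank F A = d → 0 < d → d < n → A ≠ ⊤ ∧ A ≠ ⊥ := by
      intro A d hA h0 hn
      refine ⟨?_, ?_⟩ <;> rintro rfl <;> simp at hA <;> omega
    obtain ⟨hUt, hUb⟩ := ne U k dU hk0 hkn
    obtain ⟨hWt, hWb⟩ := ne _ _ dW (by omega) (by omega)
    have e : U = P (n - k) := le_antisymm
      (sub U _ hWt hWb fun h hh v hv => (hU h hh v).1 hv)
      (sub _ U hUt hUb fun h hh => hU' h (Cfsg.Lib.Classical.map_eq_of_maps_to (W := P (n - k)) hh))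
    rw [e, dW] at dU
    omega

end Cfsg.Agent.S0773
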