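import Cfsg.Statements.S0774
import Mathlib
import Cfsg.Agent.Lib.Classical.IsotropicFrames
import Cfsg.Agent.S0769
-- import your own Cfsg.Agent.* helpers here

set_option autoImplicit false
open Cfsg
open scoped Matrix

namespace Cfsg.Agent.S0774

/-- Borel subgroup of the symplectic group: the elements of Sp_2m(q) stabilising each of the totally isotropic coordinate subspaces ⟨e_0, ..., e_k⟩ (k < m) form a subgroup of order q^(m²) (q − 1)^m. -/
theorem result {F : Type*} [Field F] [Fintype F] {q : ℕ} (hF : Fintype.card F = q) (m : ℕ) : Nat.card ↥(⨅ k : Fin m, Cfsg.stabilizing (Cfsg.spToMat m F) {v : Fin m ⊕ Fin m → F | (∀ i : Fin m, (k : ℕ) < (i : ℕ) → v (Sum.inl i) = 0) ∧ ∀ i : Fin m, v (Sum.inr i) = 0}) = q ^ (m ^ 2) * (q - 1) ^ m := by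
  classical
  let R := Cfsg.Lib.Classical.IsotropicFrames.RSp F m
  let ι : (Fin m → F) →ₗ[F] (Fin m ⊕ Fin m → F) :=
    { toFun := fun c => Sum.elim c 0
      map_add' := fun c d => by funext x; rcases x with x | x <;> simp
      map_smul' := fun r c => by funext x; rcases x with x | x <;> simp }
  have hι : Function.Injective ι := fun c d h => funext fun i => congrFun h (Sum.inl i)
  have hR : ∀ c d, R (ι c) (ι d) := fun c d => by
    show Cfsg.sympForm m F _ _ = 0
    rw [Cfsg.Lib.Classical.sympForm_eq_sum]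
    simp [ι]
  have hfr : ∀ (c : Fin m → Fin m → F), LinearIndependent F c → LinearIndependent F fun i => ι (c i) := fun c hc => hc.map' ι (LinearMap.ker_eq_bot.2 hι)
  let e₀ : Cfsg.Lib.Classical.IsotropicFrames.Fr F R m := ⟨fun i => ι (Pi.single i 1), hfr _ (by
    convert (Pi.basisFun F (Fin m)).linearIndependent using 1
    funext i; simp), fun i j => hR _ _⟩
  let U : Fin m → Set (Fin m ⊕ Fin m → F) := fun k => {v | (∀ i : Fin m, (k : ℕ) < (i : ℕ) → v (Sum.inl i) = 0) ∧ ∀ i : Fin m, v (Sum.inr i) = 0}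
  let p : (Fin m → Fin m ⊕ Fin m → F) → Prop := fun x => ∀ i, x i ∈ U i
  have h := Cfsg.Lib.Classical.IsotropicFrames.count_sp hF e₀ p
  have hS : Nat.card {x : Cfsg.Lib.Classical.IsotropicFrames.Fr F R m // p x.1} = q ^ (m * (m - 1) / 2) * (q - 1) ^ m := by
    rw [← Cfsg.Agent.S0769.result hF m]
    have hx : ∀ x : Fin m → Fin m ⊕ Fin m → F, p x → ∀ i, ι (fun l => x i (Sum.inl l)) = x i := fun x hx i => by
      funext z; rcases z with l | l
      · rfl
      · exact ((hx i).2 l).symm
    refine Nat.card_congr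
      { toFun := fun x => ⟨Matrix.GeneralLinearGroup.mkOfDetNeZero (Matrix.of fun i l => x.1.1 i (Sum.inl l)) ?_, fun i l hil => (x.2 i).1 l hil⟩
        invFun := fun g => ⟨⟨fun i => ι ((g.1 : Matrix (Fin m) (Fin m) F) i), hfr _ ?_, fun i j => hR _ _⟩, fun i => ⟨fun l hl => g.2 i l hl, fun l => rfl⟩⟩
        left_inv := fun x => Subtype.ext (Subtype.ext (funext fun i => hx _ x.2 i))
        right_inv := fun g => Subtype.ext (Units.ext rfl) }
    · rw [← isUnit_iff_ne_zero, ← Matrix.isUnit_iff_isUnit_det, ← Matrix.linearIndependent_rows_iff_isUnit]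
      refine LinearIndependent.of_comp ι ?_
      rw [show ⇑ι ∘ (Matrix.of fun i l => x.1.1 i (Sum.inl l)).row = x.1.1 from funext fun i => hx _ x.2 i]
      exact x.1.2.1
    · exact Matrix.linearIndependent_rows_iff_isUnit.2 g.1.isUnit
  have hiff : ∀ g : Matrix.symplecticGroup (Fin m) F, g ∈ (⨅ k : Fin m, Cfsg.stabilizing (Cfsg.spToMat m F) (U k)) ↔
      p fun i => Cfsg.spToMat m F g *ᵥ e₀.1 i := by
    intro g
    rw [Subgroup.mem_iInf]
    refine ⟨fun hg i => (hg i _).1 ⟨fun l hl => ?_, fun l => rfl⟩, fun hg k v => Cfsg.Lib.Classical.IsotropicFrames.mem_iff_map_mem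
      (Cfsg.Lib.Classical.IsotropicFrames.spToMat_injective g) (fun w hw => ?_) v⟩
    · show (Pi.single i (1 : F) : Fin m → F) l = 0
      exact Pi.single_eq_of_ne (fun e => by rw [e] at hl; omega) _
    · show Cfsg.spToMat m F g *ᵥ w ∈ U k
      have hw' : w = ∑ i, w (Sum.inl i) • e₀.1 i := by
        funext z; rcases z with l | l
        · simp [e₀, ι, Pi.single_apply]
        · simp [e₀, ι, hw.2 l]
      have hterm : ∀ (i : Fin m) (z : Fin m ⊕ Fin m), (Sum.elim (fun l : Fin m => decide ((k : ℕ) < l)) (fun _ => true) z) = true →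
          w (Sum.inl i) * (Cfsg.spToMat m F g *ᵥ e₀.1 i) z = 0 := fun i z hz => by
        rcases z with l | l
        · by_cases hki : (k : ℕ) < i
          · rw [hw.1 i hki, zero_mul]
          · exact mul_eq_zero_of_right _ ((hg i).1 l (by simp at hz; omega))
        · exact mul_eq_zero_of_right _ ((hg i).2 l)
      rw [hw', ← Matrix.mulVecLin_apply, map_sum]
      refine ⟨fun l hl => ?_, fun l => ?_⟩ <;> rw [Finset.sum_apply] <;> refine Finset.sum_eq_zero fun i _ => ?_ <;>
        rw [map_smul, Pi.smul_apply, smul_eq_mul, Matrix.mulVecLin_apply] <;> apply hterm <;> simp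
      exact hl
  show Nat.card ↥(⨅ k : Fin m, Cfsg.stabilizing (Cfsg.spToMat m F) (U k)) = _
  rw [Nat.card_congr (Equiv.subtypeEquivRight hiff)]
  refine Nat.eq_of_mul_eq_mul_right (Cfsg.Lib.Classical.IsotropicFrames.prod_ne_zero q (hF ▸ Fintype.one_lt_card) (le_refl m)) (h.trans ?_)
  beta_reduce
  rw [hS]
  have hs := Cfsg.Lib.Classical.IsotropicFrames.sp_order_split q m 0
  simp only [Nat.zero_add, Finset.range_zero, Finset.prod_empty, mul_zero, add_zero, mul_one] at hs
  rw [hs, show m ^ 2 = m * (m + 1) / 2 + m * (m - 1) / 2 by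
    rcases m with _ | t
    · rfl
    · rw [Nat.add_sub_cancel, ← Nat.add_div_of_dvd_right (Nat.two_dvd_mul_add_one _)]
      rw [show (t + 1) * (t + 1 + 1) + (t + 1) * t = 2 * (t + 1) ^ 2 by ring, Nat.mul_div_cancel_left _ two_pos], pow_add]
  simp
  ring

end Cfsg.Agent.S0774
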