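import Cfsg.Statements.S0775
import Mathlib
import Cfsg.Agent.Lib.Classical.IsotropicFrames
-- import your own Cfsg.Agent.* helpers here

set_option autoImplicit false
open Cfsg
open scoped Matrix

namespace Cfsg.Agent.S0775

/-- Maximal parabolics of the symplectic group: if W is a k-dimensional subspace of F^(2m) on which the symplectic form vanishes identically, its stabiliser in Sp_2m(q) has order q^(k(k+1)/2 + 2k(m−k)) · |Sp_(2m−2k)(q)| · |GL_k(q)|. -/
theorem result {F : Type*} [Field F] [Fintype F] {q : ℕ} (hF : Fintype.card F = q) (m k : ℕ) (hk : k ≤ m) (W : Submodule F (Fin m ⊕ Fin m → F)) (hWk : Module.finrank F W = k) (hW : ∀ u ∈ W, ∀ v ∈ W, Cfsg.sympForm m F u v = 0) : Nat.card ↥(Cfsg.stabilizing (Cfsg.spToMat m F) (W : Set (Fin m ⊕ Fin m → F))) = q ^ (k * (k + 1) / 2 + 2 * k * (m - k)) * (q ^ ((m - k) ^ 2) * ∏ i ∈ Finset.range (m - k), (q ^ (2 * (i + 1)) - 1)) * ∏ i : Fin k, (q ^ k - q ^ (i : ℕ)) := by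
  classical
  let b := Module.finBasisOfFinrankEq F W hWk
  let e₀ : Cfsg.Lib.Classical.IsotropicFrames.Fr F (Cfsg.Lib.Classical.IsotropicFrames.RSp F m) k :=
    ⟨fun i => (b i : Fin m ⊕ Fin m → F), b.linearIndependent.map' W.subtype (Submodule.ker_subtype W), fun i j => hW _ (b i).2 _ (b j).2⟩
  have h := Cfsg.Lib.Classical.IsotropicFrames.count_sp hF e₀ fun x => ∀ i, x i ∈ W
  beta_reduce at h
  rw [Cfsg.Lib.Classical.IsotropicFrames.card_fr_in hF (Cfsg.Lib.Classical.IsotropicFrames.RSp F m) W hWk hW] at h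
  obtain ⟨j, rfl⟩ := Nat.exists_eq_add_of_le' hk
  rw [Cfsg.Lib.Classical.IsotropicFrames.sp_order_split q k j] at h
  rw [Nat.add_sub_cancel]
  have hiff : ∀ g : Matrix.symplecticGroup (Fin (j + k)) F, g ∈ Cfsg.stabilizing (Cfsg.spToMat (j + k) F) (W : Set (Fin (j + k) ⊕ Fin (j + k) → F)) ↔
      ∀ i, Cfsg.spToMat (j + k) F g *ᵥ e₀.1 i ∈ W := by
    intro g
    refine ⟨fun hg i => (hg _).1 (b i).2, fun hg v => Cfsg.Lib.Classical.IsotropicFrames.mem_iff_map_mem
      (Cfsg.Lib.Classical.IsotropicFrames.spToMat_injective g) (fun w hw => ?_) v⟩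
    show _ ∈ W
    have hw' := congrArg (fun x : W => (x : Fin (j + k) ⊕ Fin (j + k) → F)) (b.sum_repr ⟨w, hw⟩)
    simp only [Submodule.coe_sum, Submodule.coe_smul] at hw'
    show Cfsg.spToMat (j + k) F g *ᵥ w ∈ W
    rw [← hw', ← Matrix.mulVecLin_apply, map_sum]
    exact W.sum_mem fun i _ => by rw [map_smul]; exact W.smul_mem _ (hg i)
  rw [Nat.card_congr (Equiv.subtypeEquivRight hiff)]
  refine Nat.eq_of_mul_eq_mul_right (Cfsg.Lib.Classical.IsotropicFrames.prod_ne_zero q (hF ▸ Fintype.one_lt_card) (Nat.le_add_left k j)) (h.trans ?_)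
  ring

end Cfsg.Agent.S0775
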