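import Cfsg.Statements.S0777
import Mathlib
import Cfsg.Agent.Lib.Classical.IsotropicFrames
-- import your own Cfsg.Agent.* helpers here

set_option autoImplicit false
open Cfsg
open scoped Matrix

namespace Cfsg.Agent.S0777

set_option maxHeartbeats 1000000 in
/-- Weyl group of type C_m: for q ≥ 4 the diagonal matrices of Sp_2m(q) form a torus T ≅ (C_(q−1))^m (the elements stabilising every coordinate axis), and the normaliser of T in Sp_2m(q) has order 2^m · m! · (q − 1)^m. -/
theorem result {F : Type*} [Field F] [Fintype F] {q : ℕ} (hF : Fintype.card F = q) (hq : 4 ≤ q) (m : ℕ) : Nat.card ↥(Subgroup.normalizer (⨅ i : Fin m ⊕ Fin m, Cfsg.stabilizing (Cfsg.spToMat m F) ((Submodule.span F {(Pi.single i (1 : F) : Fin m ⊕ Fin m → F)} : Submodule F (Fin m ⊕ Fin m → F)) : Set (Fin m ⊕ Fin m → F)) : Set (Matrix.symplecticGroup (Fin m) F))) = 2 ^ m * Nat.factorial m * (q - 1) ^ m := by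
  classical
  simp only [Set.iInf_eq_iInter, ← Subgroup.coe_iInf]
  set T : Subgroup (Matrix.symplecticGroup (Fin m) F) := ⨅ i : Fin m ⊕ Fin m, Cfsg.stabilizing (Cfsg.spToMat m F) ((Submodule.span F {(Pi.single i (1 : F) : Fin m ⊕ Fin m → F)} : Submodule F (Fin m ⊕ Fin m → F)) : Set (Fin m ⊕ Fin m → F)) with hT
  let e : Fin m ⊕ Fin m → Fin m ⊕ Fin m → F := fun b => Pi.single b 1
  let A : Matrix.symplecticGroup (Fin m) F → (Fin m ⊕ Fin m → F) → (Fin m ⊕ Fin m → F) := fun g v => Cfsg.spToMat m F g *ᵥ v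
  have hAmul : ∀ g h v, A (g * h) v = A g (A h v) := fun g h v => by
    show Cfsg.spToMat m F (g * h) *ᵥ v = _
    rw [map_mul, ← Matrix.mulVec_mulVec]
  have hA1 : ∀ v, A 1 v = v := fun v => by show Cfsg.spToMat m F 1 *ᵥ v = v; rw [map_one, Matrix.one_mulVec]
  have hAsmul : ∀ g (c : F) v, A g (c • v) = c • A g v := fun g c v => Matrix.mulVec_smul _ c v
  have hAform : ∀ g u v, Cfsg.sympForm m F (A g u) (A g v) = Cfsg.sympForm m F u v := fun g u v =>
    Cfsg.Lib.Classical.IsotropicFrames.sympForm_spToMat g u v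
  have hAext : ∀ g h : Matrix.symplecticGroup (Fin m) F, (∀ b, A g (e b) = A h (e b)) → g = h := fun g h hh =>
    Subtype.ext (Matrix.ext fun i j => by
      have := congrFun (hh j) i
      simpa [A, e, Matrix.mulVec_single_one, Matrix.col] using this)
  have hTmem : ∀ t, t ∈ T ↔ ∀ b, ∃ a : F, A t (e b) = a • e b := fun t => by
    rw [hT, Subgroup.mem_iInf]
    refine ⟨fun h b => ?_, fun h b v => Cfsg.Lib.Classical.IsotropicFrames.mem_iff_map_mem
      (Cfsg.Lib.Classical.IsotropicFrames.spToMat_injective t) (fun w hw => ?_) v⟩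
    · obtain ⟨a, ha⟩ := Submodule.mem_span_singleton.1 ((h b _).1 (Submodule.mem_span_singleton_self (e b)))
      exact ⟨a, ha.symm⟩
    · obtain ⟨a, ha⟩ := h b
      obtain ⟨c, rfl⟩ := Submodule.mem_span_singleton.1 hw
      exact Submodule.mem_span_singleton.2 ⟨c * a, by
        show _ = A t (c • e b)
        rw [hAsmul, ha, smul_smul]⟩
  have hfe : ∀ x y : Fin m ⊕ Fin m, Cfsg.sympForm m F (e x) (e y) ≠ 0 ↔ y = x.swap := fun x y => by
    rw [Cfsg.Lib.Classical.sympForm_eq_sum]
    rcases x with i | i <;> rcases y with j | j <;> simp [e, Pi.single_apply, eq_comm]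
  let D := Equiv.Perm (Fin m) × (Fin m → Bool) × (Fin m → Fˣ)
  let L : D → (Fin m ⊕ Fin m → F) →ₗ[F] (Fin m ⊕ Fin m → F) := fun d =>
    { toFun := fun u => Sum.elim
        (fun j => if d.2.1 (d.1.symm j) then -((d.2.2 (d.1.symm j) : F))⁻¹ * u (Sum.inr (d.1.symm j)) else (d.2.2 (d.1.symm j) : F) * u (Sum.inl (d.1.symm j)))
        (fun j => if d.2.1 (d.1.symm j) then (d.2.2 (d.1.symm j) : F) * u (Sum.inl (d.1.symm j)) else ((d.2.2 (d.1.symm j) : F))⁻¹ * u (Sum.inr (d.1.symm j)))
      map_add' := fun u v => by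
        funext z; rcases z with j | j <;> simp only [Sum.elim_inl, Sum.elim_inr, Pi.add_apply] <;> split_ifs <;> ring
      map_smul' := fun r v => by
        funext z; rcases z with j | j <;> simp only [Sum.elim_inl, Sum.elim_inr, Pi.smul_apply, smul_eq_mul, RingHom.id_apply] <;> split_ifs <;> ring }
  have hLform : ∀ d u v, Cfsg.sympForm m F (L d u) (L d v) = Cfsg.sympForm m F u v := fun d u v => by
    rw [Cfsg.Lib.Classical.sympForm_eq_sum, Cfsg.Lib.Classical.sympForm_eq_sum, ← Equiv.sum_comp d.1]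
    refine Finset.sum_congr rfl fun i _ => ?_
    simp only [L, LinearMap.coe_mk, AddHom.coe_mk, Sum.elim_inl, Sum.elim_inr, Equiv.symm_apply_apply]
    have hc : (d.2.2 i : F) * ((d.2.2 i : F))⁻¹ = 1 := mul_inv_cancel₀ (Units.ne_zero _)
    split_ifs <;> linear_combination (u (Sum.inr i) * v (Sum.inl i) - u (Sum.inl i) * v (Sum.inr i)) * hc
  have hLmem : ∀ d, LinearMap.toMatrix' (L d) ∈ Matrix.symplecticGroup (Fin m) F := fun d => by
    rw [SymplecticGroup.mem_iff']
    refine Matrix.ext fun i j => ?_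
    have h2 := hLform d (Pi.single i 1) (Pi.single j 1)
    rw [← LinearMap.toMatrix'_mulVec (L d), ← LinearMap.toMatrix'_mulVec (L d), Cfsg.sympForm, Cfsg.sympForm, Matrix.mulVec_mulVec,
      Matrix.dotProduct_mulVec, Matrix.vecMul_mulVec, ← Matrix.mul_assoc, ← Matrix.dotProduct_mulVec] at h2
    simpa using h2
  let g₀ : D → Matrix.symplecticGroup (Fin m) F := fun d => ⟨LinearMap.toMatrix' (L d), hLmem d⟩
  let tgt : D → Fin m → Fin m ⊕ Fin m := fun d i => if d.2.1 i then Sum.inr (d.1 i) else Sum.inl (d.1 i)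
  have hgl : ∀ d i, A (g₀ d) (e (Sum.inl i)) = (d.2.2 i : F) • e (tgt d i) := fun d i => by
    show LinearMap.toMatrix' (L d) *ᵥ _ = _
    rw [LinearMap.toMatrix'_mulVec]
    funext z
    rcases z with j | j <;> obtain ⟨k, rfl⟩ := d.1.surjective j <;>
      by_cases hk : k = i
    all_goals first
      | (subst hk; cases hb : d.2.1 k <;> simp [L, e, tgt, hb])
      | (cases hb : d.2.1 i <;> simp [L, e, tgt, hb, hk])
  have hgr : ∀ d i, A (g₀ d) (e (Sum.inr i)) = (if d.2.1 i then -((d.2.2 i : F))⁻¹ else ((d.2.2 i : F))⁻¹) • e (tgt d i).swap := fun d i => by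
    show LinearMap.toMatrix' (L d) *ᵥ _ = _
    rw [LinearMap.toMatrix'_mulVec]
    funext z
    rcases z with j | j <;> obtain ⟨k, rfl⟩ := d.1.surjective j <;>
      by_cases hk : k = i
    all_goals first
      | (subst hk; cases hb : d.2.1 k <;> simp [L, e, tgt, hb])
      | (cases hb : d.2.1 i <;> simp [L, e, tgt, hb, hk])
  have hgN : ∀ d, g₀ d ∈ Subgroup.normalizer (T : Set (Matrix.symplecticGroup (Fin m) F)) := fun d => by
    have hperm : ∀ x, ∃ b, ∃ c : F, c ≠ 0 ∧ A (g₀ d) (e b) = c • e x := fun x => by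
      have hcne : ∀ i, (if d.2.1 i then -((d.2.2 i : F))⁻¹ else ((d.2.2 i : F))⁻¹) ≠ 0 := fun i => by split_ifs <;> simp
      rcases x with j | j <;> obtain ⟨k, rfl⟩ := d.1.surjective j <;> cases hb : d.2.1 k
      · exact ⟨Sum.inl k, _, Units.ne_zero (d.2.2 k), by rw [hgl]; simp [tgt, hb]⟩
      · exact ⟨Sum.inr k, _, hcne k, by rw [hgr]; simp [tgt, hb]⟩
      · exact ⟨Sum.inr k, _, hcne k, by rw [hgr]; simp [tgt, hb]⟩
      · exact ⟨Sum.inl k, _, Units.ne_zero (d.2.2 k), by rw [hgl]; simp [tgt, hb]⟩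
    have hmaps : Set.MapsTo (fun t => g₀ d * t * (g₀ d)⁻¹) (T : Set (Matrix.symplecticGroup (Fin m) F)) T := fun t ht => by
      refine (hTmem _).2 fun x => ?_
      obtain ⟨b, c, hc, hb⟩ := hperm x
      obtain ⟨a, ha⟩ := (hTmem t).1 ht b
      refine ⟨a, ?_⟩
      have he : e x = c⁻¹ • A (g₀ d) (e b) := by rw [hb, smul_smul, inv_mul_cancel₀ hc, one_smul]
      conv_lhs => rw [he, hAsmul, ← hAmul, inv_mul_cancel_right, hAmul, ha, hAsmul, smul_comm, ← he]
    rw [Subgroup.mem_normalizer_iff]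
    intro t
    exact Cfsg.Lib.Classical.IsotropicFrames.mem_iff_map_mem (S := (T : Set (Matrix.symplecticGroup (Fin m) F)))
      (fun t t' htt => mul_left_cancel (mul_right_cancel htt)) hmaps t
  obtain ⟨a, ha1, ha2⟩ : ∃ a : Fˣ, (a : F) ≠ 1 ∧ ((a : F))⁻¹ ≠ a := by
    obtain ⟨g, hg⟩ := IsCyclic.exists_generator (α := Fˣ)
    have ho : orderOf g = q - 1 := by
      rw [orderOf_eq_card_of_forall_mem_zpowers hg, Nat.card_units, Nat.card_eq_fintype_card, hF]
    refine ⟨g, fun h => ?_, fun h => ?_⟩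
    · rw [show g = 1 from Units.ext h, orderOf_one] at ho; omega
    · have h2 : g ^ 2 = 1 := Units.ext (by
        rw [Units.val_pow_eq_pow_val, Units.val_one, pow_two]
        nth_rw 1 [← h]
        exact inv_mul_cancel₀ g.ne_zero)
      have := orderOf_le_of_pow_eq_one two_pos h2
      omega
  have hcol : ∀ g ∈ Subgroup.normalizer (T : Set (Matrix.symplecticGroup (Fin m) F)), ∀ b, ∃ x, ∃ c : F, c ≠ 0 ∧ A g (e b) = c • e x := by
    intro g hg b
    obtain ⟨x, hx⟩ : ∃ x, A g (e b) x ≠ 0 := Function.ne_iff.1 (fun h0 => by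
      have h1 := congrArg (A g⁻¹) h0
      rw [← hAmul, inv_mul_cancel, hA1] at h1
      have h3 : A g⁻¹ (0 : Fin m ⊕ Fin m → F) = 0 := Matrix.mulVec_zero _
      have h4 := congrFun (h1.trans h3) b
      simp [e] at h4)
    refine ⟨x, A g (e b) x, hx, funext fun y => ?_⟩
    by_cases hy : y = x
    · subst hy; simp [e]
    rw [Pi.smul_apply, show e x y = 0 from Pi.single_eq_of_ne hy _, smul_zero]
    by_contra hy0
    have hi : ∀ z : Fin m ⊕ Fin m, ∃ t ∈ T, ∀ w, A t (e w) = ((fun w => if w = z then (a : F) else if w = z.swap then ((a : F))⁻¹ else 1) w) • e w := by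
      intro z
      obtain ⟨i, hz⟩ : ∃ i, z = Sum.inl i ∨ z = Sum.inr i := by rcases z with i | i <;> exact ⟨i, by simp⟩
      let dd : D := (1, fun _ => false, Function.update (fun _ => 1) i (if z = Sum.inl i then a else a⁻¹))
      have hd : ∀ w, A (g₀ dd) (e w) = ((fun w => if w = z then (a : F) else if w = z.swap then ((a : F))⁻¹ else 1) w) • e w := by
        intro w
        rcases hz with rfl | rfl <;> rcases w with k | k <;> by_cases hk : k = i <;>
          simp [hgl, hgr, dd, tgt, hk]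
      exact ⟨g₀ dd, (hTmem _).2 fun w => ⟨_, hd w⟩, hd⟩
    obtain ⟨t, ht, hte⟩ := hi x
    have hs : g⁻¹ * t * g ∈ T := by
      have := (Subgroup.mem_normalizer_iff.1 (Subgroup.inv_mem _ hg) t).1 ht
      simpa using this
    obtain ⟨r, hr⟩ := (hTmem _).1 hs b
    have hcomm : A t (A g (e b)) = r • A g (e b) := by
      rw [← hAmul, show t * g = g * (g⁻¹ * t * g) by group, hAmul, hr, hAsmul]
    have hdiag : ∀ v w, A t v w = (if w = x then (a : F) else if w = x.swap then ((a : F))⁻¹ else 1) * v w := by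
      intro v w
      conv_lhs => rw [show v = ∑ l, v l • e l from pi_eq_sum_univ' v]
      show (Cfsg.spToMat m F t *ᵥ _) w = _
      rw [← Matrix.mulVecLin_apply, map_sum, Finset.sum_apply, Finset.sum_eq_single w (fun l _ hl => by
        rw [map_smul, Matrix.mulVecLin_apply]
        show v l • (A t (e l)) w = 0
        rw [hte]; simp [e, Ne.symm hl]) (by simp), map_smul, Matrix.mulVecLin_apply]
      show v w • (A t (e w)) w = _
      rw [hte]; simp [e, mul_comm]
    have h1 := congrFun hcomm x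
    have h2 := congrFun hcomm y
    rw [hdiag, Pi.smul_apply, smul_eq_mul] at h1 h2
    rw [if_pos rfl] at h1
    rw [if_neg hy] at h2
    rw [← mul_right_cancel₀ hx h1] at h2
    have h3 := mul_right_cancel₀ hy0 h2
    split_ifs at h3
    · exact ha2 h3
    · exact ha1 h3.symm
  have hsurj : ∀ g ∈ Subgroup.normalizer (T : Set (Matrix.symplecticGroup (Fin m) F)), ∃ d, g₀ d = g := by
    intro g hg
    choose x c hc hx using fun i => hcol g hg (Sum.inl i)
    let pr : Fin m ⊕ Fin m → Fin m := Sum.elim id id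
    have hinj : Function.Injective fun i => pr (x i) := by
      intro i j hij
      by_contra hne
      have h0 : Cfsg.sympForm m F (A g (e (Sum.inl i))) (A g (e (Sum.inl j))) = 0 := by
        rw [hAform]; by_contra h; exact Sum.inl_ne_inr ((hfe _ _).1 h)
      rw [hx, hx] at h0
      by_cases hxx : x i = x j
      · have h1 : A g (c j • e (Sum.inl i)) = A g (c i • e (Sum.inl j)) := by
          rw [hAsmul, hAsmul, hx, hx, hxx, smul_comm]
        have h2 := congrFun (Cfsg.Lib.Classical.IsotropicFrames.spToMat_injective g h1) (Sum.inl i)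
        simp [e, hne, hc j] at h2
      · have key : ∀ X Y : Fin m ⊕ Fin m, pr X = pr Y → X ≠ Y → Y = X.swap := by
          intro X Y h h'
          rcases X with u | u <;> rcases Y with w | w <;> simp_all [pr]
        have hsw : x j = (x i).swap := key _ _ hij hxx
        rw [Cfsg.Lib.Classical.sympForm_eq_sum] at h0
        have h4 := (hfe (x i) (x j)).2 hsw
        rw [Cfsg.Lib.Classical.sympForm_eq_sum] at h4
        refine h4 ((mul_eq_zero.1 (show (c i * c j) * _ = (0 : F) from ?_)).resolve_left (mul_ne_zero (hc i) (hc j)))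
        rw [Finset.mul_sum, ← h0]
        refine Finset.sum_congr rfl fun l _ => ?_
        simp only [Pi.smul_apply, smul_eq_mul]
        ring
    let d : D := (Equiv.ofBijective _ (Finite.injective_iff_bijective.1 hinj), fun i => (x i).isRight, fun i => Units.mk0 (c i) (hc i))
    have htgt : ∀ i, tgt d i = x i := fun i => by
      show (if (x i).isRight then Sum.inr (pr (x i)) else Sum.inl (pr (x i))) = x i
      rcases x i with u | u <;> simp [pr]
    refine ⟨d, hAext _ _ fun b => ?_⟩
    rcases b with i | i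
    · rw [hgl, htgt, hx]; rfl
    obtain ⟨y, r, hr, hy⟩ := hcol g hg (Sum.inr i)
    have h1 := hAform g (e (Sum.inr i)) (e (Sum.inl i))
    have h1' := hAform (g₀ d) (e (Sum.inr i)) (e (Sum.inl i))
    rw [hy, hx] at h1
    rw [hgr, hgl, htgt] at h1'
    have hlin : ∀ (α β : F) (u w : Fin m ⊕ Fin m → F), Cfsg.sympForm m F (α • u) (β • w) = α * β * Cfsg.sympForm m F u w := fun α β u w => by
      rw [Cfsg.Lib.Classical.sympForm_eq_sum, Cfsg.Lib.Classical.sympForm_eq_sum, Finset.mul_sum]
      exact Finset.sum_congr rfl fun l _ => by simp only [Pi.smul_apply, smul_eq_mul]; ring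
    rw [hlin] at h1 h1'
    have hne : Cfsg.sympForm m F (e (Sum.inr i)) (e (Sum.inl i)) ≠ 0 := (hfe _ _).2 rfl
    have hyx : y = (x i).swap := by
      have h5 : x i = y.swap := (hfe y (x i)).1 fun h0 => hne (by rw [← h1, h0, mul_zero])
      rw [h5, Sum.swap_swap]
    rw [hgr, htgt, hy, hyx]
    congr 1
    have h6 : Cfsg.sympForm m F (e (x i).swap) (e (x i)) ≠ 0 := (hfe _ _).2 (Sum.swap_swap _).symm
    rw [hyx] at h1
    exact mul_right_cancel₀ (hc i) (mul_right_cancel₀ h6 (h1'.trans h1.symm))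
  have hinjd : Function.Injective g₀ := fun d d' h => by
    have key : ∀ i, tgt d i = tgt d' i ∧ d.2.2 i = d'.2.2 i := fun i => by
      have h1 := hgl d i
      rw [h, hgl] at h1
      have h2 : tgt d i = tgt d' i := by
        by_contra hne
        have h3 := congrFun h1 (tgt d' i)
        simp [e, Ne.symm hne] at h3
      rw [h2] at h1
      exact ⟨h2, Units.ext (by simpa [e] using (congrFun h1 (tgt d' i)).symm)⟩
    have hpair : ∀ i, d.1 i = d'.1 i ∧ d.2.1 i = d'.2.1 i := fun i => by
      have := (key i).1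
      revert this
      cases hb : d.2.1 i <;> cases hb' : d'.2.1 i <;> simp [tgt, hb, hb']
    exact Prod.ext (Equiv.ext fun i => (hpair i).1) (Prod.ext (funext fun i => (hpair i).2) (funext fun i => (key i).2))
  rw [← Nat.card_congr (Equiv.ofBijective (fun d => (⟨g₀ d, hgN d⟩ : Subgroup.normalizer (T : Set (Matrix.symplecticGroup (Fin m) F))))
    ⟨fun d d' h => hinjd (congrArg Subtype.val h), fun g => by
      obtain ⟨d, hd⟩ := hsurj g.1 g.2; exact ⟨d, Subtype.ext hd⟩⟩)]
  simp only [D, Nat.card_prod, Nat.card_fun, Nat.card_perm, Nat.card_units, Nat.card_eq_fintype_card (α := F), Nat.card_fin, Nat.card_eq_fintype_card (α := Bool), Fintype.card_bool, hF]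
  ring

end Cfsg.Agent.S0777
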