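import Cfsg.Statements.S0778
import Mathlib

set_option autoImplicit false
open Cfsg
open scoped Matrix

namespace Cfsg.Agent.S0778

/-- The elements of Sp_2m(F) stabilising both W = ⟨e_1..e_m⟩ and U = ⟨f_1..f_m⟩ form a subgroup isomorphic to GL_m(F) (block-diagonal matrices diag(X, X^(−ᵀ)) up to the sign convention of J), for m ≥ 1 or m = 0 alike. -/
theorem result {F : Type*} [Field F] (m : ℕ) : Nonempty (↥(Cfsg.stabilizing (Cfsg.spToMat m F) {v : Fin m ⊕ Fin m → F | ∀ i : Fin m, v (Sum.inr i) = 0} ⊓ Cfsg.stabilizing (Cfsg.spToMat m F) {v : Fin m ⊕ Fin m → F | ∀ i : Fin m, v (Sum.inl i) = 0}) ≃* Matrix.GeneralLinearGroup (Fin m) F) := by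
  classical
  let mkD : Matrix.GeneralLinearGroup (Fin m) F → Matrix.symplecticGroup (Fin m) F := fun X =>
    ⟨Matrix.fromBlocks (X : Matrix (Fin m) (Fin m) F) 0 0 ((X⁻¹ : Matrix.GeneralLinearGroup (Fin m) F) : Matrix (Fin m) (Fin m) F).transpose, by
      rw [SymplecticGroup.mem_iff]
      simp [Matrix.J, Matrix.fromBlocks_transpose, Matrix.fromBlocks_multiply, ← Matrix.transpose_mul, -Matrix.coe_units_inv]⟩
  let φ : Matrix.GeneralLinearGroup (Fin m) F →* Matrix.symplecticGroup (Fin m) F := MonoidHom.mk' mkD fun X Y =>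
    Subtype.ext (by simp [mkD, Matrix.fromBlocks_multiply, Matrix.transpose_mul, -Matrix.coe_units_inv])
  have hφ : Function.Injective φ := fun X Y h => Units.ext (by
    simpa [φ, mkD] using congrArg (fun T : Matrix.symplecticGroup (Fin m) F => (T : Matrix (Fin m ⊕ Fin m) (Fin m ⊕ Fin m) F).toBlocks₁₁) h)
  set S := Cfsg.stabilizing (Cfsg.spToMat m F) {v : Fin m ⊕ Fin m → F | ∀ i : Fin m, v (Sum.inr i) = 0} ⊓ Cfsg.stabilizing (Cfsg.spToMat m F) {v : Fin m ⊕ Fin m → F | ∀ i : Fin m, v (Sum.inl i) = 0}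
  have hle : ∀ T : Matrix.symplecticGroup (Fin m) F, T ∈ S ↔
      (T : Matrix (Fin m ⊕ Fin m) (Fin m ⊕ Fin m) F).toBlocks₂₁ = 0 ∧ (T : Matrix (Fin m ⊕ Fin m) (Fin m ⊕ Fin m) F).toBlocks₁₂ = 0 := by
    intro T
    set M := (T : Matrix (Fin m ⊕ Fin m) (Fin m ⊕ Fin m) F)
    constructor
    · rintro ⟨h1, h2⟩
      refine ⟨Matrix.ext fun i j => ?_, Matrix.ext fun i j => ?_⟩
      · have := (h1 (Pi.single (Sum.inl j) 1)).1 (fun k => by simp) i
        simpa [M, Cfsg.spToMat, Matrix.toBlocks₂₁] using this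
      · have := (h2 (Pi.single (Sum.inr j) 1)).1 (fun k => by simp) i
        simpa [M, Cfsg.spToMat, Matrix.toBlocks₁₂] using this
    · rintro ⟨h21, h12⟩
      have hdet : M.toBlocks₁₁.det ≠ 0 ∧ M.toBlocks₂₂.det ≠ 0 := by
        have hd : M.det ≠ 0 := fun e => by
          have h := SymplecticGroup.symplectic_det T.2
          rw [e] at h; simp at h
        rw [← Matrix.fromBlocks_toBlocks M, h21, Matrix.det_fromBlocks_zero₂₁] at hd
        exact mul_ne_zero_iff.1 hd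
      have hmv : ∀ v : Fin m ⊕ Fin m → F, M *ᵥ v = Sum.elim (M.toBlocks₁₁ *ᵥ (v ∘ Sum.inl)) (M.toBlocks₂₂ *ᵥ (v ∘ Sum.inr)) := fun v => by
        conv_lhs => rw [← Matrix.fromBlocks_toBlocks M]
        rw [h21, h12, Matrix.fromBlocks_mulVec]
        simp
      constructor
      · intro v
        change (∀ i, v (Sum.inr i) = 0) ↔ ∀ i, (M *ᵥ v) (Sum.inr i) = 0
        simp only [hmv, Sum.elim_inr]
        refine ⟨fun h i => by rw [show v ∘ Sum.inr = 0 from funext h, Matrix.mulVec_zero]; rfl, fun h => ?_⟩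
        have h0 : M.toBlocks₂₂ *ᵥ (v ∘ Sum.inr) = 0 := funext h
        exact fun i => congrFun (Matrix.eq_zero_of_mulVec_eq_zero hdet.2 h0) i
      · intro v
        change (∀ i, v (Sum.inl i) = 0) ↔ ∀ i, (M *ᵥ v) (Sum.inl i) = 0
        simp only [hmv, Sum.elim_inl]
        refine ⟨fun h i => by rw [show v ∘ Sum.inl = 0 from funext h, Matrix.mulVec_zero]; rfl, fun h => ?_⟩
        have h0 : M.toBlocks₁₁ *ᵥ (v ∘ Sum.inl) = 0 := funext h
        exact fun i => congrFun (Matrix.eq_zero_of_mulVec_eq_zero hdet.1 h0) i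
  have hrange : φ.range = S := by
    ext T
    constructor
    · rintro ⟨X, rfl⟩
      exact (hle _).2 ⟨by simp [φ, mkD], by simp [φ, mkD]⟩
    · intro hT
      obtain ⟨h21, h12⟩ := (hle T).1 hT
      set M := (T : Matrix (Fin m ⊕ Fin m) (Fin m ⊕ Fin m) F)
      have hJ := SymplecticGroup.mem_iff.1 T.2
      change M * Matrix.J (Fin m) F * M.transpose = _ at hJ
      rw [← Matrix.fromBlocks_toBlocks M, h21, h12] at hJ
      simp [Matrix.J, Matrix.fromBlocks_transpose, Matrix.fromBlocks_multiply] at hJ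
      obtain ⟨hAD, hDA⟩ := hJ
      have h1 : M.toBlocks₁₁ * M.toBlocks₂₂.transpose = 1 := hAD
      have h1' : M.toBlocks₂₂.transpose * M.toBlocks₁₁ = 1 := mul_eq_one_comm.1 h1
      refine ⟨⟨M.toBlocks₁₁, M.toBlocks₂₂.transpose, h1, h1'⟩, Subtype.ext ?_⟩
      change Matrix.fromBlocks M.toBlocks₁₁ 0 0 M.toBlocks₂₂.transpose.transpose = M
      rw [Matrix.transpose_transpose]
      conv_rhs => rw [← Matrix.fromBlocks_toBlocks M, h21, h12]
  exact ⟨((MonoidHom.ofInjective hφ).trans (MulEquiv.subgroupCongr hrange)).symm⟩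

end Cfsg.Agent.S0778
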