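import Cfsg.Statements.S0779
import Mathlib
import Cfsg.Agent.Lib.Classical.UnitaryGen
import Cfsg.Agent.Lib.Classical.UnitaryTransvection

set_option autoImplicit false
open Cfsg

namespace Cfsg.Agent.S0779

open Cfsg.Lib.Classical Matrix
open scoped commutatorElement

/-- Unitary transvections: let |F| = q², h the standard Hermitian form Σ x_i y_i^q and v ≠ 0 with h(v, v) = 0. The linear map x ↦ x + c h(x, v) v is an isometry of h if and only if c = 0 or c^(q−1) = −1. -/
theorem result {F : Type*} [Field F] [Fintype F] {q : ℕ} (hF : Fintype.card F = q ^ 2) (n : ℕ) (v : Fin n → F) (hv : v ≠ 0) (hv0 : Cfsg.hermForm n F q v v = 0) (c : F) : (∀ x y : Fin n → F, Cfsg.hermForm n F q ((Cfsg.unitaryTransvection n q v c).mulVec x) ((Cfsg.unitaryTransvection n q v c).mulVec y) = Cfsg.hermForm n F q x y) ↔ (c = 0 ∨ c ^ (q - 1) = -1) := by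
  obtain ⟨σ, hne, hσ, hinv⟩ := exists_frobSq hF
  have hf := hermForm_isUnitaryForm hne hσ hinv n
  have hq : 1 ≤ q := by
    rcases q with _ | q
    · have := Fintype.card_pos (α := F); rw [hF] at this; simp at this
    · omega
  rw [← coe_utv hf v hv0 c]
  refine (utv_isometry_iff hf v hv hv0 c).trans ?_
  have key : c + σ c = c * (1 + c ^ (q - 1)) := by
    rw [hσ, mul_add, mul_one, ← pow_succ', Nat.sub_add_cancel hq]
  rw [key, mul_eq_zero, ← eq_neg_iff_add_eq_zero]
  constructor
  · rintro (h | h)
    · exact Or.inl h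
    · exact Or.inr (by rw [h, neg_neg])
  · rintro (h | h)
    · exact Or.inl h
    · exact Or.inr (by rw [h, neg_neg])

end Cfsg.Agent.S0779
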