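import Cfsg.Statements.S0780
import Mathlib
import Cfsg.Agent.Lib.Classical.UnitaryGen
import Cfsg.Agent.Lib.Classical.UnitaryTransvection

set_option autoImplicit false
open Cfsg

namespace Cfsg.Agent.S0780

open Cfsg.Lib.Classical Matrix
open scoped commutatorElement

/-- Generation of SU_n(q), n ≥ 3, (n, q) ≠ (3, 2), by unitary transvections: the subgroup generated by the elements whose matrix is x ↦ x + c h(x, v) v with v isotropic is all of SU_n(q). -/
theorem result {F : Type*} [Field F] [Fintype F] {q : ℕ} (hF : Fintype.card F = q ^ 2) (n : ℕ) (hn : 3 ≤ n) (h32 : ¬ (n = 3 ∧ q = 2)) : Subgroup.closure {A : ↥(Cfsg.SU n F q) | ∃ (v : Fin n → F) (c : F), Cfsg.hermForm n F q v v = 0 ∧ ((A : Matrix.SpecialLinearGroup (Fin n) F) : Matrix (Fin n) (Fin n) F) = Cfsg.unitaryTransvection n q v c} = ⊤ := by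
  obtain ⟨σ, hne, hσ, hinv⟩ := exists_frobSq hF
  have hf := hermForm_isUnitaryForm hne hσ hinv n
  rw [eq_top_iff]
  intro A _
  let φ : ↥(Cfsg.SU n F q) →* GL (Fin n) F :=
    Matrix.SpecialLinearGroup.toGL.comp (Cfsg.SU n F q).subtype
  have hinj : Function.Injective φ := fun a b h => Subtype.ext <| Subtype.ext <|
    congrArg (fun g : GL (Fin n) F => (g : Matrix (Fin n) (Fin n) F)) h
  set S := Subgroup.closure {A : ↥(Cfsg.SU n F q) | ∃ (v : Fin n → F) (c : F), Cfsg.hermForm n F q v v = 0 ∧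
    ((A : Matrix.SpecialLinearGroup (Fin n) F) : Matrix (Fin n) (Fin n) F) = Cfsg.unitaryTransvection n q v c} with hS
  have hle : uGen hf (⊤ : Submodule F (Fin n → F)) ≤ S.map φ := uGen_le fun v _ hv c hc => by
    have hd : (utv hf v hv c : Matrix (Fin n) (Fin n) F).det = 1 := by
      rw [← Matrix.GeneralLinearGroup.val_det_apply, utv_det, Units.val_one]
    exact ⟨⟨⟨_, hd⟩, utv_isometry hf v hv hc⟩,
      Subgroup.subset_closure ⟨v, c, hv, coe_utv hf v hv c⟩, Units.ext rfl⟩
  obtain ⟨B, hB, hBA⟩ := hle (mem_uGen_top hf (fun h => exists_norm_ne_one hF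
    (fun hq => h32 ⟨by simpa using h, hq⟩) hσ) (g := φ A) A.2
    (Units.ext (by rw [Matrix.GeneralLinearGroup.val_det_apply]; exact A.1.2)))
  rwa [← hinj hBA]

end Cfsg.Agent.S0780
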