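import Cfsg.Statements.S0781
import Mathlib
import Cfsg.Agent.Lib.Classical.UnitaryGen
import Cfsg.Agent.Lib.Classical.UnitaryTransvection

set_option autoImplicit false
open Cfsg

namespace Cfsg.Agent.S0781

open Cfsg.Lib.Classical Matrix
open scoped commutatorElement

/-- In SU_n(q) with n ≥ 4, or n = 3 and q > 2, every element whose matrix is a unitary transvection x ↦ x + c h(x, v) v (v isotropic) is a commutator ⁅B, C⁆ of two elements of SU_n(q). -/
theorem result {F : Type*} [Field F] [Fintype F] {q : ℕ} (hF : Fintype.card F = q ^ 2) (n : ℕ) (hn : 4 ≤ n ∨ (n = 3 ∧ 3 ≤ q)) (A : ↥(Cfsg.SU n F q)) (v : Fin n → F) (c : F) (hv0 : Cfsg.hermForm n F q v v = 0) (hA : ((A : Matrix.SpecialLinearGroup (Fin n) F) : Matrix (Fin n) (Fin n) F) = Cfsg.unitaryTransvection n q v c) : A ∈ commutatorSet ↥(Cfsg.SU n F q) := by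
  obtain ⟨σ, hne, hσ, hinv⟩ := exists_frobSq hF
  have hf := hermForm_isUnitaryForm hne hσ hinv n
  have hn3 : 3 ≤ n := by omega
  by_cases hv : v = 0
  · refine ⟨1, 1, ?_⟩
    rw [commutatorElement_self]
    refine Subtype.ext (Subtype.ext ?_)
    rw [hA, hv]
    ext i j
    simp [Cfsg.unitaryTransvection, Matrix.vecMulVec_apply]
  have hc : c + σ c = 0 := (utv_isometry_iff hf v hv hv0 c).1 fun x y => by
    rw [coe_utv hf v hv0 c, ← hA]
    exact A.2 x y
  obtain ⟨a, b, ⟨ha, hda⟩, ⟨hb, hdb⟩, hab⟩ := exists_utv_eq_commutator hf hn3 v hv0 hc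
  let φ : ↥(Cfsg.SU n F q) →* GL (Fin n) F :=
    Matrix.SpecialLinearGroup.toGL.comp (Cfsg.SU n F q).subtype
  have hinj : Function.Injective φ := fun a b h => Subtype.ext <| Subtype.ext <|
    congrArg (fun g : GL (Fin n) F => (g : Matrix (Fin n) (Fin n) F)) h
  have hd : ∀ g : GL (Fin n) F, Matrix.GeneralLinearGroup.det g = 1 →
      (g : Matrix (Fin n) (Fin n) F).det = 1 := fun g hg => by
    rw [← Matrix.GeneralLinearGroup.val_det_apply, hg, Units.val_one]
  refine ⟨⟨⟨_, hd a hda⟩, ha⟩, ⟨⟨_, hd b hdb⟩, hb⟩, hinj ?_⟩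
  rw [map_commutatorElement, show φ ⟨⟨_, hd a hda⟩, ha⟩ = a from Units.ext rfl,
    show φ ⟨⟨_, hd b hdb⟩, hb⟩ = b from Units.ext rfl, ← hab]
  exact Units.ext ((coe_utv hf v hv0 c).trans hA.symm)

end Cfsg.Agent.S0781
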