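import Cfsg.Statements.S0782
import Mathlib
import Cfsg.Agent.Lib.Classical.IsotropicFrames
import Cfsg.Agent.Lib.Classical.UnitaryStd
import Cfsg.Agent.Lib.Classical.UnitaryCentre
import Cfsg.Agent.Lib.Classical.UnitaryOrders
-- import your own Cfsg.Agent.* helpers here

set_option autoImplicit false
open Cfsg
open scoped Matrix

namespace Cfsg.Agent.S0782

set_option maxHeartbeats 1000000 in
open Module Cfsg.Lib.Classical in
/-- The orthogonal space of a span, for the standard hermitian form. -/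
theorem finrank_hperp {F : Type*} [Field F] {σ : F ≃+* F} {q n : ℕ} (hσ : ∀ a, σ a = a ^ q) (hinv : ∀ a, σ (σ a) = a)
    (hf : Cfsg.Geo.IsUnitaryForm σ (Cfsg.hermForm n F q)) (W : Submodule F (Fin n → F)) :
    finrank F (hperp hf W) = n - finrank F W ∧ finrank F W ≤ n := by
  classical
  let b := Module.finBasis F W
  let E : Matrix (Fin (finrank F W)) (Fin n) F := Matrix.of fun i l => σ ((b i : Fin n → F) l)
  have hE : LinearIndependent F E.row := by
    have hb : LinearIndependent F fun i => (b i : Fin n → F) := b.linearIndependent.map' W.subtype (Submodule.ker_subtype W)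
    rw [Fintype.linearIndependent_iff] at hb ⊢
    intro g hg i
    have := hb (fun i => σ (g i)) (funext fun l => by
      have h := congrArg σ (congrFun hg l)
      simpa [E, Matrix.row, map_sum, hinv] using h) i
    simpa using this
  have hk : hperp hf W = LinearMap.ker E.mulVecLin := by
    ext x
    rw [mem_hperp, LinearMap.mem_ker, Matrix.mulVecLin_apply]
    have key : ∀ i, (E *ᵥ x) i = Cfsg.hermForm n F q x (b i : Fin n → F) := fun i => by
      simp only [Matrix.mulVec, dotProduct, Cfsg.hermForm]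
      exact Finset.sum_congr rfl fun l _ => by simp [E, hσ, mul_comm]
    refine ⟨fun h => funext fun i => by rw [key]; exact h _ (b i).2, fun h w hw => ?_⟩
    have hw' := congrArg (fun x : W => (x : Fin n → F)) (b.sum_repr ⟨w, hw⟩)
    simp only [Submodule.coe_sum, Submodule.coe_smul] at hw'
    rw [← hw', herm_sum_right hf]
    exact Finset.sum_eq_zero fun i _ => by rw [herm_smul_right hf, ← key i, h]; simp
  have h := LinearMap.finrank_range_add_finrank_ker E.mulVecLin
  rw [← hk, show finrank F (LinearMap.range E.mulVecLin) = E.rank from rfl, hE.rank_matrix, Fintype.card_fin, Module.finrank_fintype_fun_eq_card, Fintype.card_fin] at h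
  omega

set_option maxHeartbeats 1000000 in
open Module Cfsg.Lib.Classical in
/-- The number of isotropic vectors orthogonal to a totally isotropic family and outside its span. -/
theorem card_ext_u {F : Type*} [Field F] [Fintype F] {σ : F ≃+* F} {q n k : ℕ} (hF : Fintype.card F = q ^ 2) (hσ : ∀ a, σ a = a ^ q)
    (hf : Cfsg.Geo.IsUnitaryForm σ (Cfsg.hermForm n F q))
    (e : IsotropicFrames.Fr F (fun u v => Cfsg.hermForm n F q u v = 0) k) (hk : 2 * k ≤ n) :
    (q : ℤ) * Nat.card {v : Fin n → F // v ∉ Submodule.span F (Set.range e.1) ∧ Cfsg.hermForm n F q v v = 0 ∧ ∀ i, Cfsg.hermForm n F q (e.1 i) v = 0 ∧ Cfsg.hermForm n F q v (e.1 i) = 0} =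
      (q : ℤ) ^ (2 * k) * ((q : ℤ) ^ (2 * (n - 2 * k)) + (-1) ^ (n - 2 * k) * (q : ℤ) ^ (n - 2 * k) * (q - 1) - q) := by
  classical
  have hinv := hf.involutive
  set W := Submodule.span F (Set.range e.1)
  have hWk : finrank F W = k := by rw [finrank_span_eq_card e.2.1, Fintype.card_fin]
  have hmem : ∀ v, v ∈ hperp hf W ↔ ∀ i, (Cfsg.hermForm n F q) v (e.1 i) = 0 := fun v => by
    refine ⟨fun h i => h _ (Submodule.subset_span ⟨i, rfl⟩), fun h w hw => ?_⟩
    induction hw using Submodule.span_induction with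
    | mem x hx => obtain ⟨i, rfl⟩ := hx; exact h i
    | zero => exact herm_zero_right hf v
    | add x y _ _ hx hy => rw [herm_add_right hf, hx, hy, add_zero]
    | smul a x _ hx => rw [herm_smul_right hf, hx, mul_zero]
  have hle : W ≤ hperp hf W := Submodule.span_le.2 (by
    rintro _ ⟨i, rfl⟩
    exact (hmem _).2 fun j => e.2.2 i j)
  have hWW : hperp hf (hperp hf W) = W := by
    refine (Submodule.eq_of_le_of_finrank_le (show W ≤ hperp hf (hperp hf W) from fun x hx w hw => herm_eq_zero_symm hf (hw x hx)) ?_).symm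
    rw [(finrank_hperp hσ hinv hf _).1, (finrank_hperp hσ hinv hf W).1, hWk]
    omega
  obtain ⟨C, hC⟩ := W.exists_isCompl
  set M := hperp hf W ⊓ C
  have hsup : W ⊔ M = hperp hf W := by
    show W ⊔ hperp hf W ⊓ C = _
    rw [inf_comm, ← sup_inf_assoc_of_le _ hle, hC.sup_eq_top, top_inf_eq]
  have hdis : W ⊓ M = ⊥ := eq_bot_iff.2 fun x hx => hC.inf_eq_bot.le ⟨hx.1, hx.2.2⟩
  have hM : NondegOnH (Cfsg.hermForm n F q) M := by
    intro w hw hw0
    by_contra hne
    push Not at hne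
    refine hw0 ((Submodule.mem_bot F).1 (hdis.le ⟨?_, hw⟩))
    rw [← hWW]
    intro y hy
    rw [← hsup] at hy
    obtain ⟨a, ha, b, hb, rfl⟩ := Submodule.mem_sup.1 hy
    rw [herm_add_right hf, hne b hb, add_zero]
    exact hw.1 a ha
  have hMd : finrank F M = n - 2 * k := by
    have h := Submodule.finrank_sup_add_finrank_inf_eq W M
    rw [hsup, hdis, finrank_bot, (finrank_hperp hσ hinv hf W).1, hWk] at h
    omega
  have hform : ∀ a ∈ W, ∀ b ∈ M, (Cfsg.hermForm n F q) (a + b) (a + b) = (Cfsg.hermForm n F q) b b := fun a ha b hb => by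
    rw [hf.add_left, herm_add_right hf, herm_add_right hf, hle ha a ha, hb.1 a ha, herm_eq_zero_symm hf (hb.1 a ha)]
    ring
  have h1 : Nat.card {v : Fin n → F // v ∈ hperp hf W ∧ (Cfsg.hermForm n F q) v v = 0} = Nat.card W * UnitaryOrders.num (Cfsg.hermForm n F q) M 0 := by
    rw [UnitaryOrders.num, ← Nat.card_prod]
    refine (Nat.card_congr (Equiv.ofBijective (fun x : W × {v : Fin n → F // v ∈ M ∧ (Cfsg.hermForm n F q) v v = 0} =>
      (⟨x.1.1 + x.2.1, by rw [← hsup]; exact Submodule.add_mem_sup x.1.2 x.2.2.1, by rw [hform _ x.1.2 _ x.2.2.1, x.2.2.2]⟩ :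
        {v : Fin n → F // v ∈ hperp hf W ∧ (Cfsg.hermForm n F q) v v = 0})) ⟨fun x y h => ?_, fun v => ?_⟩)).symm
    · have h' : (x.1.1 : Fin n → F) + x.2.1 = y.1.1 + y.2.1 := congrArg Subtype.val h
      have h3 : (x.1.1 : Fin n → F) - y.1.1 ∈ W ⊓ M := ⟨W.sub_mem x.1.2 y.1.2, by
        rw [show (x.1.1 : Fin n → F) - y.1.1 = y.2.1 - x.2.1 from sub_eq_sub_iff_add_eq_add.2 (h'.trans (add_comm _ _))]
        exact M.sub_mem y.2.2.1 x.2.2.1⟩
      have h4 := sub_eq_zero.1 ((Submodule.mem_bot F).1 (hdis.le h3))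
      exact Prod.ext (Subtype.ext h4) (Subtype.ext (by rw [h4] at h'; exact add_left_cancel h'))
    · have hv : v.1 ∈ W ⊔ M := hsup.ge v.2.1
      obtain ⟨a, ha, b, hb, hab⟩ := Submodule.mem_sup.1 hv
      refine ⟨(⟨a, ha⟩, ⟨b, hb, ?_⟩), Subtype.ext hab⟩
      rw [← hform a ha b hb, hab]; exact v.2.2
  have hsub : (W : Set (Fin n → F)) ⊆ {v | v ∈ hperp hf W ∧ (Cfsg.hermForm n F q) v v = 0} := fun v hv => ⟨hle hv, hle hv v hv⟩
  rw [Nat.card_congr (Equiv.subtypeEquivRight (q := fun v => v ∈ {v | v ∈ hperp hf W ∧ (Cfsg.hermForm n F q) v v = 0} \ (W : Set (Fin n → F))) fun v => by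
    simp only [Set.mem_sdiff, SetLike.mem_coe, Set.mem_setOf_eq, hmem]
    exact ⟨fun h => ⟨⟨fun i => (h.2.2 i).2, h.2.1⟩, h.1⟩, fun h => ⟨h.2, h.1.2, fun i => ⟨herm_eq_zero_symm hf (h.1.1 i), h.1.1 i⟩⟩⟩),
    Nat.card_coe_set_eq, Set.ncard_sdiff hsub, ← Nat.card_coe_set_eq, ← Nat.card_coe_set_eq, Nat.cast_sub (Nat.card_mono (Set.toFinite _) hsub)]
  show (q : ℤ) * ((Nat.card {v : Fin n → F // v ∈ hperp hf W ∧ (Cfsg.hermForm n F q) v v = 0} : ℤ) - (Nat.card W : ℤ)) = _
  rw [h1, Module.natCard_eq_pow_finrank (K := F) (V := W), hWk, Nat.card_eq_fintype_card, hF]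
  push_cast
  rw [← pow_mul]
  linear_combination ((q : ℤ) ^ (2 * k)) * (UnitaryOrders.num_formula hf hF _ M hM hMd).1

/-- The isotropic extension numbers. -/
def ext_num (q n k : ℕ) : ℕ :=
  q ^ (2 * k) * ((if Even (n - 2 * k - 1) then q ^ (n - 2 * k) + 1 else q ^ (n - 2 * k) - 1) *
    (if Even (n - 2 * k) then q ^ (n - 2 * k - 1) + 1 else q ^ (n - 2 * k - 1) - 1))

lemma ext_num_cast {q : ℕ} (hq : 0 < q) (k l : ℕ) :
    (q : ℤ) * ext_num q (l + 1 + 2 * k) k = (q : ℤ) ^ (2 * k) * ((q : ℤ) ^ (2 * (l + 1)) + (-1) ^ (l + 1) * (q : ℤ) ^ (l + 1) * (q - 1) - q) := by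
  rw [ext_num, Nat.add_sub_cancel, Nat.add_sub_cancel]
  rcases Nat.even_or_odd l with hl | hl
  · rw [if_pos hl, if_neg (Nat.not_even_iff_odd.2 hl.add_one), hl.add_one.neg_one_pow]
    push_cast [Nat.one_le_pow _ _ hq]
    ring
  · rw [if_neg (Nat.not_even_iff_odd.2 hl), if_pos hl.add_one, hl.add_one.neg_one_pow]
    push_cast [Nat.one_le_pow _ _ hq]
    ring

/-- The order identity for unitary parabolics. -/
lemma gu_order_split (q : ℕ) : ∀ k l : ℕ,
    q ^ ((l + 2 * k) * ((l + 2 * k) - 1) / 2) * ∏ i ∈ Finset.range (l + 2 * k), (if Even i then q ^ (i + 1) + 1 else q ^ (i + 1) - 1) =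
    (∏ i ∈ Finset.range k, ext_num q (l + 2 * k) i) *
      (q ^ (k * (2 * l + k)) * (q ^ (l * (l - 1) / 2) * ∏ i ∈ Finset.range l, (if Even i then q ^ (i + 1) + 1 else q ^ (i + 1) - 1))) := by
  intro k
  induction k with
  | zero => intro l; simp
  | succ k ih =>
    intro l
    rw [show l + 2 * (k + 1) = l + 2 + 2 * k by ring, ih (l + 2), Finset.prod_range_succ _ k, Finset.prod_range_succ _ (l + 1),
      Finset.prod_range_succ _ l, ext_num, Nat.add_sub_cancel, show l + 2 - 1 = l + 1 by omega,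
      show (l + 2) * (l + 1) / 2 = l * (l - 1) / 2 + (2 * l + 1) by
        rw [← Nat.add_mul_div_left _ _ two_pos]; congr 1; rcases l with _ | t <;> simp; ring,
      if_congr (show Even (l + 2) ↔ Even l by simp [Nat.even_add]) (Eq.refl (q ^ (l + 1) + 1)) (Eq.refl (q ^ (l + 1) - 1))]
    ring

set_option maxHeartbeats 1000000 in
open Module Cfsg.Lib.Classical in
/-- Stabiliser of a totally isotropic subspace in the full unitary group. -/
theorem card_stab_GU {F : Type*} [Field F] [Fintype F] {σ : F ≃+* F} {q : ℕ} (hF : Fintype.card F = q ^ 2) (hσ : ∀ a, σ a = a ^ q)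
    (n k l : ℕ) (hn : n = l + 2 * k) (hf : Cfsg.Geo.IsUnitaryForm σ (Cfsg.hermForm n F q)) (W : Submodule F (Fin n → F))
    (hWk : finrank F W = k) (hW : ∀ u ∈ W, ∀ v ∈ W, Cfsg.hermForm n F q u v = 0) :
    Nat.card {g : Cfsg.GU n F q // ∀ w ∈ W, ((g : GL (Fin n) F) : Matrix _ _ F) *ᵥ w ∈ W} =
      q ^ (k * (2 * l + k)) * (q ^ (l * (l - 1) / 2) * ∏ i ∈ Finset.range l, (if Even i then q ^ (i + 1) + 1 else q ^ (i + 1) - 1)) *
        ∏ i : Fin k, ((q ^ 2) ^ k - (q ^ 2) ^ (i : ℕ)) := by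
  classical
  have hq : 1 < q := by
    by_contra h
    have := Fintype.one_lt_card (α := F)
    rw [hF] at this
    interval_cases q <;> simp at this
  set R := fun u v => Cfsg.hermForm n F q u v = 0
  have hcard : Nat.card (IsotropicFrames.Fr F R k) = ∏ i ∈ Finset.range k, ext_num q n i := by
    refine IsotropicFrames.card_fr R _ k fun j hj e => ?_
    have h := card_ext_u hF hσ hf e (by omega)
    obtain ⟨t, ht⟩ : ∃ t, n = t + 1 + 2 * j := ⟨n - 1 - 2 * j, by omega⟩
    rw [show n - 2 * j = t + 1 by omega, ← ext_num_cast (by omega) j t, ← ht] at h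
    exact_mod_cast mul_left_cancel₀ (by positivity : (q : ℤ) ≠ 0) h
  let b := Module.finBasisOfFinrankEq F W hWk
  let e₀ : IsotropicFrames.Fr F R k :=
    ⟨fun i => (b i : Fin n → F), b.linearIndependent.map' W.subtype (Submodule.ker_subtype W), fun i j => hW _ (b i).2 _ (b j).2⟩
  have hinj : ∀ g : GL (Fin n) F, Function.Injective fun v => (g : Matrix (Fin n) (Fin n) F) *ᵥ v := fun g =>
    Matrix.mulVec_injective_iff_isUnit.2 g.isUnit
  have hgiso : ∀ (g : Cfsg.GU n F q) (u v : Fin n → F), Cfsg.hermForm n F q (((g : GL (Fin n) F) : Matrix (Fin n) (Fin n) F) *ᵥ u) (((g : GL (Fin n) F) : Matrix (Fin n) (Fin n) F) *ᵥ v) = Cfsg.hermForm n F q u v :=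
    fun g u v => g.2 u v
  let o : Cfsg.GU n F q → IsotropicFrames.Fr F R k := fun g => ⟨fun i => ((g : GL (Fin n) F) : Matrix (Fin n) (Fin n) F) *ᵥ e₀.1 i,
    e₀.2.1.map' (Matrix.mulVecLin ((g : GL (Fin n) F) : Matrix (Fin n) (Fin n) F)) (LinearMap.ker_eq_bot.2 (hinj g)),
    fun i j => (hgiso g (e₀.1 i) (e₀.1 j)).trans (e₀.2.2 i j)⟩
  let B : (Fin n → F) →ₛₗ[(σ : F →+* F)] (Fin n → F) →ₗ[F] F :=
    LinearMap.mk₂'ₛₗ (σ : F →+* F) (RingHom.id F) (fun x y => Cfsg.hermForm n F q y x)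
      (fun x x' y => herm_add_right hf _ _ _) (fun c x y => herm_smul_right hf _ _ _)
      (fun x y y' => hf.add_left _ _ _) (fun c x y => hf.smul_left _ _ _)
  have hB : B.Nondegenerate := by
    refine ⟨fun x hx => ?_, fun y hy => ?_⟩
    · by_contra h0
      obtain ⟨z, hz⟩ := (hf.nondegenerate x h0).1
      exact hz (hx z)
    · by_contra h0
      obtain ⟨z, hz⟩ := (hf.nondegenerate y h0).2
      exact hz (hy z)
  obtain ⟨c, hc⟩ : ∃ c : F, c + σ c ≠ 0 := by
    by_contra h
    push Not at h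
    refine hf.ne_refl (RingEquiv.ext fun a => ?_)
    have h1 := h 1
    rw [map_one] at h1
    show σ a = a
    linear_combination h a - a * h1
  have hθ : c / (c + σ c) + σ (c / (c + σ c)) = 1 := by
    rw [map_div₀, map_add, hf.involutive, add_comm (σ c) c, ← add_div, div_self hc]
  have hs : Function.Surjective o := by
    intro x
    obtain ⟨g, hg, hge⟩ := Witt.herm_witt (B := B) hf.involutive (fun u v => (hf.herm u v).symm) hθ hB e₀.1 x.1 e₀.2.1 x.2.1
      (fun i j => (e₀.2.2 j i).trans (x.2.2 j i).symm)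
    refine ⟨⟨(glEquiv _ F).symm g, fun u v => ?_⟩, Subtype.ext (funext fun i => ?_)⟩
    · show Cfsg.hermForm n F q (((glEquiv _ F).symm g : GL (Fin n) F) *ᵥ u : Fin n → F) _ = _
      rw [glEquiv_symm_mulVec]
      show Cfsg.hermForm n F q (g u) (((glEquiv _ F).symm g : GL (Fin n) F) *ᵥ v : Fin n → F) = _
      rw [glEquiv_symm_mulVec]
      exact hg v u
    · show (((glEquiv _ F).symm g : GL (Fin n) F) : Matrix _ _ F) *ᵥ e₀.1 i = x.1 i
      rw [glEquiv_symm_mulVec, hge]
  have h := IsotropicFrames.count_pre o hs (fun a g h e => Subtype.ext (funext fun i => by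
    have := congrFun (congrArg Subtype.val e) i
    show ((a * g : Cfsg.GU n F q) : GL (Fin n) F).val *ᵥ _ = ((a * h : Cfsg.GU n F q) : GL (Fin n) F).val *ᵥ _
    rw [Subgroup.coe_mul, Subgroup.coe_mul, Units.val_mul, Units.val_mul, ← Matrix.mulVec_mulVec, ← Matrix.mulVec_mulVec]
    exact congrArg _ this)) (fun x => ∀ i, x.1 i ∈ W)
  beta_reduce at h
  rw [IsotropicFrames.card_fr_in hF R W hWk hW, hcard, UnitaryOrders.card_GU hF] at h
  have hsplit := gu_order_split q k l
  rw [← hn] at hsplit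
  rw [hsplit] at h
  have hiff : ∀ g : Cfsg.GU n F q, (∀ w ∈ W, ((g : GL (Fin n) F) : Matrix _ _ F) *ᵥ w ∈ W) ↔ ∀ i, (o g).1 i ∈ W := by
    intro g
    refine ⟨fun hg i => hg _ (b i).2, fun hg w hw => ?_⟩
    have hw' := congrArg (fun x : W => (x : Fin n → F)) (b.sum_repr ⟨w, hw⟩)
    simp only [Submodule.coe_sum, Submodule.coe_smul] at hw'
    rw [← hw', ← Matrix.mulVecLin_apply, map_sum]
    exact W.sum_mem fun i _ => by rw [map_smul]; exact W.smul_mem _ (hg i)
  rw [Nat.card_congr (Equiv.subtypeEquivRight hiff)]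
  refine Nat.eq_of_mul_eq_mul_right ?_ (h.trans (by ring))
  rw [← hcard]
  haveI : Nonempty (IsotropicFrames.Fr F R k) := ⟨e₀⟩
  exact Nat.card_pos

set_option maxHeartbeats 1000000 in
/-- Maximal parabolics of SU_n(q): if W is a k-dimensional subspace of F^n (n ≥ 1, |F| = q²) on which the Hermitian form vanishes, then (q + 1) times the order of its stabiliser in SU_n(q) equals q^(k(2n−3k)) · |GL_k(q²)| · |GU_(n−2k)(q)|, where |GU_m(q)| = q^(m(m−1)/2) Π_(i=1..m) (q^i − (−1)^i). -/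
theorem result {F : Type*} [Field F] [Fintype F] {q : ℕ} (hF : Fintype.card F = q ^ 2) (n k : ℕ) (hn : 1 ≤ n) (hk : 2 * k ≤ n) (W : Submodule F (Fin n → F)) (hWk : Module.finrank F W = k) (hW : ∀ u ∈ W, ∀ v ∈ W, Cfsg.hermForm n F q u v = 0) : (q + 1) * Nat.card ↥((Cfsg.stabilizing (Cfsg.slToMat n F) (W : Set (Fin n → F))).subgroupOf (Cfsg.SU n F q)) = q ^ (k * (2 * n - 3 * k)) * (∏ i : Fin k, ((q ^ 2) ^ k - (q ^ 2) ^ (i : ℕ))) * (q ^ ((n - 2 * k) * ((n - 2 * k) - 1) / 2) * ∏ i ∈ Finset.range (n - 2 * k), (if Even i then q ^ (i + 1) + 1 else q ^ (i + 1) - 1)) := by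
  classical
  obtain ⟨σ, hne, hσ, hinv⟩ := Cfsg.Lib.Classical.exists_frobSq hF
  obtain ⟨l, hl⟩ := Nat.exists_eq_add_of_le' hk
  have hf := Cfsg.Lib.Classical.hermForm_isUnitaryForm hne hσ hinv n
  have hiff : ∀ g : Cfsg.SU n F q, g ∈ (Cfsg.stabilizing (Cfsg.slToMat n F) (W : Set (Fin n → F))).subgroupOf (Cfsg.SU n F q) ↔
      ∀ w ∈ W, ((g : Matrix.SpecialLinearGroup (Fin n) F) : Matrix _ _ F) *ᵥ w ∈ W := fun g =>
    ⟨fun hg w hw => (hg w).1 hw, fun hg v => Cfsg.Lib.Classical.IsotropicFrames.mem_iff_map_mem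
      (Matrix.mulVec_injective_iff_isUnit.2 ((Matrix.isUnit_iff_isUnit_det _).2 (by rw [g.1.2]; exact isUnit_one))) hg v⟩
  rcases Nat.eq_zero_or_pos k with hk0 | hk0
  · subst hk0
    have h0 : ∀ w ∈ W, w = 0 := fun w hw => (Submodule.mem_bot F).1 (Submodule.finrank_eq_zero.1 hWk ▸ hw)
    rw [Nat.card_congr (Equiv.subtypeUnivEquiv (α := Cfsg.SU n F q) fun g => (hiff g).2 fun w hw => by rw [h0 w hw, Matrix.mulVec_zero]; exact W.zero_mem),
      Cfsg.Lib.Classical.UnitaryCentre.card_SU hF hn, Cfsg.Lib.Classical.UnitaryOrders.card_GU hF]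
    simp
  let S : Subgroup (Cfsg.GU n F q) :=
    { carrier := {g | ∀ w ∈ W, ((g : GL (Fin n) F) : Matrix _ _ F) *ᵥ w ∈ W}
      one_mem' := fun w hw => by simpa using hw
      mul_mem' := fun {a b} ha hb w hw => by
        rw [Subgroup.coe_mul, Units.val_mul, ← Matrix.mulVec_mulVec]; exact ha _ (hb w hw)
      inv_mem' := fun {a} ha w hw => by
        have := (Cfsg.Lib.Classical.IsotropicFrames.mem_iff_map_mem (S := (W : Set (Fin n → F)))
          (Matrix.mulVec_injective_iff_isUnit.2 (a : GL (Fin n) F).isUnit) ha (((a⁻¹ : Cfsg.GU n F q) : GL (Fin n) F).val *ᵥ w)).2 (by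
          rw [Matrix.mulVec_mulVec, ← Units.val_mul, ← Subgroup.coe_mul, mul_inv_cancel]; simpa using hw)
        exact this }
  let δ : S →* Fˣ := (Matrix.GeneralLinearGroup.det.comp (Cfsg.GU n F q).subtype).comp S.subtype
  have hrange : Nat.card δ.range = q + 1 := by
    rw [← Cfsg.Lib.Classical.UnitaryCentre.card_norm_one hF]
    refine Nat.card_congr (Equiv.subtypeEquivRight fun u => ⟨?_, fun hu => ?_⟩)
    · rintro ⟨g, rfl⟩
      refine Units.ext ?_
      rw [Units.val_pow_eq_pow_val, Units.val_one]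
      show ((g.1.1 : Matrix (Fin n) (Fin n) F).det) ^ (q + 1) = 1
      have h1 : (g.1.1 : Matrix (Fin n) (Fin n) F)ᵀ * (g.1.1 : Matrix (Fin n) (Fin n) F).map σ = 1 := by
        ext i j
        have h : Cfsg.hermForm n F q ((g.1.1 : Matrix (Fin n) (Fin n) F) *ᵥ Pi.single i 1) ((g.1.1 : Matrix (Fin n) (Fin n) F) *ᵥ Pi.single j 1) =
            Cfsg.hermForm n F q (Pi.single i 1) (Pi.single j 1) := g.1.2 (Pi.single i 1) (Pi.single j 1)
        rw [Matrix.mulVec_single_one, Matrix.mulVec_single_one] at h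
        have e : Cfsg.hermForm n F q (Pi.single i 1) (Pi.single j 1) = (1 : Matrix (Fin n) (Fin n) F) i j := by
          simp [Cfsg.hermForm, Pi.single_apply, ← hσ, Matrix.one_apply, apply_ite σ, eq_comm]
        rw [← e, ← h, Matrix.mul_apply]
        exact Finset.sum_congr rfl fun k _ => by simp [hσ]
      have h2 := congrArg Matrix.det h1
      rw [Matrix.det_mul, Matrix.det_transpose, Matrix.det_one,
        show ((g.1.1 : Matrix (Fin n) (Fin n) F).map σ).det = σ (g.1.1 : Matrix (Fin n) (Fin n) F).det from (RingHom.map_det (σ : F →+* F) _).symm, hσ] at h2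
      rw [pow_succ', h2]
    · have huσ : (u : F) * σ (u : F) = 1 := by rw [hσ, ← pow_succ', ← Units.val_pow_eq_pow_val, hu, Units.val_one]
      obtain ⟨a, ha0, ha⟩ : ∃ a : F, a ≠ 0 ∧ a = (u : F) * σ a := by
        by_cases h1 : (1 : F) + u = 0
        · obtain ⟨d, hd0, hd⟩ := Cfsg.Lib.Classical.exists_skew hne hinv
          exact ⟨d, hd0, by rw [hd]; linear_combination d * h1⟩
        · exact ⟨1 + u, h1, by rw [map_add, map_one]; linear_combination -huσ⟩
      obtain ⟨w, hw, hw0⟩ := W.exists_mem_ne_zero_of_ne_bot (fun h => by rw [h, finrank_bot] at hWk; omega)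
      obtain ⟨z₀, hz₀⟩ := (hf.nondegenerate w hw0).1
      obtain ⟨c, hc⟩ : ∃ c : F, c + σ c ≠ 0 := by
        by_contra h
        push Not at h
        refine hne (RingEquiv.ext fun a => ?_)
        have h1 := h 1
        rw [map_one] at h1
        show σ a = a
        linear_combination h a - a * h1
      obtain ⟨z₁, h1⟩ : ∃ z₁, Cfsg.hermForm n F q z₁ w = 1 :=
        ⟨(Cfsg.hermForm n F q z₀ w)⁻¹ • z₀, by rw [hf.smul_left, inv_mul_cancel₀ hz₀]⟩
      have h1' : Cfsg.hermForm n F q w z₁ = 1 := by rw [hf.herm, h1, map_one]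
      set γ := -(Cfsg.hermForm n F q z₁ z₁) * (c / (c + σ c))
      set z := z₁ + γ • w
      have hzw : Cfsg.hermForm n F q z w = 1 := by rw [hf.add_left, hf.smul_left, hW w hw w hw, h1]; ring
      have hwz : Cfsg.hermForm n F q w z = 1 := by rw [hf.herm, hzw, map_one]
      have hzz : Cfsg.hermForm n F q z z = 0 := by
        rw [hf.add_left, Cfsg.Lib.Classical.herm_add_right hf, Cfsg.Lib.Classical.herm_add_right hf, hf.smul_left, hf.smul_left,
          Cfsg.Lib.Classical.herm_smul_right hf, Cfsg.Lib.Classical.herm_smul_right hf, hW w hw w hw, h1, h1']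
        have hz' : σ (Cfsg.hermForm n F q z₁ z₁) = Cfsg.hermForm n F q z₁ z₁ := (hf.herm z₁ z₁).symm
        simp only [γ, map_mul, map_neg, map_div₀, map_add, hinv, hz', add_comm (σ c) c]
        field_simp
        ring
      set b := (σ a)⁻¹
      have hab : a * σ b = 1 := by rw [map_inv₀, hinv, mul_inv_cancel₀ ha0]
      let φ₁ : Fin n → F := (a - 1) • fun l => σ (z l)
      let φ₂ : Fin n → F := (b - 1) • fun l => σ (w l)
      have hd : ∀ (y x : Fin n → F), (fun l => σ (y l)) ⬝ᵥ x = Cfsg.hermForm n F q x y := fun y x =>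
        Finset.sum_congr rfl fun l _ => by show σ (y l) * x l = _; rw [hσ, mul_comm]
      let C : Matrix (Fin n) (Fin n) F := Cfsg.Lib.Classical.tv w φ₁ * Cfsg.Lib.Classical.tv z φ₂
      have hC : ∀ x, C *ᵥ x = x + ((a - 1) * Cfsg.hermForm n F q x z) • w + ((b - 1) * Cfsg.hermForm n F q x w) • z := fun x => by
        simp only [C, ← Matrix.mulVec_mulVec, Cfsg.Lib.Classical.tv_mulVec, φ₁, φ₂, smul_dotProduct, hd, hf.add_left, hf.smul_left, hzz, smul_eq_mul, mul_zero, add_zero]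
        abel
      have hdet : C.det = u := by
        rw [Matrix.det_mul, Cfsg.Lib.Classical.det_tv, Cfsg.Lib.Classical.det_tv]
        simp only [φ₁, φ₂, smul_dotProduct, hd, hwz, hzw, smul_eq_mul, mul_one, b]
        rw [add_sub_cancel, add_sub_cancel, ← div_eq_mul_inv, div_eq_iff (by simpa using ha0)]
        exact ha
      have hiso : ∀ x y, Cfsg.hermForm n F q (C *ᵥ x) (C *ᵥ y) = Cfsg.hermForm n F q x y := fun x y => by
        rw [hC, hC]
        simp only [hf.add_left, Cfsg.Lib.Classical.herm_add_right hf, hf.smul_left, Cfsg.Lib.Classical.herm_smul_right hf, hW w hw w hw, hzz, hwz, hzw,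
          hf.herm w y, hf.herm z y, map_mul, map_sub, map_one, hinv]
        have hab' : b * σ a = 1 := inv_mul_cancel₀ (by simpa using ha0)
        linear_combination (Cfsg.hermForm n F q x z * σ (Cfsg.hermForm n F q y w)) * hab + (Cfsg.hermForm n F q x w * σ (Cfsg.hermForm n F q y z)) * hab'
      refine ⟨⟨⟨Matrix.GeneralLinearGroup.mkOfDetNeZero C (by rw [hdet]; exact u.ne_zero), hiso⟩, fun v hv => ?_⟩, Units.ext hdet⟩
      show C *ᵥ v ∈ W
      rw [hC, hW v hv w hw, mul_zero, zero_smul, add_zero]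
      exact W.add_mem hv (W.smul_mem _ hw)
  have hker : Nat.card δ.ker = Nat.card ↥((Cfsg.stabilizing (Cfsg.slToMat n F) (W : Set (Fin n → F))).subgroupOf (Cfsg.SU n F q)) := by
    refine (Nat.card_congr
      { toFun := fun A => ⟨⟨⟨Matrix.SpecialLinearGroup.toGL A.1.1, A.1.2⟩, (hiff A.1).1 A.2⟩, Units.ext A.1.1.2⟩
        invFun := fun g => ⟨⟨⟨(g.1.1.1 : Matrix (Fin n) (Fin n) F), congrArg Units.val g.2⟩, g.1.1.2⟩, (hiff _).2 g.1.2⟩
        left_inv := fun A => rfl
        right_inv := fun g => Subtype.ext (Subtype.ext (Subtype.ext (Units.ext rfl))) }).symm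
  have h := δ.ker.card_mul_index
  rw [Subgroup.index_ker, hrange, hker] at h
  rw [mul_comm, h, show Nat.card S = Nat.card {g : Cfsg.GU n F q // ∀ w ∈ W, ((g : GL (Fin n) F) : Matrix _ _ F) *ᵥ w ∈ W} from rfl,
    card_stab_GU hF hσ n k l hl hf W hWk hW, show 2 * n - 3 * k = 2 * l + k by omega, show n - 2 * k = l by omega]
  ring

end Cfsg.Agent.S0782
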