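import Cfsg.Statements.S0783
import Mathlib
import Cfsg.Agent.Lib.Classical.UnitaryCentre

set_option autoImplicit false
open Cfsg
open scoped Matrix

namespace Cfsg.Agent.S0783

/-- PGU_n(q)/PSU_n(q) is cyclic of order (n, q+1): for n ≥ 2 and |F| = q² there is a surjective homomorphism from GU_n(q) onto the cyclic group of order gcd(n, q + 1) whose kernel is generated by the determinant-one elements together with the centre. -/
theorem result {F : Type*} [Field F] [Fintype F] {q : ℕ} (hF : Fintype.card F = q ^ 2) (n : ℕ) (hn : 2 ≤ n) : ∃ φ : ↥(Cfsg.GU n F q) →* Multiplicative (ZMod (Nat.gcd n (q + 1))), Function.Surjective φ ∧ φ.ker = (Matrix.GeneralLinearGroup.det : Matrix.GeneralLinearGroup (Fin n) F →* Fˣ).ker.subgroupOf (Cfsg.GU n F q) ⊔ Subgroup.center ↥(Cfsg.GU n F q) := by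
  classical

  obtain ⟨τ, hne, hτ, hinv⟩ := Cfsg.Lib.Classical.exists_frobSq hF
  set g := Nat.gcd n (q + 1) with hg
  let μ : Subgroup Fˣ := (powMonoidHom (q + 1) : Fˣ →* Fˣ).ker
  have hμ : Nat.card μ = q + 1 := Cfsg.Lib.Classical.UnitaryCentre.card_norm_one hF
  have hq0 : q ≠ 0 := by
    intro h0
    have := Fintype.one_lt_card (α := F)
    simp [hF, h0] at this
  let ε : μ ≃* Multiplicative (ZMod (q + 1)) := mulEquivOfCyclicCardEq (by rw [hμ]; simp)
  let δ := Matrix.GeneralLinearGroup.det.comp (Cfsg.GU n F q).subtype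
  have hscal : ∀ (r : Fˣ), r ∈ μ → ∃ z : Cfsg.GU n F q, z ∈ Subgroup.center (Cfsg.GU n F q) ∧ δ z = r ^ n := by
    intro r hr
    have hr' : (r : F) * (r : F) ^ q = 1 := by
      rw [← pow_succ', ← Units.val_pow_eq_pow_val, show r ^ (q + 1) = 1 from hr, Units.val_one]
    have hd : (Matrix.scalar (Fin n) (r : F)).det = (r : F) ^ n := by simp
    let z : Cfsg.GU n F q := ⟨Matrix.GeneralLinearGroup.mkOfDetNeZero (Matrix.scalar (Fin n) (r : F)) (by rw [hd]; exact pow_ne_zero _ r.ne_zero), fun x y => by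
      have := Cfsg.Lib.Classical.UnitaryCentre.monomial_isometry (q := q) 1 (fun _ : Fin n => (r : F)) (fun _ => hr') x y
      rwa [Matrix.permMatrix_one, mul_one] at this⟩
    refine ⟨z, Subgroup.mem_center_iff.2 fun a => Subtype.ext (Units.ext ?_), Units.ext ?_⟩
    · exact (Matrix.scalar_commute _ (fun x => Commute.all _ x) _).symm
    · rw [Units.val_pow_eq_pow_val, ← hd]
      rfl
  have hval : ∀ a, δ a ∈ μ := by
    intro a
    obtain ⟨A, hA⟩ := a
    show (δ ⟨A, hA⟩) ^ (q + 1) = 1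
    have hf := Cfsg.Lib.Classical.hermForm_isUnitaryForm hne hτ hinv n
    have e : (A : Matrix (Fin n) (Fin n) F).transpose * (A : Matrix (Fin n) (Fin n) F).map τ = 1 := by
      ext i j
      have h : Cfsg.hermForm n F q ((A : Matrix (Fin n) (Fin n) F) *ᵥ Pi.single i 1) ((A : Matrix (Fin n) (Fin n) F) *ᵥ Pi.single j 1) =
          Cfsg.hermForm n F q (Pi.single i 1) (Pi.single j 1) := hA _ _
      rw [Matrix.mulVec_single_one, Matrix.mulVec_single_one] at h
      have e1 : Cfsg.hermForm n F q (Pi.single i 1) (Pi.single j 1) = (1 : Matrix (Fin n) (Fin n) F) i j := by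
        rcases eq_or_ne i j with rfl | hij <;> simp [Cfsg.hermForm, Pi.single_apply, *]
        simp [hij.symm]
      rw [← e1, ← h, Matrix.mul_apply]
      exact Finset.sum_congr rfl fun k _ => by simp [hτ]
    have h2 := congrArg Matrix.det e
    rw [Matrix.det_mul, Matrix.det_transpose, Matrix.det_one,
      show ((A : Matrix (Fin n) (Fin n) F).map τ).det = τ (A : Matrix (Fin n) (Fin n) F).det from (RingHom.map_det (τ : F →+* F) _).symm, hτ, ← pow_succ'] at h2
    exact Units.ext (by rw [Units.val_pow_eq_pow_val, Units.val_one]; exact h2)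
  have hsur : ∀ u : μ, ∃ a, δ a = u.1 := by
    rintro ⟨u, hu⟩
    have hu' : (u : F) * (u : F) ^ q = 1 := by
      rw [← pow_succ', ← Units.val_pow_eq_pow_val, show u ^ (q + 1) = 1 from hu, Units.val_one]
    let d : Fin n → F := fun i => if i = ⟨0, by omega⟩ then (u : F) else 1
    have hd : ∀ i, d i * d i ^ q = 1 := fun i => by simp only [d]; split_ifs <;> simp [hu']
    have hdet : (Matrix.diagonal d).det = u := by simp [d, Matrix.det_diagonal]
    refine ⟨⟨Matrix.GeneralLinearGroup.mkOfDetNeZero (Matrix.diagonal d) (by rw [hdet]; exact u.ne_zero), fun x y => ?_⟩, Units.ext hdet⟩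
    have := Cfsg.Lib.Classical.UnitaryCentre.monomial_isometry 1 d hd x y
    rwa [Matrix.permMatrix_one, mul_one] at this
  let cast : Multiplicative (ZMod (q + 1)) →* Multiplicative (ZMod g) :=
    (ZMod.castHom (Nat.gcd_dvd_right n (q + 1)) (ZMod g)).toAddMonoidHom.toMultiplicative
  let ψ : μ →* Multiplicative (ZMod g) := cast.comp ε.toMonoidHom
  have hψsur : Function.Surjective ψ :=
    (Multiplicative.toAdd.symm.surjective.comp ((ZMod.castHom_surjective (Nat.gcd_dvd_right n (q + 1))).comp Multiplicative.toAdd.surjective)).comp ε.surjective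
  have hker : ∀ x : μ, ψ x = 1 → ∃ r : μ, r ^ n = x := by
    intro x hx
    have hx' : ZMod.castHom (Nat.gcd_dvd_right n (q + 1)) (ZMod g) (Multiplicative.toAdd (ε x)) = 0 := congrArg Multiplicative.toAdd hx
    obtain ⟨a, ha⟩ := ZMod.intCast_surjective (Multiplicative.toAdd (ε x))
    rw [← ha, map_intCast, ZMod.intCast_zmod_eq_zero_iff_dvd] at hx'
    obtain ⟨k, hk⟩ := hx'
    refine ⟨ε.symm (Multiplicative.ofAdd (((Nat.gcdA n (q + 1) * k : ℤ)) : ZMod (q + 1))), ε.injective ?_⟩
    rw [map_pow, MulEquiv.apply_symm_apply, ← ofAdd_nsmul, ← ofAdd_toAdd (ε x), ← ha]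
    congr 1
    have hb := congrArg (fun z : ℤ => (z : ZMod (q + 1))) (Nat.gcd_eq_gcd_ab n (q + 1))
    have hz : ((q : ZMod (q + 1)) + 1) = 0 := by exact_mod_cast ZMod.natCast_self (q + 1)
    push_cast at hb
    rw [hk, nsmul_eq_mul]
    push_cast
    rw [hg, hb, hz, zero_mul, add_zero]
    ring
  have hpow : ∀ r : μ, ψ (r ^ n) = 1 := fun r => by
    rw [map_pow]
    obtain ⟨c, hc⟩ := Nat.gcd_dvd_left n (q + 1)
    conv_lhs => rw [hc, pow_mul]
    rw [show ψ r ^ g = 1 from ?_, one_pow]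
    apply Multiplicative.toAdd.injective
    rw [toAdd_pow, toAdd_one, nsmul_eq_mul, ZMod.natCast_self, zero_mul]
  let φ : Cfsg.GU n F q →* Multiplicative (ZMod g) := ψ.comp (δ.codRestrict μ hval)
  refine ⟨φ, hψsur.comp (fun u => (hsur u).imp fun a ha => Subtype.ext ha), le_antisymm (fun a ha => ?_) (sup_le (fun a ha => ?_) fun a ha => ?_)⟩
  · obtain ⟨r, hr⟩ := hker _ ha
    obtain ⟨z, hz, hzd⟩ := hscal r.1 r.2
    have hd : δ (a * z⁻¹) = 1 := by
      rw [map_mul, map_inv, hzd, show δ a = (r : Fˣ) ^ n from (congrArg Subtype.val hr).symm, mul_inv_cancel]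
    rw [← inv_mul_cancel_right a z]
    exact Subgroup.mul_mem_sup hd hz
  · show ψ ⟨δ a, hval a⟩ = 1
    rw [show (⟨δ a, hval a⟩ : μ) = 1 from Subtype.ext ha, map_one]
  · obtain ⟨r, hr⟩ := Cfsg.Lib.Classical.UnitaryCentre.scalar_of_commute hF hn (M := (a.1 : Matrix (Fin n) (Fin n) F)) fun A => by
      exact congrArg (fun t : Cfsg.GU n F q => (t.1 : Matrix (Fin n) (Fin n) F))
        (Subgroup.mem_center_iff.1 ha ⟨Matrix.SpecialLinearGroup.toGL A.1, A.2⟩)
    have hr0 : r ≠ 0 := fun h0 => (a.1.det_ne_zero) (by haveI : Nonempty (Fin n) := ⟨⟨0, by omega⟩⟩; rw [hr, h0, map_zero, Matrix.det_zero])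
    let i0 : Fin n := ⟨0, by omega⟩
    have hru : Units.mk0 r hr0 ∈ μ := by
      have h : Cfsg.hermForm n F q ((a.1 : Matrix (Fin n) (Fin n) F) *ᵥ Pi.single i0 1) ((a.1 : Matrix (Fin n) (Fin n) F) *ᵥ Pi.single i0 1) =
          Cfsg.hermForm n F q (Pi.single i0 1) (Pi.single i0 1) := a.2 _ _
      rw [hr] at h
      simp [Cfsg.hermForm, Pi.single_apply, Matrix.scalar_apply, Matrix.mulVec_diagonal, hq0, mul_pow] at h
      refine Units.ext ?_
      simp only [powMonoidHom_apply, Units.val_pow_eq_pow_val, Units.val_mk0, Units.val_one, pow_succ']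
      exact h
    show ψ ⟨δ a, hval a⟩ = 1
    rw [show (⟨δ a, hval a⟩ : μ) = ⟨Units.mk0 r hr0, hru⟩ ^ n from Subtype.ext (Units.ext ?_), hpow]
    show (a.1 : Matrix (Fin n) (Fin n) F).det = ((Units.mk0 r hr0 ^ n : Fˣ) : F)
    rw [hr]; simp

end Cfsg.Agent.S0783
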