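import Cfsg.Statements.S0784
import Mathlib
import Cfsg.Agent.Lib.Classical.Transvection

set_option autoImplicit false
open Cfsg

namespace Cfsg.Agent.S0784

/-- Reflections: if Q(v) ≠ 0 then the matrix R = 1 − Q(v)⁻¹ · v f(v, ·)ᵀ preserves Q, maps v to −v, fixes each x with f(v, x) = 0, and has determinant −1 (in characteristic two, −1 = 1 and R is the orthogonal transvection of v). -/
theorem result {F : Type*} [Field F] {n : ℕ} (Q : QuadraticForm F (Fin n → F)) (v : Fin n → F) (hv : Q v ≠ 0) : (∀ x, Q ((Cfsg.reflectionMatrix ⇑Q v).mulVec x) = Q x) ∧ (Cfsg.reflectionMatrix ⇑Q v).mulVec v = -v ∧ (∀ x, QuadraticMap.polar ⇑Q v x = 0 → (Cfsg.reflectionMatrix ⇑Q v).mulVec x = x) ∧ (Cfsg.reflectionMatrix ⇑Q v).det = -1 := by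
  classical
  set φ : Fin n → F := Cfsg.polarVec ⇑Q v with hφ
  have hdot : ∀ x, φ ⬝ᵥ x = QuadraticMap.polar ⇑Q v x := by
    intro x
    conv_rhs => rw [pi_eq_sum_univ' x]
    change _ = QuadraticMap.polarBilin Q v _
    rw [map_sum]
    simp [φ, Cfsg.polarVec, dotProduct, mul_comm]
  have hmv : ∀ x, (Cfsg.reflectionMatrix ⇑Q v).mulVec x = x + (-((Q v)⁻¹ * QuadraticMap.polar ⇑Q v x)) • v := by
    intro x
    rw [Cfsg.reflectionMatrix, Matrix.sub_mulVec, Matrix.one_mulVec, Matrix.smul_mulVec,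
      Matrix.vecMulVec_mulVec, op_smul_eq_smul, ← hφ, hdot, smul_smul, neg_smul, sub_eq_add_neg]
  have hself : QuadraticMap.polar ⇑Q v v = 2 * Q v := by
    rw [QuadraticMap.polar_self, nsmul_eq_mul]; norm_num
  refine ⟨fun x => ?_, ?_, fun x hx => ?_, ?_⟩
  · rw [hmv, QuadraticMap.map_add (f := Q), QuadraticMap.map_smul, QuadraticMap.polar_smul_right,
      QuadraticMap.polar_comm _ x v]
    simp only [smul_eq_mul]
    field_simp
    ring
  · rw [hmv, hself]
    rw [show -((Q v)⁻¹ * (2 * Q v)) = (-2 : F) by field_simp]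
    module
  · rw [hmv, hx, mul_zero, neg_zero, zero_smul, add_zero]
  · have h1 : Cfsg.reflectionMatrix ⇑Q v = Cfsg.Lib.Classical.tv v (-(Q v)⁻¹ • φ) := by
      refine Cfsg.Lib.Classical.ext_mulVec fun x => ?_
      rw [hmv, Cfsg.Lib.Classical.tv_mulVec, smul_dotProduct, hdot, smul_eq_mul, neg_mul]
    rw [h1, Cfsg.Lib.Classical.det_tv, smul_dotProduct, hdot, hself, smul_eq_mul]
    field_simp
    ring

end Cfsg.Agent.S0784
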