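import Cfsg.Statements.S0785
import Mathlib
import Cfsg.Agent.S0784

set_option autoImplicit false
open Cfsg
open scoped Matrix

namespace Cfsg.Agent.S0785

/-- det(I) = {±1}: for a quadratic form on F^n whose polar form is non-degenerate, every element of the isometry group has determinant 1 or −1, and as soon as Q takes a non-zero value some isometry has determinant −1. -/
theorem result {F : Type*} [Field F] {n : ℕ} (Q : QuadraticForm F (Fin n → F)) (hQ : (QuadraticMap.polarBilin Q).Nondegenerate) : (∀ g : ↥(Cfsg.isometryGroup F ⇑Q), ((g : Matrix.GeneralLinearGroup (Fin n) F) : Matrix (Fin n) (Fin n) F).det = 1 ∨ ((g : Matrix.GeneralLinearGroup (Fin n) F) : Matrix (Fin n) (Fin n) F).det = -1) ∧ ((∃ v, Q v ≠ 0) → ∃ g : ↥(Cfsg.isometryGroup F ⇑Q), ((g : Matrix.GeneralLinearGroup (Fin n) F) : Matrix (Fin n) (Fin n) F).det = -1) := by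
  classical
  refine ⟨fun g => ?_, ?_⟩
  · set G := ((g : Matrix.GeneralLinearGroup (Fin n) F) : Matrix (Fin n) (Fin n) F)
    have hQG : ∀ x, Q (G *ᵥ x) = Q x := fun x => g.2 x x
    have h1 : (QuadraticMap.polarBilin Q).compl₁₂ G.mulVecLin G.mulVecLin = QuadraticMap.polarBilin Q := by
      refine LinearMap.ext₂ fun x y => ?_
      change QuadraticMap.polar ⇑Q (G *ᵥ x) (G *ᵥ y) = QuadraticMap.polar ⇑Q x y
      simp only [QuadraticMap.polar, ← Matrix.mulVec_add, hQG]
    have h2 := congrArg (LinearMap.toMatrix₂' F) h1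
    rw [LinearMap.toMatrix₂'_compl₁₂] at h2
    have h3 := congrArg Matrix.det h2
    simp only [Matrix.det_mul, Matrix.det_transpose] at h3
    rw [show LinearMap.toMatrix' G.mulVecLin = G from LinearMap.toMatrix'_toLin' G] at h3
    have hne : (LinearMap.toMatrix₂' F (QuadraticMap.polarBilin Q)).det ≠ 0 := by
      refine Matrix.nondegenerate_iff_det_ne_zero.1 ?_
      exact LinearMap.BilinForm.nondegenerate_toMatrix'_iff.2 hQ
    have h4 : G.det * G.det = 1 := mul_right_cancel₀ hne (by linear_combination h3)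
    exact mul_self_eq_one_iff.1 h4
  · rintro ⟨v, hv⟩
    obtain ⟨h1, -, -, hd⟩ := Cfsg.Agent.S0784.result Q v hv
    let g : Matrix.GeneralLinearGroup (Fin n) F :=
      Matrix.GeneralLinearGroup.mkOfDetNeZero (Cfsg.reflectionMatrix ⇑Q v) (by rw [hd]; simp)
    exact ⟨⟨g, fun x _ => h1 x⟩, hd⟩

end Cfsg.Agent.S0785
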