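import Cfsg.Statements.S0793
import Mathlib
import Cfsg.Agent.Lib.Classical.Transvection

set_option autoImplicit false
open Cfsg

namespace Cfsg.Agent.S0793

/-- Root elements: if Q(u) = Q(v) = 0 and f(u, v) = 0 (f the polar form), then for every c the Siegel matrix T_(u,v)(c) preserves Q, fixes u and v, and T(c) T(d) = T(c + d). -/
theorem result {F : Type*} [Field F] {n : ℕ} (Q : QuadraticForm F (Fin n → F)) (u v : Fin n → F) (hu : Q u = 0) (hv : Q v = 0) (huv : QuadraticMap.polar ⇑Q u v = 0) : (∀ c x, Q ((Cfsg.siegelMatrix ⇑Q u v c).mulVec x) = Q x) ∧ (∀ c, (Cfsg.siegelMatrix ⇑Q u v c).mulVec u = u ∧ (Cfsg.siegelMatrix ⇑Q u v c).mulVec v = v) ∧ ∀ c d, Cfsg.siegelMatrix ⇑Q u v c * Cfsg.siegelMatrix ⇑Q u v d = Cfsg.siegelMatrix ⇑Q u v (c + d) := by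
  classical
  have hdot : ∀ w x, Cfsg.polarVec ⇑Q w ⬝ᵥ x = QuadraticMap.polar ⇑Q w x := by
    intro w x
    conv_rhs => rw [pi_eq_sum_univ' x]
    change _ = QuadraticMap.polarBilin Q w _
    rw [map_sum]
    simp [Cfsg.polarVec, dotProduct, mul_comm]
  have hmv : ∀ c x, (Cfsg.siegelMatrix ⇑Q u v c).mulVec x =
      x + ((c * QuadraticMap.polar ⇑Q u x) • v + (-(c * QuadraticMap.polar ⇑Q v x)) • u) := by
    intro c x
    rw [Cfsg.siegelMatrix, Matrix.add_mulVec, Matrix.one_mulVec, Matrix.smul_mulVec, Matrix.sub_mulVec,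
      Matrix.vecMulVec_mulVec, Matrix.vecMulVec_mulVec, op_smul_eq_smul, op_smul_eq_smul, hdot, hdot]
    module
  have hvu : QuadraticMap.polar ⇑Q v u = 0 := by rw [QuadraticMap.polar_comm]; exact huv
  have huu : QuadraticMap.polar ⇑Q u u = 0 := by rw [QuadraticMap.polar_self, hu, smul_zero]
  have hvv : QuadraticMap.polar ⇑Q v v = 0 := by rw [QuadraticMap.polar_self, hv, smul_zero]
  refine ⟨fun c x => ?_, fun c => ⟨?_, ?_⟩, fun c d => ?_⟩
  · rw [hmv, QuadraticMap.map_add (f := Q), QuadraticMap.map_add (f := Q)]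
    simp only [QuadraticMap.map_smul, QuadraticMap.polar_smul_left, QuadraticMap.polar_smul_right,
      QuadraticMap.polar_add_right, hu, hv, hvu, QuadraticMap.polar_comm _ x v, QuadraticMap.polar_comm _ x u,
      smul_eq_mul]
    ring
  · rw [hmv, huu, hvu]; simp
  · rw [hmv, huv, hvv]; simp
  · refine Cfsg.Lib.Classical.ext_mulVec fun x => ?_
    rw [← Matrix.mulVec_mulVec, hmv, hmv, hmv]
    simp only [QuadraticMap.polar_add_right, QuadraticMap.polar_smul_right, huu, huv, hvu, hvv, smul_eq_mul]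
    module

end Cfsg.Agent.S0793
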