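import Cfsg.Statements.S0794
import Mathlib
import Cfsg.Agent.Lib.Classical.SiegelSingular

set_option autoImplicit false
open Cfsg
open scoped Matrix

namespace Cfsg.Agent.S0794

/-- For q odd, n ≥ 5 and Q with non-degenerate polar form: an isometry whose matrix is a Siegel transformation T_(u,v)(c) (u, v singular and orthogonal) is a commutator in the isometry group, so lies in Ω. -/
theorem result {F : Type*} [Field F] [Fintype F] (h2 : (2 : F) ≠ 0) {n : ℕ} (hn : 5 ≤ n) (Q : QuadraticForm F (Fin n → F)) (hQ : (QuadraticMap.polarBilin Q).Nondegenerate) (u v : Fin n → F) (hu : Q u = 0) (hv : Q v = 0) (huv : QuadraticMap.polar ⇑Q u v = 0) (c : F) (g : ↥(Cfsg.isometryGroup F ⇑Q)) (hg : ((g : Matrix.GeneralLinearGroup (Fin n) F) : Matrix (Fin n) (Fin n) F) = Cfsg.siegelMatrix ⇑Q u v c) : g ∈ commutatorSet ↥(Cfsg.isometryGroup F ⇑Q) ∧ g ∈ Cfsg.Omega F ⇑Q := by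
  have : Finite F := Finite.of_fintype F
  have h := fun v => (rfl : Q v = (⇑Q) v)
  have hp : QuadraticMap.polarBilin Q u v = 0 := huv
  have hv' : Q (c • v) = 0 := by rw [Cfsg.Lib.Classical.Witt.quad_smul, hv, mul_zero]
  have hp' : QuadraticMap.polarBilin Q u (c • v) = 0 := by rw [map_smul, hp, smul_zero]
  have e := (Cfsg.Lib.Classical.SiegelSingular.eI_eq_siegel_iff h hu hv hp c g).2 hg
  obtain ⟨a, b, hab⟩ := Cfsg.Lib.Classical.SiegelSingular.siegel_mem_commutatorSet Q hQ h2 hu hv' hp'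
  refine ⟨⟨(Cfsg.Lib.Classical.OrthMatrix.eI h).symm a, (Cfsg.Lib.Classical.OrthMatrix.eI h).symm b, ?_⟩, ?_⟩
  · apply (Cfsg.Lib.Classical.OrthMatrix.eI h).injective
    rw [map_commutatorElement, MulEquiv.apply_symm_apply, MulEquiv.apply_symm_apply, e, hab]
  · rw [Cfsg.Lib.Classical.OrthMatrix.omega_eq h, Subgroup.mem_comap]
    show Cfsg.Lib.Classical.OrthMatrix.eI h g ∈ _
    rw [e]
    exact Cfsg.Lib.Classical.SiegelElements.siegel_mem_commutator Q hQ (by rw [Module.finrank_fintype_fun_eq_card, Fintype.card_fin]; exact hn) hu hp'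

end Cfsg.Agent.S0794
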