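import Cfsg.Statements.S0795
import Mathlib
import Cfsg.Agent.Lib.Classical.SiegelSingular

set_option autoImplicit false
open Cfsg
open scoped Matrix

namespace Cfsg.Agent.S0795

/-- Generation of Ω by root elements: for q odd, n ≥ 5 and Q with non-degenerate polar form on F^n, the commutator subgroup of the isometry group equals the subgroup generated by the isometries whose matrices are Siegel transformations T_(u,v)(c) with u, v singular and orthogonal. -/
theorem result {F : Type*} [Field F] [Fintype F] (h2 : (2 : F) ≠ 0) {n : ℕ} (hn : 5 ≤ n) (Q : QuadraticForm F (Fin n → F)) (hQ : (QuadraticMap.polarBilin Q).Nondegenerate) : Cfsg.Omega F ⇑Q = Subgroup.closure {g : ↥(Cfsg.isometryGroup F ⇑Q) | ∃ (u v : Fin n → F) (c : F), Q u = 0 ∧ Q v = 0 ∧ QuadraticMap.polar ⇑Q u v = 0 ∧ ((g : Matrix.GeneralLinearGroup (Fin n) F) : Matrix (Fin n) (Fin n) F) = Cfsg.siegelMatrix ⇑Q u v c} := by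
  have : Finite F := Finite.of_fintype F
  have h := fun v => (rfl : Q v = (⇑Q) v)
  rw [Cfsg.Lib.Classical.OrthMatrix.omega_eq h,
    Cfsg.Lib.Classical.SiegelSingular.commutator_eq_closure Q hQ (by rw [Module.finrank_fintype_fun_eq_card, Fintype.card_fin]; exact hn)]
  set e := Cfsg.Lib.Classical.OrthMatrix.eI h with he
  apply le_antisymm
  · intro g hg
    rw [Subgroup.mem_comap] at hg
    suffices hs : ∀ x ∈ Subgroup.closure (Cfsg.Lib.Classical.SiegelSingular.singSiegel Q), e.symm x ∈ Subgroup.closure _ by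
      simpa using hs _ hg
    intro x hx
    induction hx using Subgroup.closure_induction with
    | mem x hx =>
      obtain ⟨p, w, hp, hw, hpw, rfl⟩ := hx
      refine Subgroup.subset_closure ⟨p, hp, w, hw, hpw, 1, ?_⟩
      rw [← Cfsg.Lib.Classical.SiegelSingular.eI_eq_siegel_iff h hp hw hpw, one_smul, ← he, MulEquiv.apply_symm_apply]
    | one => rw [map_one]; exact one_mem _
    | mul a b _ _ ha hb => rw [map_mul]; exact mul_mem ha hb
    | inv a _ ha => rw [map_inv]; exact inv_mem ha
  · rw [Subgroup.closure_le]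
    rintro g ⟨u, v, c, hu, hv, huv, hg⟩
    rw [SetLike.mem_coe, Subgroup.mem_comap]
    refine Subgroup.subset_closure ⟨u, c • v, hu, ?_, ?_, (Cfsg.Lib.Classical.SiegelSingular.eI_eq_siegel_iff h hu hv huv c g).2 hg⟩
    · rw [Cfsg.Lib.Classical.Witt.quad_smul, hv, mul_zero]
    · show QuadraticMap.polarBilin Q u (c • v) = 0
      rw [map_smul, show QuadraticMap.polarBilin Q u v = 0 from huv, smul_zero]

end Cfsg.Agent.S0795
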