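import Cfsg.Statements.S0796
import Mathlib

set_option autoImplicit false
open Cfsg

namespace Cfsg.Agent.S0796

/-- If G is finite and acts faithfully and primitively on X, H is the stabiliser of a point, A is a normal subgroup of H whose normal closure in G is G, then for every non-trivial normal subgroup K of G the quotient G ⧸ K is isomorphic to A ⧸ B for some normal subgroup B of A. -/
theorem result {G X : Type*} [Group G] [Finite G] [MulAction G X] [FaithfulSMul G X] (hprim : MulAction.IsPreprimitive G X) (x : X) (A : Subgroup G) (hA : A ≤ MulAction.stabilizer G x) (hAn : (A.subgroupOf (MulAction.stabilizer G x)).Normal) (hgen : Subgroup.normalClosure (A : Set G) = ⊤) (K : Subgroup G) [K.Normal] (hK : K ≠ ⊥) : ∃ (B : Subgroup A) (_ : B.Normal), Nonempty (G ⧸ K ≃* A ⧸ B) := by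
  let f : A →* G ⧸ K := (QuotientGroup.mk' K).comp A.subtype
  have hsub : Nontrivial (MulAction.stabilizer G x) ∨ True := Or.inr trivial
  have hnfix : MulAction.fixedPoints K X ≠ Set.univ := by
    intro h
    refine hK (eq_bot_iff.2 fun k hk => Subgroup.mem_bot.2 (eq_of_smul_eq_smul (α := X) fun y => ?_))
    have : y ∈ MulAction.fixedPoints K X := h ▸ Set.mem_univ y
    rw [one_smul]
    exact this ⟨k, hk⟩
  have htr : MulAction.IsPretransitive K X := MulAction.IsQuasiPreprimitive.isPretransitive_of_normal hnfix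
  have hAK : A ⊔ K = ⊤ := by
    rw [eq_top_iff, ← hgen, Subgroup.normalClosure, Subgroup.closure_le]
    intro z hz
    obtain ⟨a, ha, haz⟩ := Group.mem_conjugatesOfSet_iff.1 hz
    obtain ⟨g, rfl⟩ := isConj_iff.1 haz
    obtain ⟨k, hk⟩ := MulAction.exists_smul_eq K x (g • x)
    have hh : (k : G)⁻¹ * g ∈ MulAction.stabilizer G x := by
      rw [MulAction.mem_stabilizer_iff, mul_smul, ← hk, Subgroup.smul_def, inv_smul_smul]
    have ha' : ((k : G)⁻¹ * g) * a * ((k : G)⁻¹ * g)⁻¹ ∈ A :=
      hAn.conj_mem ⟨a, hA ha⟩ ha ⟨_, hh⟩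
    have hz' : g * a * g⁻¹ = (k : G) * (((k : G)⁻¹ * g) * a * ((k : G)⁻¹ * g)⁻¹) * (k : G)⁻¹ := by group
    rw [hz']
    exact Subgroup.mul_mem _ (Subgroup.mul_mem _ (Subgroup.mem_sup_right k.2) (Subgroup.mem_sup_left ha'))
      (Subgroup.inv_mem _ (Subgroup.mem_sup_right k.2))
  have hf : Function.Surjective f := by
    intro q
    obtain ⟨z, rfl⟩ := QuotientGroup.mk'_surjective K q
    obtain ⟨a, ha, k, hk, rfl⟩ := Subgroup.mem_sup_of_normal_right.1 (hAK ▸ Subgroup.mem_top z)
    exact ⟨⟨a, ha⟩, by simp [f, (QuotientGroup.eq_one_iff k).2 hk]⟩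
  exact ⟨f.ker, inferInstance, ⟨(QuotientGroup.quotientKerEquivOfSurjective f hf).symm⟩⟩

end Cfsg.Agent.S0796
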