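import Cfsg.Statements.S0798
import Mathlib
import Cfsg.Agent.Lib.Classical.ClassClosure

set_option autoImplicit false
open Cfsg
open scoped Matrix

namespace Cfsg.Agent.S0798

/-- For q odd, n ≥ 2 even, Q with non-degenerate polar form (n, |F|) ≠ (4, 3), and a fixed c ≠ 0: the subgroup of the isometry group generated by the reflections r_v with Q(v) ∈ c·(F^×)² has index 2. -/
theorem result {F : Type*} [Field F] [Fintype F] (h2 : (2 : F) ≠ 0) {n : ℕ} (hn : 2 ≤ n) (heven : Even n) (Q : QuadraticForm F (Fin n → F)) (hQ : (QuadraticMap.polarBilin Q).Nondegenerate) (h43 : ¬ (n = 4 ∧ Fintype.card F = 3)) (c : F) (hc : c ≠ 0) : (Subgroup.closure {g : ↥(Cfsg.isometryGroup F ⇑Q) | ∃ (v : Fin n → F) (t : F), t ≠ 0 ∧ Q v = c * t ^ 2 ∧ ((g : Matrix.GeneralLinearGroup (Fin n) F) : Matrix (Fin n) (Fin n) F) = Cfsg.reflectionMatrix ⇑Q v}).index = 2 := by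
  classical
  have hf : ∀ v, Q v = ⇑Q v := fun v => rfl
  have hd : Module.finrank F (Fin n → F) = n := Module.finrank_fin_fun F
  have hq : Fintype.card F = 3 ∨ 5 ≤ Nat.card F := by
    have hodd := FiniteField.odd_card_of_char_ne_two (F := F) fun h => h2 (by haveI := ringChar.of_eq h; exact CharTwo.two_eq_zero)
    have h1 : 1 < Fintype.card F := Fintype.one_lt_card
    rw [Nat.card_eq_fintype_card]
    omega
  have hcase : Module.finrank F (Fin n → F) = 2 ∨ (4 ≤ Module.finrank F (Fin n → F) ∧ (5 ≤ Nat.card F ∨ 6 ≤ Module.finrank F (Fin n → F))) := by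
    rw [hd]
    obtain ⟨j, rfl⟩ := heven
    rcases hq with h | h
    · have hne : j + j ≠ 4 := fun e => h43 ⟨e, h⟩
      omega
    · omega
  refine Eq.trans ?_ (Cfsg.Lib.Classical.ClassClosure.index_two c hQ h2 hc hcase)
  rw [← Subgroup.index_comap_of_surjective (Cfsg.Lib.Classical.ClassClosure.classGroup c Q)
      (f := (Cfsg.Lib.Classical.OrthMatrix.eI hf).toMonoidHom) (Cfsg.Lib.Classical.OrthMatrix.eI hf).surjective]
  congr 1
  apply Subgroup.map_injective (f := (Cfsg.Lib.Classical.OrthMatrix.eI hf).toMonoidHom) (Cfsg.Lib.Classical.OrthMatrix.eI hf).injective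
  rw [Subgroup.map_comap_eq_self_of_surjective (Cfsg.Lib.Classical.OrthMatrix.eI hf).surjective, MonoidHom.map_closure]
  refine congrArg Subgroup.closure (Set.ext fun g => ⟨?_, ?_⟩)
  · rintro ⟨h, ⟨v, t, ht, e, hm⟩, rfl⟩
    exact ⟨v, ⟨t, ht, e⟩, (Cfsg.Lib.Classical.OrthMatrix.eI_eq_refl_iff hf h v).2 hm⟩
  · rintro ⟨v, ⟨t, ht, e⟩, rfl⟩
    refine ⟨(Cfsg.Lib.Classical.OrthMatrix.eI hf).symm (Cfsg.Lib.Classical.Reflections.refl Q v), ⟨v, t, ht, e, ?_⟩, MulEquiv.apply_symm_apply _ _⟩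
    exact (Cfsg.Lib.Classical.OrthMatrix.eI_eq_refl_iff hf _ v).1 (MulEquiv.apply_symm_apply _ _)

end Cfsg.Agent.S0798
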