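import Cfsg.Statements.S0800
import Mathlib

set_option autoImplicit false
open Cfsg
open scoped Matrix

namespace Cfsg.Agent.S0800

/-- Tori of SL_2(q): if g ∈ SL_2(q) has order coprime to the characteristic p, then the order of g divides q − 1 or q + 1. -/
theorem result {F : Type*} [Field F] [Fintype F] {q : ℕ} (hF : Fintype.card F = q) (p : ℕ) [Fact p.Prime] [CharP F p] (g : Matrix.SpecialLinearGroup (Fin 2) F) (hg : Nat.Coprime (orderOf g) p) : orderOf g ∣ q - 1 ∨ orderOf g ∣ q + 1 := by
  classical
  subst hF
  open Polynomial in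
  have hmain : (orderOf g ∣ Fintype.card F - 1 ∨ orderOf g ∣ Fintype.card F + 1) ∨ orderOf g ∣ 2 * p := by
    set A := (g : Matrix (Fin 2) (Fin 2) F) with hA
    set P := A.charpoly with hPdef
    let K := AlgebraicClosure F
    let φ := algebraMap F K
    have hP : P = X ^ 2 - C A.trace * X + 1 := by
      rw [hPdef, Matrix.charpoly_fin_two, show A.det = 1 from g.2, map_one]
    obtain ⟨l, hl⟩ := IsAlgClosed.exists_root (P.map φ) (by
      rw [degree_map, hPdef, Matrix.charpoly_degree_eq_dim]; simp)
    have hl' : l ^ 2 - φ A.trace * l + 1 = 0 := by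
      have : (P.map φ).eval l = 0 := hl
      rw [hP] at this
      simpa using this
    have hl0 : l ≠ 0 := fun h => by simp [h] at hl'
    have hfac : P.map φ = (X - C l) * (X - C l⁻¹) := by
      have ht : φ A.trace = l + l⁻¹ := mul_left_cancel₀ hl0 (by rw [mul_add, mul_inv_cancel₀ hl0]; linear_combination -hl')
      rw [hP]
      simp only [Polynomial.map_add, Polynomial.map_sub, Polynomial.map_mul, Polynomial.map_pow, map_X, map_C, Polynomial.map_one, ht, map_add]
      rw [show (1 : K[X]) = C l * C l⁻¹ by rw [← map_mul, mul_inv_cancel₀ hl0, map_one]]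
      ring
    have hgone : ∀ N : ℕ, P ∣ X ^ N - 1 → orderOf g ∣ N := by
      intro N hN
      apply orderOf_dvd_of_pow_eq_one
      obtain ⟨R, hR⟩ := hN
      have := congrArg (aeval A) hR
      rw [map_mul, hPdef, Matrix.aeval_self_charpoly, zero_mul, map_sub, map_pow, aeval_X, map_one, sub_eq_zero] at this
      exact Subtype.ext (by rw [Matrix.SpecialLinearGroup.coe_pow]; exact this)
    by_cases hne : l = l⁻¹
    · right
      apply orderOf_dvd_of_pow_eq_one
      have hl2 : l * l = 1 := by nth_rw 2 [hne]; exact mul_inv_cancel₀ hl0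
      have hdvd : P ∣ (X ^ 2 - 1) ^ 2 := by
        refine (Polynomial.map_dvd_map φ φ.injective (hPdef ▸ A.charpoly_monic)).1 ?_
        rw [hfac, ← hne]
        simp only [Polynomial.map_pow, Polynomial.map_sub, map_X, Polynomial.map_one]
        refine ⟨(X + C l) ^ 2, ?_⟩
        rw [show (1 : K[X]) = C l * C l by rw [← map_mul, hl2, map_one]]
        ring
      obtain ⟨R, hR⟩ := hdvd
      have h := congrArg (aeval A) hR
      rw [map_mul, hPdef, Matrix.aeval_self_charpoly, zero_mul, map_pow, map_sub, map_pow, aeval_X, map_one] at h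
      have hp : 2 ≤ p := (Fact.out : p.Prime).two_le
      have h2 : (A ^ 2 - 1) ^ p = 0 := by
        rw [show p = 2 + (p - 2) by omega, pow_add, h, zero_mul]
      rw [sub_pow_char_of_commute p (Commute.one_right (A ^ 2)), one_pow, sub_eq_zero, ← pow_mul] at h2
      exact Subtype.ext (by rw [Matrix.SpecialLinearGroup.coe_pow]; exact h2)
    · left
      have hfrob : (l ^ Fintype.card F) ^ 2 - φ A.trace * l ^ Fintype.card F + 1 = 0 := by
        obtain ⟨k, hp, hk⟩ := FiniteField.card F p
        haveI : CharP K p := charP_of_injective_algebraMap φ.injective p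
        have := congrArg (iterateFrobenius K p k) hl'
        simp only [map_add, map_sub, map_mul, map_one, map_zero, iterateFrobenius_def, ← hk] at this
        rw [← map_pow, FiniteField.pow_card, ← pow_mul, mul_comm 2, pow_mul] at this
        exact this
      have hcases : l ^ Fintype.card F = l ∨ l ^ Fintype.card F = l⁻¹ := by
        have : ((l ^ Fintype.card F) - l) * ((l ^ Fintype.card F) - l⁻¹) = 0 := by
          have ht : φ A.trace = l + l⁻¹ := mul_left_cancel₀ hl0 (by rw [mul_add, mul_inv_cancel₀ hl0]; linear_combination -hl')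
          rw [ht] at hfrob
          have := mul_inv_cancel₀ hl0
          linear_combination hfrob + this
        exact (mul_eq_zero.1 this).imp sub_eq_zero.1 sub_eq_zero.1
      have key : ∀ N : ℕ, l ^ N = 1 → orderOf g ∣ N := fun N hN => by
        refine hgone N ((Polynomial.map_dvd_map φ φ.injective (hPdef ▸ A.charpoly_monic)).1 ?_)
        rw [hfac]
        refine (isCoprime_X_sub_C_of_isUnit_sub (sub_ne_zero.2 hne).isUnit).mul_dvd ?_ ?_
        · exact dvd_iff_isRoot.2 (by simp [hN])
        · exact dvd_iff_isRoot.2 (by simp [hN])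
      have hpos : 0 < Fintype.card F := Fintype.card_pos
      rcases hcases with h | h
      · refine Or.inl (key _ (mul_left_cancel₀ hl0 ?_))
        rw [← pow_succ', show Fintype.card F - 1 + 1 = Fintype.card F by omega, h, mul_one]
      · refine Or.inr (key _ ?_)
        rw [pow_succ, h, inv_mul_cancel₀ hl0]
  rcases hmain with h | h
  · exact h
  · have h2 : orderOf g ∣ 2 := hg.dvd_of_dvd_mul_right h
    rcases (Nat.dvd_prime Nat.prime_two).1 h2 with h1 | h1
    · exact Or.inl (by rw [h1]; exact one_dvd _)
    · refine Or.inl ?_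
      rw [h1]
      have hp2 : ringChar F ≠ 2 := fun hc => by
        have : p = 2 := (ringChar.eq F p).symm.trans hc
        rw [h1, this] at hg
        norm_num at hg
      have := FiniteField.odd_card_of_char_ne_two hp2
      omega

end Cfsg.Agent.S0800
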