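import Cfsg.Statements.S0801
import Mathlib
import Cfsg.Agent.Lib.Classical.UpperField
import Cfsg.Agent.Lib.Classical.TwoDimTorusSylow
-- import your own Cfsg.Agent.* helpers here

set_option autoImplicit false
open Cfsg

namespace Cfsg.Agent.S0801

/-- Pairs `a + b λ` with `λ² = -1` over three elements. -/
abbrev R9 : Type := ZMod 3 × ZMod 3

/-- The one hundred and twenty matrices. -/
def tab : Fin 120 → R9 × R9 × R9 × R9 := ![
  ((1, 0), (0, 0), (0, 0), (1, 0)), ((1, 0), (0, 0), (1, 0), (1, 0)), ((1, 0), (0, 1), (0, 0), (1, 0)), ((1, 0), (0, 0), (2, 0), (1, 0)),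
  ((1, 0), (0, 1), (1, 0), (1, 1)), ((1, 1), (0, 1), (1, 0), (1, 0)), ((1, 0), (0, 2), (0, 0), (1, 0)), ((1, 0), (0, 1), (2, 0), (1, 2)),
  ((1, 1), (0, 1), (2, 1), (1, 1)), ((1, 0), (0, 2), (1, 0), (1, 2)), ((1, 2), (0, 1), (2, 0), (1, 0)), ((1, 1), (2, 2), (1, 0), (1, 1)),
  ((1, 2), (0, 2), (1, 0), (1, 0)), ((1, 1), (0, 1), (0, 2), (1, 2)), ((1, 0), (0, 2), (2, 0), (1, 1)), ((1, 2), (0, 1), (0, 2), (1, 1)),
  ((1, 1), (2, 2), (2, 1), (0, 0)), ((1, 2), (0, 2), (2, 2), (1, 2)), ((1, 2), (1, 2), (2, 0), (1, 2)), ((0, 0), (2, 2), (2, 1), (1, 1)),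
  ((1, 1), (1, 0), (1, 0), (1, 2)), ((1, 1), (0, 2), (2, 0), (1, 0)), ((1, 2), (1, 0), (1, 0), (1, 1)), ((1, 2), (0, 1), (1, 1), (1, 2)),
  ((1, 1), (2, 2), (0, 2), (2, 2)), ((1, 2), (0, 2), (0, 1), (1, 1)), ((1, 2), (1, 2), (0, 2), (2, 1)), ((0, 0), (2, 2), (2, 1), (0, 0)),
  ((1, 1), (1, 0), (2, 1), (2, 2)), ((1, 1), (0, 2), (0, 1), (1, 2)), ((1, 2), (1, 0), (2, 2), (2, 1)), ((2, 1), (1, 2), (0, 2), (1, 2)),
  ((1, 2), (2, 0), (2, 0), (1, 1)), ((2, 2), (2, 2), (0, 2), (1, 1)), ((2, 1), (1, 0), (2, 2), (1, 2)), ((1, 1), (2, 0), (2, 0), (1, 2)),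
  ((2, 2), (1, 0), (2, 1), (1, 1)), ((1, 2), (2, 1), (1, 0), (1, 2)), ((1, 2), (1, 2), (1, 1), (0, 0)), ((0, 0), (2, 2), (2, 1), (2, 2)),
  ((1, 1), (1, 0), (0, 2), (0, 2)), ((1, 1), (0, 2), (1, 2), (1, 1)), ((1, 2), (1, 0), (0, 1), (0, 1)), ((2, 1), (1, 2), (2, 0), (2, 1)),
  ((1, 2), (2, 0), (0, 2), (0, 1)), ((2, 2), (2, 2), (2, 1), (0, 0)), ((2, 1), (1, 0), (1, 0), (2, 2)), ((1, 1), (2, 0), (0, 1), (0, 2)),
  ((2, 2), (1, 0), (1, 0), (2, 1)), ((1, 2), (2, 1), (2, 2), (0, 0)), ((0, 0), (1, 2), (1, 1), (1, 2)), ((2, 1), (0, 1), (0, 2), (2, 2)),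
  ((0, 2), (2, 0), (0, 1), (1, 1)), ((2, 2), (0, 1), (0, 2), (2, 1)), ((0, 1), (1, 0), (0, 1), (1, 2)), ((2, 1), (0, 2), (2, 2), (2, 1)),
  ((0, 1), (2, 0), (0, 2), (1, 2)), ((1, 1), (1, 1), (2, 0), (1, 1)), ((0, 2), (1, 0), (0, 2), (1, 1)), ((0, 0), (2, 1), (2, 2), (1, 2)),
  ((2, 1), (1, 2), (1, 1), (0, 0)), ((1, 2), (2, 0), (1, 1), (2, 1)), ((2, 2), (2, 2), (1, 0), (2, 2)), ((2, 1), (1, 0), (0, 1), (0, 2)),
  ((1, 1), (2, 0), (1, 2), (2, 2)), ((2, 2), (1, 0), (0, 2), (0, 1)), ((1, 2), (2, 1), (0, 1), (2, 1)), ((0, 0), (1, 2), (1, 1), (2, 1)),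
  ((2, 1), (0, 1), (2, 0), (2, 0)), ((0, 2), (2, 0), (0, 0), (0, 1)), ((2, 2), (0, 1), (2, 1), (2, 2)), ((0, 1), (1, 0), (0, 2), (2, 2)),
  ((2, 1), (0, 2), (1, 0), (2, 0)), ((0, 1), (2, 0), (0, 0), (0, 2)), ((1, 1), (1, 1), (0, 1), (2, 2)), ((0, 2), (1, 0), (0, 1), (2, 1)),
  ((0, 0), (2, 1), (2, 2), (0, 0)), ((0, 0), (1, 2), (1, 1), (0, 0)), ((2, 1), (2, 0), (0, 2), (0, 2)), ((2, 2), (2, 0), (1, 2), (1, 1)),
  ((0, 2), (0, 0), (0, 1), (0, 1)), ((2, 0), (0, 1), (2, 0), (2, 1)), ((0, 1), (0, 0), (0, 1), (0, 2)), ((2, 0), (0, 2), (1, 0), (2, 1)),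
  ((2, 1), (2, 1), (2, 2), (0, 0)), ((2, 1), (2, 0), (1, 1), (1, 2)), ((2, 2), (1, 1), (0, 1), (1, 1)), ((0, 2), (2, 0), (0, 2), (2, 1)),
  ((2, 1), (2, 1), (0, 1), (1, 2)), ((0, 0), (2, 1), (2, 2), (2, 1)), ((2, 1), (0, 1), (1, 1), (2, 1)), ((2, 2), (0, 1), (1, 0), (2, 0)),
  ((0, 1), (1, 0), (0, 0), (0, 2)), ((2, 1), (0, 2), (0, 1), (2, 2)), ((0, 1), (2, 0), (0, 1), (2, 2)), ((1, 1), (1, 1), (1, 2), (0, 0)),
  ((0, 2), (1, 0), (0, 0), (0, 1)), ((2, 1), (2, 0), (2, 0), (2, 2)), ((2, 2), (2, 0), (0, 1), (0, 1)), ((0, 2), (0, 0), (0, 0), (0, 1)),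
  ((2, 0), (0, 1), (1, 0), (2, 2)), ((0, 1), (0, 0), (0, 2), (0, 2)), ((2, 0), (0, 2), (0, 0), (2, 0)), ((2, 1), (2, 1), (1, 0), (2, 1)),
  ((2, 2), (1, 1), (2, 0), (2, 2)), ((2, 2), (0, 2), (1, 2), (2, 2)), ((0, 2), (0, 0), (0, 2), (0, 1)), ((2, 0), (0, 0), (2, 0), (2, 0)),
  ((0, 1), (0, 0), (0, 0), (0, 2)), ((2, 2), (0, 2), (0, 1), (2, 1)), ((0, 0), (1, 1), (1, 2), (1, 1)), ((2, 2), (2, 0), (2, 0), (2, 1)),
  ((2, 0), (0, 1), (0, 0), (2, 0)), ((2, 0), (0, 2), (2, 0), (2, 2)), ((2, 2), (1, 1), (1, 2), (0, 0)), ((2, 0), (0, 0), (1, 0), (2, 0)),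
  ((2, 2), (0, 2), (2, 0), (2, 0)), ((0, 0), (1, 1), (1, 2), (2, 2)), ((2, 0), (0, 0), (0, 0), (2, 0)), ((0, 0), (1, 1), (1, 2), (0, 0))]

/-- Right multiplication by the lower generator. -/
def na : Fin 120 → Fin 120 := ![1, 3, 5, 0, 8, 10, 12, 13, 15, 17, 2, 19, 21, 23, 25, 4, 27, 29, 31, 33, 34, 6, 36, 7, 39, 41, 43, 45, 46, 9, 48, 50, 52, 11, 54, 56, 58, 59, 60, 62, 63, 14, 65, 67, 69, 16, 71, 73, 75, 76, 18, 70, 79, 81, 20, 83, 85, 86, 22, 88, 77, 87, 24, 92, 94, 96, 89, 26, 91, 98, 100, 28, 102, 78, 104, 30, 84, 38, 47, 32, 106, 90, 108, 109, 49, 35, 110, 111, 37, 103, 53, 112, 40, 113, 97, 114, 42, 64, 44, 80, 51, 82, 116, 66, 117, 93, 99, 115, 101, 55, 57, 61, 68, 105, 119, 118, 72, 74, 107, 95]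

/-- Right multiplication by the upper generator. -/
def nb : Fin 120 → Fin 120 := ![2, 4, 6, 7, 9, 11, 0, 14, 16, 1, 18, 20, 22, 24, 3, 26, 28, 30, 32, 27, 5, 35, 37, 38, 40, 42, 44, 39, 8, 47, 49, 51, 10, 53, 55, 57, 45, 12, 61, 19, 13, 64, 66, 68, 15, 70, 72, 74, 62, 17, 77, 78, 80, 65, 82, 84, 71, 21, 87, 89, 90, 23, 91, 93, 95, 33, 25, 50, 97, 99, 36, 101, 103, 92, 29, 52, 59, 67, 31, 105, 75, 107, 94, 100, 34, 60, 98, 106, 63, 76, 85, 48, 108, 88, 54, 41, 69, 43, 109, 96, 115, 56, 112, 46, 111, 114, 58, 113, 73, 86, 117, 116, 118, 81, 79, 83, 104, 119, 102, 110]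

/-- The formula for the lower generator. -/
def fa (m : R9 × R9 × R9 × R9) : R9 × R9 × R9 × R9 := (m.1 + m.2.1, m.2.1, m.2.2.1 + m.2.2.2, m.2.2.2)

/-- Multiplication by `λ`. -/
def mi (x : R9) : R9 := (-x.2, x.1)

/-- The formula for the upper generator. -/
def fb (m : R9 × R9 × R9 × R9) : R9 × R9 × R9 × R9 := (m.1, mi m.1 + m.2.1, m.2.2.1, mi m.2.2.1 + m.2.2.2)

set_option maxRecDepth 20000 in
lemma tab_na : ∀ i, fa (tab i) = tab (na i) := by decide +kernel

set_option maxRecDepth 20000 in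
lemma tab_nb : ∀ i, fb (tab i) = tab (nb i) := by decide +kernel

lemma tab_zero : tab 0 = ((1, 0), (0, 0), (0, 0), (1, 0)) := by decide +kernel

open Cfsg.Agent.SL2RankOne in
/-- For nine elements the two matrices do not generate. -/
theorem closure_ne_top {F : Type*} [Field F] [Fintype F] (hF : Fintype.card F = 9) (lam : F) (hl : lam ^ 2 = -1) :
    Subgroup.closure ({lo 1, up lam} : Set (Matrix.SpecialLinearGroup (Fin 2) F)) ≠ ⊤ := by
  classical
  haveI : CharP F 3 := by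
    obtain ⟨p, hp⟩ := CharP.exists F
    obtain ⟨k, hpp, hk⟩ := FiniteField.card F p
    have : p ∣ 3 ^ 2 := by rw [show (3 : ℕ) ^ 2 = 9 by norm_num, ← hF, hk]; exact dvd_pow_self p k.pos.ne'
    rwa [(Nat.prime_dvd_prime_iff_eq hpp Nat.prime_three).1 (hpp.dvd_of_dvd_pow this)] at hp
  let c : ZMod 3 →+* F := ZMod.castHom dvd_rfl F
  let ι : R9 → F := fun x => c x.1 + c x.2 * lam
  have hadd : ∀ x y, ι (x + y) = ι x + ι y := fun x y => by simp [ι, map_add]; ring
  have hmi : ∀ x, ι (mi x) = ι x * lam := fun x => by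
    simp [ι, mi]; linear_combination -(c x.2) * hl
  let Mt : Fin 120 → Matrix (Fin 2) (Fin 2) F := fun i => !![ι (tab i).1, ι (tab i).2.1; ι (tab i).2.2.1, ι (tab i).2.2.2]
  have hmem : ∀ g ∈ Submonoid.closure ({lo 1, up lam} : Set (Matrix.SpecialLinearGroup (Fin 2) F)), ∀ i,
      ∃ j, Mt j = Mt i * (g : Matrix (Fin 2) (Fin 2) F) := fun g hg => by
    induction hg using Submonoid.closure_induction with
    | mem x hx =>
      intro i
      rcases hx with rfl | rfl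
      · refine ⟨na i, ?_⟩
        simp only [Mt, ← tab_na, fa, lo_coe, hadd]
        ext a b; fin_cases a <;> fin_cases b <;> simp [Matrix.mul_apply, Fin.sum_univ_two]
      · refine ⟨nb i, ?_⟩
        simp only [Mt, ← tab_nb, fb, up_coe, hadd, hmi]
        ext a b; fin_cases a <;> fin_cases b <;> simp [Matrix.mul_apply, Fin.sum_univ_two]
    | one => exact fun i => ⟨i, by simp⟩
    | mul x y _ _ hx hy =>
      intro i
      obtain ⟨j, hj⟩ := hx i
      obtain ⟨k, hk⟩ := hy j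
      exact ⟨k, by rw [hk, hj, Matrix.SpecialLinearGroup.coe_mul, Matrix.mul_assoc]⟩
  intro htop
  have hall : ∀ g : Matrix.SpecialLinearGroup (Fin 2) F, ∃ j, Mt j = (g : Matrix (Fin 2) (Fin 2) F) := fun g => by
    obtain ⟨j, hj⟩ := hmem g (by
      have h : g ∈ (Subgroup.closure ({lo 1, up lam} : Set (Matrix.SpecialLinearGroup (Fin 2) F))).toSubmonoid := by
        rw [htop]; trivial
      rwa [Subgroup.closure_toSubmonoid_of_finite] at h) 0
    refine ⟨j, hj.trans ?_⟩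
    have : Mt 0 = 1 := by
      simp only [Mt, tab_zero]
      ext a b; fin_cases a <;> fin_cases b <;> simp [ι]
    rw [this, one_mul]
  choose j hj using hall
  have hinj : Function.Injective j := fun g g' e => Subtype.ext (by rw [← hj g, ← hj g', e])
  have hle := Nat.card_le_card_of_injective j hinj
  rw [Cfsg.Lib.Classical.TwoDim.card_SL, hF, Nat.card_fin] at hle
  norm_num at hle

/-- Traces when the order divides `4` or `10`. -/
theorem trace_cases {F : Type*} [Field F] (h2 : (2 : F) ≠ 0) (z : Matrix.SpecialLinearGroup (Fin 2) F)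
    (h : z ^ 4 = 1 ∨ z ^ 10 = 1) {t : F} (ht : Cfsg.Lib.PStable.trc z = t) :
    t ^ 2 = 0 ∨ t ^ 2 = 4 ∨ t * t + t - 1 = 0 ∨ t * t - t - 1 = 0 := by
  set Z : Matrix (Fin 2) (Fin 2) F := (z : Matrix (Fin 2) (Fin 2) F)
  have hd : Z 0 0 * Z 1 1 - Z 0 1 * Z 1 0 = 1 := Cfsg.Lib.PStable.det_eq
  have ht' : Z 0 0 + Z 1 1 = t := ht
  have h00 : Z * Z = t • Z - 1 := by
    ext i j
    fin_cases i <;> fin_cases j <;> simp [Matrix.mul_apply, Fin.sum_univ_two] <;>
      first | linear_combination Z 0 0 * ht' - hd | linear_combination Z 0 1 * ht' | linear_combination Z 1 0 * ht' | linear_combination Z 1 1 * ht' - hd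
  have tr2 : (Z * Z).trace = t ^ 2 - 2 := by
    rw [h00, Matrix.trace_sub, Matrix.trace_smul, Matrix.trace_one, Matrix.trace_fin_two, ht', Fintype.card_fin]
    simp; ring
  have e4 : Z * Z * (Z * Z) = (t ^ 3 - 2 * t) • Z - (t ^ 2 - 1) • (1 : Matrix (Fin 2) (Fin 2) F) := by
    simp only [h00, Matrix.sub_mul, Matrix.mul_sub, Matrix.smul_mul, Matrix.mul_smul, Matrix.one_mul, Matrix.mul_one, smul_smul, smul_sub]
    module
  have tr5 : (Z * Z * (Z * Z) * Z).trace = t ^ 5 - 5 * t ^ 3 + 5 * t := by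
    rw [e4, Matrix.sub_mul, Matrix.smul_mul, Matrix.smul_mul, h00, Matrix.one_mul, Matrix.trace_sub, Matrix.trace_smul,
      Matrix.trace_smul, Matrix.trace_sub, Matrix.trace_smul, Matrix.trace_one, Matrix.trace_fin_two, ht', Fintype.card_fin]
    simp; ring
  have key : ∀ y : Matrix.SpecialLinearGroup (Fin 2) F, y * y = 1 →
      (y : Matrix (Fin 2) (Fin 2) F).trace = 2 ∨ (y : Matrix (Fin 2) (Fin 2) F).trace = -2 := fun y hy => by
    rcases (Cfsg.Lib.PStable.isScalar2_iff y).1 (Cfsg.Lib.PStable.scalar_of_sq_eq_one h2 hy) with e | e <;> rw [e]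
    · left; simp
    · right; simp [Matrix.trace_fin_two]
  rcases h with h | h
  · have e := key (z * z) (by rw [← h]; simp only [pow_succ, pow_zero, one_mul, mul_assoc])
    rw [Matrix.SpecialLinearGroup.coe_mul, tr2] at e
    rcases e with e | e
    · exact Or.inr (Or.inl (by linear_combination e))
    · exact Or.inl (by linear_combination e)
  · have e := key (z * z * (z * z) * z) (by rw [← h]; simp only [pow_succ, pow_zero, one_mul, mul_assoc])
    simp only [Matrix.SpecialLinearGroup.coe_mul] at e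
    rw [tr5] at e
    rcases e with e | e
    · have e' : (t - 2) * ((t * t + t - 1) * (t * t + t - 1)) = 0 := by linear_combination e
      rcases mul_eq_zero.1 e' with e'' | e''
      · exact Or.inr (Or.inl (by linear_combination (t + 2) * e''))
      · exact Or.inr (Or.inr (Or.inl (mul_self_eq_zero.1 e'')))
    · have e' : (t + 2) * ((t * t - t - 1) * (t * t - t - 1)) = 0 := by linear_combination e
      rcases mul_eq_zero.1 e' with e'' | e''
      · exact Or.inr (Or.inl (by linear_combination (t - 2) * e''))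
      · exact Or.inr (Or.inr (Or.inr (mul_self_eq_zero.1 e'')))

/-- Two trace conditions force `λ² = -1`. -/
theorem quad_cases {F : Type*} [Field F] (h3 : (3 : F) = 0) {lam : F} (h0 : lam ≠ 0) (h1 : lam ≠ 1) (hm : lam ≠ -1)
    (e : (2 + lam) ^ 2 = 0 ∨ (2 + lam) ^ 2 = 4 ∨ (2 + lam) * (2 + lam) + (2 + lam) - 1 = 0 ∨ (2 + lam) * (2 + lam) - (2 + lam) - 1 = 0)
    (e' : (2 - lam) ^ 2 = 0 ∨ (2 - lam) ^ 2 = 4 ∨ (2 - lam) * (2 - lam) + (2 - lam) - 1 = 0 ∨ (2 - lam) * (2 - lam) - (2 - lam) - 1 = 0) :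
    lam ^ 2 = -1 := by
  rcases e with e | e | e | e
  · refine absurd ?_ h1
    linear_combination (pow_eq_zero_iff two_ne_zero).1 e - h3
  · rcases mul_eq_zero.1 (show lam * (lam + 4) = 0 by linear_combination e) with e | e
    · exact absurd e h0
    · exact absurd (show lam = -1 by linear_combination e - h3) hm
  · rcases e' with e' | e' | e' | e'
    · refine absurd ?_ hm
      linear_combination -(pow_eq_zero_iff two_ne_zero).1 e' + h3
    · rcases mul_eq_zero.1 (show lam * (lam - 4) = 0 by linear_combination e') with e' | e'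
      · exact absurd e' h0
      · exact absurd (show lam = 1 by linear_combination e' + h3) h1
    · exfalso
      refine h0 ?_
      linear_combination (e - e') - 3 * lam * h3
    · linear_combination e' + lam * h3
  · linear_combination e + (0 - lam) * h3

/-- The field is small. -/
theorem card_le_nine {F : Type*} [Field F] [Fintype F] [CharP F 3] (lam : F) (hl : lam ^ 2 = -1)
    (hgen : Subfield.closure ({lam} : Set F) = ⊤) : Fintype.card F ≤ 9 := by
  classical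
  let S := RingHom.eqLocusField (iterateFrobenius F 3 2) (RingHom.id F)
  have hlS : lam ∈ S := by
    show iterateFrobenius F 3 2 lam = lam
    rw [iterateFrobenius_def]
    linear_combination (lam * (lam ^ 2 - 1) * (lam ^ 4 + 1)) * hl
  have hST : S = ⊤ := eq_top_iff.2 (hgen ▸ Subfield.closure_le.2 (Set.singleton_subset_iff.2 hlS))
  let f : Polynomial F := Polynomial.X ^ 9 - Polynomial.X
  have hf : f ≠ 0 := FiniteField.X_pow_card_sub_X_ne_zero F (by norm_num)
  have hsub : (Finset.univ : Finset F).val ≤ f.roots := Finset.val_le_iff_val_subset.2 fun x _ => by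
    rw [Polynomial.mem_roots hf]
    have hx : iterateFrobenius F 3 2 x = x := show x ∈ S from hST ▸ trivial
    rw [iterateFrobenius_def] at hx
    simp only [f, Polynomial.IsRoot.def, Polynomial.eval_sub, Polynomial.eval_pow, Polynomial.eval_X]
    rw [show (3 : ℕ) ^ 2 = 9 by norm_num] at hx; rw [hx, sub_self]
  refine ((Multiset.card_le_card hsub).trans (Polynomial.card_roots' f)).trans (le_of_eq ?_)
  exact FiniteField.X_pow_card_sub_X_natDegree_eq F (by norm_num)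

/-- Elements of the prime field. -/
theorem mem_bot_cast {F : Type*} [Field F] [CharP F 3] (a : F) (h : a ^ 3 = a) : ∃ i : ℕ, (i : F) = a := by
  have h3 : (3 : F) = 0 := by exact_mod_cast CharP.cast_eq_zero F 3
  have : a * ((a - 1) * (a - 2)) = 0 := by linear_combination h + (a - a ^ 2) * h3
  rcases mul_eq_zero.1 this with e | e
  · exact ⟨0, by simp [e]⟩
  rcases mul_eq_zero.1 e with e | e
  · exact ⟨1, by simp; linear_combination -e⟩
  · exact ⟨2, by push_cast; linear_combination -e⟩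

/-- Let F be a finite field of odd characteristic and λ ≠ 0 an element generating F as a field. Then the lower and upper unitriangular matrices with off-diagonal entries 1 and λ generate SL_2(F), unless |F| = 9 and λ² = −1, in which case they generate a subgroup of order 120. -/
theorem result {F : Type*} [Field F] [Fintype F] (h2 : (2 : F) ≠ 0) (lam : F) (hlam : lam ≠ 0) (hgen : Subfield.closure ({lam} : Set F) = ⊤) : (Subgroup.closure {g : Matrix.SpecialLinearGroup (Fin 2) F | (g : Matrix (Fin 2) (Fin 2) F) = !![1, 0; 1, 1] ∨ (g : Matrix (Fin 2) (Fin 2) F) = !![1, lam; 0, 1]} = ⊤ ∧ ¬ (Fintype.card F = 9 ∧ lam ^ 2 = -1)) ∨ (Fintype.card F = 9 ∧ lam ^ 2 = -1 ∧ Nat.card ↥(Subgroup.closure {g : Matrix.SpecialLinearGroup (Fin 2) F | (g : Matrix (Fin 2) (Fin 2) F) = !![1, 0; 1, 1] ∨ (g : Matrix (Fin 2) (Fin 2) F) = !![1, lam; 0, 1]}) = 120) := by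
  classical
  open Cfsg.Agent.SL2RankOne in
  have hset : {g : Matrix.SpecialLinearGroup (Fin 2) F | (g : Matrix (Fin 2) (Fin 2) F) = !![1, 0; 1, 1] ∨ (g : Matrix (Fin 2) (Fin 2) F) = !![1, lam; 0, 1]} = {lo 1, up lam} := by
    ext g
    simp only [Set.mem_setOf_eq, Set.mem_insert_iff, Set.mem_singleton_iff]
    exact ⟨fun h => h.imp (fun e => ext2 e) (fun e => ext2 e), fun h => h.imp (fun e => by rw [e, lo_coe]) (fun e => by rw [e, up_coe])⟩
  rw [hset]
  obtain ⟨p, hp⟩ := CharP.exists F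
  obtain ⟨k, hpp, hk⟩ := FiniteField.card F p
  haveI := Fact.mk hpp
  have hp2 : p ≠ 2 := by
    rintro rfl
    exact h2 (by exact_mod_cast CharP.cast_eq_zero F 2)
  haveI : NeZero (2 : F) := ⟨h2⟩
  set H := Subgroup.closure ({Cfsg.Agent.SL2RankOne.lo 1, Cfsg.Agent.SL2RankOne.up lam} : Set (Matrix.SpecialLinearGroup (Fin 2) F)) with hH
  have hlo : Cfsg.Agent.SL2RankOne.lo (1 : F) ∈ H := Subgroup.subset_closure (Or.inl rfl)
  have hup : Cfsg.Agent.SL2RankOne.up lam ∈ H := Subgroup.subset_closure (Or.inr rfl)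
  by_cases htop : H = ⊤
  · exact Or.inl ⟨htop, fun h => closure_ne_top h.1 lam h.2 htop⟩
  right
  have hneg : ∀ g : Matrix.SpecialLinearGroup (Fin 2) F, g ∈ H ⊔ Subgroup.zpowers (-1) → g ∈ H ∨ -g ∈ H := by
    let H' : Subgroup (Matrix.SpecialLinearGroup (Fin 2) F) :=
      { carrier := {x | x ∈ H ∨ -x ∈ H}
        one_mem' := Or.inl H.one_mem
        mul_mem' := fun {x y} hx hy => by
          rcases hx with hx | hx <;> rcases hy with hy | hy
          · exact Or.inl (mul_mem hx hy)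
          · exact Or.inr (by simpa using mul_mem hx hy)
          · exact Or.inr (by simpa using mul_mem hx hy)
          · exact Or.inl (by simpa using mul_mem hx hy)
        inv_mem' := fun {x} hx => by
          rcases hx with hx | hx
          · exact Or.inl (inv_mem hx)
          · refine Or.inr ?_
            have := inv_mem hx
            rwa [show (-x)⁻¹ = -x⁻¹ from inv_eq_of_mul_eq_one_right (by simp)] at this }
    exact fun g hg => (sup_le (fun x hx => Or.inl hx) (Subgroup.zpowers_le.2 (Or.inr (by simp))) : H ⊔ Subgroup.zpowers (-1) ≤ H') hg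
  -- the central involution lies in the subgroup
  set M := H ⊔ Subgroup.zpowers (-1 : Matrix.SpecialLinearGroup (Fin 2) F) with hMd
  have hnegM : (-1 : Matrix.SpecialLinearGroup (Fin 2) F) ∈ M := Subgroup.mem_sup_right (Subgroup.mem_zpowers _)
  have hodd : Odd p := hpp.odd_of_ne_two hp2
  have hgenp : ∀ g ∈ M, g ^ p = 1 → g ∈ H := fun g hg hgp => by
    rcases hneg g hg with h | h
    · exact h
    · have := H.pow_mem h p
      rw [hodd.neg_pow, hgp] at this
      simpa using H.mul_mem this h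
  have hMtop : M ≠ ⊤ := fun hM => htop (by
    have hu : ∀ a : F, Cfsg.Agent.SL2RankOne.up a ∈ H ∧ Cfsg.Agent.SL2RankOne.lo a ∈ H := fun a => by
      refine ⟨hgenp _ (by rw [hM]; trivial) (Cfsg.Lib.PStable.pow_char_of_trc_two ?_), hgenp _ (by rw [hM]; trivial) (Cfsg.Lib.PStable.pow_char_of_trc_two ?_)⟩
      · simp [Cfsg.Lib.PStable.trc, Cfsg.Agent.SL2RankOne.up_coe]; norm_num
      · simp [Cfsg.Lib.PStable.trc, Cfsg.Agent.SL2RankOne.lo_coe]; norm_num
    rw [eq_top_iff, ← Cfsg.Agent.SL2RankOne.sup_eq_top (k := F), sup_le_iff]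
    exact ⟨fun z hz => by obtain ⟨x, rfl⟩ := Cfsg.Agent.SL2RankOne.mem_lower.1 hz; exact (hu x).2,
      fun z hz => by obtain ⟨x, rfl⟩ := Cfsg.Agent.SL2RankOne.mem_upper.1 hz; exact (hu x).1⟩)
  have hU : lam ∈ Cfsg.Lib.PStable.aGrp M := Subgroup.mem_sup_left hup
  have hlM : Cfsg.Agent.SL2RankOne.lo (1 : F) ∈ M := Subgroup.mem_sup_left hlo
  have h10 : Cfsg.Agent.SL2RankOne.lo (1 : F) 1 0 ≠ 0 := by simp [Cfsg.Agent.SL2RankOne.lo_coe]
  rcases Cfsg.Lib.PStable.index_eq hp2 hnegM hlam hU (g0 := ⟨_, hlM⟩) h10 with hidx | ⟨hA3, hM120, hord⟩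
  · exfalso
    obtain ⟨S, hS, -, -⟩ := Cfsg.Lib.Classical.UpperField.exists_subfield hp2 M hlM hidx
    have hST : S = ⊤ := eq_top_iff.2 (hgen ▸ Subfield.closure_le.2 (Set.singleton_subset_iff.2 ((hS lam).2 hU)))
    exact hMtop (Cfsg.Lib.Classical.MinIndex.upper_eq_top (fun a => (hS a).1 (hST ▸ trivial)) hlM h10)
  -- the exceptional case
  obtain rfl : p = 3 := by
    have h1 : Nat.card (Cfsg.Lib.PStable.aGrp M) ∣ p ^ (k : ℕ) := by
      rw [← hk, ← Nat.card_eq_fintype_card]; exact (Cfsg.Lib.PStable.aGrp M).card_addSubgroup_dvd_card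
    rw [hA3] at h1
    exact ((Nat.prime_dvd_prime_iff_eq Nat.prime_three hpp).1 (Nat.prime_three.dvd_of_dvd_pow h1)).symm
  have hHc : Nat.card H = 120 := by
    have hnH : (-1 : Matrix.SpecialLinearGroup (Fin 2) F) ∈ H := by
      by_contra hn
      have h10' : 2 ∣ Nat.card H := by
        have hle : H ≤ M := le_sup_left
        have : Nat.card M ≤ 2 * Nat.card H := by
          have e : (M : Set (Matrix.SpecialLinearGroup (Fin 2) F)) ⊆ (H : Set _) ∪ (fun x => -x) '' (H : Set _) := fun g hg => by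
            rcases hneg g hg with h | h
            · exact Or.inl h
            · exact Or.inr ⟨-g, h, neg_neg g⟩
          have h3 := (Set.ncard_le_ncard e (Set.toFinite _)).trans (Set.ncard_union_le _ _)
          rw [Set.ncard_image_of_injective _ neg_injective, ← Nat.card_coe_set_eq, ← Nat.card_coe_set_eq] at h3
          change Nat.card M ≤ Nat.card H + Nat.card H at h3
          omega
        obtain ⟨c, hc⟩ := Subgroup.card_dvd_of_le hle
        rw [hM120] at hc this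
        have hc2 : c ≤ 2 := by
          by_contra h3
          have := Nat.mul_le_mul_left (Nat.card H) (show 3 ≤ c by omega)
          omega
        interval_cases c <;> omega
      obtain ⟨x, hx⟩ := exists_prime_orderOf_dvd_card' 2 h10'
      have hx2 : (x : Matrix.SpecialLinearGroup (Fin 2) F) * x = 1 := by
        have hp' := congrArg Subtype.val (pow_orderOf_eq_one x)
        rw [hx, SubmonoidClass.coe_pow, pow_two] at hp'
        exact hp'
      rcases (Cfsg.Lib.PStable.isScalar2_iff _).1 (Cfsg.Lib.PStable.scalar_of_sq_eq_one h2 hx2) with e | e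
      · rw [show x = 1 from Subtype.ext e, orderOf_one] at hx
        omega
      · exact hn (e ▸ x.2)
    rw [show M = H from le_antisymm (sup_le le_rfl (Subgroup.zpowers_le.2 hnH)) le_sup_left] at hM120
    exact hM120
  have h5 : ∀ t : F, ∀ z ∈ H, Cfsg.Lib.PStable.trc z = t → t ^ 2 = 0 ∨ t ^ 2 = 4 ∨ t * t + t - 1 = 0 ∨ t * t - t - 1 = 0 := by
    intro t z hz ht
    by_cases h4 : t ^ 2 = 4
    · exact Or.inr (Or.inl h4)
    have hzM : z ∈ M := Subgroup.mem_sup_left hz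
    have hns : (⟨z, hzM⟩ : M) ∉ Cfsg.Lib.PStable.scSet M := fun hs => by
      refine h4 ?_
      rcases (Cfsg.Lib.PStable.isScalar2_iff z).1 hs with e | e <;> rw [← ht, e] <;> simp [Cfsg.Lib.PStable.trc] <;> ring
    refine trace_cases h2 z ?_ ht
    exact (hord ⟨z, hzM⟩ ⟨hns, by rw [ht]; exact h4⟩).imp (fun e => by simpa using congrArg Subtype.val e) (fun e => by simpa using congrArg Subtype.val e)
  have e1 := h5 (2 + lam) _ (H.mul_mem hlo hup) (by
    simp [Cfsg.Lib.PStable.trc, Cfsg.Lib.PStable.mul_entry, Cfsg.Agent.SL2RankOne.lo_coe, Cfsg.Agent.SL2RankOne.up_coe]; ring)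
  have e2 := h5 (2 - lam) _ (H.mul_mem hlo (H.inv_mem hup)) (by
    rw [Cfsg.Agent.SL2RankOne.up_inv]
    simp [Cfsg.Lib.PStable.trc, Cfsg.Lib.PStable.mul_entry, Cfsg.Agent.SL2RankOne.lo_coe, Cfsg.Agent.SL2RankOne.up_coe]; ring)
  have h3 : (3 : F) = 0 := by exact_mod_cast CharP.cast_eq_zero F 3
  have hsmall : (∀ x ∈ ({0, 1, -1} : Set F), lam ≠ x) := by
    intro x hx e
    refine hMtop (Cfsg.Lib.Classical.MinIndex.upper_eq_top (fun a => ?_) hlM h10)
    have hST : (⊥ : Subfield F) = ⊤ := eq_top_iff.2 (hgen ▸ Subfield.closure_le.2 (Set.singleton_subset_iff.2 (by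
      rcases hx with rfl | rfl | rfl
      · exact absurd e hlam
      · rw [e]; exact one_mem _
      · rw [e]; exact neg_mem (one_mem _))))
    obtain ⟨i, rfl⟩ : ∃ i : ℕ, (i : F) = a := by
      have ha : a ∈ (⊥ : Subfield F) := hST ▸ trivial
      obtain ⟨z, hz⟩ := mem_bot_cast a (((Subfield.mem_bot_iff_pow_eq_self F 3).1 ha))
      exact ⟨z, hz⟩
    have h1 : (1 : F) ∈ Cfsg.Lib.PStable.aGrp M := by
      rcases hx with rfl | rfl | rfl
      · exact absurd e hlam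
      · exact e ▸ hU
      · simpa [e] using (Cfsg.Lib.PStable.aGrp M).neg_mem hU
    have := (Cfsg.Lib.PStable.aGrp M).nsmul_mem h1 i
    show (i : F) ∈ Cfsg.Lib.PStable.aGrp M
    simpa using this
  have hl2 : lam ^ 2 = -1 := quad_cases h3 hlam (fun e => hsmall 1 (by simp) e) (fun e => hsmall (-1) (by simp) e) e1 e2
  refine ⟨?_, hl2, hHc⟩
  have hq9 : Fintype.card F ≤ 9 := card_le_nine lam hl2 hgen
  rw [hk] at hq9 ⊢
  have hk2 : (k : ℕ) ≤ 2 := (Nat.pow_le_pow_iff_right (show 1 < 3 by norm_num)).1 (by simpa using hq9)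
  have hk0 := k.pos
  rcases (show (k : ℕ) = 1 ∨ (k : ℕ) = 2 by omega) with e | e
  · exfalso
    have hc3 : Fintype.card F = 3 := by rw [hk, e, pow_one]
    have hp3 := FiniteField.pow_card lam
    rw [hc3, pow_succ, hl2] at hp3
    refine hlam ?_
    linear_combination hp3 + lam * h3
  · rw [e]; norm_num

end Cfsg.Agent.S0801
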