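import Cfsg.Statements.S0803
import Mathlib
import Cfsg.Agent.Lib.Classical.QuatTwo

set_option autoImplicit false
open Cfsg
open scoped Matrix

namespace Cfsg.Agent.S0803

/-- PSL_2(q) has a subgroup isomorphic to S_4 iff q² ≡ 1 (mod 16). -/
theorem result {F : Type*} [Field F] [Fintype F] {q : ℕ} (hF : Fintype.card F = q) : (∃ H : Subgroup (Matrix.ProjectiveSpecialLinearGroup (Fin 2) F), Nonempty (H ≃* Equiv.Perm (Fin 4))) ↔ q ^ 2 % 16 = 1 := by
  subst hF
  set q := Fintype.card F with hq
  have hq1 : 1 < q := Fintype.one_lt_card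
  constructor
  · rintro ⟨H, ⟨e⟩⟩
    obtain ⟨σ, hσ, hσ2⟩ : ∃ σ : Equiv.Perm (Fin 4), σ ^ 4 = 1 ∧ σ ^ 2 ≠ 1 := ⟨finRotate 4, by decide, by decide⟩
    obtain ⟨A, hA⟩ := QuotientGroup.mk'_surjective (Subgroup.center (Matrix.SpecialLinearGroup (Fin 2) F)) (e.symm σ : H)
    have hg : ∀ k : ℕ, (QuotientGroup.mk' (Subgroup.center (Matrix.SpecialLinearGroup (Fin 2) F))) (A ^ k) = 1 ↔ σ ^ k = 1 := by
      intro k
      rw [map_pow, hA, ← SubmonoidClass.coe_pow, OneMemClass.coe_eq_one, ← map_pow, EmbeddingLike.map_eq_one_iff]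
    by_cases h2 : (2 : F) = 0
    · exfalso
      haveI : CharP F 2 := CharTwo.of_one_ne_zero_of_two_eq_zero one_ne_zero h2
      have hcen : ∀ B : Matrix.SpecialLinearGroup (Fin 2) F, B ∈ Subgroup.center _ → B = 1 := by
        intro B hB
        rcases Cfsg.Lib.Fusion.PSLTwo.eq_of_mem_center hB with h | h
        · exact h
        · rw [h]
          apply Subtype.ext
          rw [Matrix.SpecialLinearGroup.coe_neg, Matrix.SpecialLinearGroup.coe_one]
          ext i j
          rw [Matrix.neg_apply, CharTwo.neg_eq]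
      have h4 : A ^ 4 = 1 := hcen _ ((QuotientGroup.eq_one_iff _).1 ((hg 4).2 hσ))
      apply hσ2
      rw [← hg 2]
      suffices A ^ 2 = 1 by rw [this, map_one]
      set a := A.1 0 0 with ha
      set b := A.1 0 1 with hb
      set c := A.1 1 0 with hc
      set d := A.1 1 1 with hd'
      have hd : a * d - b * c = 1 := by
        rw [ha, hb, hc, hd', ← Matrix.det_fin_two, A.2]
      have hm : ((A.1 - 1) ^ 4 : Matrix (Fin 2) (Fin 2) F) = 0 := by
        haveI : CharP (Matrix (Fin 2) (Fin 2) F) 2 := charP_of_injective_algebraMap (algebraMap F (Matrix (Fin 2) (Fin 2) F)).injective 2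
        rw [show 4 = 2 ^ 2 by norm_num, sub_pow_char_pow_of_commute _ _ (Commute.one_right _), one_pow, show 2 ^ 2 = 4 by norm_num,
          ← Matrix.SpecialLinearGroup.coe_pow, h4, Matrix.SpecialLinearGroup.coe_one, sub_self]
      have hdet : (A.1 - 1).det = 0 := by
        have := congrArg Matrix.det hm
        rw [Matrix.det_pow, Matrix.det_zero] at this
        exact eq_zero_of_pow_eq_zero this
      rw [Matrix.det_fin_two] at hdet
      simp only [Matrix.sub_apply, Matrix.one_apply_eq, ne_eq, Fin.reduceEq, not_false_eq_true, Matrix.one_apply_ne, sub_zero, ← ha, ← hb, ← hc, ← hd'] at hdet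
      have ht : a + d = 0 := by linear_combination hd - hdet + h2
      rw [pow_two]
      apply Cfsg.Lib.QuatTwo.ext_entries <;>
        rw [Matrix.SpecialLinearGroup.coe_mul, Matrix.SpecialLinearGroup.coe_one, Matrix.mul_apply, Fin.sum_univ_two] <;>
        simp only [Matrix.one_apply_eq, ne_eq, Fin.reduceEq, not_false_eq_true, Matrix.one_apply_ne, ← ha, ← hb, ← hc, ← hd']
      · linear_combination a * ht - hd + h2 * (b * c + 1 - a * d) + (1 : F) * h2 * 0 + (-1) * h2 * 0 + (h2) * (-1) + 2 * hd
      · linear_combination b * ht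
      · linear_combination c * ht
      · linear_combination d * ht - hd + h2 * (-1) + 2 * hd + h2 * (b * c + 1 - a * d)
    · haveI : NeZero (2 : F) := ⟨h2⟩
      have hB : (A ^ 2) ^ 2 = -1 := by
        rw [← Cfsg.Lib.PSLTwoOdd.orderOf_mk_eq_two]
        refine orderOf_eq_prime ?_ (fun h => hσ2 ((hg 2).1 h))
        rw [← map_pow, ← pow_mul]
        exact (hg 4).2 hσ
      set B := A ^ 2 with hBdef
      have hm : B.1 * B.1 = -1 := by
        rw [← Matrix.SpecialLinearGroup.coe_mul, ← pow_two, hB]; simp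
      have hd := B.2
      rw [Matrix.det_fin_two] at hd
      have e00 := congrFun (congrFun hm 0) 0
      have e11 := congrFun (congrFun hm 1) 1
      simp [Matrix.mul_apply, Fin.sum_univ_two] at e00 e11
      have htr : B.1 0 0 + B.1 1 1 = 0 := by
        have : (B.1 0 0 + B.1 1 1) ^ 2 = 0 := by linear_combination e00 + e11 + 2 * hd
        exact pow_eq_zero_iff two_ne_zero |>.1 this
      have hAd := A.2
      rw [Matrix.det_fin_two] at hAd
      rw [hBdef, pow_two, Matrix.SpecialLinearGroup.coe_mul, Matrix.mul_apply, Matrix.mul_apply, Fin.sum_univ_two, Fin.sum_univ_two] at htr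
      have hsq : IsSquare (2 : F) := ⟨A.1 0 0 + A.1 1 1, by linear_combination -htr - 2 * hAd⟩
      have h8 := FiniteField.isSquare_two_iff.1 hsq
      have hodd : q % 2 = 1 := by
        rcases Nat.mod_two_eq_zero_or_one q with h | h
        · exact absurd (by
            haveI : CharP F 2 := (FiniteField.even_card_iff_char_two.2 h) ▸ ringChar.charP F
            exact CharTwo.two_eq_zero) h2
        · exact h
      have : q % 16 = 1 ∨ q % 16 = 7 ∨ q % 16 = 9 ∨ q % 16 = 15 := by omega
      rw [Nat.pow_mod]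
      rcases this with r | r | r | r <;> rw [r]
  · intro h16
    have hodd : q % 2 = 1 := by
      rcases Nat.mod_two_eq_zero_or_one q with h | h
      · exfalso
        obtain ⟨m, hm⟩ : 2 ∣ q ^ 2 := dvd_pow (Nat.dvd_of_mod_eq_zero h) two_ne_zero
        omega
      · exact h
    have h8 : q % 8 ≠ 3 ∧ q % 8 ≠ 5 := by
      have : q % 16 = 1 ∨ q % 16 = 3 ∨ q % 16 = 5 ∨ q % 16 = 7 ∨ q % 16 = 9 ∨ q % 16 = 11 ∨ q % 16 = 13 ∨ q % 16 = 15 := by omega
      rw [Nat.pow_mod] at h16
      rcases this with r | r | r | r | r | r | r | r <;> rw [r] at h16 <;> norm_num at h16 <;> omega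
    haveI : NeZero (2 : F) := ⟨fun h => by
      haveI := CharTwo.of_one_ne_zero_of_two_eq_zero (R := F) one_ne_zero h
      have := FiniteField.even_card_iff_char_two.1 (ringChar.eq F 2)
      omega⟩
    obtain ⟨s, hs⟩ := FiniteField.isSquare_two_iff.2 h8
    exact Cfsg.Lib.QuatTwo.exists_S4 (s := s) (by rw [hs, pow_two])

end Cfsg.Agent.S0803
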