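import Cfsg.Statements.S0805
import Mathlib
import Cfsg.Agent.Lib.Classical.LinearOrders
-- import your own Cfsg.Agent.* helpers here

set_option autoImplicit false
open Cfsg

namespace Cfsg.Agent.S0805

set_option maxHeartbeats 1000000 in
/-- Subfield subgroups: let F be a finite field of odd order q and K a finite field with |K|^m = q, m ≥ 1. Then PSL_2(F) has a subgroup isomorphic to PSL_2(K), and has a subgroup isomorphic to PGL_2(K) if and only if m is even. -/
theorem result {F K : Type*} [Field F] [Fintype F] [Field K] [Fintype K] {q : ℕ} (hF : Fintype.card F = q) (hodd : Odd q) (m : ℕ) (hm : 1 ≤ m) (hK : Fintype.card K ^ m = q) : (∃ H : Subgroup (Matrix.ProjectiveSpecialLinearGroup (Fin 2) F), Nonempty (H ≃* Matrix.ProjectiveSpecialLinearGroup (Fin 2) K)) ∧ ((∃ H : Subgroup (Matrix.ProjectiveSpecialLinearGroup (Fin 2) F), Nonempty (H ≃* Matrix.ProjGenLinGroup (Fin 2) K)) ↔ Even m) := by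
  classical
  haveI : Fact (Fintype.card (Fin 2) ≠ 0) := ⟨by simp⟩
  have hk1 : 1 < Fintype.card K := Fintype.one_lt_card
  obtain ⟨a, hp, ha⟩ := FiniteField.card K (ringChar K)
  set p := ringChar K
  haveI : Fact p.Prime := ⟨hp⟩
  haveI : CharP K p := ringChar.charP K
  have hq : q = p ^ ((a : ℕ) * m) := by rw [← hK, ha, pow_mul]
  haveI : CharP F p := by
    have h0 : ((p : ℕ) : F) = 0 := by
      have h := FiniteField.cast_card_eq_zero F
      rw [hF, hq, Nat.cast_pow] at h
      exact eq_zero_of_pow_eq_zero h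
    obtain ⟨r, hr⟩ := CharP.exists F
    rcases (Nat.dvd_prime hp).1 ((CharP.cast_eq_zero_iff F r p).1 h0) with e | e
    · exact absurd e (CharP.char_ne_one F r)
    · exact e ▸ hr
  letI := ZMod.algebra K p
  letI := ZMod.algebra F p
  have hfK : Module.finrank (ZMod p) K = a := by
    have h := Module.card_eq_pow_finrank (K := ZMod p) (V := K)
    rw [ZMod.card, ha] at h
    exact (Nat.pow_right_injective hp.two_le h).symm
  have hfF : Module.finrank (ZMod p) F = a * m := by
    have h := Module.card_eq_pow_finrank (K := ZMod p) (V := F)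
    rw [ZMod.card, hF, hq] at h
    exact (Nat.pow_right_injective hp.two_le h).symm
  obtain ⟨ι₀⟩ := FiniteField.nonempty_algHom_of_finrank_dvd (F := ZMod p) (K := K) (L := F) (by rw [hfK, hfF]; exact dvd_mul_right _ _)
  let ι : K →+* F := ι₀.toRingHom
  have hι : Function.Injective ι := ι.injective
  have hq0 : Odd (Fintype.card K) := by
    have h := hodd
    rw [← hK] at h
    exact (Nat.odd_pow_iff (by omega)).1 h
  have h2 : (2 : F) ≠ 0 := fun e => by
    haveI : CharP F 2 := CharTwo.of_one_ne_zero_of_two_eq_zero one_ne_zero e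
    have : p = 2 := CharP.eq F ‹CharP F p› ‹CharP F 2›
    rw [ha, this] at hq0
    exact (Nat.not_even_iff_odd.2 hq0) ((even_two).pow_of_ne_zero a.ne_zero)
  let π := QuotientGroup.mk' (Subgroup.center (Matrix.SpecialLinearGroup (Fin 2) F))
  -- scalar preimages
  have hscal : ∀ (A : Matrix (Fin 2) (Fin 2) K) (c : F), A.map ι = Matrix.scalar (Fin 2) c → A = Matrix.scalar (Fin 2) (A 0 0) := by
    intro A c h
    have h00 := congrFun (congrFun h 0) 0
    have h01 := congrFun (congrFun h 0) 1
    have h10 := congrFun (congrFun h 1) 0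
    have h11 := congrFun (congrFun h 1) 1
    simp at h00 h01 h10 h11
    have e11 : A 1 1 = A 0 0 := hι (h11.trans h00.symm)
    ext i j
    fin_cases i <;> fin_cases j
    · simp
    · simpa using h01
    · simpa using h10
    · simp [e11]
  refine ⟨?_, ?_, ?_⟩
  · let φ : Matrix.SpecialLinearGroup (Fin 2) K →* Matrix.ProjectiveSpecialLinearGroup (Fin 2) F := π.comp (Matrix.SpecialLinearGroup.map ι)
    have hker : φ.ker = Subgroup.center (Matrix.SpecialLinearGroup (Fin 2) K) := by
      ext A
      rw [MonoidHom.mem_ker, MonoidHom.comp_apply, QuotientGroup.mk'_apply, QuotientGroup.eq_one_iff]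
      constructor
      · intro h
        obtain ⟨c, -, hc'⟩ := Matrix.SpecialLinearGroup.mem_center_iff.1 h
        have hA := hscal A.1 c hc'.symm
        refine Matrix.SpecialLinearGroup.mem_center_iff.2 ⟨A.1 0 0, ?_, hA.symm⟩
        have := A.2
        rw [hA] at this
        simpa [Matrix.scalar_apply, Matrix.det_diagonal, pow_two] using this
      · intro h
        obtain ⟨c, hc, hc'⟩ := Matrix.SpecialLinearGroup.mem_center_iff.1 h
        refine Matrix.SpecialLinearGroup.mem_center_iff.2 ⟨ι c, by rw [← map_pow, hc, map_one], ?_⟩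
        show _ = (A : Matrix (Fin 2) (Fin 2) K).map ι
        rw [← hc']
        ext i j
        by_cases h : i = j <;> simp [h]
    exact ⟨φ.range, ⟨(QuotientGroup.quotientKerEquivRange φ).symm.trans (QuotientGroup.quotientMulEquivOfEq hker)⟩⟩
  · rintro ⟨H, ⟨e⟩⟩
    by_contra hm'
    rw [Nat.not_even_iff_odd] at hm'
    have hcard : Nat.card (Matrix.ProjGenLinGroup (Fin 2) K) ∣ Nat.card (Matrix.ProjectiveSpecialLinearGroup (Fin 2) F) := by
      rw [← Nat.card_congr e.toEquiv]; exact Subgroup.card_subgroup_dvd_card H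
    rw [Cfsg.Lib.Classical.LinearOrders.card_pgl] at hcard
    have hK' := Cfsg.Lib.Classical.LinearOrders.card_sl_mul (F := K) (n := 2) (by omega)
    have hF' := Cfsg.Lib.Classical.LinearOrders.card_sl_mul (F := F) (n := 2) (by omega)
    have hP := Cfsg.Lib.Classical.LinearOrders.card_psl_mul (F := F) (n := 2) (by omega)
    rw [Fin.prod_univ_two] at hK' hF'
    simp only [Fin.val_zero, Fin.val_one, pow_zero, pow_one] at hK' hF'
    rw [hF] at hF' hP
    set c := Fintype.card K with hc
    have hg : Nat.gcd 2 (q - 1) = 2 := Nat.gcd_eq_left (by obtain ⟨t, ht⟩ := hodd; omega)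
    rw [hg] at hP
    set SK := Nat.card (Matrix.SpecialLinearGroup (Fin 2) K)
    set SF := Nat.card (Matrix.SpecialLinearGroup (Fin 2) F)
    set P := Nat.card (Matrix.ProjectiveSpecialLinearGroup (Fin 2) F)
    have hsK : SK = c * (c ^ 2 - 1) := by
      have : (c - 1) * SK = (c - 1) * (c * (c ^ 2 - 1)) := by
        rw [hK', show c ^ 2 - c = c * (c - 1) by rw [Nat.mul_sub, mul_one, pow_two]]; ring
      exact Nat.eq_of_mul_eq_mul_left (by omega) this
    have hq1 : 1 < q := by rw [← hF]; exact Fintype.one_lt_card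
    have hsF : SF = q * (q ^ 2 - 1) := by
      have : (q - 1) * SF = (q - 1) * (q * (q ^ 2 - 1)) := by
        rw [hF', show q ^ 2 - q = q * (q - 1) by rw [Nat.mul_sub, mul_one, pow_two]]; ring
      exact Nat.eq_of_mul_eq_mul_left (by omega) this
    rw [hsF] at hP
    have h2dvd : 2 * SK ∣ 2 * P := Nat.mul_dvd_mul_left 2 hcard
    rw [hP, hsK] at h2dvd
    obtain ⟨T, hT⟩ : c ^ 2 - 1 ∣ (c ^ 2) ^ m - 1 := Nat.sub_one_dvd_pow_sub_one (c ^ 2) m
    have hT' : q ^ 2 - 1 = (c ^ 2 - 1) * T := by rw [← hT, ← hK, ← pow_mul, ← pow_mul, mul_comm]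
    have hc2 : 1 ≤ c ^ 2 := Nat.one_le_pow _ _ (by omega)
    have hTodd : Odd T := by
      have hgeom : (c ^ 2 - 1) * T = (c ^ 2 - 1) * ∑ i ∈ Finset.range m, (c ^ 2) ^ i := by
        rw [← hT]
        exact (Nat.geomSum_eq (show 2 ≤ c ^ 2 by have := Nat.pow_le_pow_left (show 2 ≤ c by omega) 2; norm_num at this; omega) m ▸ (Nat.mul_div_cancel' (Nat.sub_one_dvd_pow_sub_one (c ^ 2) m)).symm)
      rw [Nat.eq_of_mul_eq_mul_left (by have := Nat.pow_le_pow_left (show 2 ≤ c by omega) 2; norm_num at this; omega) hgeom, Finset.odd_sum_iff_odd_card_odd,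
        Finset.filter_true_of_mem (fun i _ => (hq0.pow).pow), Finset.card_range]
      exact hm'
    have h2 : 2 * (c * (c ^ 2 - 1)) ∣ q * T * (c ^ 2 - 1) := by
      rw [show q * T * (c ^ 2 - 1) = q * (q ^ 2 - 1) by rw [hT']; ring]; exact h2dvd
    rw [show 2 * (c * (c ^ 2 - 1)) = 2 * c * (c ^ 2 - 1) by ring] at h2
    have h3 := Nat.dvd_of_mul_dvd_mul_right (by have := Nat.pow_le_pow_left (show 2 ≤ c by omega) 2; norm_num at this; omega) h2
    exact (Nat.not_even_iff_odd.2 (hodd.mul hTodd)) ((even_iff_two_dvd).2 ((dvd_mul_right 2 c).trans h3))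
  · intro hm'
    have hsq : ∀ x : K, IsSquare (ι x) := by
      intro x
      rcases eq_or_ne x 0 with rfl | hx
      · rw [map_zero]; exact IsSquare.zero
      have hxc : x ^ (Fintype.card K - 1) = 1 := FiniteField.pow_card_sub_one_eq_one x hx
      have hrF : ringChar F ≠ 2 := fun e => h2 (by
        haveI : CharP F 2 := e ▸ ringChar.charP F
        exact CharP.cast_eq_zero F 2)
      rw [FiniteField.isSquare_iff hrF ((map_ne_zero ι).2 hx), ← map_pow, hF]
      obtain ⟨k, hk⟩ : Fintype.card K - 1 ∣ q / 2 := by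
        obtain ⟨j, hj⟩ := hm'
        obtain ⟨t, ht⟩ := hq0
        set c := Fintype.card K
        obtain ⟨u, hu⟩ : c ^ 2 - 1 ∣ q - 1 := by
          rw [← hK, hj, ← two_mul, pow_mul]; exact Nat.sub_one_dvd_pow_sub_one _ _
        have e : c ^ 2 - 1 = (c - 1) * (2 * (t + 1)) := by
          rw [ht, Nat.add_sub_cancel, show (2 * t + 1) ^ 2 = 2 * t * (2 * (t + 1)) + 1 by ring, Nat.add_sub_cancel]
        refine ⟨(t + 1) * u, ?_⟩
        rw [e, show (c - 1) * (2 * (t + 1)) * u = 2 * ((c - 1) * ((t + 1) * u)) by ring] at hu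
        generalize (c - 1) * ((t + 1) * u) = w at hu ⊢
        omega
      rw [hk, pow_mul, hxc, one_pow, map_one]
    let s : GL (Fin 2) K → F := fun g => Classical.choose (hsq (g : Matrix (Fin 2) (Fin 2) K).det)
    have hs : ∀ g : GL (Fin 2) K, ι (g : Matrix (Fin 2) (Fin 2) K).det = s g * s g := fun g => Classical.choose_spec (hsq _)
    have hs0 : ∀ g : GL (Fin 2) K, s g ≠ 0 := fun g e => by
      have h := hs g
      rw [e, mul_zero, map_eq_zero] at h
      exact Matrix.GeneralLinearGroup.det_ne_zero g h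
    have hdet : ∀ g : GL (Fin 2) K, ((s g)⁻¹ • (g : Matrix (Fin 2) (Fin 2) K).map ι).det = 1 := fun g => by
      rw [Matrix.det_smul, Fintype.card_fin, ← RingHom.mapMatrix_apply, ← RingHom.map_det, hs]
      field_simp [hs0 g]
    let lift : GL (Fin 2) K → Matrix.SpecialLinearGroup (Fin 2) F := fun g => ⟨_, hdet g⟩
    have hsame : ∀ (A B : Matrix.SpecialLinearGroup (Fin 2) F) (c : F), (A : Matrix (Fin 2) (Fin 2) F) = c • (B : Matrix (Fin 2) (Fin 2) F) → π A = π B := by
      intro A B c h
      refine QuotientGroup.eq.2 ?_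
      have hc2 : c ^ 2 = 1 := by
        have hd := congrArg Matrix.det h
        rw [A.2, Matrix.det_smul, B.2, mul_one, Fintype.card_fin] at hd
        exact hd.symm
      refine Matrix.SpecialLinearGroup.mem_center_iff.2 ⟨c, by rw [Fintype.card_fin, hc2], ?_⟩
      have hBA : (A⁻¹ * B : Matrix.SpecialLinearGroup (Fin 2) F) = A⁻¹ * B := rfl
      have h1 : ((A⁻¹ : Matrix.SpecialLinearGroup (Fin 2) F) : Matrix (Fin 2) (Fin 2) F) * (A : Matrix (Fin 2) (Fin 2) F) = 1 := by
        rw [← Matrix.SpecialLinearGroup.coe_mul, inv_mul_cancel, Matrix.SpecialLinearGroup.coe_one]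
      rw [h, Matrix.mul_smul] at h1
      have h2 := congrArg (fun M => c • M) h1
      simp only [smul_smul] at h2
      rw [← pow_two, hc2, one_smul] at h2
      rw [Matrix.SpecialLinearGroup.coe_mul, h2, Matrix.smul_one_eq_diagonal]
      rfl
    let φ : GL (Fin 2) K →* Matrix.ProjectiveSpecialLinearGroup (Fin 2) F := MonoidHom.mk' (fun g => π (lift g)) fun g g' => by
      rw [← map_mul]
      refine hsame _ _ ((s (g * g'))⁻¹ * s g * s g') ?_
      show (s (g * g'))⁻¹ • ((g * g' : GL (Fin 2) K) : Matrix (Fin 2) (Fin 2) K).map ι = _ • (((s g)⁻¹ • (g : Matrix (Fin 2) (Fin 2) K).map ι) * ((s g')⁻¹ • (g' : Matrix (Fin 2) (Fin 2) K).map ι))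
      rw [Units.val_mul, Matrix.map_mul, Matrix.smul_mul, Matrix.mul_smul, smul_smul, smul_smul]
      congr 1
      field_simp [hs0 g, hs0 g', hs0 (g * g')]
    have hker : φ.ker = Subgroup.center (GL (Fin 2) K) := by
      ext g
      show π (lift g) = 1 ↔ _
      rw [QuotientGroup.mk'_apply, QuotientGroup.eq_one_iff]
      constructor
      · intro h
        obtain ⟨c, -, hc⟩ := Matrix.SpecialLinearGroup.mem_center_iff.1 h
        have hA := hscal (g : Matrix (Fin 2) (Fin 2) K) (s g * c) (by
          have := congrArg (fun M => s g • M) hc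
          simp only [lift, smul_smul, mul_inv_cancel₀ (hs0 g), one_smul] at this
          rw [← this]
          ext i j
          by_cases h : i = j <;> simp [h])
        refine Subgroup.mem_center_iff.2 fun y => Units.ext ?_
        show (y : Matrix (Fin 2) (Fin 2) K) * (g : Matrix (Fin 2) (Fin 2) K) = (g : Matrix (Fin 2) (Fin 2) K) * (y : Matrix (Fin 2) (Fin 2) K)
        rw [hA]
        exact ((Matrix.scalar_commute _ (fun r' => Commute.all _ _) _).eq).symm
      · intro h
        rw [Matrix.GeneralLinearGroup.center_eq_range_scalar] at h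
        obtain ⟨c, rfl⟩ := h
        refine Matrix.SpecialLinearGroup.mem_center_iff.2 ⟨(s (Matrix.GeneralLinearGroup.scalar (Fin 2) c))⁻¹ * ι c, ?_, ?_⟩
        · have h := hs (Matrix.GeneralLinearGroup.scalar (Fin 2) c)
          simp [Matrix.det_diagonal, ← pow_two] at h
          rw [Fintype.card_fin, mul_pow, h, ← mul_pow, inv_mul_cancel₀ (hs0 _), one_pow]
        · show _ = _ • _
          ext i j
          by_cases h : i = j <;> simp [h]
    exact ⟨φ.range, ⟨(QuotientGroup.quotientKerEquivRange φ).symm.trans (QuotientGroup.quotientMulEquivOfEq hker)⟩⟩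

end Cfsg.Agent.S0805
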