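import Cfsg.Statements.S0806
import Mathlib
import Cfsg.Agent.Lib.Classical.MinimalIndexSL2
import Cfsg.Agent.Lib.Classical.TwoDimTorusSylow
-- import your own Cfsg.Agent.* helpers here

set_option autoImplicit false
open Cfsg

namespace Cfsg.Agent.S0806

/-- Minimal index (Galois): if q ∉ {2, 3, 5, 7, 9, 11} then every proper subgroup of PSL_2(q) has index ≥ q + 1, and some subgroup has index exactly q + 1. -/
theorem result {F : Type*} [Field F] [Fintype F] {q : ℕ} (hF : Fintype.card F = q) (hq : q ∉ ({2, 3, 5, 7, 9, 11} : Finset ℕ)) : (∀ H : Subgroup (Matrix.ProjectiveSpecialLinearGroup (Fin 2) F), H ≠ ⊤ → q + 1 ≤ H.index) ∧ ∃ H : Subgroup (Matrix.ProjectiveSpecialLinearGroup (Fin 2) F), H.index = q + 1 := by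
  classical
  let π := QuotientGroup.mk' (Subgroup.center (Matrix.SpecialLinearGroup (Fin 2) F))
  have hπ : Function.Surjective π := QuotientGroup.mk'_surjective _
  have hneg : ∀ K : Subgroup (Matrix.ProjectiveSpecialLinearGroup (Fin 2) F), (-1 : Matrix.SpecialLinearGroup (Fin 2) F) ∈ K.comap π := fun K => by
    show π (-1) ∈ K
    rw [show π (-1) = 1 from (QuotientGroup.eq_one_iff _).2 (Subgroup.mem_center_iff.2 fun g => Subtype.ext (by simp))]
    exact K.one_mem
  have hidx : ∀ K : Subgroup (Matrix.ProjectiveSpecialLinearGroup (Fin 2) F), (K.comap π).index = K.index := fun K =>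
    Subgroup.index_comap_of_surjective _ hπ
  have hq1 := Fintype.one_lt_card (α := F)
  have hSL : Nat.card (Matrix.SpecialLinearGroup (Fin 2) F) = q * ((q + 1) * (q - 1)) := by
    rw [Cfsg.Lib.Classical.TwoDim.card_SL, hF]
  refine ⟨fun H hH => ?_, ?_⟩
  · have hne : H.comap π ≠ ⊤ := fun h => hH (by
      rw [← Subgroup.map_comap_eq_self_of_surjective hπ H, h, Subgroup.map_top_of_surjective π hπ])
    have hlt := Cfsg.Lib.Classical.MinIndex.card_lt (hF ▸ hq) (H.comap π) (hneg H) hne
    rw [hF] at hlt hq1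
    have hc := (H.comap π).card_mul_index
    rw [hSL, hidx] at hc
    by_contra hcon
    have hpq : q ^ 2 - 1 = (q + 1) * (q - 1) := by
      rw [← Nat.sq_sub_sq, one_pow]
    have h1 : Nat.card (H.comap π) * H.index ≤ Nat.card (H.comap π) * q := Nat.mul_le_mul_left _ (by omega)
    have h2 : Nat.card (H.comap π) * q < (q ^ 2 - 1) * q := Nat.mul_lt_mul_of_pos_right hlt (by omega)
    rw [hpq] at h2
    rw [hc, Nat.mul_comm q] at h1
    omega
  · refine ⟨(Cfsg.Lib.PStable.borel (⊤ : Subgroup (Matrix.SpecialLinearGroup (Fin 2) F))).map ((π.comp (⊤ : Subgroup (Matrix.SpecialLinearGroup (Fin 2) F)).subtype)), ?_⟩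
    set M := (⊤ : Subgroup (Matrix.SpecialLinearGroup (Fin 2) F))
    rw [Subgroup.index_map_eq _ (fun g => by obtain ⟨x, hx⟩ := hπ g; exact ⟨⟨x, trivial⟩, hx⟩) (fun z hz => ?_)]
    · refine le_antisymm (by rw [← hF]; exact Cfsg.Lib.Classical.MinIndex.index_borel_le M) ?_
      rw [← hF, ← Nat.card_eq_fintype_card, ← Finite.card_option]
      refine Nat.card_le_card_of_injective (fun o => o.elim ((1 : M) : M ⧸ Cfsg.Lib.PStable.borel M)
        fun t => ((⟨⟨!![t, -1; 1, 0], by simp [Matrix.det_fin_two]⟩, trivial⟩ : M) : M ⧸ Cfsg.Lib.PStable.borel M)) ?_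
      rintro (_ | s) (_ | t) h
      · rfl
      all_goals simp only [Option.elim] at h; rw [QuotientGroup.eq, Cfsg.Lib.PStable.mem_borel] at h
      all_goals rw [Cfsg.Lib.PStable.ent, Subgroup.coe_mul, Subgroup.coe_inv, Cfsg.Lib.PStable.mul_entry,
        (Cfsg.Lib.PStable.inv_entries _).2.2.1, (Cfsg.Lib.PStable.inv_entries _).2.2.2] at h
      all_goals simp at h
      rw [neg_add_eq_zero] at h
      rw [h]
    · rw [MonoidHom.mem_ker] at hz
      obtain ⟨r, -, hr⟩ := Matrix.SpecialLinearGroup.mem_center_iff.1 ((QuotientGroup.eq_one_iff (z : Matrix.SpecialLinearGroup (Fin 2) F)).1 hz)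
      show Cfsg.Lib.PStable.ent z 1 0 = 0
      simp [Cfsg.Lib.PStable.ent, ← hr]

end Cfsg.Agent.S0806
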