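import Cfsg.Statements.S0807
import Mathlib
import Cfsg.Agent.Lib.Classical.PSLTwoOdd

set_option autoImplicit false
open Cfsg
open scoped Matrix

namespace Cfsg.Agent.S0807

/-- For q odd, twelve times the number of Klein four-subgroups of PSL_2(q) equals the order of PSL_2(q). -/
theorem result {F : Type*} [Field F] [Fintype F] {q : ℕ} (hF : Fintype.card F = q) (hodd : Odd q) : 12 * Nat.card {V : Subgroup (Matrix.ProjectiveSpecialLinearGroup (Fin 2) F) // IsKleinFour V} = Nat.card (Matrix.ProjectiveSpecialLinearGroup (Fin 2) F) := by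
  have hq : Fintype.card F % 2 = 1 := by rw [hF]; exact Nat.odd_iff.1 hodd
  subst hF
  haveI h2 : NeZero (2 : F) := ⟨fun h => by
    haveI := CharTwo.of_one_ne_zero_of_two_eq_zero (R := F) one_ne_zero h
    have := FiniteField.even_card_iff_char_two.1 (ringChar.eq F 2)
    omega⟩
  rw [← Cfsg.Lib.PSLTwoOdd.card_pairs, ← Cfsg.Lib.PSLTwoOdd.card_klein_mul_six]
  ring

end Cfsg.Agent.S0807
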