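import Cfsg.Statements.S0808
import Mathlib
import Cfsg.Agent.Lib.Classical.PSLTwoOdd
-- import your own Cfsg.Agent.* helpers here

set_option autoImplicit false
open Cfsg
open scoped Matrix MatrixGroups

namespace Cfsg.Agent.S0808

variable {F : Type*} [Field F]

/-- A product of two non-squares is a square. -/
lemma isSquare_mul_of_not [Finite F] {a b : F} (ha : ¬ IsSquare a) (hb : ¬ IsSquare b) : IsSquare (a * b) := by
  classical
  haveI := Fintype.ofFinite F
  have a0 : a ≠ 0 := fun h => ha (h ▸ IsSquare.zero)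
  have b0 : b ≠ 0 := fun h => hb (h ▸ IsSquare.zero)
  rw [← quadraticChar_one_iff_isSquare (mul_ne_zero a0 b0), map_mul, quadraticChar_neg_one_iff_not_isSquare.2 ha,
    quadraticChar_neg_one_iff_not_isSquare.2 hb]
  rfl

/-- The signed set of the three standard quaternion units. -/
def Six (J B S : Matrix (Fin 2) (Fin 2) F) : Prop :=
  S = J ∨ S = -J ∨ S = B ∨ S = -B ∨ S = J * B ∨ S = -(J * B)

lemma six_neg {J B S : Matrix (Fin 2) (Fin 2) F} (h : Six J B S) : Six J B (-S) := by
  rcases h with rfl | rfl | rfl | rfl | rfl | rfl <;> simp [Six]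

/-- The standard anticommuting pair. -/
theorem std [Finite F] [NeZero (2 : F)] : ∃ J B : SL(2, F), J * J = -1 ∧ B * B = -1 ∧ B * J = -(J * B) ∧
    ∀ M : Matrix (Fin 2) (Fin 2) F, (2 : F) • M = M.trace • (1 : Matrix (Fin 2) (Fin 2) F) - (M * J.1).trace • J.1 - (M * B.1).trace • B.1
      - (M * (J.1 * B.1)).trace • (J.1 * B.1) := by
  obtain ⟨v, w, h⟩ := Cfsg.Lib.Fusion.PSLTwo.exists_rep (F := F) 0 1 (-1) 0 (by ring) (by ring)
  have h0 : v ^ 2 + w ^ 2 = -1 := by linear_combination -h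
  let J : SL(2, F) := ⟨!![0, -1; 1, 0], by simp [Matrix.det_fin_two]⟩
  let B : SL(2, F) := ⟨!![v, w; w, -v], by simp [Matrix.det_fin_two]; linear_combination -h0⟩
  refine ⟨J, B, ?_, ?_, ?_, fun M => ?_⟩
  · apply Subtype.ext; ext i j
    show (J.1 * J.1) i j = (-(1 : Matrix (Fin 2) (Fin 2) F)) i j
    fin_cases i <;> fin_cases j <;> simp [J, Matrix.mul_apply, Fin.sum_univ_two]
  · apply Subtype.ext; ext i j
    show (B.1 * B.1) i j = (-(1 : Matrix (Fin 2) (Fin 2) F)) i j
    fin_cases i <;> fin_cases j <;> simp [B, Matrix.mul_apply, Fin.sum_univ_two] <;> first | linear_combination h0 | ring1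
  · apply Subtype.ext; ext i j
    show (B.1 * J.1) i j = (-(J.1 * B.1)) i j
    fin_cases i <;> fin_cases j <;> simp [J, B, Matrix.mul_apply, Fin.sum_univ_two]
  · ext i j
    fin_cases i <;> fin_cases j <;> simp [J, B, Matrix.trace_fin_two, Matrix.mul_apply, Fin.sum_univ_two]
    · linear_combination (M 0 0 - M 1 1) * h0
    · linear_combination (M 0 1 + M 1 0) * h0
    · linear_combination (M 0 1 + M 1 0) * h0
    · linear_combination (M 1 1 - M 0 0) * h0

/-- Square roots of `-1` are traceless. -/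
lemma tr_zero {A : SL(2, F)} (h : A * A = -1) : A.1 0 0 + A.1 1 1 = 0 := by
  have h' : A⁻¹ = -A := inv_eq_of_mul_eq_one_right (by rw [mul_neg, h, neg_neg])
  have := congrFun (congrFun (congrArg Subtype.val h') 0) 0
  simp [Matrix.adjugate_fin_two] at this
  linear_combination this

lemma tr_zero' {A : SL(2, F)} (h : A * A = -1) : A.1.trace = 0 := by
  rw [Matrix.trace_fin_two]; exact tr_zero h

lemma tr_zero_mul {J B : SL(2, F)} (hJ : J * J = -1) (hB : B * B = -1) (hA : B * J = -(J * B)) :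
    (J.1 * B.1) 0 0 + (J.1 * B.1) 1 1 = 0 :=
  tr_zero (A := J * B) (by
    calc J * B * (J * B) = J * (B * J) * B := by simp only [mul_assoc]
      _ = _ := by rw [hA, mul_neg, neg_mul, ← mul_assoc, hJ, neg_mul, one_mul, neg_mul, neg_neg, hB])

section

variable [Finite F] [NeZero (2 : F)] {J B : SL(2, F)} (hJ : J * J = -1) (hB : B * B = -1) (hA : B * J = -(J * B))
  (hexp : ∀ M : Matrix (Fin 2) (Fin 2) F, (2 : F) • M = M.trace • (1 : Matrix (Fin 2) (Fin 2) F) - (M * J.1).trace • J.1 - (M * B.1).trace • B.1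
      - (M * (J.1 * B.1)).trace • (J.1 * B.1))

include hJ hB hA

omit [Finite F] [NeZero (2 : F)] in
lemma mat_rel : J.1 * J.1 = -1 ∧ B.1 * B.1 = -1 ∧ B.1 * J.1 = -(J.1 * B.1) :=
  ⟨congrArg Subtype.val hJ, congrArg Subtype.val hB, congrArg Subtype.val hA⟩

include hexp

lemma exists_intertwiner {X Y : SL(2, F)} (hX : X * X = -1) (hY : Y * Y = -1) (hXY : Y * X = -(X * Y)) :
    ∃ C : Matrix (Fin 2) (Fin 2) F, C.det ≠ 0 ∧ C * J.1 = X.1 * C ∧ C * B.1 = Y.1 * C := by
  classical
  obtain ⟨j2, b2, a2⟩ := mat_rel hJ hB hA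
  obtain ⟨x2, y2, xy⟩ := mat_rel hX hY hXY
  set Φ : Matrix (Fin 2) (Fin 2) F → Matrix (Fin 2) (Fin 2) F := fun M => M - X.1 * M * J.1 - Y.1 * M * B.1 - X.1 * Y.1 * M * (J.1 * B.1)
  have h1 : ∀ M, Φ M * J.1 = X.1 * Φ M ∧ Φ M * B.1 = Y.1 * Φ M := fun M => by
    have r1 : ∀ Z, J.1 * (J.1 * Z) = -Z := fun Z => by rw [← Matrix.mul_assoc, j2, neg_one_mul]
    have r2 : ∀ Z, X.1 * (X.1 * Z) = -Z := fun Z => by rw [← Matrix.mul_assoc, x2, neg_one_mul]
    have r3 : ∀ Z, Y.1 * (Y.1 * Z) = -Z := fun Z => by rw [← Matrix.mul_assoc, y2, neg_one_mul]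
    have r4 : ∀ Z, Y.1 * (X.1 * Z) = -(X.1 * (Y.1 * Z)) := fun Z => by rw [← Matrix.mul_assoc, xy, neg_mul, Matrix.mul_assoc]
    constructor <;>
      simp only [Φ, Matrix.sub_mul, Matrix.mul_sub, Matrix.mul_assoc, j2, b2, a2, r1, r2, r3, r4, mul_neg, neg_mul, mul_one, neg_neg] <;> abel
  obtain ⟨M, hM⟩ : ∃ M, Φ M ≠ 0 := by
    by_contra! h
    refine two_ne_zero (α := F) ?_
    have e0 := congrFun (congrFun (h (Matrix.single 0 0 1)) 0) 0
    have e1 := congrFun (congrFun (h (Matrix.single 0 1 1)) 0) 1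
    have hU := tr_zero_mul hJ hB hA
    simp [Matrix.mul_apply, Fin.sum_univ_two] at hU
    simp [Φ, Matrix.single_apply, Matrix.mul_apply, Fin.sum_univ_two] at e0 e1
    linear_combination e0 + e1 + (X.1 0 0) * tr_zero hJ + (Y.1 0 0) * tr_zero hB + (X.1 0 0 * Y.1 0 0 + X.1 0 1 * Y.1 1 0) * hU
  refine ⟨Φ M, fun hd => ?_, (h1 M).1, (h1 M).2⟩
  set C := Φ M
  obtain ⟨hCJ, hCB⟩ := h1 M
  set N := C.adjugate
  have hCN : C * N = 0 := by rw [Matrix.mul_adjugate, hd, zero_smul]
  have hall : ∀ Z : Matrix (Fin 2) (Fin 2) F, C * Z * N = 0 := by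
    intro Z
    have h2 : C * ((2 : F) • Z) * N = 0 := by
      rw [hexp Z]
      have eJ : C * (J.1 * N) = 0 := by rw [← Matrix.mul_assoc, hCJ, Matrix.mul_assoc, hCN, Matrix.mul_zero]
      have eB : C * (B.1 * N) = 0 := by rw [← Matrix.mul_assoc, hCB, Matrix.mul_assoc, hCN, Matrix.mul_zero]
      have eJB : C * (J.1 * (B.1 * N)) = 0 := by rw [← Matrix.mul_assoc, hCJ, Matrix.mul_assoc, eB, Matrix.mul_zero]
      simp only [Matrix.mul_sub, Matrix.sub_mul, Matrix.mul_smul, Matrix.smul_mul, Matrix.mul_one, Matrix.mul_assoc, hCN, eJ, eB, eJB, smul_zero, sub_zero]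
    rw [Matrix.mul_smul, Matrix.smul_mul] at h2
    exact (smul_eq_zero.1 h2).resolve_left two_ne_zero
  obtain ⟨i, k, hik⟩ : ∃ i k, C i k ≠ 0 := by
    by_contra! h; exact hM (Matrix.ext h)
  have hN : N = 0 := Matrix.ext fun l j => by
    have := congrFun (congrFun (hall (Matrix.single k l 1)) i) j
    simp [Matrix.mul_apply, Matrix.single_apply, ite_and, Fin.sum_univ_two] at this
    fin_cases k <;> fin_cases l <;> simp at this hik ⊢ <;> exact this.resolve_left hik
  apply hik
  have hN' : C.adjugate = 0 := hN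
  rw [Matrix.adjugate_fin_two] at hN'
  have a := congrFun (congrFun hN' 0) 0; have b := congrFun (congrFun hN' 0) 1
  have c := congrFun (congrFun hN' 1) 0; have d := congrFun (congrFun hN' 1) 1
  simp at a b c d
  fin_cases i <;> fin_cases k <;> simp [a, b, c, d]

lemma square_det (h2 : IsSquare (2 : F)) {C S T : Matrix (Fin 2) (Fin 2) F} (hC : C.det ≠ 0)
    (hS : Six J.1 B.1 S) (hT : Six J.1 B.1 T) (hCS : C * J.1 = S * C) (hCT : C * B.1 = T * C) : IsSquare C.det := by
  classical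
  obtain ⟨j2, b2, a2⟩ := mat_rel hJ hB hA
  have main : ∀ C S T : Matrix (Fin 2) (Fin 2) F, C.trace ≠ 0 → Six J.1 B.1 S → Six J.1 B.1 T → C * J.1 = S * C → C * B.1 = T * C → IsSquare C.det := by
    intro C S T ht hS hT hCS hCT
    have hid := hexp C.adjugate
    have hsum : (2 : F) • (1 : Matrix (Fin 2) (Fin 2) F) * (C.adjugate.trace • (1 : Matrix (Fin 2) (Fin 2) F)) =
        C.adjugate - J.1 * C.adjugate * J.1 - B.1 * C.adjugate * B.1 - (J.1 * B.1) * C.adjugate * (J.1 * B.1) := by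
      have key : ∀ M : Matrix (Fin 2) (Fin 2) F, (2 : F) • (M.trace • (1 : Matrix (Fin 2) (Fin 2) F)) = M - J.1 * M * J.1 - B.1 * M * B.1 - (J.1 * B.1) * M * (J.1 * B.1) := by
        intro M
        refine smul_right_injective _ (two_ne_zero (α := F)) ?_
        have r1 : ∀ Z, J.1 * (J.1 * Z) = -Z := fun Z => by rw [← Matrix.mul_assoc, j2, neg_one_mul]
        have r2 : ∀ Z, B.1 * (B.1 * Z) = -Z := fun Z => by rw [← Matrix.mul_assoc, b2, neg_one_mul]
        have r4 : ∀ Z, B.1 * (J.1 * Z) = -(J.1 * (B.1 * Z)) := fun Z => by rw [← Matrix.mul_assoc, a2, neg_mul, Matrix.mul_assoc]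
        calc (2 : F) • ((2 : F) • (M.trace • (1 : Matrix (Fin 2) (Fin 2) F)))
            = (2 : F) • M - J.1 * ((2 : F) • M) * J.1 - B.1 * ((2 : F) • M) * B.1 - (J.1 * B.1) * ((2 : F) • M) * (J.1 * B.1) := by
              rw [hexp M]
              simp only [Matrix.mul_sub, Matrix.sub_mul, Matrix.mul_smul, Matrix.smul_mul, Matrix.mul_assoc, Matrix.mul_one, Matrix.one_mul,
                j2, b2, a2, r1, r2, r4, mul_neg, neg_mul, smul_neg, neg_neg]
              module
          _ = _ := by simp only [Matrix.mul_smul, Matrix.smul_mul, smul_sub]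
      rw [Matrix.smul_mul, Matrix.one_mul]
      exact key _
    have hd : C * C.adjugate = C.det • (1 : Matrix (Fin 2) (Fin 2) F) := Matrix.mul_adjugate C
    have h3 := congrArg (C * ·) hsum
    have e1 : C * (J.1 * C.adjugate * J.1) = C.det • (S * J.1) := by
      rw [← Matrix.mul_assoc, ← Matrix.mul_assoc, hCS, Matrix.mul_assoc S, hd, Matrix.mul_smul, Matrix.smul_mul, Matrix.mul_one]
    have e2 : C * (B.1 * C.adjugate * B.1) = C.det • (T * B.1) := by
      rw [← Matrix.mul_assoc, ← Matrix.mul_assoc, hCT, Matrix.mul_assoc T, hd, Matrix.mul_smul, Matrix.smul_mul, Matrix.mul_one]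
    have e3 : C * ((J.1 * B.1) * C.adjugate * (J.1 * B.1)) = C.det • (S * T * (J.1 * B.1)) := by
      rw [show C * ((J.1 * B.1) * C.adjugate * (J.1 * B.1)) = (C * J.1) * (B.1 * C.adjugate) * (J.1 * B.1) by simp only [Matrix.mul_assoc], hCS,
        show S * C * (B.1 * C.adjugate) = S * ((C * B.1) * C.adjugate) by simp only [Matrix.mul_assoc], hCT, Matrix.mul_assoc T, hd, Matrix.mul_smul,
        Matrix.mul_one, Matrix.mul_smul, Matrix.smul_mul]
    simp only [Matrix.mul_sub, e1, e2, e3, hd] at h3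
    have h4 := congrArg Matrix.trace h3
    have htr : C.adjugate.trace = C.trace := by rw [Matrix.adjugate_fin_two, Matrix.trace_fin_two, Matrix.trace_fin_two]; simp; ring
    simp only [Matrix.smul_mul, Matrix.one_mul, Matrix.mul_smul, Matrix.mul_one, Matrix.trace_smul, Matrix.trace_sub, htr, smul_eq_mul] at h4
    have t1 : (1 : Matrix (Fin 2) (Fin 2) F).trace = 2 := by simp [Matrix.trace_one]
    have tJ : J.1.trace = 0 := tr_zero' hJ
    have tB : B.1.trace = 0 := tr_zero' hB
    have tU : (J.1 * B.1).trace = 0 := by rw [Matrix.trace_fin_two]; exact tr_zero_mul hJ hB hA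
    have r1 : ∀ Z, J.1 * (J.1 * Z) = -Z := fun Z => by rw [← Matrix.mul_assoc, j2, neg_one_mul]
    have r2 : ∀ Z, B.1 * (B.1 * Z) = -Z := fun Z => by rw [← Matrix.mul_assoc, b2, neg_one_mul]
    have r4 : ∀ Z, B.1 * (J.1 * Z) = -(J.1 * (B.1 * Z)) := fun Z => by rw [← Matrix.mul_assoc, a2, neg_mul, Matrix.mul_assoc]
    obtain ⟨k, hk, hk2⟩ : ∃ k : F, C.det * k = C.trace * C.trace ∧ IsSquare k := by
      obtain ⟨r, hr⟩ := h2
      refine ⟨(2 - (S * J.1).trace - (T * B.1).trace - (S * T * (J.1 * B.1)).trace) / 2, ?_, ?_⟩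
      · field_simp
        rw [t1] at h4
        linear_combination -h4
      · rcases hS with rfl | rfl | rfl | rfl | rfl | rfl <;> rcases hT with rfl | rfl | rfl | rfl | rfl | rfl <;>
          simp only [Matrix.mul_assoc, neg_mul, mul_neg, neg_neg, j2, b2, a2, r1, r2, r4, Matrix.mul_one, Matrix.trace_neg, t1, tJ, tB, tU, neg_zero, sub_zero] <;>
          norm_num [tU] <;>
          first
          | (refine ⟨0, ?_⟩; field_simp; all_goals ring1)
          | (refine ⟨1, ?_⟩; field_simp; all_goals ring1)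
          | (refine ⟨r, ?_⟩; rw [← hr]; field_simp; all_goals ring1)
          | (refine ⟨2, ?_⟩; field_simp; all_goals ring1)
    have hk0 : k ≠ 0 := fun h => ht (mul_self_eq_zero.1 (by rw [← hk, h, mul_zero]))
    obtain ⟨r, rfl⟩ := hk2
    exact ⟨C.trace / r, by rw [div_mul_div_comm, ← hk, mul_div_cancel_right₀ _ hk0]⟩
  have hstep : ∀ M : Matrix (Fin 2) (Fin 2) F, M.det = 1 → (∃ e : F, (e = 1 ∨ e = -1) ∧ M * J.1 = e • (J.1 * M)) → (∃ e : F, (e = 1 ∨ e = -1) ∧ M * B.1 = e • (B.1 * M)) →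
      (C * M).trace ≠ 0 → IsSquare C.det := by
    rintro M hM ⟨e, he, hMJ⟩ ⟨e', he', hMB⟩ ht
    have := main (C * M) (e • S) (e' • T) ht (by rcases he with rfl | rfl <;> simp [hS, six_neg hS]) (by rcases he' with rfl | rfl <;> simp [hT, six_neg hT])
      (by rw [Matrix.mul_assoc, hMJ, Matrix.mul_smul, ← Matrix.mul_assoc, hCS, Matrix.smul_mul, Matrix.mul_assoc])
      (by rw [Matrix.mul_assoc, hMB, Matrix.mul_smul, ← Matrix.mul_assoc, hCT, Matrix.smul_mul, Matrix.mul_assoc])
    rwa [Matrix.det_mul, hM, mul_one] at this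
  by_contra hns
  have t0 : C.trace = 0 := by by_contra h; exact hns (main C S T h hS hT hCS hCT)
  have tJ : (C * J.1).trace = 0 := by
    by_contra h; exact hns (hstep _ J.2 ⟨1, Or.inl rfl, (one_smul _ _).symm⟩ ⟨-1, Or.inr rfl, by rw [a2]; simp⟩ h)
  have tB : (C * B.1).trace = 0 := by
    by_contra h; exact hns (hstep _ B.2 ⟨-1, Or.inr rfl, by rw [a2]; simp⟩ ⟨1, Or.inl rfl, (one_smul _ _).symm⟩ h)
  have tU : (C * (J.1 * B.1)).trace = 0 := by
    by_contra h
    refine hns (hstep _ (by rw [Matrix.det_mul, J.2, B.2, one_mul]) ⟨-1, Or.inr rfl, ?_⟩ ⟨-1, Or.inr rfl, ?_⟩ h)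
    · rw [Matrix.mul_assoc, a2, mul_neg, ← Matrix.mul_assoc]; simp
    · rw [← Matrix.mul_assoc B.1, a2, neg_mul, Matrix.mul_assoc]; simp
  have := hexp C
  rw [t0, tJ, tB, tU] at this
  simp only [zero_smul, sub_zero] at this
  rw [(smul_eq_zero.1 this).resolve_left two_ne_zero, Matrix.det_zero] at hC
  exact hC rfl

end

/-- The four-group of an anticommuting pair. -/
def img (X Y : SL(2, F)) : Set (Matrix.ProjectiveSpecialLinearGroup (Fin 2) F) :=
  {1, QuotientGroup.mk' _ X, QuotientGroup.mk' _ Y, QuotientGroup.mk' _ (X * Y)}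

open Cfsg.Lib.PSLTwoOdd Cfsg.Lib.Fusion.PSLTwo in
lemma exists_pair [Finite F] [NeZero (2 : F)] (V : Subgroup (Matrix.ProjectiveSpecialLinearGroup (Fin 2) F)) (hV : IsKleinFour V) :
    ∃ X Y : SL(2, F), X * X = -1 ∧ Y * Y = -1 ∧ Y * X = -(X * Y) ∧ (V : Set (Matrix.ProjectiveSpecialLinearGroup (Fin 2) F)) = img X Y := by
  classical
  haveI := hV
  have hc : Nat.card V = 4 := IsKleinFour.card_four
  obtain ⟨x, hx⟩ : ∃ x : V, x ≠ 1 := by
    by_contra! h
    haveI : Subsingleton V := ⟨fun a b => (h a).trans (h b).symm⟩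
    have := Nat.card_of_subsingleton (1 : V); omega
  obtain ⟨y, hy1, hy2⟩ : ∃ y : V, y ≠ 1 ∧ y ≠ x := by
    by_contra! h
    have hs : (Set.univ : Set V) ⊆ {1, x} := fun z _ => by
      by_cases hz : z = 1
      · exact Or.inl hz
      · exact Or.inr (h z hz)
    have := Set.ncard_le_ncard hs
    rw [Set.ncard_univ, hc, Set.ncard_pair hx.symm] at this
    omega
  have hord : ∀ z : V, z ≠ 1 → orderOf (z : Matrix.ProjectiveSpecialLinearGroup (Fin 2) F) = 2 := fun z hz => by
    rw [Subgroup.orderOf_coe]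
    exact orderOf_eq_prime (by rw [pow_two, IsKleinFour.mul_self]) hz
  obtain ⟨X, hX⟩ := QuotientGroup.mk'_surjective _ (x : Matrix.ProjectiveSpecialLinearGroup (Fin 2) F)
  obtain ⟨Y, hY⟩ := QuotientGroup.mk'_surjective _ (y : Matrix.ProjectiveSpecialLinearGroup (Fin 2) F)
  have hX2 : X * X = -1 := by rw [← pow_two]; exact (orderOf_mk_eq_two X).1 (hX ▸ hord x hx)
  have hY2 : Y * Y = -1 := by rw [← pow_two]; exact (orderOf_mk_eq_two Y).1 (hY ▸ hord y hy1)
  have hxy1 : x * y ≠ 1 := fun h => hy2 (by rw [← IsKleinFour.inv_eq_self x]; exact (inv_eq_of_mul_eq_one_right h).symm)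
  have hXY2 : (X * Y) * (X * Y) = -1 := by
    rw [← pow_two]
    refine (orderOf_mk_eq_two (X * Y)).1 ?_
    rw [map_mul, hX, hY, ← Subgroup.coe_mul]
    exact hord _ hxy1
  have hanti : Y * X = -(X * Y) := by
    have := congrArg (fun Z => X * Z * Y) hXY2
    simp only [← mul_assoc, hX2, neg_mul, one_mul] at this
    simp only [mul_assoc, hY2, mul_neg, mul_one, neg_neg] at this
    exact this.trans (neg_mul _ _)
  refine ⟨X, Y, hX2, hY2, hanti, (Set.eq_of_subset_of_ncard_le ?_ ?_ (Set.toFinite _)).symm⟩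
  · rintro z (rfl | rfl | rfl | rfl)
    · exact one_mem V
    · rw [hX]; exact x.2
    · rw [hY]; exact y.2
    · rw [map_mul, hX, hY]; exact (x * y).2
  · rw [← Nat.card_coe_set_eq]
    show Nat.card V ≤ _
    have hne : ∀ a b : V, a ≠ b → (a : Matrix.ProjectiveSpecialLinearGroup (Fin 2) F) ≠ b := fun a b h e => h (Subtype.ext e)
    rw [hc, img, map_mul, hX, hY, ← Subgroup.coe_mul, ← Subgroup.coe_one V,
      Set.ncard_insert_of_notMem (by simp only [Set.mem_insert_iff, Set.mem_singleton_iff]; rintro (e | e | e) <;>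
        first | exact hne _ _ hx.symm e | exact hne _ _ hy1.symm e | exact hne _ _ hxy1.symm e),
      Set.ncard_insert_of_notMem (by simp only [Set.mem_insert_iff, Set.mem_singleton_iff]; rintro (e | e) <;>
        first | exact hne _ _ hy2.symm e | exact hne _ _ (fun h => hy1 (left_eq_mul.1 h)) e),
      Set.ncard_pair (fun e => hne _ _ (fun h => hx (right_eq_mul.1 h)) e)]

/-- Intertwining in `SL₂` gives conjugacy of four-groups. -/
lemma conj_img {X Y X' Y' : SL(2, F)} (g : SL(2, F)) (hX : g * X = X' * g) (hY : g * Y = Y' * g)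
    {V W : Subgroup (Matrix.ProjectiveSpecialLinearGroup (Fin 2) F)} (hV : (V : Set (Matrix.ProjectiveSpecialLinearGroup (Fin 2) F)) = img X Y)
    (hW : (W : Set (Matrix.ProjectiveSpecialLinearGroup (Fin 2) F)) = img X' Y') :
    W = V.map (MulAut.conj (QuotientGroup.mk' _ g : Matrix.ProjectiveSpecialLinearGroup (Fin 2) F)).toMonoidHom := by
  apply SetLike.coe_injective
  rw [Subgroup.coe_map, hV, hW]
  set G := QuotientGroup.mk' (Subgroup.center (SL(2, F))) g
  have c : ∀ {A A' : SL(2, F)}, g * A = A' * g → G * QuotientGroup.mk' _ A * G⁻¹ = QuotientGroup.mk' _ A' := fun {A A'} h => by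
    rw [← map_inv, ← map_mul, ← map_mul, h, mul_inv_cancel_right]
  have hXY : g * (X * Y) = (X' * Y') * g := by rw [← mul_assoc, hX, mul_assoc, hY, ← mul_assoc]
  simp only [img, Set.image_insert_eq, Set.image_singleton, MulEquiv.coe_toMonoidHom, MulAut.conj_apply, mul_one, mul_inv_cancel, c hX, c hY, c hXY]

/-- A matrix with square determinant gives an element of `SL₂` with the same intertwining. -/
lemma exists_sl {C : Matrix (Fin 2) (Fin 2) F} (hd : IsSquare C.det) (hC : C.det ≠ 0) :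
    ∃ g : SL(2, F), ∀ A A' : SL(2, F), C * A.1 = A'.1 * C → g * A = A' * g := by
  obtain ⟨r, hr⟩ := hd
  have hr0 : r ≠ 0 := by rintro rfl; simp at hr; exact hC hr
  refine ⟨⟨r⁻¹ • C, by rw [Matrix.det_smul, Fintype.card_fin, hr]; field_simp⟩, fun A A' h => Subtype.ext ?_⟩
  show (r⁻¹ • C) * A.1 = A'.1 * (r⁻¹ • C)
  rw [Matrix.smul_mul, h, Matrix.mul_smul]

/-- Conjugacy classes of four-groups in PSL_2(q), q odd: if q ≡ 3 or 5 (mod 8) all Klein four-subgroups are conjugate; if q ≡ 1 or 7 (mod 8) there are two Klein four-subgroups which are not conjugate, and every Klein four-subgroup is conjugate to one of them. -/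
theorem result {F : Type*} [Field F] [Fintype F] {q : ℕ} (hF : Fintype.card F = q) (hodd : Odd q) : ((q % 8 = 3 ∨ q % 8 = 5) → ∀ V W : Subgroup (Matrix.ProjectiveSpecialLinearGroup (Fin 2) F), IsKleinFour V → IsKleinFour W → ∃ g : Matrix.ProjectiveSpecialLinearGroup (Fin 2) F, W = V.map (MulAut.conj g).toMonoidHom) ∧ ((q % 8 = 1 ∨ q % 8 = 7) → ∃ V₁ V₂ : Subgroup (Matrix.ProjectiveSpecialLinearGroup (Fin 2) F), IsKleinFour V₁ ∧ IsKleinFour V₂ ∧ (¬ ∃ g : Matrix.ProjectiveSpecialLinearGroup (Fin 2) F, V₂ = V₁.map (MulAut.conj g).toMonoidHom) ∧ ∀ W : Subgroup (Matrix.ProjectiveSpecialLinearGroup (Fin 2) F), IsKleinFour W → (∃ g : Matrix.ProjectiveSpecialLinearGroup (Fin 2) F, W = V₁.map (MulAut.conj g).toMonoidHom) ∨ (∃ g : Matrix.ProjectiveSpecialLinearGroup (Fin 2) F, W = V₂.map (MulAut.conj g).toMonoidHom)) := by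
  classical
  subst hF
  haveI h2 : NeZero (2 : F) := ⟨fun h => by
    haveI := CharTwo.of_one_ne_zero_of_two_eq_zero (R := F) one_ne_zero h
    have := FiniteField.even_card_iff_char_two.1 (ringChar.eq F 2)
    have := Nat.odd_iff.1 hodd
    omega⟩
  obtain ⟨J, B, hJ, hB, hA, hexp⟩ := std (F := F)
  have inter : ∀ V : Subgroup (Matrix.ProjectiveSpecialLinearGroup (Fin 2) F), IsKleinFour V → ∃ X Y : SL(2, F),
      (V : Set (Matrix.ProjectiveSpecialLinearGroup (Fin 2) F)) = img X Y ∧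
      ∃ C : Matrix (Fin 2) (Fin 2) F, C.det ≠ 0 ∧ C * J.1 = X.1 * C ∧ C * B.1 = Y.1 * C := by
    intro V hV
    obtain ⟨X, Y, hX, hY, hXY, hV⟩ := exists_pair V hV
    exact ⟨X, Y, hV, exists_intertwiner hJ hB hA hexp hX hY hXY⟩
  have mkSub : ∀ X Y : SL(2, F), X * X = -1 → Y * Y = -1 → Y * X = -(X * Y) →
      ∃ V : Subgroup (Matrix.ProjectiveSpecialLinearGroup (Fin 2) F), IsKleinFour V ∧ (V : Set (Matrix.ProjectiveSpecialLinearGroup (Fin 2) F)) = img X Y := by
    intro X Y hX hY hXY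
    set x : Matrix.ProjectiveSpecialLinearGroup (Fin 2) F := QuotientGroup.mk' _ X
    set y : Matrix.ProjectiveSpecialLinearGroup (Fin 2) F := QuotientGroup.mk' _ Y
    have ox : orderOf x = 2 := (Cfsg.Lib.PSLTwoOdd.orderOf_mk_eq_two X).2 (by rw [pow_two, hX])
    have oy : orderOf y = 2 := (Cfsg.Lib.PSLTwoOdd.orderOf_mk_eq_two Y).2 (by rw [pow_two, hY])
    have oxy : orderOf (x * y) = 2 := by
      rw [← map_mul]
      exact (Cfsg.Lib.PSLTwoOdd.orderOf_mk_eq_two (X * Y)).2 (by
        rw [pow_two]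
        calc X * Y * (X * Y) = X * (Y * X) * Y := by simp only [mul_assoc]
          _ = _ := by rw [hXY, mul_neg, neg_mul, ← mul_assoc, hX, neg_mul, one_mul, neg_mul, neg_neg, hY])
    have hx : x * x = 1 := by rw [← pow_two]; have h := pow_orderOf_eq_one x; rwa [ox] at h
    have hy : y * y = 1 := by rw [← pow_two]; have h := pow_orderOf_eq_one y; rwa [oy] at h
    have hxy : (x * y) * (x * y) = 1 := by rw [← pow_two]; have h := pow_orderOf_eq_one (x * y); rwa [oxy] at h
    have hc : y * x = x * y := by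
      calc y * x = x * x * (y * x) * (y * y) := by rw [hx, hy, one_mul, mul_one]
        _ = x * ((x * y) * (x * y)) * y := by simp only [mul_assoc]
        _ = _ := by rw [hxy, mul_one]
    have hx1 : x ≠ 1 := fun h => by rw [h, orderOf_one] at ox; omega
    have hy1 : y ≠ 1 := fun h => by rw [h, orderOf_one] at oy; omega
    have hxy1 : x * y ≠ 1 := fun h => by rw [h, orderOf_one] at oxy; omega
    have hne : x ≠ y := fun h => hxy1 (by rw [h, hy])
    let V : Subgroup (Matrix.ProjectiveSpecialLinearGroup (Fin 2) F) :=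
      { carrier := img X Y
        one_mem' := Or.inl rfl
        mul_mem' := by
          have e1 : x * (x * y) = y := by rw [← mul_assoc, hx, one_mul]
          have e2 : y * (x * y) = x := by rw [← mul_assoc, hc, mul_assoc, hy, mul_one]
          have e3 : x * y * x = y := by rw [mul_assoc, hc, e1]
          have e4 : x * y * y = x := by rw [mul_assoc, hy, mul_one]
          intro a b ha hb
          simp only [img, map_mul, Set.mem_insert_iff, Set.mem_singleton_iff] at ha hb ⊢
          change a = 1 ∨ a = x ∨ a = y ∨ a = x * y at ha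
          change b = 1 ∨ b = x ∨ b = y ∨ b = x * y at hb
          change a * b = 1 ∨ a * b = x ∨ a * b = y ∨ a * b = x * y
          rcases ha with rfl | rfl | rfl | rfl <;> rcases hb with rfl | rfl | rfl | rfl <;>
            simp [hx, hy, hxy, hc, e1, e2, e3, e4]
        inv_mem' := by
          intro a ha
          simp only [img, map_mul, Set.mem_insert_iff, Set.mem_singleton_iff] at ha ⊢
          change a = 1 ∨ a = x ∨ a = y ∨ a = x * y at ha
          change a⁻¹ = 1 ∨ a⁻¹ = x ∨ a⁻¹ = y ∨ a⁻¹ = x * y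
          rcases ha with rfl | rfl | rfl | rfl <;> simp [inv_eq_of_mul_eq_one_right hx, inv_eq_of_mul_eq_one_right hy, inv_eq_of_mul_eq_one_right hxy] }
    refine ⟨V, ⟨?_, ?_⟩, rfl⟩
    · show Nat.card (img X Y) = 4
      rw [Nat.card_coe_set_eq, img, map_mul]
      change ({1, x, y, x * y} : Set _).ncard = 4
      rw [Set.ncard_insert_of_notMem (by simp [hx1.symm, hy1.symm, hxy1.symm]), Set.ncard_insert_of_notMem (by simp [hne, hy1]),
        Set.ncard_pair (fun e => hx1 (right_eq_mul.1 e))]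
    · have h1 : ∀ a : V, a ^ 2 = 1 := fun a => Subtype.ext (by
        have ha := a.2
        change a.1 = 1 ∨ a.1 = x ∨ a.1 = y ∨ a.1 = QuotientGroup.mk' _ (X * Y) at ha
        rw [map_mul] at ha
        rcases ha with e | e | e | e <;> rw [SubmonoidClass.coe_pow, e, pow_two] <;> first | exact one_mul _ | exact hx | exact hy | exact hxy)
      have hdvd : Monoid.exponent V ∣ 2 := Monoid.exponent_dvd_of_forall_pow_eq_one h1
      rcases (Nat.dvd_prime Nat.prime_two).1 hdvd with e | e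
      · exfalso
        have := Monoid.pow_exponent_eq_one (⟨x, Or.inr (Or.inl rfl)⟩ : V)
        rw [e, pow_one] at this
        exact hx1 (congrArg Subtype.val this)
      · exact e
  refine ⟨fun h8 => ?_, fun h8 => ?_⟩
  · have hns : ¬ IsSquare (2 : F) := by rw [FiniteField.isSquare_two_iff]; omega
    have std' : ∀ V : Subgroup (Matrix.ProjectiveSpecialLinearGroup (Fin 2) F), IsKleinFour V → ∀ V₀ : Subgroup (Matrix.ProjectiveSpecialLinearGroup (Fin 2) F),
        (V₀ : Set (Matrix.ProjectiveSpecialLinearGroup (Fin 2) F)) = img J B → ∃ g, V = V₀.map (MulAut.conj g).toMonoidHom := by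
      intro V hV V₀ hV₀
      obtain ⟨X, Y, hXY, C, hC, hCJ, hCB⟩ := inter V hV
      by_cases hs : IsSquare C.det
      · obtain ⟨g, hg⟩ := exists_sl hs hC
        exact ⟨_, conj_img g (hg _ _ hCJ) (hg _ _ hCB) hV₀ hXY⟩
      · obtain ⟨j2, b2, a2⟩ := mat_rel hJ hB hA
        set K := 1 + J.1
        have hK : K.det = 2 := by
          have := tr_zero hJ
          have hd := J.2
          rw [Matrix.det_fin_two] at hd
          simp [K, Matrix.det_fin_two]
          linear_combination this + hd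
        have hs' : IsSquare (C * K).det := by
          rw [Matrix.det_mul, hK]
          exact isSquare_mul_of_not hs hns
        obtain ⟨g, hg⟩ := exists_sl hs' (by rw [Matrix.det_mul, hK]; exact mul_ne_zero hC two_ne_zero)
        have e1 : C * K * J.1 = X.1 * (C * K) := by
          rw [Matrix.mul_assoc, show K * J.1 = J.1 * K by simp [K, Matrix.add_mul, Matrix.mul_add], ← Matrix.mul_assoc, hCJ, Matrix.mul_assoc]
        have e2 : C * K * B.1 = (X * Y).1 * (C * K) := by
          rw [Matrix.mul_assoc, show K * B.1 = J.1 * B.1 * K by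
            simp only [K, Matrix.add_mul, Matrix.mul_add, Matrix.one_mul, Matrix.mul_one, Matrix.mul_assoc, a2, mul_neg]
            rw [← Matrix.mul_assoc J.1 J.1, j2, neg_mul, Matrix.one_mul, neg_neg, add_comm]]
          simp only [← Matrix.mul_assoc]
          rw [hCJ, Matrix.mul_assoc X.1, hCB, Matrix.SpecialLinearGroup.coe_mul]
          simp only [Matrix.mul_assoc]
        refine ⟨_, conj_img g (hg _ _ e1) (hg _ _ e2) hV₀ ?_⟩
        rw [hXY, img, img]
        have hx2 : (QuotientGroup.mk' (Subgroup.center (SL(2, F))) X) * QuotientGroup.mk' _ X = 1 := by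
          have hVm : QuotientGroup.mk' _ X ∈ (V : Set (Matrix.ProjectiveSpecialLinearGroup (Fin 2) F)) := by rw [hXY]; exact Or.inr (Or.inl rfl)
          haveI := hV
          exact congrArg Subtype.val (IsKleinFour.mul_self (⟨_, hVm⟩ : V))
        rw [map_mul (QuotientGroup.mk' _) X (X * Y), map_mul, ← mul_assoc, hx2, one_mul]
        ext z
        simp only [Set.mem_insert_iff, Set.mem_singleton_iff]
        tauto
    intro V W hV hW
    obtain ⟨V₀, -, hV₀⟩ := mkSub J B hJ hB hA
    obtain ⟨g, hg⟩ := std' V hV V₀ hV₀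
    obtain ⟨g', hg'⟩ := std' W hW V₀ hV₀
    refine ⟨g' * g⁻¹, ?_⟩
    rw [hg', hg, Subgroup.map_map]
    congr 1
    ext z
    simp [mul_assoc]
  · have hs2 : IsSquare (2 : F) := by rw [FiniteField.isSquare_two_iff]; omega
    obtain ⟨j2, b2, a2⟩ := mat_rel hJ hB hA
    obtain ⟨ν, hν⟩ := FiniteField.exists_nonsquare (F := F) (by
      intro h
      haveI : CharP F 2 := h ▸ ringChar.charP F
      exact two_ne_zero (α := F) CharTwo.two_eq_zero)
    have hν0 : ν ≠ 0 := fun h => hν (h ▸ ⟨0, by ring⟩)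
    let D : Matrix (Fin 2) (Fin 2) F := !![ν, 0; 0, 1]
    let D' : Matrix (Fin 2) (Fin 2) F := !![ν⁻¹, 0; 0, 1]
    have hD : D * D' = 1 := by ext i j; fin_cases i <;> fin_cases j <;> simp [D, D', hν0]
    have hD' : D' * D = 1 := mul_eq_one_comm.1 hD
    let cj : SL(2, F) → SL(2, F) := fun A => ⟨D * A.1 * D', by
      rw [Matrix.det_mul, Matrix.det_mul, A.2, mul_one, ← Matrix.det_mul, hD, Matrix.det_one]⟩
    have cjm : ∀ A A' : SL(2, F), cj (A * A') = cj A * cj A' := fun A A' => Subtype.ext (by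
      show D * (A.1 * A'.1) * D' = (D * A.1 * D') * (D * A'.1 * D')
      rw [show (D * A.1 * D') * (D * A'.1 * D') = D * A.1 * (D' * D) * (A'.1 * D') by simp only [Matrix.mul_assoc], hD', Matrix.mul_one]
      simp only [Matrix.mul_assoc])
    have cjn : ∀ A : SL(2, F), cj (-A) = -cj A := fun A => Subtype.ext (by
      show D * (-A).1 * D' = -(D * A.1 * D')
      rw [Matrix.SpecialLinearGroup.coe_neg, Matrix.mul_neg, Matrix.neg_mul])
    have cj1 : cj (-1) = -1 := by rw [cjn]; congr 1; exact Subtype.ext (by show D * 1 * D' = 1; rw [Matrix.mul_one, hD])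
    obtain ⟨V₁, hk1, hV₁⟩ := mkSub J B hJ hB hA
    obtain ⟨V₂, hk2, hV₂⟩ := mkSub (cj J) (cj B) (by rw [← cjm, hJ, cj1]) (by rw [← cjm, hB, cj1]) (by rw [← cjm, ← cjm, hA, cjn])
    refine ⟨V₁, V₂, hk1, hk2, ?_, ?_⟩
    · rintro ⟨g, hg⟩
      obtain ⟨G, rfl⟩ := QuotientGroup.mk'_surjective _ g
      have himg : ∀ A : SL(2, F), (QuotientGroup.mk' _ A : Matrix.ProjectiveSpecialLinearGroup (Fin 2) F) ∈ V₁ → A * A = -1 →
          ∃ S : Matrix (Fin 2) (Fin 2) F, Six J.1 B.1 S ∧ (D' * G.1) * A.1 = S * (D' * G.1) := by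
        intro A hA' hA2
        have hmem : (QuotientGroup.mk' _ (G * A * G⁻¹) : Matrix.ProjectiveSpecialLinearGroup (Fin 2) F) ∈ img (cj J) (cj B) := by
          rw [← hV₂, SetLike.mem_coe, hg]
          exact ⟨_, hA', by simp⟩
        obtain ⟨T, hT, hGT⟩ : ∃ T : SL(2, F), (T = J ∨ T = -J ∨ T = B ∨ T = -B ∨ T = J * B ∨ T = -(J * B)) ∧ G * A * G⁻¹ = cj T := by
          rcases hmem with h | h | h | h
          · exfalso
            rw [← map_one (QuotientGroup.mk' _), Cfsg.Lib.PSLTwoOdd.mk_eq_mk_iff] at h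
            have hA1 : A = 1 ∨ A = -1 := by
              rcases h with h | h
              · left; rwa [mul_inv_eq_one, mul_eq_left] at h
              · right
                have := congrArg (fun Z => G⁻¹ * Z * G) h
                simpa [mul_assoc] using this
            rcases hA1 with rfl | rfl <;> simp [Cfsg.Lib.PSLTwoOdd.neg_one_ne_one.symm] at hA2
          all_goals rcases (Cfsg.Lib.PSLTwoOdd.mk_eq_mk_iff _ _).1 h with e | e
          · exact ⟨J, by tauto, e⟩
          · exact ⟨-J, by tauto, by rw [cjn]; exact e⟩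
          · exact ⟨B, by tauto, e⟩
          · exact ⟨-B, by tauto, by rw [cjn]; exact e⟩
          · exact ⟨J * B, by tauto, e.trans (cjm _ _).symm⟩
          · exact ⟨-(J * B), by tauto, by rw [cjn, cjm]; exact e⟩
        refine ⟨T.1, by rcases hT with rfl | rfl | rfl | rfl | rfl | rfl <;> simp [Six], ?_⟩
        have h0 : G * A = cj T * G := by rw [← hGT, inv_mul_cancel_right]
        have h := congrArg Subtype.val h0
        change G.1 * A.1 = D * T.1 * D' * G.1 at h
        rw [Matrix.mul_assoc, h]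
        simp only [← Matrix.mul_assoc]
        rw [hD', Matrix.one_mul]
      obtain ⟨S, hS, hSe⟩ := himg J (by rw [← SetLike.mem_coe, hV₁]; exact Or.inr (Or.inl rfl)) hJ
      obtain ⟨T, hT, hTe⟩ := himg B (by rw [← SetLike.mem_coe, hV₁]; exact Or.inr (Or.inr (Or.inl rfl))) hB
      have hdet : (D' * G.1).det = ν⁻¹ := by rw [Matrix.det_mul, G.2, mul_one]; simp [D', Matrix.det_fin_two]
      have := square_det hJ hB hA hexp hs2 (by rw [hdet]; exact inv_ne_zero hν0) hS hT hSe hTe
      rw [hdet] at this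
      exact hν (by simpa using this.inv)
    · intro W hW
      obtain ⟨X, Y, hXY, C, hC, hCJ, hCB⟩ := inter W hW
      by_cases hs : IsSquare C.det
      · obtain ⟨g, hg⟩ := exists_sl hs hC
        exact Or.inl ⟨_, conj_img g (hg _ _ hCJ) (hg _ _ hCB) hV₁ hXY⟩
      · have hdet : D'.det = ν⁻¹ := by simp [D', Matrix.det_fin_two]
        obtain ⟨g, hg⟩ := exists_sl (C := C * D') (by
          rw [Matrix.det_mul, hdet]
          exact isSquare_mul_of_not hs fun h => hν (by simpa using h.inv))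
          (by rw [Matrix.det_mul, hdet]; exact mul_ne_zero hC (inv_ne_zero hν0))
        have key : ∀ A A' : SL(2, F), C * A.1 = A'.1 * C → (C * D') * (cj A).1 = A'.1 * (C * D') := fun A A' h => by
          show (C * D') * (D * A.1 * D') = _
          rw [show (C * D') * (D * A.1 * D') = C * (D' * D) * A.1 * D' by simp only [Matrix.mul_assoc], hD', Matrix.mul_one, h, Matrix.mul_assoc]
        exact Or.inr ⟨_, conj_img g (hg _ _ (key _ _ hCJ)) (hg _ _ (key _ _ hCB)) hV₂ hXY⟩

end Cfsg.Agent.S0808
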