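import Cfsg.Statements.S0809
import Mathlib
import Cfsg.Agent.Lib.Classical.PSLTwoOdd

set_option autoImplicit false
open Cfsg
open scoped Matrix

namespace Cfsg.Agent.S0809

/-- In SL_2(q), q odd: any two subgroups of order 4 are conjugate, and the normaliser of a subgroup of order 4 has order 2(q − 1) if q ≡ 1 (mod 4) and 2(q + 1) if q ≡ 3 (mod 4); consequently all involutions of PSL_2(q) are conjugate. -/
theorem result {F : Type*} [Field F] [Fintype F] {q : ℕ} (hF : Fintype.card F = q) (hodd : Odd q) (A : Subgroup (Matrix.SpecialLinearGroup (Fin 2) F)) (hA : Nat.card A = 4) : (∀ B : Subgroup (Matrix.SpecialLinearGroup (Fin 2) F), Nat.card B = 4 → ∃ g : Matrix.SpecialLinearGroup (Fin 2) F, B = A.map (MulAut.conj g).toMonoidHom) ∧ (q % 4 = 1 → Nat.card ↥(Subgroup.normalizer (A : Set (Matrix.SpecialLinearGroup (Fin 2) F))) = 2 * (q - 1)) ∧ (q % 4 = 3 → Nat.card ↥(Subgroup.normalizer (A : Set (Matrix.SpecialLinearGroup (Fin 2) F)))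 = 2 * (q + 1)) ∧ (∀ x y : Matrix.ProjectiveSpecialLinearGroup (Fin 2) F, orderOf x = 2 → orderOf y = 2 → IsConj x y) := by
  have hq : Fintype.card F % 2 = 1 := by rw [hF]; exact Nat.odd_iff.1 hodd
  subst hF
  haveI h2 : NeZero (2 : F) := ⟨fun h => by
    haveI := CharTwo.of_one_ne_zero_of_two_eq_zero (R := F) one_ne_zero h
    have := FiniteField.even_card_iff_char_two.1 (ringChar.eq F 2)
    omega⟩
  obtain ⟨M, hM⟩ := Cfsg.Lib.PSLTwoOdd.exists_conj_zpowers_jay A hA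
  have hn : Nat.card ↥(Subgroup.normalizer (A : Set (Matrix.SpecialLinearGroup (Fin 2) F))) =
      2 * Nat.card (Cfsg.Lib.PSLTwoOdd.Circ F 1) := by
    rw [hM, ← Subgroup.map_equiv_normalizer_eq, Subgroup.card_map_of_injective (MulEquiv.injective _),
      Cfsg.Lib.PSLTwoOdd.card_normalizer_jay]
  refine ⟨fun B hB => ?_, fun h4 => ?_, fun h4 => ?_, fun x y => Cfsg.Lib.Fusion.PSLTwo.isConj_involutions x y⟩
  · obtain ⟨N, hN⟩ := Cfsg.Lib.PSLTwoOdd.exists_conj_zpowers_jay B hB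
    refine ⟨N * M⁻¹, ?_⟩
    rw [hN, hM, Subgroup.map_map]
    congr 1
    ext z
    simp [mul_assoc]
  · rw [hn, Cfsg.Lib.PSLTwoOdd.card_circ.1 h4]
  · rw [hn, Cfsg.Lib.PSLTwoOdd.card_circ.2 h4]

end Cfsg.Agent.S0809
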