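import Cfsg.Statements.S0811
import Mathlib
import Cfsg.Agent.Lib.Classical.NonsplitDihedralMax
import Cfsg.Agent.Lib.Classical.DihedralIso
-- import your own Cfsg.Agent.* helpers here

set_option autoImplicit false
open Cfsg
open Cfsg.Lib.Classical.NsDih Cfsg.Lib.Classical.SplitDih

namespace Cfsg.Agent.S0811

/-- For q ∉ {2, 7, 9}, PSL_2(q) has a maximal subgroup isomorphic to the dihedral group of order 2(q + 1)/d, d = gcd(2, q − 1). -/
theorem result {F : Type*} [Field F] [Fintype F] {q : ℕ} (hF : Fintype.card F = q) (hq : q ∉ ({2, 7, 9} : Finset ℕ)) : ∃ H : Subgroup (Matrix.ProjectiveSpecialLinearGroup (Fin 2) F), IsCoatom H ∧ Nonempty (H ≃* DihedralGroup ((q + 1) / Nat.gcd 2 (q - 1))) := by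
  classical
  simp only [Finset.mem_insert, Finset.mem_singleton, not_or] at hq
  obtain ⟨ν, hν⟩ := exists_irr (F := F)
  obtain ⟨w, hw⟩ := exists_isW hν
  let π := QuotientGroup.mk' (Subgroup.center (Matrix.SpecialLinearGroup (Fin 2) F))
  have hπ : Function.Surjective π := QuotientGroup.mk'_surjective _
  have hker : ∀ z, π z = 1 ↔ z ∈ Subgroup.center (Matrix.SpecialLinearGroup (Fin 2) F) := fun z => QuotientGroup.eq_one_iff z
  let H : Subgroup (Matrix.ProjectiveSpecialLinearGroup (Fin 2) F) := (nor ν).map π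
  have hHc : H.comap π = nor ν := by
    rw [Subgroup.comap_map_eq, QuotientGroup.ker_mk', sup_eq_left.2 (center_le.trans tor_le)]
  have hHtop : H ≠ ⊤ := fun h => by
    have h1 : Nat.card (Matrix.SpecialLinearGroup (Fin 2) F) ≤ Nat.card (nor ν) := by
      rw [← hHc, h, Subgroup.comap_top, Subgroup.card_top]
    have hq1 := Fintype.one_lt_card (α := F)
    -- at least q² elements
    have h2 : (q * q : ℕ) ≤ Nat.card (Matrix.SpecialLinearGroup (Fin 2) F) := by
      rw [← hF, ← Fintype.card_prod, ← Nat.card_eq_fintype_card]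
      refine Nat.card_le_card_of_injective (fun ab : F × F => Cfsg.Agent.SL2RankOne.up ab.1 * Cfsg.Agent.SL2RankOne.lo ab.2) fun x y e => ?_
      have e1 := congrArg (fun z : Matrix.SpecialLinearGroup (Fin 2) F => z 1 0) e
      have e2 := congrArg (fun z : Matrix.SpecialLinearGroup (Fin 2) F => z 0 1) e
      simp [mul_ap, Cfsg.Agent.SL2RankOne.up_coe, Cfsg.Agent.SL2RankOne.lo_coe] at e1 e2
      exact Prod.ext e2 e1
    rw [card_nor hν] at h1
    rw [hF] at h1 hq1
    have h3 : q * q ≤ 2 * (q + 1) := h2.trans h1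
    have : q ≤ 2 := by nlinarith
    omega
  refine ⟨H, ⟨hHtop, fun K hK => ?_⟩, ?_⟩
  · have hle : nor ν ≤ K.comap π := hHc ▸ Subgroup.comap_mono hK.le
    rcases nor_max hν ⟨hF ▸ hq.2.1, hF ▸ hq.2.2⟩ hle with e | e
    · refine absurd ?_ hK.ne'
      rw [← Subgroup.map_comap_eq_self_of_surjective hπ K, e]
    · rw [← Subgroup.map_comap_eq_self_of_surjective hπ K, e, Subgroup.map_top_of_surjective π hπ]
  let f : tor ν →* H := (π.comp (tor ν).subtype).codRestrict H fun t => Subgroup.mem_map_of_mem π (tor_le t.2)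
  haveI := isCyclic_tor hν
  haveI : IsCyclic f.range := isCyclic_of_surjective f.rangeRestrict f.rangeRestrict_surjective
  have hk : f.ker = (Subgroup.center (Matrix.SpecialLinearGroup (Fin 2) F)).subgroupOf (tor ν) := by
    ext t
    rw [MonoidHom.mem_ker, Subgroup.mem_subgroupOf, ← hker]
    exact ⟨fun h => congrArg Subtype.val h, fun h => Subtype.ext h⟩
  have hroot : rootsOfUnity (max (Fintype.card (Fin 2)) 1) F = (powMonoidHom 2 : Fˣ →* Fˣ).ker := by
    ext u; simp [mem_rootsOfUnity]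
  have hcard : Nat.card f.range = (q + 1) / Nat.gcd 2 (q - 1) := by
    have h1 := f.ker.card_mul_index
    rw [Subgroup.index_ker, hk, Nat.card_congr (Subgroup.subgroupOfEquivOfLe center_le).toEquiv,
      Nat.card_congr (Matrix.SpecialLinearGroup.center_equiv_rootsOfUnity (n := Fin 2) (R := F)).toEquiv,
      hroot, IsCyclic.card_powMonoidHom_ker, Nat.card_units, card_tor hν, Nat.card_eq_fintype_card (α := F), hF, Nat.gcd_comm] at h1
    exact (Nat.div_eq_of_eq_mul_right (Nat.gcd_pos_of_pos_left _ two_pos) h1.symm).symm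
  let s : H := ⟨π w, Subgroup.mem_map_of_mem π (Or.inr hw)⟩
  have hval : ∀ a b : H, (a : Matrix.ProjectiveSpecialLinearGroup (Fin 2) F) = b → a = b := fun a b h => Subtype.ext h
  have hneg : (-1 : Matrix.SpecialLinearGroup (Fin 2) F) ∈ Subgroup.center _ :=
    Subgroup.mem_center_iff.2 fun g => Subtype.ext (by simp)
  refine Cfsg.Lib.Classical.nonempty_mulEquiv_dihedral f.range hcard ?_ s (hval _ _ ?_) ?_ ?_ ?_
  · rw [← hcard]; exact Nat.card_pos.ne'
  · show π w * π w = 1
    rw [← map_mul, hw.sq]; exact (hker _).2 hneg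
  · rintro ⟨t, ht⟩
    have h : π (t : Matrix.SpecialLinearGroup (Fin 2) F) = π w := congrArg Subtype.val ht
    have hz := (hker (t.1⁻¹ * w)).1 (by rw [map_mul, map_inv, h, inv_mul_cancel])
    have hwt : w ∈ tor ν := by
      have := (tor ν).mul_mem t.2 (center_le (ν := ν) hz)
      rwa [mul_inv_cancel_left] at this
    have h2 : 2 * (Nat.card (tor ν)) ≤ Nat.card (nor ν) := by rw [card_nor hν, card_tor hν]
    have h3 : Nat.card (nor ν) ≤ Nat.card (tor ν) := Nat.card_le_card_of_injective (fun g => (⟨g.1, by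
      rcases g.2 with hg | hg
      · exact hg
      · have := (tor ν).mul_mem hwt (hw.inv.mul_mul hg)
        rwa [mul_inv_cancel_left] at this⟩ : tor ν)) fun a b e => Subtype.ext (congrArg (fun z : tor ν => z.1) e)
    have := card_tor hν
    omega
  · rintro r ⟨t, rfl⟩
    refine hval _ _ ?_
    show π w * π (t : Matrix.SpecialLinearGroup (Fin 2) F) * π w = (π (t : Matrix.SpecialLinearGroup (Fin 2) F))⁻¹
    rw [← map_mul, ← map_mul, eq_inv_iff_mul_eq_one, ← map_mul, hker,
      show w * t.1 * w * t.1 = (w * t.1) * (w * t.1) by group, (hw.mul t.2).sq]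
    exact hneg
  · rintro ⟨_, m, hm, rfl⟩
    rcases hm with hm | hm
    · exact Or.inl ⟨⟨m, hm⟩, hval _ _ rfl⟩
    · exact Or.inr ⟨⟨w * m, hw.mul_mul hm⟩, hval _ _ (map_mul π w m)⟩

end Cfsg.Agent.S0811
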