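import Cfsg.Statements.S0812
import Mathlib
import Cfsg.Agent.Lib.Classical.SplitDihedralMax
import Cfsg.Agent.Lib.Classical.DihedralIso
-- import your own Cfsg.Agent.* helpers here

set_option autoImplicit false
open Cfsg
open Cfsg.Lib.Classical.SplitDih

namespace Cfsg.Agent.S0812

/-- For q ∉ {2, 3, 5, 7, 9, 11}, PSL_2(q) has a maximal subgroup isomorphic to the dihedral group of order 2(q − 1)/d, d = gcd(2, q − 1). -/
theorem result {F : Type*} [Field F] [Fintype F] {q : ℕ} (hF : Fintype.card F = q) (hq : q ∉ ({2, 3, 5, 7, 9, 11} : Finset ℕ)) : ∃ H : Subgroup (Matrix.ProjectiveSpecialLinearGroup (Fin 2) F), IsCoatom H ∧ Nonempty (H ≃* DihedralGroup ((q - 1) / Nat.gcd 2 (q - 1))) := by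
  classical
  simp only [Finset.mem_insert, Finset.mem_singleton, not_or] at hq
  have hpp : IsPrimePow q := hF ▸ FiniteField.isPrimePow_card F
  have hq' : Even (Fintype.card F) ∨ 13 ≤ Fintype.card F := by
    rw [hF, Nat.even_iff]
    by_contra h
    obtain ⟨h1, h2⟩ := not_or.1 h
    have := hpp.two_le
    omega
  have hq4 : 4 ≤ q := by have := hpp.two_le; omega
  let π := QuotientGroup.mk' (Subgroup.center (Matrix.SpecialLinearGroup (Fin 2) F))
  have hπ : Function.Surjective π := QuotientGroup.mk'_surjective _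
  let H : Subgroup (Matrix.ProjectiveSpecialLinearGroup (Fin 2) F) := (mono F).map π
  have hcen : Subgroup.center (Matrix.SpecialLinearGroup (Fin 2) F) ≤ mono F := fun z hz => by
    obtain ⟨r, -, hr⟩ := Matrix.SpecialLinearGroup.mem_center_iff.1 hz
    left
    simp [← hr]
  have hker : ∀ z, π z = 1 ↔ z ∈ Subgroup.center (Matrix.SpecialLinearGroup (Fin 2) F) := fun z => QuotientGroup.eq_one_iff z
  have hHc : H.comap π = mono F := by
    rw [Subgroup.comap_map_eq, QuotientGroup.ker_mk', sup_eq_left.2 hcen]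
  have hHtop : H ≠ ⊤ := fun h => by
    have : Cfsg.Agent.SL2RankOne.up (1 : F) ∈ mono F := by rw [← hHc, h]; trivial
    rcases this with ⟨h1, -⟩ | ⟨h1, -⟩ <;> simp [Cfsg.Agent.SL2RankOne.up_coe] at h1
  refine ⟨H, ⟨hHtop, fun K hK => ?_⟩, ?_⟩
  · have hle : mono F ≤ K.comap π := hHc ▸ Subgroup.comap_mono hK.le
    rcases mono_max hq' hle with e | e
    · refine absurd ?_ hK.ne'
      rw [← Subgroup.map_comap_eq_self_of_surjective hπ K, e]
    · rw [← Subgroup.map_comap_eq_self_of_surjective hπ K, e, Subgroup.map_top_of_surjective π hπ]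
  let f : Fˣ →* H := (π.comp dg).codRestrict H fun u => Subgroup.mem_map_of_mem π (dg_mem u)
  haveI : IsCyclic f.range := isCyclic_of_surjective f.rangeRestrict f.rangeRestrict_surjective
  have hdgc : ∀ u : Fˣ, dg u ∈ Subgroup.center (Matrix.SpecialLinearGroup (Fin 2) F) ↔ u ^ 2 = 1 := fun u => by
    rw [Matrix.SpecialLinearGroup.mem_center_iff]
    constructor
    · rintro ⟨r, hr, he⟩
      have := congrFun (congrFun he 0) 0
      simp [dg_coe] at this
      refine Units.ext ?_
      rw [Units.val_pow_eq_pow_val, ← this]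
      simpa using hr
    · intro h
      have h' : ((u⁻¹ : Fˣ) : F) = u := by rw [inv_eq_of_mul_eq_one_left (by rw [← pow_two]; exact h)]
      refine ⟨u, by simpa using congrArg Units.val h, ?_⟩
      rw [dg_coe, h']
      ext i j; fin_cases i <;> fin_cases j <;> simp
  have hk : f.ker = (powMonoidHom 2 : Fˣ →* Fˣ).ker := by
    ext u
    rw [MonoidHom.mem_ker, MonoidHom.mem_ker, powMonoidHom_apply, ← hdgc, ← hker]
    exact ⟨fun h => congrArg Subtype.val h, fun h => Subtype.ext h⟩
  have hcard : Nat.card f.range = (q - 1) / Nat.gcd 2 (q - 1) := by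
    have h1 := f.ker.card_mul_index
    rw [Subgroup.index_ker, hk, IsCyclic.card_powMonoidHom_ker, Nat.card_units, Nat.card_eq_fintype_card (α := F), hF] at h1
    rw [Nat.gcd_comm]
    exact (Nat.div_eq_of_eq_mul_right (Nat.gcd_pos_of_pos_left _ (by omega)) h1.symm).symm
  let s : H := ⟨π wy, Subgroup.mem_map_of_mem π wy_mem⟩
  have hval : ∀ a b : H, (a : Matrix.ProjectiveSpecialLinearGroup (Fin 2) F) = b → a = b := fun a b h => Subtype.ext h
  have hww : (wy * wy : Matrix.SpecialLinearGroup (Fin 2) F) ∈ Subgroup.center _ := by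
    rw [Matrix.SpecialLinearGroup.mem_center_iff]
    exact ⟨-1, by simp, by ext i j; fin_cases i <;> fin_cases j <;> simp [mul_ap, wy_coe]⟩
  refine Cfsg.Lib.Classical.nonempty_mulEquiv_dihedral f.range hcard ?_ s (hval _ _ ?_) ?_ ?_ ?_
  · rw [← hcard]; exact Nat.card_pos.ne'
  · show π wy * π wy = 1
    rw [← map_mul]; exact (hker _).2 hww
  · rintro ⟨u, hu⟩
    have h := congrArg Subtype.val hu
    change π (dg u) = π wy at h
    have hz := (hker ((dg u)⁻¹ * wy)).1 (by rw [map_mul, map_inv, h, inv_mul_cancel])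
    obtain ⟨r, hr, he⟩ := Matrix.SpecialLinearGroup.mem_center_iff.1 hz
    have := congrFun (congrFun he 0) 1
    simp [mul_ap, inv_ap, dg_coe, wy_coe] at this
    exact u.ne_zero this.symm
  · rintro r ⟨u, rfl⟩
    refine hval _ _ ?_
    show π wy * π (dg u) * π wy = (π (dg u))⁻¹
    rw [← map_mul, ← map_mul, ← map_inv, ← inv_mul_eq_one, ← map_inv, ← map_mul, hker, ← inv_inv (dg u), inv_inv, Matrix.SpecialLinearGroup.mem_center_iff]
    refine ⟨-1, by simp, ?_⟩
    ext i j; fin_cases i <;> fin_cases j <;> simp [mul_ap, inv_ap, dg_coe, wy_coe]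
  · rintro ⟨_, m, hm, rfl⟩
    have hdiag : ∀ g : Matrix.SpecialLinearGroup (Fin 2) F, g 0 1 = 0 → g 1 0 = 0 → ∃ u, g = dg u := fun g h01 h10 => by
      have hd := det_two g
      rw [h01, zero_mul, sub_zero] at hd
      refine ⟨Units.mkOfMulEqOne _ _ hd, Matrix.SpecialLinearGroup.ext _ _ fun i j => ?_⟩
      fin_cases i <;> fin_cases j <;> simp [dg_coe, h01, h10]
      exact eq_inv_of_mul_eq_one_right hd
    rcases hm with ⟨h1, h2⟩ | ⟨h1, h2⟩
    · obtain ⟨u, rfl⟩ := hdiag m h1 h2
      exact Or.inl ⟨u, hval _ _ rfl⟩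
    · obtain ⟨u, hu⟩ := hdiag (wy * m) (by simp [mul_ap, wy_coe, h2]) (by simp [mul_ap, wy_coe, h1])
      refine Or.inr ⟨u, hval _ _ ?_⟩
      show π (dg u) = π wy * π m
      rw [← map_mul, hu]

end Cfsg.Agent.S0812
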