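import Mathlib


namespace Cfsg.Agent.S0819

open Matrix

set_option linter.unusedSectionVars false

variable {F : Type*} [Field F] [Fintype F]

private lemma two_eq (hF : Fintype.card F = 4) : (2 : F) = 0 := by
  have h := FiniteField.cast_card_eq_zero F
  rw [hF] at h
  have : (2 : F) * 2 = 0 := by norm_num at h ⊢; exact h
  simpa using this

private lemma sub_eq (h2 : (2 : F) = 0) (a b : F) : a - b = a + b := by linear_combination -b * h2

private lemma cubic (a : Matrix (Fin 3) (Fin 3) F) :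
    a * a * a - Matrix.trace a • (a * a)
      + (a 0 0 * a 1 1 - a 0 1 * a 1 0 + (a 0 0 * a 2 2 - a 0 2 * a 2 0) + (a 1 1 * a 2 2 - a 1 2 * a 2 1)) • a
      - a.det • (1 : Matrix (Fin 3) (Fin 3) F) = 0 := by
  ext i j
  fin_cases i <;> fin_cases j <;>
    simp [Matrix.mul_apply, Fin.sum_univ_three, Matrix.trace_fin_three, Matrix.det_fin_three] <;> ring

private lemma det_sub_one (a : Matrix (Fin 3) (Fin 3) F) :
    (a - 1).det = a.det - (a 0 0 * a 1 1 - a 0 1 * a 1 0 + (a 0 0 * a 2 2 - a 0 2 * a 2 0) + (a 1 1 * a 2 2 - a 1 2 * a 2 1))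
      + Matrix.trace a - 1 := by
  simp [Matrix.trace_fin_three, Matrix.det_fin_three]; ring

/-- The centraliser shape. -/
private def C (β b x y : F) : Matrix (Fin 3) (Fin 3) F := !![b, 0, 0; 0, x, y; 0, y, x + β * y]

private lemma C_mul (β b x y b' x' y' : F) :
    C β b x y * C β b' x' y' = C β (b * b') (x * x' + y * y') (x * y' + y * x' + β * y * y') := by
  ext i j
  fin_cases i <;> fin_cases j <;> simp [C, Matrix.mul_apply, Fin.sum_univ_three] <;> ring

private lemma fixed_vec {m : Matrix (Fin 3) (Fin 3) F} (hF : Fintype.card F = 4) (h5 : m ^ 5 = 1) :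
    ∃ w, w ≠ 0 ∧ m *ᵥ w = w := by
  classical
  have hmi : m * m ^ 4 = 1 := by rw [← pow_succ', h5]
  have him : m ^ 4 * m = 1 := by rw [← pow_succ, h5]
  let e : {v : Fin 3 → F // v ≠ 0} ≃ {v : Fin 3 → F // v ≠ 0} :=
    { toFun := fun v => ⟨m *ᵥ v.1, fun h => v.2 (by
        have := congrArg ((m ^ 4) *ᵥ ·) h
        simpa [Matrix.mulVec_mulVec, him] using this)⟩
      invFun := fun v => ⟨(m ^ 4) *ᵥ v.1, fun h => v.2 (by
        have := congrArg (m *ᵥ ·) h
        simpa [Matrix.mulVec_mulVec, hmi] using this)⟩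
      left_inv := fun v => Subtype.ext (by simp [Matrix.mulVec_mulVec, him])
      right_inv := fun v => Subtype.ext (by simp [Matrix.mulVec_mulVec, hmi]) }
  have hk : ∀ k v, ((e ^ k) v).1 = (m ^ k) *ᵥ v.1 := by
    intro k
    induction k with
    | zero => simp
    | succ k ih => intro v; rw [pow_succ', pow_succ', Equiv.Perm.mul_apply, ← Matrix.mulVec_mulVec, ← ih v]; rfl
  have he : e ^ 5 ^ 1 = 1 := Equiv.ext fun v => Subtype.ext (by
    rw [show (5 : ℕ) ^ 1 = 5 from rfl, hk, h5]; simp)
  haveI : Fact (Nat.Prime 5) := ⟨by norm_num⟩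
  have hc : ¬ 5 ∣ Fintype.card {v : Fin 3 → F // v ≠ 0} := by
    rw [Fintype.card_subtype_compl]
    simp [hF]
  obtain ⟨v, hv⟩ := Equiv.Perm.exists_fixed_point_of_prime hc he
  exact ⟨v.1, v.2, congrArg Subtype.val hv⟩

private lemma key (hF : Fintype.card F = 4) {m n : Matrix (Fin 3) (Fin 3) F} (hm : m.det = 1) (hn : n.det = 1)
    (h5 : m ^ 5 = 1) (hne : m ≠ 1) (hc : n * m = m * n) : ∃ r : F, n ^ 5 = r • (1 : Matrix (Fin 3) (Fin 3) F) := by
  have h2 := two_eq hF
  have h4 : ∀ x : F, x ^ 4 = x := fun x => by simpa [hF] using FiniteField.pow_card x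
  obtain ⟨w, hw0, hw⟩ := fixed_vec hF h5
  have hd0 : (m - 1).det = 0 :=
    Matrix.exists_mulVec_eq_zero_iff.1 ⟨w, hw0, by simp [Matrix.sub_mulVec, hw]⟩
  set t := Matrix.trace m with ht
  have hcub := cubic m
  rw [det_sub_one, hm] at hd0
  rw [hm] at hcub
  have hs : (m 0 0 * m 1 1 - m 0 1 * m 1 0 + (m 0 0 * m 2 2 - m 0 2 * m 2 0) + (m 1 1 * m 2 2 - m 1 2 * m 2 1)) = t := by
    linear_combination -hd0
  rw [hs, ← ht, one_smul] at hcub
  obtain ⟨β, hβ⟩ : ∃ β, β = 1 + t := ⟨_, rfl⟩
  have h00 : β ≠ 0 := by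
    intro h0
    have ht1 : t = 1 := by linear_combination h0 - h2 - hβ
    rw [ht1, one_smul, one_smul] at hcub
    have : m ^ 4 = 1 := by
      have := congrArg ((m + 1) * ·) hcub
      simp only [mul_zero] at this
      rw [← sub_eq_zero]
      convert this using 1
      noncomm_ring
    exact hne (by rw [← h5, pow_succ, this, one_mul])
  have h01 : β ≠ 1 := by
    intro h1
    have ht1 : t = 0 := by linear_combination h1 - hβ
    rw [ht1] at hcub
    have h3 : m ^ 3 = 1 := by
      simp only [zero_smul, sub_zero, add_zero] at hcub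
      simpa [pow_succ, sub_eq_zero] using hcub
    refine hne ?_
    have : m ^ 10 = 1 := by rw [show (10 : ℕ) = 5 * 2 from rfl, pow_mul, h5, one_pow]
    rwa [show (10 : ℕ) = 3 * 3 + 1 from rfl, pow_succ, pow_mul, h3, one_pow, one_mul] at this
  have hb : β ^ 2 + β + 1 = 0 := by
    have : β * (β - 1) * (β ^ 2 + β + 1) = 0 := by linear_combination h4 β
    simpa [h00, sub_eq_zero, h01] using this
  have noroot : ∀ c : F, c ^ 2 + β * c + 1 ≠ 0 := by
    intro c hcc
    refine h00 ?_
    have e := h4 c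
    have hbb : β ^ 2 + 1 = 0 := by
      linear_combination -e + (c ^ 2 - β * c + β ^ 2 - 1) * hcc - (β - 1) * c * hb + (1 - (1 - β) * c) * h2
    linear_combination hb - hbb
  obtain ⟨v, hv⟩ : ∃ v, m *ᵥ v + v ≠ 0 := by
    by_contra hcon
    push_neg at hcon
    refine hne (Matrix.ext_of_mulVec_single fun i => ?_)
    rw [eq_neg_of_add_eq_zero_left (hcon (Pi.single i 1)), Matrix.one_mulVec]
    ext j
    rw [Pi.neg_apply]
    linear_combination -(Pi.single i (1 : F) : Fin 3 → F) j * h2
  set u := m *ᵥ v + v with hu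
  set u' := m *ᵥ u with hu'
  have hmu : m *ᵥ u' = β • u' + u := by
    have := congrArg (· *ᵥ v) hcub
    simp only [Matrix.sub_mulVec, Matrix.add_mulVec, Matrix.smul_mulVec, ← Matrix.mulVec_mulVec, Matrix.one_mulVec, Matrix.zero_mulVec] at this
    ext i
    have := congrFun this i
    simp only [hu', hu, Matrix.mulVec_add, Pi.add_apply, Pi.smul_apply, Pi.sub_apply, smul_eq_mul, Pi.zero_apply] at this ⊢
    rw [hβ]
    linear_combination this - (m *ᵥ v) i * (1 + t) * h2
  let P : Matrix (Fin 3) (Fin 3) F := Matrix.of fun i j => ![w, u, u'] j i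
  let A' : Matrix (Fin 3) (Fin 3) F := !![1, 0, 0; 0, 0, 1; 0, 1, β]
  have hmP : m * P = P * A' := by
    ext i j
    change (m *ᵥ ![w, u, u'] j) i = _
    fin_cases j <;> simp [Matrix.mul_apply, Fin.sum_univ_three, P, A', hw, hmu, ← hu'] <;> ring
  have hP : IsUnit P.det := by
    rw [isUnit_iff_ne_zero]
    intro h0
    obtain ⟨c, hc0, hcz⟩ := Matrix.exists_mulVec_eq_zero_iff.2 h0
    have e1 : c 0 • w + c 1 • u + c 2 • u' = 0 := by
      ext i
      have := congrFun hcz i
      simpa [Matrix.mulVec, dotProduct, Fin.sum_univ_three, P, mul_comm] using this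
    have e2 : c 0 • w + c 1 • u' + c 2 • (β • u' + u) = 0 := by
      have := congrArg (m *ᵥ ·) e1
      simpa [Matrix.mulVec_add, Matrix.mulVec_smul, hw, hmu, ← hu'] using this
    have e3 : ∀ i, (c 1 + c 2) * u i + (c 1 + c 2 + β * c 2) * u' i = 0 := fun i => by
      have a := congrFun e1 i; have b := congrFun e2 i
      simp only [Pi.add_apply, Pi.smul_apply, smul_eq_mul, Pi.zero_apply] at a b
      linear_combination a + b - c 0 * w i * h2
    have hu0 : u ≠ 0 := hv
    have indep : ∀ p q : F, (∀ i, p * u i + q * u' i = 0) → p = 0 ∧ q = 0 := by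
      intro p q hpq
      have hq : q = 0 := by
        by_contra hq
        have hk : u' = (-(p / q)) • u := by
          ext i; rw [Pi.smul_apply, smul_eq_mul]; field_simp; linear_combination hpq i
        set k := -(p / q)
        have := hmu
        rw [hk, Matrix.mulVec_smul, ← hu', hk] at this
        obtain ⟨i, hi⟩ : ∃ i, u i ≠ 0 := by simpa [funext_iff] using hu0
        have := congrFun this i
        simp only [Pi.add_apply, Pi.smul_apply, smul_eq_mul] at this
        exact noroot k (mul_right_cancel₀ hi (by linear_combination this + (β * k * u i + u i) * h2))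
      refine ⟨?_, hq⟩
      obtain ⟨i, hi⟩ : ∃ i, u i ≠ 0 := by simpa [funext_iff] using hu0
      simpa [hq, hi] using hpq i
    obtain ⟨a, b⟩ := indep _ _ e3
    rw [a, zero_add, mul_eq_zero, or_iff_right h00] at b
    rw [b, add_zero] at a
    refine hc0 ?_
    have : c 0 = 0 := by simpa [a, b, hw0] using e1
    ext i; fin_cases i <;> assumption
  let Q := P⁻¹
  have hQP : Q * P = 1 := Matrix.nonsing_inv_mul _ hP
  have hPQ : P * Q = 1 := Matrix.mul_nonsing_inv _ hP
  set B := Q * n * P with hB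
  have hnP : n * P = P * B := by simp [hB, ← Matrix.mul_assoc, hPQ]
  have hBA : B * A' = A' * B := by
    have h1 : P * (B * A') = P * (A' * B) := by
      rw [← Matrix.mul_assoc, ← hnP, Matrix.mul_assoc, ← hmP, ← Matrix.mul_assoc, hc, Matrix.mul_assoc, hnP, ← Matrix.mul_assoc, hmP, Matrix.mul_assoc]
    have := congrArg (Q * ·) h1
    simpa [← Matrix.mul_assoc, hQP] using this
  have e : ∀ i j, (B * A') i j = (A' * B) i j := fun i j => by rw [hBA]
  have e01 := e 0 1; have e02 := e 0 2; have e10 := e 1 0; have e20 := e 2 0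
  have e11 := e 1 1; have e12 := e 1 2
  simp [A', Matrix.mul_apply, Fin.sum_univ_three] at e01 e02 e10 e20 e11 e12
  have b10 : B 1 0 = 0 := by
    have : β * B 1 0 = 0 := by linear_combination (β - 1) * e10 - e20
    simpa [h00] using this
  have b20 : B 2 0 = 0 := by linear_combination b10 - e10
  have b01 : B 0 1 = 0 := by
    have : β * B 0 1 = 0 := by linear_combination e02 + e01 * (1 - β)
    simpa [h00] using this
  have b02 : B 0 2 = 0 := by linear_combination e01 + b01
  have hBC : B = C β (B 0 0) (B 1 1) (B 1 2) := by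
    ext i j
    fin_cases i <;> fin_cases j <;> simp [C, b01, b02, b10, b20]
    · linear_combination -e11
    · linear_combination -e12
  set b := B 0 0
  set x := B 1 1
  set y := B 1 2
  have hdet : b * (x ^ 2 + β * x * y + y ^ 2) = 1 := by
    have : B.det = 1 := by
      rw [hB, Matrix.det_mul, Matrix.det_mul, hn, mul_one, ← Matrix.det_mul, hQP, Matrix.det_one]
    rw [hBC] at this
    simp [C, Matrix.det_fin_three] at this
    linear_combination this + b * y ^ 2 * h2
  have hb2 : b ^ 2 = x ^ 2 + β * x * y + y ^ 2 := by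
    have hb0 : b ≠ 0 := left_ne_zero_of_mul_eq_one hdet
    apply mul_left_cancel₀ hb0
    rw [hdet]
    apply mul_left_cancel₀ hb0
    linear_combination h4 b
  have hB5 : B ^ 5 = b ^ 2 • (1 : Matrix (Fin 3) (Fin 3) F) := by
    rw [show (5 : ℕ) = 1 + 1 + 1 + 1 + 1 from rfl, pow_succ, pow_succ, pow_succ, pow_succ, pow_one, hBC,
      show C β b x y * C β b x y * C β b x y * C β b x y * C β b x y
        = (C β b x y * C β b x y) * (C β b x y * C β b x y) * C β b x y from by simp [Matrix.mul_assoc],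
      C_mul, C_mul, C_mul]
    have hy : x * y + y * x + β * y * y = β * y ^ 2 := by linear_combination x * y * h2
    rw [hy]
    have hb3 : β ^ 3 = 1 := by linear_combination (β - 1) * hb
    have hX : (x * x + y * y) * (x * x + y * y) + β * y ^ 2 * (β * y ^ 2) = x + β * y := by
      linear_combination h4 x + (1 + β ^ 2) * h4 y + y * hb + (x ^ 2 * y ^ 2 - β * y) * h2
    have hY : (x * x + y * y) * (β * y ^ 2) + β * y ^ 2 * (x * x + y * y) + β * (β * y ^ 2) * (β * y ^ 2) = y := by
      linear_combination β ^ 3 * h4 y + y * hb3 + β * y ^ 2 * (x * x + y * y) * h2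
    rw [hX, hY]
    ext i j
    fin_cases i <;> fin_cases j <;> simp [C]
    · linear_combination b * h4 b
    · linear_combination -hb2
    · linear_combination (x * y + β * y ^ 2) * h2
    · linear_combination (x * y + β * y ^ 2) * h2
    · linear_combination -hb2 + β * (x * y + β * y ^ 2) * h2
  refine ⟨b ^ 2, ?_⟩
  have hpow : ∀ k, n ^ k * P = P * B ^ k := by
    intro k
    induction k with
    | zero => simp
    | succ k ih => rw [pow_succ, Matrix.mul_assoc, hnP, ← Matrix.mul_assoc, ih, Matrix.mul_assoc, ← pow_succ]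
  calc n ^ 5 = n ^ 5 * (P * Q) := by rw [hPQ, Matrix.mul_one]
    _ = P * B ^ 5 * Q := by rw [← Matrix.mul_assoc, hpow]
    _ = _ := by rw [hB5]; simp [hPQ]

theorem result {F : Type*} [Field F] [Fintype F] (hF : Fintype.card F = 4) (g : Matrix.ProjectiveSpecialLinearGroup (Fin 3) F) : orderOf g ≠ 15 := by
  intro hg
  have hz3 : ∀ z ∈ Subgroup.center (Matrix.SpecialLinearGroup (Fin 3) F), z ^ 3 = 1 := by
    intro z hz
    obtain ⟨r, hr, hrz⟩ := Matrix.SpecialLinearGroup.mem_center_iff.1 hz
    apply Subtype.ext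
    simp only [Fintype.card_fin] at hr
    rw [Matrix.SpecialLinearGroup.coe_pow, ← hrz, ← map_pow, hr, map_one, Matrix.SpecialLinearGroup.coe_one]
  obtain ⟨A₀, hA₀⟩ := QuotientGroup.mk_surjective (g ^ 3)
  obtain ⟨B, hB⟩ := QuotientGroup.mk_surjective (g ^ 5)
  have hg15 : g ^ 15 = 1 := hg ▸ pow_orderOf_eq_one g
  have hz : A₀ ^ 5 ∈ Subgroup.center _ := by
    rw [← QuotientGroup.eq_one_iff, QuotientGroup.mk_pow, hA₀, ← pow_mul, hg15]
  set z := A₀ ^ 5 with hzd
  have hAz : Commute A₀ z := (Commute.refl A₀).pow_right 5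
  set A := A₀ * z with hAd
  have hA5 : A ^ 5 = 1 := by
    rw [hAd, hAz.mul_pow, ← hzd, ← pow_succ', show 5 + 1 = 3 * 2 from rfl, pow_mul, hz3 z hz, one_pow]
  have hA : (A : Matrix.ProjectiveSpecialLinearGroup (Fin 3) F) = g ^ 3 := by
    rw [hAd, QuotientGroup.mk_mul, hA₀, (QuotientGroup.eq_one_iff z).2 hz, mul_one]
  have hA1 : A ≠ 1 := by
    intro h
    rw [h, QuotientGroup.mk_one] at hA
    exact absurd (orderOf_dvd_of_pow_eq_one hA.symm) (by rw [hg]; norm_num)
  set c := A⁻¹ * (B * A * B⁻¹) with hcd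
  have hc : c ∈ Subgroup.center _ := by
    rw [← QuotientGroup.eq_one_iff, hcd]
    simp only [QuotientGroup.mk_mul, QuotientGroup.mk_inv, hA, hB]
    group
  have hAc : Commute A c := Subgroup.mem_center_iff.1 hc A
  have hc1 : c = 1 := by
    have h : (A * c) ^ 5 = 1 := by
      rw [hcd, mul_inv_cancel_left, conj_pow, hA5]; group
    rw [hAc.mul_pow, hA5, one_mul] at h
    have h3 := hz3 c hc
    calc c = (c ^ 3) ^ 2 * (c ^ 5)⁻¹ := by group
      _ = 1 := by rw [h, h3]; group
  have hBA : B * A = A * B := by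
    rw [hcd, inv_mul_eq_one] at hc1
    exact (eq_mul_inv_iff_mul_eq.1 hc1).symm
  obtain ⟨r, hr⟩ := key hF A.2 B.2 (by rw [← Matrix.SpecialLinearGroup.coe_pow, hA5]; rfl)
    (fun h => hA1 (Subtype.ext h)) (congrArg Subtype.val hBA)
  have hB5 : B ^ 5 ∈ Subgroup.center _ := by
    rw [Subgroup.mem_center_iff]
    intro X
    apply Subtype.ext
    simp [hr]
  rw [← QuotientGroup.eq_one_iff, QuotientGroup.mk_pow, hB, ← pow_mul] at hB5
  exact absurd (orderOf_dvd_of_pow_eq_one hB5) (by rw [hg]; norm_num)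

end Cfsg.Agent.S0819
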