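import Cfsg.Statements.S0820
import Mathlib

namespace Cfsg.Agent.S0820

open Matrix

variable {F : Type*} [Field F] [Fintype F]

private lemma two_eq (hF : Fintype.card F = 4) : (2 : F) = 0 := by
  have h := FiniteField.cast_card_eq_zero F
  rw [hF] at h
  have : (2 : F) * 2 = 0 := by norm_num at h ⊢; exact h
  simpa using this

/-- Each involution is conjugate to the standard one. -/
private lemma key (h2 : (2 : F) = 0) (A : Matrix.SpecialLinearGroup (Fin 3) F) (hA : A * A = 1) (h1 : A ≠ 1) :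
    ∃ g : Matrix.SpecialLinearGroup (Fin 3) F,
      (A : Matrix (Fin 3) (Fin 3) F) * (g : Matrix (Fin 3) (Fin 3) F) = (g : Matrix (Fin 3) (Fin 3) F) * !![1, 0, 1; 0, 1, 0; 0, 0, 1] := by
  classical
  set N : Matrix (Fin 3) (Fin 3) F := A + 1 with hN
  have hAN : (A : Matrix (Fin 3) (Fin 3) F) = N + 1 := by
    ext i j
    simp only [hN, Matrix.add_apply]
    linear_combination -(1 : Matrix (Fin 3) (Fin 3) F) i j * h2
  have hsq : N * N = 0 := by
    have h := congrArg Subtype.val hA
    simp only [Matrix.SpecialLinearGroup.coe_mul, Matrix.SpecialLinearGroup.coe_one] at h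
    rw [hN, add_mul, mul_add, h]
    ext i j
    simp only [Matrix.add_apply, mul_one, one_mul, Matrix.zero_apply]
    linear_combination ((A : Matrix (Fin 3) (Fin 3) F) i j + (1 : Matrix (Fin 3) (Fin 3) F) i j) * h2
  have hNN : ∀ x, N *ᵥ (N *ᵥ x) = 0 := fun x => by rw [Matrix.mulVec_mulVec, hsq, Matrix.zero_mulVec]
  obtain ⟨z, hz⟩ : ∃ z, N *ᵥ z ≠ 0 := by
    by_contra hc
    push Not at hc
    refine h1 (Subtype.ext ?_)
    rw [hAN, show N = 0 from Matrix.ext_of_mulVec_single fun i => by rw [hc, Matrix.zero_mulVec], zero_add]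
    rfl
  set v := N *ᵥ z with hv
  have hline : ∀ x, ∃ c : F, N *ᵥ x = c • v := by
    intro x
    by_contra hc
    push Not at hc
    let M : (Fin 3 → F) →ₗ[F] (Fin 3 → F) := (Matrix.of fun i j => ![v, N *ᵥ x, z] j i).mulVecLin
    have hM : ∀ c, M c = c 0 • v + c 1 • (N *ᵥ x) + c 2 • z := by
      intro c
      ext i
      simp [M, Matrix.mulVec, dotProduct, Fin.sum_univ_three, mul_comm]
    have hinj : Function.Injective M := by
      rw [← LinearMap.ker_eq_bot, LinearMap.ker_eq_bot']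
      intro c h
      rw [hM] at h
      have h' := congrArg (N *ᵥ ·) h
      simp [Matrix.mulVec_add, Matrix.mulVec_smul, hNN, ← hv, hv ▸ hNN z, hz] at h'
      rw [h', zero_smul, add_zero] at h
      have hb : c 1 = 0 := by
        by_contra hb
        refine hc (-(c 0 / c 1)) ?_
        have e := congrArg ((c 1)⁻¹ • ·) h
        simp only [smul_add, smul_smul, inv_mul_cancel₀ hb, one_smul, smul_zero] at e
        rw [neg_smul, eq_neg_iff_add_eq_zero, div_eq_inv_mul, add_comm]
        exact e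
      have ha : c 0 = 0 := by simpa [hb, hz] using h
      ext i; fin_cases i <;> assumption
    obtain ⟨c, hcx⟩ := LinearMap.injective_iff_surjective.1 hinj x
    refine hc (c 2) ?_
    rw [← hcx, hM]
    simp [Matrix.mulVec_add, Matrix.mulVec_smul, hNN, ← hv, hv ▸ hNN z]
  obtain ⟨u, hu0, hu⟩ : ∃ u, N *ᵥ u = 0 ∧ ∀ c : F, u ≠ c • v := by
    by_contra hc
    push Not at hc
    have hs : Function.Surjective (fun p : F × F => p.1 • v + p.2 • z) := by
      intro x
      obtain ⟨c, hcx⟩ := hline x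
      obtain ⟨d, hd⟩ := hc (x - c • z) (by rw [Matrix.mulVec_sub, Matrix.mulVec_smul, hcx, sub_self])
      exact ⟨(d, c), by simp [← hd]⟩
    have := Fintype.card_le_of_surjective _ hs
    simp only [Fintype.card_prod, Fintype.card_fun, Fintype.card_fin] at this
    nlinarith [Fintype.one_lt_card (α := F)]
  let P : F → Matrix (Fin 3) (Fin 3) F := fun s => Matrix.of fun i j => ![v, s • u, z] j i
  have hdet : ∀ s, (P s).det = s * (P 1).det := fun s => by simp [P, Matrix.det_fin_three]; ring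
  have hd : (P 1).det ≠ 0 := by
    intro h0
    obtain ⟨c, hc0, hcz⟩ := Matrix.exists_mulVec_eq_zero_iff.2 h0
    have h : c 0 • v + c 1 • u + c 2 • z = 0 := by
      ext i
      simpa [Matrix.mulVec, dotProduct, Fin.sum_univ_three, P, mul_comm] using congrFun hcz i
    have h' := congrArg (N *ᵥ ·) h
    simp [Matrix.mulVec_add, Matrix.mulVec_smul, hNN, ← hv, hv ▸ hNN z, hz, hu0] at h'
    rw [h', zero_smul, add_zero] at h
    have hb : c 1 = 0 := by
      by_contra hb
      refine hu (-(c 0 / c 1)) ?_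
      have e := congrArg ((c 1)⁻¹ • ·) h
      simp only [smul_add, smul_smul, inv_mul_cancel₀ hb, one_smul, smul_zero] at e
      rw [neg_smul, eq_neg_iff_add_eq_zero, div_eq_inv_mul, add_comm]
      exact e
    have ha : c 0 = 0 := by simpa [hb, hz] using h
    exact hc0 (by ext i; fin_cases i <;> assumption)
  refine ⟨⟨P (P 1).det⁻¹, by rw [hdet, inv_mul_cancel₀ hd]⟩, ?_⟩
  ext i j
  rw [hAN, add_mul, one_mul]
  change (N *ᵥ ![v, (P 1).det⁻¹ • u, z] j) i + P (P 1).det⁻¹ i j = _
  fin_cases j <;> simp [P, Matrix.mul_apply, Fin.sum_univ_three, Matrix.mulVec_smul, hu0, hv ▸ hNN z, ← hv, add_comm]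

theorem result {F : Type*} [Field F] [Fintype F] (hF : Fintype.card F = 4) (x y : Matrix.ProjectiveSpecialLinearGroup (Fin 3) F) (hx : orderOf x = 2) (hy : orderOf y = 2) : IsConj x y := by
  have hz3 : ∀ z ∈ Subgroup.center (Matrix.SpecialLinearGroup (Fin 3) F), z ^ 3 = 1 := by
    intro z hz
    obtain ⟨r, hr, hrz⟩ := Matrix.SpecialLinearGroup.mem_center_iff.1 hz
    apply Subtype.ext
    simp only [Fintype.card_fin] at hr
    rw [Matrix.SpecialLinearGroup.coe_pow, ← hrz, ← map_pow, hr, map_one, Matrix.SpecialLinearGroup.coe_one]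
  have h2 := two_eq hF
  let E : Matrix.SpecialLinearGroup (Fin 3) F :=
    ⟨!![1, 0, 1; 0, 1, 0; 0, 0, 1], by simp [Matrix.det_fin_three]⟩
  suffices h : ∀ x : Matrix.ProjectiveSpecialLinearGroup (Fin 3) F, orderOf x = 2 → IsConj (E : Matrix.ProjectiveSpecialLinearGroup (Fin 3) F) x from
    (h x hx).symm.trans (h y hy)
  intro x hx
  obtain ⟨A₀, rfl⟩ := QuotientGroup.mk_surjective x
  have hxx := pow_orderOf_eq_one (A₀ : Matrix.ProjectiveSpecialLinearGroup (Fin 3) F)
  rw [hx, ← QuotientGroup.mk_pow, QuotientGroup.eq_one_iff] at hxx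
  set z := A₀ ^ 2 with hzd
  have hA : (A₀ * z) * (A₀ * z) = 1 := by
    rw [← pow_two, ((Commute.refl A₀).pow_right 2).mul_pow, ← hzd, ← pow_succ', hz3 z hxx]
  have hq : ((A₀ * z : Matrix.SpecialLinearGroup (Fin 3) F) : Matrix.ProjectiveSpecialLinearGroup (Fin 3) F) = A₀ := by
    rw [QuotientGroup.mk_mul, (QuotientGroup.eq_one_iff z).2 hxx, mul_one]
  have h1 : A₀ * z ≠ 1 := by
    intro h
    rw [h, QuotientGroup.mk_one] at hq
    rw [← hq, orderOf_one] at hx
    norm_num at hx
  obtain ⟨g, hg⟩ := key h2 _ hA h1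
  rw [← hq, isConj_iff]
  refine ⟨(g : Matrix.ProjectiveSpecialLinearGroup (Fin 3) F), ?_⟩
  rw [← QuotientGroup.mk_mul, ← QuotientGroup.mk_inv, ← QuotientGroup.mk_mul]
  congr 1
  rw [mul_inv_eq_iff_eq_mul]
  exact Subtype.ext hg.symm

end Cfsg.Agent.S0820
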