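import Cfsg.Statements.S0821
import Mathlib
import Cfsg.Agent.Lib.Classical.SympElemAb
import Cfsg.Agent.Lib.Classical.OddOmegaElemAb
import Cfsg.Agent.S0246

set_option autoImplicit false
open Cfsg
open scoped Matrix

namespace Cfsg.Agent.S0821

/-- PSp_2m(q) ≇ PΩ_(2m+1)(q) for q odd and m ≥ 3 (they have the same order). -/
theorem result {F : Type*} [Field F] [Fintype F] (hodd : Odd (Fintype.card F)) (m : ℕ) (hm : 3 ≤ m) : IsEmpty (Cfsg.PSp m F ≃* Cfsg.POmega F (Cfsg.quadFormOdd m F)) := by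
  classical
  have h2 : (2 : F) ≠ 0 := by
    intro h
    have h' : ringChar F ∣ 2 := ringChar.dvd (by exact_mod_cast h)
    have : ringChar F = 2 := (Nat.prime_dvd_prime_iff_eq (CharP.char_is_prime F _) Nat.prime_two).1 h'
    exact Nat.not_even_iff_odd.2 hodd (Nat.even_iff.2 (FiniteField.even_card_iff_char_two.1 this))
  constructor
  intro e
  obtain ⟨EΩ, hsq, hcomm, hcard⟩ := Cfsg.Lib.Classical.OddOmega.exists_elemAb (F := F) m h2 (by omega)
  set Z := Subgroup.center (Matrix.symplecticGroup (Fin m) F)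
  let π : Matrix.symplecticGroup (Fin m) F →* Cfsg.POmega F (Cfsg.quadFormOdd m F) :=
    e.toMonoidHom.comp (QuotientGroup.mk' Z)
  have hπ : Function.Surjective π := e.surjective.comp (QuotientGroup.mk'_surjective _)
  have hker : π.ker = Z := by
    ext x
    simp [π, QuotientGroup.eq_one_iff]
  let s : Matrix.symplecticGroup (Fin m) F ≃* ↥(Cfsg.spGL m F) := Cfsg.Lib.Classical.spEquiv
  let E : Subgroup ↥(Cfsg.spGL m F) := (EΩ.comap π).map s.toMonoidHom
  have hz1 : Nat.card Z = 2 := by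
    rw [show Nat.card Z = _ from Cfsg.Agent.S0246.result (F := F) rfl m (by omega)]
    obtain ⟨k, hk⟩ := hodd
    rw [hk, Nat.gcd_eq_left]
    simp
  have hmem : ∀ x : Matrix.symplecticGroup (Fin m) F, (x : Matrix (Fin m ⊕ Fin m) (Fin m ⊕ Fin m) F) = -1 → x ∈ Z := fun x hx =>
    Subgroup.mem_center_iff.2 fun g => Subtype.ext (by simp [hx])
  let zS : Matrix.symplecticGroup (Fin m) F := ⟨-1, SymplecticGroup.neg_mem (one_mem _)⟩
  have hzZ : zS ∈ Z := hmem zS rfl
  have hzne : zS ≠ 1 := by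
    intro h
    have h' := congrFun (congrFun (congrArg Subtype.val h) (Sum.inl ⟨0, by omega⟩)) (Sum.inl ⟨0, by omega⟩)
    simp [zS] at h'
    exact h2 (by linear_combination -h')
  have hZ : ∀ x ∈ Z, x = 1 ∨ x = zS := by
    intro x hx
    obtain ⟨y, hy, huniq⟩ := (Nat.card_eq_two_iff' (⟨1, Z.one_mem⟩ : Z)).1 hz1
    by_contra! h
    have e1 := huniq ⟨x, hx⟩ (fun h' => h.1 (congrArg Subtype.val h'))
    have e2 := huniq ⟨zS, hzZ⟩ (fun h' => hzne (congrArg Subtype.val h'))
    exact h.2 (congrArg Subtype.val (e1.trans e2.symm))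
  have hz : ∀ v, Cfsg.Lib.Classical.SympElemAb.act (s zS) v = -v := fun v => by
    simp [Cfsg.Lib.Classical.SympElemAb.act, s, Cfsg.Lib.Classical.coe_spEquiv, zS, Matrix.neg_mulVec]
  have hcardE : Nat.card E = 2 * Nat.card EΩ := by
    rw [Subgroup.card_map_of_injective s.injective]
    have hle : Z ≤ EΩ.comap π := by rw [← hker]; exact fun x hx => by simp [Subgroup.mem_comap, MonoidHom.mem_ker.1 hx]
    let f : EΩ.comap π →* EΩ := π.subgroupComap EΩ
    have hf : Function.Surjective f := fun y => by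
      obtain ⟨x, hx⟩ := hπ y.1
      exact ⟨⟨x, by rw [Subgroup.mem_comap, hx]; exact y.2⟩, Subtype.ext hx⟩
    have hk : f.ker = Z.subgroupOf (EΩ.comap π) := by
      ext x
      rw [MonoidHom.mem_ker, Subgroup.mem_subgroupOf, ← hker, MonoidHom.mem_ker]
      exact Subtype.ext_iff
    rw [← f.ker.card_mul_index, Subgroup.index_ker, MonoidHom.range_eq_top.2 hf, Subgroup.card_top, hk,
      Nat.card_congr (Subgroup.subgroupOfEquivOfLe hle).toEquiv, hz1]
  have := Cfsg.Lib.Classical.SympElemAb.card_lt h2 hm E (s zS) hz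
    ⟨zS, by rw [SetLike.mem_coe, Subgroup.mem_comap, show π zS = 1 from MonoidHom.mem_ker.1 (hker ▸ hzZ)]; exact EΩ.one_mem, rfl⟩
    (by
      rintro _ ⟨x, hx, rfl⟩
      have h : x * x ∈ Z := by
        rw [← hker, MonoidHom.mem_ker, map_mul, ← pow_two]
        exact hsq _ hx
      rcases hZ _ h with e1 | e1
      · left; change s x * s x = 1; rw [← map_mul, e1, map_one]
      · right; change s x * s x = s zS; rw [← map_mul, e1])
    (by
      rintro _ ⟨x, hx, rfl⟩ _ ⟨y, hy, rfl⟩
      have h : x * y * (y * x)⁻¹ ∈ Z := by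
        rw [← hker, MonoidHom.mem_ker, map_mul, map_inv, map_mul, map_mul, hcomm _ hx _ hy, mul_inv_cancel]
      rcases hZ _ h with e1 | e1
      · left; change s x * s y = s y * s x; rw [← map_mul, ← map_mul, mul_inv_eq_one.1 e1]
      · right; change s x * s y = s zS * (s y * s x); rw [← map_mul, ← map_mul, ← map_mul, mul_inv_eq_iff_eq_mul.1 e1])
  rw [hcardE, pow_succ] at this
  omega

end Cfsg.Agent.S0821
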