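import Cfsg.Statements.S0823
import Mathlib
import Cfsg.Agent.Lib.Classical.PermModule
import Cfsg.Agent.Lib.Classical.ClassicalOrders

set_option autoImplicit false
open Cfsg
open scoped Matrix

namespace Cfsg.Agent.S0823

/-- SO_3(3) ≅ S_4: the determinant-one isometries of the form x_0² + x_1y_1 over the field with 3 elements form a group isomorphic to the symmetric group on 4 letters. -/
theorem result {F : Type*} [Field F] [Fintype F] (hF : Fintype.card F = 3) : Nonempty (↥(Cfsg.specialIsometryGroup F (Cfsg.quadFormOdd 1 F)) ≃* Equiv.Perm (Fin 4)) := by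
  classical
  obtain ⟨φ⟩ := Cfsg.Lib.Classical.PermModule.exists_equiv (p := 3) hF
  let ι : Matrix (Fin 4) (Unit ⊕ (Fin 1 ⊕ Fin 1)) (ZMod 3) := (Matrix.of fun i k => (![![0, 0, 1, 2], ![0, 1, 1, 1], ![2, 0, 2, 2]] : Fin 3 → Fin 4 → ZMod 3) (Sum.elim (fun _ => 0) (Sum.elim ![1] ![2]) k) i)
  let π : Matrix (Unit ⊕ (Fin 1 ⊕ Fin 1)) (Fin 4) (ZMod 3) := (Matrix.of fun k i => (![![0, 0, 2, 1], ![2, 0, 2, 2], ![0, 1, 1, 1]] : Fin 3 → Fin 4 → ZMod 3) (Sum.elim (fun _ => 0) (Sum.elim ![1] ![2]) k) i)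
  let χ : Equiv.Perm (Fin 4) →* ZMod 3 := ((Int.castRingHom (ZMod 3)).toMonoidHom.comp (Units.coeHom ℤ)).comp Equiv.Perm.sign
  have D : Cfsg.Lib.Classical.PermModule.Data χ ι π (fun x _ => 2 * ∑ i, x i ^ 2) (fun u _ => Cfsg.quadFormOdd 1 (ZMod 3) u) :=
    { retr := by decide +kernel
      sum := by decide +kernel
      corr := by decide +kernel
      form := fun u _ => by revert u; decide +kernel
      perm := fun σ x y => by
        have hs : χ σ ^ 2 = 1 := by rcases Int.units_eq_one_or (Equiv.Perm.sign σ) with h | h <;> simp [χ, h]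
        simp only [Pi.smul_apply, smul_eq_mul, mul_pow, hs, one_mul, Function.comp_apply]
        rw [Equiv.sum_comp σ.symm fun i => x i ^ 2]
      shift := fun x y c d hx _ hc _ => by revert x c; decide +kernel }
  have hq : ∀ u v : Unit ⊕ (Fin 1 ⊕ Fin 1) → ZMod 3, (fun u _ => Cfsg.quadFormOdd 1 F u) (φ ∘ u) (φ ∘ v) = φ ((fun u _ => Cfsg.quadFormOdd 1 (ZMod 3) u) u v) := by
    intro u v
    simp only [Cfsg.quadFormOdd, Function.comp_apply, map_add, map_mul, map_pow, map_sum]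
  let g : Equiv.Perm (Fin 4) →* Cfsg.isometryGroup F (Cfsg.quadFormOdd 1 F) :=
    (D.hom φ).codRestrict _ fun σ x y => D.hom_form φ (fun u _ => Cfsg.quadFormOdd 1 F u) hq σ x y
  have hdet : ∀ σ : Equiv.Perm (Fin 4), (Cfsg.Lib.Classical.PermModule.mat χ ι π σ).det = 1 := by decide +kernel
  have hker : ∀ σ : Equiv.Perm (Fin 4), Cfsg.Lib.Classical.PermModule.mat χ ι π σ = 1 → σ = 1 := by decide +kernel
  let h : Equiv.Perm (Fin 4) →* Cfsg.specialIsometryGroup F (Cfsg.quadFormOdd 1 F) := g.codRestrict _ fun σ => by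
    refine Units.ext ?_
    show ((D.hom φ σ : Matrix (Unit ⊕ (Fin 1 ⊕ Fin 1)) (Unit ⊕ (Fin 1 ⊕ Fin 1)) F)).det = 1
    rw [D.coe_hom, show (Cfsg.Lib.Classical.PermModule.mat χ ι π σ).map φ = (φ : ZMod 3 →+* F).mapMatrix (Cfsg.Lib.Classical.PermModule.mat χ ι π σ) from rfl, ← RingHom.map_det, hdet, map_one]
  have hinj : Function.Injective h := by
    rw [← MonoidHom.ker_eq_bot_iff, Subgroup.eq_bot_iff_forall]
    intro σ hσ
    refine hker σ (Matrix.map_injective φ.injective ?_)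
    have : (D.hom φ σ : Matrix (Unit ⊕ (Fin 1 ⊕ Fin 1)) (Unit ⊕ (Fin 1 ⊕ Fin 1)) F) = 1 := congrArg (fun t : Cfsg.specialIsometryGroup F (Cfsg.quadFormOdd 1 F) => (t.1.1 : Matrix (Unit ⊕ (Fin 1 ⊕ Fin 1)) (Unit ⊕ (Fin 1 ⊕ Fin 1)) F)) hσ
    simp only [← D.coe_hom φ σ, this, Matrix.map_one, map_zero, map_one]
  let δ := Matrix.GeneralLinearGroup.det.comp (Cfsg.isometryGroup F (Cfsg.quadFormOdd 1 F)).subtype
  have hu : Nat.card Fˣ = 2 := by rw [Nat.card_units, Nat.card_eq_fintype_card, hF]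
  let m : Cfsg.isometryGroup F (Cfsg.quadFormOdd 1 F) := ⟨-1, fun u v => by
    show Cfsg.quadFormOdd 1 F ((-1 : Matrix _ _ F) *ᵥ u) = _
    simp [Cfsg.quadFormOdd, Matrix.neg_mulVec]⟩
  have hm : δ m ≠ 1 := fun he => by
    have h1 : (-1 : Matrix (Unit ⊕ (Fin 1 ⊕ Fin 1)) (Unit ⊕ (Fin 1 ⊕ Fin 1)) F).det = 1 := congrArg Units.val he
    rw [Matrix.det_neg, Matrix.det_one, mul_one] at h1
    simp [pow_succ] at h1
    exact absurd (φ.injective (show φ (-1) = φ 1 by simpa using h1)) (by decide)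
  have hrange : Nat.card δ.range = 2 := by
    have h1 := Subgroup.card_subgroup_dvd_card δ.range
    rw [hu] at h1
    have h2 : Nat.card δ.range ≠ 1 := fun h1 => hm ((Subgroup.card_eq_one.1 h1) ▸ ⟨m, rfl⟩ : δ m ∈ (⊥ : Subgroup Fˣ))
    exact (Nat.prime_two.eq_one_or_self_of_dvd _ h1).resolve_left h2
  have hcard : Nat.card (Cfsg.specialIsometryGroup F (Cfsg.quadFormOdd 1 F)) = 24 := by
    have := δ.ker.card_mul_index
    rw [Subgroup.index_ker, hrange, Cfsg.Lib.Classical.ClassicalOrders.card_odd hF (by decide)] at this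
    have e : Nat.card δ.ker = 24 := by generalize Nat.card δ.ker = k at this ⊢; norm_num [Finset.prod_range_succ] at this; omega
    exact e
  exact Cfsg.Lib.Classical.PermModule.nonempty_mulEquiv h hinj (by rw [hcard, Nat.card_eq_fintype_card, Fintype.card_perm]; rfl)

end Cfsg.Agent.S0823
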