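import Cfsg.Statements.S0824
import Mathlib
import Cfsg.Agent.Lib.Classical.PermModule
import Cfsg.Agent.Lib.Classical.ClassicalOrders

set_option autoImplicit false
open Cfsg
open scoped Matrix

namespace Cfsg.Agent.S0824

/-- O⁻_4(2) ≅ S_5: the isometry group of the form x y + z_1² + z_1 z_2 + z_2² over the field with 2 elements is isomorphic to the symmetric group on 5 letters. -/
theorem result {F : Type*} [Field F] [Fintype F] (hF : Fintype.card F = 2) : Nonempty (↥(Cfsg.isometryGroup F (Cfsg.quadFormMinus 1 F 1 1)) ≃* Equiv.Perm (Fin 5)) := by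
  classical
  obtain ⟨φ⟩ := Cfsg.Lib.Classical.PermModule.exists_equiv (p := 2) hF
  let ι : Matrix (Fin 5) ((Fin 1 ⊕ Fin 1) ⊕ Fin 2) (ZMod 2) := (Matrix.of fun i k => (![![1, 1, 1, 1, 0], ![1, 1, 1, 0, 1], ![1, 1, 0, 0, 0], ![0, 1, 1, 0, 0]] : Fin 4 → Fin 5 → ZMod 2) (Sum.elim (Sum.elim ![0] ![1]) ![2, 3] k) i)
  let π : Matrix ((Fin 1 ⊕ Fin 1) ⊕ Fin 2) (Fin 5) (ZMod 2) := (Matrix.of fun k i => (![![1, 1, 1, 0, 1], ![1, 1, 1, 1, 0], ![0, 1, 1, 0, 0], ![1, 1, 0, 0, 0]] : Fin 4 → Fin 5 → ZMod 2) (Sum.elim (Sum.elim ![0] ![1]) ![2, 3] k) i)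
  let R : (Fin 5 → ZMod 2) → (Fin 5 → ZMod 2) → ZMod 2 := fun x _ => (((∑ i, if x i = 1 then 1 else 0 : ℕ) / 2 : ℕ) : ZMod 2)
  have D : Cfsg.Lib.Classical.PermModule.Data 1 ι π R (fun u _ => Cfsg.quadFormMinus 1 (ZMod 2) 1 1 u) :=
    { retr := by decide +kernel
      sum := by decide +kernel
      corr := by decide +kernel
      form := fun u _ => by revert u; decide +kernel
      perm := fun σ x y => by
        simp only [R, MonoidHom.one_apply, one_smul, Function.comp_apply]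
        rw [Equiv.sum_comp σ.symm fun i => if x i = 1 then (1 : ℕ) else 0]
      shift := fun x y c d hx _ hc _ => by revert x c; decide +kernel }
  have hq : ∀ u v : (Fin 1 ⊕ Fin 1) ⊕ Fin 2 → ZMod 2, (fun u _ => Cfsg.quadFormMinus 1 F 1 1 u) (φ ∘ u) (φ ∘ v) = φ ((fun u _ => Cfsg.quadFormMinus 1 (ZMod 2) 1 1 u) u v) := by
    intro u v
    simp only [Cfsg.quadFormMinus, Function.comp_apply, map_add, map_mul, map_pow, map_one, map_sum]
  let h : Equiv.Perm (Fin 5) →* Cfsg.isometryGroup F (Cfsg.quadFormMinus 1 F 1 1) :=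
    (D.hom φ).codRestrict _ fun σ x y => D.hom_form φ (fun u _ => Cfsg.quadFormMinus 1 F 1 1 u) hq σ x y
  have hinj : Function.Injective h := fun a b hab =>
    D.hom_injective φ (by norm_num) (τ := Equiv.swap 0 1 * Equiv.swap 2 3) (by simp) (by decide +kernel) (congrArg Subtype.val hab)
  exact Cfsg.Lib.Classical.PermModule.nonempty_mulEquiv h hinj (by
    rw [Cfsg.Lib.Classical.ClassicalOrders.card_minus hF 2 (by norm_num) 1 1 (fun a b h => by
      obtain ⟨a, rfl⟩ := φ.surjective a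
      obtain ⟨b, rfl⟩ := φ.surjective b
      have h2 : a ^ 2 + 1 * a * b + 1 * b ^ 2 = 0 := φ.injective (by simpa only [map_add, map_mul, map_pow, map_one, map_zero] using h)
      obtain ⟨ha, hb⟩ := (show ∀ a b : ZMod 2, a ^ 2 + 1 * a * b + 1 * b ^ 2 = 0 → a = 0 ∧ b = 0 by decide +kernel) a b h2
      exact ⟨by rw [ha, map_zero], by rw [hb, map_zero]⟩), Nat.card_eq_fintype_card, Fintype.card_perm]
    rfl)

end Cfsg.Agent.S0824
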