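import Cfsg.Statements.S0826
import Mathlib
import Cfsg.Agent.S0752

set_option autoImplicit false
open Cfsg
open scoped Matrix

namespace Cfsg.Agent.S0826

/-- S_2n ≤ Sp_(2n−2)(2) for n ≥ 3: there is an injective homomorphism from the symmetric group on 2n letters into the symplectic group of degree 2n − 2 over the field with two elements. -/
theorem result (n : ℕ) (hn : 3 ≤ n) : ∃ f : Equiv.Perm (Fin (2 * n)) →* Matrix.symplecticGroup (Fin (n - 1)) (ZMod 2), Function.Injective f := by
  classical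
  let N := 2 * n
  let sumL : (Fin N → ZMod 2) →ₗ[ZMod 2] ZMod 2 := ∑ i, LinearMap.proj i
  have hsumL : ∀ x, sumL x = ∑ i, x i := fun x => by simp [sumL]
  let E := LinearMap.ker sumL
  have sq : ∀ z : ZMod 2, z * z = z := by decide
  let B : LinearMap.BilinForm (ZMod 2) E := LinearMap.mk₂ (ZMod 2) (fun x y => (x : Fin N → ZMod 2) ⬝ᵥ (y : Fin N → ZMod 2))
    (fun x y z => add_dotProduct _ _ _) (fun c x y => smul_dotProduct _ _ _)
    (fun x y z => dotProduct_add _ _ _) (fun c x y => dotProduct_smul _ _ _)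
  have hB : ∀ x y : E, B x y = (x : Fin N → ZMod 2) ⬝ᵥ (y : Fin N → ZMod 2) := fun x y => rfl
  have hA : B.IsAlt := fun x => by
    rw [hB]
    have := x.2
    rw [LinearMap.mem_ker, hsumL] at this
    simpa [dotProduct, sq] using this
  obtain ⟨m, k, b, b1, b2, b3, b4⟩ := Cfsg.Agent.S0752.result B hA
  have hpair : ∀ a c : Fin N, (Pi.single a 1 + Pi.single c 1 : Fin N → ZMod 2) ∈ E := fun a c => by
    rw [LinearMap.mem_ker, hsumL]
    simp [Finset.sum_add_distrib]
    decide
  have hrad : ∀ j, ((b (Sum.inr j) : E) : Fin N → ZMod 2) = 1 := by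
    intro j
    set x := ((b (Sum.inr j) : E) : Fin N → ZMod 2) with hx
    have heq : ∀ a c, x a = x c := fun a c => by
      have h := b4 j ⟨_, hpair a c⟩
      rw [hB] at h
      simp [dotProduct_add] at h
      rw [← hx] at h
      have key : ∀ p q : ZMod 2, p + q = 0 → p = q := by decide
      exact key _ _ h
    have hne : x ≠ 0 := fun e => b.ne_zero (Sum.inr j) (Subtype.ext e)
    obtain ⟨a, ha⟩ := Function.ne_iff.1 hne
    funext c
    have key : ∀ p : ZMod 2, p ≠ 0 → p = 1 := by decide
    rw [heq c a]; exact key _ ha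
  have hk1 : k ≤ 1 := by
    by_contra hk
    have h := b.injective (Subtype.ext ((hrad ⟨0, by omega⟩).trans (hrad ⟨1, by omega⟩).symm))
    simp [Fin.ext_iff] at h
  have hdim : Module.finrank (ZMod 2) E + 1 = N := by
    have h : Module.finrank (ZMod 2) (LinearMap.range sumL) + Module.finrank (ZMod 2) E = Module.finrank (ZMod 2) (Fin N → ZMod 2) :=
      LinearMap.finrank_range_add_finrank_ker sumL
    have hs : Function.Surjective sumL := fun z => ⟨Pi.single ⟨0, by omega⟩ z, by rw [hsumL]; simp⟩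
    rw [LinearMap.range_eq_top.2 hs, finrank_top, Module.finrank_self, Module.finrank_fintype_fun_eq_card, Fintype.card_fin] at h
    omega
  rw [Module.finrank_eq_card_basis b] at hdim
  simp at hdim
  obtain rfl : k = 1 := by omega
  obtain rfl : m = n - 1 := by omega
  have hone : ∀ g : Equiv.Perm (Fin N), ∀ x : E, (fun a => (x : Fin N → ZMod 2) (g⁻¹ a)) ∈ E := fun g x => by
    have h := x.2
    rw [LinearMap.mem_ker, hsumL] at h ⊢
    rw [← h]
    exact Equiv.sum_comp g⁻¹ (x : Fin N → ZMod 2)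
  let ρ : Equiv.Perm (Fin N) → E →ₗ[ZMod 2] E := fun g =>
    { toFun := fun x => ⟨_, hone g x⟩
      map_add' := fun x y => rfl
      map_smul' := fun c x => rfl }
  let ι := Fin (n - 1) ⊕ Fin (n - 1)
  let M : Equiv.Perm (Fin N) → Matrix ι ι (ZMod 2) := fun g => Matrix.of fun i j => b.repr (ρ g (b (Sum.inl j))) (Sum.inl i)
  have hρrad : ∀ g j, ρ g (b (Sum.inr j)) = b (Sum.inr j) := fun g j => Subtype.ext (funext fun a => by
    change ((b (Sum.inr j) : E) : Fin N → ZMod 2) (g⁻¹ a) = _
    rw [hrad]; rfl)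
  have hρmul : ∀ g h x, ρ (g * h) x = ρ g (ρ h x) := fun g h x => rfl
  have hdec : ∀ g j, ρ g (b (Sum.inl j)) = (∑ i, M g i j • b (Sum.inl i)) + ∑ i, b.repr (ρ g (b (Sum.inl j))) (Sum.inr i) • b (Sum.inr i) := by
    intro g j
    conv_lhs => rw [← b.sum_repr (ρ g (b (Sum.inl j))), Fintype.sum_sum_type]
    rfl
  have hMmul : ∀ g h, M (g * h) = M g * M h := by
    intro g h
    ext i j
    change b.repr (ρ (g * h) (b (Sum.inl j))) (Sum.inl i) = _
    rw [hρmul, hdec h j, map_add, map_sum, map_sum]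
    simp only [map_smul, hρrad, map_add, map_sum, Finsupp.add_apply, Finsupp.finset_sum_apply, Finsupp.smul_apply, Module.Basis.repr_self]
    simp [Matrix.mul_apply, M, Finsupp.single_apply]
    exact Finset.sum_congr rfl fun _ _ => mul_comm _ _
  have hsymp : ∀ g, M g ∈ Matrix.symplecticGroup (Fin (n - 1)) (ZMod 2) := by
    intro g
    have hJ : ∀ i j : ι, B (b (Sum.inl i)) (b (Sum.inl j)) = Matrix.J (Fin (n - 1)) (ZMod 2) i j := by
      rintro (i | i) (j | j)
      · simp [Matrix.J, b2]
      · simp [Matrix.J, b1, Matrix.one_apply]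
      · rw [← LinearMap.IsAlt.neg hA, b1]
        simp [Matrix.J, Matrix.one_apply, eq_comm, apply_ite]
      · simp [Matrix.J, b3]
    have hr' : ∀ (x : E) i, B x (b (Sum.inr i)) = 0 := fun x i => by
      rw [← LinearMap.IsAlt.neg hA, b4, neg_zero]
    rw [SymplecticGroup.mem_iff']
    ext i j
    have hiso : B (ρ g (b (Sum.inl i))) (ρ g (b (Sum.inl j))) = B (b (Sum.inl i)) (b (Sum.inl j)) := by
      rw [hB, hB]
      exact Equiv.sum_comp g⁻¹ (fun a => ((b (Sum.inl i) : E) : Fin N → ZMod 2) a * ((b (Sum.inl j) : E) : Fin N → ZMod 2) a)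
    rw [hdec g i, hdec g j, hJ i j] at hiso
    simp only [map_add, map_sum, map_smul, LinearMap.add_apply, LinearMap.coe_sum, Finset.sum_apply,
      LinearMap.smul_apply, b4, hr', smul_zero, mul_zero, Finset.sum_const_zero, add_zero, hJ, smul_eq_mul] at hiso
    rw [← hiso]
    simp only [Matrix.mul_apply, Matrix.transpose_apply, Finset.sum_mul, Finset.mul_sum]
    exact Finset.sum_congr rfl fun _ _ => Finset.sum_congr rfl fun _ _ => by ring
  have hM1 : M 1 = 1 := by
    ext i j
    change b.repr (b (Sum.inl j)) (Sum.inl i) = _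
    rw [Module.Basis.repr_self, Finsupp.single_apply, Matrix.one_apply]
    simp [eq_comm]
  let f : Equiv.Perm (Fin N) →* Matrix.symplecticGroup (Fin (n - 1)) (ZMod 2) :=
    { toFun := fun g => ⟨M g, hsymp g⟩
      map_one' := Subtype.ext hM1
      map_mul' := fun g h => Subtype.ext (hMmul g h) }
  refine ⟨f, (injective_iff_map_eq_one f).2 fun g hg => ?_⟩
  have hg' : M g = 1 := congrArg Subtype.val hg
  have hfix : ∀ x : E, ∃ c : ZMod 2, ((ρ g x : E) : Fin N → ZMod 2) = (x : Fin N → ZMod 2) + c • 1 := by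
    intro x
    have hmem : x ∈ Submodule.span (ZMod 2) (Set.range b) := b.span_eq ▸ Submodule.mem_top
    induction hmem using Submodule.span_induction with
    | mem y hy =>
      obtain ⟨(j | j), rfl⟩ := hy
      · refine ⟨b.repr (ρ g (b (Sum.inl j))) (Sum.inr 0), ?_⟩
        conv_lhs => rw [hdec g j]
        have hsum : (∑ i, M g i j • b (Sum.inl i)) = b (Sum.inl j) := by
          simp [hg', Matrix.one_apply]
          exact (Finset.sum_ite_eq' Finset.univ j _).trans (if_pos (Finset.mem_univ _))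
        rw [hsum]
        simp [hrad]
      · exact ⟨0, by rw [hρrad]; simp⟩
    | zero => exact ⟨0, by simp⟩
    | add y z _ _ hy hz =>
      obtain ⟨c, hc⟩ := hy
      obtain ⟨d, hd⟩ := hz
      exact ⟨c + d, by rw [map_add, Submodule.coe_add, hc, hd, Submodule.coe_add, add_smul]; abel⟩
    | smul t y _ hy =>
      obtain ⟨c, hc⟩ := hy
      exact ⟨t * c, by rw [map_smul, Submodule.coe_smul, hc, Submodule.coe_smul, smul_add, mul_smul]⟩
  have hpairs : ∀ a c : Fin N, a ≠ c → g a = a ∨ g a = c := by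
    intro a c hac
    by_contra! hne
    obtain ⟨d, hd⟩ := hfix ⟨_, hpair a c⟩
    have hga := congrFun hd (g a)
    change (Pi.single a 1 + Pi.single c 1 : Fin N → ZMod 2) (g⁻¹ (g a)) = _ at hga
    simp [hne.1, hne.2, hac] at hga
    obtain ⟨e, he⟩ : ∃ e, e ∉ ({a, c, g a, g c} : Finset (Fin N)) := by
      by_contra! hall
      have := Finset.card_le_card (show Finset.univ ⊆ ({a, c, g a, g c} : Finset (Fin N)) from fun e _ => hall e)
      have h4 := Finset.card_le_four (a := a) (b := c) (c := g a) (d := g c)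
      simp at this
      omega
    simp at he
    have he' := congrFun hd e
    change (Pi.single a 1 + Pi.single c 1 : Fin N → ZMod 2) (g⁻¹ e) = _ at he'
    have e1 : g⁻¹ e ≠ a := fun h => he.2.2.1 (by rw [← h]; simp)
    have e2 : g⁻¹ e ≠ c := fun h => he.2.2.2 (by rw [← h]; simp)
    rw [Equiv.Perm.inv_def] at e1 e2
    simp [e1, e2, he.1, he.2.1, ← hga] at he'
  refine Equiv.ext fun a => ?_
  by_contra hne
  obtain ⟨c, hc⟩ : ∃ c, c ∉ ({a, g a} : Finset (Fin N)) := by
    by_contra! hall
    have := Finset.card_le_card (show Finset.univ ⊆ ({a, g a} : Finset (Fin N)) from fun e _ => hall e)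
    have h2 := Finset.card_le_two (a := a) (b := g a)
    simp at this
    omega
  simp at hc
  rcases hpairs a c (Ne.symm hc.1) with h | h
  · exact hne h
  · exact hc.2 h.symm

end Cfsg.Agent.S0826
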