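import Cfsg.Statements.S0828
import Mathlib
import Cfsg.Agent.Lib.Classical.SymplecticMatrix
import Cfsg.Agent.Lib.Classical.LineCount

set_option autoImplicit false
open Cfsg
open scoped Matrix

namespace Cfsg.Agent.S0828

/-- The symplectic generalised quadrangle over a field with q elements: the number of 2-dimensional subspaces of F^4 on which the symplectic form vanishes is (q + 1)(q² + 1), and every non-zero vector lies in exactly q + 1 of them. -/
theorem result {F : Type*} [Field F] [Fintype F] {q : ℕ} (hF : Fintype.card F = q) : Nat.card {W : Submodule F (Fin 2 ⊕ Fin 2 → F) // Module.finrank F W = 2 ∧ ∀ u ∈ W, ∀ v ∈ W, Cfsg.sympForm 2 F u v = 0} = (q + 1) * (q ^ 2 + 1) ∧ ∀ v : Fin 2 ⊕ Fin 2 → F, v ≠ 0 → Nat.card {W : Submodule F (Fin 2 ⊕ Fin 2 → F) // Module.finrank F W = 2 ∧ v ∈ W ∧ ∀ u ∈ W, ∀ w ∈ W, Cfsg.sympForm 2 F u w = 0} = q + 1 := by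
  classical
  set B := Cfsg.Lib.Classical.sympBilin F 2 with hB
  have hA : B.IsAlt := Cfsg.Lib.Classical.sympBilin_isAlt F 2
  have hnd : B.Nondegenerate := Cfsg.Lib.Classical.sympBilin_nondegenerate F 2
  simp only [← Cfsg.Lib.Classical.sympBilin_apply, ← hB]
  have hspan : ∀ u w : Fin 2 ⊕ Fin 2 → F, B u u = 0 → B w w = 0 → B u w = 0 →
      ∀ x ∈ Submodule.span F ({u, w} : Set _), ∀ y ∈ Submodule.span F ({u, w} : Set _), B x y = 0 := by
    intro u w hu hw huw x hx y hy
    obtain ⟨a, b, rfl⟩ := Submodule.mem_span_pair.1 hx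
    obtain ⟨c, d, rfl⟩ := Submodule.mem_span_pair.1 hy
    have hwu : B w u = 0 := by rw [← LinearMap.IsAlt.neg hA, huw, neg_zero]
    simp [hu, hw, huw, hwu]
  have hq : 1 < q := hF ▸ Fintype.one_lt_card
  have hv : ∀ v : Fin 2 ⊕ Fin 2 → F, v ≠ 0 → Nat.card {W : Submodule F (Fin 2 ⊕ Fin 2 → F) //
      Module.finrank F W = 2 ∧ v ∈ W ∧ ∀ u ∈ W, ∀ w ∈ W, B u w = 0} = q + 1 := by
    intro v hv
    have h := Cfsg.Lib.Classical.LineCount.per_vertex (R := fun u w => B u w = 0) hspan hv (hA v)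
    have hker : Nat.card {w : Fin 2 ⊕ Fin 2 → F // B w w = 0 ∧ B v w = 0} = q ^ 3 := by
      rw [Nat.card_congr (Equiv.subtypeEquivRight (q := fun w => w ∈ LinearMap.ker (B v)) fun w => by simp [hA w]),
        Module.natCard_eq_pow_finrank (K := F), Nat.card_eq_fintype_card, hF]
      congr 1
      have hne : B v ≠ 0 := fun h0 => hv (hnd.1 v fun y => by rw [h0, LinearMap.zero_apply])
      have := Module.Dual.finrank_ker_add_one_of_ne_zero hne
      simp at this
      omega
    rw [hker, hF] at h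
    have h3 : (q + 1) * (q ^ 2 - q) + q = q ^ 3 := by
      zify [show q ≤ q ^ 2 from Nat.le_self_pow two_ne_zero q]
      ring
    exact Nat.eq_of_mul_eq_mul_right (show 0 < q ^ 2 - q by nlinarith [Nat.sub_add_cancel (show q ≤ q ^ 2 from Nat.le_self_pow two_ne_zero q)]) (Nat.add_right_cancel (h.trans h3.symm))
  refine ⟨?_, hv⟩
  have h := Cfsg.Lib.Classical.LineCount.global (F := F) (R := fun u w => B u w = 0) (fun v h0 _ => hv v h0)
  rw [Nat.card_congr (Equiv.subtypeEquivRight (q := fun v : Fin 2 ⊕ Fin 2 → F => v ≠ 0) fun v => by simp [hA v]), hF] at h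
  rw [Nat.card_eq_fintype_card (α := {v : Fin 2 ⊕ Fin 2 → F // v ≠ 0}), Fintype.card_subtype_compl, Fintype.card_subtype_eq, Fintype.card_fun, hF] at h
  simp only [Fintype.card_sum, Fintype.card_fin] at h
  refine Nat.eq_of_mul_eq_mul_right (show 0 < q ^ 2 - 1 by nlinarith [Nat.sub_add_cancel (Nat.one_le_pow 2 q (by omega))]) (h.trans ?_)
  zify [Nat.one_le_pow 2 q (by omega), Nat.one_le_pow (2 + 2) q (by omega)]
  ring

end Cfsg.Agent.S0828
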