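import Cfsg.Statements.S0830
import Mathlib
import Cfsg.Agent.Lib.Classical.UnitaryLines

set_option autoImplicit false
open Cfsg
open scoped Matrix

namespace Cfsg.Agent.S0830

/-- The unitary quadrangle of PSU_5(q): with |F| = q², the number of 2-dimensional subspaces of F^5 on which the Hermitian form vanishes is (q³ + 1)(q⁵ + 1). -/
theorem result {F : Type*} [Field F] [Fintype F] {q : ℕ} (hF : Fintype.card F = q ^ 2) : Nat.card {W : Submodule F (Fin 5 → F) // Module.finrank F W = 2 ∧ ∀ u ∈ W, ∀ v ∈ W, Cfsg.hermForm 5 F q u v = 0} = (q ^ 3 + 1) * (q ^ 5 + 1) := by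
  obtain ⟨τ, hne, hτ, hinv⟩ := Cfsg.Lib.Classical.exists_frobSq hF
  have h1 : 1 ≤ q ^ 4 := Nat.one_le_pow _ _ (Nat.pos_of_ne_zero fun h0 => by
    have := Fintype.one_lt_card (α := F)
    simp [hF, h0] at this)
  refine Cfsg.Lib.Classical.UnitaryLines.card_lines (Cfsg.Lib.Classical.hermForm_isUnitaryForm hne hτ hinv 5) hF (n := 3) (L := (q ^ 5 + 1) * (q ^ 4 - 1)) (c := q ^ 3 + 1) (by simp) ?_ ?_ ?_
  all_goals push_cast [Nat.cast_sub h1]; ring

end Cfsg.Agent.S0830
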