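import Cfsg.Statements.S0831
import Mathlib
import Cfsg.Agent.Lib.Classical.PlusFamilies
import Cfsg.Agent.Lib.Classical.QuadOrders

set_option autoImplicit false
open Cfsg
open scoped Matrix

namespace Cfsg.Agent.S0831

/-- The two families of maximal totally singular subspaces of the hyperbolic quadric: for the form Σ x_i y_i on F^(2m), m ≥ 1, and m-dimensional subspaces U, W, X on which it vanishes, the parities of m − dim(U ∩ W), m − dim(W ∩ X) and m − dim(U ∩ X) sum to an even number (so 'even codimension of the intersection' is an equivalence relation), and there exist two such subspaces meeting in codimension 1 (so there are exactly two classes). -/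
theorem result {F : Type*} [Field F] (m : ℕ) (hm : 1 ≤ m) : (∀ U W X : Submodule F (Fin m ⊕ Fin m → F), (Module.finrank F U = m ∧ ∀ w ∈ U, Cfsg.quadFormPlus m F w = 0) → (Module.finrank F W = m ∧ ∀ w ∈ W, Cfsg.quadFormPlus m F w = 0) → (Module.finrank F X = m ∧ ∀ w ∈ X, Cfsg.quadFormPlus m F w = 0) → Even ((m - Module.finrank F ↥(U ⊓ W)) + (m - Module.finrank F ↥(W ⊓ X)) + (m - Module.finrank F ↥(U ⊓ X)))) ∧ ∃ U W : Submodule F (Fin m ⊕ Fin m → F), (Module.finrank F U = m ∧ ∀ w ∈ U, Cfsg.quadFormPlus m F w = 0) ∧ (Module.finrank F W = m ∧ ∀ w ∈ W, Cfsg.quadFormPlus m F w = 0) ∧ Module.finrank F ↥(U ⊓ W) + 1 = m := by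
  classical
  let e := Cfsg.Lib.Classical.QuadOrders.ePlus F m
  let Q : QuadraticForm F (Fin m ⊕ Fin m → F) := (Cfsg.Lib.Classical.QuadOrders.Qs m (Cfsg.Lib.Classical.QuadOrders.Q0 (F := F))).comp e.toLinearMap
  have hform : ∀ v, Q v = Cfsg.quadFormPlus m F v := fun v => Cfsg.Lib.Classical.QuadOrders.ePlus_form m v
  have hS := Cfsg.Lib.Classical.QuadOrders.nondeg_std (m := m) (Cfsg.Lib.Classical.QuadOrders.Q0_nondeg (F := F))
  have hB : (QuadraticMap.polarBilin Q).Nondegenerate := Cfsg.Lib.Classical.QuadOrders.nondeg_of_left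
    (fun x y => Cfsg.Lib.Classical.Witt.polar_symm' Q x y) fun x hx => by
      refine e.injective (((hS.1 (e x) fun y => ?_)).trans (map_zero e).symm)
      have h := hx (e.symm y)
      simp only [QuadraticMap.polarBilin_apply_apply, QuadraticMap.polar, Q, QuadraticMap.comp_apply, LinearEquiv.coe_coe, map_add,
        LinearEquiv.apply_symm_apply] at h
      exact h
  have hd : Module.finrank F (Fin m ⊕ Fin m → F) = 2 * m := by simp [two_mul]
  refine ⟨fun U W X hU hW hX => ?_, ?_⟩
  · have hW' : Cfsg.Lib.Classical.PlusFamilies.TS Q W := fun w hw => (hform w).trans (hW.2 w hw)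
    have hl := hW.1 ▸ Submodule.finrank_mono (inf_le_left : W ⊓ X ≤ W)
    exact Cfsg.Lib.Classical.PlusFamilies.parity hB hd (m - Module.finrank F ↥(W ⊓ X)) U W X
      (fun w hw => (hform w).trans (hU.2 w hw)) hU.1 hW' hW.1 (fun w hw => (hform w).trans (hX.2 w hw)) hX.1 (by omega)
  · obtain ⟨k, rfl⟩ : ∃ k, m = k + 1 := ⟨m - 1, by omega⟩
    let s : Fin (k + 1) → Fin (k + 1) ⊕ Fin (k + 1) := fun i => if i = Fin.last k then .inr i else .inl i
    have hs : Function.Injective s := fun a b h => by simp only [s] at h; split_ifs at h <;> simp_all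
    let U := Submodule.span F (Set.range fun i : Fin (k + 1) => (Pi.single (Sum.inl i) 1 : Fin (k + 1) ⊕ Fin (k + 1) → F))
    let W := Submodule.span F (Set.range fun i : Fin (k + 1) => (Pi.single (s i) 1 : Fin (k + 1) ⊕ Fin (k + 1) → F))
    have liU := (Pi.linearIndependent_single_one (Fin (k + 1) ⊕ Fin (k + 1)) F).comp _ (Sum.inl_injective (β := Fin (k + 1)) (α := Fin (k + 1)))
    have liW := (Pi.linearIndependent_single_one (Fin (k + 1) ⊕ Fin (k + 1)) F).comp _ hs
    have dU : Module.finrank F U = k + 1 := (finrank_span_eq_card liU).trans (Fintype.card_fin _)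
    have dW : Module.finrank F W = k + 1 := (finrank_span_eq_card liW).trans (Fintype.card_fin _)
    have zU : ∀ v ∈ U, ∀ i, v (Sum.inr i) = 0 := fun v hv i => by
      obtain ⟨c, rfl⟩ := (Submodule.mem_span_range_iff_exists_fun F).1 hv
      simp [Pi.single_apply, Finset.sum_apply]
    have zW : ∀ v ∈ W, ∀ j, (∀ i, s i ≠ j) → v j = 0 := fun v hv j hj => by
      obtain ⟨c, rfl⟩ := (Submodule.mem_span_range_iff_exists_fun F).1 hv
      simp [Pi.single_apply, Finset.sum_apply, fun i => (hj i).symm]
    refine ⟨U, W, ⟨dU, fun v hv => by simp [Cfsg.quadFormPlus, zU v hv]⟩, ⟨dW, fun v hv => ?_⟩, ?_⟩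
    · refine Finset.sum_eq_zero fun i _ => ?_
      rcases eq_or_ne i (Fin.last k) with rfl | h
      · rw [zW v hv (.inl (Fin.last k)) fun i => by simp only [s]; split_ifs <;> simp_all, zero_mul]
      · rw [zW v hv (.inr i) fun j => by simp only [s]; split_ifs <;> simp_all [eq_comm], mul_zero]
    · have hsub : Submodule.span F (Set.range fun i : Fin k => (Pi.single (Sum.inl i.castSucc) 1 : Fin (k + 1) ⊕ Fin (k + 1) → F)) ≤ U ⊓ W :=
        Submodule.span_le.2 (Set.range_subset_iff.2 fun i => ⟨Submodule.subset_span ⟨i.castSucc, rfl⟩,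
          Submodule.subset_span ⟨i.castSucc, by simp [s, Fin.castSucc_ne_last]⟩⟩)
      have h1 := Submodule.finrank_mono hsub
      have h2 : Module.finrank F (Submodule.span F (Set.range fun i : Fin k => (Pi.single (Sum.inl i.castSucc) 1 : Fin (k + 1) ⊕ Fin (k + 1) → F))) = k :=
        (finrank_span_eq_card (liU.comp _ (Fin.castSucc_injective k))).trans (Fintype.card_fin _)
      have hlt : U ⊓ W < U := lt_of_le_of_ne inf_le_left fun h => by
        have hm : (Pi.single (Sum.inl (Fin.last k)) 1 : Fin (k + 1) ⊕ Fin (k + 1) → F) ∈ U ⊓ W := h.symm ▸ Submodule.subset_span ⟨Fin.last k, rfl⟩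
        have := zW _ hm.2 (.inl (Fin.last k)) fun i => by simp only [s]; split_ifs <;> simp_all
        simp at this
      have := Submodule.finrank_lt_finrank_of_lt hlt
      omega

end Cfsg.Agent.S0831
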