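import Cfsg.Statements.S0832
import Mathlib
import Cfsg.Agent.Lib.Classical.QuadOrders

set_option autoImplicit false
set_option maxHeartbeats 800000
open Cfsg
open scoped Matrix

namespace Cfsg.Agent.S0832

/-- For the form Σ x_i y_i on F^(2m) over a finite field, m ≥ 1: an (m−1)-dimensional subspace on which the form vanishes is contained in exactly two m-dimensional subspaces on which it vanishes. -/
theorem result {F : Type*} [Field F] [Finite F] (m : ℕ) (hm : 1 ≤ m) (U : Submodule F (Fin m ⊕ Fin m → F)) (hU : Module.finrank F U + 1 = m ∧ ∀ u ∈ U, Cfsg.quadFormPlus m F u = 0) : Nat.card {W : Submodule F (Fin m ⊕ Fin m → F) // Module.finrank F W = m ∧ (∀ w ∈ W, Cfsg.quadFormPlus m F w = 0) ∧ U ≤ W} = 2 := by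
  classical
  haveI := Fintype.ofFinite F
  let Q := Cfsg.Lib.Classical.QuadOrders.Qs m (Cfsg.Lib.Classical.QuadOrders.Q0 (F := F))
  let e := Cfsg.Lib.Classical.QuadOrders.ePlus F m
  have hB := Cfsg.Lib.Classical.QuadOrders.nondeg_std (m := m) (Cfsg.Lib.Classical.QuadOrders.Q0_nondeg (F := F))
  have hform : ∀ v, Q (e v) = Cfsg.quadFormPlus m F v := fun v => Cfsg.Lib.Classical.QuadOrders.ePlus_form m v
  obtain ⟨hd, hU0⟩ := hU
  obtain ⟨k, rfl⟩ : ∃ k, m = k + 1 := ⟨m - 1, by omega⟩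
  have hd' : Module.finrank F U = k := by omega
  let b := Module.finBasisOfFinrankEq F U hd'
  let std : Fin k → _ := fun i => Cfsg.Lib.Classical.QuadOrders.p0 (F := F) (Fin 0 → F) (k + 1) (.inl i.castSucc)
  have hstd := (Cfsg.Lib.Classical.QuadOrders.p0_frame (m := k + 1) (Qr := Cfsg.Lib.Classical.QuadOrders.Q0 (F := F)))
  let fr := Cfsg.Lib.Classical.QuadOrders.frame0 (k + 1) (Cfsg.Lib.Classical.QuadOrders.Q0 (F := F))
  have h0 := Cfsg.Lib.Classical.FrameCount.linearIndependent_frame (one_ne_zero : (1 : F) ≠ 0) fr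
  have hli : LinearIndependent F std := by
    exact LinearIndependent.comp h0 (fun i : Fin k => Sum.inl i.castSucc) (fun i j h => Fin.castSucc_injective k (Sum.inl_injective h))
  have hpol : ∀ x ∈ U, ∀ y ∈ U, QuadraticMap.polarBilin Q (e x) (e y) = 0 := fun x hx y hy => by
    rw [QuadraticMap.polarBilin_apply_apply, QuadraticMap.polar, ← map_add, hform, hform, hform, hU0 _ (U.add_mem hx hy), hU0 _ hx, hU0 _ hy]
    ring
  obtain ⟨g, hg, hge⟩ := Cfsg.Lib.Classical.Witt.quad_witt hB (fun i => e (b i : Fin (k + 1) ⊕ Fin (k + 1) → F)) std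
    ((b.linearIndependent.map' U.subtype (Submodule.ker_subtype U)).map' e.toLinearMap (LinearEquiv.ker e)) hli
    (fun i => (hform _).trans ((hU0 _ (b i).2).trans (hstd.1 (.inl i.castSucc)).2.symm))
    (fun i j => (hpol _ (b i).2 _ (b j).2).trans (hstd.2 (.inl i.castSucc) (.inl j.castSucc)).symm)
  let T : (Fin (k + 1) ⊕ Fin (k + 1) → F) ≃ₗ[F] (Fin (k + 1) ⊕ Fin (k + 1) → F) := e.trans (g.trans e.symm)
  have hT : ∀ v, Cfsg.quadFormPlus (k + 1) F (T v) = Cfsg.quadFormPlus (k + 1) F v := fun v => by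
    rw [← hform, ← hform]
    simp only [T, LinearEquiv.trans_apply, LinearEquiv.apply_symm_apply]
    exact hg _
  let U0 : Submodule F (Fin (k + 1) ⊕ Fin (k + 1) → F) :=
    Submodule.span F (Set.range fun i : Fin k => Pi.single (Sum.inl i.castSucc) 1)
  have hTU : U.map (T : (Fin (k + 1) ⊕ Fin (k + 1) → F) →ₗ[F] (Fin (k + 1) ⊕ Fin (k + 1) → F)) = U0 := by
    have : U = Submodule.span F (Set.range fun i => (b i : Fin (k + 1) ⊕ Fin (k + 1) → F)) := by
      conv_lhs => rw [← Submodule.map_subtype_top U, ← b.span_eq, Submodule.map_span, ← Set.range_comp]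
      rfl
    rw [this, Submodule.map_span, ← Set.range_comp]
    congr 2
    funext i
    show e.symm (g (e (b i : Fin (k + 1) ⊕ Fin (k + 1) → F))) = _
    rw [hge]
    funext x
    rcases x with x | x <;> simp [std, e, Cfsg.Lib.Classical.QuadOrders.p0, Cfsg.Lib.Classical.QuadOrders.ePlus, Pi.single_apply]
  let M := Submodule.orderIsoMapComap (T : (Fin (k + 1) ⊕ Fin (k + 1) → F) ≃ₗ[F] _)
  let P : Submodule F (Fin (k + 1) ⊕ Fin (k + 1) → F) → Prop := fun W =>
    Module.finrank F W = k + 1 ∧ (∀ w ∈ W, Cfsg.quadFormPlus (k + 1) F w = 0) ∧ U0 ≤ W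
  have hcongr : Nat.card {W : Submodule F (Fin (k + 1) ⊕ Fin (k + 1) → F) // Module.finrank F W = k + 1 ∧ (∀ w ∈ W, Cfsg.quadFormPlus (k + 1) F w = 0) ∧ U ≤ W}
      = Nat.card {W : Submodule F (Fin (k + 1) ⊕ Fin (k + 1) → F) // P W} := by
    refine Nat.card_congr (M.toEquiv.subtypeEquiv fun W => ?_)
    show _ ↔ Module.finrank F (W.map (T : (Fin (k + 1) ⊕ Fin (k + 1) → F) →ₗ[F] (Fin (k + 1) ⊕ Fin (k + 1) → F))) = k + 1 ∧ (∀ w ∈ W.map (T : (Fin (k + 1) ⊕ Fin (k + 1) → F) →ₗ[F] (Fin (k + 1) ⊕ Fin (k + 1) → F)), Cfsg.quadFormPlus (k + 1) F w = 0) ∧ U0 ≤ W.map (T : (Fin (k + 1) ⊕ Fin (k + 1) → F) →ₗ[F] (Fin (k + 1) ⊕ Fin (k + 1) → F))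
    rw [LinearEquiv.finrank_map_eq, ← hTU, Submodule.map_le_map_iff_of_injective T.injective]
    refine and_congr_right fun _ => and_congr_left fun _ => ⟨fun h w hw => ?_, fun h w hw => ?_⟩
    · obtain ⟨x, hx, rfl⟩ := Submodule.mem_map.1 hw
      exact (hT x).trans (h x hx)
    · exact (hT w).symm.trans (h _ (Submodule.mem_map_of_mem hw))
  rw [hcongr]
  let ε : Fin (k + 1) ⊕ Fin (k + 1) → (Fin (k + 1) ⊕ Fin (k + 1) → F) := fun x => Pi.single x 1
  let W1 := Submodule.span F (Set.range fun i : Fin (k + 1) => ε (.inl i))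
  let W2 := Submodule.span F (Set.range (Fin.snoc (fun i : Fin k => ε (.inl i.castSucc)) (ε (.inr (Fin.last k))) : Fin (k + 1) → _))
  have hmem1 : ∀ v, v ∈ W1 → ∀ i, v (.inr i) = 0 := by
    intro v hv i
    obtain ⟨c, rfl⟩ := (Submodule.mem_span_range_iff_exists_fun F).1 hv
    simp [ε, Pi.single_apply, Finset.sum_apply]
  have hmem2 : ∀ v, v ∈ W2 → v (.inl (Fin.last k)) = 0 ∧ ∀ i, i ≠ Fin.last k → v (.inr i) = 0 := by
    intro v hv
    obtain ⟨c, rfl⟩ := (Submodule.mem_span_range_iff_exists_fun F).1 hv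
    simp only [Fin.sum_univ_castSucc, Fin.snoc_castSucc, Fin.snoc_last]
    refine ⟨?_, fun i hi => ?_⟩ <;> simp [ε, Pi.single_apply, Finset.sum_apply, Fin.castSucc_ne_last, eq_comm, *]
  have hli1 : LinearIndependent F fun i : Fin (k + 1) => ε (.inl i) :=
    (Pi.linearIndependent_single_one _ F).comp _ Sum.inl_injective
  have hli2 : LinearIndependent F (Fin.snoc (fun i : Fin k => ε (.inl i.castSucc)) (ε (.inr (Fin.last k))) : Fin (k + 1) → _) := by
    have : (Fin.snoc (fun i : Fin k => ε (.inl i.castSucc)) (ε (.inr (Fin.last k))) : Fin (k + 1) → _) =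
        ε ∘ Fin.snoc (fun i : Fin k => .inl i.castSucc) (.inr (Fin.last k)) := by
      funext i
      induction i using Fin.lastCases <;> simp
    rw [this]
    refine (Pi.linearIndependent_single_one _ F).comp _ fun a b h => ?_
    induction a using Fin.lastCases <;> induction b using Fin.lastCases <;> simp_all
  have hP1 : P W1 := ⟨by rw [finrank_span_eq_card hli1, Fintype.card_fin], fun w hw => by
      simp [Cfsg.quadFormPlus, hmem1 w hw], Submodule.span_mono (Set.range_subset_iff.2 fun i => ⟨i.castSucc, rfl⟩)⟩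
  have hP2 : P W2 := ⟨by rw [finrank_span_eq_card hli2, Fintype.card_fin], fun w hw => by
      rw [Cfsg.quadFormPlus, Fin.sum_univ_castSucc, (hmem2 w hw).1, zero_mul, add_zero]
      exact Finset.sum_eq_zero fun i _ => by rw [(hmem2 w hw).2 _ (Fin.castSucc_ne_last i), mul_zero],
    Submodule.span_mono (Set.range_subset_iff.2 fun i => ⟨i.castSucc, by simp [ε]⟩)⟩
  have hne : W1 ≠ W2 := fun h => by
    have := (hmem2 (ε (.inl (Fin.last k))) (h ▸ Submodule.subset_span ⟨Fin.last k, rfl⟩)).1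
    simp [ε] at this
  have hall : ∀ W, P W → W = W1 ∨ W = W2 := by
    rintro W ⟨hW, hW0, hUW⟩
    have hperp : ∀ w ∈ W, ∀ i : Fin k, w (.inr i.castSucc) = 0 := fun w hw i => by
      have hu : ε (.inl i.castSucc) ∈ W := hUW (Submodule.subset_span ⟨i, rfl⟩)
      have h1 := hW0 _ (W.add_mem hw hu)
      have h2 := hW0 _ hw
      simp only [Cfsg.quadFormPlus, ε, Pi.add_apply, Pi.single_apply, Sum.inl.injEq, reduceCtorEq, if_false, add_zero, add_mul,
        Finset.sum_add_distrib, ite_mul, one_mul, zero_mul, Finset.sum_ite_eq', Finset.mem_univ, if_true] at h1 h2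
      linear_combination h1 - h2
    have hl : ∀ w ∈ W, w (.inl (Fin.last k)) * w (.inr (Fin.last k)) = 0 := fun w hw => by
      have h2 := hW0 _ hw
      rw [Cfsg.quadFormPlus, Fin.sum_univ_castSucc, Finset.sum_eq_zero fun i _ => by rw [hperp w hw i, mul_zero], zero_add] at h2
      exact h2
    by_cases hr : ∀ w ∈ W, w (.inr (Fin.last k)) = 0
    · left
      refine Submodule.eq_of_le_of_finrank_eq (fun w hw => ?_) (by rw [hW, hP1.1])
      refine (Submodule.mem_span_range_iff_exists_fun F).2 ⟨fun i => w (.inl i), ?_⟩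
      funext x
      rcases x with x | x
      · simp [ε, Finset.sum_apply, Pi.single_apply]
      · induction x using Fin.lastCases with
        | last => simp [ε, Finset.sum_apply, hr w hw]
        | cast i => simp [ε, Finset.sum_apply, hperp w hw i]
    · right
      push Not at hr
      obtain ⟨z, hz, hzr⟩ := hr
      have hzl : z (.inl (Fin.last k)) = 0 := (mul_eq_zero.1 (hl z hz)).resolve_right hzr
      refine Submodule.eq_of_le_of_finrank_eq (fun w hw => ?_) (by rw [hW, hP2.1])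
      have hwl : w (.inl (Fin.last k)) = 0 := by
        by_contra hwl
        have hwr : w (.inr (Fin.last k)) = 0 := (mul_eq_zero.1 (hl w hw)).resolve_left hwl
        have := hl _ (W.add_mem hw hz)
        simp [hzl, hwr, hwl, hzr] at this
      refine (Submodule.mem_span_range_iff_exists_fun F).2 ⟨Fin.snoc (fun i => w (.inl i.castSucc)) (w (.inr (Fin.last k))), ?_⟩
      funext x
      simp only [Fin.sum_univ_castSucc, Fin.snoc_castSucc, Fin.snoc_last]
      rcases x with x | x <;> induction x using Fin.lastCases <;>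
        simp [ε, Finset.sum_apply, Pi.single_apply, hwl, hperp w hw, Fin.castSucc_ne_last, (Fin.castSucc_ne_last _).symm]
  rw [Nat.card_eq_two_iff]
  refine ⟨⟨W1, hP1⟩, ⟨W2, hP2⟩, fun h => hne (congrArg Subtype.val h), ?_⟩
  ext ⟨W, hW⟩
  simp [hall W hW]

end Cfsg.Agent.S0832
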