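import Cfsg.Statements.S0833
import Mathlib

set_option autoImplicit false
open Cfsg
open scoped Matrix

namespace Cfsg.Agent.S0833

/-- If B₁, B₂ are non-degenerate alternating forms on U (dim 2k) and W (dim 2l), then B₁ ⊗ B₂ on U ⊗ W is symmetric, non-degenerate, and vanishes identically on some subspace of dimension 2kl (half of dim U ⊗ W). -/
theorem result {F U W : Type*} [Field F] [Fintype F] [AddCommGroup U] [Module F U] [FiniteDimensional F U] [AddCommGroup W] [Module F W] [FiniteDimensional F W] (B₁ : LinearMap.BilinForm F U) (B₂ : LinearMap.BilinForm F W) (h₁ : B₁.Nondegenerate) (h₂ : B₂.Nondegenerate) (hA₁ : B₁.IsAlt) (hA₂ : B₂.IsAlt) (k l : ℕ) (hU : Module.finrank F U = 2 * k) (hW : Module.finrank F W = 2 * l) : (B₁.tmul B₂).IsSymm ∧ (B₁.tmul B₂).Nondegenerate ∧ (∃ X : Submodule F (TensorProduct F U W), Module.finrank F X = 2 * k * l ∧ ∀ x ∈ X, ∀ y ∈ X, (B₁.tmul B₂) x y = 0) := by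
  classical
  have hval : ∀ (u u' : U) (w w' : W), (B₁.tmul B₂) (u ⊗ₜ[F] w) (u' ⊗ₜ[F] w') = B₂ w w' * B₁ u u' := fun u u' w w' => by
    simp [LinearMap.BilinForm.tensorDistrib_tmul]
  have hsym : (B₁.tmul B₂).IsSymm := by
    rw [LinearMap.isSymm_iff_eq_flip]
    refine TensorProduct.ext' fun u w => ?_
    refine TensorProduct.ext' fun u' w' => ?_
    rw [LinearMap.flip_apply, hval, hval, ← LinearMap.IsAlt.neg hA₁ u u', ← LinearMap.IsAlt.neg hA₂ w w', neg_mul_neg]
  refine ⟨hsym, ?_, ?_⟩
  · let b₁ := Module.finBasis F U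
    let b₂ := Module.finBasis F W
    show LinearMap.BilinForm.Nondegenerate (B₁.tmul B₂)
    rw [LinearMap.BilinForm.nondegenerate_iff_det_ne_zero (b₁.tensorProduct b₂)]
    have hM : LinearMap.BilinForm.toMatrix (b₁.tensorProduct b₂) (B₁.tmul B₂) =
        Matrix.kroneckerMap (· * ·) (LinearMap.BilinForm.toMatrix b₁ B₁) (LinearMap.BilinForm.toMatrix b₂ B₂) := by
      ext ⟨i, j⟩ ⟨k, l⟩
      simp [LinearMap.BilinForm.toMatrix_apply, Module.Basis.tensorProduct_apply, mul_comm]
    rw [hM, Matrix.det_kronecker]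
    exact mul_ne_zero (pow_ne_zero _ ((LinearMap.BilinForm.nondegenerate_iff_det_ne_zero b₁).1 h₁))
      (pow_ne_zero _ ((LinearMap.BilinForm.nondegenerate_iff_det_ne_zero b₂).1 h₂))
  · -- a maximal totally isotropic subspace of `U`
    let P : Set (Submodule F U) := {L | ∀ x ∈ L, ∀ y ∈ L, B₁ x y = 0}
    obtain ⟨L, hL, hmax⟩ : ∃ L ∈ P, ∀ L' ∈ P, Module.finrank F L' ≤ Module.finrank F L := by
      have hfin : ((fun L : Submodule F U => Module.finrank F L) '' P).Finite :=
        (Set.finite_Iic (Module.finrank F U)).subset (by rintro _ ⟨L, _, rfl⟩; exact L.finrank_le)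
      obtain ⟨_, ⟨⟨L, hL, rfl⟩, hmax⟩⟩ := hfin.exists_maximal (Set.Nonempty.image _ ⟨⊥, by intro x hx y hy; simp [(Submodule.mem_bot F).1 hx]⟩)
      refine ⟨L, hL, fun L' hL' => ?_⟩
      by_contra h
      exact h (hmax ⟨L', hL', rfl⟩ (le_of_lt (not_le.1 h)))
    have hLo : LinearMap.BilinForm.orthogonal B₁ L ≤ L := by
      intro v hv
      by_contra hvL
      have hP : L ⊔ Submodule.span F {v} ∈ P := by
        rintro x hx y hy
        obtain ⟨a, ha, b, hb, rfl⟩ := Submodule.mem_sup.1 hx
        obtain ⟨a', ha', b', hb', rfl⟩ := Submodule.mem_sup.1 hy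
        obtain ⟨s, rfl⟩ := Submodule.mem_span_singleton.1 hb
        obtain ⟨t, rfl⟩ := Submodule.mem_span_singleton.1 hb'
        have h0 : ∀ z ∈ L, B₁ z v = 0 ∧ B₁ v z = 0 := fun z hz => by
          have : B₁ z v = 0 := hv z hz
          exact ⟨this, by rw [← LinearMap.IsAlt.neg hA₁ z v, this, neg_zero]⟩
        simp [hL a ha a' ha', (h0 a ha).1, (h0 a' ha').2, hA₁ v]
      have hlt : L < L ⊔ Submodule.span F {v} :=
        lt_of_le_of_ne le_sup_left fun h => hvL (h ▸ Submodule.mem_sup_right (Submodule.mem_span_singleton_self v))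
      have := hmax _ hP
      have := Submodule.finrank_lt_finrank_of_lt hlt
      omega
    have hd : Module.finrank F L = k := by
      have h1 := Submodule.finrank_mono hLo
      have h3 := Submodule.finrank_mono (show L ≤ LinearMap.BilinForm.orthogonal B₁ L from fun x hx y hy => hL y hy x hx)
      rw [LinearMap.BilinForm.finrank_orthogonal h₁, hU] at h1 h3
      omega
    let f := LinearMap.rTensor W L.subtype
    refine ⟨LinearMap.range f, ?_, ?_⟩
    · rw [LinearMap.finrank_range_of_inj (Module.Flat.rTensor_preserves_injective_linearMap L.subtype L.injective_subtype),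
        Module.finrank_tensorProduct, hd, hW]
      ring
    · rintro _ ⟨x, rfl⟩ _ ⟨y, rfl⟩
      have : (B₁.tmul B₂).compl₁₂ f f = 0 := by
        refine TensorProduct.ext' fun u w => ?_
        refine TensorProduct.ext' fun u' w' => ?_
        rw [LinearMap.compl₁₂_apply]
        simp only [f, LinearMap.rTensor_tmul, Submodule.subtype_apply, hval, hL _ u.2 _ u'.2]
        simp
      simpa using LinearMap.congr_fun (LinearMap.congr_fun this x) y

end Cfsg.Agent.S0833
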