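import Cfsg.Statements.S0834
import Mathlib
import Cfsg.Agent.Lib.Classical.WittType

set_option autoImplicit false
open Cfsg
open scoped Matrix

namespace Cfsg.Agent.S0834

/-- Over a finite field with 2 ≠ 0: if B₁ on U (dim 2k, k ≥ 1) and B₂ on W (dim 2l, l ≥ 1) are non-degenerate symmetric forms admitting no totally isotropic subspaces of dimensions k, resp. l (minus type), then B₁ ⊗ B₂ admits a totally isotropic subspace of dimension 2kl (plus type). -/
theorem result {F U W : Type*} [Field F] [Fintype F] [AddCommGroup U] [Module F U] [FiniteDimensional F U] [AddCommGroup W] [Module F W] [FiniteDimensional F W] (h2 : (2 : F) ≠ 0) (B₁ : LinearMap.BilinForm F U) (B₂ : LinearMap.BilinForm F W) (h₁ : B₁.Nondegenerate) (h₂ : B₂.Nondegenerate) (hS₁ : B₁.IsSymm) (hS₂ : B₂.IsSymm) (k l : ℕ) (hk : 1 ≤ k) (hl : 1 ≤ l) (hU : Module.finrank F U = 2 * k) (hW : Module.finrank F W = 2 * l) (hm₁ : ¬ (∃ X : Submodule F (U), Module.finrank F X = k ∧ ∀ x ∈ X,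 ∀ y ∈ X, (B₁) x y = 0)) (hm₂ : ¬ (∃ X : Submodule F (W), Module.finrank F X = l ∧ ∀ x ∈ X, ∀ y ∈ X, (B₂) x y = 0)) : (∃ X : Submodule F (TensorProduct F U W), Module.finrank F X = 2 * k * l ∧ ∀ x ∈ X, ∀ y ∈ X, (B₁.tmul B₂) x y = 0) := by
  classical
  have hS₁' : LinearMap.IsSymm B₁ := ⟨fun x y => by simpa using hS₁.eq x y⟩
  have hS₂' : LinearMap.IsSymm B₂ := ⟨fun x y => by simpa using hS₂.eq x y⟩
  obtain ⟨α, hα⟩ := FiniteField.exists_nonsquare (Cfsg.Lib.Classical.SymmForm.char_ne_two h2)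
  have hα0 : α ≠ 0 := fun h => hα (h ▸ IsSquare.zero)
  obtain ⟨b₁, e₁, he₁, hb₁⟩ := Cfsg.Lib.Classical.SymmForm.normal_form h2 B₁ hS₁' h₁
    (show Module.finrank F U = 2 * k - 1 + 1 by omega) hα
  obtain ⟨b₂, e₂, he₂, hb₂⟩ := Cfsg.Lib.Classical.SymmForm.normal_form h2 B₂ hS₂' h₂
    (show Module.finrank F W = 2 * l - 1 + 1 by omega) hα
  have hT := Cfsg.Lib.Classical.WittType.tensor_fam b₁ b₂ hb₁ hb₂
  have hne : ∀ (p : Prop) [Decidable p] (e : F), (e = 1 ∨ e = α) → (if p then e else (1 : F)) ≠ 0 := by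
    intro p _ e he
    split_ifs
    · rcases he with rfl | rfl
      · exact one_ne_zero
      · exact hα0
    · exact one_ne_zero
  have hcard : (2 * k - 1 + 1) * (2 * l - 1 + 1) = 2 * (2 * k * l) := by
    rw [show 2 * k - 1 + 1 = 2 * k by omega, show 2 * l - 1 + 1 = 2 * l by omega]; ring
  let e := finProdFinEquiv.trans (finCongr hcard)
  refine Cfsg.Lib.Classical.WittType.exists_ti h2 (Nat.one_le_iff_ne_zero.2 (by positivity)) ((b₁.tensorProduct b₂).reindex e) (LinearMap.IsSymm.tmul hS₁' hS₂')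
    (d := fun i => (fun p => (if p.1 = Fin.last (2 * k - 1) then e₁ else 1) * (if p.2 = Fin.last (2 * l - 1) then e₂ else 1)) (e.symm i))
    ⟨fun i j hij => ?_, fun i => ?_⟩ (fun i => mul_ne_zero (hne _ _ he₁) (hne _ _ he₂)) ?_
  · simp only [Module.Basis.reindex_apply]
    exact hT.1 _ _ (e.symm.injective.ne hij)
  · simp only [Module.Basis.reindex_apply]
    exact hT.2 _
  · rw [Equiv.prod_comp e.symm (fun p => (if p.1 = Fin.last (2 * k - 1) then e₁ else 1) * (if p.2 = Fin.last (2 * l - 1) then e₂ else 1)),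
      Cfsg.Lib.Classical.WittType.prod_tensor (fun i => if i = Fin.last (2 * k - 1) then e₁ else 1) (fun i => if i = Fin.last (2 * l - 1) then e₂ else 1),
      Fintype.prod_ite_eq', Fintype.prod_ite_eq', show 2 * k - 1 + 1 = 2 * k by omega, show 2 * l - 1 + 1 = 2 * l by omega]
    refine IsSquare.mul ?_ (IsSquare.mul ?_ ?_) <;> exact Even.isSquare_pow (by simp [parity_simps]) _

end Cfsg.Agent.S0834
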