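import Cfsg.Statements.S0835
import Mathlib
import Cfsg.Agent.Lib.Classical.WittType

set_option autoImplicit false
open Cfsg
open scoped Matrix

namespace Cfsg.Agent.S0835

/-- Over a finite field with 2 ≠ 0: if B₁ on U (dim 2k, k ≥ 1) is non-degenerate symmetric of minus type (no totally isotropic k-subspace) and B₂ on W (dim 2l + 1) is non-degenerate symmetric, then B₁ ⊗ B₂ (dimension 2k(2l+1)) admits no totally isotropic subspace of dimension k(2l+1) (minus type). -/
theorem result {F U W : Type*} [Field F] [Fintype F] [AddCommGroup U] [Module F U] [FiniteDimensional F U] [AddCommGroup W] [Module F W] [FiniteDimensional F W] (h2 : (2 : F) ≠ 0) (B₁ : LinearMap.BilinForm F U) (B₂ : LinearMap.BilinForm F W) (h₁ : B₁.Nondegenerate) (h₂ : B₂.Nondegenerate) (hS₁ : B₁.IsSymm) (hS₂ : B₂.IsSymm) (k l : ℕ) (hk : 1 ≤ k) (hU : Module.finrank F U = 2 * k) (hW : Module.finrank F W = 2 * l + 1) (hm₁ : ¬ (∃ X : Submodule F (U), Module.finrank F X = k ∧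 ∀ x ∈ X, ∀ y ∈ X, (B₁) x y = 0)) : ¬ (∃ X : Submodule F (TensorProduct F U W), Module.finrank F X = k * (2 * l + 1) ∧ ∀ x ∈ X, ∀ y ∈ X, (B₁.tmul B₂) x y = 0) := by
  classical
  rintro ⟨X, hX, hX0⟩
  have hS₁' : LinearMap.IsSymm B₁ := ⟨fun x y => by simpa using hS₁.eq x y⟩
  have hS₂' : LinearMap.IsSymm B₂ := ⟨fun x y => by simpa using hS₂.eq x y⟩
  obtain ⟨α, hα⟩ := FiniteField.exists_nonsquare (Cfsg.Lib.Classical.SymmForm.char_ne_two h2)
  have hα0 : α ≠ 0 := fun h => hα (h ▸ IsSquare.zero)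
  obtain ⟨b₁, e₁, he₁, hb₁⟩ := Cfsg.Lib.Classical.SymmForm.normal_form h2 B₁ hS₁' h₁
    (show Module.finrank F U = 2 * k - 1 + 1 by omega) hα
  obtain ⟨b₂, e₂, he₂, hb₂⟩ := Cfsg.Lib.Classical.SymmForm.normal_form h2 B₂ hS₂' h₂ hW hα
  have hT := Cfsg.Lib.Classical.WittType.tensor_fam b₁ b₂ hb₁ hb₂
  have he10 : e₁ ≠ 0 := by rcases he₁ with rfl | rfl <;> simp [hα0]
  have he20 : e₂ ≠ 0 := by rcases he₂ with rfl | rfl <;> simp [hα0]
  have hcard : (2 * k - 1 + 1) * (2 * l + 1) = 2 * (k * (2 * l + 1)) := by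
    rw [show 2 * k - 1 + 1 = 2 * k by omega]; ring
  let e := finProdFinEquiv.trans (finCongr hcard)
  have h := Cfsg.Lib.Classical.WittType.isSquare_of_ti ((b₁.tensorProduct b₂).reindex e) (LinearMap.IsSymm.tmul hS₁' hS₂')
    (d := fun i => (fun p => (if p.1 = Fin.last (2 * k - 1) then e₁ else 1) * (if p.2 = Fin.last (2 * l) then e₂ else 1)) (e.symm i))
    ⟨fun i j hij => by simp only [Module.Basis.reindex_apply]; exact hT.1 _ _ (e.symm.injective.ne hij),
      fun i => by simp only [Module.Basis.reindex_apply]; exact hT.2 _⟩ hX hX0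
  rw [Equiv.prod_comp e.symm (fun p => (if p.1 = Fin.last (2 * k - 1) then e₁ else 1) * (if p.2 = Fin.last (2 * l) then e₂ else 1)),
    Cfsg.Lib.Classical.WittType.prod_tensor (fun i => if i = Fin.last (2 * k - 1) then e₁ else 1) (fun i => if i = Fin.last (2 * l) then e₂ else 1),
    Fintype.prod_ite_eq', Fintype.prod_ite_eq', show 2 * k - 1 + 1 = 2 * k by omega] at h
  refine hm₁ ?_
  let b := b₁.reindex (finCongr (by omega : 2 * k - 1 + 1 = 2 * k))
  refine Cfsg.Lib.Classical.WittType.exists_ti h2 hk b hS₁'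
    (d := fun i => (fun p => if p = Fin.last (2 * k - 1) then e₁ else 1) ((finCongr (by omega : 2 * k - 1 + 1 = 2 * k)).symm i))
    ⟨fun i j hij => by simp only [b, Module.Basis.reindex_apply]; exact hb₁.1 _ _ (Equiv.injective _ |>.ne hij),
      fun i => by simp only [b, Module.Basis.reindex_apply]; exact hb₁.2 _⟩
    (fun i => by simp only []; split_ifs <;> simp [he10]) ?_
  rw [Equiv.prod_comp (finCongr (by omega : 2 * k - 1 + 1 = 2 * k)).symm (fun p => if p = Fin.last (2 * k - 1) then e₁ else 1), Fintype.prod_ite_eq']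
  obtain ⟨t, ht⟩ := h
  refine ⟨t / (((-1) ^ k * e₁) ^ l * e₂ ^ k), ?_⟩
  have hne : ((-1 : F) ^ k * e₁) ^ l * e₂ ^ k ≠ 0 := by simp [he10, he20]
  field_simp
  linear_combination ht

end Cfsg.Agent.S0835
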