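import Cfsg.Statements.S0836
import Mathlib
import Cfsg.Agent.Lib.Classical.SLGroup

set_option autoImplicit false
open Cfsg

namespace Cfsg.Agent.S0836

/-- For i ≠ j and any scalar c, the elementary transvection 1 + c E_ij is a commutator ⁅g, h⁆ of two elements of SL_n(F) provided n ≥ 3, or n = 2 and F contains x ≠ 0 with x² ≠ 1. -/
theorem result {F : Type*} [Field F] (n : ℕ) (hn : 3 ≤ n ∨ (n = 2 ∧ ∃ x : F, x ≠ 0 ∧ x ^ 2 ≠ 1)) (i j : Fin n) (hij : i ≠ j) (c : F) (t : Matrix.SpecialLinearGroup (Fin n) F) (ht : (t : Matrix (Fin n) (Fin n) F) = Matrix.transvection i j c) : t ∈ commutatorSet (Matrix.SpecialLinearGroup (Fin n) F) := by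
  obtain rfl : t = Matrix.SpecialLinearGroup.transvection hij c := Subtype.ext ht
  refine Cfsg.Lib.Classical.SLGroup.transvection_mem_commutatorSet ?_ hij c
  exact hn.imp (fun h => by simpa using h) (fun h => h.2)

end Cfsg.Agent.S0836
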