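import Cfsg.Statements.S0838
import Mathlib
import Cfsg.Agent.Lib.Classical.SymmForm

set_option autoImplicit false
open Cfsg
open scoped Matrix

namespace Cfsg.Agent.S0838

/-- Over a finite field with 2 ≠ 0 and n odd: two quadratic forms Q₁, Q₂ on F^n with non-degenerate polar forms are similar — there are an invertible linear map g and a scalar c ≠ 0 with Q₂ (g v) = c · Q₁ v for all v. -/
theorem result {F : Type*} [Field F] [Fintype F] (h2 : (2 : F) ≠ 0) {n : ℕ} (hn : Odd n) (Q₁ Q₂ : QuadraticForm F (Fin n → F)) (h₁ : (QuadraticMap.polarBilin Q₁).Nondegenerate) (h₂ : (QuadraticMap.polarBilin Q₂).Nondegenerate) : ∃ (g : (Fin n → F) ≃ₗ[F] (Fin n → F)) (c : F), c ≠ 0 ∧ ∀ v, Q₂ (g v) = c * Q₁ v := by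
  obtain ⟨k, rfl⟩ := hn
  obtain ⟨α, hα⟩ := FiniteField.exists_nonsquare (Cfsg.Lib.Classical.SymmForm.char_ne_two h2)
  have hα0 : α ≠ 0 := fun h => hα (h ▸ IsSquare.zero)
  set B₁ := QuadraticMap.polarBilin Q₁
  set B₂ := QuadraticMap.polarBilin Q₂
  have hsym : ∀ Q : QuadraticForm F (Fin (2 * k + 1) → F), LinearMap.IsSymm (QuadraticMap.polarBilin Q) :=
    fun Q => ⟨fun x y => by simp [QuadraticMap.polarBilin_apply_apply, QuadraticMap.polar_comm]⟩
  have hfr : Module.finrank F (Fin (2 * k + 1) → F) = 2 * k + 1 := by simp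
  obtain ⟨b₁, e₁, he₁, hb₁⟩ := Cfsg.Lib.Classical.SymmForm.normal_form h2 B₁ (hsym Q₁) h₁ hfr hα
  obtain ⟨b₂, e₂, he₂, hb₂⟩ := Cfsg.Lib.Classical.SymmForm.normal_form h2 B₂ (hsym Q₂) h₂ hfr hα
  suffices h : ∃ (c : F), c ≠ 0 ∧ ∃ w : Module.Basis (Fin (2 * k + 1)) F (Fin (2 * k + 1) → F),
      Cfsg.Lib.Classical.SymmForm.IsFam (c • B₁) w (fun i => if i = Fin.last (2 * k) then e₂ else 1) by
    obtain ⟨c, hc, w, hw⟩ := h
    refine ⟨w.equiv b₂ (Equiv.refl _), c, hc, fun v => ?_⟩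
    set g := w.equiv b₂ (Equiv.refl _)
    have hg : B₂.compl₁₂ g.toLinearMap g.toLinearMap = c • B₁ := by
      refine w.ext fun i => w.ext fun j => ?_
      rw [LinearMap.compl₁₂_apply]
      simp only [g, LinearEquiv.coe_coe, Module.Basis.equiv_apply, Equiv.refl_apply]
      rcases eq_or_ne i j with rfl | hij
      · rw [hw.2 i, hb₂.2 i]
      · rw [hw.1 i j hij, hb₂.1 i j hij]
    have h := LinearMap.congr_fun (LinearMap.congr_fun hg v) v
    simp [B₁, B₂, QuadraticMap.polarBilin_apply_apply, QuadraticMap.polar_self] at h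
    exact mul_left_cancel₀ h2 (by linear_combination h)
  by_cases he : e₁ = e₂
  · exact ⟨1, one_ne_zero, b₁, by rw [one_smul, ← he]; exact hb₁⟩
  refine ⟨α, hα0, ?_⟩
  classical
  have hsym' : LinearMap.IsSymm (α • B₁) := ⟨fun x y => by simp [B₁, QuadraticMap.polarBilin_apply_apply, QuadraticMap.polar_comm]⟩
  rcases he₁ with h1 | h1
  · rcases he₂ with h2' | h2'
    · exact absurd (h1.trans h2'.symm) he
    subst h1; rw [h2']
    obtain ⟨w, hw⟩ := Cfsg.Lib.Classical.SymmForm.reduce h2 (α • B₁) hsym' hα Finset.univ b₁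
      ⟨fun i j h => by simp [hb₁.1 i j h], fun i => by simp [hb₁.2 i]⟩
    obtain ⟨b, hb⟩ := Cfsg.Lib.Classical.SymmForm.exists_basis hfr (α • B₁) hw fun i => by split_ifs <;> simp [hα0]
    refine ⟨b, hb ▸ hw.1, fun i => ?_⟩
    rw [hb, hw.2 i]; simp
  · rcases he₂ with h2' | h2'
    · rw [h1] at hb₁; rw [h2']
      let v := fun i => if i = Fin.last (2 * k) then α⁻¹ • b₁ i else b₁ i
      obtain ⟨w, hw⟩ := Cfsg.Lib.Classical.SymmForm.reduce h2 (α • B₁) hsym' hα (Finset.univ.erase (Fin.last (2 * k))) v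
        ⟨fun i j h => by simp only [v]; split_ifs <;> simp [hb₁.1 i j h], fun i => by
          by_cases h : i = Fin.last (2 * k)
          · simp [v, h, hb₁.2]; field_simp
          · simp [v, h, hb₁.2]⟩
      obtain ⟨b, hb⟩ := Cfsg.Lib.Classical.SymmForm.exists_basis hfr (α • B₁) hw fun i => by split_ifs <;> simp [hα0]
      refine ⟨b, hb ▸ hw.1, fun i => ?_⟩
      rw [hb, hw.2 i]; simp
    · exact absurd (h1.trans h2'.symm) he

end Cfsg.Agent.S0838
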