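import Cfsg.Statements.S0839
import Mathlib

set_option autoImplicit false
open Cfsg
open scoped Matrix

namespace Cfsg.Agent.S0839

/-- Every transvection t ∈ SL_(n+2)(F) (rank(t − 1) = 1, (t − 1)² = 0) is conjugate in SL_(n+2)(F) to 1 + v·e_0ᵀ for some column vector v with v_0 = 0 (the group A of matrices that are the identity except in the first column below the diagonal); the dimension is written n + 2 ≥ 2. -/
theorem result {F : Type*} [Field F] (n : ℕ) (t : Matrix.SpecialLinearGroup (Fin (n + 2)) F) (ht : Cfsg.IsTransvection (t : Matrix (Fin (n + 2)) (Fin (n + 2)) F)) : ∃ (g : Matrix.SpecialLinearGroup (Fin (n + 2)) F) (v : Fin (n + 2) → F), v 0 = 0 ∧ ((g⁻¹ * t * g : Matrix.SpecialLinearGroup (Fin (n + 2)) F) : Matrix (Fin (n + 2)) (Fin (n + 2)) F) = 1 + Matrix.vecMulVec v (Pi.single 0 1) := by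
  classical
  obtain ⟨hr, hsq⟩ := ht
  set T := (t : Matrix (Fin (n + 2)) (Fin (n + 2)) F) - 1 with hT
  obtain ⟨v, φ, hvφ⟩ : ∃ v φ : Fin (n + 2) → F, T = Matrix.vecMulVec v φ := by
    obtain ⟨w, hw, hspan⟩ := finrank_eq_one_iff'.1 (show Module.finrank F (LinearMap.range T.mulVecLin) = 1 from hr)
    choose c hc using fun j => hspan ⟨T.mulVecLin (Pi.single j 1), ⟨_, rfl⟩⟩
    refine ⟨(w : Fin (n + 2) → F), c, Matrix.ext fun i j => ?_⟩
    have h := congrFun (congrArg Subtype.val (hc j)) i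
    simp at h
    rw [Matrix.vecMulVec_apply, ← h, mul_comm]
  have hv0 : v ≠ 0 := fun e => by simp [hvφ, e] at hr
  have hφ0 : φ ≠ 0 := fun e => by simp [hvφ, e] at hr
  have hdot : φ ⬝ᵥ v = 0 := by
    obtain ⟨i, hi⟩ := Function.ne_iff.1 hv0
    obtain ⟨j, hj⟩ := Function.ne_iff.1 hφ0
    have h := congrFun (congrFun hsq i) j
    rw [hvφ, Matrix.vecMulVec_mul_vecMulVec] at h
    simp [Matrix.vecMulVec_apply, hi, hj] at h
    rcases h with h | h | h
    · exact absurd h (by simpa using hi)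
    · exact h
    · exact absurd h (by simpa using hj)
  have he : (Pi.single 0 1 : Fin (n + 2) → F) ≠ 0 := Pi.single_ne_zero_iff.2 one_ne_zero
  have : MulAction.IsPretransitive (Matrix.SpecialLinearGroup (Fin (n + 2)) F) (Projectivization F (Fin (n + 2) → F)) :=
    MulAction.isPretransitive_of_is_two_pretransitive
  obtain ⟨h, hh⟩ := MulAction.exists_smul_eq (Matrix.SpecialLinearGroup (Fin (n + 2)) F)
    (Projectivization.mk F φ hφ0) (Projectivization.mk F _ he)
  rw [Projectivization.smul_mk, Projectivization.mk_eq_mk_iff] at hh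
  obtain ⟨c, hc⟩ := hh
  have hc' : φ ᵥ* (h : Matrix (Fin (n + 2)) (Fin (n + 2)) F).transpose = (c : F) • (Pi.single 0 1 : Fin (n + 2) → F) := by
    rw [Matrix.vecMul_transpose]
    exact hc.symm
  let g : Matrix.SpecialLinearGroup (Fin (n + 2)) F :=
    ⟨(h : Matrix (Fin (n + 2)) (Fin (n + 2)) F).transpose, by rw [Matrix.det_transpose]; exact h.2⟩
  set G := (g : Matrix (Fin (n + 2)) (Fin (n + 2)) F)
  set Gi := ((g⁻¹ : Matrix.SpecialLinearGroup (Fin (n + 2)) F) : Matrix (Fin (n + 2)) (Fin (n + 2)) F)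
  have hGG : G * Gi = 1 := congrArg Subtype.val (mul_inv_cancel g)
  have hGG' : Gi * G = 1 := congrArg Subtype.val (inv_mul_cancel g)
  have hc2 : φ ᵥ* G = (c : F) • (Pi.single 0 1 : Fin (n + 2) → F) := hc'
  refine ⟨g, (c : F) • (Gi *ᵥ v), ?_, ?_⟩
  · have h1 : (Pi.single 0 1 : Fin (n + 2) → F) ⬝ᵥ ((c : F) • (Gi *ᵥ v)) = 0 := by
      rw [dotProduct_smul, ← smul_dotProduct, ← hc2, Matrix.dotProduct_mulVec, Matrix.vecMul_vecMul, hGG,
        Matrix.vecMul_one, hdot]
    rwa [single_dotProduct, one_mul] at h1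
  · have ht' : (t : Matrix (Fin (n + 2)) (Fin (n + 2)) F) = 1 + Matrix.vecMulVec v φ := by
      rw [← hvφ, hT, add_sub_cancel]
    change Gi * (t : Matrix (Fin (n + 2)) (Fin (n + 2)) F) * G = _
    rw [ht', Matrix.mul_add, Matrix.mul_one, Matrix.add_mul, hGG', Matrix.mul_vecMulVec, Matrix.vecMulVec_mul,
      hc2, Matrix.smul_vecMulVec, Matrix.vecMulVec_smul]

end Cfsg.Agent.S0839
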