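import Cfsg.Statements.S0840
import Mathlib
import Cfsg.Agent.Lib.Characters.Integrality

set_option autoImplicit false
open scoped ComplexConjugate
open Cfsg

namespace Cfsg.Agent.S0840

set_option maxHeartbeats 1000000 in
open Finset in
theorem class_mult {G : Type*} [Group G] [Fintype G] (a b c : G) [DecidableEq G]
    [DecidablePred (IsConj a)] [DecidablePred (IsConj b)] :
    (#(((univ.filter (IsConj a)) ×ˢ (univ.filter (IsConj b))).filter fun p => p.1 * p.2 = c) : ℂ) =
      (Nat.card G : ℂ)⁻¹ * ∑ χ : IrrCharacter G, conj ((χ : G → ℂ) c) *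
        ((Nat.card {x : G // IsConj a x} : ℂ) * (Nat.card {x : G // IsConj b x} : ℂ) *
          ((χ : G → ℂ) a * (χ : G → ℂ) b) / (χ : G → ℂ) 1) := by
  have hcard : ∀ p : G × G, (if p.1 * p.2 = c then (1 : ℂ) else 0) =
      (Nat.card G : ℂ)⁻¹ * ∑ χ : IrrCharacter G, (χ : G → ℂ) 1 * (χ : G → ℂ) (p.1 * p.2 * c⁻¹) := by
    intro p
    rw [Cfsg.Lib.Characters.sum_degree_mul_irr]
    by_cases h : p.1 * p.2 = c
    · rw [if_pos h, if_pos (by rw [h, mul_inv_cancel]),
        inv_mul_cancel₀ (Nat.cast_ne_zero.mpr Nat.card_pos.ne')]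
    · rw [if_neg h, if_neg (fun e => h (mul_inv_eq_one.mp e)), mul_zero]
  rw [← Finset.sum_boole, Finset.sum_congr rfl fun p _ => hcard p, ← Finset.mul_sum, Finset.sum_comm]
  congr 1
  refine Finset.sum_congr rfl fun χ _ => ?_
  obtain ⟨χ, n, ρ, hρ, rfl⟩ := χ
  haveI := hρ
  have h0 : ρ.character 1 ≠ 0 := IsIrrCharacter.one_ne_zero ⟨n, ρ, hρ, rfl⟩
  obtain ⟨ωa, ha, -, ha'⟩ := Cfsg.Lib.Characters.sum_conj_class ρ a
  obtain ⟨ωb, hb, -, hb'⟩ := Cfsg.Lib.Characters.sum_conj_class ρ b
  have hsum : ∑ p ∈ (univ.filter (IsConj a)) ×ˢ (univ.filter (IsConj b)),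
      ρ.character (p.1 * p.2 * c⁻¹) = ωa * ωb * conj (ρ.character c) := by
    calc ∑ p ∈ (univ.filter (IsConj a)) ×ˢ (univ.filter (IsConj b)), ρ.character (p.1 * p.2 * c⁻¹)
        = LinearMap.trace ℂ _
            ((∑ x with IsConj a x, ρ x) * (∑ y with IsConj b y, ρ y) * ρ c⁻¹) := by
          rw [Finset.sum_mul_sum, Finset.sum_mul]
          simp only [Finset.sum_mul, map_sum, Finset.sum_product]
          refine Finset.sum_congr rfl fun x _ => Finset.sum_congr rfl fun y _ => ?_
          rw [← map_mul, ← map_mul]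
          rfl
      _ = _ := by
          rw [ha, hb, ← Module.End.one_eq_id]
          simp only [smul_mul_assoc, one_mul, map_smul, smul_eq_mul]
          rw [← Cfsg.Lib.Characters.char_inv_eq_conj (Cfsg.Lib.Characters.isCharacter_character ρ),
            ← mul_assoc]
          rfl
  show ∑ p ∈ (univ.filter (IsConj a)) ×ˢ (univ.filter (IsConj b)), ρ.character 1 * ρ.character (p.1 * p.2 * c⁻¹) = _
  rw [← Finset.mul_sum, hsum, eq_comm, mul_div_assoc', div_eq_iff h0]
  linear_combination (-(ωb * ρ.character 1 * conj (ρ.character c))) * ha' -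
    ((Nat.card {x : G // IsConj a x} : ℂ) * ρ.character a * conj (ρ.character c)) * hb'


/-- Class multiplication coefficients from the character table: for elements a, b, c of a finite group G, the number of ordered pairs (x, y) with x conjugate to a, y conjugate to b and x * y = c equals the product of the sizes of the conjugacy classes of a and b, divided by the order of G, times the sum over the irreducible characters χ of χ a * χ b * conj (χ c) / χ 1. -/
theorem result {G : Type*} [Group G] [Finite G] (a b c : G) : (Nat.card {p : G × G // IsConj a p.1 ∧ IsConj b p.2 ∧ p.1 * p.2 = c} : ℂ) = (Nat.card {x : G // IsConj a x} : ℂ) * (Nat.card {x : G // IsConj b x} : ℂ) / (Nat.card G : ℂ) * ∑ᶠ χ : Cfsg.IrrCharacter G, (χ : G → ℂ) a * (χ : G → ℂ) b * conj ((χ : G → ℂ) c) / (χ : G → ℂ) 1 := by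
  classical
  haveI := Fintype.ofFinite G
  have h : Nat.card {p : G × G // IsConj a p.1 ∧ IsConj b p.2 ∧ p.1 * p.2 = c} =
      ((Finset.univ.filter (IsConj a) ×ˢ Finset.univ.filter (IsConj b)).filter
        fun p => p.1 * p.2 = c).card := by
    rw [Nat.card_eq_fintype_card, Fintype.card_subtype]
    congr 1
    ext p
    simp [and_assoc]
  rw [h, class_mult a b c, finsum_eq_sum_of_fintype, Finset.mul_sum, Finset.mul_sum]
  refine Finset.sum_congr rfl fun χ _ => ?_
  ring

end Cfsg.Agent.S0840
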