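import Cfsg.Statements.S0841
import Mathlib.Tactic.Group


set_option autoImplicit false
open Cfsg

namespace Cfsg.Agent.S0841

/-- If the commutator subgroup of G lies in the centre, then for all x, y in G and every natural number n one has (x * y) ^ n = x ^ n * y ^ n * c ^ (n * (n - 1) / 2) with c = y⁻¹ * x⁻¹ * y * x. -/
theorem result {G : Type*} [Group G] (hG : commutator G ≤ Subgroup.center G) (x y : G) (n : ℕ) : (x * y) ^ n = x ^ n * y ^ n * (y⁻¹ * x⁻¹ * y * x) ^ (n * (n - 1) / 2) := by
  set c := y⁻¹ * x⁻¹ * y * x with hc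
  have hcc : ∀ g : G, Commute c g := fun g => by
    refine (Subgroup.mem_center_iff.mp (hG ?_) g).symm
    have := Subgroup.commutator_mem_commutator (Subgroup.mem_top y⁻¹) (Subgroup.mem_top x⁻¹)
    rw [commutatorElement_def, inv_inv, inv_inv, ← commutator_def] at this
    exact this
  have h1 : y * x = x * y * c := by rw [hc]; group
  have h2 : ∀ k : ℕ, y ^ k * x = x * y ^ k * c ^ k := by
    intro k
    induction k with
    | zero => simp
    | succ k ih =>
      calc y ^ (k + 1) * x = y * (y ^ k * x) := by rw [pow_succ', mul_assoc]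
        _ = y * x * y ^ k * c ^ k := by rw [ih, ← mul_assoc, ← mul_assoc]
        _ = x * y * c * y ^ k * c ^ k := by rw [h1]
        _ = x * (y * y ^ k) * (c * c ^ k) := by
          simp only [mul_assoc]
          rw [← mul_assoc c (y ^ k), (hcc (y ^ k)).eq, mul_assoc]
        _ = x * y ^ (k + 1) * c ^ (k + 1) := by rw [← pow_succ', ← pow_succ']
  induction n with
  | zero => simp
  | succ n ih =>
    have hn : (n + 1) * (n + 1 - 1) / 2 = n + n * (n - 1) / 2 := by
      rw [Nat.add_sub_cancel]
      rcases n with _ | k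
      · rfl
      · rw [Nat.add_sub_cancel, show (k + 1 + 1) * (k + 1) = (k + 1) * k + (k + 1) * 2 by ring,
          Nat.add_mul_div_right _ _ two_pos, add_comm]
    rw [hn, pow_succ, ih]
    calc x ^ n * y ^ n * c ^ (n * (n - 1) / 2) * (x * y)
        = x ^ n * (y ^ n * x) * y * c ^ (n * (n - 1) / 2) := by
          rw [mul_assoc (x ^ n * y ^ n), ((hcc (x * y)).pow_left _).eq]
          simp only [mul_assoc]
      _ = x ^ n * x * (y ^ n * y) * (c ^ n * c ^ (n * (n - 1) / 2)) := by
          rw [h2]
          simp only [mul_assoc]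
          rw [← mul_assoc (c ^ n) y, ((hcc y).pow_left n).eq, mul_assoc]
      _ = _ := by rw [← pow_succ, ← pow_succ, ← pow_add]

end Cfsg.Agent.S0841
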