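import Cfsg.Statements.S0842
import Cfsg.Agent.Lib.Characters.QuaternionD

set_option autoImplicit false
open Cfsg

namespace Cfsg.Agent.S0842

open Subgroup Cfsg.Lib.Characters.QD

/-- Suppose a Sylow 2-subgroup S of the finite group G is generalized quaternion of order at least 16, and let D be the commutator subgroup of S, C its centralizer and N its normalizer in G. Then there is a subgroup K of odd order, contained in C and normalized by N, with K ⊔ S = N and K ⊔ (S ⊓ C) = C, and C has index 2 in N. -/
theorem result {G : Type*} [Group G] [Finite G] (S : Sylow 2 G) (n : ℕ) (e : (S : Subgroup G) ≃* QuaternionGroup (2 ^ (n + 2))) (D : Subgroup G) (hD : D = ⁅(S : Subgroup G), (S : Subgroup G)⁆) : ∃ K : Subgroup G, Odd (Nat.card K) ∧ K ≤ Subgroup.centralizer (D : Set G) ∧ Subgroup.normalizer (D : Set G) ≤ Subgroup.normalizer (K : Set G) ∧ K ⊔ (S : Subgroup G) = Subgroup.normalizer (D : Set G) ∧ K ⊔ ((S : Subgroup G) ⊓ Subgroup.centralizer (D : Set G)) = Subgroup.centralizer (D : Set G) ∧ ((Subgroup.centralizer (D : Set G)).subgroupOf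 (Subgroup.normalizer (D : Set G))).index = 2 := by
  haveI : Fact (Nat.Prime 2) := ⟨Nat.prime_two⟩
  obtain ⟨A, hAS, hAc, hDA, hDc, hDcard, hAcard, hScard, hSN, hSC⟩ := setup S n e D hD
  haveI := hAc
  haveI := hDc
  have hAC : A ≤ centralizer (D : Set G) := hSC ▸ inf_le_right
  have hAp : IsPGroup 2 A := IsPGroup.of_card (n := n + 3) (by rw [hAcard, pow_succ' 2 (n + 2)])
  obtain ⟨T, hT⟩ := IsPGroup.exists_le_sylow (P := A.subgroupOf (centralizer (D : Set G)))
    (hAp.of_equiv (subgroupOfEquivOfLe hAC).symm)
  have hTA : (T : Subgroup (centralizer (D : Set G))) = A.subgroupOf (centralizer (D : Set G)) := by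
    obtain ⟨g, hg, hle⟩ := exists_conj_le hSN hSC (R := T.toSubgroup.map (centralizer (D : Set G)).subtype)
      (T.isPGroup'.map _) (map_subtype_le _)
    refine (Subgroup.eq_of_le_of_card_ge hT ?_).symm
    rw [Nat.card_congr (subgroupOfEquivOfLe hAC).toEquiv]
    refine le_trans (le_of_eq ?_) (Subgroup.card_le_of_le hle)
    rw [card_map_of_injective (MulAut.conj g).injective, card_map_of_injective (subtype_injective _)]
  haveI hTc : IsCyclic (T : Subgroup (centralizer (D : Set G))) := by
    rw [hTA]; exact isCyclic_of_surjective _ (subgroupOfEquivOfLe hAC).symm.surjective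
  have h2C : 2 ∣ Nat.card (centralizer (D : Set G)) :=
    (dvd_pow_self 2 (by omega : n + 2 ≠ 0)).trans (hDcard ▸ card_dvd_of_le (hDA.trans hAC))
  have hmin : (Nat.card (centralizer (D : Set G))).minFac = 2 := (Nat.minFac_eq_two_iff _).2 h2C
  have hle := IsCyclic.normalizer_le_centralizer hmin hTc
  have hcomp := MonoidHom.ker_transferSylow_isComplement' T hle
  set f := MonoidHom.transferSylow T hle with hf
  set K := f.ker.map (centralizer (D : Set G)).subtype with hK
  have hodd : Odd (Nat.card f.ker) := by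
    rw [← hcomp.index_eq_card, ← Nat.not_even_iff_odd, even_iff_two_dvd]
    exact T.not_dvd_index
  have hKodd : Odd (Nat.card K) := by
    rw [hK, card_map_of_injective (subtype_injective _)]; exact hodd
  have hKC : K ≤ centralizer (D : Set G) := map_subtype_le _
  have hodd_mem : ∀ c : centralizer (D : Set G), Odd (orderOf c) → c ∈ f.ker := by
    intro c hc
    rw [MonoidHom.mem_ker, ← orderOf_eq_one_iff]
    obtain ⟨k, hk⟩ := T.isPGroup'.exists_card_eq
    refine Nat.eq_one_of_dvd_coprimes ?_ (orderOf_map_dvd f c) (orderOf_dvd_natCard (f c))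
    rw [hk]
    exact (Nat.Coprime.pow_right k ((Nat.coprime_two_right).mpr hc))
  have hKN : normalizer (D : Set G) ≤ normalizer (K : Set G) := by
    have key : ∀ g ∈ normalizer (D : Set G), ∀ x ∈ K, g * x * g⁻¹ ∈ K := by
      intro g hg x hx
      have hxo : Odd (orderOf x) := Odd.of_dvd_nat hKodd
        (by simpa using orderOf_dvd_natCard (⟨x, hx⟩ : K))
      refine ⟨⟨g * x * g⁻¹, centralizer_normal D hg (hKC hx)⟩, hodd_mem _ ?_, rfl⟩
      rw [Subgroup.orderOf_mk]
      have h := orderOf_injective (MulAut.conj g).toMonoidHom (MulAut.conj g).injective x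
      simp only [MulEquiv.coe_toMonoidHom, MulAut.conj_apply] at h
      rw [h]; exact hxo
    intro g hg
    rw [mem_normalizer_iff]
    refine fun x => ⟨key g hg x, fun hx => ?_⟩
    have h := key g⁻¹ (inv_mem hg) _ hx
    simpa [mul_assoc] using h
  have hKA : K ⊔ A = centralizer (D : Set G) := by
    have h := congrArg (Subgroup.map (centralizer (D : Set G)).subtype) hcomp.sup_eq_top
    have hTmap : T.toSubgroup.map (centralizer (D : Set G)).subtype = A :=
      (congrArg (Subgroup.map _) hTA).trans (map_subgroupOf_eq_of_le hAC)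
    rw [Subgroup.map_sup, hTmap, ← MonoidHom.range_eq_map, range_subtype] at h
    exact h
  -- `N = C S`
  set C' := (centralizer (D : Set G)).subgroupOf (normalizer (D : Set G)) with hC'
  haveI hC'n : C'.Normal := by rw [hC', ← normalizerMonoidHom_ker]; infer_instance
  set S' := (S : Subgroup G).subgroupOf (normalizer (D : Set G)) with hS'
  have hCN : centralizer (D : Set G) ≤ normalizer (D : Set G) := centralizer_le_normalizer _
  have hsup : S' ⊔ C' = ⊤ := by
    rw [← index_eq_one]
    have h1 : (S' ⊔ C').index ∣ S'.index := index_dvd_of_le le_sup_left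
    have h2 : (S' ⊔ C').index ∣ C'.index := index_dvd_of_le le_sup_right
    have h3 : C'.index ∣ 2 ^ (n + 1) := by
      rw [hC', ← normalizerMonoidHom_ker, index_ker]
      refine (card_subgroup_dvd_card _).trans (dvd_of_eq ?_)
      rw [IsCyclic.card_mulAut D, hDcard, Nat.totient_prime_pow Nat.prime_two (by omega : 0 < n + 2)]
      simp
    have h4 : ¬ 2 ∣ S'.index := by
      rw [hS', ← Sylow.coe_subtype S (h := hSN)]
      exact Sylow.not_dvd_index _
    refine Nat.eq_one_of_dvd_coprimes ?_ h1 (h2.trans h3)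
    exact (Nat.Coprime.pow_right _ ((Nat.prime_two.coprime_iff_not_dvd).mpr h4).symm)
  have hidx : C'.index = 2 := by
    rw [← relIndex_top_right, ← hsup, relIndex_sup_right, hC', hS', relIndex_subgroupOf hSN,
      ← inf_relIndex_right, inf_comm, hSC]
    have h := relIndex_mul_index (H := A) (K := (S : Subgroup G)) hAS
    have h1 := A.card_mul_index
    have h2 := (S : Subgroup G).card_mul_index
    rw [hAcard, ← h, ← h2, hScard] at h1
    have hpos : 0 < (S : Subgroup G).index := Nat.pos_of_ne_zero index_ne_zero_of_finite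
    have hpos' : 0 < 2 ^ (n + 2) := by positivity
    refine Nat.eq_of_mul_eq_mul_left (Nat.mul_pos hpos' hpos) ?_
    linarith
  refine ⟨K, hKodd, hKC, hKN, ?_, by rw [hSC]; exact hKA, hidx⟩
  refine le_antisymm (sup_le (hKC.trans hCN) hSN) ?_
  intro x hx
  have hmem : (⟨x, hx⟩ : normalizer (D : Set G)) ∈ S' ⊔ C' := by rw [hsup]; exact mem_top _
  rw [← SetLike.mem_coe, mul_normal] at hmem
  obtain ⟨s, hs, c, hc, hsc⟩ := hmem
  rw [show x = (s : G) * (c : G) from (congrArg Subtype.val hsc).symm]
  refine mul_mem (le_sup_right (a := K) hs) ?_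
  have : (c : G) ∈ K ⊔ A := hKA ▸ hc
  exact (sup_le le_sup_left (hAS.trans le_sup_right)) this

end Cfsg.Agent.S0842
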