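import Cfsg.Statements.S0843
import Cfsg.Agent.Lib.Characters.QuaternionD

set_option autoImplicit false
open Cfsg

namespace Cfsg.Agent.S0843

open Cfsg.Lib.Characters.QD

/-- Suppose a Sylow 2-subgroup S of the finite group G is generalized quaternion of order at least 16; let D be the commutator subgroup of S and X the set of elements of the centralizer of D whose order is divisible by the order of D. Then D is contained in the cyclic subgroup generated by any element of X; an element of G conjugating some element of X into the centralizer of D normalizes D; and the normalizer of D maps X to itself under conjugation. -/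
theorem result {G : Type*} [Group G] [Finite G] (S : Sylow 2 G) (n : ℕ) (e : (S : Subgroup G) ≃* QuaternionGroup (2 ^ (n + 2))) (D : Subgroup G) (hD : D = ⁅(S : Subgroup G), (S : Subgroup G)⁆) : (∀ y : G, y ∈ Subgroup.centralizer (D : Set G) → Nat.card D ∣ orderOf y → D ≤ Subgroup.zpowers y) ∧ (∀ g y : G, y ∈ Subgroup.centralizer (D : Set G) → Nat.card D ∣ orderOf y → g * y * g⁻¹ ∈ Subgroup.centralizer (D : Set G) → g ∈ Subgroup.normalizer (D : Set G)) ∧ (∀ g y : G, g ∈ Subgroup.normalizer (D : Set G) → y ∈ Subgroup.centralizer (D : Set G) → Nat.card D ∣ orderOf y → g * y * g⁻¹ ∈ Subgroup.centralizer (D : Set G) ∧ Nat.card D ∣ orderOf (g * y * g⁻¹)) := by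
  obtain ⟨A, hAS, hAc, hDA, hDc, hDcard, hAcard, hScard, hSN, hSC⟩ := setup S n e D hD
  haveI := hAc
  have key : ∀ y : G, y ∈ Subgroup.centralizer (D : Set G) → Nat.card D ∣ orderOf y →
      D ≤ Subgroup.zpowers y := fun y hy hd => le_zpowers_of_mem hSN hSC hDA hDcard hy hd
  have hord : ∀ g y : G, orderOf (g * y * g⁻¹) = orderOf y := fun g y => by
    simpa using orderOf_injective (MulAut.conj g).toMonoidHom (MulAut.conj g).injective y
  refine ⟨key, fun g y hy hd hgy => ?_, fun g y hg hy hd =>
    ⟨centralizer_normal D hg hy, by rw [hord]; exact hd⟩⟩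
  have h1 := key y hy hd
  have h2 := key _ hgy (by rw [hord]; exact hd)
  have h3 : D.map (MulAut.conj g).toMonoidHom ≤ Subgroup.zpowers (g * y * g⁻¹) := by
    refine (Subgroup.map_mono h1).trans (le_of_eq ?_)
    rw [MonoidHom.map_zpowers]; rfl
  have h4 : D.map (MulAut.conj g).toMonoidHom = D := eq_of_le_cyclic h3 h2
    (Subgroup.card_map_of_injective (MulAut.conj g).injective)
  rw [Subgroup.mem_normalizer_iff]
  intro x
  conv_rhs => rw [← h4]
  exact (Subgroup.mem_map_iff_mem (f := (MulAut.conj g).toMonoidHom) (MulAut.conj g).injective).symm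

end Cfsg.Agent.S0843
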