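import Cfsg.Statements.S0844
import Cfsg.Agent.Lib.Characters.QuaternionD
import Cfsg.Agent.Lib.Characters.ThreeSplit
import Cfsg.Agent.Lib.Characters.Normal
import Cfsg.Agent.Lib.Characters.TI
import Cfsg.Agent.S0842
import Cfsg.Agent.S0843

set_option autoImplicit false
open Cfsg

namespace Cfsg.Agent.S0844

open Subgroup Cfsg Cfsg.Lib.Characters
open scoped ComplexConjugate

/-- Suppose a Sylow 2-subgroup S of the finite group G is generalized quaternion of order at least 16. Then G has two non-principal irreducible characters χ₁ and χ₂ with χ₁ 1 = χ₂ 1 + 1 such that χ₁ g - χ₂ g = 1 for every element g whose order is not divisible by 4. -/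
theorem result {G : Type*} [Group G] [Fintype G] (S : Sylow 2 G) (n : ℕ) (e : (S : Subgroup G) ≃* QuaternionGroup (2 ^ (n + 2))) : ∃ χ₁ χ₂ : G → ℂ, Cfsg.IsIrrCharacter G χ₁ ∧ Cfsg.IsIrrCharacter G χ₂ ∧ χ₁ ≠ (fun _ => 1) ∧ χ₂ ≠ (fun _ => 1) ∧ χ₁ 1 = χ₂ 1 + 1 ∧ ∀ g : G, ¬ 4 ∣ orderOf g → χ₁ g - χ₂ g = 1 := by
  classical
  haveI : Fact (Nat.Prime 2) := ⟨Nat.prime_two⟩
  set m := 2 ^ (n + 2) with hm
  have hm4 : 4 ∣ m := ⟨2 ^ n, by rw [hm, pow_add]; ring⟩
  have hm0 : 4 ≤ m := Nat.le_of_dvd (by positivity) hm4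
  obtain ⟨D, hD⟩ : ∃ D : Subgroup G, D = ⁅(S : Subgroup G), (S : Subgroup G)⁆ := ⟨_, rfl⟩
  obtain ⟨A, hAS, hAc, hDA, hDc, hDcard, hAcard, hScard, hSN, hSC⟩ := QD.setup S n e D hD
  obtain ⟨a, b, hbS, ha, hao, hba⟩ := QD.setup_inv S n e D hD
  obtain ⟨K, hKodd, hKC, hKN, hKS, hKA, hidx⟩ := Cfsg.Agent.S0842.result S n e D hD
  obtain ⟨-, hTI, hX⟩ := Cfsg.Agent.S0843.result S n e D hD
  rw [hSC] at ha hKA
  have hA : A = zpowers a :=
    (Subgroup.eq_of_le_of_card_ge (zpowers_le.mpr ha) (by rw [Nat.card_zpowers, hao, hAcard])).symm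
  set N := normalizer (D : Set G) with hN
  set C' := (centralizer (D : Set G)).subgroupOf N with hC'
  haveI hC'n : C'.Normal := by rw [hC', hN, ← normalizerMonoidHom_ker]; infer_instance
  -- a character of order four of `C'`
  have hAC : A ≤ centralizer (D : Set G) := hSC ▸ inf_le_right
  have hKd : Disjoint K A := by
    rw [Subgroup.disjoint_def]
    intro x hxK hxA
    rw [← orderOf_eq_one_iff]
    have h1 := orderOf_dvd_natCard (⟨x, hxK⟩ : K)
    have h2 := orderOf_dvd_natCard (⟨x, hxA⟩ : A)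
    rw [Subgroup.orderOf_mk] at h1 h2
    refine Nat.eq_one_of_dvd_coprimes ?_ h1 h2
    rw [hAcard, ← pow_succ' 2 (n + 2)]
    exact Nat.Coprime.pow_right _ (Nat.coprime_two_right.mpr hKodd)
  set K' := (K.subgroupOf N).subgroupOf C' with hK'
  haveI hK'n : K'.Normal := by
    refine ⟨fun x hx g => ?_⟩
    have := (mem_normalizer_iff.mp (hKN g.1.2) x.1.1).mp hx
    exact this
  have hmul : ∀ c : C', ∃ k ∈ K, ∃ j : ℕ, ((c : N) : G) = k * a ^ j := by
    intro c
    have hc : ((c : N) : G) ∈ K ⊔ A := hKA.symm ▸ c.2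
    have hnK : A ≤ normalizer (K : Set G) := fun x hx => hKN (hSN (hAS hx))
    rw [← SetLike.mem_coe, coe_mul_of_right_le_normalizer_left K A hnK] at hc
    obtain ⟨k, hk, x, hx, hkx⟩ := hc
    rw [hA, SetLike.mem_coe, ← mem_powers_iff_mem_zpowers, Submonoid.mem_powers_iff] at hx
    obtain ⟨j, rfl⟩ := hx
    exact ⟨k, hk, j, hkx.symm⟩
  set a' : C' := ⟨⟨a, hSN (hAS ha)⟩, mem_subgroupOf.mpr (hAC ha)⟩ with ha'
  set π := QuotientGroup.mk' K' with hπ
  have hgen : ∀ x : C' ⧸ K', x ∈ zpowers (π a') := by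
    intro x
    obtain ⟨c, rfl⟩ := QuotientGroup.mk'_surjective K' x
    obtain ⟨k, hk, j, hkj⟩ := hmul c
    refine mem_zpowers_iff.mpr ⟨j, ?_⟩
    rw [zpow_natCast, ← map_pow]
    refine QuotientGroup.eq.mpr ?_
    show (((a' ^ j)⁻¹ * c : C') : N).1 ∈ K
    simp only [ha', Subgroup.coe_mul, Subgroup.coe_inv, Subgroup.coe_pow, hkj]
    have hnK : (a ^ j)⁻¹ ∈ normalizer (K : Set G) := inv_mem (pow_mem (hKN (hSN (hAS ha))) j)
    have := (mem_normalizer_iff.mp hnK k).mp hk
    simpa [mul_assoc] using this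
  have hπo : orderOf (π a') = 2 * m := by
    rw [← hao]
    refine Nat.dvd_antisymm (orderOf_dvd_of_pow_eq_one ?_) ?_
    · rw [← map_pow, show a' ^ orderOf a = 1 from Subtype.ext (Subtype.ext (by
        simp [ha', pow_orderOf_eq_one])), map_one]
    · refine orderOf_dvd_of_pow_eq_one ?_
      have h : π (a' ^ orderOf (π a')) = 1 := by rw [map_pow, pow_orderOf_eq_one]
      have h' : a ^ orderOf (π a') ∈ K := by
        have := (QuotientGroup.eq_one_iff _).mp h
        simpa [hK', ha', mem_subgroupOf] using this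
      exact (Subgroup.disjoint_def.mp hKd) h' (pow_mem ha _)
  let u : ℂˣ := Units.mk0 Complex.I Complex.I_ne_zero
  have hu : orderOf u = 4 := by
    rw [orderOf_eq_iff (by norm_num)]
    refine ⟨Units.ext (by simp [u]), fun k hk hk0 h => ?_⟩
    have h' := congrArg Units.val h
    simp only [u, Units.val_pow_eq_pow_val, Units.val_mk0, Units.val_one] at h'
    interval_cases k
    · simpa [Complex.ext_iff] using h'
    · norm_num [Complex.I_sq] at h'
    · simpa [pow_succ, Complex.ext_iff] using h'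
  let μ : C' ⧸ K' →* ℂˣ := monoidHomOfForallMemZpowers hgen (g' := u)
    (by rw [hu, hπo]; exact hm4.trans (dvd_mul_left _ _))
  let lam : C' →* ℂˣ := μ.comp π
  have hgd : orderOf u ∣ orderOf (π a') := by rw [hu, hπo]; exact hm4.trans (dvd_mul_left _ _)
  have hlama : lam a' = u := monoidHomOfForallMemZpowers_apply_gen hgen hgd
  have hlam0 : ∀ c : C', ¬ m ∣ orderOf c → lam c = 1 := by
    intro c hc
    obtain ⟨j, hj⟩ := mem_zpowers_iff.mp (hgen (π c))
    show μ (π c) = 1
    rw [← hj, map_zpow, show μ (π a') = u from hlama, ← orderOf_dvd_iff_zpow_eq_one, hu]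
    have ho : orderOf (π c) ∣ m := by
      have h2 : orderOf (π c) ∣ 2 * m := hπo ▸ orderOf_dvd_of_mem_zpowers (hgen (π c))
      rw [hm, ← pow_succ'] at h2
      obtain ⟨i, hi, hie⟩ := (Nat.dvd_prime_pow Nat.prime_two).mp h2
      have hc' : ¬ m ∣ orderOf (π c) := fun h => hc (h.trans (orderOf_map_dvd π c))
      rw [hie, hm] at hc' ⊢
      rcases Nat.lt_or_ge i (n + 2) with h | h
      · exact pow_dvd_pow 2 h.le
      · exact absurd (pow_dvd_pow 2 h) hc'
    have hne : orderOf (π c) ∣ m / 2 := by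
      obtain ⟨i, hi, hie⟩ := (Nat.dvd_prime_pow Nat.prime_two).mp (hm ▸ ho)
      rw [hie, hm, show 2 ^ (n + 2) / 2 = 2 ^ (n + 1) by rw [pow_succ]; omega]
      refine pow_dvd_pow 2 ?_
      by_contra h
      exact hc ((hm ▸ (show i = n + 2 by omega) ▸ hie ▸ dvd_rfl : m ∣ orderOf (π c)).trans
        (orderOf_map_dvd π c))
    have h2 : (π a') ^ (j * ((m / 2 : ℕ) : ℤ)) = 1 := by
      rw [zpow_mul, hj, zpow_natCast]
      exact orderOf_dvd_iff_pow_eq_one.mp hne
    rw [← orderOf_dvd_iff_zpow_eq_one, hπo] at h2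
    obtain ⟨w, hw⟩ := hm4
    have hw2 : m / 2 = 2 * w := by omega
    rw [hw2, hw] at h2
    push_cast at h2
    refine (mul_dvd_mul_iff_right (a := (4 : ℤ)) (b := j) (c := 2 * (w : ℤ)) (by omega)).mp ?_
    calc (4 : ℤ) * (2 * w) = 2 * (4 * w) := by ring
      _ ∣ _ := h2
  set L : C' → ℂ := fun c => (lam c : ℂ) with hL
  set one : C' → ℂ := fun _ => 1 with hone
  have hLi : IsIrrCharacter C' L := isIrrCharacter_linear lam
  have h1i : IsIrrCharacter C' one := isIrrCharacter_one
  set bN : N := ⟨b, hSN hbS⟩ with hbN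
  have hbnot : bN ∉ C' := fun h => by
    have hbA : b ∈ A := hSC ▸ (⟨hbS, h⟩ : b ∈ (S : Subgroup G) ⊓ centralizer (D : Set G))
    rw [hA] at hbA
    obtain ⟨j, rfl⟩ := mem_zpowers_iff.mp hbA
    have e1 : a ^ j * a * (a ^ j)⁻¹ = a := by
      rw [((Commute.refl a).zpow_left j).eq, mul_inv_cancel_right]
    rw [e1] at hba
    have : a ^ 2 = 1 := by rw [sq]; nth_rewrite 1 [hba]; exact inv_mul_cancel a
    have := orderOf_dvd_of_pow_eq_one this
    rw [hao] at this
    have := Nat.le_of_dvd two_pos this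
    omega
  have hLb : conjFn C' L bN ≠ L := by
    intro h
    have h' := congrFun h a'
    rw [conjFn_apply] at h'
    have e1 : (⟨bN * (a' : N) * bN⁻¹, hC'n.conj_mem _ a'.2 bN⟩ : C') = a'⁻¹ :=
      Subtype.ext (Subtype.ext hba)
    rw [hL] at h'
    simp only at h'
    rw [e1, map_inv, hlama] at h'
    simp [u, Complex.ext_iff] at h'
    norm_num at h'
  have hinert : inertia C' L = C' := by
    refine (Subgroup.eq_of_le_of_card_ge (le_inertia hLi.isClassFunction) ?_).symm
    have h1 := C'.card_mul_index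
    have h2 := (inertia C' L).card_mul_index
    rw [hidx] at h1
    have h3 : (inertia C' L).index ≠ 1 := fun h => hLb ((index_eq_one.mp h).symm ▸ mem_top bN : bN ∈ inertia C' L)
    have h4 : 0 < (inertia C' L).index := Nat.pos_of_ne_zero index_ne_zero_of_finite
    have h5 : Nat.card (inertia C' L) * 2 ≤ Nat.card (inertia C' L) * (inertia C' L).index := Nat.mul_le_mul_left _ (by omega)
    omega
  set ψ := indFun C' (one - L) with hψ
  have hψc : IsClassFunction N ψ := isClassFunction_indFun _ _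
  have hne1L : ∀ g : N, conjFn C' one g ≠ L := by
    intro g h
    have h' := congrFun h a'
    rw [hL, conjFn_apply] at h'
    simp only [hone, hlama] at h'
    simp [u, Complex.ext_iff] at h'
  have hC0 : (Nat.card C' : ℂ) ≠ 0 := Nat.cast_ne_zero.mpr Nat.card_pos.ne'
  have hψn : classInner ψ ψ = 3 := by
    have e11 : classInner (indFun C' one) (indFun C' one) = 2 := by
      rw [classInner_indFun_indFun h1i h1i, div_eq_iff hC0,
        Nat.card_congr (Equiv.subtypeUnivEquiv fun g => show conjFn C' one g = one from rfl),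
        ← C'.card_mul_index, hidx]
      push_cast; ring
    have e1L : classInner (indFun C' one) (indFun C' L) = 0 := by
      rw [classInner_indFun_indFun h1i hLi]
      haveI : IsEmpty {g : N // conjFn C' one g = L} := ⟨fun g => hne1L g g.2⟩
      simp
    have eLL : classInner (indFun C' L) (indFun C' L) = 1 := by
      rw [classInner_indFun_indFun hLi hLi, ← card_inertia, hinert, div_self hC0]
    rw [hψ, indFun_sub, classInner_sub_left, classInner_sub_right, classInner_sub_right, e11, e1L,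
      ← conj_classInner (indFun C' one) (indFun C' L), e1L, eLL, map_zero]
    norm_num
  set X : Set G := {y | y ∈ centralizer (D : Set G) ∧ m ∣ orderOf y} with hXdef
  have hψX : ∀ x : N, (x : G) ∉ X → ψ x = 0 := by
    intro x hx
    by_cases hxC : x ∈ C'
    · rw [hψ, indFun_apply_coe (one - L) (⟨x, hxC⟩ : C')]
      refine mul_eq_zero_of_right _ (Finset.sum_eq_zero fun g _ => ?_)
      rw [conjFn_apply, Pi.sub_apply]
      have : lam ⟨g * x * g⁻¹, hC'n.conj_mem x hxC g⟩ = 1 := by
        refine hlam0 _ fun h => hx ⟨hxC, ?_⟩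
        rw [Subgroup.orderOf_mk, ← Subgroup.orderOf_coe] at h
        have e1 := orderOf_injective (MulAut.conj (g : G)).toMonoidHom (MulAut.conj (g : G)).injective (x : G)
        simp only [MulEquiv.coe_toMonoidHom, MulAut.conj_apply] at e1
        rw [← e1]
        exact h
      simp [hone, hL, this]
    · rw [hψ, indFun_apply_not_mem _ hxC]
  have hXTI : ∀ g : G, g ∉ N → ∀ t ∈ X, g * t * g⁻¹ ∈ X → t = 1 := fun g hg t ht hgt =>
    absurd (hTI g t ht.1 (hDcard ▸ ht.2) hgt.1) hg
  have h1X : ψ 1 = 0 := hψX 1 fun h => by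
    have := h.2
    rw [OneMemClass.coe_one, orderOf_one] at this
    have := Nat.le_of_dvd one_pos this
    omega
  set Φ := indFun N ψ with hΦ
  have hΦg : IsGeneralizedCharacter G Φ := isGeneralized_indFun N (isGeneralized_indFun C'
    (isGeneralized_sub (isGeneralized_of_isCharacter h1i.isCharacter)
      (isGeneralized_of_isCharacter hLi.isCharacter)))
  have hΦn : classInner Φ Φ = 3 := by rw [hΦ, classInner_indFun_ti hXTI hψX hψc hψX h1X, hψn]
  have hΦ1 : classInner Φ (fun _ => (1 : ℂ)) = 1 := by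
    rw [hΦ, classInner_indFun N ψ isIrrCharacter_one.isClassFunction, hψ,
      classInner_indFun C' (one - L) isIrrCharacter_one.isClassFunction, classInner_sub_left,
      classInner_irr_self h1i, classInner_irr_ne hLi h1i (fun h => hne1L 1 (by rw [conjFn_one]; exact h.symm)),
      sub_zero]
  have hΦd : Φ 1 = 0 := by rw [hΦ, indFun_one_apply, h1X, mul_zero]
  obtain ⟨χ₁, χ₂, hi1, hi2, hn1, hn2, hdeg, hval⟩ := three_split hΦg hΦn hΦ1 hΦd
  refine ⟨χ₁, χ₂, hi1, hi2, hn1, hn2, hdeg, fun g hg => ?_⟩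
  have hz : Φ g = 0 := by
    rw [hΦ, indFun]
    refine mul_eq_zero_of_right _ (Finset.sum_eq_zero fun x _ => ?_)
    by_cases hxN : x⁻¹ * g * x ∈ N
    · rw [extendByZero_mem ψ hxN]
      refine hψX _ fun h => hg (hm4.trans ?_)
      have e1 := orderOf_injective (MulAut.conj x⁻¹).toMonoidHom (MulAut.conj x⁻¹).injective g
      simp only [MulEquiv.coe_toMonoidHom, MulAut.conj_apply, inv_inv] at e1
      rw [← e1]
      exact h.2
    · exact extendByZero_not_mem ψ hxN
  rw [hval g] at hz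
  linear_combination -hz

end Cfsg.Agent.S0844
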