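import Cfsg.Statements.S0845
import Cfsg.Agent.Lib.Characters.Quaternion

set_option autoImplicit false
open Cfsg

namespace Cfsg.Agent.S0845

/-- Suppose a Sylow 2-subgroup S of the finite group G is generalized quaternion of order at least 16. Then G has a normal subgroup M of even order such that G / M is non-abelian, that is, M does not contain the commutator subgroup of G. -/
theorem result {G : Type*} [Group G] [Finite G] (S : Sylow 2 G) (n : ℕ) (e : (S : Subgroup G) ≃* QuaternionGroup (2 ^ (n + 2))) : ∃ M : Subgroup G, M.Normal ∧ Even (Nat.card M) ∧ ¬ commutator G ≤ M := by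
  haveI : NeZero (2 ^ (n + 2)) := ⟨by positivity⟩
  obtain ⟨t, hto, htS, hcomm, -⟩ := Cfsg.Lib.Characters.quaternion_involution S e
  set O := Cfsg.oddCore G
  set π := QuotientGroup.mk' O with hπ
  have hnorm : (Subgroup.zpowers (π t)).Normal := by
    refine ⟨fun x hx g => ?_⟩
    obtain ⟨g, rfl⟩ := QuotientGroup.mk'_surjective O g
    obtain ⟨k, rfl⟩ := Subgroup.mem_zpowers_iff.mp hx
    have hc : Commute (π g) (π t) := by
      show π g * π t = π t * π g
      rw [← map_mul, ← map_mul, hcomm]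
    show π g * π t ^ k * (π g)⁻¹ ∈ Subgroup.zpowers (π t)
    rw [(hc.zpow_right k).eq, mul_inv_cancel_right]
    exact Subgroup.zpow_mem_zpowers _ _
  refine ⟨(Subgroup.zpowers (π t)).comap π, hnorm.comap π, ?_, fun hle => ?_⟩
  · rw [even_iff_two_dvd]
    refine hto.symm.dvd.trans ?_
    have h := orderOf_dvd_natCard (⟨t, Subgroup.mem_comap.mpr (Subgroup.mem_zpowers (π t))⟩ :
      (Subgroup.zpowers (π t)).comap π)
    rwa [Subgroup.orderOf_mk] at h
  · haveI : NeZero (2 * 2 ^ (n + 2)) := ⟨by positivity⟩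
    obtain ⟨a, ha⟩ := e.surjective (QuaternionGroup.a 1)
    obtain ⟨b, hb⟩ := e.surjective (QuaternionGroup.xa 0)
    obtain ⟨x, hx⟩ : ∃ x : (S : Subgroup G), x = a * b * a⁻¹ * b⁻¹ := ⟨_, rfl⟩
    have hex : e x = QuaternionGroup.a 2 := by
      rw [hx, map_mul, map_mul, map_mul, map_inv, map_inv, ha, hb,
        show (QuaternionGroup.a (1 : ZMod (2 * 2 ^ (n + 2))))⁻¹ = QuaternionGroup.a (-1) from rfl,
        show (QuaternionGroup.xa (0 : ZMod (2 * 2 ^ (n + 2))))⁻¹ =
          QuaternionGroup.xa (((2 ^ (n + 2) : ℕ) : ZMod (2 * 2 ^ (n + 2))) + 0) from rfl,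
        QuaternionGroup.a_mul_xa, QuaternionGroup.xa_mul_a, QuaternionGroup.xa_mul_xa]
      congr 1
      push_cast
      have h2 : (2 * 2 ^ (n + 2) : ZMod (2 * 2 ^ (n + 2))) = 0 := by
        exact_mod_cast ZMod.natCast_self (2 * 2 ^ (n + 2))
      linear_combination h2
    have hxG : (x : G) ∈ commutator G := by
      rw [hx, commutator_def]
      simpa [commutatorElement_def] using
        Subgroup.commutator_mem_commutator (Subgroup.mem_top (a : G)) (Subgroup.mem_top (b : G))
    have hsq : π (x : G) ^ 2 = 1 := by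
      obtain ⟨k, hk⟩ := Subgroup.mem_zpowers_iff.mp (hle hxG)
      rw [← hk, ← zpow_natCast, ← zpow_mul, mul_comm, zpow_mul, zpow_natCast, ← map_pow,
        show t ^ 2 = 1 from hto ▸ pow_orderOf_eq_one t, map_one, one_zpow]
    obtain ⟨j, hj⟩ := S.isPGroup' (x ^ 2)
    have h1 : ((x ^ 2 : (S : Subgroup G)) : G) = 1 := by
      refine Cfsg.Lib.Characters.oddCore_two_element ?_ (k := j) (by rw [← Subgroup.coe_pow, hj, Subgroup.coe_one])
      rw [← QuotientGroup.eq_one_iff, Subgroup.coe_pow, ← QuotientGroup.mk'_apply, map_pow]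
      exact hsq
    have h2 : e (x ^ 2) = 1 := by rw [show x ^ 2 = 1 from Subtype.ext h1, map_one]
    rw [map_pow, hex, sq, QuaternionGroup.a_mul_a, QuaternionGroup.one_def, QuaternionGroup.a.injEq,
      show (2 + 2 : ZMod (2 * 2 ^ (n + 2))) = ((4 : ℕ) : ZMod (2 * 2 ^ (n + 2))) by norm_num,
      ZMod.natCast_eq_zero_iff] at h2
    have := Nat.le_of_dvd (by norm_num) h2
    have : 4 ≤ 2 ^ (n + 2) := by rw [pow_succ, pow_succ]; have := Nat.one_le_two_pow (n := n); omega
    omega

end Cfsg.Agent.S0845
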