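import Cfsg.Statements.S0846
import Cfsg.Agent.Lib.Characters.Quaternion

set_option autoImplicit false
open Cfsg

namespace Cfsg.Agent.S0846

/-- Suppose a Sylow 2-subgroup S of the finite group G is generalized quaternion of order at least 16. Then every Sylow 2-subgroup of the subgroup generated by the involutions of G is cyclic. -/
theorem result {G : Type*} [Group G] [Finite G] (S : Sylow 2 G) (n : ℕ) (e : (S : Subgroup G) ≃* QuaternionGroup (2 ^ (n + 2))) (Q : Sylow 2 ↥(Subgroup.closure {g : G | orderOf g = 2})) : IsCyclic Q := by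
  haveI : NeZero (2 ^ (n + 2)) := ⟨by positivity⟩
  obtain ⟨t, hto, htS, hcomm, hall⟩ := Cfsg.Lib.Characters.quaternion_involution S e
  set O := Cfsg.oddCore G
  set π := QuotientGroup.mk' O with hπ
  have hC : Subgroup.closure {g : G | orderOf g = 2} ≤ (Subgroup.zpowers (π t)).comap π :=
    (Subgroup.closure_le _).mpr fun s hs => Subgroup.mem_comap.mpr (hall s hs ▸ Subgroup.mem_zpowers _)
  let f : Q →* Subgroup.zpowers (π t) :=
    (π.comp ((Subgroup.closure {g : G | orderOf g = 2}).subtype.comp Q.toSubgroup.subtype)).codRestrict _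
      fun q => hC q.1.2
  refine isCyclic_of_injective f ((injective_iff_map_eq_one f).mpr fun q hq => ?_)
  obtain ⟨j, hj⟩ := Q.isPGroup' q
  have hmem : (q.1 : G) ∈ O := (QuotientGroup.eq_one_iff _).mp (congrArg Subtype.val hq)
  exact Subtype.ext (Subtype.ext (Cfsg.Lib.Characters.oddCore_two_element hmem (k := j) (by
    rw [← Subgroup.coe_pow, ← Subgroup.coe_pow, hj]; simp)))

end Cfsg.Agent.S0846
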