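import Cfsg.Statements.S0849
import Cfsg.Agent.Lib.Characters.Induction

set_option autoImplicit false
open Cfsg

namespace Cfsg.Agent.S0849

open Cfsg Cfsg.Lib.Characters

/-- Let H be a subgroup of a finite group G and S a subset of H that is mapped to itself under conjugation by H, is disjoint from its conjugate by any element outside H, and is closed under inverses. Let φ be a class function of H vanishing on H away from S, and let u, v be involutions of G. Then the sum of the induced function of φ over all products a * b with a conjugate to u and b conjugate to v equals the index of H times the sum of φ (a * b) over such pairs with a and b in H. -/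
theorem result {G : Type*} [Group G] [Fintype G] (H : Subgroup G) (S : Set G) (hSH : S ⊆ H) (hHS : ∀ h ∈ H, ∀ s ∈ S, h * s * h⁻¹ ∈ S) (hTI : ∀ g : G, g ∉ H → ∀ s ∈ S, g * s * g⁻¹ ∉ S) (hinv : ∀ s ∈ S, s⁻¹ ∈ S) (φ : H → ℂ) (hφ : Cfsg.IsClassFunction H φ) (hφS : ∀ x : H, (x : G) ∉ S → φ x = 0) (u v : G) (hu : orderOf u = 2) (hv : orderOf v = 2) : ∑ᶠ p ∈ {p : G × G | IsConj u p.1 ∧ IsConj v p.2}, Cfsg.indFun H φ (p.1 * p.2) = (H.index : ℂ) * ∑ᶠ p ∈ {p : H × H | IsConj u (p.1 : G) ∧ IsConj v (p.2 : G)}, φ (p.1 * p.2) := by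
  classical
  have hG : ∀ f : G × G → ℂ, ∑ᶠ p ∈ {p : G × G | IsConj u p.1 ∧ IsConj v p.2}, f p =
      ∑ p : G × G, if IsConj u p.1 ∧ IsConj v p.2 then f p else 0 := fun f => by
    rw [finsum_mem_def, finsum_eq_sum_of_fintype]
    exact Finset.sum_congr rfl fun p _ => Set.indicator_apply _ _ _
  haveI : Fintype H := Fintype.ofFinite H
  rw [hG, finsum_mem_def, finsum_eq_sum_of_fintype]
  simp only [Set.indicator_apply, Set.mem_ofPred_eq]
  have hconj : ∀ (x : G), ∑ p : G × G, (if IsConj u p.1 ∧ IsConj v p.2 then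
      extendByZero H φ (x⁻¹ * (p.1 * p.2) * x) else 0) =
      ∑ p : G × G, if IsConj u p.1 ∧ IsConj v p.2 then extendByZero H φ (p.1 * p.2) else 0 := by
    intro x
    refine Fintype.sum_equiv
      ((MulAut.conj x⁻¹).toEquiv.prodCongr (MulAut.conj x⁻¹).toEquiv) _ _ fun p => ?_
    have hiff : ∀ w y : G, IsConj w ((MulAut.conj x⁻¹).toEquiv y) ↔ IsConj w y := fun w y => by
      have h : IsConj y ((MulAut.conj x⁻¹).toEquiv y) := isConj_iff.mpr ⟨x⁻¹, by simp⟩
      exact ⟨fun h' => h'.trans h.symm, fun h' => h'.trans h⟩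
    simp only [Equiv.prodCongr_apply, Prod.map_fst, Prod.map_snd, hiff]
    congr 2
    simp only [MulEquiv.toEquiv_eq_coe, MulEquiv.coe_toEquiv, MulAut.conj_apply]
    group
  have hlhs : ∑ p : G × G, (if IsConj u p.1 ∧ IsConj v p.2 then indFun H φ (p.1 * p.2) else 0) =
      (H.index : ℂ) *
        ∑ p : G × G, if IsConj u p.1 ∧ IsConj v p.2 then extendByZero H φ (p.1 * p.2) else 0 := by
    have h1 : ∀ p : G × G, (if IsConj u p.1 ∧ IsConj v p.2 then indFun H φ (p.1 * p.2) else 0) =
        (Nat.card H : ℂ)⁻¹ * ∑ x : G, if IsConj u p.1 ∧ IsConj v p.2 then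
          extendByZero H φ (x⁻¹ * (p.1 * p.2) * x) else 0 := fun p => by
      split_ifs <;> simp [indFun]
    rw [Finset.sum_congr rfl fun p _ => h1 p, ← Finset.mul_sum, Finset.sum_comm,
      Finset.sum_congr rfl fun x _ => hconj x, Finset.sum_const, Finset.card_univ, nsmul_eq_mul,
      ← Nat.card_eq_fintype_card, ← H.card_mul_index, ← mul_assoc, Nat.cast_mul, ← mul_assoc,
      inv_mul_cancel₀ (Nat.cast_ne_zero.mpr Nat.card_pos.ne'), one_mul]
  rw [hlhs]
  congr 1
  symm
  refine Finset.sum_of_injOn (fun p : H × H => ((p.1 : G), (p.2 : G)))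
    (fun p _ q _ h => Prod.ext (Subtype.ext (congrArg Prod.fst h)) (Subtype.ext (congrArg Prod.snd h)))
    (fun p _ => by simp) ?_ ?_
  · intro p _ hp
    rw [ite_eq_right_iff]
    rintro ⟨hp1, hp2⟩
    by_contra hne
    have hab : p.1 * p.2 ∈ H := by
      by_contra h; exact hne (extendByZero_not_mem _ h)
    have hS : p.1 * p.2 ∈ S := by
      by_contra h
      exact hne (by rw [extendByZero_mem _ hab]; exact hφS ⟨_, hab⟩ h)
    have hsq : ∀ w y : G, orderOf w = 2 → IsConj w y → y * y = 1 := by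
      intro w y hw hy
      obtain ⟨g, rfl⟩ := isConj_iff.mp hy
      have : w * w = 1 := by rw [← sq, ← hw]; exact pow_orderOf_eq_one w
      calc g * w * g⁻¹ * (g * w * g⁻¹) = g * (w * w) * g⁻¹ := by group
        _ = 1 := by rw [this]; group
    have ha := hsq u p.1 hu hp1
    have hb := hsq v p.2 hv hp2
    have ha' : p.1 ∈ H := by
      by_contra h
      refine hTI p.1 h _ hS ?_
      have : p.1 * (p.1 * p.2) * p.1⁻¹ = (p.1 * p.2)⁻¹ := by
        rw [← mul_assoc, ha, one_mul, mul_inv_rev, inv_eq_of_mul_eq_one_right hb]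
      rw [this]; exact hinv _ hS
    have hb' : p.2 ∈ H := by simpa using H.mul_mem (H.inv_mem ha') hab
    exact hp ⟨(⟨p.1, ha'⟩, ⟨p.2, hb'⟩), by simp, rfl⟩
  · intro p _
    split_ifs with h
    · exact (extendByZero_coe φ (p.1 * p.2)).symm
    · rfl

end Cfsg.Agent.S0849
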