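import Cfsg.Statements.S0850
import Cfsg.Agent.Lib.Characters.TI

set_option autoImplicit false
open Cfsg

namespace Cfsg.Agent.S0850

open Cfsg Cfsg.Lib.Characters
open scoped ComplexConjugate

/-- Let K be a subgroup of the finite group G that meets each conjugate by an element outside its normalizer N trivially, is properly contained in N, and contains the centralizer of each of its non-identity elements (a T.I. subgroup with Frobenius normalizer). Then no element of N outside K is conjugate in G to an element of K, and for every class function ϑ of N that vanishes on N away from K and at the identity, the function induced from ϑ to G agrees with ϑ on all of N. -/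
theorem result {G : Type*} [Group G] [Fintype G] (K : Subgroup G) (hTI : ∀ g : G, g ∉ Subgroup.normalizer (K : Set G) → ∀ k ∈ K, g * k * g⁻¹ ∈ K → k = 1) (hlt : K < Subgroup.normalizer (K : Set G)) (hC : ∀ k ∈ K, k ≠ 1 → Subgroup.centralizer ({k} : Set G) ≤ K) : (∀ x ∈ Subgroup.normalizer (K : Set G), x ∉ K → ∀ g : G, g * x * g⁻¹ ∉ K) ∧ ∀ (ϑ : Subgroup.normalizer (K : Set G) → ℂ), Cfsg.IsClassFunction (Subgroup.normalizer (K : Set G)) ϑ → (∀ x : Subgroup.normalizer (K : Set G), (x : G) ∉ K → ϑ x = 0) → ϑ 1 = 0 → ∀ x : Subgroup.normalizer (K : Set G), Cfsg.indFun (Subgroup.normalizer (K : Set G)) ϑ x = ϑ x := by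
  classical
  haveI := Fintype.ofFinite K
  set N := Subgroup.normalizer (K : Set G)
  have hKN : K ≤ N := Subgroup.le_normalizer
  have first : ∀ x ∈ N, x ∉ K → ∀ g : G, g * x * g⁻¹ ∉ K := by
    intro x hxN hxK g hgx
    have hx1 : x ≠ 1 := fun h => hxK (h ▸ K.one_mem)
    have hgN : g ∉ N := fun hg => hxK ((Subgroup.mem_normalizer_iff.mp hg x).mpr hgx)
    -- the nontrivial powers of `x` act freely on `K`
    have hfree : ∀ i : ℕ, x ^ i ≠ 1 → ∀ k ∈ K, Commute (x ^ i) k → k = 1 := by
      intro i hi k hk hc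
      refine hTI g hgN k hk ?_
      have hz : g * x ^ i * g⁻¹ ∈ K := by rw [← conj_pow]; exact K.pow_mem hgx i
      refine hC _ hz (by simpa using hi) (Subgroup.mem_centralizer_singleton_iff.mpr ?_)
      exact ((hc.symm.map (MulAut.conj g).toMonoidHom).eq : _)
    letI act : MulAction (Subgroup.zpowers x) {k : K // k ≠ 1} :=
      { smul := fun z k => ⟨⟨(z : G) * k.1 * (z : G)⁻¹,
          (Subgroup.mem_normalizer_iff.mp (Subgroup.zpowers_le.mpr hxN z.2) _).mp k.1.2⟩,
          fun h => k.2 (Subtype.ext (by simpa using congrArg Subtype.val h))⟩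
        one_smul := fun k => Subtype.ext (Subtype.ext (by
          show ((1 : Subgroup.zpowers x) : G) * k.1 * ((1 : Subgroup.zpowers x) : G)⁻¹ = k.1
          simp))
        mul_smul := fun a b k => Subtype.ext (Subtype.ext (by
          show ((a * b : Subgroup.zpowers x) : G) * k.1 * ((a * b : Subgroup.zpowers x) : G)⁻¹ =
            (a : G) * ((b : G) * k.1 * (b : G)⁻¹) * (a : G)⁻¹
          simp [mul_assoc])) }
    have hstab : ∀ k : {k : K // k ≠ 1}, MulAction.stabilizer (Subgroup.zpowers x) k = ⊥ := by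
      intro k
      rw [eq_bot_iff]
      rintro ⟨z, hz⟩ hzk
      obtain ⟨i, rfl⟩ := (isOfFinOrder_of_finite x).mem_powers_iff_mem_zpowers.mpr hz
      rw [Subgroup.mem_bot]
      by_contra hne
      refine k.2 (Subtype.ext ?_)
      refine hfree i (fun h => hne (Subtype.ext h)) _ k.1.2 ?_
      have h' : x ^ i * (k.1 : G) * (x ^ i)⁻¹ = k.1 := congrArg (fun s : {k : K // k ≠ 1} => (s.1 : G)) hzk
      exact mul_inv_eq_iff_eq_mul.mp h'
    have hdvd : orderOf x ∣ Nat.card K - 1 := by
      have hcard : Nat.card K - 1 = Nat.card {k : K // k ≠ 1} := by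
        rw [Nat.card_eq_fintype_card, Nat.card_eq_fintype_card, Fintype.card_subtype_compl,
          Fintype.card_subtype_eq]
      rw [hcard, Nat.card_congr (MulAction.selfEquivSigmaOrbits (Subgroup.zpowers x) _),
        Nat.card_sigma]
      refine Finset.dvd_sum fun ω _ => ?_
      rw [Nat.card_coe_set_eq, ← MulAction.index_stabilizer, hstab, Subgroup.index_bot,
        Nat.card_zpowers]
    have hdvd' : orderOf x ∣ Nat.card K := by
      rw [← orderOf_injective (MulAut.conj g).toMonoidHom (MulEquiv.injective _) x]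
      exact Subgroup.orderOf_dvd_natCard _ hgx
    have h1 := Nat.dvd_sub hdvd' hdvd
    rw [Nat.sub_sub_self Nat.card_pos] at h1
    exact hx1 (orderOf_eq_one_iff.mp (Nat.dvd_one.mp h1))
  refine ⟨first, fun ϑ hϑ hϑK hϑ1 x => ?_⟩
  by_cases hx1 : x = 1
  · subst hx1
    rw [OneMemClass.coe_one, indFun_one_apply, hϑ1, mul_zero]
  by_cases hxK : (x : G) ∈ K
  · exact indFun_eq_of_ti hTI hϑ hϑK x hxK hx1
  · rw [hϑK x hxK]
    refine mul_eq_zero_of_right _ (Finset.sum_eq_zero fun y _ => ?_)
    by_cases hy : y⁻¹ * (x : G) * y ∈ Subgroup.normalizer (K : Set G)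
    · rw [extendByZero_mem _ hy]
      refine hϑK _ fun hK' => first x x.2 hxK y⁻¹ ?_
      simpa using hK'
    · exact extendByZero_not_mem _ hy

end Cfsg.Agent.S0850
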