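import Cfsg.Statements.S0851
import Cfsg.Agent.Lib.Characters.Exceptional
import Cfsg.Agent.Lib.Characters.Coherence.Extend
import Cfsg.Agent.Lib.Characters.Coherence.Frobenius

set_option autoImplicit false
open Cfsg

namespace Cfsg.Agent.S0851

open Cfsg Cfsg.Lib.Characters
open scoped ComplexConjugate

theorem normalizer_fiber {X : Type*} [Group X] [Fintype X] (H : Subgroup X) [H.Normal] [Fintype H]
    [IsMulCommutative H] (hC : ∀ k ∈ H, k ≠ 1 → Subgroup.centralizer ({k} : Set X) ≤ H) {χ : X → ℂ}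
    (hχ : Exceptional.IsExc H χ) (huniq : ∀ ξ, Exceptional.IsExc H ξ → ξ = χ) :
    Nat.card H = H.index + 1 ∧
      ∀ a ∈ H, ∀ b ∈ H, a ≠ 1 → b ≠ 1 → IsConj a b := by
  classical
  obtain ⟨θ, hθ, hne, rfl⟩ := Exceptional.exists_ind hC hχ
  have hne' : classInner (fun n : H => indFun H θ n) θ ≠ 0 := by
    rw [← conj_classInner, ← classInner_indFun H θ hχ.1.isClassFunction, classInner_irr_self hχ.1]
    simp
  -- every non-principal character of the kernel is conjugate to the given one
  have horb : ∀ φ : IrrCharacter H, φ.1 ≠ (fun _ => 1) ↔ φ.1 ∈ orbitFinset H θ := by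
    intro φ
    constructor
    · intro hφ
      refine mem_orbitFinset.mpr (exists_conjFn_eq hχ.1 hθ φ.2 hne' ?_)
      have := huniq _ (Exceptional.isExc_indFun hC φ.2 hφ)
      rw [← conj_classInner, ← classInner_indFun H φ.1 hχ.1.isClassFunction, this,
        classInner_irr_self hχ.1]
      simp
    · intro hφ h1
      obtain ⟨g, hg⟩ := mem_orbitFinset.mp hφ
      refine hne ?_
      have := congrArg (fun f => conjFn H f g⁻¹) (h1.symm.trans hg)
      simp only [conjFn_conjFn, mul_inv_cancel, conjFn_one] at this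
      exact this.symm
  have hstab : Nat.card {g : X // conjFn H θ g = θ} = Nat.card H := by
    rw [← card_inertia, inertia_eq_of_centralizer_le H hC hθ hne]
  have hO : (orbitFinset H θ).card = H.index := by
    have h := card_stabilizer_mul_card_orbit (N := H) θ
    rw [hstab, ← H.card_mul_index] at h
    exact Nat.eq_of_mul_eq_mul_left Nat.card_pos h
  have hirr : Nat.card (IrrCharacter H) = Nat.card H := by
    rw [card_irr_eq_card_conjClasses]
    exact Nat.card_congr
      (Equiv.ofBijective ConjClasses.mk ⟨fun a b h => by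
        obtain ⟨c, hc⟩ := isConj_iff.mp (ConjClasses.mk_eq_mk_iff_isConj.mp h)
        rwa [mul_comm' c a, mul_inv_cancel_right] at hc, ConjClasses.mk_surjective⟩).symm
  have hcard : Nat.card H = H.index + 1 := by
    rw [← hirr, ← hO, Nat.card_eq_fintype_card, ← Finset.card_univ,
      ← Finset.card_erase_add_one (Finset.mem_univ (⟨fun _ => 1, isIrrCharacter_one⟩ : IrrCharacter H))]
    congr 1
    refine Finset.card_bij (fun φ _ => φ.1) (fun φ hφ => ?_) (fun a _ b _ h => Subtype.ext h) ?_
    · exact (horb φ).mp fun h => (Finset.mem_erase.mp hφ).1 (Subtype.ext h)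
    · intro ψ hψ
      obtain ⟨g, rfl⟩ := mem_orbitFinset.mp hψ
      refine ⟨⟨_, isIrrCharacter_conjFn hθ g⟩, Finset.mem_erase.mpr ⟨?_, Finset.mem_univ _⟩, rfl⟩
      exact fun h => (horb _).mpr hψ (congrArg Subtype.val h)
  refine ⟨hcard, fun a ha b hb ha1 hb1 => ?_⟩
  -- the conjugates of `a` fill the kernel
  set O : Finset X := Finset.univ.image fun g => g * a * g⁻¹ with hOdef
  have hsub : O ⊆ Finset.univ.filter (fun x => x ∈ H ∧ x ≠ 1) := by
    intro x hx
    obtain ⟨g, -, rfl⟩ := Finset.mem_image.mp hx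
    simp [Subgroup.Normal.conj_mem ‹H.Normal› a ha g, ha1]
  have hfilter : (Finset.univ.filter (fun x => x ∈ H ∧ x ≠ 1)).card + 1 = Nat.card H := by
    rw [Nat.card_eq_fintype_card, Fintype.card_subtype,
      ← Finset.card_erase_add_one (s := Finset.univ.filter (fun x => x ∈ H)) (a := 1) (by simp [H.one_mem])]
    congr 2
    ext x
    simp [and_comm]
  have hOc : O.card = (Subgroup.centralizer ({a} : Set X)).index := by
    rw [← card_conj_eq_index a, hOdef, Nat.card_eq_fintype_card, Fintype.card_subtype]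
    congr 1
    ext x
    simp [isConj_iff]
  have hle : H.index ≤ (Subgroup.centralizer ({a} : Set X)).index :=
    Nat.le_of_dvd (Nat.pos_of_ne_zero Subgroup.index_ne_zero_of_finite)
      (Subgroup.index_dvd_of_le (hC a ha ha1))
  have heq : O = Finset.univ.filter (fun x => x ∈ H ∧ x ≠ 1) :=
    Finset.eq_of_subset_of_card_le hsub (by omega)
  have hbO : b ∈ O := by rw [heq]; simp [hb, hb1]
  obtain ⟨g, -, hg⟩ := Finset.mem_image.mp hbO
  exact isConj_iff.mpr ⟨g, hg⟩

/-- Let K be a subgroup of the finite group G that meets each conjugate by an element outside its normalizer N trivially, is properly contained in N, and contains the centralizer of each of its non-identity elements (a T.I. subgroup with Frobenius normalizer). Suppose K is abelian, let e be the index of K in N, and call an irreducible character of N relevant when it takes at some element of K a value different from its degree. Then either there is exactly one relevant character and K is an elementary abelian p-group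 of order e + 1 for some prime p, or there are a sign ε and an injective map f from the relevant characters to the irreducible characters of G such that inducing χ - ξ to G gives ε (f χ - f ξ) for all relevant χ and ξ. -/
theorem result {G : Type*} [Group G] [Fintype G] (K : Subgroup G) (hTI : ∀ g : G, g ∉ Subgroup.normalizer (K : Set G) → ∀ k ∈ K, g * k * g⁻¹ ∈ K → k = 1) (hlt : K < Subgroup.normalizer (K : Set G)) (hC : ∀ k ∈ K, k ≠ 1 → Subgroup.centralizer ({k} : Set G) ≤ K) (hab : ∀ a ∈ K, ∀ b ∈ K, a * b = b * a) : (Nat.card {χ : Cfsg.IrrCharacter (Subgroup.normalizer (K : Set G)) // ∃ k : Subgroup.normalizer (K : Set G), (k : G) ∈ K ∧ (χ : ↥(Subgroup.normalizer (K : Set G)) → ℂ) k ≠ (χ : ↥(Subgroup.normalizer (K : Set G)) → ℂ) 1} = 1 ∧ ∃ p : ℕ, p.Prime ∧ Cfsg.IsElementaryAbelian p K ∧ Nat.card K = (K.subgroupOf (Subgroup.normalizer (K : Set G))).index + 1) ∨ ∃ (ε : ℂ) (f : {χ : Cfsg.IrrCharacter (Subgroup.normalizer (K : Set G)) // ∃ k : Subgroup.normalizer (K : Set G), (k : G)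 ∈ K ∧ (χ : ↥(Subgroup.normalizer (K : Set G)) → ℂ) k ≠ (χ : ↥(Subgroup.normalizer (K : Set G)) → ℂ) 1} → Cfsg.IrrCharacter G), (ε = 1 ∨ ε = -1) ∧ Function.Injective f ∧ ∀ χ ξ, Cfsg.indFun (Subgroup.normalizer (K : Set G)) ((χ.1 : ↥(Subgroup.normalizer (K : Set G)) → ℂ) - (ξ.1 : ↥(Subgroup.normalizer (K : Set G)) → ℂ)) = ε • ((f χ : G → ℂ) - (f ξ : G → ℂ)) := by
  classical
  haveI : (K.subgroupOf (Subgroup.normalizer (K : Set G))).Normal := Subgroup.normal_in_normalizer
  haveI : Fintype ↥(Subgroup.normalizer (K : Set G)) := Fintype.ofFinite _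
  haveI : Fintype ↥(K.subgroupOf (Subgroup.normalizer (K : Set G))) := Fintype.ofFinite _
  have hcent : ∀ k ∈ K.subgroupOf (Subgroup.normalizer (K : Set G)), k ≠ 1 →
      Subgroup.centralizer ({k} : Set ↥(Subgroup.normalizer (K : Set G))) ≤
        K.subgroupOf (Subgroup.normalizer (K : Set G)) := by
    intro k hk hk1 x hx
    refine hC k hk (fun h => hk1 (Subtype.ext h)) (Subgroup.mem_centralizer_singleton_iff.mpr ?_)
    exact congrArg Subtype.val (Subgroup.mem_centralizer_singleton_iff.mp hx)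
  haveI : IsMulCommutative ↥(K.subgroupOf (Subgroup.normalizer (K : Set G))) :=
    ⟨⟨fun a b => Subtype.ext (Subtype.ext (hab _ a.2 _ b.2))⟩⟩
  by_cases h1 : Nat.card {χ : Cfsg.IrrCharacter (Subgroup.normalizer (K : Set G)) //
      ∃ k : Subgroup.normalizer (K : Set G), (k : G) ∈ K ∧
        (χ : ↥(Subgroup.normalizer (K : Set G)) → ℂ) k ≠
        (χ : ↥(Subgroup.normalizer (K : Set G)) → ℂ) 1} = 1
  · left
    refine ⟨h1, ?_⟩
    obtain ⟨hsub, ⟨χ⟩⟩ := Nat.card_eq_one_iff_unique.mp h1
    obtain ⟨hcard, hconj⟩ := normalizer_fiber _ hcent (χ := χ.1.1) ⟨χ.1.2, χ.2⟩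
      (fun ξ hξ => congrArg (fun z => (z.1.1 : _ → ℂ)) (hsub.elim ⟨⟨ξ, hξ.1⟩, hξ.2⟩ χ))
    have hcard' : Nat.card K =
        (K.subgroupOf (Subgroup.normalizer (K : Set G))).index + 1 := by
      rw [← hcard]
      exact (Nat.card_congr (Subgroup.subgroupOfEquivOfLe Subgroup.le_normalizer).toEquiv).symm
    have hK1 : Nat.card K ≠ 1 := by
      have := Subgroup.index_ne_zero_of_finite (H := K.subgroupOf (Subgroup.normalizer (K : Set G)))
      omega
    obtain ⟨p, hp, hpd⟩ := Nat.exists_prime_and_dvd hK1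
    haveI := Fact.mk hp
    obtain ⟨a, ha⟩ := exists_prime_orderOf_dvd_card' (G := K) p hpd
    refine ⟨p, hp, ⟨⟨⟨fun x y => Subtype.ext (hab _ x.2 _ y.2)⟩⟩, fun b hb => ?_⟩, hcard'⟩
    rcases eq_or_ne b 1 with rfl | hb1
    · simp
    have ha1 : (a : G) ≠ 1 := fun h => by
      rw [show a = 1 from Subtype.ext h, orderOf_one] at ha
      exact hp.ne_one ha.symm
    have hc := hconj ⟨a, Subgroup.le_normalizer a.2⟩ a.2 ⟨b, Subgroup.le_normalizer hb⟩ hb
      (fun h => ha1 (congrArg Subtype.val h)) (fun h => hb1 (congrArg Subtype.val h))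
    obtain ⟨g, hg⟩ := isConj_iff.mp hc
    have hg' : (g : G) * (a : G) * (g : G)⁻¹ = b := congrArg Subtype.val hg
    have hap : (a : G) ^ p = 1 := by
      rw [← SubgroupClass.coe_pow, ← ha, pow_orderOf_eq_one]; rfl
    rw [← hg', conj_pow, hap, mul_one, mul_inv_cancel]
  · right
    set 𝒮 : Finset (↥(Subgroup.normalizer (K : Set G)) → ℂ) :=
      (Coherence.irrFin ↥(Subgroup.normalizer (K : Set G))).filter
        fun χ => ∃ k : Subgroup.normalizer (K : Set G), (k : G) ∈ K ∧ χ k ≠ χ 1 with h𝒮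
    have hmem : ∀ χ ∈ 𝒮, Exceptional.IsExc (K.subgroupOf (Subgroup.normalizer (K : Set G))) χ := by
      intro χ hχ
      rw [h𝒮, Finset.mem_filter, Coherence.mem_irrFin] at hχ
      exact ⟨hχ.1, hχ.2⟩
    have hdeg : ∀ χ ∈ 𝒮, Coherence.degC χ = (K.subgroupOf (Subgroup.normalizer (K : Set G))).index := by
      intro χ hχ
      obtain ⟨θ, hθ, -, hind⟩ := Exceptional.exists_ind hcent (hmem χ hχ)
      have h2 := Coherence.degC_spec (hmem χ hχ).1.isCharacter
      have h3 := congrFun hind 1
      rw [indFun_one_apply, degree_one_of_isMulCommutative hθ, mul_one, h2] at h3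
      exact_mod_cast h3
    obtain ⟨ε, μ, hc⟩ := Coherence.star (G := G)
      (K := K.subgroupOf (Subgroup.normalizer (K : Set G)))
      (fun g hg t ht s hs heq => hTI g hg _ ht (heq ▸ hs)) 𝒮
      (fun χ hχ => ⟨(hmem χ hχ).1, fun x hx => Exceptional.vanish hcent (hmem χ hχ) hx⟩)
      (fun χ hχ ξ hξ => by rw [hdeg χ hχ, hdeg ξ hξ])
    have hin : ∀ χ : {χ : Cfsg.IrrCharacter (Subgroup.normalizer (K : Set G)) //
        ∃ k : Subgroup.normalizer (K : Set G), (k : G) ∈ K ∧
          (χ : ↥(Subgroup.normalizer (K : Set G)) → ℂ) k ≠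
          (χ : ↥(Subgroup.normalizer (K : Set G)) → ℂ) 1},
        (χ.1.1 : ↥(Subgroup.normalizer (K : Set G)) → ℂ) ∈ 𝒮 := by
      intro χ
      rw [h𝒮, Finset.mem_filter, Coherence.mem_irrFin]
      exact ⟨χ.1.2, χ.2⟩
    refine ⟨(ε : ℂ), fun χ => ⟨μ χ.1.1, hc.irr _ (hin χ)⟩, ?_, ?_, fun χ ξ => ?_⟩
    · rcases hc.sign with h | h <;> simp [h]
    · intro χ ξ h
      exact Subtype.ext (Subtype.ext (hc.inj (hin χ) (hin ξ) (congrArg Subtype.val h)))
    · have h := hc.rel _ (hin χ) _ (hin ξ)
      rw [Coherence.comb, hdeg _ (hin χ), hdeg _ (hin ξ), ← smul_sub, ← smul_sub, indFun_smul,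
        smul_comm (ε : ℂ)] at h
      exact smul_right_injective (G → ℂ)
        (Nat.cast_ne_zero.mpr Subgroup.index_ne_zero_of_finite) h

end Cfsg.Agent.S0851
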