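import Cfsg.Statements.S0852
import Cfsg.Agent.Lib.Characters.Exceptional
import Cfsg.Agent.Lib.Characters.Induction

set_option autoImplicit false
open Cfsg

namespace Cfsg.Agent.S0852

open Cfsg Cfsg.Lib.Characters
open scoped ComplexConjugate

/-- Let K be a subgroup of the finite group G that meets each conjugate by an element outside its normalizer N trivially, is properly contained in N, and contains the centralizer of each of its non-identity elements (a T.I. subgroup with Frobenius normalizer). Let S be the set of irreducible characters of N taking at some element of K a value different from their degree, suppose S has at least two members, and let star be a linear isometry on the integer span of S into the generalized characters of G that agrees with induction on the members vanishing at the identity (so S is coherent, with star as the extending isometry). Then an irreducible character ψ of G is of the form star χ or -star χ for some χ in S if and only if ψ is not constant on the non-identity elements of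 K. -/
theorem result {G : Type*} [Group G] [Fintype G] (K : Subgroup G) (hTI : ∀ g : G, g ∉ Subgroup.normalizer (K : Set G) → ∀ k ∈ K, g * k * g⁻¹ ∈ K → k = 1) (hlt : K < Subgroup.normalizer (K : Set G)) (hC : ∀ k ∈ K, k ≠ 1 → Subgroup.centralizer ({k} : Set G) ≤ K) [Fintype ↥(Subgroup.normalizer (K : Set G))] (S : Set (↥(Subgroup.normalizer (K : Set G)) → ℂ)) (hS : S = {χ : ↥(Subgroup.normalizer (K : Set G)) → ℂ | Cfsg.IsIrrCharacter ↥(Subgroup.normalizer (K : Set G)) χ ∧ ∃ k : ↥(Subgroup.normalizer (K : Set G)), (k : G) ∈ K ∧ χ k ≠ χ 1}) (htwo : ∃ χ ∈ S, ∃ ξ ∈ S, χ ≠ ξ) (star : (↥(Subgroup.normalizer (K : Set G)) → ℂ) → (G → ℂ)) (hstar : Cfsg.IsLinearIsometryOn (Cfsg.zspan S) star) (hext : ∀ α ∈ Cfsg.zspanOn S ({1}ᶜ : Set ↥(Subgroup.normalizer (K : Set G))), star α = Cfsg.indFun (Subgroup.normalizer (K : Set G)) α) (ψ : G → ℂ) (hψ : Cfsg.IsIrrCharacter G ψ) : (∃ χ ∈ S, ψ = star χ ∨ ψ = -star χ) ↔ ∃ a ∈ K, ∃ b ∈ K, a ≠ 1 ∧ b ≠ 1 ∧ ψ a ≠ ψ b := by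
  classical
  set H := K.subgroupOf (Subgroup.normalizer (K : Set G)) with hH
  haveI : H.Normal := Subgroup.normal_in_normalizer
  haveI : Fintype H := Fintype.ofFinite H
  have hS' : ∀ χ, χ ∈ S ↔ Exceptional.IsExc H χ := fun χ => by rw [hS]; rfl
  obtain ⟨hlin, hshift, hcent⟩ := Exceptional.setup K hTI hC hS' hstar hext
  have hgen : ∀ χ ∈ S, IsGeneralizedCharacter G (star χ) := fun χ hχ =>
    hstar.2.2.2 χ (Submodule.subset_span hχ)
  have hprop : ∀ {ψ : G → ℂ}, IsClassFunction G ψ → ∀ χ ∈ S, ∀ ξ ∈ S,
      χ 1 * classInner ψ (star ξ) - ξ 1 * classInner ψ (star χ) =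
      χ 1 * classInner (fun x : (Subgroup.normalizer (K : Set G)) => ψ x) ξ - ξ 1 * classInner (fun x : (Subgroup.normalizer (K : Set G)) => ψ x) χ :=
    fun {ψ} hψ' χ hχ ξ hξ => Exceptional.inner_image K hlin hψ' hχ hξ
      ((hS' χ).mp hχ).1.isCharacter ((hS' ξ).mp hξ).1.isCharacter
  obtain ⟨χ₀, hχ₀, χ₀', hχ₀', hne₀⟩ := htwo
  constructor
  · rintro ⟨χ, hχ, hψχ⟩
    obtain ⟨ξ, hξ, hne⟩ : ∃ ξ ∈ S, χ ≠ ξ := by
      by_cases h : χ = χ₀
      · exact ⟨χ₀', hχ₀', h ▸ hne₀⟩
      · exact ⟨χ₀, hχ₀, h⟩
    -- the shift is constant on the kernel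
    have hfc : IsClassFunction (Subgroup.normalizer (K : Set G)) (fun x : (Subgroup.normalizer (K : Set G)) => star χ x - χ x) := by
      intro x y
      have h1 : star χ (((y * x * y⁻¹ : (Subgroup.normalizer (K : Set G))) : G)) = star χ (x : G) := by
        simpa using isGeneralized_isClassFunction (hgen χ hχ) (x : G) (y : G)
      simp only [h1, ((hS' χ).mp hχ).1.isClassFunction x y]
    have hshiftc : ∀ x ∈ H, ∀ y ∈ H, x ≠ 1 → y ≠ 1 → star χ (x : G) - χ x = star χ (y : G) - χ y := by
      intro x hx y hy hx1 hy1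
      refine Exceptional.const_of_proportional hcent hfc ((hS' χ).mp hχ) (fun ζ hζ => ?_) hx hy hx1 hy1
      have hζS := (hS' ζ).mpr hζ
      have h2 := hprop (ψ := star χ) (isGeneralized_isClassFunction (hgen χ hχ)) χ hχ ζ hζS
      rw [hstar.2.2.1 χ (Submodule.subset_span hχ) ζ (Submodule.subset_span hζS),
        hstar.2.2.1 χ (Submodule.subset_span hχ) χ (Submodule.subset_span hχ)] at h2
      have e : ∀ φ : (Subgroup.normalizer (K : Set G)) → ℂ, classInner (fun x : (Subgroup.normalizer (K : Set G)) => star χ x - χ x) φ =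
          classInner (fun x : (Subgroup.normalizer (K : Set G)) => star χ x) φ - classInner χ φ := fun φ =>
        classInner_sub_left (fun x : (Subgroup.normalizer (K : Set G)) => star χ x) χ φ
      rw [e, e]
      linear_combination -h2
    obtain ⟨a, ha, b, hb, ha1, hb1, hab⟩ :=
      Exceptional.not_const hcent ((hS' χ).mp hχ) ((hS' ξ).mp hξ) hne
    refine ⟨a, ha, b, hb, fun h => ha1 (Subtype.ext h), fun h => hb1 (Subtype.ext h), fun heq => hab ?_⟩
    have h3 := hshiftc a ha b hb ha1 hb1
    rcases hψχ with rfl | rfl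
    · linear_combination heq - h3
    · simp only [Pi.neg_apply, neg_inj] at heq
      linear_combination heq - h3
  · rintro ⟨a, ha, b, hb, ha1, hb1, hab⟩
    by_contra hcon
    push Not at hcon
    have hzero : ∀ χ ∈ S, classInner ψ (star χ) = 0 := by
      intro χ hχ
      rcases isGeneralized_norm_one (hgen χ hχ) (by
        rw [hstar.2.2.1 χ (Submodule.subset_span hχ) χ (Submodule.subset_span hχ)]
        exact classInner_irr_self ((hS' χ).mp hχ).1) with h | h
      · exact classInner_irr_ne hψ h (hcon χ hχ).1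
      · have h2 := classInner_irr_ne hψ h (hcon χ hχ).2
        rwa [classInner_neg_right, neg_eq_zero] at h2
    have haN : a ∈ (Subgroup.normalizer (K : Set G)) := Subgroup.le_normalizer ha
    have hbN : b ∈ (Subgroup.normalizer (K : Set G)) := Subgroup.le_normalizer hb
    refine hab (Exceptional.const_of_proportional hcent (f := fun x : (Subgroup.normalizer (K : Set G)) => ψ x) ?_ ((hS' χ₀).mp hχ₀)
      (fun ζ hζ => ?_) (a := ⟨a, haN⟩) (b := ⟨b, hbN⟩) ha hb ?_ ?_)
    · intro x y
      simpa using hψ.isClassFunction (x : G) (y : G)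
    · have hζS := (hS' ζ).mpr hζ
      have h2 := hprop (ψ := ψ) hψ.isClassFunction χ₀ hχ₀ ζ hζS
      rw [hzero ζ hζS, hzero χ₀ hχ₀] at h2
      linear_combination -h2
    · exact fun h => ha1 (congrArg Subtype.val h)
    · exact fun h => hb1 (congrArg Subtype.val h)

end Cfsg.Agent.S0852
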