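import Cfsg.Statements.S0853
import Cfsg.Agent.Lib.Characters.Exceptional
import Cfsg.Agent.Lib.Characters.Induction

set_option autoImplicit false
open Cfsg

namespace Cfsg.Agent.S0853

open Cfsg Cfsg.Lib.Characters
open scoped ComplexConjugate

/-- Let K be a subgroup of the finite group G that meets each conjugate by an element outside its normalizer N trivially, is properly contained in N, and contains the centralizer of each of its non-identity elements (a T.I. subgroup with Frobenius normalizer). Let S be the set of irreducible characters of N taking at some element of K a value different from their degree, suppose S has at least two members, and let star be a linear isometry on the integer span of S into the generalized characters of G that agrees with induction on the members vanishing at the identity (so S is coherent, with star as the extending isometry). Then there is a single integer m such that star χ k - χ k = m * χ 1 / e for every χ in S and every non-identity element k of K, where e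 is the index of K in N. -/
theorem result {G : Type*} [Group G] [Fintype G] (K : Subgroup G) (hTI : ∀ g : G, g ∉ Subgroup.normalizer (K : Set G) → ∀ k ∈ K, g * k * g⁻¹ ∈ K → k = 1) (hlt : K < Subgroup.normalizer (K : Set G)) (hC : ∀ k ∈ K, k ≠ 1 → Subgroup.centralizer ({k} : Set G) ≤ K) [Fintype ↥(Subgroup.normalizer (K : Set G))] (S : Set (↥(Subgroup.normalizer (K : Set G)) → ℂ)) (hS : S = {χ : ↥(Subgroup.normalizer (K : Set G)) → ℂ | Cfsg.IsIrrCharacter ↥(Subgroup.normalizer (K : Set G)) χ ∧ ∃ k : ↥(Subgroup.normalizer (K : Set G)), (k : G) ∈ K ∧ χ k ≠ χ 1}) (htwo : ∃ χ ∈ S, ∃ ξ ∈ S, χ ≠ ξ) (star : (↥(Subgroup.normalizer (K : Set G)) → ℂ) → (G → ℂ)) (hstar : Cfsg.IsLinearIsometryOn (Cfsg.zspan S) star) (hext : ∀ α ∈ Cfsg.zspanOn S ({1}ᶜ : Set ↥(Subgroup.normalizer (K : Set G))), star α = Cfsg.indFun (Subgroup.normalizer (K : Set G)) α) : ∃ m : ℤ, ∀ χ ∈ S, ∀ k : ↥(Subgroup.normalizer (K : Set G)), (k : G) ∈ K → k ≠ 1 → star χ k - χ k = (m : ℂ) * χ 1 / ((K.subgroupOf (Subgroup.normalizer (K : Set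 G))).index : ℂ) := by
  classical
  set H := K.subgroupOf (Subgroup.normalizer (K : Set G)) with hH
  haveI : H.Normal := Subgroup.normal_in_normalizer
  haveI : Fintype H := Fintype.ofFinite H
  have hS' : ∀ χ, χ ∈ S ↔ Exceptional.IsExc H χ := fun χ => by rw [hS]; rfl
  obtain ⟨hlin, hshift, hcent⟩ := Exceptional.setup K hTI hC hS' hstar hext
  have hgen : ∀ χ ∈ S, IsGeneralizedCharacter G (star χ) := fun χ hχ =>
    hstar.2.2.2 χ (Submodule.subset_span hχ)
  have hprop : ∀ {ψ : G → ℂ}, IsClassFunction G ψ → ∀ χ ∈ S, ∀ ξ ∈ S,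
      χ 1 * classInner ψ (star ξ) - ξ 1 * classInner ψ (star χ) =
      χ 1 * classInner (fun x : (Subgroup.normalizer (K : Set G)) => ψ x) ξ - ξ 1 * classInner (fun x : (Subgroup.normalizer (K : Set G)) => ψ x) χ :=
    fun {ψ} hψ' χ hχ ξ hξ => Exceptional.inner_image K hlin hψ' hχ hξ
      ((hS' χ).mp hχ).1.isCharacter ((hS' ξ).mp hξ).1.isCharacter
  obtain ⟨χ₀, hχ₀, χ₀', hχ₀', hne₀⟩ := htwo
  -- the shift is constant on the kernel
  have hshiftc : ∀ χ ∈ S, ∀ x ∈ H, ∀ y ∈ H, x ≠ 1 → y ≠ 1 →
      star χ (x : G) - χ x = star χ (y : G) - χ y := by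
    intro χ hχ x hx y hy hx1 hy1
    have hfc : IsClassFunction (Subgroup.normalizer (K : Set G)) (fun x : (Subgroup.normalizer (K : Set G)) => star χ x - χ x) := by
      intro x y
      have h1 : star χ (((y * x * y⁻¹ : (Subgroup.normalizer (K : Set G))) : G)) = star χ (x : G) := by
        simpa using isGeneralized_isClassFunction (hgen χ hχ) (x : G) (y : G)
      simp only [h1, ((hS' χ).mp hχ).1.isClassFunction x y]
    refine Exceptional.const_of_proportional hcent hfc ((hS' χ).mp hχ) (fun ζ hζ => ?_) hx hy hx1 hy1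
    have hζS := (hS' ζ).mpr hζ
    have h2 := hprop (ψ := star χ) (isGeneralized_isClassFunction (hgen χ hχ)) χ hχ ζ hζS
    rw [hstar.2.2.1 χ (Submodule.subset_span hχ) ζ (Submodule.subset_span hζS),
      hstar.2.2.1 χ (Submodule.subset_span hχ) χ (Submodule.subset_span hχ)] at h2
    have e : ∀ φ : (Subgroup.normalizer (K : Set G)) → ℂ, classInner (fun x : (Subgroup.normalizer (K : Set G)) => star χ x - χ x) φ =
        classInner (fun x : (Subgroup.normalizer (K : Set G)) => star χ x) φ - classInner χ φ := fun φ =>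
      classInner_sub_left (fun x : (Subgroup.normalizer (K : Set G)) => star χ x) χ φ
    rw [e, e]
    linear_combination -h2
  obtain ⟨k₀, hk₀, hk₀1⟩ : ∃ k ∈ H, k ≠ 1 := by
    obtain ⟨k, hk, hk'⟩ := ((hS' χ₀).mp hχ₀).2
    exact ⟨k, hk, fun h => hk' (by rw [h])⟩
  set r := (star χ₀ (k₀ : G) - χ₀ k₀) / χ₀ 1 with hr
  have hall : ∀ χ ∈ S, ∀ k ∈ H, k ≠ 1 → star χ (k : G) - χ k = χ 1 * r := by
    intro χ hχ k hk hk1
    rw [hshiftc χ hχ k hk k₀ hk₀ hk1 hk₀1, hr, mul_div, eq_div_iff ((hS' χ₀).mp hχ₀).1.one_ne_zero]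
    linear_combination hshift χ hχ χ₀ hχ₀ k₀ hk₀ hk₀1
  -- the multiples of `index * r` that are integers
  let A : AddSubgroup ℤ :=
    { carrier := {n | ∃ z : ℤ, (H.index : ℂ) * r * n = z}
      zero_mem' := ⟨0, by simp⟩
      add_mem' := by
        rintro x y ⟨z, hz⟩ ⟨w, hw⟩
        exact ⟨z + w, by push_cast; linear_combination hz + hw⟩
      neg_mem' := by
        rintro x ⟨z, hz⟩
        exact ⟨-z, by push_cast; linear_combination -hz⟩ }
  haveI : Nontrivial H := ⟨⟨k₀, hk₀⟩, 1, fun h => hk₀1 (congrArg Subtype.val h)⟩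
  have hdeg : ∀ (θ : H → ℂ), IsIrrCharacter H θ → θ ≠ (fun _ => 1) → ∀ d : ℕ, θ 1 = d →
      (d : ℤ) ∈ A := by
    intro θ hθ hne d hd
    have hexc := Exceptional.isExc_indFun hcent hθ hne
    set χ := indFun H θ
    have hχ : χ ∈ S := (hS' χ).mpr hexc
    have hgenH : IsGeneralizedCharacter H
        (fun x : H => star χ ((x : (Subgroup.normalizer (K : Set G))) : G) - χ (x : (Subgroup.normalizer (K : Set G)))) :=
      isGeneralized_sub (isGeneralized_comp (hgen χ hχ) ((Subgroup.subtype (Subgroup.normalizer (K : Set G))).comp H.subtype))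
        (isGeneralized_of_isCharacter (isCharacter_restrict hexc.1.isCharacter H))
    set F : H → ℂ := fun x => star χ ((x : (Subgroup.normalizer (K : Set G))) : G) - χ (x : (Subgroup.normalizer (K : Set G))) with hF
    set v := χ 1 * r with hv
    have hFv : F = fun x : H => v * 1 + (F 1 - v) * (if x = 1 then (1 : ℂ) else 0) := by
      funext x
      by_cases hx : x = 1
      · rw [hx, if_pos rfl]; ring
      · rw [if_neg hx, hv, ← hall χ hχ x x.2 (fun h => hx (Subtype.ext h))]; ring
    -- the value off the identity is an integer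
    have hin : ∀ φ : H → ℂ, IsIrrCharacter H φ → classInner F φ =
        v * classInner (fun _ : H => (1 : ℂ)) φ + (F 1 - v) * (Nat.card H : ℂ)⁻¹ * φ 1 := by
      intro φ hφ
      have h1 := congrArg (fun f => classInner f φ) hFv
      simp only [classInner, add_mul, Finset.sum_add_distrib, mul_add] at h1 ⊢
      rw [h1]
      congr 1
      · rw [Finset.mul_sum, Finset.mul_sum, Finset.mul_sum]
        exact Finset.sum_congr rfl fun n _ => by ring
      · rw [Finset.sum_eq_single (1 : H) (fun n _ hn => by rw [if_neg hn]; ring) (by simp), if_pos rfl,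
          conj_char_one hφ.isCharacter]
        ring
    obtain ⟨i, hi⟩ := classInner_int hgenH (isGeneralized_of_isCharacter isCharacter_one)
    obtain ⟨j, hj⟩ := classInner_int hgenH (isGeneralized_of_isCharacter hθ.isCharacter)
    rw [hin _ isIrrCharacter_one, classInner_irr_self isIrrCharacter_one] at hi
    rw [hin _ hθ, classInner_irr_ne isIrrCharacter_one hθ (Ne.symm hne), hd] at hj
    -- a rational algebraic integer
    have hint : IsIntegral ℤ v := by
      have hne' : ∀ x : H, x ≠ 1 → F x = v := fun x hx => by rw [hFv]; simp [hx]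
      obtain ⟨x, hx⟩ := exists_ne (1 : H)
      rw [← hne' x hx]
      obtain ⟨a, b, ha, hb, hab⟩ := hgenH
      rw [show F x = a x - b x from congrFun hab x]
      exact (char_isIntegral ha x).sub (char_isIntegral hb x)
    have hd0 : (d : ℂ) ≠ 0 := by rw [← hd]; exact hθ.one_ne_zero
    have hrat : ((((i : ℚ) - (j : ℚ) / (d : ℚ)) : ℚ) : ℂ) = v := by
      have hq : (d : ℂ) ≠ 0 := hd0
      push_cast
      field_simp
      linear_combination (norm := ring_nf) (d : ℂ) * (hi.symm) - hj.symm
    obtain ⟨z, hz⟩ := exists_int_of_isIntegral (hrat ▸ hint)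
    refine ⟨z, ?_⟩
    rw [hrat] at hz
    rw [← hz, hv, show χ 1 = _ from indFun_one_apply H θ, hd]
    push_cast
    ring
  have hmem1 : (1 : ℤ) ∈ A := by
    have hsum : ((Nat.card H : ℤ) - 1) ∈ A := by
      choose dg hdg using fun φ : IrrCharacter H => exists_degree φ.2.isCharacter
      have h1 : ((Nat.card H : ℤ) - 1) = ∑ φ ∈ Finset.univ.erase
          (⟨fun _ => 1, isIrrCharacter_one⟩ : IrrCharacter H), (dg φ : ℤ) * (dg φ : ℤ) := by
        have h2 := sum_sq_degree (G := H)
        rw [← Finset.add_sum_erase _ _ (Finset.mem_univ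
          (⟨fun _ => 1, isIrrCharacter_one⟩ : IrrCharacter H))] at h2
        have h3 : (((Nat.card H : ℤ) - 1 : ℤ) : ℂ) = ((∑ φ ∈ Finset.univ.erase
            (⟨fun _ => 1, isIrrCharacter_one⟩ : IrrCharacter H), (dg φ : ℤ) * (dg φ : ℤ) : ℤ) : ℂ) := by
          push_cast
          simp only [hdg, ← sq] at h2 ⊢
          linear_combination -h2
        exact_mod_cast h3
      rw [h1]
      refine A.sum_mem fun φ hφ => ?_
      rw [← smul_eq_mul]
      refine A.zsmul_mem (hdeg φ.1 φ.2 (fun h => (Finset.mem_erase.mp hφ).1 (Subtype.ext h)) _ (hdg φ)) _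
    obtain ⟨θ, hθ, hne, hind⟩ := Exceptional.exists_ind hcent ((hS' χ₀).mp hχ₀)
    obtain ⟨d, hd⟩ := exists_degree hθ.isCharacter
    obtain ⟨q, hq⟩ := degree_dvd_card hθ hd
    have hcard : (Nat.card H : ℤ) ∈ A := by
      rw [hq, Nat.cast_mul, mul_comm, ← smul_eq_mul]
      exact A.zsmul_mem (hdeg θ hθ hne d hd) _
    simpa using A.sub_mem hcard hsum
  obtain ⟨m, hm⟩ := hmem1
  refine ⟨m, fun χ hχ k hk hk1 => ?_⟩
  rw [hall χ hχ k hk hk1]
  have hidx : (H.index : ℂ) ≠ 0 := Nat.cast_ne_zero.mpr Subgroup.index_ne_zero_of_finite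
  rw [eq_div_iff hidx]
  simp only [Int.cast_one, mul_one] at hm
  linear_combination χ 1 * hm

end Cfsg.Agent.S0853
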