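import Cfsg.Statements.S0855
import Cfsg.Agent.Lib.Characters.Thompson
import Cfsg.Agent.Lib.Characters.Degree

set_option autoImplicit false
open Cfsg

namespace Cfsg.Agent.S0855

open Cfsg Cfsg.Lib.Characters
open scoped ComplexConjugate

/-- For a finite group G and a prime p: every irreducible character of G has degree a power of p if and only if G has an abelian normal subgroup whose order is prime to p and whose index is a power of p. -/
theorem result {G : Type*} [Group G] [Finite G] (p : ℕ) (hp : p.Prime) : (∀ χ : Cfsg.IrrCharacter G, ∃ k : ℕ, (χ : G → ℂ) 1 = (p : ℂ) ^ k) ↔ ∃ A : Subgroup G, A.Normal ∧ (∀ a ∈ A, ∀ b ∈ A, a * b = b * a) ∧ Nat.Coprime (Nat.card A) p ∧ ∃ k : ℕ, A.index = p ^ k := by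
  classical
  haveI := Fintype.ofFinite G
  constructor
  · intro h
    obtain ⟨N, hN, hcop, k, hk⟩ := normal_complement_of_degrees hp fun χ hχ d hd hd1 => by
      obtain ⟨j, hj⟩ := h ⟨χ, hχ⟩
      have hdj : d = p ^ j := by exact_mod_cast hd.symm.trans hj
      rw [hdj] at hd1 ⊢
      exact dvd_pow_self p fun h0 => hd1 (by rw [h0, pow_zero])
    haveI := hN
    haveI := Fintype.ofFinite N
    refine ⟨N, hN, fun a ha b hb => ?_, hcop, k, hk⟩
    refine congrArg Subtype.val (comm_of_linear (N := N) (fun θ => ?_) ⟨a, ha⟩ ⟨b, hb⟩)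
    obtain ⟨d, hd0, hd⟩ := θ.2.exists_degree_pos
    have hind1 : indFun N θ.1 1 ≠ 0 := by
      rw [indFun_one_apply]
      exact mul_ne_zero (Nat.cast_ne_zero.mpr Subgroup.index_ne_zero_of_finite) θ.2.one_ne_zero
    obtain ⟨χ, hχ, hne⟩ := exists_constituent (isCharacter_indFun N θ.2.isCharacter) hind1
    rw [classInner_indFun N _ hχ.isClassFunction] at hne
    have hne' : classInner (fun n : N => χ n) θ.1 ≠ 0 := by
      rw [← conj_classInner]
      simpa using hne
    obtain ⟨j, hj⟩ := h ⟨χ, hχ⟩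
    have hj' : χ 1 = ((p ^ j : ℕ) : ℂ) := by simpa using hj
    obtain ⟨hdvd, -⟩ := degree_dvd_of_normal θ.2 hχ hne' hj' hd
    have hdN : d ∣ Nat.card N := (degree_dvd_center_index θ.2 hd).trans
      (Subgroup.index_dvd_card _)
    rw [hd, Nat.eq_one_of_dvd_coprimes (hcop.symm.pow_left j) hdvd hdN, Nat.cast_one]
  · rintro ⟨A, hA, hcomm, -, k, hk⟩ χ
    haveI := hA
    haveI : IsMulCommutative A := ⟨⟨fun a b => Subtype.ext (hcomm a a.2 b b.2)⟩⟩
    obtain ⟨d, hd⟩ := exists_degree χ.2.isCharacter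
    obtain ⟨j, -, rfl⟩ := (Nat.dvd_prime_pow hp).mp
      (hk ▸ degree_dvd_index_of_abelian χ.2 A hd)
    exact ⟨j, by rw [hd, Nat.cast_pow]⟩

end Cfsg.Agent.S0855
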