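import Cfsg.Statements.S0857
import Cfsg.Agent.Lib.Characters.AbelianInertia

set_option autoImplicit false
open Cfsg

namespace Cfsg.Agent.S0857

open Cfsg Cfsg.Lib.Characters
open scoped ComplexConjugate

section

variable {G : Type*} [Group G] {K L : Subgroup G} [hK : K.Normal] [hL : L.Normal]

omit hL in
theorem eq_or_top_of_invariant [L.Normal] (hLK : L < K)
    (hchief : ∀ M : Subgroup G, M.Normal → L ≤ M → M ≤ K → M = L ∨ M = K) (T : Subgroup K)
    (hT : L.subgroupOf K ≤ T)
    (hinv : ∀ (g : G) (k : K), k ∈ T → (⟨g * k * g⁻¹, hK.conj_mem (k : G) k.2 g⟩ : K) ∈ T) :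
    T = L.subgroupOf K ∨ T = ⊤ := by
  have hn : (T.map K.subtype).Normal := ⟨fun n hn g => by
    obtain ⟨k, hk, rfl⟩ := hn
    exact ⟨_, hinv g k hk, rfl⟩⟩
  have h1 : L ≤ T.map K.subtype := fun x hx => ⟨⟨x, hLK.le hx⟩, hT hx, rfl⟩
  rcases hchief _ hn h1 (Subgroup.map_subtype_le T) with h | h
  · left
    ext k
    rw [Subgroup.mem_subgroupOf, ← h]
    exact (Subgroup.mem_map_iff_mem K.subtype_injective).symm
  · right
    refine (Subgroup.eq_top_iff' T).mpr fun k => ?_
    have hk : (k : G) ∈ T.map K.subtype := by rw [h]; exact k.2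
    exact (Subgroup.mem_map_iff_mem K.subtype_injective).mp hk

variable [Fintype G]

/-- The norm of the restriction is one when no non-trivial linear character fixes `θ`. -/
theorem res_norm_one {K : Type*} [Group K] [Fintype K] (H : Subgroup K) [H.Normal] [Fintype H]
    (hab : ∀ x y : K, x * y * x⁻¹ * y⁻¹ ∈ H) {θ : K → ℂ} (hθ : IsIrrCharacter K θ)
    (hfix : ∀ l : K →* ℂˣ, (∀ n : H, l n = 1) → (fun k => (l k : ℂ) * θ k) = θ → l = 1) :
    classInner (fun n : H => θ n) (fun n : H => θ n) = 1 := by
  classical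
  rw [← classInner_indFun H _ hθ.isClassFunction]
  have hmul : indFun H (fun n : H => θ n) = indFun H (fun _ => (1 : ℂ)) * θ := by
    rw [indFun_mul H _ hθ.isClassFunction]; simp
  rw [hmul]
  obtain ⟨m, hm⟩ := exists_decomposition (isCharacter_indFun H isCharacter_one)
  have hcoef : ∀ β : IrrCharacter K, classInner (indFun H fun _ => (1 : ℂ)) β = m β := fun β => by
    rw [hm]; exact classInner_sum_irr (fun φ => (m φ : ℂ)) β
  rw [hm, Finset.sum_mul, classInner_sum_left,
    Finset.sum_eq_single (⟨fun _ => 1, isIrrCharacter_one⟩ : IrrCharacter K)]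
  · rw [smul_mul_assoc, classInner_smul_left, ← hcoef]
    rw [classInner_indFun H _ isIrrCharacter_one.isClassFunction,
      show ((fun _ => (1 : ℂ)) * θ : K → ℂ) = θ from funext fun k => one_mul _,
      classInner_irr_self hθ, mul_one]
    exact classInner_irr_self isIrrCharacter_one
  · intro β _ hne
    rw [smul_mul_assoc, classInner_smul_left]
    by_cases h0 : (m β : ℂ) = 0
    · rw [h0, zero_mul]
    have hβ1 : (β : K → ℂ) 1 = 1 :=
      linear_of_constituent_abelian hab β.2 (by rw [hcoef]; exact h0)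
    rw [classInner_irr_ne (isIrrCharacter_mul_linear hθ β.2.isCharacter hβ1) hθ, mul_zero]
    intro heq
    obtain ⟨l, hl⟩ := exists_hom_of_degree_one β.2.isCharacter hβ1
    have hlH : ∀ n : H, l n = 1 := fun n => by
      rw [← hcoef, classInner_indFun H _ β.2.isClassFunction] at h0
      by_contra hn
      refine h0 (classInner_irr_ne isIrrCharacter_one ?_ fun h1 => hn ?_)
      · rw [hl]; exact isIrrCharacter_linear (l.comp H.subtype)
      · have h2 := congrFun h1 n
        rw [hl] at h2
        exact Units.val_eq_one.mp h2.symm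
    have hl1 := hfix l hlH (by rw [hl] at heq; exact heq)
    exact hne (Subtype.ext (by rw [hl, hl1]; simp))
  · simp

/-- The norm of the restriction of a character vanishing outside the subgroup. -/
theorem res_norm_index {K : Type*} [Group K] [Fintype K] (H : Subgroup K) [Fintype H]
    {θ : K → ℂ} (hθ : IsIrrCharacter K θ) (hvan : ∀ k, k ∉ H → θ k = 0) :
    classInner (fun n : H => θ n) (fun n : H => θ n) = H.index := by
  classical
  have h1 := classInner_irr_self hθ
  rw [classInner] at h1 ⊢
  have hsum : ∑ n : H, θ n * conj (θ n) = ∑ k : K, θ k * conj (θ k) := by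
    rw [← Finset.sum_filter_of_ne (p := fun k => k ∈ H)
      (f := fun k : K => θ k * conj (θ k)) (fun k _ hk => by
        by_contra h; exact hk (by rw [hvan k h, zero_mul]))]
    exact (Finset.sum_subtype _ (by simp) (fun k : K => θ k * conj (θ k))).symm
  rw [hsum]
  have hcard : (Nat.card H : ℂ) * (H.index : ℂ) = Nat.card K := by
    rw [← Nat.cast_mul, H.card_mul_index]
  have hH : (Nat.card H : ℂ) ≠ 0 := Nat.cast_ne_zero.mpr Nat.card_pos.ne'
  have hKc : (Nat.card K : ℂ) ≠ 0 := Nat.cast_ne_zero.mpr Nat.card_pos.ne'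
  field_simp at h1 ⊢
  linear_combination h1 - hcard

end


/-- Let L < K be normal subgroups of the finite group G with no normal subgroup of G strictly between them and with K / L abelian (the commutator subgroup of K lies in L). Let ϑ be an irreducible character of K invariant under conjugation by G. Then the restriction of ϑ to L is irreducible; or it equals e times an irreducible character of L with e ^ 2 equal to the index of L in K; or it is the sum of a family of pairwise distinct irreducible characters of L indexed by a set whose size is the index of L in K. -/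
theorem result {G : Type*} [Group G] [Fintype G] (K L : Subgroup G) [hK : K.Normal] [L.Normal] (hLK : L < K) (hchief : ∀ M : Subgroup G, M.Normal → L ≤ M → M ≤ K → M = L ∨ M = K) (hab : ⁅K, K⁆ ≤ L) (ϑ : K → ℂ) (hϑ : Cfsg.IsIrrCharacter K ϑ) (hinv : ∀ (g : G) (n : K), ϑ ⟨g * n * g⁻¹, hK.conj_mem (n : G) n.2 g⟩ = ϑ n) : Cfsg.IsIrrCharacter L (fun x : L => ϑ ⟨(x : G), hLK.le x.2⟩) ∨ (∃ (φ : L → ℂ) (e : ℕ), Cfsg.IsIrrCharacter L φ ∧ (fun x : L => ϑ ⟨(x : G), hLK.le x.2⟩) = (e : ℂ) • φ ∧ e ^ 2 = L.relIndex K) ∨ (∃ F : Finset (L → ℂ), (∀ φ ∈ F, Cfsg.IsIrrCharacter L φ) ∧ F.card = L.relIndex K ∧ (fun x : L => ϑ ⟨(x : G), hLK.le x.2⟩) = ∑ φ ∈ F, φ) := by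
  classical
  haveI : Fintype K := Fintype.ofFinite K
  haveI : Fintype L := Fintype.ofFinite L
  set H := L.subgroupOf K with hHdef
  haveI : Fintype H := Fintype.ofFinite H
  set f : H → ℂ := fun n => ϑ n with hf
  have hfc : IsCharacter H f := isCharacter_restrict hϑ.isCharacter H
  have habK : ∀ x y : K, x * y * x⁻¹ * y⁻¹ ∈ H := fun x y =>
    Subgroup.mem_subgroupOf.mpr (hab (Subgroup.commutator_mem_commutator x.2 y.2))
  set e₀ : H ≃* L := Subgroup.subgroupOfEquivOfLe hLK.le with he₀
  have htrans : ∀ φ : H → ℂ, IsIrrCharacter H φ → IsIrrCharacter L fun x : L => φ (e₀.symm x) :=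
    fun φ hφ => isIrrCharacter_mulEquiv hφ e₀.symm
  have hres : (fun x : L => ϑ ⟨(x : G), hLK.le x.2⟩) = fun x : L => f (e₀.symm x) := rfl
  rw [hres]
  -- the subgroup on which all fixing linear characters are trivial
  let U : Subgroup K :=
    { carrier := {k | ∀ l : K →* ℂˣ, (∀ n : H, l n = 1) →
        (fun x => (l x : ℂ) * ϑ x) = ϑ → l k = 1}
      one_mem' := fun l _ _ => map_one l
      mul_mem' := fun {a b} ha hb l h1 h2 => by rw [map_mul, ha l h1 h2, hb l h1 h2, mul_one]
      inv_mem' := fun {a} ha l h1 h2 => by rw [map_inv, ha l h1 h2, inv_one] }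
  have hHU : H ≤ U := fun k hk l h1 _ => h1 ⟨k, hk⟩
  have hUinv : ∀ (g : G) (k : K), k ∈ U →
      (⟨g * k * g⁻¹, hK.conj_mem (k : G) k.2 g⟩ : K) ∈ U := by
    intro g k hk l h1 h2
    refine hk (l.comp (MulAut.conjNormal g : MulAut K).toMonoidHom) (fun n => ?_) ?_
    · exact h1 ⟨MulAut.conjNormal g (n : K), Subgroup.Normal.conj_mem inferInstance ((n : K) : G) n.2 g⟩
    · funext x
      have h3 := congrFun h2 (MulAut.conjNormal g x)
      have h4 : ϑ (MulAut.conjNormal g x) = ϑ x := hinv g x
      rw [h4] at h3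
      exact h3
  rcases eq_or_top_of_invariant hLK hchief U hHU hUinv with hU | hU
  swap
  · left
    apply htrans
    refine isIrrCharacter_iff.mpr ⟨hfc, res_norm_one H habK hϑ fun l hlH hl => ?_⟩
    ext k
    have hk : k ∈ U := by rw [hU]; trivial
    simpa using congrArg (Units.val) (hk l hlH hl)
  have hnorm : classInner f f = H.index := by
    refine res_norm_index H hϑ fun k hk => ?_
    have hkU : k ∉ U := by rw [hU]; exact hk
    simp only [U, Subgroup.mem_mk, Submonoid.mem_mk, Subsemigroup.mem_mk, Set.mem_ofPred_eq,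
      not_forall] at hkU
    obtain ⟨l, -, h2, hne⟩ := hkU
    have h3 := congrFun h2 k
    have hne' : (l k : ℂ) ≠ 1 := fun h => hne (Units.val_eq_one.mp h)
    have h0 : ((l k : ℂ) - 1) * ϑ k = 0 := by simpa [sub_mul, sub_eq_zero] using h3
    exact (mul_eq_zero.mp h0).resolve_left (sub_ne_zero.mpr hne')
  obtain ⟨φ, hφ, hφne⟩ := classInner_res_ne_zero (N := H) hϑ
  obtain ⟨e, he⟩ := classInner_nat hfc hφ.isCharacter
  have hcl := clifford hϑ hφ hφne
  rw [he] at hcl
  set O := orbitFinset H φ with hO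
  have hOirr : ∀ ψ ∈ O, IsIrrCharacter H ψ := fun ψ hψ => by
    obtain ⟨g, rfl⟩ := mem_orbitFinset.mp hψ; exact isIrrCharacter_conjFn hφ g
  have het : e ^ 2 * O.card = H.index := by
    have h1 := hnorm
    rw [show f = (e : ℂ) • ∑ ψ ∈ O, ψ from hcl, classInner_smul_left, classInner_smul_right,
      classInner_sum_left, Finset.sum_congr rfl (g := fun _ => (1 : ℂ)) (fun ψ hψ => by
        rw [classInner_sum_right, Finset.sum_eq_single ψ
          (fun b hb hbne => classInner_irr_ne (hOirr ψ hψ) (hOirr b hb) (Ne.symm hbne))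
          (fun h => (h hψ).elim)]
        exact classInner_irr_self (hOirr ψ hψ))] at h1
    simp only [map_natCast, Finset.sum_const, nsmul_eq_mul, mul_one] at h1
    rw [← @Nat.cast_inj ℂ, ← h1]
    push_cast
    ring
  have hTinv : ∀ (g : G) (k : K), k ∈ inertia H φ →
      (⟨g * k * g⁻¹, hK.conj_mem (k : G) k.2 g⟩ : K) ∈ inertia H φ := by
    intro g k hk
    let eg : H ≃* H := (e₀.trans (MulAut.conjNormal g : MulAut L)).trans e₀.symm
    have hfeg : (fun n => f (eg n)) = f := funext fun n => hinv g (n : K)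
    have hne' : classInner f (fun n => φ (eg n)) ≠ 0 := by
      rw [← hfeg, classInner_comp_equiv eg f φ]; exact hφne
    obtain ⟨x, hx⟩ := exists_conjFn_eq hϑ hφ (isIrrCharacter_mulEquiv hφ eg) hφne hne'
    have hkx : conjFn H (fun n => φ (eg n)) k = fun n => φ (eg n) := by
      rw [hx, conjFn_conjFn]
      have hc : x * k = (x * k * x⁻¹ * k⁻¹) * (k * x) := by group
      rw [hc, conjFn_mul_mem hφ.isClassFunction ⟨_, habK x k⟩, ← conjFn_conjFn,
        mem_inertia.mp hk]
    refine mem_inertia.mpr (funext fun n => ?_)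
    have h := congrFun hkx (eg.symm n)
    simp only [conjFn, MulEquiv.apply_symm_apply] at h
    refine Eq.trans ?_ h
    simp only [conjFn]
    congr 1
    apply Subtype.ext; apply Subtype.ext
    simp [eg, he₀, Subgroup.subgroupOfEquivOfLe, MulAut.conjNormal_apply]
    group
  rcases eq_or_top_of_invariant hLK hchief _ (le_inertia hφ.isClassFunction) hTinv with hT | hT
  · right; right
    have hcard : O.card = H.index := by
      have h := card_stabilizer_mul_card_orbit (N := H) φ
      rw [← card_inertia, hT, ← hO, ← H.card_mul_index] at h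
      exact Nat.eq_of_mul_eq_mul_left Nat.card_pos h
    have he1 : e = 1 := by
      rw [hcard] at het
      have hpos : 0 < H.index := Nat.pos_of_ne_zero Subgroup.index_ne_zero_of_finite
      exact (Nat.pow_eq_one.mp ((Nat.mul_eq_right hpos.ne').mp het)).resolve_right two_ne_zero
    refine ⟨O.image fun ψ (x : L) => ψ (e₀.symm x), fun ψ hψ => ?_, ?_, ?_⟩
    · obtain ⟨ψ', hψ', rfl⟩ := Finset.mem_image.mp hψ; exact htrans _ (hOirr _ hψ')
    · rw [Finset.card_image_of_injective _ (fun a b h => funext fun n => by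
        simpa using congrFun h (e₀ n)), hcard]
      rfl
    · rw [Finset.sum_image fun a _ b _ h => funext fun n => by simpa using congrFun h (e₀ n)]
      funext x
      rw [show f = (e : ℂ) • ∑ ψ ∈ O, ψ from hcl, he1]
      simp [Finset.sum_apply]
  · right; left
    have hO1 : O = {φ} := by
      ext ψ
      rw [hO, mem_orbitFinset, Finset.mem_singleton]
      refine ⟨fun ⟨g, hg⟩ => hg.trans (mem_inertia.mp (hT ▸ Subgroup.mem_top g)), fun h => ⟨1, ?_⟩⟩
      rw [h, conjFn_one]
    refine ⟨fun x => φ (e₀.symm x), e, htrans φ hφ, ?_, ?_⟩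
    · funext x
      rw [show f = (e : ℂ) • ∑ ψ ∈ O, ψ from hcl, hO1]
      simp
    · rw [hO1, Finset.card_singleton, mul_one] at het
      exact het

end Cfsg.Agent.S0857
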