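import Cfsg.Statements.S0858
import Cfsg.Agent.S0857
import Cfsg.Agent.Lib.Characters.Correspondence

set_option autoImplicit false
open Cfsg

namespace Cfsg.Agent.S0858

open Cfsg Cfsg.Lib.Characters

universe u

/-- Every chief factor above `N` of a subgroup containing `N` has non-square order. -/
def Nonsquare {G : Type u} [Group G] (N : Subgroup G) : Prop :=
  ∀ (H K L : Subgroup G), N ≤ L → L < K → K ≤ H →
    (∀ h ∈ H, ∀ k ∈ K, h * k * h⁻¹ ∈ K) → (∀ h ∈ H, ∀ l ∈ L, h * l * h⁻¹ ∈ L) →
    (∀ M : Subgroup G, L ≤ M → M ≤ K → (∀ h ∈ H, ∀ m ∈ M, h * m * h⁻¹ ∈ M) → M = L ∨ M = K) →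
    ¬ IsSquare (L.relIndex K)

theorem solvable_subgroupOf {G : Type u} [Group G] (N T : Subgroup G) [N.Normal]
    (h : Group.IsSolvable (G ⧸ N)) : Group.IsSolvable (T ⧸ N.subgroupOf T) := by
  refine solvable_of_solvable_injective
    (f := QuotientGroup.map (N.subgroupOf T) N T.subtype (fun _ hx => Subgroup.mem_comap.mpr hx)) ?_
  rw [injective_iff_map_eq_one]
  intro x hx
  induction x using QuotientGroup.induction_on with
  | H y =>
    replace hx := (QuotientGroup.eq_one_iff (y : G)).mp hx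
    rw [QuotientGroup.eq_one_iff]
    exact hx

theorem nonsquare_subgroupOf {G : Type u} [Group G] (N T : Subgroup G) (hNT : N ≤ T)
    (h : Nonsquare N) : Nonsquare (N.subgroupOf T) := by
  intro H K L hNL hLK hKH hK hL hmin
  have hinj := Subgroup.map_subtype_le (H := T)
  have := h (H.map T.subtype) (K.map T.subtype) (L.map T.subtype)
    (fun x hx => ⟨⟨x, hNT hx⟩, hNL hx, rfl⟩)
    ((Subgroup.map_lt_map_iff_of_injective T.subtype_injective).mpr hLK)
    (Subgroup.map_mono hKH) ?_ ?_ ?_
  · rwa [Subgroup.relIndex_map_map_of_injective _ _ T.subtype_injective] at this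
  · rintro _ ⟨a, ha, rfl⟩ _ ⟨b, hb, rfl⟩; exact ⟨_, hK a ha b hb, rfl⟩
  · rintro _ ⟨a, ha, rfl⟩ _ ⟨b, hb, rfl⟩; exact ⟨_, hL a ha b hb, rfl⟩
  · intro M hLM hMK hM
    have hMT : M ≤ T := hMK.trans (Subgroup.map_subtype_le K)
    have hback : (M.subgroupOf T).map T.subtype = M := Subgroup.map_subgroupOf_eq_of_le hMT
    rcases hmin (M.subgroupOf T) (fun x hx => hLM ⟨x, hx, rfl⟩)
        (fun x hx => (Subgroup.mem_map_iff_mem T.subtype_injective).mp (hMK hx))
        (fun a ha m hm => hM _ ⟨a, ha, rfl⟩ _ hm) with h' | h'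
    · left; rw [← hback, h']
    · right; rw [← hback, h']

theorem exists_inducing : ∀ (n : ℕ) {G : Type u} [Group G] [Fintype G] (N : Subgroup G) [N.Normal],
    Nat.card G = n → Group.IsSolvable (G ⧸ N) → Nonsquare N → ∀ χ : G → ℂ, IsIrrCharacter G χ →
      ∃ (H : Subgroup G) (hNH : N ≤ H) (ψ : H → ℂ), IsIrrCharacter H ψ ∧ indFun H ψ = χ ∧
        IsIrrCharacter N (fun n : N => ψ ⟨(n : G), hNH n.2⟩) := by
  intro n
  induction n using Nat.strong_induction_on with
  | _ n ih =>
    intro G _ _ N _ hn hsolv hns χ hχ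
    classical
    haveI : Fintype N := Fintype.ofFinite N
    by_cases hN : IsIrrCharacter N (fun n : N => χ n)
    · refine ⟨⊤, le_top, fun x => χ x, isIrrCharacter_mulEquiv hχ Subgroup.topEquiv, ?_, hN⟩
      funext g
      rw [indFun, Subgroup.card_top]
      rw [Finset.sum_congr rfl (g := fun _ => χ g) fun x _ => by
          rw [extendByZero_mem _ (Subgroup.mem_top _)]
          simpa using hχ.isClassFunction g x⁻¹,
        Finset.sum_const, Finset.card_univ, nsmul_eq_mul, ← Nat.card_eq_fintype_card,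
        inv_mul_cancel_left₀ (Nat.cast_ne_zero.mpr Nat.card_pos.ne')]
    -- a minimal normal subgroup to which the restriction stays irreducible
    obtain ⟨K, ⟨hKn, hNK, hKirr⟩, hKmin⟩ := wellFounded_lt.has_min
      {K : Subgroup G | K.Normal ∧ N ≤ K ∧ IsIrrCharacter K (fun k : K => χ k)}
      ⟨⊤, inferInstance, le_top, isIrrCharacter_mulEquiv hχ Subgroup.topEquiv⟩
    haveI := hKn
    have hNK' : N < K := lt_of_le_of_ne hNK (fun h => hN (by subst h; exact hKirr))
    obtain ⟨L, ⟨hLn, hNL, hLK⟩, hLmax⟩ := wellFounded_gt.has_min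
      {L : Subgroup G | L.Normal ∧ N ≤ L ∧ L < K} ⟨N, inferInstance, le_rfl, hNK'⟩
    haveI := hLn
    have hchief : ∀ M : Subgroup G, M.Normal → L ≤ M → M ≤ K → M = L ∨ M = K := by
      intro M hM hLM hMK
      by_contra h
      push Not at h
      exact hLmax M ⟨hM, hNL.trans hLM, lt_of_le_of_ne hMK h.2⟩ (lt_of_le_of_ne hLM h.1.symm)
    have hsolvL : Group.IsSolvable (G ⧸ L) := solvable_of_surjective
      (f := QuotientGroup.map N L (MonoidHom.id G) hNL)
      (fun x => by
        induction x using QuotientGroup.induction_on with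
        | H y => exact ⟨y, rfl⟩)
    have hab : ⁅K, K⁆ ≤ L := by
      rcases hchief (L ⊔ ⁅K, K⁆) inferInstance le_sup_left
          (sup_le hLK.le (Subgroup.commutator_le_right K K)) with h | h
      · exact le_sup_right.trans_eq h
      exfalso
      set q := QuotientGroup.mk' L
      have h1 : K.map q = ⁅K.map q, K.map q⁆ := by
        conv_lhs => rw [← h]
        rw [Subgroup.map_sup, QuotientGroup.map_mk'_self, bot_sup_eq, Subgroup.map_commutator]
      have hne : K.map q ≠ ⊥ := fun h0 => hLK.not_ge (by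
        rwa [Subgroup.map_eq_bot_iff, QuotientGroup.ker_mk'] at h0)
      haveI := hsolvL
      exact (IsSolvable.commutator_lt_of_ne_bot hne).ne h1.symm
    have hinv : ∀ (g : G) (k : K), χ (g * k * g⁻¹) = χ k := fun g k => hχ.isClassFunction k g
    have hsq : ¬ IsSquare (L.relIndex K) := hns ⊤ K L hNL hLK le_top
      (fun h _ k hk => hKn.conj_mem k hk h) (fun h _ l hl => hLn.conj_mem l hl h)
      (fun M hLM hMK hM => hchief M ⟨fun m hm g => hM g trivial m hm⟩ hLM hMK)
    haveI : Fintype L := Fintype.ofFinite L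
    rcases Cfsg.Agent.S0857.result K L hLK hchief hab (fun k : K => χ k) hKirr hinv with
      h | ⟨φ, e, -, -, he⟩ | ⟨F, hF, hcard, hsum⟩
    · exact absurd hLK (hKmin L ⟨hLn, hNL, h⟩)
    · exact absurd ⟨e, by rw [← he, sq]⟩ hsq
    have hsum' : (fun x : L => χ x) = ∑ φ ∈ F, φ := hsum
    have hinner : ∀ φ ∈ F, classInner (fun x : L => χ x) φ = 1 := by
      intro φ hφ
      rw [hsum', classInner_sum_left, Finset.sum_eq_single φ
        (fun b hb hne => classInner_irr_ne (hF b hb) (hF φ hφ) hne) (fun h => (h hφ).elim)]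
      exact classInner_irr_self (hF φ hφ)
    have hF2 : 2 ≤ F.card := by
      have h1 : L.relIndex K ≠ 1 := fun h => hLK.not_ge (Subgroup.relIndex_eq_one.mp h)
      have h0 : L.relIndex K ≠ 0 := Subgroup.index_ne_zero_of_finite
      omega
    obtain ⟨φ, hφ, φ', hφ', hne⟩ := Finset.one_lt_card.mp hF2
    set T := inertia L φ with hT
    have hLT : L ≤ T := le_inertia (hF φ hφ).isClassFunction
    haveI : Fintype T := Fintype.ofFinite T
    have hTlt : T ≠ ⊤ := by
      intro h
      obtain ⟨g, hg⟩ := exists_conjFn_eq hχ (hF φ hφ) (hF φ' hφ')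
        (by rw [hinner φ hφ]; exact one_ne_zero) (by rw [hinner φ' hφ']; exact one_ne_zero)
      rw [mem_inertia.mp (show g ∈ T by rw [h]; trivial)] at hg
      exact hne hg.symm
    obtain ⟨ψ, hψ, hψind, -⟩ := exists_indFun_eq (hF φ hφ) T hT hLT hχ
      (by rw [hinner φ hφ]; exact one_ne_zero)
    have hNT := hNL.trans hLT
    have hcardT : Nat.card T < n := by
      rw [← hn]
      refine lt_of_le_of_ne (Subgroup.card_le_card_group T) fun h => hTlt ?_
      exact Subgroup.eq_top_of_card_eq T h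
    obtain ⟨H', hNH', ψ', hψ', hind', hirr'⟩ := ih _ hcardT (N.subgroupOf T) rfl
      (solvable_subgroupOf N T hsolv) (nonsquare_subgroupOf N T hNT hns) ψ hψ
    obtain ⟨H, hHT, rfl⟩ : ∃ H ≤ T, H.subgroupOf T = H' :=
      ⟨H'.map T.subtype, Subgroup.map_subtype_le H',
        Subgroup.comap_map_eq_self_of_injective T.subtype_injective H'⟩
    have hNH : N ≤ H := fun x hx => hNH' (x := ⟨x, hNT hx⟩) hx
    refine ⟨H, hNH, fun x => ψ' ⟨⟨x, hHT x.2⟩, x.2⟩,
      isIrrCharacter_mulEquiv hψ' (Subgroup.subgroupOfEquivOfLe hHT).symm, ?_, ?_⟩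
    · rw [← indFun_trans H T hHT, ← hψind, ← hind']
    · exact isIrrCharacter_mulEquiv hirr' (Subgroup.subgroupOfEquivOfLe hNT).symm


/-- Let N be a normal subgroup of the finite group G with G / N solvable, and suppose that for every subgroup H containing N and all subgroups L < K between N and H that are normal in H with no subgroup normal in H strictly between them, the index of L in K is not a perfect square. Then every irreducible character χ of G is induced from an irreducible character ψ of some subgroup H containing N such that the restriction of ψ to N is irreducible. -/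
theorem result {G : Type*} [Group G] [Fintype G] (N : Subgroup G) [N.Normal] (hsolv : Group.IsSolvable (G ⧸ N)) (hchief : ∀ (H K L : Subgroup G), N ≤ L → L < K → K ≤ H → (∀ h ∈ H, ∀ k ∈ K, h * k * h⁻¹ ∈ K) → (∀ h ∈ H, ∀ l ∈ L, h * l * h⁻¹ ∈ L) → (∀ M : Subgroup G, L ≤ M → M ≤ K → (∀ h ∈ H, ∀ m ∈ M, h * m * h⁻¹ ∈ M) → M = L ∨ M = K) → ¬ IsSquare (L.relIndex K)) (χ : G → ℂ) (hχ : Cfsg.IsIrrCharacter G χ) : ∃ (H : Subgroup G) (hNH : N ≤ H) (ψ : H → ℂ), Cfsg.IsIrrCharacter H ψ ∧ Cfsg.indFun H ψ = χ ∧ Cfsg.IsIrrCharacter N (fun n : N => ψ ⟨(n : G), hNH n.2⟩) := by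
  exact exists_inducing _ N rfl hsolv hchief χ hχ

end Cfsg.Agent.S0858
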