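import Cfsg.Statements.S0859
import Cfsg.Agent.Lib.Characters.Correspondence
import Cfsg.Agent.Lib.Characters.Integrality
import Cfsg.Agent.Lib.Characters.AbelianInertia

set_option autoImplicit false
open Cfsg

namespace Cfsg.Agent.S0859

open Cfsg Cfsg.Lib.Characters
open scoped ComplexConjugate

universe u

/-- Every `p`-subgroup inside `N` is commutative. -/
def Q {G : Type u} [Group G] (N : Subgroup G) : Prop :=
  ∀ (p : ℕ) [Fact p.Prime] (P : Subgroup G), P ≤ N → IsPGroup p P →
    ∀ a ∈ P, ∀ b ∈ P, a * b = b * a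

theorem q_subgroupOf {G : Type u} [Group G] (N U : Subgroup G) (h : Q N) : Q (N.subgroupOf U) := by
  intro p _ P hP hp a ha b hb
  refine Subtype.ext ?_
  refine h p (P.map U.subtype) (fun x hx => ?_) (hp.map _) a ⟨a, ha, rfl⟩ b ⟨b, hb, rfl⟩
  obtain ⟨y, hy, rfl⟩ := hx
  exact hP hy

section Rep

variable {G : Type u} [Group G] {V : Type*} [AddCommGroup V] [Module ℂ V]
  (ρ : Representation ℂ G V)

theorem commute_pow_left {a b : G} {c : ℂ} (h : ρ a * ρ b = c • (ρ b * ρ a)) (i : ℕ) :
    ρ (a ^ i) * ρ b = c ^ i • (ρ b * ρ (a ^ i)) := by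
  induction i with
  | zero => simp
  | succ i ih =>
    rw [pow_succ, map_mul, mul_assoc, h, mul_smul_comm, ← mul_assoc, ih, smul_mul_assoc,
      smul_smul, mul_assoc, pow_succ']

theorem commute_pow {a b : G} {c : ℂ} (h : ρ a * ρ b = c • (ρ b * ρ a)) (i j : ℕ) :
    ρ (a ^ i) * ρ (b ^ j) = c ^ (i * j) • (ρ (b ^ j) * ρ (a ^ i)) := by
  have h1 := commute_pow_left ρ h i
  induction j with
  | zero => simp
  | succ j ih =>
    rw [pow_succ, map_mul, ← mul_assoc, ih, smul_mul_assoc, mul_assoc, h1, mul_smul_comm,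
      smul_smul, ← mul_assoc, ← pow_add]
    congr 2

theorem eq_one_of_smul_eq [Nontrivial V] (g : G) {c : ℂ} (h : c • ρ g = ρ g) : c = 1 := by
  have h1 := congrArg (fun f => f * ρ g⁻¹) h
  simp only [smul_mul_assoc, ← map_mul, mul_inv_cancel, map_one] at h1
  obtain ⟨v, hv⟩ := exists_ne (0 : V)
  have h2 : c • v = (1 : ℂ) • v := by simpa using LinearMap.congr_fun h1 v
  exact smul_left_injective ℂ hv h2

/-- The elements acting by scalars. -/
def scalarSubgroup : Subgroup G where
  carrier := {g | ∃ c : ℂ, ρ g = c • (1 : Module.End ℂ V)}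
  one_mem' := ⟨1, by simp⟩
  mul_mem' := by
    rintro a b ⟨c, hc⟩ ⟨d, hd⟩
    exact ⟨c * d, by rw [map_mul, hc, hd, smul_mul_assoc, one_mul, smul_smul]⟩
  inv_mem' := by
    rintro a ⟨c, hc⟩
    refine ⟨c⁻¹, ?_⟩
    have h1 : ρ a⁻¹ * ρ a = 1 := by rw [← map_mul, inv_mul_cancel, map_one]
    rw [hc, mul_smul_comm, mul_one] at h1
    rcases eq_or_ne c 0 with rfl | hc0
    · rw [zero_smul] at h1
      have : ∀ f : Module.End ℂ V, f = 0 := fun f => by rw [← mul_one f, ← h1, mul_zero]
      rw [this (ρ a⁻¹), this 1, smul_zero]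
    · rw [← h1, smul_smul, inv_mul_cancel₀ hc0, one_smul]

theorem scalarSubgroup_normal : (scalarSubgroup ρ).Normal := ⟨fun n ⟨c, hc⟩ g => ⟨c, by
  rw [map_mul, map_mul, hc, mul_smul_comm, mul_one, smul_mul_assoc, ← map_mul, mul_inv_cancel,
    map_one]⟩⟩

/-- Commutator scalars vanish in a subgroup with commutative Sylow subgroups. -/
theorem commute_of_scalar_commutators [Finite G] [Nontrivial V] (A : Subgroup G) (hQ : Q A)
    (hsc : ∀ a ∈ A, ∀ b ∈ A, a * b * a⁻¹ * b⁻¹ ∈ scalarSubgroup ρ) :
    ∀ a ∈ A, ∀ b ∈ A, ρ a * ρ b = ρ b * ρ a := by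
  intro a ha b hb
  obtain ⟨c, hc⟩ := hsc a ha b hb
  have hab : ρ a * ρ b = c • (ρ b * ρ a) := by
    have : a * b = (a * b * a⁻¹ * b⁻¹) * (b * a) := by group
    rw [← map_mul, this, map_mul, hc, smul_mul_assoc, one_mul, map_mul]
  suffices c = 1 by rw [hab, this, one_smul]
  have hpowA : ∀ x ∈ A, x ^ Nat.card A = 1 := fun x hx =>
    (SubgroupClass.coe_pow (⟨x, hx⟩ : A) _).symm.trans (congrArg Subtype.val pow_card_eq_one')
  have hcard : c ^ Nat.card A = 1 := by
    have h1 := commute_pow ρ hab (Nat.card A) 1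
    rw [hpowA a ha, mul_one, pow_one, map_one, one_mul, mul_one] at h1
    exact eq_one_of_smul_eq ρ b h1.symm
  by_contra hne
  obtain ⟨p, hp, hpd⟩ := Nat.exists_prime_and_dvd (fun h => hne (orderOf_eq_one_iff.mp h))
  haveI := Fact.mk hp
  set m := Nat.card A / p ^ (Nat.card A).factorization p with hm
  have hcm : c ^ (m * m) = 1 := by
    obtain ⟨P₀⟩ := (inferInstance : Nonempty (Sylow p A))
    have hpel : ∀ x : A, ∃ g : A, g * x ^ m * g⁻¹ ∈ P₀ := by
      intro x
      have hpg : IsPGroup p (Subgroup.zpowers (x ^ m)) := by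
        have hd : orderOf (x ^ m) ∣ p ^ (Nat.card A).factorization p := by
          apply orderOf_dvd_of_pow_eq_one
          rw [← pow_mul, hm, Nat.div_mul_cancel (Nat.ordProj_dvd _ _), pow_card_eq_one']
        obtain ⟨k, -, hk⟩ := (Nat.dvd_prime_pow hp).mp hd
        exact IsPGroup.of_card (n := k) (by rw [Nat.card_zpowers, hk])
      obtain ⟨S, hS⟩ := hpg.exists_le_sylow
      obtain ⟨g, hg⟩ := MulAction.exists_smul_eq A S P₀
      refine ⟨g, ?_⟩
      rw [← hg]
      show g * x ^ m * g⁻¹ ∈ ((g • S : Sylow p A) : Subgroup A)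
      rw [Sylow.coe_subgroup_smul]
      exact ⟨x ^ m, hS (Subgroup.mem_zpowers _), rfl⟩
    obtain ⟨g, hg⟩ := hpel ⟨a, ha⟩
    obtain ⟨h, hh⟩ := hpel ⟨b, hb⟩
    have hcomm := hQ p ((P₀ : Subgroup A).map A.subtype) (Subgroup.map_subtype_le _)
      (P₀.2.map _) _ ⟨_, hg, rfl⟩ _ ⟨_, hh, rfl⟩
    have hconj : ∀ (g : A) (x : G), x ∈ A → ∃ d : ℂ, ρ ((g : G) * x * (g : G)⁻¹) = d • ρ x := by
      intro g x hx
      obtain ⟨d, hd⟩ := hsc g g.2 x hx
      refine ⟨d, ?_⟩
      have : (g : G) * x * (g : G)⁻¹ = ((g : G) * x * (g : G)⁻¹ * x⁻¹) * x := by group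
      rw [this, map_mul, hd, smul_mul_assoc, one_mul]
    obtain ⟨d, hd⟩ := hconj g (a ^ m) (A.pow_mem ha m)
    obtain ⟨d', hd'⟩ := hconj h (b ^ m) (A.pow_mem hb m)
    have hd0 : ∀ {d : ℂ} {x y : G}, ρ x = d • ρ y → d ≠ 0 := fun {d x y} h hzero => by
      rw [hzero, zero_smul] at h
      have h1 : (ρ (x * x⁻¹) : Module.End ℂ V) = 0 := by rw [map_mul, h, zero_mul]
      rw [mul_inv_cancel, map_one] at h1
      obtain ⟨v, hv⟩ := exists_ne (0 : V)
      exact hv (by simpa using LinearMap.congr_fun h1 v)
    have h1 := congrArg ρ hcomm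
    simp only [Subgroup.coe_subtype, Subgroup.coe_mul, SubgroupClass.coe_pow,
      Subgroup.coe_inv] at h1
    rw [map_mul ρ ((g : G) * a ^ m * (g : G)⁻¹), map_mul ρ ((h : G) * b ^ m * (h : G)⁻¹), hd, hd',
      smul_mul_smul_comm, smul_mul_smul_comm, mul_comm d' d] at h1
    have h2 := smul_right_injective (Module.End ℂ V) (mul_ne_zero (hd0 hd) (hd0 hd')) h1
    rw [commute_pow ρ hab m m, ← map_mul] at h2
    exact eq_one_of_smul_eq ρ _ h2
  have hord1 : orderOf c ∣ m * m := orderOf_dvd_of_pow_eq_one hcm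
  have hnd : ¬ p ∣ m := Nat.not_dvd_ordCompl hp Nat.card_pos.ne'
  exact hnd ((hp.dvd_mul.mp (hpd.trans hord1)).elim id id)

end Rep

/-- The derived series of a subgroup, inside the ambient group. -/
def series {G : Type u} [Group G] (N : Subgroup G) : ℕ → Subgroup G
  | 0 => N
  | i + 1 => ⁅series N i, series N i⁆

/-- The characters of a solvable group with irreducible restriction to a normal subgroup with
commutative Sylow subgroups are monomial. -/
theorem monomial : ∀ (n : ℕ) {G : Type u} [Group G] [Fintype G] [Group.IsSolvable G]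
    (N : Subgroup G) [N.Normal], Nat.card G = n → Q N → ∀ χ : G → ℂ, IsIrrCharacter G χ →
      IsIrrCharacter N (fun x : N => χ x) →
      ∃ (U : Subgroup G) (lam : U → ℂ), IsCharacter U lam ∧ lam 1 = 1 ∧ indFun U lam = χ := by
  intro n
  induction n using Nat.strong_induction_on with
  | _ n ih =>
    intro G _ _ _ N _ hn hQ χ hχ hN
    classical
    haveI : Fintype N := Fintype.ofFinite N
    obtain ⟨d, hdpos, hd⟩ := hχ.exists_degree_pos
    by_cases hind : ∃ (U : Subgroup G) (μ : U → ℂ), U ≠ ⊤ ∧ IsIrrCharacter U μ ∧ indFun U μ = χ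
    · -- the induced case
      obtain ⟨U, μ, hU, hμ, hμχ⟩ := hind
      haveI : Fintype U := Fintype.ofFinite U
      haveI : Fintype (N.subgroupOf U) := Fintype.ofFinite _
      haveI : Fintype (U.subgroupOf N) := Fintype.ofFinite _
      obtain ⟨φ, hφ, hφne⟩ := classInner_res_ne_zero (N := N.subgroupOf U) hμ
      obtain ⟨a, -, ha⟩ := hμ.exists_degree_pos
      obtain ⟨b, -, hb⟩ := hφ.exists_degree_pos
      have hW := constituent_degree (isCharacter_restrict hμ.isCharacter _) hφ hφne
        (d := a) (d' := b) (by simpa using ha) hb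
      have hdeg : d = U.index * a := by
        have := congrFun hμχ 1
        rw [indFun_one_apply, ha, hd] at this
        exact_mod_cast this.symm
      let eW : U.subgroupOf N ≃* N.subgroupOf U :=
        { toFun := fun x => ⟨⟨(x : N), x.2⟩, (x : N).2⟩
          invFun := fun x => ⟨⟨(x : U), x.2⟩, (x : U).2⟩
          left_inv := fun x => rfl
          right_inv := fun x => rfl
          map_mul' := fun x y => rfl }
      have hφ' : IsIrrCharacter (U.subgroupOf N) (fun x => φ (eW x)) := isIrrCharacter_mulEquiv hφ eW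
      -- `φ` lies under the restriction of `χ`
      have hne : classInner (fun x : U.subgroupOf N => χ ((x : N) : G)) (fun x => φ (eW x)) ≠ 0 := by
        have heq : (fun x : U.subgroupOf N => χ ((x : N) : G)) =
            fun x => (fun y : N.subgroupOf U => χ ((y : U) : G)) (eW x) := rfl
        rw [heq, classInner_comp_equiv eW (fun y : N.subgroupOf U => χ ((y : U) : G)) φ]
        obtain ⟨m, hm⟩ := exists_decomposition (isCharacter_restrict hχ.isCharacter U)
        have hmμ : m ⟨μ, hμ⟩ ≠ 0 := by
          intro h0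
          have h1 := classInner_indFun U μ hχ.isClassFunction
          rw [hμχ, classInner_irr_self hχ, ← conj_classInner, hm,
            classInner_sum_irr (fun ψ => (m ψ : ℂ)) ⟨μ, hμ⟩, h0] at h1
          simp at h1
        choose k hk using fun β : IrrCharacter U =>
          classInner_nat (isCharacter_restrict β.2.isCharacter (N.subgroupOf U)) hφ.isCharacter
        have hres : (fun y : N.subgroupOf U => χ ((y : U) : G)) =
            ∑ β : IrrCharacter U, (m β : ℂ) • fun y : N.subgroupOf U => (β : U → ℂ) y := by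
          funext y
          rw [congrFun hm (y : U)]
          simp [Finset.sum_apply]
        rw [hres, classInner_sum_left]
        simp only [classInner_smul_left, hk]
        intro h0
        have h0' : ∑ β, m β * k β = 0 := by exact_mod_cast h0
        rcases Nat.mul_eq_zero.mp (Finset.sum_eq_zero_iff.mp h0' ⟨μ, hμ⟩ (Finset.mem_univ _)) with
          h | h
        · exact hmμ h
        · exact hφne (by rw [hk ⟨μ, hμ⟩, h, Nat.cast_zero])
      have hne2 : classInner (indFun (U.subgroupOf N) (fun x => φ (eW x))) (fun x : N => χ x) ≠ 0 := by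
        rw [classInner_indFun _ _ hN.isClassFunction, ← conj_classInner]
        simpa using hne
      have hle := (constituent_degree (isCharacter_indFun _ hφ'.isCharacter) hN hne2
        (d := (U.subgroupOf N).index * b) (d' := d)
        (by rw [indFun_one_apply, map_one, hb]; push_cast; ring) (by simpa using hd)).1
      have hidx : (U.subgroupOf N).index ≤ U.index := by
        have := Subgroup.relIndex_le_of_le_right (H := U) (K := N) (L := ⊤) le_top
          (by rw [Subgroup.relIndex_top_right]; exact Subgroup.index_ne_zero_of_finite)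
        rwa [Subgroup.relIndex_top_right] at this
      have hab : a = b := by
        refine le_antisymm (Nat.le_of_mul_le_mul_left ?_ (Nat.pos_of_ne_zero
          (Subgroup.index_ne_zero_of_finite (H := U)))) hW.1
        rw [← hdeg]
        exact hle.trans (Nat.mul_le_mul_right b hidx)
      have hμN : IsIrrCharacter (N.subgroupOf U) (fun x : N.subgroupOf U => μ x) := by
        rw [hW.2 hab]; exact hφ
      have hlt : Nat.card U < n := by
        rw [← hn]
        exact lt_of_le_of_ne (Subgroup.card_le_card_group U)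
          fun h => hU (Subgroup.eq_top_of_card_eq U h)
      obtain ⟨V', lam, hlamc, hlam1, hlam⟩ := ih _ hlt (N.subgroupOf U) rfl (q_subgroupOf N U hQ)
        μ hμ hμN
      obtain ⟨V, hVU, rfl⟩ : ∃ V ≤ U, V.subgroupOf U = V' :=
        ⟨V'.map U.subtype, Subgroup.map_subtype_le V',
          Subgroup.comap_map_eq_self_of_injective U.subtype_injective V'⟩
      refine ⟨V, fun x => lam ((Subgroup.subgroupOfEquivOfLe hVU).symm x),
        isCharacter_comp hlamc (Subgroup.subgroupOfEquivOfLe hVU).symm.toMonoidHom,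
        by simpa only [map_one] using hlam1, ?_⟩
      rw [← indFun_trans V U hVU, ← hμχ, ← hlam]
      rfl
    -- the primitive case: the degree is one
    obtain ⟨k, ρ, hρ, hρχ⟩ := id hχ
    haveI := hρ
    have hkd : k = d := by
      have := congrFun hρχ 1
      rw [hd, Representation.char_one, Module.finrank_fin_fun] at this
      exact_mod_cast this
    subst hkd
    haveI : Nonempty (Fin k) := ⟨⟨0, hdpos⟩⟩
    haveI := scalarSubgroup_normal ρ
    have hnorm : ∀ g ∈ scalarSubgroup ρ, ‖χ g‖ = k := by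
      rintro g ⟨c, hc⟩
      have := (norm_eq_iff_scalar ρ g).mpr ⟨c, hc⟩
      rw [hρχ, Module.finrank_fin_fun] at this
      exact this
    have hNS : N ≤ scalarSubgroup ρ := by
      by_contra hNS
      let S : ℕ → Subgroup G := series N
      have hS : ∀ i, S i ≤ N ∧ (S i).Normal ∧ S i ≤ derivedSeries G i := by
        intro i
        induction i with
        | zero => exact ⟨le_rfl, inferInstanceAs N.Normal, le_top⟩
        | succ i ihi =>
          obtain ⟨h1, h2, h3⟩ := ihi
          haveI := h2
          exact ⟨(Subgroup.commutator_le_right (S i) (S i)).trans h1,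
            (show (⁅S i, S i⁆ : Subgroup G).Normal from inferInstance), Subgroup.commutator_mono h3 h3⟩
      obtain ⟨r, hr⟩ := (Group.isSolvable_def G).mp inferInstance
      have hex : ∃ i, S i ≤ scalarSubgroup ρ := ⟨r, ((hS r).2.2.trans_eq hr).trans bot_le⟩
      obtain ⟨i, hi, hi'⟩ : ∃ i, ¬ S i ≤ scalarSubgroup ρ ∧ S (i + 1) ≤ scalarSubgroup ρ := by
        refine ⟨Nat.find hex - 1, Nat.find_min hex (Nat.sub_lt ?_ Nat.one_pos), ?_⟩
        · exact Nat.pos_of_ne_zero fun h => hNS (h ▸ Nat.find_spec hex : S 0 ≤ _)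
        · rw [Nat.sub_add_cancel (Nat.pos_of_ne_zero fun h => hNS (h ▸ Nat.find_spec hex : S 0 ≤ _))]
          exact Nat.find_spec hex
      set A := S i with hA
      haveI : A.Normal := (hS i).2.1
      haveI : Fintype A := Fintype.ofFinite A
      have hQA : Q A := fun p _ P hP => hQ p P (hP.trans (hS i).1)
      have hcomm := commute_of_scalar_commutators ρ A hQA fun a ha b hb =>
        hi' (Subgroup.commutator_mem_commutator ha hb)
      obtain ⟨φ, hφ, hφne⟩ := classInner_res_ne_zero (N := A) hχ
      haveI : Fintype (inertia A φ) := Fintype.ofFinite _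
      have hT : inertia A φ = ⊤ := by
        by_contra hT
        obtain ⟨ψ, hψ, hψχ, -⟩ := exists_indFun_eq hφ (inertia A φ) rfl
          (le_inertia hφ.isClassFunction) hχ hφne
        exact hind ⟨_, ψ, hT, hψ, hψχ⟩
      have hO : orbitFinset A φ = {φ} := by
        ext ψ
        rw [mem_orbitFinset, Finset.mem_singleton]
        exact ⟨fun ⟨g, hg⟩ => hg.trans (mem_inertia.mp (hT ▸ Subgroup.mem_top g)),
          fun h => ⟨1, by rw [h, conjFn_one]⟩⟩
      have hres : (fun x : A => χ x) = classInner (fun x : A => χ x) φ • φ := by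
        have := clifford hχ hφ hφne
        rwa [hO, Finset.sum_singleton] at this
      set e := classInner (fun x : A => χ x) φ
      have hker : ∀ x ∈ commutator A, φ x = φ 1 := by
        intro x hx
        have hle : commutator A ≤ MonoidHom.ker (ρ.comp A.subtype : A →* _).toHomUnits := by
          rw [commutator_def, Subgroup.commutator_le]
          intro a _ b _
          rw [MonoidHom.mem_ker, map_commutatorElement, commutatorElement_eq_one_iff_commute]
          exact Units.ext (hcomm a a.2 b b.2)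
        have hρx : ρ (x : G) = 1 := congrArg Units.val (MonoidHom.mem_ker.mp (hle hx))
        have hχx : χ (x : G) = χ 1 := by
          rw [← hρχ, Representation.character, Representation.character, hρx, map_one ρ]
        have h1 := congrFun hres x
        have h2 := congrFun hres 1
        simp only [Pi.smul_apply, smul_eq_mul, hχx, OneMemClass.coe_one] at h1 h2
        exact mul_left_cancel₀ hφne (h1.symm.trans h2)
      obtain ⟨ψ, -, hψirr, hψ⟩ := exists_of_quotient hφ.isCharacter hker
      haveI : IsMulCommutative (A ⧸ commutator A) :=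
        ⟨⟨fun a b => mul_comm (G := Abelianization A) a b⟩⟩
      have hφ1 : φ 1 = 1 := by
        rw [← hψ 1, QuotientGroup.mk_one]
        exact degree_one_of_isMulCommutative (hψirr hφ)
      obtain ⟨l, hl⟩ := exists_hom_of_degree_one hφ.isCharacter hφ1
      apply hi
      intro x hx
      have h1 := congrFun hres ⟨x, hx⟩
      have h2 := congrFun hres 1
      simp only [Pi.smul_apply, smul_eq_mul, OneMemClass.coe_one, hd, hφ1, mul_one] at h1 h2
      have hroot : ‖((l ⟨x, hx⟩ : ℂˣ) : ℂ)‖ = 1 := by
        refine Complex.norm_eq_one_of_pow_eq_one (n := orderOf (⟨x, hx⟩ : A)) ?_ (orderOf_pos _).ne'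
        rw [← Units.val_pow_eq_pow_val, ← map_pow, pow_orderOf_eq_one, map_one, Units.val_one]
      obtain ⟨c, hc⟩ := exists_scalar_of_norm_eq ρ x (by
        rw [hρχ, h1, norm_mul, hl, hroot, mul_one, ← h2, Complex.norm_natCast,
          Module.finrank_fin_fun])
      exact ⟨c, hc⟩
    have hk1 : k = 1 := by
      have h1 := classInner_irr_self hN
      rw [classInner, Finset.sum_congr rfl (g := fun _ => ((k : ℂ) ^ 2)) fun x _ => by
        rw [Complex.mul_conj, Complex.normSq_eq_norm_sq, hnorm x (hNS x.2)]; simp,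
        Finset.sum_const, Finset.card_univ, nsmul_eq_mul, ← Nat.card_eq_fintype_card,
        inv_mul_cancel_left₀ (Nat.cast_ne_zero.mpr Nat.card_pos.ne')] at h1
      have : k ^ 2 = 1 := by exact_mod_cast h1
      exact (Nat.pow_eq_one.mp this).resolve_right two_ne_zero
    refine ⟨⊤, fun x => χ x, isCharacter_restrict hχ.isCharacter ⊤, by simp [hd, hk1], ?_⟩
    funext g
    rw [indFun, Subgroup.card_top, Finset.sum_congr rfl (g := fun _ => χ g) fun x _ => by
      rw [extendByZero_mem _ (Subgroup.mem_top _)]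
      simpa using hχ.isClassFunction g x⁻¹,
      Finset.sum_const, Finset.card_univ, nsmul_eq_mul, ← Nat.card_eq_fintype_card,
      inv_mul_cancel_left₀ (Nat.cast_ne_zero.mpr Nat.card_pos.ne')]

/-- Let G be a finite solvable group and N a normal subgroup such that for every prime p every Sylow p-subgroup of N is abelian. Suppose every irreducible character of G is induced from an irreducible character of some subgroup containing N whose restriction to N is irreducible. Then every irreducible character of G is induced from a character of degree 1 of some subgroup. -/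
theorem result {G : Type*} [Group G] [Fintype G] [Group.IsSolvable G] (N : Subgroup G) [N.Normal] (hab : ∀ (p : ℕ) [Fact p.Prime] (P : Sylow p N), ∀ a ∈ P, ∀ b ∈ P, a * b = b * a) (hrel : ∀ χ : G → ℂ, Cfsg.IsIrrCharacter G χ → ∃ (H : Subgroup G) (hNH : N ≤ H) (ψ : H → ℂ), Cfsg.IsIrrCharacter H ψ ∧ Cfsg.indFun H ψ = χ ∧ Cfsg.IsIrrCharacter N (fun n : N => ψ ⟨(n : G), hNH n.2⟩)) (χ : G → ℂ) (hχ : Cfsg.IsIrrCharacter G χ) : ∃ (U : Subgroup G) (lam : U → ℂ), Cfsg.IsCharacter U lam ∧ lam 1 = 1 ∧ Cfsg.indFun U lam = χ := by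
  classical
  have hQ : Q N := by
    intro p _ P hP hp a ha b hb
    have hp' : IsPGroup p (P.subgroupOf N) :=
      hp.of_equiv (Subgroup.subgroupOfEquivOfLe hP).symm
    obtain ⟨S, hS⟩ := hp'.exists_le_sylow
    exact congrArg Subtype.val (hab p S ⟨a, hP ha⟩ (hS ha) ⟨b, hP hb⟩ (hS hb))
  obtain ⟨H, hNH, ψ, hψ, hψχ, hψN⟩ := hrel χ hχ
  haveI : Fintype H := Fintype.ofFinite H
  have hψN' : IsIrrCharacter (N.subgroupOf H) (fun x : N.subgroupOf H => ψ x) :=
    isIrrCharacter_mulEquiv hψN (Subgroup.subgroupOfEquivOfLe hNH)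
  obtain ⟨V', lam, hlamc, hlam1, hlam⟩ :=
    monomial _ (N.subgroupOf H) rfl (q_subgroupOf N H hQ) ψ hψ hψN'
  obtain ⟨V, hVH, rfl⟩ : ∃ V ≤ H, V.subgroupOf H = V' :=
    ⟨V'.map H.subtype, Subgroup.map_subtype_le V',
      Subgroup.comap_map_eq_self_of_injective H.subtype_injective V'⟩
  refine ⟨V, fun x => lam ((Subgroup.subgroupOfEquivOfLe hVH).symm x),
    isCharacter_comp hlamc (Subgroup.subgroupOfEquivOfLe hVH).symm.toMonoidHom,
    by simpa only [map_one] using hlam1, ?_⟩
  rw [← indFun_trans V H hVH, ← hψχ, ← hlam]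
  rfl

end Cfsg.Agent.S0859
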