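import Cfsg.Statements.S0861
import Cfsg.Agent.Lib.Characters.Thompson
import Cfsg.Agent.Lib.Characters.Galois
import Cfsg.Agent.Lib.Characters.Degree
import Mathlib.RingTheory.Polynomial.Cyclotomic.Eval
import Mathlib.RingTheory.Polynomial.Cyclotomic.Roots

set_option autoImplicit false
open Cfsg

namespace Cfsg.Agent.S0861

open Cfsg Cfsg.Lib.Characters
open scoped ComplexConjugate

open Polynomial in
/-- Roots of unity of `p`-power order can add up to zero only in a multiple of `p`. -/
theorem dvd_of_sum_eq_zero {p a d : ℕ} [hp : Fact p.Prime] (μ : Fin d → ℂ)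
    (hμ : ∀ i, μ i ^ p ^ a = 1) (h : ∑ i, μ i = 0) : p ∣ d := by
  rcases Nat.eq_zero_or_pos a with rfl | ha
  · simp only [pow_zero, pow_one] at hμ
    simp [hμ] at h
    simp [h]
  obtain ⟨b, rfl⟩ := Nat.exists_eq_succ_of_ne_zero ha.ne'
  have hn : p ^ (b + 1) ≠ 0 := pow_ne_zero _ hp.out.ne_zero
  haveI : NeZero (p ^ (b + 1)) := ⟨hn⟩
  obtain ⟨ζ, hζ⟩ : ∃ ζ : ℂ, IsPrimitiveRoot ζ (p ^ (b + 1)) :=
    ⟨_, Complex.isPrimitiveRoot_exp _ hn⟩
  choose e he using fun i => hζ.eq_pow_of_pow_eq_one (hμ i)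
  set Q : ℤ[X] := ∑ i, X ^ e i with hQ
  have hroot : aeval ζ Q = 0 := by
    rw [hQ, map_sum, ← h]
    exact Finset.sum_congr rfl fun i _ => by rw [map_pow, aeval_X, (he i).2]
  have hdvd : cyclotomic (p ^ (b + 1)) ℤ ∣ Q := by
    rw [cyclotomic_eq_minpoly hζ (Nat.pos_of_ne_zero hn)]
    exact minpoly.isIntegrallyClosed_dvd (hζ.isIntegral (Nat.pos_of_ne_zero hn)) hroot
  have h1 := Polynomial.eval_dvd (x := (1 : ℤ)) hdvd
  rw [eval_one_cyclotomic_prime_pow, hQ, eval_finset_sum] at h1
  simp only [eval_pow, eval_X, one_pow, Finset.sum_const, Finset.card_univ, Fintype.card_fin,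
    nsmul_eq_mul, mul_one] at h1
  exact_mod_cast h1

/-- Positive reals with product at least one add up to at least their number. -/
theorem card_le_sum {ι : Type*} [Fintype ι] (x : ι → ℝ) (hx : ∀ i, 0 < x i) (hp : 1 ≤ ∏ i, x i) :
    (Fintype.card ι : ℝ) ≤ ∑ i, x i ∧ (∑ i, x i = Fintype.card ι → ∀ i, x i = 1) := by
  have hlog : 0 ≤ ∑ i, Real.log (x i) := by
    rw [← Real.log_prod (fun i _ => (hx i).ne')]
    exact Real.log_nonneg hp
  have hterm : ∀ i ∈ (Finset.univ : Finset ι), Real.log (x i) ≤ x i - 1 :=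
    fun i _ => Real.log_le_sub_one_of_pos (hx i)
  have hle := Finset.sum_le_sum hterm
  rw [Finset.sum_sub_distrib, Finset.sum_const, Finset.card_univ, nsmul_eq_mul, mul_one] at hle
  refine ⟨by linarith, fun he i => ?_⟩
  by_contra hne
  have hlt := Finset.sum_lt_sum hterm ⟨i, Finset.mem_univ i, Real.log_lt_sub_one_of_pos (hx i) hne⟩
  rw [Finset.sum_sub_distrib, Finset.sum_const, Finset.card_univ, nsmul_eq_mul, mul_one] at hlt
  linarith

/-- Let P be a normal abelian Sylow p-subgroup of the finite group G and suppose some element g of P has centralizer exactly P. Then the number of irreducible characters of G is at most the order of P, and if equality holds then G / P is abelian (the commutator subgroup lies in P). -/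
theorem result {G : Type*} [Group G] [Finite G] (p : ℕ) [Fact p.Prime] (P : Sylow p G) [(P : Subgroup G).Normal] (hab : ∀ a ∈ P, ∀ b ∈ P, a * b = b * a) (g : G) (hg : g ∈ P) (hC : Subgroup.centralizer ({g} : Set G) = P) : Nat.card (Cfsg.IrrCharacter G) ≤ Nat.card P ∧ (Nat.card (Cfsg.IrrCharacter G) = Nat.card P → commutator G ≤ P) := by
  classical
  haveI := Fintype.ofFinite G
  haveI : IsMulCommutative (P : Subgroup G) := ⟨⟨fun a b => Subtype.ext (hab a a.2 b b.2)⟩⟩
  have hp : p.Prime := Fact.out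
  set n := Nat.card G
  haveI : NeZero n := ⟨Nat.card_pos.ne'⟩
  obtain ⟨ζ, hζ⟩ : ∃ ζ : ℂ, IsPrimitiveRoot ζ n := ⟨_, Complex.isPrimitiveRoot_exp _ Nat.card_pos.ne'⟩
  have hne0 : ∀ (χ : IrrCharacter G) (x : G), x ∈ P → χ.1 x ≠ 0 := by
    intro χ x hx h0
    obtain ⟨d, hd⟩ := exists_degree χ.2.isCharacter
    obtain ⟨m, ρ, hρ⟩ := χ.2.isCharacter
    obtain ⟨μ, hμ, -, hk, -⟩ := exists_eigenvalues ρ x
    obtain ⟨a, ha⟩ := P.isPGroup' ⟨x, hx⟩
    have hxa : x ^ p ^ a = 1 := congrArg Subtype.val ha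
    have hsum : ∑ i, μ i = 0 := by
      have := hk 1
      rw [pow_one, hρ, h0] at this
      simpa using this.symm
    have h1 := dvd_of_sum_eq_zero (p := p) (a := a) μ (fun i => by
      obtain ⟨c, hc⟩ := orderOf_dvd_of_pow_eq_one hxa
      rw [hc, pow_mul, hμ, one_pow]) hsum
    have hdm : d = Module.finrank ℂ (Fin m → ℂ) := by
      have : ρ.character 1 = (d : ℂ) := by rw [hρ]; exact hd
      rw [Representation.char_one] at this
      exact_mod_cast this.symm
    exact P.not_dvd_index ((hdm ▸ h1).trans (degree_dvd_index_of_abelian χ.2 P hd))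
  have hpow : ∀ a b : ZMod n, g ^ (a.val * b.val) = g ^ (a * b).val := fun a b => by
    rw [ZMod.val_mul]
    exact pow_eq_pow_mod _ pow_card_eq_one'
  have hnorm : ∀ χ : IrrCharacter G,
      1 ≤ ∏ u : (ZMod n)ˣ, Complex.normSq (χ.1 (g ^ (u : ZMod n).val)) := by
    intro χ
    choose z hz hzφ using fun x : G => char_galois hζ χ.2.isCharacter (g := x) pow_card_eq_one'
    set W := ∏ u : (ZMod n)ˣ, z (g ^ (u : ZMod n).val) * z (g ^ (-(u : ZMod n)).val) with hW
    have hconj : ∀ u : (ZMod n)ˣ, χ.1 (g ^ (-(u : ZMod n)).val) = conj (χ.1 (g ^ (u : ZMod n).val)) := by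
      intro u
      rw [← char_inv_eq_conj χ.2.isCharacter]
      refine congrArg χ.1 ?_
      rw [eq_inv_iff_mul_eq_one, ← pow_add, pow_eq_pow_mod _ (pow_card_eq_one' (x := g)),
        ← ZMod.val_add, neg_add_cancel, ZMod.val_zero, pow_zero]
    have hWc : (W : ℂ) = ((∏ u : (ZMod n)ˣ, Complex.normSq (χ.1 (g ^ (u : ZMod n).val)) : ℝ) : ℂ) := by
      rw [hW, Complex.ofReal_prod]
      push_cast
      refine Finset.prod_congr rfl fun u _ => ?_
      rw [hz, hz, hconj, Complex.normSq_eq_conj_mul_self, mul_comm]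
    obtain ⟨q, hq⟩ := rat_of_fixed hζ W fun φ => by
      obtain ⟨k, hk, hkφ⟩ := galois_hom_gen hζ φ
      rw [hW, map_prod]
      push_cast
      refine Fintype.prod_equiv (Equiv.mulRight (ZMod.unitOfCoprime k hk)) _ _ fun u => ?_
      rw [map_mul, hzφ _ φ k hkφ, hzφ _ φ k hkφ, hz, hz, ← pow_mul, ← pow_mul, Equiv.coe_mulRight,
        Units.val_mul, ZMod.coe_unitOfCoprime, ← neg_mul]
      have hv : ∀ a : ZMod n, g ^ (a.val * k) = g ^ (a * (k : ZMod n)).val := fun a => by
        rw [← hpow]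
        rw [ZMod.val_natCast]
        refine pow_eq_pow_iff_modEq.mpr (Nat.ModEq.of_dvd (orderOf_dvd_natCard g) ?_)
        exact (Nat.ModEq.refl _).mul (Nat.mod_modEq k n).symm
      rw [hv, hv]
    have hint : IsIntegral ℤ (W : ℂ) := by
      rw [hW]
      push_cast
      exact IsIntegral.prod _ fun u _ => by
        rw [hz, hz]
        exact (char_isIntegral χ.2.isCharacter _).mul (char_isIntegral χ.2.isCharacter _)
    obtain ⟨N, hN⟩ := exists_int_of_isIntegral (hq ▸ hint)
    have heq : (∏ u : (ZMod n)ˣ, Complex.normSq (χ.1 (g ^ (u : ZMod n).val))) = (N : ℝ) := by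
      have h := (hWc.symm.trans hq).trans hN
      exact_mod_cast h
    have hpos : 0 < ∏ u : (ZMod n)ˣ, Complex.normSq (χ.1 (g ^ (u : ZMod n).val)) :=
      Finset.prod_pos fun u _ => Complex.normSq_pos.mpr (hne0 χ _ ((P : Subgroup G).pow_mem hg _))
    rw [heq] at hpos ⊢
    exact_mod_cast (show (1 : ℤ) ≤ N from Int.cast_pos.mp hpos)
  have hcol : ∀ u : (ZMod n)ˣ, ∑ χ : IrrCharacter G, Complex.normSq (χ.1 (g ^ (u : ZMod n).val)) =
      (Nat.card P : ℝ) := by
    intro u
    have h := column_orthogonality (g ^ (u : ZMod n).val) (g ^ (u : ZMod n).val)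
    rw [if_pos (IsConj.refl _)] at h
    have hcen : Subgroup.centralizer ({g ^ (u : ZMod n).val} : Set G) = P := by
      rw [← hC]
      ext x
      rw [Subgroup.mem_centralizer_singleton_iff, Subgroup.mem_centralizer_singleton_iff]
      refine ⟨fun hx => ?_, fun hx => ((show Commute x g from hx).pow_right _).eq⟩
      have hcomm : Commute x (g ^ (u : ZMod n).val) := hx
      have hg' : (g ^ (u : ZMod n).val) ^ ((u⁻¹ : (ZMod n)ˣ) : ZMod n).val = g := by
        rw [← pow_mul, hpow, Units.mul_inv, ZMod.val_one_eq_one_mod, ← pow_eq_pow_mod 1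
          (pow_card_eq_one' (x := g)), pow_one]
      have := hcomm.pow_right ((u⁻¹ : (ZMod n)ˣ) : ZMod n).val
      rw [hg'] at this
      exact this.eq
    rw [hcen] at h
    simp only [Complex.mul_conj] at h
    exact_mod_cast h
  set U := (ZMod n)ˣ
  have hbound := fun χ : IrrCharacter G => card_le_sum
    (fun u : U => Complex.normSq (χ.1 (g ^ (u : ZMod n).val)))
    (fun u => Complex.normSq_pos.mpr (hne0 χ _ ((P : Subgroup G).pow_mem hg _))) (hnorm χ)
  have htotal : ∑ χ : IrrCharacter G, ∑ u : U, Complex.normSq (χ.1 (g ^ (u : ZMod n).val)) =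
      (Fintype.card U : ℝ) * Nat.card P := by
    rw [Finset.sum_comm, Finset.sum_congr rfl fun u _ => hcol u, Finset.sum_const, Finset.card_univ,
      nsmul_eq_mul]
  have hU : 0 < (Fintype.card U : ℝ) := by exact_mod_cast Fintype.card_pos
  constructor
  · have h1 := Finset.sum_le_sum (s := Finset.univ) fun χ (_ : χ ∈ Finset.univ) => (hbound χ).1
    rw [htotal, Finset.sum_const, Finset.card_univ, nsmul_eq_mul, mul_comm] at h1
    rw [Nat.card_eq_fintype_card]
    exact_mod_cast le_of_mul_le_mul_left h1 hU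
  · intro heq
    have hone : ∀ (χ : IrrCharacter G) (u : U), Complex.normSq (χ.1 (g ^ (u : ZMod n).val)) = 1 := by
      intro χ
      refine (hbound χ).2 (le_antisymm ?_ (hbound χ).1)
      by_contra hlt
      push Not at hlt
      have h1 := Finset.sum_lt_sum (s := Finset.univ)
        (fun χ (_ : χ ∈ Finset.univ) => (hbound χ).1) ⟨χ, Finset.mem_univ χ, hlt⟩
      rw [htotal, Finset.sum_const, Finset.card_univ, nsmul_eq_mul, ← Nat.card_eq_fintype_card (α := IrrCharacter G), heq, mul_comm] at h1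
      exact lt_irrefl _ h1
    have hquot : ∀ θ : IrrCharacter (G ⧸ (P : Subgroup G)), (θ : G ⧸ (P : Subgroup G) → ℂ) 1 = 1 := by
      intro θ
      have h := hone ⟨_, isIrrCharacter_comp_surjective θ.2 (QuotientGroup.mk' (P : Subgroup G))
        (QuotientGroup.mk'_surjective _)⟩ 1
      obtain ⟨d, hd⟩ := exists_degree θ.2.isCharacter
      simp only [QuotientGroup.mk'_apply] at h
      rw [(QuotientGroup.eq_one_iff _).mpr ((P : Subgroup G).pow_mem hg _), hd, Complex.normSq_natCast] at h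
      have : d * d = 1 := by exact_mod_cast h
      rw [hd, Nat.eq_one_of_mul_eq_one_right this, Nat.cast_one]
    rw [commutator_def, Subgroup.commutator_le]
    intro a _ b _
    rw [← QuotientGroup.eq_one_iff]
    have := comm_of_linear hquot (a : G ⧸ (P : Subgroup G)) b
    simp only [commutatorElement_def, QuotientGroup.mk_mul, QuotientGroup.mk_inv, this]
    group

end Cfsg.Agent.S0861
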