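import Cfsg.Statements.S0862
import Cfsg.Agent.Lib.Characters.Extension

set_option autoImplicit false
open Cfsg

namespace Cfsg.Agent.S0862

open Cfsg Cfsg.Lib.Characters
open scoped ComplexConjugate

theorem pow_index_trivial {G : Type*} [Group G] [Finite G] {N : Subgroup G} [N.Normal]
    {M : Type*} [CommMonoid M] (f : G →* M) (hf : ∀ n : N, f n = 1) : f ^ N.index = 1 :=
  MonoidHom.ext fun g => by
    rw [MonoidHom.pow_apply, ← map_pow, hf ⟨_, Subgroup.pow_index_mem N g⟩, MonoidHom.one_apply]

/-- Let N be a normal subgroup of the finite group G and ϑ an irreducible character of N of degree d coprime to the index of N, which is the restriction of some irreducible character of G. Let μ be a character of G of degree 1 whose restriction to N is the determinantal character of ϑ. Then there is exactly one irreducible character χ of G restricting to ϑ whose determinantal character is μ. -/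
theorem result {G : Type*} [Group G] [Finite G] (N : Subgroup G) [N.Normal] (ϑ : N → ℂ) (hϑ : Cfsg.IsIrrCharacter N ϑ) (d : ℕ) (hd : ϑ 1 = d) (hcop : Nat.Coprime N.index d) (hext : ∃ η : G → ℂ, Cfsg.IsIrrCharacter G η ∧ (∀ n : N, η n = ϑ n)) (μ : G → ℂ) (hμ : Cfsg.IsCharacter G μ ∧ μ 1 = 1) (hμN : ∀ n : N, μ n = Cfsg.detChar ϑ n) : ∃! χ : G → ℂ, Cfsg.IsIrrCharacter G χ ∧ (∀ n : N, χ n = ϑ n) ∧ Cfsg.detChar χ = μ := by
  classical
  haveI := Fintype.ofFinite G
  obtain ⟨η, hη, hηN⟩ := hext
  have hη1 : η 1 = d := by rw [← hd, ← hηN 1]; rfl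
  have hresN : ∀ χ : G → ℂ, IsIrrCharacter G χ → (∀ n : N, χ n = ϑ n) →
      ∀ n : N, detChar χ n = detChar ϑ n := by
    intro χ hχ h n
    have := detChar_comp hχ.isCharacter N.subtype n
    rw [show (fun y => χ (N.subtype y)) = ϑ from funext h] at this
    exact this.symm
  obtain ⟨D, hD, -⟩ := exists_detHom hη.isCharacter
  obtain ⟨hμc, hμ1⟩ := hμ
  obtain ⟨m, rfl⟩ := exists_hom_of_degree_one hμc hμ1
  have hγ : ∀ n : N, (m / D) n = 1 := fun n => by
    rw [MonoidHom.div_apply, div_eq_one]
    exact Units.ext ((hμN n).trans ((hD n).trans (hresN η hη hηN n)).symm)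
  have hγt := pow_index_trivial (m / D) hγ
  obtain ⟨e, he1, he0⟩ := Nat.chineseRemainder hcop 1 0
  obtain ⟨k, hk⟩ := Nat.modEq_zero_iff_dvd.mp he0
  set β : G →* ℂˣ := (m / D) ^ k with hβ
  have hβd : β ^ d = m / D := by
    refine MonoidHom.ext fun g => ?_
    have hg : (m / D) g ^ N.index = 1 := by simpa using DFunLike.congr_fun hγt g
    rw [hβ, MonoidHom.pow_apply, MonoidHom.pow_apply, ← pow_mul, mul_comm, ← hk,
      pow_eq_pow_mod e hg, he1, ← pow_eq_pow_mod 1 hg, pow_one]
  set χ : G → ℂ := fun g => (β g : ℂ) * η g with hχ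
  have hχN : ∀ n : N, χ n = ϑ n := fun n => by
    have : β n = 1 := by rw [hβ, MonoidHom.pow_apply, hγ, one_pow]
    simp [hχ, this, hηN]
  have hχirr : IsIrrCharacter G χ :=
    isIrrCharacter_of_comp N.subtype
      (isCharacter_mul (isIrrCharacter_linear β).isCharacter hη.isCharacter)
      (by rw [show (fun y => χ (N.subtype y)) = ϑ from funext hχN]; exact hϑ)
  refine ⟨χ, ⟨hχirr, hχN, funext fun g => ?_⟩, ?_⟩
  · rw [detChar_linear_mul hη.isCharacter hη1 β g, ← Units.val_pow_eq_pow_val,
      ← MonoidHom.pow_apply, hβd, ← hD, ← Units.val_mul, MonoidHom.div_apply, div_mul_cancel]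
  · rintro χ' ⟨hχ'i, hχ'N, hχ'd⟩
    obtain ⟨ν, hνN, hν⟩ := exists_linear_of_extensions hη hχ'i (M := N)
      (fun n => (hχ'N n).trans (hηN n).symm)
      (by rw [show (fun n : N => η n) = ϑ from funext hηN]; exact hϑ)
    have h1 : ν ^ d = m / D := by
      refine MonoidHom.ext fun g => ?_
      rw [MonoidHom.div_apply, eq_div_iff_mul_eq']
      refine Units.ext ?_
      rw [Units.val_mul, MonoidHom.pow_apply, Units.val_pow_eq_pow_val, hD,
        ← detChar_linear_mul hη.isCharacter hη1 ν g, show (fun x => (ν x : ℂ) * η x) = χ' from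
          funext hν, hχ'd]
    have h2 : ν = β := by
      have hνt := pow_index_trivial ν (fun n => hνN n n.2)
      refine MonoidHom.ext fun g => ?_
      have hg : ν g ^ N.index = 1 := by simpa using DFunLike.congr_fun hνt g
      rw [hβ, ← h1, MonoidHom.pow_apply, MonoidHom.pow_apply, ← pow_mul, ← hk,
        pow_eq_pow_mod e hg, he1, ← pow_eq_pow_mod 1 hg, pow_one]
    funext g
    rw [← hν g, h2]

end Cfsg.Agent.S0862
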