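import Cfsg.Statements.S0864
import Cfsg.Agent.Lib.Characters.Extension

set_option autoImplicit false
open Cfsg

namespace Cfsg.Agent.S0864

open Cfsg Cfsg.Lib.Characters
open scoped ComplexConjugate

/-- Let N be a normal subgroup of the finite group G and λ a character of N of degree 1 invariant under conjugation by G. Suppose that for every prime p dividing the order of λ (in the group of functions under pointwise multiplication) there is a subgroup H containing N, of index prime to p and with the index of N in H a power of p, together with a character of H of degree 1 restricting to λ. Then λ is the restriction of a character of G of degree 1. -/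
theorem result {G : Type*} [Group G] [Finite G] (N : Subgroup G) [hN : N.Normal] (lam : N → ℂ) (hlam : Cfsg.IsCharacter N lam ∧ lam 1 = 1) (hinv : ∀ (g : G) (n : N), lam ⟨g * n * g⁻¹, hN.conj_mem (n : G) n.2 g⟩ = lam n) (hsyl : ∀ p : ℕ, p.Prime → p ∣ orderOf lam → ∃ (H : Subgroup G) (hNH : N ≤ H) (ν : H → ℂ), Nat.Coprime H.index p ∧ (∃ k : ℕ, N.relIndex H = p ^ k) ∧ Cfsg.IsCharacter H ν ∧ ν 1 = 1 ∧ ∀ n : N, ν ⟨(n : G), hNH n.2⟩ = lam n) : ∃ μ : G → ℂ, Cfsg.IsCharacter G μ ∧ μ 1 = 1 ∧ ∀ n : N, μ n = lam n := by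
  classical
  haveI := Fintype.ofFinite G
  obtain ⟨hlamc, hlam1⟩ := hlam
  obtain ⟨l, rfl⟩ := exists_hom_of_degree_one hlamc hlam1
  have hlo : ∀ n : N, (l n : ℂ) ^ orderOf (fun g : N => (l g : ℂ)) = 1 := fun n => by
    have := congrFun (pow_orderOf_eq_one fun g : N => (l g : ℂ)) n
    simpa using this
  obtain ⟨χ, hχ, hχN⟩ := exists_extension_of_local (isIrrCharacter_linear l)
    (fun g => funext fun n => hinv g n) fun p hp => by
      by_cases hpo : p ∣ orderOf (fun g : N => (l g : ℂ))
      · obtain ⟨H, hNH, ν, hidx, -, hν, hν1, hνN⟩ := hsyl p hp hpo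
        obtain ⟨m, rfl⟩ := exists_hom_of_degree_one hν hν1
        exact ⟨H, hNH, _, Or.inl ⟨hidx, isIrrCharacter_linear m, hνN⟩⟩
      · exact ⟨N, le_rfl, fun g => (l g : ℂ), Or.inr
          ⟨1, orderOf (fun g : N => (l g : ℂ)), 1, by simp, by rwa [one_mul],
            fun n => by rw [detChar_linear, hlo]; simp⟩⟩
  exact ⟨χ, hχ.isCharacter, by simpa using hχN 1, hχN⟩

end Cfsg.Agent.S0864
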