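import Cfsg.Statements.S0865
import Cfsg.Agent.Lib.Characters.Extension

set_option autoImplicit false
open Cfsg

namespace Cfsg.Agent.S0865

open Cfsg Cfsg.Lib.Characters
open scoped ComplexConjugate

theorem pow_index_trivial {G : Type*} [Group G] [Finite G] {N : Subgroup G} [N.Normal]
    {M : Type*} [CommMonoid M] (f : G →* M) (hf : ∀ n : N, f n = 1) : f ^ N.index = 1 :=
  MonoidHom.ext fun g => by
    rw [MonoidHom.pow_apply, ← map_pow, hf ⟨_, Subgroup.pow_index_mem N g⟩, MonoidHom.one_apply]

/-- Let N be a normal subgroup of the finite group G and λ a character of N of degree 1, invariant under conjugation by G, whose order (under pointwise multiplication) is coprime to the index of N. Then there is a character μ of G of degree 1 restricting to λ with the same order as λ, and μ is the only degree-1 character of G restricting to λ whose order is coprime to the index of N. -/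
theorem result {G : Type*} [Group G] [Finite G] (N : Subgroup G) [hN : N.Normal] (lam : N → ℂ) (hlam : Cfsg.IsCharacter N lam ∧ lam 1 = 1) (hinv : ∀ (g : G) (n : N), lam ⟨g * n * g⁻¹, hN.conj_mem (n : G) n.2 g⟩ = lam n) (hcop : Nat.Coprime N.index (orderOf lam)) : ∃ μ : G → ℂ, (Cfsg.IsCharacter G μ ∧ μ 1 = 1 ∧ (∀ n : N, μ n = lam n) ∧ orderOf μ = orderOf lam) ∧ ∀ μ' : G → ℂ, Cfsg.IsCharacter G μ' ∧ μ' 1 = 1 → (∀ n : N, μ' n = lam n) → Nat.Coprime N.index (orderOf μ') → μ' = μ := by
  classical
  haveI := Fintype.ofFinite G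
  obtain ⟨hlamc, hlam1⟩ := hlam
  obtain ⟨l, rfl⟩ := exists_hom_of_degree_one hlamc hlam1
  set o := orderOf (fun n : N => (l n : ℂ)) with ho
  have hlo : ∀ n : N, (l n : ℂ) ^ o = 1 := fun n => by
    have := congrFun (pow_orderOf_eq_one fun n : N => (l n : ℂ)) n
    simpa [← ho] using this
  have hdet : ∀ n : N, detChar (fun n : N => (l n : ℂ)) n = (l n : ℂ) := by
    intro n
    let ρ : Representation ℂ N ℂ :=
      { toFun := fun m => (l m : ℂ) • LinearMap.id
        map_one' := by simp; rfl
        map_mul' := fun a b => by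
          ext
          simp [Module.End.mul_eq_comp]
          ring }
    have hρ : ρ.character = fun n : N => (l n : ℂ) := funext fun m => by
      show LinearMap.trace ℂ ℂ ((l m : ℂ) • LinearMap.id) = _
      simp
    rw [detChar_eq ρ hρ n]
    rw [show ρ n = (l n : ℂ) • LinearMap.id from rfl]
    simp
  obtain ⟨χ, hχ, hχN⟩ := exists_extension_of_coprime (isIrrCharacter_linear l)
    (fun g => funext fun n => hinv g n) (d := 1) (by simp) (m := o)
    (fun n => by rw [hdet]; exact hlo n) (by rwa [one_mul])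
  have hχ1 : χ 1 = 1 := by
    have := hχN 1
    simpa using this
  obtain ⟨m₀, rfl⟩ := exists_hom_of_degree_one hχ.isCharacter hχ1
  replace hχN : ∀ n : N, (m₀ n : ℂ) = l n := hχN
  obtain ⟨e, he1, he0⟩ := Nat.chineseRemainder hcop.symm 1 0
  have heN : ∀ n : N, (m₀ n : ℂ) ^ e = l n := by
    intro n
    rw [hχN n, pow_eq_pow_mod e (hlo n), he1, ← pow_eq_pow_mod 1 (hlo n), pow_one]
  set μ : G → ℂ := fun g => ((m₀ ^ e) g : ℂ) with hμ
  have hμN : ∀ n : N, μ n = (l n : ℂ) := fun n => by simpa [hμ] using heN n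
  have hkill : ∀ f : G →* ℂˣ, (∀ n : N, (f n : ℂ) ^ o = 1) →
      ∀ g, (f g : ℂ) ^ (o * N.index) = 1 := by
    intro f hf g
    have := DFunLike.congr_fun (pow_index_trivial (N := N) (f ^ o) fun n => Units.ext (by
      simpa using hf n)) g
    rw [MonoidHom.pow_apply, MonoidHom.pow_apply, ← pow_mul, MonoidHom.one_apply] at this
    rw [← Units.val_pow_eq_pow_val, this, Units.val_one]
  have hμo : μ ^ o = 1 := by
    funext g
    have hd : o * N.index ∣ o * e :=
      Nat.mul_dvd_mul_left o (Nat.modEq_zero_iff_dvd.mp he0)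
    obtain ⟨c, hc⟩ := hd
    simp only [hμ, Pi.pow_apply, MonoidHom.pow_apply, Units.val_pow_eq_pow_val, ← pow_mul,
      Pi.one_apply]
    rw [mul_comm e o, hc, pow_mul, hkill m₀ (fun n => by rw [hχN n]; exact hlo n) g, one_pow]
  refine ⟨μ, ⟨(isIrrCharacter_linear (m₀ ^ e)).isCharacter, by simp [hμ], hμN, ?_⟩, ?_⟩
  · refine Nat.dvd_antisymm (orderOf_dvd_of_pow_eq_one hμo)
      (orderOf_dvd_of_pow_eq_one (funext fun n => ?_))
    have := congrFun (pow_orderOf_eq_one μ) (n : G)
    simpa [hμN] using this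
  · rintro μ' ⟨hμ'c, hμ'1⟩ hμ'N hcop'
    obtain ⟨m₁, rfl⟩ := exists_hom_of_degree_one hμ'c hμ'1
    replace hμ'N : ∀ n : N, (m₁ n : ℂ) = l n := hμ'N
    have h1o : ∀ g, (m₁ g : ℂ) ^ o = 1 := by
      intro g
      have hfun : (fun g => (m₁ g : ℂ)) ^ (o * N.index) = 1 := funext fun g =>
        hkill m₁ (fun n => by rw [hμ'N n]; exact hlo n) g
      have hdvd := hcop'.symm.dvd_of_dvd_mul_right (orderOf_dvd_of_pow_eq_one hfun)
      exact congrFun (orderOf_dvd_iff_pow_eq_one.mp hdvd) g
    funext g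
    have h3 : m₁ g ^ N.index = (m₀ ^ e) g ^ N.index := by
      have := DFunLike.congr_fun (pow_index_trivial (m₁ / m₀ ^ e) (N := N) fun n => by
        have h := hμN n
        rw [MonoidHom.div_apply, div_eq_one]
        exact Units.ext ((hμ'N n).trans h.symm)) g
      rw [MonoidHom.pow_apply, MonoidHom.one_apply, MonoidHom.div_apply, div_pow, div_eq_one]
        at this
      exact this
    have h4 : m₁ g ^ o = (m₀ ^ e) g ^ o := by
      refine Units.ext ?_
      rw [Units.val_pow_eq_pow_val, Units.val_pow_eq_pow_val, h1o]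
      exact (congrFun hμo g).symm
    have h5 : (m₁ g / (m₀ ^ e) g) ^ Nat.gcd N.index o = 1 :=
      pow_gcd_eq_one.mpr ⟨(by rw [div_pow, h3, div_self']), (by rw [div_pow, h4, div_self'])⟩
    rw [Nat.Coprime.gcd_eq_one hcop, pow_one, div_eq_one] at h5
    exact congrArg Units.val h5

end Cfsg.Agent.S0865
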