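import Cfsg.Statements.S0866
import Cfsg.Agent.Lib.Characters.Extension

set_option autoImplicit false
open Cfsg

namespace Cfsg.Agent.S0866

open Cfsg Cfsg.Lib.Characters
open scoped ComplexConjugate

/-- Let N be a normal subgroup of the finite group G and ϑ an irreducible character of N, invariant under conjugation by G, of degree d coprime to the index of N. Then ϑ is the restriction of an irreducible character of G if and only if the determinantal character of ϑ is the restriction of a character of G of degree 1. -/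
theorem result {G : Type*} [Group G] [Finite G] (N : Subgroup G) [hN : N.Normal] (ϑ : N → ℂ) (hϑ : Cfsg.IsIrrCharacter N ϑ) (hinv : ∀ (g : G) (n : N), ϑ ⟨g * n * g⁻¹, hN.conj_mem (n : G) n.2 g⟩ = ϑ n) (d : ℕ) (hd : ϑ 1 = d) (hcop : Nat.Coprime N.index d) : (∃ χ : G → ℂ, Cfsg.IsIrrCharacter G χ ∧ (∀ n : N, χ n = ϑ n)) ↔ ∃ μ : G → ℂ, Cfsg.IsCharacter G μ ∧ μ 1 = 1 ∧ ∀ n : N, μ n = Cfsg.detChar ϑ n := by
  classical
  haveI := Fintype.ofFinite G
  constructor
  · rintro ⟨χ, hχ, hχN⟩
    refine ⟨detChar χ, (detChar_isLinear hχ.isCharacter).1, (detChar_isLinear hχ.isCharacter).2,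
      fun n => ?_⟩
    have := detChar_comp hχ.isCharacter N.subtype n
    rw [show (fun y => χ (N.subtype y)) = ϑ from funext hχN] at this
    exact this.symm
  · rintro ⟨μ, hμ, hμ1, hμN⟩
    obtain ⟨m, rfl⟩ := exists_hom_of_degree_one hμ hμ1
    refine exists_extension_of_local hϑ (fun g => funext fun n => hinv g n) fun p hp => ?_
    by_cases hpi : p ∣ N.index
    · refine ⟨N, le_rfl, ϑ, Or.inr ⟨d, 1, m, hd, ?_, fun n => by rw [pow_one]; exact (hμN n).symm⟩⟩
      rw [mul_one]
      exact fun h => hp.not_dvd_one (hcop ▸ Nat.dvd_gcd hpi h)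
    · exact ⟨N, le_rfl, ϑ, Or.inl ⟨(hp.coprime_iff_not_dvd.mpr hpi).symm, hϑ, fun n => rfl⟩⟩

end Cfsg.Agent.S0866
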