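import Cfsg.Statements.S0867
import Cfsg.Agent.Lib.Characters.Extension
import Cfsg.Agent.S0862
import Cfsg.Agent.S0865

set_option autoImplicit false
open Cfsg

namespace Cfsg.Agent.S0867

open Cfsg Cfsg.Lib.Characters
open scoped ComplexConjugate

/-- Let N be a normal subgroup of the finite group G and ϑ an irreducible character of N of degree d, invariant under conjugation by G, such that the index of N is coprime to the product of d and the determinantal order of ϑ. Then there is an irreducible character χ of G restricting to ϑ whose determinantal order equals that of ϑ, and χ is the only irreducible character of G restricting to ϑ whose determinantal order is coprime to the index of N. -/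
theorem result {G : Type*} [Group G] [Finite G] (N : Subgroup G) [hN : N.Normal] (ϑ : N → ℂ) (hϑ : Cfsg.IsIrrCharacter N ϑ) (hinv : ∀ (g : G) (n : N), ϑ ⟨g * n * g⁻¹, hN.conj_mem (n : G) n.2 g⟩ = ϑ n) (d : ℕ) (hd : ϑ 1 = d) (hcop : Nat.Coprime N.index (Cfsg.detOrder ϑ * d)) : ∃ χ : G → ℂ, (Cfsg.IsIrrCharacter G χ ∧ (∀ n : N, χ n = ϑ n) ∧ Cfsg.detOrder χ = Cfsg.detOrder ϑ) ∧ ∀ χ' : G → ℂ, Cfsg.IsIrrCharacter G χ' → (∀ n : N, χ' n = ϑ n) → Nat.Coprime N.index (Cfsg.detOrder χ') → χ' = χ := by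
  classical
  haveI := Fintype.ofFinite G
  have hinv' : ∀ (g : G) (n : N), Cfsg.detChar ϑ ⟨g * n * g⁻¹, hN.conj_mem (n : G) n.2 g⟩ =
      Cfsg.detChar ϑ n := by
    intro g n
    have := detChar_comp hϑ.isCharacter (MulAut.conjNormal g : N ≃* N).toMonoidHom n
    rw [show (fun y => ϑ ((MulAut.conjNormal g : N ≃* N).toMonoidHom y)) = ϑ from
      (conjFn_eq_comp ϑ g).symm.trans (funext fun x => hinv g x)] at this
    refine Eq.trans (congrArg _ (Subtype.ext ?_)) this.symm
    simp [MulAut.conjNormal_apply]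
  obtain ⟨μ, ⟨hμc, hμ1, hμN, hμo⟩, huniq⟩ := Cfsg.Agent.S0865.result N (Cfsg.detChar ϑ)
    (detChar_isLinear hϑ.isCharacter) hinv' hcop.coprime_mul_right_right
  obtain ⟨D, hD, -⟩ := exists_detHom hϑ.isCharacter
  obtain ⟨η, hη, hηN⟩ := exists_extension_of_coprime hϑ (fun g => funext fun n => hinv g n) hd
    (m := Cfsg.detOrder ϑ)
    (fun n => congrFun (pow_orderOf_eq_one (Cfsg.detChar ϑ)) n) (by rwa [mul_comm])
  obtain ⟨χ, ⟨hχ, hχN, hχd⟩, hχu⟩ := Cfsg.Agent.S0862.result N ϑ hϑ d hd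
    hcop.coprime_mul_left_right ⟨η, hη, hηN⟩ μ ⟨hμc, hμ1⟩ hμN
  refine ⟨χ, ⟨hχ, hχN, by rw [Cfsg.detOrder, hχd, hμo]; rfl⟩, fun χ' hχ' hχ'N hcop' => ?_⟩
  refine hχu χ' ⟨hχ', hχ'N, huniq _ (detChar_isLinear hχ'.isCharacter) (fun n => ?_) hcop'⟩
  have := detChar_comp hχ'.isCharacter N.subtype n
  rw [show (fun y => χ' (N.subtype y)) = ϑ from funext hχ'N] at this
  exact this.symm

end Cfsg.Agent.S0867
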