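import Cfsg.Statements.S0868
import Cfsg.Agent.Lib.Characters.Gallagher
import Cfsg.Agent.Lib.Characters.Coherence.Frobenius

set_option autoImplicit false
open scoped ComplexConjugate
open Cfsg

namespace Cfsg.Agent.S0868

open Cfsg Cfsg.Lib.Characters
open scoped ComplexConjugate

theorem sum_coset_eq_zero {G : Type*} [Group G] [Fintype G] {N : Subgroup G} [N.Normal] [Fintype N]
    {β : G → ℂ} (hβ : IsIrrCharacter G β) (h : ∑ n : N, β n = 0) (g : G) :
    ∑ n : N, β ((n : G) * g) = 0 := by
  obtain ⟨d, ρ, hρ, rfl⟩ := hβ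
  haveI := hρ
  have hcomm : ∀ x : G, (∑ n : N, ρ n) * ρ x = ρ x * ∑ n : N, ρ n := by
    intro x
    simp only [Finset.sum_mul, Finset.mul_sum, ← map_mul]
    refine Fintype.sum_equiv (MulAut.conjNormal x⁻¹ : N ≃* N).toEquiv _ _ fun n => congrArg ρ ?_
    simp [MulAut.conjNormal_apply, mul_assoc]
  obtain ⟨c, hc⟩ := schur_scalar ρ (∑ n : N, ρ n) hcomm
  have htr : ∀ x : G, ∑ n : N, ρ.character ((n : G) * x) = c * ρ.character x := by
    intro x
    have := congrArg (fun T => LinearMap.trace ℂ (Fin d → ℂ) (T * ρ x)) hc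
    simp only [Finset.sum_mul, map_sum, ← map_mul] at this
    refine this.trans ?_
    rw [show (c • LinearMap.id : Module.End ℂ (Fin d → ℂ)) * ρ x = c • ρ x from by
      ext v; simp [Module.End.mul_eq_comp], map_smul, smul_eq_mul]
    rfl
  have h1 := htr 1
  simp only [mul_one] at h1
  rw [h] at h1
  have hd : ρ.character 1 ≠ 0 := (isIrrCharacter_character ρ).one_ne_zero
  rw [htr, (mul_eq_zero.mp h1.symm).resolve_right hd, zero_mul]

/-- The inner product of an average over cosets with a character constant on them. -/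
theorem inner_avg {G : Type*} [Group G] [Fintype G] (N : Subgroup G) [Fintype N] (χ ψ β : G → ℂ)
    (hcos : ∀ (n : N) (g : G), β ((n : G) * g) = β g) :
    classInner (fun g => (Nat.card N : ℂ)⁻¹ * ∑ n : N, ψ ((n : G) * g) * conj (χ ((n : G) * g))) β =
      classInner ψ (β * χ) := by
  simp only [classInner, Pi.mul_apply, map_mul, Finset.mul_sum, Finset.sum_mul]
  rw [Finset.sum_comm]
  have hne : (Nat.card N : ℂ) ≠ 0 := Nat.cast_ne_zero.mpr Nat.card_pos.ne'
  calc ∑ n : N, ∑ g : G, (Nat.card G : ℂ)⁻¹ *
          ((Nat.card N : ℂ)⁻¹ * (ψ ((n : G) * g) * conj (χ ((n : G) * g))) * conj (β g))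
      = ∑ n : N, (Nat.card N : ℂ)⁻¹ * ∑ g : G, (Nat.card G : ℂ)⁻¹ *
          (ψ g * (conj (β g) * conj (χ g))) := Finset.sum_congr rfl fun n _ => by
        rw [Finset.mul_sum]
        refine Fintype.sum_equiv (Equiv.mulLeft (n : G)) _ _ fun g => ?_
        simp only [Equiv.coe_mulLeft, hcos]
        ring
    _ = _ := by
        rw [Finset.sum_const, Finset.card_univ, nsmul_eq_mul, ← Nat.card_eq_fintype_card,
          ← mul_assoc, mul_inv_cancel₀ hne, one_mul]

/-- Let N be a normal subgroup of the finite group G, χ an irreducible character of G whose restriction ϑ to N is irreducible, and ψ an irreducible character of G. Define η on G by η g = (1 / order of N) * Σ over n in N of ψ (n * g) * conj (χ (n * g)). Then: if the restriction of ψ to N has nonzero inner product with ϑ, η is an irreducible character of G; if that inner product is zero, η vanishes identically; and if ψ = χ then η is identically 1. -/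
theorem result {G : Type*} [Group G] [Fintype G] (N : Subgroup G) [N.Normal] [Fintype N] (χ : G → ℂ) (hχ : Cfsg.IsIrrCharacter G χ) (hχN : Cfsg.IsIrrCharacter N (fun n : N => χ n)) (ψ : G → ℂ) (hψ : Cfsg.IsIrrCharacter G ψ) (η : G → ℂ) (hη : η = fun g => (Nat.card N : ℂ)⁻¹ * ∑ n : N, ψ ((n : G) * g) * conj (χ ((n : G) * g))) : (Cfsg.classInner (fun n : N => ψ n) (fun n : N => χ n) ≠ 0 → Cfsg.IsIrrCharacter G η) ∧ (Cfsg.classInner (fun n : N => ψ n) (fun n : N => χ n) = 0 → η = 0) ∧ (ψ = χ → η = fun _ => 1) := by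
  classical
  have hcl : IsClassFunction G η := by
    intro g x
    subst hη
    show (Nat.card N : ℂ)⁻¹ * _ = (Nat.card N : ℂ)⁻¹ * _
    congr 1
    refine Fintype.sum_equiv (MulAut.conjNormal x⁻¹ : N ≃* N).toEquiv _ _ fun n => ?_
    have h1 : (((MulAut.conjNormal x⁻¹ : N ≃* N).toEquiv n : N) : G) * g =
        x⁻¹ * ((n : G) * (x * g * x⁻¹)) * x⁻¹⁻¹ := by
      simp [MulAut.conjNormal_apply, mul_assoc]
    rw [h1, hψ.isClassFunction, hχ.isClassFunction]
  have hcoset : ∀ (n : N) (g : G), η ((n : G) * g) = η g := by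
    intro n g
    subst hη
    show (Nat.card N : ℂ)⁻¹ * _ = (Nat.card N : ℂ)⁻¹ * _
    congr 1
    refine Fintype.sum_equiv (Equiv.mulRight n) _ _ fun m => ?_
    simp [mul_assoc]
  have hone : ∀ g, conjFn N (fun _ : N => (1 : ℂ)) g = fun _ => 1 := fun g => rfl
  have hprod : (fun _ : N => (1 : ℂ)) * (fun n : N => χ n) = fun n : N => χ n := by
    funext n; simp
  obtain ⟨hmul, hinj, hall⟩ := gallagher (φ := fun _ : N => (1 : ℂ)) (θ := fun n : N => χ n)
    isIrrCharacter_one hone (fun g => res_conjFn hχ.isClassFunction g) (hprod.symm ▸ hχN) hχ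
    fun n => rfl
  rw [hprod] at hall
  have htriv : ∀ β : G → ℂ, IsIrrCharacter G β →
      (classInner (indFun N fun _ => 1) β ≠ 0 ↔ ∑ n : N, β n ≠ 0) := by
    intro β hβ
    rw [classInner_indFun N _ hβ.isClassFunction, ← conj_classInner]
    simp [classInner, ← map_sum, map_eq_zero]
  have hinner : ∀ β : IrrCharacter G, classInner η β.1 =
      if classInner (indFun N fun _ => 1) β.1 ≠ 0 then classInner ψ (β.1 * χ) else 0 := by
    intro β
    split_ifs with h
    · have hker : ∀ n ∈ N, β.1 n = β.1 1 := by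
        by_contra hT
        exact (htriv β.1 β.2).mp h (Coherence.sum_irr_subgroup_eq_zero β.2 hT)
      obtain ⟨f, -, -, hf⟩ := exists_of_quotient β.2.isCharacter hker
      rw [hη]
      refine inner_avg N χ ψ β.1 fun n g => ?_
      rw [← hf, ← hf, QuotientGroup.mk_mul, (QuotientGroup.eq_one_iff (n : G)).mpr n.2, one_mul]
    · have h0 : ∑ n : N, β.1 n = 0 := not_not.mp fun h' => h ((htriv β.1 β.2).mpr h')
      have hkey : ∀ n : N, classInner η β.1 = classInner η fun g => β.1 ((n : G) * g) := by
        intro n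
        rw [classInner, classInner]
        congr 1
        symm
        refine Fintype.sum_equiv (Equiv.mulLeft (n : G)) _ _ fun g => ?_
        simp [hcoset]
      have hsum : (Fintype.card N : ℂ) * classInner η β.1 = 0 := by
        have h' : (Fintype.card N : ℂ) * classInner η β.1 =
            ∑ n : N, classInner η fun g => β.1 ((n : G) * g) := by
          rw [← Finset.sum_congr rfl fun n _ => hkey n, Finset.sum_const, Finset.card_univ,
            nsmul_eq_mul]
        rw [h']
        rw [← classInner_sum_right]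
        have : (∑ n : N, fun g => β.1 ((n : G) * g)) = 0 := by
          funext g
          rw [Finset.sum_apply, sum_coset_eq_zero β.2 h0 g]
          rfl
        rw [this, classInner_zero_right]
      exact (mul_eq_zero.mp hsum).resolve_left (Nat.cast_ne_zero.mpr Fintype.card_ne_zero)
  have hres0 : classInner (fun n : N => ψ n) (fun n : N => χ n) ≠ 0 ↔
      classInner (indFun N fun n : N => χ n) ψ ≠ 0 := by
    rw [classInner_indFun N _ hψ.isClassFunction, ← conj_classInner]
    simp
  have hexp := classFunction_expansion hcl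
  have hzero : classInner (fun n : N => ψ n) (fun n : N => χ n) = 0 → η = 0 := by
    intro h0
    rw [hexp]
    refine Finset.sum_eq_zero fun β _ => ?_
    rw [hinner]
    split_ifs with h
    · obtain ⟨h1, h2⟩ := hmul β.1 β.2 h
      rw [classInner_irr_ne hψ h1, zero_smul]
      rintro rfl
      rw [hprod] at h2
      exact (hres0.mpr h2) h0
    · exact zero_smul ℂ _
  have hkey : ∀ β : G → ℂ, IsIrrCharacter G β → classInner (indFun N fun _ => 1) β ≠ 0 →
      β * χ = ψ → η = β := by
    intro β hβ hβN hβψ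
    rw [hexp, Finset.sum_eq_single ⟨β, hβ⟩]
    · rw [hinner, if_pos hβN, hβψ, classInner_irr_self hψ, one_smul]
    · intro γ _ hγ
      rw [hinner]
      split_ifs with h
      · rw [classInner_irr_ne hψ (hmul γ.1 γ.2 h).1, zero_smul]
        exact fun heq => hγ (Subtype.ext (hinj γ.1 β γ.2 hβ h hβN (heq.symm.trans hβψ.symm)))
      · exact zero_smul ℂ _
    · exact fun h => absurd (Finset.mem_univ _) h
  refine ⟨fun hne => ?_, hzero, fun heq => ?_⟩
  · obtain ⟨β, hβ, hβN, hβψ⟩ := hall ψ hψ (hres0.mp hne)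
    rw [hkey β hβ hβN hβψ]
    exact hβ
  · refine hkey _ isIrrCharacter_one ((htriv _ isIrrCharacter_one).mpr ?_) ?_
    · simp
    · rw [heq]; funext g; simp

end Cfsg.Agent.S0868
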