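import Cfsg.Statements.S0870
import Cfsg.Agent.Lib.Characters.QuasiElementary

set_option autoImplicit false
open Cfsg

namespace Cfsg.Agent.S0870

open Cfsg Cfsg.Lib.Characters
open scoped ComplexConjugate

theorem fixCount_eq_sum {G : Type*} [Group G] [Finite G] (X : Type*) [MulAction G X] [Finite X]
    [Fintype (MulAction.orbitRel.Quotient G X)] (r : MulAction.orbitRel.Quotient G X → X)
    (hr : ∀ ω, (Quotient.mk'' (r ω) : MulAction.orbitRel.Quotient G X) = ω) (g : G) :
    fixCount X g = ∑ ω, fixCount (G ⧸ MulAction.stabilizer G (r ω)) g := by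
  classical
  simp only [fixCount]
  rw [← Nat.cast_sum, ← Nat.card_sigma, Nat.cast_inj]
  symm
  refine Nat.card_eq_of_bijective
    (fun z => ⟨MulAction.ofQuotientStabilizer G (r z.1) z.2.1, by
      rw [← MulAction.ofQuotientStabilizer_smul, z.2.2]⟩) ⟨?_, ?_⟩
  · rintro ⟨ω, q, hq⟩ ⟨ω', q', hq'⟩ heq
    simp only [Subtype.mk.injEq] at heq
    have hω : ω = ω' := by
      induction q using QuotientGroup.induction_on with
      | _ a =>
        induction q' using QuotientGroup.induction_on with
        | _ b =>
          simp only [MulAction.ofQuotientStabilizer_mk] at heq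
          rw [← hr ω, ← hr ω']
          refine Quotient.sound (MulAction.orbitRel_apply.mpr ⟨a⁻¹ * b, ?_⟩)
          simp [mul_smul, ← heq]
    subst hω
    obtain rfl := MulAction.injective_ofQuotientStabilizer _ _ heq
    rfl
  · rintro ⟨x, hx⟩
    set ω : MulAction.orbitRel.Quotient G X := Quotient.mk'' x
    obtain ⟨a, ha⟩ : x ∈ MulAction.orbit G (r ω) :=
      MulAction.orbitRel_apply.mp (Quotient.exact (hr ω).symm)
    have ha' : MulAction.ofQuotientStabilizer G (r ω) ↑a = x := ha
    refine ⟨⟨ω, (a : G ⧸ MulAction.stabilizer G (r ω)), ?_⟩, Subtype.ext ha'⟩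
    refine MulAction.injective_ofQuotientStabilizer G _ ?_
    rw [MulAction.ofQuotientStabilizer_smul, ha', hx]

/-- For subgroups H and K of a finite group G, the pointwise product of the functions induced from the constant function 1 on H and on K is a sum, over subgroups U of H with natural-number coefficients, of the functions induced from the constant function 1 on U. -/
theorem result {G : Type*} [Group G] [Fintype G] (H K : Subgroup G) : ∃ a : Subgroup G → ℕ, (∀ U, a U ≠ 0 → U ≤ H) ∧ Cfsg.indFun H (fun _ => 1) * Cfsg.indFun K (fun _ => 1) = ∑ U : Subgroup G, (a U : ℂ) • Cfsg.indFun U (fun _ => 1) := by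
  classical
  let X := (G ⧸ H) × (G ⧸ K)
  haveI : Fintype (MulAction.orbitRel.Quotient G X) := Fintype.ofFinite _
  have hrep : ∀ ω : MulAction.orbitRel.Quotient G X, ∃ z : X,
      (Quotient.mk'' z : MulAction.orbitRel.Quotient G X) = ω ∧ z.1 = ((1 : G) : G ⧸ H) := by
    intro ω
    induction ω using Quotient.inductionOn' with
    | h z =>
      obtain ⟨a, ha⟩ := QuotientGroup.mk_surjective z.1
      refine ⟨a⁻¹ • z, Quotient.sound (MulAction.orbitRel_apply.mpr ⟨a⁻¹, rfl⟩), ?_⟩
      rw [Prod.smul_fst, ← ha, MulAction.Quotient.smul_coe, smul_eq_mul, inv_mul_cancel]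
  choose r hr hr1 using hrep
  refine ⟨fun U => (Finset.univ.filter fun ω => MulAction.stabilizer G (r ω) = U).card,
    fun U hU => ?_, funext fun g => ?_⟩
  · obtain ⟨ω, hω⟩ := Finset.card_ne_zero.mp hU
    rw [← (Finset.mem_filter.mp hω).2]
    intro u hu
    have h1 : u • ((1 : G) : G ⧸ H) = ((1 : G) : G ⧸ H) := by
      rw [← hr1 ω]
      exact congrArg Prod.fst (MulAction.mem_stabilizer_iff.mp hu)
    rw [← MulAction.mem_stabilizer_iff, MulAction.stabilizer_quotient] at h1
    exact h1
  · have hprod : fixCount (G ⧸ H) g * fixCount (G ⧸ K) g = fixCount X g := by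
      simp only [fixCount, X]
      rw [← Nat.cast_mul, ← Nat.card_prod, Nat.cast_inj]
      exact Nat.card_congr ((Equiv.subtypeProdEquivProd).symm.trans
        (Equiv.subtypeEquivRight fun z => by rw [Prod.ext_iff]; rfl))
    rw [Pi.mul_apply, indFun_one_eq_fixCount, indFun_one_eq_fixCount, ← Int.cast_mul, hprod,
      fixCount_eq_sum X r hr, Int.cast_sum, Finset.sum_apply]
    simp only [Pi.smul_apply, smul_eq_mul]
    rw [← Finset.sum_fiberwise Finset.univ (fun ω => MulAction.stabilizer G (r ω))
      fun ω => ((fixCount (G ⧸ MulAction.stabilizer G (r ω)) g : ℤ) : ℂ)]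
    refine Finset.sum_congr rfl fun U _ => ?_
    rw [Finset.sum_congr rfl fun ω hω => by
      rw [(Finset.mem_filter.mp hω).2, ← indFun_one_eq_fixCount], Finset.sum_const, nsmul_eq_mul]

end Cfsg.Agent.S0870
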