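import Cfsg.Statements.S0872
import Mathlib
import Cfsg.Agent.Lib.Characters.QuasiElementary
-- import your own Cfsg.Agent.* helpers here

set_option autoImplicit false
open Cfsg

namespace Cfsg.Agent.S0872

/-- For a finite group G and a prime p there are an integer m not divisible by p and a ℤ-linear combination of functions induced from the constant function 1 on subgroups H, each having a cyclic normal subgroup of order prime to p and p-power index in H, that equals the constant function m. -/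
theorem result {G : Type*} [Group G] [Fintype G] (p : ℕ) (hp : p.Prime) : ∃ (m : ℤ) (a : Subgroup G → ℤ), ¬ (p : ℤ) ∣ m ∧ (∀ H, a H ≠ 0 → (∃ C : Subgroup G, C ≤ H ∧ H ≤ Subgroup.normalizer (C : Set G) ∧ IsCyclic C ∧ Nat.Coprime (Nat.card C) p ∧ ∃ k : ℕ, C.relIndex H = p ^ k)) ∧ (fun _ : G => (m : ℂ)) = ∑ H : Subgroup G, (a H : ℂ) • Cfsg.indFun H (fun _ => 1) := by
  classical
  obtain ⟨m, hm, hmem⟩ := Cfsg.Lib.Characters.exists_permSpan_const (G := G) hp
  suffices key : ∀ f ∈ Cfsg.Lib.Characters.permSpan (Cfsg.Lib.Characters.IsQE (G := G) p),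
      ∃ a : Subgroup G → ℤ, (∀ H, a H ≠ 0 → Cfsg.Lib.Characters.IsQE p H) ∧
        ∀ g, f g = ∑ H : Subgroup G, a H * Cfsg.Lib.Characters.fixCount (G ⧸ H) g by
    obtain ⟨a, ha, hsum⟩ := key _ hmem
    refine ⟨m, a, hm, ha, funext fun g => ?_⟩
    rw [Finset.sum_apply, show (m : ℂ) = ((∑ H : Subgroup G, a H * Cfsg.Lib.Characters.fixCount (G ⧸ H) g : ℤ) : ℂ) by rw [← hsum g]]
    push_cast
    simp [Cfsg.Lib.Characters.indFun_one_eq_fixCount]
  intro f hf
  induction hf using AddSubgroup.closure_induction with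
  | mem b hb =>
    obtain ⟨K, hK, rfl⟩ := hb
    refine ⟨fun H => if H = K then 1 else 0, fun H hH => ?_, fun g => by simp⟩
    by_cases h : H = K
    · rwa [h]
    · simp [h] at hH
  | zero => exact ⟨0, fun H h => absurd rfl h, fun g => by simp⟩
  | add b c _ _ hb hc =>
    obtain ⟨a₁, h₁, s₁⟩ := hb
    obtain ⟨a₂, h₂, s₂⟩ := hc
    refine ⟨a₁ + a₂, fun H hH => ?_, fun g => by simp [s₁, s₂, add_mul, Finset.sum_add_distrib]⟩
    by_cases h : a₁ H = 0
    · exact h₂ H (by simpa [h] using hH)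
    · exact h₁ H h
  | neg b _ hb =>
    obtain ⟨a, h, s⟩ := hb
    exact ⟨-a, fun H hH => h H (by simpa using hH), fun g => by simp [s]⟩

end Cfsg.Agent.S0872
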