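import Cfsg.Statements.S0874
import Mathlib
import Cfsg.Agent.Lib.Characters.Brauer
-- import your own Cfsg.Agent.* helpers here

set_option autoImplicit false
open Cfsg

namespace Cfsg.Agent.S0874

/-- For a finite group G and a prime p there are an integer m not divisible by p and a list of triples (E, φ, c), with E a p-elementary subgroup, φ a character of E and c an integer, such that the constant function m on G equals the sum of the c • (function induced from φ). -/
theorem result {G : Type*} [Group G] [Fintype G] (p : ℕ) (hp : p.Prime) : ∃ (m : ℤ) (l : List ((E : Subgroup G) × ((E → ℂ) × ℤ))), ¬ (p : ℤ) ∣ m ∧ (∀ t ∈ l, Cfsg.IsElementary p t.1 ∧ Cfsg.IsCharacter t.1 t.2.1) ∧ (fun _ : G => (m : ℂ)) = (l.map fun t => (t.2.2 : ℂ) • Cfsg.indFun t.1 t.2.1).sum := by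
  classical
  obtain ⟨m, hm, hmem⟩ := Cfsg.Lib.Characters.exists_elemSpan_const (G := G) hp
  let val : List ((E : Subgroup G) × ((E → ℂ) × ℤ)) → G → ℂ := fun l => (l.map fun t => (t.2.2 : ℂ) • Cfsg.indFun t.1 t.2.1).sum
  suffices key : ∀ f ∈ Cfsg.Lib.Characters.elemSpan p G, ∃ l : List ((E : Subgroup G) × ((E → ℂ) × ℤ)),
      (∀ t ∈ l, Cfsg.IsElementary p t.1 ∧ Cfsg.IsCharacter t.1 t.2.1) ∧ f = val l by
    obtain ⟨l, h1, h2⟩ := key _ hmem
    exact ⟨m, l, hm, h1, h2⟩
  intro f hf
  induction hf using AddSubgroup.closure_induction with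
  | mem a ha =>
    obtain ⟨E, φ, hE, hφ, rfl⟩ := ha
    exact ⟨[⟨E, φ, 1⟩], by simp [hE, hφ], by simp [val]⟩
  | zero => exact ⟨[], by simp, by simp [val]⟩
  | add a b _ _ ha hb =>
    obtain ⟨l, h1, rfl⟩ := ha
    obtain ⟨l', h2, rfl⟩ := hb
    refine ⟨l ++ l', ?_, by simp [val]⟩
    intro t ht
    rcases List.mem_append.mp ht with h | h
    · exact h1 t h
    · exact h2 t h
  | neg a hx ha =>
    obtain ⟨l, h1, rfl⟩ := ha
    refine ⟨l.map fun t => ⟨t.1, t.2.1, -t.2.2⟩, ?_, ?_⟩
    · intro t ht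
      obtain ⟨u, hu, rfl⟩ := List.mem_map.mp ht
      exact h1 u hu
    · simp only [val]
      clear h1 hx
      induction l with
      | nil => simp
      | cons t l ih => simp only [List.map_cons, List.sum_cons, neg_add, ih, Int.cast_neg, neg_smul]

end Cfsg.Agent.S0874
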