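import Cfsg.Statements.S0875
import Cfsg.Agent.Lib.Characters.PiSection

set_option autoImplicit false
open Cfsg

namespace Cfsg.Agent.S0875

open Cfsg Cfsg.Lib.Characters
open scoped ComplexConjugate

theorem integral_inner {E : Type*} [Group E] [Fintype E] (f : E →* E)
    (hf : ∀ x, f (f x) = f x) (lam : E →* ℂˣ) (P : E → Prop) [DecidablePred P] {n : ℕ}
    (hn : Nat.card f.range ∣ n) :
    IsIntegral ℤ ((Nat.card E : ℂ)⁻¹ * ∑ x : E, (if P (f x) then (n : ℂ) else 0) * conj (lam x : ℂ)) := by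
  classical
  obtain ⟨q, hq⟩ := hn
  set s : ℂ := ∑ y : f.range, if P (y : E) then conj (lam y : ℂ) else 0
  set t : ℂ := ∑ k : f.ker, conj (lam k : ℂ) with ht
  have hsplit : ∑ x : E, (if P (f x) then (n : ℂ) else 0) * conj (lam x : ℂ) = n * (s * t) := by
    let φ : E ≃ f.range × f.ker :=
      { toFun := fun x => (⟨f x, x, rfl⟩, ⟨(f x)⁻¹ * x, by
          rw [MonoidHom.mem_ker, map_mul, map_inv, hf, inv_mul_cancel]⟩)
        invFun := fun yk => yk.1 * yk.2
        left_inv := fun x => by simp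
        right_inv := by
          rintro ⟨⟨y, z, rfl⟩, ⟨k, hk⟩⟩
          have hk' : f k = 1 := hk
          ext <;> simp [hf, hk'] }
    rw [Finset.sum_mul_sum, ← Finset.sum_product', Finset.univ_product_univ, Finset.mul_sum]
    refine Fintype.sum_equiv φ _ _ fun x => ?_
    show _ = (n : ℂ) * ((if P (f x) then conj (lam (f x) : ℂ) else 0) *
      conj (lam ((f x)⁻¹ * x) : ℂ))
    split_ifs
    · rw [← map_mul, ← Units.val_mul, ← map_mul, mul_inv_cancel_left]
    · simp
  have hlam : ∀ x : E, IsIntegral ℤ (conj (lam x : ℂ)) := fun x =>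
    char_isIntegral (isCharacter_conj (isIrrCharacter_linear lam).isCharacter) x
  have hs : IsIntegral ℤ s := IsIntegral.sum _ fun y _ => by
    split_ifs
    · exact hlam y
    · exact isIntegral_zero
  have ht' : ∃ δ : ℂ, IsIntegral ℤ δ ∧ t = (Nat.card f.ker : ℂ) * δ := by
    by_cases h : ∀ k : f.ker, lam k = 1
    · exact ⟨1, isIntegral_one, by rw [ht, Finset.sum_congr rfl fun k _ => by
        rw [h k, Units.val_one, map_one]]; simp [Nat.card_eq_fintype_card]⟩
    · refine ⟨0, isIntegral_zero, ?_⟩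
      push Not at h
      obtain ⟨k₀, hk₀⟩ := h
      have h0 : t = conj (lam k₀ : ℂ) * t := by
        rw [ht, Finset.mul_sum]
        exact (Fintype.sum_equiv (Equiv.mulLeft k₀) _ _ fun k => by simp).symm
      have h1 : conj (lam k₀ : ℂ) ≠ 1 := fun h1 => hk₀ <| Units.ext <| by
        simpa using congrArg conj h1
      rw [mul_zero]
      by_contra hne
      exact h1 (mul_eq_right₀ hne |>.mp h0.symm)
  obtain ⟨δ, hδ, hδt⟩ := ht'
  have hE : (Nat.card E : ℂ) = Nat.card f.range * Nat.card f.ker := by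
    rw [← Nat.cast_mul, ← Subgroup.index_ker f, Subgroup.index_mul_card]
  have hr : (Nat.card f.range : ℂ) ≠ 0 := Nat.cast_ne_zero.mpr Nat.card_pos.ne'
  have hk : (Nat.card f.ker : ℂ) ≠ 0 := Nat.cast_ne_zero.mpr Nat.card_pos.ne'
  have : (Nat.card E : ℂ)⁻¹ * ((n : ℂ) * (s * t)) = (q : ℂ) * (s * δ) := by
    rw [hE, hδt, hq, Nat.cast_mul]
    field_simp
  rw [hsplit, this]
  exact ((isIntegral_algebraMap (R := ℤ) (A := ℂ) (x := q)).mul (hs.mul hδ) : _)

/-- Let G be a finite group of order m * n with m and n coprime, and g an element whose order is coprime to m. Every x in G factors uniquely as x = u * v with u, v commuting, the order of u coprime to n and the order of v coprime to m; let ϑ be the function on G equal to n at those x whose factor v is conjugate to g and equal to 0 elsewhere. Then ϑ is a linear combination of the irreducible characters of G with algebraic-integer coefficients. -/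
theorem result {G : Type*} [Group G] [Fintype G] (m n : ℕ) (hmn : Nat.card G = m * n) (hcop : Nat.Coprime m n) (g : G) (hg : Nat.Coprime (orderOf g) m) (ϑ : G → ℂ) (hϑ1 : ∀ x : G, (∃ v : G, IsConj v g ∧ (∃ u : G, x = u * v ∧ Commute u v ∧ Nat.Coprime (orderOf u) n ∧ Nat.Coprime (orderOf v) m)) → ϑ x = n) (hϑ0 : ∀ x : G, (¬ ∃ v : G, IsConj v g ∧ (∃ u : G, x = u * v ∧ Commute u v ∧ Nat.Coprime (orderOf u) n ∧ Nat.Coprime (orderOf v) m)) → ϑ x = 0) : ∃ c : Cfsg.IrrCharacter G → ℂ, (∀ χ, c χ ∈ Cfsg.AlgInt) ∧ ϑ = ∑ᶠ χ : Cfsg.IrrCharacter G, c χ • (χ : G → ℂ) := by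
  classical
  obtain ⟨e, he1, he0⟩ := exists_piExp hcop.symm
  have hexp : ∀ x : G, x ^ (n * m) = 1 := fun x => by
    rw [mul_comm, ← hmn]; exact pow_card_eq_one'
  have hP : ∀ x : G, (∃ v : G, IsConj v g ∧ (∃ u : G, x = u * v ∧ Commute u v ∧
      Nat.Coprime (orderOf u) n ∧ Nat.Coprime (orderOf v) m)) ↔ IsConj (x ^ e) g := by
    intro x
    constructor
    · rintro ⟨v, hv, u, rfl, huv, hu, hv'⟩
      have hu1 : u ^ m = 1 := orderOf_dvd_iff_pow_eq_one.mp
        (hu.dvd_of_dvd_mul_left (orderOf_dvd_of_pow_eq_one (hexp u)))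
      have hv1 : v ^ n = 1 := orderOf_dvd_iff_pow_eq_one.mp
        (hv'.dvd_of_dvd_mul_right (orderOf_dvd_of_pow_eq_one (hexp v)))
      rwa [huv.mul_pow, pow_piExp_of_right he0 hu1, pow_piExp_of_left he1 hv1, one_mul]
    · intro h
      refine ⟨x ^ e, h, x * (x ^ e)⁻¹, (inv_mul_cancel_right x _).symm,
        (((Commute.refl x).pow_right e).mul_left
          ((Commute.refl (x ^ e)).inv_left)), ?_, ?_⟩
      · exact hcop.coprime_dvd_left (orderOf_dvd_of_pow_eq_one (piExp_compl he1 (hexp x)))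
      · exact hcop.symm.coprime_dvd_left (orderOf_dvd_of_pow_eq_one (piExp_pow_left he0 (hexp x)))
  have hϑ : ∀ x, ϑ x = if IsConj (x ^ e) g then (n : ℂ) else 0 := by
    intro x
    split_ifs with h
    · exact hϑ1 x ((hP x).mpr h)
    · exact hϑ0 x fun h' => h ((hP x).mp h')
  have hcl : IsClassFunction G ϑ := fun x y => by
    rw [hϑ, hϑ]
    refine if_congr ?_ rfl rfl
    rw [conj_pow]
    exact ⟨fun h => (isConj_iff.mpr ⟨y, rfl⟩).trans h,
      fun h => (isConj_iff.mpr ⟨y, rfl⟩).symm.trans h⟩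
  let S : AddSubgroup (G → ℂ) :=
    { carrier := {f | IsIntegral ℤ (classInner ϑ f)}
      zero_mem' := by
        show IsIntegral ℤ (classInner ϑ 0)
        rw [classInner_zero_right]; exact isIntegral_zero
      add_mem' := fun {a b} ha hb => by
        show IsIntegral ℤ (classInner ϑ (a + b))
        rw [classInner_add_right]; exact ha.add hb
      neg_mem' := fun {a} ha => by
        show IsIntegral ℤ (classInner ϑ (-a))
        rw [classInner_neg_right]; exact ha.neg }
  refine ⟨fun χ => classInner ϑ χ.1, fun χ => ?_, ?_⟩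
  · show IsIntegral ℤ _
    refine brauer_monomial χ.2.isCharacter S ?_
    rintro E ⟨p, hp, hE⟩ lam
    haveI := Fintype.ofFinite E
    obtain ⟨f, hf⟩ := exists_piHom hcop.symm he1 he0 hp hE (fun x : E => Subtype.ext (by
      rw [SubgroupClass.coe_pow]; exact hexp x))
    show IsIntegral ℤ (classInner ϑ (indFun E fun x => (lam x : ℂ)))
    rw [classInner_indFun_right E _ hcl, classInner]
    have hrn : ∀ y ∈ f.range, y ^ n = 1 := by
      rintro _ ⟨x, rfl⟩
      rw [hf]
      exact piExp_pow_left he0 (Subtype.ext (by rw [SubgroupClass.coe_pow]; exact hexp x))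
    have hcard : Nat.card f.range ∣ n := by
      refine Nat.Coprime.dvd_of_dvd_mul_left (m := m) ?_ ?_
      · refine Nat.coprime_of_dvd fun r hr h1 h2 => ?_
        haveI := Fact.mk hr
        obtain ⟨⟨y, hy⟩, hyo⟩ := exists_prime_orderOf_dvd_card' r h1
        rw [Subgroup.orderOf_mk] at hyo
        exact hr.not_dvd_one (hcop ▸ Nat.dvd_gcd h2
          (hyo ▸ orderOf_dvd_of_pow_eq_one (hrn y hy)))
      · have h1 := (Subgroup.card_subgroup_dvd_card f.range).trans (Subgroup.card_subgroup_dvd_card E)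
        rwa [hmn] at h1
    convert integral_inner f (fun x => ?_) lam (fun y : E => IsConj (y : G) g) hcard using 3
    · rw [hf, SubgroupClass.coe_pow, hϑ]
    · rw [hf, hf]
      exact pow_piExp_of_left he1
        (piExp_pow_left he0 (Subtype.ext (by rw [SubgroupClass.coe_pow]; exact hexp x)))
  · haveI := Fintype.ofFinite (IrrCharacter G)
    rw [finsum_eq_sum_of_fintype]
    convert classFunction_expansion hcl

end Cfsg.Agent.S0875
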