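import Cfsg.Statements.S0876
import Cfsg.Agent.Lib.Characters.Brauer
import Cfsg.Agent.Lib.Blocks.Heights


set_option autoImplicit false
open Cfsg
open scoped ComplexConjugate

namespace Cfsg.Agent.S0876

open Cfsg.Lib.Characters Cfsg.Lib.Blocks

theorem indFun_sum' {G : Type*} [Group G] [Fintype G] (H : Subgroup G) {ι : Type*} (s : Finset ι)
    (f : ι → H → ℂ) (c : ι → ℂ) :
    indFun H (∑ i ∈ s, c i • f i) = ∑ i ∈ s, c i • indFun H (f i) := by
  classical
  induction s using Finset.induction_on with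
  | empty => simpa using indFun_smul H 0 (0 : H → ℂ)
  | insert a s ha ih => rw [Finset.sum_insert ha, Finset.sum_insert ha, indFun_add, indFun_smul, ih]

/-- Irreducible characters congruent at two regular elements force conjugacy. -/
theorem isConj_of_red_eq {G : Type*} [Group G] [Fintype G] {p : ℕ} [Fact p.Prime]
    {M : Ideal AlgInt} [M.IsMaximal] (hM : IsPModular p M) (s t : G) (hs : ¬ p ∣ orderOf s)
    (ht : ¬ p ∣ orderOf t)
    (h : ∀ χ : IrrCharacter G, red M ((χ : G → ℂ) s) = red M ((χ : G → ℂ) t)) : IsConj s t := by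
  classical
  by_contra hcon
  set Z := Subgroup.centralizer ({s} : Set G) with hZ
  obtain ⟨Q⟩ := (inferInstance : Nonempty (Sylow p Z))
  set C := Subgroup.zpowers s with hC
  let f : C × ↥(Q : Subgroup Z) →* G :=
    MonoidHom.noncommCoprod C.subtype (Z.subtype.comp (Q : Subgroup Z).subtype) fun c q => by
      obtain ⟨i, hi⟩ := Subgroup.mem_zpowers_iff.mp c.2
      show Commute (c : G) ((q : Z) : G)
      rw [← hi]
      exact Commute.zpow_left (Subgroup.mem_centralizer_singleton_iff.mp (q : Z).2).symm i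
  have hf : ∀ c q, f (c, q) = (c : G) * ((q : Z) : G) := fun c q => rfl
  have hord : ∀ q : ↥(Q : Subgroup Z), ∀ g : G, g = s * ((q : Z) : G) → ¬ p ∣ orderOf g → q = 1 := by
    intro q g hg hgp
    obtain ⟨k, hk⟩ := IsPGroup.iff_orderOf.mp Q.isPGroup' q
    have hk' : orderOf ((q : Z) : G) = p ^ k := by rw [Subgroup.orderOf_coe, Subgroup.orderOf_coe, hk]
    have hcm : Commute s ((q : Z) : G) :=
      (Subgroup.mem_centralizer_singleton_iff.mp (q : Z).2).symm
    rw [hg, hcm.orderOf_mul_eq_mul_orderOf_of_coprime (hk' ▸ Nat.Coprime.pow_right k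
      ((Nat.Prime.coprime_iff_not_dvd Fact.out).mpr hs).symm), hk'] at hgp
    rcases k with _ | k
    · exact orderOf_eq_one_iff.mp (hk.trans (pow_zero p))
    · exact absurd ((dvd_pow_self p (Nat.succ_ne_zero k)).mul_left _) hgp
  have hinj : Function.Injective f := by
    rw [injective_iff_map_eq_one]
    rintro ⟨c, q⟩ hcq
    rw [hf] at hcq
    obtain ⟨k, hk⟩ := IsPGroup.iff_orderOf.mp Q.isPGroup' q
    have h1 : orderOf (c : G) = orderOf ((q : Z) : G) := by
      rw [eq_inv_of_mul_eq_one_left hcq, orderOf_inv]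
    rw [Subgroup.orderOf_coe, Subgroup.orderOf_coe, Subgroup.orderOf_coe, hk] at h1
    have h2 : orderOf c ∣ orderOf s := Nat.card_zpowers s ▸ orderOf_dvd_natCard c
    have h3 : orderOf c = 1 := Nat.eq_one_of_dvd_coprimes
      (Nat.Coprime.pow_right k ((Nat.Prime.coprime_iff_not_dvd Fact.out).mpr hs).symm) h2 (h1 ▸ dvd_rfl)
    exact Prod.ext (orderOf_eq_one_iff.mp h3) (orderOf_eq_one_iff.mp (hk.trans (h1.symm.trans h3)))
  set E := f.range with hE
  let π : E →* C := (MonoidHom.fst C ↥(Q : Subgroup Z)).comp (MonoidHom.ofInjective hinj).symm.toMonoidHom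
  let _ : Fintype C := Fintype.ofFinite C
  let s' : C := ⟨s, Subgroup.mem_zpowers s⟩
  set ψ : E → ℂ := ∑ χ : IrrCharacter C, conj ((χ : C → ℂ) s') • fun e => (χ : C → ℂ) (π e) with hψ
  have hψv : ∀ e, ψ e = if π e = s' then (Nat.card C : ℂ) else 0 := by
    intro e
    have : IsMulCommutative C := inferInstance
    have h1 := column_orthogonality (π e) s'
    have hcent : Subgroup.centralizer ({s'} : Set C) = ⊤ := by
      rw [eq_top_iff]
      exact fun x _ => Subgroup.mem_centralizer_singleton_iff.mpr (this.is_comm.comm _ _)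
    have hconj : IsConj (π e) s' ↔ π e = s' := by
      rw [isConj_iff]
      exact ⟨fun ⟨c, hc⟩ => by rwa [this.is_comm.comm c, mul_inv_cancel_right] at hc,
        fun h => ⟨1, by simp [h]⟩⟩
    rw [hψ, Finset.sum_apply]
    simp only [Pi.smul_apply, smul_eq_mul]
    rw [show ∑ χ : IrrCharacter C, conj ((χ : C → ℂ) s') * (χ : C → ℂ) (π e) =
      ∑ χ : IrrCharacter C, (χ : C → ℂ) (π e) * conj ((χ : C → ℂ) s') from
      Finset.sum_congr rfl fun χ _ => mul_comm _ _, h1, hcent]
    simp only [hconj, Subgroup.card_top]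
  have hext : ∀ g : G, ¬ p ∣ orderOf g →
      extendByZero E ψ g = if g = s then (Nat.card C : ℂ) else 0 := by
    intro g hg
    by_cases hgE : g ∈ E
    · have e0 : extendByZero E ψ g = ψ ⟨g, hgE⟩ := Subtype.val_injective.extend_apply ψ 0 ⟨g, hgE⟩
      rw [e0, hψv]
      obtain ⟨⟨c, q⟩, hcq⟩ := id hgE
      have hπ : π ⟨g, hgE⟩ = c := by
        show ((MonoidHom.ofInjective hinj).symm ⟨g, hgE⟩).1 = c
        rw [show (MonoidHom.ofInjective hinj).symm ⟨g, hgE⟩ = (c, q) from
          (MulEquiv.symm_apply_eq _).mpr (Subtype.ext hcq.symm)]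
      rw [hπ]
      refine if_congr ⟨fun h => ?_, fun h => ?_⟩ rfl rfl
      · have hg' : g = s * ((q : Z) : G) := by rw [← hcq, hf, h]
        rw [hg', hord q g hg' hg]; simp
      · have e : f (c, q) = f (s', 1) := by rw [hcq, hf, h]; simp [s']
        exact congrArg Prod.fst (hinj e)
    · rw [extendByZero, Function.extend_apply' _ _ _ (fun ⟨a, ha⟩ => hgE (ha ▸ a.2)), Pi.zero_apply,
        if_neg]
      rintro rfl
      exact hgE ⟨(s', 1), by rw [hf]; simp [s']⟩
  have hval : ∀ g : G, ¬ p ∣ orderOf g → indFun E ψ g = (Nat.card E : ℂ)⁻¹ *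
      ((Finset.univ.filter fun x : G => x⁻¹ * g * x = s).card * (Nat.card C : ℂ)) := by
    intro g hg
    rw [indFun]
    congr 1
    rw [Finset.sum_congr rfl fun x _ => hext (x⁻¹ * g * x) (by
      have e := orderOf_injective (MulAut.conj x⁻¹).toMonoidHom (MulAut.conj x⁻¹).injective g
      simp only [MulEquiv.toMonoidHom_eq_coe, MonoidHom.coe_coe, MulAut.conj_apply, inv_inv] at e
      rw [e]; exact hg),
      Finset.sum_ite, Finset.sum_const_zero, add_zero, Finset.sum_const, nsmul_eq_mul]
  have hηt : indFun E ψ t = 0 := by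
    rw [hval t ht, Finset.filter_eq_empty_iff.mpr fun x _ hx => hcon (isConj_iff.mpr ⟨x, by rw [← hx]; group⟩)]
    simp
  have hηs : indFun E ψ s = ((Q : Subgroup Z).index : ℂ) := by
    have hfc : (Finset.univ.filter fun x : G => x⁻¹ * s * x = s).card = Nat.card Z := by
      rw [Nat.card_eq_fintype_card, Fintype.card_subtype]
      congr 1
      ext x
      simp only [Finset.mem_filter, Finset.mem_univ, true_and, hZ,
        Subgroup.mem_centralizer_singleton_iff, mul_assoc, inv_mul_eq_iff_eq_mul]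
      exact eq_comm
    have hcardE : Nat.card E = Nat.card C * Nat.card ↥(Q : Subgroup Z) := by
      rw [← Nat.card_prod]; exact (Nat.card_congr (MonoidHom.ofInjective hinj).toEquiv).symm
    rw [hval s hs, hfc, hcardE, ← (Q : Subgroup Z).card_mul_index]
    have : (Nat.card C : ℂ) ≠ 0 := Nat.cast_ne_zero.mpr Nat.card_pos.ne'
    have : (Nat.card ↥(Q : Subgroup Z) : ℂ) ≠ 0 := Nat.cast_ne_zero.mpr Nat.card_pos.ne'
    push_cast
    field_simp
  have hred : red M (indFun E ψ s) = red M (indFun E ψ t) := by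
    rw [hψ, indFun_sum', Finset.sum_apply, Finset.sum_apply]
    have hint : ∀ (χ : IrrCharacter C) (g : G),
        conj ((χ : C → ℂ) s') * indFun E (fun e => (χ : C → ℂ) (π e)) g ∈ locRing M := fun χ g =>
      mul_mem (isIntegral_mem_locRing M (isIntegral_conj (char_isIntegral χ.2.isCharacter _)))
        (isIntegral_mem_locRing M (char_isIntegral
          (isCharacter_indFun E (isCharacter_comp χ.2.isCharacter π)) g))
    simp only [Pi.smul_apply, smul_eq_mul]
    rw [red_sum _ fun χ _ => hint χ s, red_sum _ fun χ _ => hint χ t]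
    refine Finset.sum_congr rfl fun χ _ => ?_
    have hch := isCharacter_indFun E (isCharacter_comp χ.2.isCharacter π)
    rw [red_mul (isIntegral_mem_locRing M (isIntegral_conj (char_isIntegral χ.2.isCharacter _)))
        (isIntegral_mem_locRing M (char_isIntegral hch s)),
      red_mul (isIntegral_mem_locRing M (isIntegral_conj (char_isIntegral χ.2.isCharacter _)))
        (isIntegral_mem_locRing M (char_isIntegral hch t))]
    congr 1
    obtain ⟨c, hc⟩ := exists_decomposition hch
    rw [hc, Finset.sum_apply, Finset.sum_apply]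
    simp only [Pi.smul_apply, smul_eq_mul]
    have hm : ∀ (ξ : IrrCharacter G) (g : G), (c ξ : ℂ) * (ξ : G → ℂ) g ∈ locRing M := fun ξ g =>
      mul_mem (natCast_mem _ _) (isIntegral_mem_locRing M (char_isIntegral ξ.2.isCharacter g))
    rw [red_sum _ fun ξ _ => hm ξ s, red_sum _ fun ξ _ => hm ξ t]
    refine Finset.sum_congr rfl fun ξ _ => ?_
    rw [red_mul (natCast_mem _ _) (isIntegral_mem_locRing M (char_isIntegral ξ.2.isCharacter s)),
      red_mul (natCast_mem _ _) (isIntegral_mem_locRing M (char_isIntegral ξ.2.isCharacter t)), h ξ]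
  rw [hηs, hηt, red_zero, red_natCast, natCast_resF_eq_zero hM] at hred
  exact Q.not_dvd_index hred


/-- Let G be a finite group, p a prime and M a maximal ideal of the ring of algebraic integers containing p. Let x, y be elements with p-parts a and b (so a⁻¹ * x and b⁻¹ * y are their p-regular parts). Then a⁻¹ * x and b⁻¹ * y are conjugate in G if and only if, for every irreducible character χ, the difference χ x - χ y lies in the local ideal at M. -/
theorem result {G : Type*} [Group G] [Finite G] (p : ℕ) (M : Ideal Cfsg.AlgInt) (hM : Cfsg.IsPModular p M) (x y a b : G) (ha : Cfsg.IsPPart p x a) (hb : Cfsg.IsPPart p y b) : IsConj (a⁻¹ * x) (b⁻¹ * y) ↔ ∀ χ : Cfsg.IrrCharacter G, Cfsg.MemLocalIdeal M ((χ : G → ℂ) x - (χ : G → ℂ) y) := by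
  classical
  let _ : Fintype G := Fintype.ofFinite G
  haveI : Fact p.Prime := ⟨hM.1⟩
  haveI : M.IsMaximal := hM.2.1
  obtain ⟨x', rfl, hcx, hxa, hx'⟩ := ha
  obtain ⟨y', rfl, hcy, hyb, hy'⟩ := hb
  rw [inv_mul_cancel_left, inv_mul_cancel_left]
  have hmem : ∀ (χ : IrrCharacter G) (g : G), (χ : G → ℂ) g ∈ locRing M := fun χ g =>
    isIntegral_mem_locRing M (char_isIntegral χ.2.isCharacter g)
  have hred : ∀ χ : IrrCharacter G,
      MemLocalIdeal M ((χ : G → ℂ) (a * x') - (χ : G → ℂ) (b * y')) ↔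
        red M ((χ : G → ℂ) x') = red M ((χ : G → ℂ) y') := fun χ => by
    rw [memLocalIdeal_sub_iff (hmem χ _) (hmem χ _), red_char_mul_pPart hM χ hcx hxa hx',
      red_char_mul_pPart hM χ hcy hyb hy']
  simp only [hred]
  constructor
  · intro h χ
    exact congrArg _ (isClassFunction_iff_isConj.mp χ.2.isClassFunction _ _ h)
  · exact isConj_of_red_eq hM x' y' hx' hy'

end Cfsg.Agent.S0876
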