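import Cfsg.Statements.S0878
import Mathlib

set_option autoImplicit false
open Cfsg

namespace Cfsg.Agent.S0878

/-- Let G be a Zassenhaus group on the finite set Ω, a a point, and let H be the subgroup of the stabilizer of a consisting of the identity and the elements fixing no point other than a (given here as a subgroup of the stabilizer of order one less than the number of points whose non-identity elements fix only a; it is the Frobenius kernel of the stabilizer). Then an element outside the stabilizer of a conjugates no non-identity element of H into H, and the normalizer of H is exactly the stabilizer of a. -/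
theorem result {G Ω : Type*} [Group G] [Finite G] [MulAction G Ω] [Fintype Ω] (hZ : Cfsg.IsZassenhausGroup G Ω) (a : Ω) (H : Subgroup G) (hHa : H ≤ MulAction.stabilizer G a) (hHcard : Nat.card H + 1 = Fintype.card Ω) (hHfix : ∀ u ∈ H, u ≠ 1 → ∀ c : Ω, u • c = c → c = a) : (∀ g : G, g ∉ MulAction.stabilizer G a → ∀ u ∈ H, g * u * g⁻¹ ∈ H → u = 1) ∧ Subgroup.normalizer (H : Set G) = MulAction.stabilizer G a := by
  classical
  obtain ⟨hfaith, h2, h3, ⟨g₀, hg₀, a₀, b₀, hab₀, hga, hgb⟩, -⟩ := hZ
  rw [MulAction.is_two_pretransitive_iff] at h2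
  haveI : Fintype G := Fintype.ofFinite G
  refine ⟨fun g hg u hu hgu => ?_, ?_⟩
  · by_contra hu1
    exact hg (hHfix _ hgu (by simpa using hu1) (g • a)
      (by rw [mul_smul, inv_smul_smul, mul_smul, MulAction.mem_stabilizer_iff.mp (hHa hu)]))
  have hΩ : 3 ≤ Fintype.card Ω := by
    by_contra hlt
    refine hg₀ (hfaith.eq_of_smul_eq_smul fun c => ?_)
    rw [one_smul]
    by_contra hc
    have h1 : c ≠ a₀ := fun h => hc (h ▸ hga)
    have h2' : c ≠ b₀ := fun h => hc (h ▸ hgb)
    have hc3 : ({c, a₀, b₀} : Finset Ω).card = 3 := by simp [h1, h2', hab₀]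
    have := Finset.card_le_univ ({c, a₀, b₀} : Finset Ω)
    omega
  have hHne : ∃ u ∈ H, u ≠ 1 := by
    by_contra hcon
    push Not at hcon
    have : Nat.card H = 1 := Nat.card_eq_one_iff_unique.mpr
      ⟨⟨fun x y => Subtype.ext ((hcon x x.2).trans (hcon y y.2).symm)⟩, inferInstance⟩
    omega
  apply le_antisymm
  · intro g hg
    obtain ⟨u, hu, hu1⟩ := hHne
    have hgu := (Subgroup.mem_normalizer_iff.mp hg u).mp hu
    exact hHfix _ hgu (by simpa using hu1) (g • a)
      (by rw [mul_smul, inv_smul_smul, mul_smul, MulAction.mem_stabilizer_iff.mp (hHa hu)])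
  -- the stabilizer is a Frobenius group on the other points
  let S := MulAction.stabilizer G a
  let fpf : Finset S := Finset.univ.filter fun s : S => ∀ c : Ω, c ≠ a → s • c ≠ c
  let Hs : Finset S := Finset.univ.filter fun s : S => (s : G) ∈ H ∧ s ≠ 1
  have hmem : ∀ s : G, s ∈ H → s ≠ 1 → ∀ c : Ω, c ≠ a → s • c ≠ c :=
    fun s hs hs1 c hc h => hc (hHfix s hs hs1 c h)
  have hsub : Hs ⊆ fpf := by
    intro s hs
    simp only [Hs, fpf, Finset.mem_filter, Finset.mem_univ, true_and] at hs ⊢
    exact fun c hc => hmem s hs.1 (fun h => hs.2 (Subtype.ext h)) c hc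
  have hHcard : Hs.card + 1 = Nat.card H := by
    have : Hs.card + 1 = (Finset.univ.filter fun s : S => (s : G) ∈ H).card := by
      rw [← Finset.card_insert_of_notMem (a := (1 : S)) (by simp [Hs])]
      congr 1
      ext s
      simp only [Hs, Finset.mem_insert, Finset.mem_filter, Finset.mem_univ, true_and]
      constructor
      · rintro (rfl | h)
        · exact H.one_mem
        · exact h.1
      · intro h
        by_cases hs : s = 1
        · exact Or.inl hs
        · exact Or.inr ⟨h, hs⟩
    rw [this, ← Fintype.card_subtype, ← Nat.card_eq_fintype_card]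
    exact Nat.card_congr
      { toFun := fun s => ⟨s.1, s.2⟩, invFun := fun h => ⟨⟨h.1, hHa h.2⟩, h.2⟩,
        left_inv := fun s => rfl, right_inv := fun h => rfl }
  -- counting the fixed-point pairs
  obtain ⟨b, hb⟩ : ∃ b : Ω, b ≠ a := by
    by_contra hcon
    push Not at hcon
    have : Fintype.card Ω ≤ 1 := Fintype.card_le_one_iff.mpr fun x y => (hcon x).trans (hcon y).symm
    omega
  let Ω' : Finset Ω := Finset.univ.filter fun c => c ≠ a
  have hΩ' : Ω'.card = Nat.card H := by
    have : Ω'.card = Fintype.card Ω - 1 := by
      simp only [Ω', Finset.filter_ne']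
      rw [Finset.card_erase_of_mem (Finset.mem_univ a), Finset.card_univ]
    omega
  have hstabcard : ∀ c ∈ Ω', Nat.card S =
      Nat.card H * (Finset.univ.filter fun s : S => s • c = c).card := by
    intro c hc
    have hc' : c ≠ a := (Finset.mem_filter.mp hc).2
    have horb : (MulAction.orbit S c) = {x | x ≠ a} := by
      ext x
      constructor
      · rintro ⟨s, rfl⟩ h
        refine hc' (MulAction.injective (s : G) ?_)
        show (s : G) • c = (s : G) • a
        rw [MulAction.mem_stabilizer_iff.mp s.2]
        exact h
      · intro hx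
        obtain ⟨g, hg1, hg2⟩ := h2 (Ne.symm hc') (Ne.symm hx)
        exact ⟨⟨g, hg1⟩, hg2⟩
    rw [← (MulAction.stabilizer S c).index_mul_card, MulAction.index_stabilizer, horb]
    congr 1
    · rw [← hΩ', Set.ncard_eq_toFinset_card']
      exact congrArg Finset.card (Finset.ext fun x => by simp [Ω'])
    · rw [← Fintype.card_subtype, ← Nat.card_eq_fintype_card]
      exact Nat.card_congr (Equiv.subtypeEquivRight fun s => MulAction.mem_stabilizer_iff)
  have hfpf : fpf.card + 1 = Nat.card H := by
    set q := (Finset.univ.filter fun s : S => s • b = b).card with hq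
    have hbΩ : b ∈ Ω' := by simp [Ω', hb]
    have hsum : ∑ s : S, (Ω'.filter fun c => s • c = c).card = Nat.card H * q := by
      calc ∑ s : S, (Ω'.filter fun c => s • c = c).card
          = ∑ c ∈ Ω', (Finset.univ.filter fun s : S => s • c = c).card := by
            simp only [Finset.card_filter]
            exact Finset.sum_comm
        _ = ∑ c ∈ Ω', q := Finset.sum_congr rfl fun c hc => by
            have h1 := (hstabcard c hc).symm.trans (hstabcard b hbΩ)
            exact Nat.eq_of_mul_eq_mul_left Nat.card_pos h1
        _ = Nat.card H * q := by rw [Finset.sum_const, smul_eq_mul, hΩ']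
    have hcount : ∑ s : S, ((Ω'.filter fun c => s • c = c).card : ℤ) =
        (Nat.card S : ℤ) - fpf.card + (Nat.card H - 1) := by
      have hterm : ∀ s : S, ((Ω'.filter fun c => s • c = c).card : ℤ) =
          1 - (if s ∈ fpf then 1 else 0) + (if s = 1 then (Nat.card H : ℤ) - 1 else 0) := by
        intro s
        by_cases hs : s = 1
        · subst hs
          have hnot : (1 : S) ∉ fpf := by
            simp only [fpf, Finset.mem_filter, Finset.mem_univ, true_and]
            exact fun h => h b hb (one_smul _ b)
          simp [hnot, hΩ']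
        rw [if_neg hs, add_zero]
        by_cases hf : s ∈ fpf
        · rw [if_pos hf]
          simp only [fpf, Finset.mem_filter, Finset.mem_univ, true_and] at hf
          rw [Finset.filter_false_of_mem fun c hc => hf c (Finset.mem_filter.mp hc).2]
          simp
        · rw [if_neg hf, sub_zero]
          simp only [fpf, Finset.mem_filter, Finset.mem_univ, true_and] at hf
          push Not at hf
          obtain ⟨c, hc, hsc⟩ := hf
          have : (Ω'.filter fun x => s • x = x) = {c} := by
            ext x
            simp only [Ω', Finset.mem_filter, Finset.mem_univ, true_and, Finset.mem_singleton]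
            refine ⟨fun hx => ?_, fun hx => hx ▸ ⟨hc, hsc⟩⟩
            by_contra hne
            exact hs (Subtype.ext (h3 s a c x (Ne.symm hc) (Ne.symm hne) (Ne.symm hx.1)
              (MulAction.mem_stabilizer_iff.mp s.2) hsc hx.2))
          simp [this]
      rw [Finset.sum_congr rfl fun s _ => hterm s]
      simp [Finset.sum_add_distrib, Finset.sum_sub_distrib, Nat.card_eq_fintype_card]
    have h1 := hstabcard b hbΩ
    rw [← hq] at h1
    rw [← Nat.cast_sum, hsum, h1] at hcount
    have : (Nat.card H : ℤ) = fpf.card + 1 := by push_cast at hcount; linarith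
    exact_mod_cast this.symm
  have heq : Hs = fpf := Finset.eq_of_subset_of_card_le hsub (by omega)
  intro g hg
  have hconj : ∀ g ∈ S, ∀ u ∈ H, g * u * g⁻¹ ∈ H := by
    intro g hg u hu
    by_cases hu1 : u = 1
    · simp [hu1]
    have hmem' : (⟨g * u * g⁻¹, S.mul_mem (S.mul_mem hg (hHa hu)) (S.inv_mem hg)⟩ : S) ∈ fpf := by
      simp only [fpf, Finset.mem_filter, Finset.mem_univ, true_and]
      intro c hc h
      change (g * u * g⁻¹) • c = c at h
      rw [mul_smul, mul_smul, ← eq_inv_smul_iff] at h
      refine hmem u hu hu1 (g⁻¹ • c) (fun h' => hc ?_) h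
      rw [inv_smul_eq_iff, MulAction.mem_stabilizer_iff.mp hg] at h'
      exact h'
    rw [← heq] at hmem'
    exact (Finset.mem_filter.mp hmem').2.1
  refine Subgroup.mem_normalizer_iff.mpr fun z => ⟨hconj g hg z, fun hz => ?_⟩
  have := hconj g⁻¹ (S.inv_mem hg) _ hz
  simpa [mul_assoc] using this

end Cfsg.Agent.S0878
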