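import Cfsg.Statements.S0879
import Mathlib

set_option autoImplicit false
open Cfsg

namespace Cfsg.Agent.S0879

theorem mem_ab {G Ω : Type*} [Group G] [MulAction G Ω] {a b : Ω} {g : G} :
    g ∈ (MulAction.stabilizer G a ⊓ MulAction.stabilizer G b : Subgroup G) ↔ g • a = a ∧ g • b = b :=
  Iff.rfl

/-- Let G be a Zassenhaus group on the finite set Ω and E the stabilizer of two distinct points a, b. Then an element outside the normalizer of E conjugates no non-identity element of E into E, and E has index 2 in its normalizer. -/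
theorem result {G Ω : Type*} [Group G] [Finite G] [MulAction G Ω] [Fintype Ω] (hZ : Cfsg.IsZassenhausGroup G Ω) {a b : Ω} (hab : a ≠ b) : (∀ g : G, g ∉ Subgroup.normalizer ((MulAction.stabilizer G a ⊓ MulAction.stabilizer G b : Subgroup G) : Set G) → ∀ x ∈ (MulAction.stabilizer G a ⊓ MulAction.stabilizer G b : Subgroup G), g * x * g⁻¹ ∈ (MulAction.stabilizer G a ⊓ MulAction.stabilizer G b : Subgroup G) → x = 1) ∧ ((MulAction.stabilizer G a ⊓ MulAction.stabilizer G b : Subgroup G).subgroupOf (Subgroup.normalizer ((MulAction.stabilizer G a ⊓ MulAction.stabilizer G b : Subgroup G) : Set G))).index = 2 := by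
  classical
  obtain ⟨hfaith, h2, h3, ⟨g₀, hg₀, a₀, b₀, hab₀, hga, hgb⟩, -⟩ := hZ
  rw [MulAction.is_two_pretransitive_iff] at h2
  set D := (MulAction.stabilizer G a ⊓ MulAction.stabilizer G b : Subgroup G) with hD
  have hkey : ∀ x : G, x ≠ 1 → x ∈ D → ∀ c : Ω, x • c = c → c = a ∨ c = b := by
    intro x hx hxD c hc
    by_contra hne
    push Not at hne
    exact hx (h3 x a b c hab (Ne.symm hne.2) (Ne.symm hne.1) hxD.1 hxD.2 hc)
  have hnorm : ∀ g : G, (g • a = a ∧ g • b = b) ∨ (g • a = b ∧ g • b = a) →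
      g ∈ Subgroup.normalizer (D : Set G) := by
    intro g hg
    refine Subgroup.mem_normalizer_iff.mpr fun z => ?_
    simp only [hD, mem_ab, mul_smul]
    rcases hg with ⟨h1, h1'⟩ | ⟨h1, h1'⟩
    · rw [show g⁻¹ • a = a by rw [inv_smul_eq_iff, h1], show g⁻¹ • b = b by rw [inv_smul_eq_iff, h1']]
      rw [smul_eq_iff_eq_inv_smul g, smul_eq_iff_eq_inv_smul g]
      rw [show g⁻¹ • a = a by rw [inv_smul_eq_iff, h1], show g⁻¹ • b = b by rw [inv_smul_eq_iff, h1']]
    · rw [show g⁻¹ • a = b by rw [inv_smul_eq_iff, h1'], show g⁻¹ • b = a by rw [inv_smul_eq_iff, h1]]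
      rw [smul_eq_iff_eq_inv_smul g, smul_eq_iff_eq_inv_smul g]
      rw [show g⁻¹ • a = b by rw [inv_smul_eq_iff, h1'], show g⁻¹ • b = a by rw [inv_smul_eq_iff, h1]]
      exact and_comm
  -- a non-trivial element of `D` moves both points to themselves
  have himage : ∀ g x : G, x ≠ 1 → x ∈ D → g * x * g⁻¹ ∈ D →
      (g • a = a ∧ g • b = b) ∨ (g • a = b ∧ g • b = a) := by
    intro g x hx hxD hgx
    have hne : g * x * g⁻¹ ≠ 1 := by simpa using hx
    have ha' := hkey _ hne hgx (g • a) (by rw [mul_smul, inv_smul_smul, mul_smul, hxD.1])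
    have hb' := hkey _ hne hgx (g • b) (by rw [mul_smul, inv_smul_smul, mul_smul, hxD.2])
    have : g • a ≠ g • b := fun h => hab (MulAction.injective g h)
    rcases ha' with ha' | ha' <;> rcases hb' with hb' | hb'
    · exact absurd (ha'.trans hb'.symm) this
    · exact Or.inl ⟨ha', hb'⟩
    · exact Or.inr ⟨ha', hb'⟩
    · exact absurd (ha'.trans hb'.symm) this
  refine ⟨fun g hg x hx hgx => ?_, ?_⟩
  · by_contra hx1
    exact hg (hnorm g (himage g x hx1 hx hgx))
  obtain ⟨w, hwa, hwb⟩ := h2 hab₀ hab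
  obtain ⟨t, hta, htb⟩ := h2 hab hab.symm
  have hd : w * g₀ * w⁻¹ ∈ D := by
    refine mem_ab.mpr ⟨?_, ?_⟩
    · rw [mul_smul, inv_smul_eq_iff.mpr hwa.symm, mul_smul, hga, hwa]
    · rw [mul_smul, inv_smul_eq_iff.mpr hwb.symm, mul_smul, hgb, hwb]
  have hd1 : w * g₀ * w⁻¹ ≠ 1 := by simpa using hg₀
  rw [Subgroup.index_eq_two_iff]
  refine ⟨⟨t, hnorm t (Or.inr ⟨hta, htb⟩)⟩, fun n => ?_⟩
  simp only [Subgroup.mem_subgroupOf, Subgroup.coe_mul, hD, mem_ab, mul_smul, hta, htb]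
  rcases himage (n : G) _ hd1 hd ((Subgroup.mem_normalizer_iff.mp n.2 _).mp hd) with ⟨h1, h1'⟩ | ⟨h1, h1'⟩
  · exact Or.inr ⟨⟨h1, h1'⟩, fun h => hab (h1'.symm.trans h.1).symm⟩
  · exact Or.inl ⟨⟨h1', h1⟩, fun h => hab (h1.symm.trans h.1).symm⟩

end Cfsg.Agent.S0879
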