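import Cfsg.Statements.S0880
import Cfsg.Agent.Lib.Zassenhaus.Basic


set_option autoImplicit false
open Cfsg

namespace Cfsg.Agent.S0880

/-- Let G be a finite simple Zassenhaus group on Ω with n points whose two-point stabilizer E has odd order less than n - 2. Then there are two elements of G, each fixing no point of Ω, that are not conjugate. -/
theorem result {G Ω : Type*} [Group G] [Finite G] [MulAction G Ω] [Fintype Ω] (hZ : Cfsg.IsZassenhausGroup G Ω) {a b : Ω} (hab : a ≠ b) [IsSimpleGroup G] (hodd : Odd (Nat.card ↥(MulAction.stabilizer G a ⊓ MulAction.stabilizer G b : Subgroup G))) (hlt : Nat.card ↥(MulAction.stabilizer G a ⊓ MulAction.stabilizer G b : Subgroup G) < Fintype.card Ω - 2) : ∃ x y : G, (∀ c : Ω, x • c ≠ c) ∧ (∀ c : Ω, y • c ≠ c) ∧ ¬ IsConj x y := by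
  classical
  let _ : Fintype G := Fintype.ofFinite G
  set e := Nat.card ↥(MulAction.stabilizer G a ⊓ MulAction.stabilizer G b : Subgroup G) with he
  have h3 := Cfsg.Lib.Zassenhaus.three_le hZ
  obtain ⟨h, hh⟩ : ∃ h, Fintype.card Ω = h + 1 := ⟨Fintype.card Ω - 1, by omega⟩
  obtain ⟨hG, h1, h2, h0⟩ := Cfsg.Lib.Zassenhaus.nfix_counts hZ hab hh he.symm
  have he3 : 3 ≤ e := Cfsg.Lib.Zassenhaus.three_le_card_D hZ hab hodd
  by_contra hcon
  push Not at hcon
  set T := Finset.univ.filter fun g : G => g ≠ 1 ∧ Cfsg.Lib.Zassenhaus.fx (Ω := Ω) g = 0 with hT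
  have hTc : Cfsg.Lib.Zassenhaus.nfix G Ω 0 = T.card := rfl
  have hmem : ∀ g : G, g ∈ T ↔ ∀ c : Ω, g • c ≠ c := by
    intro g
    rw [hT, Finset.mem_filter]
    simp only [Finset.mem_univ, true_and, Cfsg.Lib.Zassenhaus.fx, Finset.card_eq_zero,
      Finset.filter_eq_empty_iff]
    refine ⟨fun h c => h.2 trivial, fun h => ⟨fun h1' => ?_, fun c _ => h c⟩⟩
    exact h a (by rw [h1', one_smul])
  have hpos : 0 < T.card := by
    rw [← hTc]
    have : h * h < e * h * (h + 1) + h := by nlinarith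
    omega
  obtain ⟨x, hx⟩ := Finset.card_pos.mp hpos
  have hcl : (Finset.univ.filter fun g : G => IsConj x g) = T := by
    ext g
    rw [Finset.mem_filter, hmem]
    refine ⟨fun hg c hc => ?_, fun hg => ⟨Finset.mem_univ _, hcon x g ((hmem x).mp hx) hg⟩⟩
    obtain ⟨w, rfl⟩ := isConj_iff.mp hg.2
    rw [mul_smul, mul_smul, smul_eq_iff_eq_inv_smul] at hc
    exact (hmem x).mp hx _ hc
  have hcard : Nat.card {g : G // IsConj x g} = T.card := by
    rw [Nat.card_eq_fintype_card, Fintype.card_subtype, hcl]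
  have hprod := Cfsg.Lib.Characters.card_conj_mul_card_centralizer (G := G) x
  rw [hcard, hG, ← hTc] at hprod
  set c := Nat.card (Subgroup.centralizer ({x} : Set G))
  set n := Cfsg.Lib.Zassenhaus.nfix G Ω 0
  rcases Nat.lt_or_ge c 3 with hc | hc
  · have : n * c ≤ n * 2 := Nat.mul_le_mul_left n (by omega)
    nlinarith
  · have : n * 3 ≤ n * c := Nat.mul_le_mul_left n hc
    nlinarith [Nat.mul_le_mul_right (h * (h + 1)) he3]

end Cfsg.Agent.S0880
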