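import Cfsg.Statements.S0881
import Cfsg.Agent.Lib.Zassenhaus.Swap
import Cfsg.Agent.Lib.Characters.Induction


set_option autoImplicit false
open Cfsg
open scoped ComplexConjugate

namespace Cfsg.Agent.S0881

/-- Let G be a finite simple Zassenhaus group on Ω with n points, a ≠ b points with two-point stabilizer E of odd order less than n - 2, and let H be the subgroup of the stabilizer of a consisting of the identity and the elements fixing no point other than a (given here as a subgroup of the stabilizer of order one less than the number of points whose non-identity elements fix only a; it is the Frobenius kernel of the stabilizer). Let μ be a character of degree 1 of the stabilizer of a that is identically 1 on H but not identically 1. Then the function induced from μ to G is an irreducible character of G, and it takes the value 1 at every non-identity element of H. -/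
theorem result {G Ω : Type*} [Group G] [Fintype G] [MulAction G Ω] [Fintype Ω] (hZ : Cfsg.IsZassenhausGroup G Ω) {a b : Ω} (hab : a ≠ b) [IsSimpleGroup G] (hodd : Odd (Nat.card ↥(MulAction.stabilizer G a ⊓ MulAction.stabilizer G b : Subgroup G))) (hlt : Nat.card ↥(MulAction.stabilizer G a ⊓ MulAction.stabilizer G b : Subgroup G) < Fintype.card Ω - 2) (H : Subgroup G) (hHa : H ≤ MulAction.stabilizer G a) (hHcard : Nat.card H + 1 = Fintype.card Ω) (hHfix : ∀ u ∈ H, u ≠ 1 → ∀ c : Ω, u • c = c → c = a) (μ : MulAction.stabilizer G a → ℂ) (hμ : Cfsg.IsCharacter (MulAction.stabilizer G a) μ ∧ μ 1 = 1) (hμH : ∀ u : MulAction.stabilizer G a, (u : G) ∈ H → μ u = 1) (hμne : μ ≠ fun _ => 1) : Cfsg.IsIrrCharacter G (Cfsg.indFun (MulAction.stabilizer G a) μ) ∧ ∀ u ∈ H, u ≠ 1 → Cfsg.indFun (MulAction.stabilizer G a) μ u = 1 := by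
  classical
  obtain ⟨hμc, hμ1⟩ := hμ
  obtain ⟨L, rfl⟩ := Cfsg.Lib.Characters.exists_hom_of_degree_one hμc hμ1
  set μ : (MulAction.stabilizer G a) → ℂ := fun s => (L s : ℂ) with hμdef
  have := Cfsg.Lib.Zassenhaus.pretransitive hZ
  choose m hm using fun c : Ω => MulAction.exists_smul_eq G a c
  set ext := extendByZero (MulAction.stabilizer G a) μ with hext
  have hin : ∀ (g : G) (hg : g ∈ (MulAction.stabilizer G a)), ext g = (L ⟨g, hg⟩ : ℂ) := fun g hg =>
    Subtype.val_injective.extend_apply μ 0 ⟨g, hg⟩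
  have hout : ∀ g : G, g ∉ (MulAction.stabilizer G a) → ext g = 0 := fun g hg => by
    rw [hext, extendByZero, Function.extend_apply' _ _ _ (fun ⟨x, hx⟩ => hg (hx ▸ x.2))]; rfl
  have hconj : ∀ (g k : G), k ∈ (MulAction.stabilizer G a) → ext (k⁻¹ * g * k) = ext g := by
    intro g k hk
    by_cases hg : g ∈ (MulAction.stabilizer G a)
    · rw [hin g hg, hin _ ((MulAction.stabilizer G a).mul_mem ((MulAction.stabilizer G a).mul_mem ((MulAction.stabilizer G a).inv_mem hk) hg) hk),
        show (⟨k⁻¹ * g * k, (MulAction.stabilizer G a).mul_mem ((MulAction.stabilizer G a).mul_mem ((MulAction.stabilizer G a).inv_mem hk) hg) hk⟩ : (MulAction.stabilizer G a)) =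
          (⟨k, hk⟩ : (MulAction.stabilizer G a))⁻¹ * ⟨g, hg⟩ * ⟨k, hk⟩ from rfl, map_mul, map_mul, map_inv, mul_comm,
        ← mul_assoc, mul_inv_cancel, one_mul]
    · rw [hout g hg, hout]
      intro h
      refine hg ?_
      have := (MulAction.stabilizer G a).mul_mem ((MulAction.stabilizer G a).mul_mem hk h) ((MulAction.stabilizer G a).inv_mem hk)
      simpa [mul_assoc] using this
  have hInd : ∀ s : G, indFun (MulAction.stabilizer G a) μ s = ∑ c : Ω, ext ((m c)⁻¹ * s * m c) := by
    intro s
    rw [indFun, ← Finset.sum_fiberwise_of_maps_to (g := fun x : G => x • a)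
      (t := (Finset.univ : Finset Ω)) (fun x _ => Finset.mem_univ _), Finset.mul_sum]
    refine Finset.sum_congr rfl fun c _ => ?_
    have hk : ∀ x ∈ Finset.univ.filter (fun x : G => x • a = c),
        ext (x⁻¹ * s * x) = ext ((m c)⁻¹ * s * m c) := by
      intro x hx
      have hxS : (m c)⁻¹ * x ∈ (MulAction.stabilizer G a) := by
        rw [MulAction.mem_stabilizer_iff, mul_smul, (Finset.mem_filter.mp hx).2, inv_smul_eq_iff, hm]
      rw [← hconj ((m c)⁻¹ * s * m c) _ hxS]
      congr 1
      group
    have hcard : (Finset.univ.filter fun x : G => x • a = c).card = Nat.card (MulAction.stabilizer G a) := by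
      rw [← Fintype.card_subtype, ← Nat.card_eq_fintype_card]
      refine Nat.card_congr
        { toFun := fun x => ⟨(m c)⁻¹ * x.1, ?_⟩
          invFun := fun k => ⟨m c * k.1, ?_⟩
          left_inv := fun x => Subtype.ext (by simp)
          right_inv := fun k => Subtype.ext (by simp) }
      · rw [MulAction.mem_stabilizer_iff, mul_smul, x.2, inv_smul_eq_iff, hm]
      · rw [mul_smul, MulAction.mem_stabilizer_iff.mp k.2, hm]
    rw [Finset.sum_congr rfl hk, Finset.sum_const, nsmul_eq_mul, hcard, ← mul_assoc,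
      inv_mul_cancel₀ (Nat.cast_ne_zero.mpr Nat.card_pos.ne'), one_mul]
  have hma : m a ∈ (MulAction.stabilizer G a) := hm a
  have hself : ∀ g : G, ext ((m a)⁻¹ * g * m a) = ext g := fun g => hconj g _ hma
  refine ⟨?_, fun u hu hu1 => ?_⟩
  swap
  · rw [hInd, Finset.sum_eq_single a, hself, hin u (hHa hu)]
    · exact hμH ⟨u, hHa hu⟩ hu
    · intro c _ hca
      refine hout _ fun h => hca ?_
      rw [MulAction.mem_stabilizer_iff, mul_smul, mul_smul, inv_smul_eq_iff, hm] at h
      exact hHfix u hu hu1 c h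
    · exact fun h => absurd (Finset.mem_univ _) h
  refine Cfsg.Lib.Characters.isIrrCharacter_of_classInner_eq_one
    (Cfsg.Lib.Characters.isCharacter_indFun (MulAction.stabilizer G a) hμc) ?_
  rw [Cfsg.Lib.Characters.classInner_indFun (MulAction.stabilizer G a) _ (Cfsg.Lib.Characters.isClassFunction_indFun (MulAction.stabilizer G a) μ),
    classInner]
  have hpart : ∀ c : Ω, ∑ s : (MulAction.stabilizer G a), μ s * conj (ext ((m c)⁻¹ * s * m c)) =
      if c = a then (Nat.card (MulAction.stabilizer G a) : ℂ) else 0 := by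
    intro c
    split_ifs with hca
    · subst hca
      rw [Nat.card_eq_fintype_card, Finset.sum_congr rfl fun s _ => show
        μ s * conj (ext ((m c)⁻¹ * s * m c)) = 1 by
          rw [hself, hin _ s.2]
          show (L s : ℂ) * conj (L s : ℂ) = 1
          rw [← Cfsg.Lib.Characters.char_inv_eq_conj hμc s]
          show (L s : ℂ) * (L s⁻¹ : ℂ) = 1
          rw [← Units.val_mul, ← map_mul, mul_inv_cancel, map_one, Units.val_one]]
      simp
    obtain ⟨t, ht, hta, htb⟩ := Cfsg.Lib.Zassenhaus.exists_swap_invol hZ hab hodd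
    have hinv := (Cfsg.Lib.Zassenhaus.commutative_and_inverts hZ hab hodd ht hta htb).2
    obtain ⟨s₀, hs₀a, hs₀b⟩ := Cfsg.Lib.Zassenhaus.exists_move hZ hab (Ne.symm hca)
    rw [← Equiv.sum_comp (MulAut.conj (⟨s₀, hs₀a⟩ : (MulAction.stabilizer G a))).toEquiv]
    have hterm : ∀ z : (MulAction.stabilizer G a), μ ((MulAut.conj (⟨s₀, hs₀a⟩ : (MulAction.stabilizer G a))).toEquiv z) *
        conj (ext ((m c)⁻¹ * (((MulAut.conj (⟨s₀, hs₀a⟩ : (MulAction.stabilizer G a))).toEquiv z : (MulAction.stabilizer G a)) : G) * m c)) =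
        if (z : G) • b = b then ((L z : ℂ)) ^ 2 else 0 := by
      intro z
      have hμz : μ ((MulAut.conj (⟨s₀, hs₀a⟩ : (MulAction.stabilizer G a))).toEquiv z) = (L z : ℂ) := by
        show (L (_ * z * _) : ℂ) = _
        rw [map_mul, map_mul, mul_comm, ← mul_assoc, map_inv, inv_mul_cancel, one_mul]
      have hk : (s₀ * t)⁻¹ * m c ∈ (MulAction.stabilizer G a) := by
        rw [MulAction.mem_stabilizer_iff, mul_smul, hm, inv_smul_eq_iff, mul_smul, hta, hs₀b]
      have he : ext ((m c)⁻¹ * (((MulAut.conj (⟨s₀, hs₀a⟩ : (MulAction.stabilizer G a))).toEquiv z : (MulAction.stabilizer G a)) : G) * m c) =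
          ext (t⁻¹ * z * t) := by
        rw [← hconj (t⁻¹ * z * t) _ hk]
        congr 1
        show (m c)⁻¹ * (s₀ * z * s₀⁻¹) * m c = _
        group
      rw [hμz, he]
      split_ifs with hzb
      · have hzD : (z : G) ∈ Cfsg.Lib.Zassenhaus.D G a b := ⟨z.2, hzb⟩
        have ht1 : t⁻¹ = t := inv_eq_of_mul_eq_one_right (by rw [← pow_two, ← ht, pow_orderOf_eq_one])
        have hz' : t⁻¹ * z * t = ((z⁻¹ : (MulAction.stabilizer G a)) : G) := by
          have := hinv _ hzD
          rw [ht1] at this ⊢
          exact this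
        rw [hz', hin _ (z⁻¹ : (MulAction.stabilizer G a)).2, pow_two]
        congr 1
        show conj (μ z⁻¹) = _
        rw [Cfsg.Lib.Characters.char_inv_eq_conj hμc z, Complex.conj_conj]
      · rw [hout, map_zero, mul_zero]
        intro h
        refine hzb ?_
        rw [MulAction.mem_stabilizer_iff, mul_smul, mul_smul, hta, inv_smul_eq_iff, hta] at h
        exact h
    rw [Finset.sum_congr rfl fun z _ => hterm z, ← Finset.sum_filter]
    let ι : Cfsg.Lib.Zassenhaus.D G a b →* (MulAction.stabilizer G a) := Subgroup.inclusion inf_le_left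
    let ν : Cfsg.Lib.Zassenhaus.D G a b →* ℂ := (Units.coeHom ℂ).comp ((L.comp ι) ^ 2)
    have hνne : ν ≠ 1 := by
      intro hν
      apply hμne
      funext s
      show (L s : ℂ) = 1
      have hD1 : ∀ x, L (ι x) = 1 := fun x => by
        have h2 : L (ι x) ^ 2 = 1 := Units.ext (DFunLike.congr_fun hν x)
        have h3 : L (ι x) ^ Nat.card (Cfsg.Lib.Zassenhaus.D G a b) = 1 := by
          rw [← map_pow, ← map_pow, pow_card_eq_one', map_one, map_one]
        have := pow_gcd_eq_one.mpr ⟨h2, h3⟩
        rwa [show Nat.gcd 2 (Nat.card (Cfsg.Lib.Zassenhaus.D G a b)) = 1 from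
          Nat.coprime_two_left.mpr hodd, pow_one] at this
      have hcompl : Subgroup.IsComplement' (H.subgroupOf (MulAction.stabilizer G a)) ((Cfsg.Lib.Zassenhaus.D G a b).subgroupOf (MulAction.stabilizer G a)) := by
        refine Subgroup.isComplement'_of_card_mul_and_disjoint ?_ ?_
        · rw [Nat.card_congr (Subgroup.subgroupOfEquivOfLe hHa).toEquiv,
            Nat.card_congr (Subgroup.subgroupOfEquivOfLe inf_le_left).toEquiv, mul_comm,
            ← Cfsg.Lib.Zassenhaus.card_D_mul hZ hab, ← hHcard, Nat.add_sub_cancel]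
        · rw [disjoint_iff, eq_bot_iff]
          intro x hx
          rw [Subgroup.mem_bot]
          by_contra hx1
          exact hab (hHfix _ hx.1 (fun h => hx1 (Subtype.ext h)) b hx.2.2).symm
      obtain ⟨⟨u, z⟩, huz⟩ := hcompl.2 s
      rw [← huz]
      show (L ((u : (MulAction.stabilizer G a)) * (z : (MulAction.stabilizer G a))) : ℂ) = 1
      have hz : L (z : (MulAction.stabilizer G a)) = 1 := hD1 ⟨((z : (MulAction.stabilizer G a)) : G), z.2⟩
      have hu := hμH (u : (MulAction.stabilizer G a)) u.2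
      rw [map_mul, hz, mul_one]
      exact hu
    let _ : Fintype (Cfsg.Lib.Zassenhaus.D G a b) := Fintype.ofFinite _
    rw [← sum_hom_units_eq_zero ν hνne]
    refine Finset.sum_bij' (fun z hz => ⟨(z : G), z.2, (Finset.mem_filter.mp hz).2⟩)
      (fun x _ => ι x) (fun _ _ => Finset.mem_univ _)
      (fun x _ => Finset.mem_filter.mpr ⟨Finset.mem_univ _, x.2.2⟩) (fun _ _ => rfl) (fun _ _ => rfl)
      fun z hz => rfl
  simp only [hInd, map_sum, Finset.mul_sum]
  rw [Finset.sum_comm]
  simp only [← Finset.mul_sum, hpart, Finset.sum_ite_eq', Finset.mem_univ, if_true]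
  exact inv_mul_cancel₀ (Nat.cast_ne_zero.mpr Nat.card_pos.ne')

end Cfsg.Agent.S0881
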