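import Cfsg.Statements.S0883
import Cfsg.Agent.Lib.Zassenhaus.Involutions


set_option autoImplicit false
open Cfsg

namespace Cfsg.Agent.S0883

/-- Let G be a finite simple Zassenhaus group on Ω with h + 1 points whose two-point stabilizer E has odd order e with 2e < h - 1, and let H be the subgroup of the stabilizer of a consisting of the identity and the elements fixing no point other than a (given here as a subgroup of the stabilizer of order one less than the number of points whose non-identity elements fix only a; it is the Frobenius kernel of the stabilizer). If a non-identity element u of H is a product of two involutions of G, then u is an involution. -/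
theorem result {G Ω : Type*} [Group G] [Finite G] [MulAction G Ω] [Fintype Ω] (hZ : Cfsg.IsZassenhausGroup G Ω) {a b : Ω} (hab : a ≠ b) [IsSimpleGroup G] (h e : ℕ) (hh : Fintype.card Ω = h + 1) (he : Nat.card ↥(MulAction.stabilizer G a ⊓ MulAction.stabilizer G b : Subgroup G) = e) (hodd : Odd e) (hlt : 2 * e < h - 1) (H : Subgroup G) (hHa : H ≤ MulAction.stabilizer G a) (hHcard : Nat.card H + 1 = Fintype.card Ω) (hHfix : ∀ u ∈ H, u ≠ 1 → ∀ c : Ω, u • c = c → c = a) (u : G) (hu : u ∈ H) (hu1 : u ≠ 1) (x y : G) (hx : orderOf x = 2) (hy : orderOf y = 2) (hxy : x * y = u) : orderOf u = 2 := by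
  subst he
  have hxx : x * x = 1 := by rw [← pow_two, ← hx, pow_orderOf_eq_one]
  have hyy : y * y = 1 := by rw [← pow_two, ← hy, pow_orderOf_eq_one]
  have hua : u • a = a := MulAction.mem_stabilizer_iff.mp (hHa hu)
  have hxa : x • a = a := by
    refine hHfix u hu hu1 (x • a) ?_
    have e : u * (x * u) = x := by
      rw [← hxy]
      calc x * y * (x * (x * y)) = x * y * (x * x) * y := by group
        _ = x * (y * y) := by rw [hxx]; group
        _ = x := by rw [hyy, mul_one]
    calc u • x • a = u • x • u • a := by rw [hua]
      _ = x • a := by rw [← mul_smul x u, ← mul_smul, e]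
  have hxH := Cfsg.Lib.Zassenhaus.invol_mem_kernel hZ hab hodd hHa hHcard hHfix hx hxa
  have hyH : y ∈ H := by
    rw [show y = x * u by rw [← hxy, ← mul_assoc, hxx, one_mul]]
    exact H.mul_mem hxH hu
  have hc := Cfsg.Lib.Zassenhaus.invol_kernel_commute hZ hab hodd hHa hHcard hHfix hx hxH hyH
  refine orderOf_eq_prime ?_ hu1
  rw [← hxy, pow_two]
  calc x * y * (x * y) = x * y * (y * x) := by rw [hc]
    _ = 1 := by rw [mul_assoc, ← mul_assoc y y x, hyy, one_mul, hxx]

end Cfsg.Agent.S0883
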