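import Cfsg.Statements.S0884
import Cfsg.Agent.Lib.Zassenhaus.Involutions


set_option autoImplicit false
open Cfsg

namespace Cfsg.Agent.S0884

open Cfsg.Lib.Zassenhaus

theorem count_le {G : Type*} [Group G] [Fintype G] [DecidableEq G] (X : Finset G) (r : G → ℕ)
    (hr : ∀ g ∈ X, r g ≤ Nat.card (Subgroup.centralizer ({g} : Set G))) [DecidableEq (ConjClasses G)] :
    ∑ g ∈ X, r g ≤ (X.image ConjClasses.mk).card * Nat.card G := by
  classical
  rw [← Finset.sum_fiberwise_of_maps_to (g := ConjClasses.mk) (t := X.image ConjClasses.mk)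
    (fun g hg => Finset.mem_image_of_mem _ hg), ← smul_eq_mul, ← Finset.sum_const]
  refine Finset.sum_le_sum fun C _ => ?_
  rcases (X.filter fun g => ConjClasses.mk g = C).eq_empty_or_nonempty with h | ⟨g₀, hg₀⟩
  · rw [h]; simp
  rw [Finset.mem_filter] at hg₀
  have hsub : (X.filter fun g => ConjClasses.mk g = C) ⊆ Finset.univ.filter fun g => IsConj g₀ g := by
    intro g hg
    rw [Finset.mem_filter] at hg
    exact Finset.mem_filter.mpr ⟨Finset.mem_univ _,
      ConjClasses.mk_eq_mk_iff_isConj.mp (hg₀.2.trans hg.2.symm)⟩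
  have hval : ∀ g ∈ X.filter (fun g => ConjClasses.mk g = C),
      r g ≤ Nat.card (Subgroup.centralizer ({g₀} : Set G)) := by
    intro g hg
    refine (hr g (Finset.mem_filter.mp hg).1).trans (le_of_eq ?_)
    have hc : IsConj g₀ g := (Finset.mem_filter.mp (hsub hg)).2
    have e1 := Cfsg.Lib.Characters.card_conj_mul_card_centralizer (G := G) g₀
    have e2 := Cfsg.Lib.Characters.card_conj_mul_card_centralizer (G := G) g
    have e3 : Nat.card {x : G // IsConj g x} = Nat.card {x : G // IsConj g₀ x} :=
      Nat.card_congr (Equiv.subtypeEquivRight fun x => ⟨fun h => hc.trans h, fun h => hc.symm.trans h⟩)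
    rw [e3, ← e1] at e2
    have : Nonempty {x : G // IsConj g₀ x} := ⟨⟨g₀, IsConj.refl _⟩⟩
    exact Nat.eq_of_mul_eq_mul_left Nat.card_pos e2
  refine (Finset.sum_le_card_nsmul _ _ _ hval).trans ?_
  rw [smul_eq_mul, ← Cfsg.Lib.Characters.card_conj_mul_card_centralizer (G := G) g₀,
    Nat.card_eq_fintype_card (α := {x : G // IsConj g₀ x}), Fintype.card_subtype]
  exact Nat.mul_le_mul_right _ (Finset.card_le_card hsub)


/-- Let G be a finite simple Zassenhaus group on Ω with h + 1 points whose two-point stabilizer E has odd order e with 2e < h - 1, and let H be the subgroup of the stabilizer of a consisting of the identity and the elements fixing no point other than a (given here as a subgroup of the stabilizer of order one less than the number of points whose non-identity elements fix only a; it is the Frobenius kernel of the stabilizer). Then at least e conjugacy classes of G contain no element of H. -/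
theorem result {G Ω : Type*} [Group G] [Finite G] [MulAction G Ω] [Fintype Ω] (hZ : Cfsg.IsZassenhausGroup G Ω) {a b : Ω} (hab : a ≠ b) [IsSimpleGroup G] (h e : ℕ) (hh : Fintype.card Ω = h + 1) (he : Nat.card ↥(MulAction.stabilizer G a ⊓ MulAction.stabilizer G b : Subgroup G) = e) (hodd : Odd e) (hlt : 2 * e < h - 1) (H : Subgroup G) (hHa : H ≤ MulAction.stabilizer G a) (hHcard : Nat.card H + 1 = Fintype.card Ω) (hHfix : ∀ u ∈ H, u ≠ 1 → ∀ c : Ω, u • c = c → c = a) : e ≤ Nat.card {C : ConjClasses G // ∀ g : G, ConjClasses.mk g = C → g ∉ H} := by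
  classical
  subst he
  let _ : Fintype G := Fintype.ofFinite G
  set e := Nat.card ↥(MulAction.stabilizer G a ⊓ MulAction.stabilizer G b : Subgroup G) with he
  have he3 : 3 ≤ e := three_le_card_D hZ hab hodd
  obtain ⟨hG, -, h2, -⟩ := nfix_counts hZ hab hh he.symm
  obtain ⟨t, ht, hta, htb⟩ := exists_swap_invol hZ hab hodd
  obtain ⟨hcomm, hinv⟩ := commutative_and_inverts hZ hab hodd ht hta htb
  have hIc := card_invol hZ hab hodd hh
  rw [Nat.card_eq_fintype_card (α := {x : G // orderOf x = 2}), Fintype.card_subtype] at hIc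
  change _ = if Even h then e * (h + 1) else e * h at hIc
  set T := Finset.univ.filter fun x : G => orderOf x = 2 with hT
  set n₂ := nfix G Ω 2
  have hTm : ∀ x : G, x ∈ T ↔ orderOf x = 2 := fun x => by simp [hT]
  have hsq : ∀ x ∈ T, x * x = 1 := fun x hx => by
    rw [← pow_two, ← (hTm x).mp hx, pow_orderOf_eq_one]
  have hne1 : ∀ x ∈ T, x ≠ 1 := fun x hx h => by
    rw [hTm, h, orderOf_one] at hx
    omega
  -- representations as products of two involutions
  set R : G → Finset G := fun g => T.filter fun x => x * g ∈ T with hR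
  have hsum : ∑ g : G, (R g).card = T.card * T.card := by
    simp only [hR, Finset.card_filter]
    rw [Finset.sum_comm]
    rw [Finset.sum_congr rfl fun x _ => show (∑ g : G, if x * g ∈ T then 1 else 0) = T.card by
      rw [← Equiv.sum_comp (Equiv.mulLeft x⁻¹)]
      simp, Finset.sum_const, smul_eq_mul]
  have hinvert : ∀ g x : G, x ∈ R g → x * g * x = g⁻¹ := by
    intro g x hx
    rw [hR, Finset.mem_filter] at hx
    have h := hsq _ hx.2
    exact eq_inv_of_mul_eq_one_left ((mul_assoc _ _ _).trans h)
  -- the fixed set of an element is invariant under an inverting involution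
  have hpres : ∀ g x : G, x ∈ R g → ∀ c : Ω, g • c = c → g • (x • c) = x • c := by
    intro g x hx c hc
    have hxx := hsq x (Finset.mem_filter.mp hx).1
    have : g * x = x * g⁻¹ := by
      rw [← hinvert g x hx, ← mul_assoc, ← mul_assoc, hxx, one_mul]
    rw [← mul_smul, this, mul_smul, inv_smul_eq_iff.mpr hc.symm]
  have hR2 : ∀ g : G, g ≠ 1 → fx (Ω := Ω) g = 2 → (R g).card ≤ e := by
    intro g hg hg2
    obtain ⟨c, d, hcd, hF⟩ := Finset.card_eq_two.mp hg2
    have hmem : ∀ z : Ω, g • z = z ↔ z = c ∨ z = d := fun z => by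
      have := Finset.ext_iff.mp hF z
      simpa using this
    refine (Finset.card_le_card ?_).trans (card_invol_moving hZ hab hodd hcd).le
    intro x hx
    have hxT := (hTm x).mp (Finset.mem_filter.mp hx).1
    refine Finset.mem_filter.mpr ⟨Finset.mem_univ _, hxT, ?_⟩
    rcases (hmem _).mp (hpres g x hx c ((hmem c).mpr (Or.inl rfl))) with hc | hc
    · rcases (hmem _).mp (hpres g x hx d ((hmem d).mpr (Or.inr rfl))) with hd | hd
      · exact absurd (MulAction.injective x (hc.trans hd.symm)) hcd
      · exact absurd (invol_fixed_unique hZ hab hodd hxT hc hd) hcd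
    · exact hc
  -- one fixed point
  set T1 := Finset.univ.filter fun g : G => g ≠ 1 ∧ fx (Ω := Ω) g = 1 with hT1
  have hone : ∀ g ∈ T1, (R g).Nonempty → Even h ∧ g ∈ T := by
    intro g hg ⟨x, hx⟩
    rw [hT1, Finset.mem_filter] at hg
    obtain ⟨c, hc, hu⟩ := fx_one_iff hZ hg.2.1 hg.2.2
    have hxc : x • c = c := hu _ (hpres g x hx c hc)
    have hxT := (hTm x).mp (Finset.mem_filter.mp hx).1
    have hev : Even h := by
      by_contra hev
      have := invol_fx hZ hab hodd hxT hh
      rw [if_neg hev, fx, Finset.card_eq_zero, Finset.filter_eq_empty_iff] at this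
      exact this (Finset.mem_univ c) hxc
    refine ⟨hev, ?_⟩
    obtain ⟨d, hcd⟩ := exists_ne' hZ c
    obtain ⟨K, hKa, hKc, hKf⟩ := exists_kernel hZ c
    have hodd' := odd_D hZ hab hodd hcd
    have hyT := (hTm _).mp (Finset.mem_filter.mp hx).2
    have hxK := invol_mem_kernel hZ hcd hodd' hKa hKc hKf hxT hxc
    have hyK := invol_mem_kernel hZ hcd hodd' hKa hKc hKf hyT (by rw [mul_smul, hc, hxc])
    have hcm := invol_kernel_commute hZ hcd hodd' hKa hKc hKf hxT hxK hyK
    rw [hTm]
    refine orderOf_eq_prime ?_ hg.2.1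
    have hxx := hsq x (Finset.mem_filter.mp hx).1
    have hyy := hsq _ (Finset.mem_filter.mp hx).2
    have hgx : g = x * (x * g) := by rw [← mul_assoc, hxx, one_mul]
    rw [pow_two]
    calc g * g = x * (x * g) * (x * (x * g)) := by rw [← hgx]
      _ = x * (x * g) * (x * g * x) := by rw [hcm]
      _ = x * ((x * g) * (x * g)) * x := by group
      _ = 1 := by rw [hyy, mul_one, hxx]
  have hι : ∀ c : Ω, Even h → (T.filter fun x => x • c = c).card = e := by
    intro c hev
    have hall : ∀ c' : Ω, (T.filter fun x => x • c' = c').card = (T.filter fun x => x • c = c).card := by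
      intro c'
      have := pretransitive hZ
      obtain ⟨w, hw⟩ := MulAction.exists_smul_eq G c c'
      refine Finset.card_bij' (fun x _ => w⁻¹ * x * w) (fun x _ => w * x * w⁻¹) (fun x hx => ?_)
        (fun x hx => ?_) (fun x _ => by group) (fun x _ => by group)
      · rw [Finset.mem_filter, hTm] at hx ⊢
        refine ⟨?_, by rw [mul_smul, mul_smul, hw, hx.2, inv_smul_eq_iff, hw]⟩
        rw [← hx.1]
        simpa using orderOf_injective (MulAut.conj w⁻¹).toMonoidHom (MulAut.conj w⁻¹).injective x
      · rw [Finset.mem_filter, hTm] at hx ⊢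
        refine ⟨?_, by rw [mul_smul, mul_smul, inv_smul_eq_iff.mpr hw.symm, hx.2, hw]⟩
        rw [← hx.1]
        exact orderOf_injective (MulAut.conj w).toMonoidHom (MulAut.conj w).injective x
    have hs : ∑ c' : Ω, (T.filter fun x => x • c' = c').card = T.card := by
      simp only [Finset.card_filter]
      rw [Finset.sum_comm, Finset.card_eq_sum_ones]
      refine Finset.sum_congr rfl fun x hx => ?_
      rw [← Finset.card_filter]
      exact (invol_fx hZ hab hodd ((hTm x).mp hx) hh).trans (if_pos hev)
    rw [Finset.sum_congr rfl fun c' _ => hall c', Finset.sum_const, Finset.card_univ, hh, smul_eq_mul,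
      hIc, if_pos hev] at hs
    exact Nat.eq_of_mul_eq_mul_left (Nat.succ_pos h) (hs.trans (mul_comm _ _))
  have hb1 : ∑ g ∈ T1, (R g).card ≤ if Even h then T.card * (e - 1) else 0 := by
    have hsub : ∑ g ∈ T1, (R g).card = ∑ g ∈ T1.filter (fun g => (R g).Nonempty), (R g).card := by
      refine (Finset.sum_subset (Finset.filter_subset _ _) fun g hg hg' => ?_).symm
      rw [Finset.card_eq_zero]
      by_contra hne
      exact hg' (Finset.mem_filter.mpr ⟨hg, Finset.nonempty_iff_ne_empty.mpr hne⟩)
    rw [hsub]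
    split_ifs with hev
    · refine (Finset.sum_le_card_nsmul _ _ (e - 1) fun g hg => ?_).trans ?_
      · rw [Finset.mem_filter] at hg
        have hgT := (hone g hg.1 hg.2).2
        obtain ⟨c, hc, hu⟩ := fx_one_iff hZ (hne1 g hgT) (Finset.mem_filter.mp hg.1).2.2
        rw [← hι c hev, ← Finset.card_erase_of_mem (Finset.mem_filter.mpr ⟨hgT, hc⟩ : g ∈ T.filter fun x => x • c = c)]
        refine Finset.card_le_card fun x hx => ?_
        rw [Finset.mem_erase, Finset.mem_filter]
        refine ⟨fun hxg => ?_, (Finset.mem_filter.mp hx).1, hu _ (hpres g x hx c hc)⟩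
        have := hne1 _ (Finset.mem_filter.mp hx).2
        rw [hxg, hsq g hgT] at this
        exact this rfl
      · rw [smul_eq_mul]
        exact Nat.mul_le_mul_right _ (Finset.card_le_card fun g hg =>
          (hone g (Finset.mem_filter.mp hg).1 (Finset.mem_filter.mp hg).2).2)
    · refine le_of_eq (Finset.sum_eq_zero fun g hg => absurd (hone g (Finset.mem_filter.mp hg).1
        (Finset.mem_filter.mp hg).2).1 hev)
  -- no fixed point
  set T0 := Finset.univ.filter fun g : G => g ≠ 1 ∧ fx (Ω := Ω) g = 0 with hT0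
  set T2 := Finset.univ.filter fun g : G => g ≠ 1 ∧ fx (Ω := Ω) g = 2 with hT2
  have hcent : ∀ g ∈ T0, (R g).card ≤ Nat.card (Subgroup.centralizer ({g} : Set G)) := by
    intro g _
    rcases (R g).eq_empty_or_nonempty with h0 | ⟨x₀, hx₀⟩
    · rw [h0]; simp
    rw [Nat.card_eq_fintype_card, Fintype.card_subtype]
    refine Finset.card_le_card_of_injOn (fun x => x₀ * x) (fun x hx => ?_)
      (fun x _ y _ e => mul_left_cancel e)
    simp only [Finset.coe_filter, Finset.mem_univ, true_and, Set.mem_setOf_eq,
      Subgroup.mem_centralizer_singleton_iff]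
    have h1 := hinvert g x hx
    have h0' := hinvert g x₀ hx₀
    have hxx := hsq x (Finset.mem_filter.mp (Finset.mem_coe.mp hx)).1
    have hxx₀ := hsq x₀ (Finset.mem_filter.mp hx₀).1
    have e1 : x * g = g⁻¹ * x := by rw [← h1, mul_assoc _ x x, hxx, mul_one]
    have e2 : x₀ * g⁻¹ = g * x₀ := by
      rw [← h0', ← mul_assoc, ← mul_assoc, hxx₀, one_mul]
    calc x₀ * x * g = x₀ * g⁻¹ * x := by rw [mul_assoc, e1, mul_assoc]
      _ = g * (x₀ * x) := by rw [e2, mul_assoc]
  have hb0 := count_le T0 (fun g => (R g).card) hcent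
  set k := (T0.image ConjClasses.mk).card with hk
  -- the total
  have htot : T.card * T.card ≤ T.card + (if Even h then T.card * (e - 1) else 0) + n₂ * e +
      k * Nat.card G := by
    rw [← hsum]
    have hsplit : ∀ g : G, (R g).card = (if g = 1 then (R g).card else 0) +
        (if g ∈ T1 then (R g).card else 0) + (if g ∈ T2 then (R g).card else 0) +
        (if g ∈ T0 then (R g).card else 0) := by
      intro g
      by_cases hg : g = 1
      · simp [hg, hT0, hT1, hT2]
      · have := fx_le_two hZ hg
        simp only [hT0, hT1, hT2, Finset.mem_filter, Finset.mem_univ, true_and, hg, ne_eq,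
          not_false_eq_true, if_false]
        interval_cases hfx : fx (Ω := Ω) g <;> simp
    rw [Finset.sum_congr rfl fun g _ => hsplit g]
    simp only [Finset.sum_add_distrib, Finset.sum_ite_eq', Finset.mem_univ, if_true, Finset.sum_ite_mem,
      Finset.univ_inter]
    refine Nat.add_le_add (Nat.add_le_add (Nat.add_le_add (Finset.card_le_card (Finset.filter_subset _ _))
      hb1) ?_) hb0
    refine (Finset.sum_le_card_nsmul _ _ e fun g hg => ?_).trans le_rfl
    rw [hT2, Finset.mem_filter] at hg
    exact hR2 g hg.2.1 hg.2.2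
  rw [hIc, hG] at htot
  have hk2 : e + 1 ≤ 2 * k := by
    have hpos : 0 < e * h * (h + 1) := by
      have : 0 < h := by omega
      positivity
    split_ifs at htot with hev
    · by_contra hcon
      have hle : 2 * k ≤ e := by omega
      have hmul := Nat.mul_le_mul_right (e * h * (h + 1)) hle
      clear_value e
      obtain ⟨e', rfl⟩ : ∃ e', e = e' + 1 := ⟨e - 1, by omega⟩
      rw [Nat.add_sub_cancel] at htot
      nlinarith
    · have hge : e ≤ 2 * k := by
        by_contra hcon
        have hle : 2 * k + 1 ≤ e := by omega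
        have hmul := Nat.mul_le_mul_right (e * h * (h + 1)) hle
        have heh := Nat.mul_lt_mul_of_pos_left (show e < h by omega) (Nat.mul_pos (show 0 < e by omega) (show 0 < h by omega))
        nlinarith
      obtain ⟨j, hj⟩ := hodd
      omega
  -- classes meeting the two point stabilizer
  set D' := (Finset.univ.filter fun g : G => g ∈ Cfsg.Lib.Zassenhaus.D G a b).erase 1 with hD'
  set m := (D'.image ConjClasses.mk).card with hm
  have hDcard : D'.card = e - 1 := by
    rw [hD', Finset.card_erase_of_mem (by simp), ← Fintype.card_subtype, ← Nat.card_eq_fintype_card]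
  have hm2 : e - 1 ≤ 2 * m := by
    rw [← hDcard, hm]
    refine Finset.card_le_mul_card_image _ 2 fun C hC => ?_
    obtain ⟨x, hx, rfl⟩ := Finset.mem_image.mp hC
    refine (Finset.card_le_card ?_).trans (Finset.card_le_two (a := x) (b := x⁻¹))
    intro y hy
    rw [Finset.mem_filter] at hy
    rw [hD', Finset.mem_erase, Finset.mem_filter] at hx
    have hyD : y ∈ Cfsg.Lib.Zassenhaus.D G a b := (Finset.mem_filter.mp (Finset.mem_of_mem_erase hy.1)).2
    obtain ⟨w, rfl⟩ := isConj_iff.mp (ConjClasses.mk_eq_mk_iff_isConj.mp hy.2).symm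
    rw [Finset.mem_insert, Finset.mem_singleton]
    rcases conj_cases hZ hab hx.1 hx.2.2 hyD with hw | hw
    · left
      rw [hcomm w hw x hx.2.2, mul_inv_cancel_right]
    · right
      have hz := swap_mul_swap hta htb hw.1 hw.2
      have ht2 : t * t = 1 := by rw [← pow_two, ← ht, pow_orderOf_eq_one]
      have hi := hinv x hx.2.2
      calc w * x * w⁻¹ = t * (t * w * x * (t * w)⁻¹) * t⁻¹⁻¹⁻¹ := by
            rw [mul_inv_rev, inv_inv, inv_eq_of_mul_eq_one_right ht2]
            calc w * x * w⁻¹ = (t * t) * w * x * w⁻¹ * (t * t) := by rw [ht2]; group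
              _ = _ := by group
        _ = x⁻¹ := by rw [hcomm _ hz x hx.2.2, mul_inv_cancel_right, inv_inv, hi]
  -- conclusion
  have hunion : (T0.image ConjClasses.mk ∪ D'.image ConjClasses.mk).card = k + m := by
    rw [Finset.card_union_of_disjoint]
    rw [Finset.disjoint_left]
    intro C hC hC'
    obtain ⟨g, hg, rfl⟩ := Finset.mem_image.mp hC
    obtain ⟨x, hx, hxg⟩ := Finset.mem_image.mp hC'
    obtain ⟨w, rfl⟩ := isConj_iff.mp (ConjClasses.mk_eq_mk_iff_isConj.mp hxg)
    have hxD := (Finset.mem_filter.mp (Finset.mem_of_mem_erase hx)).2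
    have h0 := (Finset.mem_filter.mp hg).2.2
    rw [fx, Finset.card_eq_zero, Finset.filter_eq_empty_iff] at h0
    exact h0 (Finset.mem_univ (w • a)) (by rw [mul_smul, inv_smul_smul, mul_smul, hxD.1])
  refine le_trans (show e ≤ k + m by omega) (hunion ▸ ?_)
  rw [Nat.card_eq_fintype_card, Fintype.card_subtype]
  refine Finset.card_le_card fun C hC => Finset.mem_filter.mpr ⟨Finset.mem_univ _, fun g hg hgH => ?_⟩
  rw [← hg, Finset.mem_union] at hC
  rcases hC with hC | hC
  · obtain ⟨x, hx, hxg⟩ := Finset.mem_image.mp hC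
    obtain ⟨w, rfl⟩ := isConj_iff.mp (ConjClasses.mk_eq_mk_iff_isConj.mp hxg)
    have h0 := (Finset.mem_filter.mp hx).2.2
    rw [fx, Finset.card_eq_zero, Finset.filter_eq_empty_iff] at h0
    refine h0 (Finset.mem_univ (w⁻¹ • a)) ?_
    have := MulAction.mem_stabilizer_iff.mp (hHa hgH)
    rw [mul_smul, mul_smul, smul_eq_iff_eq_inv_smul] at this
    exact this
  · obtain ⟨x, hx, hxg⟩ := Finset.mem_image.mp hC
    obtain ⟨w, rfl⟩ := isConj_iff.mp (ConjClasses.mk_eq_mk_iff_isConj.mp hxg)
    have hx1 := (Finset.mem_erase.mp hx).1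
    have hxD := (Finset.mem_filter.mp (Finset.mem_of_mem_erase hx)).2
    have hne : w * x * w⁻¹ ≠ 1 := by simpa using hx1
    have e1 := hHfix _ hgH hne (w • a) (by rw [mul_smul, inv_smul_smul, mul_smul, hxD.1])
    have e2 := hHfix _ hgH hne (w • b) (by rw [mul_smul, inv_smul_smul, mul_smul, hxD.2])
    exact hab (MulAction.injective w (e1.trans e2.symm))

end Cfsg.Agent.S0884
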