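import Cfsg.Statements.S0890
import Cfsg.Agent.Lib.Characters.BergerChar

set_option autoImplicit false
open Cfsg Cfsg.Lib.Characters.Proj

namespace Cfsg.Agent.S0890

/-- Let L ≤ H < G with L normal in G, H a maximal subgroup and G / L solvable. Let ϑ be an irreducible character of H whose restriction to L is irreducible and whose induction χ to G is irreducible. Then there is a normal subgroup M of G containing L such that the restriction of χ to M is not a natural-number multiple of a single irreducible character of M. -/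
theorem result {G : Type*} [Group G] [Fintype G] (L H : Subgroup G) [L.Normal] (hLH : L ≤ H) (hmax : IsCoatom H) (hsolv : Group.IsSolvable (G ⧸ L)) (ϑ : H → ℂ) (hϑ : Cfsg.IsIrrCharacter H ϑ) (hϑL : Cfsg.IsIrrCharacter L (fun x : L => ϑ ⟨(x : G), hLH x.2⟩)) (hind : Cfsg.IsIrrCharacter G (Cfsg.indFun H ϑ)) : ∃ M : Subgroup G, M.Normal ∧ L ≤ M ∧ ¬ ∃ (φ : M → ℂ) (e : ℕ), Cfsg.IsIrrCharacter M φ ∧ (fun m : M => Cfsg.indFun H ϑ m) = (e : ℂ) • φ := by
  classical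
  by_contra hall
  push Not at hall
  obtain ⟨d, ρ, hρ, hρc⟩ := hind
  haveI := hρ
  have hhomq : ∀ N' : Subgroup G, N'.Normal → L ≤ N' → ∀ X Y, MinInv (ofRep ρ) N' X →
      MinInv (ofRep ρ) N' Y → IsoOn (ofRep ρ) N' X Y := by
    intro N' hN' hLN' X Y hX hY
    obtain ⟨φ, e, hφ, he⟩ := hall N' hN' hLN'
    exact isoOn_of_homogeneous ρ N' hφ (by rw [hρc]; exact he) hX hY
  obtain ⟨X, hX, hXi, hdim⟩ := exists_indSubspace ρ H hϑ.isCharacter hρc.symm
  obtain ⟨W, -, hW⟩ := exists_minInv (irr_ofRep ρ).1 (inv_top (P := ofRep ρ) L)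
  obtain ⟨PS, hPS, hirrS, hqpS, hLS, -, hindS, -⟩ :=
    exists_multiplicity (isProj_ofRep ρ) (irr_ofRep ρ) hhomq hW
  obtain ⟨T, hT, hTi, hTdim⟩ := hindS H hLH X hX hXi hdim
  let π := QuotientGroup.mk' L
  haveI : Group.IsSolvable (G ⧸ L) := hsolv
  let Q : G ⧸ L → (homN hW.inv ⊤ ≃ₗ[ℂ] homN hW.inv ⊤) := fun q => PS q.out
  have hcomp : ∀ g : G, ∃ c : ℂ, c ≠ 0 ∧ ∀ f, PS g f = c • Q (g : G ⧸ L) f := by
    intro g
    obtain ⟨l, hl⟩ := QuotientGroup.mk_out_eq_mul L g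
    obtain ⟨a, ha, ha'⟩ := hPS g (l : G)
    obtain ⟨b, hb⟩ := hLS l l.2
    obtain ⟨f₀, -, hf₀⟩ := Submodule.exists_mem_ne_zero_of_ne_bot hirrS.1
    have hb0 : b ≠ 0 := fun h0 => hf₀ ((PS (l : G)).map_eq_zero_iff.mp (by rw [hb, h0, zero_smul]))
    refine ⟨a * b⁻¹, mul_ne_zero ha (inv_ne_zero hb0), fun f => ?_⟩
    have := ha' f
    rw [hb, map_smul] at this
    show PS g f = (a * b⁻¹) • PS (g : G ⧸ L).out f
    rw [hl, mul_comm, mul_smul, ← this, smul_smul, inv_mul_cancel₀ hb0, one_smul]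
  have hQ : IsProj (V := homN hW.inv ⊤) Q := by
    intro a b
    obtain ⟨k, hk, hk'⟩ := hPS a.out b.out
    obtain ⟨c, hc, hc'⟩ := hcomp (a.out * b.out)
    refine ⟨k * c, mul_ne_zero hk hc, fun f => ?_⟩
    show PS a.out (PS b.out f) = _
    rw [hk', hc', smul_smul, QuotientGroup.mk_mul, QuotientGroup.out_eq', QuotientGroup.out_eq']
  have hinv : ∀ (N' : Subgroup (G ⧸ L)) (Z : Submodule ℂ _),
      Inv (V := homN hW.inv ⊤) Q N' Z ↔ Inv PS (N'.comap π) Z := by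
    intro N' Z
    constructor
    · intro h g hg f hf
      obtain ⟨c, -, hc⟩ := hcomp g
      rw [hc]
      exact Z.smul_mem _ (h _ hg f hf)
    · intro h q hq f hf
      exact h q.out (by rw [Subgroup.mem_comap, QuotientGroup.mk'_apply, QuotientGroup.out_eq']; exact hq) f hf
  have hmin : ∀ (N' : Subgroup (G ⧸ L)) (Z : Submodule ℂ _),
      MinInv (V := homN hW.inv ⊤) Q N' Z → MinInv PS (N'.comap π) Z := fun N' Z h =>
    ⟨h.ne_bot, (hinv N' Z).mp h.inv, fun Y hY hYi => h.eq_bot_or_eq Y hY ((hinv N' Y).mpr hYi)⟩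
  refine not_indData _ (homN hW.inv ⊤) Q rfl hQ ⟨hirrS.1, fun Z hZ => hirrS.2 Z ?_⟩ (fun N' hN' Z₁ Z₂ h₁ h₂ => ?_)
    ⟨H.map π, fun h => hmax.1 ?_, T, hT, ?_, ?_⟩
  · simpa [Subgroup.comap_top] using (hinv ⊤ Z).mp hZ
  · obtain ⟨e, he⟩ := hqpS _ (hN'.comap π) Z₁ Z₂ (hmin N' Z₁ h₁) (hmin N' Z₂ h₂)
    exact ⟨e, fun q hq x y hxy => he q.out
      (by rw [Subgroup.mem_comap, QuotientGroup.mk'_apply, QuotientGroup.out_eq']; exact hq) x y hxy⟩
  · have := congrArg (Subgroup.comap π) h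
    rwa [Subgroup.comap_map_eq, QuotientGroup.ker_mk', sup_eq_left.mpr hLH, Subgroup.comap_top] at this
  · rw [hinv, Subgroup.comap_map_eq, QuotientGroup.ker_mk', sup_eq_left.mpr hLH]
    exact hTi
  · rw [Subgroup.index_map_eq H (QuotientGroup.mk'_surjective L)
      (by rw [QuotientGroup.ker_mk']; exact hLH)]
    exact hTdim

end Cfsg.Agent.S0890
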