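import Cfsg.Statements.S0891
import Cfsg.Agent.Lib.Stem.AltSpin

set_option autoImplicit false
open Cfsg

namespace Cfsg.Agent.S0891

/-- For every n ≥ 4 there are a finite group Γ and a central element z of Γ of order 2 lying in the commutator subgroup of Γ such that the quotient of Γ by the (normal) subgroup generated by z is isomorphic to the alternating group on n letters. -/
theorem result (n : ℕ) (hn : 4 ≤ n) : ∃ (Γ : Type) (_ : Group Γ) (_ : Finite Γ) (z : Γ) (hz : z ∈ Subgroup.center Γ), orderOf z = 2 ∧ z ∈ commutator Γ ∧ ∃ _ : (Subgroup.zpowers z).Normal, Nonempty (Γ ⧸ Subgroup.zpowers z ≃* alternatingGroup (Fin n)) := by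
  open Cfsg.Agent.AltSpin in
  have hker : (toAlt (n := n)).ker = Subgroup.zpowers (negOne n) := by
    apply le_antisymm
    · intro g hg
      rcases ker_toAlt g hg with rfl | rfl
      · exact one_mem _
      · exact Subgroup.mem_zpowers _
    · exact (Subgroup.zpowers_le).mpr (perm_unique (negOne n) 1 (by simp [negOne]))
  open Cfsg.Agent.AltSpin in
  refine ⟨cover n, inferInstance, cover_finite, negOne n,
    Subgroup.mem_center_iff.mpr negOne_central, orderOf_eq_prime ?_ negOne_ne, negOne_mem_commutator hn,
    hker ▸ MonoidHom.normal_ker _, ?_⟩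
  · refine Subtype.ext (Units.ext ?_)
    simp [Cfsg.Agent.AltSpin.negOne]
  · haveI : (Subgroup.zpowers (Cfsg.Agent.AltSpin.negOne n)).Normal := hker ▸ MonoidHom.normal_ker _
    exact ⟨(QuotientGroup.quotientMulEquivOfEq hker.symm).trans
      (QuotientGroup.quotientKerEquivOfSurjective _ Cfsg.Agent.AltSpin.toAlt_surjective)⟩

end Cfsg.Agent.S0891
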