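import Cfsg.Statements.S0892
import Cfsg.Agent.Lib.Stem.Transfer
-- import your own Cfsg.Agent.* helpers here

set_option autoImplicit false
open Cfsg

namespace Cfsg.Agent.S0892

open Equiv Subgroup
open scoped commutatorElement

theorem comm_central {P : Type*} [Group P] {u z v z' : P} (hz : z ∈ center P) (hz' : z' ∈ center P) :
    ⁅u * z, v * z'⁆ = ⁅u, v⁆ := by
  have e : ∀ g, g * z' = z' * g := Subgroup.mem_center_iff.1 hz'
  have d : ∀ g, g * z = z * g := Subgroup.mem_center_iff.1 hz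
  have h1 : ⁅u * z, v⁆ = ⁅u, v⁆ := by
    calc ⁅u * z, v⁆ = u * (z * v * z⁻¹) * u⁻¹ * v⁻¹ := by rw [commutatorElement_def]; group
      _ = ⁅u, v⁆ := by rw [← d v, mul_inv_cancel_right, commutatorElement_def]
  calc ⁅u * z, v * z'⁆ = (u * z) * v * (z' * (u * z)⁻¹ * z'⁻¹) * v⁻¹ := by rw [commutatorElement_def]; group
    _ = ⁅u * z, v⁆ := by rw [← e, mul_inv_cancel_right, commutatorElement_def]
    _ = ⁅u, v⁆ := h1

/-- The standard three-cycles `(0 1 k)`. -/
def cyc3 {n : ℕ} (h : 2 ≤ n) (k : Fin n) : Perm (Fin n) :=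
  swap ⟨0, by omega⟩ ⟨1, by omega⟩ * swap ⟨1, by omega⟩ k

theorem cyc3_isThreeCycle {n : ℕ} (h : 2 ≤ n) {k : Fin n} (hk : 2 ≤ k.val) : (cyc3 h k).IsThreeCycle := by
  rw [cyc3, swap_comm (⟨0, _⟩ : Fin n) ⟨1, _⟩]
  exact Perm.isThreeCycle_swap_mul_swap_same (by simp [Fin.ext_iff]) (by simp [Fin.ext_iff]; omega)
    (by simp [Fin.ext_iff]; omega)

theorem conj_cyc3 {n : ℕ} (h : 2 ≤ n) (σ : Perm (Fin n)) (k : Fin n) :
    σ * cyc3 h k * σ⁻¹ = swap (σ ⟨0, by omega⟩) (σ ⟨1, by omega⟩) * swap (σ ⟨1, by omega⟩) (σ k) := by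
  rw [swap_apply_apply, swap_apply_apply, cyc3]; group

section ext
variable {n : ℕ} {Γ : Type*} [Group Γ] (π : Γ →* alternatingGroup (Fin n)) (hπ : Function.Surjective π)
  (hZ : π.ker ≤ center Γ)

/-- `u` is the commutator of a lift with an inverting lift. -/
def IsU (c : alternatingGroup (Fin n)) (u : Γ) : Prop :=
  ∃ g C : Γ, π C = c ∧ π g * c * (π g)⁻¹ = c⁻¹ ∧ u = g * C * g⁻¹ * C⁻¹

omit hπ hZ in
theorem isU_map {c : alternatingGroup (Fin n)} {u : Γ} (h : IsU π c u) : π u = c⁻¹ * c⁻¹ := by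
  obtain ⟨g, C, hC, hg, rfl⟩ := h
  rw [map_mul, map_mul, map_mul, map_inv, map_inv, hC, hg]

omit hπ hZ in
theorem isU_conj {c : alternatingGroup (Fin n)} {u : Γ} (h : IsU π c u) (a : Γ) :
    IsU π (π a * c * (π a)⁻¹) (a * u * a⁻¹) := by
  obtain ⟨g, C, hC, hg, rfl⟩ := h
  refine ⟨a * g * a⁻¹, a * C * a⁻¹, by rw [map_mul, map_mul, map_inv, hC], ?_, by group⟩
  rw [map_mul, map_mul, map_inv]
  calc π a * π g * (π a)⁻¹ * (π a * c * (π a)⁻¹) * (π a * π g * (π a)⁻¹)⁻¹ = π a * (π g * c * (π g)⁻¹) * (π a)⁻¹ := by group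
    _ = (π a * c * (π a)⁻¹)⁻¹ := by rw [hg]; group

include hZ in
omit hπ in
theorem commute_of_map_eq {x y : Γ} (h : π x = π y) : Commute x y := by
  have hz : y⁻¹ * x ∈ center Γ := hZ (by rw [MonoidHom.mem_ker, map_mul, map_inv, h, inv_mul_cancel])
  have : Commute (y * (y⁻¹ * x)) y := Commute.mul_left (Commute.refl y) (Subgroup.mem_center_iff.1 hz y).symm
  simpa using this

include hπ hZ in
omit hπ in
theorem isU_inv {c : alternatingGroup (Fin n)} {u : Γ} (h : IsU π c u) : IsU π c⁻¹ u⁻¹ := by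
  obtain ⟨g, C, hC, hg, rfl⟩ := h
  refine ⟨g, C⁻¹, by rw [map_inv, hC], ?_, ?_⟩
  · rw [show π g * c⁻¹ * (π g)⁻¹ = (π g * c * (π g)⁻¹)⁻¹ by group, hg]
  · have hc : Commute (g * C⁻¹ * g⁻¹) C := commute_of_map_eq π hZ (by
      rw [map_mul, map_mul, map_inv, map_inv, hC, show π g * c⁻¹ * (π g)⁻¹ = (π g * c * (π g)⁻¹)⁻¹ by group, hg, inv_inv])
    rw [inv_inv, mul_inv_rev, mul_inv_rev, mul_inv_rev, inv_inv, inv_inv]
    rw [hc.eq]; group

include hπ hZ in
/-- Lifts of an element centralising a three-cycle centralise every lift of it. -/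
theorem centralizing (hn : 8 ≤ n) {c : alternatingGroup (Fin n)} (hc : (c : Perm (Fin n)).IsThreeCycle)
    (C : Γ) (hC : π C = c) (h : Γ) (hh : Commute (π h) c) : Commute h C := by
  classical
  let S : Subgroup (alternatingGroup (Fin n)) := (centralizer ({C} : Set Γ)).map π
  have hlift : ∀ a ∈ S, ∀ h : Γ, π h = a → Commute h C := by
    rintro _ ⟨k, hk, rfl⟩ h he
    have hz : k⁻¹ * h ∈ center Γ := hZ (by rw [MonoidHom.mem_ker, map_mul, map_inv, he, inv_mul_cancel])
    have : Commute (k * (k⁻¹ * h)) C :=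
      Commute.mul_left (Subgroup.mem_centralizer_singleton_iff.1 hk) (Subgroup.mem_center_iff.1 hz C).symm
    simpa using this
  have hcS : c ∈ S := ⟨C, Subgroup.mem_centralizer_singleton_iff.2 rfl, hC⟩
  -- commutators of elements centralising `c` lie in `S`
  have hcomS : ∀ a b : alternatingGroup (Fin n), Commute a c → Commute b c → ⁅a, b⁆ ∈ S := by
    intro a b ha hb
    obtain ⟨x, rfl⟩ := hπ a
    obtain ⟨y, rfl⟩ := hπ b
    refine ⟨⁅x, y⁆, ?_, map_commutatorElement π x y⟩
    have hz : ∀ x : Γ, Commute (π x) c → C⁻¹ * (x * C * x⁻¹) ∈ center Γ := fun x hx => hZ (by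
      rw [MonoidHom.mem_ker, map_mul, map_inv, map_mul, map_mul, map_inv, hC, hx.eq, mul_inv_cancel_right, inv_mul_cancel])
    obtain ⟨z, hzc, hz1⟩ : ∃ z ∈ center Γ, x * C * x⁻¹ = C * z := ⟨_, hz x ha, by group⟩
    obtain ⟨w, hwc, hw1⟩ : ∃ w ∈ center Γ, y * C * y⁻¹ = C * w := ⟨_, hz y hb, by group⟩
    rw [SetLike.mem_coe, Subgroup.mem_centralizer_singleton_iff]
    have hcz : ∀ g : Γ, g * z = z * g := Subgroup.mem_center_iff.1 hzc
    have hcw : ∀ g : Γ, g * w = w * g := Subgroup.mem_center_iff.1 hwc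
    have h1 : x⁻¹ * C * x = C * z⁻¹ := by
      calc x⁻¹ * C * x = x⁻¹ * (C * z) * x * z⁻¹ := by
            rw [show x⁻¹ * (C * z) * x = x⁻¹ * C * (z * x) by group, ← hcz x]; group
        _ = C * z⁻¹ := by rw [← hz1]; group
    have h2 : y⁻¹ * C * y = C * w⁻¹ := by
      calc y⁻¹ * C * y = y⁻¹ * (C * w) * y * w⁻¹ := by
            rw [show y⁻¹ * (C * w) * y = y⁻¹ * C * (w * y) by group, ← hcw y]; group
        _ = C * w⁻¹ := by rw [← hw1]; group
    have h3 : x * y * x⁻¹ * y⁻¹ * C * (x * y * x⁻¹ * y⁻¹)⁻¹ = C := by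
      have e1 : y⁻¹ * C * y = C * w⁻¹ := h2
      calc x * y * x⁻¹ * y⁻¹ * C * (x * y * x⁻¹ * y⁻¹)⁻¹ = x * (y * (x⁻¹ * (y⁻¹ * C * y) * x) * y⁻¹) * x⁻¹ := by group
        _ = x * (y * ((x⁻¹ * C * x) * (x⁻¹ * w⁻¹ * x)) * y⁻¹) * x⁻¹ := by rw [h2]; group
        _ = x * (y * ((C * z⁻¹) * w⁻¹) * y⁻¹) * x⁻¹ := by
          rw [h1, mul_assoc x⁻¹, ← Subgroup.mem_center_iff.1 (inv_mem hwc) x, inv_mul_cancel_left]
        _ = x * ((y * C * y⁻¹) * (y * (z⁻¹ * w⁻¹) * y⁻¹)) * x⁻¹ := by group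
        _ = x * ((C * w) * (z⁻¹ * w⁻¹)) * x⁻¹ := by
          rw [hw1, Subgroup.mem_center_iff.1 (mul_mem (inv_mem hzc) (inv_mem hwc)) y, mul_inv_cancel_right]
        _ = x * (C * z⁻¹) * x⁻¹ := by
          rw [show (C * w) * (z⁻¹ * w⁻¹) = C * (w * z⁻¹ * w⁻¹) by group,
            Subgroup.mem_center_iff.1 (inv_mem hzc) w, mul_inv_cancel_right]
        _ = (x * C * x⁻¹) * (x * z⁻¹ * x⁻¹) := by group
        _ = C := by rw [hz1, Subgroup.mem_center_iff.1 (inv_mem hzc) x]; group
    rw [commutatorElement_def]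
    exact mul_inv_eq_iff_eq_mul.1 h3
  -- decompose
  refine hlift (π h) ?_ h rfl
  have hh' : Commute (π h : Perm (Fin n)) (c : Perm (Fin n)) := hh.map (alternatingGroup (Fin n)).subtype
  obtain ⟨hc', hzp⟩ := hc.isCycle.commute_iff.1 hh'
  obtain ⟨i, hi⟩ := Subgroup.mem_zpowers_iff.1 hzp
  set r : alternatingGroup (Fin n) := (c ^ i)⁻¹ * π h with hr
  suffices hrS : r ∈ S by
    have := mul_mem (zpow_mem hcS i) hrS
    rwa [hr, mul_inv_cancel_left] at this
  have hrfix : ∀ x, x ∈ (c : Perm (Fin n)).support → (r : Perm (Fin n)) x = x := by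
    intro x hx
    have hv : ((c ^ i : alternatingGroup (Fin n)) : Perm (Fin n)) x = (π h : Perm (Fin n)) x := by
      rw [SubgroupClass.coe_zpow, hi, Perm.ofSubtype_apply_of_mem _ hx]; rfl
    rw [hr, Subgroup.coe_mul, Subgroup.coe_inv, Perm.mul_apply, ← hv, Perm.inv_def, Equiv.symm_apply_apply]
  let p : Fin n → Prop := fun x => x ∉ (c : Perm (Fin n)).support
  have hrp : ∀ x, p ((r : Perm (Fin n)) x) ↔ p x := fun x => by
    constructor
    · intro h1 h2; exact h1 (by rw [hrfix x h2]; exact h2)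
    · intro h1 h2
      have := (r : Perm (Fin n)).injective (hrfix _ h2)
      exact h1 (this ▸ h2)
  have hof : Perm.ofSubtype ((r : Perm (Fin n)).subtypePerm hrp) = r :=
    Perm.ofSubtype_subtypePerm hrp (fun x hx h2 => hx (hrfix x h2))
  let ι : alternatingGroup {x // p x} →* alternatingGroup (Fin n) :=
    (Perm.ofSubtype.comp (alternatingGroup {x // p x}).subtype).codRestrict _ fun a => by
      rw [Perm.mem_alternatingGroup]
      show Perm.sign (Perm.ofSubtype (a : Perm {x // p x})) = 1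
      rw [Perm.sign_ofSubtype]; exact a.2
  have hιc : ∀ a, Commute (ι a) c := fun a => Subtype.ext (Perm.Disjoint.commute (fun x => by
    by_cases hx : x ∈ (c : Perm (Fin n)).support
    · exact Or.inl (Perm.ofSubtype_apply_of_not_mem _ (fun h => h hx))
    · exact Or.inr (Perm.notMem_support.1 hx))).eq
  have hcard : Nat.card {x // p x} = n - 3 := by
    rw [Nat.card_eq_fintype_card, Fintype.card_subtype_compl, Fintype.card_coe, hc.card_support, Fintype.card_fin]
  have hmem : ∀ a ∈ commutator (alternatingGroup {x // p x}), ι a ∈ S := by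
    have : commutator (alternatingGroup {x // p x}) ≤ S.comap ι := by
      rw [_root_.commutator_def, Subgroup.commutator_le]
      intro a _ b _
      rw [Subgroup.mem_comap, map_commutatorElement]
      exact hcomS _ _ (hιc a) (hιc b)
    exact this
  rw [commutator_alternatingGroup_eq_top (by omega)] at hmem
  have hs1 : Perm.sign ((r : Perm (Fin n)).subtypePerm hrp) = 1 := by
    rw [← Perm.sign_ofSubtype, hof]; exact r.2
  have := hmem ⟨_, Perm.mem_alternatingGroup.2 hs1⟩ (Subgroup.mem_top _)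
  rwa [show ι ⟨_, Perm.mem_alternatingGroup.2 hs1⟩ = r from Subtype.ext hof] at this

include hπ hZ in
theorem isU_unique (hn : 8 ≤ n) {c : alternatingGroup (Fin n)} (hc : (c : Perm (Fin n)).IsThreeCycle) {u v : Γ}
    (hu : IsU π c u) (hv : IsU π c v) : u = v := by
  obtain ⟨g, C, hC, hg, rfl⟩ := hu
  obtain ⟨g', C', hC', hg', rfl⟩ := hv
  have hz : C⁻¹ * C' ∈ center Γ := hZ (by rw [MonoidHom.mem_ker, map_mul, map_inv, hC, hC', inv_mul_cancel])
  obtain ⟨z, hzc, rfl⟩ : ∃ z ∈ center Γ, C' = C * z := ⟨_, hz, by group⟩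
  have hh : Commute (g⁻¹ * g') C := centralizing π hπ hZ hn hc C hC _ (by
    show π (g⁻¹ * g') * c = c * π (g⁻¹ * g')
    rw [map_mul, map_inv]
    calc (π g)⁻¹ * π g' * c = (π g)⁻¹ * (π g' * c * (π g')⁻¹) * π g' := by group
      _ = (π g)⁻¹ * (π g * c * (π g)⁻¹) * π g' := by rw [hg, hg']
      _ = c * ((π g)⁻¹ * π g') := by group)
  calc g * C * g⁻¹ * C⁻¹ = g * (g⁻¹ * g' * C * (g⁻¹ * g')⁻¹) * g⁻¹ * C⁻¹ := by rw [hh.eq]; group
    _ = g' * C * (z * g'⁻¹) * z⁻¹ * C⁻¹ := by rw [← Subgroup.mem_center_iff.1 hzc]; group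
    _ = g' * (C * z) * g'⁻¹ * (C * z)⁻¹ := by group

include hπ hZ in
theorem exists_Y (hn : 8 ≤ n) {c : alternatingGroup (Fin n)} (hc : (c : Perm (Fin n)).IsThreeCycle) :
    ∃ u : Γ, IsU π c u ∧ π (u ^ 4) = c ∧ (u ^ 4) ^ 3 = 1 := by
  have hinv : ((c⁻¹ : alternatingGroup (Fin n)) : Perm (Fin n)).IsThreeCycle := hc.inv
  obtain ⟨s, hs⟩ := isConj_iff.1 (alternatingGroup.isThreeCycle_isConj (by simp; omega) hc hinv)
  obtain ⟨g, rfl⟩ := hπ s
  obtain ⟨C, hC⟩ := hπ c
  have hu : IsU π c (g * C * g⁻¹ * C⁻¹) := ⟨g, C, hC, hs, rfl⟩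
  set u := g * C * g⁻¹ * C⁻¹
  have hc3 : c ^ 3 = 1 := by
    rw [← hc.orderOf, Subgroup.orderOf_coe]; exact pow_orderOf_eq_one c
  refine ⟨u, hu, ?_, ?_⟩
  · rw [map_pow, isU_map π hu, show (c⁻¹ * c⁻¹) ^ 4 = c * ((c ^ 3)⁻¹) ^ 3 by group, hc3, inv_one, one_pow, mul_one]
  · have hz : u ^ 3 ∈ center Γ := hZ (by
      rw [MonoidHom.mem_ker, map_pow, isU_map π hu, show (c⁻¹ * c⁻¹) ^ 3 = ((c ^ 3)⁻¹) ^ 2 by group, hc3, inv_one, one_pow])
    have e := isU_unique π hπ hZ hn (c := c⁻¹) hinv (hs ▸ isU_conj π hu g) (isU_inv π hZ hu)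
    have e3 : (u ^ 3)⁻¹ = u ^ 3 := by
      rw [← inv_pow, ← e, conj_pow, Subgroup.mem_center_iff.1 hz g, mul_inv_cancel_right]
    have h6 : u ^ 3 * u ^ 3 = 1 := by nth_rewrite 1 [← e3]; exact inv_mul_cancel _
    rw [← pow_mul, show 4 * 3 = 6 + 6 by norm_num, pow_add, show 6 = 3 + 3 from rfl, pow_add, h6, mul_one]

end ext

/-- The cosets of the subgroup generated by all but the last generator. -/
theorem fin_ne {n : ℕ} {x y : Fin n} (h : x.val ≠ y.val) : x ≠ y := fun e => h (congrArg Fin.val e)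

theorem cyc3_apply {n : ℕ} (h : 2 ≤ n) (k : Fin n) (hk : 2 ≤ k.val) :
    cyc3 h k ⟨0, by omega⟩ = ⟨1, by omega⟩ ∧ cyc3 h k ⟨1, by omega⟩ = k := by
  constructor
  · rw [cyc3, Perm.mul_apply, swap_apply_of_ne_of_ne (a := (⟨1, by omega⟩ : Fin n)) (x := (⟨0, by omega⟩ : Fin n))
      (fin_ne (show (0 : ℕ) ≠ 1 by omega)) (fin_ne (show (0 : ℕ) ≠ k.val by omega)), swap_apply_left]
  · rw [cyc3, Perm.mul_apply, swap_apply_left,
      swap_apply_of_ne_of_ne (fin_ne (show k.val ≠ 0 by omega)) (fin_ne (show k.val ≠ 1 by omega))]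

theorem cyc3_apply_fix {n : ℕ} (h : 2 ≤ n) (k x : Fin n) (hx : 2 ≤ x.val) (hne : k.val ≠ x.val) : cyc3 h k x = x := by
  rw [cyc3, Perm.mul_apply, swap_apply_of_ne_of_ne (a := (⟨1, by omega⟩ : Fin n)) (x := x)
      (fin_ne (show x.val ≠ 1 by omega)) (fin_ne hne.symm),
    swap_apply_of_ne_of_ne (fin_ne (show x.val ≠ 0 by omega)) (fin_ne (show x.val ≠ 1 by omega))]

theorem swap_conj01 {n : ℕ} (h : 2 ≤ n) (k : Fin n) (hk : 2 ≤ k.val) :
    swap (⟨0, by omega⟩ : Fin n) k =
      swap ⟨0, by omega⟩ ⟨1, by omega⟩ * swap ⟨1, by omega⟩ k * swap (⟨0, by omega⟩ : Fin n) ⟨1, by omega⟩ := by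
  have e := swap_apply_apply (swap (⟨0, by omega⟩ : Fin n) ⟨1, by omega⟩) ⟨1, by omega⟩ k
  rwa [swap_apply_right, swap_apply_of_ne_of_ne (fin_ne (show k.val ≠ 0 by omega)) (fin_ne (show k.val ≠ 1 by omega)), swap_inv] at e

theorem cyc3_pair_sq {n : ℕ} (h : 2 ≤ n) (i j : Fin n) (hi : 2 ≤ i.val) (hj : 2 ≤ j.val) (hij : i ≠ j) :
    cyc3 h i * cyc3 h j * (cyc3 h i * cyc3 h j) = 1 := by
  have e : cyc3 h i * cyc3 h j = swap (⟨0, by omega⟩ : Fin n) i * swap (⟨1, by omega⟩ : Fin n) j := by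
    rw [swap_conj01 h i hi, cyc3, cyc3]; simp only [mul_assoc]
  have hc : Commute (swap (⟨0, by omega⟩ : Fin n) i) (swap (⟨1, by omega⟩ : Fin n) j) := Perm.Disjoint.commute fun x => by
    by_cases hx : x = ⟨0, by omega⟩ ∨ x = i
    · right
      rcases hx with rfl | rfl
      · exact swap_apply_of_ne_of_ne (fin_ne (show (0 : ℕ) ≠ 1 by omega)) (fin_ne (show (0 : ℕ) ≠ j.val by omega))
      · exact swap_apply_of_ne_of_ne (fin_ne (show x.val ≠ 1 by omega)) hij
    · push Not at hx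
      exact Or.inl (swap_apply_of_ne_of_ne hx.1 hx.2)
  rw [e, ← sq, hc.mul_pow, sq, sq, swap_mul_self, swap_mul_self, one_mul]

theorem cyc3_inv_form {n : ℕ} (h : 2 ≤ n) (r : Fin n) (hr : 2 ≤ r.val) :
    swap (⟨1, by omega⟩ : Fin n) ⟨0, by omega⟩ * swap (⟨0, by omega⟩ : Fin n) r = (cyc3 h r)⁻¹ := by
  rw [swap_conj01 h r hr, cyc3, mul_inv_rev, swap_inv, swap_inv, swap_comm (⟨1, _⟩ : Fin n) ⟨0, _⟩, ← mul_assoc, ← mul_assoc,
    swap_mul_self, one_mul]

theorem card_bound {Q : Type*} [Group Q] [Finite Q] (a : ℕ → Q) (m : ℕ)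
    (h3 : ∀ k, 2 ≤ k → k < m → a k * a k * a k = 1)
    (h2 : ∀ k l, 2 ≤ k → k < m → 2 ≤ l → l < m → k ≠ l → a k * a l * (a k * a l) = 1) :
    ∀ j, 2 ≤ j → j ≤ m → 2 * Nat.card (closure (a '' Set.Ico 2 j)) ≤ j.factorial := by
  classical
  intro j hj
  induction j, hj using Nat.le_induction with
  | base => intro _; simp
  | succ j hj ih =>
    intro hjm
    set H := closure (a '' Set.Ico 2 j) with hH
    set L := closure (a '' Set.Ico 2 (j + 1)) with hL
    have hHL : H ≤ L := closure_mono (Set.image_mono (Set.Ico_subset_Ico_right (by omega)))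
    let o : Q ⧸ H := ((1 : Q) : Q ⧸ H)
    let A : Q ⧸ H := a j • o
    let B : Q ⧸ H := a j • A
    let D : ℕ → Q ⧸ H := fun k => a k • B
    let S : Finset (Q ⧸ H) := {o, A, B} ∪ (Finset.Ico 2 j).image D
    have hfix : ∀ k, 2 ≤ k → k < j → a k • o = o := fun k hk hkj => by
      show ((a k * 1 : Q) : Q ⧸ H) = _
      rw [QuotientGroup.eq, mul_one, mul_one]
      exact H.inv_mem (subset_closure ⟨k, ⟨hk, hkj⟩, rfl⟩)
    have hfix' : ∀ k, 2 ≤ k → k < j → (a k)⁻¹ • o = o := fun k hk hkj => inv_smul_eq_iff.2 (hfix k hk hkj).symm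
    have hj3 : ∀ y : Q ⧸ H, a j • a j • a j • y = y := fun y => by
      rw [← mul_smul, ← mul_smul, h3 j hj (by omega), one_smul]
    have hswap : ∀ k l, 2 ≤ k → k < m → 2 ≤ l → l < m → k ≠ l → a k * a l = (a l)⁻¹ * (a k)⁻¹ := fun k l a1 a2 a3 a4 a5 => by
      rw [← mul_inv_rev]; exact eq_inv_of_mul_eq_one_left (h2 k l a1 a2 a3 a4 a5)
    have hjinv : ∀ y : Q ⧸ H, (a j)⁻¹ • y = a j • a j • y := fun y => inv_smul_eq_iff.2 (hj3 y).symm
    have hA : ∀ k, 2 ≤ k → k < j → a k • A = B := fun k hk hkj => by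
      show a k • a j • o = a j • a j • o
      rw [← mul_smul, hswap k j hk (by omega) hj (by omega) (by omega), mul_smul, hfix' k hk hkj, hjinv]
    have hBA : ∀ k, 2 ≤ k → k < j → (a k)⁻¹ • B = A := fun k hk hkj => inv_smul_eq_iff.2 (hA k hk hkj).symm
    have hDA : ∀ k, 2 ≤ k → k < j → (a k)⁻¹ • A = D k := fun k hk hkj => by
      rw [inv_smul_eq_iff]
      show A = a k • a k • B
      rw [← hBA k hk hkj, inv_smul_eq_iff, ← mul_smul, ← mul_smul, h3 k hk (by omega), one_smul]
    have ho : o ∈ S := by simp [S]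
    have hAS : A ∈ S := by simp [S]
    have hBS : B ∈ S := by simp [S]
    have hDS : ∀ k, 2 ≤ k → k < j → D k ∈ S := fun k hk hkj =>
      Finset.mem_union_right _ (Finset.mem_image.2 ⟨k, Finset.mem_Ico.2 ⟨hk, hkj⟩, rfl⟩)
    have hclosed : ∀ l, 2 ≤ l → l < j + 1 → ∀ y ∈ S, a l • y ∈ S := by
      intro l hl hlj y hy
      simp only [S, Finset.mem_union, Finset.mem_insert, Finset.mem_singleton, Finset.mem_image, Finset.mem_Ico] at hy
      rcases eq_or_lt_of_le (Nat.lt_succ_iff.1 hlj) with rfl | hlt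
      · rcases hy with (rfl | rfl | rfl) | ⟨k, ⟨hk, hkl⟩, rfl⟩
        · exact hAS
        · exact hBS
        · rw [hj3]; exact ho
        · show a l • a k • B ∈ S
          have : (a l)⁻¹ • B = A := by rw [inv_smul_eq_iff]
          rw [← mul_smul, hswap l k hl (by omega) hk (by omega) (by omega), mul_smul, this, hDA k hk hkl]
          exact hDS k hk hkl
      · rcases hy with (rfl | rfl | rfl) | ⟨k, ⟨hk, hkl⟩, rfl⟩
        · rw [hfix l hl hlt]; exact ho
        · rw [hA l hl hlt]; exact hBS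
        · exact hDS l hl hlt
        · by_cases hkl' : l = k
          · subst hkl'
            show a l • a l • B ∈ S
            rw [show a l • a l • B = A by
              rw [← hBA l hl hlt, eq_inv_smul_iff, ← mul_smul, ← mul_smul, h3 l hl (by omega), one_smul]]
            exact hAS
          · show a l • a k • B ∈ S
            rw [← mul_smul, hswap l k hl (by omega) hk (by omega) hkl', mul_smul, hBA l hl hlt, hDA k hk hkl]
            exact hDS k hk hkl
    have hall : ∀ g ∈ L, ∀ y ∈ S, g • y ∈ S := by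
      intro g hg
      induction hg using closure_induction with
      | mem g hg =>
        obtain ⟨i, ⟨hi1, hi2⟩, rfl⟩ := hg
        exact hclosed i hi1 hi2
      | one => intro y hy; rwa [one_smul]
      | mul g h _ _ hg hh => intro y hy; rw [mul_smul]; exact hg _ (hh _ hy)
      | inv g _ hg =>
        intro y hy
        have hinj : Function.Injective (fun z : S => (⟨g • z.1, hg _ z.2⟩ : S)) := fun u v h =>
          Subtype.ext (smul_left_cancel g (congrArg Subtype.val h))
        obtain ⟨z, hz⟩ := (Finite.injective_iff_surjective.1 hinj) ⟨y, hy⟩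
        rw [show g⁻¹ • y = z.1 from inv_smul_eq_iff.2 (congrArg Subtype.val hz).symm]
        exact z.2
    have hidx : H.relIndex L ≤ j + 1 := by
      let F : ↥L ⧸ H.subgroupOf L → S := fun u => ⟨((u.out : L) : Q) • o, hall _ (u.out : L).2 o ho⟩
      have hF : Function.Injective F := by
        intro u v h
        have h' : ((((u.out : L) : Q) * 1 : Q) : Q ⧸ H) = ((((v.out : L) : Q) * 1 : Q) : Q ⧸ H) := congrArg Subtype.val h
        rw [QuotientGroup.eq, mul_one, mul_one] at h'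
        rw [← QuotientGroup.out_eq' u, ← QuotientGroup.out_eq' v, QuotientGroup.eq, Subgroup.mem_subgroupOf]
        simpa using h'
      have h1 := Nat.card_le_card_of_injective F hF
      rw [Nat.card_eq_fintype_card (α := S), Fintype.card_coe] at h1
      refine le_trans h1 ((Finset.card_union_le _ _).trans ?_)
      have a1 : ({o, A, B} : Finset (Q ⧸ H)).card ≤ 3 := Finset.card_le_three
      have a2 := Finset.card_image_le (s := Finset.Ico 2 j) (f := D)
      rw [Nat.card_Ico] at a2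
      omega
    rw [← Subgroup.card_mul_index (H.subgroupOf L), Nat.card_congr (Subgroup.subgroupOfEquivOfLe hHL).toEquiv, Nat.factorial_succ,
      mul_comm (j + 1), ← mul_assoc]
    exact Nat.mul_le_mul (ih (by omega)) hidx

theorem closure_cyc3 {n : ℕ} (h2n : 2 ≤ n) : ∀ j, 2 ≤ j → j ≤ n →
    j.factorial ≤ 2 * Nat.card (closure ((fun k : ℕ => if h : k < n then cyc3 h2n ⟨k, h⟩ else 1) '' Set.Ico 2 j)) := by
  classical
  set c := fun k : ℕ => if h : k < n then cyc3 h2n ⟨k, h⟩ else 1 with hc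
  intro j hj
  induction j, hj using Nat.le_induction with
  | base =>
    intro _
    have : 0 < Nat.card (closure (c '' Set.Ico 2 2)) := Nat.card_pos
    simp only [Nat.factorial_two]; omega
  | succ j hj ih =>
    intro hjn
    set H := closure (c '' Set.Ico 2 j)
    set L := closure (c '' Set.Ico 2 (j + 1))
    have hHL : H ≤ L := closure_mono (Set.image_mono (Set.Ico_subset_Ico_right (by omega)))
    let pj : Fin n := ⟨j, by omega⟩
    have hcap : ∀ k (hk : k < n), c k = cyc3 h2n ⟨k, hk⟩ := fun k hk => dif_pos hk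
    have hHfix : H ≤ MulAction.stabilizer (Perm (Fin n)) pj := by
      rw [closure_le]
      rintro _ ⟨k, ⟨hk1, hk2⟩, rfl⟩
      show c k pj = pj
      rw [hcap k (by omega)]
      exact cyc3_apply_fix h2n ⟨k, _⟩ pj (show 2 ≤ j from hj) (show k ≠ j by omega)
    have hcL : ∀ k, 2 ≤ k → k < j + 1 → c k ∈ L := fun k a b => subset_closure ⟨k, ⟨a, b⟩, rfl⟩
    have hcj0 : c j pj = ⟨0, by omega⟩ := by
      rw [hcap j (by omega), cyc3, Perm.mul_apply, show (⟨j, _⟩ : Fin n) = pj from rfl, swap_apply_right, swap_apply_right]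
    have h01 : ∀ k (hk : k < n), 2 ≤ k → cyc3 h2n ⟨k, hk⟩ ⟨0, by omega⟩ = ⟨1, by omega⟩ ∧ cyc3 h2n ⟨k, hk⟩ ⟨1, by omega⟩ = ⟨k, hk⟩ := by
      intro k hk hk2
      exact cyc3_apply h2n ⟨k, hk⟩ hk2
    have horb : ∀ i : ℕ, ∀ hi : i ≤ j, ∃ g ∈ L, g pj = ⟨i, by omega⟩ := by
      intro i hi
      have h1 : (c j * c j) pj = ⟨1, by omega⟩ := by
        rw [Perm.mul_apply, hcj0, hcap j (by omega), (h01 j (by omega) hj).1]
      rcases Nat.lt_or_ge i 2 with h | h
      · interval_cases i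
        · exact ⟨c j, hcL j hj (by omega), hcj0⟩
        · exact ⟨c j * c j, mul_mem (hcL j hj (by omega)) (hcL j hj (by omega)), h1⟩
      · refine ⟨c i * (c j * c j), mul_mem (hcL i h (by omega)) (mul_mem (hcL j hj (by omega)) (hcL j hj (by omega))), ?_⟩
        rw [Perm.mul_apply, h1, hcap i (by omega), (h01 i (by omega) h).2]
    choose g hg hgp using horb
    let F : Fin (j + 1) × H → L := fun x => ⟨g x.1.val (Nat.lt_succ_iff.1 x.1.2) * x.2, mul_mem (hg _ _) (hHL x.2.2)⟩
    have hF : Function.Injective F := by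
      intro x y hxy
      have he := congrArg Subtype.val hxy
      simp only [F] at he
      have h1 := congrArg (fun f : Perm (Fin n) => f pj) he
      simp only [Perm.mul_apply] at h1
      rw [show (x.2 : Perm (Fin n)) pj = pj from hHfix x.2.2, show (y.2 : Perm (Fin n)) pj = pj from hHfix y.2.2, hgp, hgp] at h1
      have h2 : x.1 = y.1 := Fin.ext (by simpa using h1)
      obtain ⟨x1, x2⟩ := x
      obtain ⟨y1, y2⟩ := y
      subst h2
      exact Prod.ext rfl (Subtype.ext (mul_left_cancel he))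
    have := Nat.card_le_card_of_injective F hF
    rw [Nat.card_prod, Nat.card_fin] at this
    have h3 := Nat.mul_le_mul_left (j + 1) (ih (by omega))
    rw [Nat.factorial_succ]
    calc (j + 1) * j.factorial ≤ (j + 1) * (2 * Nat.card H) := h3
      _ = 2 * ((j + 1) * Nat.card H) := by ring
      _ ≤ _ := Nat.mul_le_mul_left 2 this

set_option maxHeartbeats 1000000 in
theorem big_case {n : ℕ} (hn : 8 ≤ n) {Γ : Type*} [Group Γ] [Finite Γ] (π : Γ →* alternatingGroup (Fin n))
    (hπ : Function.Surjective π) (hZ : π.ker ≤ center Γ) (hd : π.ker ≤ commutator Γ) : Nat.card π.ker ≤ 2 := by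
  classical
  have h2n : 2 ≤ n := by omega
  let p : ℕ → Perm (Fin n) := fun k => if h : k < n then cyc3 h2n ⟨k, h⟩ else 1
  have hp : ∀ k (h : k < n), p k = cyc3 h2n ⟨k, h⟩ := fun k h => dif_pos h
  have hmem : ∀ k, 2 ≤ k → k < n → p k ∈ alternatingGroup (Fin n) := fun k hk hkn => by
    rw [hp k hkn]; exact (cyc3_isThreeCycle h2n (k := ⟨k, hkn⟩) hk).mem_alternatingGroup
  let c : ℕ → alternatingGroup (Fin n) := fun k => if h : 2 ≤ k ∧ k < n then ⟨p k, hmem k h.1 h.2⟩ else 1
  have hcv : ∀ k, 2 ≤ k → k < n → (c k : Perm (Fin n)) = p k := fun k a b => by simp only [c, dif_pos (And.intro a b)]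
  have hc3 : ∀ k, 2 ≤ k → k < n → (c k : Perm (Fin n)).IsThreeCycle := fun k a b => by
    rw [hcv k a b, hp k b]; exact cyc3_isThreeCycle h2n (k := ⟨k, b⟩) a
  have hU : ∀ k, ∃ u : Γ, 2 ≤ k → k < n → IsU π (c k) u ∧ π (u ^ 4) = c k ∧ (u ^ 4) ^ 3 = 1 := fun k => by
    by_cases h : 2 ≤ k ∧ k < n
    · obtain ⟨u, hu⟩ := exists_Y π hπ hZ hn (hc3 k h.1 h.2)
      exact ⟨u, fun _ _ => hu⟩
    · exact ⟨1, fun a b => absurd ⟨a, b⟩ h⟩
  choose u hu using hU
  let a : ℕ → Γ := fun k => u k ^ 4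
  have ha : ∀ k, 2 ≤ k → k < n → π (a k) = c k := fun k x y => (hu k x y).2.1
  haveI := alternatingGroup.isMultiplyPretransitive (Fin n)
  haveI h4t : MulAction.IsMultiplyPretransitive (alternatingGroup (Fin n)) (Fin n) 4 :=
    MulAction.isMultiplyPretransitive_of_le (n := Nat.card (Fin n) - 2) (by simp; omega) (by simp)
  have hperm : ∀ i j e f k l, 2 ≤ i → i < n → 2 ≤ j → j < n → i ≠ j → e < n → f < n → e ≠ f →
      2 ≤ k → k < n → 2 ≤ l → l < n → k ≠ l → e < 2 → f < 2 →
      ∃ σ : alternatingGroup (Fin n), ∀ x : Fin n, (x.val = 0 → ((σ : Perm (Fin n)) x).val = e) ∧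
        (x.val = 1 → ((σ : Perm (Fin n)) x).val = f) ∧
        (x.val = i → ((σ : Perm (Fin n)) x).val = k) ∧ (x.val = j → ((σ : Perm (Fin n)) x).val = l) := by
    intro i j e f k l i1 i2 j1 j2 hij e2 f2 hef k1 k2 l1 l2 hkl he hf
    let X : Fin 4 ↪ Fin n := ⟨![⟨0, by omega⟩, ⟨1, by omega⟩, ⟨i, i2⟩, ⟨j, j2⟩], by
      intro s t hst; fin_cases s <;> fin_cases t <;> simp [Fin.ext_iff] at hst ⊢ <;> omega⟩
    let Y : Fin 4 ↪ Fin n := ⟨![⟨e, e2⟩, ⟨f, f2⟩, ⟨k, k2⟩, ⟨l, l2⟩], by
      intro s t hst; fin_cases s <;> fin_cases t <;> simp [Fin.ext_iff] at hst ⊢ <;> omega⟩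
    obtain ⟨σ, hσ⟩ := MulAction.exists_smul_eq (alternatingGroup (Fin n)) X Y
    have hk : ∀ s : Fin 4, (σ : Perm (Fin n)) (X s) = Y s := fun s => by rw [← hσ]; rfl
    refine ⟨σ, fun x => ⟨fun h => ?_, fun h => ?_, fun h => ?_, fun h => ?_⟩⟩
    · rw [show x = X 0 from Fin.ext h, hk]; rfl
    · rw [show x = X 1 from Fin.ext h, hk]; rfl
    · rw [show x = X 2 from Fin.ext h, hk]; rfl
    · rw [show x = X 3 from Fin.ext h, hk]; rfl
  -- equivariance
  have hmove : ∀ i k, 2 ≤ i → i < n → 2 ≤ k → k < n → ∀ s : Γ,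
      π s * c i * (π s)⁻¹ = c k → s * a i * s⁻¹ = a k := by
    intro i k i1 i2 k1 k2 s hs
    simp only [a]
    have e : s * u i * s⁻¹ = u k :=
      isU_unique π hπ hZ hn (hc3 k k1 k2) (hs ▸ isU_conj π (hu i i1 i2).1 s) (hu k k1 k2).1
    rw [← conj_pow, e]
  have hmove' : ∀ i k, 2 ≤ i → i < n → 2 ≤ k → k < n → ∀ s : Γ,
      π s * c i * (π s)⁻¹ = (c k)⁻¹ → s * a i * s⁻¹ = (a k)⁻¹ := by
    intro i k i1 i2 k1 k2 s hs
    simp only [a]
    have e : s * u i * s⁻¹ = (u k)⁻¹ :=
      isU_unique π hπ hZ hn (c := (c k)⁻¹) (hc3 k k1 k2).inv (hs ▸ isU_conj π (hu i i1 i2).1 s) (isU_inv π hZ (hu k k1 k2).1)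
    rw [← conj_pow, ← inv_pow, e]
  have hsq : ∀ i j, 2 ≤ i → i < n → 2 ≤ j → j < n → i ≠ j → (c i * c j) * (c i * c j) = 1 := by
    intro i j i1 i2 j1 j2 hij
    refine Subtype.ext ?_
    rw [Subgroup.coe_mul, Subgroup.coe_mul, Subgroup.coe_one, hcv i i1 i2, hcv j j1 j2, hp i i2, hp j j2]
    exact cyc3_pair_sq h2n ⟨i, i2⟩ ⟨j, j2⟩ i1 j1 (fin_ne hij)
  set w := a 2 * a 3 * (a 2 * a 3) with hw
  have hwk : w ∈ π.ker := by
    rw [MonoidHom.mem_ker, hw, map_mul, map_mul, ha 2 le_rfl (by omega), ha 3 (by omega) (by omega)]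
    exact hsq 2 3 le_rfl (by omega) (by omega) (by omega) (by omega)
  have hwc := hZ hwk
  have hwconj : ∀ s : Γ, s * w * s⁻¹ = w := fun s => by rw [Subgroup.mem_center_iff.1 hwc s, mul_inv_cancel_right]
  have hpair : ∀ i j, 2 ≤ i → i < n → 2 ≤ j → j < n → i ≠ j → a i * a j * (a i * a j) = w := by
    intro i j i1 i2 j1 j2 hij
    obtain ⟨σ, hσ⟩ := hperm 2 3 0 1 i j le_rfl (by omega) (by omega) (by omega) (by omega) (by omega) (by omega) (by omega)
      i1 i2 j1 j2 hij (by omega) (by omega)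
    obtain ⟨s, hs⟩ := hπ σ
    have e : ∀ q r, 2 ≤ q → q < n → 2 ≤ r → r < n → (∀ x : Fin n, x.val = q → ((σ : Perm (Fin n)) x).val = r) → s * a q * s⁻¹ = a r := by
      intro q r q1 q2 r1 r2 hqr
      refine hmove q r q1 q2 r1 r2 s (Subtype.ext ?_)
      rw [hs, Subgroup.coe_mul, Subgroup.coe_mul, Subgroup.coe_inv, hcv q q1 q2, hcv r r1 r2, hp q q2, hp r r2, conj_cyc3]
      rw [show (σ : Perm (Fin n)) ⟨0, by omega⟩ = ⟨0, by omega⟩ from Fin.ext ((hσ _).1 rfl),
        show (σ : Perm (Fin n)) ⟨1, by omega⟩ = ⟨1, by omega⟩ from Fin.ext ((hσ _).2.1 rfl),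
        show (σ : Perm (Fin n)) ⟨q, q2⟩ = ⟨r, r2⟩ from Fin.ext (hqr ⟨q, q2⟩ rfl)]
      rfl
    have e1 := e 2 i le_rfl (by omega) i1 i2 (fun x => (hσ x).2.2.1)
    have e2 := e 3 j (by omega) (by omega) j1 j2 (fun x => (hσ x).2.2.2)
    rw [← e1, ← e2, ← hwconj s, hw]; group
  have hw2 : w * w = 1 := by
    obtain ⟨σ, hσ⟩ := hperm 2 3 1 0 3 2 le_rfl (by omega) (by omega) (by omega) (by omega) (by omega) (by omega) (by omega)
      (by omega) (by omega) le_rfl (by omega) (by omega) (by omega) (by omega)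
    obtain ⟨s, hs⟩ := hπ σ
    have e : ∀ q r, 2 ≤ q → q < n → 2 ≤ r → r < n → (∀ x : Fin n, x.val = q → ((σ : Perm (Fin n)) x).val = r) → s * a q * s⁻¹ = (a r)⁻¹ := by
      intro q r q1 q2 r1 r2 hqr
      refine hmove' q r q1 q2 r1 r2 s (Subtype.ext ?_)
      rw [hs, Subgroup.coe_mul, Subgroup.coe_mul, Subgroup.coe_inv, Subgroup.coe_inv, hcv q q1 q2, hcv r r1 r2, hp q q2, hp r r2,
        conj_cyc3]
      rw [show (σ : Perm (Fin n)) ⟨0, by omega⟩ = ⟨1, by omega⟩ from Fin.ext ((hσ _).1 rfl),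
        show (σ : Perm (Fin n)) ⟨1, by omega⟩ = ⟨0, by omega⟩ from Fin.ext ((hσ _).2.1 rfl),
        show (σ : Perm (Fin n)) ⟨q, q2⟩ = ⟨r, r2⟩ from Fin.ext (hqr ⟨q, q2⟩ rfl)]
      exact cyc3_inv_form h2n ⟨r, r2⟩ r1
    have e1 := e 2 3 le_rfl (by omega) (by omega) (by omega) (fun x => (hσ x).2.2.1)
    have e2 := e 3 2 (by omega) (by omega) le_rfl (by omega) (fun x => (hσ x).2.2.2)
    have : w = w⁻¹ := by
      calc w = s * w * s⁻¹ := (hwconj s).symm
        _ = (s * a 2 * s⁻¹) * (s * a 3 * s⁻¹) * ((s * a 2 * s⁻¹) * (s * a 3 * s⁻¹)) := by rw [hw]; group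
        _ = w⁻¹ := by rw [e1, e2, hw]; group
    nth_rewrite 1 [this]; exact inv_mul_cancel w
  haveI hWn : (zpowers w).Normal := ⟨fun x hx g => by
    rw [Subgroup.mem_center_iff.1 ((zpowers_le.2 hwc) hx) g, mul_inv_cancel_right]; exact hx⟩
  let q := QuotientGroup.mk' (zpowers w)
  have hqw : q w = 1 := (QuotientGroup.eq_one_iff w).2 (mem_zpowers w)
  have hb := card_bound (fun k => q (a k)) n
    (fun k k1 k2 => by
      rw [← map_mul, ← map_mul, ← pow_three']; show q ((u k ^ 4) ^ 3) = 1; rw [(hu k k1 k2).2.2, map_one])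
    (fun k l k1 k2 l1 l2 hkl => by rw [← map_mul, ← map_mul, hpair k l k1 k2 l1 l2 hkl, hqw]) n (by omega) le_rfl
  set K := closure (a '' Set.Ico 2 n) with hK
  have hKq : closure ((fun k => q (a k)) '' Set.Ico 2 n) = K.map q := by rw [MonoidHom.map_closure, Set.image_image]
  rw [hKq] at hb
  set M := K ⊔ zpowers w with hM
  have hMc : 2 * Nat.card M ≤ 2 * n.factorial := by
    have h1 : M.map q = K.map q := by
      rw [hM, Subgroup.map_sup, (Subgroup.map_eq_bot_iff _).2 (le_of_eq (QuotientGroup.ker_mk' _).symm), sup_bot_eq]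
    have h2 := Subgroup.card_mul_index ((q.comp M.subtype).ker)
    rw [Subgroup.index_ker, MonoidHom.range_comp, Subgroup.range_subtype, h1] at h2
    have h3 : Nat.card (q.comp M.subtype).ker ≤ 2 := by
      refine le_trans (Nat.card_le_card_of_injective (fun x : (q.comp M.subtype).ker => (⟨((x : M) : Γ), (QuotientGroup.eq_one_iff _).1 x.2⟩ : zpowers w))
        fun x y h => Subtype.ext (Subtype.ext (congrArg (fun t : zpowers w => (t : Γ)) h))) ?_
      rw [Nat.card_zpowers]
      exact Nat.le_of_dvd two_pos (orderOf_dvd_of_pow_eq_one (by rw [sq, hw2]))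
    rw [← h2]
    calc 2 * (Nat.card (q.comp M.subtype).ker * Nat.card (K.map q)) ≤ 2 * (2 * Nat.card (K.map q)) :=
          Nat.mul_le_mul_left 2 (Nat.mul_le_mul_right _ h3)
      _ ≤ _ := Nat.mul_le_mul_left 2 hb
  -- the image of `M` is everything
  have himg : M.map π = ⊤ := by
    refine Subgroup.eq_top_of_le_card _ ?_
    have h1 : n.factorial ≤ 2 * Nat.card (closure (p '' Set.Ico 2 n)) := closure_cyc3 h2n n (by omega) le_rfl
    have h2 : closure (p '' Set.Ico 2 n) ≤ (M.map π).map (alternatingGroup (Fin n)).subtype := by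
      rw [closure_le]
      rintro _ ⟨k, ⟨k1, k2⟩, rfl⟩
      exact ⟨c k, ⟨a k, le_sup_left (α := Subgroup Γ) (subset_closure ⟨k, ⟨k1, k2⟩, rfl⟩), ha k k1 k2⟩, hcv k k1 k2⟩
    have h3 := Subgroup.card_le_of_le h2
    rw [Subgroup.card_map_of_injective (alternatingGroup (Fin n)).subtype_injective] at h3
    haveI : Nontrivial (Fin n) := Fin.nontrivial_iff_two_le.2 h2n
    have h4 : 2 * Nat.card (alternatingGroup (Fin n)) = n.factorial := by
      rw [two_mul_nat_card_alternatingGroup, Nat.card_perm, Nat.card_fin]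
    have h5 : 2 * Nat.card (closure (p '' Set.Ico 2 n)) ≤ 2 * Nat.card (M.map π) := Nat.mul_le_mul_left 2 h3
    omega
  have hsup : ∀ g : Γ, ∃ m ∈ M, ∃ z ∈ π.ker, g = m * z := fun g => by
    obtain ⟨m, hm, hme⟩ : π g ∈ M.map π := himg ▸ Subgroup.mem_top _
    exact ⟨m, hm, m⁻¹ * g, by rw [MonoidHom.mem_ker, map_mul, map_inv, hme, inv_mul_cancel], by group⟩
  have hcomm : commutator Γ ≤ M := by
    rw [_root_.commutator_def, Subgroup.commutator_le]
    intro g _ h _
    obtain ⟨m, hm, z, hz, rfl⟩ := hsup g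
    obtain ⟨m', hm', z', hz', rfl⟩ := hsup h
    have : ⁅m * z, m' * z'⁆ = ⁅m, m'⁆ := comm_central (hZ hz) (hZ hz')
    rw [this, commutatorElement_def]
    exact mul_mem (mul_mem (mul_mem hm hm') (inv_mem hm)) (inv_mem hm')
  have h5 := Subgroup.card_mul_index ((π.comp M.subtype).ker)
  rw [Subgroup.index_ker, MonoidHom.range_comp, Subgroup.range_subtype, himg, Subgroup.card_top] at h5
  have h6 : Nat.card (π.comp M.subtype).ker = Nat.card π.ker :=
    Nat.card_congr { toFun := fun x => ⟨((x : M) : Γ), x.2⟩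
                     invFun := fun z => ⟨⟨z, hcomm (hd z.2)⟩, z.2⟩
                     left_inv := fun x => rfl
                     right_inv := fun z => rfl }
  haveI : Nontrivial (Fin n) := Fin.nontrivial_iff_two_le.2 h2n
  have h4 : 2 * Nat.card (alternatingGroup (Fin n)) = n.factorial := by
    rw [two_mul_nat_card_alternatingGroup, Nat.card_perm, Nat.card_fin]
  rw [h6] at h5
  by_contra hlt
  have h7 := Nat.mul_le_mul_right (Nat.card (alternatingGroup (Fin n))) (show 3 ≤ Nat.card π.ker by omega)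
  have h8 : 0 < Nat.card (alternatingGroup (Fin n)) := Nat.card_pos
  omega

set_option maxHeartbeats 1000000 in
/-- Small degrees, by transfer. -/
theorem small_case {n : ℕ} (hn : n = 4 ∨ n = 5) {Γ : Type*} [Group Γ] [Finite Γ] (π : Γ →* alternatingGroup (Fin n))
    (hπ : Function.Surjective π) (hZ : π.ker ≤ center Γ) (hd : π.ker ≤ commutator Γ) : Nat.card π.ker ≤ 2 := by
  classical
  haveI : Nontrivial (Fin n) := Fin.nontrivial_iff_two_le.2 (by omega)
  have hA : 2 * Nat.card (alternatingGroup (Fin n)) = n.factorial := by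
    rw [two_mul_nat_card_alternatingGroup, Nat.card_perm, Nat.card_fin]
  set A := Nat.card (alternatingGroup (Fin n)) with hAdef
  have hAval : A = 12 ∨ A = 60 := by rcases hn with rfl | rfl <;> simp [Nat.factorial] at hA <;> omega
  refine Nat.le_of_dvd two_pos ((Nat.dvd_iff_prime_pow_dvd_dvd _ _).2 ?_)
  intro p k hp hk
  haveI := Fact.mk hp
  obtain ⟨P⟩ : Nonempty (Sylow p Γ) := inferInstance
  -- the image of the Sylow subgroup
  set f : (P : Subgroup Γ) →* alternatingGroup (Fin n) := π.comp (P : Subgroup Γ).subtype with hf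
  have hfk : f.ker ≤ center (P : Subgroup Γ) := fun x hx => Subgroup.mem_center_iff.2 fun y =>
    Subtype.ext (Subgroup.mem_center_iff.1 (hZ hx) (y : Γ))
  obtain ⟨e, he⟩ : ∃ e, Nat.card f.range = p ^ e := IsPGroup.exists_card_eq (P.2.of_surjective f.rangeRestrict f.rangeRestrict_surjective)
  have hed : p ^ e ∣ A := he ▸ f.range.card_subgroup_dvd_card
  have hP' : (p ≠ 2 → commutator (P : Subgroup Γ) = ⊥) ∧ Nat.card (commutator (P : Subgroup Γ)) ≤ 2 := by
    by_cases hcyc : IsCyclic f.range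
    · haveI := hcyc
      have hab : commutator (P : Subgroup Γ) = ⊥ := by
        rw [eq_bot_iff, commutator_def, Subgroup.commutator_le]
        intro x _ y _
        rw [Subgroup.mem_bot, commutatorElement_eq_one_iff_mul_comm]
        exact commutative_of_cyclic_center_quotient f.rangeRestrict (by rwa [MonoidHom.ker_rangeRestrict]) x y
      exact ⟨fun _ => hab, by rw [hab, Subgroup.card_bot]; norm_num⟩
    · have hpe : p = 2 ∧ e = 2 := by
        rcases Nat.lt_or_ge e 2 with h | h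
        · exfalso; apply hcyc
          interval_cases e
          · haveI : Subsingleton f.range := (Nat.card_eq_one_iff_unique.1 (by rw [he, pow_zero])).1
            exact isCyclic_of_subsingleton
          · exact isCyclic_of_prime_card (by rw [he, pow_one])
        · have h1 := Nat.le_of_dvd (by omega) ((pow_dvd_pow p h).trans hed)
          have hpb : p ≤ 7 := by by_contra h'; have := Nat.pow_le_pow_left (show 8 ≤ p by omega) 2; omega
          have he3 : e < 3 ∨ 3 ≤ e := Nat.lt_or_ge e 3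
          rcases he3 with he3 | he3
          · obtain rfl : e = 2 := by omega
            refine ⟨?_, rfl⟩
            interval_cases p <;> rcases hAval with hv | hv <;> rw [hv] at hed <;> revert hp hed <;> norm_num
          · exfalso
            have h3 := (pow_dvd_pow p he3).trans hed
            interval_cases p <;> rcases hAval with hv | hv <;> rw [hv] at h3 <;> revert hp h3 <;> norm_num
      obtain ⟨rfl, rfl⟩ := hpe
      haveI : Fact (Nat.Prime 2) := ⟨Nat.prime_two⟩
      refine ⟨fun h => absurd rfl h, ?_⟩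
      have hexp : ∀ z : f.range, z * z = 1 := by
        intro z
        by_contra hz
        apply hcyc
        refine isCyclic_of_orderOf_eq_card z ?_
        rw [he]
        refine Nat.dvd_antisymm (he ▸ orderOf_dvd_natCard z) ?_
        obtain ⟨i, hi, hi'⟩ := (Nat.dvd_prime_pow Nat.prime_two).1 (he ▸ orderOf_dvd_natCard z)
        rcases Nat.lt_or_ge i 2 with h | h
        · exfalso; apply hz
          rw [← sq, ← orderOf_dvd_iff_pow_eq_one, hi']
          exact (pow_dvd_pow 2 (show i ≤ 1 by omega)).trans (by norm_num)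
        · rw [hi']; exact pow_dvd_pow 2 h
      let r := f.rangeRestrict
      obtain ⟨x, hx⟩ : ∃ x, r x ≠ 1 := by
        by_contra h; push Not at h
        haveI : Subsingleton f.range := ⟨fun u v => by
          obtain ⟨u, rfl⟩ := f.rangeRestrict_surjective u
          obtain ⟨v, rfl⟩ := f.rangeRestrict_surjective v
          rw [h, h]⟩
        exact hcyc isCyclic_of_subsingleton
      obtain ⟨y, hy, hyx⟩ : ∃ y, r y ≠ 1 ∧ r y ≠ r x := by
        by_contra h; push Not at h
        have : Nat.card f.range ≤ 2 := by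
          refine le_trans (Nat.card_le_card_of_surjective (fun b : Fin 2 => if b = 0 then 1 else r x) fun u => ?_) (Nat.card_fin 2).le
          obtain ⟨u, rfl⟩ := f.rangeRestrict_surjective u
          by_cases h1 : r u = 1
          · exact ⟨0, by show (if (0 : Fin 2) = 0 then 1 else r x) = _; rw [if_pos rfl]; exact h1.symm⟩
          · exact ⟨1, by show (if (1 : Fin 2) = 0 then 1 else r x) = _; rw [if_neg (by decide)]; exact (h u h1).symm⟩
        omega
      have hall : ∀ u, r u = 1 ∨ r u = r x ∨ r u = r y ∨ r u = r x * r y := by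
        intro u
        by_contra h
        push Not at h
        have hxy : r x * r y ≠ 1 := fun e => hyx (by
          calc r y = r x * r x * r y := by rw [hexp, one_mul]
            _ = r x := by rw [mul_assoc, e, mul_one])
        have h5 : ({1, r x, r y, r x * r y, r u} : Finset f.range).card = 5 := by
          simp [hx, hy, hyx.symm, hxy.symm, h.1.symm, h.2.1.symm, h.2.2.1.symm, h.2.2.2.symm, hx.symm, hy.symm]
        haveI := Fintype.ofFinite f.range
        have h6 := Finset.card_le_univ ({1, r x, r y, r x * r y, r u} : Finset f.range)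
        rw [h5, ← Nat.card_eq_fintype_card, he] at h6
        omega
      have hcen : ∀ u v : (P : Subgroup Γ), r u = r v → ∃ z ∈ center (P : Subgroup Γ), u = v * z := fun u v h =>
        ⟨v⁻¹ * u, hfk (by rw [← MonoidHom.ker_rangeRestrict, MonoidHom.mem_ker, map_mul, map_inv]; show (r v)⁻¹ * r u = 1; rw [h, inv_mul_cancel]), by group⟩
      have hrc : ∀ u v : f.range, u * v = v * u := fun u v => by
        have := hexp (u * v)
        calc u * v = (u * (v * v) * u) * (u * v) := by rw [hexp, mul_one, hexp, one_mul]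
          _ = (u * v) * (v * u * (u * v)) := by simp only [mul_assoc]
          _ = v * u := by
            rw [show v * u * (u * v) = v * (u * u) * v by simp only [mul_assoc], hexp, mul_one, hexp, mul_one,
              ← mul_one (u * v), ← hexp (v * u)]
            calc u * v * ((v * u) * (v * u)) = (u * (v * v) * u) * (v * u) := by simp only [mul_assoc]
              _ = v * u := by rw [hexp, mul_one, hexp, one_mul]
      have hcmz : ∀ u v : (P : Subgroup Γ), ⁅u, v⁆ ∈ center (P : Subgroup Γ) := fun u v => hfk (by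
        rw [← MonoidHom.ker_rangeRestrict, MonoidHom.mem_ker, map_commutatorElement, commutatorElement_eq_one_iff_mul_comm]
        exact hrc _ _)
      have hcl : ∀ u z v z' : (P : Subgroup Γ), z ∈ center (P : Subgroup Γ) → z' ∈ center (P : Subgroup Γ) →
          ⁅u * z, v * z'⁆ = ⁅u, v⁆ := fun u z v z' hz hz' => comm_central hz hz'
      set t := ⁅x, y⁆ with ht
      have htc := hcmz x y
      have ht2 : t * t = 1 := by
        have hxx : x * x ∈ center (P : Subgroup Γ) := hfk (by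
          rw [← MonoidHom.ker_rangeRestrict, MonoidHom.mem_ker, map_mul]; exact hexp _)
        calc t * t = x * t * x⁻¹ * t := by rw [Subgroup.mem_center_iff.1 htc x, mul_inv_cancel_right]
          _ = ⁅x * x, y⁆ := by rw [ht, commutatorElement_def, commutatorElement_def]; group
          _ = 1 := by rw [commutatorElement_eq_one_iff_mul_comm]; exact (Subgroup.mem_center_iff.1 hxx y).symm
      have hinv : ∀ u v : (P : Subgroup Γ), ⁅u, v⁆ ∈ zpowers t → ⁅v, u⁆ ∈ zpowers t := fun u v h => by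
        rw [← commutatorElement_inv u v]; exact inv_mem h
      have hgen : ∀ u, ∃ u', (u' = 1 ∨ u' = x ∨ u' = y ∨ u' = x * y) ∧ ∃ z ∈ center (P : Subgroup Γ), u = u' * z := by
        intro u
        rcases hall u with h | h | h | h
        · exact ⟨1, Or.inl rfl, hcen u 1 (by rw [map_one]; exact h)⟩
        · exact ⟨x, Or.inr (Or.inl rfl), hcen u x h⟩
        · exact ⟨y, Or.inr (Or.inr (Or.inl rfl)), hcen u y h⟩
        · exact ⟨x * y, Or.inr (Or.inr (Or.inr rfl)), hcen u (x * y) (by rw [map_mul]; exact h)⟩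
      have hle : commutator (P : Subgroup Γ) ≤ zpowers t := by
        rw [_root_.commutator_def, Subgroup.commutator_le]
        intro u _ v _
        have hxy : ⁅x, x * y⁆ ∈ zpowers t := by
          rw [show ⁅x, x * y⁆ = x * t * x⁻¹ by rw [ht, commutatorElement_def, commutatorElement_def]; group,
            Subgroup.mem_center_iff.1 htc x, mul_inv_cancel_right]
          exact mem_zpowers t
        have hyxy : ⁅y, x * y⁆ ∈ zpowers t := by
          rw [show ⁅y, x * y⁆ = ⁅y, x⁆ by rw [commutatorElement_def, commutatorElement_def]; group]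
          exact hinv _ _ (mem_zpowers t)
        obtain ⟨u', hu', z, hz, rfl⟩ := hgen u
        obtain ⟨v', hv', z', hz', rfl⟩ := hgen v
        rw [hcl u' z v' z' hz hz']
        rcases hu' with rfl | rfl | rfl | rfl <;> rcases hv' with rfl | rfl | rfl | rfl
        all_goals first
          | (rw [commutatorElement_one_left]; exact one_mem _)
          | (rw [commutatorElement_one_right]; exact one_mem _)
          | (rw [commutatorElement_self]; exact one_mem _)
          | exact mem_zpowers t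
          | exact hxy
          | exact hyxy
          | exact hinv _ _ (mem_zpowers t)
          | exact hinv _ _ hxy
          | exact hinv _ _ hyxy
      refine (Subgroup.card_le_of_le hle).trans ?_
      rw [Nat.card_zpowers]
      exact Nat.le_of_dvd two_pos (orderOf_dvd_of_pow_eq_one (by rw [sq, ht2]))
  -- the p-part of the kernel embeds in the derived subgroup
  obtain ⟨R⟩ : Nonempty (Sylow p π.ker) := inferInstance
  set m := (P : Subgroup Γ).index with hm
  have hmp : ¬ p ∣ m := P.not_dvd_index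
  have key : ∀ x : ↥(R : Subgroup π.ker), ∃ h : ((x : π.ker) : Γ) ^ m ∈ (P : Subgroup Γ), (⟨_, h⟩ : (P : Subgroup Γ)) ∈ commutator (P : Subgroup Γ) :=
    fun x => Cfsg.Agent.Stem.pow_index_mem_commutator (P : Subgroup Γ) (hZ (x : π.ker).2) (hd (x : π.ker).2)
  choose h1 h2 using key
  let F : ↥(R : Subgroup π.ker) → commutator (P : Subgroup Γ) := fun x => ⟨⟨_, h1 x⟩, h2 x⟩
  have hF : Function.Injective F := by
    intro x y hxy
    have he : ((x : π.ker) : Γ) ^ m = ((y : π.ker) : Γ) ^ m := congrArg (fun t => ((t : (P : Subgroup Γ)) : Γ)) (congrArg Subtype.val hxy)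
    obtain ⟨i, hi⟩ := R.2.exists_card_eq
    refine (powCoprime (G := ↥(R : Subgroup π.ker)) (n := m) ?_).injective (Subtype.ext (Subtype.ext ?_))
    · rw [hi]; exact Nat.Coprime.pow_left i ((Nat.Prime.coprime_iff_not_dvd hp).2 hmp)
    · simpa [powCoprime] using he
  have hR := Nat.card_le_card_of_injective F hF
  have hpkR : p ^ k ≤ Nat.card (R : Subgroup π.ker) := Nat.le_of_dvd Nat.card_pos (by
    rw [R.card_eq_multiplicity]
    exact pow_dvd_pow p ((hp.pow_dvd_iff_le_factorization Nat.card_pos.ne').1 hk))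
  by_cases hp2 : p = 2
  · subst hp2
    refine (pow_dvd_pow 2 (show k ≤ 1 from ?_)).trans (pow_one 2).dvd
    by_contra h
    have := Nat.pow_le_pow_right (show 0 < 2 by norm_num) (show 2 ≤ k by omega)
    have := hP'.2
    omega
  · rw [hP'.1 hp2, Subgroup.card_bot] at hR
    have : p ^ k = 1 := le_antisymm (hpkR.trans hR) (Nat.one_le_pow _ _ hp.pos)
    rw [this]; exact one_dvd _

/-- Let n ≥ 4 with n ≠ 6 and n ≠ 7, and let Γ be a finite group with a subgroup Z contained in both the centre and the commutator subgroup of Γ such that Γ / Z is isomorphic to the alternating group on n letters. Then Z has order at most 2. -/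
theorem result (n : ℕ) (hn : 4 ≤ n) (h6 : n ≠ 6) (h7 : n ≠ 7) {Γ : Type*} [Group Γ] [Finite Γ] (Z : Subgroup Γ) [Z.Normal] (hZc : Z ≤ Subgroup.center Γ) (hZd : Z ≤ commutator Γ) (e : Γ ⧸ Z ≃* alternatingGroup (Fin n)) : Nat.card Z ≤ 2 := by
  classical
  let π : Γ →* alternatingGroup (Fin n) := e.toMonoidHom.comp (QuotientGroup.mk' Z)
  have hπ : Function.Surjective π := e.surjective.comp (QuotientGroup.mk'_surjective Z)
  have hker : π.ker = Z := by
    ext x
    rw [MonoidHom.mem_ker]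
    show e (QuotientGroup.mk' Z x) = 1 ↔ x ∈ Z
    rw [e.map_eq_one_iff]
    exact QuotientGroup.eq_one_iff x
  have : Nat.card π.ker ≤ 2 := by
    rcases Nat.lt_or_ge n 8 with h | h
    · exact small_case (by omega) π hπ (hker.le.trans hZc) (hker.le.trans hZd)
    · exact big_case h π hπ (hker.le.trans hZc) (hker.le.trans hZd)
  rwa [hker] at this

end Cfsg.Agent.S0892
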