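import Cfsg.Statements.S0893
import Mathlib
import Cfsg.Agent.Lib.Characters.Induction

set_option autoImplicit false
open Cfsg Cfsg.Lib.Characters
open scoped ComplexConjugate

namespace Cfsg.Agent.S0893


/-- Let P be an extraspecial p-group of order p ^ (2 * n + 1), A an abelian subgroup of order p ^ (n + 1), and λ a character of A of degree 1 that is not identically 1 on the elements of A lying in the centre of P. Then the function induced from λ to P is an irreducible character of P and vanishes at every element outside the centre. -/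
theorem result {P : Type*} [Group P] [Fintype P] (p n : ℕ) [Fact p.Prime] (hP : Cfsg.IsExtraspecial p P) (hcard : Nat.card P = p ^ (2 * n + 1)) (A : Subgroup P) (hab : ∀ a ∈ A, ∀ b ∈ A, a * b = b * a) (hA : Nat.card A = p ^ (n + 1)) (lam : A → ℂ) (hlam : Cfsg.IsCharacter A lam ∧ lam 1 = 1) (hZ : ∃ a : A, (a : P) ∈ Subgroup.center P ∧ lam a ≠ 1) : Cfsg.IsIrrCharacter P (Cfsg.indFun A lam) ∧ ∀ x : P, x ∉ Subgroup.center P → Cfsg.indFun A lam x = 0 := by
  classical
  obtain ⟨hsp, hZp⟩ := hP
  obtain ⟨lamH, hlamH⟩ := exists_hom_of_degree_one hlam.1 hlam.2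
  subst hlamH
  haveI := Fintype.ofFinite A
  -- the centre lies in `A`
  have hZA : Subgroup.center P ≤ A := by
    obtain ⟨a, haz, ha⟩ := hZ
    by_contra h
    have hd : Nat.card (Subgroup.center P ⊓ A : Subgroup P) ∣ p := hZp ▸ Subgroup.card_dvd_of_le inf_le_left
    rcases (Nat.dvd_prime Fact.out).mp hd with h1 | h1
    · refine ha ?_
      have : (a : P) ∈ Subgroup.center P ⊓ A := ⟨haz, a.2⟩
      rw [Subgroup.eq_bot_of_card_eq _ h1, Subgroup.mem_bot] at this
      have ha1 : a = 1 := Subtype.ext this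
      simp [ha1]
    · exact h (inf_eq_left.mp (Subgroup.eq_of_le_of_card_ge inf_le_left (by rw [h1, hZp])))
  -- the central character
  let μ : Subgroup.center P →* ℂˣ := lamH.comp (Subgroup.inclusion hZA)
  set χ := Cfsg.indFun A (fun a : A => (lamH a : ℂ)) with hχ
  have hchi : IsCharacter P χ := isCharacter_indFun A (isIrrCharacter_linear lamH).isCharacter
  have hmul : ∀ (x : P) (z : Subgroup.center P), χ ((z : P) * x) = (μ z : ℂ) * χ x := by
    intro x z
    simp only [hχ, indFun, Finset.mul_sum]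
    refine Finset.sum_congr rfl fun y _ => ?_
    have he : y⁻¹ * ((z : P) * x) * y = (z : P) * (y⁻¹ * x * y) := by
      rw [← mul_assoc y⁻¹, Subgroup.mem_center_iff.mp z.2 y⁻¹]
      group
    rw [he]
    by_cases hy : y⁻¹ * x * y ∈ A
    · rw [extendByZero_mem _ hy, extendByZero_mem _ (A.mul_mem (hZA z.2) hy)]
      have he2 : (⟨(z : P) * (y⁻¹ * x * y), A.mul_mem (hZA z.2) hy⟩ : A) =
          Subgroup.inclusion hZA z * ⟨y⁻¹ * x * y, hy⟩ := rfl
      rw [he2, map_mul, Units.val_mul]
      simp only [μ, MonoidHom.comp_apply]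
      ring
    · rw [extendByZero_not_mem _ hy,
        extendByZero_not_mem _ (fun h => hy (by simpa using A.mul_mem (A.inv_mem (hZA z.2)) h))]
      ring
  have hμ : ∀ z : Subgroup.center P, z ≠ 1 → μ z ≠ 1 := by
    intro z hz hμz
    obtain ⟨a, haz, ha⟩ := hZ
    haveI : IsCyclic (Subgroup.center P) := isCyclic_of_prime_card (p := p) hZp
    refine ha ?_
    obtain ⟨t, ht⟩ := Subgroup.mem_zpowers_iff.mp
      (mem_zpowers_of_prime_card (p := p) hZp hz (g' := (⟨(a : P), haz⟩ : Subgroup.center P)))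
    have : μ ⟨(a : P), haz⟩ = 1 := by rw [← ht, map_zpow, hμz, one_zpow]
    exact congrArg Units.val this
  have hoff : ∀ x : P, x ∉ Subgroup.center P → χ x = 0 := by
    intro x hx
    rw [Subgroup.mem_center_iff, not_forall] at hx
    obtain ⟨y, hy⟩ := hx
    have hcz : y * x * y⁻¹ * x⁻¹ ∈ Subgroup.center P := by
      rw [← hsp.2.2]
      exact Subgroup.commutator_mem_commutator (Subgroup.mem_top y) (Subgroup.mem_top x)
    have hz1 : (⟨_, hcz⟩ : Subgroup.center P) ≠ 1 := fun e => hy (by
      have e' : y * x * y⁻¹ * x⁻¹ = 1 := congrArg Subtype.val e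
      calc y * x = y * x * y⁻¹ * x⁻¹ * (x * y) := by group
        _ = x * y := by rw [e', one_mul])
    have h1 := hmul x ⟨_, hcz⟩
    rw [show ((⟨_, hcz⟩ : Subgroup.center P) : P) * x = y * x * y⁻¹ by simp,
      isClassFunction_of_isCharacter hchi x y] at h1
    have h2 : ((μ ⟨_, hcz⟩ : ℂ) - 1) * χ x = 0 := by linear_combination -h1
    exact (mul_eq_zero.mp h2).resolve_left (sub_ne_zero.mpr fun e => hμ _ hz1 (Units.ext e))
  refine ⟨isIrrCharacter_of_classInner_eq_one hchi ?_, hoff⟩
  have hone : χ 1 = (p : ℂ) ^ n := by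
    have h := indFun_one_apply A (fun a : A => (lamH a : ℂ))
    rw [← hχ] at h
    rw [h]
    simp only [map_one, Units.val_one, mul_one]
    have hidx := A.card_mul_index
    rw [hA, hcard, show p ^ (2 * n + 1) = p ^ (n + 1) * p ^ n by rw [← pow_add]; congr 1; omega] at hidx
    rw [Nat.eq_of_mul_eq_mul_left (pow_pos (Fact.out : p.Prime).pos _) hidx, Nat.cast_pow]
  rw [classInner, ← Finset.sum_filter_add_sum_filter_not Finset.univ (fun g => g ∈ Subgroup.center P),
    Finset.sum_eq_zero (s := Finset.univ.filter fun g => g ∉ Subgroup.center P)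
      (fun g hg => by rw [hoff g (Finset.mem_filter.mp hg).2, zero_mul]), add_zero,
    Finset.sum_subtype (p := fun g => g ∈ Subgroup.center P) _ (fun g => by simp)]
  have hval : ∀ z : Subgroup.center P, χ (z : P) * conj (χ (z : P)) = ((p : ℂ) ^ n) ^ 2 := by
    intro z
    have h := hmul 1 z
    rw [mul_one] at h
    have hu : (μ z : ℂ) ^ Nat.card (Subgroup.center P) = 1 := by
      rw [← Units.val_pow_eq_pow_val, ← map_pow, pow_card_eq_one', map_one, Units.val_one]
    rw [h, hone, map_mul, map_pow, map_natCast, mul_mul_mul_comm, Complex.mul_conj,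
      Complex.normSq_eq_norm_sq, Complex.norm_eq_one_of_pow_eq_one hu Nat.card_pos.ne']
    norm_num
    ring
  rw [Finset.sum_congr rfl fun z _ => hval z, Finset.sum_const, Finset.card_univ,
    ← Nat.card_eq_fintype_card, hZp, hcard, nsmul_eq_mul, Nat.cast_pow]
  have hp0 : (p : ℂ) ≠ 0 := Nat.cast_ne_zero.mpr (Fact.out : p.Prime).ne_zero
  field_simp
  ring

end Cfsg.Agent.S0893
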