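import Cfsg.Statements.S0894
import Cfsg.Agent.Lib.Characters.Coherence.Frobenius
import Cfsg.Agent.Lib.Characters.Degree

set_option autoImplicit false
open Cfsg

namespace Cfsg.Agent.S0894

open Cfsg Cfsg.Lib.Characters
open scoped ComplexConjugate

theorem central_scalar {P : Type*} [Group P] [Finite P] {χ : P → ℂ} (hχ : IsIrrCharacter P χ)
    {z : P} (hz : z ∈ Subgroup.center P) : ∃ c : ℂ, ∀ x, χ (z * x) = c * χ x := by
  haveI := Fintype.ofFinite P
  obtain ⟨d, ρ, hρ, rfl⟩ := hχ
  haveI := hρ
  obtain ⟨c, hc⟩ := schur_scalar ρ (ρ z) fun x => by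
    rw [← map_mul, ← map_mul, Subgroup.mem_center_iff.mp hz x]
  refine ⟨c, fun x => ?_⟩
  show LinearMap.trace ℂ _ (ρ (z * x)) = c * LinearMap.trace ℂ _ (ρ x)
  rw [map_mul, hc, show (c • LinearMap.id : Module.End ℂ (Fin d → ℂ)) * ρ x = c • ρ x from by
    ext v; simp [Module.End.mul_eq_comp], map_smul, smul_eq_mul]

/-- Let P be an extraspecial p-group of order p ^ (2 * n + 1). Then every irreducible character of P has degree 1 or p ^ n, and exactly p - 1 of them have degree p ^ n. -/
theorem result {P : Type*} [Group P] [Finite P] (p n : ℕ) [Fact p.Prime] (hP : Cfsg.IsExtraspecial p P) (hcard : Nat.card P = p ^ (2 * n + 1)) : (∀ χ : Cfsg.IrrCharacter P, (χ : P → ℂ) 1 = 1 ∨ (χ : P → ℂ) 1 = (p : ℂ) ^ n) ∧ Nat.card {χ : Cfsg.IrrCharacter P // (χ : P → ℂ) 1 = (p : ℂ) ^ n} = p - 1 := by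
  classical
  haveI := Fintype.ofFinite P
  obtain ⟨⟨-, -, hcomm⟩, hZ⟩ := hP
  have hp : p.Prime := Fact.out
  set Z := Subgroup.center P
  haveI : Fintype Z := Fintype.ofFinite _
  have htriv : ∀ χ : IrrCharacter P, (χ : P → ℂ) 1 = 1 ↔ Coherence.TrivOn Z χ.1 := by
    intro χ
    constructor
    · intro h1 z hz
      obtain ⟨l, hl⟩ := exists_hom_of_degree_one χ.2.isCharacter h1
      rw [show Z = commutator P from hcomm.symm] at hz
      have hker : l z = 1 := MonoidHom.mem_ker.mp (Abelianization.commutator_subset_ker l hz)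
      simp [hl, hker]
    · intro h
      obtain ⟨ψ, -, hψ, hψχ⟩ := exists_of_quotient χ.2.isCharacter (N := Z) h
      haveI : IsMulCommutative (P ⧸ Z) := ⟨⟨fun a b => by
        induction a using QuotientGroup.induction_on with
        | H x =>
          induction b using QuotientGroup.induction_on with
          | H y =>
            rw [← QuotientGroup.mk_mul, ← QuotientGroup.mk_mul, QuotientGroup.eq]
            rw [show Z = commutator P from hcomm.symm]
            have := Subgroup.commutator_mem_commutator (Subgroup.mem_top y⁻¹) (Subgroup.mem_top x⁻¹)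
            rw [commutatorElement_def, inv_inv, inv_inv, ← commutator_def] at this
            rwa [mul_inv_rev, ← mul_assoc]⟩⟩
      rw [← hψχ 1, QuotientGroup.mk_one]
      exact degree_one_of_isMulCommutative (hψ χ.2)
  choose d hd using fun χ : IrrCharacter P => exists_degree χ.2.isCharacter
  have hbig : ∀ χ : IrrCharacter P, (χ : P → ℂ) 1 ≠ 1 → d χ = p ^ n := by
    intro χ h1
    obtain ⟨z₀, hz₀, hne₀⟩ : ∃ z ∈ Z, χ.1 z ≠ χ.1 1 := by
      have h := mt (htriv χ).mpr h1
      simp only [Coherence.TrivOn] at h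
      push Not at h
      exact h
    have hvan : ∀ x ∉ Z, χ.1 x = 0 := by
      intro x hx
      obtain ⟨y, hy⟩ : ∃ y, y * x ≠ x * y := by
        by_contra hh; push Not at hh; exact hx (Subgroup.mem_center_iff.mpr hh)
      set z := y * x * y⁻¹ * x⁻¹ with hzdef
      have hz : z ∈ Z := by
        rw [show Z = commutator P from hcomm.symm, commutator_def]
        exact Subgroup.commutator_mem_commutator (Subgroup.mem_top y) (Subgroup.mem_top x)
      have hz1 : z ≠ 1 := fun h => hy (by
        rwa [hzdef, mul_inv_eq_one, mul_inv_eq_iff_eq_mul] at h)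
      obtain ⟨c, hc⟩ := central_scalar χ.2 hz
      have hconj : c * χ.1 x = χ.1 x := by
        rw [← hc x, hzdef, inv_mul_cancel_right]
        exact χ.2.isClassFunction x y
      by_contra hne
      have hc1 : c = 1 := mul_right_cancel₀ hne (hconj.trans (one_mul _).symm)
      -- the kernel would contain the whole centre
      obtain ⟨k, hk⟩ : z₀ ∈ Submonoid.powers z := by
        rw [(isOfFinOrder_of_finite z).mem_powers_iff_mem_zpowers]
        have hgen : Subgroup.zpowers z = Z := by
          refine Subgroup.eq_of_le_of_card_ge (Subgroup.zpowers_le.mpr hz) ?_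
          rw [hZ, Nat.card_zpowers]
          have hdvd : orderOf z ∣ p := hZ ▸ Subgroup.orderOf_dvd_natCard Z hz
          rcases (Nat.dvd_prime hp).mp hdvd with h | h
          · exact absurd (orderOf_eq_one_iff.mp h) hz1
          · exact h.ge
        exact hgen.symm ▸ hz₀
      have hk' : ∀ k : ℕ, ∀ g, χ.1 (z ^ k * g) = χ.1 g := by
        intro k
        induction k with
        | zero => simp
        | succ k ih => intro g; rw [pow_succ, mul_assoc, ih, hc, hc1, one_mul]
      exact hne₀ (by rw [← hk]; simpa using hk' k 1)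
    have hnormZ : ∀ z ∈ Z, χ.1 z * conj (χ.1 z) = (d χ : ℂ) ^ 2 := by
      intro z hz
      have h := norm_eq_of_mem_center χ.2 (hd χ) hz
      rw [Complex.mul_conj', h]
      push_cast
      rfl
    have hnorm := classInner_irr_self χ.2
    rw [classInner, inv_mul_eq_iff_eq_mul₀ (Nat.cast_ne_zero.mpr Nat.card_pos.ne'), mul_one] at hnorm
    rw [← Finset.sum_subset (Finset.subset_univ (Finset.univ.filter fun g => g ∈ Z))
      (fun g _ hg => by rw [hvan g (by simpa using hg), zero_mul]),
      Finset.sum_congr rfl (fun g hg => hnormZ g (Finset.mem_filter.mp hg).2), Finset.sum_const,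
      ← Fintype.card_subtype, nsmul_eq_mul, hcard] at hnorm
    have hnat : p * d χ ^ 2 = p ^ (2 * n + 1) := by
      have hcz : Fintype.card {g : P // g ∈ Z} = p := by
        rw [← Nat.card_eq_fintype_card]; exact hZ
      rw [hcz] at hnorm
      exact_mod_cast hnorm
    rw [show p ^ (2 * n + 1) = p * (p ^ n) ^ 2 by ring] at hnat
    exact Nat.pow_left_injective two_ne_zero (Nat.eq_of_mul_eq_mul_left hp.pos hnat)
  have hall : ∀ χ : IrrCharacter P, (χ : P → ℂ) 1 = 1 ∨ (χ : P → ℂ) 1 = (p : ℂ) ^ n := fun χ => by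
    by_cases h : (χ : P → ℂ) 1 = 1
    · exact Or.inl h
    · exact Or.inr (by rw [hd χ, hbig χ h, Nat.cast_pow])
  refine ⟨hall, ?_⟩
  -- counting
  have hn : 1 < p ^ n := by
    rcases Nat.eq_zero_or_pos n with rfl | hn
    · exfalso
      rw [mul_zero, zero_add, pow_one] at hcard
      have : Z = ⊤ := Subgroup.eq_top_of_card_eq Z (hZ.trans hcard.symm)
      have hab : commutator P = ⊥ := by
        rw [commutator_def, Subgroup.commutator_eq_bot_iff_le_centralizer]
        intro x _
        rw [Subgroup.mem_centralizer_iff]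
        intro y _
        exact Subgroup.mem_center_iff.mp (show x ∈ Z by rw [this]; trivial) y
      have : Nat.card Z = 1 := by rw [show Z = commutator P from hcomm.symm, hab, Subgroup.card_bot]
      exact hp.ne_one (hZ.symm.trans this)
    · exact Nat.one_lt_pow hn.ne' hp.one_lt
  have hlin : ∀ χ : IrrCharacter P, (χ : P → ℂ) 1 = 1 → d χ = 1 := fun χ h => by
    exact_mod_cast (hd χ).symm.trans h
  have hbig' : ∀ χ : IrrCharacter P, (χ : P → ℂ) 1 = (p : ℂ) ^ n ↔ (χ : P → ℂ) 1 ≠ 1 := by
    refine fun χ => ⟨fun h h1 => ?_, fun h => (hall χ).resolve_left h⟩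
    rw [h1, ← Nat.cast_pow, eq_comm, Nat.cast_eq_one] at h
    omega
  have hsum : ∑ χ : IrrCharacter P, d χ ^ 2 = p ^ (2 * n + 1) := by
    have h := sum_sq_degree (G := P)
    simp only [hd, hcard] at h
    exact_mod_cast h
  have hlincard : ∑ χ ∈ Finset.univ.filter (fun χ : IrrCharacter P => χ.1 1 = 1), d χ ^ 2 =
      p ^ (2 * n) := by
    have hidx : Z.index = p ^ (2 * n) := by
      refine Nat.eq_of_mul_eq_mul_left hp.pos ?_
      rw [← pow_succ', ← hcard, ← Z.card_mul_index, hZ]
    rw [← hidx, ← Coherence.sum_sq_trivOn Z]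
    refine Finset.sum_bij (fun χ _ => χ.1) (fun χ hχ => ?_) (fun a _ b _ h => Subtype.ext h)
      (fun f hf => ?_) fun χ _ => ?_
    · rw [Finset.mem_filter, Coherence.mem_irrFin]
      exact ⟨χ.2, (htriv χ).mp (Finset.mem_filter.mp hχ).2⟩
    · rw [Finset.mem_filter, Coherence.mem_irrFin] at hf
      exact ⟨⟨f, hf.1⟩, Finset.mem_filter.mpr ⟨Finset.mem_univ _, (htriv ⟨f, hf.1⟩).mpr hf.2⟩, rfl⟩
    · have := Coherence.degC_spec χ.2.isCharacter
      rw [hd χ, Nat.cast_inj] at this
      rw [this]
  rw [← Finset.sum_filter_add_sum_filter_not _ (fun χ : IrrCharacter P => χ.1 1 = 1), hlincard,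
    Finset.sum_congr rfl fun χ hχ => by rw [hbig χ (Finset.mem_filter.mp hχ).2], Finset.sum_const,
    smul_eq_mul] at hsum
  rw [Nat.card_eq_fintype_card, Fintype.card_subtype, Finset.filter_congr fun χ _ => hbig' χ]
  have hpos : 0 < p ^ (2 * n) := Nat.pow_pos hp.pos
  rw [← pow_mul, mul_comm n 2, pow_succ p (2 * n)] at hsum
  have h2 : (Finset.univ.filter fun χ : IrrCharacter P => ¬χ.1 1 = 1).card + 1 = p :=
    Nat.eq_of_mul_eq_mul_left hpos (by rw [← hsum]; ring)
  exact (Nat.sub_eq_of_eq_add h2.symm).symm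

end Cfsg.Agent.S0894
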