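import Cfsg.Statements.S0896
import Cfsg.Agent.Lib.Characters.InvariantExtension


set_option autoImplicit false
open scoped ComplexConjugate
open Cfsg

namespace Cfsg.Agent.S0896

/-- Let N be a normal subgroup of the finite group G with the index of N a power of the prime p, and ϑ an irreducible character of N invariant under conjugation by G. Then there are a p-elementary subgroup E of G with E ⊔ N = ⊤ and an irreducible character φ of the subgroup E ⊓ N, invariant under conjugation by E, such that the inner product of the restriction of ϑ to E ⊓ N with φ is an integer not divisible by p. -/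
theorem result {G : Type*} [Group G] [Fintype G] (p : ℕ) (hp : p.Prime) (N : Subgroup G) [hN : N.Normal] (hind : ∃ k : ℕ, N.index = p ^ k) (ϑ : N → ℂ) (hϑ : Cfsg.IsIrrCharacter N ϑ) (hinv : ∀ (g : G) (n : N), ϑ ⟨g * n * g⁻¹, hN.conj_mem (n : G) n.2 g⟩ = ϑ n) : ∃ (E : Subgroup G) (φ : ↥(E ⊓ N) → ℂ), Cfsg.IsElementary p E ∧ E ⊔ N = ⊤ ∧ Cfsg.IsIrrCharacter ↥(E ⊓ N) φ ∧ (∀ (g : G) (hg : g ∈ E) (x : ↥(E ⊓ N)), φ ⟨g * x * g⁻¹, ⟨(E.mul_mem (E.mul_mem hg x.2.1) (E.inv_mem hg)), hN.conj_mem (x : G) x.2.2 g⟩⟩ = φ x) ∧ ∃ m : ℕ, ¬ p ∣ m ∧ (Nat.card ↥(E ⊓ N) : ℂ)⁻¹ * ∑ᶠ x : ↥(E ⊓ N), ϑ ⟨(x : G), x.2.2⟩ * conj (φ x) = (m : ℂ) := by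
  classical
  let _ : Fintype N := Fintype.ofFinite N
  obtain ⟨E, ψ, hF, m, hE, htop, hψ, hψinv, hpm, hm⟩ :=
    Cfsg.Lib.Characters.exists_elementary_constituent hp hind hϑ fun g => funext fun n => hinv g n
  let e : ↥(E ⊓ N) ≃* N.subgroupOf E :=
    { toFun := fun x => ⟨⟨(x : G), x.2.1⟩, x.2.2⟩
      invFun := fun y => ⟨((y : E) : G), (y : E).2, y.2⟩
      left_inv := fun _ => rfl
      right_inv := fun _ => rfl
      map_mul' := fun _ _ => rfl }
  let _ : Fintype ↥(E ⊓ N) := Fintype.ofFinite _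
  refine ⟨E, fun x => ψ (e x), hE, htop, Cfsg.Lib.Characters.isIrrCharacter_mulEquiv hψ e,
    fun g hg x => congrFun (hψinv ⟨g, hg⟩) (e x), m, hpm, ?_⟩
  rw [← hm, finsum_eq_sum_of_fintype, Cfsg.classInner, ← Nat.card_congr e.toEquiv]
  congr 1
  exact Fintype.sum_equiv e.toEquiv _ _ fun x => rfl

end Cfsg.Agent.S0896
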