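import Cfsg.Statements.S0898
import Cfsg.Agent.Lib.Characters.Degree
import Cfsg.Agent.Lib.Characters.Coherence.Frobenius

set_option autoImplicit false
open Cfsg

namespace Cfsg.Agent.S0898

open Cfsg Cfsg.Lib.Characters
open scoped ComplexConjugate

theorem sum_coset_eq_zero {G : Type*} [Group G] [Fintype G] {N : Subgroup G} [N.Normal] [Fintype N]
    {β : G → ℂ} (hβ : IsIrrCharacter G β) (h : ∑ n : N, β n = 0) (g : G) :
    ∑ n : N, β ((n : G) * g) = 0 := by
  obtain ⟨d, ρ, hρ, rfl⟩ := hβ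
  haveI := hρ
  have hcomm : ∀ x : G, (∑ n : N, ρ n) * ρ x = ρ x * ∑ n : N, ρ n := by
    intro x
    simp only [Finset.sum_mul, Finset.mul_sum, ← map_mul]
    refine Fintype.sum_equiv (MulAut.conjNormal x⁻¹ : N ≃* N).toEquiv _ _ fun n => congrArg ρ ?_
    simp [MulAut.conjNormal_apply, mul_assoc]
  obtain ⟨c, hc⟩ := schur_scalar ρ (∑ n : N, ρ n) hcomm
  have htr : ∀ x : G, ∑ n : N, ρ.character ((n : G) * x) = c * ρ.character x := by
    intro x
    have := congrArg (fun T => LinearMap.trace ℂ (Fin d → ℂ) (T * ρ x)) hc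
    simp only [Finset.sum_mul, map_sum, ← map_mul] at this
    refine this.trans ?_
    rw [show (c • LinearMap.id : Module.End ℂ (Fin d → ℂ)) * ρ x = c • ρ x from by
      ext v; simp [Module.End.mul_eq_comp], map_smul, smul_eq_mul]
    rfl
  have h1 := htr 1
  simp only [mul_one] at h1
  rw [h] at h1
  have hd : ρ.character 1 ≠ 0 := (isIrrCharacter_character ρ).one_ne_zero
  rw [htr, (mul_eq_zero.mp h1.symm).resolve_right hd, zero_mul]

/-- The mass of a character on a normaliser, against the mass of its part fixed by `H`. -/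
theorem fixed_part {N : Type*} [Group N] [Fintype N] (H : Subgroup N) [H.Normal] [Fintype H]
    {r : N → ℂ} (hr : IsCharacter N r) (hne : ∃ h ∈ H, r h ≠ r 1) :
    ∃ α : N → ℂ, (∀ g, (Nat.card H : ℂ) * α g = ∑ x : H, r (g * x)) ∧
      (Nat.card N : ℝ) + ∑ g, Complex.normSq (α g) ≤ ∑ g, Complex.normSq (r g) := by
  classical
  obtain ⟨m, hm⟩ := exists_decomposition hr
  set α : N → ℂ := ∑ ψ : IrrCharacter N,
    (if Coherence.TrivOn H ψ.1 then (m ψ : ℂ) else 0) • ψ.1
  have hcoset : ∀ (ψ : IrrCharacter N) (g : N), ∑ x : H, ψ.1 (g * x) =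
      if Coherence.TrivOn H ψ.1 then (Nat.card H : ℂ) * ψ.1 g else 0 := by
    intro ψ g
    split_ifs with h
    · rw [Finset.sum_congr rfl (g := fun _ : H => ψ.1 g) fun x _ => ?_]
      · simp [Nat.card_eq_fintype_card]
      · rw [← ψ.2.isClassFunction (g * x) x,
          show (x : N) * (g * x) * (x : N)⁻¹ = x * g by group]
        exact char_mul_ker ψ.2.isCharacter (h x x.2) g
    · rw [← sum_coset_eq_zero ψ.2 (Coherence.sum_irr_subgroup_eq_zero ψ.2 h) g]
      refine Finset.sum_congr rfl fun x _ => ?_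
      rw [← ψ.2.isClassFunction (g * x) x, show (x : N) * (g * x) * (x : N)⁻¹ = x * g by group]
  refine ⟨α, fun g => ?_, ?_⟩
  · simp only [hm, α, Finset.sum_apply, Pi.smul_apply, smul_eq_mul]
    rw [Finset.sum_comm, Finset.mul_sum]
    refine Finset.sum_congr rfl fun ψ _ => ?_
    rw [← Finset.mul_sum, hcoset]
    split_ifs <;> ring
  · have hnorm : ∀ (a : IrrCharacter N → ℕ),
        ∑ g, Complex.normSq ((∑ ψ, (a ψ : ℂ) • ψ.1) g) = (Nat.card N : ℝ) * ∑ ψ, (a ψ : ℝ) ^ 2 := by
      intro a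
      have h1 : classInner (∑ ψ, (a ψ : ℂ) • ψ.1) (∑ ψ, (a ψ : ℂ) • ψ.1) = ∑ ψ, (a ψ : ℂ) ^ 2 := by
        rw [classInner_sum_right]
        refine Finset.sum_congr rfl fun ψ _ => ?_
        rw [classInner_smul_right, classInner_sum_irr, map_natCast, sq]
      rw [classInner, inv_mul_eq_iff_eq_mul₀ (Nat.cast_ne_zero.mpr Nat.card_pos.ne')] at h1
      simp only [Complex.mul_conj] at h1
      exact_mod_cast h1
    have hα : α = ∑ ψ, (((if Coherence.TrivOn H ψ.1 then m ψ else 0 : ℕ)) : ℂ) • ψ.1 := by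
      refine Finset.sum_congr rfl fun ψ _ => ?_
      split_ifs <;> simp
    rw [hα, hnorm, hm, hnorm, ← mul_one_add]
    refine mul_le_mul_of_nonneg_left ?_ (Nat.cast_nonneg _)
    obtain ⟨ψ, hψ1, hψ2⟩ : ∃ ψ, m ψ ≠ 0 ∧ ¬ Coherence.TrivOn H ψ.1 := by
      by_contra hcon
      push Not at hcon
      obtain ⟨h, hh, hne⟩ := hne
      refine hne ?_
      rw [hm]
      simp only [Finset.sum_apply, Pi.smul_apply, smul_eq_mul]
      refine Finset.sum_congr rfl fun ψ _ => ?_
      by_cases h0 : m ψ = 0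
      · simp [h0]
      · rw [hcon ψ h0 h hh]
    rw [← Finset.add_sum_erase _ _ (Finset.mem_univ ψ),
      ← Finset.add_sum_erase (f := fun x => ((m x : ℕ) : ℝ) ^ 2) _ (Finset.mem_univ ψ), ← add_assoc]
    refine add_le_add ?_ (Finset.sum_le_sum fun x _ => ?_)
    · rw [if_neg hψ2]
      simp only [Nat.cast_zero, ne_eq, OfNat.ofNat_ne_zero, not_false_eq_true, zero_pow, add_zero]
      exact one_le_pow₀ (by exact_mod_cast Nat.pos_of_ne_zero hψ1)
    · split_ifs
      · exact le_rfl
      · simp only [Nat.cast_zero, ne_eq, OfNat.ofNat_ne_zero, not_false_eq_true, zero_pow]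
        positivity

theorem key {G : Type*} [Group G] [Fintype G] (H : Subgroup G) [Fintype H]
    (hab : ∀ a ∈ H, ∀ b ∈ H, a * b = b * a) (hZ : H ⊓ Subgroup.center G = ⊥)
    (hone : ∀ g : G, g ∉ Subgroup.center G → ∀ a b : G,
      Subgroup.centralizer ({g} : Set G) ⊓ H.map (MulAut.conj a).toMonoidHom ≠ ⊥ →
      Subgroup.centralizer ({g} : Set G) ⊓ H.map (MulAut.conj b).toMonoidHom ≠ ⊥ →
      H.map (MulAut.conj a).toMonoidHom = H.map (MulAut.conj b).toMonoidHom)
    (χ : G → ℂ) (hχ : IsIrrCharacter G χ) (hker : ∃ h ∈ H, χ h ≠ χ 1) :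
    (Nat.card H : ℝ) * (classInner (fun h : H => χ h) (fun _ => 1)).re ^ 2 < (χ 1).re ^ 2 := by
  classical
  set Z := Subgroup.center G with hZdef
  set N := Subgroup.normalizer (H : Set G) with hNdef
  have hHN : H ≤ N := Subgroup.le_normalizer
  obtain ⟨d, hd0, hd⟩ := hχ.exists_degree_pos
  rw [hd, Complex.natCast_re]
  -- the elements centralising a non-trivial element of `H`
  let T : Finset G := Finset.univ.filter fun g => g ∉ Z ∧ ∃ h ∈ H, h ≠ 1 ∧ Commute g h
  have hmemT : ∀ g, g ∈ T ↔ g ∉ Z ∧ ∃ h ∈ H, h ≠ 1 ∧ Commute g h := fun g => by simp [T]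
  have hinter : ∀ (g a : G), (∃ h ∈ H, h ≠ 1 ∧ Commute g (a * h * a⁻¹)) →
      Subgroup.centralizer ({g} : Set G) ⊓ H.map (MulAut.conj a).toMonoidHom ≠ ⊥ := by
    rintro g a ⟨h, hh, hh1, hc⟩ hbot
    have hmem : a * h * a⁻¹ ∈
        Subgroup.centralizer ({g} : Set G) ⊓ H.map (MulAut.conj a).toMonoidHom :=
      ⟨Subgroup.mem_centralizer_singleton_iff.mpr hc.symm.eq, ⟨h, hh, rfl⟩⟩
    rw [hbot, Subgroup.mem_bot, conj_eq_one_iff] at hmem
    exact hh1 hmem
  have hmapN : ∀ a b : G, H.map (MulAut.conj a).toMonoidHom = H.map (MulAut.conj b).toMonoidHom →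
      a⁻¹ * b ∈ N := by
    intro a b h
    refine Subgroup.mem_normalizer_iff.mpr fun z => ?_
    have h1 : b * z * b⁻¹ ∈ H.map (MulAut.conj b).toMonoidHom ↔ z ∈ H :=
      Subgroup.mem_map_iff_mem (K := H) (f := (MulAut.conj b).toMonoidHom) (MulAut.conj b).injective
    have h2 : a * (a⁻¹ * b * z * (a⁻¹ * b)⁻¹) * a⁻¹ ∈ H.map (MulAut.conj a).toMonoidHom ↔
        a⁻¹ * b * z * (a⁻¹ * b)⁻¹ ∈ H :=
      Subgroup.mem_map_iff_mem (K := H) (f := (MulAut.conj a).toMonoidHom) (MulAut.conj a).injective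
    rw [← h1, ← h2, h, show a * (a⁻¹ * b * z * (a⁻¹ * b)⁻¹) * a⁻¹ = b * z * b⁻¹ by group]
  have hTN : ∀ g ∈ T, g ∈ N := by
    intro g hg
    obtain ⟨hgZ, h, hh, hh1, hc⟩ := (hmemT g).mp hg
    have hhZ : h ∉ Z := fun hz => hh1 ((Subgroup.eq_bot_iff_forall _).mp hZ h ⟨hh, hz⟩)
    have := hone h hhZ 1 g (hinter h 1 ⟨h, hh, hh1, by simpa using Commute.refl h⟩)
      (hinter h g ⟨h, hh, hh1, by
        rw [show g * h * g⁻¹ = h by rw [hc.eq, mul_inv_cancel_right]]⟩)
    simpa using hmapN 1 g this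
  -- mass outside the centre
  set S := ∑ g ∈ T, Complex.normSq (χ g)
  have hclass : ∀ g x : G, χ (x * g * x⁻¹) = χ g := fun g x => hχ.isClassFunction g x
  have hcount : (Nat.card G : ℝ) * S ≤
      (Nat.card N : ℝ) * ∑ g ∈ Finset.univ.filter (· ∉ Z), Complex.normSq (χ g) := by
    have h1 : (Nat.card G : ℝ) * S =
        ∑ x : G, ∑ g : G, if x⁻¹ * g * x ∈ T then Complex.normSq (χ g) else 0 := by
      rw [Finset.sum_congr rfl (g := fun _ => S) fun x _ => ?_, Finset.sum_const, Finset.card_univ,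
        nsmul_eq_mul, Nat.card_eq_fintype_card]
      rw [← Finset.sum_filter]
      refine Finset.sum_nbij' (fun g => x⁻¹ * g * x) (fun g => x * g * x⁻¹)
        (fun g hg => (Finset.mem_filter.mp hg).2) (fun g hg => Finset.mem_filter.mpr
          ⟨Finset.mem_univ _, by simpa [mul_assoc] using hg⟩) (fun g _ => by group) (fun g _ => by group)
        fun g _ => ?_
      rw [← hclass (x⁻¹ * g * x) x, show x * (x⁻¹ * g * x) * x⁻¹ = g by group]
    rw [h1, Finset.sum_comm, Finset.mul_sum, Finset.sum_filter]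
    refine Finset.sum_le_sum fun g _ => ?_
    rw [← Finset.sum_filter, Finset.sum_const, nsmul_eq_mul]
    by_cases hg : g ∈ Z
    · rw [if_neg (not_not.mpr hg), Finset.filter_false_of_mem]
      · simp
      · intro x _ hx
        obtain ⟨hnz, -⟩ := (hmemT _).mp hx
        apply hnz
        rw [show x⁻¹ * g * x = g by
          rw [mul_assoc, ← Subgroup.mem_center_iff.mp hg x, inv_mul_cancel_left]]
        exact hg
    · rw [if_pos hg]
      refine mul_le_mul_of_nonneg_right ?_ (Complex.normSq_nonneg _)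
      rcases (Finset.univ.filter fun x : G => x⁻¹ * g * x ∈ T).eq_empty_or_nonempty with he | ⟨x₀, hx₀⟩
      · rw [he]; simp
      · refine Nat.cast_le.mpr ?_
        rw [← Fintype.card_subtype, ← Nat.card_eq_fintype_card]
        have hI : ∀ x : G, x⁻¹ * g * x ∈ T →
            Subgroup.centralizer ({g} : Set G) ⊓ H.map (MulAut.conj x).toMonoidHom ≠ ⊥ := by
          intro x hx
          obtain ⟨-, h, hh, hh1, hc⟩ := (hmemT _).mp hx
          refine hinter g x ⟨h, hh, hh1, ?_⟩
          have := hc.map (MulAut.conj x).toMonoidHom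
          simpa [mul_assoc] using this
        refine Nat.card_le_card_of_injective (fun x : {x : G // x⁻¹ * g * x ∈ T} =>
          (⟨x₀⁻¹ * x.1, hmapN x₀ x.1 (hone g hg x₀ x.1 (hI x₀ (Finset.mem_filter.mp hx₀).2)
            (hI x.1 x.2))⟩ : N)) fun x y h => Subtype.ext (mul_left_cancel (congrArg Subtype.val h))
  have htot : ∑ g : G, Complex.normSq (χ g) = (Nat.card G : ℝ) := by
    have h1 := classInner_irr_self hχ
    rw [classInner, inv_mul_eq_iff_eq_mul₀ (Nat.cast_ne_zero.mpr Nat.card_pos.ne'), mul_one] at h1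
    simp only [Complex.mul_conj] at h1
    exact_mod_cast h1
  have hcen : ∀ z ∈ Z, Complex.normSq (χ z) = (d : ℝ) ^ 2 := fun z hz => by
    rw [← Complex.sq_norm, norm_eq_of_mem_center hχ hd hz]
  have hZsum : ∑ g ∈ Finset.univ.filter (· ∈ Z), Complex.normSq (χ g) =
      (Nat.card Z : ℝ) * (d : ℝ) ^ 2 := by
    rw [Finset.sum_congr rfl fun g hg => hcen g (Finset.mem_filter.mp hg).2, Finset.sum_const,
      ← Fintype.card_subtype, nsmul_eq_mul, ← Nat.card_eq_fintype_card]
  rw [← Finset.sum_filter_add_sum_filter_not Finset.univ (· ∈ Z), hZsum] at htot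
  -- mass inside the normaliser
  haveI : Fintype N := Fintype.ofFinite _
  haveI : (H.subgroupOf N).Normal := Subgroup.normal_in_normalizer
  haveI : Fintype (H.subgroupOf N) := Fintype.ofFinite _
  obtain ⟨h₀, hh₀, hne₀⟩ := hker
  obtain ⟨α, hα, hle⟩ := fixed_part (H.subgroupOf N) (r := fun n : N => χ n)
    (isCharacter_restrict hχ.isCharacter N)
    ⟨⟨h₀, hHN hh₀⟩, Subgroup.mem_subgroupOf.mpr hh₀, by simpa using hne₀⟩
  have hcH : Nat.card (H.subgroupOf N) = Nat.card H :=
    Nat.card_congr (Subgroup.subgroupOfEquivOfLe hHN).toEquiv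
  have hα' : ∀ n : N, (Nat.card H : ℂ) * α n = ∑ x : H, χ ((n : G) * x) := fun n => by
    rw [← hcH, hα]
    exact Fintype.sum_equiv (Subgroup.subgroupOfEquivOfLe hHN).toEquiv _ _ fun x => rfl
  let U : Finset N := Finset.univ.filter fun n : N => (n : G) ∈ Z ∨ (n : G) ∈ T
  have hout : ∀ n : N, n ∉ U → χ n = α n := by
    intro n hn
    simp only [U, Finset.mem_filter, Finset.mem_univ, true_and, not_or, hmemT] at hn
    push Not at hn
    obtain ⟨hnZ, hnT⟩ := hn
    let f : H → H := fun y => ⟨(n : G)⁻¹ * y * n * (y : G)⁻¹, H.mul_mem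
      ((Subgroup.mem_normalizer_iff''.mp n.2 _).mp y.2) (H.inv_mem y.2)⟩
    have hf : Function.Injective f := by
      intro y z hyz
      have he : (n : G)⁻¹ * y * n * (y : G)⁻¹ = (n : G)⁻¹ * z * n * (z : G)⁻¹ := congrArg Subtype.val hyz
      have hwm : ((z⁻¹ * y : H) : G) ∈ H := (z⁻¹ * y : H).2
      by_contra hne
      refine hnT hnZ _ hwm (fun h1 => hne ?_) ?_
      · have : (z⁻¹ * y : H) = 1 := Subtype.ext h1
        exact (inv_mul_eq_one.mp this).symm
      · show (n : G) * ((z⁻¹ * y : H) : G) = ((z⁻¹ * y : H) : G) * n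
        have hcomm : (y : G)⁻¹ * (z : G) = z * (y : G)⁻¹ :=
          hab _ (H.inv_mem y.2) _ z.2
        have e2 : (y : G) * n * ((y : G)⁻¹ * z) = z * n := by
          rw [hcomm]
          calc (y : G) * n * (z * (y : G)⁻¹) = (n : G) * ((n : G)⁻¹ * y * n * (z * (y : G)⁻¹)) := by
                group
            _ = (n : G) * ((n : G)⁻¹ * y * n * ((y : G)⁻¹ * z)) := by rw [hcomm]
            _ = (n : G) * (((n : G)⁻¹ * y * n * (y : G)⁻¹) * z) := by group
            _ = (n : G) * (((n : G)⁻¹ * z * n * (z : G)⁻¹) * z) := by rw [he]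
            _ = z * n := by group
        calc (n : G) * ((z⁻¹ * y : H) : G) = (z : G)⁻¹ * (z * n) * ((z : G)⁻¹ * y) := by
              rw [Subgroup.coe_mul, Subgroup.coe_inv]; group
          _ = (z : G)⁻¹ * (y * n * ((y : G)⁻¹ * z)) * ((z : G)⁻¹ * y) := by rw [e2]
          _ = ((z⁻¹ * y : H) : G) * n := by rw [Subgroup.coe_mul, Subgroup.coe_inv]; group
    have hsurj := Finite.surjective_of_injective hf
    have hconst : ∀ x : H, χ ((n : G) * x) = χ n := by
      intro x
      obtain ⟨y, rfl⟩ := hsurj x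
      rw [show (n : G) * (f y : G) = (y : G) * n * (y : G)⁻¹ by
        show (n : G) * ((n : G)⁻¹ * y * n * (y : G)⁻¹) = _
        group]
      exact hclass _ _
    have := hα' n
    rw [Finset.sum_congr rfl fun x _ => hconst x, Finset.sum_const, Finset.card_univ, nsmul_eq_mul,
      ← Nat.card_eq_fintype_card] at this
    exact (mul_left_cancel₀ (Nat.cast_ne_zero.mpr Nat.card_pos.ne') this).symm
  rw [← Finset.sum_sdiff (Finset.subset_univ U),
    ← Finset.sum_sdiff (f := fun n : N => Complex.normSq (χ n)) (Finset.subset_univ U),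
    Finset.sum_congr rfl (g := fun n : N => Complex.normSq (α n))
      (s₁ := Finset.univ \ U) (f := fun n : N => Complex.normSq (χ n))
      fun n hn => by rw [hout n (Finset.mem_sdiff.mp hn).2]] at hle
  have hUsum : ∑ n ∈ U, Complex.normSq (χ n) = (Nat.card Z : ℝ) * (d : ℝ) ^ 2 + S := by
    rw [← hZsum]
    have hdis : Disjoint (Finset.univ.filter (· ∈ Z)) T := Finset.disjoint_left.mpr
      fun g hg hg' => ((hmemT g).mp hg').1 (Finset.mem_filter.mp hg).2
    rw [← Finset.sum_union hdis]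
    refine Finset.sum_bij (fun n _ => (n : G)) (fun n hn => ?_) (fun a _ b _ h => Subtype.ext h)
      (fun g hg => ?_) fun n _ => rfl
    · simpa [U] using hn
    · simp only [Finset.mem_union, Finset.mem_filter, Finset.mem_univ, true_and] at hg
      refine ⟨⟨g, hg.elim (fun h => ?_) (hTN g)⟩, by simpa [U] using hg, rfl⟩
      refine Subgroup.mem_normalizer_iff.mpr fun z => ?_
      rw [← Subgroup.mem_center_iff.mp h z, mul_inv_cancel_right]
  -- the part of `H Z`
  set c := classInner (fun h : H => χ h) (fun _ => 1) with hc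
  obtain ⟨cn, hcn⟩ : ∃ k : ℕ, c = k :=
    classInner_nat (isCharacter_restrict hχ.isCharacter H) isCharacter_one
  have hzN : ∀ p : H × Z, (p.1 : G) * p.2 ∈ N := fun p =>
    N.mul_mem (hHN p.1.2) (Subgroup.mem_normalizer_iff.mpr fun z => by
      rw [← Subgroup.mem_center_iff.mp p.2.2 z, mul_inv_cancel_right])
  let emb : H × Z → N := fun p => ⟨(p.1 : G) * p.2, hzN p⟩
  have hemb : Function.Injective emb := by
    rintro ⟨a, z⟩ ⟨b, w⟩ h
    have e : (a : G) * z = b * w := congrArg Subtype.val h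
    have hab' : (b : G)⁻¹ * a = w * (z : G)⁻¹ := by
      rw [inv_mul_eq_iff_eq_mul, ← mul_assoc, ← e, mul_inv_cancel_right]
    have h1 := (Subgroup.eq_bot_iff_forall _).mp hZ _
      ⟨H.mul_mem (H.inv_mem b.2) a.2, hab' ▸ Z.mul_mem w.2 (Z.inv_mem z.2)⟩
    have ha : (a : G) = b := (inv_mul_eq_one.mp h1).symm
    rw [ha, mul_right_inj] at e
    exact Prod.ext (Subtype.ext ha) (Subtype.ext e)
  have hZv : ∀ p : H × Z, Complex.normSq (α (emb p)) = (cn : ℝ) ^ 2 := by
    rintro ⟨a, z⟩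
    obtain ⟨e, ρ, hρ, hρχ⟩ := id hχ
    haveI := hρ
    obtain ⟨w, hw⟩ := schur_scalar ρ (ρ (z : G)) fun x => by
      rw [← map_mul, ← map_mul, Subgroup.mem_center_iff.mp z.2 x]
    have hscal : ∀ x, χ ((z : G) * x) = w * χ x := fun x => by
      rw [← hρχ]
      show LinearMap.trace ℂ _ (ρ ((z : G) * x)) = w * LinearMap.trace ℂ _ (ρ x)
      rw [map_mul, hw, show (w • LinearMap.id : Module.End ℂ (Fin e → ℂ)) * ρ x = w • ρ x from by
        ext v; simp [Module.End.mul_eq_comp], map_smul, smul_eq_mul]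
    have hwn : Complex.normSq w = 1 := by
      have := hcen z z.2
      rw [← mul_one (z : G), hscal, hd, map_mul, Complex.normSq_natCast, sq] at this
      exact mul_right_cancel₀ (mul_ne_zero (Nat.cast_ne_zero.mpr hd0.ne')
        (Nat.cast_ne_zero.mpr hd0.ne')) (this.trans (one_mul _).symm)
    have := hα' (emb (a, z))
    rw [Finset.sum_congr rfl (g := fun x : H => w * χ ((a * x : H) : G)) fun x _ => by
      rw [← hscal]; refine congrArg χ ?_
      show (a : G) * z * x = z * (a * x)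
      rw [Subgroup.mem_center_iff.mp z.2 a, mul_assoc], ← Finset.mul_sum,
      Fintype.sum_equiv (Equiv.mulLeft a) (fun x : H => χ ((a * x : H) : G)) (fun x : H => χ x)
        fun x => rfl] at this
    have hS : ∑ x : H, χ x = (Nat.card H : ℂ) * cn := by
      rw [← hcn, hc, classInner, ← mul_assoc, mul_inv_cancel₀ (Nat.cast_ne_zero.mpr Nat.card_pos.ne'),
        one_mul]
      simp
    rw [hS, ← mul_assoc, mul_comm w, mul_assoc] at this
    rw [mul_left_cancel₀ (Nat.cast_ne_zero.mpr Nat.card_pos.ne') this, map_mul, hwn,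
      Complex.normSq_natCast, one_mul, sq]
  have hUlow : (Nat.card H : ℝ) * Nat.card Z * (cn : ℝ) ^ 2 ≤ ∑ n ∈ U, Complex.normSq (α n) := by
    have hsub : Finset.univ.image emb ⊆ U := by
      intro n hn
      obtain ⟨⟨a, z⟩, -, rfl⟩ := Finset.mem_image.mp hn
      simp only [U, Finset.mem_filter, Finset.mem_univ, true_and, hmemT]
      by_cases hz : (a : G) * z ∈ Z
      · exact Or.inl hz
      · refine Or.inr ⟨hz, a, a.2, fun h1 => hz (by rw [h1, one_mul]; exact z.2), ?_⟩
        exact (Commute.refl (a : G)).mul_left ((Subgroup.mem_center_iff.mp z.2 _).symm)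
    refine le_trans (le_of_eq ?_) (Finset.sum_le_sum_of_subset_of_nonneg hsub
      fun n _ _ => Complex.normSq_nonneg _)
    rw [Finset.sum_image hemb.injOn, Finset.sum_congr rfl fun p _ => hZv p, Finset.sum_const,
      Finset.card_univ, Fintype.card_prod, nsmul_eq_mul, Nat.card_eq_fintype_card,
      Nat.card_eq_fintype_card]
    push_cast
    ring
  rw [hcn, Complex.natCast_re]
  rw [hUsum] at hle
  have hpos : (0 : ℝ) < Nat.card Z := by exact_mod_cast Nat.card_pos
  have hG : (0 : ℝ) < Nat.card G := by exact_mod_cast Nat.card_pos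
  have hN0 : (0 : ℝ) < Nat.card N := by exact_mod_cast Nat.card_pos
  have hd2 : (0 : ℝ) < (d : ℝ) ^ 2 := by positivity
  have h6 : (Nat.card H : ℝ) * Nat.card Z * (cn : ℝ) ^ 2 + Nat.card N ≤
      (Nat.card Z : ℝ) * (d : ℝ) ^ 2 + S := by linarith
  set M := ∑ g ∈ Finset.univ.filter (· ∉ Z), Complex.normSq (χ g)
  have hM : M = (Nat.card G : ℝ) - (Nat.card Z : ℝ) * (d : ℝ) ^ 2 := by linarith
  rw [hM] at hcount
  have h7 : (Nat.card G : ℝ) * ((Nat.card H : ℝ) * Nat.card Z * (cn : ℝ) ^ 2) ≤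
      (Nat.card Z : ℝ) * (d : ℝ) ^ 2 * ((Nat.card G : ℝ) - Nat.card N) := by
    nlinarith [mul_le_mul_of_nonneg_left h6 hG.le, hcount]
  by_contra hcon
  push Not at hcon
  have h8 : (Nat.card Z : ℝ) * (Nat.card G : ℝ) * (d : ℝ) ^ 2 ≤
      (Nat.card Z : ℝ) * (Nat.card G : ℝ) * ((Nat.card H : ℝ) * (cn : ℝ) ^ 2) :=
    mul_le_mul_of_nonneg_left hcon (by positivity)
  nlinarith [h7, h8, mul_pos (mul_pos hpos hd2) hN0]

/-- Let H be an abelian subgroup of the finite group G meeting the centre of G trivially, such that for every non-central g the centralizer of g has nontrivial intersection with at most one conjugate of H. Let χ be an irreducible character of G with χ h ≠ χ 1 for some h in H, and let c be the inner product of the restriction of χ to H with the principal character. Then χ(1)² > (order of H)·c²; and if in addition χ 1 ≠ 1 and no proper normal subgroup of G contains H, then (1 + χ 1)² > order of H (both sides read as real numbers). -/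
theorem result {G : Type*} [Group G] [Fintype G] (H : Subgroup G) [Fintype H] (hab : ∀ a ∈ H, ∀ b ∈ H, a * b = b * a) (hZ : H ⊓ Subgroup.center G = ⊥) (hone : ∀ g : G, g ∉ Subgroup.center G → ∀ a b : G, Subgroup.centralizer ({g} : Set G) ⊓ H.map (MulAut.conj a).toMonoidHom ≠ ⊥ → Subgroup.centralizer ({g} : Set G) ⊓ H.map (MulAut.conj b).toMonoidHom ≠ ⊥ → H.map (MulAut.conj a).toMonoidHom = H.map (MulAut.conj b).toMonoidHom) (χ : G → ℂ) (hχ : Cfsg.IsIrrCharacter G χ) (hker : ∃ h ∈ H, χ h ≠ χ 1) : (χ 1).re ^ 2 > (Nat.card H : ℝ) * (Cfsg.classInner (fun h : H => χ h) (fun _ => 1)).re ^ 2 ∧ (χ 1 ≠ 1 → (∀ M : Subgroup G, M.Normal → H ≤ M → M = ⊤) → (1 + (χ 1).re) ^ 2 > (Nat.card H : ℝ)) := by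
  classical
  refine ⟨key H hab hZ hone χ hχ hker, fun hd1 hgen => ?_⟩
  obtain ⟨d, hd0, hd⟩ := hχ.exists_degree_pos
  have hd2 : 2 ≤ d := by
    by_contra h
    exact hd1 (by rw [hd, show d = 1 by omega, Nat.cast_one])
  rw [hd, Complex.natCast_re]
  set χ₂ : G → ℂ := χ * fun g => conj (χ g)
  have hχ₂ : IsCharacter G χ₂ := isCharacter_mul hχ.isCharacter (isCharacter_conj hχ.isCharacter)
  obtain ⟨m, hm⟩ := exists_decomposition hχ₂
  let ψ₁ : IrrCharacter G := ⟨fun _ => 1, isIrrCharacter_one⟩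
  have hm1 : m ψ₁ = 1 := by
    have h := classInner_sum_irr (fun ψ => (m ψ : ℂ)) ψ₁
    rw [← hm] at h
    have h2 : classInner χ₂ ψ₁.1 = classInner χ χ := by
      simp [classInner, χ₂, ψ₁]
    rw [h2, classInner_irr_self hχ] at h
    exact_mod_cast h.symm
  choose c hc using fun ψ : IrrCharacter G =>
    classInner_nat (isCharacter_restrict ψ.2.isCharacter H) (isCharacter_one (G := H))
  choose e he using fun ψ : IrrCharacter G => exists_degree ψ.2.isCharacter
  set s := Real.sqrt (Nat.card H : ℝ)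
  have hs : s * s = Nat.card H := Real.mul_self_sqrt (Nat.cast_nonneg _)
  have hlt : ∀ ψ : IrrCharacter G, ψ ≠ ψ₁ → s * (c ψ : ℝ) < (e ψ : ℝ) := by
    intro ψ hne
    have hkerψ : ∃ h ∈ H, ψ.1 h ≠ ψ.1 1 := by
      by_contra hcon
      push Not at hcon
      haveI := charKer_normal ψ.2.isCharacter
      have htop := hgen (charKer ψ.2.isCharacter) inferInstance
        fun h hh => (mem_charKer _).mpr (hcon h hh)
      have hconst : ∀ g, ψ.1 g = ψ.1 1 := fun g =>
        (mem_charKer _).mp (htop ▸ Subgroup.mem_top g)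
      have h0 := classInner_irr_ne ψ.2 ψ₁.2 fun h => hne (Subtype.ext h)
      refine ψ.2.one_ne_zero ?_
      simpa [classInner, ψ₁, hconst] using h0
    have h := key H hab hZ hone ψ.1 ψ.2 hkerψ
    rw [hc, he, Complex.natCast_re, Complex.natCast_re] at h
    refine lt_of_pow_lt_pow_left₀ 2 (Nat.cast_nonneg _) ?_
    rw [mul_pow, sq s, hs]
    exact h
  have hdeg : ∑ ψ, (m ψ : ℝ) * e ψ = (d : ℝ) ^ 2 := by
    have h := congrFun hm 1
    simp only [χ₂, Pi.mul_apply, Finset.sum_apply, Pi.smul_apply, smul_eq_mul, hd, he,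
      map_natCast] at h
    rw [sq]
    exact_mod_cast h.symm
  have hres : ∑ ψ, (m ψ : ℝ) * c ψ ≥ d := by
    obtain ⟨k, hk⟩ := exists_decomposition (isCharacter_restrict hχ.isCharacter H)
    have h1 : classInner (fun h : H => χ₂ h) (fun _ => 1) =
        classInner (fun h : H => χ h) (fun h : H => χ h) := by simp [classInner, χ₂]
    have h2 : classInner (fun h : H => χ₂ h) (fun _ => 1) = ∑ ψ, (m ψ : ℂ) * c ψ := by
      rw [show (fun h : H => χ₂ h) = ∑ ψ, (m ψ : ℂ) • fun h : H => (ψ : G → ℂ) h by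
        funext h; rw [hm]; simp [Finset.sum_apply], classInner_sum_left]
      exact Finset.sum_congr rfl fun ψ _ => by rw [classInner_smul_left, hc]
    have h3 : classInner (fun h : H => χ h) (fun h : H => χ h) =
        ∑ l : IrrCharacter H, (k l : ℂ) ^ 2 := by
      rw [hk, classInner_sum_right]
      exact Finset.sum_congr rfl fun l _ => by
        rw [classInner_smul_right, classInner_sum_irr, map_natCast, sq]
    haveI : IsMulCommutative H := ⟨⟨fun a b => Subtype.ext (hab a a.2 b b.2)⟩⟩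
    have hd' : d = ∑ l : IrrCharacter H, k l := by
      have h := congrFun hk 1
      simp only [Finset.sum_apply, Pi.smul_apply, smul_eq_mul, OneMemClass.coe_one, hd] at h
      rw [Finset.sum_congr rfl fun (l : IrrCharacter H) _ => by
        rw [degree_one_of_isMulCommutative l.2, mul_one]] at h
      exact_mod_cast h
    have hsum : ∑ ψ, m ψ * c ψ = ∑ l : IrrCharacter H, k l ^ 2 := by
      exact_mod_cast (h2.symm.trans h1).trans h3
    have hge : d ≤ ∑ ψ, m ψ * c ψ := by
      rw [hsum, hd']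
      exact Finset.sum_le_sum fun l _ => Nat.le_self_pow two_ne_zero _
    exact_mod_cast hge
  have h1c : c ψ₁ = 1 := by
    have h : classInner (fun h : H => ψ₁.1 h) (fun _ => 1) = 1 := classInner_irr_self isIrrCharacter_one
    exact_mod_cast (hc ψ₁).symm.trans h
  have h1e : e ψ₁ = 1 := by
    have h : ψ₁.1 1 = 1 := rfl
    exact_mod_cast (he ψ₁).symm.trans h
  rw [← Finset.add_sum_erase _ _ (Finset.mem_univ ψ₁), hm1, h1e] at hdeg
  rw [← Finset.add_sum_erase _ _ (Finset.mem_univ ψ₁), hm1, h1c] at hres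
  simp only [Nat.cast_one, mul_one] at hdeg hres
  set A := ∑ x ∈ Finset.univ.erase ψ₁, (m x : ℝ) * e x
  set B := ∑ x ∈ Finset.univ.erase ψ₁, (m x : ℝ) * c x with hB
  have hd2' : (2 : ℝ) ≤ d := by exact_mod_cast hd2
  obtain ⟨x₀, hx₀, hm₀⟩ : ∃ x ∈ Finset.univ.erase ψ₁, m x ≠ 0 := by
    by_contra hcon
    push Not at hcon
    have : B = 0 := Finset.sum_eq_zero fun x hx => by rw [hcon x hx, Nat.cast_zero, zero_mul]
    linarith
  have hlt' : s * B < A := by
    rw [hB, Finset.mul_sum]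
    refine Finset.sum_lt_sum (fun x hx => ?_) ⟨x₀, hx₀, ?_⟩
    · rw [mul_left_comm]
      exact mul_le_mul_of_nonneg_left (hlt x (Finset.mem_erase.mp hx).1).le (Nat.cast_nonneg _)
    · rw [mul_left_comm]
      exact mul_lt_mul_of_pos_left (hlt x₀ (Finset.mem_erase.mp hx₀).1)
        (by exact_mod_cast Nat.pos_of_ne_zero hm₀)
  have hs0 : 0 ≤ s := Real.sqrt_nonneg _
  have hsd : s < 1 + (d : ℝ) := by nlinarith [mul_le_mul_of_nonneg_left hres hs0]
  rw [← hs, sq]
  exact mul_self_lt_mul_self hs0 hsd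

end Cfsg.Agent.S0898
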