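import Cfsg.Statements.S0900
import Mathlib
import Cfsg.Agent.Lib.Characters.Gallagher

set_option autoImplicit false
open Cfsg Cfsg.Lib.Characters
open scoped ComplexConjugate

namespace Cfsg.Agent.S0900


/-- Let N be a normal subgroup of the finite group G, χ an irreducible character of G and ϑ an irreducible character of N having nonzero inner product with the restriction of χ. Consider: (a) the restriction of χ to N is e • ϑ for a natural number e with e ^ 2 equal to the index of N; (b) χ vanishes outside N and ϑ is invariant under conjugation by G; (c) ϑ is invariant and every irreducible character of G having nonzero inner product with the function induced from ϑ equals χ. Then (a) ↔ (b) and (a) ↔ (c). -/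
theorem result {G : Type*} [Group G] [Fintype G] (N : Subgroup G) [hN : N.Normal] [Fintype N] (χ : G → ℂ) (hχ : Cfsg.IsIrrCharacter G χ) (ϑ : N → ℂ) (hϑ : Cfsg.IsIrrCharacter N ϑ) (hcon : Cfsg.classInner (fun n : N => χ n) ϑ ≠ 0) : ((∃ e : ℕ, (fun n : N => χ n) = (e : ℂ) • ϑ ∧ e ^ 2 = N.index) ↔ ((∀ g : G, g ∉ N → χ g = 0) ∧ ∀ (g : G) (n : N), ϑ ⟨g * n * g⁻¹, hN.conj_mem (n : G) n.2 g⟩ = ϑ n)) ∧ ((∃ e : ℕ, (fun n : N => χ n) = (e : ℂ) • ϑ ∧ e ^ 2 = N.index) ↔ (∀ (g : G) (n : N), ϑ ⟨g * n * g⁻¹, hN.conj_mem (n : G) n.2 g⟩ = ϑ n ∧ ∀ ψ : G → ℂ, Cfsg.IsIrrCharacter G ψ → Cfsg.classInner (Cfsg.indFun N ϑ) ψ ≠ 0 → ψ = χ)) := by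
  classical
  have hinv_iff : (∀ (g : G) (n : N), ϑ ⟨g * n * g⁻¹, hN.conj_mem (n : G) n.2 g⟩ = ϑ n) ↔
      ∀ g, conjFn N ϑ g = ϑ := by
    refine ⟨fun h g => funext fun n => ?_, fun h g n => ?_⟩
    · first
        | exact h g n
        | (rw [conjFn_apply]; convert h g n using 2)
        | (rw [conjFn_apply]; convert h g⁻¹ n using 3; simp)
    · first
        | exact congr_fun (h g) n
        | (have h' := congr_fun (h g⁻¹) n; rw [conjFn_apply] at h'; convert h' using 3; simp)
  have hres := isCharacter_restrict hχ.isCharacter N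
  obtain ⟨e, he⟩ := classInner_nat hres hϑ.isCharacter
  -- invariance gives a single constituent
  have hsingle : (∀ g, conjFn N ϑ g = ϑ) → (fun n : N => χ n) = (e : ℂ) • ϑ := by
    intro h
    rw [clifford hχ hϑ hcon, he]
    congr 1
    have : orbitFinset N ϑ = {ϑ} := Finset.eq_singleton_iff_unique_mem.mpr
      ⟨mem_orbitFinset.mpr ⟨1, (conjFn_one ϑ).symm⟩, fun ψ hψ => by
        obtain ⟨g, rfl⟩ := mem_orbitFinset.mp hψ
        exact h g⟩
    rw [this, Finset.sum_singleton]
  have huniq : ∀ e' : ℕ, (fun n : N => χ n) = (e' : ℂ) • ϑ →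
      e' = e ∧ ∀ g, conjFn N ϑ g = ϑ := by
    intro e' h
    have h1 : classInner (fun n : N => χ n) ϑ = e' := by
      rw [h, classInner_smul_left, classInner_irr_self hϑ, mul_one]
    rw [he] at h1
    refine ⟨(Nat.cast_inj.mp h1).symm, fun g => ?_⟩
    have h2 := classInner_res_conjFn hχ.isClassFunction ϑ g
    rw [h, classInner_smul_left, classInner_smul_left, classInner_irr_self hϑ, mul_one] at h2
    by_contra hne
    rw [classInner_irr_ne hϑ (isIrrCharacter_conjFn hϑ g) (Ne.symm hne), mul_zero, eq_comm] at h2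
    refine hcon ?_
    rw [h, classInner_smul_left, h2, zero_mul]
  have hself := classInner_irr_self hχ
  rw [classInner, inv_mul_eq_div, div_eq_one_iff_eq (Nat.cast_ne_zero.mpr Nat.card_pos.ne')] at hself
  have hsplit : (fun n : N => χ n) = (e : ℂ) • ϑ →
      (Nat.card G : ℂ) = (Nat.card N : ℂ) * (e : ℂ) ^ 2 +
        ∑ g ∈ Finset.univ.filter (fun g => g ∉ N), χ g * conj (χ g) := by
    intro h
    rw [← hself, ← Finset.sum_filter_add_sum_filter_not Finset.univ (fun g => g ∈ N)]
    congr 1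
    have hϑ1 := classInner_irr_self hϑ
    rw [classInner, inv_mul_eq_div, div_eq_one_iff_eq (Nat.cast_ne_zero.mpr Nat.card_pos.ne')] at hϑ1
    rw [Finset.sum_subtype (p := fun g => g ∈ N) _ (fun g => by simp), ← hϑ1, Finset.sum_mul]
    refine Finset.sum_congr rfl fun n _ => ?_
    have hn := congr_fun h n
    simp only [Pi.smul_apply, smul_eq_mul] at hn
    rw [hn, map_mul, map_natCast]
    ring
  have hab : (∃ e' : ℕ, (fun n : N => χ n) = (e' : ℂ) • ϑ ∧ e' ^ 2 = N.index) ↔
      ((∀ g : G, g ∉ N → χ g = 0) ∧ ∀ g, conjFn N ϑ g = ϑ) := by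
    constructor
    · rintro ⟨e', he', he2⟩
      obtain ⟨rfl, hinv⟩ := huniq e' he'
      refine ⟨fun g hg => ?_, hinv⟩
      have h := hsplit he'
      rw [← Nat.cast_pow, he2, ← Nat.cast_mul, Subgroup.card_mul_index, left_eq_add] at h
      have h' := congrArg Complex.re h
      simp only [Complex.re_sum, Complex.mul_conj, Complex.ofReal_re, Complex.zero_re] at h'
      exact Complex.normSq_eq_zero.mp ((Finset.sum_eq_zero_iff_of_nonneg
        fun g _ => Complex.normSq_nonneg _).mp h' g (Finset.mem_filter.mpr ⟨Finset.mem_univ _, hg⟩))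
    · rintro ⟨hv, hinv⟩
      refine ⟨e, hsingle hinv, ?_⟩
      have h := hsplit (hsingle hinv)
      rw [Finset.sum_eq_zero (fun g hg => by rw [hv g (Finset.mem_filter.mp hg).2, zero_mul]),
        add_zero, ← Nat.cast_pow, ← Nat.cast_mul, Nat.cast_inj, ← Subgroup.card_mul_index N] at h
      exact (Nat.eq_of_mul_eq_mul_left Nat.card_pos h).symm
  simp only [hinv_iff]
  refine ⟨hab, ?_⟩
  have hind : IsCharacter G (indFun N ϑ) := isCharacter_indFun N hϑ.isCharacter
  obtain ⟨c, hc⟩ := exists_decomposition hind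
  have hcχ : c ⟨χ, hχ⟩ = e := by
    have h1 := classInner_indFun N ϑ hχ.isClassFunction
    rw [hc, ← conj_classInner (fun n : N => χ n) ϑ, he, map_natCast] at h1
    exact Nat.cast_inj.mp ((classInner_sum_irr (fun ψ => (c ψ : ℂ)) ⟨χ, hχ⟩).symm.trans h1)
  have hsum : (∀ g, conjFn N ϑ g = ϑ) → ∑ ψ, c ψ ^ 2 = N.index := by
    intro hinv
    have h1 := classInner_indFun_self_of_invariant hϑ hinv
    rw [hc, classInner_sum_right] at h1
    simp only [classInner_smul_right, classInner_sum_irr, map_natCast] at h1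
    simp only [sq]
    exact_mod_cast h1
  constructor
  · rintro ⟨e', he', he2⟩
    obtain ⟨rfl, hinv⟩ := huniq e' he'
    have hs := hsum hinv
    rw [← Finset.add_sum_erase _ _ (Finset.mem_univ (⟨χ, hχ⟩ : IrrCharacter G)), hcχ, he2] at hs
    have hz : ∑ ψ ∈ Finset.univ.erase (⟨χ, hχ⟩ : IrrCharacter G), c ψ ^ 2 = 0 := by omega
    refine fun g n => ⟨(hinv_iff.mpr hinv) g n, fun ψ hψ hne => by_contra fun hψχ => hne ?_⟩
    have hcψ : c ⟨ψ, hψ⟩ = 0 := by
      have h2 := Finset.sum_eq_zero_iff.mp hz ⟨ψ, hψ⟩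
        (Finset.mem_erase.mpr ⟨fun e => hψχ (congrArg Subtype.val e), Finset.mem_univ _⟩)
      exact (pow_eq_zero_iff two_ne_zero).mp h2
    rw [hc]
    exact (classInner_sum_irr (fun ψ => (c ψ : ℂ)) ⟨ψ, hψ⟩).trans (by simp [hcψ])
  · intro h
    have hinv : ∀ g, conjFn N ϑ g = ϑ := hinv_iff.mp fun g n => (h g n).1
    refine ⟨e, hsingle hinv, ?_⟩
    have hs := hsum hinv
    rw [Finset.sum_eq_single (⟨χ, hχ⟩ : IrrCharacter G) (fun ψ _ hψ => ?_)
      (fun hn => absurd (Finset.mem_univ _) hn), hcχ] at hs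
    · exact hs
    · by_contra hne
      refine hψ (Subtype.ext ((h 1 1).2 ψ ψ.2 ?_))
      rw [hc, classInner_sum_irr (fun ψ => (c ψ : ℂ)) ψ]
      exact Nat.cast_ne_zero.mpr fun h0 => hne (by simp [h0])

end Cfsg.Agent.S0900
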