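import Cfsg.Statements.S0901
import Mathlib
import Cfsg.Agent.Lib.Blocks.Modular

set_option autoImplicit false
open Cfsg

namespace Cfsg.Agent.S0901

/-- Let M be a maximal ideal of the ring of algebraic integers containing the prime p, and let U be the set of complex roots of unity of order prime to p. Then reduction modulo M is injective on U, and every algebraic integer not in M is congruent modulo M to an element of U (so U maps bijectively onto the nonzero residues). -/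
theorem result (p : ℕ) [Fact p.Prime] (M : Ideal Cfsg.AlgInt) (hM : Cfsg.IsPModular p M) : (∀ ε₁ ε₂ : Cfsg.AlgInt, (∃ m : ℕ, ¬ p ∣ m ∧ (ε₁ : ℂ) ^ m = 1) → (∃ m : ℕ, ¬ p ∣ m ∧ (ε₂ : ℂ) ^ m = 1) → ε₁ - ε₂ ∈ M → ε₁ = ε₂) ∧ (∀ a : Cfsg.AlgInt, a ∉ M → ∃ ε : Cfsg.AlgInt, (∃ m : ℕ, ¬ p ∣ m ∧ (ε : ℂ) ^ m = 1) ∧ a - ε ∈ M) := by
  haveI := hM.2.1
  haveI := hM.2.1.isPrime
  have hp := hM.1
  refine ⟨?_, ?_⟩
  · rintro ε₁ ε₂ ⟨m, hm, h1⟩ ⟨n, hn, h2⟩ hd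
    have hmn : ¬ p ∣ m * n := fun h => (hp.dvd_mul.mp h).elim hm hn
    have hred : Cfsg.Lib.Blocks.red M (ε₁ : ℂ) = Cfsg.Lib.Blocks.red M (ε₂ : ℂ) := by
      have h3 := (Cfsg.Lib.Blocks.algInt_mem_iff _).mp hd
      rw [Subalgebra.coe_sub, Cfsg.Lib.Blocks.red_sub (Cfsg.Lib.Blocks.isIntegral_mem_locRing M ε₁.2)
        (Cfsg.Lib.Blocks.isIntegral_mem_locRing M ε₂.2), sub_eq_zero] at h3
      exact h3
    exact Subtype.ext (Cfsg.Lib.Blocks.red_root_inj hM hmn (by rw [pow_mul, h1, one_pow])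
      (by rw [mul_comm, pow_mul, h2, one_pow]) hred)
  · intro a ha
    obtain ⟨m, ε, hm, hε, hred⟩ := Cfsg.Lib.Blocks.exists_root_red_eq hM a.2
      (fun h => ha ((Cfsg.Lib.Blocks.algInt_mem_iff a).mpr h))
    have hεi := Cfsg.Lib.Blocks.isIntegral_root_of_unity
      (m := m) (Nat.pos_of_ne_zero fun h => hm (h ▸ dvd_zero p)) hε
    refine ⟨⟨ε, hεi⟩, ⟨m, hm, hε⟩, (Cfsg.Lib.Blocks.algInt_mem_iff _).mpr ?_⟩
    rw [Subalgebra.coe_sub, Cfsg.Lib.Blocks.red_sub (Cfsg.Lib.Blocks.isIntegral_mem_locRing M a.2)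
      (Cfsg.Lib.Blocks.isIntegral_mem_locRing M hεi), hred, sub_self]

end Cfsg.Agent.S0901
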