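import Cfsg.Statements.S0902
import Mathlib
import Cfsg.Agent.Lib.Blocks.Heights
import Cfsg.Agent.Lib.Blocks.RegInner

set_option autoImplicit false
open Cfsg

namespace Cfsg.Agent.S0902

/-- If two irreducible characters of a finite group lie in the same block relative to one maximal ideal M of the algebraic integers containing the prime p, then at every element the difference of their central characters is an algebraic integer lying in every maximal ideal containing p; in particular they lie in the same block relative to any such ideal. -/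
theorem result {G : Type*} [Group G] [Finite G] (p : ℕ) [Fact p.Prime] (M : Ideal Cfsg.AlgInt) (hM : Cfsg.IsPModular p M) (χ ψ : Cfsg.IrrCharacter G) (h : Cfsg.SameBlock M (χ : G → ℂ) (ψ : G → ℂ)) (M' : Ideal Cfsg.AlgInt) (hM' : Cfsg.IsPModular p M') (g : G) : ∃ r : Cfsg.AlgInt, r ∈ M' ∧ (r : ℂ) = Cfsg.centralChar (χ : G → ℂ) g - Cfsg.centralChar (ψ : G → ℂ) g := by
  haveI := hM.2.1.isPrime
  haveI := hM'.2.1.isPrime
  classical
  haveI := Fintype.ofFinite G
  open Cfsg.Lib.Blocks in
  · obtain ⟨χ₀, hχ₀, hmin⟩ := exists_height_zero p (B := blockOf M (χ : G → ℂ)) ⟨χ, mem_blockOf_self M χ⟩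
    have h0 := (blockHeight_eq_zero_iff p hχ₀).mpr hmin
    have hB : IsPBlock M (blockOf M (χ : G → ℂ)) := ⟨χ, rfl⟩
    have key : ∀ φ ∈ blockOf M (χ : G → ℂ), SameBlock M' (χ₀ : G → ℂ) (φ : G → ℂ) := by
      intro φ hφ
      by_contra hs
      have h1 := regInner_eq_zero hM' hs
      rw [regN_spec] at h1
      exact mul_ne_zero ordCompl_ne_zero (Int.cast_ne_zero.mpr
        ((regN_valuation hM hB hχ₀ hφ).2.mp h0).1) h1
    have hs : SameBlock M' (χ : G → ℂ) (ψ : G → ℂ) :=
      sameBlock_trans M' (sameBlock_symm M' (key χ (mem_blockOf_self M χ))) (key ψ h)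
    obtain ⟨a, b, ha, hb, hab⟩ := hs g
    refine ⟨⟨_, (centralChar_isIntegral χ g).sub (centralChar_isIntegral ψ g)⟩, ?_, rfl⟩
    refine (hM'.2.1.isPrime.mem_or_mem ?_).resolve_right hb
    have hb0 : ((b : Cfsg.AlgInt) : ℂ) ≠ 0 := algInt_coe_ne_zero _ hb
    convert ha using 1
    refine Subtype.ext ?_
    show (centralChar (χ : G → ℂ) g - centralChar (ψ : G → ℂ) g) * ((b : Cfsg.AlgInt) : ℂ) = (a : ℂ)
    rw [← hab, div_mul_cancel₀ _ hb0]

end Cfsg.Agent.S0902
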