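import Cfsg.Statements.S0903
import Mathlib
import Cfsg.Agent.Lib.Blocks.Kernel

set_option autoImplicit false
open Cfsg

namespace Cfsg.Agent.S0903

/-- Let P be a p-subgroup of the finite group G, let c centralize P and let g, h ∈ G. The number of pairs (x, y) with x conjugate to g, y conjugate to h and x * y = c is congruent modulo p to the number of such pairs in which x and y both centralize P. (This is why the Brauer map on class sums is multiplicative.) -/
theorem result {G : Type*} [Group G] [Finite G] (p : ℕ) [Fact p.Prime] (P : Subgroup G) (hP : IsPGroup p P) (c : G) (hc : c ∈ Subgroup.centralizer (P : Set G)) (g h : G) : Nat.card {xy : G × G // IsConj g xy.1 ∧ IsConj h xy.2 ∧ xy.1 * xy.2 = c} ≡ Nat.card {xy : G × G // IsConj g xy.1 ∧ IsConj h xy.2 ∧ xy.1 * xy.2 = c ∧ xy.1 ∈ Subgroup.centralizer (P : Set G) ∧ xy.2 ∈ Subgroup.centralizer (P : Set G)} [MOD p] := by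
  haveI := Fintype.ofFinite G
  classical
  let X := {xy : G × G // IsConj g xy.1 ∧ IsConj h xy.2 ∧ xy.1 * xy.2 = c}
  have hcP : ∀ q ∈ P, q * c = c * q := fun q hq => Subgroup.mem_centralizer_iff.mp hc q hq
  letI : MulAction P X :=
    { smul := fun q v => ⟨((q : G) * v.1.1 * (q : G)⁻¹, (q : G) * v.1.2 * (q : G)⁻¹),
        v.2.1.trans (isConj_iff.mpr ⟨q, rfl⟩), v.2.2.1.trans (isConj_iff.mpr ⟨q, rfl⟩), by
        calc (q : G) * v.1.1 * (q : G)⁻¹ * ((q : G) * v.1.2 * (q : G)⁻¹)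
            = (q : G) * (v.1.1 * v.1.2) * (q : G)⁻¹ := by group
          _ = c := by rw [v.2.2.2, hcP q q.2, mul_inv_cancel_right]⟩
      one_smul := fun v => Subtype.ext (Prod.ext
        (show ((1 : P) : G) * v.1.1 * ((1 : P) : G)⁻¹ = v.1.1 by simp)
        (show ((1 : P) : G) * v.1.2 * ((1 : P) : G)⁻¹ = v.1.2 by simp))
      mul_smul := fun q r v => Subtype.ext (Prod.ext
        (show ((q * r : P) : G) * v.1.1 * ((q * r : P) : G)⁻¹
            = (q : G) * ((r : G) * v.1.1 * (r : G)⁻¹) * (q : G)⁻¹ by simp [mul_assoc])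
        (show ((q * r : P) : G) * v.1.2 * ((q * r : P) : G)⁻¹
            = (q : G) * ((r : G) * v.1.2 * (r : G)⁻¹) * (q : G)⁻¹ by simp [mul_assoc])) }
  rw [Nat.ModEq, hP.card_modEq_card_fixedPoints X]
  congr 1
  refine Nat.card_congr
    { toFun := fun v => ⟨v.1.1, v.1.2.1, v.1.2.2.1, v.1.2.2.2,
        Subgroup.mem_centralizer_iff.mpr fun q hq =>
          mul_inv_eq_iff_eq_mul.mp (congrArg (fun w : X => w.1.1) (v.2 ⟨q, hq⟩)),
        Subgroup.mem_centralizer_iff.mpr fun q hq =>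
          mul_inv_eq_iff_eq_mul.mp (congrArg (fun w : X => w.1.2) (v.2 ⟨q, hq⟩))⟩
      invFun := fun v => ⟨⟨v.1, v.2.1, v.2.2.1, v.2.2.2.1⟩, fun q => Subtype.ext (Prod.ext
        (mul_inv_eq_iff_eq_mul.mpr (Subgroup.mem_centralizer_iff.mp v.2.2.2.2.1 q q.2))
        (mul_inv_eq_iff_eq_mul.mpr (Subgroup.mem_centralizer_iff.mp v.2.2.2.2.2 q q.2)))⟩
      left_inv := fun v => rfl
      right_inv := fun v => rfl }

end Cfsg.Agent.S0903
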