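import Cfsg.Statements.S0905
import Mathlib
import Cfsg.Agent.Lib.Blocks.Exists
import Cfsg.Agent.Lib.Blocks.Defect
import Cfsg.Agent.Lib.Solv.Cores

set_option autoImplicit false
open Cfsg

namespace Cfsg.Agent.S0905

open scoped Classical in
theorem map_classSum_int {G : Type*} [Group G] [Fintype G] (g : G) {K : Type*} [CommRing K] (f : ℤ →+* K) :
    MonoidAlgebra.mapRingHom G f (Cfsg.Lib.Blocks.classSum ℤ g) = Cfsg.Lib.Blocks.classSum K g :=
  Cfsg.Lib.Blocks.gr_ext fun a => by
    rw [MonoidAlgebra.coeff_mapRingHom, Cfsg.Lib.Blocks.coeff_classSum, Cfsg.Lib.Blocks.coeff_classSum]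
    split_ifs <;> simp

/-- Let F be a field of characteristic p and let g be an element of the finite group G no conjugate of which centralizes O_p(G). Then the class sum of g is a nilpotent element of the group algebra F[G]. -/
theorem result {G : Type*} [Group G] [Finite G] (p : ℕ) [Fact p.Prime] (F : Type*) [Field F] [CharP F p] (g : G) (hg : ∀ x : G, IsConj g x → x ∉ Subgroup.centralizer (Cfsg.pCore p G : Set G)) : IsNilpotent (∑ᶠ x ∈ ConjClasses.carrier (ConjClasses.mk g), MonoidAlgebra.single x (1 : F) : MonoidAlgebra F G) := by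
  classical
  haveI := Fintype.ofFinite G
  obtain ⟨M, hM⟩ := Cfsg.Lib.Blocks.exists_isPModular p
  haveI := hM.2.1.isPrime
  open Cfsg.Lib.Blocks in
  · set x : classRing G (ResF M) := ⟨classSum (ResF M) g, isClassElt_classSum _ g⟩ with hx
    obtain ⟨n, hn⟩ := isNilpotent_of_lam_eq_zero (x := x) fun χ => by
      rw [hx, lam_classSum]
      exact red_centralChar_eq_zero_of_notMem hM (Cfsg.Lib.Solv.isPGroup_pCore p) χ (hg g (IsConj.refl g))
    have hn' : classSum (ResF M) g ^ n = 0 := congrArg Subtype.val hn
    refine ⟨n, ?_⟩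
    have hsum : (∑ᶠ x ∈ ConjClasses.carrier (ConjClasses.mk g), MonoidAlgebra.single x (1 : F) : MonoidAlgebra F G)
        = classSum F g := by
      rw [finsum_mem_def, finsum_eq_sum_of_fintype]
      refine gr_ext fun a => ?_
      rw [gr_sum_apply, coeff_classSum, Finset.sum_eq_single a]
      · by_cases h : IsConj g a
        · rw [if_pos h, Set.indicator_of_mem (ConjClasses.mem_carrier_iff_mk_eq.mpr
            (ConjClasses.mk_eq_mk_iff_isConj.mpr h.symm))]
          simp
        · rw [if_neg h, Set.indicator_of_notMem (fun hh => h (ConjClasses.mk_eq_mk_iff_isConj.mp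
            (ConjClasses.mem_carrier_iff_mk_eq.mp hh)).symm)]
          simp
      · intro b _ hb
        rw [Set.indicator_apply]
        split_ifs <;> simp [hb]
      · simp
    rw [hsum, ← map_classSum_int g (Int.castRingHom F), ← map_pow]
    refine gr_ext fun a => ?_
    have h1 := congrArg (fun z : MonoidAlgebra (ResF M) G => z.coeff a) hn'
    rw [← map_classSum_int g (Int.castRingHom (ResF M)), ← map_pow, MonoidAlgebra.coeff_mapRingHom] at h1
    simp only [MonoidAlgebra.coeff_mapRingHom, eq_intCast] at h1 ⊢
    have h2 : (p : ℤ) ∣ (classSum ℤ g ^ n).coeff a := (intCast_resF_eq_zero hM _).mp (by simpa using h1)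
    simpa using (CharP.intCast_eq_zero_iff F p _).mpr h2

end Cfsg.Agent.S0905
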