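import Cfsg.Statements.S0906
import Mathlib
import Cfsg.Agent.Lib.Blocks.Idempotents

set_option autoImplicit false
open Cfsg

namespace Cfsg.Agent.S0906

/-- Let B be a block of the finite group G relative to a maximal ideal M of the algebraic integers containing the prime p. Then some element g represents a defect class of B: the idempotent coefficient of B at g is a local integer not in the local ideal at M, and the central characters of the members of B at g are not in the local ideal. -/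
theorem result {G : Type*} [Group G] [Finite G] (p : ℕ) [Fact p.Prime] (M : Ideal Cfsg.AlgInt) (hM : Cfsg.IsPModular p M) (B : Set (Cfsg.IrrCharacter G)) (hB : Cfsg.IsPBlock M B) : ∃ g : G, Cfsg.IsDefectClass M B g := by
  haveI := hM.2.1.isPrime
  haveI := Fintype.ofFinite G
  classical
  obtain ⟨χ, hχ⟩ := Cfsg.Lib.Blocks.IsPBlock.nonempty hB
  have h := Cfsg.Lib.Blocks.lam_bIdem hB χ
  rw [if_pos hχ, Cfsg.Lib.Blocks.lam] at h
  obtain ⟨C, -, hC⟩ : ∃ C ∈ Finset.univ, (Cfsg.Lib.Blocks.bIdem M B).coeff (Cfsg.Lib.Blocks.cOut C)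
      * Cfsg.Lib.Blocks.red M (centralChar (χ : G → ℂ) (Cfsg.Lib.Blocks.cOut C)) ≠ 0 :=
    Finset.exists_ne_zero_of_sum_ne_zero (h.trans_ne one_ne_zero)
  rw [Cfsg.Lib.Blocks.coeff_bIdem, mul_ne_zero_iff] at hC
  refine ⟨Cfsg.Lib.Blocks.cOut C, Cfsg.Lib.Blocks.blockCoeff_mem_locRing hB _,
    (Cfsg.Lib.Blocks.not_memLocalIdeal_iff (Cfsg.Lib.Blocks.blockCoeff_mem_locRing hB _)).mpr hC.1,
    fun ψ hψ => ?_⟩
  rw [Cfsg.Lib.Blocks.not_memLocalIdeal_iff (Cfsg.Lib.Blocks.centralChar_mem_locRing M ψ _),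
    ← (Cfsg.Lib.Blocks.sameBlock_iff M χ ψ).mp (Cfsg.Lib.Blocks.IsPBlock.sameBlock hB hχ hψ)]
  exact hC.2

end Cfsg.Agent.S0906
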