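import Cfsg.Statements.S0910
import Mathlib
import Cfsg.Agent.Lib.Blocks.Principal
import Cfsg.Agent.Lib.Characters.Burnside
import Cfsg.Agent.Lib.Characters.Integrality

set_option autoImplicit false
open Cfsg

namespace Cfsg.Agent.S0910

/-- Let G be a non-abelian finite simple group and p a prime. If an irreducible character χ lies in the principal block (relative to a maximal ideal of the algebraic integers containing p) and χ 1 is a power of p, then χ is the principal character. -/
theorem result {G : Type*} [Group G] [Finite G] (p : ℕ) [Fact p.Prime] (M : Ideal Cfsg.AlgInt) (hM : Cfsg.IsPModular p M) [IsSimpleGroup G] (hna : ∃ a b : G, a * b ≠ b * a) (χ : Cfsg.IrrCharacter G) (hχ : χ ∈ Cfsg.principalBlock M G) (k : ℕ) (hdeg : (χ : G → ℂ) 1 = (p : ℂ) ^ k) : (χ : G → ℂ) = fun _ => 1 := by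
  haveI := hM.2.1.isPrime
  classical
  haveI := Fintype.ofFinite G
  open Cfsg.Lib.Blocks Cfsg.Lib.Characters in
  · by_contra hne
    have hd : (χ : G → ℂ) 1 = ((p ^ k : ℕ) : ℂ) := by rw [hdeg]; push_cast; rfl
    have hker := faithful_of_simple χ.2 hne
    have hcentre : ∀ z : G, ‖(χ : G → ℂ) z‖ = ((p ^ k : ℕ) : ℝ) → z = 1 := by
      intro z hz
      have hm := mem_center_of_norm_eq χ.2 hker hd hz
      rcases Subgroup.Normal.eq_bot_or_eq_top (inferInstance : (Subgroup.center G).Normal) with h | h
      · rwa [h, Subgroup.mem_bot] at hm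
      · obtain ⟨a, b, hab⟩ := hna
        exact absurd (Subgroup.mem_center_iff.mp (h ▸ Subgroup.mem_top b) a) hab
    rcases Nat.eq_zero_or_pos k with rfl | hk
    · obtain ⟨a, b, hab⟩ := hna
      have h1 : ∀ z : G, z = 1 := fun z => hcentre z (by
        obtain ⟨n, ρ, hρ, hρχ⟩ := id χ.2
        have hn : n = 1 := by
          have := hd; rw [← hρχ] at this; simpa using this
        subst hn
        rw [← hρχ]
        obtain ⟨ω, hω⟩ := schur_scalar ρ (ρ z) fun v => by
          obtain ⟨c, hc⟩ : ∃ c : ℂ, ρ v = c • LinearMap.id := ⟨(ρ v) (fun _ => 1) 0, by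
            refine LinearMap.ext fun w => funext fun i => ?_
            rw [Subsingleton.elim i 0, show w = (w 0) • (fun _ => (1 : ℂ)) from funext fun j => by
              rw [Subsingleton.elim j 0]; simp]
            simp [mul_comm]⟩
          rw [hc]; ext w; simp
        simp only [Representation.character, hω, map_smul, ← Module.End.one_eq_id, LinearMap.trace_one,
          Module.finrank_fin_fun, Nat.cast_one, smul_eq_mul, mul_one, pow_zero]
        have hpow : ω ^ orderOf z = 1 := by
          have h := congrArg (fun L => LinearMap.trace ℂ _ L) (show ρ z ^ orderOf z = 1 by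
            rw [← map_pow, pow_orderOf_eq_one, map_one])
          simpa [hω, ← Module.End.one_eq_id, smul_pow] using h
        exact Complex.norm_eq_one_of_pow_eq_one hpow (orderOf_pos z).ne')
      exact hab (by rw [h1 a, one_mul, mul_one])
    · have hdvd : p ∣ Nat.card G := (dvd_pow_self p hk.ne').trans (degree_dvd_card χ.2 hd)
      obtain ⟨P⟩ : Nonempty (Sylow p G) := Sylow.nonempty
      have hPne : Nontrivial (P : Subgroup G) := by
        rw [← Finite.one_lt_card_iff_nontrivial, P.card_eq_multiplicity]
        exact Nat.one_lt_pow ((Fact.out : p.Prime).factorization_pos_of_dvd Nat.card_pos.ne' hdvd).ne'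
          (Fact.out : p.Prime).one_lt
      haveI := IsPGroup.center_nontrivial P.2
      obtain ⟨⟨z, hz⟩, hz1⟩ := exists_ne (1 : Subgroup.center (P : Subgroup G))
      have hPc : (P : Subgroup G) ≤ Subgroup.centralizer ({(z : G)} : Set G) := fun x hx =>
        Subgroup.mem_centralizer_singleton_iff.mpr (congrArg Subtype.val (Subgroup.mem_center_iff.mp hz ⟨x, hx⟩))
      have hidx : ¬ p ∣ (Subgroup.centralizer ({(z : G)} : Set G)).index := fun h =>
        P.not_dvd_index (h.trans (Subgroup.index_dvd_of_le hPc))
      have hzne : (z : G) ≠ 1 := fun h => hz1 (Subtype.ext (Subtype.ext h))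
      have hcl : Nat.card {x : G // IsConj (z : G) x} = (Subgroup.centralizer ({(z : G)} : Set G)).index := by
        rw [Nat.card_eq_fintype_card, Fintype.card_subtype]; exact card_filter_isConj (z : G)
      rcases zero_or_norm_of_coprime χ.2 (z : G) hd (by
        rw [hcl]; exact ((Fact.out : p.Prime).coprime_iff_not_dvd.mpr hidx).pow_left k) with h0 | hn
      · have h := (sameBlock_iff M (trivChar G) χ).mp hχ (z : G)
        rw [centralChar, centralChar, h0] at h
        simp only [mul_zero, zero_div, red_zero] at h
        rw [show (trivChar G : G → ℂ) (z : G) = 1 from rfl, show (trivChar G : G → ℂ) 1 = 1 from rfl,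
          mul_one, div_one, red_natCast, natCast_resF_eq_zero hM] at h
        exact hidx h
      · exact hzne (hcentre _ hn)

end Cfsg.Agent.S0910
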