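import Cfsg.Statements.S4487
import Mathlib
import Cfsg.Agent.Lib.Blocks.Defect
import Cfsg.Agent.Lib.PLocal.Constraint

set_option autoImplicit false
open Cfsg

namespace Cfsg.Agent.S4487

/-- Let G be a finite group and p a prime such that G has no non-trivial normal subgroup of order prime to p and C_G(O_p(G)) ≤ O_p(G). Then G has a single p-block: any two irreducible characters lie in the same block relative to every maximal ideal M of the algebraic integers containing p. -/
theorem result {G : Type*} [Group G] [Finite G] (p : ℕ) [Fact p.Prime] (M : Ideal Cfsg.AlgInt) (hM : Cfsg.IsPModular p M) (hcore : Cfsg.pPrimeCore p G = ⊥) (hconstr : Subgroup.centralizer ((Cfsg.pCore p G) : Set G) ≤ Cfsg.pCore p G) (χ ψ : Cfsg.IrrCharacter G) : Cfsg.SameBlock M (χ : G → ℂ) (ψ : G → ℂ) := by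
  haveI := hM.2.1.isPrime
  haveI := Fintype.ofFinite G
  classical
  haveI := Cfsg.Lib.Transfer.pCore_normal (G := G) p
  have hP : IsPGroup p (Cfsg.pCore p G) := Cfsg.Lib.Transfer.pCore_isPGroup p
  have hB : Cfsg.IsPBlock M (Cfsg.blockOf M (χ : G → ℂ)) := ⟨χ, rfl⟩
  have key : ∀ φ : Cfsg.IrrCharacter G,
      Cfsg.Lib.Blocks.red M (Cfsg.blockCoeff (Cfsg.blockOf M (χ : G → ℂ)) 1)
        = if φ ∈ Cfsg.blockOf M (χ : G → ℂ) then 1 else 0 := by
    intro φ
    rw [← Cfsg.Lib.Blocks.sum_classes_coeff_mul hB φ,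
      Finset.sum_eq_single (ConjClasses.mk (1 : G))]
    · have h1 : Cfsg.Lib.Blocks.cOut (ConjClasses.mk (1 : G)) = 1 := by
        simpa [isConj_one_left, isConj_one_right] using Cfsg.Lib.Blocks.out_isConj (1 : G)
      have h2 : Cfsg.centralChar (φ : G → ℂ) 1 = 1 := by
        rw [Cfsg.centralChar]
        have : Subgroup.centralizer ({(1 : G)} : Set G) = ⊤ :=
          eq_top_iff.mpr fun x _ => Subgroup.mem_centralizer_singleton_iff.mpr (by simp)
        rw [this, Subgroup.index_top, Nat.cast_one, one_mul, div_self φ.2.one_ne_zero]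
      rw [h1, h2, Cfsg.Lib.Blocks.red_one, mul_one]
    · intro C _ hC
      set g := Cfsg.Lib.Blocks.cOut C with hg
      by_cases he : Cfsg.Lib.Blocks.red M (Cfsg.blockCoeff (Cfsg.blockOf M (χ : G → ℂ)) g) = 0
      · rw [he, zero_mul]
      by_cases hm : g ∈ Subgroup.centralizer (Cfsg.pCore p G : Set G)
      · obtain ⟨k, hk⟩ := IsPGroup.iff_orderOf.mp hP ⟨g, hconstr hm⟩
        rw [Subgroup.orderOf_mk] at hk
        have hreg := Cfsg.Lib.Blocks.not_dvd_of_coeff_ne hM hB he
        refine absurd ?_ hC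
        rw [← Cfsg.Lib.Blocks.mk_cOut C, ← hg, Cfsg.Lib.Blocks.eq_one_of_pPow_regular hk hreg]
      · rw [Cfsg.Lib.Blocks.red_centralChar_eq_zero_of_notMem hM hP φ hm, mul_zero]
    · simp
  by_contra hne
  have h1 := key χ
  have h2 := key ψ
  rw [if_pos (Cfsg.Lib.Blocks.mem_blockOf_self M χ)] at h1
  rw [if_neg (show ψ ∉ Cfsg.blockOf M (χ : G → ℂ) from hne), h1] at h2
  exact one_ne_zero h2

end Cfsg.Agent.S4487
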