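import Cfsg.Statements.S0916
import Mathlib
-- import your own Cfsg.Agent.* helpers here

set_option autoImplicit false
open Cfsg

namespace Cfsg.Agent.S0916

variable {G : Type*} [Group G] [Finite G] {p : ℕ} [Fact p.Prime]

theorem to_max {H P : Subgroup G} (S : Sylow p H) (h : (S : Subgroup H).map H.subtype = P) :
    P ≤ H ∧ ∀ Q : Subgroup G, IsPGroup p Q → P ≤ Q → Q ≤ H → Q = P := by
  subst h
  refine ⟨Subgroup.map_subtype_le _, fun Q hQ hle hQH => ?_⟩
  have h1 : (S : Subgroup H) ≤ Q.subgroupOf H := fun x hx => hle ⟨x, hx, rfl⟩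
  have h2 : Q.subgroupOf H = (S : Subgroup H) :=
    S.is_maximal' (hQ.of_equiv (Subgroup.subgroupOfEquivOfLe hQH).symm) h1
  rw [← h2, Subgroup.map_subgroupOf_eq_of_le hQH]

theorem of_max {H P : Subgroup G} (hP : IsPGroup p P) (hle : P ≤ H)
    (hm : ∀ Q : Subgroup G, IsPGroup p Q → P ≤ Q → Q ≤ H → Q = P) :
    ∃ S : Sylow p H, (S : Subgroup H).map H.subtype = P := by
  refine ⟨⟨P.subgroupOf H, hP.of_equiv (Subgroup.subgroupOfEquivOfLe hle).symm, ?_⟩,
    Subgroup.map_subgroupOf_eq_of_le hle⟩
  intro Q hQ hPQ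
  have h := hm (Q.map H.subtype) (hQ.map _) (fun x hx => ⟨⟨x, hle hx⟩, hPQ hx, rfl⟩) (Subgroup.map_subtype_le _)
  exact le_antisymm (fun x hx => h ▸ Subgroup.mem_map_of_mem H.subtype hx) hPQ

theorem le_centralizer_singleton {P : Subgroup G} {c : G} (hc : c ∈ Subgroup.centralizer (P : Set G)) :
    P ≤ Subgroup.centralizer ({c} : Set G) := fun x hx =>
  Subgroup.mem_centralizer_singleton_iff.mpr (Subgroup.mem_centralizer_iff.mp hc x hx)


/-- Let P be a p-subgroup of the finite group G, C its centralizer and N its normalizer. Say that a conjugacy class (of G, or of N) has defect group P when P is a Sylow p-subgroup of the centralizer (in G, respectively in N) of some element of the class. Then: (i) if the class of g in G has defect group P, the elements of that class lying in C form a single N-class, again with defect group P; (ii) every N-class with defect group P arises this way from exactly one G-class with defect group P. -/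
theorem result {G : Type*} [Group G] [Finite G] (p : ℕ) [Fact p.Prime] (P : Subgroup G) (hP : IsPGroup p P) : (∀ g : G, (∃ S : Sylow p (Subgroup.centralizer ({g} : Set G)), (S : Subgroup (Subgroup.centralizer ({g} : Set G))).map (Subgroup.centralizer ({g} : Set G)).subtype = P) → (∃ c : G, IsConj g c ∧ c ∈ Subgroup.centralizer (P : Set G)) ∧ (∀ c₁ c₂ : G, IsConj g c₁ → IsConj g c₂ → c₁ ∈ Subgroup.centralizer (P : Set G) → c₂ ∈ Subgroup.centralizer (P : Set G) → ∃ n ∈ Subgroup.normalizer (P : Set G), n * c₁ * n⁻¹ = c₂)) ∧ (∀ c : G, c ∈ Subgroup.centralizer (P : Set G) → (∃ S : Sylow p (Subgroup.centralizer ({c} : Set G) ⊓ Subgroup.normalizer (P : Set G) : Subgroup G), (S : Subgroup ↥(Subgroup.centralizer ({c} : Set G) ⊓ Subgroup.normalizer (P : Set G))).map (Subgroup.centralizer ({c} : Set G) ⊓ Subgroup.normalizer (P : Set G)).subtype = P) → ∃ S : Sylow p (Subgroup.centralizer ({c} : Set G)), (S : Subgroup (Subgroup.centralizer ({c} : Set G))).map (Subgroup.centralizer ({c} : Set G)).subtype = P) := by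
  constructor
  · intro g ⟨S, hS⟩
    obtain ⟨hle, hm⟩ := to_max S hS
    have hgP : g ∈ Subgroup.centralizer (P : Set G) := Subgroup.mem_centralizer_iff.mpr fun x hx =>
      Subgroup.mem_centralizer_singleton_iff.mp (hle hx)
    refine ⟨⟨g, IsConj.refl g, hgP⟩, ?_⟩
    -- any element of the class lying in the centralizer of `P` again has `P` as a maximal p-subgroup of its centralizer
    have key : ∀ c, IsConj g c → c ∈ Subgroup.centralizer (P : Set G) →
        ∃ n ∈ Subgroup.normalizer (P : Set G), n * g * n⁻¹ = c := by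
      intro c hgc hc
      obtain ⟨x, hx⟩ := isConj_iff.mp hgc
      set H := Subgroup.centralizer ({c} : Set G)
      obtain ⟨P₁, hP₁⟩ : ∃ S₁ : Sylow p H, (S₁ : Subgroup H).map H.subtype = P.map (MulAut.conj x).toMonoidHom := by
        refine of_max (hP.map _) ?_ ?_
        · rintro _ ⟨q, hq, rfl⟩
          rw [Subgroup.mem_centralizer_singleton_iff, ← hx]
          show x * q * x⁻¹ * (x * g * x⁻¹) = x * g * x⁻¹ * (x * q * x⁻¹)
          have := Subgroup.mem_centralizer_singleton_iff.mp (hle hq)
          calc x * q * x⁻¹ * (x * g * x⁻¹) = x * (q * g) * x⁻¹ := by group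
            _ = _ := by rw [this]; group
        · intro Q hQ hPQ hQH
          have h1 := hm (Q.map (MulAut.conj x⁻¹).toMonoidHom) (hQ.map _)
            (fun q hq => ⟨x * q * x⁻¹, hPQ ⟨q, hq, rfl⟩, by
              show x⁻¹ * (x * q * x⁻¹) * x⁻¹⁻¹ = q
              group⟩)
            (by
              rintro _ ⟨q, hq, rfl⟩
              rw [Subgroup.mem_centralizer_singleton_iff]
              have := Subgroup.mem_centralizer_singleton_iff.mp (hQH hq)
              rw [← hx] at this
              show x⁻¹ * q * x⁻¹⁻¹ * g = g * (x⁻¹ * q * x⁻¹⁻¹)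
              calc x⁻¹ * q * x⁻¹⁻¹ * g = x⁻¹ * (q * (x * g * x⁻¹)) * x := by group
                _ = _ := by rw [this]; group)
          refine le_antisymm (fun q hq => ?_) hPQ
          refine ⟨x⁻¹ * q * x⁻¹⁻¹, h1 ▸ ⟨q, hq, rfl⟩, ?_⟩
          show x * (x⁻¹ * q * x⁻¹⁻¹) * x⁻¹ = q
          group
      obtain ⟨P₂, hP₂⟩ : ∃ S₂ : Sylow p H, (S₂ : Subgroup H).map H.subtype = P := by
        refine of_max hP (le_centralizer_singleton hc) fun Q hQ hPQ hQH => ?_
        have hcard : Nat.card P = Nat.card (P₁ : Subgroup H) := by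
          rw [← Subgroup.card_map_of_injective (K := (P₁ : Subgroup H)) H.subtype_injective, hP₁,
            Subgroup.card_map_of_injective (MulAut.conj x).injective]
        symm
        apply Subgroup.eq_of_le_of_card_ge hPQ
        rw [hcard, ← Nat.card_congr (Subgroup.subgroupOfEquivOfLe hQH).toEquiv]
        obtain ⟨R, hR⟩ := (hQ.of_equiv (Subgroup.subgroupOfEquivOfLe hQH).symm).exists_le_sylow
        exact (Subgroup.card_le_of_le hR).trans (by rw [R.card_eq_multiplicity, P₁.card_eq_multiplicity])
      obtain ⟨y, hy⟩ := MulAction.exists_smul_eq H P₁ P₂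
      refine ⟨(y : G) * x, ?_, ?_⟩
      · have he : P.map (MulAut.conj ((y : G) * x)).toMonoidHom = P := by
          have h2 := congrArg (fun T : Sylow p H => (T : Subgroup H).map H.subtype) hy
          simp only [hP₂] at h2
          rw [show ((y • P₁ : Sylow p H) : Subgroup H) = (P₁ : Subgroup H).map (MulAut.conj y).toMonoidHom from rfl,
            Subgroup.map_map] at h2
          conv_rhs => rw [← h2]
          rw [show H.subtype.comp (MulAut.conj y).toMonoidHom = (MulAut.conj (y : G)).toMonoidHom.comp H.subtype from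
            MonoidHom.ext fun z => rfl, ← Subgroup.map_map, hP₁, Subgroup.map_map, map_mul]
          rfl
        rw [Subgroup.mem_normalizer_iff]
        intro q
        conv_rhs => rw [← he]
        exact (Subgroup.mem_map_iff_mem (f := (MulAut.conj ((y : G) * x)).toMonoidHom) (MulAut.conj _).injective).symm
      · have := Subgroup.mem_centralizer_singleton_iff.mp y.2
        calc (y : G) * x * g * ((y : G) * x)⁻¹ = (y : G) * (x * g * x⁻¹) * (y : G)⁻¹ := by group
          _ = c := by rw [hx, this]; group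
    intro c₁ c₂ h₁ h₂ hc₁ hc₂
    obtain ⟨n₁, hn₁, e₁⟩ := key c₁ h₁ hc₁
    obtain ⟨n₂, hn₂, e₂⟩ := key c₂ h₂ hc₂
    refine ⟨n₂ * n₁⁻¹, mul_mem hn₂ (inv_mem hn₁), ?_⟩
    rw [← e₁, ← e₂]
    group
  · intro c hc ⟨S, hS⟩
    obtain ⟨hle, hm⟩ := to_max S hS
    refine of_max hP (le_centralizer_singleton hc) fun Q hQ hPQ hQH => ?_
    by_contra hne
    haveI : Group.IsNilpotent Q := hQ.isNilpotent
    have hlt : P.subgroupOf Q < ⊤ := lt_top_iff_ne_top.mpr fun h =>
      hne (le_antisymm (Subgroup.subgroupOf_eq_top.mp h) hPQ)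
    have hgrow := Group.normalizerCondition_of_isNilpotent _ hlt
    obtain ⟨z, hzN, hzP⟩ := SetLike.exists_of_lt hgrow
    set R := (Subgroup.normalizer ((P.subgroupOf Q : Subgroup Q) : Set Q)).map Q.subtype
    have hRQ : R ≤ Q := Subgroup.map_subtype_le _
    have hR := hm R (hQ.to_le hRQ) (fun x hx => ⟨⟨x, hPQ hx⟩, Subgroup.le_normalizer (show (⟨x, hPQ hx⟩ : Q) ∈ P.subgroupOf Q from hx), rfl⟩)
      (by
        rintro _ ⟨w, hw, rfl⟩
        refine ⟨hQH w.2, ?_⟩
        show (w : G) ∈ Subgroup.normalizer (P : Set G)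
        rw [Subgroup.mem_normalizer_iff]
        intro x
        constructor
        · intro hx
          exact (Subgroup.mem_normalizer_iff.mp hw ⟨x, hPQ hx⟩).mp hx
        · intro hx
          have hxQ : x ∈ Q := by
            have := Q.mul_mem (Q.mul_mem (Q.inv_mem w.2) (hPQ hx)) w.2
            simpa [mul_assoc] using this
          exact (Subgroup.mem_normalizer_iff.mp hw ⟨x, hxQ⟩).mpr hx)
    exact hzP (show (z : G) ∈ P from hR ▸ Subgroup.mem_map_of_mem Q.subtype hzN)

end Cfsg.Agent.S0916
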