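import Cfsg.Statements.S0922
import Mathlib
import Cfsg.Agent.Lib.Blocks.Sections

set_option autoImplicit false
open Cfsg

namespace Cfsg.Agent.S0922

/-- Let H be a subgroup of the finite group G and let the block b of H induce the block B of G (relative to a maximal ideal M of the algebraic integers containing the prime p). Let h ∈ H be such that the centralizer in G of the p-part of h lies in H, and let χ be an irreducible character of G not in B. Then the sum over k ∈ H of (the idempotent coefficient of b at k) times χ (k * h) vanishes; that is, χ annihilates f_b h where f_b is the sum of the central idempotents of the members of b. -/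
theorem result {G : Type*} [Group G] [Finite G] (p : ℕ) [Fact p.Prime] (M : Ideal Cfsg.AlgInt) (hM : Cfsg.IsPModular p M) (H : Subgroup G) (b : Set (Cfsg.IrrCharacter H)) (B : Set (Cfsg.IrrCharacter G)) (hind : Cfsg.IsInducedBlock M H b B) (h : H) (hC : ∀ z : G, Cfsg.IsPPart p (h : G) z → Subgroup.centralizer ({z} : Set G) ≤ H) (χ : Cfsg.IrrCharacter G) (hχ : χ ∉ B) : ∑ᶠ k : H, Cfsg.blockCoeff b k * (χ : G → ℂ) ((k : G) * (h : G)) = 0 := by
  haveI := hM.2.1.isPrime
  haveI := Fintype.ofFinite G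
  classical
  -- step 1: the sum is the `b`-part of the restriction, evaluated at `h`
  let θ : H → ℂ := fun k => (χ : G → ℂ) (k : G)
  have hθ : IsClassFunction H θ := fun u v => χ.2.isClassFunction (u : G) (v : G)
  have step1 : ∑ᶠ k : H, blockCoeff b k * (χ : G → ℂ) ((k : G) * (h : G)) = blockPart b θ h := by
    rw [finsum_eq_sum_of_fintype, Cfsg.Lib.Blocks.blockPart_eq_kerB]
    have hz : ∀ z : H, ∑ k : H, blockCoeff b k * (χ : G → ℂ) ((k : G) * (h : G))
        = ∑ u : H, θ u * blockCoeff b ((u⁻¹)⁻¹ * (z * h⁻¹ * z⁻¹)) := by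
      intro z
      refine Fintype.sum_equiv ((MulAut.conj z).toEquiv.trans (Equiv.mulRight (z * h * z⁻¹))) _ _
        fun k => ?_
      simp only [Equiv.trans_apply, MulEquiv.toEquiv_eq_coe, EquivLike.coe_coe, MulAut.conj_apply,
        Equiv.coe_mulRight, inv_inv, θ]
      have e1 : z * k * z⁻¹ * (z * h * z⁻¹) * (z * h⁻¹ * z⁻¹) = z * k * z⁻¹ := by group
      have e2 : z * k * z⁻¹ * (z * h * z⁻¹) = z * (k * h) * z⁻¹ := by group
      have e3 : blockCoeff b (z * k * z⁻¹) = blockCoeff b k := by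
        simpa using Cfsg.Lib.Blocks.isClassElt_blockE b z k
      rw [e1, e2, e3]
      have e4 := χ.2.isClassFunction ((k * h : H) : G) (z : G)
      push_cast at e4 ⊢
      rw [e4]
      ring
    have hsum := Finset.sum_congr (s₁ := (Finset.univ : Finset H)) rfl fun z _ => hz z
    rw [Finset.sum_const, Finset.card_univ, Finset.sum_comm,
      Finset.sum_congr rfl fun u _ => (Finset.mul_sum Finset.univ _ (θ u)).symm] at hsum
    simp only [Cfsg.Lib.Blocks.sum_blockCoeff_conj, nsmul_eq_mul] at hsum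
    have hk : ∀ u : H, Cfsg.Lib.Blocks.kerB b u⁻¹ h⁻¹ = Cfsg.Lib.Blocks.kerB b h u := fun u => by
      refine Finset.sum_congr rfl fun φ _ => ?_
      split_ifs
      · rw [inv_inv, mul_comm]
      · rfl
    simp only [hk] at hsum
    rw [← hsum, Nat.card_eq_fintype_card, ← mul_assoc,
      inv_mul_cancel₀ (Nat.cast_ne_zero.mpr Fintype.card_ne_zero), one_mul]
  rw [step1]
  -- step 2: pass to the centralizer of the `p`-part
  obtain ⟨x, y', hxy, hcomm, hx, hy'⟩ := Cfsg.Lib.Blocks.exists_pPart_commute (p := p) h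
  have hxG : ∃ k : ℕ, orderOf (x : G) = p ^ k := by simpa [Subgroup.orderOf_coe] using hx
  have hCx : Subgroup.centralizer ({(x : G)} : Set G) ≤ H := hC _
    ⟨(y' : G), by rw [← hxy]; rfl, congrArg Subtype.val hcomm.eq, hxG,
      by rwa [Subgroup.orderOf_coe]⟩
  set C := Subgroup.centralizer ({x} : Set H) with hCdef
  have hy0 : y' ∈ C := Subgroup.mem_centralizer_singleton_iff.mpr hcomm.eq.symm
  let y : C := ⟨y', hy0⟩
  have hy : ¬ p ∣ orderOf y := by
    rw [← Subgroup.orderOf_coe]; exact hy'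
  let f : C →* G := H.subtype.comp C.subtype
  have hf : Function.Injective f := H.subtype_injective.comp C.subtype_injective
  have hrange : f.range = Subgroup.centralizer ({(x : G)} : Set G) := by
    ext g
    constructor
    · rintro ⟨c, rfl⟩
      rw [Subgroup.mem_centralizer_singleton_iff]
      exact congrArg Subtype.val (Subgroup.mem_centralizer_singleton_iff.mp c.2)
    · intro hg
      exact ⟨⟨⟨g, hCx hg⟩, Subgroup.mem_centralizer_singleton_iff.mpr
        (Subtype.ext (Subgroup.mem_centralizer_singleton_iff.mp hg))⟩, rfl⟩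
  have hb : IsPBlock M b := hind.1
  set A := Cfsg.Lib.Blocks.indHomSet M C.subtype b with hAdef
  have hA := Cfsg.Lib.Blocks.isBlockUnion_indHomSet (M := M) C.subtype b
  obtain ⟨η, hη⟩ := Cfsg.Lib.Blocks.IsPBlock.nonempty hb
  -- the `A`-part of the section of `χ` vanishes
  have hzero : blockPart A (fun c : C => (χ : G → ℂ) ((x : G) * f c)) y = 0 := by
    refine Cfsg.Lib.Blocks.sectionPart_eq_zero hM ⟨χ, rfl⟩
      (Cfsg.Lib.Blocks.mem_blockOf_self M χ) hxG hf hrange hA (fun ξ hξ hξ' => ?_) hy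
    change ξ ∈ Cfsg.Lib.Blocks.indHomSet M C.subtype b at hξ
    rw [Cfsg.Lib.Blocks.indHomSet_subtype hM hx rfl hb] at hξ
    have h1 := (Cfsg.Lib.Blocks.isInducedBlock_iff ⟨ξ, rfl⟩ hb
      (Cfsg.Lib.Blocks.mem_blockOf_self M ξ) hη).mp hξ
      (Cfsg.Lib.Blocks.resSub H (Cfsg.Lib.Blocks.bIdem M (blockOf M (χ : G → ℂ))))
      ((Cfsg.Lib.Blocks.isClassElt_bIdem _).resSub H)
    rw [Cfsg.Lib.Blocks.resSub_resSub] at h1
    rw [Cfsg.Lib.Blocks.lam_resSub_resSub_eq hind hη ⟨χ, rfl⟩] at h1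
    have hne : blockOf M (χ : G → ℂ) ≠ B := fun he =>
      hχ (he ▸ Cfsg.Lib.Blocks.mem_blockOf_self M χ)
    have h2 : Cfsg.Lib.Blocks.lam M ξ (Cfsg.Lib.Blocks.resHom f
        (Cfsg.Lib.Blocks.bIdem M (blockOf M (χ : G → ℂ)))) = 1 := hξ'
    rw [h2, if_neg hne] at h1
    exact one_ne_zero h1
  -- every irreducible character of `H`
  have hpart : ∀ φ : IrrCharacter H,
      blockPart A (fun c : C => (φ : H → ℂ) (x * C.subtype c)) y
        = if φ ∈ b then (φ : H → ℂ) h else 0 := by
    intro φ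
    by_cases hφ : φ ∈ b
    · rw [if_pos hφ, Cfsg.Lib.Blocks.sectionPart_eq hM hb hφ hx C.subtype_injective
        (Subgroup.range_subtype _) hA Set.Subset.rfl hy]
      show (φ : H → ℂ) (x * y') = _
      rw [hxy]
    · rw [if_neg hφ]
      refine Cfsg.Lib.Blocks.sectionPart_eq_zero hM ⟨φ, rfl⟩
        (Cfsg.Lib.Blocks.mem_blockOf_self M φ) hx C.subtype_injective
        (Subgroup.range_subtype _) hA (fun ξ hξ hξ' => ?_) hy
      have hne : b ≠ blockOf M (φ : H → ℂ) := fun he =>
        hφ (he ▸ Cfsg.Lib.Blocks.mem_blockOf_self M φ)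
      have h1 := Cfsg.Lib.Blocks.resHom_mul_centralizer hM hx C.subtype_injective
        (Subgroup.range_subtype _) (Cfsg.Lib.Blocks.isClassElt_bIdem (M := M) b)
        (Cfsg.Lib.Blocks.isClassElt_bIdem (M := M) (blockOf M (φ : H → ℂ)))
      rw [Cfsg.Lib.Blocks.bIdem_mul hb ⟨φ, rfl⟩, if_neg hne] at h1
      have h2 := congrArg (Cfsg.Lib.Blocks.lam M ξ) h1
      rw [Cfsg.Lib.Blocks.lam_mul M ξ ((Cfsg.Lib.Blocks.isClassElt_bIdem _).resHom _)
        ((Cfsg.Lib.Blocks.isClassElt_bIdem _).resHom _)] at h2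
      have e1 : Cfsg.Lib.Blocks.resHom C.subtype (0 : MonoidAlgebra (Cfsg.Lib.Blocks.ResF M) H) = 0 :=
        Cfsg.Lib.Blocks.gr_ext fun k => by simp [Cfsg.Lib.Blocks.coeff_resHom]
      have hξ1 : Cfsg.Lib.Blocks.lam M ξ (Cfsg.Lib.Blocks.resHom C.subtype
        (Cfsg.Lib.Blocks.bIdem M b)) = 1 := hξ
      have hξ2 : Cfsg.Lib.Blocks.lam M ξ (Cfsg.Lib.Blocks.resHom C.subtype
        (Cfsg.Lib.Blocks.bIdem M (blockOf M (φ : H → ℂ)))) = 1 := hξ'
      rw [e1, Cfsg.Lib.Blocks.lam_zero, hξ1, hξ2, one_mul] at h2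
      exact zero_ne_one h2
  -- expand
  have hexp : ∀ k : H, θ k = ∑ φ : IrrCharacter H,
      classInner θ (φ : H → ℂ) * (φ : H → ℂ) k := fun k => by
    conv_lhs => rw [Cfsg.Lib.Characters.classFunction_expansion hθ]
    simp
  have hlin : blockPart A (fun c : C => θ (x * C.subtype c)) y
      = ∑ φ : IrrCharacter H, classInner θ (φ : H → ℂ) *
          blockPart A (fun c : C => (φ : H → ℂ) (x * C.subtype c)) y := by
    simp only [Cfsg.Lib.Blocks.blockPart_eq_kerB, Finset.mul_sum, hexp, Finset.sum_mul]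
    rw [Finset.sum_comm]
    exact Finset.sum_congr rfl fun φ _ => Finset.sum_congr rfl fun c _ => by ring
  simp only [hpart] at hlin
  have hgoal : blockPart b θ h = ∑ φ : IrrCharacter H,
      classInner θ (φ : H → ℂ) * (if φ ∈ b then (φ : H → ℂ) h else 0) := by
    rw [Cfsg.Lib.Blocks.blockPart_eq_kerB]
    simp only [Cfsg.Lib.Blocks.kerB, Finset.mul_sum]
    rw [Finset.sum_comm]
    refine Finset.sum_congr rfl fun φ _ => ?_
    split_ifs
    · simp only [classInner, Finset.mul_sum, Finset.sum_mul]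
      refine Finset.sum_congr rfl fun k _ => ?_
      rw [Cfsg.Lib.Characters.char_inv_eq_conj φ.2.isCharacter]
      ring
    · simp
  rw [hgoal, ← hlin]
  exact hzero

end Cfsg.Agent.S0922
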