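import Cfsg.Statements.S0926
import Mathlib
import Cfsg.Agent.Lib.Blocks.Heights

set_option autoImplicit false
open Cfsg

namespace Cfsg.Agent.S0926

/-- Let B be a block of the finite group G with defect group D (relative to a maximal ideal M of the algebraic integers containing p), let χ ∈ B have height zero, and let x be a p-element. Then some conjugate of x lies in D if and only if χ does not vanish on the whole p-section of x (the elements whose p-part is conjugate to x). -/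
theorem result {G : Type*} [Group G] [Finite G] (p : ℕ) [Fact p.Prime] (M : Ideal Cfsg.AlgInt) (hM : Cfsg.IsPModular p M) (B : Set (Cfsg.IrrCharacter G)) (hB : Cfsg.IsPBlock M B) (D : Subgroup G) (hD : Cfsg.IsDefectGroup p M B D) (χ : Cfsg.IrrCharacter G) (hχ : χ ∈ B) (h0 : Cfsg.blockHeight p B (χ : G → ℂ) = 0) (x : G) (hx : ∃ k : ℕ, orderOf x = p ^ k) : (∃ g : G, g * x * g⁻¹ ∈ D) ↔ ∃ u : G, (∃ z : G, Cfsg.IsPPart p u z ∧ IsConj x z) ∧ (χ : G → ℂ) u ≠ 0 := by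
  haveI := hM.2.1.isPrime
  haveI := Fintype.ofFinite G
  classical
  obtain ⟨k, hk⟩ := hx
  constructor
  · rintro ⟨g, hg⟩
    obtain ⟨y, hy, hs⟩ := Cfsg.Lib.Blocks.isDefectGroup_iff.mp hD
    have hreg := Cfsg.Lib.Blocks.not_dvd_of_coeff_ne hM hB
      (Cfsg.Lib.Blocks.exists_defectClass_data hy).2.1
    have hc : Commute (g * x * g⁻¹) y :=
      Subgroup.mem_centralizer_singleton_iff.mp (hs.le hg)
    refine ⟨g * x * g⁻¹ * y, ⟨g * x * g⁻¹, ⟨y, rfl, hc, ⟨k, ?_⟩, hreg⟩,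
      isConj_iff.mpr ⟨g, rfl⟩⟩, fun hz0 => ?_⟩
    · rw [← hk]; exact MulEquiv.orderOf_eq (MulAut.conj g) x
    · exact Cfsg.Lib.Blocks.red_value_defect_ne hM hB hy hs hg hχ h0
        (by rw [hz0, Cfsg.Lib.Blocks.red_zero])
  · rintro ⟨u, ⟨z, hz, hxz⟩, hu⟩
    have hBχ := Cfsg.Lib.Blocks.IsPBlock.eq_blockOf hB hχ
    obtain ⟨D', hD', hzD⟩ : ∃ D' : Subgroup G, Cfsg.IsDefectGroup p M B D' ∧ z ∈ D' := by
      by_contra hh
      push Not at hh
      exact hu (Cfsg.Lib.Blocks.char_eq_zero_of_notMem_defect hM χ hz (hBχ ▸ hh))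
    obtain ⟨a, rfl⟩ := Cfsg.Lib.Blocks.defectGroup_conj hM hB hD hD'
    obtain ⟨c, rfl⟩ := isConj_iff.mp hxz
    refine ⟨a⁻¹ * c, ?_⟩
    have := Cfsg.Lib.Blocks.mem_conjSub.mp hzD
    rwa [show a⁻¹ * c * x * (a⁻¹ * c)⁻¹ = a⁻¹ * (c * x * c⁻¹) * a by group]

end Cfsg.Agent.S0926
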