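import Cfsg.Statements.S0929
import Mathlib
import Cfsg.Agent.Lib.Blocks.Heights

set_option autoImplicit false
open Cfsg

namespace Cfsg.Agent.S0929

/-- Let B be a block of the finite group G with defect group P (relative to a maximal ideal M of the algebraic integers containing p), and let g be an element at which the central character of some member of B is not in the local ideal at M. Then some conjugate x of g centralizes P and has its p-part in the centre of P. -/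
theorem result {G : Type*} [Group G] [Finite G] (p : ℕ) [Fact p.Prime] (M : Ideal Cfsg.AlgInt) (hM : Cfsg.IsPModular p M) (B : Set (Cfsg.IrrCharacter G)) (hB : Cfsg.IsPBlock M B) (P : Subgroup G) (hP : Cfsg.IsDefectGroup p M B P) (g : G) (hg : ∃ χ ∈ B, ¬ Cfsg.MemLocalIdeal M (Cfsg.centralChar (χ : G → ℂ) g)) : ∃ x : G, IsConj g x ∧ x ∈ Subgroup.centralizer (P : Set G) ∧ ∀ z : G, Cfsg.IsPPart p x z → z ∈ P ∧ ∀ w ∈ P, z * w = w * z := by
  haveI := hM.2.1.isPrime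
  haveI := Fintype.ofFinite G
  classical
  obtain ⟨χ, hχ, hne⟩ := hg
  have hne' : Cfsg.Lib.Blocks.red M (Cfsg.centralChar (χ : G → ℂ) g) ≠ 0 := fun h =>
    hne (Cfsg.Lib.Blocks.memLocalIdeal_iff.mpr
      ⟨Cfsg.Lib.Blocks.centralChar_mem_locRing M χ g, h⟩)
  have hPp := Cfsg.Lib.Blocks.isPGroup_defectGroup hP
  obtain ⟨b, ⟨hb, hbP, hind⟩, -⟩ := Cfsg.Lib.Blocks.first_main_backward hM hPp hB hP
  obtain ⟨ξ, hξ⟩ := Cfsg.Lib.Blocks.IsPBlock.nonempty hb
  have h1 := (Cfsg.Lib.Blocks.isInducedBlock_iff hb hB hξ hχ).mp hind _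
    (Cfsg.Lib.Blocks.isClassElt_classSum _ g)
  rw [← Cfsg.Lib.Blocks.lam_brSub_eq hM hPp Subgroup.le_normalizer le_rfl,
    Cfsg.Lib.Blocks.lam_classSum] at h1
  obtain ⟨n, hn1, hn2⟩ : ∃ n : Subgroup.normalizer (P : Set G),
      (Cfsg.Lib.Blocks.brSub P (Subgroup.normalizer (P : Set G))
        (Cfsg.Lib.Blocks.classSum (Cfsg.Lib.Blocks.ResF M) g)).coeff n ≠ 0 ∧
      Cfsg.Lib.Blocks.red M (Cfsg.centralChar (ξ : Subgroup.normalizer (P : Set G) → ℂ) n) ≠ 0 := by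
    by_contra hh
    push Not at hh
    exact hne' (h1.symm.trans (Cfsg.Lib.Blocks.lam_eq_zero_of_support ξ hh))
  rw [Cfsg.Lib.Blocks.coeff_brSub, Cfsg.Lib.Blocks.coeff_classSum] at hn1
  have hnC : (n : G) ∈ Subgroup.centralizer (P : Set G) := by
    by_contra hc
    exact hn1 (if_neg hc)
  rw [if_pos hnC] at hn1
  have hgn : IsConj g (n : G) := by
    by_contra hc
    exact hn1 (if_neg hc)
  refine ⟨n, hgn, hnC, fun z hz => ?_⟩
  obtain ⟨y, hzy, hcomm, ⟨k, hk⟩, hy⟩ := hz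
  obtain ⟨a, c, hac, hcac, ⟨j, hj⟩, hc⟩ := Cfsg.Lib.Blocks.exists_pPart_commute (p := p) n
  have haz : (a : G) = z := (Cfsg.Lib.Blocks.pPart_unique (q := p) (b := (c : G)) (b' := y)
    (by rw [hzy, ← hac]; rfl) (hcac.map (Subgroup.normalizer (P : Set G)).subtype) hcomm
    ⟨j, (Subgroup.orderOf_coe a).trans hj⟩ ⟨k, hk⟩ (by rwa [Subgroup.orderOf_coe]) hy).1
  have hzP : z ∈ P := by
    obtain ⟨D', hD', haD⟩ : ∃ D', Cfsg.IsDefectGroup p M b D' ∧ a ∈ D' := by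
      by_contra hh
      push Not at hh
      refine hn2 ?_
      have h0 := Cfsg.Lib.Blocks.char_eq_zero_of_notMem_defect hM ξ (g := n)
        ⟨c, hac, hcac, ⟨j, hj⟩, hc⟩ (Cfsg.Lib.Blocks.IsPBlock.eq_blockOf hb hξ ▸ hh)
      rw [Cfsg.centralChar, h0, mul_zero, zero_div, Cfsg.Lib.Blocks.red_zero]
    obtain ⟨t, rfl⟩ := Cfsg.Lib.Blocks.defectGroup_conj hM hb hbP hD'
    rw [Cfsg.Lib.Blocks.mem_conjSub, Subgroup.mem_subgroupOf] at haD
    have h2 := (Subgroup.mem_normalizer_iff.mp t.2 _).mp haD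
    rw [← haz]
    simpa [mul_assoc] using h2
  refine ⟨hzP, fun w hw => ?_⟩
  have hwn : w * (n : G) = n * w := Subgroup.mem_centralizer_iff.mp hnC w hw
  have heq : w * z * w⁻¹ * (w * y * w⁻¹) = z * y := by
    calc w * z * w⁻¹ * (w * y * w⁻¹) = w * (z * y) * w⁻¹ := by group
      _ = z * y := by rw [hzy, hwn, mul_inv_cancel_right]
  have h3 := (Cfsg.Lib.Blocks.pPart_unique (q := p) heq (hcomm.map (MulAut.conj w).toMonoidHom) hcomm
    ⟨k, by rw [← hk]; exact MulEquiv.orderOf_eq (MulAut.conj w) z⟩ ⟨k, hk⟩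
    (by rwa [show orderOf (w * y * w⁻¹) = orderOf y from MulEquiv.orderOf_eq (MulAut.conj w) y]) hy).1
  exact (mul_inv_eq_iff_eq_mul.mp h3).symm

end Cfsg.Agent.S0929
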