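import Cfsg.Statements.S0930
import Mathlib
import Cfsg.Agent.Lib.Blocks.Heights
import Cfsg.Agent.S0929

set_option autoImplicit false
open Cfsg

namespace Cfsg.Agent.S0930

/-- Let H be a subgroup of the finite group G and fix a maximal ideal M of the algebraic integers containing the prime p. If the block b of H with defect group D induces the block B of G with defect group P, then every element of the centre of P is conjugate in G to an element of the centre of D. -/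
theorem result {G : Type*} [Group G] [Finite G] (p : ℕ) [Fact p.Prime] (M : Ideal Cfsg.AlgInt) (hM : Cfsg.IsPModular p M) (H : Subgroup G) (b : Set (Cfsg.IrrCharacter H)) (B : Set (Cfsg.IrrCharacter G)) (hind : Cfsg.IsInducedBlock M H b B) (D : Subgroup H) (hD : Cfsg.IsDefectGroup p M b D) (P : Subgroup G) (hP : Cfsg.IsDefectGroup p M B P) (x : G) (hx : x ∈ P) (hxc : ∀ w ∈ P, x * w = w * x) : ∃ g : G, g * x * g⁻¹ ∈ D.map H.subtype ∧ ∀ w ∈ D.map H.subtype, (g * x * g⁻¹) * w = w * (g * x * g⁻¹) := by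
  haveI := hM.2.1.isPrime
  haveI := Fintype.ofFinite G
  classical
  obtain ⟨y, hy, hs⟩ := Cfsg.Lib.Blocks.isDefectGroup_iff.mp hP
  obtain ⟨χ, hχ⟩ := Cfsg.Lib.Blocks.IsPBlock.nonempty hind.2.1
  obtain ⟨ξ, hξ⟩ := Cfsg.Lib.Blocks.IsPBlock.nonempty hind.1
  have hne := Cfsg.Lib.Blocks.centralChar_defect_central_ne hM hind.2.1 hy hs hx hxc hχ
  have h1 := (Cfsg.Lib.Blocks.isInducedBlock_iff hind.1 hind.2.1 hξ hχ).mp hind _
    (Cfsg.Lib.Blocks.isClassElt_classSum _ (x * y))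
  rw [Cfsg.Lib.Blocks.lam_classSum] at h1
  obtain ⟨h, hh1, hh2⟩ : ∃ h : H, IsConj (x * y) (h : G) ∧
      Cfsg.Lib.Blocks.red M (Cfsg.centralChar (ξ : H → ℂ) h) ≠ 0 := by
    by_contra hh
    push Not at hh
    refine hne (h1.symm.trans (Cfsg.Lib.Blocks.lam_eq_zero_of_support ξ fun h hc => ?_))
    rw [Cfsg.Lib.Blocks.coeff_resSub, Cfsg.Lib.Blocks.coeff_classSum] at hc
    refine hh h ?_
    by_contra hconj
    exact hc (if_neg hconj)
  obtain ⟨h', hhh', -, hz⟩ := Cfsg.Agent.S0929.result p M hM b hind.1 D hD h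
    ⟨ξ, hξ, fun hm => hh2 (Cfsg.Lib.Blocks.memLocalIdeal_iff.mp hm).2⟩
  obtain ⟨t, ht⟩ := isConj_iff.mp (hh1.trans (H.subtype.map_isConj hhh'))
  obtain ⟨a, c, hac, hcac, ⟨j, hj⟩, hc⟩ := Cfsg.Lib.Blocks.exists_pPart_commute (p := p) h'
  obtain ⟨haD, haw⟩ := hz a ⟨c, hac, hcac, ⟨j, hj⟩, hc⟩
  have hcxy : Commute x y := Subgroup.mem_centralizer_singleton_iff.mp (hs.le hx)
  have hreg := Cfsg.Lib.Blocks.not_dvd_of_coeff_ne hM hind.2.1
    (Cfsg.Lib.Blocks.exists_defectClass_data hy).2.1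
  obtain ⟨k, hk⟩ := IsPGroup.iff_orderOf.mp hs.isPGroup ⟨x, hx⟩
  rw [Subgroup.orderOf_mk] at hk
  have heq : t * x * t⁻¹ * (t * y * t⁻¹) = (a : G) * (c : G) := by
    calc t * x * t⁻¹ * (t * y * t⁻¹) = t * (x * y) * t⁻¹ := by group
      _ = (a : G) * (c : G) := ht.trans (congrArg Subtype.val hac.symm)
  have hxa : t * x * t⁻¹ = (a : G) := (Cfsg.Lib.Blocks.pPart_unique (q := p) heq
    (hcxy.map (MulAut.conj t).toMonoidHom) (hcac.map H.subtype)
    ⟨k, by rw [← hk]; exact MulEquiv.orderOf_eq (MulAut.conj t) x⟩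
    ⟨j, (Subgroup.orderOf_coe a).trans hj⟩
    (by rwa [show orderOf (t * y * t⁻¹) = orderOf y from MulEquiv.orderOf_eq (MulAut.conj t) y])
    (by rwa [Subgroup.orderOf_coe])).1
  refine ⟨t, hxa ▸ ⟨a, haD, rfl⟩, ?_⟩
  rintro w ⟨w, hw, rfl⟩
  rw [hxa]
  exact congrArg Subtype.val (haw w hw)

end Cfsg.Agent.S0930
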