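import Cfsg.Statements.S0931
import Mathlib
import Cfsg.Agent.Lib.Blocks.Induction

set_option autoImplicit false
open Cfsg

namespace Cfsg.Agent.S0931

/-- Let H be a subgroup of the finite group G and fix a maximal ideal M of the algebraic integers containing the prime p. If the block b of H induces the block B of G, then b has defect 0 if and only if B has defect 0. -/
theorem result {G : Type*} [Group G] [Finite G] (p : ℕ) [Fact p.Prime] (M : Ideal Cfsg.AlgInt) (hM : Cfsg.IsPModular p M) (H : Subgroup G) (b : Set (Cfsg.IrrCharacter H)) (B : Set (Cfsg.IrrCharacter G)) (hind : Cfsg.IsInducedBlock M H b B) : Cfsg.blockDefect p b = 0 ↔ Cfsg.blockDefect p B = 0 := by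
  haveI := hM.2.1.isPrime
  haveI := Fintype.ofFinite G
  classical
  rw [Cfsg.Lib.Blocks.blockDefect_eq_zero_iff hM hind.1,
    Cfsg.Lib.Blocks.blockDefect_eq_zero_iff hM hind.2.1]
  constructor
  · intro hb
    obtain ⟨ξ, hξ⟩ := Cfsg.Lib.Blocks.IsPBlock.nonempty hind.1
    obtain ⟨χ, hχ⟩ := Cfsg.Lib.Blocks.IsPBlock.nonempty hind.2.1
    obtain ⟨D, hD⟩ := Cfsg.Lib.Blocks.exists_defectGroup hM hind.2.1
    have h1 := (Cfsg.Lib.Blocks.isInducedBlock_iff hind.1 hind.2.1 hξ hχ).mp hind _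
      (Cfsg.Lib.Blocks.isClassElt_pTorsSum (p := p) _)
    rw [Cfsg.Lib.Blocks.resSub_pTorsSum,
      Cfsg.Lib.Blocks.lam_pTorsSum_eq_one_of_bot hM hind.1 hξ hb] at h1
    have := Cfsg.Lib.Blocks.defectGroup_eq_bot_of_lam_pTorsSum hM hind.2.1 hχ
      (h1 ▸ one_ne_zero) hD
    rwa [this] at hD
  · intro hB
    obtain ⟨D, hD⟩ := Cfsg.Lib.Blocks.exists_defectGroup hM hind.1
    have h1 := Cfsg.Lib.Blocks.card_map_subtype_le hM hind hD hB
    rw [Subgroup.card_bot] at h1
    rwa [Subgroup.card_eq_one.mp (le_antisymm h1 Nat.card_pos)] at hD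

end Cfsg.Agent.S0931
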