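import Cfsg.Statements.S0932
import Mathlib
import Cfsg.Agent.Lib.Blocks.Kernel
import Cfsg.Agent.Lib.Characters.Induction

set_option autoImplicit false
open Cfsg

namespace Cfsg.Agent.S0932

/-- Let H be a subgroup of the finite group G and ξ a character of H. For every g ∈ G, the sum of ξ h / ξ 1 over the elements h ∈ H that are conjugate in G to g equals the central character at g of the character of G induced from ξ (class size times value divided by degree). -/
theorem result {G : Type*} [Group G] [Fintype G] (H : Subgroup G) (ξ : H → ℂ) (hξ : Cfsg.IsCharacter H ξ) (g : G) : Cfsg.inducedCentralChar H ξ g = Cfsg.centralChar (Cfsg.indFun H ξ) g := by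
  classical
  have hfib : ∀ y : G, ((Finset.univ.filter fun x : G => x⁻¹ * g * x = y).card : ℂ)
      = if IsConj g y then (Nat.card (Subgroup.centralizer ({g} : Set G)) : ℂ) else 0 := by
    intro y
    split_ifs with hc
    · obtain ⟨a, ha⟩ := isConj_iff.mp hc
      rw [Nat.card_eq_fintype_card, Nat.cast_inj, ← Fintype.card_subtype]
      refine Fintype.card_congr
        { toFun := fun x => ⟨x.1 * a, Subgroup.mem_centralizer_singleton_iff.mpr
            (mul_inv_eq_iff_eq_mul.mp (by
              calc x.1 * a * g * (x.1 * a)⁻¹ = x.1 * (a * g * a⁻¹) * x.1⁻¹ := by group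
                _ = x.1 * (x.1⁻¹ * g * x.1) * x.1⁻¹ := by rw [ha, x.2]
                _ = g := by group))⟩
          invFun := fun c => ⟨c.1 * a⁻¹, by
            have hcg : c.1⁻¹ * g * c.1 = g := by
              rw [mul_assoc, ← Subgroup.mem_centralizer_singleton_iff.mp c.2, inv_mul_cancel_left]
            calc (c.1 * a⁻¹)⁻¹ * g * (c.1 * a⁻¹) = a * (c.1⁻¹ * g * c.1) * a⁻¹ := by group
              _ = y := by rw [hcg, ha]⟩
          left_inv := fun x => by simp
          right_inv := fun c => by simp }
    · rw [Finset.filter_eq_empty_iff.mpr fun x _ hx => hc (isConj_iff.mpr ⟨x⁻¹, by simpa using hx⟩)]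
      simp
  have hsum : ∑ x : G, Cfsg.extendByZero H ξ (x⁻¹ * g * x)
      = (Nat.card (Subgroup.centralizer ({g} : Set G)) : ℂ)
        * ∑ h : H, (if IsConj g (h : G) then ξ h else 0) := by
    rw [← Finset.sum_fiberwise Finset.univ (fun x : G => x⁻¹ * g * x), Finset.mul_sum]
    rw [Finset.sum_congr rfl (g := fun y : G => Cfsg.extendByZero H ξ y *
      (if IsConj g y then (Nat.card (Subgroup.centralizer ({g} : Set G)) : ℂ) else 0)) fun y _ => by
        rw [Finset.sum_congr rfl (g := fun _ => Cfsg.extendByZero H ξ y) fun x hx => by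
          rw [(Finset.mem_filter.mp hx).2], Finset.sum_const, nsmul_eq_mul, hfib, mul_comm],
      Cfsg.Lib.Characters.sum_extendByZero]
    refine Finset.sum_congr rfl fun h _ => ?_
    split_ifs <;> ring
  rw [Cfsg.inducedCentralChar, Cfsg.centralChar, Cfsg.Lib.Characters.indFun_one_apply,
    Cfsg.indFun, finsum_mem_def, finsum_eq_sum_of_fintype, hsum]
  have hG : ((Subgroup.centralizer ({g} : Set G)).index : ℂ) *
      Nat.card (Subgroup.centralizer ({g} : Set G)) = (Nat.card H : ℂ) * H.index := by
    rw [← Nat.cast_mul, ← Nat.cast_mul, Subgroup.index_mul_card, H.card_mul_index]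
  have hH : (Nat.card H : ℂ) ≠ 0 := Nat.cast_ne_zero.mpr Nat.card_pos.ne'
  have hI : (H.index : ℂ) ≠ 0 := Nat.cast_ne_zero.mpr H.index_ne_zero_of_finite
  rw [show ((Subgroup.centralizer ({g} : Set G)).index : ℂ) * ((Nat.card H : ℂ)⁻¹ *
      ((Nat.card (Subgroup.centralizer ({g} : Set G)) : ℂ) *
        ∑ h : H, if IsConj g (h : G) then ξ h else 0))
    = (Nat.card H : ℂ)⁻¹ * (((Subgroup.centralizer ({g} : Set G)).index : ℂ) *
      Nat.card (Subgroup.centralizer ({g} : Set G))) * ∑ h : H, (if IsConj g (h : G) then ξ h else 0)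
    by ring, hG, inv_mul_cancel_left₀ hH, mul_div_mul_left _ _ hI, Finset.sum_div]
  refine Finset.sum_congr rfl fun h _ => ?_
  simp only [Set.indicator_apply, Set.mem_setOf_eq, ite_div, zero_div]

end Cfsg.Agent.S0932
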