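import Cfsg.Statements.S0933
import Mathlib
import Cfsg.Agent.Lib.Blocks.Heights
import Cfsg.Agent.Lib.Blocks.RegInner
import Cfsg.Agent.Lib.Characters.Induction

set_option autoImplicit false
open Cfsg
set_option maxHeartbeats 1000000

namespace Cfsg.Agent.S0933

/-- Let H be a subgroup of the finite group G and ξ an irreducible character of H such that the induced function ξ^G is an irreducible character of G. Then, relative to any maximal ideal M of the algebraic integers containing the prime p, the block of ξ induces the block of ξ^G. -/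
theorem result {G : Type*} [Group G] [Fintype G] (p : ℕ) [Fact p.Prime] (M : Ideal Cfsg.AlgInt) (hM : Cfsg.IsPModular p M) (H : Subgroup G) (ξ : Cfsg.IrrCharacter H) (hind : Cfsg.IsIrrCharacter G (Cfsg.indFun H (ξ : H → ℂ))) : Cfsg.IsInducedBlock M H (Cfsg.blockOf M (ξ : H → ℂ)) (Cfsg.blockOf M (Cfsg.indFun H (ξ : H → ℂ))) := by
  haveI := hM.2.1.isPrime
  classical
  haveI := Fintype.ofFinite H
  open Cfsg.Lib.Blocks Cfsg.Lib.Characters in
  · let χ : IrrCharacter G := ⟨_, hind⟩
    have key : ∀ z : MonoidAlgebra ℂ G, IsClassElt z → omega χ z = omega ξ (resSub H z) := by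
      intro z hz
      rw [omega, omega]
      simp only [coeff_resSub]
      have h1 : (χ : G → ℂ) 1 = (H.index : ℂ) * (ξ : H → ℂ) 1 := indFun_one_apply H _
      have h2 : ∑ g, z.coeff g * (χ : G → ℂ) g = (H.index : ℂ) * ∑ h : H, z.coeff (h : G) * (ξ : H → ℂ) h := by
        show ∑ g, z.coeff g * indFun H (ξ : H → ℂ) g = _
        have hx : ∀ x : G, ∑ g, z.coeff g * extendByZero H (ξ : H → ℂ) (x⁻¹ * g * x)
            = ∑ h : H, z.coeff (h : G) * (ξ : H → ℂ) h := by
          intro x
          rw [Fintype.sum_equiv (MulAut.conj x⁻¹).toEquiv _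
            (fun y => z.coeff y * extendByZero H (ξ : H → ℂ) y) fun g => by
              show _ = z.coeff (x⁻¹ * g * x⁻¹⁻¹) * _
              rw [hz x⁻¹ g]; simp,
            ← Finset.sum_subset (Finset.subset_univ (Finset.univ.filter (· ∈ H))) fun g _ hg => by
              rw [extendByZero_not_mem _ (by simpa using hg), mul_zero],
            Finset.sum_subtype (p := (· ∈ H)) (Finset.univ.filter (· ∈ H)) fun x => by simp]
          exact Finset.sum_congr rfl fun h _ => by rw [extendByZero_coe]
        have hi : ∀ g, indFun H (ξ : H → ℂ) g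
            = (Nat.card H : ℂ)⁻¹ * ∑ x : G, extendByZero H (ξ : H → ℂ) (x⁻¹ * g * x) := fun g => rfl
        rw [Finset.sum_congr rfl fun g _ => show z.coeff g * indFun H (ξ : H → ℂ) g
            = (Nat.card H : ℂ)⁻¹ * ∑ x : G, z.coeff g * extendByZero H (ξ : H → ℂ) (x⁻¹ * g * x) by
          rw [hi, Finset.mul_sum, Finset.mul_sum, Finset.mul_sum]
          exact Finset.sum_congr rfl fun x _ => by ring, ← Finset.mul_sum, Finset.sum_comm,
          Finset.sum_congr rfl fun x _ => hx x, Finset.sum_const, Finset.card_univ, nsmul_eq_mul]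
        rw [← mul_assoc, ← Nat.card_eq_fintype_card, ← Subgroup.card_mul_index H, Nat.cast_mul,
          ← mul_assoc, inv_mul_cancel₀ (Nat.cast_ne_zero.mpr Nat.card_pos.ne'), one_mul]
      rw [h1, h2, mul_div_mul_left _ _ (Nat.cast_ne_zero.mpr Subgroup.index_ne_zero_of_finite)]
    refine (isInducedBlock_iff (ξ := ξ) (χ := χ) ⟨ξ, rfl⟩ ⟨χ, rfl⟩ (mem_blockOf_self M ξ) (mem_blockOf_self M χ)).mpr
      fun u hu => ?_
    obtain ⟨z, hz, rfl⟩ := exists_lift M hu
    have hr : resSub H z ∈ locCenter H M := ⟨hz.1.resSub _, fun h => by rw [coeff_resSub]; exact hz.2 _⟩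
    rw [lam_redG M χ hz, key z hz.1, ← lam_redG M ξ hr]
    rw [resSub_redG]
    congr! 1

end Cfsg.Agent.S0933
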