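import Cfsg.Statements.S0935
import Mathlib
import Cfsg.Agent.Lib.Blocks.RegInner

set_option autoImplicit false
open Cfsg

namespace Cfsg.Agent.S0935

/-- Let H be a subgroup of the finite group G and χ an irreducible character of G whose restriction to H is irreducible; fix a maximal ideal M of the algebraic integers containing the prime p and suppose χ and its restriction have height zero in their blocks B and b. If e is a block of H whose induced block is defined, then e induces B if and only if e = b. -/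
theorem result {G : Type*} [Group G] [Finite G] (p : ℕ) [Fact p.Prime] (M : Ideal Cfsg.AlgInt) (hM : Cfsg.IsPModular p M) (H : Subgroup G) (χ : Cfsg.IrrCharacter G) (hres : Cfsg.IsIrrCharacter H (fun h : H => (χ : G → ℂ) h)) (hχ0 : Cfsg.blockHeight p (Cfsg.blockOf M (χ : G → ℂ)) (χ : G → ℂ) = 0) (hψ0 : Cfsg.blockHeight p (Cfsg.blockOf M (fun h : H => (χ : G → ℂ) h)) (fun h : H => (χ : G → ℂ) h) = 0) (e : Set (Cfsg.IrrCharacter H)) (he : Cfsg.InducedBlockDefined M H e) : Cfsg.IsInducedBlock M H e (Cfsg.blockOf M (χ : G → ℂ)) ↔ e = Cfsg.blockOf M (fun h : H => (χ : G → ℂ) h) := by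
  haveI := hM.2.1.isPrime
  haveI := Fintype.ofFinite G
  classical
  let ψ : Cfsg.IrrCharacter H := ⟨_, hres⟩
  have hB : Cfsg.IsPBlock M (Cfsg.blockOf M (χ : G → ℂ)) := ⟨χ, rfl⟩
  have hb : Cfsg.IsPBlock M (Cfsg.blockOf M (ψ : H → ℂ)) := ⟨ψ, rfl⟩
  have hχ := Cfsg.Lib.Blocks.mem_blockOf_self M χ
  have hψ := Cfsg.Lib.Blocks.mem_blockOf_self M ψ
  have hχne := (Cfsg.Lib.Blocks.lam_zc_ne_zero_iff hM hB hχ hχ).mpr hχ0
  have hψne := (Cfsg.Lib.Blocks.lam_zc_ne_zero_iff hM hb hψ hψ).mpr hψ0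
  have hzc := Cfsg.Lib.Blocks.isClassElt_redG M
    (Cfsg.Lib.Blocks.zc_mem_locCenter (M := M) p χ.2.isCharacter).1
  show _ ↔ e = Cfsg.blockOf M (ψ : H → ℂ)
  constructor
  · intro h
    obtain ⟨ξ, hξ⟩ := Cfsg.Lib.Blocks.IsPBlock.nonempty h.1
    have h1 := (Cfsg.Lib.Blocks.isInducedBlock_iff h.1 hB hξ hχ).mp h _ hzc
    rw [Cfsg.Lib.Blocks.resSub_redG_zc] at h1
    refine Cfsg.Lib.Blocks.IsPBlock.eq_of_mem h.1 hb hξ ?_
    by_contra hne
    rw [← h1] at hχne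
    exact hχne (Cfsg.Lib.Blocks.lam_zc_eq_zero hM (χ := ψ) fun hs =>
      hne (Cfsg.Lib.Blocks.IsPBlock.mem_of_sameBlock hb hψ hs))
  · rintro rfl
    obtain ⟨B', hB'⟩ := he
    obtain ⟨χ', hχ'⟩ := Cfsg.Lib.Blocks.IsPBlock.nonempty hB'.2.1
    have h1 := (Cfsg.Lib.Blocks.isInducedBlock_iff hB'.1 hB'.2.1 (ξ := ψ) hψ hχ').mp hB' _ hzc
    rw [Cfsg.Lib.Blocks.resSub_redG_zc] at h1
    have hs : Cfsg.SameBlock M (χ : G → ℂ) (χ' : G → ℂ) := by
      by_contra hne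
      exact hψne (h1.trans (Cfsg.Lib.Blocks.lam_zc_eq_zero hM hne))
    have hBB : B' = Cfsg.blockOf M (χ : G → ℂ) :=
      Cfsg.Lib.Blocks.IsPBlock.eq_of_mem hB'.2.1 hB hχ'
        (Cfsg.Lib.Blocks.IsPBlock.mem_of_sameBlock hB hχ hs)
    exact hBB ▸ hB'

end Cfsg.Agent.S0935
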