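import Cfsg.Statements.S0938
import Mathlib
import Cfsg.Agent.Lib.Blocks.Principal

set_option autoImplicit false
open Cfsg

namespace Cfsg.Agent.S0938

/-- Let B be a block of the finite group G relative to a maximal ideal M of the algebraic integers containing the prime p, and let χ ∈ B. Then the kernel of B (the set of g with ψ g = ψ 1 for all ψ ∈ B) is a normal subgroup of order prime to p contained in the kernel of χ, and it contains every normal subgroup of order prime to p on which χ takes the value χ(1); that is, it is O_p' of the kernel of χ. -/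
theorem result {G : Type*} [Group G] [Finite G] (p : ℕ) [Fact p.Prime] (M : Ideal Cfsg.AlgInt) (hM : Cfsg.IsPModular p M) (B : Set (Cfsg.IrrCharacter G)) (hB : Cfsg.IsPBlock M B) (χ : Cfsg.IrrCharacter G) (hχ : χ ∈ B) : ∃ K : Subgroup G, K.Normal ∧ (K : Set G) = Cfsg.blockKer B ∧ ¬ p ∣ Nat.card K ∧ (∀ g ∈ K, (χ : G → ℂ) g = (χ : G → ℂ) 1) ∧ ∀ N : Subgroup G, N.Normal → ¬ p ∣ Nat.card N → (∀ g ∈ N, (χ : G → ℂ) g = (χ : G → ℂ) 1) → N ≤ K := by
  haveI := hM.2.1.isPrime
  haveI := Fintype.ofFinite G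
  classical
  let K : Subgroup G := ⨅ ψ : {ψ : Cfsg.IrrCharacter G // ψ ∈ B},
    Cfsg.Lib.Characters.charKer ψ.1.2.isCharacter
  have hK : ∀ g, g ∈ K ↔ ∀ ψ ∈ B, (ψ : G → ℂ) g = (ψ : G → ℂ) 1 := by
    intro g
    simp [K, Subgroup.mem_iInf]
  refine ⟨K, ?_, ?_, ?_, fun g hg => (hK g).mp hg χ hχ, fun N hN hNp hNk g hg => ?_⟩
  · exact Subgroup.normal_iInf_normal fun ψ => Cfsg.Lib.Characters.charKer_normal ψ.1.2.isCharacter
  · ext g
    exact hK g
  · intro hdvd
    obtain ⟨u, hu⟩ := exists_prime_orderOf_dvd_card' p hdvd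
    have hu' : p ∣ orderOf (u : G) := by rw [Subgroup.orderOf_coe, hu]
    have h := Cfsg.Lib.Blocks.kerB_eq_zero_of_regular hM hB
      (g := (1 : G)) (by simpa using (Fact.out : p.Prime).ne_one) hu'
    have hval : Cfsg.Lib.Blocks.kerB B (1 : G) (u : G) = Cfsg.Lib.Blocks.kerB B (1 : G) (1 : G) := by
      refine Finset.sum_congr rfl fun ψ _ => ?_
      split_ifs with hψ
      · rw [(hK _).mp (K.inv_mem u.2) ψ hψ, inv_one]
      · rfl
    rw [hval, Cfsg.Lib.Blocks.kerB_self_eq, Complex.ofReal_eq_zero, finsum_mem_def,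
      finsum_eq_sum_of_fintype] at h
    have h1 := (Finset.sum_eq_zero_iff_of_nonneg fun ψ _ =>
      Set.indicator_nonneg (fun _ _ => sq_nonneg _) ψ).mp h χ (Finset.mem_univ χ)
    rw [Set.indicator_of_mem hχ] at h1
    exact χ.2.one_ne_zero (by simpa using h1)
  · haveI := hN
    exact (hK g).mpr fun ψ hψ => Cfsg.Lib.Blocks.ker_of_sameBlock hM N hNp
      (Cfsg.Lib.Blocks.IsPBlock.sameBlock hB hχ hψ) hNk g hg

end Cfsg.Agent.S0938
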