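import Cfsg.Statements.S0940
import Mathlib
import Cfsg.Agent.Lib.Blocks.Integral
import Cfsg.Agent.Lib.Blocks.Principal

set_option autoImplicit false
open Cfsg
open scoped ComplexConjugate

namespace Cfsg.Agent.S0940

/-- Let G be a finite group and M a maximal ideal of the algebraic integers containing the prime p. For every p-regular g, the idempotent coefficient of the principal block at g (the inverse of the group order times the sum over χ in the principal block of χ 1 * conj (χ g)) is congruent modulo the local ideal at M to N / R, where N is the number of pairs (x, y) with x of p-power order, y of order prime to p and x * y = g, and R is the number of elements of G of order prime to p. -/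
theorem result {G : Type*} [Group G] [Finite G] (p : ℕ) [Fact p.Prime] (M : Ideal Cfsg.AlgInt) (hM : Cfsg.IsPModular p M) (g : G) (hg : ¬ p ∣ orderOf g) : Cfsg.MemLocalIdeal M (Cfsg.blockCoeff (Cfsg.principalBlock M G) g - (Nat.card {xy : G × G // (∃ k : ℕ, orderOf xy.1 = p ^ k) ∧ ¬ p ∣ orderOf xy.2 ∧ xy.1 * xy.2 = g} : ℂ) / (Nat.card {y : G // ¬ p ∣ orderOf y} : ℂ)) := by
  haveI := hM.2.1.isPrime
  haveI := Fintype.ofFinite G
  classical
  open Cfsg.Lib.Blocks Cfsg.Lib.Characters in
  · set B := Cfsg.principalBlock M G with hBdef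
    have hB : Cfsg.IsPBlock M B := isPBlock_principal
    set R := (Finset.univ.filter fun y : G => ¬ p ∣ orderOf y).card with hR
    have hsec : ∀ x : G, InSec p 1 x ↔ ∃ k : ℕ, orderOf x = p ^ k := by
      intro x
      constructor
      · rintro ⟨a, b, rfl, -, ha, -, hb⟩
        rw [isConj_one_right.mp hb, mul_one]; exact ha
      · exact fun hx => ⟨x, 1, mul_one x, Commute.one_right x, hx,
          by simpa using (Fact.out : p.Prime).ne_one, IsConj.refl 1⟩
    have hF := rComb_section (G := G) hM (y := 1) (by simpa using (Fact.out : p.Prime).ne_one)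
    set u : MonoidAlgebra ℂ G := gOfFun fun x => if InSec p 1 x then (1 : ℂ) else 0 with hu
    have hucl : IsClassElt u := fun a x => by
      simp only [hu, coeff_gOfFun]
      exact hF.isClassFunction x a
    set s := fun χ : Cfsg.IrrCharacter G => (Nat.card G : ℂ)⁻¹ *
      ∑ x : G, (if InSec p 1 x then (1 : ℂ) else 0) * (χ : G → ℂ) x with hs
    have hsmem : ∀ χ, s χ ∈ locRing M := by
      intro χ
      have h := hF.classInner_character_mem (isCharacter_conj χ.2.isCharacter)
      simpa [hs, Cfsg.classInner] using h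
    set A := fun χ : Cfsg.IrrCharacter G => omega χ (regSum ℂ p G) with hA
    have hcount : (Nat.card {xy : G × G // (∃ k : ℕ, orderOf xy.1 = p ^ k) ∧
        ¬ p ∣ orderOf xy.2 ∧ xy.1 * xy.2 = g} : ℂ)
        = ∑ χ, s χ * A χ * conj ((χ : G → ℂ) g) := by
      have h1 : (u * regSum ℂ p G).coeff g
          = ((Finset.univ.filter fun x : G => InSec p 1 x ∧ ¬ p ∣ orderOf (x⁻¹ * g)).card : ℂ) := by
        rw [gr_mul_apply, Finset.natCast_card_filter]
        refine Finset.sum_congr rfl fun x _ => ?_
        simp only [hu, coeff_gOfFun, coeff_regSum]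
        by_cases ha : InSec p 1 x <;> by_cases hb : p ∣ orderOf (x⁻¹ * g) <;> simp [ha, hb]
      have h2 : Nat.card {xy : G × G // (∃ k : ℕ, orderOf xy.1 = p ^ k) ∧
          ¬ p ∣ orderOf xy.2 ∧ xy.1 * xy.2 = g}
          = (Finset.univ.filter fun x : G => InSec p 1 x ∧ ¬ p ∣ orderOf (x⁻¹ * g)).card := by
        rw [← Fintype.card_subtype, ← Nat.card_eq_fintype_card]
        refine Nat.card_congr
          { toFun := fun v => ⟨v.1.1, (hsec _).mpr v.2.1,
              (eq_inv_mul_of_mul_eq v.2.2.2) ▸ v.2.2.1⟩
            invFun := fun x => ⟨(x.1, x.1⁻¹ * g), (hsec _).mp x.2.1, x.2.2, mul_inv_cancel_left _ _⟩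
            left_inv := fun v => Subtype.ext (Prod.ext rfl (eq_inv_mul_of_mul_eq v.2.2.2).symm)
            right_inv := fun x => rfl }
      rw [h2, ← h1, coeff_eq_sum_omega (hucl.mul (isClassElt_regSum ℂ)), Finset.mul_sum]
      refine Finset.sum_congr rfl fun χ _ => ?_
      rw [omega_mul χ hucl (isClassElt_regSum ℂ)]
      simp only [hA, hs, omega, hu, coeff_gOfFun]
      have := χ.2.one_ne_zero
      field_simp
    have hcB : (R : ℂ) * Cfsg.blockCoeff B g
        = ∑ χ, s χ * (if χ ∈ B then (R : ℂ) else 0) * conj ((χ : G → ℂ) g) := by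
      rw [blockCoeff_eq]
      have h1 : ∀ x : G, (if InSec p 1 x then kerB B x g else 0)
          = if x = 1 then kerB B 1 g else 0 := by
        intro x
        by_cases hx1 : x = 1
        · subst hx1
          rw [if_pos ((hsec 1).mpr ⟨0, by simp⟩), if_pos rfl]
        · rw [if_neg hx1]
          split_ifs with hxs
          · obtain ⟨k, hk⟩ := (hsec x).mp hxs
            have hd : p ∣ orderOf x := by
              by_contra hr
              exact hx1 (eq_one_of_pPow_regular hk hr)
            rw [← kerB_symm, kerB_eq_zero_of_regular hM hB hg hd, map_zero]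
          · rfl
      have h2 : ∑ x : G, (if InSec p 1 x then kerB B x g else 0) = kerB B 1 g := by
        simp only [h1, Finset.sum_ite_eq', Finset.mem_univ, if_true]
      have h3 : ∑ χ : Cfsg.IrrCharacter G, (if χ ∈ B then (χ : G → ℂ) 1 * conj ((χ : G → ℂ) g) else 0)
          = kerB B 1 g := by
        refine Finset.sum_congr rfl fun χ _ => ?_
        rw [char_inv_eq_conj χ.2.isCharacter]
      rw [h3, ← h2]
      simp only [kerB, hs, Finset.mul_sum, Finset.sum_mul]
      rw [Finset.sum_comm]
      refine Finset.sum_congr rfl fun x _ => ?_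
      split_ifs with hx
      · rw [Finset.mul_sum, Finset.mul_sum]
        refine Finset.sum_congr rfl fun χ _ => ?_
        rw [char_inv_eq_conj χ.2.isCharacter]
        split_ifs <;> ring
      · simp
    have hAmem : ∀ χ, A χ ∈ locRing M := fun χ => omega_mem_locRing M χ regSum_mem_locCenter
    have hAred : ∀ χ, red M (A χ) = red M (if χ ∈ B then (R : ℂ) else 0) := by
      intro χ
      have h1 : lam M χ (regSum (ResF M) p G) = red M (A χ) := by
        rw [← redG_regSum, lam_redG M χ regSum_mem_locCenter]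
      rw [← h1]
      split_ifs with hχ
      · rw [← lam_eq_of_sameBlock M (show Cfsg.SameBlock M (trivChar G : G → ℂ) (χ : G → ℂ) from hχ),
          ← redG_regSum, lam_redG M _ regSum_mem_locCenter]
        congr 1
        simp [omega, coeff_regSum, Finset.sum_ite, trivChar, hR]
      · rw [lam_regSum_of_not_mem hM hχ, red_zero]
    have hRdvd : ¬ p ∣ R := not_dvd_card_regular
    obtain ⟨hRi, -⟩ := natCast_inv_mem hM hRdvd
    have hR0 : (R : ℂ) ≠ 0 := Nat.cast_ne_zero.mpr fun h => hRdvd (h ▸ dvd_zero p)
    have hcardR : (Nat.card {y : G // ¬ p ∣ orderOf y} : ℂ) = (R : ℂ) := by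
      rw [Nat.card_eq_fintype_card, Fintype.card_subtype]
    rw [hcardR, hcount]
    have hexp : Cfsg.blockCoeff B g - (∑ χ, s χ * A χ * conj ((χ : G → ℂ) g)) / (R : ℂ)
        = (R : ℂ)⁻¹ * ∑ χ, s χ * ((if χ ∈ B then (R : ℂ) else 0) - A χ) * conj ((χ : G → ℂ) g) := by
      simp only [mul_sub, sub_mul, Finset.sum_sub_distrib, ← hcB]
      field_simp
    rw [hexp, memLocalIdeal_iff]
    have hdmem : ∀ χ, ((if χ ∈ B then (R : ℂ) else 0) - A χ) ∈ locRing M := fun χ => by
      refine sub_mem ?_ (hAmem χ)
      split_ifs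
      · exact natCast_mem _ _
      · exact zero_mem _
    have hgmem : ∀ χ : Cfsg.IrrCharacter G, conj ((χ : G → ℂ) g) ∈ locRing M := fun χ => by
      rw [← char_inv_eq_conj χ.2.isCharacter]; exact char_mem_locRing M χ _
    refine ⟨mul_mem hRi (sum_mem fun χ _ => mul_mem (mul_mem (hsmem χ) (hdmem χ)) (hgmem χ)), ?_⟩
    rw [red_mul hRi (sum_mem fun χ _ => mul_mem (mul_mem (hsmem χ) (hdmem χ)) (hgmem χ)),
      red_sum _ fun χ _ => mul_mem (mul_mem (hsmem χ) (hdmem χ)) (hgmem χ)]
    refine mul_eq_zero_of_right _ (Finset.sum_eq_zero fun χ _ => ?_)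
    rw [red_mul (mul_mem (hsmem χ) (hdmem χ)) (hgmem χ), red_mul (hsmem χ) (hdmem χ)]
    have : red M ((if χ ∈ B then (R : ℂ) else 0) - A χ) = 0 := by
      rw [red_sub (by split_ifs <;> first | exact natCast_mem _ _ | exact zero_mem _) (hAmem χ),
        hAred, sub_self]
    rw [this]; simp

end Cfsg.Agent.S0940
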