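import Cfsg.Statements.S0943
import Mathlib
import Cfsg.Agent.Lib.Blocks.Kernel

set_option autoImplicit false
open Cfsg

namespace Cfsg.Agent.S0943

/-- Let χ be an irreducible character of the finite group G and u, v ∈ G. If χ (x * y) = χ (u * v) whenever x is conjugate to u and y is conjugate to v, then χ u * χ v = χ 1 * χ (u * v). (Multiply the class sums of u and v and apply the central character of χ.) -/
theorem result {G : Type*} [Group G] [Finite G] (χ : Cfsg.IrrCharacter G) (u v : G) (hc : ∀ x y : G, IsConj u x → IsConj v y → (χ : G → ℂ) (x * y) = (χ : G → ℂ) (u * v)) : (χ : G → ℂ) u * (χ : G → ℂ) v = (χ : G → ℂ) 1 * (χ : G → ℂ) (u * v) := by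
  haveI := Fintype.ofFinite G
  classical
  have h1 := Cfsg.Lib.Blocks.sum_conj_mul χ u v
  rw [Finset.sum_congr rfl fun z _ => hc u (z * v * z⁻¹) (IsConj.refl u) (isConj_iff.mpr ⟨z, rfl⟩),
    Finset.sum_const, Finset.card_univ, nsmul_eq_mul, ← Nat.card_eq_fintype_card, mul_div_assoc] at h1
  have h2 := mul_left_cancel₀ (Nat.cast_ne_zero.mpr (Nat.card_pos (α := G)).ne') h1
  rw [h2, mul_div_cancel₀ _ χ.2.one_ne_zero]

end Cfsg.Agent.S0943
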