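import Cfsg.Statements.S0944
import Mathlib
import Cfsg.Agent.Lib.Characters.Basic
import Cfsg.Agent.Lib.Blocks.DefectZero

set_option autoImplicit false
open Cfsg

namespace Cfsg.Agent.S0944

/-- Let χ be an irreducible character of the finite group G and u an involution. Then χ u is a rational integer n with n ≡ χ 1 (mod 2). -/
theorem result {G : Type*} [Group G] [Finite G] (χ : Cfsg.IrrCharacter G) (u : G) (hu : orderOf u = 2) : ∃ n : ℤ, (χ : G → ℂ) u = (n : ℂ) ∧ (2 : ℤ) ∣ (Cfsg.charDegree (χ : G → ℂ) : ℤ) - n := by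
  haveI := Fintype.ofFinite G
  classical
  have hd := Cfsg.Lib.Blocks.coe_charDegree χ
  obtain ⟨χ, n, ρ, hρ, rfl⟩ := χ
  obtain ⟨μ, hμ, -, hpow, -⟩ := Cfsg.Lib.Characters.exists_eigenvalues ρ u
  have h2 : ∀ i, μ i = 1 ∨ μ i = -1 := fun i => by
    have h := hμ i
    rw [hu] at h
    exact sq_eq_one_iff.mp h
  refine ⟨∑ i, (if μ i = 1 then (1 : ℤ) else -1), ?_, ?_⟩
  · show ρ.character u = _
    have h1 := hpow 1
    simp only [pow_one] at h1
    rw [h1]
    push_cast
    refine Finset.sum_congr rfl fun i _ => ?_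
    rcases h2 i with h | h <;> rw [h] <;> norm_num
  · have hdeg : (Cfsg.charDegree (ρ.character) : ℤ) = ∑ _i : Fin (Module.finrank ℂ (Fin n → ℂ)), (1 : ℤ) := by
      rw [Finset.sum_const, Finset.card_univ, Fintype.card_fin, nsmul_eq_mul, mul_one]
      have : (Cfsg.charDegree (ρ.character) : ℂ) = (Module.finrank ℂ (Fin n → ℂ) : ℂ) :=
        hd.trans (Representation.char_one ρ)
      exact_mod_cast this
    show (2 : ℤ) ∣ (Cfsg.charDegree (ρ.character) : ℤ) - _
    rw [hdeg, ← Finset.sum_sub_distrib]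
    refine Finset.dvd_sum fun i _ => ?_
    split_ifs <;> norm_num

end Cfsg.Agent.S0944
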