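import Cfsg.Statements.S0945
import Cfsg.Agent.Lib.Blocks.Homocyclic
-- import your own Cfsg.Agent.* helpers here

set_option autoImplicit false
open Cfsg

namespace Cfsg.Agent.S0945

/-- Let P be a Sylow 2-subgroup of the finite group G isomorphic to Z/2^m × Z/2^m with m ≥ 1. Then (i) the index of C_G(P) in N_G(P) is 1 or 3, and (ii) if it is not 1, then for every z ≠ 1 in P, C_G(z) ∩ N_G(P) = C_G(P). -/
theorem result {G : Type*} [Group G] [Finite G] (P : Sylow 2 G) (m : ℕ) (hm : 1 ≤ m) (e : (P : Subgroup G) ≃* Multiplicative (ZMod (2 ^ m) × ZMod (2 ^ m))) : ((Subgroup.centralizer (P : Set G)).relIndex (Subgroup.normalizer (P : Set G)) = 1 ∨ (Subgroup.centralizer (P : Set G)).relIndex (Subgroup.normalizer (P : Set G)) = 3) ∧ ((Subgroup.centralizer (P : Set G)).relIndex (Subgroup.normalizer (P : Set G)) ≠ 1 → ∀ z ∈ (P : Subgroup G), z ≠ 1 → Subgroup.centralizer ({z} : Set G) ⊓ Subgroup.normalizer (P : Set G) = Subgroup.centralizer (P : Set G))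 := by
  have hc : ∀ a b : ↥(P : Subgroup G), a * b = b * a := fun a b => e.injective (by
    rw [map_mul, map_mul, mul_comm])
  haveI : Fact (Nat.Prime 2) := ⟨Nat.prime_two⟩
  letI := Fintype.ofFinite G
  haveI : NeZero (2 ^ m) := ⟨pow_ne_zero m two_ne_zero⟩
  have h4 : Nat.card {x : ↥(P : Subgroup G) // x ^ 2 = 1} ≤ 4 := Cfsg.Lib.FreeNormalizer.card_sq_le hc m e
  have hodd : Odd (Nat.card (Cfsg.Lib.FreeNormalizer.aut P)) := Cfsg.Lib.FreeNormalizer.odd_card_aut hc
  obtain ⟨hsize, hfree⟩ := Cfsg.Lib.FreeNormalizer.aut_odd_small hc P.isPGroup' h4 _ hodd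
  rw [Cfsg.Lib.FreeNormalizer.card_aut] at hsize
  refine ⟨hsize, fun _ z hz hz1 => le_antisymm (fun x hx => ?_) fun x hx => ⟨?_, Subgroup.centralizer_le_normalizer _ hx⟩⟩
  · obtain ⟨hxy, hxN⟩ := hx
    replace hxy : x * z = z * x := Subgroup.mem_centralizer_singleton_iff.mp hxy
    have he : (P : Subgroup G).normalizerMonoidHom ⟨x, hxN⟩ = 1 := by
      refine hfree _ ⟨_, rfl⟩ ⟨z, hz⟩ (fun h => hz1 (congrArg Subtype.val h)) (Subtype.ext ?_)
      rw [Cfsg.Lib.FreeNormalizer.coe_normalizerHom]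
      show x * z * x⁻¹ = z
      rw [hxy, mul_inv_cancel_right]
    have := MonoidHom.mem_ker.mpr he
    rwa [Subgroup.normalizerMonoidHom_ker, Subgroup.mem_subgroupOf] at this
  · exact Subgroup.mem_centralizer_singleton_iff.mpr (Subgroup.mem_centralizer_iff.mp hx z hz).symm

end Cfsg.Agent.S0945
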