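import Cfsg.Statements.S0946
import Cfsg.Agent.Lib.Blocks.Homocyclic
-- import your own Cfsg.Agent.* helpers here

set_option autoImplicit false
open Cfsg

namespace Cfsg.Agent.S0946

/-- Let P be a Sylow 2-subgroup of the finite group G isomorphic to Z/2^m × Z/2^m with m ≥ 1. Then either P has a normal complement in G, or all involutions of G are conjugate. -/
theorem result {G : Type*} [Group G] [Finite G] (P : Sylow 2 G) (m : ℕ) (hm : 1 ≤ m) (e : (P : Subgroup G) ≃* Multiplicative (ZMod (2 ^ m) × ZMod (2 ^ m))) : (∃ N : Subgroup G, N.Normal ∧ Subgroup.IsComplement' N (P : Subgroup G)) ∨ ∀ s t : G, orderOf s = 2 → orderOf t = 2 → IsConj s t := by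
  have hc : ∀ a b : ↥(P : Subgroup G), a * b = b * a := fun a b => e.injective (by
    rw [map_mul, map_mul, mul_comm])
  haveI : Fact (Nat.Prime 2) := ⟨Nat.prime_two⟩
  letI := Fintype.ofFinite G
  haveI : NeZero (2 ^ m) := ⟨pow_ne_zero m two_ne_zero⟩
  have h4 : Nat.card {x : ↥(P : Subgroup G) // x ^ 2 = 1} ≤ 4 := Cfsg.Lib.FreeNormalizer.card_sq_le hc m e
  have hodd : Odd (Nat.card (Cfsg.Lib.FreeNormalizer.aut P)) := Cfsg.Lib.FreeNormalizer.odd_card_aut hc
  obtain ⟨hsize, hfree⟩ := Cfsg.Lib.FreeNormalizer.aut_odd_small hc P.isPGroup' h4 _ hodd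
  rcases hsize with h1 | h3
  · left
    have hle : Subgroup.normalizer ((P : Subgroup G) : Set G) ≤ Subgroup.centralizer ((P : Subgroup G) : Set G) :=
      Subgroup.relIndex_eq_one.mp (Cfsg.Lib.FreeNormalizer.card_aut (P := P) ▸ h1)
    exact ⟨_, inferInstance, MonoidHom.ker_transferSylow_isComplement' P hle⟩
  · right
    intro s t hs ht
    obtain ⟨a, ha⟩ := Cfsg.Lib.FreeNormalizer.exists_isConj_sylow (P := P) (y := s) ⟨1, by rw [hs, pow_one]⟩
    obtain ⟨b, hb⟩ := Cfsg.Lib.FreeNormalizer.exists_isConj_sylow (P := P) (y := t) ⟨1, by rw [ht, pow_one]⟩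
    refine ha.trans (IsConj.trans ?_ hb.symm)
    have horder : ∀ {r : G} {c : ↥(P : Subgroup G)}, orderOf r = 2 → IsConj r (c : G) → c ^ 2 = 1 ∧ c ≠ 1 := by
      intro r c hr hc'
      obtain ⟨g, hg⟩ := isConj_iff.mp hc'
      have h2 : orderOf c = 2 := by
        rw [← Subgroup.orderOf_coe, ← hg, ← MulAut.conj_apply, MulEquiv.orderOf_eq, hr]
      exact ⟨orderOf_dvd_iff_pow_eq_one.mp h2.dvd, fun h => by simp [h] at h2⟩
    obtain ⟨ha2, ha1⟩ := horder hs ha
    obtain ⟨hb2, hb1⟩ := horder ht hb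
    classical
    let X := {x : ↥(P : Subgroup G) // x ^ 2 = 1 ∧ x ≠ 1}
    have hX : Nat.card X ≤ 3 := by
      haveI := Fintype.ofFinite ↥(P : Subgroup G)
      have h : Nat.card X < Nat.card {x : ↥(P : Subgroup G) // x ^ 2 = 1} := by
        rw [Nat.card_eq_fintype_card, Nat.card_eq_fintype_card]
        refine Fintype.card_lt_of_injective_of_notMem (fun x : X => (⟨x.1, x.2.1⟩ : {x : ↥(P : Subgroup G) // x ^ 2 = 1}))
          (fun a b h => Subtype.ext (congrArg (fun y : {x : ↥(P : Subgroup G) // x ^ 2 = 1} => y.1) h)) (b := ⟨1, one_pow 2⟩) ?_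
        rintro ⟨x, hx⟩
        exact x.2.2 (congrArg Subtype.val hx)
      omega
    let f : Cfsg.Lib.FreeNormalizer.aut P → X := fun u => ⟨(u : MulAut ↥(P : Subgroup G)) a,
      by rw [← map_pow, ha2, map_one], fun h => ha1 ((u : MulAut ↥(P : Subgroup G)).injective (h.trans (map_one _).symm))⟩
    have hf : Function.Injective f := fun u v huv => by
      have h' := congrArg (fun x : X => x.1) huv
      have := hfree _ ((Cfsg.Lib.FreeNormalizer.aut P).mul_mem ((Cfsg.Lib.FreeNormalizer.aut P).inv_mem v.2) u.2) a ha1 (by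
        show (v : MulAut ↥(P : Subgroup G)).symm ((u : MulAut ↥(P : Subgroup G)) a) = a
        rw [show (u : MulAut ↥(P : Subgroup G)) a = (v : MulAut ↥(P : Subgroup G)) a from h']
        simp)
      exact Subtype.ext (inv_mul_eq_one.mp this).symm
    have hbij : Function.Bijective f := hf.bijective_of_nat_card_le (by omega)
    obtain ⟨u, hu⟩ := hbij.2 ⟨b, hb2, hb1⟩
    obtain ⟨n, -, hn⟩ := (Cfsg.Lib.FreeNormalizer.mem_aut_iff _).mp u.2
    exact isConj_iff.mpr ⟨n, by rw [← hn]; exact congrArg (fun x : X => ((x.1 : ↥(P : Subgroup G)) : G)) hu⟩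

end Cfsg.Agent.S0946
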