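import Cfsg.Statements.S0949
import Cfsg.Agent.Lib.Blocks.Homocyclic
-- import your own Cfsg.Agent.* helpers here

set_option autoImplicit false
open Cfsg

namespace Cfsg.Agent.S0949

/-- Let the finite group G have a Sylow 2-subgroup P isomorphic to Z/2^m × Z/2^m with m ≥ 2, and suppose G has no nontrivial normal subgroup of odd order. Then P is normal in G, C_G(P) = P, and the index of P is 1 or 3. -/
theorem result {G : Type*} [Group G] [Finite G] (P : Sylow 2 G) (m : ℕ) (hm : 2 ≤ m) (e : (P : Subgroup G) ≃* Multiplicative (ZMod (2 ^ m) × ZMod (2 ^ m))) (hO : ∀ N : Subgroup G, N.Normal → Odd (Nat.card N) → N = ⊥) : (P : Subgroup G).Normal ∧ Subgroup.centralizer (P : Set G) = (P : Subgroup G) ∧ ((P : Subgroup G).index = 1 ∨ (P : Subgroup G).index = 3) := by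
  have hc : ∀ a b : ↥(P : Subgroup G), a * b = b * a := fun a b => e.injective (by
    rw [map_mul, map_mul, mul_comm])
  haveI : NeZero (2 ^ m) := ⟨pow_ne_zero m two_ne_zero⟩
  refine Cfsg.Lib.FreeNormalizer.homocyclic_core (Nat.card G) G rfl P hc ?_ ?_ hO
  · classical
    have hle : ∀ n : ℕ, [NeZero n] → Nat.card {x : ZMod n // 2 • x = 0} ≤ 2 := by
      intro n _
      rw [Nat.card_eq_fintype_card, Fintype.card_subtype]
      exact IsAddCyclic.card_nsmul_eq_zero_le (by norm_num)
    let f : {x : ↥(P : Subgroup G) // x ^ 2 = 1} →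
        {x : ZMod (2 ^ m) // 2 • x = 0} × {x : ZMod (2 ^ m) // 2 • x = 0} := fun x =>
      (⟨(Multiplicative.toAdd (e x.1)).1, by
          have h1 := congrArg (fun y => (Multiplicative.toAdd (e y)).1) x.2
          simpa using h1⟩,
       ⟨(Multiplicative.toAdd (e x.1)).2, by
          have h1 := congrArg (fun y => (Multiplicative.toAdd (e y)).2) x.2
          simpa using h1⟩)
    have hf : Function.Injective f := fun a b hab =>
      Subtype.ext (e.injective (Multiplicative.toAdd.injective (Prod.ext
        (congrArg (fun q => (q.1 : ZMod (2 ^ m))) hab) (congrArg (fun q => (q.2 : ZMod (2 ^ m))) hab))))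
    refine (Nat.card_le_card_of_injective f hf).trans ?_
    rw [Nat.card_prod]
    exact Nat.mul_le_mul (hle _) (hle _)
  · rw [Nat.card_congr e.toEquiv, Nat.card_congr Multiplicative.toAdd, Nat.card_prod, Nat.card_zmod]
    have h4 : 4 ≤ 2 ^ m := le_trans (by norm_num) (Nat.pow_le_pow_right (by norm_num) hm)
    nlinarith

end Cfsg.Agent.S0949
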