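import Cfsg.Statements.S0950
import Mathlib
import Cfsg.Agent.Lib.Transfer.Frobenius

set_option autoImplicit false
open Cfsg

namespace Cfsg.Agent.S0950

/-- the endomorphism candidate sending `a 1` to `A` and `xa 0` to `X` -/
def cand (A X : QuaternionGroup 2) : QuaternionGroup 2 → QuaternionGroup 2
  | QuaternionGroup.a i => A ^ (ZMod.val i)
  | QuaternionGroup.xa i => X * A ^ (ZMod.val i)

set_option maxRecDepth 100000 in
theorem pair_dichotomy : ∀ u v : QuaternionGroup 2,
    (∃ k : Fin 4, u = v ^ (k : ℕ)) ∨ (∃ k : Fin 4, v = u ^ (k : ℕ)) ∨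
      (∀ w : QuaternionGroup 2, ∃ i j : Fin 4, w = u ^ (i : ℕ) * v ^ (j : ℕ)) := by
  decide

set_option maxRecDepth 100000 in
theorem three_cycle : ∀ A X : QuaternionGroup 2,
    (∀ u v, cand A X (u * v) = cand A X u * cand A X v) →
    (∃ w, (cand A X)^[4] w ≠ w) → (∀ u v, cand A X u = cand A X v → u = v) →
    ∀ u v : QuaternionGroup 2, u ^ 2 ≠ 1 → v ^ 2 ≠ 1 →
      ∃ k : Fin 3, (cand A X)^[(k : ℕ)] u = v ∨ (cand A X)^[(k : ℕ)] u = v⁻¹ := by
  decide

theorem cand_eq (ψ : QuaternionGroup 2 →* QuaternionGroup 2) :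
    (ψ : QuaternionGroup 2 → QuaternionGroup 2) = cand (ψ (QuaternionGroup.a 1)) (ψ (QuaternionGroup.xa 0)) := by
  funext w
  rcases w with i | i
  · show _ = ψ (QuaternionGroup.a 1) ^ (ZMod.val i)
    rw [← map_pow, QuaternionGroup.a_one_pow, ZMod.natCast_zmod_val]
  · show _ = ψ (QuaternionGroup.xa 0) * ψ (QuaternionGroup.a 1) ^ (ZMod.val i)
    rw [← map_pow, ← map_mul, QuaternionGroup.a_one_pow, ZMod.natCast_zmod_val, QuaternionGroup.xa_mul_a, zero_add]

theorem cyclic_of_lt {G : Type*} [Group G] [Finite G] (S : Subgroup G) (e : S ≃* QuaternionGroup 2)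
    (Q : Subgroup G) (hQ : Q ≤ S) (hne : Q ≠ S) : ∃ q ∈ Q, Q = Subgroup.zpowers q := by
  obtain ⟨q, hq, hmax⟩ := Set.exists_max_image (Q : Set G) orderOf (Set.toFinite _) ⟨1, Q.one_mem⟩
  refine ⟨q, hq, le_antisymm (fun r hr => ?_) (Subgroup.zpowers_le.mpr hq)⟩
  have back : ∀ (a b : S) (n : ℕ), e a = e b ^ n → (a : G) = (b : G) ^ n := fun a b n h => by
    rw [← map_pow] at h
    rw [e.injective h, Subgroup.coe_pow]
  rcases pair_dichotomy (e ⟨r, hQ hr⟩) (e ⟨q, hQ hq⟩) with ⟨k, hk⟩ | ⟨k, hk⟩ | hall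
  · exact Subgroup.mem_zpowers_iff.mpr ⟨(k : ℕ), by rw [zpow_natCast]; exact (back _ _ _ hk).symm⟩
  · have hle : Subgroup.zpowers q ≤ Subgroup.zpowers r := by
      rw [Subgroup.zpowers_le, Subgroup.mem_zpowers_iff]
      exact ⟨(k : ℕ), by rw [zpow_natCast]; exact (back _ _ _ hk).symm⟩
    have := Subgroup.eq_of_le_of_card_ge hle (by
      rw [Nat.card_zpowers, Nat.card_zpowers]
      exact hmax r hr)
    exact this ▸ Subgroup.mem_zpowers r
  · exfalso
    apply hne (le_antisymm hQ fun w hw => ?_)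
    obtain ⟨i, j, hij⟩ := hall (e ⟨w, hw⟩)
    rw [← map_pow, ← map_pow, ← map_mul] at hij
    have := congrArg Subtype.val (e.injective hij)
    rw [Subgroup.coe_mul, Subgroup.coe_pow, Subgroup.coe_pow] at this
    simp only at this
    rw [this]
    exact Q.mul_mem (Q.pow_mem hr _) (Q.pow_mem hq _)

theorem mem_zpowers_of_sq {G : Type*} [Group G] {g : G} (hg : Nat.Coprime (orderOf g) 2) (H : Subgroup G)
    (h : g ^ 2 ∈ H) : g ∈ H := by
  obtain ⟨m, hm⟩ := exists_pow_eq_self_of_coprime (x := g) hg.symm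
  exact hm ▸ H.pow_mem h m

theorem exists_acting {G : Type*} [Group G] [Finite G] (S : Sylow 2 G) (e : (S : Subgroup G) ≃* QuaternionGroup 2)
    (hnc : ∀ N : Subgroup G, N.Normal → ¬ Subgroup.IsComplement' N (S : Subgroup G)) :
    ∃ g ∈ Subgroup.normalizer ((S : Subgroup G) : Set G),
      Nat.Coprime (orderOf g) 2 ∧ g ∉ Subgroup.centralizer ((S : Subgroup G) : Set G) := by
  haveI : Fact (Nat.Prime 2) := ⟨Nat.prime_two⟩
  have hnf : ¬ Cfsg.Lib.Transfer.FrobeniusCond S := by
    intro h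
    obtain ⟨P, N, hN, hc⟩ := (Cfsg.Lib.Transfer.frobenius_iff S).mpr h
    refine hnc N hN (Subgroup.isComplement'_of_coprime ?_ ?_)
    · rw [S.card_eq_multiplicity, ← P.card_eq_multiplicity]
      exact hc.card_mul
    · rw [S.card_eq_multiplicity, ← P.card_eq_multiplicity, ← hc.index_eq_card]
      exact (P.card_coprime_index).symm
  simp only [Cfsg.Lib.Transfer.FrobeniusCond, not_forall] at hnf
  obtain ⟨Q, hQ, g, hg, hodd, hgc⟩ := hnf
  by_cases hQS : Q = (S : Subgroup G)
  · exact ⟨g, hQS ▸ hg, hodd, hQS ▸ hgc⟩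
  exfalso
  apply hgc
  obtain ⟨q, hq, rfl⟩ := cyclic_of_lt _ e Q hQ hQS
  have h4 : orderOf q ∣ 4 := by
    have h8 : ∀ u : QuaternionGroup 2, u ^ 4 = 1 := by decide
    apply orderOf_dvd_of_pow_eq_one
    have := h8 (e ⟨q, hQ hq⟩)
    rw [← map_pow] at this
    exact congrArg Subtype.val ((map_eq_one_iff e e.injective).mp this)
  have hconj : g * q * g⁻¹ ∈ Subgroup.zpowers q := (Subgroup.mem_normalizer_iff.mp hg q).mp hq
  have hqq : g * q * g⁻¹ = q ∨ g * q * g⁻¹ = q⁻¹ := by
    obtain ⟨i, hi⟩ := hconj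
    have hi' : q ^ i = g * q * g⁻¹ := hi
    have hord : orderOf (q ^ i) = orderOf q := by
      rw [hi', ← MulAut.conj_apply]
      exact orderOf_injective (MulAut.conj g).toMonoidHom (MulAut.conj g).injective q
    rw [← hi']
    have hq4 : q ^ (4 : ℕ) = 1 := orderOf_dvd_iff_pow_eq_one.mp h4
    have hm : q ^ i = q ^ (i % 4) := by
      conv_lhs => rw [← Int.emod_add_mul_ediv i 4, zpow_add, zpow_mul]
      norm_cast
      simp [hq4]
    rcases (show i % 4 = 0 ∨ i % 4 = 1 ∨ i % 4 = 2 ∨ i % 4 = 3 by omega) with h | h | h | h <;>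
      rw [h] at hm <;> rw [hm]
    · left
      rw [hm, zpow_zero, orderOf_one, eq_comm, orderOf_eq_one_iff] at hord
      simp [hord]
    · left
      exact zpow_one q
    · left
      rw [hm] at hord
      have h22 : (q ^ (2 : ℤ)) ^ 2 = 1 := by rw [zpow_two, ← pow_two, ← pow_mul]; exact hq4
      have : q ^ 2 = 1 := by
        have hd : orderOf q ∣ 2 := hord ▸ orderOf_dvd_of_pow_eq_one h22
        exact orderOf_dvd_iff_pow_eq_one.mp hd
      have h2 : q ^ (2 : ℤ) = 1 := by exact_mod_cast this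
      rw [h2, orderOf_one, eq_comm, orderOf_eq_one_iff] at hord
      simp [hord]
    · right
      rw [eq_inv_iff_mul_eq_one, zpow_ofNat, ← pow_succ]
      exact hq4
  have hcen : g ^ 2 ∈ Subgroup.centralizer ({q} : Set G) := by
    rw [Subgroup.mem_centralizer_singleton_iff, ← mul_inv_eq_iff_eq_mul]
    have e2 : g ^ 2 * q * (g ^ 2)⁻¹ = g * (g * q * g⁻¹) * g⁻¹ := by rw [pow_two]; group
    rw [e2]
    rcases hqq with h | h
    · rw [h, h]
    · rw [h, show g * q⁻¹ * g⁻¹ = (g * q * g⁻¹)⁻¹ by group, h, inv_inv]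
  have := mem_zpowers_of_sq hodd _ hcen
  rw [Subgroup.mem_centralizer_iff]
  rintro x ⟨i, rfl⟩
  exact ((show Commute g q from Subgroup.mem_centralizer_singleton_iff.mp this).zpow_right i).eq.symm

/-- Let S be a Sylow 2-subgroup of the finite group G that is isomorphic to the quaternion group of order 8, and suppose S has no normal complement in G. Then any two subgroups of order 4 of S are conjugate by an element of the normalizer of S. -/
theorem result {G : Type*} [Group G] [Finite G] (S : Sylow 2 G) (e : (S : Subgroup G) ≃* QuaternionGroup 2) (hnc : ∀ N : Subgroup G, N.Normal → ¬ Subgroup.IsComplement' N (S : Subgroup G)) (A B : Subgroup G) (hA : A ≤ S) (hB : B ≤ S) (hA4 : Nat.card A = 4) (hB4 : Nat.card B = 4) : ∃ n ∈ Subgroup.normalizer ((S : Subgroup G) : Set G), B = A.map (MulAut.conj n).toMonoidHom := by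
  obtain ⟨g, hg, hodd, hgc⟩ := exists_acting S e hnc
  have hcard : Nat.card (S : Subgroup G) = 8 := by
    rw [Nat.card_congr e.toEquiv, Nat.card_eq_fintype_card, QuaternionGroup.card]
  have gen : ∀ H : Subgroup G, H ≤ S → Nat.card H = 4 →
      ∃ q, q ∈ (S : Subgroup G) ∧ H = Subgroup.zpowers q ∧ orderOf q = 4 := fun H hH h4 => by
    obtain ⟨q, hq, rfl⟩ := cyclic_of_lt _ e H hH (fun h => by rw [h] at h4; omega)
    exact ⟨q, hH hq, rfl, by rw [← Nat.card_zpowers, h4]⟩
  obtain ⟨u, hu, rfl, hu4⟩ := gen A hA hA4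
  obtain ⟨v, hv, rfl, hv4⟩ := gen B hB hB4
  have hsq : ∀ q (hq : q ∈ (S : Subgroup G)), orderOf q = 4 → (e ⟨q, hq⟩) ^ 2 ≠ 1 := by
    intro q hq h4 h
    rw [← map_pow, map_eq_one_iff e e.injective] at h
    have := Nat.le_of_dvd two_pos (orderOf_dvd_of_pow_eq_one (show q ^ 2 = 1 from congrArg Subtype.val h))
    omega
  let c : (S : Subgroup G) →* (S : Subgroup G) :=
    MonoidHom.mk' (fun x => ⟨g * x * g⁻¹, (Subgroup.mem_normalizer_iff.mp hg x).mp x.2⟩)
      (fun x y => Subtype.ext (by simp only [Subgroup.coe_mul]; group))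
  let ψ : QuaternionGroup 2 →* QuaternionGroup 2 := e.toMonoidHom.comp (c.comp e.symm.toMonoidHom)
  have hiter : ∀ (k : ℕ) (x : (S : Subgroup G)), ((c^[k] x : (S : Subgroup G)) : G) = g ^ k * x * (g ^ k)⁻¹ := by
    intro k x
    induction k with
    | zero => simp
    | succ k ih =>
      rw [Function.iterate_succ_apply']
      show g * ((c^[k] x : (S : Subgroup G)) : G) * g⁻¹ = _
      rw [ih, pow_succ']
      group
  have hψ : ∀ (k : ℕ) (x : (S : Subgroup G)), ψ^[k] (e x) = e (c^[k] x) := by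
    intro k x
    induction k with
    | zero => rfl
    | succ k ih =>
      rw [Function.iterate_succ_apply', Function.iterate_succ_apply', ih]
      simp [ψ]
  have h3 := three_cycle (ψ (QuaternionGroup.a 1)) (ψ (QuaternionGroup.xa 0))
  rw [← cand_eq ψ] at h3
  obtain ⟨k, hk⟩ := h3 (fun a b => map_mul ψ a b) (by
      by_contra hh
      push Not at hh
      apply hgc
      have h4 : g ^ 2 ^ 2 ∈ Subgroup.centralizer ((S : Subgroup G) : Set G) := by
        rw [Subgroup.mem_centralizer_iff]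
        intro x hx
        have := hh (e ⟨x, hx⟩)
        rw [hψ 4] at this
        have := congrArg Subtype.val (e.injective this)
        rw [hiter] at this
        exact (mul_inv_eq_iff_eq_mul.mp this).symm
      rw [pow_two (2 : ℕ), pow_mul] at h4
      exact mem_zpowers_of_sq hodd _ (mem_zpowers_of_sq (Nat.Coprime.coprime_dvd_left (orderOf_pow_dvd 2) hodd) _ h4))
    (fun a b hab => by
      have := congrArg Subtype.val (e.injective hab)
      simp only [c, MonoidHom.mk'_apply, MulEquiv.coe_toMonoidHom, MonoidHom.coe_comp, Function.comp_apply] at this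
      exact e.symm.injective (Subtype.ext (mul_left_cancel (mul_right_cancel this))))
    _ _ (hsq u hu hu4) (hsq v hv hv4)
  refine ⟨g ^ (k : ℕ), Subgroup.pow_mem _ hg _, ?_⟩
  rw [MonoidHom.map_zpowers]
  show _ = Subgroup.zpowers (g ^ (k : ℕ) * u * (g ^ (k : ℕ))⁻¹)
  rw [hψ] at hk
  rcases hk with h | h
  · rw [← hiter _ ⟨u, hu⟩, e.injective h]
  · rw [← map_inv] at h
    rw [← hiter _ ⟨u, hu⟩, e.injective h, Subgroup.coe_inv, Subgroup.zpowers_inv]

end Cfsg.Agent.S0950
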