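import Cfsg.Statements.S0951
import Cfsg.Agent.Lib.ZStar.Q8Count

set_option autoImplicit false
open Cfsg

namespace Cfsg.Agent.S0951

/-- Let S be a Sylow 2-subgroup of the finite group G isomorphic to the quaternion group of order 8. Suppose G has no nontrivial normal subgroup of odd order and G ≠ S. Then, relative to any maximal ideal M of the algebraic integers containing 2, the principal block of G consists of exactly 7 irreducible characters. -/
theorem result {G : Type*} [Group G] [Finite G] (M : Ideal Cfsg.AlgInt) (hM : Cfsg.IsPModular 2 M) (S : Sylow 2 G) (e : (S : Subgroup G) ≃* QuaternionGroup 2) (hO : ∀ N : Subgroup G, N.Normal → Odd (Nat.card N) → N = ⊥) (hG : (S : Subgroup G) ≠ ⊤) : Nat.card (Cfsg.principalBlock M G) = 7 := by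
  haveI : Fact (Nat.Prime 2) := ⟨Nat.prime_two⟩
  haveI := Fintype.ofFinite G
  have hcard : Nat.card S = 8 := by
    rw [Nat.card_congr e.toEquiv, Nat.card_eq_fintype_card, QuaternionGroup.card]
  have hnc : ¬ IsCyclic S := by
    intro hc
    haveI : IsCyclic (QuaternionGroup 2) := isCyclic_of_surjective e.toMonoidHom e.surjective
    obtain ⟨g, hg⟩ := IsCyclic.exists_ofOrder_eq_natCard (α := QuaternionGroup 2)
    have h4 := Monoid.order_dvd_exponent g
    rw [hg, QuaternionGroup.exponent, Nat.card_eq_fintype_card, QuaternionGroup.card] at h4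
    norm_num at h4
  obtain ⟨⟨z, hzc⟩, hz⟩ := exists_prime_orderOf_dvd_card' (G := Subgroup.center G) 2
    (by rw [Cfsg.Lib.ZStar.card_center_of_quaternion S le_rfl e hO])
  rw [Subgroup.orderOf_mk] at hz
  have hzS : z ∈ S := by
    obtain ⟨g, hg⟩ := Cfsg.Lib.ZStar.exists_conj_in_sylow S (k := 1) (by rw [hz, pow_one] : orderOf z = 2 ^ 1)
    rwa [Subgroup.mem_center_iff.mp hzc g, mul_inv_cancel_right] at hg
  have huniq : ∀ s : G, s ∈ S → orderOf s = 2 → s = z := by
    intro s hs h
    have key : ∀ a : G, ∀ ha : a ∈ S, orderOf a = 2 →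
        e ⟨a, ha⟩ = QuaternionGroup.a ((2 : ℕ) : ZMod (2 * 2)) := by
      intro a ha h2
      refine (Cfsg.Lib.ZStar.quaternion_sq_eq_one ?_).resolve_left fun h1 => ?_
      · rw [← map_pow, show (⟨a, ha⟩ : (S : Subgroup G)) ^ 2 = 1 from
          Subtype.ext (show a ^ 2 = 1 by rw [← h2, pow_orderOf_eq_one]), map_one]
      · have h3 := congrArg Subtype.val ((map_eq_one_iff e e.injective).mp h1)
        simp at h3
        simp [h3] at h2
    exact congrArg Subtype.val (e.injective ((key s hs h).trans (key z hzS hz).symm))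
  have hnP : ¬ IsPGroup 2 G := fun hP => hG (S.is_maximal' (hP.to_subgroup ⊤) le_top).symm
  exact (Cfsg.Lib.ZStar.Q8Hyp.mk hcard hnc hz hzS huniq (Cfsg.Lib.ZStar.oddCore_eq_bot hO) hnP
    ).card_principal hzc hM

end Cfsg.Agent.S0951
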