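import Cfsg.Statements.S0953
import Cfsg.Agent.Lib.Blocks.Counting

set_option autoImplicit false
set_option linter.style.haveILetI false
open Cfsg

namespace Cfsg.Agent.S0953

open Cfsg.Lib.Blocks Cfsg.Lib.Characters Finset
open scoped Classical ComplexConjugate

set_option maxHeartbeats 1000000

/-- The classes of regular elements of full defect are separated by the blocks of full defect. -/
theorem card_classes_le {G : Type*} [Group G] [Fintype G] {M : Ideal Cfsg.AlgInt} [M.IsPrime] {p : ℕ}
    [Fact p.Prime] (hM : IsPModular p M) :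
    Nat.card {C : ConjClasses G // ¬ p ∣ orderOf (cOut C) ∧
        (Nat.card (Subgroup.centralizer ({cOut C} : Set G))).factorization p = (Nat.card G).factorization p}
      ≤ Nat.card {B : Set (IrrCharacter G) // IsPBlock M B ∧ blockDefect p B = (Nat.card G).factorization p} := by
  have hp : p.Prime := Fact.out
  set K := {C : ConjClasses G // ¬ p ∣ orderOf (cOut C) ∧
    (Nat.card (Subgroup.centralizer ({cOut C} : Set G))).factorization p = (Nat.card G).factorization p}
  set J := {B : Set (IrrCharacter G) // IsPBlock M B ∧ blockDefect p B = (Nat.card G).factorization p}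
  choose rep hrep using fun B : J => IsPBlock.nonempty B.2.1
  let v : K → J → ResF M := fun C B => red M (centralChar (rep B : G → ℂ) (cOut C.1))
  have hli : LinearIndependent (ResF M) v := by
    rw [Fintype.linearIndependent_iff]
    intro a ha C₀
    set y := cOut C₀.1 with hy_def
    have hy : ¬ p ∣ orderOf y := C₀.2.1
    obtain ⟨Q, hQ⟩ := exists_isSylCent p y
    have hη : RComb M (eta y Q) := rComb_eta y Q fun u hu =>
      (Subgroup.mem_centralizer_singleton_iff.mp (hQ.le hu) : Commute u y).symm
    obtain ⟨n, hn, hn'⟩ := eta_eq_natCast hy hQ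
      (⟨1, y, one_mul y, Commute.one_left y, ⟨0, by simp⟩, hy, IsConj.refl y⟩ : InSec p y y)
    set w : K → ℂ := fun C => liftRes M (a C)
    set e : IrrCharacter G → ℂ := fun χ => classInner (eta y Q) (χ : G → ℂ)
    have hzero : ∀ C : K, C ≠ C₀ → eta y Q (cOut C.1) = 0 := by
      intro C hC
      refine eta_eq_zero hy hQ fun h => hC (Subtype.ext ?_)
      have h1 := eq_one_and_conj_of_inSec C.2.1 h
      rw [← mk_cOut C.1, ← mk_cOut C₀.1]
      exact (ConjClasses.mk_eq_mk_iff_isConj.mpr h1).symm
    have hexp : ∀ g, eta y Q g = ∑ χ : IrrCharacter G, e χ * (χ : G → ℂ) g := fun g => by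
      have h := congrFun (classFunction_expansion (isClassFunction_eta y Q)) g
      simpa [Finset.sum_apply] using h
    have hcc : ∀ (χ : IrrCharacter G) (C : K),
        (χ : G → ℂ) 1 * centralChar (χ : G → ℂ) (cOut C.1)
          = (Subgroup.centralizer ({cOut C.1} : Set G)).index * (χ : G → ℂ) (cOut C.1) := fun χ C => by
      rw [centralChar]; field_simp [χ.2.one_ne_zero]
    have hS : ∑ χ : IrrCharacter G, e χ * ∑ C : K, w C * ((χ : G → ℂ) 1 * centralChar (χ : G → ℂ) (cOut C.1))
        = w C₀ * ((Subgroup.centralizer ({y} : Set G)).index * n) := by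
      simp only [hcc, Finset.mul_sum]
      rw [Finset.sum_comm, Finset.sum_eq_single C₀]
      · rw [← hn', hexp y, Finset.mul_sum, Finset.mul_sum]
        exact Finset.sum_congr rfl fun χ _ => by ring
      · intro C _ hC
        calc _ = w C * (Subgroup.centralizer ({cOut C.1} : Set G)).index * eta y Q (cOut C.1) := by
              rw [hexp, Finset.mul_sum]; exact Finset.sum_congr rfl fun χ _ => by ring
          _ = 0 := by rw [hzero C hC, mul_zero]
      · exact fun h => absurd (Finset.mem_univ _) h
    have hinner : ∀ χ : IrrCharacter G,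
        red M (∑ C : K, w C * ((χ : G → ℂ) 1 * centralChar (χ : G → ℂ) (cOut C.1))) = 0 := by
      intro χ
      rw [red_sum _ fun C _ => mul_mem (liftRes_mem M _)
        (mul_mem (char_mem_locRing M χ 1) (centralChar_mem_locRing M χ _))]
      simp only [w, red_mul (liftRes_mem M _) (mul_mem (char_mem_locRing M χ 1) (centralChar_mem_locRing M χ _)),
        red_mul (char_mem_locRing M χ 1) (centralChar_mem_locRing M χ _), red_liftRes]
      by_cases hd : p ∣ charDegree (χ : G → ℂ)
      · have h1 : red M ((χ : G → ℂ) 1) = 0 := by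
          rw [← coe_charDegree χ, red_natCast, natCast_resF_eq_zero hM]; exact hd
        simp [h1]
      · have hdef : blockDefect p (blockOf M (χ : G → ℂ)) = (Nat.card G).factorization p := by
          have := inf_le_factorization p (mem_blockOf_self M χ)
          rw [Nat.factorization_eq_zero_of_not_dvd hd] at this
          rw [blockDefect]; omega
        set B : J := ⟨blockOf M (χ : G → ℂ), ⟨χ, rfl⟩, hdef⟩
        have hs := (sameBlock_iff M χ (rep B)).mp
          (IsPBlock.sameBlock B.2.1 (mem_blockOf_self M χ) (hrep B))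
        calc _ = red M ((χ : G → ℂ) 1) * ∑ C : K, a C • v C B := by
              rw [Finset.mul_sum]
              refine Finset.sum_congr rfl fun C _ => ?_
              show _ = _ * (a C * red M (centralChar (rep B : G → ℂ) (cOut C.1)))
              rw [hs]; ring
          _ = 0 := by
              have h := congrFun ha B
              rw [Finset.sum_apply] at h
              simp only [Pi.smul_apply, Pi.zero_apply] at h
              rw [h, mul_zero]
    have hred := congrArg (red M) hS
    rw [red_sum _ fun χ _ => mul_mem (hη.coeff_mem χ) (Subring.sum_mem _ fun C _ => mul_mem (liftRes_mem M _)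
        (mul_mem (char_mem_locRing M χ 1) (centralChar_mem_locRing M χ _))),
      Finset.sum_eq_zero fun χ _ => by
        rw [red_mul (hη.coeff_mem χ) (Subring.sum_mem _ fun C _ => mul_mem (liftRes_mem M _)
          (mul_mem (char_mem_locRing M χ 1) (centralChar_mem_locRing M χ _))), hinner χ, mul_zero],
      red_mul (liftRes_mem M _) (mul_mem (natCast_mem _ _) (natCast_mem _ _)),
      red_mul (natCast_mem _ _) (natCast_mem _ _), red_natCast, red_natCast] at hred
    have h2 : red M (w C₀) = a C₀ := red_liftRes M _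
    rw [h2] at hred
    refine (mul_eq_zero.mp hred.symm).resolve_right (mul_ne_zero ?_ ?_)
    · rw [ne_eq, natCast_resF_eq_zero hM]
      intro hd
      have h3 := index_factorization (p := p) y
      have h4 := (hp.dvd_iff_one_le_factorization Subgroup.index_ne_zero_of_finite).mp hd
      have h5 := C₀.2.2
      rw [← hy_def] at h5
      omega
    · rwa [ne_eq, natCast_resF_eq_zero hM]
  have h := hli.fintype_card_le_finrank
  rwa [Module.finrank_pi, ← Nat.card_eq_fintype_card, ← Nat.card_eq_fintype_card] at h

/-- Let P be a Sylow p-subgroup of the finite group G with normalizer N, and fix a maximal ideal M of the algebraic integers containing p. The number of blocks of G having P as a defect group equals the number of conjugacy classes of N consisting of elements of order prime to p that centralize P. -/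
theorem result {G : Type*} [Group G] [Finite G] (p : ℕ) [Fact p.Prime] (M : Ideal Cfsg.AlgInt) (hM : Cfsg.IsPModular p M) (P : Sylow p G) : Nat.card {B : Set (Cfsg.IrrCharacter G) // Cfsg.IsPBlock M B ∧ Cfsg.IsDefectGroup p M B (P : Subgroup G)} = Nat.card {C : ConjClasses (Subgroup.normalizer ((P : Subgroup G) : Set G)) // ∀ n : Subgroup.normalizer ((P : Subgroup G) : Set G), ConjClasses.mk n = C → ¬ p ∣ orderOf n ∧ (n : G) ∈ Subgroup.centralizer ((P : Subgroup G) : Set G)} := by
  haveI : M.IsPrime := hM.2.1.isPrime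
  haveI : Fintype G := Fintype.ofFinite G
  have hp : p.Prime := Fact.out
  set N := Subgroup.normalizer ((P : Subgroup G) : Set G) with hN
  have hPcard : Nat.card P = p ^ (Nat.card G).factorization p := P.card_eq_multiplicity
  have hfull : ∀ g : G, (Nat.card (Subgroup.centralizer ({g} : Set G))).factorization p
      ≤ (Nat.card G).factorization p := fun g => (Nat.factorization_le_iff_dvd Nat.card_pos.ne'
      Nat.card_pos.ne').mpr (Subgroup.card_subgroup_dvd_card _) p
  have hconjP : ∀ D : Subgroup G, IsPGroup p D → Nat.card D = p ^ (Nat.card G).factorization p →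
      ∃ x : G, conjSub x D = P := by
    intro D hD hc
    obtain ⟨S, hS⟩ := hD.exists_le_sylow
    have hDS : D = (S : Subgroup G) := Subgroup.eq_of_le_of_card_ge hS (by rw [hc, S.card_eq_multiplicity])
    obtain ⟨x, hx⟩ := MulAction.exists_smul_eq G S P
    refine ⟨x, Subgroup.ext fun g => ?_⟩
    rw [← hx, mem_conjSub, hDS]
    rw [Sylow.coe_subgroup_smul, Subgroup.mem_pointwise_smul_iff_inv_smul_mem]
    simp [MulAut.smul_def, mul_assoc]
  have hblocks : ∀ B : Set (IrrCharacter G), IsPBlock M B →
      (IsDefectGroup p M B (P : Subgroup G) ↔ blockDefect p B = (Nat.card G).factorization p) := by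
    intro B hB
    refine ⟨fun h => Nat.pow_right_injective hp.two_le ((card_defectGroup hM hB h).symm.trans hPcard), fun h => ?_⟩
    obtain ⟨D, hD⟩ := exists_defectGroup hM hB
    obtain ⟨x, hx⟩ := hconjP D (isPGroup_defectGroup hD) (by rw [card_defectGroup hM hB hD, h])
    exact hx ▸ IsDefectGroup.conjSub hB hD x
  set Q : ConjClasses G → Prop := fun C => ¬ p ∣ orderOf (cOut C) ∧
    (Nat.card (Subgroup.centralizer ({cOut C} : Set G))).factorization p = (Nat.card G).factorization p
  have hQmk : ∀ g : G, Q (ConjClasses.mk g) ↔ ¬ p ∣ orderOf g ∧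
      (Nat.card (Subgroup.centralizer ({g} : Set G))).factorization p = (Nat.card G).factorization p := by
    intro g
    obtain ⟨c, hc⟩ := isConj_iff.mp (out_isConj g)
    have hi := index_factorization (p := p) g
    have hi' := index_factorization (p := p) (cOut (ConjClasses.mk g))
    have hidx : (Subgroup.centralizer ({g} : Set G)).index
        = (Subgroup.centralizer ({cOut (ConjClasses.mk g)} : Set G)).index := by
      rw [← card_filter_isConj g, ← card_filter_isConj (cOut (ConjClasses.mk g))]
      exact congrArg _ (Finset.filter_congr fun x _ =>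
        ⟨(out_isConj g).trans, (out_isConj g).symm.trans⟩)
    have hord : orderOf g = orderOf (cOut (ConjClasses.mk g)) := by
      conv_lhs => rw [← hc]
      exact MulEquiv.orderOf_eq (MulAut.conj c) _
    show (_ ∧ _) ↔ _
    rw [hord]
    rw [← hidx] at hi'
    constructor
    · rintro ⟨h1, h2⟩; exact ⟨h1, by omega⟩
    · rintro ⟨h1, h2⟩; exact ⟨h1, by omega⟩
  have h1 : Nat.card {B : Set (IrrCharacter G) // IsPBlock M B ∧ blockDefect p B = (Nat.card G).factorization p}
      = Nat.card {C : ConjClasses G // Q C} :=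
    le_antisymm (card_blocks_le hM _ Q fun B B' _ _ _ hB' g hg h2 _ =>
      (hQmk g).mpr ⟨hg, le_antisymm (hfull g) (hB' ▸ h2)⟩) (card_classes_le hM)
  rw [Nat.card_congr (Equiv.subtypeEquivRight fun B => and_congr_right (hblocks B)), h1]
  symm
  -- fusion of classes centralising `P`
  have hfus : ∀ C : {C : ConjClasses N // ∀ n : N, ConjClasses.mk n = C →
      ¬ p ∣ orderOf n ∧ (n : G) ∈ Subgroup.centralizer ((P : Subgroup G) : Set G)},
      Q (ConjClasses.mk ((cOut C.1 : N) : G)) := by
    intro C
    obtain ⟨h1, h2⟩ := C.2 _ (mk_cOut C.1)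
    refine (hQmk _).mpr ⟨by rwa [Subgroup.orderOf_coe], le_antisymm (hfull _) ?_⟩
    have hle : (P : Subgroup G) ≤ Subgroup.centralizer ({((cOut C.1 : N) : G)} : Set G) := fun q hq =>
      Subgroup.mem_centralizer_singleton_iff.mpr (Subgroup.mem_centralizer_iff.mp h2 q hq)
    refine (hp.pow_dvd_iff_le_factorization Nat.card_pos.ne').mp ?_
    rw [← hPcard]
    exact Subgroup.card_dvd_of_le hle
  refine Nat.card_congr (Equiv.ofBijective (fun C => (⟨_, hfus C⟩ : {C : ConjClasses G // Q C})) ⟨?_, ?_⟩)
  · intro C C' h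
    have h' : IsConj ((cOut C.1 : N) : G) ((cOut C'.1 : N) : G) :=
      ConjClasses.mk_eq_mk_iff_isConj.mp (congrArg Subtype.val h)
    obtain ⟨c, hc⟩ := isConj_iff.mp h'
    obtain ⟨n, hn, hn'⟩ := P.conj_eq_normalizer_conj_of_mem_centralizer _ c⁻¹ (C.2 _ (mk_cOut C.1)).2
      (by rw [inv_inv, hc]; exact (C'.2 _ (mk_cOut C'.1)).2)
    rw [inv_inv, hc] at hn'
    refine Subtype.ext ?_
    rw [← mk_cOut C.1, ← mk_cOut C'.1, ConjClasses.mk_eq_mk_iff_isConj]
    exact isConj_iff.mpr ⟨(⟨n, hn⟩ : N)⁻¹, Subtype.ext (by simp [hn'])⟩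
  · rintro ⟨C, hC⟩
    rw [← mk_cOut C, hQmk] at hC
    obtain ⟨hreg, hd⟩ := hC
    obtain ⟨S, hS⟩ := exists_isSylCent p (cOut C)
    obtain ⟨x, hx⟩ := hconjP S hS.isPGroup (by rw [hS.card_eq, hd])
    set g := x * cOut C * x⁻¹ with hg
    have hgC : g ∈ Subgroup.centralizer ((P : Subgroup G) : Set G) := by
      rw [Subgroup.mem_centralizer_iff]
      intro q hq
      rw [SetLike.mem_coe, ← hx, mem_conjSub] at hq
      have h := Subgroup.mem_centralizer_singleton_iff.mp (hS.le hq)
      calc q * g = x * ((x⁻¹ * q * x) * cOut C) * x⁻¹ := by rw [hg]; group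
        _ = x * (cOut C * (x⁻¹ * q * x)) * x⁻¹ := by rw [h]
        _ = g * q := by rw [hg]; group
    have hgN : g ∈ N := Subgroup.centralizer_le_normalizer _ hgC
    have hprop : ∀ n : N, ConjClasses.mk n = ConjClasses.mk (⟨g, hgN⟩ : N) →
        ¬ p ∣ orderOf n ∧ (n : G) ∈ Subgroup.centralizer ((P : Subgroup G) : Set G) := by
      intro n hn
      obtain ⟨d, hd'⟩ := isConj_iff.mp (ConjClasses.mk_eq_mk_iff_isConj.mp hn.symm)
      have hd2 : (d : G) * g * (d : G)⁻¹ = (n : G) := congrArg Subtype.val hd'
      refine ⟨?_, ?_⟩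
      · rw [← Subgroup.orderOf_coe, ← hd2,
          show orderOf ((d : G) * g * (d : G)⁻¹) = orderOf g from MulEquiv.orderOf_eq (MulAut.conj (d : G)) g,
          show orderOf g = orderOf (cOut C) from MulEquiv.orderOf_eq (MulAut.conj x) (cOut C)]
        exact hreg
      · rw [← hd2, Subgroup.mem_centralizer_iff]
        intro q hq
        have hq' : (d : G)⁻¹ * q * d ∈ (P : Subgroup G) := by
          have := (Subgroup.mem_normalizer_iff.mp (Subgroup.inv_mem _ d.2) q).mp hq
          simpa using this
        have h := Subgroup.mem_centralizer_iff.mp hgC _ hq'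
        calc q * ((d : G) * g * (d : G)⁻¹) = d * (((d : G)⁻¹ * q * d) * g) * (d : G)⁻¹ := by group
          _ = d * (g * ((d : G)⁻¹ * q * d)) * (d : G)⁻¹ := by rw [h]
          _ = (d : G) * g * (d : G)⁻¹ * q := by group
    refine ⟨⟨ConjClasses.mk (⟨g, hgN⟩ : N), hprop⟩, Subtype.ext ?_⟩
    show ConjClasses.mk _ = C
    rw [← mk_cOut C, ConjClasses.mk_eq_mk_iff_isConj]
    have h1 : IsConj ((cOut (ConjClasses.mk (⟨g, hgN⟩ : N)) : N) : G) g :=
      MonoidHom.map_isConj N.subtype (out_isConj (⟨g, hgN⟩ : N))
    exact h1.trans (isConj_iff.mpr ⟨x, rfl⟩).symm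

end Cfsg.Agent.S0953
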