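import Cfsg.Statements.S0955
import Mathlib
import Cfsg.Agent.Lib.Blocks.Induction

set_option autoImplicit false
open Cfsg

namespace Cfsg.Agent.S0955

/-- Let D be a defect group of a block of the finite group G relative to a maximal ideal M of the algebraic integers containing the prime p. Then D is the largest normal p-subgroup of its own normalizer: O_p(N_G(D)) = D. -/
theorem result {G : Type*} [Group G] [Finite G] (p : ℕ) [Fact p.Prime] (M : Ideal Cfsg.AlgInt) (hM : Cfsg.IsPModular p M) (B : Set (Cfsg.IrrCharacter G)) (hB : Cfsg.IsPBlock M B) (D : Subgroup G) (hD : Cfsg.IsDefectGroup p M B D) : (Cfsg.pCore p (Subgroup.normalizer (D : Set G))).map (Subgroup.normalizer (D : Set G)).subtype = D := by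
  haveI := hM.2.1.isPrime
  haveI := Fintype.ofFinite G
  classical
  have hDp := Cfsg.Lib.Blocks.isPGroup_defectGroup hD
  obtain ⟨b, ⟨hb, hbD, -⟩, -⟩ := Cfsg.Lib.Blocks.first_main_backward hM hDp hB hD
  have hle := Cfsg.Lib.Blocks.normal_le_defectGroup hM hb hbD
    (Cfsg.Lib.Solv.isPGroup_pCore (G := Subgroup.normalizer (D : Set G)) p)
  refine le_antisymm ?_ ?_
  · exact (Subgroup.map_mono hle).trans
      (le_of_eq (Subgroup.map_subgroupOf_eq_of_le Subgroup.le_normalizer))
  · haveI : (D.subgroupOf (Subgroup.normalizer (D : Set G))).Normal :=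
      (Subgroup.normal_subgroupOf_iff_le_normalizer Subgroup.le_normalizer).mpr le_rfl
    refine (le_of_eq (Subgroup.map_subgroupOf_eq_of_le Subgroup.le_normalizer).symm).trans
      (Subgroup.map_mono (Cfsg.Lib.Solv.le_pCore inferInstance ?_))
    exact hDp.comap_of_injective _ (Subgroup.subtype_injective _)

end Cfsg.Agent.S0955
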