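import Cfsg.Statements.S0957
import Mathlib
import Cfsg.Agent.Lib.Blocks.DefectZero

set_option autoImplicit false
open Cfsg

namespace Cfsg.Agent.S0957

/-- Let P be a Sylow p-subgroup of the finite group G, let g, h ∈ G and let p ^ d be the order of a Sylow p-subgroup of the centralizer of g. Then the number of pairs (y, z) with y conjugate to g, z conjugate to h and z * y⁻¹ ∈ P is divisible by the order of P divided by p ^ d. -/
theorem result {G : Type*} [Group G] [Finite G] (p : ℕ) [Fact p.Prime] (P : Sylow p G) (g h : G) (S : Sylow p (Subgroup.centralizer ({g} : Set G))) : Nat.card P / Nat.card S ∣ Nat.card {yz : G × G // IsConj g yz.1 ∧ IsConj h yz.2 ∧ yz.2 * yz.1⁻¹ ∈ (P : Subgroup G)} := by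
  classical
  haveI := Fintype.ofFinite G
  set T := {yz : G × G // IsConj g yz.1 ∧ IsConj h yz.2 ∧ yz.2 * yz.1⁻¹ ∈ (P : Subgroup G)}
  letI : MulAction ↥(P : Subgroup G) T :=
    { smul := fun a t => ⟨((a : G) * t.1.1 * (a : G)⁻¹, (a : G) * t.1.2 * (a : G)⁻¹),
        t.2.1.trans (isConj_iff.2 ⟨a, rfl⟩), t.2.2.1.trans (isConj_iff.2 ⟨a, rfl⟩), by
          have : (a : G) * t.1.2 * (a : G)⁻¹ * ((a : G) * t.1.1 * (a : G)⁻¹)⁻¹ = (a : G) * (t.1.2 * t.1.1⁻¹) * (a : G)⁻¹ := by group
          rw [this]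
          exact mul_mem (mul_mem a.2 t.2.2.2) (inv_mem a.2)⟩
      one_smul := fun t => Subtype.ext (Prod.ext (show (1 : G) * t.1.1 * (1 : G)⁻¹ = _ by group) (show (1 : G) * t.1.2 * (1 : G)⁻¹ = _ by group))
      mul_smul := fun a b t => Subtype.ext (Prod.ext
        (show (a : G) * b * t.1.1 * ((a : G) * b)⁻¹ = (a : G) * ((b : G) * t.1.1 * (b : G)⁻¹) * (a : G)⁻¹ by group)
        (show (a : G) * b * t.1.2 * ((a : G) * b)⁻¹ = (a : G) * ((b : G) * t.1.2 * (b : G)⁻¹) * (a : G)⁻¹ by group)) }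
  haveI : Fintype T := Fintype.ofFinite _
  rw [Nat.card_congr (MulAction.selfEquivSigmaOrbits ↥(P : Subgroup G) T), Nat.card_sigma]
  refine Finset.dvd_sum fun ω _ => ?_
  set t := ω.out
  have hos := MulAction.card_orbit_mul_card_stabilizer_eq_card_group ↥(P : Subgroup G) t
  simp only [← Nat.card_eq_fintype_card] at hos
  obtain ⟨c, hc⟩ := isConj_iff.1 t.2.1
  set K : Subgroup G := ((MulAction.stabilizer ↥(P : Subgroup G) t).map (P : Subgroup G).subtype).map (MulAut.conj c⁻¹).toMonoidHom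
  have hKc : Nat.card K = Nat.card (MulAction.stabilizer ↥(P : Subgroup G) t) := by
    rw [Nat.card_congr (Subgroup.equivMapOfInjective _ _ (MulEquiv.injective _)).toEquiv.symm,
      Nat.card_congr (Subgroup.equivMapOfInjective _ _ (Subtype.val_injective)).toEquiv.symm]
  have hK : K ≤ Subgroup.centralizer ({g} : Set G) := by
    rintro _ ⟨_, ⟨a, ha, rfl⟩, rfl⟩
    have h1 : (a : G) * t.1.1 * (a : G)⁻¹ = t.1.1 := congrArg (fun s : T => s.1.1) (MulAction.mem_stabilizer_iff.1 ha)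
    rw [Subgroup.mem_centralizer_singleton_iff]
    simp only [MulEquiv.toMonoidHom_eq_coe, MonoidHom.coe_coe, MulAut.conj_apply, inv_inv, Subgroup.coe_subtype]
    rw [← hc] at h1
    have h2 := congrArg (fun z => c⁻¹ * z * (a : G) * c) h1
    simp only [mul_assoc, inv_mul_cancel_left, mul_inv_cancel_left, inv_mul_cancel, mul_one] at h2 ⊢
    first | exact h2 | exact h2.symm
  have hKp : IsPGroup p K := ((P.2.to_subgroup _).map _).map _
  have hdvd : Nat.card K ∣ Nat.card S := by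
    obtain ⟨n, hn⟩ := IsPGroup.iff_card.1 hKp
    rw [hn]
    have h1 : p ^ n ∣ Nat.card (Subgroup.centralizer ({g} : Set G)) := hn ▸ Subgroup.card_dvd_of_le hK
    rw [S.card_eq_multiplicity]
    exact Nat.pow_dvd_pow p ((Fact.out : p.Prime).pow_dvd_iff_le_factorization Nat.card_pos.ne' |>.1 h1)
  rw [hKc] at hdvd
  obtain ⟨q, hq⟩ := hdvd

  rcases Nat.eq_zero_or_pos q with rfl | hq0
  · simp at hq
  rw [hq, ← hos]
  by_cases hd : Nat.card (MulAction.stabilizer ↥(P : Subgroup G) t) * q ∣ Nat.card (MulAction.orbit ↥(P : Subgroup G) t) * Nat.card (MulAction.stabilizer ↥(P : Subgroup G) t)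
  · obtain ⟨r, hr⟩ := hd
    rw [hr, Nat.mul_div_cancel_left r (Nat.mul_pos Nat.card_pos hq0)]
    refine ⟨q, Nat.eq_of_mul_eq_mul_right (m := Nat.card (MulAction.stabilizer ↥(P : Subgroup G) t)) Nat.card_pos ?_⟩
    change Nat.card (MulAction.orbit ↥(P : Subgroup G) t) * _ = _
    rw [hr]; ring
  · exfalso
    apply hd
    rw [← hq, hos, P.card_eq_multiplicity, S.card_eq_multiplicity]
    exact Nat.pow_dvd_pow p ((Nat.factorization_le_iff_dvd Nat.card_pos.ne' Nat.card_pos.ne').2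
      (Subgroup.card_subgroup_dvd_card _) p)

end Cfsg.Agent.S0957
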