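import Cfsg.Statements.S0967
import Mathlib
import Cfsg.Agent.Lib.Blocks.Principal
import Cfsg.Agent.Lib.Characters.Degree

set_option autoImplicit false
open Cfsg

namespace Cfsg.Agent.S0967

/-- Let N be a normal subgroup of the finite group G of order prime to p and fix a maximal ideal M of the algebraic integers containing p. If χ is an irreducible character of G ⧸ N and ψ lies in the block of its inflation χ ∘ (quotient map), then ψ is itself inflated from an irreducible character ψ' of G ⧸ N lying in the block of χ. (Over a normal p'-subgroup, blocks of the quotient are whole blocks of G.) -/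
theorem result {G : Type*} [Group G] [Finite G] (p : ℕ) [Fact p.Prime] (M : Ideal Cfsg.AlgInt) (hM : Cfsg.IsPModular p M) (N : Subgroup G) [N.Normal] (hN : ¬ p ∣ Nat.card N) (χ : Cfsg.IrrCharacter (G ⧸ N)) (ψ : Cfsg.IrrCharacter G) (hψ : ψ ∈ Cfsg.blockOf M ((χ : G ⧸ N → ℂ) ∘ QuotientGroup.mk)) : ∃ ψ' : Cfsg.IrrCharacter (G ⧸ N), (ψ : G → ℂ) = (ψ' : G ⧸ N → ℂ) ∘ QuotientGroup.mk ∧ Cfsg.SameBlock M (χ : G ⧸ N → ℂ) (ψ' : G ⧸ N → ℂ) := by
  haveI := hM.2.1.isPrime
  classical
  haveI := Fintype.ofFinite G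
  open Cfsg.Lib.Blocks Cfsg.Lib.Characters in
  · let χ' : IrrCharacter G := ⟨(χ : G ⧸ N → ℂ) ∘ QuotientGroup.mk,
      isIrrCharacter_comp_surjective χ.2 (QuotientGroup.mk' N) (QuotientGroup.mk'_surjective N)⟩
    have hs : SameBlock M (χ' : G → ℂ) (ψ : G → ℂ) := hψ
    have hker := ker_of_sameBlock hM N hN hs fun n hn => by
      show (χ : G ⧸ N → ℂ) (n : G ⧸ N) = (χ : G ⧸ N → ℂ) ((1 : G) : G ⧸ N)
      rw [(QuotientGroup.eq_one_iff n).mpr hn, QuotientGroup.mk_one]
    obtain ⟨ψ₀, -, hirr, hψ₀⟩ := exists_of_quotient ψ.2.isCharacter hker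
    let ψ' : IrrCharacter (G ⧸ N) := ⟨ψ₀, hirr ψ.2⟩
    refine ⟨ψ', funext fun g => (hψ₀ g).symm, ?_⟩
    haveI := Fintype.ofFinite (G ⧸ N)
    refine (sameBlock_iff M χ ψ').mpr fun x => ?_
    set z : MonoidAlgebra ℂ G := gOfFun fun a => if IsConj x (a : G ⧸ N) then 1 else 0 with hz
    have hzl : z ∈ locCenter G M := by
      refine ⟨isClassElt_gOfFun fun g a => if_congr ?_ rfl rfl, fun g => ?_⟩
      · rw [QuotientGroup.mk_mul, QuotientGroup.mk_mul, QuotientGroup.mk_inv, isConj_conj_right]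
      · rw [hz, coeff_gOfFun]; split_ifs <;> simp
    have hω : ∀ (φ : IrrCharacter G) (φ' : IrrCharacter (G ⧸ N)),
        (∀ a : G, (φ : G → ℂ) a = (φ' : G ⧸ N → ℂ) (a : G ⧸ N)) →
        omega φ z = (Nat.card N : ℂ) * centralChar (φ' : G ⧸ N → ℂ) x := by
      intro φ φ' hφ
      rw [← omega_classSum, omega, omega, ← mul_div_assoc, hφ 1, QuotientGroup.mk_one]
      congr 1
      simp only [hz, coeff_gOfFun, coeff_classSum, hφ]
      rw [Fintype.sum_equiv (Subgroup.groupEquivQuotientProdSubgroup (s := N))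
        (fun a : G => (if IsConj x (a : G ⧸ N) then (1 : ℂ) else 0) * (φ' : G ⧸ N → ℂ) (a : G ⧸ N))
        (fun q => (if IsConj x q.1 then (1 : ℂ) else 0) * (φ' : G ⧸ N → ℂ) q.1) (fun a => rfl),
        Fintype.sum_prod_type, Finset.mul_sum]
      exact Finset.sum_congr rfl fun q _ => by
        dsimp only
        rw [Nat.card_eq_fintype_card]
        simp
    have h := lam_eq_of_sameBlock M hs (redG M z)
    rw [lam_redG M χ' hzl, lam_redG M ψ hzl, hω χ' χ fun a => rfl, hω ψ ψ' fun a => (hψ₀ a).symm,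
      red_mul (natCast_mem _ _) (centralChar_mem_locRing M χ x),
      red_mul (natCast_mem _ _) (centralChar_mem_locRing M ψ' x), red_natCast] at h
    exact mul_left_cancel₀ (fun h0 => hN ((natCast_resF_eq_zero hM _).mp h0)) h

end Cfsg.Agent.S0967
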