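import Cfsg.Statements.S0969
import Mathlib
import Cfsg.Agent.Lib.Blocks.CentralDefect
import Cfsg.Agent.Lib.Blocks.CentralProduct

set_option autoImplicit false
open Cfsg

namespace Cfsg.Agent.S0969

/-- Let D be a central p-subgroup of the finite group G and χ an irreducible character with the exponent of p in χ(1) equal to the exponent of p in the index of D; fix a maximal ideal M of the algebraic integers containing p. Then D is a defect group of the block of χ, and χ g = 0 whenever the p-part of g does not lie in D. -/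
theorem result {G : Type*} [Group G] [Finite G] (p : ℕ) [Fact p.Prime] (M : Ideal Cfsg.AlgInt) (hM : Cfsg.IsPModular p M) (D : Subgroup G) (hD : IsPGroup p D) (hDZ : D ≤ Subgroup.center G) (χ : Cfsg.IrrCharacter G) (hdeg : (Cfsg.charDegree (χ : G → ℂ)).factorization p = D.index.factorization p) : Cfsg.IsDefectGroup p M (Cfsg.blockOf M (χ : G → ℂ)) D ∧ ∀ g x : G, Cfsg.IsPPart p g x → x ∉ D → (χ : G → ℂ) g = 0 := by
  haveI := hM.2.1.isPrime
  classical
  haveI := Fintype.ofFinite G
  open Cfsg.Lib.Blocks Cfsg.Lib.Characters ComplexConjugate in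
  · have hpr : p.Prime := Fact.out
    haveI : D.Normal := ⟨fun z hz g => by
      rw [Subgroup.mem_center_iff.mp (hDZ hz) g, mul_inv_cancel_right]; exact hz⟩
    have hC : Subgroup.centralizer (D : Set G) = ⊤ := top_le_iff.mp fun g _ =>
      Subgroup.mem_centralizer_iff.mpr fun x hx => (Subgroup.mem_center_iff.mp (hDZ hx) g).symm
    have hG : D ⊔ Subgroup.centralizer (D : Set G) = ⊤ := by rw [hC]; exact sup_top_eq _
    set d := charDegree (χ : G → ℂ) with hddef
    have hd : (χ : G → ℂ) 1 = (d : ℂ) := (coe_charDegree χ).symm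
    have hd0 : (d : ℝ) ≠ 0 := Nat.cast_ne_zero.mpr (charDegree_pos χ).ne'
    set Rg := Finset.univ.filter fun g : G => ¬ p ∣ orderOf g with hRg
    set R : ℝ := ∑ y ∈ Rg, ‖(χ : G → ℂ) y‖ ^ 2 with hR
    have hRC : ((R : ℝ) : ℂ) = regInner p (χ : G → ℂ) χ := by
      rw [hR, Complex.ofReal_sum, hRg, Finset.sum_filter, regInner]
      refine Finset.sum_congr rfl fun y _ => ?_
      split_ifs <;> simp [char_inv_eq_conj χ.2.isCharacter, Complex.mul_conj']
    have hnorm : ∀ z ∈ D, ∀ y : G, ‖(χ : G → ℂ) (z * y)‖ = ‖(χ : G → ℂ) y‖ := by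
      intro z hz y
      have h := congrArg norm (char_mul_cent hG χ hz (y := y) (by rw [hC]; trivial))
      rw [norm_mul, norm_mul, norm_eq_of_mem_center χ.2 hd (hDZ hz), hd, Complex.norm_natCast, mul_comm (d : ℝ)] at h
      exact mul_right_cancel₀ hd0 h
    set T := (Finset.univ.filter (· ∈ D)) ×ˢ Rg
    have hinj : Set.InjOn (fun q : G × G => q.1 * q.2) T := by
      intro q hq q' hq' h
      simp only [T, hRg, Finset.coe_product, Set.mem_prod, Finset.mem_coe, Finset.mem_filter, Finset.mem_univ, true_and] at hq hq'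
      obtain ⟨k, hk⟩ := IsPGroup.iff_orderOf.mp hD ⟨_, hq.1⟩
      obtain ⟨k', hk'⟩ := IsPGroup.iff_orderOf.mp hD ⟨_, hq'.1⟩
      rw [Subgroup.orderOf_mk] at hk hk'
      obtain ⟨e1, e2⟩ := pPart_unique h (Subgroup.mem_center_iff.mp (hDZ hq.1) _).symm
        (Subgroup.mem_center_iff.mp (hDZ hq'.1) _).symm ⟨k, hk⟩ ⟨k', hk'⟩ hq.2 hq'.2
      exact Prod.ext e1 e2
    set S := T.image fun q : G × G => q.1 * q.2
    have hSsum : ∑ g ∈ S, ‖(χ : G → ℂ) g‖ ^ 2 = (Nat.card D : ℝ) * R := by
      rw [Finset.sum_image hinj, Finset.sum_product,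
        Finset.sum_congr rfl (g := fun _ => R) fun z hz => Finset.sum_congr rfl fun y _ => by
          rw [hnorm z (Finset.mem_filter.mp hz).2],
        Finset.sum_const, nsmul_eq_mul, ← Fintype.card_subtype, ← Nat.card_eq_fintype_card]
    have hall : ∑ g : G, ‖(χ : G → ℂ) g‖ ^ 2 = (Nat.card G : ℝ) := by
      have h3 := classInner_irr_self χ.2
      rw [classInner, inv_mul_eq_one₀ (Nat.cast_ne_zero.mpr Nat.card_pos.ne')] at h3
      apply Complex.ofReal_injective
      push_cast
      rw [h3]
      exact Finset.sum_congr rfl fun g _ => (Complex.mul_conj' _).symm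
    -- the regular norm is at least the index
    have hN0 : regN p χ χ ≠ 0 := by
      intro h0
      have h := regN_spec (p := p) χ χ
      rw [h0, Int.cast_zero, mul_zero, ← hRC, Complex.ofReal_eq_zero, hR] at h
      have h1 := (Finset.sum_eq_zero_iff_of_nonneg fun y _ => sq_nonneg _).mp h 1
        (by simp [hRg, hpr.ne_one])
      rw [pow_eq_zero_iff two_ne_zero, norm_eq_zero] at h1
      exact χ.2.one_ne_zero h1
    have hB : IsPBlock M (blockOf M (χ : G → ℂ)) := ⟨χ, rfl⟩
    have hv := (regN_valuation hM hB (mem_blockOf_self M χ) (mem_blockOf_self M χ)).1 hN0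
    have hsplit : (Nat.card D).factorization p + D.index.factorization p = (Nat.card G).factorization p := by
      rw [← Subgroup.card_mul_index D, Nat.factorization_mul Nat.card_pos.ne' Subgroup.index_ne_zero_of_finite,
        Finsupp.add_apply]
    have hRge : (D.index : ℝ) ≤ R := by
      have h := regN_spec (p := p) χ χ
      rw [← hRC] at h
      have h' : R = ((Nat.card G / p ^ (Nat.card G).factorization p : ℕ) : ℝ) * (regN p χ χ : ℝ) := by
        apply Complex.ofReal_injective
        simp only [Complex.ofReal_mul, Complex.ofReal_natCast, Complex.ofReal_intCast]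
        exact h
      have hRn : 0 ≤ R := Finset.sum_nonneg fun y _ => sq_nonneg _
      have hu : 0 < Nat.card G / p ^ (Nat.card G).factorization p := Nat.ordCompl_pos p Nat.card_pos.ne'
      have hN : (regN p χ χ : ℝ) = ((regN p χ χ).natAbs : ℝ) := by
        have hnn : 0 ≤ regN p χ χ := by
          by_contra hneg
          push Not at hneg
          have : (regN p χ χ : ℝ) < 0 := by exact_mod_cast hneg
          nlinarith [show (0 : ℝ) < ((Nat.card G / p ^ (Nat.card G).factorization p : ℕ) : ℝ) by exact_mod_cast hu]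
        rw [Nat.cast_natAbs, abs_of_nonneg hnn]
      have hdv : p ^ D.index.factorization p ∣ (regN p χ χ).natAbs :=
        (hpr.pow_dvd_iff_le_factorization (Int.natAbs_ne_zero.mpr hN0)).mpr (hdeg ▸ hv)
      have hidx : D.index = Nat.card G / p ^ (Nat.card G).factorization p * p ^ D.index.factorization p := by
        obtain ⟨k, hk⟩ := IsPGroup.iff_card.mp hD
        have hDf : (Nat.card D).factorization p = k := by rw [hk, hpr.factorization_pow, Finsupp.single_eq_same]
        have e1 := Nat.ordProj_mul_ordCompl_eq_self (Nat.card G) p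
        rw [← hsplit, hDf, pow_add, mul_assoc] at e1
        have e2 : p ^ k * (p ^ D.index.factorization p * (Nat.card G / (p ^ k * p ^ D.index.factorization p)))
            = p ^ k * D.index := by rw [e1, ← hk, Subgroup.card_mul_index]
        rw [← hsplit, hDf, pow_add, mul_comm]
        exact (Nat.eq_of_mul_eq_mul_left (pow_pos hpr.pos k) e2).symm
      rw [h', hN, hidx, Nat.cast_mul]
      exact mul_le_mul_of_nonneg_left (by exact_mod_cast Nat.le_of_dvd (Int.natAbs_pos.mpr hN0) hdv) (Nat.cast_nonneg _)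
    have hle : (Nat.card D : ℝ) * R ≤ (Nat.card G : ℝ) := by
      rw [← hSsum, ← hall]
      exact Finset.sum_le_sum_of_subset_of_nonneg (Finset.subset_univ _) fun g _ _ => sq_nonneg _
    have hDG : (Nat.card D : ℝ) * (D.index : ℝ) = (Nat.card G : ℝ) := by exact_mod_cast Subgroup.card_mul_index D
    have hD0 : (0 : ℝ) < (Nat.card D : ℝ) := Nat.cast_pos.mpr Nat.card_pos
    have hReq : R = (D.index : ℝ) := le_antisymm (le_of_mul_le_mul_left (by rw [hDG]; exact hle) hD0) hRge
    refine ⟨?_, ?_⟩
    swap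
    · intro g x hgx hx
      obtain ⟨y, hgy, hc, ⟨k, hk⟩, hy⟩ := hgx
      by_contra hne
      have hgS : g ∉ S := by
        intro hmem
        obtain ⟨q, hq, hqe⟩ := Finset.mem_image.mp hmem
        simp only [T, hRg, Finset.mem_product, Finset.mem_filter, Finset.mem_univ, true_and] at hq
        obtain ⟨j, hj⟩ := IsPGroup.iff_orderOf.mp hD ⟨_, hq.1⟩
        rw [Subgroup.orderOf_mk] at hj
        have e := pPart_unique (hgy.trans hqe.symm) hc (Subgroup.mem_center_iff.mp (hDZ hq.1) _).symm
          ⟨k, hk⟩ ⟨j, hj⟩ hy hq.2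
        exact hx (e.1 ▸ hq.1)
      have h1 : ∑ g' ∈ insert g S, ‖(χ : G → ℂ) g'‖ ^ 2 ≤ ∑ g' : G, ‖(χ : G → ℂ) g'‖ ^ 2 :=
        Finset.sum_le_sum_of_subset_of_nonneg (Finset.subset_univ _) fun g _ _ => sq_nonneg _
      rw [Finset.sum_insert hgS, hSsum, hall, hReq, hDG] at h1
      have : (0 : ℝ) < ‖(χ : G → ℂ) g‖ ^ 2 := pow_pos (norm_pos_iff.mpr hne) 2
      linarith
    · obtain ⟨D', hD'⟩ := exists_defectGroup hM hB
      have hle' := normal_le_defectGroup hM hB hD' hD
      suffices Nat.card D' ≤ Nat.card D by rw [Subgroup.eq_of_le_of_card_ge hle' this]; exact hD'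
      obtain ⟨h1, h2⟩ := natDiv_mem_iff hM (charDegree_pos χ).ne' (Subgroup.index_ne_zero_of_finite (H := D))
      have hr : ((d : ℕ) : ℂ) / (D.index : ℂ) ∈ locRing M := h1.mpr hdeg.ge
      set w : MonoidAlgebra ℂ G := gOfFun fun g =>
        if p ∣ orderOf g then 0 else (d : ℂ) / (D.index : ℂ) * (χ : G → ℂ) g⁻¹ with hwdef
      have hw : w ∈ locCenter G M := by
        refine ⟨isClassElt_gOfFun fun g a => ?_, fun g => ?_⟩
        · have ho : orderOf (g * a * g⁻¹) = orderOf a := MulEquiv.orderOf_eq (MulAut.conj g) a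
          rw [ho, show (g * a * g⁻¹)⁻¹ = g * a⁻¹ * g⁻¹ by group,
            (char_eq_of_isConj χ (isConj_iff.mpr ⟨g, rfl⟩) : (χ : G → ℂ) a⁻¹ = _)]
        · rw [hwdef, coeff_gOfFun]
          split_ifs
          · exact zero_mem _
          · exact mul_mem hr (char_mem_locRing M χ _)
      have hω : omega χ w = 1 := by
        rw [omega, div_eq_one_iff_eq χ.2.one_ne_zero]
        have e : ∑ g, w.coeff g * (χ : G → ℂ) g = (d : ℂ) / (D.index : ℂ) * regInner p (χ : G → ℂ) χ := by
          rw [regInner, Finset.mul_sum]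
          refine Finset.sum_congr rfl fun g _ => ?_
          rw [hwdef, coeff_gOfFun]
          split_ifs <;> ring
        rw [e, ← hRC, hReq, Complex.ofReal_natCast, hd,
          div_mul_cancel₀ _ (Nat.cast_ne_zero.mpr Subgroup.index_ne_zero_of_finite)]
      obtain ⟨c, hc, hne⟩ := brNe_of_lam_ne_zero hM hB (mem_blockOf_self M χ) (isClassElt_redG M hw.1)
        (by rw [lam_redG M χ hw, hω, red_one]; exact one_ne_zero) (isPGroup_defectGroup hD') (brNe_defectGroup hD')
      rw [coeff_redG, hwdef, coeff_gOfFun] at hne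
      split_ifs at hne with hreg
      · exact absurd red_zero hne
      rw [red_mul hr (char_mem_locRing M χ _)] at hne
      have h3 := degree_le_of_value_ne hM χ (right_ne_zero_of_mul hne)
      rw [centralizer_inv_singleton] at h3
      have h4 := index_factorization (p := p) c
      obtain ⟨k, hk⟩ := IsPGroup.iff_card.mp (isPGroup_defectGroup hD')
      obtain ⟨z, hz⟩ := IsPGroup.iff_card.mp hD
      have h5 : p ^ k ∣ Nat.card (Subgroup.centralizer ({c} : Set G)) :=
        hk ▸ Subgroup.card_dvd_of_le (mem_centralizer_iff_le.mp hc)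
      rw [hpr.pow_dvd_iff_le_factorization Nat.card_pos.ne'] at h5
      have h6 : (Nat.card D).factorization p = z := by rw [hz, hpr.factorization_pow, Finsupp.single_eq_same]
      rw [hk, hz]
      refine Nat.pow_le_pow_right hpr.pos ?_
      rw [hddef] at hdeg
      omega

end Cfsg.Agent.S0969
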