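import Cfsg.Statements.S0970
import Mathlib
import Cfsg.Agent.Lib.Blocks.FongReynolds
import Cfsg.Agent.Lib.Blocks.Heights

set_option autoImplicit false
open Cfsg
set_option maxHeartbeats 1000000

namespace Cfsg.Agent.S0970

/-- Let N be a normal subgroup of the finite group G and fix a maximal ideal M of the algebraic integers containing the prime p. Let b be a block of N that is invariant under conjugation by G, and B a block of G covering b (some χ ∈ B has a constituent in b) whose defect is at least that of every block covering b. If P is a defect group of B, then p does not divide the index of P ⊔ N, the subgroup P ∩ N of N is a defect group of b, and the defect of B equals the defect of b plus the exponent of p in the index of N. -/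
theorem result {G : Type*} [Group G] [Fintype G] (p : ℕ) [Fact p.Prime] (M : Ideal Cfsg.AlgInt) (hM : Cfsg.IsPModular p M) (N : Subgroup G) [hN : N.Normal] [Fintype N] (b : Set (Cfsg.IrrCharacter N)) (hb : Cfsg.IsPBlock M b) (hinv : ∀ g : G, ∀ θ ∈ b, ∀ θ' : Cfsg.IrrCharacter N, (∀ n : N, (θ' : N → ℂ) n = (θ : N → ℂ) ⟨g * n * g⁻¹, hN.conj_mem n n.2 g⟩) → θ' ∈ b) (B : Set (Cfsg.IrrCharacter G)) (hB : Cfsg.IsPBlock M B) (hcov : ∃ χ ∈ B, ∃ θ ∈ b, Cfsg.classInner (fun n : N => (χ : G → ℂ) n) (θ : N → ℂ) ≠ 0) (hmax : ∀ B' : Set (Cfsg.IrrCharacter G), Cfsg.IsPBlock M B' → (∃ χ ∈ B', ∃ θ ∈ b, Cfsg.classInner (fun n : N => (χ : G → ℂ) n) (θ : N → ℂ) ≠ 0) → Cfsg.blockDefect p B' ≤ Cfsg.blockDefect p B) (P : Subgroup G) (hP : Cfsg.IsDefectGroup p M B P) : ¬ p ∣ (P ⊔ N).index ∧ Cfsg.IsDefectGroup p M b ((P ⊓ N).subgroupOf N) ∧ Cfsg.blockDefect p B = Cfsg.blockDefect p b + N.index.factorization p := by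
  haveI := hM.2.1.isPrime
  classical
  open Cfsg.Lib.Blocks Cfsg.Lib.Characters Finset in
  · have hpr : p.Prime := Fact.out
    have hst : ∀ g : G, ∀ θ ∈ b, cjIrr θ g ∈ b := fun g θ hθ =>
      hinv g θ hθ _ fun n => congrFun (coe_cjIrr θ g) n
    have hU : CjStable b := hst
    have hbu := IsPBlock.isBlockUnion hb
    set z := incSub N (blockE b) with hzdef
    have hz : z ∈ locCenter G M := incSub_blockE_mem hU hbu
    obtain ⟨χ, hχ, θ, hθ, hne⟩ := hcov
    -- a class seen by the covering blocks
    have hlam : lam M χ (redG M z) = 1 := by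
      rw [lam_redG M χ hz, omega_incSub_blockE hU χ θ hne, if_pos hθ, red_one]
    obtain ⟨y, hy1, hy2⟩ : ∃ y, red M (z.coeff y) ≠ 0 ∧ red M (centralChar (χ : G → ℂ) y) ≠ 0 := by
      by_contra hh
      push Not at hh
      refine one_ne_zero (hlam.symm.trans (lam_eq_zero_of_support χ fun g hg => hh g ?_))
      rwa [coeff_redG] at hg
    have hyN : y ∈ N := by
      by_contra h
      exact hy1 (by rw [hzdef, coeff_incSub_notMem _ _ h, red_zero])
    -- a covering block with large defect
    have hsum : z = ∑ B' ∈ (blocks G M).filter (fun B' : Set (IrrCharacter G) => ∃ χ ∈ B', ∃ θ ∈ b,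
        classInner (fun n : N => (χ : G → ℂ) n) (θ : N → ℂ) ≠ 0), blockE B' := by
      refine ext_omega hz.1 (IsClassElt.sum _ fun B' _ => isClassElt_blockE B') fun φ => ?_
      obtain ⟨ψ, hψ⟩ := exists_res_constituent (N := N) φ
      rw [omega_incSub_blockE hU φ ψ hψ]
      have hs : omega φ (∑ B' ∈ (blocks G M).filter (fun B' : Set (IrrCharacter G) => ∃ χ ∈ B', ∃ θ ∈ b,
          classInner (fun n : N => (χ : G → ℂ) n) (θ : N → ℂ) ≠ 0), blockE B')
          = ∑ B' ∈ (blocks G M).filter (fun B' : Set (IrrCharacter G) => ∃ χ ∈ B', ∃ θ ∈ b,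
          classInner (fun n : N => (χ : G → ℂ) n) (θ : N → ℂ) ≠ 0), omega φ (blockE B') := by
        rw [omega, Finset.sum_congr rfl fun g _ => by rw [gr_sum_apply, Finset.sum_mul],
          Finset.sum_comm, Finset.sum_div]
        rfl
      rw [hs]
      simp only [omega_blockE]
      split_ifs with hψb
      · rw [Finset.sum_eq_single (blockOf M (φ : G → ℂ))]
        · rw [if_pos (mem_blockOf_self M φ)]
        · intro B' hB' hne'
          rw [if_neg fun h' => hne' (IsPBlock.eq_blockOf (mem_blocks.mp (Finset.mem_filter.mp hB').1) h')]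
        · intro h'
          exact absurd (Finset.mem_filter.mpr
            ⟨mem_blocks.mpr ⟨φ, rfl⟩, φ, mem_blockOf_self M φ, ψ, hψb, hψ⟩) h'
      · rw [Finset.sum_eq_zero fun B' hB' => if_neg fun hmem => ?_]
        obtain ⟨hB'1, χ', hχ', θ', hθ', hne'⟩ := Finset.mem_filter.mp hB'
        exact hψb ((mem_iff_of_sameBlock hU hbu (IsPBlock.sameBlock (mem_blocks.mp hB'1) hχ' hmem) hne' hψ).mp hθ')
    obtain ⟨B₁, hB₁, hB₁y⟩ : ∃ B₁ ∈ (blocks G M).filter (fun B' : Set (IrrCharacter G) => ∃ χ ∈ B', ∃ θ ∈ b,
        classInner (fun n : N => (χ : G → ℂ) n) (θ : N → ℂ) ≠ 0), red M (blockCoeff B₁ y) ≠ 0 := by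
      by_contra hh
      push Not at hh
      apply hy1
      rw [hsum, gr_sum_apply, red_sum _ fun B' hB' => by
        rw [coeff_blockE]; exact blockCoeff_mem_locRing (mem_blocks.mp (Finset.mem_filter.mp hB').1) y]
      exact Finset.sum_eq_zero fun B' hB' => by rw [coeff_blockE]; exact hh B' hB'
    obtain ⟨hB₁b, hcov₁⟩ := Finset.mem_filter.mp hB₁
    have hB₁' := mem_blocks.mp hB₁b
    obtain ⟨D₁, hD₁⟩ := exists_defectGroup hM hB₁'
    obtain ⟨Q, hQ⟩ := exists_isSylCent p y
    obtain ⟨x₁, hx₁⟩ := le_conj_of_coeff_ne hM hB₁' hD₁ hB₁y hQ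
    obtain ⟨x, hx⟩ := le_conj_of_centralChar_ne hM hB hP hχ hy2 hQ
    have hcardle : Nat.card Q ≤ Nat.card P := by
      rw [← card_conjSub x₁ Q, card_defectGroup hM hB hP]
      refine (Subgroup.card_le_of_le hx₁).trans ?_
      rw [card_defectGroup hM hB₁' hD₁]
      exact Nat.pow_le_pow_right hpr.pos (hmax B₁ hB₁' hcov₁)
    have hPQ : conjSub x P = Q := Subgroup.eq_of_le_of_card_ge hx (by rwa [card_conjSub])
    set w := x⁻¹ * y * x⁻¹⁻¹ with hwdef
    have hw : IsSylCent p w P := by
      have h := hQ.conjSub x⁻¹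
      rwa [← hPQ, conjSub_conjSub, inv_mul_cancel, conjSub_one] at h
    have hwy : IsConj y w := isConj_iff.mpr ⟨x⁻¹, rfl⟩
    have hwN : w ∈ N := isConj_mem_normal (n := ⟨y, hyN⟩) hwy
    have hw1 : red M (blockCoeff b ⟨w, hwN⟩) ≠ 0 := by
      rw [← coeff_blockE, ← coeff_incSub_mem N (blockE b) ⟨w, hwN⟩, ← hzdef,
        ← hz.1.eq_of_isConj hwy]
      exact hy1
    have hw2 : red M (centralChar (χ : G → ℂ) w) ≠ 0 := by
      rw [centralChar, ← char_eq_of_isConj χ hwy, hwdef, ← conjSub_centralizer_singleton]
      have : (Cfsg.Lib.Blocks.conjSub x⁻¹ (Subgroup.centralizer ({y} : Set G))).index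
          = (Subgroup.centralizer ({y} : Set G)).index := by
        have h1 := Subgroup.card_mul_index (Subgroup.centralizer ({y} : Set G))
        have h2 := Subgroup.card_mul_index (Cfsg.Lib.Blocks.conjSub x⁻¹ (Subgroup.centralizer ({y} : Set G)))
        rw [card_conjSub, ← h1] at h2
        exact Nat.eq_of_mul_eq_mul_left Nat.card_pos h2
      rw [this]
      exact hy2
    -- classes of `N` inside the class of `w`
    set wN : N := ⟨w, hwN⟩ with hwNdef
    set S := Finset.univ.filter fun C : ConjClasses N => IsConj w ((cOut C : N) : G) with hS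
    set ι := (Subgroup.centralizer ({wN} : Set N)).index with hι
    have hcentN : ∀ a : N, Subgroup.centralizer ({a} : Set N) = (Subgroup.centralizer ({(a : G)} : Set G)).subgroupOf N := by
      intro a
      ext u
      rw [Subgroup.mem_subgroupOf, Subgroup.mem_centralizer_singleton_iff, Subgroup.mem_centralizer_singleton_iff]
      exact Subtype.ext_iff
    have hconjidx : ∀ a : N, IsConj w (a : G) → (Subgroup.centralizer ({a} : Set N)).index = ι := by
      intro a ha
      obtain ⟨g, hg⟩ := isConj_iff.mp ha
      have ha' : a = MulAut.conjNormal g wN := Subtype.ext (by rw [MulAut.conjNormal_apply]; exact hg.symm)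
      have hmap : (Subgroup.centralizer ({a} : Set N))
          = (Subgroup.centralizer ({wN} : Set N)).map (MulAut.conjNormal g : N ≃* N).toMonoidHom := by
        rw [ha']
        ext u
        rw [Subgroup.mem_map_equiv, Subgroup.mem_centralizer_singleton_iff, Subgroup.mem_centralizer_singleton_iff]
        constructor
        · intro h; have := congrArg (MulAut.conjNormal g : N ≃* N).symm h; simpa using this
        · intro h; have := congrArg (MulAut.conjNormal g : N ≃* N) h; simpa using this
      rw [hmap]
      exact Subgroup.index_map_equiv _ (MulAut.conjNormal g : N ≃* N)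
    have hθw : ∀ a : N, IsConj w (a : G) →
        red M (centralChar (θ : N → ℂ) a) = red M (centralChar (θ : N → ℂ) wN) := by
      intro a ha
      obtain ⟨g, hg⟩ := isConj_iff.mp ha
      have ha' : a = MulAut.conjNormal g wN := Subtype.ext (by rw [MulAut.conjNormal_apply]; exact hg.symm)
      have hval : centralChar (θ : N → ℂ) a = centralChar (cjIrr θ g : N → ℂ) wN := by
        rw [centralChar, centralChar, hconjidx a ha, hconjidx wN (IsConj.refl w), coe_cjIrr, conjFn_eq_comp, ha']
        simp
      rw [hval]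
      exact ((sameBlock_iff M θ (cjIrr θ g)).mp (IsPBlock.sameBlock hb hθ (hst g θ hθ)) wN).symm
    have hloc : resSub N (classSum ℂ w) ∈ locCenter N M :=
      ⟨(isClassElt_classSum ℂ _).resSub _, fun m => by rw [coeff_resSub]; exact isLoc_classSum M _ _⟩
    have hred : red M (centralChar (χ : G → ℂ) w)
        = (S.card : ResF M) * red M (centralChar (θ : N → ℂ) wN) := by
      have h := (covers_iff_centralChar hB hb).mp ⟨χ, hχ, θ, hθ, hne⟩ χ hχ θ hθ wN
      rw [inducedCentralChar_eq_omega, memLocalIdeal_sub_iff (centralChar_mem_locRing M χ _)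
        (omega_mem_locRing M θ hloc)] at h
      rw [h, omega_eq_sum_classes θ hloc.1, red_sum _ fun C _ => mul_mem (hloc.2 _) (centralChar_mem_locRing M θ _),
        Finset.sum_congr rfl (g := fun C => if IsConj w ((cOut C : N) : G) then red M (centralChar (θ : N → ℂ) wN) else 0)
          fun C _ => ?_,
        ← Finset.sum_filter, Finset.sum_const, nsmul_eq_mul]
      · refine congrArg (fun v : ℕ => (v : ResF M) * red M (centralChar (θ : N → ℂ) wN)) ?_
        exact congrArg Finset.card (Finset.ext fun C => by simp only [hS, Finset.mem_filter, Finset.mem_univ, true_and])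
      · rw [coeff_resSub, coeff_classSum]
        split_ifs with hC
        · rw [one_mul, hθw _ hC]
        · rw [zero_mul, red_zero]
    rw [hred] at hw2
    have hθne : red M (centralChar (θ : N → ℂ) wN) ≠ 0 := right_ne_zero_of_mul hw2
    have hScard : ¬ p ∣ S.card := fun h => left_ne_zero_of_mul hw2 ((natCast_resF_eq_zero hM _).mpr h)
    have hcount : (Subgroup.centralizer ({w} : Set G)).index = S.card * ι := by
      rw [← card_filter_isConj]
      have h := sum_classes (S := ℕ) (fun n : N => if IsConj w (n : G) then 1 else 0) fun a c hac =>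
        if_congr ⟨fun h => h.trans (MonoidHom.map_isConj N.subtype hac),
          fun h => h.trans (MonoidHom.map_isConj N.subtype hac).symm⟩ rfl rfl
      simp only [Nat.cast_id, mul_ite, mul_one, mul_zero] at h
      rw [← Finset.sum_filter, ← Finset.sum_filter, ← Finset.card_eq_sum_ones] at h
      rw [Finset.sum_congr rfl (g := fun _ => ι) fun C hC => hconjidx _ (Finset.mem_filter.mp hC).2,
        Finset.sum_const, smul_eq_mul] at h
      refine Eq.trans ?_ (h.trans (congrArg (· * ι) (congrArg Finset.card
        (Finset.ext fun C => by simp only [hS, Finset.mem_filter, Finset.mem_univ, true_and]))))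
      refine Finset.card_bij (fun g hg => (⟨g, isConj_mem_normal (n := wN) (Finset.mem_filter.mp hg).2⟩ : N))
        (fun g hg => Finset.mem_filter.mpr ⟨Finset.mem_univ _, (Finset.mem_filter.mp hg).2⟩)
        (fun a _ c _ h => congrArg Subtype.val h)
        fun n hn => ⟨n, Finset.mem_filter.mpr ⟨Finset.mem_univ _, (Finset.mem_filter.mp hn).2⟩, rfl⟩
    have hιv : ι.factorization p = (Subgroup.centralizer ({w} : Set G)).index.factorization p := by
      have hι0 : ι ≠ 0 := Subgroup.index_ne_zero_of_finite
      have hS0 : S.card ≠ 0 := fun h => hScard (h ▸ dvd_zero p)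
      rw [hcount, Nat.factorization_mul hS0 hι0, Finsupp.add_apply, Nat.factorization_eq_zero_of_not_dvd hScard,
        zero_add]
    -- the Sylow subgroup of the centralizer meets `N` in a Sylow subgroup
    set CN := Subgroup.centralizer ({wN} : Set N) with hCN
    have hi1 := index_factorization (p := p) w
    have hi2 : ι.factorization p + (Nat.card CN).factorization p = (Nat.card N).factorization p :=
      index_factorization (p := p) wN
    have hNsplit : (Nat.card N).factorization p + N.index.factorization p = (Nat.card G).factorization p := by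
      rw [← Subgroup.card_mul_index N, Nat.factorization_mul Nat.card_pos.ne' Subgroup.index_ne_zero_of_finite,
        Finsupp.add_apply]
    have hle : (P ⊓ N).subgroupOf N ≤ CN := by
      rw [hCN, hcentN]
      exact fun u hu => hw.le (Subgroup.mem_subgroupOf.mp hu).1
    have hcardPN : Nat.card ((P ⊓ N).subgroupOf N) = Nat.card (P ⊓ N : Subgroup G) :=
      Nat.card_congr (Subgroup.subgroupOfEquivOfLe inf_le_right).toEquiv
    have hPNp : IsPGroup p ((P ⊓ N).subgroupOf N) :=
      (hw.isPGroup.to_le inf_le_left).comap_of_injective _ (Subgroup.subtype_injective _)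
    obtain ⟨k, hk⟩ := IsPGroup.iff_card.mp hPNp
    have hmul : Nat.card (P ⊓ N : Subgroup G) * N.relIndex P = Nat.card P := by
      have e : N.subgroupOf P = (P ⊓ N).subgroupOf P := by
        ext u; simp [Subgroup.mem_subgroupOf]
      rw [Subgroup.relIndex, ← Nat.card_congr (Subgroup.subgroupOfEquivOfLe (inf_le_left : P ⊓ N ≤ P)).toEquiv, ← e]
      exact Subgroup.card_mul_index _
    have hdvd : N.relIndex P ∣ N.index := Subgroup.relIndex_dvd_index_of_normal N P
    obtain ⟨j, -, hj⟩ := (Nat.dvd_prime_pow hpr).mp (hw.card_eq ▸ Dvd.intro_left _ hmul)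
    have hjle : j ≤ N.index.factorization p :=
      (hpr.pow_dvd_iff_le_factorization Subgroup.index_ne_zero_of_finite).mp (hj ▸ hdvd)
    have hkle : k ≤ (Nat.card CN).factorization p :=
      (hpr.pow_dvd_iff_le_factorization Nat.card_pos.ne').mp (hk ▸ Subgroup.card_dvd_of_le hle)
    have hkj : k + j = (Nat.card (Subgroup.centralizer ({w} : Set G))).factorization p := by
      apply Nat.pow_right_injective hpr.two_le
      show p ^ (k + j) = p ^ _
      rw [pow_add, ← hk, hcardPN, ← hj, hmul, hw.card_eq]
    have hkeq : k = (Nat.card CN).factorization p := by omega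
    have hjeq : j = N.index.factorization p := by omega
    have hdg : IsDefectGroup p M b ((P ⊓ N).subgroupOf N) := by
      refine isDefectGroup_iff.mpr ⟨wN, ⟨blockCoeff_mem_locRing hb _, ?_, ?_⟩, ⟨hPNp, hle, hk.trans (by rw [hkeq])⟩⟩
      · exact (not_memLocalIdeal_iff (blockCoeff_mem_locRing hb _)).mpr hw1
      · intro φ hφ
        rw [not_memLocalIdeal_iff (centralChar_mem_locRing M φ _),
          ← (sameBlock_iff M θ φ).mp (IsPBlock.sameBlock hb hθ hφ) wN]
        exact hθne
    refine ⟨?_, hdg, ?_⟩
    · intro hd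
      have hfac : (P ⊔ N).index * N.relIndex P = N.index := by
        rw [← Subgroup.relIndex_sup_left (K := N) (H := P), mul_comm, sup_comm N P]
        exact Subgroup.relIndex_mul_index le_sup_right
      have h1 : p ^ (N.index.factorization p + 1) ∣ N.index := by
        conv_rhs => rw [← hfac, hj, hjeq]
        rw [pow_succ, mul_comm (P ⊔ N).index]
        exact mul_dvd_mul_left _ hd
      exact Nat.pow_succ_factorization_not_dvd Subgroup.index_ne_zero_of_finite hpr h1
    · have e1 := card_defectGroup hM hB hP
      have e2 := card_defectGroup hM hb hdg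
      rw [hw.card_eq] at e1
      rw [hk] at e2
      have e1' := Nat.pow_right_injective hpr.two_le e1
      have e2' := Nat.pow_right_injective hpr.two_le e2
      omega

end Cfsg.Agent.S0970
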