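import Cfsg.Statements.S0971
import Mathlib
import Cfsg.Agent.Lib.Blocks.Covering
import Cfsg.Agent.Lib.Blocks.NormalPSubgroup
import Cfsg.Agent.Lib.Blocks.Defect

set_option autoImplicit false
open Cfsg

namespace Cfsg.Agent.S0971

/-- Let Q be a normal p-subgroup of the finite group G, let N = Q ⊔ C_G(Q) (a normal subgroup) and let b be a block of N relative to a maximal ideal M of the algebraic integers containing p. Then b induces some block of G, and every block B of G containing a character whose restriction to N has a constituent in b is induced by b. -/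
theorem result {G : Type*} [Group G] [Fintype G] (p : ℕ) [Fact p.Prime] (M : Ideal Cfsg.AlgInt) (hM : Cfsg.IsPModular p M) (Q : Subgroup G) [Q.Normal] (hQ : IsPGroup p Q) [Fintype ↥(Q ⊔ Subgroup.centralizer (Q : Set G))] (b : Set (Cfsg.IrrCharacter ↥(Q ⊔ Subgroup.centralizer (Q : Set G)))) (hb : Cfsg.IsPBlock M b) : Cfsg.InducedBlockDefined M (Q ⊔ Subgroup.centralizer (Q : Set G)) b ∧ ∀ B : Set (Cfsg.IrrCharacter G), Cfsg.IsPBlock M B → (∃ χ ∈ B, ∃ θ ∈ b, Cfsg.classInner (fun n : ↥(Q ⊔ Subgroup.centralizer (Q : Set G)) => (χ : G → ℂ) n) (θ : ↥(Q ⊔ Subgroup.centralizer (Q : Set G)) → ℂ) ≠ 0) → Cfsg.IsInducedBlock M (Q ⊔ Subgroup.centralizer (Q : Set G)) b B := by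
  haveI := hM.2.1.isPrime
  classical
  open Cfsg.Lib.Blocks in
  · haveI : (Q ⊔ Subgroup.centralizer (Q : Set G)).Normal := by infer_instance
    have hCN : ∀ {g : G}, g ∉ (Q ⊔ Subgroup.centralizer (Q : Set G)) → g ∉ Subgroup.centralizer (Q : Set G) := fun hg h => hg (Subgroup.mem_sup_right h)
    have key : ∀ (B : Set (IrrCharacter G)), IsPBlock M B → ∀ χ ∈ B, ∀ θ ∈ b,
        classInner (fun n : ↥(Q ⊔ Subgroup.centralizer (Q : Set G)) => (χ : G → ℂ) n) (θ : ↥(Q ⊔ Subgroup.centralizer (Q : Set G)) → ℂ) ≠ 0 → IsInducedBlock M (Q ⊔ Subgroup.centralizer (Q : Set G)) b B := by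
      intro B hB χ hχ θ hθ hne
      refine ⟨hb, hB, fun ξ hξ ψ hψ g => ?_⟩
      by_cases hg : g ∈ (Q ⊔ Subgroup.centralizer (Q : Set G))
      · have h := (covers_iff_centralChar hB hb).mp ⟨χ, hχ, θ, hθ, hne⟩ ψ hψ ξ hξ ⟨g, hg⟩
        rw [memLocalIdeal_iff] at h ⊢
        rw [← neg_sub]
        refine ⟨neg_mem h.1, ?_⟩
        rw [red_neg h.1, h.2, neg_zero]
      · have h0 : inducedCentralChar (Q ⊔ Subgroup.centralizer (Q : Set G)) (ξ : ↥(Q ⊔ Subgroup.centralizer (Q : Set G)) → ℂ) g = 0 := by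
          rw [inducedCentralChar, finsum_mem_def, finsum_eq_sum_of_fintype]
          refine Finset.sum_eq_zero fun h _ => Set.indicator_of_notMem (fun hh => hg ?_) _
          exact isConj_mem_normal (show IsConj ((h : ↥(Q ⊔ Subgroup.centralizer (Q : Set G))) : G) g from hh.symm)
        rw [h0, memLocalIdeal_sub_iff (zero_mem _) (centralChar_mem_locRing M ψ g),
          red_centralChar_eq_zero_of_notMem hM hQ ψ (hCN hg)]
        exact red_zero
    obtain ⟨θ, hθ⟩ := IsPBlock.nonempty hb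
    obtain ⟨χ, hχ⟩ := exists_irr_over (G := G) θ
    exact ⟨⟨_, key _ ⟨χ, rfl⟩ χ (mem_blockOf_self M χ) θ hθ hχ⟩,
      fun B hB ⟨χ', h1, θ', h2, h3⟩ => key B hB χ' h1 θ' h2 h3⟩

end Cfsg.Agent.S0971
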