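import Cfsg.Statements.S0972
import Mathlib
import Cfsg.Agent.Lib.Blocks.CentralProduct
import Cfsg.Agent.Lib.Blocks.ExtendedFirstMain
import Cfsg.Agent.Lib.Blocks.NormalPSubgroup
import Cfsg.Agent.Lib.Blocks.Restriction
import Cfsg.Agent.Lib.Characters.Gallagher
import Cfsg.Agent.Lib.Characters.Degree

set_option autoImplicit false
open Cfsg

namespace Cfsg.Agent.S0972

/-- Let B be a block of the finite group G (relative to a maximal ideal M of the algebraic integers containing the prime p) with a defect group P that is normal in G. Then P is commutative if and only if every member of B has height zero. -/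
theorem result {G : Type*} [Group G] [Finite G] (p : ℕ) [Fact p.Prime] (M : Ideal Cfsg.AlgInt) (hM : Cfsg.IsPModular p M) (B : Set (Cfsg.IrrCharacter G)) (hB : Cfsg.IsPBlock M B) (P : Subgroup G) [P.Normal] (hP : Cfsg.IsDefectGroup p M B P) : (∀ a ∈ P, ∀ c ∈ P, a * c = c * a) ↔ ∀ χ ∈ B, Cfsg.blockHeight p B (χ : G → ℂ) = 0 := by
  haveI := hM.2.1.isPrime
  classical
  haveI := Fintype.ofFinite G
  open Cfsg.Lib.Blocks Cfsg.Lib.Characters in
  · have hPc := card_defectGroup hM hB hP
    have hidx : P.index.factorization p
        = sInf ((fun χ : IrrCharacter G => (charDegree (χ : G → ℂ)).factorization p) '' B) := by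
      obtain ⟨χ₀, -, hmin⟩ := exists_height_zero p (IsPBlock.nonempty hB)
      have h4 := charDegree_factorization_le (p := p) χ₀
      have h3 : (Nat.card P).factorization p + P.index.factorization p = (Nat.card G).factorization p := by
        rw [← Subgroup.card_mul_index P, Nat.factorization_mul Nat.card_pos.ne' Subgroup.index_ne_zero_of_finite,
          Finsupp.add_apply]
      rw [hPc, (Fact.out : p.Prime).factorization_pow, Finsupp.single_eq_same, blockDefect] at h3
      omega
    constructor
    · intro hab χ hχ
      haveI : IsMulCommutative P := ⟨⟨fun a c => Subtype.ext (hab a a.2 c c.2)⟩⟩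
      have h1 := degree_dvd_index_of_abelian χ.2 P (coe_charDegree χ).symm
      have h2 := (Nat.factorization_le_iff_dvd (charDegree_pos χ).ne' Subgroup.index_ne_zero_of_finite).mpr h1 p
      have h3 := inf_le_factorization p hχ
      rw [blockHeight_eq_zero_iff p hχ]
      omega
    · intro hh
      by_contra hnab
      obtain ⟨e, hmax⟩ := exists_maximal_of_defect hM hB hP
      have hp := isPGroup_defectGroup hP
      set H := P ⊔ Subgroup.centralizer (P : Set G) with hH
      set T := pairStab M ⊤ P e with hT
      have hHT : H ≤ T := local_le_pairStab P e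
      obtain ⟨b, hb, hcoe, hbe⟩ := exists_block_stab hM hmax.1.1 (T := H) le_sup_right le_sup_left hHT
      have hbP : IsDefectGroup p M b (P.subgroupOf H) :=
        (isDefectGroup_stab_iff hM le_sup_right hb hcoe le_sup_left).mpr
          (isBrMax_of_isMaxIn hmax.1.1 (isMaxIn_of_maximal hM hmax ⊤) le_sup_left hHT)
      have hind := (inducedBlock_local_iff hM hp hb hmax.1.1.2 hbe hB).mpr hmax.1
      have hTp : ¬ p ∣ H.relIndex T := (defect_iff_index hM hp hb hbP hmax.1.1.2 hbe hcoe hind).mp hP
      haveI hHn : H.Normal := ⟨fun h hh g =>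
        (Subgroup.mem_normalizer_iff.mp (conj_mem_local (P := P) (n := g)
          (by rw [Subgroup.normalizer_eq_top]; trivial)) h).mp hh⟩
      have hHtop : P.subgroupOf H ⊔ Subgroup.centralizer ((P.subgroupOf H : Subgroup H) : Set H) = ⊤ := by
        refine eq_top_iff.mpr fun h _ => ?_
        have hm : (h : G) ∈ ((P ⊔ Subgroup.centralizer (P : Set G) : Subgroup G) : Set G) := h.2
        rw [Subgroup.normal_mul, Set.mem_mul] at hm
        obtain ⟨x, hx, c, hc, hxc⟩ := hm
        have hxH : x ∈ H := Subgroup.mem_sup_left hx
        have hcH : c ∈ H := Subgroup.mem_sup_right hc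
        rw [show h = (⟨x, hxH⟩ : H) * ⟨c, hcH⟩ from Subtype.ext hxc.symm]
        exact mul_mem (Subgroup.mem_sup_left hx) (Subgroup.mem_sup_right
          (Subgroup.mem_centralizer_iff.mpr fun y hy => Subtype.ext (Subgroup.mem_centralizer_iff.mp hc y hy)))
      obtain ⟨θ, hθ, hθk, Φ, hΦ⟩ := exists_irr_param hM hHtop hb hbP
      -- a character of the defect group of degree divisible by `p`
      obtain ⟨l, hl⟩ : ∃ l : IrrCharacter (P.subgroupOf H), p ∣ charDegree (l : P.subgroupOf H → ℂ) := by
        by_contra hno
        push Not at hno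
        apply hnab
        have hpK : IsPGroup p (P.subgroupOf H) :=
          hp.comap_of_injective _ (Subgroup.subtype_injective _)
        have hlin : ∀ l : IrrCharacter (P.subgroupOf H), charDegree (l : P.subgroupOf H → ℂ) = 1 := by
          intro l
          obtain ⟨k, hk⟩ := IsPGroup.iff_card.mp hpK
          obtain ⟨j, -, hj⟩ := (Nat.dvd_prime_pow (Fact.out : p.Prime)).mp
            (hk ▸ degree_dvd_card l.2 (coe_charDegree l).symm)
          rcases j with - | j
          · rw [hj, pow_zero]
          · exact absurd (hj ▸ dvd_pow_self p (Nat.succ_ne_zero j)) (hno l)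
        haveI hmc : IsMulCommutative (P.subgroupOf H) := by
          have hk : Nat.card (IrrCharacter (P.subgroupOf H)) = Nat.card (P.subgroupOf H) := by
            have h := sum_sq_degree (G := P.subgroupOf H)
            rw [Finset.sum_congr rfl (g := fun _ => (1 : ℂ)) fun l _ => by
              rw [← coe_charDegree l, hlin l, Nat.cast_one, one_pow]] at h
            simp only [Finset.sum_const, Finset.card_univ, nsmul_eq_mul, mul_one] at h
            rw [Nat.card_eq_fintype_card (α := IrrCharacter _)]
            exact_mod_cast h
          rw [card_irr_eq_card_conjClasses] at hk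
          haveI := Fintype.ofFinite (ConjClasses (P.subgroupOf H))
          have hbij : Function.Bijective (ConjClasses.mk (α := P.subgroupOf H)) :=
            (Fintype.bijective_iff_surjective_and_card _).mpr ⟨ConjClasses.mk_surjective, by
              rw [← Nat.card_eq_fintype_card, ← Nat.card_eq_fintype_card, hk]⟩
          refine ⟨⟨fun a c => mul_inv_eq_iff_eq_mul.mp (hbij.1 (a₁ := a * c * a⁻¹) (a₂ := c) ?_)⟩⟩
          exact ConjClasses.mk_eq_mk_iff_isConj.mpr (isConj_iff.mpr ⟨a⁻¹, by group⟩)
        intro a ha c hc
        exact congrArg (fun z : P.subgroupOf H => ((z : H) : G))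
          (hmc.is_comm.comm ⟨⟨a, Subgroup.mem_sup_left ha⟩, ha⟩ ⟨⟨c, Subgroup.mem_sup_left hc⟩, hc⟩)
      set φ := ((Φ.symm l : b) : IrrCharacter H) with hφdef
      have hφb : φ ∈ b := (Φ.symm l).2
      have hφdeg : charDegree (φ : H → ℂ) = charDegree (θ : H → ℂ) * charDegree (l : P.subgroupOf H → ℂ) := by
        refine charDegree_eq ?_
        have h := hΦ (Φ.symm l) 1
        rw [Equiv.apply_symm_apply] at h
        rw [Nat.cast_mul, coe_charDegree, coe_charDegree]
        exact h
      have hφv : (P.subgroupOf H).index.factorization p < (charDegree (φ : H → ℂ)).factorization p := by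
        rw [hφdeg, Nat.factorization_mul (charDegree_pos θ).ne' (charDegree_pos l).ne', Finsupp.add_apply,
          (factorization_eq_index hM hb hbP hθ hθk).1]
        have := (Fact.out : p.Prime).factorization_pos_of_dvd (charDegree_pos l).ne' hl
        omega
      obtain ⟨χ, hχ, hne⟩ := exists_constituent hM hind hφb
      have hcl := congrFun (clifford χ.2 φ.2 hne) 1
      obtain ⟨k, hk⟩ := classInner_nat (isCharacter_restrict χ.2.isCharacter H) φ.2.isCharacter
      set O := orbitFinset H (φ : H → ℂ) with hO
      have hO1 : ∀ ψ ∈ O, ψ 1 = (φ : H → ℂ) 1 := fun ψ hψ => by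
        obtain ⟨g, rfl⟩ := mem_orbitFinset.mp hψ
        rw [conjFn_apply]
        exact congrArg (φ : H → ℂ) (Subtype.ext (show g * ((1 : H) : G) * g⁻¹ = ((1 : H) : G) by
          rw [Subgroup.coe_one]; group))
      rw [Pi.smul_apply, Finset.sum_apply, Finset.sum_congr rfl hO1, Finset.sum_const, smul_eq_mul,
        nsmul_eq_mul, hk] at hcl
      have hdeg : charDegree (χ : G → ℂ) = k * (O.card * charDegree (φ : H → ℂ)) := by
        refine charDegree_eq ?_
        rw [Nat.cast_mul, Nat.cast_mul, coe_charDegree]
        exact hcl
      have hIT : inertia H (φ : H → ℂ) ≤ T := by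
        intro g hg
        have hgN : g ∈ Subgroup.normalizer (H : Set G) := by rw [Subgroup.normalizer_eq_top]; trivial
        refine ⟨trivial, by rw [Subgroup.normalizer_eq_top]; trivial, ?_⟩
        refine ((pullBlock_local_iff hb hb hbe hbe hgN).mp ?_).symm
        refine IsPBlock.eq_of_mem (isPBlock_pull _ hb) hb (χ := φ) ?_ hφb
        have hfix : irrPull (normConj H hgN) φ = φ := by
          refine Subtype.ext (funext fun x => ?_)
          exact (congrArg (φ : H → ℂ) (Subtype.ext rfl)).trans (congrFun hg x)
        have := (mem_pullBlock (normConj H hgN) b φ).mpr hφb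
        rwa [hfix] at this
      have hcard := card_stabilizer_mul_card_orbit (N := H) (φ : H → ℂ)
      rw [← card_inertia, ← hO] at hcard
      have hmul : Nat.card T * (H.index / H.relIndex T) = Nat.card G := by
        rw [← Subgroup.relIndex_mul_index hHT, Nat.mul_div_cancel_left _ (Nat.pos_of_ne_zero fun h => hTp (by rw [h]; exact dvd_zero p)),
          Subgroup.card_mul_index]
      have hOv : H.index.factorization p ≤ O.card.factorization p := by
        have hO0 : O.card ≠ 0 := fun h => (Nat.card_pos (α := G)).ne' (by rw [← hcard, h, mul_zero])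
        have h1 : (Nat.card T * (H.index / H.relIndex T)).factorization p
            = (Nat.card (inertia H (φ : H → ℂ)) * O.card).factorization p := by rw [hmul, hcard]
        have hq0 : H.index / H.relIndex T ≠ 0 := fun h => Nat.card_pos.ne' (hmul.symm.trans (by rw [h, mul_zero]))
        rw [Nat.factorization_mul Nat.card_pos.ne' hq0, Nat.factorization_mul Nat.card_pos.ne' hO0,
          Finsupp.add_apply, Finsupp.add_apply,
          Nat.factorization_div (Dvd.intro _ (Subgroup.relIndex_mul_index hHT)), Finsupp.coe_tsub, Pi.sub_apply,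
          Nat.factorization_eq_zero_of_not_dvd hTp] at h1
        have h2 := (Nat.factorization_le_iff_dvd Nat.card_pos.ne' Nat.card_pos.ne').mpr
          (Subgroup.card_dvd_of_le hIT) p
        omega
      have hk0 : k ≠ 0 := fun h => hne (by rw [hk, h, Nat.cast_zero])
      have hO0 : O.card ≠ 0 := fun h => (charDegree_pos χ).ne' (by rw [hdeg, h, zero_mul, mul_zero])
      have hχv := (blockHeight_eq_zero_iff p hχ).mp (hh χ hχ)
      rw [hdeg, Nat.factorization_mul hk0 (mul_ne_zero hO0 (charDegree_pos φ).ne'), Finsupp.add_apply,
        Nat.factorization_mul hO0 (charDegree_pos φ).ne', Finsupp.add_apply, ← hidx] at hχv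
      have hsplit : P.index.factorization p = (P.subgroupOf H).index.factorization p + H.index.factorization p := by
        rw [← Subgroup.relIndex_mul_index (le_sup_left : P ≤ H), Nat.factorization_mul
          (show P.relIndex H ≠ 0 from Subgroup.index_ne_zero_of_finite) Subgroup.index_ne_zero_of_finite, Finsupp.add_apply]
        rfl
      omega

end Cfsg.Agent.S0972
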