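import Cfsg.Statements.S0986
import Mathlib

set_option autoImplicit false
open Cfsg

namespace Cfsg.Agent.S0986

/-- Let P and Q be distinct Sylow p-subgroups of a finite group G chosen so that the order of P ∩ Q is as large as possible among intersections of two distinct Sylow p-subgroups, and let N be the normalizer of P ∩ Q. Then N has more than one Sylow p-subgroup, any two distinct Sylow p-subgroups of N intersect exactly in P ∩ Q, and each Sylow p-subgroup of N lies in exactly one Sylow p-subgroup of G. -/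
theorem result {G : Type*} [Group G] [Finite G] (p : ℕ) [Fact p.Prime] (P Q : Sylow p G) (hPQ : P ≠ Q) (hmax : ∀ P' Q' : Sylow p G, P' ≠ Q' → Nat.card ↥((P' : Subgroup G) ⊓ (Q' : Subgroup G)) ≤ Nat.card ↥((P : Subgroup G) ⊓ (Q : Subgroup G))) : 1 < Nat.card (Sylow p ↥(Subgroup.normalizer (((P : Subgroup G) ⊓ (Q : Subgroup G) : Subgroup G) : Set G))) ∧ (∀ S T : Sylow p ↥(Subgroup.normalizer (((P : Subgroup G) ⊓ (Q : Subgroup G) : Subgroup G) : Set G)), S ≠ T → (S : Subgroup _) ⊓ (T : Subgroup _) = ((P : Subgroup G) ⊓ (Q : Subgroup G)).subgroupOf (Subgroup.normalizer (((P : Subgroup G) ⊓ (Q : Subgroup G) : Subgroup G) : Set G))) ∧ ∀ S : Sylow p ↥(Subgroup.normalizer (((P : Subgroup G) ⊓ (Q : Subgroup G) : Subgroup G) : Set G)), ∃! T : Sylow p G, (S : Subgroup _).map (Subgroup.normalizer (((P : Subgroup G) ⊓ (Q : Subgroup G) : Subgroup G) : Set G)).subtype ≤ (T : Subgroup G) := by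
  classical
  set D := (P : Subgroup G) ⊓ (Q : Subgroup G) with hD
  set N := Subgroup.normalizer (D : Set G) with hN
  have hDN : D ≤ N := Subgroup.le_normalizer
  have hgrow : ∀ R : Sylow p G, D < (R : Subgroup G) → D < N ⊓ (R : Subgroup G) := by
    intro R hlt
    haveI : Group.IsNilpotent (R : Subgroup G) := R.isPGroup'.isNilpotent
    have h1 : D.subgroupOf (R : Subgroup G) < ⊤ := by
      rw [lt_top_iff_ne_top, ne_eq, Subgroup.subgroupOf_eq_top]
      exact not_le_of_gt hlt
    have h2 := normalizerCondition_of_isNilpotent _ h1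
    rw [← Subgroup.subgroupOf_normalizer_eq hlt.le] at h2
    refine lt_of_le_of_ne (le_inf hDN hlt.le) fun e => ?_
    refine absurd ?_ (not_le_of_gt h2)
    intro x hx
    exact Subgroup.mem_subgroupOf.mpr (e ▸ (⟨hx, x.2⟩ : (x : G) ∈ N ⊓ (R : Subgroup G)))
  have hlt : D < (P : Subgroup G) ∧ D < (Q : Subgroup G) := by
    have hc : Nat.card (P : Subgroup G) = Nat.card (Q : Subgroup G) := by
      rw [P.card_eq_multiplicity, Q.card_eq_multiplicity]
    refine ⟨lt_of_le_of_ne inf_le_left fun e => hPQ ?_, lt_of_le_of_ne inf_le_right fun e => hPQ ?_⟩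
    · exact Sylow.ext (Subgroup.eq_of_le_of_card_ge (inf_eq_left.mp e) hc.ge)
    · exact (Sylow.ext (Subgroup.eq_of_le_of_card_ge (inf_eq_right.mp e) hc.le)).symm
  have hbig : ∀ (R R' : Sylow p G) (X : Subgroup G), X ≤ (R : Subgroup G) → X ≤ (R' : Subgroup G) →
      Nat.card D < Nat.card X → R = R' := by
    intro R R' X h1 h2 h3
    by_contra hne
    have := Subgroup.card_le_of_le (le_inf h1 h2)
    have := hmax R R' hne
    omega
  have hcardlt : ∀ X : Subgroup G, D < X → Nat.card D < Nat.card X := fun X h => by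
    by_contra hc
    push Not at hc
    exact h.ne (Subgroup.eq_of_le_of_card_ge h.le hc)
  have hDS : ∀ S : Sylow p N, D.subgroupOf N < (S : Subgroup N) := by
    intro S
    haveI : (D.subgroupOf N).Normal := Subgroup.normal_in_normalizer
    have hp1 : IsPGroup p (D.subgroupOf N) :=
      IsPGroup.of_equiv (P.isPGroup'.to_le inf_le_left) (Subgroup.subgroupOfEquivOfLe hDN).symm
    obtain ⟨S₁, hS₁⟩ := hp1.exists_le_sylow
    have hle : D.subgroupOf N ≤ (S : Subgroup N) := by
      obtain ⟨g, rfl⟩ := MulAction.exists_smul_eq N S₁ S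
      intro x hx
      refine ⟨g⁻¹ * x * g, hS₁ ?_, by simp [mul_assoc]⟩
      have := ‹(D.subgroupOf N).Normal›.conj_mem x hx g⁻¹
      rwa [inv_inv] at this
    refine lt_of_le_of_ne hle fun e => ?_
    -- a Sylow subgroup of N is larger than D
    have hX : IsPGroup p ((N ⊓ (P : Subgroup G)).subgroupOf N) :=
      IsPGroup.of_equiv (P.isPGroup'.to_le inf_le_right) (Subgroup.subgroupOfEquivOfLe inf_le_left).symm
    obtain ⟨S₂, hS₂⟩ := hX.exists_le_sylow
    have h1 := Subgroup.card_le_of_le hS₂
    rw [S₂.card_eq_multiplicity, ← S.card_eq_multiplicity, ← e,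
      Nat.card_congr (Subgroup.subgroupOfEquivOfLe inf_le_left).toEquiv,
      Nat.card_congr (Subgroup.subgroupOfEquivOfLe hDN).toEquiv] at h1
    exact absurd h1 (not_le_of_gt (hcardlt _ (hgrow P hlt.1)))
  have hmapS : ∀ S : Sylow p N, D < (S : Subgroup N).map N.subtype := fun S => by
    have := (Subgroup.map_lt_map_iff_of_injective N.subtype_injective).mpr (hDS S)
    rwa [Subgroup.subgroupOf_map_subtype, inf_eq_left.mpr hDN] at this
  have huniq : ∀ S : Sylow p N, ∃! T : Sylow p G, (S : Subgroup N).map N.subtype ≤ (T : Subgroup G) := by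
    intro S
    obtain ⟨T, hT⟩ := (S.isPGroup'.map N.subtype).exists_le_sylow
    exact ⟨T, hT, fun T' hT' => hbig T' T _ hT' hT (hcardlt _ (hmapS S))⟩
  refine ⟨?_, fun S T hST => ?_, huniq⟩
  · rw [Finite.one_lt_card_iff_nontrivial]
    by_contra hns
    rw [not_nontrivial_iff_subsingleton] at hns
    have key : ∀ R : Sylow p G, D < (R : Subgroup G) → ∀ S : Sylow p N, ∀ T : Sylow p G,
        (S : Subgroup N).map N.subtype ≤ (T : Subgroup G) → T = R := by
      intro R hR S T hT
      have hX : IsPGroup p ((N ⊓ (R : Subgroup G)).subgroupOf N) :=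
        IsPGroup.of_equiv (R.isPGroup'.to_le inf_le_right) (Subgroup.subgroupOfEquivOfLe inf_le_left).symm
      obtain ⟨S', hS'⟩ := hX.exists_le_sylow
      rw [Subsingleton.elim S' S] at hS'
      refine hbig T R (N ⊓ (R : Subgroup G)) ?_ inf_le_right (hcardlt _ (hgrow R hR))
      refine le_trans ?_ hT
      rw [← inf_eq_left.mpr (inf_le_left : N ⊓ (R : Subgroup G) ≤ N), ← Subgroup.subgroupOf_map_subtype]
      exact Subgroup.map_mono hS'
    obtain ⟨S⟩ : Nonempty (Sylow p N) := inferInstance
    obtain ⟨T, hT, -⟩ := huniq S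
    exact hPQ ((key P hlt.1 S T hT).symm.trans (key Q hlt.2 S T hT))
  · obtain ⟨U, hU, -⟩ := huniq S
    obtain ⟨V, hV, -⟩ := huniq T
    have hUV : U ≠ V := by
      rintro rfl
      apply hST
      have hP' : IsPGroup p ((S : Subgroup N) ⊔ (T : Subgroup N) : Subgroup N) := by
        refine (U.isPGroup'.comap_of_injective N.subtype N.subtype_injective).to_le (sup_le ?_ ?_)
        · exact Subgroup.map_le_iff_le_comap.mp hU
        · exact Subgroup.map_le_iff_le_comap.mp hV
      exact Sylow.ext ((S.is_maximal' hP' le_sup_left).symm.trans (T.is_maximal' hP' le_sup_right))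
    refine (Subgroup.eq_of_le_of_card_ge (le_inf (hDS S).le (hDS T).le) ?_).symm
    rw [Nat.card_congr (Subgroup.subgroupOfEquivOfLe hDN).toEquiv,
      Nat.card_congr (((S : Subgroup N) ⊓ (T : Subgroup N)).equivMapOfInjective N.subtype N.subtype_injective).toEquiv]
    exact (Subgroup.card_le_of_le (le_inf ((Subgroup.map_mono inf_le_left).trans hU)
      ((Subgroup.map_mono inf_le_right).trans hV))).trans (hmax U V hUV)

end Cfsg.Agent.S0986
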