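import Cfsg.Statements.S0987
import Mathlib
import Cfsg.Agent.Lib.PermGroup.TwinDegree

set_option autoImplicit false
open Cfsg

namespace Cfsg.Agent.S0987

/-- If a finite group has order pqr for primes p < q < r, then its Sylow r-subgroups are normal. -/
theorem result {G : Type*} [Group G] [Finite G] (p q r : ℕ) (hp : p.Prime) (hq : q.Prime) [Fact r.Prime] (hpq : p < q) (hqr : q < r) (hG : Nat.card G = p * q * r) (R : Sylow r G) : (R : Subgroup G).Normal := by
  haveI := Fact.mk hq
  haveI := Fact.mk hp
  have hr : r.Prime := Fact.out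
  have hp1 := hp.two_le
  -- Sylow subgroups have prime order
  have hrc : ∀ S : Sylow r G, Nat.card (S : Subgroup G) = r := by
    intro S
    obtain ⟨j, hj⟩ := IsPGroup.iff_card.mp S.isPGroup'
    have h1 : r ^ 1 ∣ Nat.card (S : Subgroup G) := by
      rw [pow_one]; exact S.dvd_card_of_dvd_card (hG ▸ dvd_mul_left r _)
    have h2 : ¬ r ^ 2 ∣ Nat.card G := by
      rw [hG, sq]
      intro h
      have := Nat.dvd_of_mul_dvd_mul_right hr.pos h
      rcases hr.dvd_mul.mp this with e | e
      · have := Nat.le_of_dvd hp.pos e; omega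
      · have := Nat.le_of_dvd hq.pos e; omega
    rw [hj] at h1 ⊢
    have hle : 1 ≤ j := (Nat.pow_dvd_pow_iff_le_right hr.one_lt).mp h1
    have : ¬ 2 ≤ j := fun h => h2 ((pow_dvd_pow r h).trans (hj ▸ Subgroup.card_subgroup_dvd_card _))
    rw [show j = 1 by omega, pow_one]
  have hqc : ∀ S : Sylow q G, Nat.card (S : Subgroup G) = q := by
    intro S
    obtain ⟨j, hj⟩ := IsPGroup.iff_card.mp S.isPGroup'
    have h1 : q ^ 1 ∣ Nat.card (S : Subgroup G) := by
      rw [pow_one]; exact S.dvd_card_of_dvd_card (hG ▸ (dvd_mul_left q p).mul_right r)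
    have h2 : ¬ q ^ 2 ∣ Nat.card G := by
      rw [hG, sq, show p * q * r = q * (p * r) by ring]
      intro h
      have := Nat.dvd_of_mul_dvd_mul_left hq.pos h
      rcases hq.dvd_mul.mp this with e | e
      · have := Nat.le_of_dvd hp.pos e; omega
      · have := (Nat.prime_dvd_prime_iff_eq hq hr).mp e; omega
    rw [hj] at h1 ⊢
    have hle : 1 ≤ j := (Nat.pow_dvd_pow_iff_le_right hq.one_lt).mp h1
    have : ¬ 2 ≤ j := fun h => h2 ((pow_dvd_pow q h).trans (hj ▸ Subgroup.card_subgroup_dvd_card _))
    rw [show j = 1 by omega, pow_one]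
  by_contra hR
  set nr := Nat.card (Sylow r G) with hnr
  have hnr1 : nr ≠ 1 := fun h => hR (by
    haveI := (Nat.card_eq_one_iff_unique.mp h).1
    exact R.normal_of_subsingleton)
  have hnrd : nr ∣ p * q := by
    have h := R.card_dvd_index
    have hidx := (R : Subgroup G).card_mul_index
    rw [hrc R, hG, mul_comm r] at hidx
    rwa [Nat.eq_of_mul_eq_mul_right hr.pos hidx] at h
  have hnrm : nr % r = 1 := by
    have h := card_sylow_modEq_one r G
    rwa [Nat.ModEq, Nat.one_mod_eq_one.mpr hr.ne_one] at h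
  have hnrpq : nr = p * q := by
    obtain ⟨a, b, ha, hb, he⟩ : ∃ a b, a ∣ p ∧ b ∣ q ∧ nr = a * b := by
      obtain ⟨a, b, h1, h2, h3⟩ := exists_dvd_and_dvd_of_dvd_mul hnrd
      exact ⟨a, b, h1, h2, h3⟩
    rw [he] at hnr1 hnrm ⊢
    rcases (Nat.dvd_prime hp).mp ha with rfl | rfl <;> rcases (Nat.dvd_prime hq).mp hb with rfl | rfl
    · exact absurd rfl hnr1
    · rw [one_mul, Nat.mod_eq_of_lt hqr] at hnrm; omega
    · rw [mul_one, Nat.mod_eq_of_lt (hpq.trans hqr)] at hnrm; omega
    · rfl
  set nq := Nat.card (Sylow q G) with hnq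
  obtain ⟨Q⟩ : Nonempty (Sylow q G) := inferInstance
  have hQn : (Q : Subgroup G).Normal := by
    by_contra hQ
    have hne : nq ≠ 1 := fun h => hQ (by
      haveI := (Nat.card_eq_one_iff_unique.mp h).1
      exact Q.normal_of_subsingleton)
    have hd : nq ∣ p * r := by
      have h := Q.card_dvd_index
      have hidx := (Q : Subgroup G).card_mul_index
      rw [hqc Q, hG, show p * q * r = q * (p * r) by ring] at hidx
      rwa [Nat.eq_of_mul_eq_mul_left hq.pos hidx] at h
    have hm : nq % q = 1 := by
      have h := card_sylow_modEq_one q G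
      rwa [Nat.ModEq, Nat.one_mod_eq_one.mpr hq.ne_one] at h
    have hge : r ≤ nq := by
      obtain ⟨a, b, ha, hb, e⟩ := exists_dvd_and_dvd_of_dvd_mul hd
      rcases (Nat.dvd_prime hr).mp hb with rfl | rfl
      · rw [mul_one] at e
        rcases (Nat.dvd_prime hp).mp ha with rfl | rfl
        · exact absurd e hne
        · rw [e, Nat.mod_eq_of_lt hpq] at hm; omega
      · rcases (Nat.dvd_prime hp).mp ha with rfl | rfl <;> rw [e]
        · simp
        · exact Nat.le_mul_of_pos_left _ hp.pos
    -- count elements of orders r and q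
    have h1 := Cfsg.Lib.PermGroup.card_orderOf_eq_prime hrc
    have h2 := Cfsg.Lib.PermGroup.card_orderOf_eq_prime hqc
    classical
    haveI : Fintype G := Fintype.ofFinite _
    have hdisj : Disjoint (Finset.univ.filter fun g : G => orderOf g = r)
        (Finset.univ.filter fun g : G => orderOf g = q) := by
      rw [Finset.disjoint_filter]; intro g _ e1 e2; omega
    have hle := Finset.card_le_univ ((Finset.univ.filter fun g : G => orderOf g = r) ∪
      (Finset.univ.filter fun g : G => orderOf g = q))
    rw [Finset.card_union_of_disjoint hdisj, ← Fintype.card_subtype, ← Fintype.card_subtype,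
      ← Nat.card_eq_fintype_card, ← Nat.card_eq_fintype_card, ← Nat.card_eq_fintype_card,
      h1, h2, hG, ← hnr, ← hnq, hnrpq] at hle
    have h3 : r * (q - 1) ≤ nq * (q - 1) := Nat.mul_le_mul_right _ hge
    have h4 : (q + 1) * p ≤ r * (q - 1) := Nat.mul_le_mul (by omega) (by omega)
    have h5 : p * q * r = p * q * (r - 1) + p * q := by
      rw [← Nat.mul_succ, Nat.succ_eq_add_one, Nat.sub_add_cancel hr.one_le]
    rw [add_mul, one_mul, mul_comm q p] at h4
    omega
  -- the normal subgroup of order q is centralised by R, so q does not divide the index of its normalizer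
  have hcent : ∀ x ∈ (R : Subgroup G), ∀ y ∈ (Q : Subgroup G), x * y = y * x := by
    intro x hx y hy
    have hxr : orderOf x ∣ r := hrc R ▸ (Subgroup.orderOf_coe (⟨x, hx⟩ : (R : Subgroup G)) ▸ orderOf_dvd_natCard _)
    let φ : MulAut (Q : Subgroup G) := MulAut.conjNormal x
    have hφr : orderOf φ ∣ r := (orderOf_map_dvd (MulAut.conjNormal (H := (Q : Subgroup G))) x).trans hxr
    haveI : IsCyclic (Q : Subgroup G) := isCyclic_of_prime_card (hqc Q)
    haveI : Finite (MulAut (Q : Subgroup G)) := inferInstance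
    have hcardAut : Nat.card (MulAut (Q : Subgroup G)) = q - 1 := by
      rw [IsCyclic.card_mulAut, hqc Q, Nat.totient_prime hq]
    have hφ : φ = 1 := by
      rcases (Nat.dvd_prime hr).mp hφr with h | h
      · exact orderOf_eq_one_iff.mp h
      · exfalso
        have := Nat.le_of_dvd (by have := hq.two_le; omega) (hcardAut ▸ h ▸ orderOf_dvd_natCard φ)
        omega
    have := congrArg (fun f : MulAut (Q : Subgroup G) => ((f ⟨y, hy⟩ : (Q : Subgroup G)) : G)) hφ
    change x * y * x⁻¹ = y at this
    exact mul_inv_eq_iff_eq_mul.mp this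
  have hQN : (Q : Subgroup G) ≤ Subgroup.normalizer ((R : Subgroup G) : Set G) := by
    intro y hy
    rw [Subgroup.mem_normalizer_iff]
    intro x
    constructor
    · intro hx
      rwa [show y * x * y⁻¹ = x by rw [← hcent x hx y hy, mul_inv_cancel_right]]
    · intro hx
      have h := hcent _ hx y hy
      rw [inv_mul_cancel_right] at h
      rw [mul_left_cancel (h : y * x = y * (y * x * y⁻¹))]
      exact hx
  have hqd : q ∣ Nat.card (Subgroup.normalizer ((R : Subgroup G) : Set G)) :=
    hqc Q ▸ Subgroup.card_dvd_of_le hQN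
  have hfin := (Subgroup.normalizer ((R : Subgroup G) : Set G)).card_mul_index
  have hi : nr = (Subgroup.normalizer ((R : Subgroup G) : Set G)).index := R.card_eq_index_normalizer
  rw [← hi, hnrpq, hG] at hfin
  obtain ⟨c, hc⟩ := hqd
  rw [hc] at hfin
  have : r = q * c := by
    have := hp.pos; have := hq.pos
    exact Nat.eq_of_mul_eq_mul_left (Nat.mul_pos hp.pos hq.pos) (hfin.symm.trans (mul_comm _ _))
  have := (Nat.prime_dvd_prime_iff_eq hq hr).mp ⟨c, this⟩
  omega

end Cfsg.Agent.S0987
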