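import Cfsg.Statements.S0988
import Cfsg.Agent.Lib.SimpleOrder.DefectOneSetup
import Cfsg.Agent.Lib.Characters.Burnside
import Cfsg.Agent.Lib.Transfer.Action

set_option autoImplicit false
open Cfsg

namespace Cfsg.Agent.S0988

theorem not_two_primes {G : Type*} [Group G] [Finite G] [IsSimpleGroup G] (hG : ¬ IsMulCommutative G)
    {s t a b : ℕ} (hs : s.Prime) (ht : t.Prime) (h : Nat.card G = s ^ a * t ^ b) : False := by
  have hsol : Group.IsSolvable G :=
    Cfsg.Lib.Characters.isSolvable_of_card_eq_pow_mul_pow hs ht _ G rfl ⟨a, b, h⟩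
  exact hG ⟨⟨(IsSimpleGroup.comm_iff_isSolvable.mpr hsol)⟩⟩

theorem aux {G : Type*} [Group G] [Finite G] [IsSimpleGroup G] (p q r : ℕ) (hp : p.Prime) (hq : q.Prime)
    (hr : r.Prime) (hpq : p ≠ q) (hpr : p ≠ r) (hqr : q < r) (hG : Nat.card G = p ^ 2 * q * r) :
    Nat.card G = 60 := by
  have hp2 := hp.two_le
  have hq2 := hq.two_le
  have hr2 := hr.two_le
  have hnc : ¬ IsMulCommutative G := Cfsg.Lib.SimpleOrder.not_comm_of_not_prime (by
    rw [hG, mul_assoc]; exact Nat.not_prime_mul (by nlinarith) (by nlinarith))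
  rcases Nat.lt_or_ge q p with hlt | hge
  · haveI := Fact.mk hq
    obtain ⟨n, m, c, -, -, -, hmd, hm1, hr', -⟩ :=
      Cfsg.Lib.SimpleOrder.DefectOne.restrictions q (p ^ 2 * r) (G := G) (by rw [hG]; ring)
        (fun hd => by
          rcases hq.dvd_mul.mp hd with hd | hd
          · exact hpq ((Nat.prime_dvd_prime_iff_eq hq hp).mp (hq.dvd_of_dvd_pow hd)).symm
          · exact hqr.ne ((Nat.prime_dvd_prime_iff_eq hq hr).mp hd))
        (by nlinarith)
    exfalso
    obtain ⟨l, hl, hlm⟩ := Nat.exists_prime_and_dvd hm1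
    have hl1 : l ≤ q - 1 := Nat.le_of_dvd (by omega) (hlm.trans hmd)
    rcases hl.dvd_mul.mp ((hlm.trans ⟨c * n, by rw [← hr']; ring⟩) : l ∣ p ^ 2 * r) with hd | hd
    · have := (Nat.prime_dvd_prime_iff_eq hl hp).mp (hl.dvd_of_dvd_pow hd); omega
    · have := (Nat.prime_dvd_prime_iff_eq hl hr).mp hd; omega
  have hlt : p < q := lt_of_le_of_ne hge hpq
  haveI := Fact.mk hp
  obtain ⟨P⟩ : Nonempty (Sylow p G) := inferInstance
  have hPc : Nat.card (P : Subgroup G) = p ^ 2 := by
    rw [P.card_eq_multiplicity, hG, mul_assoc, Nat.factorization_mul (pow_ne_zero _ hp.ne_zero)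
      (mul_ne_zero hq.ne_zero hr.ne_zero), Finsupp.coe_add, Pi.add_apply, hp.factorization_pow,
      Finsupp.single_eq_same, Nat.factorization_eq_zero_of_not_dvd fun hd => by
        rcases hp.dvd_mul.mp hd with hd | hd
        · exact hpq ((Nat.prime_dvd_prime_iff_eq hp hq).mp hd)
        · exact hpr ((Nat.prime_dvd_prime_iff_eq hp hr).mp hd)]
  have hcomm := IsPGroup.commutative_of_card_eq_prime_sq hPc
  set N := Subgroup.normalizer ((P : Subgroup G) : Set G)
  set C := Subgroup.centralizer ((P : Subgroup G) : Set G)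
  have hPC : (P : Subgroup G) ≤ C := fun a ha => Subgroup.mem_centralizer_iff.mpr fun b hb =>
    congrArg Subtype.val (hcomm (⟨b, hb⟩ : ↥(P : Subgroup G)) ⟨a, ha⟩)
  have hnle : ¬ N ≤ C := by
    intro hle
    have hc := (MonoidHom.ker_transferSylow_isComplement' P hle).card_mul_card
    rcases IsSimpleGroup.eq_bot_or_eq_top_of_normal (MonoidHom.transferSylow P hle).ker inferInstance with e | e
    · rw [e, Subgroup.card_bot, one_mul, hPc, hG] at hc
      have : p ^ 2 * (q * r) ≥ p ^ 2 * 4 := Nat.mul_le_mul_left _ (by nlinarith)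
      nlinarith
    · rw [e, Subgroup.card_top, hPc] at hc
      have := Nat.eq_of_mul_eq_mul_left Nat.card_pos (hc.trans (mul_one _).symm)
      nlinarith
  obtain ⟨g, hgN, hgC⟩ := SetLike.not_le_iff_exists.mp hnle
  obtain ⟨l, hl, y, hyg, ⟨k, hk⟩, hyC⟩ : ∃ l : ℕ, l.Prime ∧ ∃ y ∈ Subgroup.zpowers g,
      (∃ k : ℕ, orderOf y = l ^ k) ∧ y ∉ C := by
    by_contra! hall
    exact hgC (Cfsg.Lib.Transfer.mem_centralizer_of_prime_parts hall)
  have hyN : y ∈ N := (Subgroup.zpowers_le.mpr hgN) hyg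
  haveI := Fact.mk hl
  have hlp : l ≠ p := by
    rintro rfl
    have hY : IsPGroup l (Subgroup.zpowers y) := IsPGroup.of_card (n := k) (by rw [Nat.card_zpowers, hk])
    have : y ∈ Subgroup.zpowers y ⊓ Subgroup.normalizer (P : Set G) := ⟨Subgroup.mem_zpowers y, hyN⟩
    rw [hY.inf_normalizer_sylow P] at this
    exact hyC (hPC this.2)
  have hk0 : k ≠ 0 := by
    rintro rfl
    rw [pow_zero, orderOf_eq_one_iff] at hk
    exact hyC (hk ▸ one_mem C)
  have hlG : l ∣ p ^ 2 * q * r := hG ▸ ((dvd_pow_self l hk0).trans (hk ▸ orderOf_dvd_natCard y))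
  have hl' : l = q ∨ l = r := by
    rcases hl.dvd_mul.mp hlG with hd | hd
    · rcases hl.dvd_mul.mp hd with hd | hd
      · exact absurd ((Nat.prime_dvd_prime_iff_eq hl hp).mp (hl.dvd_of_dvd_pow hd)) hlp
      · exact Or.inl ((Nat.prime_dvd_prime_iff_eq hl hq).mp hd)
    · exact Or.inr ((Nat.prime_dvd_prime_iff_eq hl hr).mp hd)
  have hmod := Cfsg.Lib.Transfer.card_modEq_card_inf_centralizer (p := l) (P : Subgroup G) (Subgroup.zpowers y)
    (IsPGroup.of_card (n := k) (by rw [Nat.card_zpowers, hk])) (Subgroup.zpowers_le.mpr hyN)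
  rw [hPc] at hmod
  obtain ⟨i, hi, hie⟩ := (Nat.dvd_prime_pow hp).mp (hPc ▸ Subgroup.card_dvd_of_le
    (inf_le_left : (P : Subgroup G) ⊓ Subgroup.centralizer (Subgroup.zpowers y : Set G) ≤ P))
  have hi2 : i < 2 := by
    by_contra hcon
    obtain rfl : i = 2 := by omega
    have heq : (P : Subgroup G) ⊓ Subgroup.centralizer (Subgroup.zpowers y : Set G) = P :=
      Subgroup.eq_of_le_of_card_ge inf_le_left (by rw [hie, hPc])
    refine hyC (Subgroup.mem_centralizer_iff.mpr fun b hb => ?_)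
    exact ((Subgroup.mem_centralizer_iff.mp (heq.ge hb).2) y (Subgroup.mem_zpowers y)).symm
  rw [hie] at hmod
  have hdl : l ∣ p - 1 ∨ l ∣ p + 1 := by
    interval_cases i
    · have h1 : l ∣ p ^ 2 - 1 := (Nat.modEq_iff_dvd' (Nat.one_le_pow _ _ hp.pos)).mp hmod.symm
      have h2 : p ^ 2 - 1 = (p + 1) * (p - 1) := by
        rw [← Nat.sq_sub_sq, one_pow]
      rcases hl.dvd_mul.mp (h2 ▸ h1) with hd | hd
      · exact Or.inr hd
      · exact Or.inl hd
    · have h1 : l ∣ p ^ 2 - p ^ 1 := (Nat.modEq_iff_dvd' (Nat.pow_le_pow_right hp.pos (by norm_num))).mp hmod.symm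
      have h2 : p ^ 2 - p ^ 1 = p * (p - 1) := by rw [Nat.mul_sub, mul_one, pow_one, sq]
      rcases hl.dvd_mul.mp (h2 ▸ h1) with hd | hd
      · exact absurd ((Nat.prime_dvd_prime_iff_eq hl hp).mp hd) hlp
      · exact Or.inl hd
  have hlgt : p < l := by rcases hl' with rfl | rfl <;> omega
  have hle : l ≤ p + 1 := by
    rcases hdl with hd | hd
    · have := Nat.le_of_dvd (by omega) hd; omega
    · exact Nat.le_of_dvd (by omega) hd
  have hp2' : p = 2 := by
    by_contra hne
    have ho := hp.odd_of_ne_two hne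
    have ho' := hl.odd_of_ne_two (by omega)
    have := Nat.odd_iff.mp ho
    have := Nat.odd_iff.mp ho'
    omega
  subst hp2'
  have hq3 : q = 3 := by rcases hl' with rfl | rfl <;> omega
  subst hq3
  haveI := Fact.mk hr
  have hr5 : 5 ≤ r := by
    by_contra hcon
    interval_cases r <;> first | omega | (norm_num at hr)
  obtain ⟨n, m, c, -, hmod', hn1, -, hm1, hr', -⟩ :=
    Cfsg.Lib.SimpleOrder.DefectOne.restrictions r 12 (G := G) (by rw [hG]; ring)
      (fun hd => by
        rcases hr.dvd_mul.mp (show r ∣ 4 * 3 from hd) with hd | hd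
        · have := Nat.le_of_dvd (by norm_num) hd; omega
        · have := Nat.le_of_dvd (by norm_num) hd; omega)
      (by norm_num)
  have hnd : n ∈ Nat.divisors 12 := Nat.mem_divisors.mpr ⟨⟨c * m, by rw [← hr']; ring⟩, by norm_num⟩
  have hnv : n = 1 ∨ n = 2 ∨ n = 3 ∨ n = 4 ∨ n = 6 ∨ n = 12 :=
    (by decide +kernel : ∀ n ∈ Nat.divisors 12, n = 1 ∨ n = 2 ∨ n = 3 ∨ n = 4 ∨ n = 6 ∨ n = 12) n hnd
  have hrn : r ≤ n - 1 := by
    refine Nat.le_of_dvd (by rcases hnv with rfl | rfl | rfl | rfl | rfl | rfl <;> omega) ?_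
    refine (Nat.modEq_iff_dvd' (by rcases hnv with rfl | rfl | rfl | rfl | rfl | rfl <;> omega)).mp ?_
    show 1 % r = n % r
    rw [hmod', Nat.one_mod_eq_one.mpr (by omega)]
  rcases hnv with rfl | rfl | rfl | rfl | rfl | rfl
  all_goals try omega
  · exfalso
    have hcm : c * m = 1 := by omega
    exact hm1 (Nat.eq_one_of_mul_eq_one_left hcm)

/-- If a finite simple group has order p^2 * q * r with p, q and r prime, then its order is 60. -/
theorem result {G : Type*} [Group G] [Finite G] [IsSimpleGroup G] (p q r : ℕ) (hp : p.Prime) (hq : q.Prime) (hr : r.Prime) (hG : Nat.card G = p ^ 2 * q * r) : Nat.card G = 60 := by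
  have hnc : ¬ IsMulCommutative G := Cfsg.Lib.SimpleOrder.not_comm_of_not_prime (by
    rw [hG, mul_assoc]
    exact Nat.not_prime_mul (by nlinarith [hp.two_le]) (by nlinarith [hq.two_le, hr.two_le]))
  by_cases hpq : p = q
  · subst hpq
    exact (not_two_primes hnc (a := 3) (b := 1) hp hr (by rw [hG]; ring)).elim
  by_cases hpr : p = r
  · subst hpr
    exact (not_two_primes hnc (a := 3) (b := 1) hp hq (by rw [hG]; ring)).elim
  rcases lt_trichotomy q r with hlt | heq | hgt
  · exact aux p q r hp hq hr hpq hpr hlt hG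
  · subst heq
    exact (not_two_primes hnc (a := 2) (b := 2) hp hq (by rw [hG]; ring)).elim
  · exact aux p r q hp hr hq hpr hpq hgt (by rw [hG]; ring)

end Cfsg.Agent.S0988
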