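import Cfsg.Statements.S0992
import Mathlib

set_option autoImplicit false
open Cfsg

namespace Cfsg.Agent.S0992

/-- Let G be a non-abelian finite simple group of even order not divisible by 8, and T a Sylow 2-subgroup. Then T is a Klein four-group and the centralizer of T has index 3 in the normalizer of T. -/
theorem result {G : Type*} [Group G] [Finite G] [IsSimpleGroup G] (hG : ¬ IsMulCommutative G) (h2 : Even (Nat.card G)) (h8 : ¬ 8 ∣ Nat.card G) (T : Sylow 2 G) : IsKleinFour ↥(T : Subgroup G) ∧ (Subgroup.centralizer ((T : Subgroup G) : Set G)).relIndex (Subgroup.normalizer ((T : Subgroup G) : Set G)) = 3 := by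
  classical
  haveI : Fact (Nat.Prime 2) := ⟨Nat.prime_two⟩
  have hGnt : Nontrivial G := IsSimpleGroup.toNontrivial
  -- no normal 2-complement
  have hnocomp : ∀ hle : Subgroup.normalizer ((T : Subgroup G) : Set G) ≤ Subgroup.centralizer ((T : Subgroup G) : Set G), False := by
    intro hle
    have hc := MonoidHom.ker_transferSylow_isComplement' T hle
    rcases IsSimpleGroup.eq_bot_or_eq_top_of_normal (MonoidHom.transferSylow T hle).ker inferInstance with h | h
    · rw [h, Subgroup.isComplement'_bot_left] at hc
      refine hG ⟨⟨fun a b => ?_⟩⟩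
      have hP : IsPGroup 2 G := fun x => by
        obtain ⟨j, hj⟩ := T.2 ⟨x, hc ▸ Subgroup.mem_top x⟩
        exact ⟨j, by simpa using congrArg Subtype.val hj⟩
      haveI := hP.center_nontrivial
      rcases IsSimpleGroup.eq_bot_or_eq_top_of_normal (Subgroup.center G) inferInstance with hz | hz
      · exact absurd hz ((Subgroup.nontrivial_iff_ne_bot _).mp inferInstance)
      · exact (Subgroup.mem_center_iff.mp (hz ▸ Subgroup.mem_top b : b ∈ Subgroup.center G) a)
    · rw [h, Subgroup.isComplement'_top_left] at hc
      have := T.dvd_card_of_dvd_card (even_iff_two_dvd.mp h2)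
      rw [hc, Subgroup.card_bot] at this
      omega
  obtain ⟨j, hj⟩ := IsPGroup.iff_card.mp T.isPGroup'
  have hj0 : j ≠ 0 := fun e => by
    have := T.dvd_card_of_dvd_card (even_iff_two_dvd.mp h2)
    rw [hj, e] at this; omega
  have hj2 : j < 3 := by
    by_contra h
    exact h8 ((pow_dvd_pow 2 (Nat.le_of_not_lt h)).trans (hj ▸ Subgroup.card_subgroup_dvd_card _))
  have hncyc : ¬ IsCyclic (T : Subgroup G) := by
    intro hc
    refine hnocomp (IsCyclic.normalizer_le_centralizer (p := 2) ?_ hc)
    exact (Nat.minFac_eq_two_iff _).mpr (even_iff_two_dvd.mp h2)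
  have hcard : Nat.card (T : Subgroup G) = 4 := by
    interval_cases j
    · exact absurd rfl hj0
    · exact absurd (isCyclic_of_prime_card (p := 2) (by rw [hj]; norm_num)) hncyc
    · rw [hj]; norm_num
  have hexp : Monoid.exponent (T : Subgroup G) = 2 := by
    haveI : Nontrivial (T : Subgroup G) := Finite.one_lt_card_iff_nontrivial.mp (by rw [hcard]; norm_num)
    refine (Nat.prime_two.eq_one_or_self_of_dvd _ (Monoid.exponent_dvd_of_forall_pow_eq_one fun x => ?_)).resolve_left
      fun e => ?_
    · obtain ⟨i, hi, hxi⟩ := (Nat.dvd_prime_pow Nat.prime_two).mp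
        (show orderOf x ∣ 2 ^ 2 by norm_num; exact hcard ▸ orderOf_dvd_natCard x)
      refine orderOf_dvd_iff_pow_eq_one.mp ?_
      interval_cases i
      · simp [hxi]
      · simp [hxi]
      · exact absurd (isCyclic_of_orderOf_eq_card x (by rw [hxi, hcard]; norm_num)) hncyc
    · exact not_subsingleton (T : Subgroup G) (Monoid.exp_eq_one_iff.mp e)
  have hK : IsKleinFour (T : Subgroup G) := ⟨hcard, hexp⟩
  refine ⟨hK, ?_⟩
  haveI := hK
  set N := Subgroup.normalizer ((T : Subgroup G) : Set G)
  set C := Subgroup.centralizer ((T : Subgroup G) : Set G)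
  let φ : N →* MulAut (T : Subgroup G) := (T : Subgroup G).normalizerMonoidHom
  have hker : φ.ker = C.subgroupOf N := (T : Subgroup G).normalizerMonoidHom_ker
  have hrel : C.relIndex N = Nat.card φ.range := by
    rw [Subgroup.relIndex, ← hker, Subgroup.index_ker]
  have haut : Nat.card (MulAut (T : Subgroup G)) ∣ 6 := by
    haveI : Fintype (T : Subgroup G) := Fintype.ofFinite _
    let X := {x : (T : Subgroup G) // x ≠ 1}
    let ψ : MulAut (T : Subgroup G) →* Equiv.Perm X :=
      { toFun := fun f => f.toEquiv.subtypeEquiv (fun x => (EmbeddingLike.map_ne_one_iff (f := f)).symm)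
        map_one' := Equiv.ext fun x => Subtype.ext rfl
        map_mul' := fun f g => Equiv.ext fun x => Subtype.ext rfl }
    have hψ : Function.Injective ψ := by
      intro f g e
      refine MulEquiv.ext fun x => ?_
      by_cases hx : x = 1
      · simp [hx]
      · exact congrArg Subtype.val (DFunLike.congr_fun e ⟨x, hx⟩)
    have hX : Nat.card (Equiv.Perm X) = 6 := by
      rw [Nat.card_eq_fintype_card, Fintype.card_perm, Fintype.card_subtype_compl, Fintype.card_subtype_eq,
        ← Nat.card_eq_fintype_card, hcard]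
      rfl
    exact hX ▸ Subgroup.card_dvd_of_injective ψ hψ
  have hdvd : C.relIndex N ∣ 6 := by
    rw [hrel]; exact (Subgroup.card_subgroup_dvd_card _).trans haut
  have hodd : ¬ 2 ∣ C.relIndex N := by
    intro hd
    have hTC : (T : Subgroup G) ≤ C := fun x hx => Subgroup.mem_centralizer_iff.mpr fun y hy =>
      congrArg Subtype.val (mul_comm_of_exponent_two hexp (⟨y, hy⟩ : (T : Subgroup G)) ⟨x, hx⟩)
    have h1 : C.relIndex N ∣ (T : Subgroup G).relIndex N := by
      rw [← Subgroup.inf_relIndex_right C N]
      exact Subgroup.relIndex_dvd_of_le_left N (le_inf hTC Subgroup.le_normalizer)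
    have h3 : (T : Subgroup G).relIndex N ∣ (T : Subgroup G).index :=
      Dvd.intro _ (Subgroup.relIndex_mul_index Subgroup.le_normalizer)
    exact T.not_dvd_index ((hd.trans h1).trans h3)
  have hne : C.relIndex N ≠ 1 := fun e => hnocomp (Subgroup.relIndex_eq_one.mp e)
  have hmem : C.relIndex N ∈ Nat.divisors 6 := Nat.mem_divisors.mpr ⟨hdvd, by norm_num⟩
  rw [show Nat.divisors 6 = {1, 2, 3, 6} by decide] at hmem
  simp only [Finset.mem_insert, Finset.mem_singleton] at hmem
  omega

end Cfsg.Agent.S0992
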