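import Cfsg.Statements.S0995
import Mathlib
import Cfsg.Agent.Lib.PermGroup.TwinDegree

set_option autoImplicit false
open Cfsg
open scoped Pointwise

namespace Cfsg.Agent.S0995

/-- Let G be a finite perfect group containing an element z of prime order p whose centralizer is the cyclic group it generates. Let t be the number of conjugacy classes of elements of order p. Then t divides p - 1, the number of Sylow p-subgroups has the form 1 + n * p, and |G| * t = (p - 1) * p * (1 + n * p). -/
theorem result {G : Type*} [Group G] [Finite G] (hperf : commutator G = ⊤) (p : ℕ) [Fact p.Prime] (z : G) (hz : orderOf z = p) (hC : Subgroup.centralizer ({z} : Set G) = Subgroup.zpowers z) : ∃ n t : ℕ, t = Nat.card {c : ConjClasses G // ∃ g : G, ConjClasses.mk g = c ∧ orderOf g = p} ∧ t ∣ p - 1 ∧ Nat.card (Sylow p G) = 1 + n * p ∧ Nat.card G * t = (p - 1) * p * (1 + n * p) := by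
  classical
  haveI : Fintype G := Fintype.ofFinite _
  have hp : p.Prime := Fact.out
  have hzc : Nat.card (Subgroup.zpowers z) = p := by rw [Nat.card_zpowers, hz]
  have hz1 : z ≠ 1 := fun e => hp.one_lt.ne (by rw [← hz, e, orderOf_one])
  obtain ⟨P, hP⟩ := (IsPGroup.of_card (p := p) (n := 1) (G := Subgroup.zpowers z) (by rw [hzc, pow_one])).exists_le_sylow
  have hPz : (P : Subgroup G) = Subgroup.zpowers z := by
    refine le_antisymm (fun x hx => ?_) hP
    have hzP : z ∈ (P : Subgroup G) := hP (Subgroup.mem_zpowers z)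
    haveI : Nontrivial (P : Subgroup G) := ⟨⟨⟨z, hzP⟩, 1, fun e => hz1 (congrArg Subtype.val e)⟩⟩
    haveI := P.isPGroup'.center_nontrivial
    obtain ⟨⟨⟨c, hcP⟩, hc⟩, hc1⟩ := exists_ne (1 : Subgroup.center (P : Subgroup G))
    have hcz : c ∈ Subgroup.zpowers z := by
      rw [← hC, Subgroup.mem_centralizer_singleton_iff]
      exact (congrArg Subtype.val (Subgroup.mem_center_iff.mp hc ⟨z, hzP⟩)).symm
    have hgen : Subgroup.zpowers c = Subgroup.zpowers z := by
      refine Subgroup.eq_of_le_of_card_ge (Subgroup.zpowers_le.mpr hcz) ?_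
      rw [hzc, Nat.card_zpowers]
      have hd : orderOf c ∣ p := hzc ▸ Subgroup.orderOf_dvd_natCard _ hcz
      exact (((Nat.dvd_prime hp).mp hd).resolve_left fun e => hc1 (Subtype.ext (Subtype.ext (orderOf_eq_one_iff.mp e)))).ge
    rw [← hC, Subgroup.mem_centralizer_singleton_iff]
    obtain ⟨k, hk⟩ := Subgroup.mem_zpowers_iff.mp (hgen ▸ Subgroup.mem_zpowers z)
    have hcx : Commute x c := congrArg Subtype.val (Subgroup.mem_center_iff.mp hc ⟨x, hx⟩)
    rw [← hk]; exact hcx.zpow_right k
  have hPc : ∀ S : Sylow p G, Nat.card (S : Subgroup G) = p := fun S => by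
    rw [S.card_eq_multiplicity, ← P.card_eq_multiplicity, hPz, hzc]
  have hcount := Cfsg.Lib.PermGroup.card_orderOf_eq_prime hPc
  -- classes of elements of order p
  let T := {c : ConjClasses G // ∃ g : G, ConjClasses.mk g = c ∧ orderOf g = p}
  have hfib : ∀ c : T, Nat.card {g : {g : G // orderOf g = p} // ConjClasses.mk (g : G) = c.1} * p = Nat.card G := by
    rintro ⟨c, g₀, rfl, hg₀⟩
    -- every element of order p has centraliser of order p
    obtain ⟨S, hS⟩ := (IsPGroup.of_card (p := p) (n := 1) (G := Subgroup.zpowers g₀)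
      (by rw [Nat.card_zpowers, hg₀, pow_one])).exists_le_sylow
    obtain ⟨u, hu⟩ := MulAction.exists_smul_eq G P S
    have hg₀u : u⁻¹ * g₀ * u ∈ Subgroup.zpowers z := by
      rw [← hPz]
      have h := hS (Subgroup.mem_zpowers g₀)
      rw [← hu] at h
      have : g₀ ∈ MulAut.conj u • (P : Subgroup G) := h
      simpa [Subgroup.mem_pointwise_smul_iff_inv_smul_mem, MulAut.conj_apply, mul_assoc] using this
    have hw : orderOf (u⁻¹ * g₀ * u) = p := by
      rw [show u⁻¹ * g₀ * u = MulAut.conj u⁻¹ g₀ by simp [MulAut.conj_apply], MulEquiv.orderOf_eq, hg₀]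
    have hcw : Subgroup.centralizer ({u⁻¹ * g₀ * u} : Set G) = Subgroup.zpowers z := by
      have hgen : Subgroup.zpowers (u⁻¹ * g₀ * u) = Subgroup.zpowers z :=
        Subgroup.eq_of_le_of_card_ge (Subgroup.zpowers_le.mpr hg₀u) (by rw [hzc, Nat.card_zpowers, hw])
      rw [← hC]
      ext x
      simp only [Subgroup.mem_centralizer_singleton_iff]
      constructor
      · intro h
        obtain ⟨k, hk⟩ := Subgroup.mem_zpowers_iff.mp (hgen ▸ Subgroup.mem_zpowers z)
        rw [← hk]; exact (show Commute x _ from h).zpow_right k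
      · intro h
        obtain ⟨k, hk⟩ := Subgroup.mem_zpowers_iff.mp hg₀u
        rw [← hk]; exact (show Commute x z from h).zpow_right k
    have horb := MulAction.orbitEquivQuotientStabilizer (ConjAct G) (u⁻¹ * g₀ * u)
    have h1 : Nat.card {g : {g : G // orderOf g = p} // ConjClasses.mk (g : G) = ConjClasses.mk g₀} =
        Nat.card (MulAction.orbit (ConjAct G) (u⁻¹ * g₀ * u)) := by
      refine Nat.card_congr
        { toFun := fun g => ⟨(g.1 : G), ?_⟩
          invFun := fun g => ⟨⟨(g : G), ?_⟩, ?_⟩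
          left_inv := fun g => rfl
          right_inv := fun g => rfl }
      · rw [ConjAct.mem_orbit_conjAct]
        exact (ConjClasses.mk_eq_mk_iff_isConj.mp g.2).trans (isConj_iff.mpr ⟨u⁻¹, by group⟩)
      · obtain ⟨v, hv⟩ := isConj_iff.mp (ConjAct.mem_orbit_conjAct.mp g.2).symm
        rw [← hv, show v * (u⁻¹ * g₀ * u) * v⁻¹ = MulAut.conj v (u⁻¹ * g₀ * u) from rfl, MulEquiv.orderOf_eq, hw]
      · exact ConjClasses.mk_eq_mk_iff_isConj.mpr
          ((ConjAct.mem_orbit_conjAct.mp g.2).trans (isConj_iff.mpr ⟨u, by group⟩))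
    have h2 : Nat.card (MulAction.stabilizer (ConjAct G) (u⁻¹ * g₀ * u)) = p := by
      rw [← hzc, ← hcw, ConjAct.stabilizer_eq_centralizer]
      exact Nat.card_congr
        { toFun := fun g => ⟨ConjAct.ofConjAct (g : ConjAct G), g.2⟩
          invFun := fun g => ⟨ConjAct.toConjAct (g : G), g.2⟩
          left_inv := fun g => rfl
          right_inv := fun g => rfl }
    rw [h1, Nat.card_congr horb, ← h2, ← Subgroup.card_eq_card_quotient_mul_card_subgroup]
    rfl
  have hsum : Nat.card {g : G // orderOf g = p} * p = Nat.card T * Nat.card G := by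
    haveI : Fintype T := Fintype.ofFinite _
    let f : {g : G // orderOf g = p} → T := fun g => ⟨ConjClasses.mk (g : G), g, rfl, g.2⟩
    rw [← Nat.card_congr (Equiv.sigmaFiberEquiv f), Nat.card_sigma, Finset.sum_mul]
    rw [Finset.sum_congr rfl (fun c _ => ?_), Finset.sum_const, Finset.card_univ, smul_eq_mul, ← Nat.card_eq_fintype_card]
    rw [← hfib c]
    congr 1
    exact Nat.card_congr (Equiv.subtypeEquivRight fun g => ⟨fun e => congrArg Subtype.val e, fun e => Subtype.ext e⟩)
  rw [hcount] at hsum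
  have hn : Nat.card (Sylow p G) % p = 1 := by
    have h1 := card_sylow_modEq_one p G
    rwa [Nat.ModEq, Nat.one_mod_eq_one.mpr hp.ne_one] at h1
  refine ⟨Nat.card (Sylow p G) / p, Nat.card T, rfl, ?_, ?_, ?_⟩
  · -- the index of the centraliser in the normaliser
    set N := Subgroup.normalizer ((P : Subgroup G) : Set G)
    have hNd : p ∣ Nat.card N := (hPc P) ▸ Subgroup.card_dvd_of_le Subgroup.le_normalizer
    obtain ⟨d, hd⟩ := hNd
    have hidx := N.card_mul_index
    rw [show N.index = Nat.card (Sylow p G) from P.card_eq_index_normalizer.symm, hd] at hidx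
    rw [← hidx] at hsum
    refine ⟨d, ?_⟩
    have hpos : 0 < Nat.card (Sylow p G) * p := Nat.mul_pos Nat.card_pos hp.pos
    exact Nat.eq_of_mul_eq_mul_left hpos (by linarith [hsum])
  · rw [mul_comm (Nat.card (Sylow p G) / p) p]
    have := Nat.mod_add_div (Nat.card (Sylow p G)) p
    omega
  · rw [mul_comm (Nat.card G), ← hsum]
    have h := Nat.mod_add_div (Nat.card (Sylow p G)) p
    rw [hn, mul_comm p] at h
    rw [h]; ring

end Cfsg.Agent.S0995
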