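import Cfsg.Statements.S1002
import Cfsg.Agent.Lib.SimpleOrder.DefectOneSetup

set_option autoImplicit false
open Cfsg

namespace Cfsg.Agent.S1002

/-- No finite simple group has order 1004913 = 3^3 * 7 * 13 * 409. -/
theorem result {G : Type*} [Group G] [Finite G] [IsSimpleGroup G] : Nat.card G ≠ 1004913 := by
  intro h
  haveI : Fact (Nat.Prime 409) := ⟨by norm_num⟩
  obtain ⟨n, m, c, hn, hmod, hn1, hmd, hm1, hr, h2, h2', h3, h4⟩ :=
    Cfsg.Lib.SimpleOrder.DefectOne.restrictions 409 2457 (G := G) (by omega) (by norm_num) (by norm_num)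
  rw [h] at h2 h2' h3 h4
  have hnd : n ∈ Nat.divisors 2457 := Nat.mem_divisors.mpr ⟨⟨c * m, by rw [← hr]; ring⟩, by norm_num⟩
  have hmd' : m ∈ Nat.divisors 408 := Nat.mem_divisors.mpr ⟨hmd, by norm_num⟩
  have hnv : n = 819 := ((by decide +kernel : ∀ n ∈ Nat.divisors 2457, n % 409 = 1 → n = 1 ∨ n = 819) n hnd hmod).resolve_left hn1
  subst hnv
  have hcm : c * m = 3 := by omega
  have hm3 : m = 3 := ((Nat.dvd_prime Nat.prime_three).mp ⟨c, by rw [← hcm, mul_comm]⟩).resolve_left hm1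
  obtain ⟨f, g, f₀, hpat, -⟩ := h3 hm3 (by norm_num)
  obtain ⟨hf, hg, hrel, hmod0, hf2, hg2, hfd, hgd, hd0, hsq⟩ := hpat
  have key : ∀ x < 1003, x ∣ 1004913 → x % 409 = 1 ∨ x % 409 = 408 → x = 1 ∨ x = 819 := by decide +kernel
  have hf' := (key f (by nlinarith) hfd hf).resolve_left (by omega)
  have hg' := (key g (by nlinarith) hgd hg).resolve_left (by omega)
  subst hf' hg'
  omega

end Cfsg.Agent.S1002
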