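import Cfsg.Statements.S1008
import Cfsg.Agent.Lib.SimpleOrder.Order168Max

set_option autoImplicit false
open Cfsg

namespace Cfsg.Agent.S1008

/-- In a simple group of order 168 every maximal subgroup is either isomorphic to the symmetric group of degree 4 or non-abelian of order 21; the maximal subgroups of order 21 form one conjugacy class and those isomorphic to the symmetric group of degree 4 form exactly two conjugacy classes. -/
theorem result {G : Type*} [Group G] [Finite G] [IsSimpleGroup G] (h : Nat.card G = 168) : (∀ M : Subgroup G, IsCoatom M → Nonempty (↥M ≃* Equiv.Perm (Fin 4)) ∨ (Nat.card ↥M = 21 ∧ ¬ IsMulCommutative ↥M)) ∧ (∀ M M' : Subgroup G, IsCoatom M → IsCoatom M' → Nat.card ↥M = 21 → Nat.card ↥M' = 21 → ∃ g : G, M' = M.map (MulAut.conj g).toMonoidHom) ∧ ∃ M₁ M₂ : Subgroup G, IsCoatom M₁ ∧ IsCoatom M₂ ∧ Nonempty (↥M₁ ≃* Equiv.Perm (Fin 4)) ∧ Nonempty (↥M₂ ≃* Equiv.Perm (Fin 4)) ∧ (∀ g : G, M₂ ≠ M₁.map (MulAut.conj g).toMonoidHom) ∧ ∀ M : Subgroup G, IsCoatom M →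 Nonempty (↥M ≃* Equiv.Perm (Fin 4)) → ∃ g : G, M = M₁.map (MulAut.conj g).toMonoidHom ∨ M = M₂.map (MulAut.conj g).toMonoidHom := by
  haveI : Fact (Nat.Prime 2) := ⟨Nat.prime_two⟩
  haveI : Fact (Nat.Prime 7) := ⟨by norm_num⟩
  letI := Fintype.ofFinite G
  have h21 : ∀ M : Subgroup G, Nat.card ↥M = 21 → ¬ IsMulCommutative ↥M ∧
      ∃ Q : Sylow 7 G, M = Subgroup.normalizer ((Q : Subgroup G) : Set G) := by
    intro M hM
    obtain ⟨x, hx⟩ := exists_prime_orderOf_dvd_card' (G := M) 7 (by rw [hM]; norm_num)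
    have hxo : orderOf (x : G) = 7 := by rw [Subgroup.orderOf_coe, hx]
    refine ⟨fun hc => ?_, ?_⟩
    · have hle : M ≤ Subgroup.centralizer ({(x : G)} : Set G) := fun m hm =>
        Subgroup.mem_centralizer_singleton_iff.mpr (congrArg Subtype.val (hc.is_comm.comm (⟨m, hm⟩ : M) x))
      have := Subgroup.card_le_of_le hle
      rw [Cfsg.Lib.SimpleOrder.O168.centralizer_seven h hxo, Nat.card_zpowers, hxo, hM] at this
      omega
    · obtain ⟨Q, hQ⟩ := Cfsg.Lib.SimpleOrder.O168.exists_sylow_zpowers (Cfsg.Lib.SimpleOrder.O168.card_seven h) hxo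
      refine ⟨Q, Subgroup.eq_of_le_of_card_ge (fun m hm => ?_) (by rw [Cfsg.Lib.SimpleOrder.O168.normalizer_seven h Q, hM])⟩
      apply Cfsg.Lib.SimpleOrder.O168.mem_normalizer_of_map
      refine Subgroup.eq_of_le_of_card_ge ?_
        (le_of_eq (Nat.card_congr ((Q : Subgroup G).equivMapOfInjective _ (MulAut.conj m).injective).toEquiv))
      rw [hQ, MonoidHom.map_zpowers, Subgroup.zpowers_le]
      show m * (x : G) * m⁻¹ ∈ Subgroup.zpowers (x : G)
      -- a Sylow 7-subgroup of a group of order 21 is normal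
      have h1 := card_sylow_modEq_one 7 M
      obtain ⟨R, hR⟩ := (IsPGroup.of_card (n := 1) (by rw [Nat.card_zpowers, hx, pow_one]) :
        IsPGroup 7 (Subgroup.zpowers x)).exists_le_sylow
      have hRc : Nat.card (R : Subgroup M) = 7 := by
        rw [Cfsg.Lib.SimpleOrder.O168.card_sylow_pow (k := 1) R (by rw [hM]; norm_num) (by rw [hM]; norm_num), pow_one]
      have h2 := (R : Subgroup M).card_mul_index
      rw [hRc, hM] at h2
      have h3 : Nat.card (Sylow 7 M) ∣ 3 := (R.card_dvd_index).trans ⟨1, by omega⟩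
      have hn1 : Nat.card (Sylow 7 M) = 1 := by
        rcases (Nat.dvd_prime Nat.prime_three).mp h3 with e | e
        · exact e
        · rw [e] at h1; norm_num [Nat.ModEq] at h1
      haveI := (Nat.card_eq_one_iff_unique.mp hn1).1
      have hRn : (R : Subgroup M).Normal := R.normal_of_subsingleton
      have heq : Subgroup.zpowers x = (R : Subgroup M) :=
        Subgroup.eq_of_le_of_card_ge hR (by rw [Nat.card_zpowers, hx, hRc])
      have hmem : (⟨m, hm⟩ : M) * x * (⟨m, hm⟩ : M)⁻¹ ∈ Subgroup.zpowers x := by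
        rw [heq]; exact hRn.conj_mem x (hR (Subgroup.mem_zpowers x)) _
      obtain ⟨i, hi⟩ := Subgroup.mem_zpowers_iff.mp hmem
      exact ⟨i, (SubgroupClass.coe_zpow x i).symm.trans (congrArg Subtype.val hi)⟩
  refine ⟨fun M hM => ?_, fun M M' _ _ hc hc' => ?_, ?_⟩
  · rcases Cfsg.Lib.SimpleOrder.O168.card_maximal h M hM with e | e
    · exact Or.inl (Cfsg.Lib.SimpleOrder.O168.iso_s4 h e)
    · exact Or.inr ⟨e, (h21 M e).1⟩
  · obtain ⟨Q, rfl⟩ := (h21 M hc).2
    obtain ⟨Q', rfl⟩ := (h21 M' hc').2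
    obtain ⟨g, hg⟩ := MulAction.exists_smul_eq G Q Q'
    refine ⟨g, (Subgroup.eq_of_le_of_card_ge ?_ ?_).symm⟩
    · rintro _ ⟨n, hn, rfl⟩
      rw [← hg]
      show g * n * g⁻¹ ∈ _
      exact Sylow.smul_eq_iff_mem_normalizer.mp (by
        rw [mul_smul, mul_smul, inv_smul_smul, Sylow.smul_eq_iff_mem_normalizer.mpr hn])
    · rw [← Nat.card_congr (Subgroup.equivMapOfInjective _ _ (MulAut.conj g).injective).toEquiv, hc, hc']
  · obtain ⟨T⟩ : Nonempty (Sylow 2 G) := inferInstance
    have hk := Cfsg.Lib.SimpleOrder.O168.card_klein h T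
    obtain ⟨A, B, hAB, huniv⟩ := Nat.card_eq_two_iff.mp hk
    obtain ⟨U, hU, hKU⟩ := A
    obtain ⟨W, hW, hKW⟩ := B
    have hUW : U ≠ W := fun e => hAB (Subtype.ext e)
    have hco : ∀ K : Subgroup G, IsKleinFour ↥K → IsCoatom (Subgroup.normalizer (K : Set G)) := by
      intro K hK
      have hc := Cfsg.Lib.SimpleOrder.O168.card_normalizer_klein h K hK
      refine ⟨fun e => by rw [e, Subgroup.card_top, h] at hc; omega, fun L hL => ?_⟩
      by_contra hne
      obtain ⟨M, hM, hLM⟩ : ∃ M : Subgroup G, IsCoatom M ∧ L ≤ M := by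
        rcases eq_top_or_exists_le_coatom L with e | ⟨M, hM, hle⟩
        · exact absurd e hne
        · exact ⟨M, hM, hle⟩
      have h1 := Subgroup.card_le_of_le hLM
      have h2 : Nat.card (Subgroup.normalizer (K : Set G)) < Nat.card L := by
        by_contra hge
        exact hL.ne (Subgroup.eq_of_le_of_card_ge hL.le (by omega))
      rcases Cfsg.Lib.SimpleOrder.O168.card_maximal h M hM with e | e <;> omega
    refine ⟨_, _, hco U hKU, hco W hKW, Cfsg.Lib.SimpleOrder.O168.normalizer_klein_s4 h U hKU,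
      Cfsg.Lib.SimpleOrder.O168.normalizer_klein_s4 h W hKW, fun g hg => ?_, fun M _ hMS4 => ?_⟩
    · -- the Klein group is the only one normal in its normaliser
      have hnorm : ∀ {K L : Subgroup G}, IsKleinFour ↥K → IsKleinFour ↥L →
          Subgroup.normalizer (K : Set G) = Subgroup.normalizer (L : Set G) → K = L := by
        intro K L hK hL he
        by_contra hKL
        haveI := hK
        haveI := hL
        have hKN : K ≤ Subgroup.normalizer (L : Set G) := he ▸ Subgroup.le_normalizer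
        obtain ⟨R, hR⟩ := (IsPGroup.to_sup_of_normal_right'
          (IsPGroup.of_card (n := 2) (by rw [hK.card_four]; norm_num) : IsPGroup 2 K)
          (IsPGroup.of_card (n := 2) (by rw [hL.card_four]; norm_num) : IsPGroup 2 L) hKN).exists_le_sylow
        have h8 : Nat.card ↥(K ⊔ L) = 8 := by
          have h1 := Subgroup.card_dvd_of_le (le_sup_left : K ≤ K ⊔ L)
          have h2 := Subgroup.card_dvd_of_le hR
          rw [hK.card_four] at h1
          rw [Cfsg.Lib.SimpleOrder.O168.card_two h] at h2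
          have h3 : Nat.card ↥(K ⊔ L) ≠ 4 := fun e => hKL (by
            rw [Subgroup.eq_of_le_of_card_ge (le_sup_left : K ≤ K ⊔ L) (by rw [e, hK.card_four]),
              ← Subgroup.eq_of_le_of_card_ge (le_sup_right : L ≤ K ⊔ L) (by rw [e, hL.card_four])])
          obtain ⟨i, hi, hie⟩ := (Nat.dvd_prime_pow Nat.prime_two).mp (show Nat.card ↥(K ⊔ L) ∣ 2 ^ 3 from h2)
          rw [hie] at h1 h3 ⊢
          interval_cases i <;> first | omega | (norm_num at h1 h3)
        have hRe : (R : Subgroup G) = K ⊔ L :=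
          (Subgroup.eq_of_le_of_card_ge hR (by rw [h8, Cfsg.Lib.SimpleOrder.O168.card_two h])).symm
        have hle : Subgroup.normalizer (L : Set G) ≤ Subgroup.normalizer ((R : Subgroup G) : Set G) := by
          intro n hn
          apply Cfsg.Lib.SimpleOrder.O168.mem_normalizer_of_map
          rw [hRe, Subgroup.map_sup, Cfsg.Lib.SimpleOrder.O168.map_of_mem_normalizer hn,
            Cfsg.Lib.SimpleOrder.O168.map_of_mem_normalizer (he.ge hn)]
        have h1 := Subgroup.card_le_of_le hle
        rw [Cfsg.Lib.SimpleOrder.O168.card_normalizer_klein h L hL, Cfsg.Lib.SimpleOrder.O168.normalizer_two h R,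
          Cfsg.Lib.SimpleOrder.O168.card_two h] at h1
        omega
      refine Cfsg.Lib.SimpleOrder.O168.klein_not_conj h T U W hU hW hKU hKW hUW g ?_
      have hKmap : IsKleinFour ↥(U.map (MulAut.conj g).toMonoidHom) := by
        refine Cfsg.Lib.SimpleOrder.O168.isKleinFour_of_sq ?_ ?_
        · rw [← Nat.card_congr (U.equivMapOfInjective _ (MulAut.conj g).injective).toEquiv, hKU.card_four]
        · rintro _ ⟨x, hx, rfl⟩
          rw [← map_mul, Cfsg.Lib.SimpleOrder.O168.isKleinFour_sq hKU hx, map_one]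
      refine hnorm hKmap hKW ?_
      rw [hg]
      exact (Subgroup.map_normalizer_eq_of_bijective (H := U) (MulAut.conj g).bijective).symm
    · obtain ⟨e⟩ := hMS4
      have hc : Nat.card M = 24 := by
        rw [Nat.card_congr e.toEquiv, Nat.card_perm, Nat.card_fin]; rfl
      obtain ⟨K, hK, rfl⟩ := Cfsg.Lib.SimpleOrder.O168.eq_normalizer_klein h M hc
      haveI := hK
      obtain ⟨R, hR⟩ := (IsPGroup.of_card (n := 2) (by rw [hK.card_four]; norm_num) : IsPGroup 2 K).exists_le_sylow
      obtain ⟨g, hg⟩ := MulAction.exists_smul_eq G R T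
      have hKg : K.map (MulAut.conj g).toMonoidHom ≤ (T : Subgroup G) := by
        rw [← hg, Sylow.coe_subgroup_smul]
        rintro _ ⟨x, hx, rfl⟩
        exact ⟨x, hR hx, rfl⟩
      have hKgK : IsKleinFour ↥(K.map (MulAut.conj g).toMonoidHom) := by
        refine Cfsg.Lib.SimpleOrder.O168.isKleinFour_of_sq ?_ ?_
        · rw [← Nat.card_congr (K.equivMapOfInjective _ (MulAut.conj g).injective).toEquiv, hK.card_four]
        · rintro _ ⟨x, hx, rfl⟩
          rw [← map_mul, Cfsg.Lib.SimpleOrder.O168.isKleinFour_sq hK hx, map_one]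
      have hback : ∀ X : Subgroup G, K.map (MulAut.conj g).toMonoidHom = X →
          Subgroup.normalizer (K : Set G) = (Subgroup.normalizer (X : Set G)).map (MulAut.conj g⁻¹).toMonoidHom := by
        intro X hX
        rw [← hX, ← Subgroup.map_normalizer_eq_of_bijective (H := K) (MulAut.conj g).bijective, Subgroup.map_map]
        rw [show (MulAut.conj g⁻¹).toMonoidHom.comp (MulAut.conj g).toMonoidHom = MonoidHom.id G by ext x; simp [mul_assoc],
          Subgroup.map_id]
      have hmem : (⟨_, hKg, hKgK⟩ : {U : Subgroup G // U ≤ (T : Subgroup G) ∧ IsKleinFour ↥U}) ∈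
          ({⟨U, hU, hKU⟩, ⟨W, hW, hKW⟩} : Set {U : Subgroup G // U ≤ (T : Subgroup G) ∧ IsKleinFour ↥U}) :=
        huniv ▸ Set.mem_univ _
      refine ⟨g⁻¹, ?_⟩
      rcases hmem with e' | e'
      · exact Or.inl (hback U (congrArg Subtype.val e'))
      · exact Or.inr (hback W (congrArg Subtype.val e'))

end Cfsg.Agent.S1008
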