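import Cfsg.Statements.S1010
import Cfsg.Agent.Lib.SmallSylow.Order5

set_option autoImplicit false
open Cfsg

namespace Cfsg.Agent.S1010

/-- No finite group has exactly twenty-one Sylow 5-subgroups. -/
theorem result {G : Type*} [Group G] [Finite G] : Nat.card (Sylow 5 G) ≠ 21 := by
  intro h21
  haveI : Fact (Nat.Prime 5) := ⟨by norm_num⟩
  let T : Set G := {x | ∃ k : ℕ, x ^ (5 ^ k) = 1}
  let G0 : Subgroup G := Subgroup.closure T
  have hle : ∀ Q : Sylow 5 G, (Q : Subgroup G) ≤ G0 := fun Q x hx => by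
    obtain ⟨k, hk⟩ := Q.2 ⟨x, hx⟩
    exact Subgroup.subset_closure ⟨k, by simpa using congrArg Subtype.val hk⟩
  let φ : G0 →* Equiv.Perm (Sylow 5 G) := (MulAction.toPermHom G (Sylow 5 G)).comp G0.subtype
  let P : Sylow 5 G → Sylow 5 φ.range := fun Q =>
    (Q.subtype (hle Q)).mapSurjective φ.rangeRestrict_surjective
  have hmem : ∀ (Q : Sylow 5 G) (p : φ.range), p ∈ P Q →
      ∃ x : G0, (x : G) ∈ Q ∧ φ.rangeRestrict x = p := by
    intro Q p hp
    obtain ⟨x, hx, hxp⟩ := hp
    exact ⟨x, hx, hxp⟩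
  refine Cfsg.Lib.N5.no_setting (H := φ.range) (Ω := Sylow 5 G)
    { P := P
      card_eq := h21
      conj := ?_
      fix_iff := ?_
      gen := ?_ }
  · rintro ⟨σ, g, rfl⟩ Q
    show P ((g : G) • Q) = φ.rangeRestrict g • P Q
    ext p
    constructor
    · intro hp
      obtain ⟨x, hx, rfl⟩ := hmem _ p hp
      have hx' : (x : G) ∈ (((g : G) • Q : Sylow 5 G) : Subgroup G) := hx
      rw [Sylow.coe_subgroup_smul, Subgroup.mem_pointwise_smul_iff_inv_smul_mem] at hx'
      show φ.rangeRestrict x ∈ ((φ.rangeRestrict g • P Q : Sylow 5 φ.range) : Subgroup φ.range)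
      rw [Sylow.coe_subgroup_smul, Subgroup.mem_pointwise_smul_iff_inv_smul_mem]
      refine ⟨g⁻¹ * x * g, ?_, ?_⟩
      · show ((g⁻¹ * x * g : G0) : G) ∈ Q
        simp [MulAut.smul_def] at hx' ⊢
        exact hx'
      · show φ.rangeRestrict (g⁻¹ * x * g) = _
        simp [MulAut.smul_def, map_mul]
    · intro hp
      have hp' : p ∈ ((φ.rangeRestrict g • P Q : Sylow 5 φ.range) : Subgroup φ.range) := hp
      rw [Sylow.coe_subgroup_smul, Subgroup.mem_pointwise_smul_iff_inv_smul_mem] at hp'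
      obtain ⟨x, hx, hxp⟩ := hmem Q _ hp'
      refine ⟨g * x * g⁻¹, ?_, ?_⟩
      · show ((g * x * g⁻¹ : G0) : G) ∈ (((g : G) • Q : Sylow 5 G) : Subgroup G)
        rw [Sylow.coe_subgroup_smul, Subgroup.mem_pointwise_smul_iff_inv_smul_mem]
        simp [MulAut.smul_def, mul_assoc]
        exact hx
      · show φ.rangeRestrict (g * x * g⁻¹) = p
        simp only [map_mul, map_inv, hxp]
        simp [MulAut.smul_def, mul_assoc]
  · intro Q R
    constructor
    · intro h
      have hQR : (Q : Subgroup G) ≤ Subgroup.normalizer (R : Set G) := by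
        intro x hx
        rw [← Sylow.smul_eq_iff_mem_normalizer]
        exact h (φ.rangeRestrict ⟨x, hle Q hx⟩) ⟨⟨x, hle Q hx⟩, hx, rfl⟩
      have h' := Q.2.inf_normalizer_sylow R
      have e : (Q : Subgroup G) ≤ R := by
        intro x hx
        have hxm : x ∈ (Q : Subgroup G) ⊓ Subgroup.normalizer (R : Set G) := ⟨hx, hQR hx⟩
        rw [h'] at hxm
        exact hxm.2
      exact Sylow.ext (Q.3 R.2 e)
    · rintro rfl p hp
      obtain ⟨x, hx, rfl⟩ := hmem _ p hp
      show (x : G) • R = R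
      rw [Sylow.smul_eq_iff_mem_normalizer]
      exact Subgroup.le_normalizer hx
  · rw [eq_top_iff]
    rintro ⟨σ, g, rfl⟩ -
    have key : (⊤ : Subgroup G0) ≤
        (Subgroup.closure {x : φ.range | ∃ k : ℕ, x ^ (5 ^ k) = 1}).comap φ.rangeRestrict := by
      rw [← Subgroup.closure_closure_coe_preimage (k := T), Subgroup.closure_le]
      rintro ⟨x, hx⟩ hxT
      obtain ⟨k, hk⟩ : x ∈ T := hxT
      refine Subgroup.subset_closure ⟨k, ?_⟩
      rw [← map_pow, show (⟨x, hx⟩ : G0) ^ 5 ^ k = 1 from Subtype.ext (by simpa using hk), map_one]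
    exact key (Subgroup.mem_top g)

end Cfsg.Agent.S1010
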