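import Cfsg.Statements.S1013
import Mathlib

set_option autoImplicit false
open Cfsg

namespace Cfsg.Agent.S1013

/-- Let G be a transitive permutation group of prime degree p having more than one Sylow p-subgroup, and suppose a Sylow p-subgroup P has prime index in its normalizer. Then G is simple. -/
theorem result {α : Type*} [Fintype α] [DecidableEq α] {p : ℕ} [Fact p.Prime] (hα : Fintype.card α = p) (G : Subgroup (Equiv.Perm α)) [MulAction.IsPretransitive ↥G α] (P : Sylow p ↥G) (hn : 1 < Nat.card (Sylow p ↥G)) (ht : (((P : Subgroup ↥G).subgroupOf (Subgroup.normalizer ((P : Subgroup ↥G) : Set ↥G))).index).Prime) : IsSimpleGroup ↥G := by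
  classical
  have hp : p.Prime := Fact.out
  haveI : Finite α := inferInstance
  haveI : Nonempty α := Fintype.card_pos_iff.mp (hα ▸ hp.pos)
  haveI hprim : MulAction.IsPreprimitive G α :=
    MulAction.IsPreprimitive.of_prime_card (by rw [Nat.card_eq_fintype_card, hα]; exact hp)
  -- Sylow subgroups have order p
  have hPc : ∀ S : Sylow p G, Nat.card (S : Subgroup G) = p := by
    intro S
    rw [S.card_eq_multiplicity]
    have h1 : Nat.card G ∣ p.factorial := by
      have := Subgroup.card_subgroup_dvd_card G
      rwa [Nat.card_eq_fintype_card (α := Equiv.Perm α), Fintype.card_perm, hα] at this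
    have h2 : p ∣ Nat.card G := by
      obtain ⟨a⟩ := ‹Nonempty α›
      have := (MulAction.stabilizer G a).index_dvd_card
      rwa [MulAction.index_stabilizer_of_transitive, Nat.card_eq_fintype_card (α := α), hα] at this
    have h3 : (Nat.card G).factorization p = 1 := by
      have hge : 1 ≤ (Nat.card G).factorization p :=
        (hp.pow_dvd_iff_le_factorization Nat.card_pos.ne').mp (by rwa [pow_one])
      have hlt : ¬ p ^ 2 ∣ p.factorial := by
        rw [sq, ← Nat.mul_factorial_pred hp.ne_zero]
        intro hd
        have h4 := (Nat.Prime.dvd_factorial hp).mp (Nat.dvd_of_mul_dvd_mul_left hp.pos hd)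
        have := hp.pos
        omega
      have : ¬ 2 ≤ (Nat.card G).factorization p := fun h =>
        hlt (((hp.pow_dvd_iff_le_factorization Nat.card_pos.ne').mpr h).trans h1)
      omega
    rw [h3, pow_one]
  haveI : Nontrivial G := by
    rw [← Finite.one_lt_card_iff_nontrivial]
    exact lt_of_lt_of_le hp.one_lt ((hPc P) ▸ Nat.le_of_dvd Nat.card_pos (Subgroup.card_subgroup_dvd_card _))
  refine { eq_bot_or_eq_top_of_normal := fun N hN => ?_ }
  by_cases hNb : N = ⊥
  · exact Or.inl hNb
  right
  haveI := hN
  -- a nontrivial normal subgroup is transitive, hence contains every Sylow p-subgroup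
  have htrans : ∀ (K : Subgroup G), K.Normal → K ≠ ⊥ → p ∣ Nat.card K := by
    intro K hK hKb
    haveI := hK
    obtain ⟨k, hk, hk1⟩ : ∃ k ∈ K, k ≠ 1 := by
      by_contra hc
      push Not at hc
      exact hKb ((Subgroup.eq_bot_iff_forall K).mpr hc)
    have hne : MulAction.fixedPoints K α ≠ Set.univ := by
      intro e
      apply hk1
      refine Subtype.ext (Equiv.ext fun x => ?_)
      exact (e.symm ▸ Set.mem_univ x : x ∈ MulAction.fixedPoints K α) ⟨k, hk⟩
    haveI := MulAction.IsPreprimitive.isQuasiPreprimitive (M := G) (α := α)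
    haveI : MulAction.IsPretransitive K α := MulAction.IsQuasiPreprimitive.isPretransitive_of_normal hne
    obtain ⟨a⟩ := ‹Nonempty α›
    have := (MulAction.stabilizer K a).index_dvd_card
    rwa [MulAction.index_stabilizer_of_transitive, Nat.card_eq_fintype_card (α := α), hα] at this
  have hmem : ∀ S : Sylow p G, (S : Subgroup G) ≤ N := by
    intro S
    haveI := Fintype.ofFinite N
    obtain ⟨y, hy⟩ := exists_prime_orderOf_dvd_card' (G := N) p (htrans N hN hNb)
    obtain ⟨R, hR⟩ := (IsPGroup.of_card (p := p) (n := 1) (G := Subgroup.zpowers (y : G))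
      (by rw [Nat.card_zpowers, Subgroup.orderOf_coe, hy, pow_one])).exists_le_sylow
    have hReq : (R : Subgroup G) ≤ N := by
      rw [← Subgroup.eq_of_le_of_card_ge hR (by rw [hPc R, Nat.card_zpowers, Subgroup.orderOf_coe, hy])]
      exact Subgroup.zpowers_le.mpr y.2
    obtain ⟨g, rfl⟩ := MulAction.exists_smul_eq G R S
    rintro x ⟨z, hz, rfl⟩
    exact hN.conj_mem z (hReq hz) g
  have hPN := hmem P
  set M := Subgroup.normalizer ((P : Subgroup G) : Set G)
  have hfr : M ⊔ N = ⊤ := Sylow.normalizer_sup_eq_top' P hPN
  have hrel : (P : Subgroup G).relIndex M = (P : Subgroup G).relIndex (N ⊓ M) * N.relIndex M := by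
    rw [← Subgroup.inf_relIndex_right N M, Subgroup.relIndex_mul_relIndex _ _ _
      (le_inf hPN Subgroup.le_normalizer) inf_le_right]
  have htp : ((P : Subgroup G).relIndex M).Prime := ht
  rw [hrel] at htp
  rcases Nat.prime_mul_iff.mp htp with ⟨-, h⟩ | ⟨-, h⟩
  · -- N contains the normaliser
    rw [eq_top_iff, ← hfr]
    exact sup_le (Subgroup.relIndex_eq_one.mp h) le_rfl
  · exfalso
    set PN : Sylow p N := P.subtype hPN
    have hPNc : Nat.card (PN : Subgroup N) = p := by
      rw [show (PN : Subgroup N) = (P : Subgroup G).subgroupOf N from rfl,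
        Nat.card_congr (Subgroup.subgroupOfEquivOfLe hPN).toEquiv, hPc]
    have hle : N ⊓ M ≤ (P : Subgroup G) := Subgroup.relIndex_eq_one.mp h
    have hcomm : IsMulCommutative (PN : Subgroup N) := by
      haveI := isCyclic_of_prime_card hPNc
      infer_instance
    have hburn : Subgroup.normalizer ((PN : Subgroup N) : Set N) ≤ Subgroup.centralizer ((PN : Subgroup N) : Set N) := by
      intro x hx
      have hxM : (x : G) ∈ M := by
        rw [show ((PN : Subgroup N) : Subgroup N) = (P : Subgroup G).subgroupOf N from rfl,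
          ← Subgroup.subgroupOf_normalizer_eq hPN] at hx
        exact hx
      have hxP : x ∈ (PN : Subgroup N) := hle ⟨x.2, hxM⟩
      exact Subgroup.mem_centralizer_iff.mpr fun y hy =>
        congrArg Subtype.val (mul_comm' (⟨y, hy⟩ : (PN : Subgroup N)) ⟨x, hxP⟩)
    set K := (MonoidHom.transferSylow PN hburn).ker
    have hK := MonoidHom.ker_transferSylow_isComplement' PN hburn
    have hKp : ¬ p ∣ Nat.card K := MonoidHom.not_dvd_card_ker_transferSylow PN hburn
    -- the complement is characteristic, as it consists of the p'-elements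
    have hKmem : ∀ x : N, x ∈ K ↔ (orderOf x).Coprime p := by
      intro x
      constructor
      · intro hx
        have h1 : orderOf x ∣ Nat.card K := Subgroup.orderOf_dvd_natCard K hx
        exact Nat.Coprime.symm ((hp.coprime_iff_not_dvd).mpr fun hd => hKp (hd.trans h1))
      · intro hx
        have h1 := orderOf_map_dvd (MonoidHom.transferSylow PN hburn) x
        have h2 : orderOf (MonoidHom.transferSylow PN hburn x) ∣ p := by
          exact (orderOf_dvd_natCard _).trans hPNc.dvd
        exact MonoidHom.mem_ker.mpr (orderOf_eq_one_iff.mp (Nat.eq_one_of_dvd_coprimes hx h1 h2))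
    let K' : Subgroup G := K.map N.subtype
    have hK'n : K'.Normal := ⟨by
      rintro _ ⟨x, hx, rfl⟩ g
      refine ⟨MulAut.conjNormal g x, (hKmem _).mpr ?_, rfl⟩
      rw [MulEquiv.orderOf_eq]
      exact (hKmem x).mp hx⟩
    by_cases hKb : K = ⊥
    · have h3 : (PN : Subgroup N) = ⊤ := Subgroup.isComplement'_bot_left.mp (hKb ▸ hK)
      have hNP : N ≤ (P : Subgroup G) := fun y hy =>
        (h3 ▸ Subgroup.mem_top (⟨y, hy⟩ : N) : (⟨y, hy⟩ : N) ∈ (PN : Subgroup N))
      haveI hPn : (P : Subgroup G).Normal := le_antisymm hNP hPN ▸ hN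
      haveI := Sylow.unique_of_normal P hPn
      have := Nat.card_unique (α := Sylow p G)
      omega
    · have := htrans K' hK'n (fun e => hKb ((Subgroup.map_eq_bot_iff_of_injective K N.subtype_injective).mp e))
      rw [← Nat.card_congr (K.equivMapOfInjective N.subtype N.subtype_injective).toEquiv] at this
      exact hKp this

end Cfsg.Agent.S1013
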