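import Cfsg.Statements.S1014
import Cfsg.Agent.Lib.SimpleOrder.Basic
import Cfsg.Agent.S0985

set_option autoImplicit false
open Cfsg

namespace Cfsg.Agent.S1014

/-- No finite simple group has order 1104 = 2^4 * 3 * 23. -/
theorem result {G : Type*} [Group G] [Finite G] [IsSimpleGroup G] : Nat.card G ≠ 1104 := by
  intro h
  haveI : Fact (Nat.Prime 23) := ⟨by norm_num⟩
  have hG := Cfsg.Lib.SimpleOrder.not_comm_of_not_prime (G := G) (by rw [h]; norm_num)
  have h1 := Cfsg.Lib.SimpleOrder.card_sylow_mem hG (p := 23) (a := 1) (m := 48) (by rw [h]; norm_num) (by norm_num) one_ne_zero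
  rw [show (Nat.divisors 48).filter (fun n => n % 23 = 1 ∧ n ≠ 1) = {24} by decide, Finset.mem_singleton] at h1
  have h2 := Cfsg.Lib.SimpleOrder.card_dvd_of_sylow_succ hG (p := 23) (by norm_num) h1
  rw [h] at h2
  norm_num at h2

end Cfsg.Agent.S1014
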