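import Cfsg.Statements.S1015
import Cfsg.Agent.Lib.SimpleOrder.Basic
import Cfsg.Agent.S0985

set_option autoImplicit false
open Cfsg

namespace Cfsg.Agent.S1015

/-- No finite simple group has order 1200 = 2^4 * 3 * 5^2. -/
theorem result {G : Type*} [Group G] [Finite G] [IsSimpleGroup G] : Nat.card G ≠ 1200 := by
  intro h
  haveI : Fact (Nat.Prime 5) := ⟨by norm_num⟩
  have hG := Cfsg.Lib.SimpleOrder.not_comm_of_not_prime (G := G) (by rw [h]; norm_num)
  have h1 := Cfsg.Lib.SimpleOrder.card_sylow_mem hG (p := 5) (a := 2) (m := 48) (by rw [h]; norm_num) (by norm_num) two_ne_zero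
  rw [show (Nat.divisors 48).filter (fun n => n % 5 = 1 ∧ n ≠ 1) = {6, 16} by decide] at h1
  have hsmall : ∀ H : Subgroup G, H ≠ ⊤ → 8 < H.index := by
    intro H hH
    by_contra hle
    push Not at hle
    have hd := (Cfsg.Lib.SimpleOrder.two_mul_card_dvd hG H hH).trans (Nat.factorial_dvd_factorial hle)
    rw [h] at hd
    norm_num [Nat.factorial] at hd
  simp only [Finset.mem_insert, Finset.mem_singleton] at h1
  obtain ⟨P₀⟩ : Nonempty (Sylow 5 G) := inferInstance
  rcases h1 with h1 | h1
  · have := hsmall _ (Cfsg.Lib.SimpleOrder.normalizer_ne_top P₀ (by rw [h1]; norm_num))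
    rw [show (Subgroup.normalizer ((P₀ : Subgroup G) : Set G)).index = 6 from
      P₀.card_eq_index_normalizer.symm.trans h1] at this
    omega
  obtain ⟨P, R, hPR, hidx⟩ := Cfsg.Agent.S0985.result (G := G) 5 2 (by rw [h1]; decide)
  have hcard : ∀ S : Sylow 5 G, Nat.card (S : Subgroup G) = 5 ^ 2 := by
    intro S
    rw [S.card_eq_multiplicity, h, show (1200 : ℕ) = 5 ^ 2 * 48 by norm_num,
      Nat.factorization_mul (by norm_num) (by norm_num), Nat.Prime.factorization_pow (by norm_num),
      Finsupp.coe_add, Pi.add_apply, Finsupp.single_eq_same, Nat.factorization_eq_zero_of_not_dvd (by norm_num)]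
  set D := (P : Subgroup G) ⊓ (R : Subgroup G)
  have hDne : D ≠ ⊥ := by
    intro e
    rw [show ((R : Subgroup G).subgroupOf (P : Subgroup G)).index = (R : Subgroup G).relIndex (P : Subgroup G) from rfl,
      ← Subgroup.inf_relIndex_left, show (P : Subgroup G) ⊓ (R : Subgroup G) = ⊥ from e, Subgroup.relIndex_bot_left, hcard] at hidx
    norm_num at hidx
  set N := Subgroup.normalizer (D : Set G)
  have hle : ∀ S : Sylow 5 G, D ≤ (S : Subgroup G) → (S : Subgroup G) ≤ N := by
    intro S hS
    haveI := IsPGroup.isMulCommutative_of_card_eq_prime_sq (hcard S)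
    intro x hx
    rw [Subgroup.mem_normalizer_iff]
    intro d
    have hcomm : ∀ e ∈ (S : Subgroup G), x * e = e * x := fun e he =>
      congrArg Subtype.val (mul_comm' (⟨x, hx⟩ : (S : Subgroup G)) ⟨e, he⟩)
    constructor
    · intro hd; rwa [hcomm d (hS hd), mul_inv_cancel_right]
    · intro hd
      have h' := hcomm _ (hS hd)
      rw [inv_mul_cancel_right] at h'
      rw [mul_left_cancel (h' : x * (x * d * x⁻¹) = x * d)] at hd
      exact hd
  have hPN := hle P inf_le_left
  have hRN := hle R inf_le_right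
  have hNtop : N ≠ ⊤ := by
    intro e
    haveI : D.Normal := Subgroup.normalizer_eq_top_iff.mp e
    rcases IsSimpleGroup.eq_bot_or_eq_top_of_normal D inferInstance with e' | e'
    · exact hDne e'
    · have : (P : Subgroup G) = ⊤ := top_le_iff.mp (e' ▸ inf_le_left)
      have h2 := hcard P
      rw [this, Subgroup.card_top, h] at h2
      norm_num at h2
  have h8 := hsmall N hNtop
  -- N has at least six Sylow 5-subgroups
  have hn : 6 ≤ Nat.card (Sylow 5 N) := by
    have hne : P.subtype hPN ≠ R.subtype hRN := fun e => hPR (Sylow.subtype_injective e)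
    haveI : Nontrivial (Sylow 5 N) := ⟨⟨_, _, hne⟩⟩
    have := Finite.one_lt_card (α := Sylow 5 N)
    have hm := card_sylow_modEq_one 5 N
    unfold Nat.ModEq at hm
    omega
  have hdvd : Nat.card (Sylow 5 N) * 25 ≤ Nat.card N := by
    obtain ⟨S⟩ : Nonempty (Sylow 5 N) := ⟨P.subtype hPN⟩
    have h1 := (P.subtype hPN).card_dvd_index
    have h2 := ((P.subtype hPN : Sylow 5 N) : Subgroup N).card_mul_index
    have h3 : Nat.card ((P.subtype hPN : Sylow 5 N) : Subgroup N) = 25 := by
      rw [show ((P.subtype hPN : Sylow 5 N) : Subgroup N) = (P : Subgroup G).subgroupOf N from rfl,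
        Nat.card_congr (Subgroup.subgroupOfEquivOfLe hPN).toEquiv, hcard]
      norm_num
    rw [h3] at h2
    have := Nat.le_of_dvd (Nat.pos_of_ne_zero (Subgroup.index_ne_zero_of_finite)) h1
    omega
  have hmul := N.card_mul_index
  rw [h] at hmul
  have : 150 * 9 ≤ Nat.card N * N.index := Nat.mul_le_mul (by omega) (by omega)
  omega

end Cfsg.Agent.S1015
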