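import Cfsg.Statements.S1016
import Cfsg.Agent.Lib.SimpleOrder.DefectOneSetup

set_option autoImplicit false
open Cfsg

set_option synthInstance.maxSize 512

namespace Cfsg.Agent.S1016

theorem two_pat : ∀ f < 38, ∀ f₀ < 38, Cfsg.Lib.SimpleOrder.DefectOne.TwoPat 5 1440 f f₀ →
    (f = 4 ∧ f₀ = 3) ∨ (f = 9 ∧ f₀ = 8) := by
  unfold Cfsg.Lib.SimpleOrder.DefectOne.TwoPat
  decide +kernel

theorem two_small {f f₀ : ℕ} (h : Cfsg.Lib.SimpleOrder.DefectOne.TwoPat 5 1440 f f₀) :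
    (f = 4 ∧ f₀ = 3) ∨ (f = 9 ∧ f₀ = 8) :=
  two_pat f (by obtain ⟨-, -, -, -, -, hs⟩ := h; nlinarith) f₀ (by obtain ⟨-, -, -, -, -, hs⟩ := h; nlinarith) h

theorem odd_small : ∀ f < 38, 2 ≤ f → f % 2 = 1 → (f % 5 = 1 ∨ f % 5 = 4) → f ∣ 1440 → f = 9 := by
  decide +kernel

/-- No finite simple group has order 1440 = 2^5 * 3^2 * 5. -/
theorem result {G : Type*} [Group G] [Finite G] [IsSimpleGroup G] : Nat.card G ≠ 1440 := by
  intro h
  haveI : Fact (Nat.Prime 5) := ⟨by norm_num⟩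
  obtain ⟨n, m, c, hn, hmod, hn1, hmd, hm1, hr, h2, h2', h3, h4⟩ :=
    Cfsg.Lib.SimpleOrder.DefectOne.restrictions 5 288 (G := G) (by omega) (by norm_num) (by norm_num)
  rw [h] at h2 h2' h3 h4
  have hnd : n ∈ Nat.divisors 288 := Nat.mem_divisors.mpr ⟨⟨c * m, by rw [← hr]; ring⟩, by norm_num⟩
  have hmd' : m ∈ Nat.divisors 4 := Nat.mem_divisors.mpr ⟨hmd, by norm_num⟩
  have hnv := ((by decide +kernel : ∀ n ∈ Nat.divisors 288, n % 5 = 1 → n = 1 ∨ n = 6 ∨ n = 16 ∨ n = 36 ∨ n = 96) n hnd hmod).resolve_left hn1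
  have hmv := (by decide +kernel : ∀ m ∈ Nat.divisors 4, m = 1 ∨ m = 2 ∨ m = 4) m hmd'
  have hG : ¬ IsMulCommutative G := Cfsg.Lib.SimpleOrder.not_comm_of_not_prime (by rw [h]; norm_num)
  have h6 : n ≠ 6 := fun e => by
    have := Nat.le_of_dvd (by norm_num) (Cfsg.Lib.SimpleOrder.card_dvd_of_sylow_succ hG (p := 5) (by norm_num) (by rw [← hn, e]))
    omega
  have hc1 : c = 1 := by
    rcases hmv with rfl | rfl | rfl
    · exact absurd rfl hm1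
    · obtain ⟨f, f₀, hpat, hs, -⟩ := h2 rfl le_rfl
      rcases two_small hpat with ⟨rfl, -⟩ | ⟨rfl, -⟩ <;> exact hs (by norm_num)
    · obtain ⟨f, hf2, hodd, hfm, hfd, hsq, hs⟩ := h4 rfl rfl
      exact hs (by rw [odd_small f (by nlinarith) hf2 hodd hfm hfd]; norm_num)
  subst hc1
  clear h2 h2' h3 h4
  rcases hnv with rfl | rfl | rfl | rfl <;> omega

end Cfsg.Agent.S1016
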