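import Cfsg.Statements.S1017
import Cfsg.Agent.Lib.SimpleOrder.DefectOneSetup

set_option autoImplicit false
open Cfsg

set_option synthInstance.maxSize 512

namespace Cfsg.Agent.S1017

theorem two_pat : ∀ f < 45, ∀ f₀ < 45, Cfsg.Lib.SimpleOrder.DefectOne.TwoPat 7 2016 f f₀ → f = 8 ∧ f₀ = 9 := by
  unfold Cfsg.Lib.SimpleOrder.DefectOne.TwoPat
  decide +kernel

/-- No finite simple group has order 2016 = 2^5 * 3^2 * 7. -/
theorem result {G : Type*} [Group G] [Finite G] [IsSimpleGroup G] : Nat.card G ≠ 2016 := by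
  intro h
  haveI : Fact (Nat.Prime 7) := ⟨by norm_num⟩
  obtain ⟨n, m, c, hn, hmod, hn1, hmd, hm1, hr, h2, h2', h3, h4⟩ :=
    Cfsg.Lib.SimpleOrder.DefectOne.restrictions 7 288 (G := G) (by omega) (by norm_num) (by norm_num)
  rw [h] at h2 h2' h3 h4
  have hnd : n ∈ Nat.divisors 288 := Nat.mem_divisors.mpr ⟨⟨c * m, by rw [← hr]; ring⟩, by norm_num⟩
  have hmd' : m ∈ Nat.divisors 6 := Nat.mem_divisors.mpr ⟨hmd, by norm_num⟩
  have hnv := ((by decide +kernel : ∀ n ∈ Nat.divisors 288, n % 7 = 1 → n = 1 ∨ n = 8 ∨ n = 36 ∨ n = 288) n hnd hmod).resolve_left hn1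
  have hmv := (by decide +kernel : ∀ m ∈ Nat.divisors 6, m = 1 ∨ m = 2 ∨ m = 3 ∨ m = 6) m hmd'
  have hG : ¬ IsMulCommutative G := Cfsg.Lib.SimpleOrder.not_comm_of_not_prime (by rw [h]; norm_num)
  rcases hnv with rfl | rfl | rfl
  · have := Nat.le_of_dvd (by norm_num) (Cfsg.Lib.SimpleOrder.card_dvd_of_sylow_succ hG (p := 7) (by norm_num) (by rw [← hn]))
    omega
  · have hm2 : m = 2 := by
      clear h2 h2' h3 h4
      rcases hmv with rfl | rfl | rfl | rfl <;> omega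
    obtain ⟨f, f₀, hpat, hs, -⟩ := h2 hm2 (by norm_num)
    have hf : f = 8 := by
      have := two_pat f (by obtain ⟨-, -, -, -, -, hs⟩ := hpat; nlinarith) f₀ (by obtain ⟨-, -, -, -, -, hs⟩ := hpat; nlinarith) hpat
      exact this.1
    have := hs (by omega)
    subst this hm2
    clear h2 h2' h3 h4
    omega
  · clear h2 h2' h3 h4
    rcases hmv with rfl | rfl | rfl | rfl <;> omega

end Cfsg.Agent.S1017
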