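import Cfsg.Statements.S1018
import Mathlib.GroupTheory.Sylow
import Mathlib.Tactic.Group
import Mathlib.GroupTheory.GroupAction.Quotient

set_option autoImplicit false
open Cfsg
open scoped Pointwise

namespace Cfsg.Agent.S1018

/-- Let P be a Sylow p-subgroup of order p of a finite group G, and consider the action of G on the left cosets of the normalizer N of P. Then every element of order p fixes exactly one coset, and an element of N that does not centralize P fixes at most as many cosets as there are orbits of P. -/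
theorem result {G : Type*} [Group G] [Finite G] (p : ℕ) [Fact p.Prime] (P : Sylow p G) (hP : Nat.card ↥(P : Subgroup G) = p) : (∀ y : G, orderOf y = p → Nat.card (MulAction.fixedBy (G ⧸ Subgroup.normalizer ((P : Subgroup G) : Set G)) y) = 1) ∧ ∀ x : G, x ∈ Subgroup.normalizer ((P : Subgroup G) : Set G) → x ∉ Subgroup.centralizer ((P : Subgroup G) : Set G) → Nat.card (MulAction.fixedBy (G ⧸ Subgroup.normalizer ((P : Subgroup G) : Set G)) x) ≤ Nat.card (MulAction.orbitRel.Quotient ↥(P : Subgroup G) (G ⧸ Subgroup.normalizer ((P : Subgroup G) : Set G))) := by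
  classical
  have hp : p.Prime := Fact.out
  set N := Subgroup.normalizer ((P : Subgroup G) : Set G) with hN
  have hPN : ∀ x ∈ (P : Subgroup G), x ∈ N := fun x hx => Subgroup.le_normalizer hx
  -- a p-element normalising P lies in P
  have hin : ∀ y : G, orderOf y = p → y ∈ N → y ∈ (P : Subgroup G) := by
    intro y hy hyN
    have hY : IsPGroup p (Subgroup.zpowers y) := IsPGroup.of_card (n := 1) (by rw [Nat.card_zpowers, hy, pow_one])
    have : y ∈ Subgroup.zpowers y ⊓ Subgroup.normalizer (P : Set G) := ⟨Subgroup.mem_zpowers y, hyN⟩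
    rw [hY.inf_normalizer_sylow P] at this
    exact this.2
  have hgen : ∀ y ∈ (P : Subgroup G), y ≠ 1 → Subgroup.zpowers y = (P : Subgroup G) := by
    intro y hy hy1
    refine Subgroup.eq_of_le_of_card_ge (Subgroup.zpowers_le.mpr hy) ?_
    rw [hP, Nat.card_zpowers]
    have hd : orderOf y ∣ p := hP ▸ (Subgroup.orderOf_coe (⟨y, hy⟩ : (P : Subgroup G)) ▸ orderOf_dvd_natCard _)
    exact (((Nat.dvd_prime hp).mp hd).resolve_left (fun e => hy1 (orderOf_eq_one_iff.mp e))).ge
  have hfix : ∀ (y : G) (g : G), y • (QuotientGroup.mk g : G ⧸ N) = QuotientGroup.mk g ↔ g⁻¹ * y * g ∈ N := by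
    intro y g
    change QuotientGroup.mk (y * g) = (QuotientGroup.mk g : G ⧸ N) ↔ _
    rw [QuotientGroup.eq, show (y * g)⁻¹ * g = (g⁻¹ * y * g)⁻¹ by group, N.inv_mem_iff]
  refine ⟨fun y hy => ?_, fun x hxN hxC => ?_⟩
  · have hy1 : y ≠ 1 := fun e => by simp [e] at hy; exact hp.one_lt.ne hy
    obtain ⟨S, hS⟩ := (IsPGroup.of_card (p := p) (n := 1) (G := Subgroup.zpowers y)
      (by rw [Nat.card_zpowers, hy, pow_one])).exists_le_sylow
    obtain ⟨g, hg⟩ := MulAction.exists_smul_eq G P S
    have hgy : g⁻¹ * y * g ∈ (P : Subgroup G) := by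
      have h := hS (Subgroup.mem_zpowers y)
      rw [← hg] at h
      have : y ∈ MulAut.conj g • (P : Subgroup G) := h
      simpa [Subgroup.mem_pointwise_smul_iff_inv_smul_mem, MulAut.conj_apply, mul_assoc] using this
    rw [Nat.card_eq_one_iff_unique]
    refine ⟨⟨?_⟩, ⟨⟨QuotientGroup.mk g, (hfix y g).mpr (hPN _ hgy)⟩⟩⟩
    rintro ⟨c, hc⟩ ⟨d, hd⟩
    refine Subtype.ext ?_
    induction c using QuotientGroup.induction_on with | H a => ?_
    induction d using QuotientGroup.induction_on with | H b => ?_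
    have hord : ∀ c : G, orderOf (c⁻¹ * y * c) = p := fun c => by
      rw [show c⁻¹ * y * c = MulAut.conj c⁻¹ y by simp [MulAut.conj_apply], MulEquiv.orderOf_eq, hy]
    have ha := hin _ (hord a) ((hfix y a).mp hc)
    have hb := hin _ (hord b) ((hfix y b).mp hd)
    have hne : ∀ c : G, c⁻¹ * y * c ≠ 1 := fun c e => hy1 (by
      have h := congrArg (fun z => c * z * c⁻¹) e
      simpa [mul_assoc] using h)
    change (QuotientGroup.mk a : G ⧸ N) = QuotientGroup.mk b
    rw [QuotientGroup.eq, hN, Subgroup.mem_normalizer_iff]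
    intro h
    have hk : ∀ k : ℤ, (a⁻¹ * b) * (b⁻¹ * y * b) ^ k * (a⁻¹ * b)⁻¹ = (a⁻¹ * y * a) ^ k := by
      intro k
      rw [← conj_zpow]; congr 1; group
    constructor
    · intro hh
      rw [← hgen _ hb (hne b), Subgroup.mem_zpowers_iff] at hh
      obtain ⟨k, rfl⟩ := hh
      rw [hk]
      exact (P : Subgroup G).zpow_mem ha k
    · intro hh
      rw [← hgen _ ha (hne a), Subgroup.mem_zpowers_iff] at hh
      obtain ⟨k, hk'⟩ := hh
      rw [← hk k] at hk'
      rw [← mul_left_cancel (mul_right_cancel hk')]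
      exact (P : Subgroup G).zpow_mem hb k
  · refine Nat.card_le_card_of_injective (fun z => Quotient.mk'' z.1) ?_
    rintro ⟨c, hc⟩ ⟨d, hd⟩ h
    obtain ⟨⟨u, hu⟩, hud⟩ := Quotient.exact' h
    refine Subtype.ext ?_
    change u • d = c at hud
    change c = d
    have hc' : x • c = c := hc
    have hd' : x • d = d := hd
    have hw : (u⁻¹ * (x * u * x⁻¹)) • d = d := by
      have e : (x * u * x⁻¹) • d = c := by
        rw [mul_smul, mul_smul, inv_smul_eq_iff.mpr hd'.symm, hud, hc']
      rw [mul_smul, e, inv_smul_eq_iff]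
      exact hud.symm
    have hconj : x * u * x⁻¹ ∈ (P : Subgroup G) := (Subgroup.mem_normalizer_iff.mp hxN u).mp hu
    have hwP : u⁻¹ * (x * u * x⁻¹) ∈ (P : Subgroup G) := mul_mem (inv_mem hu) hconj
    by_cases hw1 : u⁻¹ * (x * u * x⁻¹) = 1
    · -- x commutes with u
      by_cases hu1 : u = 1
      · rw [hu1, one_smul] at hud; exact hud.symm
      exfalso
      refine hxC (Subgroup.mem_centralizer_iff.mpr fun v hv => ?_)
      rw [SetLike.mem_coe, ← hgen u hu hu1, Subgroup.mem_zpowers_iff] at hv
      obtain ⟨k, rfl⟩ := hv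
      have hcomm : Commute u x := by
        have e : x * u * x⁻¹ = u := (inv_mul_eq_one.mp hw1).symm
        exact (mul_inv_eq_iff_eq_mul.mp e).symm
      exact hcomm.zpow_left k
    · have hall : ∀ v ∈ (P : Subgroup G), v • d = d := by
        intro v hv
        have : Subgroup.zpowers (u⁻¹ * (x * u * x⁻¹)) ≤ MulAction.stabilizer G d := Subgroup.zpowers_le.mpr hw
        rw [hgen _ hwP hw1] at this
        exact this hv
      rw [← hud, hall u hu]

end Cfsg.Agent.S1018
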