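import Cfsg.Statements.S1019
import Mathlib.GroupTheory.GroupAction.Quotient
import Mathlib.Tactic.Group
import Mathlib.Tactic.Ring
import Mathlib.GroupTheory.Index
import Mathlib.GroupTheory.Subgroup.Centralizer

set_option autoImplicit false
open Cfsg

namespace Cfsg.Agent.S1019

/-- Let H be a subgroup of a finite group G and x an element of H. In the action of G on the left cosets of H, the number of cosets fixed by x, multiplied by the size of the conjugacy class of x, equals the index of H multiplied by the number of conjugates of x that lie in H. -/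
theorem result {G : Type*} [Group G] [Finite G] (H : Subgroup G) (x : G) (hx : x ∈ H) : Nat.card (MulAction.fixedBy (G ⧸ H) x) * Nat.card {g : G // IsConj x g} = H.index * Nat.card {g : G // IsConj x g ∧ g ∈ H} := by
  classical
  haveI : Fintype G := Fintype.ofFinite _
  -- count group elements conjugating x into H in two ways
  have e1 : {g : G // g⁻¹ * x * g ∈ H} ≃ MulAction.fixedBy (G ⧸ H) x × H := by
    refine Equiv.ofBijective
      (fun g => (⟨QuotientGroup.mk g.1, ?_⟩, ⟨(QuotientGroup.mk g.1 : G ⧸ H).out⁻¹ * g.1, ?_⟩))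
      ⟨fun a b h => ?_, fun y => ?_⟩
    · change QuotientGroup.mk (x * g.1) = QuotientGroup.mk g.1
      rw [QuotientGroup.eq, show (x * g.1)⁻¹ * g.1 = (g.1⁻¹ * x * g.1)⁻¹ by group]
      exact H.inv_mem g.2
    · exact (QuotientGroup.eq).mp (QuotientGroup.out_eq' _)
    · simp only [Prod.mk.injEq, Subtype.mk.injEq] at h
      refine Subtype.ext ?_
      have := h.2
      rw [h.1] at this
      exact mul_left_cancel this
    · obtain ⟨⟨c, hc⟩, k⟩ := y
      have hc' : c.out⁻¹ * x * c.out ∈ H := by
        have : QuotientGroup.mk (x * c.out) = (QuotientGroup.mk c.out : G ⧸ H) := by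
          rw [QuotientGroup.out_eq']
          conv_rhs => rw [← hc]
          exact congrArg (x • ·) (QuotientGroup.out_eq' c)
        have h2 := QuotientGroup.eq.mp this
        rw [show c.out⁻¹ * x * c.out = ((x * c.out)⁻¹ * c.out)⁻¹ by group]
        exact H.inv_mem h2
      refine ⟨⟨c.out * k, ?_⟩, ?_⟩
      · rw [show (c.out * (k : G))⁻¹ * x * (c.out * k) = (k : G)⁻¹ * (c.out⁻¹ * x * c.out) * k by group]
        exact H.mul_mem (H.mul_mem (H.inv_mem k.2) hc') k.2
      · have hmk : QuotientGroup.mk (c.out * (k : G)) = c := by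
          rw [QuotientGroup.mk_mul_of_mem _ k.2, QuotientGroup.out_eq']
        refine Prod.ext (Subtype.ext hmk) (Subtype.ext ?_)
        change (QuotientGroup.mk (c.out * (k : G)) : G ⧸ H).out⁻¹ * (c.out * k) = k
        rw [hmk]; group
  let C : Subgroup G := Subgroup.centralizer ({x} : Set G)
  have hconj : ∀ y, IsConj x y → ∃ g : G, g⁻¹ * x * g = y := by
    intro y hy
    obtain ⟨c, hc⟩ := isConj_iff.mp hy
    exact ⟨c⁻¹, by rw [inv_inv]; exact hc⟩
  choose w hw using hconj
  have eC : ∀ (y : G) (g : G), g⁻¹ * x * g = y → ∀ h : IsConj x y, g * (w y h)⁻¹ ∈ C := by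
    intro y g hg h
    rw [Subgroup.mem_centralizer_singleton_iff]
    have h2 := hw y h
    calc g * (w y h)⁻¹ * x = g * ((w y h)⁻¹ * x * (w y h)) * (w y h)⁻¹ := by group
      _ = g * (g⁻¹ * x * g) * (w y h)⁻¹ := by rw [h2, hg]
      _ = x * (g * (w y h)⁻¹) := by group
  have e2 : ∀ (S : G → Prop), {g : G // S (g⁻¹ * x * g)} ≃ {y : G // IsConj x y ∧ S y} × C := by
    intro S
    have hcj : ∀ g : G, IsConj x (g⁻¹ * x * g) := fun g => isConj_iff.mpr ⟨g⁻¹, by rw [inv_inv]⟩
    refine
      { toFun := fun g => (⟨g.1⁻¹ * x * g.1, hcj _, g.2⟩,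
          ⟨g.1 * (w _ (hcj g.1))⁻¹, eC _ _ rfl _⟩)
        invFun := fun p => ⟨(p.2 : G) * w _ p.1.2.1, ?_⟩
        left_inv := fun g => Subtype.ext (by simp)
        right_inv := fun p => ?_ }
    · have hc := Subgroup.mem_centralizer_singleton_iff.mp p.2.2
      have : ((p.2 : G) * w _ p.1.2.1)⁻¹ * x * ((p.2 : G) * w _ p.1.2.1) = p.1.1 := by
        rw [show ((p.2 : G) * w _ p.1.2.1)⁻¹ * x * ((p.2 : G) * w _ p.1.2.1) =
          (w _ p.1.2.1)⁻¹ * ((p.2 : G)⁻¹ * (x * p.2)) * w _ p.1.2.1 by group, ← hc,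
          inv_mul_cancel_left]
        exact hw _ _
      rw [this]; exact p.1.2.2
    · obtain ⟨⟨y, hy, hS⟩, ⟨c, hc⟩⟩ := p
      have hc' := Subgroup.mem_centralizer_singleton_iff.mp hc
      have : (c * w y hy)⁻¹ * x * (c * w y hy) = y := by
        rw [show (c * w y hy)⁻¹ * x * (c * w y hy) = (w y hy)⁻¹ * (c⁻¹ * (x * c)) * w y hy by group,
          ← hc', inv_mul_cancel_left]
        exact hw y hy
      refine Prod.ext (Subtype.ext this) (Subtype.ext ?_)
      simp only [this]
      group
  have h1 := Nat.card_congr e1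
  have h2 := Nat.card_congr (e2 (· ∈ H))
  have h3 := Nat.card_congr (e2 (fun _ => True))
  simp only [Nat.card_prod, and_true] at h1 h2 h3
  have h4 : Nat.card {g : G // True} = Nat.card G := Nat.card_congr (Equiv.subtypeUnivEquiv fun _ => trivial)
  rw [h4] at h3
  have hkey : Nat.card (MulAction.fixedBy (G ⧸ H) x) * Nat.card {g : G // IsConj x g} * (Nat.card H * Nat.card C)
      = H.index * Nat.card {g : G // IsConj x g ∧ g ∈ H} * (Nat.card H * Nat.card C) := by
    calc _ = (Nat.card (MulAction.fixedBy (G ⧸ H) x) * Nat.card H) * (Nat.card {g : G // IsConj x g} * Nat.card C) := by ring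
      _ = (Nat.card {g : G // IsConj x g ∧ g ∈ H} * Nat.card C) * (H.index * Nat.card H) := by
          rw [← h1, h2, ← h3, ← H.card_mul_index, mul_comm H.index]
      _ = _ := by ring
  exact Nat.eq_of_mul_eq_mul_right (Nat.mul_pos Nat.card_pos Nat.card_pos) hkey

end Cfsg.Agent.S1019
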