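import Cfsg.Statements.S1026
import Cfsg.Agent.Lib.Chev.All
import Cfsg.Agent.Lib.Chev.Misc


set_option autoImplicit false
open Cfsg

namespace Cfsg.Agent.S1026

/-- Every element of `U` has a unique expression `∏_{r ∈ Φ⁺} x_r(t_r)`, the product over the positive roots in increasing index order (the coefficient family `t`, supported on the positive roots, exists and is unique); and conversely every such ordered product is the matrix of an element of `U`. -/
theorem result {F : Type*} [Field F] (D : Cfsg.Lie.ChevalleyDatum) (hD : D ∈ [Cfsg.Lie.chevG2, Cfsg.Lie.chevB2, Cfsg.Lie.chevD4, Cfsg.Lie.chevF4, Cfsg.Lie.chevE6, Cfsg.Lie.chevE7, Cfsg.Lie.chevE8]) :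
    (∀ g : GL D.Idx F, g ∈ D.posUnipotent F →
      ∃! t : ℕ → F, (∀ r, ¬ D.IsPosRoot r → t r = 0) ∧
        (g : Matrix D.Idx D.Idx F) = D.wordMat F (D.posRoots.map fun r => (r, t r))) ∧
    (∀ t : ℕ → F, ∃ g : GL D.Idx F, g ∈ D.posUnipotent F ∧
      (g : Matrix D.Idx D.Idx F) = D.wordMat F (D.posRoots.map fun r => (r, t r))) := by
  obtain ⟨A, hc⟩ := Lib.Chev.certified_of_mem hD
  refine ⟨fun g hg => ?_, fun t => ⟨_, Lib.Chev.coe_uprod_mem hc t, Lib.Chev.wordMat_posRoots hc t⟩⟩
  rw [Lib.Chev.posUnipotent_eq hc] at hg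
  obtain ⟨t, rfl⟩ := Lib.Chev.exists_uprod hc (fun _ h => h) (Lib.Chev.combClosed_pos hc) _ _ (zero_add _) g hg
  classical
  let t' : ℕ → F := fun r => if D.IsPosRoot r then t r else 0
  have he : Lib.Chev.uprod D (fun r => A.pos r = true) t 0 D.nroots =
      Lib.Chev.uprod D (fun r => A.pos r = true) t' 0 D.nroots := by
    refine Units.ext ?_
    rw [Lib.Chev.wordMat_posRoots hc, Lib.Chev.wordMat_posRoots hc]
    congr 1
    refine List.map_congr_left fun r hr => ?_
    simp only [Lie.ChevalleyDatum.posRoots, List.mem_filter, decide_eq_true_eq] at hr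
    simp [t', hr.2]
  refine ⟨t', ⟨fun r hr => if_neg hr, by rw [he, Lib.Chev.wordMat_posRoots hc]⟩, ?_⟩
  rintro s ⟨hs0, hs⟩
  rw [he, ← Lib.Chev.wordMat_posRoots hc s] at hs
  funext r
  by_cases hr : D.IsPosRoot r
  · obtain ⟨h1, h2⟩ := (Lib.Chev.isPosRoot_iff hc).1 hr
    exact (Lib.Chev.uprod_injective hc (fun _ h => h) _ _ (zero_add _) t' s (Units.ext hs) r h2
      (Nat.zero_le _) h1).symm
  · rw [hs0 r hr]; exact (if_neg hr).symm

end Cfsg.Agent.S1026
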