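import Cfsg.Statements.S1030
import Cfsg.Agent.Lib.Chev.All
import Cfsg.Agent.Lib.Chev.Torus
import Cfsg.Agent.Lib.Chev.RootPair
import Cfsg.Agent.Lib.Classical.SLGroup
-- import your own Cfsg.Agent.* helpers here

set_option autoImplicit false
open Cfsg

namespace Cfsg.Agent.S1030

private lemma sl2_pair_inj {K : Type*} [Field K] {G : Type*} [Group G] (x y : K → G)
    (hx : ∀ t u, x t * x u = x (t + u)) (hy : ∀ t u, y t * y u = y (t + u))
    (rel : ∀ t u : K, t ≠ 0 → (x t * y (-t⁻¹) * x t) * x u * (x t * y (-t⁻¹) * x t)⁻¹ = y (-(t⁻¹ ^ 2 * u)))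
    (hm : ∀ t u : K, t ≠ 0 → u ≠ 0 → x (t * u) * y (-(t * u)⁻¹) * x (t * u) * (x 1 * y (-(1 : K)⁻¹) * x 1)⁻¹ =
      x t * y (-t⁻¹) * x t * (x 1 * y (-(1 : K)⁻¹) * x 1)⁻¹ * (x u * y (-u⁻¹) * x u * (x 1 * y (-(1 : K)⁻¹) * x 1)⁻¹))
    (hgen : Subgroup.closure (Set.range x ∪ Set.range y) = ⊤)
    (φ : G →* Matrix.SpecialLinearGroup (Fin 2) K)
    (fx : ∀ t, (φ (x t) : Matrix (Fin 2) (Fin 2) K) = !![1, t; 0, 1])
    (fy : ∀ t, (φ (y t) : Matrix (Fin 2) (Fin 2) K) = !![1, 0; t, 1]) : Function.Injective φ := by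
  classical
  have x0 : x 0 = 1 := by simpa using hx 0 0
  have y0 : y 0 = 1 := by simpa using hy 0 0
  have xn : ∀ t, (x t)⁻¹ = x (-t) := fun t => inv_eq_of_mul_eq_one_right (by rw [hx, add_neg_cancel, x0])
  have yn : ∀ t, (y t)⁻¹ = y (-t) := fun t => inv_eq_of_mul_eq_one_right (by rw [hy, add_neg_cancel, y0])
  let w : K → G := fun t => x t * y (-t⁻¹) * x t
  have wdef : ∀ t, w t = x t * y (-t⁻¹) * x t := fun t => rfl
  have wx : ∀ t u, t ≠ 0 → w t * x u * (w t)⁻¹ = y (-(t⁻¹ ^ 2 * u)) := fun t u ht => rel t u ht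
  have wneg : ∀ t, w (-t) = (w t)⁻¹ := fun t => by simp only [wdef, mul_inv_rev, xn, yn, inv_neg, neg_neg, mul_assoc]
  have wy : ∀ t v, t ≠ 0 → w t * y v * (w t)⁻¹ = x (-(t ^ 2 * v)) := fun t v ht => by
    have h := wx (-t) (-(t ^ 2 * v)) (neg_ne_zero.2 ht)
    rw [wneg, inv_inv, show -((-t)⁻¹ ^ 2 * -(t ^ 2 * v)) = v by field_simp] at h
    rw [← h]; group
  have w' : ∀ t, t ≠ 0 → w t = y (-t⁻¹) * x t * y (-t⁻¹) := fun t ht => by
    have a := wx t t ht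
    have b := wy t (-t⁻¹) ht
    rw [show -(t⁻¹ ^ 2 * t) = -t⁻¹ by field_simp] at a
    rw [show -(t ^ 2 * -t⁻¹) = t by field_simp] at b
    calc w t = (w t * x t * (w t)⁻¹) * (w t * y (-t⁻¹) * (w t)⁻¹) * (w t * x t * (w t)⁻¹) := by
          conv_lhs => rw [← mul_inv_cancel_right (w t) (w t)]
          rw [wdef]; group
      _ = y (-t⁻¹) * x t * y (-t⁻¹) := by rw [a, b]
  have xsplit : ∀ t, t ≠ 0 → x t = y t⁻¹ * w t * y t⁻¹ := fun t ht => by
    rw [w' t ht, ← mul_assoc, ← mul_assoc, hy, add_neg_cancel, y0, one_mul, mul_assoc, hy, neg_add_cancel, y0, mul_one]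
  let W := w 1
  let h : K → G := fun t => w t * (w 1)⁻¹
  have hdef : ∀ t, h t = w t * (w 1)⁻¹ := fun t => rfl
  have hmul : ∀ t u, t ≠ 0 → u ≠ 0 → h (t * u) = h t * h u := hm
  have h1 : h 1 = 1 := mul_inv_cancel _
  have wh : ∀ t, w t = h t * w 1 := fun t => by rw [hdef, inv_mul_cancel_right]
  clear_value h w
  have hxc : ∀ t u, t ≠ 0 → h t * x u * (h t)⁻¹ = x (t ^ 2 * u) := fun t u ht => by
    have a := wx (-1) u (neg_ne_zero.2 one_ne_zero)
    rw [wneg, inv_inv, show -((-1 : K)⁻¹ ^ 2 * u) = -u by norm_num] at a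
    calc h t * x u * (h t)⁻¹ = w t * ((w 1)⁻¹ * x u * w 1) * (w t)⁻¹ := by rw [hdef]; group
      _ = x (t ^ 2 * u) := by rw [a, wy t _ ht]; congr 1; ring
  have hyc : ∀ t v, t ≠ 0 → h t * y v * (h t)⁻¹ = y (t⁻¹ ^ 2 * v) := fun t v ht => by
    have a := wy (-1) v (neg_ne_zero.2 one_ne_zero)
    rw [wneg, inv_inv, show -((-1 : K) ^ 2 * v) = -v by norm_num] at a
    calc h t * y v * (h t)⁻¹ = w t * ((w 1)⁻¹ * y v * w 1) * (w t)⁻¹ := by rw [hdef]; group
      _ = y (t⁻¹ ^ 2 * v) := by rw [a, wx t _ ht]; congr 1; ring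
  have fw : ∀ t, t ≠ 0 → (φ (w t) : Matrix (Fin 2) (Fin 2) K) = !![0, t; -t⁻¹, 0] := fun t ht => by
    rw [wdef, map_mul, map_mul, Matrix.SpecialLinearGroup.coe_mul, Matrix.SpecialLinearGroup.coe_mul, fx, fy]
    ext i j; fin_cases i <;> fin_cases j <;> simp [Matrix.mul_apply, Fin.sum_univ_two, ht]
  have fh : ∀ t, t ≠ 0 → (φ (h t) : Matrix (Fin 2) (Fin 2) K) = !![t, 0; 0, t⁻¹] := fun t ht => by
    rw [hdef, ← wneg, map_mul, Matrix.SpecialLinearGroup.coe_mul, fw t ht, fw (-1) (neg_ne_zero.2 one_ne_zero)]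
    ext i j; fin_cases i <;> fin_cases j <;> simp [Matrix.mul_apply, Fin.sum_univ_two]
  have conjW : ∀ t, t ≠ 0 → w 1 * h t * (w 1)⁻¹ = h t⁻¹ := fun t ht => by
    have e : w 1 * w t * (w 1)⁻¹ = w t⁻¹ := by
      calc w 1 * w t * (w 1)⁻¹ = (w 1 * x t * (w 1)⁻¹) * (w 1 * y (-t⁻¹) * (w 1)⁻¹) * (w 1 * x t * (w 1)⁻¹) := by
            rw [wdef t]; group
        _ = y (-t) * x t⁻¹ * y (-t) := by
          rw [wx 1 t one_ne_zero, wy 1 _ one_ne_zero]
          simp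
        _ = w t⁻¹ := by rw [w' _ (inv_ne_zero ht), inv_inv]
    rw [hdef, hdef, show w 1 * (w t * (w 1)⁻¹) * (w 1)⁻¹ = (w 1 * w t * (w 1)⁻¹) * (w 1)⁻¹ by group, e]
  have hm1 : (-1 : K) ≠ 0 := neg_ne_zero.2 one_ne_zero
  have WW : w 1 * w 1 = h (-1) := by
    have e : w (-1) = h (-1) * w 1 := wh _
    rw [wneg] at e
    have e2 : h (-1) * h (-1) = 1 := by rw [← hmul _ _ hm1 hm1, neg_mul_neg, one_mul, h1]
    calc w 1 * w 1 = (h (-1))⁻¹ * ((h (-1) * w 1) * w 1) := by group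
      _ = (h (-1))⁻¹ := by rw [← e, inv_mul_cancel, mul_one]
      _ = h (-1) := inv_eq_of_mul_eq_one_right e2
  have hxswap : ∀ t u, t ≠ 0 → h t * x u = x (t ^ 2 * u) * h t := fun t u ht => mul_inv_eq_iff_eq_mul.1 (hxc t u ht)
  let Sset : Set G := {g | (∃ a t, t ≠ 0 ∧ g = x a * h t) ∨ ∃ a t b, t ≠ 0 ∧ g = x a * h t * w 1 * x b}
  have stepx : ∀ c, ∀ g ∈ Sset, x c * g ∈ Sset := by
    rintro c g (⟨a, t, ht, rfl⟩ | ⟨a, t, b, ht, rfl⟩)
    · exact Or.inl ⟨c + a, t, ht, by rw [← mul_assoc, hx]⟩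
    · exact Or.inr ⟨c + a, t, b, ht, by simp only [← mul_assoc, hx]⟩
  have hWx : ∀ a t, a ≠ 0 → t ≠ 0 → w 1 * (x a * h t) = x (-a⁻¹) * h (-(t / a)) * y (t ^ 2 / a) := by
    intro a t ha ht
    have hyswap : y a⁻¹ * h t = h t * y (t ^ 2 / a) := by
      have e := hyc t (t ^ 2 / a) ht
      rw [show t⁻¹ ^ 2 * (t ^ 2 / a) = a⁻¹ by field_simp, mul_inv_eq_iff_eq_mul] at e
      exact e.symm
    have ec : w 1 * h a * w 1 = h (-a⁻¹) := by
      rw [show w 1 * h a * w 1 = (w 1 * h a * (w 1)⁻¹) * (w 1 * w 1) by group, conjW a ha, WW, ← hmul _ _ (inv_ne_zero ha) hm1, mul_neg_one]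
    calc w 1 * (x a * h t) = (w 1 * y a⁻¹ * (w 1)⁻¹) * (w 1 * h a * w 1) * (y a⁻¹ * h t) := by
          rw [xsplit a ha, wh a]; group
      _ = x (-a⁻¹) * (h (-a⁻¹) * h t) * y (t ^ 2 / a) := by
          rw [wy 1 _ one_ne_zero, ec, hyswap, one_pow, one_mul]; group
      _ = _ := by rw [← hmul _ _ (neg_ne_zero.2 (inv_ne_zero ha)) ht]; congr 3; field_simp
  have hW0 : ∀ t, t ≠ 0 → w 1 * h t = h t⁻¹ * w 1 := fun t ht => mul_inv_eq_iff_eq_mul.1 (conjW t ht)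
  have stepw : ∀ g ∈ Sset, w 1 * g ∈ Sset := by
    rintro g (⟨a, t, ht, rfl⟩ | ⟨a, t, b, ht, rfl⟩)
    · by_cases ha : a = 0
      · subst ha
        exact Or.inr ⟨0, t⁻¹, 0, inv_ne_zero ht, by rw [x0, one_mul, one_mul, mul_one, hW0 t ht]⟩
      · set v := t ^ 2 / a with hv
        have hv0 : v ≠ 0 := div_ne_zero (pow_ne_zero 2 ht) ha
        have hp : -(t / a) ≠ 0 := neg_ne_zero.2 (div_ne_zero ht ha)
        have ey : y v = x v⁻¹ * h (-v⁻¹) * w 1 * x v⁻¹ := by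
          rw [mul_assoc (x v⁻¹), ← wh, wdef, inv_neg, neg_neg, inv_inv]
          rw [show x v⁻¹ * (x (-v⁻¹) * y v * x (-v⁻¹)) * x v⁻¹ = (x v⁻¹ * x (-v⁻¹)) * y v * (x (-v⁻¹) * x v⁻¹) by group,
            hx, hx, add_neg_cancel, neg_add_cancel, x0, one_mul, mul_one]
        refine Or.inr ⟨-a⁻¹ + (-(t / a)) ^ 2 * v⁻¹, -(t / a) * -v⁻¹, v⁻¹, mul_ne_zero hp (neg_ne_zero.2 (inv_ne_zero hv0)), ?_⟩
        rw [hWx a t ha ht, ey, ← hx, hmul _ _ hp (neg_ne_zero.2 (inv_ne_zero hv0))]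
        calc _ = x (-a⁻¹) * (h (-(t / a)) * x v⁻¹) * h (-v⁻¹) * w 1 * x v⁻¹ := by group
          _ = _ := by rw [hxswap _ _ hp]; group
    · by_cases ha : a = 0
      · subst ha
        refine Or.inl ⟨(-t⁻¹) ^ 2 * b, -t⁻¹, neg_ne_zero.2 (inv_ne_zero ht), ?_⟩
        rw [x0, one_mul, ← hxswap _ _ (neg_ne_zero.2 (inv_ne_zero ht)),
          show w 1 * (h t * w 1 * x b) = (w 1 * h t) * w 1 * x b by group, hW0 t ht, mul_assoc (h t⁻¹), WW,
          ← hmul _ _ (inv_ne_zero ht) hm1, mul_neg_one]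
      · refine Or.inr ⟨-a⁻¹, -(t / a), -(t ^ 2 / a) + b, neg_ne_zero.2 (div_ne_zero ht ha), ?_⟩
        have e : y (t ^ 2 / a) * w 1 = w 1 * x (-(t ^ 2 / a)) := by
          have := wx 1 (-(t ^ 2 / a)) one_ne_zero
          rw [show -((1 : K)⁻¹ ^ 2 * -(t ^ 2 / a)) = t ^ 2 / a by simp, mul_inv_eq_iff_eq_mul] at this
          exact this.symm
        rw [show w 1 * (x a * h t * w 1 * x b) = (w 1 * (x a * h t)) * w 1 * x b by group, hWx a t ha ht,
          mul_assoc _ (y (t ^ 2 / a)) (w 1), e, ← hx]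
        group
  have stepwi : ∀ g ∈ Sset, (w 1)⁻¹ * g ∈ Sset := by
    intro g hg
    have e : (w 1)⁻¹ = w 1 * w 1 * w 1 := by
      refine inv_eq_of_mul_eq_one_left ?_
      rw [show w 1 * w 1 * w 1 * w 1 = (w 1 * w 1) * (w 1 * w 1) by group, WW, ← hmul _ _ hm1 hm1, neg_mul_neg, one_mul, h1]
    rw [e, mul_assoc, mul_assoc]
    exact stepw _ (stepw _ (stepw _ hg))
  have hall : ∀ g, g ∈ Sset := by
    intro g
    have hg : g ∈ Subgroup.closure (Set.range x ∪ Set.range y) := by rw [hgen]; trivial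
    have h1S : (1 : G) ∈ Sset := Or.inl ⟨0, 1, one_ne_zero, by rw [x0, h1, one_mul]⟩
    suffices ∀ z ∈ Sset, g * z ∈ Sset by simpa using this 1 h1S
    induction hg using Subgroup.closure_induction'' with
    | one => intro z hz; simpa using hz
    | mem g hg =>
      intro z hz
      rcases hg with ⟨c, rfl⟩ | ⟨c, rfl⟩
      · exact stepx c z hz
      · have e : y c = w 1 * x (-c) * (w 1)⁻¹ := by rw [wx 1 _ one_ne_zero]; simp
        rw [e, mul_assoc, mul_assoc]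
        exact stepw _ (stepx _ _ (stepwi _ hz))
    | inv_mem g hg =>
      intro z hz
      rcases hg with ⟨c, rfl⟩ | ⟨c, rfl⟩
      · rw [xn]; exact stepx _ z hz
      · have e : (y c)⁻¹ = w 1 * x c * (w 1)⁻¹ := by rw [yn, wx 1 _ one_ne_zero]; simp
        rw [e, mul_assoc, mul_assoc]
        exact stepw _ (stepx _ _ (stepwi _ hz))
    | mul a b _ _ iha ihb =>
      intro z hz
      rw [mul_assoc]
      exact iha _ (ihb z hz)
  refine (injective_iff_map_eq_one φ).2 fun g hg => ?_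
  have hgm : (φ g : Matrix (Fin 2) (Fin 2) K) = 1 := by rw [hg]; rfl
  rcases hall g with ⟨a, t, ht, rfl⟩ | ⟨a, t, b, ht, rfl⟩
  · rw [map_mul, Matrix.SpecialLinearGroup.coe_mul, fx, fh t ht] at hgm
    have e00 := congrFun (congrFun hgm 0) 0
    have e01 := congrFun (congrFun hgm 0) 1
    simp [Matrix.mul_apply, Fin.sum_univ_two] at e00 e01
    subst e00
    simp at e01
    rw [e01, x0, h1, one_mul]
  · exfalso
    rw [map_mul, map_mul, map_mul, Matrix.SpecialLinearGroup.coe_mul, Matrix.SpecialLinearGroup.coe_mul,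
      Matrix.SpecialLinearGroup.coe_mul, fx, fh t ht, fw 1 one_ne_zero, fx] at hgm
    have e10 := congrFun (congrFun hgm 1) 0
    simp [Matrix.mul_apply, Fin.sum_univ_two, ht] at e10




open Cfsg.Lie Cfsg.Lib.Chev in
private lemma root_pair_rel {D : ChevalleyDatum} {A : Aux} (hc : Cert D A) {F : Type*} [Field F] {r : ℕ} (hr : r < D.nroots)
    {t : F} (ht : t ≠ 0) (u : F) :
    ngen D F r t * xg D F r u * (ngen D F r t)⁻¹ = xg D F (negI D r) (-(t⁻¹ ^ 2 * u)) := by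
  have simp_case : ∀ (i : Fin D.rank) (s : Fˣ) (v : F), ngen D F (D.simple i) (s : F) * xg D F (D.simple i) v * (ngen D F (D.simple i) (s : F))⁻¹ =
      xg D F (negI D (D.simple i)) (-((s : F)⁻¹ ^ 2 * v)) := fun i s v => by
    have hs := simple_lt hc i.2
    rw [ngen_simple_eq hc i.2, show ∀ a b c : GL D.Idx F, a * b * c * (a * b)⁻¹ = a * (b * c * b⁻¹) * a⁻¹ from fun a b c => by group,
      ng_conj_xg hc i.2 hs, w_simple hc i.2, eta_simple hc i.2, hg, dg_conj_x hc (negI_lt hs)]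
    · simp [cA_neg hc i.2 hs, cA_simple_self hc i.2, zpow_neg]
      try (congr 1; ring)
    · first | exact isChar_cA hc i.2 _ | skip
      all_goals rw [show (fun k => s ^ A.cA i k) = torusVal A D.rank (fun k => if k = i.1 then s else 1) from funext fun k => by
          rw [torusVal, Finset.prod_eq_single i.1] <;> simp +contextual [i.2]]
      all_goals exact isChar_torusVal hc _
  obtain ⟨L, i, hL⟩ := exists_word_to hc ⟨r, hr⟩
  obtain ⟨hπ, c, hcn, hcx⟩ := acts_wg (F := F) hc L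
  have a := hcx (sR hc i)
  have b := hcx (nR (sR hc i))
  rw [hcn, hπ.neg] at b
  rw [hL] at a b
  simp only [nR, sR] at a b
  set g := wg D F L
  set k := c (sR hc i) with hk
  simp only [sR] at hk
  rw [← hk] at a b
  have hk0 : (k : F) ≠ 0 := k.ne_zero
  have e : ∀ v, ngen D F r ((k : F) * v) = g * ngen D F (D.simple i) v * g⁻¹ := fun v => by
    have q := b (-v⁻¹)
    rw [show ((k⁻¹ : Fˣ) : F) * -v⁻¹ = -((k : F) * v)⁻¹ by rw [Units.val_inv_eq_inv_val, mul_inv]; ring] at q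
    unfold ngen
    rw [← a, ← q]; group
  obtain ⟨t', rfl⟩ : ∃ t', t = (k : F) * t' := ⟨(k : F)⁻¹ * t, by rw [mul_inv_cancel_left₀ hk0]⟩
  obtain ⟨u', rfl⟩ : ∃ u', u = (k : F) * u' := ⟨(k : F)⁻¹ * u, by rw [mul_inv_cancel_left₀ hk0]⟩
  have ht' : t' ≠ 0 := right_ne_zero_of_mul ht
  rw [e, ← a, show ∀ n z : GL D.Idx F, g * n * g⁻¹ * (g * z * g⁻¹) * (g * n * g⁻¹)⁻¹ = g * (n * z * n⁻¹) * g⁻¹ from fun n z => by group,
    ← Units.val_mk0 ht', simp_case i, b, Units.val_mk0, Units.val_inv_eq_inv_val]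
  congr 1; field_simp


set_option maxHeartbeats 1000000 in
/-- There is a homomorphism `SL₂(F) → GL` with image `⟨X_r, X_{-r}⟩` sending `[[1,t],[0,1]]` to `x_r(t)` and `[[1,0],[t,1]]` to `x_{-r}(t)`. -/
theorem result {F : Type*} [Field F] (D : Cfsg.Lie.ChevalleyDatum) (hD : D ∈ [Cfsg.Lie.chevG2, Cfsg.Lie.chevB2, Cfsg.Lie.chevD4, Cfsg.Lie.chevF4, Cfsg.Lie.chevE6, Cfsg.Lie.chevE7, Cfsg.Lie.chevE8]) (r : ℕ) (hr : r < D.nroots) :
    ∃ φ : Matrix.SpecialLinearGroup (Fin 2) F →* GL D.Idx F,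
      φ.range = D.rootSubgroup F r ⊔ D.rootSubgroup F (D.neg r) ∧
      ∀ (g : Matrix.SpecialLinearGroup (Fin 2) F) (t : F),
        ((g : Matrix (Fin 2) (Fin 2) F) = !![1, t; 0, 1] → ((φ g : GL D.Idx F) : Matrix D.Idx D.Idx F) = D.x F r t) ∧
        ((g : Matrix (Fin 2) (Fin 2) F) = !![1, 0; t, 1] → ((φ g : GL D.Idx F) : Matrix D.Idx D.Idx F) = D.x F (D.neg r) t) := by
  classical
  obtain ⟨A, hc⟩ := Lib.Chev.certified_of_mem hD
  have hnr := Lib.Chev.negI_lt (D := D) hr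
  have hneg := Lib.Chev.neg_eq hc hr
  let xr := Lib.Chev.xg D F r
  let yr := Lib.Chev.xg D F (Lib.Chev.negI D r)
  let X : F → Matrix.SpecialLinearGroup (Fin 2) F := fun t => ⟨!![1, t; 0, 1], by simp [Matrix.det_fin_two]⟩
  let Y : F → Matrix.SpecialLinearGroup (Fin 2) F := fun t => ⟨!![1, 0; t, 1], by simp [Matrix.det_fin_two]⟩
  let P : Subgroup (Matrix.SpecialLinearGroup (Fin 2) F × GL D.Idx F) :=
    Subgroup.closure ((Set.range fun t => (X t, xr t)) ∪ Set.range fun t => (Y t, yr t))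
  let x : F → P := fun t => ⟨(X t, xr t), Subgroup.subset_closure (Or.inl ⟨t, rfl⟩)⟩
  let y : F → P := fun t => ⟨(Y t, yr t), Subgroup.subset_closure (Or.inr ⟨t, rfl⟩)⟩
  let φ : P →* Matrix.SpecialLinearGroup (Fin 2) F := (MonoidHom.fst _ _).comp P.subtype
  let ψ : P →* GL D.Idx F := (MonoidHom.snd _ _).comp P.subtype
  have hXw : ∀ t : F, t ≠ 0 → ((X t * Y (-t⁻¹) * X t : Matrix.SpecialLinearGroup (Fin 2) F) : Matrix (Fin 2) (Fin 2) F) = !![0, t; -t⁻¹, 0] := fun t ht => by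
    rw [Matrix.SpecialLinearGroup.coe_mul, Matrix.SpecialLinearGroup.coe_mul]
    ext i j; fin_cases i <;> fin_cases j <;> simp [X, Y, Matrix.mul_apply, Fin.sum_univ_two, ht]
  have hnw : ∀ t, xr t * yr (-t⁻¹) * xr t = Lib.Chev.ngen D F r t := fun t => by simp only [xr, yr, Lib.Chev.ngen, mul_assoc]
  have hinj := sl2_pair_inj x y
    (fun t u => Subtype.ext (Prod.ext (Subtype.ext (by
      show ((X t * X u : Matrix.SpecialLinearGroup (Fin 2) F) : Matrix (Fin 2) (Fin 2) F) = (X (t + u)).1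
      rw [Matrix.SpecialLinearGroup.coe_mul]
      ext i j; fin_cases i <;> fin_cases j <;> simp [X, Matrix.mul_apply, Fin.sum_univ_two, add_comm]))
      (Lib.Chev.xg_add hc hr t u)))
    (fun t u => Subtype.ext (Prod.ext (Subtype.ext (by
      show ((Y t * Y u : Matrix.SpecialLinearGroup (Fin 2) F) : Matrix (Fin 2) (Fin 2) F) = (Y (t + u)).1
      rw [Matrix.SpecialLinearGroup.coe_mul]
      ext i j; fin_cases i <;> fin_cases j <;> simp [Y, Matrix.mul_apply, Fin.sum_univ_two, add_comm]))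
      (Lib.Chev.xg_add hc hnr t u)))
    (fun t u ht => by
      refine Subtype.ext (Prod.ext ?_ ?_)
      · show X t * Y (-t⁻¹) * X t * X u * (X t * Y (-t⁻¹) * X t)⁻¹ = Y _
        rw [mul_inv_eq_iff_eq_mul]
        apply Subtype.ext
        simp only [Matrix.SpecialLinearGroup.coe_mul] at hXw ⊢
        rw [hXw t ht]
        ext i j; fin_cases i <;> fin_cases j <;> simp [X, Y, Matrix.mul_apply, Fin.sum_univ_two] <;> field_simp
      · show xr t * yr (-t⁻¹) * xr t * xr u * (xr t * yr (-t⁻¹) * xr t)⁻¹ = yr _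
        rw [hnw]
        exact root_pair_rel hc hr ht u)
    (fun t u ht hu => by
      refine Subtype.ext (Prod.ext ?_ ?_)
      · show X (t * u) * Y (-(t * u)⁻¹) * X (t * u) * (X 1 * Y (-(1 : F)⁻¹) * X 1)⁻¹ =
          X t * Y (-t⁻¹) * X t * (X 1 * Y (-(1 : F)⁻¹) * X 1)⁻¹ * (X u * Y (-u⁻¹) * X u * (X 1 * Y (-(1 : F)⁻¹) * X 1)⁻¹)
        apply Subtype.ext
        simp only [Matrix.SpecialLinearGroup.coe_mul, Matrix.SpecialLinearGroup.coe_inv] at hXw ⊢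
        rw [hXw t ht, hXw u hu, hXw _ (mul_ne_zero ht hu), hXw 1 one_ne_zero, Matrix.adjugate_fin_two]
        ext i j; fin_cases i <;> fin_cases j <;> simp [Matrix.mul_apply, Fin.sum_univ_two, mul_comm]
      · show xr (t * u) * yr (-(t * u)⁻¹) * xr (t * u) * (xr 1 * yr (-(1 : F)⁻¹) * xr 1)⁻¹ =
          xr t * yr (-t⁻¹) * xr t * (xr 1 * yr (-(1 : F)⁻¹) * xr 1)⁻¹ * (xr u * yr (-u⁻¹) * xr u * (xr 1 * yr (-(1 : F)⁻¹) * xr 1)⁻¹)
        simp only [hnw]
        have hh : ∀ (a : F) (ha : a ≠ 0), Lib.Chev.ngen D F r a * (Lib.Chev.ngen D F r 1)⁻¹ = Lib.Chev.hr' D A r (Units.mk0 a ha) :=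
          fun a ha => by rw [← Lib.Chev.ngen_neg hc hr, ← Lib.Chev.ngen_mul_ngen_root hc hr, Units.val_mk0]
        rw [hh t ht, hh u hu, hh _ (mul_ne_zero ht hu)]
        simp only [Lib.Chev.hr', Lib.Chev.dg_mul]
        exact Lib.Chev.dg_eq_iff.2 fun s _ => by simp [mul_zpow])
    (by
      rw [← Subgroup.closure_closure_coe_preimage]
      congr 1
      ext ⟨p, hp⟩
      constructor
      · rintro (⟨t, ht⟩ | ⟨t, ht⟩)
        · exact Or.inl ⟨t, congrArg Subtype.val ht⟩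
        · exact Or.inr ⟨t, congrArg Subtype.val ht⟩
      · rintro (⟨t, ht⟩ | ⟨t, ht⟩)
        · exact Or.inl ⟨t, Subtype.ext ht⟩
        · exact Or.inr ⟨t, Subtype.ext ht⟩)
    φ (fun t => by simp only [φ, x, MonoidHom.comp_apply, Subgroup.coe_subtype, MonoidHom.coe_fst, X]) (fun t => by simp only [φ, y, MonoidHom.comp_apply, Subgroup.coe_subtype, MonoidHom.coe_fst, Y])
  have hsurj : Function.Surjective φ := by
    rw [← MonoidHom.range_eq_top]
    refine Cfsg.Lib.Classical.SLGroup.eq_top_of_transvection _ fun i j hij c => ?_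
    fin_cases i <;> fin_cases j
    · exact absurd rfl hij
    · exact ⟨x c, Subtype.ext (by ext a b; fin_cases a <;> fin_cases b <;> simp [φ, x, X, Matrix.SpecialLinearGroup.transvection_coe])⟩
    · exact ⟨y c, Subtype.ext (by ext a b; fin_cases a <;> fin_cases b <;> simp [φ, y, Y, Matrix.SpecialLinearGroup.transvection_coe])⟩
    · exact absurd rfl hij
  let e := MulEquiv.ofBijective φ ⟨hinj, hsurj⟩
  refine ⟨ψ.comp e.symm.toMonoidHom, ?_, fun g t => ⟨fun hg => ?_, fun hg => ?_⟩⟩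
  · rw [MonoidHom.range_comp, MonoidHom.range_eq_top.2 (show Function.Surjective e.symm.toMonoidHom from e.symm.surjective), ← MonoidHom.range_eq_map,
      MonoidHom.range_comp, Subgroup.range_subtype, MonoidHom.map_closure, hneg]
    refine le_antisymm ((Subgroup.closure_le _).2 ?_) (sup_le (Lib.Chev.rootSubgroup_le hc hr fun t => Subgroup.subset_closure ⟨_, Or.inl ⟨t, rfl⟩, rfl⟩)
      (Lib.Chev.rootSubgroup_le hc hnr fun t => Subgroup.subset_closure ⟨_, Or.inr ⟨t, rfl⟩, rfl⟩))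
    rintro _ ⟨_, ⟨t, rfl⟩ | ⟨t, rfl⟩, rfl⟩
    · exact Subgroup.mem_sup_left (Lib.Chev.xg_mem_rootSubgroup hc hr t)
    · exact Subgroup.mem_sup_right (Lib.Chev.xg_mem_rootSubgroup hc hnr t)
  · rw [MonoidHom.comp_apply, show e.symm.toMonoidHom g = x t from e.symm_apply_eq.2 (Subtype.ext (by rw [hg]; rfl))]
    exact Lib.Chev.coe_xg hc hr t
  · rw [MonoidHom.comp_apply, show e.symm.toMonoidHom g = y t from e.symm_apply_eq.2 (Subtype.ext (by rw [hg]; rfl)), hneg]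
    exact Lib.Chev.coe_xg hc hnr t

end Cfsg.Agent.S1030
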