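import Cfsg.Statements.S1034
import Cfsg.Agent.Lib.Chev.All
import Cfsg.Agent.Lib.Chev.Misc


set_option autoImplicit false
open Cfsg

namespace Cfsg.Agent.S1034

/-- Every element of `H` is a product `h_{p_1}(c_1) ⋯ h_{p_l}(c_l)` over the fundamental roots, with non-zero `c_i`. -/
theorem result {F : Type*} [Field F] (D : Cfsg.Lie.ChevalleyDatum) (hD : D ∈ [Cfsg.Lie.chevG2, Cfsg.Lie.chevB2, Cfsg.Lie.chevD4, Cfsg.Lie.chevF4, Cfsg.Lie.chevE6, Cfsg.Lie.chevE7, Cfsg.Lie.chevE8]) (g : GL D.Idx F) (hg : g ∈ D.diagonalSubgroup F) :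
    ∃ c : ℕ → F, (∀ i < D.rank, c i ≠ 0) ∧
      (g : Matrix D.Idx D.Idx F) = D.wordMat F ((List.range D.rank).flatMap fun i => D.hWord (D.simple i) (c i)) := by
  obtain ⟨A, hc⟩ := Lib.Chev.certified_of_mem hD
  obtain ⟨c, rfl⟩ := (Lib.Chev.mem_H_iff hc).1 hg
  refine ⟨fun i => (c i : F), fun i _ => (c i).ne_zero, ?_⟩
  rw [Lib.Chev.torus_eq_prod hc, Lib.Chev.wordMat_flatMap,
    show (((List.range D.rank).map fun i => Lib.Chev.hg D A i (c i)).prod : GL D.Idx F).val =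
      Units.coeHom _ ((List.range D.rank).map fun i => Lib.Chev.hg D A i (c i)).prod from rfl,
    map_list_prod, List.map_map]
  congr 1
  refine List.map_congr_left fun i hi => ?_
  exact (Lib.Chev.hMat_simple hc (List.mem_range.1 hi) (c i))

end Cfsg.Agent.S1034
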