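import Cfsg.Statements.S1054
import Cfsg.Agent.Lib.Chev.PerfectData


set_option autoImplicit false
open Cfsg

namespace Cfsg.Agent.S1054

/-- The Chevalley groups of types D₄, F₄, E₆, E₇, E₈ are simple over every field. -/
theorem result {F : Type*} [Field F] (D : Cfsg.Lie.ChevalleyDatum)
    (hD : D ∈ [Cfsg.Lie.chevD4, Cfsg.Lie.chevF4, Cfsg.Lie.chevE6, Cfsg.Lie.chevE7, Cfsg.Lie.chevE8]) :
    IsSimpleGroup ↥(D.group F) ∧ ¬ IsMulCommutative ↥(D.group F) := by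
  simp only [List.mem_cons, List.not_mem_nil, or_false] at hD
  rcases hD with rfl | rfl | rfl | rfl | rfl
  exacts [
    Lib.Chev.simple_of_conn Lib.Chev.certD4 Lib.Chev.conn_D4 (Nat.succ_pos 3)
      (Lib.Chev.perfect_of_termsOK Lib.Chev.certD4 Lib.Chev.terms_D4),
    Lib.Chev.simple_of_conn Lib.Chev.certF4 Lib.Chev.conn_F4 (Nat.succ_pos 3)
      (Lib.Chev.perfect_of_termsOK Lib.Chev.certF4 Lib.Chev.terms_F4),
    Lib.Chev.simple_of_conn Lib.Chev.certE6 Lib.Chev.conn_E6 (Nat.succ_pos 5)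
      (Lib.Chev.perfect_of_termsOK Lib.Chev.certE6 Lib.Chev.terms_E6),
    Lib.Chev.simple_of_conn Lib.Chev.certE7 Lib.Chev.conn_E7 (Nat.succ_pos 6)
      (Lib.Chev.perfect_of_termsOK Lib.Chev.certE7 Lib.Chev.terms_E7),
    Lib.Chev.simple_of_conn Lib.Chev.certE8 Lib.Chev.conn_E8 (Nat.succ_pos 7)
      (Lib.Chev.perfect_of_termsOK Lib.Chev.certE8 Lib.Chev.terms_E8)]

end Cfsg.Agent.S1054
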