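import Cfsg.Statements.S1058
import Cfsg.Agent.Lib.Chev.CoverMap
import Cfsg.Agent.Lib.Chev.OrderData
-- import your own Cfsg.Agent.* helpers here

set_option autoImplicit false
open Cfsg

namespace Cfsg.Agent.S1058

/-- images of the root elements -/
private def img : List (Equiv.Perm (Fin 6)) :=
  [Equiv.swap 4 5, Equiv.swap 0 1 * Equiv.swap 2 3 * Equiv.swap 4 5, Equiv.swap 0 2 * Equiv.swap 1 3 * Equiv.swap 4 5,
   Equiv.swap 0 1, Equiv.swap 0 2, Equiv.swap 0 1 * Equiv.swap 2 5 * Equiv.swap 3 4,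
   Equiv.swap 0 2 * Equiv.swap 1 5 * Equiv.swap 3 4, Equiv.swap 3 4]

private def im (r : ℕ) (b : Bool) : Equiv.Perm (Fin 6) := if b then img.getD r 1 else 1

open Cfsg.Lie in
private theorem im_rel : ∀ r s : Fin 8, s ≠ r → (s : ℕ) ≠ Cfsg.Lib.Chev.negI chevB2 r → ∀ a b : Bool,
    (im s b)⁻¹ * (im r a)⁻¹ * im s b * im r a =
      ((chevB2.commTerms r s).map fun c => im c.1 (decide (c.2.1 % 2 ≠ 0) && a && b)).prod := by decide +kernel

private theorem im_add : ∀ r : Fin 8, ∀ a b : Bool, im r a * im r b = im r (xor a b) := by decide +kernel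

open Cfsg.Lie in
private theorem exps : ∀ r s : Fin 8, ∀ c ∈ chevB2.commTerms r s, 1 ≤ c.2.2.1 ∧ 1 ≤ c.2.2.2 := by decide +kernel


private theorem center6 : ∀ g : Equiv.Perm (Fin 6), (∀ i : Fin 5, g * Equiv.swap i.castSucc i.succ = Equiv.swap i.castSucc i.succ * g) → g = 1 := by decide +kernel

/-- B₂(2) ≅ S₆. -/
theorem result {F : Type*} [Field F] [Fintype F] (hF : Fintype.card F = 2) :
    Nonempty (↥(Cfsg.Lie.chevB2.group F) ≃* Equiv.Perm (Fin 6)) := by
  classical
  have hc := Lib.Chev.certB2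
  haveI : Fact (Nat.Prime 2) := ⟨Nat.prime_two⟩
  haveI : CharP F 2 := charP_of_card_eq_prime hF
  have h01 : ∀ t : F, t = 0 ∨ t = 1 := by
    intro t
    have : Finset.univ = ({0, 1} : Finset F) := (Finset.eq_univ_of_card _ (by rw [Finset.card_pair zero_ne_one, hF])).symm
    have h := Finset.mem_univ t
    rw [this] at h; simpa using h
  let bt : F → Bool := fun t => decide (t = 1)
  have hne : (0 : F) ≠ 1 := zero_ne_one
  have h2 : (1 : F) + 1 = 0 := CharTwo.add_self_eq_zero 1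
  let f : ℕ → F → Equiv.Perm (Fin 6) := fun r t => im r (bt t)
  obtain ⟨ψ, hψ⟩ := Lib.Chev.CoverStruct.exists_hom (D := Cfsg.Lie.chevB2) f
    (fun r t u hr => by
      have hx := im_add ⟨r, hr⟩ (bt t) (bt u)
      have e : bt (t + u) = xor (bt t) (bt u) := by
        rcases h01 t with rfl | rfl <;> rcases h01 u with rfl | rfl <;> simp [bt, hne, h2]
      simp only [f, e]
      exact hx)
    (fun r s t u hr hs n1 n2 => by
      rw [Lib.Chev.neg_eq hc hr] at n2
      have hx := im_rel ⟨r, hr⟩ ⟨s, hs⟩ (fun e => n1 (congrArg Fin.val e)) n2 (bt t) (bt u)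
      simp only [f, Cfsg.Lie.ChevalleyDatum.commWord, List.map_map]
      refine hx.trans ?_
      congr 1
      refine List.map_congr_left fun c hc' => ?_
      obtain ⟨e1, e2⟩ := exps ⟨r, hr⟩ ⟨s, hs⟩ c hc'
      simp only [Function.comp_apply]
      congr 1
      have hC : (c.2.1 : F) = if c.2.1 % 2 ≠ 0 then 1 else 0 := by
        rcases Int.emod_two_eq_zero_or_one c.2.1 with h | h
        · rw [if_neg (by simp [h])]; exact (CharP.intCast_eq_zero_iff F 2 _).2 (Int.dvd_of_emod_eq_zero (by simpa using h))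
        · rw [if_pos (by simp [h])]
          conv_lhs => rw [← Int.emod_add_mul_ediv c.2.1 2, h]
          simp [CharTwo.two_eq_zero]
      rw [hC]
      rcases h01 t with rfl | rfl <;> rcases h01 u with rfl | rfl <;>
        simp [bt, CharTwo.neg_eq, zero_pow (Nat.one_le_iff_ne_zero.1 e1), zero_pow (Nat.one_le_iff_ne_zero.1 e2), hne] <;>
        split <;> simp_all)
    (fun r s t u hr hs => Lib.Chev.CoverStruct.word_lt hc t u hr hs)
  have hgen : ∀ r, r < 8 → img.getD r 1 ∈ ψ.range := fun r hr =>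
    ⟨Lib.Chev.CoverStruct.X Cfsg.Lie.chevB2 r (1 : F), by rw [hψ r 1 hr]; simp [f, im, bt]⟩
  have hsurj : Function.Surjective ψ := by
    rw [← MonoidHom.range_eq_top]
    have g01 : Equiv.swap (0 : Fin 6) 1 ∈ ψ.range := hgen 3 (by norm_num)
    have g02 : Equiv.swap (0 : Fin 6) 2 ∈ ψ.range := hgen 4 (by norm_num)
    have g34 : Equiv.swap (3 : Fin 6) 4 ∈ ψ.range := hgen 7 (by norm_num)
    have g45 : Equiv.swap (4 : Fin 6) 5 ∈ ψ.range := hgen 0 (by norm_num)
    have g13 : Equiv.swap (1 : Fin 6) 3 ∈ ψ.range := by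
      have e : Equiv.swap (1 : Fin 6) 3 = Equiv.swap 0 2 * img.getD 2 1 * Equiv.swap 4 5 := by decide +kernel
      rw [e]; exact mul_mem (mul_mem g02 (hgen 2 (by norm_num))) g45
    have g12 : Equiv.swap (1 : Fin 6) 2 ∈ ψ.range := by
      have e : Equiv.swap (1 : Fin 6) 2 = Equiv.swap 0 1 * Equiv.swap 0 2 * Equiv.swap 0 1 := by decide +kernel
      rw [e]; exact mul_mem (mul_mem g01 g02) g01
    have g23 : Equiv.swap (2 : Fin 6) 3 ∈ ψ.range := by
      have e : Equiv.swap (2 : Fin 6) 3 = Equiv.swap 1 2 * Equiv.swap 1 3 * Equiv.swap 1 2 := by decide +kernel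
      rw [e]; exact mul_mem (mul_mem g12 g13) g12
    have hm := Equiv.Perm.mclosure_swap_castSucc_succ 5
    rw [eq_top_iff]
    intro x _
    have : x ∈ Submonoid.closure (Set.range fun i : Fin 5 => Equiv.swap i.castSucc i.succ) := by rw [hm]; trivial
    refine (Submonoid.closure_le (S := ψ.range.toSubmonoid)).2 ?_ this
    rintro _ ⟨i, rfl⟩
    fin_cases i
    exacts [g01, g12, g23, g34, g45]
  let q := Lib.Chev.CoverStruct.thetaG (K := F) hc
  have hq : Function.Surjective q := Lib.Chev.CoverStruct.thetaG_surjective hc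
  have hker : q.ker ≤ ψ.ker := fun x hx => by
    have hcen := Lib.Chev.CoverStruct.ker_le_center hc Lib.Chev.CoverStruct.linkB2 (congrArg Subtype.val (MonoidHom.mem_ker.1 hx))
    refine MonoidHom.mem_ker.2 ?_
    have h6 : ψ x ∈ Subgroup.center (Equiv.Perm (Fin 6)) := Subgroup.mem_center_iff.2 fun y => by
      obtain ⟨z, rfl⟩ := hsurj y
      rw [← map_mul, ← map_mul, Subgroup.mem_center_iff.1 hcen]
    exact center6 _ fun i => (Subgroup.mem_center_iff.1 h6 _).symm
  let α : ↥(Cfsg.Lie.chevB2.group F) →* Equiv.Perm (Fin 6) := q.liftOfSurjective hq ⟨ψ, hker⟩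
  have hα : Function.Surjective α := fun y => by
    obtain ⟨x, rfl⟩ := hsurj y
    exact ⟨q x, MonoidHom.liftOfRightInverse_comp_apply q _ (Function.surjInv_eq hq) ⟨ψ, hker⟩ x⟩
  have hcard : Nat.card ↥(Cfsg.Lie.chevB2.group F) = 720 := by
    have h := Lib.Chev.card_group_formula (F := F) hc Lib.Chev.steps_B2 Lib.Chev.poly_B2 Lib.Chev.tor_B2
    rw [hF] at h
    rw [show (2 : ℕ) ^ (Cfsg.Lie.chevB2.nroots / 2) = 16 from by decide +kernel] at h
    simpa [Lib.Chev.degB2, Lib.Chev.torB2] using h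
  have : Finite ↥(Cfsg.Lie.chevB2.group F) := Nat.finite_of_card_ne_zero (by rw [hcard]; norm_num)
  exact ⟨MulEquiv.ofBijective α ((Nat.bijective_iff_surjective_and_card α).2 ⟨hα, by rw [hcard, Nat.card_perm, Nat.card_fin]; rfl⟩)⟩

end Cfsg.Agent.S1058
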