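import Cfsg.Statements.S1065
import Cfsg.Agent.Lib.Chev.CoxeterData


set_option autoImplicit false
open Cfsg

namespace Cfsg.Agent.S1065

/-- `|E₈(q)| = q¹²⁰ ∏_{d ∈ {2,8,12,14,18,20,24,30}} (q^d - 1)`. -/
theorem result {F : Type*} [Field F] [Fintype F] {q : ℕ} (hq : Fintype.card F = q) : Nat.card ↥(Cfsg.Lie.chevE8.group F) = q ^ 120 * (q ^ 2 - 1) * (q ^ 8 - 1) * (q ^ 12 - 1) * (q ^ 14 - 1) * (q ^ 18 - 1) * (q ^ 20 - 1) * (q ^ 24 - 1) * (q ^ 30 - 1) := by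
  have h := Lib.Chev.card_group_formula (F := F) Lib.Chev.certE8 Lib.Chev.steps_E8 Lib.Chev.poly_E8
    Lib.Chev.tor_E8
  simp [Lib.Chev.torE8, Lib.Chev.degE8, hq, Nat.gcd_comm (q - 1), show Lie.chevE8.nroots = 240 from rfl] at h
  rw [h]; ring

end Cfsg.Agent.S1065
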