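import Cfsg.Statements.S1077
import Cfsg.Agent.Lib.Chev.CoverMap
-- import your own Cfsg.Agent.* helpers here

set_option autoImplicit false
open Cfsg

namespace Cfsg.Agent.S1077

/-- Steinberg's Theorem: there is a homomorphism `x̄_r(t) ↦ x_r(t)` from the presented group onto the Chevalley group whose kernel is precisely the centre; hence `L(K) ≅ Ḡ/Z(Ḡ)`. -/
theorem result {K : Type*} [Field K] (D : Cfsg.Lie.ChevalleyDatum) (hD : D ∈ [Cfsg.Lie.chevG2, Cfsg.Lie.chevB2, Cfsg.Lie.chevD4, Cfsg.Lie.chevF4, Cfsg.Lie.chevE6, Cfsg.Lie.chevE7, Cfsg.Lie.chevE8]) :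
    ∃ θ : D.SteinbergGroup K →* ↥(D.group K), Function.Surjective θ ∧ θ.ker = Subgroup.center (D.SteinbergGroup K) ∧
      ∀ (r : ℕ) (t : K), r < D.nroots → ((θ (D.stGen K r t) : GL D.Idx K) : Matrix D.Idx D.Idx K) = D.x K r t := by
  obtain ⟨A, hc, hl⟩ := Lib.Chev.CoverStruct.linked_of_mem hD
  let f : Fin D.nroots × K → GL D.Idx K := fun p => Lib.Chev.xg D K p.1 p.2
  have hlift : ∀ w, FreeGroup.lift f w = Lib.Chev.CoverStruct.theta hc (PresentedGroup.mk (D.steinbergRelsAB K) w) := by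
    intro w
    refine DFunLike.congr_fun (g := (Lib.Chev.CoverStruct.theta hc).comp (PresentedGroup.mk (D.steinbergRelsAB K))) ?_ w
    refine FreeGroup.ext_hom _ _ fun x => ?_
    obtain ⟨⟨r, hr⟩, t⟩ := x
    rw [FreeGroup.lift_apply_of]
    exact ((congrArg (Lib.Chev.CoverStruct.theta hc) (Lib.Chev.CoverStruct.X_eq hr t).symm).trans
      (Lib.Chev.CoverStruct.theta_X hc hr t)).symm
  have hrel : ∀ g ∈ D.steinbergRels K, FreeGroup.lift f g = 1 := by
    rintro g (hg | ⟨r, t₁, t₂, hr, h1, h2, rfl⟩)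
    · rw [hlift]
      exact (congrArg _ (PresentedGroup.one_of_mem (rels := D.steinbergRelsAB K) hg)).trans (map_one _)
    · rw [hlift]
      simp only [map_mul, map_inv]
      have hH : ∀ t : Kˣ, Lib.Chev.CoverStruct.theta hc (PresentedGroup.mk (D.steinbergRelsAB K) (D.stH r (t : K))) =
          Lib.Chev.hr' D A r t := fun t => by
        rw [← Lib.Chev.ngen_mul_ngen_root hc hr, ← hlift]
        simp [f, Cfsg.Lie.ChevalleyDatum.stH, Cfsg.Lie.ChevalleyDatum.stWord, Cfsg.Lie.ChevalleyDatum.hWord, Cfsg.Lie.ChevalleyDatum.nWord, Cfsg.Lie.ChevalleyDatum.stX,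
          hr, Lib.Chev.neg_eq hc hr, Lib.Chev.negI_lt hr, Lib.Chev.ngen, mul_assoc]
      rw [← Units.val_mk0 h1, ← Units.val_mk0 h2, ← Units.val_mul, hH, hH, hH, Lib.Chev.hr', Lib.Chev.hr', Lib.Chev.hr',
        Lib.Chev.dg_mul, mul_inv_eq_one]
      exact Lib.Chev.dg_eq_iff.2 fun s _ => by simp [mul_zpow]
  have hval : ∀ g, PresentedGroup.toGroup hrel (Lib.Chev.CoverStruct.toSt D K g) = Lib.Chev.CoverStruct.theta hc g := by
    intro g
    refine DFunLike.congr_fun (Lib.Chev.CoverStruct.hom_ext (f := (PresentedGroup.toGroup hrel).comp (Lib.Chev.CoverStruct.toSt D K)) fun r hr t => ?_) g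
    rw [MonoidHom.comp_apply, Lib.Chev.CoverStruct.toSt_X, Lib.Chev.CoverStruct.theta_X hc hr]
    simp only [Cfsg.Lie.ChevalleyDatum.stGen, Cfsg.Lie.ChevalleyDatum.stX, dif_pos hr]
    exact PresentedGroup.toGroup.of hrel
  have hmem : ∀ g, PresentedGroup.toGroup hrel g ∈ D.group K := fun g => by
    obtain ⟨g, rfl⟩ := Lib.Chev.CoverStruct.toSt_surjective g
    rw [hval]; exact Lib.Chev.CoverStruct.theta_mem hc g
  let θ : D.SteinbergGroup K →* ↥(D.group K) := (PresentedGroup.toGroup hrel).codRestrict _ hmem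
  have hθ : ∀ g, θ (Lib.Chev.CoverStruct.toSt D K g) = Lib.Chev.CoverStruct.thetaG hc g := fun g => Subtype.ext (hval g)
  have hsurj : Function.Surjective θ := fun y => by
    obtain ⟨x, hx⟩ := Lib.Chev.CoverStruct.thetaG_surjective hc y
    exact ⟨_, (hθ x).trans hx⟩
  refine ⟨θ, hsurj, le_antisymm (fun g hg => ?_) (fun g hg => ?_), fun r t hr => ?_⟩
  · obtain ⟨x, rfl⟩ := Lib.Chev.CoverStruct.toSt_surjective g
    have h1 : Lib.Chev.CoverStruct.thetaG hc x = 1 := (hθ x).symm.trans (MonoidHom.mem_ker.1 hg)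
    have hx := Subgroup.mem_center_iff.1 (Lib.Chev.CoverStruct.ker_le_center hc hl (congrArg Subtype.val h1))
    refine Subgroup.mem_center_iff.2 fun b => ?_
    obtain ⟨y, rfl⟩ := Lib.Chev.CoverStruct.toSt_surjective b
    rw [← map_mul, ← map_mul, hx]
  · refine MonoidHom.mem_ker.2 (Lib.Chev.CoverStruct.group_center_eq_one hc (Subgroup.mem_center_iff.2 fun b => ?_))
    obtain ⟨y, rfl⟩ := hsurj b
    rw [← map_mul, ← map_mul, Subgroup.mem_center_iff.1 hg]
  · rw [← Lib.Chev.CoverStruct.toSt_X, hθ, Lib.Chev.CoverStruct.thetaG_val, Lib.Chev.CoverStruct.theta_X hc hr,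
      Lib.Chev.coe_xg hc hr]

end Cfsg.Agent.S1077
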