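import Cfsg.Statements.S1078
import Cfsg.Agent.Lib.Chev.CoverMap
import Cfsg.Agent.S1077
-- import your own Cfsg.Agent.* helpers here

set_option autoImplicit false
open Cfsg

namespace Cfsg.Agent.S1078

open Cfsg.Lie Cfsg.Lib.Chev in
/-- an integral inverse of the Cartan matrix -/
private def invOK (D : ChevalleyDatum) (A : Aux) (B : List (List ℤ)) : Bool :=
  allB D.rank fun m => allB D.rank fun k =>
    decide ((((List.range D.rank).map fun s => (B.getD m []).getD s 0 * A.cA k (D.simple s)).sum) = if k = m then 1 else 0)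

open Cfsg.Lie Cfsg.Lib.Chev in
private theorem uni_of_mem {D : ChevalleyDatum} (hD : D ∈ [chevG2, chevF4, chevE8]) :
    ∃ (A : Aux) (B : List (List ℤ)), Cert D A ∧ CoverStruct.linkOK D A = true ∧ invOK D A B = true := by
  simp only [List.mem_cons, List.not_mem_nil, or_false] at hD
  rcases hD with rfl | rfl | rfl
  · exact ⟨_, [[2, 1], [3, 2]], certG2, CoverStruct.linkG2, by decide +kernel⟩
  · exact ⟨_, [[2, 3, 2, 1], [3, 6, 4, 2], [4, 8, 6, 3], [2, 4, 3, 2]], certF4, CoverStruct.linkF4, by decide +kernel⟩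
  · exact ⟨_, [[4, 5, 7, 10, 8, 6, 4, 2], [5, 8, 10, 15, 12, 9, 6, 3], [7, 10, 14, 20, 16, 12, 8, 4], [10, 15, 20, 30, 24, 18, 12, 6], [8, 12, 16, 24, 20, 15, 10, 5], [6, 9, 12, 18, 15, 12, 8, 4], [4, 6, 8, 12, 10, 8, 6, 3], [2, 3, 4, 6, 5, 4, 3, 2]], certE8, CoverStruct.linkE8, by decide +kernel⟩


/-- For G₂, F₄, E₈ the presented group has trivial centre (the universal and adjoint groups coincide). -/
theorem result {K : Type*} [Field K] (D : Cfsg.Lie.ChevalleyDatum) (hD : D ∈ [Cfsg.Lie.chevG2, Cfsg.Lie.chevF4, Cfsg.Lie.chevE8]) :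
    Subgroup.center (D.SteinbergGroup K) = ⊥ := by
  classical
  obtain ⟨A, B, hc, hl, hB⟩ := uni_of_mem hD
  have hD7 : D ∈ [Cfsg.Lie.chevG2, Cfsg.Lie.chevB2, Cfsg.Lie.chevD4, Cfsg.Lie.chevF4, Cfsg.Lie.chevE6, Cfsg.Lie.chevE7, Cfsg.Lie.chevE8] := by
    simp only [List.mem_cons, List.not_mem_nil, or_false] at hD ⊢
    tauto
  obtain ⟨θ, -, hker, hθ⟩ := Cfsg.Agent.S1077.result (K := K) D hD7
  let q := Lib.Chev.CoverStruct.toSt D K
  have hθq : ∀ x, (θ (q x) : GL D.Idx K) = Lib.Chev.CoverStruct.theta hc x := by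
    intro x
    refine DFunLike.congr_fun (Lib.Chev.CoverStruct.hom_ext (f := (Subgroup.subtype _).comp (θ.comp q))
      (g := Lib.Chev.CoverStruct.theta hc) fun r hr t => ?_) x
    refine Units.ext ?_
    simp only [MonoidHom.comp_apply, q, Lib.Chev.CoverStruct.toSt_X, Subgroup.coe_subtype]
    rw [hθ r t hr, Lib.Chev.CoverStruct.theta_X hc hr, Lib.Chev.coe_xg hc hr]
  have hst : ∀ (i : Fin D.rank) (t : Kˣ), q (Lib.Chev.CoverStruct.N D i (t : K) * (Lib.Chev.CoverStruct.N D i (1 : K))⁻¹) =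
      PresentedGroup.mk (D.steinbergRels K) (D.stH (D.simple i) (t : K)) := fun i t => by
    rw [← Lib.Chev.CoverStruct.toSt_mk, Lib.Chev.CoverStruct.stH_eq hc i.2, Lib.Chev.CoverStruct.N_neg hc i.2]
  let φ : Fin D.rank → (Kˣ →* D.SteinbergGroup K) := fun i => MonoidHom.mk'
    (fun t => q (Lib.Chev.CoverStruct.N D i (t : K) * (Lib.Chev.CoverStruct.N D i (1 : K))⁻¹)) fun t u => by
      rw [hst, hst, hst, Units.val_mul]
      refine (mul_inv_eq_one.1 ?_).symm
      rw [← map_mul, ← map_inv, ← map_mul]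
      exact PresentedGroup.one_of_mem (Or.inr ⟨D.simple i, t, u, Lib.Chev.simple_lt hc i.2, t.ne_zero, u.ne_zero, rfl⟩)
  have hcomm : Pairwise fun i j => ∀ t u, Commute (φ i t) (φ j u) := by
    intro i j _ t u
    have hh := Lib.Chev.CoverStruct.hN_mem (D := D) (K := K) i.2 t
    obtain ⟨f, hf, -, hact⟩ := Lib.Chev.CoverStruct.HB_conj_exact hc hl hh
    set h := Lib.Chev.CoverStruct.N D i (t : K) * (Lib.Chev.CoverStruct.N D i (1 : K))⁻¹
    have hs := Lib.Chev.simple_lt hc j.2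
    have hN : ∀ v : Kˣ, h * Lib.Chev.CoverStruct.N D j (v : K) * h⁻¹ =
        Lib.Chev.CoverStruct.N D j ((f (D.simple j) * v : Kˣ) : K) := fun v => by
      have a := hact _ hs (v : K)
      have b := hact _ (Lib.Chev.negI_lt hs) (-(v : K)⁻¹)
      rw [hf.neg _ hs] at b
      rw [show (((f (D.simple j))⁻¹ : Kˣ) : K) * -(v : K)⁻¹ = -((f (D.simple j) * v : Kˣ) : K)⁻¹ by
        rw [Units.val_inv_eq_inv_val, Units.val_mul, mul_inv]; ring] at b
      calc _ = (h * Lib.Chev.CoverStruct.X D (D.simple j) (v : K) * h⁻¹) *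
            ((h * Lib.Chev.CoverStruct.X D (Lib.Chev.negI D (D.simple j)) (-(v : K)⁻¹) * h⁻¹) *
              (h * Lib.Chev.CoverStruct.X D (D.simple j) (v : K) * h⁻¹)) := by rw [Lib.Chev.CoverStruct.N]; group
        _ = _ := by rw [a, b, Units.val_mul]; rfl
    have e : h * (Lib.Chev.CoverStruct.N D j (u : K) * (Lib.Chev.CoverStruct.N D j ((1 : Kˣ) : K))⁻¹) * h⁻¹ =
        Lib.Chev.CoverStruct.N D j ((f (D.simple j) * u : Kˣ) : K) * (Lib.Chev.CoverStruct.N D j ((f (D.simple j) : Kˣ) : K))⁻¹ := by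
      rw [← hN u]
      have := hN 1
      rw [mul_one] at this
      rw [← this]; group
    have e2 : Lib.Chev.CoverStruct.N D j ((f (D.simple j) * u : Kˣ) : K) * (Lib.Chev.CoverStruct.N D j ((f (D.simple j) : Kˣ) : K))⁻¹ =
        (Lib.Chev.CoverStruct.N D j ((f (D.simple j) * u : Kˣ) : K) * (Lib.Chev.CoverStruct.N D j (1 : K))⁻¹) *
        (Lib.Chev.CoverStruct.N D j ((f (D.simple j) : Kˣ) : K) * (Lib.Chev.CoverStruct.N D j (1 : K))⁻¹)⁻¹ := by group
    rw [Units.val_one, e2] at e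
    have e3 := congrArg q e
    simp only [map_mul q h, map_inv q h, map_mul q (h * _)] at e3
    rw [map_mul q _ ((_ : D.SteinbergCover K) * _)⁻¹, map_inv] at e3
    change φ i t * φ j u * (φ i t)⁻¹ = φ j (f (D.simple j) * u) * (φ j (f (D.simple j)))⁻¹ at e3
    rw [map_mul] at e3
    exact mul_inv_eq_iff_eq_mul.1 (e3.trans (by rw [← map_mul, mul_comm (f (D.simple j)) u, map_mul, mul_inv_cancel_right]))
  let Φ := MonoidHom.noncommPiCoprod φ hcomm
  let ext' : (Fin D.rank → Kˣ) →* (ℕ → Kˣ) :=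
    { toFun := fun c k => if hk : k < D.rank then c ⟨k, hk⟩ else 1
      map_one' := by funext k; simp
      map_mul' := fun a b => by funext k; by_cases hk : k < D.rank <;> simp [hk] }
  have hval : (Subgroup.subtype _).comp (θ.comp Φ) = (Lib.Chev.torusHom D A K).comp ext' := by
    refine MonoidHom.pi_ext fun i t => ?_
    simp only [MonoidHom.comp_apply, Φ, MonoidHom.noncommPiCoprod_mulSingle, Subgroup.coe_subtype, φ, MonoidHom.mk'_apply, hθq]
    rw [map_mul, map_inv, Lib.Chev.CoverStruct.theta_N hc i.2, Lib.Chev.CoverStruct.theta_N hc i.2,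
      ← Lib.Chev.ngen_neg hc (Lib.Chev.simple_lt hc i.2), Lib.Chev.ngen_mul_ngen hc i.2, Lib.Chev.hg_eq_torus hc i.2]
    congr 1
    funext k
    by_cases hk : k < D.rank
    · by_cases he : k = i
      · subst he; simp [ext', hk]
      · simp [ext', hk, he, Fin.ext_iff, Pi.mulSingle_apply, Function.update_apply]
    · have he : k ≠ (i : ℕ) := fun e => hk (e ▸ i.2)
      simp [ext', hk, he, Function.update_apply]
  rw [eq_bot_iff]
  intro g hg
  rw [← hker, MonoidHom.mem_ker] at hg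
  obtain ⟨x, rfl⟩ := Lib.Chev.CoverStruct.toSt_surjective g
  have hx : Lib.Chev.CoverStruct.theta hc x = 1 := by rw [← hθq]; simp [q, hg]
  have hmem : q x ∈ Φ.range := by
    refine (((Subgroup.closure_le (Φ.range.comap q)).2 ?_) (Lib.Chev.CoverStruct.ker_le_HB hc hl hx) : _)
    rintro _ ⟨i, t, hi, rfl⟩
    exact ⟨Pi.mulSingle ⟨i, hi⟩ t, MonoidHom.noncommPiCoprod_mulSingle φ (⟨i, hi⟩ : Fin D.rank) t⟩
  obtain ⟨c, hcx⟩ := hmem
  have h1 : Lib.Chev.torusHom D A K (ext' c) = Lib.Chev.torusHom D A K 1 := by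
    rw [map_one, ← hx, ← hθq, ← hcx]
    exact (DFunLike.congr_fun hval c).symm
  have hone : ∀ s < D.rank, ∏ k ∈ Finset.range D.rank, ext' c k ^ A.cA k (D.simple s) = 1 := fun s hs => by
    have := Lib.Chev.dg_eq_iff.1 h1 (D.simple s) (Lib.Chev.simple_lt hc hs)
    simpa [Lib.Chev.torusVal] using this
  have hc1 : c = 1 := by
    funext m
    have hinv : ∀ k < D.rank, ∑ s ∈ Finset.range D.rank, (B.getD m []).getD s 0 * A.cA k (D.simple s) = if k = (m : ℕ) then 1 else 0 := fun k hk => by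
      have := Lib.Chev.allB_iff.1 (Lib.Chev.allB_iff.1 hB m m.2) k hk
      rw [decide_eq_true_eq] at this
      rw [← this, ← List.toFinset_range, List.sum_toFinset _ List.nodup_range]
    have hd : ∀ (a : Kˣ) (f : ℕ → ℤ) (S : Finset ℕ), a ^ (∑ s ∈ S, f s) = ∏ s ∈ S, a ^ f s := fun a f S => by
      induction S using Finset.induction_on with
      | empty => simp
      | insert x S hx ih => rw [Finset.sum_insert hx, Finset.prod_insert hx, zpow_add, ih]
    calc c m = ∏ k ∈ Finset.range D.rank, ext' c k ^ (if k = (m : ℕ) then (1 : ℤ) else 0) := by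
          rw [Finset.prod_eq_single (m : ℕ)]
          · simp [ext', m.2]
          · intro k _ hne; simp [hne]
          · intro h; exact absurd (Finset.mem_range.2 m.2) h
      _ = ∏ k ∈ Finset.range D.rank, ∏ s ∈ Finset.range D.rank, ext' c k ^ ((B.getD m []).getD s 0 * A.cA k (D.simple s)) :=
          Finset.prod_congr rfl fun k hk => by rw [← hd, hinv k (Finset.mem_range.1 hk)]
      _ = ∏ s ∈ Finset.range D.rank, (∏ k ∈ Finset.range D.rank, ext' c k ^ A.cA k (D.simple s)) ^ (B.getD m []).getD s 0 := by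
          rw [Finset.prod_comm]
          refine Finset.prod_congr rfl fun s _ => ?_
          rw [← Finset.prod_zpow]
          exact Finset.prod_congr rfl fun k _ => by rw [← zpow_mul, mul_comm]
      _ = 1 := Finset.prod_eq_one fun s hs => by rw [hone s (Finset.mem_range.1 hs), one_zpow]
  rw [Subgroup.mem_bot]
  show q x = 1
  rw [← hcx, hc1, map_one]

end Cfsg.Agent.S1078
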