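import Cfsg.Statements.S1097
import Cfsg.Agent.Lib.Chev.CoverMap
-- import your own Cfsg.Agent.* helpers here

set_option autoImplicit false
open Cfsg

namespace Cfsg.Agent.S1097

/-- Any homomorphism from the presented group to the Chevalley group with `x̄_r(t) ↦ x_r(t)` has kernel contained in `H̄ = ⟨h̄_p(t) : p fundamental, t ≠ 0⟩`. -/
theorem result {K : Type*} [Field K] (D : Cfsg.Lie.ChevalleyDatum) (hD : D ∈ [Cfsg.Lie.chevG2, Cfsg.Lie.chevB2, Cfsg.Lie.chevD4, Cfsg.Lie.chevF4, Cfsg.Lie.chevE6, Cfsg.Lie.chevE7, Cfsg.Lie.chevE8]) (θ : D.SteinbergGroup K →* ↥(D.group K))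
    (hθ : ∀ (r : ℕ) (t : K), r < D.nroots → ((θ (D.stGen K r t) : GL D.Idx K) : Matrix D.Idx D.Idx K) = D.x K r t) :
    θ.ker ≤ Subgroup.closure {h | ∃ (i : ℕ) (t : K), i < D.rank ∧ t ≠ 0 ∧ h = PresentedGroup.mk (D.steinbergRels K) (D.stH (D.simple i) t)} := by
  obtain ⟨A, hc, hl⟩ := Lib.Chev.CoverStruct.linked_of_mem hD
  intro g hg
  obtain ⟨g, rfl⟩ := Lib.Chev.CoverStruct.toSt_surjective g
  have he : θ.comp (Lib.Chev.CoverStruct.toSt D K) = Lib.Chev.CoverStruct.thetaG hc :=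
    Lib.Chev.CoverStruct.hom_ext fun r hr t => by
      refine Subtype.ext (Units.ext ?_)
      rw [MonoidHom.comp_apply, Lib.Chev.CoverStruct.toSt_X, hθ r t hr, Lib.Chev.CoverStruct.thetaG_val,
        Lib.Chev.CoverStruct.theta_X hc hr, Lib.Chev.coe_xg hc hr]
  have h1 : Lib.Chev.CoverStruct.thetaG hc g = 1 := (DFunLike.congr_fun he g).symm.trans (MonoidHom.mem_ker.1 hg)
  exact Lib.Chev.CoverStruct.HB_le_stH hc (Lib.Chev.CoverStruct.ker_le_HB hc hl (congrArg Subtype.val h1))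

end Cfsg.Agent.S1097
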