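import Cfsg.Statements.S1098
import Cfsg.Agent.Lib.Chev.IsogenyAuto
-- import your own Cfsg.Agent.* helpers here

set_option autoImplicit false
open Cfsg

namespace Cfsg.Agent.S1098

open Cfsg.Lie Cfsg.Lib.Chev in
private theorem ok_B2 : IsogenyAuto.isoOK chevB2 2 [1, 0, 3, 2, 5, 4, 7, 6] [1, 2, 2, 1, 1, 2, 2, 1] = true := by decide +kernel

open Cfsg.Lie Cfsg.Lib.Chev in
private theorem ok_F4 : IsogenyAuto.isoOK chevF4 2 [3, 7, 8, 0, 9, 11, 18, 1, 2, 4, 15, 5, 16, 21, 23, 10, 12, 19, 6, 17, 22, 13, 20, 14, 33, 27, 34, 25, 30, 41, 28, 35, 37, 24, 26, 31, 42, 32, 43, 45, 46, 29, 36, 38, 47, 39, 40, 44]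
    [1, 1, 1, 2, 1, 1, 1, 2, 2, 2, 2, 2, 2, 2, 2, 1, 1, 1, 2, 2, 2, 1, 1, 1, 1, 1, 1, 2, 2, 2, 1, 1, 1, 2, 2, 2, 2, 2, 2, 2, 2, 1, 1, 1, 2, 1, 1, 1] = true := by decide +kernel


/-- Graph automorphisms in characteristic 2 (K perfect): for B₂ (a short, b long) `x_a(t) ↦ x_b(t²)`, `x_b(t) ↦ x_a(t)`, and for F₄ (p₁, p₂ short, p₃, p₄ long) `x_{p₁}(t) ↦ x_{p₄}(t²)`, `x_{p₂}(t) ↦ x_{p₃}(t²)`, `x_{p₃}(t) ↦ x_{p₂}(t)`, `x_{p₄}(t) ↦ x_{p₁}(t)`, likewise on the negatives, extend to an automorphism of the group. -/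
theorem result {K : Type*} [Field K] [CharP K 2] (hperf : ∀ x : K, ∃ y : K, y ^ 2 = x)
    (p : Cfsg.Lie.ChevalleyDatum × List (ℕ × ℕ))
    (hp : p ∈ [(Cfsg.Lie.chevB2, [(1, 2), (0, 1)]), (Cfsg.Lie.chevF4, [(3, 2), (2, 2), (1, 1), (0, 1)])]) :
    ∃ α : ↥(p.1.group K) ≃* ↥(p.1.group K), ∀ (g : ↥(p.1.group K)) (i : ℕ) (t : K), i < p.1.rank →
      (((g : GL p.1.Idx K) : Matrix p.1.Idx p.1.Idx K) = p.1.x K (p.1.simple i) t →
        ((α g : GL p.1.Idx K) : Matrix p.1.Idx p.1.Idx K) = p.1.x K (p.1.simple (p.2.getD i (0, 1)).1) (t ^ (p.2.getD i (0, 1)).2)) ∧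
      (((g : GL p.1.Idx K) : Matrix p.1.Idx p.1.Idx K) = p.1.x K (p.1.neg (p.1.simple i)) t →
        ((α g : GL p.1.Idx K) : Matrix p.1.Idx p.1.Idx K) = p.1.x K (p.1.neg (p.1.simple (p.2.getD i (0, 1)).1)) (t ^ (p.2.getD i (0, 1)).2)) := by
  haveI : Fact (Nat.Prime 2) := ⟨Nat.prime_two⟩
  simp only [List.mem_cons, List.not_mem_nil, or_false] at hp
  rcases hp with rfl | rfl
  · have hc := Lib.Chev.certB2
    obtain ⟨α, hα⟩ := Lib.Chev.IsogenyAuto.exists_iso_aut (K := K) hc Lib.Chev.CoverStruct.linkB2 hperf ok_B2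
    refine ⟨α, fun g i t hi => ?_⟩
    have h1 := Lib.Chev.simple_lt hc hi
    rw [Lib.Chev.neg_eq hc h1]
    constructor <;> intro hg
    · rw [hα g _ t h1 ((Lib.Chev.eq_xg hc h1).1 hg)]
      have : i < 2 := hi
      interval_cases i <;> exact Lib.Chev.coe_xg hc (by decide +kernel) _
    · rw [hα g _ t (Lib.Chev.negI_lt h1) ((Lib.Chev.eq_xg hc (Lib.Chev.negI_lt h1)).1 hg)]
      have : i < 2 := hi
      interval_cases i <;> exact Lib.Chev.coe_xg hc (by decide +kernel) _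
  · have hc := Lib.Chev.certF4
    obtain ⟨α, hα⟩ := Lib.Chev.IsogenyAuto.exists_iso_aut (K := K) hc Lib.Chev.CoverStruct.linkF4 hperf ok_F4
    refine ⟨α, fun g i t hi => ?_⟩
    have h1 := Lib.Chev.simple_lt hc hi
    rw [Lib.Chev.neg_eq hc h1]
    constructor <;> intro hg
    · rw [hα g _ t h1 ((Lib.Chev.eq_xg hc h1).1 hg)]
      have : i < 4 := hi
      interval_cases i <;> exact Lib.Chev.coe_xg hc (by decide +kernel) _
    · rw [hα g _ t (Lib.Chev.negI_lt h1) ((Lib.Chev.eq_xg hc (Lib.Chev.negI_lt h1)).1 hg)]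
      have : i < 4 := hi
      interval_cases i <;> exact Lib.Chev.coe_xg hc (by decide +kernel) _

end Cfsg.Agent.S1098
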