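import Cfsg.Statements.S1099
import Cfsg.Agent.Lib.Chev.IsogenyAuto
-- import your own Cfsg.Agent.* helpers here

set_option autoImplicit false
open Cfsg

namespace Cfsg.Agent.S1099

open Cfsg.Lie Cfsg.Lib.Chev in
private theorem ok_G2 : IsogenyAuto.isoOK chevG2 3 [2, 3, 0, 1, 5, 4, 7, 6, 10, 11, 8, 9] [1, 1, 3, 3, 3, 1, 1, 3, 3, 3, 1, 1] = true := by decide +kernel


/-- Graph automorphism of G₂ in characteristic 3 (K perfect): `x_a(t) ↦ x_b(t³)`, `x_b(t) ↦ x_a(t)`, `x_{-a}(t) ↦ x_{-b}(t³)`, `x_{-b}(t) ↦ x_{-a}(t)` extend to an automorphism of the group. -/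
theorem result {K : Type*} [Field K] [CharP K 3] (hperf : ∀ x : K, ∃ y : K, y ^ 3 = x) :
    ∃ α : ↥(Cfsg.Lie.chevG2.group K) ≃* ↥(Cfsg.Lie.chevG2.group K), ∀ (g : ↥(Cfsg.Lie.chevG2.group K)) (t : K),
      (((g : GL Cfsg.Lie.chevG2.Idx K) : Matrix _ _ K) = Cfsg.Lie.chevG2.x K Cfsg.Lie.g2a t →
        ((α g : GL Cfsg.Lie.chevG2.Idx K) : Matrix _ _ K) = Cfsg.Lie.chevG2.x K Cfsg.Lie.g2b (t ^ 3)) ∧
      (((g : GL Cfsg.Lie.chevG2.Idx K) : Matrix _ _ K) = Cfsg.Lie.chevG2.x K Cfsg.Lie.g2b t →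
        ((α g : GL Cfsg.Lie.chevG2.Idx K) : Matrix _ _ K) = Cfsg.Lie.chevG2.x K Cfsg.Lie.g2a t) ∧
      (((g : GL Cfsg.Lie.chevG2.Idx K) : Matrix _ _ K) = Cfsg.Lie.chevG2.x K Cfsg.Lie.g2ma t →
        ((α g : GL Cfsg.Lie.chevG2.Idx K) : Matrix _ _ K) = Cfsg.Lie.chevG2.x K Cfsg.Lie.g2mb (t ^ 3)) ∧
      (((g : GL Cfsg.Lie.chevG2.Idx K) : Matrix _ _ K) = Cfsg.Lie.chevG2.x K Cfsg.Lie.g2mb t →
        ((α g : GL Cfsg.Lie.chevG2.Idx K) : Matrix _ _ K) = Cfsg.Lie.chevG2.x K Cfsg.Lie.g2ma t) := by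
  haveI : Fact (Nat.Prime 3) := ⟨Nat.prime_three⟩
  have hc := Lib.Chev.certG2
  obtain ⟨α, hα⟩ := Lib.Chev.IsogenyAuto.exists_iso_aut (K := K) hc Lib.Chev.CoverStruct.linkG2 hperf ok_G2
  refine ⟨α, fun g t => ?_⟩
  have key : ∀ r s : ℕ, ∀ n : ℕ, r < Cfsg.Lie.chevG2.nroots → s < Cfsg.Lie.chevG2.nroots →
      ([2, 3, 0, 1, 5, 4, 7, 6, 10, 11, 8, 9] : List ℕ).getD r 0 = s → ([1, 1, 3, 3, 3, 1, 1, 3, 3, 3, 1, 1] : List ℕ).getD r 0 = n →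
      ((g : GL Cfsg.Lie.chevG2.Idx K) : Matrix _ _ K) = Cfsg.Lie.chevG2.x K r t →
        ((α g : GL Cfsg.Lie.chevG2.Idx K) : Matrix _ _ K) = Cfsg.Lie.chevG2.x K s (t ^ n) := by
    rintro r s n hr hs rfl rfl hg
    rw [hα g r t hr ((Lib.Chev.eq_xg hc hr).1 hg), Lib.Chev.coe_xg hc hs]
  refine ⟨key _ _ 3 (by decide) (by decide) rfl rfl, ?_, key _ _ 3 (by decide) (by decide) rfl rfl, ?_⟩
  · simpa using key Cfsg.Lie.g2b Cfsg.Lie.g2a 1 (by decide) (by decide) rfl rfl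
  · simpa using key Cfsg.Lie.g2mb Cfsg.Lie.g2ma 1 (by decide) (by decide) rfl rfl

end Cfsg.Agent.S1099
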