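import Cfsg.Statements.S1100
import Cfsg.Agent.Lib.Chev.All
import Cfsg.Agent.Lib.Chev.Bruhat


set_option autoImplicit false
open Cfsg

namespace Cfsg.Agent.S1100

/-- Canonical form `g = b n_w u` (`b ∈ B`, `u ∈ U_w⁻ = ⟨X_r : r > 0, n_w X_r n_w⁻¹ ≤ V⟩`): such a decomposition exists for every element of the group; the coset `n_w H` is determined by `g`; and for a fixed representative `n_w` the factors `b`, `u` are unique. -/
theorem result {F : Type*} [Field F] (D : Cfsg.Lie.ChevalleyDatum) (hD : D ∈ [Cfsg.Lie.chevG2, Cfsg.Lie.chevB2, Cfsg.Lie.chevD4, Cfsg.Lie.chevF4, Cfsg.Lie.chevE6, Cfsg.Lie.chevE7, Cfsg.Lie.chevE8]) :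
    (∀ g ∈ D.group F, ∃ b ∈ D.borelSubgroup F, ∃ n ∈ D.monomialSubgroup F,
      ∃ u ∈ Subgroup.closure {x : GL D.Idx F | ∃ (r : ℕ) (t : F), D.IsPosRoot r ∧
            (D.rootSubgroup F r).map (MulAut.conj n).toMonoidHom ≤ D.negUnipotent F ∧ (x : Matrix D.Idx D.Idx F) = D.x F r t},
        g = b * n * u) ∧
    (∀ (b b' n n' u u' : GL D.Idx F), b ∈ D.borelSubgroup F → b' ∈ D.borelSubgroup F →
      n ∈ D.monomialSubgroup F → n' ∈ D.monomialSubgroup F →
      u ∈ Subgroup.closure {x : GL D.Idx F | ∃ (r : ℕ) (t : F), D.IsPosRoot r ∧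
            (D.rootSubgroup F r).map (MulAut.conj n).toMonoidHom ≤ D.negUnipotent F ∧ (x : Matrix D.Idx D.Idx F) = D.x F r t} →
      u' ∈ Subgroup.closure {x : GL D.Idx F | ∃ (r : ℕ) (t : F), D.IsPosRoot r ∧
            (D.rootSubgroup F r).map (MulAut.conj n').toMonoidHom ≤ D.negUnipotent F ∧ (x : Matrix D.Idx D.Idx F) = D.x F r t} →
      b * n * u = b' * n' * u' → n⁻¹ * n' ∈ D.diagonalSubgroup F ∧ (n = n' → b = b' ∧ u = u')) := by
  obtain ⟨A, hc⟩ := Lib.Chev.certified_of_mem hD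
  refine ⟨fun g hg => ?_, fun b b' n n' u u' hb hb' hn hn' hu hu' e => ?_⟩
  · obtain ⟨b, hb, n, hn, π, hact, u, hu, rfl⟩ := Lib.Chev.exists_normal_form hc hg
    exact ⟨b, hb, n, hn, u, by rw [Lib.Chev.closure_negSet_eq hc hact]; exact hu, rfl⟩
  · obtain ⟨π, hact⟩ := Lib.Chev.exists_acts hc hn
    obtain ⟨π', hact'⟩ := Lib.Chev.exists_acts hc hn'
    rw [Lib.Chev.closure_negSet_eq hc hact] at hu
    rw [Lib.Chev.closure_negSet_eq hc hact'] at hu'
    refine ⟨Lib.Chev.inv_mul_mem_H hc hb (Lib.Chev.U_le_B (Lib.Chev.Uw_le_U hc hu)) hb'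
      (Lib.Chev.U_le_B (Lib.Chev.Uw_le_U hc hu')) hn hn' e, fun hnn => ?_⟩
    subst hnn
    rw [hact'.unique hc hact] at hu'
    exact Lib.Chev.normal_form_unique hc hb hb' hact hu hu' e

end Cfsg.Agent.S1100
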