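import Cfsg.Statements.S1118
import Cfsg.Agent.Lib.RankOne.Basic
-- import your own Cfsg.Agent.* helpers here

set_option autoImplicit false
open Cfsg

namespace Cfsg.Agent.S1118

/-- In the rank-one set-up (`G` finite and doubly transitive on `Ω`, `t` an involution moving `a`, `Q` normal in `G_a` with `G_a = Q D`, `Q ⊓ D = 1` for the two-point stabiliser `D = G_a ⊓ G_{t • a}`, `|Q|` even, `|D|` odd), the normaliser of a subset of `Q` containing a non-identity element lies in `G_a`; consequently `N_G(Q) = N_G(G_a) = G_a`. -/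
theorem result {G Ω : Type*} [Group G] [Finite G] [MulAction G Ω] {a : Ω} {t : G} {Q : Subgroup G}
    (hS : Cfsg.IsRankOneSetup G Ω a t Q) :
    (∀ X : Set G, X ⊆ (Q : Set G) → (∃ x ∈ X, x ≠ 1) → Subgroup.normalizer X ≤ MulAction.stabilizer G a) ∧
      Subgroup.normalizer (Q : Set G) = MulAction.stabilizer G a ∧
      Subgroup.normalizer (MulAction.stabilizer G a : Set G) = MulAction.stabilizer G a := by
  classical
  have hQ1 : ∃ x ∈ (Q : Set G), x ≠ 1 := by
    by_contra h
    push Not at h
    have h1 : Nat.card Q = 1 := by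
      rw [Subgroup.eq_bot_iff_forall Q |>.2 h, Subgroup.card_bot]
    have := hS.even_card
    rw [h1] at this
    exact Nat.not_even_one this
  refine ⟨fun X hX hx => RankOne.normalizer_le hS X hX hx, le_antisymm (RankOne.normalizer_le hS _ (Set.Subset.refl _) hQ1) ?_, le_antisymm ?_ ?_⟩
  · intro g hg
    rw [Subgroup.mem_normalizer_iff]
    refine fun x => ⟨fun hx => hS.conj_mem g hg x hx, fun hx => ?_⟩
    have := RankOne.conj_Q hS hg hx
    simpa [mul_assoc] using this
  · intro g hg
    obtain ⟨x, hx, hx1⟩ := hQ1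
    rw [Subgroup.mem_normalizer_iff] at hg
    have h : (g * x * g⁻¹) • a = a := (hg x).1 (hS.le hx)
    by_contra hga
    have hne : g⁻¹ • a ≠ a := fun e => hga (by
      show g • a = a
      conv_lhs => rw [← e]
      rw [smul_inv_smul])
    rw [mul_smul, mul_smul] at h
    exact hx1 (RankOne.Q_free hS hne hx (eq_inv_smul_iff.2 h))
  · exact Subgroup.le_normalizer

end Cfsg.Agent.S1118
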