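import Cfsg.Statements.S1119
import Cfsg.Agent.Lib.RankOne.Basic
-- import your own Cfsg.Agent.* helpers here

set_option autoImplicit false
open Cfsg

namespace Cfsg.Agent.S1119

/-- In the rank-one set-up (`G` finite and doubly transitive on `Ω`, `t` an involution moving `a`, `Q` normal in `G_a` with `G_a = Q D`, `Q ⊓ D = 1` for the two-point stabiliser `D = G_a ⊓ G_{t • a}`, `|Q|` even, `|D|` odd): `Q` acts regularly on `Ω` minus `a`; hence `|Ω| = |Q| + 1`, `|G| = |Q| |D| (|Q| + 1)`, some Sylow 2-subgroup of `G` lies in `Q`, and each `g ∉ G_a` is uniquely `x t y` with `x ∈ G_a`, `y ∈ Q` (canonical form). -/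
theorem result {G Ω : Type*} [Group G] [Finite G] [MulAction G Ω] {a : Ω} {t : G} {Q : Subgroup G}
    (hS : Cfsg.IsRankOneSetup G Ω a t Q) :
    (∀ b c : Ω, b ≠ a → c ≠ a → ∃! x : Q, (x : G) • b = c) ∧
      Nat.card Ω = Nat.card Q + 1 ∧
      Nat.card G = Nat.card Q * Nat.card ↥(MulAction.stabilizer G a ⊓ MulAction.stabilizer G (t • a)) * (Nat.card Q + 1) ∧
      (∃ P : Sylow 2 G, (P : Subgroup G) ≤ Q) ∧
      ∀ g : G, g ∉ MulAction.stabilizer G a → ∃! p : G × G, p.1 ∈ MulAction.stabilizer G a ∧ p.2 ∈ Q ∧ g = p.1 * t * p.2 := by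
  classical
  refine ⟨fun b c hb hc => RankOne.Q_move hS hb hc, RankOne.card_points hS, RankOne.card_group hS, ?_, ?_⟩
  · have := Fact.mk Nat.prime_two
    obtain ⟨P⟩ := (inferInstance : Nonempty (Sylow 2 Q))
    have hP : IsPGroup 2 ↥((P : Subgroup Q).map Q.subtype) := P.2.map _
    obtain ⟨S, hS'⟩ := hP.exists_le_sylow
    have hc : Nat.card ↥(S : Subgroup G) = Nat.card ↥((P : Subgroup Q).map Q.subtype) := by
      rw [S.card_eq_multiplicity, Subgroup.card_map_of_injective Q.subtype_injective,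
        P.card_eq_multiplicity, RankOne.card_group hS]
      congr 1
      have h1 : ¬ 2 ∣ Nat.card ↥(MulAction.stabilizer G a ⊓ MulAction.stabilizer G (t • a)) :=
        fun h => Nat.not_even_iff_odd.2 hS.odd_card (even_iff_two_dvd.2 h)
      have h2 : ¬ 2 ∣ Nat.card Q + 1 :=
        fun h => Nat.not_even_iff_odd.2 hS.even_card.add_one (even_iff_two_dvd.2 h)
      rw [Nat.factorization_mul (Nat.mul_ne_zero Nat.card_pos.ne' Nat.card_pos.ne') (Nat.succ_ne_zero _),
        Nat.factorization_mul Nat.card_pos.ne' Nat.card_pos.ne', Finsupp.add_apply, Finsupp.add_apply,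
        Nat.factorization_eq_zero_of_not_dvd h1, Nat.factorization_eq_zero_of_not_dvd h2]
      rfl
    refine ⟨S, ?_⟩
    rw [← Subgroup.eq_of_le_of_card_ge hS' hc.le]
    exact Subgroup.map_subtype_le _
  · intro g hg
    have hga : g⁻¹ • a ≠ a := fun h => hg (by
      show g • a = a
      conv_lhs => rw [← h]
      rw [smul_inv_smul])
    obtain ⟨⟨y, hy⟩, hyb, hyu⟩ := RankOne.Q_move hS hga (RankOne.ne_b hS)
    have key : ∀ y : G, (g * y⁻¹ * t) • a = a ↔ y • (g⁻¹ • a) = t • a := by
      intro y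
      rw [mul_smul, mul_smul]
      constructor
      · intro h
        rw [smul_eq_iff_eq_inv_smul, inv_smul_eq_iff] at h
        exact h.symm
      · intro h
        rw [← h, inv_smul_smul, smul_inv_smul]
    refine ⟨(g * y⁻¹ * t, y), ⟨(key y).2 hyb, hy, ?_⟩, ?_⟩
    · show g = g * y⁻¹ * t * t * y
      rw [mul_assoc (g * y⁻¹) t t, hS.mul_self, mul_one, inv_mul_cancel_right]
    · rintro ⟨x', y'⟩ ⟨hx', hy', he⟩
      dsimp only at hx' hy' he
      have hx'' : x' = g * y'⁻¹ * t := by
        rw [he, mul_inv_cancel_right, mul_assoc x' t t, hS.mul_self, mul_one]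
      subst hx''
      have : (⟨y', hy'⟩ : Q) = ⟨y, hy⟩ := hyu _ ((key y').1 hx')
      have hyy : y' = y := congrArg Subtype.val this
      subst hyy
      rfl

end Cfsg.Agent.S1119
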