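import Cfsg.Statements.S1120
import Cfsg.Agent.Lib.RankOne.Fix
import Cfsg.Agent.Lib.Solv.Coprime2
import Cfsg.Agent.Lib.Solv.Cores
-- import your own Cfsg.Agent.* helpers here

set_option autoImplicit false
open Cfsg

namespace Cfsg.Agent.S1120

/-- In the rank-one set-up (`G` finite and doubly transitive on `Ω`, `t` an involution moving `a`, `Q` normal in `G_a` with `G_a = Q D`, `Q ⊓ D = 1` for the two-point stabiliser `D = G_a ⊓ G_{t • a}`, `|Q|` even, `|D|` odd), if `G` has 2-rank at least 2 then `O_{2'}(G)` equals the normal core of `G_a`. -/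
theorem result {G Ω : Type*} [Group G] [Finite G] [MulAction G Ω] {a : Ω} {t : G} {Q : Subgroup G}
    (hS : Cfsg.IsRankOneSetup G Ω a t Q)
    (h2 : ∃ x y : G, x ≠ 1 ∧ y ≠ 1 ∧ x ≠ y ∧ x * x = 1 ∧ y * y = 1 ∧ x * y = y * x) :
    Cfsg.pPrimeCore 2 G = (MulAction.stabilizer G a).normalCore := by
  classical
  have := Fact.mk Nat.prime_two
  have hodd : ∀ N : Subgroup G, (Nat.card N).Coprime 2 ↔ Odd (Nat.card N) := fun N => Nat.coprime_two_right
  refine le_antisymm ?_ ?_
  · have hN := Cfsg.Lib.Solv.coprime_pPrimeCore (G := G) 2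
    set N := Cfsg.pPrimeCore 2 G
    obtain ⟨x, y, hx1, hy1, hxy, hx2, hy2, hc⟩ := h2
    obtain ⟨c, hxc, hcu⟩ := RankOne.invol_fix hS hx1 hx2
    have hyc : y • c = c := hcu _ (by show x • y • c = y • c; rw [smul_smul, hc, mul_smul, hxc])
    let V : Subgroup G := Subgroup.closure {x, y}
    have hVc : ∀ v ∈ V, v = 1 ∨ v = x ∨ v = y ∨ v = x * y := by
      intro v hv
      induction hv using Subgroup.closure_induction with
      | mem z hz => rcases hz with rfl | rfl <;> simp
      | one => simp
      | mul u w _ _ hu hw =>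
        have e1 : x * (x * y) = y := by rw [← mul_assoc, hx2, one_mul]
        have e2 : y * (x * y) = x := by rw [← mul_assoc, ← hc, mul_assoc, hy2, mul_one]
        have e3 : x * y * x = y := by rw [hc, mul_assoc, hx2, mul_one]
        have e4 : x * y * y = x := by rw [mul_assoc, hy2, mul_one]
        have e5 : x * y * (x * y) = 1 := by rw [← mul_assoc, e3, hy2]
        rcases hu with rfl | rfl | rfl | rfl <;> rcases hw with rfl | rfl | rfl | rfl <;>
          simp only [one_mul, mul_one, hx2, hy2, e1, e2, e3, e4, e5, ← hc, true_or, or_true]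
      | inv u _ hu =>
        have hxy2 : (x * y)⁻¹ = x * y := by
          rw [mul_inv_rev, inv_eq_of_mul_eq_one_right hx2, inv_eq_of_mul_eq_one_right hy2, ← hc]
        rcases hu with rfl | rfl | rfl | rfl <;>
          simp only [inv_one, inv_eq_of_mul_eq_one_right hx2, inv_eq_of_mul_eq_one_right hy2, hxy2, true_or, or_true]
    have hsq : ∀ v ∈ V, v * v = 1 := by
      intro v hv
      rcases hVc v hv with rfl | rfl | rfl | rfl
      · exact one_mul 1
      · exact hx2
      · exact hy2
      · rw [show x * y * (x * y) = x * (y * x) * y by group, ← hc,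
          show x * (x * y) * y = (x * x) * (y * y) by group, hx2, hy2, mul_one]
    have : IsMulCommutative V := ⟨⟨fun u w => by
      apply Subtype.ext
      have h := hsq _ (mul_mem u.2 w.2)
      show (u : G) * w = w * u
      calc (u : G) * w = ((u : G) * w)⁻¹ := (inv_eq_of_mul_eq_one_right h).symm
        _ = (w : G)⁻¹ * (u : G)⁻¹ := mul_inv_rev _ _
        _ = w * u := by rw [inv_eq_of_mul_eq_one_right (hsq _ u.2), inv_eq_of_mul_eq_one_right (hsq _ w.2)]⟩⟩
    have hncyc : ¬ IsCyclic V := by
      intro hcyc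
      have hord : ∀ v : V, orderOf v ∣ 2 := fun v => orderOf_dvd_of_pow_eq_one (by
        apply Subtype.ext; rw [pow_two]; exact hsq v v.2)
      obtain ⟨g, hg⟩ := hcyc.exists_generator
      obtain ⟨i, hi⟩ := Subgroup.mem_zpowers_iff.1 (hg ⟨x, Subgroup.subset_closure (by simp)⟩)
      obtain ⟨j, hj⟩ := Subgroup.mem_zpowers_iff.1 (hg ⟨y, Subgroup.subset_closure (by simp)⟩)
      have hg2 : g * g = 1 := Subtype.ext (hsq g g.2)
      have hz : ∀ n : ℤ, g ^ n = 1 ∨ g ^ n = g := by
        intro n
        induction n using Int.induction_on with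
        | zero => simp
        | succ k ih => rcases ih with h | h <;> simp [zpow_add_one, h, hg2]
        | pred k ih =>
          rw [zpow_sub_one, inv_eq_of_mul_eq_one_right hg2]
          rcases ih with h | h <;> simp [h, hg2]
      have ex : ((g : V) : G) = x := by
        rcases hz i with h | h <;> rw [h] at hi
        · exact absurd (congrArg Subtype.val hi).symm hx1
        · exact congrArg Subtype.val hi
      have ey : ((g : V) : G) = y := by
        rcases hz j with h | h <;> rw [h] at hj
        · exact absurd (congrArg Subtype.val hj).symm hy1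
        · exact congrArg Subtype.val hj
      exact hxy (ex.symm.trans ey)
    have hVfix : ∀ v ∈ V, v • c = c := by
      intro v hv
      rcases hVc v hv with rfl | rfl | rfl | rfl
      · exact one_smul _ _
      · exact hxc
      · exact hyc
      · rw [mul_smul, hyc, hxc]
    have hNn : N.Normal := inferInstance
    have hcop : (Nat.card V).Coprime (Nat.card N) := by
      have hV : IsPGroup 2 V := fun v => ⟨1, by apply Subtype.ext; rw [pow_one, pow_two]; exact hsq v v.2⟩
      obtain ⟨m, hm⟩ := IsPGroup.iff_card.1 hV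
      rw [hm]; exact Nat.Coprime.pow_left _ hN.symm
    have hNc : N ≤ MulAction.stabilizer G c := by
      refine Cfsg.Lib.Solv.le_of_fixed_le V N _ hncyc ?_ hcop ?_
      · rw [Subgroup.normalizer_eq_top]; exact le_top
      · rintro v hv hv1 n ⟨-, hn⟩
        show n • c = c
        refine RankOne.invol_fix_eq hS hv1 (hsq v hv) ?_ (hVfix v hv)
        rw [smul_smul, Subgroup.mem_centralizer_iff.1 hn v (Set.mem_singleton v), mul_smul, hVfix v hv]
    intro n hn g
    obtain ⟨w, hw⟩ := RankOne.exists_move_one hS c a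
    have h1 : (w⁻¹ * (g * n * g⁻¹) * w⁻¹⁻¹) • c = c := hNc (hNn.conj_mem _ (hNn.conj_mem n hn g) w⁻¹)
    rw [inv_inv, mul_smul, mul_smul, hw, inv_smul_eq_iff, hw] at h1
    exact h1
  · refine Cfsg.Lib.Solv.le_pPrimeCore inferInstance ((hodd _).2 ?_)
    refine hS.odd_card.of_dvd_nat (Subgroup.card_dvd_of_le fun n hn => ?_)
    refine ⟨Subgroup.normalCore_le _ hn, ?_⟩
    have h := hn t
    rw [RankOne.t_inv hS] at h
    show n • (t • a) = t • a
    have h' : (t * n * t) • a = a := h
    rw [mul_smul, mul_smul] at h'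
    calc n • t • a = t • (t • n • t • a) := by rw [smul_smul t t, hS.mul_self, one_smul]
      _ = t • a := by rw [h']

end Cfsg.Agent.S1120
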