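import Cfsg.Statements.S1124
import Cfsg.Agent.Lib.RankOne.Basic
-- import your own Cfsg.Agent.* helpers here

set_option autoImplicit false
open scoped Pointwise
open Cfsg

namespace Cfsg.Agent.S1124

/-- Let `t` be an element of order 2 of a finite group normalising a subgroup `X` of odd order, `Y = C_X(t)` and `Z` the set of elements of `X` inverted by `t`. Then `(y, z) ↦ y z` is a bijection `Y × Z → X`, so `|X| = |Y| |Z|`, and the subgroup generated by `Z` is normal in `X`. -/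
theorem result {M : Type*} [Group M] [Finite M]
    (t : M) (ht : orderOf t = 2) (X : Subgroup M) (hodd : Odd (Nat.card X))
    (hnorm : ∀ x ∈ X, t * x * t⁻¹ ∈ X) :
    (∀ x ∈ X, ∃! p : M × M, p.1 ∈ X ⊓ Subgroup.centralizer {t} ∧ p.2 ∈ Cfsg.invertedBy X t ∧ x = p.1 * p.2) ∧
      Nat.card X = Nat.card ↥(X ⊓ Subgroup.centralizer {t}) * Nat.card (Cfsg.invertedBy X t) ∧
      ∀ x ∈ X, MulAut.conj x • Subgroup.closure (Cfsg.invertedBy X t) = Subgroup.closure (Cfsg.invertedBy X t) := by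
  classical
  have ht2 : t * t = 1 := by rw [← pow_two, ← ht]; exact pow_orderOf_eq_one t
  have hti : t⁻¹ = t := inv_eq_of_mul_eq_one_right ht2
  have hσ : ∀ x, x ∈ X → t * x * t ∈ X := fun x hx => by simpa [hti] using hnorm x hx
  have hI : ∀ {z : M}, z ∈ Cfsg.invertedBy X t ↔ z ∈ X ∧ t * z * t = z⁻¹ := fun {z} => by
    show _ ∧ _ ↔ _
    rw [hti]
  have hY : ∀ {y : M}, y ∈ X ⊓ Subgroup.centralizer {t} ↔ y ∈ X ∧ t * y * t = y := fun {y} => by
    rw [Subgroup.mem_inf, Subgroup.mem_centralizer_singleton_iff]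
    refine and_congr_right fun _ => ⟨fun h => ?_, fun h => ?_⟩
    · first
        | rw [h, mul_assoc, ht2, mul_one]
        | rw [← h, mul_assoc, ht2, mul_one]
    · have : t * y = y * t := by
        calc t * y = t * y * t * t := by rw [mul_assoc _ t t, ht2, mul_one]
          _ = y * t := by rw [h]
      first
        | exact this
        | exact this.symm
  have hmul : ∀ x y : M, t * (x * y) * t = (t * x * t) * (t * y * t) := fun x y => by
    simp only [mul_assoc, ← mul_assoc t t, ht2, one_mul]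
  have hinv : ∀ x : M, t * x⁻¹ * t = (t * x * t)⁻¹ := fun x => by
    rw [mul_inv_rev, mul_inv_rev, hti, mul_assoc]
  have hdec : ∀ x ∈ X, ∃! p : M × M, p.1 ∈ X ⊓ Subgroup.centralizer {t} ∧
      p.2 ∈ Cfsg.invertedBy X t ∧ x = p.1 * p.2 := by
    intro x hx
    set w := (t * x * t)⁻¹ * x with hw
    have hwX : w ∈ X := mul_mem (inv_mem (hσ x hx)) hx
    have hwo : Odd (orderOf w) := RankOne.odd_orderOf_mem hodd hwX
    set z := w ^ ((orderOf w + 1) / 2) with hz
    have hz2 : z ^ 2 = w := RankOne.root_sq hwo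
    have hσσ : ∀ y : M, t * (t * y * t) * t = y := fun y => by
      rw [show t * (t * y * t) * t = (t * t) * y * (t * t) by group, ht2]; group
    have hwt : t * w * t = w⁻¹ := by
      rw [hw, hmul, hinv, hσσ, mul_inv_rev, inv_inv]
    have hzI : z ∈ Cfsg.invertedBy X t := by
      refine hI.2 ⟨pow_mem hwX _, ?_⟩
      have h := (conj_pow (i := (orderOf w + 1) / 2) (a := t) (b := w)).symm
      rw [hti] at h
      rw [hz, h, hwt, inv_pow]
    have hzt := (hI.1 hzI).2
    refine ⟨(x * z⁻¹, z), ⟨hY.2 ⟨mul_mem hx (inv_mem (hI.1 hzI).1), ?_⟩, hzI, (inv_mul_cancel_right x z).symm⟩, ?_⟩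
    · show t * (x * z⁻¹) * t = x * z⁻¹
      rw [hmul, hinv z, hzt, inv_inv]
      have e : t * x * t = x * w⁻¹ := by rw [hw]; group
      rw [e, ← hz2, pow_two]; group
    · rintro ⟨y, z'⟩ ⟨hy, hz', he⟩
      dsimp only at hy hz' he
      obtain ⟨hyX, hyt⟩ := hY.1 hy
      obtain ⟨hzX, hzt'⟩ := hI.1 hz'
      have hsq : z' ^ 2 = z ^ 2 := by
        rw [hz2, hw, he, hmul, hyt, hzt', pow_two]; group
      have hzz : z' = z := RankOne.eq_of_sq_eq hodd hzX (hI.1 hzI).1 hsq
      subst hzz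
      have hy' : y = x * z⁻¹ := by rw [he, mul_inv_cancel_right]
      subst hy'
      rfl
  refine ⟨hdec, ?_, ?_⟩
  · rw [← Nat.card_prod]
    refine (Nat.card_congr (Equiv.ofBijective
      (fun p : ↥(X ⊓ Subgroup.centralizer {t}) × ↥(Cfsg.invertedBy X t) =>
        (⟨(p.1 : M) * p.2, mul_mem p.1.2.1 p.2.2.1⟩ : ↥X)) ⟨?_, ?_⟩)).symm
    · rintro ⟨y, z⟩ ⟨y', z'⟩ h
      have h' : (y : M) * z = y' * z' := congrArg Subtype.val h
      have e := (hdec _ (mul_mem y.2.1 z.2.1)).unique (y₁ := ((y : M), (z : M))) (y₂ := ((y' : M), (z' : M)))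
        ⟨y.2, z.2, rfl⟩ ⟨y'.2, z'.2, h'⟩
      exact Prod.ext (Subtype.ext (Prod.ext_iff.1 e).1) (Subtype.ext (Prod.ext_iff.1 e).2)
    · rintro ⟨x, hx⟩
      obtain ⟨⟨y, z⟩, ⟨hy, hz, e⟩, -⟩ := hdec x hx
      exact ⟨(⟨y, hy⟩, ⟨z, hz⟩), Subtype.ext e.symm⟩
  · intro x hx
    set H := Subgroup.closure (Cfsg.invertedBy X t) with hH
    have key : ∀ x ∈ X, H.map (MulAut.conj x).toMonoidHom ≤ H := by
      intro x hx
      obtain ⟨⟨y, z⟩, ⟨hy, hz, e⟩, -⟩ := hdec x hx
      dsimp only at hy hz e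
      obtain ⟨hyX, hyt⟩ := hY.1 hy
      rintro _ ⟨h, hh, rfl⟩
      show x * h * x⁻¹ ∈ H
      have hzH : z ∈ H := Subgroup.subset_closure hz
      have hgen : H ≤ H.comap (MulAut.conj y).toMonoidHom := by
        rw [hH, Subgroup.closure_le]
        intro w hw
        obtain ⟨hwX, hwt⟩ := hI.1 hw
        refine Subgroup.subset_closure (hI.2 ⟨mul_mem (mul_mem hyX hwX) (inv_mem hyX), ?_⟩)
        show t * (y * w * y⁻¹) * t = (y * w * y⁻¹)⁻¹
        rw [hmul, hmul, hinv, hyt, hwt]; group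
      have := hgen (mul_mem (mul_mem hzH hh) (inv_mem hzH))
      rw [e]
      simpa [mul_assoc] using this
    refine le_antisymm (key x hx) fun h hh => ?_
    refine ⟨x⁻¹ * h * x, ?_, by show x * (x⁻¹ * h * x) * x⁻¹ = h; group⟩
    have := key x⁻¹ (inv_mem hx) ⟨h, hh, rfl⟩
    simpa using this

end Cfsg.Agent.S1124
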