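import Cfsg.Statements.S1125
import Cfsg.Agent.Lib.RankOne.Fix
-- import your own Cfsg.Agent.* helpers here

set_option autoImplicit false
open Cfsg

namespace Cfsg.Agent.S1125

/-- In the rank-one set-up (`G` finite and doubly transitive on `Ω`, `t` an involution moving `a`, `Q` normal in `G_a` with `G_a = Q D`, `Q ⊓ D = 1` for the two-point stabiliser `D = G_a ⊓ G_{t • a}`, `|Q|` even, `|D|` odd), let `X ⊆ D` fix at least three points of `Ω`. Then `C_G(X)` is doubly transitive on the fixed-point set of `X`, `|C_Q(X)|` is even, and `C_{G_a}(X) = C_Q(X) C_D(X)`. -/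
theorem result {G Ω : Type*} [Group G] [Finite G] [MulAction G Ω] {a : Ω} {t : G} {Q : Subgroup G}
    (hS : Cfsg.IsRankOneSetup G Ω a t Q)
    (X : Set G) (hX : X ⊆ ((MulAction.stabilizer G a ⊓ MulAction.stabilizer G (t • a)) : Set G))
    (h3 : ∃ b c d : Ω, b ≠ c ∧ b ≠ d ∧ c ≠ d ∧ ∀ x ∈ X, x • b = b ∧ x • c = c ∧ x • d = d) :
    (∀ b₁ b₂ c₁ c₂ : Ω, (∀ x ∈ X, x • b₁ = b₁ ∧ x • b₂ = b₂ ∧ x • c₁ = c₁ ∧ x • c₂ = c₂) →
        b₁ ≠ b₂ → c₁ ≠ c₂ → ∃ g ∈ Subgroup.centralizer X, g • b₁ = c₁ ∧ g • b₂ = c₂) ∧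
      Even (Nat.card ↥(Subgroup.centralizer X ⊓ Q)) ∧
      (Subgroup.centralizer X ⊓ Q) ⊔ (Subgroup.centralizer X ⊓ (MulAction.stabilizer G a ⊓ MulAction.stabilizer G (t • a))) = Subgroup.centralizer X ⊓ MulAction.stabilizer G a := by
  obtain ⟨b₀, c₀, d₀, hbc, hbd, hcd, h3⟩ := h3
  refine ⟨fun b₁ b₂ c₁ c₂ h hb hc => RankOne.cent_pair hS X hbc hbd hcd h3 h hb hc, ?_, ?_⟩
  · obtain ⟨s, hs, hsQ, hsX⟩ := RankOne.cent_invol_Q hS X hX hbc hbd hcd h3
    have hd := (Subgroup.centralizer X ⊓ Q).orderOf_dvd_natCard (x := s) ⟨hsX, hsQ⟩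
    rw [orderOf_eq_prime (p := 2) (by rw [pow_two]; exact hs.2.2) hs.2.1] at hd
    exact even_iff_two_dvd.2 hd
  · refine le_antisymm (sup_le (inf_le_inf_left _ hS.le) (inf_le_inf_left _ inf_le_left)) ?_
    rintro g ⟨hgX, hga⟩
    obtain ⟨q, hq, d, hd, rfl⟩ := RankOne.factor hS hga
    have hfix : ∀ x ∈ X, x • (q • (t • a)) = q • (t • a) := by
      intro x hx
      have h1 : (q * d) • (t • a) = q • (t • a) := by rw [mul_smul, hd.2]
      rw [← h1, smul_smul, Subgroup.mem_centralizer_iff.1 hgX x hx, mul_smul, (hX hx).2]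
    have hne : q • (t • a) ≠ a := fun h => RankOne.ne_b hS (smul_left_cancel q (h.trans (hS.le hq).symm))
    have hqX : q ∈ Subgroup.centralizer X := by
      rw [Subgroup.mem_centralizer_iff]
      intro x hx
      have hxa : x ∈ MulAction.stabilizer G a := (hX hx).1
      have hxi : x⁻¹ • (t • a) = t • a := inv_smul_eq_iff.2 (hX hx).2.symm
      have := (RankOne.Q_move hS (RankOne.ne_b hS) hne).unique
        (y₁ := (⟨x * q * x⁻¹, hS.conj_mem x hxa q hq⟩ : Q)) (y₂ := ⟨q, hq⟩)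
        (by show (x * q * x⁻¹) • (t • a) = q • (t • a); rw [mul_smul, mul_smul, hxi, hfix x hx]) rfl
      exact mul_inv_eq_iff_eq_mul.1 (congrArg Subtype.val this)
    refine Subgroup.mul_mem_sup ⟨hqX, hq⟩ ⟨?_, hd⟩
    have := mul_mem (inv_mem hqX) hgX
    rwa [inv_mul_cancel_left] at this

end Cfsg.Agent.S1125
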