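import Cfsg.Statements.S1127
import Cfsg.Agent.Lib.RankOne.Basic
-- import your own Cfsg.Agent.* helpers here

set_option autoImplicit false
open Cfsg

namespace Cfsg.Agent.S1127

/-- In the rank-one set-up (`G` finite and doubly transitive on `Ω`, `t` an involution moving `a`, `Q` normal in `G_a` with `G_a = Q D`, `Q ⊓ D = 1` for the two-point stabiliser `D = G_a ⊓ G_{t • a}`, `|Q|` even, `|D|` odd): if `s` is an involution of `G_a` and `r ∈ Q` satisfy `t s t = r⁻¹ t r`, then `C_D(t) = C_D(s)`; moreover `C_D(t) ⊓ C_D(K) = C_D(I ∩ G_a)`, where `K` is the set of elements of `D` inverted by `t` and `I ∩ G_a` the set of involutions of `G_a`. -/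
theorem result {G Ω : Type*} [Group G] [Finite G] [MulAction G Ω] {a : Ω} {t : G} {Q : Subgroup G}
    (hS : Cfsg.IsRankOneSetup G Ω a t Q) :
    (∀ s r : G, s ∈ Cfsg.involutionsIn (MulAction.stabilizer G a : Set G) → r ∈ Q → t * s * t = r⁻¹ * t * r →
        (MulAction.stabilizer G a ⊓ MulAction.stabilizer G (t • a)) ⊓ Subgroup.centralizer {t} = (MulAction.stabilizer G a ⊓ MulAction.stabilizer G (t • a)) ⊓ Subgroup.centralizer {s}) ∧
      (MulAction.stabilizer G a ⊓ MulAction.stabilizer G (t • a)) ⊓ Subgroup.centralizer {t} ⊓ Subgroup.centralizer (Cfsg.invertedBy (MulAction.stabilizer G a ⊓ MulAction.stabilizer G (t • a)) t) =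
        (MulAction.stabilizer G a ⊓ MulAction.stabilizer G (t • a)) ⊓ Subgroup.centralizer (Cfsg.involutionsIn (MulAction.stabilizer G a : Set G)) := by
  obtain ⟨⟨s₁, r₁⟩, ⟨hs₁, hr₁, e₁⟩, huniq⟩ := RankOne.structure_equation hS
  dsimp only at hs₁ hr₁ e₁
  have hC := fun {d : G} (hd : d ∈ MulAction.stabilizer G a ⊓ MulAction.stabilizer G (t • a)) =>
    RankOne.centralizer_eq hS hs₁ hr₁ e₁ hd
  constructor
  · intro s r hs hr e
    have := huniq (s, r) ⟨hs, hr, e⟩
    have hsr : s = s₁ := congrArg Prod.fst this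
    subst hsr
    ext d
    simp only [Subgroup.mem_inf, Subgroup.mem_centralizer_singleton_iff]
    constructor
    · rintro ⟨hd, h⟩
      refine ⟨hd, ?_⟩
      have := hC hd
      first
        | exact (this.1 h.symm).symm
        | exact this.1 h
    · rintro ⟨hd, h⟩
      refine ⟨hd, ?_⟩
      have := hC hd
      first
        | exact (this.2 h.symm).symm
        | exact this.2 h
  · ext d
    simp only [Subgroup.mem_inf, Subgroup.mem_centralizer_singleton_iff, Subgroup.mem_centralizer_iff]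
    constructor
    · rintro ⟨⟨hd, ht⟩, hk⟩
      refine ⟨hd, fun s hs => ?_⟩
      obtain ⟨k, hk₀, rfl⟩ := RankOne.exists_from_base hS hs₁ hr₁ e₁ hs
      have h1 : Commute d k := (hk k hk₀).symm
      have h2 : Commute d s₁ := by
        exact (hC hd).1 (ht t rfl).symm
      exact ((h1.inv_right.mul_right h2).mul_right h1).symm
    · rintro ⟨hd, hJ⟩
      have ht : d * t = t * d := (hC hd).2 (hJ s₁ hs₁).symm
      refine ⟨⟨hd, fun h hh => by rw [Set.mem_singleton_iff.1 hh]; exact ht.symm⟩, fun k hk => ?_⟩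
      obtain ⟨hkD, hkt⟩ := (RankOne.mem_I hS).1 hk
      obtain ⟨hs', hs1, hs2⟩ := hs₁
      have hJk : k⁻¹ * s₁ * k ∈ Cfsg.involutionsIn (MulAction.stabilizer G a : Set G) := by
        refine ⟨mul_mem (mul_mem (inv_mem hkD.1) hs') hkD.1, fun h => hs1 ?_, ?_⟩
        · calc s₁ = k * (k⁻¹ * s₁ * k) * k⁻¹ := by group
            _ = 1 := by rw [h]; group
        · rw [show k⁻¹ * s₁ * k * (k⁻¹ * s₁ * k) = k⁻¹ * (s₁ * s₁) * k by group, hs2]; group
      have he : (k * d * k⁻¹) * s₁ = s₁ * (k * d * k⁻¹) := by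
        calc k * d * k⁻¹ * s₁ = k * (d * (k⁻¹ * s₁ * k)) * k⁻¹ := by group
          _ = k * ((k⁻¹ * s₁ * k) * d) * k⁻¹ := by rw [← hJ _ hJk]
          _ = _ := by group
      have h' := (RankOne.centralizer_eq hS ⟨hs', hs1, hs2⟩ hr₁ e₁ (mul_mem (mul_mem hkD hd) (inv_mem hkD))).2 he
      have ht2 : t * (k * d * k⁻¹) * t = k * d * k⁻¹ := by
        rw [← h', mul_assoc, hS.mul_self, mul_one]
      have hdt : t * d * t = d := by rw [← ht, mul_assoc, hS.mul_self, mul_one]
      have hki : t * k⁻¹ * t = k := by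
        rw [← hkt, show t * (t * k * t) * t = (t * t) * k * (t * t) by group, hS.mul_self]; group
      have e3 : k⁻¹ * d * k = k * d * k⁻¹ := by
        calc k⁻¹ * d * k = (t * k * t) * (t * d * t) * (t * k⁻¹ * t) := by rw [hkt, hdt, hki]
          _ = t * (k * d * k⁻¹) * t := by simp only [mul_assoc, ← mul_assoc t t, hS.mul_self, one_mul]
          _ = _ := ht2
      have hc : Commute d (k ^ 2) := by
        show d * k ^ 2 = k ^ 2 * d
        calc d * k ^ 2 = k * (k⁻¹ * d * k) * k := by rw [pow_two]; group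
          _ = k * (k * d * k⁻¹) * k := by rw [e3]
          _ = _ := by rw [pow_two]; group
      have ho : Odd (orderOf k) := RankOne.odd_orderOf_mem hS.odd_card hkD
      have hkk : k = (k ^ 2) ^ ((orderOf k + 1) / 2) := by
        rw [← pow_mul, mul_comm, pow_mul]; exact (RankOne.root_sq ho).symm
      have : Commute d k := by rw [hkk]; exact hc.pow_right _
      exact this.eq.symm

end Cfsg.Agent.S1127
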