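import Cfsg.Statements.S1130
import Cfsg.Agent.Lib.RankOne.Fix
-- import your own Cfsg.Agent.* helpers here

set_option autoImplicit false
open Cfsg

namespace Cfsg.Agent.S1130

/-- In the rank-one set-up (`G` finite and doubly transitive on `Ω`, `t` an involution moving `a`, `Q` normal in `G_a` with `G_a = Q D`, `Q ⊓ D = 1` for the two-point stabiliser `D = G_a ⊓ G_{t • a}`, `|Q|` even, `|D|` odd), with the action faithful and `G` containing two distinct commuting involutions: the involutions of `G_a` lie in `Z(Q)`, and together with `1` they are closed under multiplication (so form an elementary abelian 2-subgroup). -/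
theorem result {G Ω : Type*} [Group G] [Finite G] [MulAction G Ω] [FaithfulSMul G Ω] {a : Ω} {t : G} {Q : Subgroup G}
    (hS : Cfsg.IsRankOneSetup G Ω a t Q)
    (h2 : ∃ x y : G, x ≠ 1 ∧ y ≠ 1 ∧ x ≠ y ∧ x * x = 1 ∧ y * y = 1 ∧ x * y = y * x) :
    (∀ s ∈ Cfsg.involutionsIn (MulAction.stabilizer G a : Set G), s ∈ Q ∧ ∀ x ∈ Q, s * x = x * s) ∧
      ∀ s ∈ Cfsg.involutionsIn (MulAction.stabilizer G a : Set G), ∀ s' ∈ Cfsg.involutionsIn (MulAction.stabilizer G a : Set G),
        s * s' = 1 ∨ s * s' ∈ Cfsg.involutionsIn (MulAction.stabilizer G a : Set G) := by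
  refine ⟨fun s hs => ⟨RankOne.invol_mem hS hs.1 hs.2.2, fun x hx => RankOne.invol_central hS h2 hs hx⟩,
    fun s hs s' hs' => ?_⟩
  by_cases h : s * s' = 1
  · exact Or.inl h
  refine Or.inr ⟨(MulAction.stabilizer G a).mul_mem hs.1 hs'.1, h, ?_⟩
  have hc := RankOne.invol_central hS h2 hs (RankOne.invol_mem hS hs'.1 hs'.2.2)
  calc s * s' * (s * s') = s * (s' * s) * s' := by group
    _ = s * (s * s') * s' := by rw [← hc]
    _ = (s * s) * (s' * s') := by group
    _ = 1 := by rw [hs.2.2, hs'.2.2, mul_one]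

end Cfsg.Agent.S1130
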