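import Cfsg.Statements.S1134
import Cfsg.Agent.Lib.RankOne.Fix
-- import your own Cfsg.Agent.* helpers here

set_option autoImplicit false
open Cfsg

namespace Cfsg.Agent.S1134

/-- In the rank-one set-up (`G` finite and doubly transitive on `Ω`, `t` an involution moving `a`, `Q` normal in `G_a` with `G_a = Q D`, `Q ⊓ D = 1` for the two-point stabiliser `D = G_a ⊓ G_{t • a}`, `|Q|` even, `|D|` odd), with the action faithful and `G` containing two distinct commuting involutions, with `V = C_D(t)`: subsets of `V` conjugate in `G` are conjugate in `V`. -/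
theorem result {G Ω : Type*} [Group G] [Finite G] [MulAction G Ω] [FaithfulSMul G Ω] {a : Ω} {t : G} {Q : Subgroup G}
    (hS : Cfsg.IsRankOneSetup G Ω a t Q)
    (h2 : ∃ x y : G, x ≠ 1 ∧ y ≠ 1 ∧ x ≠ y ∧ x * x = 1 ∧ y * y = 1 ∧ x * y = y * x)
    (X : Set G) (hX : X ⊆ (((MulAction.stabilizer G a ⊓ MulAction.stabilizer G (t • a)) ⊓ Subgroup.centralizer {t} : Subgroup G) : Set G)) (g : G)
    (hY : (fun x => g * x * g⁻¹) '' X ⊆ (((MulAction.stabilizer G a ⊓ MulAction.stabilizer G (t • a)) ⊓ Subgroup.centralizer {t} : Subgroup G) : Set G)) :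
    ∃ v ∈ (MulAction.stabilizer G a ⊓ MulAction.stabilizer G (t • a)) ⊓ Subgroup.centralizer {t}, (fun x => v * x * v⁻¹) '' X = (fun x => g * x * g⁻¹) '' X := by
  set D := MulAction.stabilizer G a ⊓ MulAction.stabilizer G (t • a) with hD
  set V := D ⊓ Subgroup.centralizer {t} with hV
  have hct : ∀ v ∈ V, t * v = v * t := fun v hv =>
    Subgroup.mem_centralizer_iff.1 hv.2 t (Set.mem_singleton t)
  obtain ⟨c, hc, hcu⟩ := RankOne.invol_fix hS hS.ne_one hS.mul_self
  have hca : c ≠ a := fun h => RankOne.ne_b hS (h ▸ hc)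
  have hcb : c ≠ t • a := fun h => by
    subst h
    rw [RankOne.t_b hS] at hc
    exact RankOne.ne_b hS hc.symm
  have hfix : ∀ v ∈ V, v • c = c := fun v hv => hcu _ (by
    show t • v • c = v • c
    rw [smul_smul, hct v hv, mul_smul, hc])
  have hback : ∀ x ∈ X, ∀ e : Ω, (g * x * g⁻¹) • e = e → x • (g⁻¹ • e) = g⁻¹ • e := fun x _ e h => by
    rw [mul_smul, mul_smul] at h
    exact eq_inv_smul_iff.2 h
  have hY' : ∀ x ∈ X, g * x * g⁻¹ ∈ V := fun x hx => hY ⟨x, hx, rfl⟩
  have hXV : ∀ x ∈ X, x ∈ V := fun x hx => hX hx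
  obtain ⟨z, hz, hza, hzb⟩ := RankOne.cent_pair hS X (RankOne.ne_b hS).symm hca.symm hcb.symm
    (fun x hx => ⟨(hXV x hx).1.1, (hXV x hx).1.2, hfix x (hXV x hx)⟩)
    (b₁ := a) (b₂ := t • a) (c₁ := g⁻¹ • a) (c₂ := g⁻¹ • (t • a))
    (fun x hx => ⟨(hXV x hx).1.1, (hXV x hx).1.2, hback x hx a (hY' x hx).1.1,
      hback x hx _ (hY' x hx).1.2⟩) (RankOne.ne_b hS).symm
    (fun h => (RankOne.ne_b hS).symm (smul_left_cancel _ h))
  obtain ⟨d, hd⟩ : ∃ d, d = g * z := ⟨_, rfl⟩
  have hdD : d ∈ D := ⟨(by show d • a = a; rw [hd, mul_smul, hza, smul_inv_smul]),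
    (by show d • (t • a) = t • a; rw [hd, mul_smul, hzb, smul_inv_smul])⟩
  have hdconj : ∀ x ∈ X, d * x * d⁻¹ = g * x * g⁻¹ := fun x hx => by
    have hzx : x * z = z * x := Subgroup.mem_centralizer_iff.1 hz x hx
    calc d * x * d⁻¹ = g * (z * x) * z⁻¹ * g⁻¹ := by rw [hd]; group
      _ = g * (x * z) * z⁻¹ * g⁻¹ := by rw [hzx]
      _ = _ := by group
  have hti := RankOne.t_inv hS
  set y := d⁻¹ * (t * d * t) with hy
  have hyI : y ∈ Cfsg.invertedBy D t := by
    refine (RankOne.mem_I hS).2 ⟨mul_mem (inv_mem hdD) (RankOne.conj_mem_D hS hdD), ?_⟩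
    rw [hy, mul_inv_rev, inv_inv, mul_inv_rev, mul_inv_rev, hti]
    calc t * (d⁻¹ * (t * d * t)) * t = t * d⁻¹ * t * d * (t * t) := by group
      _ = t * (d⁻¹ * t) * d := by rw [hS.mul_self]; group
  have hyX : ∀ x ∈ X, Commute y x := fun x hx => by
    have h1 : t * x = x * t := hct x (hXV x hx)
    have h2 : t * (d * x * d⁻¹) = d * x * d⁻¹ * t := by
      rw [hdconj x hx]; exact hct _ (hY' x hx)
    show y * x = x * y
    calc y * x = d⁻¹ * t * d * (t * x) := by rw [hy]; group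
      _ = d⁻¹ * (t * (d * x * d⁻¹)) * d * t := by rw [h1]; group
      _ = d⁻¹ * (d * x * d⁻¹ * t) * d * t := by rw [h2]
      _ = x * y := by rw [hy]; group
  have ho : Odd (orderOf y) := RankOne.odd_orderOf_mem hS.odd_card ((RankOne.mem_I hS).1 hyI).1
  set k := y ^ ((orderOf y + 1) / 2) with hk
  obtain ⟨hkD, hkt⟩ := (RankOne.mem_I hS).1 (RankOne.pow_mem_I hS hyI ((orderOf y + 1) / 2))
  rw [← hk] at hkD hkt
  have hk2 : k * k = y := by rw [← pow_two]; exact RankOne.root_sq ho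
  have hfix' : t * (d * k) * t = d * k := by
    calc t * (d * k) * t = (t * d * t) * (t * k * t) := by
          rw [show t * d * t * (t * k * t) = t * d * (t * t) * k * t by group, hS.mul_self]; group
      _ = d * y * k⁻¹ := by rw [hkt, hy]; group
      _ = d * k := by rw [← hk2]; group
  refine ⟨d * k, ⟨mul_mem hdD hkD, Subgroup.mem_centralizer_iff.2 ?_⟩, Set.image_congr ?_⟩
  · intro w hw
    rw [Set.mem_singleton_iff.1 hw]
    calc t * (d * k) = t * (d * k) * t * t := by rw [mul_assoc _ t t, hS.mul_self, mul_one]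
      _ = d * k * t := by rw [hfix']
  · intro x hx
    have hkx : k * x = x * k := ((hyX x hx).pow_left _).eq
    show d * k * x * (d * k)⁻¹ = g * x * g⁻¹
    rw [← hdconj x hx]
    calc d * k * x * (d * k)⁻¹ = d * (k * x) * k⁻¹ * d⁻¹ := by group
      _ = d * (x * k) * k⁻¹ * d⁻¹ := by rw [hkx]
      _ = _ := by group

end Cfsg.Agent.S1134
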