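import Cfsg.Statements.S1135
import Cfsg.Agent.Lib.RankOne.Fix
-- import your own Cfsg.Agent.* helpers here

set_option autoImplicit false
open Cfsg

namespace Cfsg.Agent.S1135

/-- In the rank-one set-up (`G` finite and doubly transitive on `Ω`, `t` an involution moving `a`, `Q` normal in `G_a` with `G_a = Q D`, `Q ⊓ D = 1` for the two-point stabiliser `D = G_a ⊓ G_{t • a}`, `|Q|` even, `|D|` odd), with the action faithful and `G` containing two distinct commuting involutions: if `x = u v` with `u, v` involutions and `x² ≠ 1`, then `x` is conjugate to `u' t` for some involution `u'` of `G_a`, and `|C_G(x)|` is odd. -/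
theorem result {G Ω : Type*} [Group G] [Finite G] [MulAction G Ω] [FaithfulSMul G Ω] {a : Ω} {t : G} {Q : Subgroup G}
    (hS : Cfsg.IsRankOneSetup G Ω a t Q)
    (h2 : ∃ x y : G, x ≠ 1 ∧ y ≠ 1 ∧ x ≠ y ∧ x * x = 1 ∧ y * y = 1 ∧ x * y = y * x)
    (u v : G) (hu1 : u ≠ 1) (hu2 : u * u = 1) (hv1 : v ≠ 1) (hv2 : v * v = 1) (hx : (u * v) * (u * v) ≠ 1) :
    (∃ g : G, ∃ u' ∈ Cfsg.involutionsIn (MulAction.stabilizer G a : Set G), g * (u * v) * g⁻¹ = u' * t) ∧
      Odd (Nat.card ↥(Subgroup.centralizer {u * v})) := by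
  set x := u * v with hxdef
  have hmove : ∀ (g w : G), w * w = 1 → g * w * g⁻¹ * (g * w * g⁻¹) = 1 := fun g w hw => by
    rw [show g * w * g⁻¹ * (g * w * g⁻¹) = g * (w * w) * g⁻¹ by group, hw]; group
  have hne : ∀ {g w : G}, w ≠ 1 → g * w * g⁻¹ ≠ 1 := fun hw h => hw (conj_eq_one_iff.1 h)
  have hcommute : ∀ c : Ω, u • c = c → v • c = c → False := by
    intro c huc hvc
    obtain ⟨g, hg⟩ := RankOne.exists_move_one hS c a
    have hu' : g * u * g⁻¹ ∈ Cfsg.involutionsIn (MulAction.stabilizer G a : Set G) :=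
      ⟨RankOne.move_fix hg huc, hne hu1, hmove g u hu2⟩
    have hv' : g * v * g⁻¹ ∈ Q := RankOne.invol_mem hS (RankOne.move_fix hg hvc) (hmove g v hv2)
    have h : u * v = v * u := by
      have h' := RankOne.invol_central hS h2 hu' hv'
      calc u * v = g⁻¹ * (g * u * g⁻¹ * (g * v * g⁻¹)) * g := by group
        _ = g⁻¹ * (g * v * g⁻¹ * (g * u * g⁻¹)) * g := by rw [h']
        _ = v * u := by group
    apply hx
    calc u * v * (u * v) = u * (v * u) * v := by group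
      _ = u * (u * v) * v := by rw [h]
      _ = (u * u) * (v * v) := by group
      _ = 1 := by rw [hu2, hv2, mul_one]
  obtain ⟨c, huc, -⟩ := RankOne.invol_fix hS hu1 hu2
  refine ⟨?_, ?_⟩
  · obtain ⟨g, hg⟩ := RankOne.exists_move_one hS c a
    have hva : (g * v * g⁻¹) • a ≠ a := fun h => hcommute c huc (by
      rw [mul_smul, mul_smul, ← hg, inv_smul_smul] at h
      exact smul_left_cancel g h)
    obtain ⟨r, hr, k, hk, e⟩ := RankOne.outside_form hS (hmove g v hv2) hva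
    obtain ⟨k₀, hk₀, -, hkt⟩ := RankOne.exists_root hS hk
    have hh : k₀⁻¹ * r ∈ MulAction.stabilizer G a :=
      mul_mem (inv_mem ((RankOne.mem_I hS).1 hk₀).1.1) (hS.le hr)
    refine ⟨k₀⁻¹ * r * g, k₀⁻¹ * r * g * u * (k₀⁻¹ * r * g)⁻¹,
      ⟨RankOne.move_fix (by rw [mul_smul, hg]; exact hh) huc, hne hu1, hmove _ u hu2⟩, ?_⟩
    calc k₀⁻¹ * r * g * (u * v) * (k₀⁻¹ * r * g)⁻¹
        = k₀⁻¹ * r * g * u * (k₀⁻¹ * r * g)⁻¹ * (k₀⁻¹ * r * (g * v * g⁻¹) * r⁻¹ * k₀) := by group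
      _ = _ := by rw [e, hkt]; group
  · by_contra hodd
    rw [Nat.not_odd_iff_even, even_iff_two_dvd] at hodd
    have := Fact.mk Nat.prime_two
    obtain ⟨⟨z, hzx⟩, hz⟩ := exists_prime_orderOf_dvd_card' 2 hodd
    rw [Subgroup.orderOf_mk] at hz
    have hz1 : z ≠ 1 := fun h => by rw [h, orderOf_one] at hz; omega
    have hz2 : z * z = 1 := by rw [← pow_two, ← hz, pow_orderOf_eq_one]
    have hzc : x * z = z * x := Subgroup.mem_centralizer_iff.1 hzx x (Set.mem_singleton _)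
    obtain ⟨e, he, heu⟩ := RankOne.invol_fix hS hz1 hz2
    have hxe : x • e = e := heu _ (by show z • x • e = x • e; rw [smul_smul, ← hzc, mul_smul, he])
    have hinv : u * x * u = x⁻¹ := by
      rw [hxdef, ← mul_assoc, hu2, one_mul, mul_inv_rev, inv_eq_of_mul_eq_one_right hu2,
        inv_eq_of_mul_eq_one_right hv2]
    have hxi : x⁻¹ • e = e := by rw [inv_smul_eq_iff, hxe]
    have hue : u • e ≠ e := fun h => hcommute e h (by
      have hv : v = u * x := by rw [hxdef, ← mul_assoc, hu2, one_mul]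
      rw [hv, mul_smul, hxe, h])
    have hxue : x • (u • e) = u • e := by
      rw [smul_smul]
      have : x * u = u * x⁻¹ := by rw [← hinv, ← mul_assoc, ← mul_assoc, hu2, one_mul]
      rw [this, mul_smul, hxi]
    obtain ⟨g, hga, hgb⟩ := RankOne.exists_move hS hue.symm (RankOne.ne_b hS).symm
    have hxD : g * x * g⁻¹ ∈ MulAction.stabilizer G a ⊓ MulAction.stabilizer G (t • a) :=
      ⟨RankOne.move_fix hga hxe, RankOne.move_fix hgb hxue⟩
    have hk := RankOne.mul_t_mem_I hS (hmove g u hu2) (by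
      rw [mul_smul, mul_smul, ← hgb, ← hga, inv_smul_smul])
    obtain ⟨k₀, hk₀, -, hkt⟩ := RankOne.exists_root hS hk
    rw [mul_assoc (g * u * g⁻¹), hS.mul_self, mul_one] at hkt
    have hk₀D := ((RankOne.mem_I hS).1 hk₀).1
    set y := k₀⁻¹ * (g * x * g⁻¹) * k₀ with hy
    have hyI : y ∈ Cfsg.invertedBy (MulAction.stabilizer G a ⊓ MulAction.stabilizer G (t • a)) t := by
      refine (RankOne.mem_I hS).2 ⟨mul_mem (mul_mem (inv_mem hk₀D) hxD) hk₀D, ?_⟩
      have ht : t = k₀⁻¹ * (g * u * g⁻¹) * k₀ := by rw [hkt]; group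
      calc t * y * t = k₀⁻¹ * (g * u * g⁻¹) * k₀ * y * (k₀⁻¹ * (g * u * g⁻¹) * k₀) := by rw [← ht]
        _ = k₀⁻¹ * g * (u * x * u) * g⁻¹ * k₀ := by rw [hy]; group
        _ = y⁻¹ := by rw [hinv, hy]; group
    have hzJ : k₀⁻¹ * g * z * (k₀⁻¹ * g)⁻¹ ∈ Cfsg.involutionsIn (MulAction.stabilizer G a : Set G) :=
      ⟨RankOne.move_fix (by rw [mul_smul, hga]; exact (MulAction.stabilizer G a).inv_mem hk₀D.1) he, hne hz1, hmove _ z hz2⟩
    have hy1 := RankOne.I_not_commute hS hzJ hyI (by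
      calc y * (k₀⁻¹ * g * z * (k₀⁻¹ * g)⁻¹) = k₀⁻¹ * g * (x * z) * g⁻¹ * k₀ := by rw [hy]; group
        _ = k₀⁻¹ * g * (z * x) * g⁻¹ * k₀ := by rw [hzc]
        _ = _ := by rw [hy]; group)
    have hx1 : x = 1 := by
      calc x = g⁻¹ * k₀ * y * k₀⁻¹ * g := by rw [hy]; group
        _ = 1 := by rw [hy1]; group
    exact hx (by rw [hx1, mul_one])

end Cfsg.Agent.S1135
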