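import Cfsg.Statements.S1140

-- import your own Cfsg.Agent.* helpers here

set_option autoImplicit false
open Cfsg

namespace Cfsg.Agent.S1140

/-- For a finite field `F` of characteristic 2, the automorphisms of `F`, viewed as additive maps `F → F`, are linearly independent over `F` (acting on values) every additive endomorphism of `F` is an `F`-linear combination of them, and every biadditive map `F → F → F` is an `F`-combination of the maps `(x, y) ↦ σ(x) τ(y)`. -/
theorem result {F : Type*} [Field F] [Fintype F] [CharP F 2] :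
    LinearIndependent F (fun σ : F ≃+* F => ((σ : F →+* F) : F → F)) ∧
      (∀ f : F →+ F, ∃ (s : Finset (F ≃+* F)) (c : (F ≃+* F) → F), ∀ x : F, f x = ∑ σ ∈ s, c σ * σ x) ∧
      ∀ B : F →+ F →+ F, ∃ (s : Finset ((F ≃+* F) × (F ≃+* F))) (c : (F ≃+* F) × (F ≃+* F) → F),
        ∀ x y : F, B x y = ∑ p ∈ s, c p * (p.1 x * p.2 y) := by
  classical
  let alg : Algebra (ZMod 2) F := ZMod.algebra F 2
  have : Fact (Nat.Prime 2) := ⟨Nat.prime_two⟩
  have : Fintype (F ≃+* F) := Fintype.ofInjective (fun σ => (σ : F → F)) DFunLike.coe_injective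
  let toLin : (F ≃+* F) → (F →ₗ[ZMod 2] F) := fun σ => (σ.toAddEquiv.toAddMonoidHom).toZModLinearMap 2
  have hLI : LinearIndependent F (fun σ : F ≃+* F => ((σ : F →+* F) : F → F)) := by
    refine (linearIndependent_monoidHom F F).comp (fun σ : F ≃+* F => ((σ : F →+* F) : F →* F)) ?_
    intro σ τ h
    exact RingEquiv.ext fun x => DFunLike.congr_fun h x
  have hLI' : LinearIndependent F toLin := by
    rw [Fintype.linearIndependent_iff] at hLI ⊢
    intro g hg i
    refine hLI g ?_ i
    funext x
    have := LinearMap.congr_fun hg x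
    simpa [toLin] using this
  have hcard : Fintype.card (F ≃+* F) = Module.finrank F (F →ₗ[ZMod 2] F) := by
    rw [Module.finrank_linearMap_self, ← IsGalois.card_aut_eq_finrank (ZMod 2) F, ← Nat.card_eq_fintype_card]
    refine Nat.card_congr
      { toFun := fun σ => AlgEquiv.ofRingEquiv (f := σ) fun x => ?_
        invFun := fun σ => σ.toRingEquiv
        left_inv := fun σ => RingEquiv.ext fun _ => rfl
        right_inv := fun σ => AlgEquiv.ext fun _ => rfl }
    exact RingHom.congr_fun (RingHom.ext_zmod ((σ : F →+* F).comp (algebraMap (ZMod 2) F)) (algebraMap (ZMod 2) F)) x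
  let b := basisOfLinearIndependentOfCardEqFinrank hLI' hcard
  have hb : ⇑b = toLin := coe_basisOfLinearIndependentOfCardEqFinrank hLI' hcard
  have hrep : ∀ (f : F →+ F) (x : F), f x = ∑ σ, b.repr (f.toZModLinearMap 2) σ * σ x := by
    intro f x
    have h := LinearMap.congr_fun (b.sum_repr (f.toZModLinearMap 2)) x
    rw [hb] at h
    simpa [toLin] using h.symm
  refine ⟨hLI, fun f => ⟨Finset.univ, fun σ => b.repr (f.toZModLinearMap 2) σ, hrep f⟩, fun B => ?_⟩
  let cc : (F ≃+* F) → (F →+ F) := fun σ => AddMonoidHom.mk'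
    (fun y => b.repr ((B.flip y).toZModLinearMap 2) σ) fun y y' => by
      have : (B.flip (y + y')).toZModLinearMap 2 = (B.flip y).toZModLinearMap 2 + (B.flip y').toZModLinearMap 2 :=
        LinearMap.ext fun z => by simp
      show b.repr ((B.flip (y + y')).toZModLinearMap 2) σ = _
      rw [this, map_add]
      rfl
  refine ⟨Finset.univ, fun p => b.repr ((cc p.1).toZModLinearMap 2) p.2, fun x y => ?_⟩
  calc B x y = ∑ σ, b.repr ((B.flip y).toZModLinearMap 2) σ * σ x := by rw [← hrep]; rfl
    _ = ∑ σ, cc σ y * σ x := rfl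
    _ = ∑ σ, ∑ τ, b.repr ((cc σ).toZModLinearMap 2) τ * τ y * σ x :=
        Finset.sum_congr rfl fun σ _ => by rw [hrep (cc σ) y, Finset.sum_mul]
    _ = _ := by
        rw [Fintype.sum_prod_type]
        exact Finset.sum_congr rfl fun σ _ => Finset.sum_congr rfl fun τ _ => by ring

end Cfsg.Agent.S1140
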