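import Cfsg.Statements.S1141
import Cfsg.Agent.Lib.Classical.PSUAut.Image
import Cfsg.Agent.Lib.Classical.UnitaryCentre
-- import your own Cfsg.Agent.* helpers here

set_option autoImplicit false
open Cfsg

namespace Cfsg.Agent.S1141

section helper

open Cfsg.Lib.Classical.PSUAut Matrix
open Cfsg.Lib.Classical (herm_smul_right herm_zero_left herm_eq_zero_symm exists_trace_eq)

variable {F : Type*} [Field F] [Fintype F]

/-- transfer of the defining property along an isomorphism -/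
theorem suzuki_of_equiv {P Q : Type*} [Group P] [Group Q] (e : P ≃* Q) (h : Cfsg.IsSuzukiTwoGroup P) :
    Cfsg.IsSuzukiTwoGroup Q := by
  obtain ⟨hf, hp, ⟨x, y, hxy⟩, ⟨u, v, huv, hu1, hu2, hv1, hv2⟩, K, hK, hreg⟩ := h
  refine ⟨Finite.of_equiv P e.toEquiv, hp.of_equiv e, ⟨e x, e y, by simpa [← map_mul] using hxy⟩,
    ⟨e u, e v, e.injective.ne huv, by simpa using hu1, by rw [← map_mul, hu2, map_one], by simpa using hv1,
      by rw [← map_mul, hv2, map_one]⟩, ?_⟩
  let φ : MulAut P →* MulAut Q :=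
    { toFun := fun a => (e.symm.trans a).trans e
      map_one' := MulEquiv.ext fun z => by simp
      map_mul' := fun a b => MulEquiv.ext fun z => by simp }
  have := hK
  refine ⟨K.map φ, isCyclic_of_surjective _ (MonoidHom.subgroupMap_surjective φ K), fun a b ha1 ha2 hb1 hb2 => ?_⟩
  obtain ⟨k, hk, hku⟩ := hreg (e.symm a) (e.symm b) (by simpa using ha1) (by rw [← map_mul, ha2, map_one])
    (by simpa using hb1) (by rw [← map_mul, hb2, map_one])
  refine ⟨⟨φ k, Subgroup.mem_map_of_mem φ k.2⟩, ?_, ?_⟩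
  · show e ((k : MulAut P) (e.symm a)) = b
    rw [hk, MulEquiv.apply_symm_apply]
  · rintro ⟨_, l, hl, rfl⟩ hla
    have : (⟨l, hl⟩ : K) = k := hku ⟨l, hl⟩ (e.injective (by
      rw [MulEquiv.apply_symm_apply]; exact hla))
    subst this
    rfl

set_option maxHeartbeats 1000000 in
theorem main_aux {q k : ℕ} (hk : 2 ≤ k) (hq : q = 2 ^ k) (hF : Fintype.card F = q ^ 2) (S : Sylow 2 (Cfsg.PSU 3 F q)) :
    Nat.card S = q ^ 3 ∧ Nat.card (Subgroup.center ↥(S : Subgroup (Cfsg.PSU 3 F q))) = q ∧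
      Cfsg.IsSuzukiTwoGroup ↥(S : Subgroup (Cfsg.PSU 3 F q)) := by
  classical
  have : Fact (Nat.Prime 2) := ⟨Nat.prime_two⟩
  have h4q : 4 ≤ q := by
    rw [hq]; exact le_trans (by norm_num) (Nat.pow_le_pow_right (by norm_num) hk)
  have hqe : Even q := by rw [hq]; exact (Nat.even_pow).2 ⟨even_two, by omega⟩
  obtain ⟨σ, hc⟩ := exists_ctx (F := F) 3 hF
  have hch : CharP F 2 := by
    obtain ⟨p, hp⟩ := CharP.exists F
    obtain ⟨j, hpp, hj⟩ := FiniteField.card F p
    have : p = 2 := by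
      rw [hF, hq, ← pow_mul] at hj
      exact ((Nat.prime_dvd_prime_iff_eq Nat.prime_two hpp).1 (Nat.prime_two.dvd_of_dvd_pow
        (hj ▸ dvd_pow_self 2 (by omega)))).symm
    exact this ▸ hp
  have hσσ : ∀ a, σ (σ a) = a := by
    intro a
    rw [hc.pow, hc.pow, ← pow_mul, ← pow_two, ← hF, FiniteField.pow_card]
  -- the trace
  let T : F →+ F := AddMonoidHom.mk' (fun a => a + σ a) fun a b => by rw [map_add]; ring
  have hroots : Nat.card {a : F // σ a = a} ≤ q := by
    have hp : (Polynomial.X ^ q - Polynomial.X : Polynomial F) ≠ 0 :=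
      FiniteField.X_pow_card_sub_X_ne_zero F (by omega)
    rw [Nat.card_eq_fintype_card, Fintype.card_subtype]
    calc _ ≤ (Polynomial.X ^ q - Polynomial.X : Polynomial F).roots.toFinset.card := by
          refine Finset.card_le_card fun a ha => ?_
          rw [Finset.mem_filter] at ha
          rw [Multiset.mem_toFinset, Polynomial.mem_roots hp]
          simp [← hc.pow, ha.2]
      _ ≤ (Polynomial.X ^ q - Polynomial.X : Polynomial F).roots.card := Multiset.toFinset_card_le _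
      _ ≤ q := (Polynomial.card_roots' _).trans (by rw [FiniteField.X_pow_card_sub_X_natDegree_eq F (by omega)])
  have hker : ∀ a, T a = 0 ↔ σ a = a := fun a => by
    show a + σ a = 0 ↔ _
    rw [CharTwo.add_eq_zero, eq_comm]
  have hTim : ∀ a, σ (T a) = T a := fun a => by
    show σ (a + σ a) = a + σ a
    rw [map_add, hσσ, add_comm]
  have hkcard : Nat.card T.ker = Nat.card {a : F // σ a = a} :=
    Nat.card_congr (Equiv.subtypeEquivRight fun a => hker a)
  have hrle : Nat.card T.range ≤ Nat.card {a : F // σ a = a} :=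
    Nat.card_le_card_of_injective (fun x : T.range => (⟨x.1, by
      obtain ⟨a, ha⟩ := x.2
      rw [← ha]; exact hTim a⟩ : {a : F // σ a = a}))
      fun x y e => Subtype.ext (congrArg (fun z : {a : F // σ a = a} => z.1) e)
  have hprod : Nat.card T.ker * Nat.card T.range = q * q := by
    rw [← AddSubgroup.index_ker, AddSubgroup.card_mul_index, Nat.card_eq_fintype_card, hF, pow_two]
  have hfix : Nat.card {a : F // σ a = a} = q := by
    rw [hkcard] at hprod
    refine le_antisymm hroots ?_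
    by_contra hlt
    have : Nat.card {a : F // σ a = a} * Nat.card T.range < q * q :=
      lt_of_le_of_lt (Nat.mul_le_mul_left _ hrle) (Nat.mul_lt_mul_of_lt_of_lt (by omega) (by omega))
    omega
  have hsurj : ∀ c, σ c = c → ∃ a, T a = c := by
    intro c hc'
    have hr : Nat.card T.range = q := by
      rw [hkcard, hfix] at hprod
      exact Nat.eq_of_mul_eq_mul_left (by omega) hprod
    have hb : Function.Bijective (fun x : T.range => (⟨x.1, by
        obtain ⟨a, ha⟩ := x.2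
        rw [← ha]; exact hTim a⟩ : {a : F // σ a = a})) := by
      rw [Nat.bijective_iff_injective_and_card]
      exact ⟨fun x y e => Subtype.ext (congrArg (fun z : {a : F // σ a = a} => z.1) e), by rw [hr, hfix]⟩
    obtain ⟨⟨_, a, rfl⟩, hx⟩ := hb.2 ⟨c, hc'⟩
    exact ⟨a, congrArg (fun z : {a : F // σ a = a} => z.1) hx⟩
  -- the frame
  obtain ⟨a0, ha0⟩ := hsurj 1 (map_one σ)
  have ha0' : a0 + σ a0 = 1 := ha0
  let e : Fin 3 → F := ![1, 1, 0]
  let f : Fin 3 → F := ![a0, 1 + a0, 0]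
  have hhdef : ∀ u v : Fin 3 → F, Cfsg.hermForm 3 F q u v = u 0 * σ (v 0) + u 1 * σ (v 1) + u 2 * σ (v 2) := by
    intro u v
    simp only [Cfsg.hermForm, Fin.sum_univ_three, hc.pow]
  have h2 : (2 : F) = 0 := CharTwo.two_eq_zero
  have hee : Cfsg.hermForm 3 F q e e = 0 := by
    rw [hhdef]; simp [e]; linear_combination h2
  have hff : Cfsg.hermForm 3 F q f f = 0 := by
    rw [hhdef]; simp [f]; linear_combination ha0' + (1 + a0 * σ a0) * h2
  have hfe : Cfsg.hermForm 3 F q f e = 1 := by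
    rw [hhdef]; simp [f, e]; linear_combination a0 * h2
  have he0 : e ≠ 0 := fun h => by simpa [e] using congrFun h 0
  have hperp : ∀ w, Cfsg.hermForm 3 F q w e = 0 → Cfsg.hermForm 3 F q w f = 0 → w = ![0, 0, w 2] := by
    intro w h1 h3
    rw [hhdef] at h1 h3
    simp [e, f] at h1 h3
    have hw0 : w 0 = 0 := by linear_combination -h3 + (1 + σ a0) * h1 + (0 : F) * h2
    have hw1 : w 1 = 0 := by rw [hw0, zero_add] at h1; exact h1
    funext i; fin_cases i <;> simp [hw0, hw1]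
  -- parameters
  let Par := {xz : F × F // xz.2 + σ xz.2 + xz.1 * σ xz.1 = 0}
  let w : F → (Fin 3 → F) := fun x => ![0, 0, x]
  have hwe : ∀ x, Cfsg.hermForm 3 F q (w x) e = 0 := fun x => by rw [hhdef]; simp [w, e]
  have hwf : ∀ x, Cfsg.hermForm 3 F q (w x) f = 0 := fun x => by rw [hhdef]; simp [w, f]
  have hww : ∀ x y, Cfsg.hermForm 3 F q (w x) (w y) = x * σ y := fun x y => by rw [hhdef]; simp [w]
  have hz : ∀ p : Par, p.1.2 + σ p.1.2 + Cfsg.hermForm 3 F q (w p.1.1) (w p.1.1) = 0 := fun p => by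
    rw [hww]; exact p.2
  let g : Par → Cfsg.PSU 3 F q := fun p => QuotientGroup.mk (EU e (w p.1.1) p.1.2)
  let Q : Subgroup (Cfsg.PSU 3 F q) := Qb q e
  have hgQ : ∀ p, g p ∈ Q := fun p => mk_mem_Qb (EU_mem hc hee (hwe _) (hz p))
  let G : Par → Q := fun p => ⟨g p, hgQ p⟩
  have hfixe : ∀ p : Par, act (EU (q := q) e (w p.1.1) p.1.2) e = e := fun p => (EU_mem hc hee (hwe _) (hz p)).1
  have hGbij : Function.Bijective G := by
    refine ⟨fun p r h => ?_, ?_⟩
    · have h1 := eq_of_mk_eq hc le_rfl he0 (hfixe p) (hfixe r) (congrArg (fun z : Q => (z : Cfsg.PSU 3 F q)) h)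
      obtain ⟨h3, h5⟩ := EU_inj hc hee hfe he0 (hwe _) (hwf _) (hz p) (hwe _) (hwf _) (hz r) h1
      have h6 : p.1.1 = r.1.1 := by simpa [w] using congrFun h3 2
      exact Subtype.ext (Prod.ext h6 h5)
    · rintro ⟨x, hx⟩
      obtain ⟨A, hA, rfl⟩ := hx
      obtain ⟨v, z, hve, hvf, hvz, rfl⟩ := EU_param hc hee hff hfe hA
      have hv := hperp v hve hvf
      refine ⟨⟨(v 2, z), ?_⟩, ?_⟩
      · show z + σ z + v 2 * σ (v 2) = 0
        rw [← hww, show w (v 2) = v from hv.symm]; exact hvz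
      · refine Subtype.ext ?_
        show QuotientGroup.mk (EU e (w (v 2)) z) = _
        rw [show w (v 2) = v from hv.symm]; rfl
  let Φ : Par ≃ Q := Equiv.ofBijective G hGbij
  have hmem : ∀ p r : Par, ((p.1.2 + r.1.2 - r.1.1 * σ p.1.1) + σ (p.1.2 + r.1.2 - r.1.1 * σ p.1.1)) +
      (p.1.1 + r.1.1) * σ (p.1.1 + r.1.1) = 0 := by
    intro p r
    have e1 := p.2
    have e2 := r.2
    simp only [map_sub, map_add, map_mul, hσσ]
    linear_combination e1 + e2
  let pm : Par → Par → Par := fun p r => ⟨(p.1.1 + r.1.1, p.1.2 + r.1.2 - r.1.1 * σ p.1.1), hmem p r⟩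
  have hmul : ∀ p r, Φ p * Φ r = Φ (pm p r) := by
    intro p r
    refine Subtype.ext ?_
    show (QuotientGroup.mk (EU e (w p.1.1) p.1.2) : Cfsg.PSU 3 F q) * QuotientGroup.mk (EU e (w r.1.1) r.1.2) = _
    rw [← QuotientGroup.mk_mul, EU_mul hc hee (hwe _) (hz p) (hwe _) (hz r), hww]
    show (QuotientGroup.mk _ : Cfsg.PSU 3 F q) = QuotientGroup.mk (EU e (w (p.1.1 + r.1.1)) _)
    rw [show w p.1.1 + w r.1.1 = w (p.1.1 + r.1.1) by funext i; fin_cases i <;> simp [w]]
  let p0 : Par := ⟨(0, 0), by simp⟩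
  have hone : Φ p0 = 1 := by
    have h := hmul p0 p0
    rw [show pm p0 p0 = p0 from Subtype.ext (by simp [pm, p0])] at h
    exact mul_eq_left.1 h
  have hQcard : Nat.card Q = q ^ 3 := by
    rw [← Nat.card_congr Φ]
    have hfib : ∀ x : F, Nat.card {z : F // z + σ z + x * σ x = 0} = q := by
      intro x
      obtain ⟨z0, hz0⟩ := hsurj (x * σ x) (by rw [map_mul, hσσ, mul_comm])
      have hz0' : z0 + σ z0 = x * σ x := hz0
      rw [← hfix]
      exact Nat.card_congr
        { toFun := fun z => ⟨z.1 + z0, by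
            have := z.2
            rw [map_add]
            linear_combination this + hz0' - z0 * h2 - z.1 * h2⟩
          invFun := fun z => ⟨z.1 + z0, by
            have := z.2
            rw [map_add]
            linear_combination hz0' + this + z.1 * h2 + (x * σ x) * h2⟩
          left_inv := fun z => Subtype.ext (by show z.1 + z0 + z0 = z.1; linear_combination z0 * h2)
          right_inv := fun z => Subtype.ext (by show z.1 + z0 + z0 = z.1; linear_combination z0 * h2) }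
    rw [Nat.card_congr (Equiv.subtypeProdEquivSigmaSubtype fun x z => z + σ z + x * σ x = 0), Nat.card_sigma]
    simp only [hfib, Finset.sum_const, Finset.card_univ, smul_eq_mul, hF]
    ring
  have hQp : IsPGroup 2 Q := IsPGroup.of_card (n := k * 3) (by rw [hQcard, hq, ← pow_mul])
  have hidx : ¬ 2 ∣ Q.index := by
    have hm := Q.card_mul_index
    rw [hQcard] at hm
    have hsu := Cfsg.Lib.Classical.UnitaryCentre.card_SU (n := 3) hF (by norm_num)
    rw [Cfsg.Lib.Classical.UnitaryOrders.card_GU hF 3] at hsu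
    have hcs := Subgroup.card_eq_card_quotient_mul_card_subgroup (Subgroup.center (Cfsg.SU 3 F q))
    rw [Cfsg.Lib.Classical.UnitaryCentre.card_center hF (by norm_num : 2 ≤ 3)] at hcs
    simp only [Finset.prod_range_succ, Finset.prod_range_zero, one_mul, show Even 0 from ⟨0, rfl⟩,
      show ¬ Even 1 by decide, show Even 2 from even_two, if_true, if_false, show 3 * (3 - 1) / 2 = 3 from rfl] at hsu
    intro hdv
    have hPSU : Nat.card (Cfsg.PSU 3 F q) = Nat.card (Cfsg.SU 3 F q ⧸ Subgroup.center (Cfsg.SU 3 F q)) := rfl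
    rw [← hPSU, ← hm] at hcs
    rw [hcs] at hsu
    have heq : (q + 1) * (Q.index * Nat.gcd 3 (q + 1)) = (q ^ (0 + 1) + 1) * (q ^ (1 + 1) - 1) * (q ^ (2 + 1) + 1) := by
      refine Nat.eq_of_mul_eq_mul_left (show 0 < q ^ 3 by positivity) ?_
      rw [← hsu]; ring
    have he1 : Even ((q + 1) * (Q.index * Nat.gcd 3 (q + 1))) :=
      (even_iff_two_dvd.2 (dvd_mul_of_dvd_left hdv _)).mul_left _
    rw [heq] at he1
    have ho : ∀ j, Odd (q ^ (j + 1) + 1) := fun j => (hqe.pow_of_ne_zero (by omega)).add_one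
    have ho2 : Odd (q ^ (1 + 1) - 1) := Nat.Even.sub_odd (Nat.one_le_pow _ _ (by omega)) (hqe.pow_of_ne_zero (by omega)) odd_one
    exact Nat.not_even_iff_odd.2 (((ho 0).mul ho2).mul (ho 2)) he1
  obtain ⟨c, hc1⟩ := MulAction.exists_smul_eq (Cfsg.PSU 3 F q) (hQp.toSylow hidx) S
  have eS : Q ≃* ↥(S : Subgroup (Cfsg.PSU 3 F q)) :=
    (Subgroup.equivSMul (MulAut.conj c) Q).trans (MulEquiv.subgroupCongr (by rw [← hc1]; rfl))
  -- fixed field units
  obtain ⟨t0, ht0⟩ : ∃ t : F, σ t ≠ t := by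
    by_contra hcon
    push Not at hcon
    have : Nat.card {a : F // σ a = a} = Nat.card F := Nat.card_congr (Equiv.subtypeUnivEquiv hcon)
    rw [hfix, Nat.card_eq_fintype_card, hF] at this
    nlinarith
  have hsq : ∀ p : Par, Φ p * Φ p = 1 ↔ p.1.1 = 0 := by
    intro p
    rw [hmul, ← hone, EmbeddingLike.apply_eq_iff_eq, Subtype.ext_iff]
    show ((p.1.1 + p.1.1, p.1.2 + p.1.2 - p.1.1 * σ p.1.1) : F × F) = (0, 0) ↔ _
    rw [Prod.mk.injEq]
    simp only [CharTwo.add_self_eq_zero, zero_sub, neg_eq_zero, mul_eq_zero, map_eq_zero, or_self, true_and]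
  have hcent : ∀ p : Par, Φ p ∈ Subgroup.center Q ↔ p.1.1 = 0 := by
    intro p
    rw [Subgroup.mem_center_iff]
    constructor
    · intro h
      by_contra hx
      obtain ⟨z, hz'⟩ := hsurj ((p.1.1 * t0) * σ (p.1.1 * t0)) (by rw [map_mul, hσσ, mul_comm])
      have hz'' : z + σ z = (p.1.1 * t0) * σ (p.1.1 * t0) := hz'
      let r : Par := ⟨(p.1.1 * t0, z), by show z + σ z + _ = 0; rw [hz'', CharTwo.add_self_eq_zero]⟩
      have h1 := h (Φ r)
      rw [hmul, hmul, EmbeddingLike.apply_eq_iff_eq] at h1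
      have h3 : r.1.2 + p.1.2 - p.1.1 * σ r.1.1 = p.1.2 + r.1.2 - r.1.1 * σ p.1.1 :=
        congrArg (fun u : Par => u.1.2) h1
      simp only [r, map_mul] at h3
      refine ht0 (mul_left_cancel₀ (mul_ne_zero hx ((map_ne_zero σ).2 hx)) ?_)
      linear_combination -h3
    · intro h x
      obtain ⟨r, rfl⟩ := Φ.surjective x
      rw [hmul, hmul]
      congr 1
      refine Subtype.ext (Prod.ext (add_comm _ _) ?_)
      show r.1.2 + p.1.2 - p.1.1 * σ r.1.1 = p.1.2 + r.1.2 - r.1.1 * σ p.1.1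
      rw [h, map_zero]; ring
  have hz0 : ∀ p : Par, p.1.1 = 0 → σ p.1.2 = p.1.2 := fun p h => by
    have := p.2
    rw [h, zero_mul, add_zero] at this
    exact (CharTwo.add_eq_zero.1 this).symm
  have hcc : Nat.card (Subgroup.center Q) = q := by
    refine Eq.trans ?_ hfix
    refine (Nat.card_congr (Equiv.ofBijective (fun z : {a : F // σ a = a} =>
      (⟨Φ ⟨(0, z.1), by show z.1 + σ z.1 + 0 * σ 0 = 0; rw [z.2, CharTwo.add_self_eq_zero, zero_mul, add_zero]⟩,
        (hcent _).2 rfl⟩ : Subgroup.center Q)) ⟨fun a b h => ?_, fun x => ?_⟩)).symm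
    · have := Φ.injective (congrArg (fun u : Subgroup.center Q => (u : Q)) h)
      exact Subtype.ext (congrArg (fun u : Par => u.1.2) this)
    · obtain ⟨p, hp⟩ := Φ.surjective x.1
      have hp0 : p.1.1 = 0 := (hcent p).1 (hp ▸ x.2)
      refine ⟨⟨p.1.2, hz0 p hp0⟩, Subtype.ext ?_⟩
      show Φ _ = x.1
      rw [← hp]
      congr 1
      exact Subtype.ext (Prod.ext hp0.symm rfl)
  refine ⟨?_, ?_, suzuki_of_equiv eS ?_⟩
  · rw [← Nat.card_congr eS.toEquiv, hQcard]
  · rw [← Nat.card_congr (Subgroup.centerCongr eS).toEquiv, hcc]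
  -- automorphisms
  let L : Subgroup Fˣ := MonoidHom.eqLocus (Units.map σ.toRingHom.toMonoidHom) (MonoidHom.id Fˣ)
  have hL : ∀ l : L, σ ((l : Fˣ) : F) = ((l : Fˣ) : F) := fun l => congrArg Units.val l.2
  have hscm : ∀ (l : L) (p : Par), (((l : Fˣ) : F) ^ 2 * p.1.2) + σ (((l : Fˣ) : F) ^ 2 * p.1.2) +
      (((l : Fˣ) : F) * p.1.1) * σ (((l : Fˣ) : F) * p.1.1) = 0 := fun l p => by
    simp only [map_mul, map_pow, hL]
    linear_combination ((l : Fˣ) : F) ^ 2 * p.2
  let sc : L → Par → Par := fun l p => ⟨(((l : Fˣ) : F) * p.1.1, ((l : Fˣ) : F) ^ 2 * p.1.2), hscm l p⟩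
  have hsc_mul : ∀ l m p, sc (l * m) p = sc l (sc m p) := fun l m p =>
    Subtype.ext (Prod.ext (by simp [sc, mul_assoc]) (by simp [sc, mul_pow, mul_assoc]))
  have hsc_one : ∀ p, sc 1 p = p := fun p => Subtype.ext (Prod.ext (by simp [sc]) (by simp [sc]))
  have hsc_pm : ∀ l p r, sc l (pm p r) = pm (sc l p) (sc l r) := fun l p r => by
    refine Subtype.ext (Prod.ext ?_ ?_)
    · simp only [sc, pm]; ring
    · simp only [sc, pm, map_mul, hL]; ring
  let au : L → MulAut Q := fun l =>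
    { toFun := fun x => Φ (sc l (Φ.symm x))
      invFun := fun x => Φ (sc l⁻¹ (Φ.symm x))
      left_inv := fun x => by
        simp only [Equiv.symm_apply_apply, ← hsc_mul, inv_mul_cancel, hsc_one, Equiv.apply_symm_apply]
      right_inv := fun x => by
        simp only [Equiv.symm_apply_apply, ← hsc_mul, mul_inv_cancel, hsc_one, Equiv.apply_symm_apply]
      map_mul' := fun x y => by
        obtain ⟨p, rfl⟩ := Φ.surjective x
        obtain ⟨r, rfl⟩ := Φ.surjective y
        simp only [hmul, Equiv.symm_apply_apply, hsc_pm] }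
  have hau : ∀ l p, au l (Φ p) = Φ (sc l p) := fun l p => by
    show Φ (sc l (Φ.symm (Φ p))) = _
    rw [Equiv.symm_apply_apply]
  let ψ : L →* MulAut Q :=
    { toFun := au
      map_one' := MulEquiv.ext fun x => by
        obtain ⟨p, rfl⟩ := Φ.surjective x
        rw [hau, hsc_one]; rfl
      map_mul' := fun l m => MulEquiv.ext fun x => by
        obtain ⟨p, rfl⟩ := Φ.surjective x
        rw [hau, hsc_mul, MulAut.mul_apply, hau, hau] }
  have hfix2 : ∃ z z' : F, z ≠ z' ∧ z ≠ 0 ∧ σ z = z ∧ z' ≠ 0 ∧ σ z' = z' := by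
    by_contra hcon
    push Not at hcon
    have : ∀ a : {a : F // σ a = a}, a.1 = 0 ∨ a.1 = 1 := fun a => by
      by_contra h
      push Not at h
      exact hcon a.1 1 h.2 h.1 a.2 one_ne_zero (map_one σ)
    have h3 : Nat.card {a : F // σ a = a} ≤ Nat.card ({0, 1} : Set F) :=
      Nat.card_le_card_of_injective (fun a => (⟨a.1, this a⟩ : ({0, 1} : Set F)))
        fun a b h => Subtype.ext (congrArg (fun u : ({0, 1} : Set F) => u.1) h)
    rw [hfix, Nat.card_coe_set_eq, Set.ncard_pair (zero_ne_one)] at h3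
    omega
  obtain ⟨z, z', hzz, hz1, hz2, hz3, hz4⟩ := hfix2
  have hinv : ∀ x : Q, x ≠ 1 → x * x = 1 → ∃ z : F, z ≠ 0 ∧ σ z = z ∧ ∃ h, x = Φ ⟨(0, z), h⟩ := by
    intro x hx1 hx2
    obtain ⟨p, rfl⟩ := Φ.surjective x
    have h0 := (hsq p).1 hx2
    refine ⟨p.1.2, fun e => hx1 ?_, hz0 p h0, (by have := p.2; rwa [h0] at this), ?_⟩
    · rw [← hone]; exact congrArg Φ (Subtype.ext (Prod.ext h0 e))
    · exact congrArg Φ (Subtype.ext (Prod.ext h0 rfl))
  have hmk : ∀ z : F, σ z = z → z + σ z + (0 : F) * σ 0 = 0 := fun z hz => by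
    rw [hz, CharTwo.add_self_eq_zero, zero_mul, add_zero]
  refine ⟨inferInstance, hQp, ?_, ?_, ψ.range, isCyclic_of_surjective ψ.rangeRestrict ψ.rangeRestrict_surjective, ?_⟩
  · obtain ⟨u, hu⟩ := hsurj (1 * σ 1) (by simp)
    have hu' : u + σ u = 1 * σ 1 := hu
    let p : Par := ⟨(1, u), by show u + σ u + _ = 0; rw [hu', CharTwo.add_self_eq_zero]⟩
    by_contra hcon
    push Not at hcon
    exact one_ne_zero ((hcent p).1 (Subgroup.mem_center_iff.2 fun x => (hcon x (Φ p))))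
  · refine ⟨Φ ⟨(0, z), hmk z hz2⟩, Φ ⟨(0, z'), hmk z' hz4⟩, fun h => hzz (congrArg (fun u : Par => u.1.2) (Φ.injective h)),
      fun h => hz1 (congrArg (fun u : Par => u.1.2) (Φ.injective (h.trans hone.symm))), (hsq _).2 rfl,
      fun h => hz3 (congrArg (fun u : Par => u.1.2) (Φ.injective (h.trans hone.symm))), (hsq _).2 rfl⟩
  · intro x y hx1 hx2 hy1 hy2
    obtain ⟨a, ha0, haσ, ha, rfl⟩ := hinv x hx1 hx2
    obtain ⟨b, hb0, hbσ, hb, rfl⟩ := hinv y hy1 hy2
    obtain ⟨l0, hl0⟩ : ∃ l0 : F, l0 ^ 2 = b / a := by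
      obtain ⟨l0, hl⟩ := FiniteField.isSquare_of_char_two (ringChar.eq F 2) (b / a)
      exact ⟨l0, by rw [hl, pow_two]⟩
    have hl0ne : l0 ≠ 0 := fun e => by
      rw [e, zero_pow two_ne_zero] at hl0
      exact div_ne_zero hb0 ha0 hl0.symm
    have hinj2 : ∀ u v : F, u ^ 2 = v ^ 2 → u = v := fun u v h => CharTwo.sq_injective h
    have hl0σ : σ l0 = l0 := hinj2 _ _ (by rw [← map_pow, hl0, map_div₀, haσ, hbσ])
    let l : L := ⟨Units.mk0 l0 hl0ne, Units.ext hl0σ⟩
    refine ⟨⟨ψ l, ⟨l, rfl⟩⟩, ?_, ?_⟩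
    · show au l _ = _
      rw [hau]
      refine congrArg Φ (Subtype.ext (Prod.ext (mul_zero _) ?_))
      show l0 ^ 2 * a = b
      rw [hl0, div_mul_cancel₀ b ha0]
    · rintro ⟨_, m, rfl⟩ hm
      refine Subtype.ext (congrArg ψ (Subtype.ext (Units.ext (hinj2 _ _ ?_))))
      have hm' : au m (Φ ⟨(0, a), ha⟩) = Φ ⟨(0, b), hb⟩ := hm
      rw [hau] at hm'
      have h5 : ((m : Fˣ) : F) ^ 2 * a = b := congrArg (fun u : Par => u.1.2) (Φ.injective hm')
      show _ = l0 ^ 2
      rw [hl0, ← h5, mul_div_cancel_right₀ _ ha0]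

theorem main {k : ℕ} (hk : 2 ≤ k) (hF : Fintype.card F = (2 ^ k) ^ 2) (S : Sylow 2 (Cfsg.PSU 3 F (2 ^ k))) :
    Nat.card S = (2 ^ k) ^ 3 ∧ Nat.card (Subgroup.center ↥(S : Subgroup (Cfsg.PSU 3 F (2 ^ k)))) = 2 ^ k ∧
      Cfsg.IsSuzukiTwoGroup ↥(S : Subgroup (Cfsg.PSU 3 F (2 ^ k))) :=
  main_aux hk rfl hF S

end helper


/-- Let `q = 2^n ≥ 4` and `|F| = q²`. A Sylow 2-subgroup `S` of `PSU₃(q)` has order `q³`, its centre has order `q`, and `S` is a Suzuki 2-group. -/
theorem result {F : Type*} [Field F] [Fintype F] {n : ℕ} (hn : 2 ≤ n)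
    (hF : Fintype.card F = (2 ^ n) ^ 2) (S : Sylow 2 (Cfsg.PSU 3 F (2 ^ n))) :
    Nat.card S = (2 ^ n) ^ 3 ∧ Nat.card (Subgroup.center ↥(S : Subgroup (Cfsg.PSU 3 F (2 ^ n)))) = 2 ^ n ∧
      Cfsg.IsSuzukiTwoGroup ↥(S : Subgroup (Cfsg.PSU 3 F (2 ^ n))) := by
  exact main hn hF S

end Cfsg.Agent.S1141
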