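import Cfsg.Statements.S1142
import Cfsg.Agent.Lib.FeitHigman.Eigen
import Cfsg.Agent.Lib.FeitHigman.Arith

set_option autoImplicit false
open Cfsg
open Cfsg.Agent.FeitHigman Cfsg.Lib.LieBN

namespace Cfsg.Agent.S1142

/-- Feit–Higman: if a finite group has a (B,N)-pair of rank 2, its Weyl group `N/(B ⊓ N)` has order 4, 6, 8, 12 or 16. -/
theorem result {G : Type*} [Group G] [Finite G] (P : Cfsg.BNPair G)
    (h2 : P.rank = 2) :
    ((P.B ⊓ P.N).subgroupOf P.N).index ∈ ({4, 6, 8, 12, 16} : Set ℕ) := by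
  classical
  obtain ⟨s, t, hne, huniv⟩ := Nat.card_eq_two_iff.1 (show Nat.card P.S = 2 from h2)
  have hst : TwoGen s t := ⟨hne, fun i => by
    have : i ∈ ({s, t} : Set P.S) := huniv ▸ Set.mem_univ i
    simpa using this⟩
  have : Fintype (G ⧸ P.B) := Fintype.ofFinite _
  set m := mm (sref P) s t with hm
  have hm2 : 2 ≤ m := two_le_mmm hst
  have hidx : ((P.B ⊓ P.N).subgroupOf P.N).index = 2 * m := natCard_eq exch hst
  rw [hidx]
  set r := val P (sref P t) with hr
  set q := val P (sref P s) with hq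
  have hr2 : 2 ≤ r := two_le_val t
  have hq2 : 2 ≤ q := two_le_val s
  have key : ∀ k : ℕ, 0 < k → 2 * k < m →
      Rel r q (2 * Real.cos (2 * Real.pi * k / m)) := by
    intro k hk hk2
    refine rational_rel hst k (Real.sin_pos_of_pos_of_lt_pi ?_ ?_).ne'
    · positivity
    · have hkm : (2 : ℝ) * k < m := by exact_mod_cast hk2
      rw [div_lt_iff₀ (by positivity)]
      nlinarith [Real.pi_pos]
  rcases Nat.lt_or_ge m 3 with hlt | h3
  · have : m = 2 := by omega
    simp [this]
  have h1 := key 1 one_pos (by omega)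
  rw [Nat.cast_one, mul_one] at h1
  obtain ⟨A, B, C, hAB, hrel⟩ := h1.quadratic hr2 hq2
  have hcand := candidates (by omega) (totient_le_four (by omega) hAB hrel)
  have ten : ∀ k : ℕ, 0 < k → m = 10 * k → False := by
    intro k hk hmk
    have h := key k hk (by omega)
    rw [show (2 : ℝ) * Real.pi * k / m = Real.pi / 5 by rw [hmk]; push_cast; field_simp; ring,
      Real.cos_pi_div_five, show (2 : ℝ) * ((1 + √5) / 4) = (1 + √5) / 2 by ring] at h
    exact ten_false hr2 hq2 h
  have twelve : ∀ k : ℕ, 0 < k → m = 12 * k → False := by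
    intro k hk hmk
    have h := key k hk (by omega)
    rw [show (2 : ℝ) * Real.pi * k / m = Real.pi / 6 by rw [hmk]; push_cast; field_simp; ring,
      Real.cos_pi_div_six, show (2 : ℝ) * (√3 / 2) = √3 by ring] at h
    have h' := key (2 * k) (by omega) (by omega)
    rw [show (2 : ℝ) * Real.pi * ((2 * k : ℕ) : ℝ) / m = Real.pi / 3 by
        rw [hmk]; push_cast; field_simp; ring,
      Real.cos_pi_div_three, show (2 : ℝ) * (1 / 2) = 1 by norm_num] at h'
    exact twelve_false hr2 hq2 h h'
  have five : m ≠ 5 := by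
    intro hm5
    have h := key 1 one_pos (by omega)
    rw [show (2 : ℝ) * Real.pi * ((1 : ℕ) : ℝ) / m = 2 * (Real.pi / 5) by rw [hm5]; push_cast; ring,
      Real.cos_two_mul, Real.cos_pi_div_five,
      show (2 : ℝ) * (2 * ((1 + √5) / 4) ^ 2 - 1) = (√5 - 1) / 2 by
        have h5 : √5 ^ 2 = 5 := Real.sq_sqrt (by norm_num)
        linear_combination (1 / 4 : ℝ) * h5] at h
    have hqr : q = r := by
      have := val_odd_eq hst (show Odd m from hm5 ▸ ⟨2, rfl⟩)
      exact_mod_cast this
    rw [hqr] at h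
    exact five_false hr2 h
  have sixteen : m ≠ 16 := by
    intro hm16
    have h := key 1 one_pos (by omega)
    rw [show (2 : ℝ) * Real.pi * ((1 : ℕ) : ℝ) / m = Real.pi / 8 by rw [hm16]; push_cast; ring,
      Real.cos_pi_div_eight, show (2 : ℝ) * (√(2 + √2) / 2) = √(2 + √2) by ring] at h
    exact sixteen_false hr2 hq2 h
  simp only [Finset.mem_insert, Finset.mem_singleton] at hcand
  rcases hcand with hc | hc | hc | hc | hc | hc | hc | hc | hc | hc | hc
  · omega
  · simp [hc]
  · simp [hc]
  · exact absurd hc five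
  · simp [hc]
  · simp [hc]
  · exact (ten 1 one_pos (by omega)).elim
  · exact (twelve 1 one_pos (by omega)).elim
  · exact absurd hc sixteen
  · exact (ten 2 two_pos (by omega)).elim
  · exact (twelve 2 two_pos (by omega)).elim

end Cfsg.Agent.S1142
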