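import Cfsg.Statements.S1160
import Cfsg.Agent.Lib.RankOne.HalfTransitive
-- import your own Cfsg.Agent.* helpers here

set_option autoImplicit false
open Cfsg

namespace Cfsg.Agent.S1160

/-- Let `p ≠ 2` be prime and `P` a finite `p`-group acting faithfully by additive automorphisms on a finite elementary abelian `q`-group `E` (`q` prime), such that `|P_a|` is the same for all `a ≠ 0`. Then `P` is cyclic and every non-identity element of `P` fixes only `0`. -/
theorem result {P E : Type*} [Group P] [Finite P]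
    [AddCommGroup E] [Finite E] [DistribMulAction P E] [FaithfulSMul P E]
    {p q : ℕ} [Fact p.Prime] (hp2 : p ≠ 2) (hP : IsPGroup p P) (hq : q.Prime) (hE : ∀ e : E, q • e = 0)
    (hconst : ∀ a b : E, a ≠ 0 → b ≠ 0 →
      Nat.card (MulAction.stabilizer P a) = Nat.card (MulAction.stabilizer P b)) :
    IsCyclic P ∧ ∀ g : P, g ≠ 1 → ∀ a : E, g • a = a → a = 0 := by
  have hq' := Fact.mk hq
  rcases subsingleton_or_nontrivial E with hE' | hE'
  · have : Subsingleton P := ⟨fun g h => FaithfulSMul.eq_of_smul_eq_smul (α := E) fun e => Subsingleton.elim _ _⟩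
    exact ⟨inferInstance, fun g hg => absurd (Subsingleton.elim g 1) hg⟩
  by_cases hpq : p = q
  · subst hpq
    obtain ⟨e₀, he₀⟩ := exists_ne (0 : E)
    obtain ⟨u, hu, hu0⟩ : ∃ u ∈ MulAction.fixedPoints P E, (0 : E) ≠ u := by
      refine hP.exists_fixed_point_of_prime_dvd_card_of_fixed_point E ?_ (fun g => smul_zero g)
      have : addOrderOf e₀ = p := addOrderOf_eq_prime (hE e₀) he₀
      rw [← this]; exact addOrderOf_dvd_natCard e₀
    have hall : ∀ e : E, ∀ g : P, g • e = e := by
      intro e g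
      rcases eq_or_ne e 0 with rfl | he
      · exact smul_zero g
      have h1 : MulAction.stabilizer P u = ⊤ := eq_top_iff.2 fun g _ => hu g
      have h2 := hconst u e hu0.symm he
      rw [h1, Subgroup.card_top] at h2
      have := Subgroup.eq_top_of_card_eq _ h2.symm
      exact (this ▸ Subgroup.mem_top g : g ∈ MulAction.stabilizer P e)
    have : Subsingleton P := ⟨fun g h => FaithfulSMul.eq_of_smul_eq_smul (α := E) fun e => by rw [hall, hall]⟩
    exact ⟨inferInstance, fun g hg => absurd (Subsingleton.elim g 1) hg⟩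
  obtain ⟨k, hk⟩ := IsPGroup.iff_card.1 hP
  have hreg : ∀ (m : ℕ) (e : E), m ∣ Nat.card P → m • e = 0 → e = 0 := by
    intro m e hm he
    rw [hk] at hm
    have h1 : addOrderOf e ∣ p ^ k := (addOrderOf_dvd_iff_nsmul_eq_zero.2 he).trans hm
    have h2 : addOrderOf e ∣ q := addOrderOf_dvd_iff_nsmul_eq_zero.2 (hE e)
    have hco : Nat.Coprime (p ^ k) q := ((Nat.coprime_primes Fact.out hq).2 hpq).pow_left k
    exact AddMonoid.addOrderOf_eq_one_iff.1 (Nat.eq_one_of_dvd_coprimes hco h1 h2)
  have hregp : ∀ e : E, p • e = 0 → e = 0 := fun e he => by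
    have h1 : addOrderOf e ∣ p := addOrderOf_dvd_iff_nsmul_eq_zero.2 he
    have h2 : addOrderOf e ∣ q := addOrderOf_dvd_iff_nsmul_eq_zero.2 (hE e)
    exact AddMonoid.addOrderOf_eq_one_iff.1 (Nat.eq_one_of_dvd_coprimes ((Nat.coprime_primes Fact.out hq).2 hpq) h1 h2)
  have hcyc := HalfTrans.isCyclic_of_halfTransitive hconst hp2 hP hreg hregp
  refine ⟨hcyc, fun g hg a ha => ?_⟩
  have : (Subgroup.zpowers g).Normal := ⟨fun n hn γ => by
    have : γ * n * γ⁻¹ = n := by
      have := (@IsCyclic.isMulCommutative P _ hcyc).is_comm.comm γ n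
      rw [this, mul_inv_cancel_right]
    rw [this]; exact hn⟩
  exact HalfTrans.fixed_eq_zero hconst hreg (Subgroup.zpowers g) (by simpa using hg) fun n hn =>
    Subgroup.zpowers_le.2 (show g ∈ MulAction.stabilizer P a from ha) hn

end Cfsg.Agent.S1160
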