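import Cfsg.Statements.S1165
import Cfsg.Agent.Lib.RankOne.Canon
-- import your own Cfsg.Agent.* helpers here

set_option autoImplicit false
open Cfsg

namespace Cfsg.Agent.S1165

/-- In the rank-one set-up (`G` finite and doubly transitive on `Ω`, `t` an involution moving `a`, `Q` normal in `G_a` with `G_a = Q D`, `Q ⊓ D = 1` for the two-point stabiliser `D = G_a ⊓ G_{t • a}`, `|Q|` even, `|D|` odd): every `x ∈ Q`, `x ≠ 1`, determines unique `g, f ∈ Q`, `h ∈ D` with `t x t = g h t f` (a consequence of the canonical form). For these: (H1) the `f`-part of `x⁻¹` is `g⁻¹`; (H2) the `f`-part of `f` is `x`; (H3) for `a ∈ D` the `f`-part of `a⁻¹ x a` is `(t a t)⁻¹ f (t a t)`; (H4) the `h`-part of `a⁻¹ x a` is `(t a t)⁻¹ h a`, that of `x⁻¹` is `t h⁻¹ t`, and that of `f` is `h⁻¹`. -/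
theorem result {G Ω : Type*} [Group G] [Finite G] [MulAction G Ω] {a : Ω} {t : G} {Q : Subgroup G}
    (hS : Cfsg.IsRankOneSetup G Ω a t Q)
    (x g h f : G) (hx : x ∈ Q) (hx1 : x ≠ 1) (hg : g ∈ Q) (hh : h ∈ (MulAction.stabilizer G a ⊓ MulAction.stabilizer G (t • a))) (hf : f ∈ Q)
    (heq : t * x * t = g * h * t * f) :
    (∀ g₁ h₁ f₁ : G, g₁ ∈ Q → h₁ ∈ (MulAction.stabilizer G a ⊓ MulAction.stabilizer G (t • a)) → f₁ ∈ Q → t * x⁻¹ * t = g₁ * h₁ * t * f₁ →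
        f₁ = g⁻¹ ∧ h₁ = t * h⁻¹ * t) ∧
      (∀ g₂ h₂ f₂ : G, g₂ ∈ Q → h₂ ∈ (MulAction.stabilizer G a ⊓ MulAction.stabilizer G (t • a)) → f₂ ∈ Q → t * f * t = g₂ * h₂ * t * f₂ →
        f₂ = x ∧ h₂ = h⁻¹) ∧
      ∀ c ∈ (MulAction.stabilizer G a ⊓ MulAction.stabilizer G (t • a)), ∀ g₃ h₃ f₃ : G, g₃ ∈ Q → h₃ ∈ (MulAction.stabilizer G a ⊓ MulAction.stabilizer G (t • a)) → f₃ ∈ Q →
        t * (c⁻¹ * x * c) * t = g₃ * h₃ * t * f₃ →
          f₃ = (t * c * t)⁻¹ * f * (t * c * t) ∧ h₃ = (t * c * t)⁻¹ * h * c := by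
  have ti := RankOne.t_inv hS
  have hD := fun {d : G} hd => RankOne.conj_mem_D hS (g := d) hd
  refine ⟨fun g₁ h₁ f₁ hg₁ hh₁ hf₁ e₁ => ?_, fun g₂ h₂ f₂ hg₂ hh₂ hf₂ e₂ => ?_, fun c hc g₃ h₃ f₃ hg₃ hh₃ hf₃ e₃ => ?_⟩
  · have e : t * x⁻¹ * t = f⁻¹ * (t * h⁻¹ * t) * t * g⁻¹ := by
      calc t * x⁻¹ * t = (t * x * t)⁻¹ := by simp [mul_assoc, ti]
        _ = (g * h * t * f)⁻¹ := by rw [heq]
        _ = _ := by simp [mul_assoc, ti, hS.mul_self]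
    obtain ⟨-, h1, h2⟩ := RankOne.canon_unique hS hg₁ (inv_mem hf) hh₁ (hD (inv_mem hh)) hf₁ (inv_mem hg) (e₁.symm.trans e)
    exact ⟨h2, h1⟩
  · have e : t * f * t = (h⁻¹ * g⁻¹ * h) * h⁻¹ * t * x := by
      calc t * f * t = h⁻¹ * g⁻¹ * (g * h * t * f) * t := by group
        _ = h⁻¹ * g⁻¹ * (t * x * t) * t := by rw [heq]
        _ = h⁻¹ * g⁻¹ * t * x := by simp [mul_assoc, hS.mul_self]
        _ = _ := by group
    obtain ⟨-, h1, h2⟩ := RankOne.canon_unique hS hg₂ (RankOne.conj_Q hS hh.1 (inv_mem hg)) hh₂ (inv_mem hh) hf₂ hx (e₂.symm.trans e)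
    exact ⟨h2, h1⟩
  · set w := t * c * t with hw
    have hwD : w ∈ MulAction.stabilizer G a ⊓ MulAction.stabilizer G (t • a) := hD hc
    have e : t * (c⁻¹ * x * c) * t = (w⁻¹ * g * w) * (w⁻¹ * h * c) * t * (w⁻¹ * f * w) := by
      have hcw : t * w = c * t := by rw [hw]; simp only [← mul_assoc, hS.mul_self, one_mul]
      calc t * (c⁻¹ * x * c) * t = w⁻¹ * (t * x * t) * w := by
            rw [hw]; simp [mul_assoc, ti]; simp [← mul_assoc, hS.mul_self]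
        _ = w⁻¹ * (g * h * t * f) * w := by rw [heq]
        _ = (w⁻¹ * g * w) * (w⁻¹ * h) * (t * w) * (w⁻¹ * f * w) := by group
        _ = _ := by rw [hcw]; group
    obtain ⟨-, h1, h2⟩ := RankOne.canon_unique hS hg₃ (RankOne.conj_Q hS hwD.1 hg) hh₃
      (mul_mem (mul_mem (inv_mem hwD) hh) hc) hf₃ (RankOne.conj_Q hS hwD.1 hf) (e₃.symm.trans e)
    exact ⟨h2, h1⟩

end Cfsg.Agent.S1165
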