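import Cfsg.Statements.S1168
import Mathlib

set_option autoImplicit false
open Cfsg
open scoped Pointwise commutatorElement

namespace Cfsg.Agent.S1168



/-- For a finite field `F` of characteristic 2: if `q : F → F` is quadratic over the prime field, i.e. `(x, y) ↦ q (x + y) + q x + q y` is additive in each variable, then `q x = Σ c_{σ,τ} σ(x) τ(x)` for some coefficients indexed by pairs of field automorphisms. -/
theorem result {F : Type*} [Field F] [Fintype F] [CharP F 2]
    (q : F → F)
    (hq : ∀ x y z : F, q (x + y + z) + q (x + y) + q (x + z) + q (y + z) + q x + q y + q z = 0) :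
    ∃ (s : Finset ((F ≃+* F) × (F ≃+* F))) (c : (F ≃+* F) × (F ≃+* F) → F),
      ∀ x : F, q x = ∑ p ∈ s, c p * (p.1 x * p.2 x) := by
  classical
  letI : Algebra (ZMod 2) F := ZMod.algebra F 2
  haveI : Finite (F ≃+* F) := Finite.of_injective (fun e : F ≃+* F => (e : F → F)) DFunLike.coe_injective
  haveI : Fintype (F ≃+* F) := Fintype.ofFinite _
  haveI : Finite (F ≃ₐ[ZMod 2] F) := Finite.of_injective (fun e : F ≃ₐ[ZMod 2] F => (e : F → F)) DFunLike.coe_injective
  haveI : Fintype (F ≃ₐ[ZMod 2] F) := Fintype.ofFinite _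
  obtain ⟨P, hP⟩ : ∃ P : Submodule F (F → F), P = Submodule.span F (Set.range fun p : (F ≃+* F) × (F ≃+* F) => fun x => p.1 x * p.2 x) :=
    ⟨_, rfl⟩
  -- additive maps are combinations of automorphisms
  have hspan : Submodule.span F (Set.range fun σ : F ≃ₐ[ZMod 2] F => (σ.toAlgHom.toLinearMap : F →ₗ[ZMod 2] F)) = ⊤ := by
    have hli : LinearIndependent F (fun σ : F ≃ₐ[ZMod 2] F => (σ.toAlgHom.toLinearMap : F →ₗ[ZMod 2] F)) :=
      (linearIndependent_toLinearMap (ZMod 2) F F).comp (fun σ : F ≃ₐ[ZMod 2] F => σ.toAlgHom)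
        fun a b h => AlgEquiv.ext fun x => DFunLike.congr_fun h x
    refine hli.span_eq_top_of_card_eq_finrank' ?_
    rw [← Nat.card_eq_fintype_card, IsGalois.card_aut_eq_finrank, Module.finrank_linearMap, Module.finrank_self, mul_one]
  have hprod : ∀ f g : F →ₗ[ZMod 2] F, (fun x => f x * g x) ∈ P := by
    intro f g
    obtain ⟨c, hc⟩ := (Submodule.mem_span_range_iff_exists_fun F).1 (hspan ▸ Submodule.mem_top : f ∈ Submodule.span F _)
    obtain ⟨d, hd⟩ := (Submodule.mem_span_range_iff_exists_fun F).1 (hspan ▸ Submodule.mem_top : g ∈ Submodule.span F _)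
    have h : (fun x => f x * g x) = ∑ σ, ∑ τ, (c σ * d τ) • (fun x => σ.toRingEquiv x * τ.toRingEquiv x) := by
      funext x
      rw [← hc, ← hd]
      simp only [LinearMap.coe_sum, Finset.sum_apply, LinearMap.smul_apply, smul_eq_mul, Finset.sum_mul, Finset.mul_sum, Pi.smul_apply]
      rw [Finset.sum_comm]
      refine Finset.sum_congr rfl fun σ _ => Finset.sum_congr rfl fun τ _ => ?_
      show c σ * σ x * (d τ * τ x) = c σ * d τ * (σ x * τ x)
      ring
    rw [h]
    exact Submodule.sum_mem _ fun σ _ => Submodule.sum_mem _ fun τ _ =>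
      Submodule.smul_mem _ _ (hP ▸ Submodule.subset_span ⟨(σ.toRingEquiv, τ.toRingEquiv), rfl⟩)
  obtain ⟨D, hD⟩ : ∃ D : F → F → F, ∀ x y, D x y = q (x + y) + q x + q y := ⟨fun x y => q (x + y) + q x + q y, fun _ _ => rfl⟩
  have h2 : ∀ t : F, t + t = 0 := CharTwo.add_self_eq_zero
  have hq0 : q 0 = 0 := by
    have h := hq 0 0 0
    simp only [add_zero, h2, zero_add] at h
    exact h
  have hDadd : ∀ a y z, D a (y + z) = D a y + D a z := fun a y z => by
    have h := hq a y z
    rw [hD, hD, hD, ← add_assoc]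
    linear_combination h - h2 (q (a + y)) - h2 (q (a + z)) - h2 (q y) - h2 (q z) - h2 (q a)
  let B := Module.finBasis (ZMod 2) F
  have key : ∀ s : Finset (Fin (Module.finrank (ZMod 2) F)), (fun x => q (∑ i ∈ s, B.coord i x • B i)) ∈ P := by
    intro s
    induction s using Finset.induction_on with
    | empty => simp only [Finset.sum_empty, hq0]; exact P.zero_mem
    | insert a s ha ih =>
      let ca : F →ₗ[ZMod 2] F := (Algebra.linearMap (ZMod 2) F).comp (B.coord a)
      let Dl : F →ₗ[ZMod 2] F := AddMonoidHom.toZModLinearMap 2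
        (AddMonoidHom.mk' (fun x => D (B a) (∑ i ∈ s, B.coord i x • B i)) fun x y => by
          rw [← hDadd]; congr 1; simp only [map_add, add_smul, Finset.sum_add_distrib])
      have e : (fun x => q (∑ i ∈ insert a s, B.coord i x • B i)) =
          (fun x => q (∑ i ∈ s, B.coord i x • B i)) + (q (B a) • (fun x => ca x * ca x) + (fun x => ca x * Dl x)) := by
        funext x
        rw [Finset.sum_insert ha]
        show _ = q (∑ i ∈ s, B.coord i x • B i) + (q (B a) * (ca x * ca x) + ca x * D (B a) (∑ i ∈ s, B.coord i x • B i))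
        have hcs : B.coord a x = 0 ∨ B.coord a x = 1 := (by decide : ∀ t : ZMod 2, t = 0 ∨ t = 1) _
        rcases hcs with h | h
        · have hc : ca x = 0 := by show algebraMap (ZMod 2) F (B.coord a x) = 0; rw [h, map_zero]
          rw [h, zero_smul, zero_add, hc]; ring
        · have hc : ca x = 1 := by show algebraMap (ZMod 2) F (B.coord a x) = 1; rw [h, map_one]
          rw [h, one_smul, hc, hD]
          linear_combination -h2 (q (∑ i ∈ s, B.coord i x • B i)) - h2 (q (B a))
      rw [e]
      exact P.add_mem ih (P.add_mem (P.smul_mem _ (hprod ca ca)) (hprod ca Dl))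
  have hmem : q ∈ P := by
    have h := key Finset.univ
    have e : (fun x => q (∑ i, B.coord i x • B i)) = q := funext fun x => congrArg q (B.sum_repr x)
    rwa [e] at h
  rw [hP, Submodule.mem_span_range_iff_exists_fun] at hmem
  obtain ⟨c, hc⟩ := hmem
  refine ⟨Finset.univ, c, fun x => ?_⟩
  rw [← hc]
  simp

end Cfsg.Agent.S1168
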