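import Cfsg.Statements.S1176
import Mathlib
import Cfsg.Agent.Lib.Invol.Dihedral
-- import your own Cfsg.Agent.* helpers here

set_option autoImplicit false
open Cfsg

namespace Cfsg.Agent.S1176

/-- Let x₀ be an involution of the finite group G and D its conjugacy class. Assume (a) for each x ∈ D the subgroup W(x) generated by the members of D commuting with x is a 2-group of nilpotency class at most 2, and (b) the product of two distinct commuting members of D again lies in D. Then for all x, y ∈ D, if xy has even order greater than 2, its order is 4. -/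
theorem result {G : Type*} [Group G] [Finite G] (x₀ : G) (hx₀ : orderOf x₀ = 2) (ha : ∀ x : G, IsConj x₀ x → IsPGroup 2 ↥(Subgroup.closure {y : G | IsConj x₀ y ∧ Commute y x}) ∧ ⁅⁅Subgroup.closure {y : G | IsConj x₀ y ∧ Commute y x}, Subgroup.closure {y : G | IsConj x₀ y ∧ Commute y x}⁆, Subgroup.closure {y : G | IsConj x₀ y ∧ Commute y x}⁆ = ⊥) (hb : ∀ x y : G, IsConj x₀ x → IsConj x₀ y → x ≠ y → Commute x y → IsConj x₀ (x * y)) (x y : G) (hx : IsConj x₀ x) (hy : IsConj x₀ y) (heven : Even (orderOf (x * y))) (hgt : 2 < orderOf (x * y)) : orderOf (x * y) = 4 := by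
  have hx2 := Cfsg.Lib.Invol.orderTwo_isConj hx₀ hx
  have hy2 := Cfsg.Lib.Invol.orderTwo_isConj hx₀ hy
  set z := (x * y) ^ (orderOf (x * y) / 2) with hz
  have hz2 : orderOf z = 2 := Cfsg.Lib.Invol.orderTwo_half heven
  have hzx : Commute z x := Cfsg.Lib.Invol.commute_half_left hx2 hy2 heven
  have hzy : Commute z y := Cfsg.Lib.Invol.commute_half_right hx2 hy2 heven
  have hxz : IsConj x₀ (x * z) := by
    rcases Cfsg.Lib.Invol.half_mul_conj hx2 hy2 heven with ⟨-, d, hd⟩ | ⟨-, d, hd⟩
    · exact hx.trans (isConj_iff.2 ⟨d, hd⟩)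
    · exact hy.trans (isConj_iff.2 ⟨d, hd⟩)
  have hzD : IsConj x₀ z := by
    have h := hb x (x * z) hx hxz (fun h => Cfsg.Lib.Invol.ne_one_of_orderTwo hz2
      (mul_left_cancel (a := x) (h.symm.trans (mul_one x).symm)))
      ((Commute.refl x).mul_right hzx.symm)
    rwa [← mul_assoc, Cfsg.Lib.Invol.mul_self_of_orderTwo hx2, one_mul] at h
  obtain ⟨-, hW⟩ := ha z hzD
  set W := Subgroup.closure {y : G | IsConj x₀ y ∧ Commute y z}
  have hxW : x ∈ W := Subgroup.subset_closure ⟨hx, hzx.symm⟩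
  have hyW : y ∈ W := Subgroup.subset_closure ⟨hy, hzy.symm⟩
  have h1 := Subgroup.commutator_mem_commutator (Subgroup.commutator_mem_commutator hxW hyW) hxW
  rw [hW, Subgroup.mem_bot, commutatorElement_eq_one_iff_mul_comm] at h1
  have hc : x * y * x⁻¹ * y⁻¹ = (x * y) * (x * y) := by
    rw [Cfsg.Lib.Invol.inv_of_orderTwo hx2, Cfsg.Lib.Invol.inv_of_orderTwo hy2, mul_assoc (x * y)]
  rw [commutatorElement_def, hc] at h1
  have hinv : x * ((x * y) * (x * y)) * x⁻¹ = ((x * y) * (x * y))⁻¹ := by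
    simp only [mul_inv_rev, Cfsg.Lib.Invol.inv_of_orderTwo hx2, Cfsg.Lib.Invol.inv_of_orderTwo hy2]
    calc x * ((x * y) * (x * y)) * x = (x * x) * y * x * y * x := by simp only [mul_assoc]
      _ = y * x * (y * x) := by
        rw [Cfsg.Lib.Invol.mul_self_of_orderTwo hx2, one_mul, mul_assoc (y * x) y x]
  rw [← h1, mul_inv_cancel_right, eq_inv_iff_mul_eq_one] at hinv
  have h4 : (x * y) ^ (2 * 2) = 1 := by rw [pow_mul, sq, sq, hinv]
  have hd : orderOf (x * y) ∣ 4 := orderOf_dvd_of_pow_eq_one h4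
  have := Nat.le_of_dvd (by norm_num) hd
  interval_cases h : orderOf (x * y)
  · norm_num at hd
  · rfl

end Cfsg.Agent.S1176
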