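import Cfsg.Statements.S1177
import Mathlib
import Cfsg.Agent.Lib.Invol.Dihedral
-- import your own Cfsg.Agent.* helpers here

set_option autoImplicit false
open Cfsg

namespace Cfsg.Agent.S1177

/-- Let A be a nontrivial elementary abelian 2-subgroup of a finite group G which is a T.I. set (each conjugate of A meets A trivially or equals A) and which does not commute elementwise with any conjugate of A other than A itself. Then for every a ∈ A, a ≠ 1, every conjugate of A contained in C_G(a) is equal to A (A is weakly closed in C_G(a)). -/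
theorem result {G : Type*} [Group G] [Finite G] (A : Subgroup G) (hA : Cfsg.IsElementaryAbelian 2 A) (hA1 : A ≠ ⊥) (hTI : ∀ g : G, A.map (MulAut.conj g).toMonoidHom ⊓ A = ⊥ ∨ A.map (MulAut.conj g).toMonoidHom = A) (hb : ∀ g : G, (∀ a ∈ A, ∀ b ∈ A.map (MulAut.conj g).toMonoidHom, a * b = b * a) → A.map (MulAut.conj g).toMonoidHom = A) (a : G) (ha : a ∈ A) (ha1 : a ≠ 1) (g : G) (hg : A.map (MulAut.conj g).toMonoidHom ≤ Subgroup.centralizer ({a} : Set G)) : A.map (MulAut.conj g).toMonoidHom = A := by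
  have : Fact (Nat.Prime 2) := ⟨Nat.prime_two⟩
  set B := A.map (MulAut.conj g).toMonoidHom with hBdef
  by_contra hne
  have hAB : B ⊓ A = ⊥ := (hTI g).resolve_right hne
  have hBA : B ≤ Subgroup.normalizer (A : Set G) := by
    intro b hb
    rcases hTI b with h | h
    · exfalso
      have hc := Subgroup.mem_centralizer_singleton_iff.1 (hg hb)
      refine ha1 ((Subgroup.mem_bot).1 (h.le (Subgroup.mem_inf.2 ⟨⟨a, ha, ?_⟩, ha⟩)))
      show b * a * b⁻¹ = a
      rw [hc, mul_inv_cancel_right]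
    · exact Subgroup.mem_normalizer_iff_map_conj_eq.2 h
  obtain ⟨x, hxA, hx⟩ : ∃ x ∈ A, x ∉ Subgroup.centralizer (B : Set G) := by
    by_contra h
    push_neg at h
    exact hne (hb g fun u hu v hv => (Subgroup.mem_centralizer_iff.1 (h u hu) v hv).symm)
  have hx1 : x ≠ 1 := fun h => hx (h ▸ one_mem _)
  have hfix : ∀ b ∈ B, b ≠ 1 → ¬ Commute b x := by
    intro b hb' hb1 hc
    refine hx (Subgroup.mem_centralizer_iff.2 fun b' hb'' => ?_)
    have hBx : B.map (MulAut.conj x).toMonoidHom = B := by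
      rcases hTI (g⁻¹ * x * g) with h | h
      · exfalso
        obtain ⟨c, hcA, hcb⟩ := hb'
        change g * c * g⁻¹ = b at hcb
        have hc' : g⁻¹ * x * g * c * (g⁻¹ * x * g)⁻¹ = c := by
          calc g⁻¹ * x * g * c * (g⁻¹ * x * g)⁻¹ = g⁻¹ * (x * (g * c * g⁻¹) * x⁻¹) * g := by group
            _ = c := by rw [hcb, ← hc.eq, mul_inv_cancel_right, ← hcb]; group
        refine hb1 ?_
        rw [← hcb, conj_eq_one_iff]
        exact (Subgroup.mem_bot).1 (h.le (Subgroup.mem_inf.2 ⟨⟨c, hcA, hc'⟩, hcA⟩))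
      · rw [hBdef, Subgroup.map_map]
        conv_rhs => rw [← h, Subgroup.map_map]
        congr 1
        ext u
        simp [MulAut.conj_apply, mul_assoc]
    have h1 : x * b' * x⁻¹ ∈ B := hBx.le ⟨b', hb'', rfl⟩
    have h2 : x * b' * x⁻¹ * b'⁻¹ ∈ B ⊓ A := Subgroup.mem_inf.2 ⟨mul_mem h1 (inv_mem hb''), by
      rw [show x * b' * x⁻¹ * b'⁻¹ = x * (b' * x⁻¹ * b'⁻¹) by group]
      exact mul_mem hxA ((Subgroup.mem_normalizer_iff.1 (hBA hb'') _).1 (inv_mem hxA))⟩
    rw [hAB, Subgroup.mem_bot, mul_inv_eq_one, mul_inv_eq_iff_eq_mul] at h2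
    exact h2.symm
  let f : ↥B → {v : ↥A // v ≠ 1} := fun b =>
    ⟨⟨(b : G) * x * (b : G)⁻¹, (Subgroup.mem_normalizer_iff.1 (hBA b.2) x).1 hxA⟩, fun h =>
      hx1 (conj_eq_one_iff.1 (congrArg Subtype.val h))⟩
  have hf : Function.Injective f := by
    intro b c h
    have h' : (b : G) * x * (b : G)⁻¹ = (c : G) * x * (c : G)⁻¹ :=
      congrArg (fun v => ((v : ↥A) : G)) (congrArg Subtype.val h)
    by_contra hne'
    refine hfix ((c : G)⁻¹ * b) (mul_mem (inv_mem c.2) b.2) (fun h1 => hne' ?_) ?_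
    · exact Subtype.ext (inv_mul_eq_one.1 h1).symm
    · show (c : G)⁻¹ * b * x = x * ((c : G)⁻¹ * b)
      calc (c : G)⁻¹ * b * x = (c : G)⁻¹ * ((b : G) * x * (b : G)⁻¹) * b := by group
        _ = x * ((c : G)⁻¹ * b) := by rw [h']; group
  have h1 := Nat.card_le_card_of_injective f hf
  have h2 : Nat.card {v : ↥A // v ≠ 1} < Nat.card ↥A := Finite.card_subtype_lt (x := (1 : ↥A)) (by simp)
  have h3 : Nat.card ↥B = Nat.card ↥A := by
    rw [hBdef]
    exact Nat.card_congr (A.equivMapOfInjective _ (MulAut.conj g).injective).toEquiv.symm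
  omega

end Cfsg.Agent.S1177
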