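import Cfsg.Statements.S1178
import Mathlib
import Cfsg.Agent.Lib.TwoFus.Weak
-- import your own Cfsg.Agent.* helpers here

set_option autoImplicit false
open Cfsg

namespace Cfsg.Agent.S1178

/-- Let A be a subgroup of a Sylow 2-subgroup S of the finite group G which is weakly closed in S. If a conjugate g A g⁻¹ commutes elementwise with A, then g A g⁻¹ = A. -/
theorem result {G : Type*} [Group G] [Finite G] (S : Sylow 2 G) (A : Subgroup G) (hW : Cfsg.IsWeaklyClosed A (S : Subgroup G)) (g : G) (hc : ∀ a ∈ A, ∀ b ∈ A.map (MulAut.conj g).toMonoidHom, a * b = b * a) : A.map (MulAut.conj g).toMonoidHom = A := by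
  have hA : IsPGroup 2 ↥A := S.isPGroup'.to_le hW.1
  have hle : A.map (MulAut.conj g).toMonoidHom ≤ Subgroup.normalizer (A : Set G) :=
    le_trans (fun b hb => Subgroup.mem_centralizer_iff.2 fun a ha => hc a ha b hb)
      (Subgroup.centralizer_le_normalizer _)
  have hR : IsPGroup 2 ↥(A ⊔ A.map (MulAut.conj g).toMonoidHom) :=
    IsPGroup.to_sup_of_normal_left' hA (hA.map _) hle
  have h1 : A.map (MulAut.conj (1 : G)).toMonoidHom = A := by
    rw [map_one]
    exact Subgroup.map_id A
  have e := Cfsg.Lib.TwoFus.map_eq_of_le_pgroup hW hR (a := g) (b := 1) le_sup_right (by rw [h1]; exact le_sup_left)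
  rw [h1] at e
  exact e

end Cfsg.Agent.S1178
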