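import Cfsg.Statements.S1185
import Mathlib
import Cfsg.Agent.Lib.Invol.IsolatedSylow
-- import your own Cfsg.Agent.* helpers here

set_option autoImplicit false
open Cfsg

namespace Cfsg.Agent.S1185

/-- Let z be an isolated involution of the finite group G with centralizer C. Then for every g ∈ G there is exactly one element k in the coset gC that has odd order and is inverted by z. -/
theorem result {G : Type*} [Group G] [Finite G] (z : G) (hz : Cfsg.IsIsolatedInvolution z) (g : G) : ∃! k : G, (Odd (orderOf k) ∧ z * k * z⁻¹ = k⁻¹) ∧ g⁻¹ * k ∈ Subgroup.centralizer ({z} : Set G) := by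
  obtain ⟨k, -, hk, hc, hu⟩ := Cfsg.Lib.Invol.existsUnique_oddInv hz (H := ⊤)
    (Subgroup.le_normalizer (Subgroup.mem_top z)) (Subgroup.mem_top g)
  exact ⟨k, ⟨hk, hc⟩, fun k' h' => hu k' h'.1 h'.2⟩

end Cfsg.Agent.S1185
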