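import Cfsg.Statements.S1224
import Mathlib
import Cfsg.Agent.Lib.TwoFus.StronglyEmbedded
-- import your own Cfsg.Agent.* helpers here

set_option autoImplicit false
open Cfsg

namespace Cfsg.Agent.S1224

/-- Let H be a strongly embedded subgroup of the finite group G and x ≠ y two cosets in G/H. Then the number of involutions i of G with i • x = y equals the number of involutions lying in H. -/
theorem result {G : Type*} [Group G] [Finite G] (H : Subgroup G) (hH : Cfsg.IsStronglyEmbedded H) (x y : G ⧸ H) (hxy : x ≠ y) : Nat.card {i : G // orderOf i = 2 ∧ i • x = y} = Nat.card {t : G // orderOf t = 2 ∧ t ∈ H} := by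
  classical
  obtain ⟨g, rfl⟩ := QuotientGroup.mk_surjective x
  refine (Nat.card_congr ((MulAut.conj g⁻¹).toEquiv.subtypeEquiv fun i => ?_)).trans
    (Cfsg.Lib.TwoFus.se_card_coset hH (g⁻¹ • y))
  show orderOf i = 2 ∧ i • (g : G ⧸ H) = y ↔
    orderOf ((MulAut.conj g⁻¹) i) = 2 ∧ (QuotientGroup.mk ((MulAut.conj g⁻¹) i) : G ⧸ H) = g⁻¹ • y
  rw [MulEquiv.orderOf_eq, MulAut.conj_apply, inv_inv, eq_inv_smul_iff,
    MulAction.Quotient.smul_coe, MulAction.Quotient.smul_coe, smul_eq_mul, smul_eq_mul,
    show g * (g⁻¹ * i * g) = i * g by group]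

end Cfsg.Agent.S1224
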