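import Cfsg.Statements.S1228
import Cfsg.Agent.Lib.TwoFus.ElemAction
-- import your own Cfsg.Agent.* helpers here

set_option autoImplicit false
open Cfsg

namespace Cfsg.Agent.S1228

/-- Let G be a finite group with a Sylow 2-subgroup T that is neither cyclic nor normal, such that the centralizer of every involution is an elementary abelian 2-group; put H = N_G(T), let u be an involution outside H and D = H ∩ uHu⁻¹. Then N_G(D) = D ⊔ ⟨u⟩, and a coset gH is fixed by every element of D exactly when gH = H or gH = uH. -/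
theorem result {G : Type*} [Group G] [Finite G] (T : Sylow 2 G) (hnc : ¬ IsCyclic (T : Subgroup G)) (hnn : ¬ (T : Subgroup G).Normal) (hC : ∀ t : G, orderOf t = 2 → IsMulCommutative (Subgroup.centralizer ({t} : Set G)) ∧ ∀ c ∈ Subgroup.centralizer ({t} : Set G), c ^ 2 = 1) (u : G) (hu : orderOf u = 2) (huH : u ∉ Subgroup.normalizer ((T : Subgroup G) : Set G)) : Subgroup.normalizer ((Subgroup.normalizer ((T : Subgroup G) : Set G) ⊓ (Subgroup.normalizer ((T : Subgroup G) : Set G)).map (MulAut.conj u).toMonoidHom : Subgroup G) : Set G) = (Subgroup.normalizer ((T : Subgroup G) : Set G) ⊓ (Subgroup.normalizer ((T : Subgroup G) : Set G)).map (MulAut.conj u).toMonoidHom) ⊔ Subgroup.zpowers u ∧ ∀ g : G, ((∀ d ∈ Subgroup.normalizer ((T : Subgroup G) : Set G) ⊓ (Subgroup.normalizer ((T : Subgroup G) : Set G)).map (MulAut.conj u).toMonoidHom, d • (QuotientGroup.mk g : G ⧸ Subgroup.normalizer ((T : Subgroup G) : Set G)) = QuotientGroup.mk g) ↔ (QuotientGroup.mk g : G ⧸ Subgroup.normalizer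 ((T : Subgroup G) : Set G)) = QuotientGroup.mk 1 ∨ (QuotientGroup.mk g : G ⧸ Subgroup.normalizer ((T : Subgroup G) : Set G)) = QuotientGroup.mk u) := by
  have h : Cfsg.Lib.TwoFus.ElemCent.Hyp T := ⟨hnc, hnn, hC⟩
  obtain ⟨d, hd, hd1⟩ := Cfsg.Lib.TwoFus.ElemCent.exists_ne_one h hu huH
  have hun : u ∈ Subgroup.normalizer (Cfsg.Lib.TwoFus.ElemCent.Dl T u : Set G) := by
    refine Subgroup.mem_normalizer_iff.2 fun x => ?_
    rw [Cfsg.Lib.Invol.inv_of_orderTwo hu]
    refine ⟨fun hx => ?_, fun hx => ?_⟩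
    · rw [Cfsg.Lib.TwoFus.ElemCent.inverts h hu huH x hx]; exact Subgroup.inv_mem _ hx
    · have := Cfsg.Lib.TwoFus.ElemCent.inverts h hu huH _ hx
      rw [show u * (u * x * u) * u = u * u * x * (u * u) by group, Cfsg.Lib.Invol.mul_self_of_orderTwo hu,
        one_mul, mul_one] at this
      rw [this]; exact Subgroup.inv_mem _ hx
  refine ⟨le_antisymm (fun g hg => ?_) (sup_le Subgroup.le_normalizer (Subgroup.zpowers_le.2 hun)), fun g => ?_⟩
  · have h1 : g⁻¹ * d * g ∈ Cfsg.Lib.TwoFus.ElemCent.Dl T u := by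
      have := (Subgroup.mem_normalizer_iff.1 (Subgroup.inv_mem _ hg) d).1 hd
      rwa [inv_inv] at this
    rcases Cfsg.Lib.TwoFus.ElemCent.fixed_points h hu huH hd hd1 h1.1 with h2 | h2
    · exact Subgroup.mem_sup_left (Cfsg.Lib.TwoFus.ElemCent.normalizer_inf h hu huH h2 hg)
    · have h3 := Cfsg.Lib.TwoFus.ElemCent.normalizer_inf h hu huH h2 (Subgroup.mul_mem _ hun hg)
      have := Subgroup.mul_mem _ (Subgroup.mem_sup_right (S := Cfsg.Lib.TwoFus.ElemCent.Dl T u) (Subgroup.inv_mem _ (Subgroup.mem_zpowers u))) (Subgroup.mem_sup_left (T := Subgroup.zpowers u) h3)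
      rwa [inv_mul_cancel_left] at this
  · constructor
    · intro hfix
      by_contra hno
      rw [not_or] at hno
      exact hd1 (Cfsg.Lib.TwoFus.ElemCent.Dl_free h hu huH hd hno.1 hno.2 (hfix d hd))
    · rintro (e | e) x hx
      · rw [e]; exact (Cfsg.Lib.TwoFus.ElemCent.Dl_fix hu hx).1
      · rw [e]; exact (Cfsg.Lib.TwoFus.ElemCent.Dl_fix hu hx).2

end Cfsg.Agent.S1228
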