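import Cfsg.Statements.S1231
import Mathlib
import Cfsg.Agent.Lib.TwoFus.GeneratedCore
-- import your own Cfsg.Agent.* helpers here

set_option autoImplicit false
open Cfsg

namespace Cfsg.Agent.S1231

/-- Let H be a subgroup of the finite group G, p a prime, k ≥ 1, and P a Sylow p-subgroup of H whose p-rank is at least k. Then N_G(X) ≤ H for every subgroup X of P of p-rank at least k if and only if H ∩ gHg⁻¹ has p-rank less than k for every g ∉ H. -/
theorem result {G : Type*} [Group G] [Finite G] {p : ℕ} [Fact p.Prime] (k : ℕ) (hk : 1 ≤ k) (H : Subgroup G) (P : Sylow p ↥H) (hP : ¬ Cfsg.PRankLE p (k - 1) ↥(P : Subgroup ↥H)) : (∀ X : Subgroup G, X ≤ (P : Subgroup ↥H).map H.subtype → ¬ Cfsg.PRankLE p (k - 1) ↥X → Subgroup.normalizer (X : Set G) ≤ H) ↔ (∀ g : G, g ∉ H → Cfsg.PRankLE p (k - 1) ↥(H ⊓ H.map (MulAut.conj g).toMonoidHom)) := by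
  constructor
  · intro hN g hg
    by_contra hr
    obtain ⟨E, hE, hEp, hEr⟩ := Cfsg.Lib.TwoFus.exists_pgroup_not_rank hr
    refine hg (Cfsg.Lib.TwoFus.generated_core_mem H P hP hN (hE.trans inf_le_left) hEp hEr
      fun e he => ?_)
    obtain ⟨r, hr', hre⟩ := (hE he).2
    rw [show g⁻¹ * e * g = r by rw [← hre]; show g⁻¹ * (g * r * g⁻¹) * g = r; group]
    exact hr'
  · intro h X hX hXr g hg
    by_contra hgH
    refine Cfsg.Lib.TwoFus.rank_mono X _ (le_inf (hX.trans (Subgroup.map_subtype_le _)) ?_) hXr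
      (h g hgH)
    intro x hx
    refine ⟨g⁻¹ * x * g, Subgroup.map_subtype_le _ (hX ?_), by simp [MulAut.conj_apply, mul_assoc]⟩
    exact (Subgroup.mem_normalizer_iff''.1 hg x).1 hx

end Cfsg.Agent.S1231
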