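import Cfsg.Statements.S1236
import Mathlib
import Cfsg.Agent.Lib.TwoFus.Semidihedral
-- import your own Cfsg.Agent.* helpers here

set_option autoImplicit false
open Cfsg

namespace Cfsg.Agent.S1236

open Subgroup

private theorem dihedral_small {m : ℕ} (hm : 2 ≤ m) (V : Subgroup (DihedralGroup m)) (hV : Nat.card V = 4)
    (hV2 : ∀ v ∈ V, v * v = 1) : ∀ x ∈ centralizer (V : Set (DihedralGroup m)), x ∈ V := by
  haveI : NeZero m := ⟨by omega⟩
  have hval : ∀ j : ZMod m, j + j = 0 → j.val = 0 ∨ 2 * j.val = m := by
    intro j hj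
    have h : ((2 * j.val : ℕ) : ZMod m) = 0 := by
      push_cast
      rw [ZMod.natCast_zmod_val, two_mul]; exact hj
    obtain ⟨c, hc⟩ := (ZMod.natCast_eq_zero_iff _ _).1 h
    have := ZMod.val_lt j
    rcases c with _ | _ | c
    · exact Or.inl (by omega)
    · exact Or.inr (by omega)
    · exfalso; rw [mul_add, mul_add] at hc; nlinarith
  have huniq : ∀ i j : ZMod m, i + i = 0 → j + j = 0 → i ≠ 0 → j ≠ 0 → i = j := by
    intro i j hi hj hi0 hj0
    apply ZMod.val_injective
    rcases hval i hi with h | h
    · exact absurd ((ZMod.val_eq_zero i).1 h) hi0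
    rcases hval j hj with h' | h'
    · exact absurd ((ZMod.val_eq_zero j).1 h') hj0
    omega
  obtain ⟨i, hi⟩ : ∃ i, DihedralGroup.sr i ∈ V := by
    by_contra hc
    push Not at hc
    have : Nat.card V ≤ 2 := by
      classical
      refine (Nat.card_le_card_of_injective
        (fun v : V => if (v : DihedralGroup m) = 1 then (0 : Fin 2) else 1) ?_).trans (by simp)
      intro a b hab
      have key : ∀ v : V, (v : DihedralGroup m) ≠ 1 → ∃ j, (v : DihedralGroup m) = .r j ∧ j + j = 0 ∧ j ≠ 0 := by
        rintro ⟨v, hv⟩ hv1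
        cases v with
        | r j =>
          refine ⟨j, rfl, ?_, fun h => hv1 (by subst h; rfl)⟩
          have h := hV2 _ hv
          rw [DihedralGroup.r_mul_r, DihedralGroup.one_def] at h
          exact DihedralGroup.r.inj h
        | sr j => exact absurd hv (hc j)
      rcases eq_or_ne (a : DihedralGroup m) 1 with ha | ha <;> rcases eq_or_ne (b : DihedralGroup m) 1 with hb | hb <;>
        simp [ha, hb] at hab ⊢
      · exact Subtype.ext (ha.trans hb.symm)
      · obtain ⟨ja, ea, ha1, ha2⟩ := key a ha
        obtain ⟨jb, eb, hb1, hb2⟩ := key b hb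
        exact Subtype.ext (by rw [ea, eb, huniq ja jb ha1 hb1 ha2 hb2])
    omega
  have hVC : V ≤ centralizer ({DihedralGroup.sr i} : Set (DihedralGroup m)) := fun v hv =>
    mem_centralizer_iff.2 fun y hy => by
      rw [Set.mem_singleton_iff.1 hy]
      have h1 := inv_eq_of_mul_eq_one_right (hV2 _ (mul_mem hi hv))
      rw [mul_inv_rev, inv_eq_of_mul_eq_one_right (hV2 _ hv), inv_eq_of_mul_eq_one_right (hV2 _ hi)] at h1
      exact h1.symm
  have hcard : Nat.card ↥(centralizer ({DihedralGroup.sr i} : Set (DihedralGroup m))) ≤ 4 := by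
    classical
    let d : DihedralGroup m → Fin 2 × Fin 2 := fun x => match x with
      | .r j => (0, if j = 0 then 0 else 1)
      | .sr j => (1, if j - i = 0 then 0 else 1)
    refine (Nat.card_le_card_of_injective (fun x : centralizer _ => d x) ?_).trans (by simp)
    have hc : ∀ x ∈ centralizer ({DihedralGroup.sr i} : Set (DihedralGroup m)),
        match x with
        | .r j => j + j = 0
        | .sr j => (j - i) + (j - i) = 0 := by
      intro x hx
      have h := mem_centralizer_iff.1 hx _ rfl
      cases x with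
      | r j =>
        rw [DihedralGroup.sr_mul_r, DihedralGroup.r_mul_sr] at h
        have h' := DihedralGroup.sr.inj h
        show j + j = 0
        linear_combination h'
      | sr j =>
        rw [DihedralGroup.sr_mul_sr, DihedralGroup.sr_mul_sr] at h
        have h' := DihedralGroup.r.inj h
        show (j - i) + (j - i) = 0
        linear_combination h'
    rintro ⟨a, ha⟩ ⟨b, hb⟩ hab
    apply Subtype.ext
    have ha' := hc a ha
    have hb' := hc b hb
    cases a with
    | r j => cases b with
      | r k =>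
        simp only [d, Prod.mk.injEq, true_and] at hab
        show DihedralGroup.r j = DihedralGroup.r k
        congr 1
        by_cases h1 : j = 0 <;> by_cases h2 : k = 0 <;> simp [h1, h2] at hab ⊢
        exact huniq j k ha' hb' h1 h2
      | sr k => simp [d] at hab
    | sr j => cases b with
      | r k => simp [d] at hab
      | sr k =>
        simp only [d, Prod.mk.injEq, true_and] at hab
        show DihedralGroup.sr j = DihedralGroup.sr k
        congr 1
        by_cases h1 : j - i = 0 <;> by_cases h2 : k - i = 0 <;> simp [h1, h2] at hab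
        · exact (sub_eq_zero.1 h1).trans (sub_eq_zero.1 h2).symm
        · exact sub_left_injective (huniq _ _ ha' hb' h1 h2)
  intro x hx
  have heq := eq_of_le_of_card_ge hVC (by omega)
  rw [heq]
  exact centralizer_le (fun y hy => by rw [Set.mem_singleton_iff.1 hy]; exact hi) hx

private theorem main {R : Type*} [Group R] [Finite R] (t : R) (ht : orderOf t = 2) (htz : t ∈ center R)
    [(zpowers t).Normal]
    (hq : (∃ m : ℕ, 2 ≤ m ∧ Nonempty (R ⧸ zpowers t ≃* DihedralGroup m)) ∨ Cfsg.IsQuasiDihedral (R ⧸ zpowers t))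
    (A : Subgroup R) (hA : Cfsg.IsElementaryAbelian 2 A) (hA8 : Nat.card A = 8) (htA : t ∈ A) :
    centralizer (A : Set R) = A := by
  set q := QuotientGroup.mk' (zpowers t) with hqdef
  set V := A.map q with hV
  have hle : zpowers t ≤ A := zpowers_le.2 htA
  have hV4 : Nat.card V = 4 := by
    have h1 : (zpowers t).relIndex A * Nat.card (zpowers t) = Nat.card A := by
      rw [← relIndex_bot_left (zpowers t), ← relIndex_bot_left A, mul_comm]
      exact relIndex_mul_relIndex ⊥ _ A bot_le hle
    rw [Nat.card_zpowers, ht, hA8] at h1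
    rw [← relIndex_bot_left V, hV, ← Subgroup.map_bot q, relIndex_map_map, bot_sup_eq, QuotientGroup.ker_mk',
      sup_eq_left.2 hle]
    omega
  have hV2 : ∀ v ∈ V, v * v = 1 := by
    rintro _ ⟨a, ha, rfl⟩
    rw [← map_mul, ← pow_two, hA.2 a ha, map_one]
  have hsmall : ∀ x ∈ centralizer (V : Set (R ⧸ zpowers t)), x ∈ V := by
    rcases hq with ⟨m, hm, ⟨e⟩⟩ | hq
    · intro x hx
      have h := dihedral_small hm (V.map e.toMonoidHom)
        (by rw [card_map_of_injective (f := e.toMonoidHom) e.injective, hV4])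
        (by rintro _ ⟨v, hv, rfl⟩; rw [← map_mul, hV2 v hv, map_one])
        (e x) (mem_centralizer_iff.2 (by
          rintro _ ⟨v, hv, rfl⟩
          change e v * e x = e x * e v
          rw [← map_mul, ← map_mul, mem_centralizer_iff.1 hx v hv]))
      obtain ⟨v, hv, hve⟩ := h
      exact e.injective hve ▸ hv
    · obtain ⟨k, ⟨D⟩⟩ := Cfsg.Lib.TwoFus.exists_qdData hq
      haveI : Nontrivial V := Finite.one_lt_card_iff_nontrivial.1 (by omega)
      have hK : IsKleinFour V := ⟨hV4, (Monoid.exponent_eq_prime_iff Nat.prime_two).2 fun v hv =>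
        orderOf_eq_prime (Subtype.ext (by rw [pow_two]; exact hV2 _ v.2)) hv⟩
      obtain ⟨l, hl, he⟩ := D.kleinFour_form V hK
      intro x hx
      rw [he]
      exact centralizer_le (fun y hy => by rw [Set.mem_singleton_iff.1 hy]; exact hl) hx
  refine le_antisymm (fun x hx => ?_) fun x hx => mem_centralizer_iff.2 fun y hy =>
    congrArg Subtype.val (hA.1.is_comm.comm (⟨y, hy⟩ : A) ⟨x, hx⟩)
  obtain ⟨a, ha, hax⟩ := hsmall (q x) (mem_centralizer_iff.2 (by
    rintro _ ⟨a, ha, rfl⟩; rw [← map_mul, ← map_mul, mem_centralizer_iff.1 hx a ha]))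
  have h1 : a⁻¹ * x ∈ zpowers t := by
    rw [← QuotientGroup.eq_one_iff]
    change q (a⁻¹ * x) = 1
    rw [map_mul, map_inv, hax, inv_mul_cancel]
  have h2 := mul_mem ha (hle h1)
  rwa [mul_inv_cancel_left] at h2


/-- Let R be a finite group, t a central involution of R such that R ⧸ ⟨t⟩ is dihedral (of order ≥ 4) or quasi-dihedral, and A ≤ R an elementary abelian subgroup of order 8 containing t. Then C_R(A) = A. -/
theorem result {R : Type*} [Group R] [Finite R] (t : R) (ht : orderOf t = 2) (htz : t ∈ Subgroup.center R) [(Subgroup.zpowers t).Normal] (hq : (∃ m : ℕ, 2 ≤ m ∧ Nonempty (R ⧸ Subgroup.zpowers t ≃* DihedralGroup m)) ∨ Cfsg.IsQuasiDihedral (R ⧸ Subgroup.zpowers t)) (A : Subgroup R) (hA : Cfsg.IsElementaryAbelian 2 A) (hA8 : Nat.card A = 8) (htA : t ∈ A) : Subgroup.centralizer (A : Set R) = A := by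
  exact main t ht htz hq A hA hA8 htA

end Cfsg.Agent.S1236
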