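import Cfsg.Statements.S1241
import Mathlib
import Cfsg.Agent.Lib.Transfer.Stable
-- import your own Cfsg.Agent.* helpers here

set_option autoImplicit false
open Cfsg

namespace Cfsg.Agent.S1241

/-- Let G be a finite group, p a prime, H a subgroup of index prime to p, K a subgroup of H normal in H with H/K commutative, and g ∈ H ∖ K an element of p-power order such that for all integers m and all a ∈ G with a g^m a⁻¹ ∈ H one has a g^m a⁻¹ ∈ g^m K. Then g ∉ G'. -/
theorem result {G : Type*} [Group G] [Finite G] {p : ℕ} [Fact p.Prime] (H K : Subgroup G) (hHK : K ≤ H) (hKn : (K.subgroupOf H).Normal) (hab : ∀ x ∈ H, ∀ y ∈ H, x * y * x⁻¹ * y⁻¹ ∈ K) (hidx : Nat.Coprime p H.index) (g : G) (hgH : g ∈ H) (hgK : g ∉ K) (hgp : ∃ k : ℕ, orderOf g = p ^ k) (hctrl : ∀ (m : ℤ) (a : G), a * g ^ m * a⁻¹ ∈ H → (a * g ^ m * a⁻¹) * (g ^ m)⁻¹ ∈ K) : g ∉ commutator G := by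
  intro hg
  haveI := hKn
  letI := Cfsg.Lib.Transfer.commGroupQuotient (K.subgroupOf H)
    (fun x y => Subgroup.mem_subgroupOf.2 (hab x x.2 y y.2))
  have key : MonoidHom.transfer (QuotientGroup.mk' (K.subgroupOf H)) g =
      QuotientGroup.mk' (K.subgroupOf H) ⟨g, hgH⟩ ^ H.index := by
    refine Cfsg.Lib.Transfer.transfer_eq_map_pow (QuotientGroup.mk' (K.subgroupOf H)) ⟨g, hgH⟩
      fun m a hm => ?_
    rw [← map_pow]
    refine (QuotientGroup.eq.2 ?_).symm
    rw [Subgroup.mem_subgroupOf]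
    have h := hctrl m a⁻¹ (by simpa using hm)
    have h' := hKn.conj_mem ⟨_, hHK h⟩ (Subgroup.mem_subgroupOf.2 h) (⟨g, hgH⟩ ^ m)⁻¹
    rw [Subgroup.mem_subgroupOf] at h'
    simpa [mul_assoc] using h'
  have h1 : MonoidHom.transfer (QuotientGroup.mk' (K.subgroupOf H)) g = 1 := by
    have hle := Abelianization.commutator_subset_ker
      (MonoidHom.transfer (QuotientGroup.mk' (K.subgroupOf H)))
    exact MonoidHom.mem_ker.1 (hle hg)
  rw [key] at h1
  obtain ⟨k, hk⟩ := hgp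
  have h2 : QuotientGroup.mk' (K.subgroupOf H) ⟨g, hgH⟩ ^ (p ^ k) = 1 := by
    rw [← map_pow]
    have : (⟨g, hgH⟩ : ↥H) ^ (p ^ k) = 1 :=
      Subtype.ext (by simpa [← hk] using pow_orderOf_eq_one g)
    rw [this, map_one]
  have h3 : QuotientGroup.mk' (K.subgroupOf H) ⟨g, hgH⟩ = 1 :=
    orderOf_eq_one_iff.1 (Nat.eq_one_of_dvd_coprimes (hidx.pow_left k)
      (orderOf_dvd_of_pow_eq_one h2) (orderOf_dvd_of_pow_eq_one h1))
  exact hgK (Subgroup.mem_subgroupOf.1 ((QuotientGroup.eq_one_iff _).1 h3))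

end Cfsg.Agent.S1241
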