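import Cfsg.Statements.S1242
import Mathlib
import Cfsg.Agent.Lib.Transfer.Stable
import Cfsg.Agent.Lib.Transfer.NormalPComplement
-- import your own Cfsg.Agent.* helpers here

set_option autoImplicit false
open Cfsg

namespace Cfsg.Agent.S1242

/-- Let G be a finite group, p a prime and H a subgroup of index prime to p such that any two elements of H of p-power order that are conjugate in G are conjugate in H. Then (O^p(G)·G') ∩ H = O^p(H)·H', where O^p denotes the subgroup generated by the elements of order prime to p. -/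
theorem result {G : Type*} [Group G] [Finite G] {p : ℕ} [Fact p.Prime] (H : Subgroup G) (hidx : Nat.Coprime p H.index) (hfus : ∀ g ∈ H, (∃ k : ℕ, orderOf g = p ^ k) → ∀ a : G, a * g * a⁻¹ ∈ H → ∃ h ∈ H, h * g * h⁻¹ = a * g * a⁻¹) : (Cfsg.pResidual p G ⊔ commutator G) ⊓ H = (Cfsg.pResidual p ↥H ⊔ commutator ↥H).map H.subtype := by
  refine le_antisymm ?_ ?_
  swap
  · rw [Subgroup.map_sup]
    refine sup_le (le_inf ((Cfsg.Lib.Transfer.pResidual_subgroup_le H).trans le_sup_left)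
      (Subgroup.map_subtype_le _)) (le_inf (le_trans ?_ le_sup_right) (Subgroup.map_subtype_le _))
    rw [commutator_def, Subgroup.map_commutator, commutator_def]
    exact Subgroup.commutator_mono le_top le_top
  haveI hn1 := Cfsg.Lib.Transfer.pResidual_normal (G := ↥H) p
  set K := Cfsg.pResidual p ↥H ⊔ commutator ↥H with hK
  haveI : K.Normal := inferInstance
  letI := Cfsg.Lib.Transfer.commGroupQuotient K
    (fun x y => Subgroup.mem_sup_right (by
      simpa [commutator_def, commutatorElement_def] using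
        Subgroup.commutator_mem_commutator (Subgroup.mem_top x) (Subgroup.mem_top y)))
  have hP : IsPGroup p (↥H ⧸ K) :=
    Cfsg.Lib.Transfer.isPGroup_quotient_of_pResidual_le K le_sup_left
  set τ := MonoidHom.transfer (QuotientGroup.mk' K) with hτ
  have hker : Cfsg.pResidual p G ⊔ commutator G ≤ τ.ker := by
    refine sup_le ?_ (Abelianization.commutator_subset_ker τ)
    show Subgroup.closure _ ≤ _
    rw [Subgroup.closure_le]
    intro x hx
    obtain ⟨k, hk⟩ := hP (τ x)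
    exact orderOf_eq_one_iff.1 (Nat.eq_one_of_dvd_coprimes ((Nat.Coprime.pow_right k hx))
      (orderOf_map_dvd τ x) (orderOf_dvd_of_pow_eq_one hk))
  rintro x ⟨hx, hxH⟩
  obtain ⟨j, m, hm, hjm⟩ : ∃ j m : ℕ, ¬ p ∣ m ∧ orderOf x = p ^ j * m :=
    ⟨_, _, Nat.not_dvd_ordCompl Fact.out (orderOf_pos x).ne',
      (Nat.ordProj_mul_ordCompl_eq_self (orderOf x) p).symm⟩
  set y : ↥H := ⟨x, hxH⟩ ^ m with hy
  have hyp : ∃ k : ℕ, orderOf (y : G) = p ^ k := by
    have : (y : G) ^ (p ^ j) = 1 := by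
      rw [hy, Subgroup.coe_pow, ← pow_mul, mul_comm, ← hjm, pow_orderOf_eq_one]
    obtain ⟨k, -, hk⟩ := (Nat.dvd_prime_pow Fact.out).1 (orderOf_dvd_of_pow_eq_one this)
    exact ⟨k, hk⟩
  have key : τ (y : G) = QuotientGroup.mk' K y ^ H.index := by
    refine Cfsg.Lib.Transfer.transfer_eq_map_pow (QuotientGroup.mk' K) y fun i a hia => ?_
    have hpi : ∃ k : ℕ, orderOf ((y : G) ^ i) = p ^ k := by
      obtain ⟨k, hk⟩ := hyp
      obtain ⟨k', -, hk'⟩ := (Nat.dvd_prime_pow Fact.out).1 (hk ▸ orderOf_pow_dvd i)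
      exact ⟨k', hk'⟩
    obtain ⟨h, hh, hhe⟩ := hfus _ (H.pow_mem y.2 i) hpi a⁻¹ (by simpa using hia)
    rw [← map_pow]
    have e : (⟨a⁻¹ * (y : G) ^ i * a, hia⟩ : ↥H) = ⟨h, hh⟩ * y ^ i * ⟨h, hh⟩⁻¹ :=
      Subtype.ext (by simpa using hhe.symm)
    rw [e, map_mul, map_mul, map_inv, mul_inv_cancel_comm]
  have h1 : τ (y : G) = 1 := by
    rw [hy, Subgroup.coe_pow, map_pow, MonoidHom.mem_ker.1 (hker hx), one_pow]
  rw [key, hy, map_pow, ← pow_mul] at h1
  obtain ⟨k, hk⟩ := hP (QuotientGroup.mk' K ⟨x, hxH⟩)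
  have hco : Nat.Coprime (p ^ k) (m * H.index) :=
    Nat.Coprime.pow_left k (Nat.Coprime.mul_right
      ((Nat.Prime.coprime_iff_not_dvd Fact.out).2 hm) hidx)
  have h2 := orderOf_eq_one_iff.1 (Nat.eq_one_of_dvd_coprimes hco
    (orderOf_dvd_of_pow_eq_one hk) (orderOf_dvd_of_pow_eq_one h1))
  exact ⟨⟨x, hxH⟩, (QuotientGroup.eq_one_iff _).1 h2, rfl⟩

end Cfsg.Agent.S1242
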