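import Cfsg.Statements.S1243
import Mathlib
import Cfsg.Agent.Lib.TwoFus.Weak
-- import your own Cfsg.Agent.* helpers here

set_option autoImplicit false
open Cfsg

namespace Cfsg.Agent.S1243

/-- Let T be a Sylow p-subgroup of the finite group G and W ≤ T a subgroup weakly closed in T. If d and g d g⁻¹ both centralize W, then g d g⁻¹ = h d h⁻¹ for some h ∈ N_G(W). -/
theorem result {G : Type*} [Group G] [Finite G] {p : ℕ} [Fact p.Prime] (T : Sylow p G) (W : Subgroup G) (hW : Cfsg.IsWeaklyClosed W (T : Subgroup G)) (d g : G) (hd : d ∈ Subgroup.centralizer (W : Set G)) (hgd : g * d * g⁻¹ ∈ Subgroup.centralizer (W : Set G)) : ∃ h ∈ Subgroup.normalizer (W : Set G), h * d * h⁻¹ = g * d * g⁻¹ := by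
  have hWH : W ≤ Subgroup.centralizer ({d} : Set G) := fun w hw =>
    Subgroup.mem_centralizer_singleton_iff.2 (Subgroup.mem_centralizer_iff.1 hd w hw)
  have hgH : W.map (MulAut.conj g⁻¹).toMonoidHom ≤ Subgroup.centralizer ({d} : Set G) := by
    rintro _ ⟨w, hw, rfl⟩
    refine Subgroup.mem_centralizer_singleton_iff.2 ?_
    have e : w * (g * d * g⁻¹) = g * d * g⁻¹ * w := Subgroup.mem_centralizer_iff.1 hgd w hw
    simp only [MulEquiv.coe_toMonoidHom, MulAut.conj_apply, inv_inv]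
    calc g⁻¹ * w * g * d = g⁻¹ * (w * (g * d * g⁻¹)) * g := by group
      _ = d * (g⁻¹ * w * g) := by rw [e]; group
  obtain ⟨c, hc, hn⟩ := Cfsg.Lib.TwoFus.exists_mul_normalizes hW hWH hgH
  refine ⟨g * c, hn, ?_⟩
  have hcd := Subgroup.mem_centralizer_singleton_iff.1 hc
  calc g * c * d * (g * c)⁻¹ = g * (c * d) * c⁻¹ * g⁻¹ := by group
    _ = g * d * g⁻¹ := by rw [hcd]; group

end Cfsg.Agent.S1243
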