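import Cfsg.Statements.S1244
import Mathlib
import Cfsg.Agent.Lib.Transfer.Abelian
-- import your own Cfsg.Agent.* helpers here

set_option autoImplicit false
open Cfsg

namespace Cfsg.Agent.S1244

open Subgroup Cfsg.Lib
open scoped commutatorElement

private theorem main {G : Type*} [Group G] [Finite G] (hG : ∀ H : Subgroup G, H.index ≠ 2) (S : Sylow 2 G)
    (hS : IsMulCommutative (S : Subgroup G)) (r : ℕ) (hr1 : 1 ≤ r)
    (hSr : Cfsg.PRankLE 2 r (S : Subgroup G) ∧ ¬ Cfsg.PRankLE 2 (r - 1) (S : Subgroup G)) (R : Subgroup G)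
    (hRS : R ≤ S) (hRr : Cfsg.PRankLE 2 (r - 1) R ∧ (r = 1 ∨ ¬ Cfsg.PRankLE 2 (r - 2) R))
    (t : G) (ht : orderOf t = 2) (htS : t ∈ S) :
    ∃ n ∈ normalizer ((S : Subgroup G) : Set G), n * t * n⁻¹ ∈ R := by
  classical
  haveI := Fact.mk Nat.prime_two
  set S' := (S : Subgroup G) with hS'
  haveI := hS
  letI : CommGroup ↥S' := { (inferInstance : Group ↥S') with mul_comm := hS.is_comm.comm }
  have hcomm : ∀ a ∈ S', ∀ b ∈ S', a * b = b * a := fun a ha b hb =>
    congrArg Subtype.val (hS.is_comm.comm (⟨a, ha⟩ : ↥S') ⟨b, hb⟩)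
  set N := normalizer (S' : Set G) with hN
  set V : Subgroup ↥S' := (powMonoidHom 2 : ↥S' →* ↥S').ker with hV
  have hVmem : ∀ v : ↥S', v ∈ V ↔ v ^ 2 = 1 := fun v => Iff.rfl
  set W : Subgroup ↥S' := V ⊓ R.subgroupOf S' with hW
  -- the indices
  have hpow : ∀ {H : Subgroup ↥S'}, ∃ k, Nat.card H = 2 ^ k := fun {H} =>
    IsPGroup.iff_card.1 (S.isPGroup'.to_subgroup H)
  have hVcard : Nat.card V = 2 ^ r := by
    have h1 : Nat.card V ≤ 2 ^ r := hSr.1 V inferInstance fun a ha => ha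
    have h2 : ¬ Nat.card V ≤ 2 ^ (r - 1) := fun h => hSr.2 fun A _ hA2 =>
      (Subgroup.card_le_of_le (fun a ha => hA2 a ha : A ≤ V)).trans h
    obtain ⟨k, hk⟩ := hpow (H := V)
    rw [hk] at h1 h2 ⊢
    rw [Nat.pow_le_pow_iff_right (by norm_num)] at h1 h2
    congr 1
    omega
  have hWcard : Nat.card W = 2 ^ (r - 1) := by
    have e : R.subgroupOf S' ≃* R := subgroupOfEquivOfLe hRS
    have h1 : Nat.card W ≤ 2 ^ (r - 1) := by
      have h := hRr.1 ((W.map S'.subtype).subgroupOf R)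
        ⟨⟨fun a b => Subtype.ext (Subtype.ext (hcomm _ (hRS (a : ↥R).2) _ (hRS (b : ↥R).2)))⟩⟩ (by
        rintro a ⟨w, hw, hwe⟩
        apply Subtype.ext
        rw [SubmonoidClass.coe_pow, show ((a : ↥R) : G) = (w : G) from hwe.symm]
        have h2 : w ^ 2 = 1 := hw.1
        have h3 := congrArg Subtype.val h2
        exact h3)
      have hle : W.map S'.subtype ≤ R := by rintro _ ⟨w, hw, rfl⟩; exact hw.2
      rwa [Nat.card_congr (subgroupOfEquivOfLe hle).toEquiv, card_map_of_injective S'.subtype_injective] at h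
    have h2 : ∀ _ : 2 ≤ r, ¬ Nat.card W ≤ 2 ^ (r - 2) := fun hr h => by
      refine (hRr.2.resolve_left (by omega)) fun A _ hA2 => ?_
      have hle : (A.map R.subtype).subgroupOf S' ≤ W := by
        rintro a ⟨x, hx, hxe⟩
        refine ⟨?_, ?_⟩
        · apply Subtype.ext
          change (a : G) ^ 2 = 1
          rw [show (a : G) = (x : G) from hxe.symm, ← SubmonoidClass.coe_pow, hA2 x hx]
          rfl
        · show (a : G) ∈ R
          rw [show (a : G) = (x : G) from hxe.symm]; exact x.2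
      have h3 := (Subgroup.card_le_of_le hle).trans h
      rwa [Nat.card_congr (subgroupOfEquivOfLe ((map_subtype_le A).trans hRS)).toEquiv,
        card_map_of_injective R.subtype_injective] at h3
    obtain ⟨k, hk⟩ := hpow (H := W)
    rw [hk] at h1 h2 ⊢
    simp only [Nat.pow_le_pow_iff_right (show 1 < 2 by norm_num)] at h1 h2
    congr 1
    rcases Nat.lt_or_ge r 2 with h | h
    · omega
    · have := h2 h; omega
  have hidx : (W.subgroupOf V).index = 2 := by
    have h := relIndex_mul_relIndex ⊥ W V bot_le inf_le_left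
    rw [relIndex_bot_left, relIndex_bot_left, hWcard, hVcard] at h
    change W.relIndex V = 2
    refine Nat.eq_of_mul_eq_mul_left (show 0 < 2 ^ (r - 1) by positivity) (h.trans ?_)
    rw [← pow_succ]; congr 1; omega
  -- the action
  have hnS : ∀ n ∈ N, ∀ x ∈ S', n * x * n⁻¹ ∈ S' := fun n hn x hx => (mem_normalizer_iff.1 hn x).1 hx
  let conjS : ↥N → ↥S' → ↥S' := fun n x => ⟨(n : G) * x * (n : G)⁻¹, hnS n n.2 x x.2⟩
  have hconst : ∀ n : ↥N, ∀ s : ↥N, (s : G) ∈ S' → ∀ x, conjS (n * s) x = conjS n x := fun n s hs x => by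
    apply Subtype.ext
    change ((n : G) * s) * x * ((n : G) * s)⁻¹ = n * x * (n : G)⁻¹
    rw [mul_assoc (n : G), hcomm _ hs _ x.2]; group
  haveI : (S'.subgroupOf N).Normal := normal_in_normalizer
  let F : (↥N ⧸ S'.subgroupOf N) → ↥S' → ↥S' := fun q => Quotient.liftOn' q conjS fun n n' h => by
    funext x
    rw [QuotientGroup.leftRel_apply] at h
    rw [← hconst n (n⁻¹ * n') h x, mul_inv_cancel_left]
  have hF : ∀ n x, F (QuotientGroup.mk n) x = conjS n x := fun n x => rfl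
  letI := Fintype.ofFinite (↥N ⧸ S'.subgroupOf N)
  let ψ : ↥S' →* ↥S' := MonoidHom.mk' (fun x => ∏ q, F q x) fun x y => by
    rw [← Finset.prod_mul_distrib]
    refine Finset.prod_congr rfl fun q _ => ?_
    obtain ⟨n, rfl⟩ := QuotientGroup.mk_surjective q
    apply Subtype.ext
    simp only [hF, conjS, Subgroup.coe_mul]
    group
  have hψ : ∀ (n : ↥N) x, ψ (conjS n x) = ψ x := by
    intro n x
    refine Fintype.prod_equiv (Equiv.mulRight (QuotientGroup.mk n)) _ _ fun q => ?_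
    obtain ⟨m, rfl⟩ := QuotientGroup.mk_surjective q
    simp only [Equiv.coe_mulRight, ← QuotientGroup.mk_mul, hF]
    apply Subtype.ext
    simp only [conjS, Subgroup.coe_mul]
    group
  have hfoc : S' ≤ ψ.ker.map S'.subtype := by
    have hRtop : Cfsg.pResidual 2 G = ⊤ := by
      haveI := Transfer.pResidual_normal (G := G) 2
      obtain ⟨k, hk⟩ := Transfer.exists_index_pResidual_eq_pow (G := G) (p := 2)
      rcases k with _ | k
      · exact index_eq_one.1 (by rw [hk, pow_zero])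
      exfalso
      have hc : Nat.card (G ⧸ Cfsg.pResidual 2 G) = 2 ^ (k + 1) := by rw [← hk]; rfl
      obtain ⟨K, hK⟩ := Sylow.exists_subgroup_card_pow_prime 2 (G := G ⧸ Cfsg.pResidual 2 G) (n := k)
        (by rw [hc]; exact pow_dvd_pow 2 (Nat.le_succ k))
      refine hG (K.comap (QuotientGroup.mk' _)) ?_
      rw [index_comap_of_surjective _ (QuotientGroup.mk'_surjective _)]
      have h := K.card_mul_index
      rw [hK, hc, pow_succ] at h
      exact Nat.eq_of_mul_eq_mul_left (by positivity) h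
    calc S' = S' ⊓ Cfsg.pResidual 2 G := by rw [hRtop, inf_top_eq]
      _ = ⁅S', N⁆ := Transfer.abelian_inf_pResidual S hS
      _ ≤ _ := by
        rw [commutator_le]
        intro a ha n hn
        have h1 : n * a⁻¹ * n⁻¹ ∈ S' := hnS n hn _ (inv_mem ha)
        refine ⟨⟨a, ha⟩ * ⟨n * a⁻¹ * n⁻¹, h1⟩, ?_, ?_⟩
        · rw [SetLike.mem_coe, MonoidHom.mem_ker, map_mul]
          have h2 : ψ ⟨n * a⁻¹ * n⁻¹, h1⟩ = ψ ⟨a, ha⟩⁻¹ := hψ ⟨n, hn⟩ ⟨a, ha⟩⁻¹
          rw [h2, map_inv, mul_inv_cancel]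
        · rw [commutatorElement_def]
          change a * (n * a⁻¹ * n⁻¹) = _
          group
  by_contra hc
  push Not at hc
  set t' : ↥S' := ⟨t, htS⟩ with ht'
  have hψt : ψ t' = 1 := by
    obtain ⟨y, hy, hye⟩ := hfoc htS
    rw [show t' = y from Subtype.ext hye.symm]
    exact hy
  have hFV : ∀ q, F q t' ∈ V ∧ F q t' ∉ W := by
    intro q
    obtain ⟨n, rfl⟩ := QuotientGroup.mk_surjective q
    refine ⟨?_, fun h => hc n n.2 h.2⟩
    rw [hVmem, hF]
    apply Subtype.ext
    change ((n : G) * t * (n : G)⁻¹) ^ 2 = 1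
    rw [conj_pow, ← ht, pow_orderOf_eq_one]; group
  have key : ∀ s : Finset (↥N ⧸ S'.subgroupOf N), (∏ q ∈ s, F q t') ∈ V ∧
      ((∏ q ∈ s, F q t') ∈ W ↔ Even s.card) := by
    intro s
    induction s using Finset.induction with
    | empty => simp
    | insert a s has ih =>
      rw [Finset.prod_insert has, Finset.card_insert_of_notMem has]
      refine ⟨mul_mem (hFV a).1 ih.1, ?_⟩
      have h := mul_mem_iff_of_index_two hidx (a := (⟨F a t', (hFV a).1⟩ : ↥V))
        (b := ⟨∏ q ∈ s, F q t', ih.1⟩)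
      simp only [mem_subgroupOf, Subgroup.coe_mul] at h
      rw [h, Nat.even_add_one, ← ih.2]
      exact ⟨fun h1 h2 => (hFV a).2 (h1.2 h2), fun h1 => ⟨fun h2 => absurd h2 (hFV a).2, fun h2 => absurd h2 h1⟩⟩
  have hodd : Odd (Nat.card (↥N ⧸ S'.subgroupOf N)) := by
    rw [← Nat.not_even_iff_odd, even_iff_two_dvd]
    exact fun h => S.not_dvd_index ((h.trans (dvd_refl _)).trans
      (relIndex_dvd_index_of_le (le_normalizer : S' ≤ N)))
  have h1 := (key Finset.univ).2
  rw [show (∏ q, F q t') = ψ t' from rfl, hψt, Finset.card_univ, ← Nat.card_eq_fintype_card] at h1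
  exact Nat.not_even_iff_odd.2 hodd (h1.1 (one_mem W))


/-- Let G be a finite group with no subgroup of index 2 whose Sylow 2-subgroup S is commutative, and let R ≤ S be a subgroup whose 2-rank is exactly one less than the 2-rank r of S. Then every involution of S is conjugate, by an element of N_G(S), to an element of R. -/
theorem result {G : Type*} [Group G] [Finite G] (hG : ∀ H : Subgroup G, H.index ≠ 2) (S : Sylow 2 G) (hS : IsMulCommutative (S : Subgroup G)) (r : ℕ) (hr1 : 1 ≤ r) (hSr : Cfsg.PRankLE 2 r (S : Subgroup G) ∧ ¬ Cfsg.PRankLE 2 (r - 1) (S : Subgroup G)) (R : Subgroup G) (hRS : R ≤ S) (hRr : Cfsg.PRankLE 2 (r - 1) R ∧ (r = 1 ∨ ¬ Cfsg.PRankLE 2 (r - 2) R)) (t : G) (ht : orderOf t = 2) (htS : t ∈ S) : ∃ n ∈ Subgroup.normalizer ((S : Subgroup G) : Set G), n * t * n⁻¹ ∈ R := by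
  exact main hG S hS r hr1 hSr R hRS hRr t ht htS

end Cfsg.Agent.S1244
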