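import Cfsg.Statements.S1246
import Mathlib
import Cfsg.Agent.Lib.Comp.CharP
import Cfsg.Agent.Lib.Comp.Misc
-- import your own Cfsg.Agent.* helpers here

set_option autoImplicit false
open Cfsg

namespace Cfsg.Agent.S1246

/-- Let V ≤ U be p-subgroups of the finite group G. If the generalized Fitting subgroup of C_G(V) is a p-group, then so is that of C_G(U). -/
theorem result {G : Type*} [Group G] [Finite G] {p : ℕ} [Fact p.Prime] (U V : Subgroup G) (hVU : V ≤ U) (hU : IsPGroup p U) (hV : IsPGroup p ↥(Cfsg.generalizedFittingSubgroup ↥(Subgroup.centralizer (V : Set G)))) : IsPGroup p ↥(Cfsg.generalizedFittingSubgroup ↥(Subgroup.centralizer (U : Set G))) := by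
  classical
  -- transport of the hypothesis along isomorphisms
  have htrans : ∀ {A B : Subgroup G} (C : Subgroup ↥A), C.map A.subtype = B →
      IsPGroup p ↥(Cfsg.generalizedFittingSubgroup ↥B) →
      IsPGroup p ↥(Cfsg.generalizedFittingSubgroup ↥C) := by
    intro A B C hCB hB
    subst hCB
    set e := C.equivMapOfInjective A.subtype A.subtype_injective
    refine (hB.map e.symm.toMonoidHom).to_le (sup_le (Cfsg.Lib.Comp.layer_le_iff.2 fun L hL => ?_)
      (sSup_le fun N hN => ?_))
    · have hL' : Cfsg.IsComponent (L.map e.toMonoidHom) := ⟨hL.1.map e.surjective,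
        (Cfsg.Lib.Comp.isQuasisimple_congr (L.equivMapOfInjective _ e.injective)).1 hL.2⟩
      intro x hx
      exact ⟨e x, Subgroup.mem_sup_left (Cfsg.Lib.Comp.component_le_layer hL' ⟨x, hx, rfl⟩),
        e.symm_apply_apply x⟩
    · intro x hx
      haveI := hN.1
      haveI : (N.map e.toMonoidHom).Normal := hN.1.map _ e.surjective
      have hnil : Group.IsNilpotent ↥(N.map e.toMonoidHom) :=
        (haveI := hN.2; Group.nilpotent_of_mulEquiv (N.equivMapOfInjective _ e.injective))
      exact ⟨e x, Subgroup.mem_sup_right (Cfsg.Lib.Solv.le_fitting inferInstance hnil ⟨x, hx, rfl⟩),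
        e.symm_apply_apply x⟩
  have hVp : IsPGroup p ↥V := hU.to_le hVU
  set N := Subgroup.normalizer (V : Set G) with hN
  set C := (Subgroup.centralizer (V : Set G)).subgroupOf N with hC
  have hCmap : C.map N.subtype = Subgroup.centralizer (V : Set G) := by
    rw [hC, Subgroup.subgroupOf_map_subtype, inf_eq_left.2 (Subgroup.centralizer_le_normalizer _)]
  have hCn : C.Normal := (Subgroup.normal_subgroupOf_iff_le_normalizer
    (Subgroup.centralizer_le_normalizer _)).2 (Cfsg.Lib.Solv.normalizer_le_normalizer_centralizer V)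
  have hFC : IsPGroup p ↥(Cfsg.generalizedFittingSubgroup ↥N ⊓ C) := by
    rw [Cfsg.Lib.Comp.fstar_inf_eq hCn.isSubnormal]
    exact (htrans C hCmap hV).map _
  set V' := V.subgroupOf N with hV'
  haveI hV'n : V'.Normal := Subgroup.normal_in_normalizer
  have hV'p : IsPGroup p ↥V' := hVp.comap_of_injective N.subtype N.subtype_injective
  have hcentC : ∀ K : Subgroup ↥N, ⁅K, V'⁆ = ⊥ → K ≤ C := by
    intro K hK k hk
    rw [hC, Subgroup.mem_subgroupOf, Subgroup.mem_centralizer_iff]
    intro v hv
    have h := Subgroup.mem_centralizer_iff.1 (Subgroup.commutator_eq_bot_iff_le_centralizer.1 hK hk)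
      ⟨v, Subgroup.le_normalizer hv⟩ (Subgroup.mem_subgroupOf.2 hv)
    exact congrArg Subtype.val h
  have hlay : Cfsg.layer ↥N = ⊥ := by
    have hs : Group.IsSolvable ↥V' := by
      have := hV'p.isNilpotent
      infer_instance
    have h1 : IsPGroup p ↥(Cfsg.layer ↥N) := hFC.to_le
      (le_inf le_sup_left (hcentC _ (Cfsg.Lib.Comp.layer_commute_solvable hs)))
    refine le_bot_iff.1 (Cfsg.Lib.Comp.layer_le_iff.2 fun L hL => ?_)
    exfalso
    have hLp : IsPGroup p ↥L := h1.to_le (Cfsg.Lib.Comp.component_le_layer hL)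
    have := hLp.isNilpotent
    exact Cfsg.Lib.Comp.isQuasisimple_not_solvable hL.2 inferInstance
  have hcore : Cfsg.pPrimeCore p ↥N = ⊥ := by
    set K := Cfsg.pPrimeCore p ↥N with hK
    have hcop : (Nat.card ↥K).Coprime p := Cfsg.Lib.Solv.coprime_pPrimeCore p
    have hd : K ⊓ V' = ⊥ := Cfsg.Lib.Solv.inf_eq_bot_of_coprime_card (by
      obtain ⟨n, hn⟩ := hV'p.exists_card_eq
      rw [hn]
      exact hcop.pow_right n)
    have hKC : K ≤ C := hcentC _ (le_bot_iff.1 (hd ▸ Subgroup.commutator_le_inf K V'))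
    have hDbot : Cfsg.pPrimeCore p ↥C = ⊥ := by
      -- a normal `p'`-subgroup meets `F*(C)` trivially, hence centralises it
      set D := Cfsg.pPrimeCore p ↥C
      have hDc : (Nat.card ↥D).Coprime p := Cfsg.Lib.Solv.coprime_pPrimeCore p
      have hF := htrans C hCmap hV
      have hd' : ∀ E : Subgroup ↥C, IsPGroup p ↥E → D ⊓ E = ⊥ := fun E hE =>
        Cfsg.Lib.Solv.inf_eq_bot_of_coprime_card (by
          obtain ⟨n, hn⟩ := hE.exists_card_eq
          rw [hn]
          exact hDc.pow_right n)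
      haveI := Cfsg.Lib.Comp.fstar_characteristic (G := ↥C)
      have h1 : D ≤ Cfsg.generalizedFittingSubgroup ↥C :=
        (Subgroup.commutator_eq_bot_iff_le_centralizer.1
          (le_bot_iff.1 (hd' _ hF ▸ Subgroup.commutator_le_inf D _))).trans
          Cfsg.Lib.Comp.centralizer_fstar_le
      rw [← inf_eq_left.2 h1]
      exact hd' _ hF
    haveI : K.Normal := Cfsg.pPrimeCore_normal p _
    have h2 : K.subgroupOf C ≤ Cfsg.pPrimeCore p ↥C := Cfsg.Lib.Solv.le_pPrimeCore inferInstance (by
      rw [Nat.card_congr (Subgroup.subgroupOfEquivOfLe hKC).toEquiv]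
      exact hcop)
    rw [hDbot, le_bot_iff, Subgroup.subgroupOf_eq_bot] at h2
    exact h2.eq_bot_of_le hKC
  have hFN : Cfsg.generalizedFittingSubgroup ↥N = Cfsg.pCore p ↥N := by
    show Cfsg.layer ↥N ⊔ Cfsg.fittingSubgroup ↥N = _
    rw [hlay, bot_sup_eq, Cfsg.Lib.Solv.fitting_eq_pCore p hcore]
  have hU' := Cfsg.Lib.Comp.fstar_normalizer_eq_of_ge hU hVU hFN
  set M := Subgroup.normalizer (U : Set G)
  set CU := (Subgroup.centralizer (U : Set G)).subgroupOf M with hCU
  have hCUn : CU.Normal := (Subgroup.normal_subgroupOf_iff_le_normalizer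
    (Subgroup.centralizer_le_normalizer _)).2 (Cfsg.Lib.Solv.normalizer_le_normalizer_centralizer U)
  have hCUmap : CU.map M.subtype = Subgroup.centralizer (U : Set G) := by
    rw [hCU, Subgroup.subgroupOf_map_subtype,
      inf_eq_left.2 (Subgroup.centralizer_le_normalizer _)]
  have hp' : IsPGroup p ↥((Cfsg.generalizedFittingSubgroup ↥CU).map CU.subtype) := by
    rw [← Cfsg.Lib.Comp.fstar_inf_eq hCUn.isSubnormal, hU']
    exact (Cfsg.Lib.Solv.isPGroup_pCore p).to_le inf_le_left
  -- move back along the isomorphism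
  set e := (Subgroup.subgroupOfEquivOfLe
    (Subgroup.centralizer_le_normalizer (U : Set G)) : ↥CU ≃* ↥(Subgroup.centralizer (U : Set G)))
  have hp'' : IsPGroup p ↥(Cfsg.generalizedFittingSubgroup ↥CU) :=
    hp'.of_equiv ((Cfsg.generalizedFittingSubgroup ↥CU).equivMapOfInjective _
      CU.subtype_injective).symm
  refine (hp''.map e.toMonoidHom).to_le (sup_le (Cfsg.Lib.Comp.layer_le_iff.2 fun L hL => ?_)
    (sSup_le fun K hK => ?_))
  · have hL' : Cfsg.IsComponent (L.map e.symm.toMonoidHom) := ⟨hL.1.map e.symm.surjective,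
      (Cfsg.Lib.Comp.isQuasisimple_congr (L.equivMapOfInjective _ e.symm.injective)).1 hL.2⟩
    intro x hx
    exact ⟨e.symm x, Subgroup.mem_sup_left (Cfsg.Lib.Comp.component_le_layer hL' ⟨x, hx, rfl⟩),
      e.apply_symm_apply x⟩
  · intro x hx
    haveI : (K.map e.symm.toMonoidHom).Normal := hK.1.map _ e.symm.surjective
    have hnil : Group.IsNilpotent ↥(K.map e.symm.toMonoidHom) :=
      (haveI := hK.2; Group.nilpotent_of_mulEquiv (K.equivMapOfInjective _ e.symm.injective))
    exact ⟨e.symm x, Subgroup.mem_sup_right (Cfsg.Lib.Solv.le_fitting inferInstance hnil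
      ⟨x, hx, rfl⟩), e.apply_symm_apply x⟩

end Cfsg.Agent.S1246
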