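import Cfsg.Statements.S1247
import Cfsg.Agent.Lib.Comp.MaximalFitting
-- import your own Cfsg.Agent.* helpers here

set_option autoImplicit false
open Cfsg

namespace Cfsg.Agent.S1247

/-- Let G be a non-abelian finite simple group, A a maximal subgroup, F = F*(A) its generalized Fitting subgroup (viewed in G), and S ≤ F a subgroup subnormal in F with C_F(S) ≤ S. Let B be any subgroup of G containing S. Then (a) for every prime q not dividing |F(A)|, O_q(B) ∩ A = 1; and (b) for every prime p dividing |F(A)|, O_p(B) commutes elementwise with the subgroup of F generated by its elements of order prime to p. -/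
theorem result {G : Type*} [Group G] [Finite G] [IsSimpleGroup G] (hna : ¬ IsMulCommutative G) (A : Subgroup G) (hA : IsCoatom A) (S : Subgroup G) (hSF : S ≤ (Cfsg.generalizedFittingSubgroup ↥A).map A.subtype) (hSsn : (S.subgroupOf ((Cfsg.generalizedFittingSubgroup ↥A).map A.subtype)).IsSubnormal) (hSC : (Cfsg.generalizedFittingSubgroup ↥A).map A.subtype ⊓ Subgroup.centralizer (S : Set G) ≤ S) (B : Subgroup G) (hSB : S ≤ B) : (∀ q : ℕ, q.Prime → ¬ q ∣ Nat.card (Cfsg.fittingSubgroup ↥A) → (Cfsg.pCore q ↥B).map B.subtype ⊓ A = ⊥) ∧ (∀ p : ℕ, p.Prime → p ∣ Nat.card (Cfsg.fittingSubgroup ↥A) → ∀ x ∈ (Cfsg.pCore p ↥B).map B.subtype, ∀ y ∈ (Cfsg.pResidual p ↥(Cfsg.generalizedFittingSubgroup ↥A)).map ((Cfsg.generalizedFittingSubgroup ↥A).subtype) , x * (A.subtype y) = (A.subtype y) * x) := by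
  have hSF' : S ≤ Cfsg.Lib.Comp.MaxFit.SA A := hSF
  refine ⟨fun q hq hqA => ?_, fun p hp hpA x hx y hy => ?_⟩
  · haveI := Fact.mk hq
    exact Cfsg.Lib.Comp.MaxFit.pCore_inf_eq_bot hSF' hSsn hSC hSB
      (by rwa [Cfsg.Lib.Comp.MaxFit.card_FA])
  haveI := Fact.mk hp
  obtain ⟨hxe, hxr⟩ := Cfsg.Lib.Comp.MaxFit.pCore_commutes hA hSF' hSsn hSC hSB
    (by rwa [Cfsg.Lib.Comp.MaxFit.card_FA]) hx
  obtain ⟨z, hz, rfl⟩ := hy
  have key : ∀ w : ↥(Cfsg.generalizedFittingSubgroup ↥A), w ∈ Cfsg.pResidual p _ →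
      Commute x (((w : ↥A) : G)) := by
    intro w hw
    induction hw using Subgroup.closure_induction with
    | one => exact Commute.one_right x
    | mul a b _ _ ha hb => exact ha.mul_right hb
    | inv a _ ha => exact ha.inv_right
    | mem w hw =>
      have hwS : ((w : ↥A) : G) ∈ (↑(Cfsg.Lib.Comp.MaxFit.EA A ⊔ Cfsg.Lib.Comp.MaxFit.FA A) : Set G) := by
        rw [← Cfsg.Lib.Comp.MaxFit.SA_eq]
        exact ⟨_, w.2, rfl⟩
      rw [Subgroup.coe_mul_of_left_le_normalizer_right (Cfsg.Lib.Comp.MaxFit.EA A) (Cfsg.Lib.Comp.MaxFit.FA A)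
        ((Cfsg.Lib.Comp.MaxFit.EA_le A).trans (Cfsg.Lib.Comp.MaxFit.le_normalizer_map _))] at hwS
      obtain ⟨e, he, f, hf, hef⟩ := Set.mem_mul.1 hwS
      obtain ⟨i, j, hij, ⟨k, hi⟩, hj⟩ := Cfsg.Lib.Comp.MaxFit.exists_split p f
      have ce : Commute x e := hxe e he
      have cj : Commute x (f ^ j) := Cfsg.Lib.Comp.MaxFit.commute_of_coprime hxr _
        ((Cfsg.Lib.Comp.MaxFit.FA A).zpow_mem hf j) hj
      have cfe : Commute e f := Cfsg.Lib.Comp.MaxFit.EA_commute_FA A he hf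
      have hpow : ((w : ↥A) : G) ^ p ^ k = (e * f ^ j) ^ p ^ k := by
        rw [← hef, cfe.mul_pow, (cfe.zpow_right j).mul_pow]
        congr 1
        conv_lhs => rw [hij]
        rw [((Commute.refl f).zpow_zpow i j).mul_pow, hi, one_mul]
      have hco : (p ^ k).Coprime (orderOf ((w : ↥A) : G)) := by
        rw [orderOf_submonoid, orderOf_submonoid]
        exact (Nat.Coprime.pow_right k hw).symm
      obtain ⟨m, hm⟩ := exists_pow_eq_self_of_coprime hco
      rw [← hm, hpow]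
      exact ((ce.mul_right cj).pow_right _).pow_right _
  exact (key z hz).eq

end Cfsg.Agent.S1247
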