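import Cfsg.Statements.S1248
import Mathlib
import Cfsg.Agent.Lib.Classical.UnitarySylowTwoProps
-- import your own Cfsg.Agent.* helpers here

set_option autoImplicit false
open Cfsg

namespace Cfsg.Agent.S1248

/-- Let F be a field with 16 elements and S a Sylow 2-subgroup of PSU(3) over F (the unitary group U₃(4)). Then |S| = 64; the centre Z(S) is a Klein four-group and coincides with the subgroup generated by the involutions of S and with the derived subgroup; and every element of S ⧸ Z(S) squares to the identity, S ⧸ Z(S) having order 16. -/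
theorem result {F : Type*} [Field F] [Fintype F] (hF : Fintype.card F = 16) (S : Sylow 2 (Cfsg.PSU 3 F 4)) : Nat.card S = 64 ∧ IsKleinFour (Subgroup.center (S : Subgroup (Cfsg.PSU 3 F 4))) ∧ Subgroup.center (S : Subgroup (Cfsg.PSU 3 F 4)) = Subgroup.closure {x : (S : Subgroup (Cfsg.PSU 3 F 4)) | orderOf x = 2} ∧ Subgroup.center (S : Subgroup (Cfsg.PSU 3 F 4)) = commutator (S : Subgroup (Cfsg.PSU 3 F 4)) ∧ Nat.card ((S : Subgroup (Cfsg.PSU 3 F 4)) ⧸ Subgroup.center (S : Subgroup (Cfsg.PSU 3 F 4))) = 16 ∧ ∀ x : (S : Subgroup (Cfsg.PSU 3 F 4)) ⧸ Subgroup.center (S : Subgroup (Cfsg.PSU 3 F 4)), x ^ 2 = 1 := by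
  classical
  haveI : Fact (Nat.Prime 2) := ⟨Nat.prime_two⟩
  have hF' : Fintype.card F = 4 ^ 2 := by rw [hF]; norm_num
  have key : ∀ q : ℕ, q = 2 ^ 2 → ∀ P : Sylow 2 (Cfsg.PSU 3 F q),
      Nonempty (↥(P : Subgroup (Cfsg.PSU 3 F q)) ≃* Cfsg.Lib.Classical.UnitarySylowTwo.unipGroup hF' one_le_two) := by
    rintro q rfl P
    exact Cfsg.Lib.Classical.UnitarySylowTwo.exists_equiv_PSU hF' one_le_two P
  obtain ⟨e⟩ := key 4 (by norm_num) S
  open Cfsg.Lib.Classical.UnitarySylowTwo in
  exact by
    have hZ : (Subgroup.center ↥(S : Subgroup (Cfsg.PSU 3 F 4))).map e.toMonoidHom =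
        Subgroup.center (unipGroup hF' one_le_two) := by
      refine le_antisymm ?_ fun y hy => ?_
      · rintro _ ⟨x, hx, rfl⟩
        exact Subgroup.mem_center_iff.2 fun g => by
          rw [← e.apply_symm_apply g]
          show e _ * e x = e x * e _
          rw [← map_mul, ← map_mul, Subgroup.mem_center_iff.1 hx]
      refine ⟨e.symm y, ?_, e.apply_symm_apply y⟩
      exact Subgroup.mem_center_iff.2 fun g => e.injective (by
        rw [map_mul, map_mul, e.apply_symm_apply]
        exact Subgroup.mem_center_iff.1 hy (e g))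
    have hmem : ∀ x, x ∈ Subgroup.center ↥(S : Subgroup (Cfsg.PSU 3 F 4)) ↔ parA (e x) = 0 := fun x => by
      rw [← mem_center_iff, ← hZ]
      exact ⟨fun h => ⟨x, h, rfl⟩, fun ⟨z, hz, hzx⟩ => e.injective hzx ▸ hz⟩
    have hcardS : Nat.card ↥(S : Subgroup (Cfsg.PSU 3 F 4)) = 64 := by
      rw [Nat.card_congr e.toEquiv, card_unipGroup]; norm_num
    have hcardZ : Nat.card (Subgroup.center ↥(S : Subgroup (Cfsg.PSU 3 F 4))) = 4 := by
      rw [← Subgroup.card_map_of_injective (f := e.toMonoidHom) e.injective, hZ, center_card]; norm_num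
    have hsq : ∀ x, x ∈ Subgroup.center ↥(S : Subgroup (Cfsg.PSU 3 F 4)) ↔ x ^ 2 = 1 := fun x => by
      rw [hmem, ← Cfsg.Lib.Classical.UnitarySylowTwo.sq_eq_one_iff, ← map_pow, map_eq_one_iff e e.injective]
    refine ⟨hcardS, ⟨hcardZ, ?_⟩, ?_, ?_, ?_, ?_⟩
    · have hdvd : ∀ x : Subgroup.center ↥(S : Subgroup (Cfsg.PSU 3 F 4)), x ^ 2 = 1 := fun x =>
        Subtype.ext ((hsq x.1).1 x.2)
      refine Nat.dvd_antisymm (Monoid.exponent_dvd_of_forall_pow_eq_one hdvd) ?_
      refine Nat.Prime.dvd_iff_eq (Nat.prime_two) ?_ |>.2 rfl |>.trans ?_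
      · norm_num
      · by_contra h
        have h1 : Monoid.exponent (Subgroup.center ↥(S : Subgroup (Cfsg.PSU 3 F 4))) = 1 := by
          rcases (Nat.dvd_prime Nat.prime_two).1 (Monoid.exponent_dvd_of_forall_pow_eq_one hdvd) with h' | h'
          · exact h'
          · exact absurd (h'.symm ▸ dvd_rfl) h
        haveI := Monoid.exp_eq_one_iff.1 h1
        rw [Nat.card_unique] at hcardZ
        exact absurd hcardZ (by norm_num)
    · refine Subgroup.map_injective (f := e.toMonoidHom) e.injective ?_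
      rw [hZ, MonoidHom.map_closure, ← closure_involutions]
      congr 1
      ext y
      constructor
      · intro hy
        exact ⟨e.symm y, (MulEquiv.orderOf_eq e.symm y).trans hy, e.apply_symm_apply y⟩
      · rintro ⟨x, hx, rfl⟩
        exact (MulEquiv.orderOf_eq e x).trans hx
    · refine Subgroup.map_injective (f := e.toMonoidHom) e.injective ?_
      rw [hZ, ← commutator_eq_center, commutator_def, commutator_def, Subgroup.map_commutator,
        Subgroup.map_top_of_surjective _ e.surjective]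
    · have h := Subgroup.card_eq_card_quotient_mul_card_subgroup (Subgroup.center ↥(S : Subgroup (Cfsg.PSU 3 F 4)))
      rw [hcardS, hcardZ] at h
      omega
    · intro x
      obtain ⟨y, rfl⟩ := QuotientGroup.mk_surjective x
      rw [← QuotientGroup.mk_pow, QuotientGroup.eq_one_iff, hmem, map_pow]
      exact sq_parA _

end Cfsg.Agent.S1248
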