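import Cfsg.Statements.S1254
import Mathlib
import Cfsg.Agent.Lib.TwoFus.DihedralFusion
-- import your own Cfsg.Agent.* helpers here

set_option autoImplicit false
open Cfsg

namespace Cfsg.Agent.S1254

/-- Let X be a finite group whose Sylow 2-subgroup S is dihedral (of order at least 4). Then X has a normal 2-complement if and only if, for every Klein four-subgroup U ≤ S, the normalizer N_X(U) is generated by C_X(U) and N_S(U). -/
theorem result {X : Type*} [Group X] [Finite X] (S : Sylow 2 X) (m : ℕ) (hm : 2 ≤ m) (eS : (S : Subgroup X) ≃* DihedralGroup m) : Cfsg.HasNormalPComplement 2 X ↔ ∀ U : Subgroup X, U ≤ S → IsKleinFour U → Subgroup.normalizer (U : Set X) = Subgroup.centralizer (U : Set X) ⊔ ((S : Subgroup X) ⊓ Subgroup.normalizer (U : Set X)) := by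
  classical
  haveI : Fact (Nat.Prime 2) := ⟨Nat.prime_two⟩
  obtain ⟨a, g, k, D, -⟩ := Cfsg.Lib.TwoFus.exists_dihSylow S hm eS
  rw [Cfsg.Lib.Transfer.frobenius_iff S]
  constructor
  · intro h U hU _
    refine le_antisymm ?_ (sup_le (Subgroup.centralizer_le_normalizer _) inf_le_right)
    intro x hx
    have himg : Cfsg.Lib.Transfer.conjR x⁻¹ (U : Set X) = (U : Set X) :=
      Cfsg.Lib.Transfer.conjR_subgroup_of_mem_normalizer (inv_mem hx)
    obtain ⟨u, hu, hu'⟩ := Cfsg.Lib.Transfer.frobeniusCond_fusion h (A := (U : Set X)) (g := x⁻¹) hU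
      (himg.le.trans hU)
    have hux : u * x ∈ Subgroup.centralizer (U : Set X) := by
      rw [Subgroup.mem_centralizer_iff]
      intro w hw
      have := hu' w hw
      rw [inv_inv] at this
      calc w * (u * x) = u * (u⁻¹ * w * u) * x := by group
        _ = u * (x * w * x⁻¹) * x := by rw [this]
        _ = u * x * w := by group
    have hun : u ∈ Subgroup.normalizer (U : Set X) := by
      have := mul_mem (Subgroup.centralizer_le_normalizer _ hux) (inv_mem hx)
      rwa [mul_inv_cancel_right] at this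
    rw [show x = u⁻¹ * (u * x) by group]
    exact mul_mem (Subgroup.mem_sup_right (inv_mem (Subgroup.mem_inf.2 ⟨hu, hun⟩))) (Subgroup.mem_sup_left hux)
  · intro h
    refine D.frobeniusCond_of fun U hU hK y hy hodd => ?_
    set N := Subgroup.normalizer (U : Set X)
    set C := (Subgroup.centralizer (U : Set X)).subgroupOf N
    haveI : C.Normal := Subgroup.normal_subgroupOf_centralizer_normalizer _
    have hmem : (⟨y, hy⟩ : ↥N) ∈ C ⊔ ((S : Subgroup X) ⊓ N).subgroupOf N := by
      rw [← Subgroup.subgroupOf_sup (Subgroup.centralizer_le_normalizer _) inf_le_right, Subgroup.mem_subgroupOf]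
      exact (h U hU hK).le hy
    obtain ⟨c, hc, s, hs, hcs⟩ := Subgroup.mem_sup_of_normal_left.1 hmem
    have he : (QuotientGroup.mk' C) ⟨y, hy⟩ = QuotientGroup.mk' C s := by
      rw [← hcs, map_mul, show QuotientGroup.mk' C c = 1 from (QuotientGroup.eq_one_iff _).2 hc, one_mul]
    obtain ⟨j, hj⟩ := IsPGroup.iff_orderOf.1 S.isPGroup' ⟨(s : X), (Subgroup.mem_inf.1 hs).1⟩
    rw [← Subgroup.orderOf_coe] at hj
    change orderOf ((s : ↥N) : X) = 2 ^ j at hj
    rw [Subgroup.orderOf_coe] at hj
    have h1 : orderOf (QuotientGroup.mk' C ⟨y, hy⟩) = 1 := by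
      refine Nat.eq_one_of_dvd_coprimes ((Nat.coprime_two_right.2 hodd).pow_right j) ?_ ?_
      · rw [← Subgroup.orderOf_mk y hy]; exact orderOf_map_dvd _ _
      · rw [he, ← hj]; exact orderOf_map_dvd _ _
    have h3 : (⟨y, hy⟩ : ↥N) ∈ C := (QuotientGroup.eq_one_iff _).1 (orderOf_eq_one_iff.1 h1)
    exact Subgroup.mem_subgroupOf.1 h3

end Cfsg.Agent.S1254
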