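import Cfsg.Statements.S1256
import Mathlib
import Cfsg.Agent.Lib.TwoFus.DihedralFusion
-- import your own Cfsg.Agent.* helpers here

set_option autoImplicit false
open Cfsg

namespace Cfsg.Agent.S1256

/-- Let X be a finite group whose Sylow 2-subgroup S is dihedral of order 2m ≥ 4. If |S| = 4, any two Klein four-subgroups of X are conjugate; if |S| > 4, there are Klein four-subgroups U₁, U₂ of X that are not conjugate, and every Klein four-subgroup of X is conjugate to U₁ or to U₂. -/
theorem result {X : Type*} [Group X] [Finite X] (S : Sylow 2 X) (m : ℕ) (hm : 2 ≤ m) (eS : (S : Subgroup X) ≃* DihedralGroup m) : (Nat.card S = 4 → ∀ U V : Subgroup X, IsKleinFour U → IsKleinFour V → (∃ x : X, U.map (MulAut.conj x).toMonoidHom = V)) ∧ (4 < Nat.card S → ∃ U₁ U₂ : Subgroup X, IsKleinFour U₁ ∧ IsKleinFour U₂ ∧ ¬ (∃ x : X, U₁.map (MulAut.conj x).toMonoidHom = U₂) ∧ ∀ V : Subgroup X, IsKleinFour V → (∃ x : X, V.map (MulAut.conj x).toMonoidHom = U₁) ∨ (∃ x : X, V.map (MulAut.conj x).toMonoidHom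 = U₂)) := by
  classical
  haveI : Fact (Nat.Prime 2) := ⟨Nat.prime_two⟩
  obtain ⟨a, g, k, D, -⟩ := Cfsg.Lib.TwoFus.exists_dihSylow S hm eS
  have hinto : ∀ V : Subgroup X, IsKleinFour ↥V → ∃ w : X, IsKleinFour ↥(V.map (MulAut.conj w).toMonoidHom) ∧
      V.map (MulAut.conj w).toMonoidHom ≤ (S : Subgroup X) := by
    intro V hV
    haveI := hV
    have hp : IsPGroup 2 ↥V := IsPGroup.of_card (n := 2) (by rw [IsKleinFour.card_four]; norm_num)
    obtain ⟨T, hT⟩ := hp.exists_le_sylow
    obtain ⟨w, hw⟩ := MulAction.exists_smul_eq X T S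
    refine ⟨w, ⟨by rw [Subgroup.card_map_of_injective (MulEquiv.injective _)]; exact IsKleinFour.card_four,
      by rw [← Monoid.exponent_eq_of_mulEquiv (V.equivMapOfInjective _ (MulAut.conj w).injective)]
         exact IsKleinFour.exponent_two⟩, ?_⟩
    rw [← hw]; exact Subgroup.map_mono hT
  have hmm : ∀ (V : Subgroup X) (u w : X), (V.map (MulAut.conj u).toMonoidHom).map (MulAut.conj w).toMonoidHom =
      V.map (MulAut.conj (w * u)).toMonoidHom := fun V u w => by
    rw [Subgroup.map_map]; congr 1; ext z; simp [MulAut.conj_apply, mul_assoc]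
  constructor
  · intro h4 U V hU hV
    obtain ⟨u, hu1, hu2⟩ := hinto U hU
    obtain ⟨v, hv1, hv2⟩ := hinto V hV
    refine ⟨v⁻¹ * u, ?_⟩
    have eu := Subgroup.eq_of_le_of_card_ge hu2 (by rw [hu1.card_four, h4])
    have ev := Subgroup.eq_of_le_of_card_ge hv2 (by rw [hv1.card_four, h4])
    rw [← hmm U u v⁻¹, eu, ← ev, hmm V v v⁻¹, inv_mul_cancel]
    ext z; simp [MulAut.conj_apply]
  · intro h4
    rw [D.card] at h4
    have hk : 2 ≤ k := by
      by_contra h
      have := D.t_pos
      rw [show k = 1 by omega] at h4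
      norm_num at h4
    set c := a ^ 2 ^ (k - 1) with hcdef
    have hag : a * g ∉ Subgroup.zpowers a := fun h => D.g_not (by
      have := mul_mem (inv_mem (Subgroup.mem_zpowers a)) h; rwa [inv_mul_cancel_left] at this)
    obtain ⟨hK1, hS1⟩ := D.klein_of_not_mem D.g_mem D.g_not
    obtain ⟨hK2, hS2⟩ := D.klein_of_not_mem (mul_mem D.a_mem D.g_mem) hag
    obtain ⟨hc, hcr⟩ := D.exists_central
    rw [← hcdef] at hc
    have hc2 : c * c = 1 := by
      have := pow_orderOf_eq_one c
      rwa [hc, pow_two] at this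
    -- conjugation of the reflections
    have hgz : ∀ w ∈ Subgroup.zpowers a, g * w⁻¹ = w * g := fun w hw => by
      have := D.inv w⁻¹ (inv_mem hw)
      rw [inv_inv, mul_inv_eq_iff_eq_mul] at this
      exact this
    have hrot : ∀ (j : ℤ) (i : ℤ), a ^ j * (a ^ i * g) * (a ^ j)⁻¹ = a ^ (i + 2 * j) * g := fun j i => by
      rw [mul_assoc, mul_assoc, hgz _ (Subgroup.zpow_mem _ (Subgroup.mem_zpowers a) j), ← mul_assoc, ← mul_assoc,
        ← zpow_add, ← zpow_add, show j + i + j = i + 2 * j by ring]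
    refine ⟨_, _, hK1, hK2, ?_, ?_⟩
    · rintro ⟨x, hx⟩
      set U₁ := Subgroup.closure ({c, g} : Set X) with hU₁
      have himg : Cfsg.Lib.Transfer.conjR x⁻¹ (U₁ : Set X) = (Subgroup.closure ({c, a * g} : Set X) : Set X) := by
        rw [← hx, Subgroup.coe_map]
        exact Set.image_congr fun b _ => by simp [MulAut.conj_apply]
      obtain ⟨u, hu, hu'⟩ := D.klein_fusion hK1 hS1 (x := x⁻¹) (himg ▸ hS2)
      have hgm : u⁻¹ * g * u ∈ Subgroup.closure ({c, a * g} : Set X) := by
        rw [← SetLike.mem_coe, ← himg, hu']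
        exact ⟨g, Subgroup.subset_closure (Set.mem_insert_of_mem _ rfl), rfl⟩
      obtain ⟨j, hj⟩ : ∃ j : ℤ, u⁻¹ * g * u = a ^ (2 * j) * g := by
        rcases D.cover u⁻¹ (inv_mem hu) with h | h
        · obtain ⟨j, hj⟩ := Subgroup.mem_zpowers_iff.1 h
          refine ⟨j, ?_⟩
          have := hrot j 0
          rw [zpow_zero, one_mul, zero_add, hj, inv_inv] at this
          exact this
        · obtain ⟨j, hj⟩ := Subgroup.mem_zpowers_iff.1 h
          refine ⟨j, ?_⟩
          have := hrot j 0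
          rw [zpow_zero, one_mul, zero_add, hj] at this
          rw [← this, mul_inv_rev, inv_inv, inv_eq_of_mul_eq_one_right D.sq]
          calc u⁻¹ * g * u = u⁻¹ * (g * g) * g * u := by rw [D.sq]; group
            _ = _ := by group
      rw [hj] at hgm
      have hnot : a ^ (2 * j) * g ∉ Subgroup.zpowers a := fun h => D.g_not (by
        have := mul_mem (inv_mem (Subgroup.zpow_mem _ (Subgroup.mem_zpowers a) (2 * j))) h
        rwa [inv_mul_cancel_left] at this)
      obtain ⟨-, hel⟩ := Cfsg.Lib.TwoFus.klein_closure hc2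
        (D.involution_of_not_mem (mul_mem D.a_mem D.g_mem) hag).1
        (hcr _ (mul_mem D.a_mem D.g_mem) hag) (fun h => by rw [h, orderOf_one] at hc; omega)
        (fun h => hag (h ▸ one_mem _)) (fun h => hag (h ▸ Subgroup.pow_mem _ (Subgroup.mem_zpowers a) _))
      have hodd : ∀ i : ℤ, ¬ (2 ∣ i) → a ^ i ≠ 1 := fun i hi h => hi (by
        have h2 := orderOf_dvd_iff_zpow_eq_one.2 h
        rw [D.ord] at h2
        refine dvd_trans ?_ h2
        push_cast
        exact dvd_pow_self 2 (by omega))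
      rcases hel _ hgm with h | h | h | h
      · exact hnot (h ▸ one_mem _)
      · exact hnot (h ▸ Subgroup.pow_mem _ (Subgroup.mem_zpowers a) _)
      · apply hodd (2 * j - 1) (by omega)
        rw [zpow_sub, zpow_one, mul_right_cancel h, mul_inv_cancel]
      · rw [← mul_assoc] at h
        apply hodd (2 * j - ((2 ^ (k - 1) : ℕ) : ℤ) - 1) (by
          have h2 : (2 : ℤ) ∣ ((2 ^ (k - 1) : ℕ) : ℤ) := by push_cast; exact dvd_pow_self 2 (by omega)
          omega)
        rw [zpow_sub, zpow_sub, zpow_one, zpow_natCast, mul_right_cancel h, hcdef]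
        group
    · intro V hV
      obtain ⟨w, hw1, hw2⟩ := hinto V hV
      obtain ⟨hcV, r, hrV, hra, hVeq⟩ := D.klein_structure hw1 hw2
      obtain ⟨i, hi⟩ := Subgroup.mem_zpowers_iff.1 ((D.cover r (hw2 hrV)).resolve_left hra)
      have hr : r = a ^ i * g := by rw [hi, mul_assoc, D.sq, mul_one]
      -- conjugate the reflection to `g` or `a * g`
      have hmove : ∀ (j : ℤ) (r' : X), a ^ j * r * (a ^ j)⁻¹ = r' →
          V.map (MulAut.conj (a ^ j * w)).toMonoidHom = Subgroup.closure ({c, r'} : Set X) := by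
        intro j r' hr'
        rw [← hmm V w (a ^ j), ← hVeq, MonoidHom.map_closure, Set.image_insert_eq, Set.image_singleton]
        congr 1
        have hfix : (MulAut.conj (a ^ j)).toMonoidHom c = c := by
          show a ^ j * c * (a ^ j)⁻¹ = c
          rw [hcdef, mul_inv_eq_iff_eq_mul, ← zpow_natCast, ← zpow_add, ← zpow_add, add_comm]
        rw [hfix, show (MulAut.conj (a ^ j)).toMonoidHom r = r' from hr']
      rcases Int.even_or_odd i with ⟨q, rfl⟩ | ⟨q, rfl⟩
      · left
        refine ⟨a ^ (-q) * w, hmove (-q) g ?_⟩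
        rw [hr, hrot, show q + q + 2 * -q = 0 by ring, zpow_zero, one_mul]
      · right
        refine ⟨a ^ (-q) * w, hmove (-q) (a * g) ?_⟩
        rw [hr, hrot, show 2 * q + 1 + 2 * -q = 1 by ring, zpow_one]

end Cfsg.Agent.S1256
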