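import Cfsg.Statements.S1258
import Mathlib
import Cfsg.Agent.Lib.Comp.FStar
-- import your own Cfsg.Agent.* helpers here

set_option autoImplicit false
open Cfsg

namespace Cfsg.Agent.S1258

/-- If the central quotient of a finite group X is non-abelian simple, then X = X' Z(X) and the commutator subgroup X' is quasisimple. -/
theorem result {X : Type*} [Group X] [Finite X] (hs : IsSimpleGroup (X ⧸ Subgroup.center X)) (hna : ¬ IsMulCommutative (X ⧸ Subgroup.center X)) : commutator X ⊔ Subgroup.center X = ⊤ ∧ Cfsg.IsQuasisimple ↥(commutator X) := by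
  open Cfsg.Lib.Comp in
  obtain hq := hs
  set q := QuotientGroup.mk' (Subgroup.center X) with hqdef
  have hsurj : Function.Surjective q := QuotientGroup.mk'_surjective _
  have hcomm : commutator (X ⧸ Subgroup.center X) = ⊤ := by
    refine ((inferInstance : (commutator (X ⧸ Subgroup.center X)).Normal).eq_bot_or_eq_top).resolve_left ?_
    intro h
    exact hna (Subgroup.center_eq_top_iff.1 ((commutator_eq_bot_iff_center_eq_top _).1 h))
  have hXq : (commutator X).map q = ⊤ := by
    rw [_root_.commutator_def, Subgroup.map_commutator, Subgroup.map_top_of_surjective _ hsurj,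
      ← _root_.commutator_def, hcomm]
  have htop : ∀ A : Subgroup X, A.map q = ⊤ → A ⊔ Subgroup.center X = ⊤ := by
    intro A hA
    rw [← QuotientGroup.ker_mk' (Subgroup.center X), ← Subgroup.comap_map_eq, hA, Subgroup.comap_top]
  have h1 := htop _ hXq
  refine ⟨h1, ?_⟩
  set D := commutator X with hD
  have hp : Group.IsPerfect D := by
    rw [Subgroup.isPerfect_iff]
    have hDq : (⁅D, D⁆ : Subgroup X).map q = ⊤ := by
      rw [Subgroup.map_commutator, hXq, ← _root_.commutator_def, hcomm]
    have h2 := htop _ hDq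
    refine le_antisymm (Subgroup.commutator_le_self D) ?_
    have hmul : ∀ g : X, ∃ n ∈ (⁅D, D⁆ : Subgroup X), ∃ z ∈ Subgroup.center X, n * z = g := fun g =>
      Subgroup.mem_sup_of_normal_right.1 (h2 ▸ Subgroup.mem_top g)
    have hab : IsMulCommutative (X ⧸ (⁅D, D⁆ : Subgroup X)) := ⟨⟨fun a b => by
      obtain ⟨x, rfl⟩ := QuotientGroup.mk_surjective a
      obtain ⟨n, hn, z, hz, rfl⟩ := hmul x
      rw [QuotientGroup.mk_mul, (QuotientGroup.eq_one_iff n).2 hn, one_mul]
      exact (Subgroup.mem_center_iff.1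
        (center_le_comap_center (QuotientGroup.mk'_surjective _) hz) b).symm⟩⟩
    conv_lhs => rw [hD, _root_.commutator_def]
    rw [Subgroup.commutator_le]
    intro a _ b _
    rw [← QuotientGroup.eq_one_iff (N := (⁅D, D⁆ : Subgroup X)), ← QuotientGroup.mk'_apply,
      map_commutatorElement, commutatorElement_eq_one_iff_mul_comm]
    exact hab.is_comm.comm _ _
  let g : D →* X ⧸ Subgroup.center X := q.comp D.subtype
  have hg : Function.Surjective g := by
    intro y
    have : y ∈ D.map q := hXq ▸ Subgroup.mem_top y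
    obtain ⟨x, hx, rfl⟩ := this
    exact ⟨⟨x, hx⟩, rfl⟩
  have hker : g.ker = Subgroup.center D := by
    ext d
    have h3 : d ∈ g.ker ↔ (d : X) ∈ Subgroup.center X := by
      rw [MonoidHom.mem_ker]
      exact QuotientGroup.eq_one_iff _
    rw [h3, Subgroup.mem_center_iff, Subgroup.mem_center_iff]
    refine ⟨fun h e => Subtype.ext (h e), fun h x => ?_⟩
    obtain ⟨n, hn, z, hz, rfl⟩ := Subgroup.mem_sup_of_normal_right.1 (h1 ▸ Subgroup.mem_top x)
    have hn' := congrArg Subtype.val (h ⟨n, hn⟩)
    simp only [Subgroup.coe_mul] at hn'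
    rw [mul_assoc, (Subgroup.mem_center_iff.1 hz d).symm, ← mul_assoc, hn', mul_assoc]
  exact ⟨hp, ((QuotientGroup.quotientMulEquivOfEq hker).symm.trans
    (QuotientGroup.quotientKerEquivOfSurjective g hg)).isSimpleGroup⟩

end Cfsg.Agent.S1258
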