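import Cfsg.Statements.S1264
import Mathlib
import Cfsg.Agent.Lib.Comp.Layer
-- import your own Cfsg.Agent.* helpers here

set_option autoImplicit false
open Cfsg

namespace Cfsg.Agent.S1264

/-- Let G be finite, C = C_G(F(G)) the centralizer of the Fitting subgroup, and N a solvable subgroup of C normalized by C. Then N ≤ Z(F(G)). -/
theorem result {G : Type*} [Group G] [Finite G] (N : Subgroup G) (hN : N ≤ Subgroup.centralizer (Cfsg.fittingSubgroup G : Set G)) (hnorm : Subgroup.centralizer (Cfsg.fittingSubgroup G : Set G) ≤ Subgroup.normalizer (N : Set G)) (hsolv : Group.IsSolvable ↥N) : N ≤ (Subgroup.center ↥(Cfsg.fittingSubgroup G)).map (Cfsg.fittingSubgroup G).subtype := by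
  rw [Cfsg.Lib.Comp.map_center_eq]
  set F := Cfsg.fittingSubgroup G
  set C := Subgroup.centralizer (F : Set G)
  have hCn : C.Normal := inferInstance
  have hNsn : N.IsSubnormal :=
    Subgroup.IsSubnormal.step N C hN hCn.isSubnormal (Subgroup.normal_subgroupOf_of_le_normalizer hnorm)
  have hE : N ≤ Subgroup.centralizer (Cfsg.layer G : Set G) := by
    rw [Subgroup.le_centralizer_iff]
    refine Cfsg.Lib.Comp.layer_le_iff.2 fun L hL => ?_
    rcases Cfsg.Lib.Comp.component_subnormal hL hNsn with h | h
    · exact absurd (Cfsg.Lib.Solv.solvable_of_le h hsolv) (Cfsg.Lib.Comp.component_not_solvable hL)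
    · exact Subgroup.commutator_eq_bot_iff_le_centralizer.1 h
  refine le_inf ?_ hN
  refine le_trans ?_ Cfsg.Lib.Comp.centralizer_fstar_le_fitting
  rw [Cfsg.Lib.Comp.centralizer_fstar_eq]
  exact le_inf hE hN

end Cfsg.Agent.S1264
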