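import Cfsg.Statements.S1270
import Mathlib
import Cfsg.Agent.Lib.Comp.MovedComponent
-- import your own Cfsg.Agent.* helpers here

set_option autoImplicit false
open Cfsg

namespace Cfsg.Agent.S1270

/-- Let G be finite with O_{p'}(G) = 1, x of order p, and L a component with ⁅L, ⟨x⟩⁆ ≠ L. Then ⁅L, O_{p'}(C_G(x))⁆ = 1. -/
theorem result {G : Type*} [Group G] [Finite G] (p : ℕ) [Fact p.Prime] (hO : Cfsg.pPrimeCore p G = ⊥) (x : G) (hx : orderOf x = p) (L : Subgroup G) (hL : Cfsg.IsComponent L) (hne : ⁅L, Subgroup.zpowers x⁆ ≠ L) : ⁅L, Cfsg.centralizerPPrimeCore p x⁆ = ⊥ := by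
  refine Cfsg.Lib.Comp.component_commute_centralizerCore hO hx hL ?_
  by_cases hn : x ∈ Subgroup.normalizer (L : Set G)
  · left
    have hz : Subgroup.zpowers x ≤ Subgroup.normalizer (L : Set G) := Subgroup.zpowers_le.2 hn
    have hle : ⁅L, Subgroup.zpowers x⁆ ≤ L := Cfsg.Lib.Solv.commutator_le_of_normalizes hz
    have hnorm : ((⁅L, Subgroup.zpowers x⁆ : Subgroup G).subgroupOf L).Normal :=
      Subgroup.normal_subgroupOf_of_le_normalizer
        (Cfsg.Lib.Solv.le_normalizer_commutator_left _ _)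
    rcases Cfsg.Lib.Comp.isQuasisimple_subnormal hL.2 hnorm.isSubnormal with h | h
    · exact absurd (le_antisymm hle (Subgroup.subgroupOf_eq_top.1 h)) hne
    have h2 := Subgroup.map_mono (f := L.subtype) h
    rw [Cfsg.Lib.Comp.map_subtype_eq_of_le hle, Cfsg.Lib.Comp.map_center_eq] at h2
    have h3 : ⁅L, Subgroup.zpowers x⁆ = ⊥ := by
      refine Cfsg.Lib.Comp.commutator_eq_bot_of_perfect (Cfsg.Lib.Comp.component_perfect hL) ?_
      rw [Subgroup.commutator_comm (Subgroup.zpowers x) L,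
        Subgroup.commutator_eq_bot_iff_le_centralizer]
      exact h2.trans inf_le_right
    intro l hl
    exact Subgroup.mem_centralizer_singleton_iff.2
      ((Subgroup.mem_centralizer_iff.1 (Subgroup.commutator_eq_bot_iff_le_centralizer.1 h3 hl)) x
        (Subgroup.mem_zpowers x)).symm
  · exact Or.inr hn

end Cfsg.Agent.S1270
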