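import Cfsg.Statements.S1271
import Cfsg.Agent.Lib.Comp.LocalKBalance
-- import your own Cfsg.Agent.* helpers here

set_option autoImplicit false
open Cfsg

namespace Cfsg.Agent.S1271

open scoped commutatorElement

/-- Let G be finite with O_{p'}(G) = 1. Suppose that for every component L of G and every subgroup H ≥ L in which L is normal, the quotient H / C_H(L) is balanced for the prime p. Then G is balanced for p. -/
theorem result {G : Type*} [Group G] [Finite G] (p : ℕ) [Fact p.Prime] (hO : Cfsg.pPrimeCore p G = ⊥) (h : ∀ L : Subgroup G, Cfsg.IsComponent L → ∀ H : Subgroup G, L ≤ H → (L.subgroupOf H).Normal → ∀ [((Subgroup.centralizer (L : Set G)).subgroupOf H).Normal], Cfsg.IsBalancedFor p (↥H ⧸ (Subgroup.centralizer (L : Set G)).subgroupOf H)) : Cfsg.IsBalancedFor p G := by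
  classical
  intro x hx
  set D := Cfsg.centralizerPPrimeCore p x with hDdef
  rw [hO, le_bot_iff]
  have hzp : IsPGroup p ↥(Subgroup.zpowers x) :=
    IsPGroup.of_card (n := 1) (by rw [Nat.card_zpowers, hx, pow_one])
  have hD0 : D ≤ Cfsg.Lib.Comp.normCore p (Subgroup.zpowers x) :=
    Cfsg.Lib.Comp.centralizerPPrimeCore_le_normCore x
  have hDQ : D ≤ Subgroup.centralizer (Cfsg.pCore p G : Set G) :=
    hD0.trans (Cfsg.Lib.Comp.normCore_le_centralizer_pCore hzp)
  have hDcop : (Nat.card D).Coprime p := Cfsg.Lib.Comp.KBalance.card_centralizerPPrimeCore x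
  have hDN : ∀ L : Subgroup G, Cfsg.IsComponent L → D ≤ Subgroup.normalizer (L : Set G) := fun L hL =>
    hD0.trans (Cfsg.Lib.Comp.normCore_le_normalizer hO hzp hL)
  have hall : ∀ L : Subgroup G, Cfsg.IsComponent L → D ≤ Subgroup.centralizer (L : Set G) := by
    intro L hL
    by_cases hf : L ≤ Subgroup.centralizer ({x} : Set G) ∨ x ∉ Subgroup.normalizer (L : Set G)
    · refine Subgroup.commutator_eq_bot_iff_le_centralizer.1 ?_
      rw [Subgroup.commutator_comm]
      exact Cfsg.Lib.Comp.component_commute_centralizerCore hO hx hL hf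
    push Not at hf
    set N := L ⊔ (Subgroup.zpowers x ⊔ D) with hN
    have hLN : L ≤ N := le_sup_left
    have hNn : N ≤ Subgroup.normalizer (L : Set G) :=
      sup_le Subgroup.le_normalizer (sup_le (Subgroup.zpowers_le.2 hf.2) (hDN L hL))
    haveI hLn : (L.subgroupOf N).Normal := Subgroup.normal_subgroupOf_of_le_normalizer hNn
    haveI hCn : ((Subgroup.centralizer (L : Set G)).subgroupOf N).Normal :=
      Subgroup.normal_subgroupOf_of_le_normalizer
        (hNn.trans (Cfsg.Lib.Solv.normalizer_le_normalizer_centralizer _))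
    have hbal := h L hL N hLN hLn
    set q := QuotientGroup.mk' ((Subgroup.centralizer (L : Set G)).subgroupOf N) with hq
    have hxN : x ∈ N := Subgroup.mem_sup_right (Subgroup.mem_sup_left (Subgroup.mem_zpowers x))
    have hxbar : orderOf (q ⟨x, hxN⟩) = p := by
      refine orderOf_eq_prime ?_ ?_
      · rw [← map_pow]
        have : (⟨x, hxN⟩ : N) ^ p = 1 := Subtype.ext (by simp [← hx, pow_orderOf_eq_one])
        rw [this, map_one]
      · intro h1
        have h2 : x ∈ Subgroup.centralizer (L : Set G) := (QuotientGroup.eq_one_iff (⟨x, hxN⟩ : N)).1 h1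
        exact hf.1 fun l hl => Subgroup.mem_centralizer_singleton_iff.2 (Subgroup.mem_centralizer_iff.1 h2 l hl)
    have hDN' : D ≤ N := le_sup_right.trans le_sup_right
    -- `D` maps into the core of the centralizer
    have hBA' : Cfsg.IsElementaryAbelian p (Subgroup.zpowers x) := by
      refine ⟨inferInstance, fun y hy => ?_⟩
      obtain ⟨k, rfl⟩ := Subgroup.mem_zpowers_iff.1 hy
      rw [← zpow_natCast, ← zpow_mul, mul_comm, zpow_mul, zpow_natCast, ← hx, pow_orderOf_eq_one, one_zpow]
    have hAD : Subgroup.zpowers x ≤ Subgroup.normalizer (D : Set G) := by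
      refine Subgroup.zpowers_le.2 (Subgroup.mem_normalizer_iff.2 fun y => ?_)
      have hxc : x ∈ Subgroup.centralizer ({x} : Set G) := Subgroup.mem_centralizer_singleton_iff.2 rfl
      refine ⟨fun hy => Cfsg.Lib.Comp.KBalance.centralizerPPrimeCore_conj_mem x hxc hy, fun hy => ?_⟩
      simpa [mul_assoc] using Cfsg.Lib.Comp.KBalance.centralizerPPrimeCore_conj_mem (p := p) x (Subgroup.inv_mem _ hxc) hy
    have hDZ : ∀ d ∈ D, ∀ z ∈ L, z ∈ Subgroup.centralizer (L : Set G) → d * z = z * d := by
      intro d hd z hz hzC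
      refine (Subgroup.mem_centralizer_iff.1 (hDQ hd) z ?_).symm
      have h' := Cfsg.Lib.Comp.sSup_components_inf_centralizer_le_pCore (p := p) hO (S := {L})
        (by rintro _ rfl; exact hL)
      rw [sSup_singleton] at h'
      exact h' ⟨hz, hzC⟩
    have hmemD : ∀ b ∈ Subgroup.zpowers x, b ≠ 1 → D ≤ Cfsg.centralizerPPrimeCore p b := by
      intro b hb hb1
      have hbo : orderOf b = p := orderOf_eq_prime (hBA'.2 b hb) hb1
      have heq : Subgroup.zpowers b = Subgroup.zpowers x :=
        Subgroup.eq_of_le_of_card_ge (Subgroup.zpowers_le.2 hb) (by rw [Nat.card_zpowers, Nat.card_zpowers, hx, hbo])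
      have hc : Subgroup.centralizer ({b} : Set G) = Subgroup.centralizer ({x} : Set G) := by
        rw [← Subgroup.centralizer_closure {b}, ← Subgroup.centralizer_closure {x}, ← Subgroup.zpowers_eq_closure,
          ← Subgroup.zpowers_eq_closure, heq]
      rw [hDdef, Cfsg.centralizerPPrimeCore, Cfsg.centralizerPPrimeCore, hc]
    have hfaith : ∀ b ∈ Subgroup.zpowers x, b ≠ 1 → ¬ L ≤ Subgroup.centralizer ({b} : Set G) := by
      intro b hb hb1 hle
      have heq : Subgroup.zpowers b = Subgroup.zpowers x :=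
        Subgroup.eq_of_le_of_card_ge (Subgroup.zpowers_le.2 hb)
          (by rw [Nat.card_zpowers, Nat.card_zpowers, hx, orderOf_eq_prime (hBA'.2 b hb) hb1])
      refine hf.1 (hle.trans ?_)
      rw [← Subgroup.centralizer_closure {b}, ← Subgroup.centralizer_closure {x}, ← Subgroup.zpowers_eq_closure,
          ← Subgroup.zpowers_eq_closure, heq]
    obtain ⟨H, φ, -, hker, -, -, hΔ⟩ := Cfsg.Lib.Comp.KBalance.exists_induced hBA' le_rfl
      (sup_le (Subgroup.zpowers_le.2 hf.2) (hDN L hL)) hAD hDZ hmemD hfaith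
    let f := QuotientGroup.lift ((Subgroup.centralizer (L : Set G)).subgroupOf N) φ (fun n hn => (hker n).2 hn)
    have hfinj : Function.Injective f := by
      refine (injective_iff_map_eq_one f).2 fun y hy => ?_
      obtain ⟨n, rfl⟩ := QuotientGroup.mk'_surjective _ y
      exact (QuotientGroup.eq_one_iff n).2 ((hker n).1 hy)
    have hDN' : D ≤ N := le_sup_right.trans le_sup_right
    set O := Cfsg.pPrimeCore p (N ⧸ (Subgroup.centralizer (L : Set G)).subgroupOf N) with hOdef
    haveI hOn : O.Normal := Cfsg.Lib.Transfer.pPrimeCore_normal p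
    -- `D` maps into the core of the centralizer
    have hle : (D.subgroupOf N).map q ≤ O := by
      refine le_trans ?_ (hbal (q ⟨x, hxN⟩) hxbar)
      intro y hy
      have hfy : f y ∈ Cfsg.centralizerPPrimeCore p (φ ⟨x, hxN⟩) := by
        obtain ⟨d, hd, rfl⟩ := hy
        have h1 := hΔ (Subgroup.mem_map_of_mem φ hd)
        rw [Cfsg.signalizerDelta, Subgroup.mem_iInf] at h1
        refine h1 ⟨φ ⟨x, hxN⟩, ⟨⟨x, hxN⟩, Subgroup.mem_zpowers x, rfl⟩, fun h => ?_⟩
        have h2 : x ∈ Subgroup.centralizer (L : Set G) := (hker _).1 h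
        exact hf.1 fun l hl => Subgroup.mem_centralizer_singleton_iff.2 (Subgroup.mem_centralizer_iff.1 h2 l hl)
      set T := (Cfsg.centralizerPPrimeCore p (φ ⟨x, hxN⟩)).comap f with hT
      have hTC : T ≤ Subgroup.centralizer ({q ⟨x, hxN⟩} : Set _) := by
        intro t ht
        refine Subgroup.mem_centralizer_singleton_iff.2 (hfinj ?_)
        rw [map_mul, map_mul]
        exact Subgroup.mem_centralizer_singleton_iff.1 (Subgroup.map_subtype_le _ ht)
      refine Cfsg.Lib.Comp.le_pPrimeCoreOf hTC (Subgroup.Normal.isSubnormal ⟨fun n hn g => ?_⟩) ?_ hfy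
      · have hg : f (g : N ⧸ _) ∈ Subgroup.centralizer ({φ ⟨x, hxN⟩} : Set H) := by
          refine Subgroup.mem_centralizer_singleton_iff.2 ?_
          have := congrArg f (Subgroup.mem_centralizer_singleton_iff.1 g.2)
          rw [map_mul, map_mul] at this
          exact this
        show f ((g : N ⧸ (Subgroup.centralizer (L : Set G)).subgroupOf N) * (n : N ⧸ (Subgroup.centralizer (L : Set G)).subgroupOf N) * (g : N ⧸ (Subgroup.centralizer (L : Set G)).subgroupOf N)⁻¹) ∈ Cfsg.centralizerPPrimeCore p (φ ⟨x, hxN⟩)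
        rw [map_mul, map_mul, map_inv]
        exact Cfsg.Lib.Comp.KBalance.centralizerPPrimeCore_conj_mem _ hg hn
      · refine (Cfsg.Lib.Comp.KBalance.card_centralizerPPrimeCore (φ ⟨x, hxN⟩)).coprime_dvd_left ?_
        rw [← Subgroup.card_map_of_injective (K := T) hfinj]
        exact Subgroup.card_dvd_of_le (Subgroup.map_comap_le _ _)
    -- the core meets the image of `L` trivially
    set M := (O.comap (q.comp (Subgroup.inclusion hLN))) with hM
    haveI : M.Normal := hOn.comap _
    have hMc : M ≤ Subgroup.center L := by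
      rcases Cfsg.Lib.Comp.isQuasisimple_normal hL.2 M with h1 | h1
      · exfalso
        -- a Sylow `p`-subgroup of `L` would be central
        have hcop : (Nat.card (q.comp (Subgroup.inclusion hLN)).range).Coprime p := by
          refine (Cfsg.Lib.Solv.coprime_pPrimeCore p).coprime_dvd_left (Subgroup.card_dvd_of_le (K := O) ?_)
          rintro _ ⟨l, rfl⟩
          exact (h1.ge (Subgroup.mem_top l) : l ∈ M)
        obtain ⟨P⟩ : Nonempty (Sylow p L) := inferInstance
        have hPZ : (P : Subgroup L) ≤ Subgroup.center L := by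
          intro u hu
          have h3 : orderOf (q.comp (Subgroup.inclusion hLN) u) = 1 := by
            obtain ⟨k, hk⟩ := P.isPGroup'.exists_orderOf_eq_pow ⟨u, hu⟩
            rw [Subgroup.orderOf_mk] at hk
            refine Nat.eq_one_of_dvd_coprimes (hcop.symm.pow_left k) (hk ▸ orderOf_map_dvd _ u) ?_
            have h' := orderOf_dvd_natCard (⟨(q.comp (Subgroup.inclusion hLN)) u, u, rfl⟩ : (q.comp (Subgroup.inclusion hLN)).range)
            rw [← Subgroup.orderOf_coe] at h'
            exact h'
          have h4 := (QuotientGroup.eq_one_iff _).1 (orderOf_eq_one_iff.1 h3)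
          exact Subgroup.mem_center_iff.2 fun l => Subtype.ext (Subgroup.mem_centralizer_iff.1 h4 l l.2)
        have hP : Subgroup.normalizer ((P : Subgroup L) : Set L) ≤ Subgroup.centralizer ((P : Subgroup L) : Set L) :=
          fun g _ => Subgroup.mem_centralizer_iff.2 fun u hu => (Subgroup.mem_center_iff.1 (hPZ hu) g).symm
        have hc := MonoidHom.ker_transferSylow_isComplement' P hP
        have hperf : _root_.commutator L = ⊤ := by haveI := hL.2.1; exact Group.IsPerfect.commutator_eq_top
        have hkt : (MonoidHom.transferSylow P hP).ker = ⊤ := by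
          refine top_le_iff.1 (hperf ▸ ?_)
          rw [commutator_eq_closure, Subgroup.closure_le]
          rintro _ ⟨a, b, rfl⟩
          rw [SetLike.mem_coe, MonoidHom.mem_ker, map_commutatorElement]
          refine commutatorElement_eq_one_iff_mul_comm.2 (Subtype.ext ?_)
          exact (Subgroup.mem_center_iff.1 (hPZ (MonoidHom.transferSylow P hP b).2) _)
        rw [hkt, Subgroup.isComplement'_top_left] at hc
        refine Cfsg.Lib.Comp.component_not_le_coprime hO hL ?_
        refine Nat.Coprime.symm ((Nat.Prime.coprime_iff_not_dvd Fact.out).2 fun hd => ?_)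
        have h5 := P.dvd_card_of_dvd_card hd
        rw [hc, Subgroup.card_bot] at h5
        exact (Fact.out : p.Prime).not_dvd_one h5
      · exact h1
    -- so `D` centralizes `L`
    intro d hd
    have hdN : d ∈ N := hDN' hd
    have hkey : ⁅⁅Subgroup.zpowers d, L⁆, L⁆ = ⊥ := by
      refine Subgroup.commutator_eq_bot_iff_le_centralizer.2 (Subgroup.commutator_le.2 fun e he l hl => ?_)
      have heD : e ∈ D := Subgroup.zpowers_le.2 hd he
      have hel : ⁅e, l⁆ ∈ L := by
        rw [commutatorElement_def]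
        exact L.mul_mem ((Subgroup.mem_normalizer_iff.1 (hDN L hL heD) _).1 hl) (L.inv_mem hl)
      have hm : (⟨⁅e, l⁆, hel⟩ : L) ∈ M := by
        show q ⟨⁅e, l⁆, hLN hel⟩ ∈ O
        have : (⟨⁅e, l⁆, hLN hel⟩ : N) = ⁅(⟨e, hDN' heD⟩ : N), ⟨l, hLN hl⟩⁆ := rfl
        rw [this, map_commutatorElement, commutatorElement_def, mul_assoc, mul_assoc]
        have hqe : q ⟨e, hDN' heD⟩ ∈ O := hle ⟨⟨e, hDN' heD⟩, heD, rfl⟩
        refine O.mul_mem hqe ?_
        rw [← mul_assoc]
        exact hOn.conj_mem _ (O.inv_mem hqe) _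
      exact Subgroup.mem_centralizer_iff.2 fun y hy =>
        congrArg Subtype.val (Subgroup.mem_center_iff.1 (hMc hm) ⟨y, hy⟩)
    have hperf : ⁅L, L⁆ = L := Subgroup.isPerfect_iff.1 hL.2.1
    have := Cfsg.Lib.Comp.commutator_eq_bot_of_perfect hperf hkey
    rw [Subgroup.commutator_comm] at this
    exact Subgroup.commutator_eq_bot_iff_le_centralizer.1 this (Subgroup.mem_zpowers d)
  have h1 : D ≤ Subgroup.centralizer (Cfsg.generalizedFittingSubgroup G : Set G) := by
    rw [Cfsg.Lib.Comp.centralizer_fstar_eq, Cfsg.Lib.Solv.fitting_eq_pCore p hO]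
    exact le_inf (Subgroup.le_centralizer_iff.1 (Cfsg.Lib.Comp.layer_le_iff.2 fun L hL => Subgroup.le_centralizer_iff.1 (hall L hL))) hDQ
  have h2 := h1.trans Cfsg.Lib.Comp.centralizer_fstar_le_fitting
  rw [Cfsg.Lib.Solv.fitting_eq_pCore p hO] at h2
  refine (inf_eq_left.2 h2).symm.trans (Cfsg.Lib.Solv.inf_eq_bot_of_coprime_card ?_)
  obtain ⟨n, hn⟩ := IsPGroup.iff_card.1 (Cfsg.Lib.Solv.isPGroup_pCore (G := G) p)
  rw [hn]
  exact hDcop.pow_right n

end Cfsg.Agent.S1271
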