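import Cfsg.Statements.S1272
import Mathlib
import Cfsg.Agent.Lib.Comp.PLayer
-- import your own Cfsg.Agent.* helpers here

set_option autoImplicit false
open Cfsg

namespace Cfsg.Agent.S1272

/-- Let X be finite and Q = X / O_{p'}(X). For every component Kbar of Q there is a unique p-component K of X whose image in Q is Kbar; and the image of the p-layer L_{p'}(X) in Q is E(Q). -/
theorem result {X : Type*} [Group X] [Finite X] (p : ℕ) [Fact p.Prime] : (∀ Kbar : Subgroup (X ⧸ Cfsg.pPrimeCore p X), Cfsg.IsComponent Kbar → ∃! K : Subgroup X, Cfsg.IsPComponent p K ∧ K.map (QuotientGroup.mk' (Cfsg.pPrimeCore p X)) = Kbar) ∧ (Cfsg.pLayer p X).map (QuotientGroup.mk' (Cfsg.pPrimeCore p X)) = Cfsg.layer (X ⧸ Cfsg.pPrimeCore p X) := by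
  refine ⟨fun Kbar hKbar => ⟨_, ⟨Cfsg.Lib.Comp.isPComponent_pElemGen hKbar,
    Cfsg.Lib.Comp.map_pElemGen_comap hKbar⟩, ?_⟩, Cfsg.Lib.Comp.map_pLayer⟩
  rintro K ⟨hK, hKb⟩
  rw [← Cfsg.Lib.Comp.pComponent_eq hK, hKb]

end Cfsg.Agent.S1272
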