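import Cfsg.Statements.S1273
import Mathlib
import Cfsg.Agent.Lib.Comp.PLayer
-- import your own Cfsg.Agent.* helpers here

set_option autoImplicit false
open Cfsg

namespace Cfsg.Agent.S1273

/-- Let K be a p-component of the finite group X and N a normal subgroup of K whose index in K is prime to p. Then N = K. -/
theorem result {X : Type*} [Group X] [Finite X] (p : ℕ) [Fact p.Prime] (K : Subgroup X) (hK : Cfsg.IsPComponent p K) (N : Subgroup ↥K) [N.Normal] (hidx : (N.index).Coprime p) : N = ⊤ := by
  have hN : (N.map K.subtype).IsSubnormal := ((inferInstance : N.Normal).isSubnormal).trans' hK.1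
  have hmem : ∀ x ∈ Cfsg.Lib.Comp.pElemGen p K, x ∈ N.map K.subtype := by
    intro x hx
    refine (Subgroup.closure_le (N.map K.subtype)).2 ?_ hx
    rintro y ⟨hy, k, hk⟩
    exact ⟨⟨y, hy⟩, Cfsg.Lib.Comp.pElem_mem_of_subnormal (inferInstance : N.Normal).isSubnormal hidx
      (k := k) (Subtype.ext (by simpa using hk)), rfl⟩
  rw [eq_top_iff]
  intro x _
  obtain ⟨y, hy, hyx⟩ := hmem x ((Cfsg.Lib.Comp.pComponent_pElemGen_self hK).ge x.2)
  rwa [← Subtype.ext (hyx : (y : X) = x)]

end Cfsg.Agent.S1273
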