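import Cfsg.Statements.S1276
import Mathlib
import Cfsg.Agent.Lib.Comp.PLayer
-- import your own Cfsg.Agent.* helpers here

set_option autoImplicit false
open Cfsg

namespace Cfsg.Agent.S1276

/-- Let K be a 2-component of the finite group X. Then K is quasisimple if and only if ⁅K, O(K)⁆ = 1. -/
theorem result {X : Type*} [Group X] [Finite X] (K : Subgroup X) (hK : Cfsg.IsPComponent 2 K) : Cfsg.IsQuasisimple ↥K ↔ ⁅K, ((Cfsg.oddCore ↥K).map K.subtype)⁆ = ⊥ := by
  have hperf : Group.IsPerfect K := Subgroup.isPerfect_iff.2 (Cfsg.Lib.Comp.pComponent_perfect hK)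
  have hq := Cfsg.Lib.Comp.pComponent_quotient_quasisimple hK
  have hOtop : Cfsg.oddCore ↥K ≠ ⊤ := by
    intro h
    have := Cfsg.Lib.Comp.isQuasisimple_nontrivial hq
    exact not_subsingleton (↥K ⧸ Cfsg.oddCore ↥K)
      (QuotientGroup.subsingleton_iff.2 h)
  have hiff : ⁅K, (Cfsg.oddCore ↥K).map K.subtype⁆ = ⊥ ↔ Cfsg.oddCore ↥K ≤ Subgroup.center ↥K := by
    have htop : (⊤ : Subgroup ↥K).map K.subtype = K := by
      rw [← MonoidHom.range_eq_map, Subgroup.range_subtype]
    conv_lhs => arg 1; arg 1; rw [← htop]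
    rw [← Subgroup.map_commutator, Subgroup.map_eq_bot_iff_of_injective _ K.subtype_injective,
      Subgroup.commutator_comm, Subgroup.commutator_top_right_eq_bot_iff_le_center]
  rw [hiff]
  refine ⟨fun h => (Cfsg.Lib.Comp.isQuasisimple_normal h _).resolve_left hOtop, fun h => ?_⟩
  have : Nontrivial K := K.nontrivial_iff_ne_bot.2 (Cfsg.Lib.Comp.pComponent_ne_bot hK)
  refine Cfsg.Lib.Comp.isQuasisimple_of_normal fun R hR => ?_
  set q := QuotientGroup.mk' (Cfsg.oddCore ↥K) with hqdef
  have hRn : (R.map q).Normal := hR.map q (QuotientGroup.mk'_surjective _)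
  rcases Cfsg.Lib.Comp.isQuasisimple_normal hq (R.map q) with h1 | h1
  · left
    refine Cfsg.Lib.Comp.eq_top_of_sup_center R (eq_top_iff.2 ?_)
    refine le_trans ?_ (sup_le_sup_left h R)
    rw [← QuotientGroup.ker_mk' (Cfsg.oddCore ↥K), ← Subgroup.comap_map_eq, h1, Subgroup.comap_top]
  · right
    rw [← Subgroup.commutator_top_right_eq_bot_iff_le_center, Subgroup.commutator_comm]
    refine Cfsg.Lib.Comp.commutator_eq_bot_of_perfect
      (by rw [← _root_.commutator_def, Group.IsPerfect.commutator_eq_top]) ?_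
    refine Subgroup.commutator_top_right_eq_bot_iff_le_center.2 (le_trans ?_ h)
    rw [← QuotientGroup.ker_mk' (Cfsg.oddCore ↥K), ← Subgroup.map_eq_bot_iff, Subgroup.map_commutator,
      Subgroup.map_top_of_surjective _ (QuotientGroup.mk'_surjective _),
      Subgroup.commutator_top_right_eq_bot_iff_le_center]
    exact h1

end Cfsg.Agent.S1276
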