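import Cfsg.Statements.S1286
import Mathlib
-- import your own Cfsg.Agent.* helpers here

set_option autoImplicit false
open Cfsg

namespace Cfsg.Agent.S1286

/-- There exist a finite group X, an elementary abelian subgroup A of order 4 and a solvable A-signalizer functor θ on X for the prime 2 which is not complete. -/
theorem result : ∃ (X : Type) (_ : Group X) (_ : Finite X) (A : Subgroup X) (θ : X → Subgroup X), Cfsg.IsElementaryAbelian 2 A ∧ Nat.card ↥A = 4 ∧ Cfsg.IsSolvableSignalizerFunctor 2 A θ ∧ ¬ Cfsg.IsCompleteSignalizerFunctor 2 A θ := by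
  let u : Equiv.Perm (Fin 5) := Equiv.swap 0 1 * Equiv.swap 1 2
  let v : Equiv.Perm (Fin 5) := Equiv.swap 0 3 * Equiv.swap 3 4
  let a : Equiv.Perm (Fin 5) := Equiv.swap 3 4
  let b : Equiv.Perm (Fin 5) := Equiv.swap 1 2
  let A : Subgroup (Equiv.Perm (Fin 5)) :=
    { carrier := {x | x ∈ ({1, a, b, a * b} : Finset (Equiv.Perm (Fin 5)))}
      one_mem' := by simp
      mul_mem' := fun {x y} hx hy => by revert x y; decide +kernel
      inv_mem' := fun {x} hx => by revert x; decide +kernel }
  let θ : Equiv.Perm (Fin 5) → Subgroup (Equiv.Perm (Fin 5)) := fun x =>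
    if x = a then Subgroup.zpowers u else if x = b then Subgroup.zpowers v else ⊥
  have ha : θ a = Subgroup.zpowers u := if_pos rfl
  have hb : θ b = Subgroup.zpowers v :=
    (if_neg (show b ≠ a by decide +kernel)).trans (if_pos rfl)
  have hab : θ (a * b) = ⊥ :=
    (if_neg (show a * b ≠ a by decide +kernel)).trans (if_neg (show a * b ≠ b by decide +kernel))
  have hcase : ∀ x ∈ A, x ≠ 1 → x = a ∨ x = b ∨ x = a * b := fun x hx h1 => by
    have hx' : x ∈ ({1, a, b, a * b} : Finset (Equiv.Perm (Fin 5))) := hx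
    simp only [Finset.mem_insert, Finset.mem_singleton] at hx'
    exact hx'.resolve_left h1
  have hpow : ∀ (w : Equiv.Perm (Fin 5)), w ^ 3 = 1 → ∀ x ∈ Subgroup.zpowers w,
      x = 1 ∨ x = w ∨ x = w * w := by
    rintro w hw _ ⟨i, rfl⟩
    have h : w ^ i = w ^ (i % 3) := by
      conv_lhs => rw [← Int.emod_add_mul_ediv i 3]
      rw [zpow_add, zpow_mul, show w ^ (3 : ℤ) = 1 by simpa using hw, one_zpow, mul_one]
    show w ^ i = 1 ∨ w ^ i = w ∨ w ^ i = w * w
    rw [h]
    rcases (show i % 3 = 0 ∨ i % 3 = 1 ∨ i % 3 = 2 by omega) with h | h | h <;> rw [h]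
    · exact Or.inl (zpow_zero w)
    · exact Or.inr (Or.inl (zpow_one w))
    · exact Or.inr (Or.inr (zpow_two w))
  have hu := hpow u (by decide +kernel)
  have hv := hpow v (by decide +kernel)
  have hord : ∀ w ∈ ({u, v} : Finset (Equiv.Perm (Fin 5))), orderOf w = 3 := by
    intro w hw
    have : Fact (Nat.Prime 3) := ⟨Nat.prime_three⟩
    refine orderOf_eq_prime ?_ ?_ <;> revert w <;> decide +kernel
  have hbal : ∀ w ∈ ({u, v} : Finset (Equiv.Perm (Fin 5))), ∀ x, (x = 1 ∨ x = w ∨ x = w * w) →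
      ∀ c ∈ ({1, a, b, a * b} : Finset (Equiv.Perm (Fin 5))),
        (c * x * c⁻¹ = 1 ∨ c * x * c⁻¹ = w ∨ c * x * c⁻¹ = w * w) ∧
        (x * c = c * x → x = 1 ∨ (w = u ∧ c = a) ∨ (w = v ∧ c = b) ∨ c = 1) := by
    decide +kernel
  have hsub : ∀ (w x : Equiv.Perm (Fin 5)), (x = 1 ∨ x = w ∨ x = w * w) → x ∈ Subgroup.zpowers w := by
    rintro w x (rfl | rfl | rfl)
    · exact one_mem _
    · exact Subgroup.mem_zpowers _
    · exact mul_mem (Subgroup.mem_zpowers _) (Subgroup.mem_zpowers _)
  have hsig : Cfsg.IsSignalizerFunctor 2 A θ := by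
    refine ⟨fun x hx h1 => ?_, fun x hx h1 => ?_, fun x hx h1 c hc y hy => ?_, fun x hx h1 c hc hc1 => ?_⟩
    · rcases hcase x hx h1 with rfl | rfl | rfl
      · rw [ha]; intro y hy
        rw [Subgroup.mem_centralizer_singleton_iff]
        rcases hu y hy with rfl | rfl | rfl <;> decide +kernel
      · rw [hb]; intro y hy
        rw [Subgroup.mem_centralizer_singleton_iff]
        rcases hv y hy with rfl | rfl | rfl <;> decide +kernel
      · rw [hab]; exact bot_le
    · rcases hcase x hx h1 with rfl | rfl | rfl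
      · rw [ha, Nat.card_zpowers, hord u (by simp)]; omega
      · rw [hb, Nat.card_zpowers, hord v (by simp)]; omega
      · rw [hab, Subgroup.card_bot]; omega
    · rcases hcase x hx h1 with rfl | rfl | rfl
      · rw [ha] at hy ⊢; exact hsub u _ (hbal u (by simp) y (hu y hy) c hc).1
      · rw [hb] at hy ⊢; exact hsub v _ (hbal v (by simp) y (hv y hy) c hc).1
      · rw [hab] at hy ⊢; rw [Subgroup.mem_bot] at hy ⊢; simp [hy]
    · rintro y ⟨hy, hyc⟩
      have hyc' := Subgroup.mem_centralizer_singleton_iff.1 hyc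
      rcases hcase x hx h1 with rfl | rfl | rfl
      · have hy' : y ∈ θ a := hy
        rw [ha] at hy'
        rcases (hbal u (by simp) y (hu y hy') c hc).2 hyc' with rfl | ⟨-, rfl⟩ | ⟨h, -⟩ | h
        · exact one_mem _
        · exact hy
        · exact absurd h (by decide +kernel)
        · exact absurd h hc1
      · have hy' : y ∈ θ b := hy
        rw [hb] at hy'
        rcases (hbal v (by simp) y (hv y hy') c hc).2 hyc' with rfl | ⟨h, -⟩ | ⟨-, rfl⟩ | h
        · exact one_mem _
        · exact absurd h (by decide +kernel)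
        · exact hy
        · exact absurd h hc1
      · have hy' : y ∈ θ (a * b) := hy
        rw [hab, Subgroup.mem_bot] at hy'
        exact hy' ▸ one_mem _
  refine ⟨Equiv.Perm (Fin 5), inferInstance, inferInstance, A, θ, ⟨⟨⟨fun x y => ?_⟩⟩, ?_⟩, ?_,
    ⟨hsig, fun x hx h1 => ?_⟩, ?_⟩
  · refine Subtype.ext ?_
    exact (show ∀ x ∈ ({1, a, b, a * b} : Finset (Equiv.Perm (Fin 5))),
      ∀ y ∈ ({1, a, b, a * b} : Finset (Equiv.Perm (Fin 5))), x * y = y * x by decide +kernel) _ x.2 _ y.2
  · exact fun x hx => (show ∀ x ∈ ({1, a, b, a * b} : Finset (Equiv.Perm (Fin 5))), x ^ 2 = 1 by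
      decide +kernel) x hx
  · show Nat.card ↥({1, a, b, a * b} : Finset (Equiv.Perm (Fin 5))) = 4
    rw [Nat.card_eq_fintype_card, Fintype.card_coe]
    decide +kernel
  · rcases hcase x hx h1 with rfl | rfl | rfl
    · rw [ha]; exact Group.isSolvable_of_comm fun p q => (Subgroup.zpowers_isMulCommutative _).is_comm.comm p q
    · rw [hb]; exact Group.isSolvable_of_comm fun p q => (Subgroup.zpowers_isMulCommutative _).is_comm.comm p q
    · rw [hab]; infer_instance
  · rintro ⟨-, X, -, hodd, hX⟩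
    have hu' : u ∈ X := (show u ∈ X ⊓ Subgroup.centralizer {a} by
      rw [hX a (show a ∈ ({1, a, b, a * b} : Finset (Equiv.Perm (Fin 5))) by simp) (by decide +kernel), ha]
      exact Subgroup.mem_zpowers _).1
    have hv' : v ∈ X := (show v ∈ X ⊓ Subgroup.centralizer {b} by
      rw [hX b (show b ∈ ({1, a, b, a * b} : Finset (Equiv.Perm (Fin 5))) by simp) (by decide +kernel), hb]
      exact Subgroup.mem_zpowers _).1
    have hw : u * u * v * u * v ∈ X := mul_mem (mul_mem (mul_mem (mul_mem hu' hu') hv') hu') hv'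
    have : Fact (Nat.Prime 2) := ⟨Nat.prime_two⟩
    have ho : orderOf (u * u * v * u * v) = 2 :=
      orderOf_eq_prime (by decide +kernel) (by decide +kernel)
    exact hodd (ho ▸ Subgroup.orderOf_dvd_natCard _ hw)

end Cfsg.Agent.S1286
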