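import Cfsg.Statements.S1287
import Mathlib
import Cfsg.Agent.Lib.Solv.CoprimeFactor
-- import your own Cfsg.Agent.* helpers here

set_option autoImplicit false
open scoped Pointwise
open Cfsg

namespace Cfsg.Agent.S1287

/-- Let A be a noncyclic elementary abelian p-subgroup of a finite group H normalizing a subgroup K of order prime to p, and X, Y ≤ K subgroups normalized by A with C_K(a) = C_X(a) C_Y(a) (as sets) for every non-identity a ∈ A, where X is also normalized by C_K(A). Then K = XY as sets. -/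
theorem result {H : Type*} [Group H] [Finite H] (p : ℕ) [Fact p.Prime] (A K X Y : Subgroup H) (hA : Cfsg.IsElementaryAbelian p A) (hA2 : p ^ 2 ≤ Nat.card ↥A) (hK : ¬ p ∣ Nat.card ↥K) (hAK : A ≤ Subgroup.normalizer (K : Set H)) (hX : X ≤ K) (hY : Y ≤ K) (hAX : A ≤ Subgroup.normalizer (X : Set H)) (hAY : A ≤ Subgroup.normalizer (Y : Set H)) (hCX : K ⊓ Subgroup.centralizer (A : Set H) ≤ Subgroup.normalizer (X : Set H)) (hfac : ∀ a ∈ A, a ≠ 1 → ((K ⊓ Subgroup.centralizer {a} : Subgroup H) : Set H) = ((X ⊓ Subgroup.centralizer {a} : Subgroup H) : Set H) * ((Y ⊓ Subgroup.centralizer {a} : Subgroup H) : Set H)) : (K : Set H) = (X : Set H) * (Y : Set H) := by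
  haveI : IsMulCommutative A := hA.1
  have hp := (Fact.out : p.Prime)
  have hnc : ¬ IsCyclic ↥A := by
    intro hc
    obtain ⟨g, hg⟩ := hc.exists_generator
    have hord : orderOf g = Nat.card ↥A := orderOf_eq_card_of_forall_mem_zpowers hg
    have h1 : orderOf g ∣ p := orderOf_dvd_of_pow_eq_one (Subtype.ext (by simpa using hA.2 g g.2))
    have h2 := Nat.le_of_dvd hp.pos h1
    rw [hord] at h2
    have h3 : p < p ^ 2 := by nlinarith [hp.two_le]
    omega
  have hAp : IsPGroup p ↥A := fun ⟨x, hx⟩ => ⟨1, Subtype.ext (by simpa using hA.2 x hx)⟩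
  have hcop : (Nat.card ↥A).Coprime (Nat.card ↥K) := by
    obtain ⟨k, hk⟩ := IsPGroup.iff_card.1 hAp
    rw [hk]
    exact (hp.coprime_iff_not_dvd.2 hK).pow_left k
  exact Cfsg.Lib.Solv.factor_of_centralizers A K X Y hnc hAK hcop hX hY hAX hAY hfac

end Cfsg.Agent.S1287
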