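import Cfsg.Statements.S1288
import Cfsg.Agent.Lib.Sig.Basic
import Cfsg.Agent.Lib.Solv.Cores
import Cfsg.Agent.Lib.Solv.MinNormal
-- import your own Cfsg.Agent.* helpers here

set_option autoImplicit false
open Cfsg
open scoped commutatorElement

namespace Cfsg.Agent.S1288

/-- Let A be a noncyclic elementary abelian p-subgroup of a finite group H normalizing a solvable subgroup K of order prime to p, q a prime dividing |K|, and U ≤ K a subgroup of order prime to q such that ⁅U, C_K(B)⁆ has order prime to q for every subgroup B of index p in A. Then U ≤ O_{q'}(K). -/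
theorem result {H : Type*} [Group H] [Finite H] (p : ℕ) [Fact p.Prime] (A K : Subgroup H) (hA : Cfsg.IsElementaryAbelian p A) (hA2 : p ^ 2 ≤ Nat.card ↥A) (hK : ¬ p ∣ Nat.card ↥K) (hKs : Group.IsSolvable ↥K) (hAK : A ≤ Subgroup.normalizer (K : Set H)) (q : ℕ) [Fact q.Prime] (hqK : q ∣ Nat.card ↥K) (U : Subgroup H) (hU : U ≤ K) (hUq : ¬ q ∣ Nat.card ↥U) (hcomm : ∀ B : Subgroup H, B ≤ A → B.relIndex A = p → ¬ q ∣ Nat.card ↥⁅U, K ⊓ Subgroup.centralizer (B : Set H)⁆) : U ≤ (Cfsg.pPrimeCore q ↥K).map K.subtype := by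
  classical
  let W := Cfsg.pPrimeCore q ↥K
  haveI : W.Characteristic := Cfsg.Lib.Solv.sSup_characteristic fun φ N hN =>
    ⟨hN.1.map _ φ.surjective, by
      have h := hN.2
      rwa [Subgroup.card_map_of_injective φ.injective]⟩
  let f := QuotientGroup.mk' W
  have hf : Function.Surjective f := QuotientGroup.mk'_surjective W
  let L := (Cfsg.pCore q (↥K ⧸ W)).comap f
  haveI : L.Characteristic := by
    rw [Subgroup.characteristic_iff_map_le]
    intro φ
    rw [← Subgroup.map_le_iff_le_comap]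
    refine Cfsg.Lib.Solv.le_pCore (((inferInstance : L.Normal).map φ.toMonoidHom φ.surjective).map f hf) ?_
    rintro ⟨_, _, ⟨l, hl, rfl⟩, rfl⟩
    obtain ⟨k, hk⟩ := Cfsg.Lib.Solv.isPGroup_pCore (G := ↥K ⧸ W) q ⟨f l, hl⟩
    refine ⟨k, Subtype.ext ?_⟩
    have h1 : l ^ q ^ k ∈ W := by
      rw [← QuotientGroup.eq_one_iff]
      show f (l ^ q ^ k) = 1
      rw [map_pow]
      exact congrArg Subtype.val hk
    show f (φ l) ^ q ^ k = 1
    rw [← map_pow, ← map_pow]
    exact (QuotientGroup.eq_one_iff _).2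
      ((Subgroup.characteristic_iff_map_le.1 (inferInstance : W.Characteristic) φ) ⟨_, h1, rfl⟩)
  let X := L.map K.subtype
  have hXK : X ≤ K := Subgroup.map_subtype_le _
  have hXn : A ≤ Subgroup.normalizer (X : Set H) := by
    intro a ha
    have hk := hAK ha
    refine Subgroup.mem_normalizer_iff.2 fun x => ?_
    have hconj : ∀ b ∈ Subgroup.normalizer (K : Set H), ∀ y ∈ X, b * y * b⁻¹ ∈ X := by
      rintro b hb _ ⟨y, hy, rfl⟩
      let φ : K ≃* K :=
        { toFun := fun k => ⟨b * k * b⁻¹, (Subgroup.mem_normalizer_iff.1 hb k).1 k.2⟩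
          invFun := fun k => ⟨b⁻¹ * k * b, (Subgroup.mem_normalizer_iff.1 hb _).2 (by simp [mul_assoc])⟩
          left_inv := fun k => Subtype.ext (by simp [mul_assoc])
          right_inv := fun k => Subtype.ext (by simp [mul_assoc])
          map_mul' := fun k l => Subtype.ext (by simp [mul_assoc]) }
      exact ⟨φ y, (Subgroup.characteristic_iff_map_le.1 (inferInstance : L.Characteristic) φ) ⟨y, hy, rfl⟩, rfl⟩
    refine ⟨hconj a hk x, fun hx => ?_⟩
    have := hconj a⁻¹ (inv_mem hk) _ hx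
    simpa [mul_assoc] using this
  have hXp : ¬ p ∣ Nat.card X := fun h => hK (h.trans (Subgroup.card_dvd_of_le hXK))
  -- `U` commutes with `L` modulo `W`
  let R := Subgroup.centralizer ((U.subgroupOf K).map f : Set (↥K ⧸ W))
  have hB0 : ∃ B0 : Subgroup H, B0 ≤ A ∧ B0.relIndex A = p := by
    obtain ⟨n, hn⟩ := IsPGroup.iff_card.1 (Cfsg.Lib.Sig.isPGroup_of_elem hA)
    have hn1 : 1 ≤ n := by
      rcases n with _ | n
      · rw [hn, pow_zero] at hA2
        have := (Fact.out : p.Prime).two_le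
        nlinarith
      · omega
    obtain ⟨B, hB⟩ := Sylow.exists_subgroup_card_pow_prime p (G := A) (n := n - 1)
      (by rw [hn]; exact pow_dvd_pow p (by omega))
    refine ⟨B.map A.subtype, Subgroup.map_subtype_le _, ?_⟩
    have h1 : (B.map A.subtype).relIndex A = B.index := by
      rw [Subgroup.relIndex, Subgroup.subgroupOf, Subgroup.comap_map_eq_self_of_injective A.subtype_injective]
    have h2 := B.card_mul_index
    rw [hB, hn, show p ^ n = p ^ (n - 1) * p by rw [← pow_succ]; congr 1; omega] at h2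
    rw [h1, Nat.eq_of_mul_eq_mul_left (pow_pos (Fact.out : p.Prime).pos _) h2]
  have hgen : ∀ B : Subgroup H, B ≤ A → B.relIndex A = p →
      X ⊓ Subgroup.centralizer (B : Set H) ≤ (R.comap f).map K.subtype := by
    intro B hBA hB x hx
    obtain ⟨l, hl, rfl⟩ := hx.1
    refine ⟨l, Subgroup.mem_centralizer_iff.2 ?_, rfl⟩
    rintro _ ⟨u, hu, rfl⟩
    rw [← commutatorElement_eq_one_iff_mul_comm]
    have hcL : ⁅u, l⁆ ∈ L := by
      rw [commutatorElement_def]
      exact mul_mem ((inferInstance : L.Normal).conj_mem l hl u) (inv_mem hl)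
    have h1 : orderOf ((⁅u, l⁆ : K) : H) ∣
        Nat.card ↥⁅U, K ⊓ Subgroup.centralizer (B : Set H)⁆ := by
      refine Subgroup.orderOf_dvd_natCard _ ?_
      exact Subgroup.commutator_mem_commutator hu ⟨l.2, hx.2⟩
    obtain ⟨k, hk⟩ := Cfsg.Lib.Solv.isPGroup_pCore (G := ↥K ⧸ W) q ⟨f ⁅u, l⁆, hcL⟩
    have h2 : orderOf (f ⁅u, l⁆) ∣ q ^ k := orderOf_dvd_of_pow_eq_one (congrArg Subtype.val hk)
    have h3 : orderOf (f ⁅u, l⁆) ∣ Nat.card ↥⁅U, K ⊓ Subgroup.centralizer (B : Set H)⁆ :=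
      (orderOf_map_dvd f _).trans ((Subgroup.orderOf_coe ⁅u, l⁆) ▸ h1)
    have h4 := Nat.eq_one_of_dvd_coprimes
      (((Fact.out : q.Prime).coprime_iff_not_dvd.2 (hcomm B hBA hB)).pow_left k) h2 h3
    rw [← map_commutatorElement]
    exact orderOf_eq_one_iff.1 h4
  have hXR : X ≤ (R.comap f).map K.subtype := by
    intro x hx
    have h1 := Cfsg.Lib.Sig.le_iSup_centralizer_index A X hA hXp hXn ⊥ bot_le
      ⟨hx, Subgroup.mem_centralizer_iff.2 fun c hc => by
        rw [SetLike.mem_coe, Subgroup.mem_bot] at hc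
        rw [hc, one_mul, mul_one]⟩
    refine (iSup_le fun B => ?_ : _ ≤ (R.comap f).map K.subtype) h1
    obtain ⟨B, hBA, hBi⟩ := B
    rcases eq_or_ne (B.relIndex A) p with e | e
    · exact hgen B hBA e
    · obtain ⟨B0, hB0A, hB0i⟩ := hB0
      have hd : B.relIndex A ∣ Nat.card A := Subgroup.relIndex_dvd_card B A
      obtain ⟨n, hn⟩ := IsPGroup.iff_card.1 (Cfsg.Lib.Sig.isPGroup_of_elem hA)
      rw [hn] at hd
      obtain ⟨i, -, hi⟩ := (Nat.dvd_prime_pow Fact.out).1 hd
      have hi0 : B.relIndex A = 1 := by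
        rcases i with _ | _ | i
        · simpa using hi
        · simp at hi; exact absurd hi e
        · exfalso
          rw [hi] at hBi
          have : p ^ 1 < p ^ (i + 1 + 1) := Nat.pow_lt_pow_right (Fact.out : p.Prime).one_lt (by omega)
          rw [pow_one] at this
          omega
      have hAB : A ≤ B := Subgroup.relIndex_eq_one.1 hi0
      exact le_trans (inf_le_inf_left _ (Subgroup.centralizer_le (show (B0 : Set H) ⊆ B from hB0A.trans hAB)))
        (hgen B0 hB0A hB0i)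
  haveI : Group.IsSolvable (↥K ⧸ W) := by
    haveI := hKs
    exact Group.isSolvable_of_surjective hf
  intro u hu
  refine ⟨⟨u, hU hu⟩, ?_, rfl⟩
  have hfu : f ⟨u, hU hu⟩ ∈ Subgroup.centralizer (Cfsg.pCore q (↥K ⧸ W) : Set (↥K ⧸ W)) := by
    refine Subgroup.mem_centralizer_iff.2 fun y hy => ?_
    obtain ⟨l, rfl⟩ := hf y
    obtain ⟨l', hl', he⟩ := hXR ⟨l, hy, rfl⟩
    rw [Subtype.ext he] at hl'
    exact (Subgroup.mem_centralizer_iff.1 hl' _ ⟨⟨u, hU hu⟩, hu, rfl⟩).symm
  have hV := Cfsg.Lib.Solv.centralizer_pCore_le q (Cfsg.Lib.Solv.pPrimeCore_quotient_eq_bot q) hfu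
  obtain ⟨k, hk⟩ := Cfsg.Lib.Solv.isPGroup_pCore (G := ↥K ⧸ W) q ⟨_, hV⟩
  refine (QuotientGroup.eq_one_iff _).1 (orderOf_eq_one_iff.1 ?_)
  refine Nat.eq_one_of_dvd_coprimes (((Fact.out : q.Prime).coprime_iff_not_dvd.2 hUq).pow_left k)
    (orderOf_dvd_of_pow_eq_one (congrArg Subtype.val hk)) ?_
  refine (orderOf_map_dvd f _).trans ?_
  rw [← Subgroup.orderOf_coe]
  exact Subgroup.orderOf_dvd_natCard U hu

end Cfsg.Agent.S1288
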