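import Cfsg.Statements.S1289
import Mathlib
import Cfsg.Agent.Lib.Comp.PLayer
-- import your own Cfsg.Agent.* helpers here

set_option autoImplicit false
open Cfsg

namespace Cfsg.Agent.S1289

/-- A p-component K of the finite group X is subnormal, perfect, of order divisible by p, and minimal among the subnormal perfect subgroups of X of order divisible by p. -/
theorem result {X : Type*} [Group X] [Finite X] (p : ℕ) [Fact p.Prime] (K : Subgroup X) (hK : Cfsg.IsPComponent p K) : K.IsSubnormal ∧ ⁅K, K⁆ = K ∧ p ∣ Nat.card ↥K ∧ ∀ H : Subgroup X, H ≤ K → H.IsSubnormal → ⁅H, H⁆ = H → p ∣ Nat.card ↥H → H = K := by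
  refine ⟨hK.1, Cfsg.Lib.Comp.pComponent_perfect hK, ?_, ?_⟩
  · by_contra h
    exact Cfsg.Lib.Comp.pComponent_not_le_core hK (Cfsg.Lib.Comp.le_pPrimeCore_of_subnormal hK.1
      (Nat.coprime_comm.1 ((Fact.out : p.Prime).coprime_iff_not_dvd.2 h)))
  · intro H hle hH hperf hdvd
    set q := QuotientGroup.mk' (Cfsg.pPrimeCore p X) with hq
    have hle' := Subgroup.map_mono (f := q) hle
    have hsn : ((H.map q).subgroupOf (K.map q)).IsSubnormal :=
      (hH.map (QuotientGroup.mk'_surjective _)).subgroupOf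
    rcases Cfsg.Lib.Comp.isQuasisimple_subnormal hK.2.1.2 hsn with h | h
    · exact hK.2.2 H hH hle (le_antisymm hle' (Subgroup.subgroupOf_eq_top.1 h))
    · exfalso
      have hb : H.map q = ⊥ := by
        rw [← hperf, Subgroup.map_commutator, Subgroup.commutator_eq_bot_iff_le_centralizer]
        intro x hx
        rw [Subgroup.mem_centralizer_iff]
        intro y hy
        exact congrArg Subtype.val (Subgroup.mem_center_iff.1
          (h (show (⟨x, hle' hx⟩ : ↥(K.map q)) ∈ (H.map q).subgroupOf (K.map q) from hx)) ⟨y, hle' hy⟩)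
      rw [Subgroup.map_eq_bot_iff, QuotientGroup.ker_mk'] at hb
      exact Cfsg.Lib.Solv.not_dvd_card_pPrimeCore p (hdvd.trans (Subgroup.card_dvd_of_le hb))

end Cfsg.Agent.S1289
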