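import Cfsg.Statements.S1297
import Cfsg.Agent.Lib.Comp.LocalKBalance
-- import your own Cfsg.Agent.* helpers here

set_option autoImplicit false
open Cfsg

namespace Cfsg.Agent.S1297

/-- Let G be finite. Suppose that for every involution x, writing C = C_G(x), every component K of C / O(C) has K / Z(K) locally balanced. Then G is balanced. -/
theorem result {G : Type*} [Group G] [Finite G] (h : ∀ x : G, orderOf x = 2 → ∀ K : Subgroup (↥(Subgroup.centralizer ({x} : Set G)) ⧸ Cfsg.oddCore ↥(Subgroup.centralizer ({x} : Set G))), Cfsg.IsComponent K → Cfsg.IsLocallyBalanced (↥K ⧸ Subgroup.center ↥K)) : Cfsg.IsBalanced G := by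
  have hk : Cfsg.IsKBalanced 2 1 G := Cfsg.Lib.Comp.KBalance.isKBalanced_of 1 le_rfl fun x hx K hK H hH A hA hc => by
    obtain ⟨⟨y, hyA⟩, hy1⟩ := A.ne_bot_iff_exists_ne_one.1 (fun h => by rw [h, Subgroup.card_bot] at hc; omega)
    rw [eq_bot_iff]
    have h0 := h x hx K hK H hH y (orderOf_eq_prime (hA.2 y hyA) fun h => hy1 (Subtype.ext h))
    exact (iInf_le (fun a : {a // a ∈ A ∧ a ≠ 1} => Cfsg.centralizerPPrimeCore 2 (a : ↥H))
      ⟨y, hyA, fun h => hy1 (Subtype.ext h)⟩).trans h0.le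
  intro x y hx hy hxy
  have key : ∀ u v : G, orderOf u = 2 → orderOf v = 2 → u * v = v * u →
      Cfsg.centralizerPPrimeCore 2 u ⊓ Subgroup.centralizer {v} ≤
        Cfsg.centralizerPPrimeCore 2 v ⊓ Subgroup.centralizer {u} := by
    intro u v hu hv huv w hw
    have hu2 : u ^ 2 = 1 := hu ▸ pow_orderOf_eq_one u
    have hZ : Cfsg.IsElementaryAbelian 2 (Subgroup.zpowers u) := by
      refine ⟨Subgroup.zpowers_isMulCommutative u, ?_⟩
      rintro _ ⟨i, rfl⟩
      show (u ^ i) ^ 2 = 1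
      rw [← zpow_natCast (u ^ i), ← zpow_mul, mul_comm, zpow_mul, zpow_natCast, hu2, one_zpow]
    refine ⟨hk (Subgroup.zpowers u) hZ (by rw [Nat.card_zpowers, hu, pow_one]) v hv ?_ ⟨?_, hw.2⟩,
      (Subgroup.map_subtype_le _) hw.1⟩
    · rintro _ ⟨i, rfl⟩
      exact ((show Commute u v from huv).zpow_left i).eq
    · refine Subgroup.mem_iInf.2 fun ⟨a, ha, ha1⟩ => ?_
      obtain ⟨i, rfl⟩ := ha
      rcases Int.even_or_odd' i with ⟨m, rfl | rfl⟩
      · exact absurd (show u ^ (2 * m) = 1 by rw [zpow_mul, zpow_ofNat, hu2, one_zpow]) ha1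
      · show w ∈ Cfsg.centralizerPPrimeCore 2 (u ^ (2 * m + 1))
        rw [show u ^ (2 * m + 1) = u by rw [zpow_add, zpow_one, zpow_mul, zpow_ofNat, hu2, one_zpow, one_mul]]
        exact hw.1
  exact le_antisymm (key x y hx hy hxy) (key y x hy hx hxy.symm)

end Cfsg.Agent.S1297
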