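import Cfsg.Statements.S1300
import Mathlib
-- import your own Cfsg.Agent.* helpers here

set_option autoImplicit false
open Cfsg

namespace Cfsg.Agent.S1300

/-- For a finite group G, balance in the sense of commuting involutions is the same as 1-balance for the prime 2. -/
theorem result {G : Type*} [Group G] [Finite G] : Cfsg.IsBalanced G ↔ Cfsg.IsKBalanced 2 1 G := by
  have hle : ∀ x : G, Cfsg.centralizerPPrimeCore 2 x ≤ Subgroup.centralizer ({x} : Set G) :=
    fun x => Subgroup.map_subtype_le _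
  have hA : ∀ x : G, orderOf x = 2 →
      Cfsg.IsElementaryAbelian 2 (Subgroup.zpowers x) ∧ Nat.card ↥(Subgroup.zpowers x) = 2 ^ 1 ∧
      Cfsg.signalizerDelta 2 (Subgroup.zpowers x) = Cfsg.centralizerPPrimeCore 2 x := by
    intro x hx
    have hmem : ∀ a ∈ Subgroup.zpowers x, a = 1 ∨ a = x := by
      intro a ha
      obtain ⟨n, rfl⟩ := Subgroup.mem_zpowers_iff.1 ha
      have hsq : x ^ (2 : ℤ) = 1 := by
        rw [zpow_ofNat, ← hx, pow_orderOf_eq_one]
      rcases Int.even_or_odd n with ⟨m, rfl⟩ | ⟨m, rfl⟩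
      · left; rw [← two_mul, zpow_mul, hsq, one_zpow]
      · right; rw [zpow_add, zpow_mul, hsq, one_zpow, one_mul, zpow_one]
    have hne : x ≠ 1 := fun h => by simp [h] at hx
    refine ⟨⟨inferInstance, fun a ha => ?_⟩, by rw [Nat.card_zpowers, hx, pow_one], ?_⟩
    · rcases hmem a ha with rfl | rfl
      · simp
      · rw [← hx, pow_orderOf_eq_one]
    · refine le_antisymm (iInf_le_of_le ⟨x, Subgroup.mem_zpowers x, hne⟩ le_rfl) (le_iInf ?_)
      rintro ⟨a, ha, ha1⟩
      rcases hmem a ha with rfl | rfl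
      · exact absurd rfl ha1
      · exact le_rfl
  constructor
  · intro h A hA' hcard b hb hcomm
    obtain ⟨⟨x, hx⟩, hxne⟩ : ∃ x : A, x ≠ 1 := by
      have : Nontrivial A := Finite.one_lt_card_iff_nontrivial.1 (by rw [hcard]; norm_num)
      exact exists_ne 1
    have hx2 : orderOf x = 2 := orderOf_eq_prime (hA'.2 x hx) (fun h => hxne (Subtype.ext h))
    have hAeq : Subgroup.zpowers x = A := Subgroup.eq_of_le_of_card_ge (by simpa using hx)
      (by rw [Nat.card_zpowers, hx2, hcard]; norm_num)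
    rw [← hAeq, (hA x hx2).2.2, h x b hx2 hb (hcomm x hx)]
    exact inf_le_left
  · intro h x y hx hy hxy
    have key : ∀ x y : G, orderOf x = 2 → orderOf y = 2 → x * y = y * x →
        Cfsg.centralizerPPrimeCore 2 x ⊓ Subgroup.centralizer {y} ≤
          Cfsg.centralizerPPrimeCore 2 y ⊓ Subgroup.centralizer {x} := by
      intro x y hx hy hxy
      obtain ⟨h1, h2, h3⟩ := hA x hx
      refine le_inf ?_ (inf_le_left.trans (hle x))
      rw [← h3]
      refine h _ h1 h2 y hy fun a ha => ?_
      obtain ⟨n, rfl⟩ := Subgroup.mem_zpowers_iff.1 ha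
      exact (Commute.zpow_left hxy n).eq
    exact le_antisymm (key x y hx hy hxy) (key y x hy hx hxy.symm)

end Cfsg.Agent.S1300
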