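import Cfsg.Statements.S1303
import Mathlib
import Cfsg.Agent.Lib.Solv.Cores
import Cfsg.Agent.Lib.Transfer.Basic
-- import your own Cfsg.Agent.* helpers here

set_option autoImplicit false
open Cfsg

namespace Cfsg.Agent.S1303

/-- The group X = SL(2, 3): it is 2-constrained, O_{2'}(X) = 1, its centre A = Z(X) contains every involution of X = C_X(A), and X has a subgroup of order 3 (normalized by A) not contained in O_{2'}(X). -/
theorem result : Cfsg.IsPConstrained 2 (Matrix.SpecialLinearGroup (Fin 2) (ZMod 3)) ∧ Cfsg.pPrimeCore 2 (Matrix.SpecialLinearGroup (Fin 2) (ZMod 3)) = ⊥ ∧ (∀ t : Matrix.SpecialLinearGroup (Fin 2) (ZMod 3), orderOf t = 2 → t ∈ Subgroup.center (Matrix.SpecialLinearGroup (Fin 2) (ZMod 3))) ∧ ∃ Q : Subgroup (Matrix.SpecialLinearGroup (Fin 2) (ZMod 3)), Nat.card ↥Q = 3 ∧ ¬ (Q ≤ Cfsg.pPrimeCore 2 (Matrix.SpecialLinearGroup (Fin 2) (ZMod 3))) := by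
  have : Fact (Nat.Prime 2) := ⟨Nat.prime_two⟩
  have : Fact (Nat.Prime 3) := ⟨Nat.prime_three⟩
  have hinv : ∀ t : Matrix.SpecialLinearGroup (Fin 2) (ZMod 3), t * t = 1 → ∀ g, g * t = t * g := by
    decide +kernel
  have hodd : ∀ g : Matrix.SpecialLinearGroup (Fin 2) (ZMod 3), g * g * g = 1 → g ≠ 1 →
      ∃ h, (g * (h * g * h⁻¹)) * (g * (h * g * h⁻¹)) * (g * (h * g * h⁻¹)) ≠ 1 := by
    decide +kernel
  have hcard : Nat.card (Matrix.SpecialLinearGroup (Fin 2) (ZMod 3)) = 24 := by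
    rw [Nat.card_eq_fintype_card]; decide +kernel
  have hcore : Cfsg.pPrimeCore 2 (Matrix.SpecialLinearGroup (Fin 2) (ZMod 3)) = ⊥ := by
    set N := Cfsg.pPrimeCore 2 (Matrix.SpecialLinearGroup (Fin 2) (ZMod 3)) with hN
    have hc : (Nat.card N).Coprime 2 := Cfsg.Lib.Solv.coprime_pPrimeCore 2
    have hd : Nat.card N ∣ 3 := by
      have h24 : Nat.card N ∣ 2 ^ 3 * 3 := by
        have := N.card_subgroup_dvd_card
        rwa [hcard] at this
      exact (hc.pow_right 3).dvd_of_dvd_mul_left h24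
    have h3 : ∀ g ∈ N, g * g * g = 1 := fun g hg => by
      have := orderOf_dvd_iff_pow_eq_one.1 ((Subgroup.orderOf_dvd_natCard N hg).trans hd)
      rwa [pow_succ, pow_two] at this
    refine (Subgroup.eq_bot_iff_forall _).2 fun g hg => ?_
    by_contra h1
    obtain ⟨h, hh⟩ := hodd g (h3 g hg) h1
    exact hh (h3 _ (mul_mem hg ((Cfsg.Lib.Transfer.pPrimeCore_normal 2).conj_mem g hg h)))
  refine ⟨?_, hcore, fun t ht => ?_, ?_⟩
  · intro P
    have hQ : ∀ x y : Matrix.SpecialLinearGroup (Fin 2) (ZMod 3), x ^ 4 = 1 → y ^ 4 = 1 →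
        (x * y) ^ 4 = 1 := by decide +kernel
    let Q : Subgroup (Matrix.SpecialLinearGroup (Fin 2) (ZMod 3)) :=
      { carrier := {x | x ^ 4 = 1}
        one_mem' := one_pow _
        mul_mem' := fun {x y} hx hy => hQ x y hx hy
        inv_mem' := fun {x} hx => by show x⁻¹ ^ 4 = 1; rw [inv_pow, show x ^ 4 = 1 from hx, inv_one] }
    have hQn : Q.Normal := ⟨fun x hx g => by
      show (g * x * g⁻¹) ^ 4 = 1
      rw [conj_pow, show x ^ 4 = 1 from hx, mul_one, mul_inv_cancel]⟩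
    have hQp : IsPGroup 2 Q := fun x => ⟨2, Subtype.ext x.2⟩
    have hQT : Q ≤ Cfsg.pPrimePCore 2 (Matrix.SpecialLinearGroup (Fin 2) (ZMod 3)) := by
      rw [Cfsg.pPrimePCore]
      refine Subgroup.map_le_iff_le_comap.1 (le_sSup ⟨?_, hQp.map _⟩)
      exact hQn.map _ (QuotientGroup.mk'_surjective _)
    have hQP : Q.subgroupOf (Cfsg.pPrimePCore 2 (Matrix.SpecialLinearGroup (Fin 2) (ZMod 3))) ≤ P := by
      obtain ⟨P', hP'⟩ := (hQp.comap_of_injective _ (Subgroup.subtype_injective _)).exists_le_sylow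
      obtain ⟨g, rfl⟩ := MulAction.exists_smul_eq
        ↥(Cfsg.pPrimePCore 2 (Matrix.SpecialLinearGroup (Fin 2) (ZMod 3))) P' P
      intro x hx
      rw [Sylow.coe_subgroup_smul, Subgroup.mem_pointwise_smul_iff_inv_smul_mem]
      refine hP' ?_
      have h := (inferInstance : (Q.subgroupOf _).Normal).conj_mem x hx g⁻¹
      simpa [MulAut.smul_def] using h
    intro x hx
    refine hQT ?_
    have hcomm : ∀ y : Matrix.SpecialLinearGroup (Fin 2) (ZMod 3), y ^ 4 = 1 → y * x = x * y :=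
      fun y hy => Subgroup.mem_centralizer_iff.1 hx y ⟨⟨y, hQT hy⟩, hQP hy, rfl⟩
    exact (show ∀ x : Matrix.SpecialLinearGroup (Fin 2) (ZMod 3), (∀ y, y ^ 4 = 1 → y * x = x * y) →
      x ^ 4 = 1 by decide +kernel) x hcomm
  · refine Subgroup.mem_center_iff.2 (hinv t ?_)
    rw [← sq]
    exact orderOf_dvd_iff_pow_eq_one.1 (dvd_of_eq ht)
  · obtain ⟨u, hu⟩ : ∃ u : Matrix.SpecialLinearGroup (Fin 2) (ZMod 3), u * u * u = 1 ∧ u ≠ 1 := by
      decide +kernel
    have ho : orderOf u = 3 := orderOf_eq_prime (by rw [pow_succ, pow_two]; exact hu.1) hu.2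
    refine ⟨Subgroup.zpowers u, by rw [Nat.card_zpowers, ho], fun h => hu.2 ?_⟩
    rw [hcore] at h
    exact Subgroup.mem_bot.1 (h (Subgroup.mem_zpowers u))

end Cfsg.Agent.S1303
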