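import Cfsg.Statements.S1306
import Mathlib
import Cfsg.Agent.Lib.Comp.Component
-- import your own Cfsg.Agent.* helpers here

set_option autoImplicit false
open Cfsg

namespace Cfsg.Agent.S1306

open Cfsg.Lib.Comp

variable {G : Type*} [Group G] [Finite G]

theorem centralizer_map_conj (L : Subgroup G) (g : G) :
    (Subgroup.centralizer (L : Set G)).map (MulAut.conj g).toMonoidHom =
      Subgroup.centralizer ((L.map (MulAut.conj g).toMonoidHom : Subgroup G) : Set G) := by
  ext x
  rw [Subgroup.mem_map_equiv, Subgroup.mem_centralizer_iff, Subgroup.mem_centralizer_iff]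
  constructor
  · rintro h _ ⟨l, hl, rfl⟩
    have := h l hl
    show g * l * g⁻¹ * x = x * (g * l * g⁻¹)
    rw [MulAut.conj_symm_apply] at this
    calc g * l * g⁻¹ * x = g * (l * (g⁻¹ * x * g)) * g⁻¹ := by group
      _ = g * (g⁻¹ * x * g * l) * g⁻¹ := by rw [this]
      _ = x * (g * l * g⁻¹) := by group
  · intro h l hl
    have := h _ ⟨l, hl, rfl⟩
    change g * l * g⁻¹ * x = x * (g * l * g⁻¹) at this
    rw [MulAut.conj_symm_apply]
    calc l * (g⁻¹ * x * g) = g⁻¹ * (g * l * g⁻¹ * x) * g := by group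
      _ = g⁻¹ * (x * (g * l * g⁻¹)) * g := by rw [this]
      _ = g⁻¹ * x * g * l := by group

theorem key (L : Subgroup G)
    (hne : ∀ y : G, orderOf y = 2 → y ∈ Subgroup.centralizer (L : Set G) →
      L ≤ Subgroup.centralizer ({y} : Set G) ∧
        Cfsg.IsComponent (L.subgroupOf (Subgroup.centralizer ({y} : Set G))))
    (hnc : ∀ g : G, L.map (MulAut.conj g).toMonoidHom ≠ L →
      ⁅L, L.map (MulAut.conj g).toMonoidHom⁆ ≠ ⊥) (g y : G) (hy : orderOf y = 2)
    (h1 : y ∈ Subgroup.centralizer (L : Set G))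
    (h2 : y ∈ (Subgroup.centralizer (L : Set G)).map (MulAut.conj g).toMonoidHom) :
    L.map (MulAut.conj g).toMonoidHom = L := by
  obtain ⟨w, hw, hwy⟩ := h2
  change g * w * g⁻¹ = y at hwy
  have hwo : orderOf w = 2 := by rw [← hy, ← hwy]; exact ((MulAut.conj g).orderOf_eq w).symm
  obtain ⟨hLy, hcy⟩ := hne y hy h1
  obtain ⟨hLw, hcw⟩ := hne w hwo hw
  have hmem : ∀ x ∈ Subgroup.centralizer ({w} : Set G),
      g * x * g⁻¹ ∈ Subgroup.centralizer ({y} : Set G) := by
    intro x hx
    rw [Subgroup.mem_centralizer_iff] at hx ⊢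
    intro a ha
    rw [Set.mem_singleton_iff.1 ha, ← hwy]
    have := hx w rfl
    calc g * w * g⁻¹ * (g * x * g⁻¹) = g * (w * x) * g⁻¹ := by group
      _ = g * (x * w) * g⁻¹ := by rw [this]
      _ = g * x * g⁻¹ * (g * w * g⁻¹) := by group
  have hmap : (Subgroup.centralizer ({w} : Set G)).map (MulAut.conj g).toMonoidHom =
      Subgroup.centralizer ({y} : Set G) := by
    refine le_antisymm (by rintro _ ⟨x, hx, rfl⟩; exact hmem x hx) fun x hx => ?_
    refine ⟨g⁻¹ * x * g, ?_, by simp [mul_assoc]⟩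
    rw [SetLike.mem_coe, Subgroup.mem_centralizer_iff] at *
    intro a ha
    rw [Set.mem_singleton_iff.1 ha]
    have := hx y rfl
    rw [← hwy] at this
    calc w * (g⁻¹ * x * g) = g⁻¹ * (g * w * g⁻¹ * x) * g := by group
      _ = g⁻¹ * (x * (g * w * g⁻¹)) * g := by rw [this]
      _ = g⁻¹ * x * g * w := by group
  let e : Subgroup.centralizer ({w} : Set G) ≃* Subgroup.centralizer ({y} : Set G) :=
    ((MulAut.conj g).subgroupMap _).trans (MulEquiv.subgroupCongr hmap)
  have hLgle : L.map (MulAut.conj g).toMonoidHom ≤ Subgroup.centralizer ({y} : Set G) :=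
    hmap ▸ Subgroup.map_mono hLw
  have hcg : Cfsg.IsComponent ((L.map (MulAut.conj g).toMonoidHom).subgroupOf
      (Subgroup.centralizer ({y} : Set G))) := by
    have heq : (L.map (MulAut.conj g).toMonoidHom).subgroupOf
        (Subgroup.centralizer ({y} : Set G)) =
        (L.subgroupOf (Subgroup.centralizer ({w} : Set G))).map e.toMonoidHom := by
      refine Subgroup.map_injective (Subgroup.subtype_injective _) ?_
      rw [map_subtype_eq_of_le hLgle, Subgroup.map_map]
      have : (Subgroup.centralizer ({y} : Set G)).subtype.comp e.toMonoidHom =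
          (MulAut.conj g).toMonoidHom.comp (Subgroup.centralizer ({w} : Set G)).subtype := rfl
      rw [this, ← Subgroup.map_map, map_subtype_eq_of_le hLw]
    rw [heq]
    exact component_map_equiv e hcw
  by_contra hne'
  refine hnc g hne' ((commutator_subgroupOf_eq_bot_iff hLy hLgle).1
    (component_commute hcy hcg fun heq => hne' ?_))
  have := congrArg (Subgroup.map (Subgroup.centralizer ({y} : Set G)).subtype) heq
  rw [map_subtype_eq_of_le hLy, map_subtype_eq_of_le hLgle] at this
  exact this.symm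


/-- Let G be finite, x an involution and L ≤ C_G(x) a component of C_G(x). Suppose L is a component of C_G(y) for every involution y ∈ C_G(L), and ⁅L, g L g⁻¹⁆ ≠ 1 whenever g L g⁻¹ ≠ L. Then L is a standard subgroup of G. -/
theorem result {G : Type*} [Group G] [Finite G] (x : G) (hx : orderOf x = 2) (L : Subgroup G) (hLx : L ≤ Subgroup.centralizer ({x} : Set G)) (hL : Cfsg.IsComponent (L.subgroupOf (Subgroup.centralizer ({x} : Set G)))) (hne : ∀ y : G, orderOf y = 2 → y ∈ Subgroup.centralizer (L : Set G) → L ≤ Subgroup.centralizer ({y} : Set G) ∧ Cfsg.IsComponent (L.subgroupOf (Subgroup.centralizer ({y} : Set G)))) (hnc : ∀ g : G, L.map (MulAut.conj g).toMonoidHom ≠ L → ⁅L, L.map (MulAut.conj g).toMonoidHom⁆ ≠ ⊥) : Cfsg.IsStandardSubgroup L := by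
  have hq : Cfsg.IsQuasisimple L :=
    (Cfsg.Lib.Comp.isQuasisimple_congr (Subgroup.subgroupOfEquivOfLe hLx)).1 hL.2
  have hxK : x ∈ Subgroup.centralizer (L : Set G) := by
    rw [Subgroup.mem_centralizer_iff]
    intro l hl
    exact (Subgroup.mem_centralizer_iff.1 (hLx hl) x rfl).symm
  have hN : ∀ g : G, L.map (MulAut.conj g).toMonoidHom = L →
      g ∈ Subgroup.normalizer (L : Set G) := by
    intro g hg
    rw [Subgroup.mem_normalizer_iff]
    intro n
    conv_rhs => rw [← hg]
    constructor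
    · exact fun hn => ⟨n, hn, rfl⟩
    · rintro ⟨m, hm, he⟩
      have : m = n := (MulAut.conj g).injective he
      exact this ▸ hm
  have hle : Subgroup.normalizer (L : Set G) ≤
      Subgroup.normalizer (Subgroup.centralizer (L : Set G) : Set G) := by
    intro g hg
    rw [Subgroup.mem_normalizer_iff]
    intro n
    have hLg : L.map (MulAut.conj g).toMonoidHom = L := by
      ext a
      rw [Subgroup.mem_map_equiv, MulAut.conj_symm_apply, Subgroup.mem_normalizer_iff.1 hg]
      simp [mul_assoc]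
    have hC := centralizer_map_conj L g
    rw [hLg] at hC
    constructor
    · intro hn
      rw [← hC]
      exact ⟨n, hn, rfl⟩
    · intro hn
      rw [← hC] at hn
      obtain ⟨m, hm, he⟩ := hn
      have : m = n := (MulAut.conj g).injective he
      exact this ▸ hm
  refine ⟨hq, ⟨?_, ?_⟩, hnc, le_antisymm hle ?_⟩
  · rw [even_iff_two_dvd, ← hx, ← Subgroup.orderOf_mk _ hxK]
    exact orderOf_dvd_natCard _
  · intro g hg
    rw [← Nat.not_even_iff_odd]
    intro hev
    obtain ⟨y, hy⟩ := exists_prime_orderOf_dvd_card' 2 hev.two_dvd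
    obtain ⟨h1, h2⟩ := Subgroup.mem_inf.1 y.2
    exact hg (hle (hN g (key L hne hnc g y (by rw [Subgroup.orderOf_coe]; exact hy) h1 h2)))
  · intro g hg
    refine hN g (key L hne hnc g (g * x * g⁻¹) ?_ ((Subgroup.mem_normalizer_iff.1 hg x).1 hxK)
      ⟨x, hxK, rfl⟩)
    rw [← hx]; exact (MulAut.conj g).orderOf_eq x

end Cfsg.Agent.S1306
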