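import Cfsg.Statements.S1314
import Mathlib
import Cfsg.Agent.Lib.Comp.Component
-- import your own Cfsg.Agent.* helpers here

set_option autoImplicit false
open Cfsg

namespace Cfsg.Agent.S1314

/-- Let x be an involution of a group G and L a perfect subgroup with ⁅L, x L x⁻¹⁆ = 1. Then l ↦ l (x l x⁻¹) is a group homomorphism π from L to G whose kernel is central in L and whose image lies in C_G(x); and the commutator subgroup of C_{L ⊔ xLx⁻¹}(x) equals the image of π. -/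
theorem result {G : Type*} [Group G] [Finite G] (x : G) (hx : orderOf x = 2) (L : Subgroup G) (hperf : ⁅L, L⁆ = L) (hcomm : ⁅L, L.map (MulAut.conj x).toMonoidHom⁆ = ⊥) : ∃ π : ↥L →* G, (∀ l : ↥L, π l = (l : G) * (x * (l : G) * x⁻¹)) ∧ π.ker ≤ Subgroup.center ↥L ∧ π.range ≤ Subgroup.centralizer ({x} : Set G) ∧ ⁅(L ⊔ L.map (MulAut.conj x).toMonoidHom) ⊓ Subgroup.centralizer ({x} : Set G), (L ⊔ L.map (MulAut.conj x).toMonoidHom) ⊓ Subgroup.centralizer ({x} : Set G)⁆ = π.range := by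
  set L' := L.map (MulAut.conj x).toMonoidHom with hL'
  have hx2 : x * x = 1 := by rw [← pow_two, ← hx, pow_orderOf_eq_one]
  have hxi : x⁻¹ = x := inv_eq_of_mul_eq_one_left hx2
  have hc : ∀ a ∈ L, ∀ b ∈ L, Commute a (x * b * x⁻¹) := fun a ha b hb =>
    ((Subgroup.mem_centralizer_iff.1 (Subgroup.commutator_eq_bot_iff_le_centralizer.1 hcomm ha))
      _ ⟨b, hb, rfl⟩).symm
  let π : ↥L →* G :=
    { toFun := fun l => (l : G) * (x * (l : G) * x⁻¹)
      map_one' := by simp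
      map_mul' := fun a b => by
        calc (a : G) * b * (x * ((a : G) * b) * x⁻¹)
            = (a : G) * ((b : G) * (x * a * x⁻¹)) * (x * b * x⁻¹) := by group
          _ = (a : G) * ((x * a * x⁻¹) * b) * (x * b * x⁻¹) := by rw [(hc b b.2 a a.2).eq]
          _ = (a : G) * (x * a * x⁻¹) * ((b : G) * (x * b * x⁻¹)) := by group }
  have hπx : ∀ l : ↥L, π l * x = x * π l := fun l => by
    show (l : G) * (x * l * x⁻¹) * x = x * ((l : G) * (x * l * x⁻¹))
    have e := (hc l l.2 l l.2).eq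
    rw [hxi] at e ⊢
    calc (l : G) * (x * l * x) * x = (l : G) * x * l * (x * x) := by simp only [mul_assoc]
      _ = (x * x) * ((l : G) * x * l) := by rw [hx2, one_mul, mul_one]
      _ = x * ((x * l * x) * l) := by simp only [mul_assoc]
      _ = x * ((l : G) * (x * l * x)) := by rw [← e]
  have hr : π.range ≤ Subgroup.centralizer ({x} : Set G) := by
    rintro _ ⟨l, rfl⟩
    exact Subgroup.mem_centralizer_singleton_iff.2 (hπx l)
  refine ⟨π, fun l => rfl, ?_, hr, ?_⟩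
  · intro l hl
    have hl' : (l : G) = (x * l * x⁻¹)⁻¹ := eq_inv_of_mul_eq_one_left (MonoidHom.mem_ker.1 hl)
    refine Subgroup.mem_center_iff.2 fun m => Subtype.ext ?_
    show (m : G) * l = l * m
    rw [hl']
    exact ((hc m m.2 l l.2).inv_right).eq
  set C := (L ⊔ L') ⊓ Subgroup.centralizer ({x} : Set G) with hC
  have hRperf : ⁅π.range, π.range⁆ = π.range := by
    have h1 : π.range = (⊤ : Subgroup ↥L).map π := MonoidHom.range_eq_map π
    have h2 : ⁅(⊤ : Subgroup ↥L), (⊤ : Subgroup ↥L)⁆ = ⊤ := by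
      refine Subgroup.map_injective L.subtype_injective ?_
      rw [Subgroup.map_commutator, ← MonoidHom.range_eq_map, Subgroup.range_subtype, hperf]
    rw [h1, ← Subgroup.map_commutator, h2]
  have hRC : π.range ≤ C := le_inf (by
    rintro _ ⟨l, rfl⟩
    exact Subgroup.mul_mem_sup l.2 ⟨(l : G), l.2, rfl⟩) hr
  have hLn : L ≤ Subgroup.centralizer (L' : Set G) :=
    Subgroup.commutator_eq_bot_iff_le_centralizer.1 hcomm
  refine le_antisymm ?_ (hRperf.ge.trans (Subgroup.commutator_mono hRC hRC))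
  have hdec : ∀ w ∈ C, ∃ l : ↥L, ∃ z : G, w = π l * z ∧
      z ∈ Subgroup.centralizer ((L ⊔ L' : Subgroup G) : Set G) := by
    rintro w ⟨hw', hwx⟩
    have hw : w ∈ ((L ⊔ L' : Subgroup G) : Set G) := hw'
    rw [Subgroup.coe_mul_of_left_le_normalizer_right _ _
      (hLn.trans (Subgroup.centralizer_le_normalizer _))] at hw
    obtain ⟨a, ha, _, ⟨b, hb, rfl⟩, rfl⟩ := hw
    change a * (x * b * x⁻¹) ∈ Subgroup.centralizer ({x} : Set G) at hwx
    have hwx' := Subgroup.mem_centralizer_singleton_iff.1 hwx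
    have e1 : a * (x * b * x⁻¹) = b * (x * a * x⁻¹) := by
      calc a * (x * b * x⁻¹) = x * (a * (x * b * x⁻¹)) * x⁻¹ := by
            rw [← hwx', mul_inv_cancel_right]
        _ = (x * a * x⁻¹) * b := by
            rw [hxi]
            simp only [mul_assoc]
            rw [hx2, mul_one]
        _ = b * (x * a * x⁻¹) := (hc b hb a ha).eq.symm
    have e2 : b⁻¹ * a = x * (a * b⁻¹) * x⁻¹ := by
      calc b⁻¹ * a = b⁻¹ * (a * (x * b * x⁻¹)) * (x * b⁻¹ * x⁻¹) := by group
        _ = b⁻¹ * (b * (x * a * x⁻¹)) * (x * b⁻¹ * x⁻¹) := by rw [e1]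
        _ = x * (a * b⁻¹) * x⁻¹ := by group
    have hzL : b⁻¹ * a ∈ L := mul_mem (inv_mem hb) ha
    have hzL' : b⁻¹ * a ∈ L' := e2 ▸ ⟨a * b⁻¹, mul_mem ha (inv_mem hb), rfl⟩
    refine ⟨⟨b, hb⟩, b⁻¹ * a, ?_, ?_⟩
    · show a * (x * b * x⁻¹) = b * (x * b * x⁻¹) * (b⁻¹ * a)
      rw [mul_assoc b (x * b * x⁻¹), ← (hc _ hzL b hb).eq]
      group
    · refine (Subgroup.le_centralizer_iff (K := Subgroup.zpowers (b⁻¹ * a))).1 (sup_le ?_ ?_)
        (Subgroup.mem_zpowers _)
      · rw [Subgroup.le_centralizer_iff, Subgroup.zpowers_le]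
        exact Subgroup.le_centralizer_iff.1 hLn hzL'
      · rw [Subgroup.le_centralizer_iff, Subgroup.zpowers_le]
        exact hLn hzL
  rw [Subgroup.commutator_le]
  intro g hg h hh
  obtain ⟨l, z, rfl, hz⟩ := hdec g hg
  obtain ⟨m, z', rfl, hz'⟩ := hdec h hh
  have hP : ∀ n : ↥L, π n ∈ L ⊔ L' := fun n => (hRC ⟨n, rfl⟩).1
  have hzl : Commute z (π l) := (Subgroup.mem_centralizer_iff.1 hz _ (hP l)).symm
  have hzm : Commute z (π m) := (Subgroup.mem_centralizer_iff.1 hz _ (hP m)).symm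
  have hz'l : Commute z' (π l) := (Subgroup.mem_centralizer_iff.1 hz' _ (hP l)).symm
  have hz'm : Commute z' (π m) := (Subgroup.mem_centralizer_iff.1 hz' _ (hP m)).symm
  have hzz : Commute z z' := by
    have hm : π l * z ∈ L ⊔ L' := hg.1
    have hz1 : z ∈ L ⊔ L' := by
      have := mul_mem (inv_mem (hP l)) hm
      rwa [inv_mul_cancel_left] at this
    exact Subgroup.mem_centralizer_iff.1 hz' z hz1
  have : π l * z * (π m * z') * (π l * z)⁻¹ * (π m * z')⁻¹ = π l * π m * (π l)⁻¹ * (π m)⁻¹ := by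
    rw [mul_inv_rev, mul_inv_rev]
    calc π l * z * (π m * z') * (z⁻¹ * (π l)⁻¹) * (z'⁻¹ * (π m)⁻¹)
        = π l * ((z * π m) * z' * z⁻¹) * (π l)⁻¹ * z'⁻¹ * (π m)⁻¹ := by simp only [mul_assoc]
      _ = π l * (π m * z') * (π l)⁻¹ * z'⁻¹ * (π m)⁻¹ := by
          rw [hzm.eq, mul_assoc (π m) z z', hzz.eq]
          simp only [mul_assoc, mul_inv_cancel_left, mul_inv_cancel, mul_one]
      _ = π l * π m * (π l)⁻¹ * (π m)⁻¹ := by
          rw [mul_assoc (π l), mul_assoc (π m), hz'l.inv_right.eq]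
          simp only [mul_assoc, mul_inv_cancel_left]
  rw [commutatorElement_def, this]
  exact ⟨l * m * l⁻¹ * m⁻¹, by simp only [map_mul, map_inv]⟩

end Cfsg.Agent.S1314
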