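import Cfsg.Statements.S1316
import Mathlib
import Cfsg.Agent.Lib.Comp.FStar
-- import your own Cfsg.Agent.* helpers here

set_option autoImplicit false
open Cfsg

namespace Cfsg.Agent.S1316

/-- For a finite group X, E(X) equals the intersection of the derived series of F*(X) (its last term). -/
theorem result {X : Type*} [Group X] [Finite X] : (⨅ n : ℕ, (derivedSeries ↥(Cfsg.generalizedFittingSubgroup X) n).map (Cfsg.generalizedFittingSubgroup X).subtype) = Cfsg.layer X := by
  set Fs := Cfsg.generalizedFittingSubgroup X with hFs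
  refine le_antisymm ?_ (le_iInf fun n => ?_)
  · set q := QuotientGroup.mk' (Cfsg.layer X) with hq
    have hmap : Fs.map q = (Cfsg.fittingSubgroup X).map q := by
      rw [hFs, Cfsg.generalizedFittingSubgroup, Subgroup.map_sup,
        (Subgroup.map_eq_bot_iff (Cfsg.layer X)).2 (QuotientGroup.ker_mk' (Cfsg.layer X)).ge, bot_sup_eq]
    have hs : Group.IsSolvable ↥(Fs.map q) := by
      rw [hmap]
      exact Cfsg.Lib.Solv.solvable_map q Cfsg.Lib.Comp.fitting_solvable
    obtain ⟨n, hn⟩ := (Group.isSolvable_def (G := ↥(Fs.map q))).1 hs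
    refine iInf_le_of_le n ?_
    rintro _ ⟨x, hx, rfl⟩
    have h1 := map_derivedSeries_le_derivedSeries (q.subgroupMap Fs) n (Subgroup.mem_map_of_mem _ hx)
    rw [hn, Subgroup.mem_bot] at h1
    exact (QuotientGroup.eq_one_iff (x : X)).1 (congrArg Subtype.val h1)
  · induction n with
    | zero =>
      rw [derivedSeries_zero, ← MonoidHom.range_eq_map, Subgroup.range_subtype]
      exact Cfsg.Lib.Comp.layer_le_fstar
    | succ n ih =>
      rw [derivedSeries_succ, Subgroup.map_commutator, ← Cfsg.Lib.Comp.layer_perfect]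
      exact Subgroup.commutator_mono ih ih

end Cfsg.Agent.S1316
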