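import Cfsg.Statements.S1317
import Mathlib
import Cfsg.Agent.Lib.Comp.Layer
-- import your own Cfsg.Agent.* helpers here

set_option autoImplicit false
open Cfsg

namespace Cfsg.Agent.S1317

/-- For a finite group X, the centre of the layer E(X) is F(X) ∩ E(X). -/
theorem result {X : Type*} [Group X] [Finite X] : (Subgroup.center ↥(Cfsg.layer X)).map (Cfsg.layer X).subtype = Cfsg.fittingSubgroup X ⊓ Cfsg.layer X := by
  rw [Cfsg.Lib.Comp.map_center_eq]
  refine le_antisymm (le_inf ?_ inf_le_left) ?_
  · have hn : (Cfsg.layer X ⊓ Subgroup.centralizer (Cfsg.layer X : Set X)).Normal := inferInstance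
    refine Cfsg.Lib.Solv.le_fitting hn (Cfsg.Lib.Solv.nilpotent_of_commutator_le_center ?_)
    intro x _
    rw [Subgroup.mem_center_iff]
    intro y
    exact Subtype.ext (Subgroup.mem_centralizer_iff.1 x.2.2 y y.2.1)
  · exact le_inf inf_le_right (inf_le_left.trans
      (Subgroup.le_centralizer_iff.1 Cfsg.Lib.Comp.layer_le_centralizer_fitting))

end Cfsg.Agent.S1317
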