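import Cfsg.Statements.S1318
import Mathlib
import Cfsg.Agent.Lib.Comp.Misc
-- import your own Cfsg.Agent.* helpers here

set_option autoImplicit false
open Cfsg

namespace Cfsg.Agent.S1318

/-- Let X be finite and S ≤ F*(X) a subgroup subnormal in F*(X). Then F(S) = F(X) ∩ S (inside X) and S = F(S)E(S). -/
theorem result {X : Type*} [Group X] [Finite X] (S : Subgroup X) (hS : S ≤ Cfsg.generalizedFittingSubgroup X) (hsn : (S.subgroupOf (Cfsg.generalizedFittingSubgroup X)).IsSubnormal) : (Cfsg.fittingSubgroup ↥S).map S.subtype = Cfsg.fittingSubgroup X ⊓ S ∧ Cfsg.fittingSubgroup ↥S ⊔ Cfsg.layer ↥S = ⊤ := by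
  have hsn' : S.IsSubnormal := by
    have h := hsn.trans' (inferInstance : (Cfsg.generalizedFittingSubgroup X).Normal).isSubnormal
    rwa [Cfsg.Lib.Comp.map_subtype_eq_of_le hS] at h
  have h := Cfsg.Lib.Comp.fstar_inf_eq hsn'
  rw [inf_eq_right.2 hS] at h
  refine ⟨le_antisymm ?_ (Cfsg.Lib.Comp.fitting_inf_le_of_subnormal S), ?_⟩
  · refine le_inf ?_ (Subgroup.map_subtype_le _)
    have := Cfsg.Lib.Solv.fitting_isNilpotent (G := ↥S)
    exact Cfsg.Lib.Solv.subnormal_nilpotent_le_fitting
      ((inferInstance : (Cfsg.fittingSubgroup ↥S).Normal).isSubnormal.trans' hsn')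
      (Group.nilpotent_of_mulEquiv
        (Subgroup.equivMapOfInjective (Cfsg.fittingSubgroup ↥S) S.subtype S.subtype_injective))
  · rw [sup_comm]
    refine Subgroup.map_injective S.subtype_injective ?_
    rw [← MonoidHom.range_eq_map, Subgroup.range_subtype]
    exact h.symm

end Cfsg.Agent.S1318
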