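import Cfsg.Statements.S1335
import Mathlib
import Cfsg.Agent.Lib.Solv.SchurZassenhaus
-- import your own Cfsg.Agent.* helpers here

set_option autoImplicit false
open Cfsg

namespace Cfsg.Agent.S1335

/-- Let H be a subgroup of the finite group G, p a prime, k ≥ 1, P a Sylow p-subgroup of H of p-rank at least k, and suppose N_G(X) ≤ H for every subgroup X ≤ P of p-rank at least k. Then P is a Sylow p-subgroup of G. -/
theorem result {G : Type*} [Group G] [Finite G] {p : ℕ} [Fact p.Prime] (k : ℕ) (hk : 1 ≤ k) (H : Subgroup G) (P : Sylow p ↥H) (hP : ¬ Cfsg.PRankLE p (k - 1) ↥(P : Subgroup ↥H)) (hΓ : (∀ X : Subgroup G, X ≤ (P : Subgroup ↥H).map H.subtype → ¬ Cfsg.PRankLE p (k - 1) ↥X → Subgroup.normalizer (X : Set G) ≤ H)) : ∃ Q : Sylow p G, (Q : Subgroup G) = (P : Subgroup ↥H).map H.subtype := by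
  set P' := (P : Subgroup ↥H).map H.subtype with hP'
  have hrank : ¬ Cfsg.PRankLE p (k - 1) ↥P' := by
    intro h
    refine hP fun A hA hpow => ?_
    let e := (P : Subgroup ↥H).equivMapOfInjective H.subtype H.subtype_injective
    haveI := hA
    rw [Nat.card_congr (A.equivMapOfInjective e.toMonoidHom e.injective).toEquiv]
    refine h (A.map e.toMonoidHom) (Subgroup.map_isMulCommutative A e.toMonoidHom) ?_
    rintro _ ⟨a, ha, rfl⟩
    rw [← map_pow, hpow a ha, map_one]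
  have hN := hΓ P' le_rfl hrank
  obtain ⟨Q, hQ⟩ := (P.isPGroup'.map H.subtype).exists_le_sylow
  refine ⟨Q, le_antisymm ?_ hQ⟩
  by_contra hle
  have hne : P'.subgroupOf (Q : Subgroup G) ≠ ⊤ := fun h => hle (Subgroup.subgroupOf_eq_top.1 h)
  obtain ⟨x, hxN, hxP⟩ := SetLike.exists_of_lt
    (@Group.normalizerCondition_of_isNilpotent _ _ Q.isPGroup'.isNilpotent _ (lt_top_iff_ne_top.2 hne))
  have hxn : (x : G) ∈ Subgroup.normalizer (P' : Set G) := by
    refine Subgroup.mem_normalizer_fintype ?_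
    intro t ht
    exact ((Subgroup.mem_normalizer_iff.1 hxN) ⟨t, hQ ht⟩).1 ht
  have hU : IsPGroup p ↥((P' ⊔ Subgroup.zpowers (x : G)).subgroupOf H) :=
    (Q.isPGroup'.to_le (sup_le hQ (Subgroup.zpowers_le.2 x.2))).comap_subtype
  have heq := P.is_maximal' hU (fun y hy => Subgroup.mem_sup_left ⟨y, hy, rfl⟩)
  apply hxP
  refine ⟨⟨x, hN hxn⟩, ?_, rfl⟩
  show (⟨(x : G), hN hxn⟩ : H) ∈ (P : Subgroup H)
  rw [← heq]
  exact Subgroup.mem_sup_right (Subgroup.mem_zpowers (x : G))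

end Cfsg.Agent.S1335
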