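import Cfsg.Statements.S1336
import Mathlib
import Cfsg.Agent.Lib.Invol.Isolated
-- import your own Cfsg.Agent.* helpers here

set_option autoImplicit false
open Cfsg

namespace Cfsg.Agent.S1336

/-- Let G be finite and p prime. Then G has a proper subgroup H with p ∣ |H| and p ∤ |H ∩ gHg⁻¹| for every g ∉ H (a strongly p-embedded subgroup) if and only if G is not 1-connected for p. -/
theorem result {G : Type*} [Group G] [Finite G] (p : ℕ) [Fact p.Prime] : (∃ H : Subgroup G, H ≠ ⊤ ∧ p ∣ Nat.card ↥H ∧ ∀ g : G, g ∉ H → ¬ p ∣ Nat.card ↥(H ⊓ H.map (MulAut.conj g).toMonoidHom)) ↔ ¬ Cfsg.IsKConnected p 1 G := by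
  set Q : Subgroup G → Subgroup G → Prop := fun A B => Cfsg.IsElementaryAbelian p A ∧
    p ^ 1 ≤ Nat.card ↥A ∧ Cfsg.IsElementaryAbelian p B ∧
    p ^ 1 ≤ Nat.card ↥B ∧ ∀ a ∈ A, ∀ b ∈ B, a * b = b * a with hQ
  have hsymm : ∀ {A B : Subgroup G}, Relation.ReflTransGen Q A B →
      Relation.ReflTransGen Q B A := by
    intro A B h
    induction h with
    | refl => exact Relation.ReflTransGen.refl
    | tail _ hbc ih =>
      obtain ⟨h1, h2, h3, h4, h5⟩ := hbc
      exact Relation.ReflTransGen.head ⟨h3, h4, h1, h2, fun a ha b hb => (h5 b hb a ha).symm⟩ ih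
  have hzel : ∀ {x : G}, orderOf x = p → Cfsg.IsElementaryAbelian p (Subgroup.zpowers x) ∧
      p ^ 1 ≤ Nat.card ↥(Subgroup.zpowers x) := fun {x} hx =>
    ⟨⟨inferInstance, fun a ha => orderOf_dvd_iff_pow_eq_one.1
      (hx ▸ orderOf_dvd_of_mem_zpowers ha)⟩, by rw [pow_one, Nat.card_zpowers, hx]⟩
  constructor
  · rintro ⟨H, hH, hpH, hodd⟩ hcon
    obtain ⟨x, hx⟩ := exists_prime_orderOf_dvd_card' (G := ↥H) p hpH
    have hxG : orderOf (x : G) = p := by rwa [Subgroup.orderOf_coe]
    have key : ∀ {a g : G}, a ∈ H → orderOf a = p → g * a * g⁻¹ ∈ H → g ∈ H := by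
      intro a g ha hap hga
      by_contra hg
      refine hodd g hg ?_
      have hmem : g * a * g⁻¹ ∈ H ⊓ H.map (MulAut.conj g).toMonoidHom := ⟨hga, ⟨a, ha, rfl⟩⟩
      have := Subgroup.orderOf_dvd_natCard _ hmem
      rwa [← MulAut.conj_apply, MulEquiv.orderOf_eq, hap] at this
    obtain ⟨g, hg⟩ : ∃ g, g ∉ H := by
      by_contra h
      push Not at h
      exact hH (eq_top_iff.2 fun g _ => h g)
    have hgx : orderOf (g * (x : G) * g⁻¹) = p := by
      rw [← MulAut.conj_apply, MulEquiv.orderOf_eq, hxG]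
    have hpath : Relation.ReflTransGen Q (Subgroup.zpowers (x : G))
        (Subgroup.zpowers (g * (x : G) * g⁻¹)) :=
      hcon _ _ (hzel hxG).1 (hzel hxG).2 (hzel hgx).1 (hzel hgx).2
    have hall : ∀ B, Relation.ReflTransGen Q (Subgroup.zpowers (x : G)) B → B ≤ H := by
      intro B hB
      induction hB with
      | refl => exact Subgroup.zpowers_le.2 x.2
      | @tail A B _ hAB ih =>
        obtain ⟨hA, hAc, -, -, hcomm⟩ := hAB
        intro b hb
        have hne : A ≠ ⊥ := by
          intro e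
          rw [e, Subgroup.card_bot, pow_one] at hAc
          exact absurd hAc (Fact.out : p.Prime).one_lt.not_ge
        obtain ⟨a, ha, ha1⟩ := A.ne_bot_iff_exists_ne_one.1 hne |>.elim fun a ha =>
          (⟨a.1, a.2, fun e => ha (Subtype.ext e)⟩ : ∃ a ∈ A, a ≠ 1)
        refine key (ih ha) (orderOf_eq_prime (hA.2 a ha) ha1) ?_
        rw [← hcomm a ha b hb, mul_inv_cancel_right]
        exact ih ha
    exact hg (key x.2 hxG (hall _ hpath (Subgroup.mem_zpowers _)))
  · intro hcon
    simp only [Cfsg.IsKConnected, not_forall] at hcon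
    obtain ⟨E, E', hE, hEc, hE', hE'c, hn⟩ := hcon
    have hpG : p ∣ Nat.card G := by
      have hEp : IsPGroup p ↥E := fun a => ⟨1, Subtype.ext (by simpa using hE.2 a.1 a.2)⟩
      obtain ⟨k, hk⟩ := hEp.exists_card_eq
      rw [hk, pow_one] at hEc
      rcases k with _ | k
      · exact absurd hEc (by simpa using (Fact.out : p.Prime).one_lt)
      · exact (hk ▸ dvd_pow_self p k.succ_ne_zero).trans (Subgroup.card_subgroup_dvd_card E)
    obtain ⟨P⟩ : Nonempty (Sylow p G) := inferInstance
    have hPne : Nontrivial ↥(P : Subgroup G) :=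
      (Subgroup.nontrivial_iff_ne_bot _).2 (P.ne_bot_of_dvd_card hpG)
    haveI := P.isPGroup'.center_nontrivial
    obtain ⟨u, hu⟩ := exists_prime_orderOf_dvd_card' (G := Subgroup.center ↥(P : Subgroup G)) p
      ((P.isPGroup'.to_subgroup (Subgroup.center _)).card_eq_or_dvd.resolve_left
        Finite.one_lt_card.ne')
    set z : G := ((u : ↥(P : Subgroup G)) : G) with hzdef
    have hz : orderOf z = p := by rw [hzdef, Subgroup.orderOf_coe, Subgroup.orderOf_coe]; exact hu
    have hPz : ∀ y ∈ (P : Subgroup G), Commute y z := fun y hy =>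
      congrArg Subtype.val (Subgroup.mem_center_iff.1 u.2 ⟨y, hy⟩)
    set Z := fun g : G => Subgroup.zpowers (g * z * g⁻¹) with hZ
    have hZg : ∀ g, orderOf (g * z * g⁻¹) = p := fun g => by
      rw [← MulAut.conj_apply, MulEquiv.orderOf_eq, hz]
    have htr : ∀ (g : G) {A B : Subgroup G}, Relation.ReflTransGen Q A B →
        Relation.ReflTransGen Q (A.map (MulAut.conj g).toMonoidHom)
          (B.map (MulAut.conj g).toMonoidHom) := by
      intro g A B h
      refine Relation.ReflTransGen.lift (fun C : Subgroup G => C.map (MulAut.conj g).toMonoidHom)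
        (fun C D hCD => ?_) _ _ h
      obtain ⟨h1, h2, h3, h4, h5⟩ := hCD
      have hel : ∀ C : Subgroup G, Cfsg.IsElementaryAbelian p C →
          Cfsg.IsElementaryAbelian p (C.map (MulAut.conj g).toMonoidHom) := by
        intro C hC
        refine ⟨⟨⟨?_⟩⟩, ?_⟩
        · rintro ⟨_, a, ha, rfl⟩ ⟨_, b, hb, rfl⟩
          have h := congrArg Subtype.val (hC.1.is_comm.comm ⟨a, ha⟩ ⟨b, hb⟩)
          refine Subtype.ext ?_
          simp only [Subgroup.coe_mul] at h ⊢
          rw [← map_mul, ← map_mul, h]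
        · rintro _ ⟨a, ha, rfl⟩
          rw [← map_pow, hC.2 a ha, map_one]
      have hcd : ∀ C : Subgroup G, Nat.card ↥(C.map (MulAut.conj g).toMonoidHom) = Nat.card ↥C :=
        fun C => Subgroup.card_map_of_injective (MulAut.conj g).injective
      refine ⟨hel C h1, (hcd C).symm ▸ h2, hel D h3, (hcd D).symm ▸ h4, ?_⟩
      rintro _ ⟨a, ha, rfl⟩ _ ⟨b, hb, rfl⟩
      rw [← map_mul, ← map_mul, h5 a ha b hb]
    have hZmap : ∀ g h, (Z h).map (MulAut.conj g).toMonoidHom = Z (g * h) := fun g h => by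
      simp only [hZ, MonoidHom.map_zpowers]
      congr 1
      show g * (h * z * h⁻¹) * g⁻¹ = _
      group
    -- every subgroup is linked to a conjugate of `⟨z⟩`
    have hlink : ∀ A : Subgroup G, Cfsg.IsElementaryAbelian p A → p ^ 1 ≤ Nat.card ↥A → ∀ g,
        (∀ a ∈ A, g⁻¹ * a * g ∈ (P : Subgroup G)) → Q A (Z g) := by
      intro A hA hAc g hg
      refine ⟨hA, hAc, (hzel (hZg g)).1, (hzel (hZg g)).2, fun a ha b hb => ?_⟩
      obtain ⟨i, rfl⟩ := Subgroup.mem_zpowers_iff.1 hb
      refine (Commute.zpow_right ?_ i).eq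
      show a * (g * z * g⁻¹) = g * z * g⁻¹ * a
      calc a * (g * z * g⁻¹) = g * (g⁻¹ * a * g * z) * g⁻¹ := by group
        _ = g * (z * (g⁻¹ * a * g)) * g⁻¹ := by rw [(hPz _ (hg a ha)).eq]
        _ = g * z * g⁻¹ * a := by group
    let H : Subgroup G :=
    { carrier := {g | Relation.ReflTransGen Q (Z 1) (Z g)}
      one_mem' := Relation.ReflTransGen.refl
      mul_mem' := fun {a b} ha hb => by
        have := htr a hb
        rw [hZmap, hZmap, mul_one] at this
        exact Relation.ReflTransGen.trans ha this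
      inv_mem' := fun {a} ha => by
        have := htr a⁻¹ ha
        rw [hZmap, hZmap, mul_one, inv_mul_cancel] at this
        exact hsymm this }
    have hcen : ∀ y : G, Commute y z → y ∈ H := fun y hy => by
      show Relation.ReflTransGen Q (Z 1) (Z y)
      simp only [hZ, hy.eq, mul_inv_cancel_right, one_mul, inv_one, mul_one]
      exact Relation.ReflTransGen.refl
    have hsyl : ∀ x : G, x ∈ H → orderOf x = p →
        Relation.ReflTransGen Q (Subgroup.zpowers x) (Z 1) := by
      intro x hx hxp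
      have hPH : (P : Subgroup G) ≤ H := fun y hy => hcen y (hPz y hy)
      have hp' : IsPGroup p ↥(Subgroup.zpowers (⟨x, hx⟩ : ↥H)) :=
        IsPGroup.of_card (n := 1) (by rw [Nat.card_zpowers, ← Subgroup.orderOf_coe, hxp, pow_one])
      obtain ⟨R, hR⟩ := hp'.exists_le_sylow
      obtain ⟨h, hh⟩ := MulAction.exists_smul_eq ↥H (P.subtype hPH) R
      refine (Relation.ReflTransGen.single (hlink _ (hzel hxp).1 (hzel hxp).2 (h : G) ?_)).trans
        (hsymm h.2)
      intro a ha
      obtain ⟨i, rfl⟩ := Subgroup.mem_zpowers_iff.1 ha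
      have hmem : (⟨x, hx⟩ : ↥H) ^ i ∈ (R : Subgroup ↥H) :=
        Subgroup.zpow_mem _ (hR (Subgroup.mem_zpowers _)) i
      rw [← hh, Sylow.coe_subgroup_smul] at hmem
      obtain ⟨v, hv, hve⟩ := hmem
      have hveq : (h : G) * (v : G) * (h : G)⁻¹ = x ^ i := congrArg Subtype.val hve
      rw [show (h : G)⁻¹ * x ^ i * (h : G) = (v : G) by rw [← hveq]; group]
      exact hv
    refine ⟨H, fun htop => hn ?_, ?_, fun g hg hdvd => hg ?_⟩
    · have hjoin : ∀ A : Subgroup G, Cfsg.IsElementaryAbelian p A → p ^ 1 ≤ Nat.card ↥A →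
          Relation.ReflTransGen Q A (Z 1) := by
        intro A hA hAc
        obtain ⟨g, hg⟩ := Cfsg.Lib.Invol.exists_conj_mem_sylow
          (H := A) (p := p) (fun a => ⟨1, Subtype.ext (by simpa using hA.2 a.1 a.2)⟩) P
        refine (Relation.ReflTransGen.single (hlink A hA hAc g⁻¹ fun a ha => ?_)).trans
          (hsymm (show g⁻¹ ∈ H from htop ▸ Subgroup.mem_top _))
        rw [inv_inv]
        exact hg a ha
      exact (hjoin E hE hEc).trans (hsymm (hjoin E' hE' hE'c))
    · exact hz ▸ Subgroup.orderOf_dvd_natCard H (hcen z (Commute.refl z))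
    · obtain ⟨x, hx⟩ := exists_prime_orderOf_dvd_card' p hdvd
      have hxG : orderOf (x : G) = p := by rwa [Subgroup.orderOf_coe]
      obtain ⟨r, hr, hrx⟩ := x.2.2
      have hrp : orderOf r = p := by
        rw [← hxG, ← hrx]
        exact (MulEquiv.orderOf_eq (MulAut.conj g) r).symm
      have h2 := htr g (hsyl r hr hrp)
      rw [hZmap, mul_one, MonoidHom.map_zpowers, hrx] at h2
      exact (hsymm (hsyl _ x.2.1 hxG)).trans h2

end Cfsg.Agent.S1336
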