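import Cfsg.Statements.S1337
import Cfsg.Agent.Lib.RankOne.HalfTransitive
import Cfsg.Agent.Lib.TwoFus.NormalFour
import Cfsg.Agent.Lib.Transfer.PGroupNormal
import Cfsg.Agent.Lib.Solv.SchurZassenhaus
-- import your own Cfsg.Agent.* helpers here

set_option autoImplicit false
open Cfsg

namespace Cfsg.Agent.S1337

open Subgroup

variable {P : Type*} [Group P] {p : ℕ}

theorem elem_comm {A : Subgroup P} (h : Cfsg.IsElementaryAbelian p A) {a b : P} (ha : a ∈ A) (hb : b ∈ A) :
    a * b = b * a := congrArg Subtype.val (h.1.is_comm.comm ⟨a, ha⟩ ⟨b, hb⟩)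

theorem elem_sup {A B : Subgroup P} (hA : Cfsg.IsElementaryAbelian p A) (hB : Cfsg.IsElementaryAbelian p B)
    (hAB : ∀ a ∈ A, ∀ b ∈ B, a * b = b * a) : Cfsg.IsElementaryAbelian p (A ⊔ B : Subgroup P) := by
  have hAc : A ⊔ B ≤ centralizer (A : Set P) := sup_le
    (fun a ha => mem_centralizer_iff.2 fun a' ha' => elem_comm hA ha' ha)
    (fun b hb => mem_centralizer_iff.2 fun a ha => hAB a ha b hb)
  have hBc : A ⊔ B ≤ centralizer (B : Set P) := sup_le
    (fun a ha => mem_centralizer_iff.2 fun b hb => (hAB a ha b hb).symm)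
    (fun b hb => mem_centralizer_iff.2 fun b' hb' => elem_comm hB hb' hb)
  have hc : ∀ x ∈ A ⊔ B, ∀ y ∈ A ⊔ B, x * y = y * x := fun x hx y hy =>
    (mem_centralizer_iff.1 ((sup_le (le_centralizer_iff.1 hAc) (le_centralizer_iff.1 hBc) :
      A ⊔ B ≤ centralizer ((A ⊔ B : Subgroup P) : Set P)) hx) y hy).symm
  let K : Subgroup P :=
    { carrier := {g | g ∈ A ⊔ B ∧ g ^ p = 1}
      one_mem' := ⟨one_mem _, one_pow _⟩
      mul_mem' := fun {a b} ha hb => ⟨mul_mem ha.1 hb.1, by
        rw [(show Commute a b from hc a ha.1 b hb.1).mul_pow, ha.2, hb.2, one_mul]⟩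
      inv_mem' := fun {a} ha => ⟨inv_mem ha.1, by rw [inv_pow, ha.2, inv_one]⟩ }
  have hK : A ⊔ B ≤ K := sup_le (fun a ha => ⟨mem_sup_left ha, hA.2 a ha⟩)
    (fun b hb => ⟨mem_sup_right hb, hB.2 b hb⟩)
  exact ⟨⟨⟨fun x y => Subtype.ext (hc x x.2 y y.2)⟩⟩, fun x hx => (hK hx).2⟩

theorem rank_of_le [Finite P] {E C : Subgroup P} (hE : Cfsg.IsElementaryAbelian p E) (hEC : E ≤ C)
    (h : p ^ 2 < Nat.card E) : ¬ Cfsg.PRankLE p 2 C := fun hC => by
  have := hC (E.subgroupOf C) ⟨⟨fun a b => by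
      refine Subtype.ext (Subtype.ext ?_)
      exact elem_comm hE a.2 b.2⟩⟩
    (fun a ha => by
      refine Subtype.ext ?_
      exact hE.2 _ ha)
  rw [Nat.card_congr (subgroupOfEquivOfLe hEC).toEquiv] at this
  omega


/-- Let P be a finite p-group of p-rank greater than 2. Then P has a normal elementary abelian subgroup U of order p², and for every elementary abelian X ≤ P with |X| ≥ p²: X is joined to U by a chain of pairwise commuting elementary abelian subgroups of order ≥ p² if and only if C_P(X) has p-rank greater than 2. -/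
theorem result {P : Type*} [Group P] [Finite P] (p : ℕ) [Fact p.Prime] (hP : IsPGroup p P) (hrk : ¬ Cfsg.PRankLE p 2 P) : ∃ U : Subgroup P, U.Normal ∧ Cfsg.IsElementaryAbelian p U ∧ Nat.card ↥U = p ^ 2 ∧ ∀ X : Subgroup P, Cfsg.IsElementaryAbelian p X → p ^ 2 ≤ Nat.card ↥X → (Relation.ReflTransGen (fun A B : Subgroup P => Cfsg.IsElementaryAbelian p A ∧ p ^ 2 ≤ Nat.card ↥A ∧ Cfsg.IsElementaryAbelian p B ∧ p ^ 2 ≤ Nat.card ↥B ∧ ∀ a ∈ A, ∀ b ∈ B, a * b = b * a) X U ↔ ¬ Cfsg.PRankLE p 2 ↥(Subgroup.centralizer (X : Set P))) := by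
  classical
  obtain ⟨A, hAc, hAe, hA⟩ : ∃ A : Subgroup P, IsMulCommutative A ∧ (∀ a ∈ A, a ^ p = 1) ∧ p ^ 2 < Nat.card A := by
    unfold Cfsg.PRankLE at hrk
    push Not at hrk
    obtain ⟨A, h1, h2, h3⟩ := hrk
    exact ⟨A, h1, h2, h3⟩
  have hp := (Fact.out : p.Prime)
  obtain ⟨n, hn⟩ := IsPGroup.iff_card.1 (hP.to_subgroup A)
  have hn3 : 3 ≤ n := by
    by_contra h
    have : p ^ n ≤ p ^ 2 := Nat.pow_le_pow_right hp.pos (by omega)
    omega
  obtain ⟨U, hUn, hUc, hUe, hU⟩ : ∃ U : Subgroup P, U.Normal ∧ IsMulCommutative U ∧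
      (∀ u ∈ U, u ^ p = 1) ∧ Nat.card U = p ^ 2 := by
    by_cases hp2 : p = 2
    · subst hp2
      obtain ⟨B, hB⟩ := Sylow.exists_subgroup_card_pow_prime 2 (G := A) (n := 3) (hn ▸ pow_dvd_pow 2 hn3)
      obtain ⟨U, hUn, hU, hUe⟩ := Cfsg.Lib.TwoFus.exists_normal_four hP (B.map A.subtype)
        (by rw [Subgroup.card_map_of_injective A.subtype_injective, hB]; norm_num)
        (fun e he => hAe e (Subgroup.map_subtype_le _ he))
      refine ⟨U, hUn, ⟨⟨fun a b => ?_⟩⟩, hUe, by rw [hU]; norm_num⟩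
      have hsq : ∀ c : U, c⁻¹ = c := fun c => inv_eq_of_mul_eq_one_right
        (Subtype.ext (by rw [← pow_two]; exact hUe c c.2 : ((c * c : U) : P) = 1))
      rw [← hsq (a * b), mul_inv_rev, hsq a, hsq b]
    · refine Cfsg.Agent.HalfTrans.exists_normal_rank_two hp2 hP fun hcy => ?_
      haveI := hcy
      obtain ⟨g, hg⟩ := IsCyclic.exists_generator (α := A)
      have h1 : Nat.card A ≤ p := by
        rw [← orderOf_eq_card_of_forall_mem_zpowers hg]
        exact Nat.le_of_dvd hp.pos (orderOf_dvd_of_pow_eq_one (Subtype.ext (hAe g g.2)))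
      have : p ≤ p ^ 2 := Nat.le_self_pow (by norm_num) p
      omega
  have hUel : Cfsg.IsElementaryAbelian p U := ⟨hUc, hUe⟩
  haveI := hUn
  -- the centralizer of `U` has index at most `p`
  have hidx : (Subgroup.centralizer (U : Set P)).index ≤ p := by
    have hne : U ≠ ⊥ := fun h => by
      rw [h, Subgroup.card_bot] at hU
      have := Nat.one_lt_pow (by norm_num : (2 : ℕ) ≠ 0) hp.one_lt
      omega
    obtain ⟨⟨z, hzU, hzc⟩, hz1⟩ :=
      (U ⊓ Subgroup.center P).ne_bot_iff_exists_ne_one.1 (Cfsg.Lib.Transfer.inf_center_ne_bot hP U hne)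
    have hz1' : z ≠ 1 := fun h => hz1 (Subtype.ext h)
    have hzo : orderOf z = p := orderOf_eq_prime (hUe z hzU) hz1'
    have hzlt : Subgroup.zpowers z < U := lt_of_le_of_ne (Subgroup.zpowers_le.2 hzU) fun h => by
      rw [← h, Nat.card_zpowers, hzo] at hU
      have : p ^ 1 < p ^ 2 := Nat.pow_lt_pow_right hp.one_lt (by norm_num)
      rw [pow_one] at this
      omega
    obtain ⟨u, huU, huz⟩ := SetLike.exists_of_lt hzlt
    have hCu : Subgroup.centralizer ({u} : Set P) ≤ Subgroup.centralizer (U : Set P) := by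
      intro x hx
      refine Subgroup.mem_centralizer_iff.2 fun w hw => ?_
      have hle : Subgroup.zpowers z ⊔ Subgroup.zpowers u = U := by
        refine Subgroup.eq_of_le_of_card_ge (sup_le hzlt.le (Subgroup.zpowers_le.2 huU)) ?_
        obtain ⟨i, hi⟩ := IsPGroup.iff_card.1 (hP.to_subgroup (Subgroup.zpowers z ⊔ Subgroup.zpowers u))
        rw [hU, hi]
        refine Nat.pow_le_pow_right hp.pos ?_
        by_contra hi2
        have hlt : Subgroup.zpowers z < Subgroup.zpowers z ⊔ Subgroup.zpowers u :=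
          lt_of_le_of_ne le_sup_left fun h => huz (h ▸ Subgroup.mem_sup_right (Subgroup.mem_zpowers u))
        refine hlt.ne (Subgroup.eq_of_le_of_card_ge hlt.le ?_)
        rw [Nat.card_zpowers, hzo, hi]
        calc p ^ i ≤ p ^ 1 := Nat.pow_le_pow_right hp.pos (by omega)
          _ = p := pow_one p
      have hmem : U ≤ Subgroup.centralizer ({x} : Set P) := hle ▸ sup_le
        (Subgroup.zpowers_le.2 (Subgroup.mem_centralizer_singleton_iff.2 (Subgroup.mem_center_iff.1 hzc x).symm))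
        (Subgroup.zpowers_le.2 (Subgroup.mem_centralizer_singleton_iff.2 (Subgroup.mem_centralizer_singleton_iff.1 hx).symm))
      exact Subgroup.mem_centralizer_singleton_iff.1 (hmem hw)
    have horb : MulAction.orbit (ConjAct P) u ⊆ (U : Set P) \ {1} := by
      rintro _ ⟨c, rfl⟩
      show c • u ∈ _
      rw [ConjAct.smul_def]
      exact ⟨hUn.conj_mem u huU _, fun h => huz (by
        rw [Set.mem_singleton_iff, conj_eq_one_iff] at h
        rw [h]; exact one_mem _)⟩
    have hlt : (MulAction.orbit (ConjAct P) u).ncard < p ^ 2 := by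
      refine lt_of_le_of_lt (Set.ncard_le_ncard horb) ?_
      rw [← hU, Set.ncard_sdiff_singleton_of_mem (one_mem U), ← Nat.card_coe_set_eq]
      exact Nat.sub_lt Nat.card_pos one_pos
    have hi : (Subgroup.centralizer ({u} : Set P)).index = (MulAction.orbit (ConjAct P) u).ncard := by
      rw [← MulAction.index_stabilizer (ConjAct P) u, ConjAct.stabilizer_eq_centralizer]
      rfl
    refine le_trans (Nat.le_of_dvd (Nat.pos_of_ne_zero Subgroup.index_ne_zero_of_finite)
      (Subgroup.index_dvd_of_le hCu)) ?_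
    rw [← hi] at hlt
    have : (Subgroup.centralizer ({u} : Set P)).index ∣ Nat.card P := Subgroup.index_dvd_card _
    obtain ⟨m, hm⟩ := IsPGroup.iff_card.1 hP
    obtain ⟨i, -, hi'⟩ := (Nat.dvd_prime_pow hp).1 (hm ▸ this)
    rw [hi'] at hlt ⊢
    calc p ^ i ≤ p ^ 1 := Nat.pow_le_pow_right hp.pos (by
          have := (Nat.pow_lt_pow_iff_right hp.one_lt).1 hlt
          omega)
      _ = p := pow_one p
  -- a large elementary abelian subgroup meets it in order at least `p ^ 2`
  have hbig : ∀ E : Subgroup P, p ^ 2 < Nat.card E →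
      p ^ 2 ≤ Nat.card ↥(E ⊓ Subgroup.centralizer (U : Set P)) := by
    intro E hE
    obtain ⟨e, he⟩ := IsPGroup.iff_card.1 (hP.to_subgroup E)
    have he3 : 3 ≤ e := by
      by_contra h
      have : p ^ e ≤ p ^ 2 := Nat.pow_le_pow_right hp.pos (by omega)
      omega
    obtain ⟨f, hf⟩ := IsPGroup.iff_card.1 (hP.to_subgroup (E ⊓ Subgroup.centralizer (U : Set P)))
    have h1 := Cfsg.Lib.Solv.card_eq_mul_relIndex (inf_le_left : E ⊓ Subgroup.centralizer (U : Set P) ≤ E)
    rw [Subgroup.inf_relIndex_left] at h1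
    have h2 : (Subgroup.centralizer (U : Set P)).relIndex E ≤ p :=
      le_trans (Nat.le_of_dvd (Nat.pos_of_ne_zero Subgroup.index_ne_zero_of_finite)
        (Subgroup.relIndex_dvd_index_of_normal _ E)) hidx
    have h3 : p ^ e ≤ p ^ (f + 1) := by
      rw [← he, h1, pow_succ, ← hf]
      exact Nat.mul_le_mul_left _ h2
    rw [hf]
    exact Nat.pow_le_pow_right hp.pos (by have := (Nat.pow_le_pow_iff_right hp.one_lt).1 h3; omega)
  have hUrk : ¬ Cfsg.PRankLE p 2 ↥(Subgroup.centralizer (U : Set P)) := by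
    have hAel : Cfsg.IsElementaryAbelian p A := ⟨hAc, hAe⟩
    let B := A ⊓ Subgroup.centralizer (U : Set P)
    have hBel : Cfsg.IsElementaryAbelian p B :=
      ⟨⟨⟨fun a b => Subtype.ext (elem_comm hAel a.2.1 b.2.1)⟩⟩, fun a ha => hAe a ha.1⟩
    have hBU : Cfsg.IsElementaryAbelian p (B ⊔ U : Subgroup P) :=
      elem_sup hBel hUel fun a ha b hb => (Subgroup.mem_centralizer_iff.1 ha.2 b hb).symm
    by_cases hlt : p ^ 2 < Nat.card ↥(B ⊔ U)
    · exact rank_of_le hBU (sup_le inf_le_right (fun u hu => Subgroup.mem_centralizer_iff.2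
        fun v hv => elem_comm hUel hv hu)) hlt
    · push Not at hlt
      have e1 : U = B ⊔ U := Subgroup.eq_of_le_of_card_ge le_sup_right (hlt.trans_eq hU.symm)
      have hBU' : B ≤ U := e1 ▸ le_sup_left
      have e2 : B = U := Subgroup.eq_of_le_of_card_ge hBU' (hU.trans_le (hbig A hA))
      refine rank_of_le hAel (fun a ha => Subgroup.mem_centralizer_iff.2 fun u hu => ?_) hA
      rw [← e2] at hu
      exact elem_comm hAel hu.1 ha
  refine ⟨U, hUn, hUel, hU, fun X hX hXc => ⟨fun h => ?_, fun h => ?_⟩⟩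
  · clear hX hXc
    induction h using Relation.ReflTransGen.head_induction_on with
    | refl => exact hUrk
    | head hab _ ih =>
      rename_i X Y _
      obtain ⟨hX, hXc, hY, hYc, hcomm⟩ := hab
      by_cases hlt : p ^ 2 < Nat.card ↥(X ⊔ Y)
      · exact rank_of_le (elem_sup hX hY hcomm) (sup_le
          (fun a ha => Subgroup.mem_centralizer_iff.2 fun a' ha' => elem_comm hX ha' ha)
          (fun b hb => Subgroup.mem_centralizer_iff.2 fun a ha => hcomm a ha b hb)) hlt
      · push Not at hlt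
        have e1 : X = X ⊔ Y := Subgroup.eq_of_le_of_card_ge le_sup_left (hlt.trans hXc)
        have e2 : Y = X ⊔ Y := Subgroup.eq_of_le_of_card_ge le_sup_right (hlt.trans hYc)
        rw [e1, ← e2]
        exact ih
  · unfold Cfsg.PRankLE at h
    push Not at h
    obtain ⟨E0, hE0c, hE0e, hE0⟩ := h
    let E := E0.map (Subgroup.centralizer (X : Set P)).subtype
    have hEcard : Nat.card E = Nat.card E0 :=
      Subgroup.card_map_of_injective (Subgroup.subtype_injective _)
    have hE : Cfsg.IsElementaryAbelian p E := ⟨⟨⟨fun a b => Subtype.ext (by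
        obtain ⟨a', ha, ha'⟩ := a.2
        obtain ⟨b', hb, hb'⟩ := b.2
        show (a : P) * b = b * a
        rw [← ha', ← hb', ← map_mul, ← map_mul]
        exact congrArg _ (congrArg Subtype.val (hE0c.is_comm.comm ⟨a', ha⟩ ⟨b', hb⟩)))⟩⟩, by
      rintro _ ⟨a, ha, rfl⟩
      rw [← map_pow, hE0e a ha, map_one]⟩
    have hF : Cfsg.IsElementaryAbelian p (E ⊓ Subgroup.centralizer (U : Set P) : Subgroup P) :=
      ⟨⟨⟨fun a b => Subtype.ext (elem_comm hE a.2.1 b.2.1)⟩⟩, fun a ha => hE.2 a ha.1⟩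
    have hEX : ∀ a ∈ X, ∀ b ∈ E, a * b = b * a := by
      rintro a ha _ ⟨b, hb, rfl⟩
      exact Subgroup.mem_centralizer_iff.1 b.2 a ha
    have hFc := hbig E (hEcard ▸ hE0)
    refine (Relation.ReflTransGen.single ⟨hX, hXc, hE, by rw [hEcard]; omega, hEX⟩).trans
      ((Relation.ReflTransGen.single ⟨hE, by rw [hEcard]; omega, hF, hFc,
        fun a ha b hb => elem_comm hE ha hb.1⟩).trans
      (Relation.ReflTransGen.single ⟨hF, hFc, hUel, hU.ge, fun a ha b hb =>
        (Subgroup.mem_centralizer_iff.1 ha.2 b hb).symm⟩))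

end Cfsg.Agent.S1337
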