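import Cfsg.Statements.S1343
import Cfsg.Agent.Lib.Comp.ExtendedLayer
import Cfsg.Agent.Lib.Solv.Cores
-- import your own Cfsg.Agent.* helpers here

set_option autoImplicit false
open Cfsg

namespace Cfsg.Agent.S1343

/-- Let X be finite. Then L*_{2'}(X) = L_{2'}(X) ⊔ F for some subgroup F of odd order normalized by a Sylow 2-subgroup of X. -/
theorem result {X : Type*} [Group X] [Finite X] : ∃ F : Subgroup X, Odd (Nat.card ↥F) ∧ (∃ S : Sylow 2 X, (S : Subgroup X) ≤ Subgroup.normalizer (F : Set X)) ∧ Cfsg.extendedTwoLayer X = Cfsg.pLayer 2 X ⊔ F := by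
  haveI := Fact.mk Nat.prime_two
  obtain ⟨T⟩ : Nonempty (Sylow 2 ↥(Cfsg.pLayer 2 X ⊔ Cfsg.pPrimePCore 2 X)) := inferInstance
  set M := Cfsg.pLayer 2 X ⊔ Cfsg.pPrimePCore 2 X with hM
  obtain ⟨S, hS⟩ := (T.isPGroup'.map M.subtype).exists_le_sylow
  haveI : M.Normal := Cfsg.Lib.Comp.extended_normal_aux
  have hTS : (S : Subgroup X) ⊓ M = (T : Subgroup M).map M.subtype := by
    refine le_antisymm (fun x hx => ?_) (le_inf hS (Subgroup.map_subtype_le _))
    have h : ((S : Subgroup X) ⊓ M).subgroupOf M = T :=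
      T.is_maximal' (S.isPGroup'.to_inf_left.comap_subtype)
        (fun y hy => Subgroup.mem_subgroupOf.2 ⟨hS ⟨y, hy, rfl⟩, y.2⟩)
    exact ⟨⟨x, hx.2⟩, h ▸ Subgroup.mem_subgroupOf.2 hx, rfl⟩
  refine ⟨Cfsg.oddCore X ⊔ Cfsg.Lib.Comp.coreCentralizer ((T : Subgroup M).map M.subtype), ?_, ⟨S, ?_⟩, ?_⟩
  · haveI : (Cfsg.oddCore X).Normal := Cfsg.Lib.Transfer.pPrimeCore_normal 2
    rw [sup_comm]
    have h1 : (Nat.card ↥(Cfsg.oddCore X)).Coprime 2 := Cfsg.Lib.Solv.coprime_pPrimeCore 2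
    have h2 : (Nat.card ↥(Cfsg.Lib.Comp.coreCentralizer ((T : Subgroup M).map M.subtype))).Coprime 2 := by
      rw [Cfsg.Lib.Comp.coreCentralizer, Subgroup.card_map_of_injective (Subgroup.subtype_injective _)]
      exact Cfsg.Lib.Solv.coprime_pPrimeCore 2
    rw [← Nat.coprime_two_right]
    exact (h2.mul_left h1).of_dvd_left (Cfsg.Lib.Solv.card_sup_dvd_mul _ _)
  · have hC : (S : Subgroup X) ≤ Subgroup.normalizer
        (Cfsg.Lib.Comp.coreCentralizer ((T : Subgroup M).map M.subtype) : Set X) := by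
      refine le_trans ?_ (Cfsg.Lib.Comp.le_normalizer_coreCentralizer _)
      rw [← hTS]
      exact (le_inf Subgroup.le_normalizer Subgroup.le_normalizer_of_normal).trans
        (Subgroup.inf_normalizer_le_normalizer_inf (H := (S : Subgroup X)) (K := M))
    haveI : (Cfsg.oddCore X).Normal := Cfsg.Lib.Transfer.pPrimeCore_normal 2
    intro s hs
    refine Subgroup.mem_normalizer_iff_map_conj_eq.2 ?_
    exact (Subgroup.map_sup _ _ _).trans (congrArg₂ (· ⊔ ·)
      (Cfsg.Lib.Comp.map_conj_of_mem (Subgroup.le_normalizer_of_normal (Subgroup.mem_top s)))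
      (Cfsg.Lib.Comp.map_conj_of_mem (hC hs)))
  · rw [Cfsg.Lib.Comp.extendedTwoLayer_eq T, sup_assoc]

end Cfsg.Agent.S1343
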