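import Cfsg.Statements.S1344
import Mathlib
import Cfsg.Agent.Lib.Comp.Balance
import Cfsg.Agent.Lib.Solv.Subnormal
-- import your own Cfsg.Agent.* helpers here

set_option autoImplicit false
open Cfsg

namespace Cfsg.Agent.S1344

/-- Let K be a 2-component of the finite group X. Then K ≤ L*_{2'}(X) and K is normal in L*_{2'}(X). -/
theorem result {X : Type*} [Group X] [Finite X] (K : Subgroup X) (hK : Cfsg.IsPComponent 2 K) : K ≤ Cfsg.extendedTwoLayer X ∧ (K.subgroupOf (Cfsg.extendedTwoLayer X)).Normal := by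
  have hKL : K ≤ Cfsg.pLayer 2 X := Cfsg.Lib.Comp.pComponent_le_pLayer hK
  have hle : K ≤ Cfsg.extendedTwoLayer X :=
    hKL.trans (le_trans le_sup_left le_sup_left)
  refine ⟨hle, Subgroup.normal_subgroupOf_of_le_normalizer ?_⟩
  refine sup_le (Cfsg.Lib.Comp.pLayer_sup_core_le_normalizer hK) (iSup_le fun T => ?_)
  refine (Subgroup.map_subtype_le _).trans fun c hc => ?_
  set q := QuotientGroup.mk' (Cfsg.pPrimeCore 2 X)
  have hKM : K ≤ (Cfsg.pLayer 2 X ⊔ Cfsg.pPrimePCore 2 X) := hKL.trans le_sup_left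
  obtain ⟨w, hw, k, hk, hwc⟩ := Cfsg.Lib.Comp.component_exists_pElem
    (Cfsg.Lib.Solv.pPrimeCore_quotient_eq_bot (G := X) 2) hK.2.1
  obtain ⟨y, hy, rfl⟩ := hw
  obtain ⟨z, hz, hzy, a, ha⟩ := Cfsg.Lib.Comp.exists_pElem_lift q hy hk
  obtain ⟨Q, hQ⟩ := Cfsg.Lib.Solv.sylow_inf_subnormal (hK.1.subgroupOf (K := (Cfsg.pLayer 2 X ⊔ Cfsg.pPrimePCore 2 X))) T
  let zK : ↥(K.subgroupOf (Cfsg.pLayer 2 X ⊔ Cfsg.pPrimePCore 2 X)) := ⟨⟨z, hKM hz⟩, hz⟩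
  have hzp : IsPGroup 2 ↥(Subgroup.zpowers zK) := by
    rintro ⟨u, hu⟩
    obtain ⟨n, rfl⟩ := Subgroup.mem_zpowers_iff.1 hu
    refine ⟨a, Subtype.ext ?_⟩
    show (zK ^ n) ^ 2 ^ a = 1
    rw [← zpow_natCast, ← zpow_mul, mul_comm, zpow_mul, zpow_natCast,
      show zK ^ 2 ^ a = 1 from Subtype.ext (Subtype.ext ha), one_zpow]
  obtain ⟨Q2, hQ2⟩ := hzp.exists_le_sylow
  obtain ⟨g, hg⟩ := MulAction.exists_smul_eq ↥(K.subgroupOf (Cfsg.pLayer 2 X ⊔ Cfsg.pPrimePCore 2 X)) Q2 Q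
  have hgz : g * zK * g⁻¹ ∈ (Q : Subgroup ↥(K.subgroupOf (Cfsg.pLayer 2 X ⊔ Cfsg.pPrimePCore 2 X))) := by
    rw [← hg, Sylow.coe_subgroup_smul]
    exact Subgroup.smul_mem_pointwise_smul _ (MulAut.conj g) _ (hQ2 (Subgroup.mem_zpowers zK))
  rw [hQ] at hgz
  set gX : X := ((g : ↥(Cfsg.pLayer 2 X ⊔ Cfsg.pPrimePCore 2 X)) : X) with hgX
  have hgK : gX ∈ K := g.2
  set z' := gX * z * gX⁻¹ with hz'
  have hz'K : z' ∈ K := mul_mem (mul_mem hgK hz) (inv_mem hgK)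
  have hcz : c * z' * c⁻¹ = z' := by
    have hmem : z' ∈ ((T : Subgroup ↥(Cfsg.pLayer 2 X ⊔ Cfsg.pPrimePCore 2 X)).map (Cfsg.pLayer 2 X ⊔ Cfsg.pPrimePCore 2 X).subtype : Subgroup X) :=
      ⟨((g * zK * g⁻¹ : ↥(K.subgroupOf (Cfsg.pLayer 2 X ⊔ Cfsg.pPrimePCore 2 X))) : ↥(Cfsg.pLayer 2 X ⊔ Cfsg.pPrimePCore 2 X)), hgz, by rw [hz', hgX]; rfl⟩
    rw [← Subgroup.mem_centralizer_iff.1 hc z' hmem, mul_inv_cancel_right]
  have hz'c : q z' ∉ Subgroup.centralizer ((K.map q : Subgroup _) : Set _) := fun h => hwc (by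
    rw [← hzy]
    have hgk : q gX ∈ K.map q := Subgroup.mem_map_of_mem q hgK
    have hcomm := Subgroup.mem_centralizer_iff.1 h (q gX) hgk
    have e : q z = q z' := by
      have e1 : q gX * q z * (q gX)⁻¹ = q z' := by rw [hz', map_mul, map_mul, map_inv]
      calc q z = (q gX)⁻¹ * (q gX * q z * (q gX)⁻¹) * q gX := by group
        _ = (q gX)⁻¹ * q z' * q gX := by rw [e1]
        _ = q z' := by rw [mul_assoc, ← hcomm, inv_mul_cancel_left]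
    rw [e]
    exact h)
  refine Cfsg.Lib.Comp.mem_normalizer_pComponent hK ?_
  by_contra hcn
  have hne : (K.map q).map (MulAut.conj (q c)).toMonoidHom ≠ K.map q := fun h =>
    hcn (Cfsg.Lib.Solv.conj_smul_eq_self_iff.1 ((Cfsg.Lib.Solv.conj_smul_eq_map _ _).trans h))
  have h1 := Cfsg.Lib.Comp.component_commute (Cfsg.Lib.Comp.component_conj (q c) hK.2.1) hK.2.1 hne
  refine hz'c (Subgroup.commutator_eq_bot_iff_le_centralizer.1 h1 ?_)
  refine ⟨q z', Subgroup.mem_map_of_mem q hz'K, ?_⟩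
  show q c * q z' * (q c)⁻¹ = q z'
  rw [← map_inv, ← map_mul, ← map_mul, hcz]

end Cfsg.Agent.S1344
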