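import Cfsg.Statements.S1348
import Mathlib
import Cfsg.Agent.Lib.Comp.Component
import Cfsg.Agent.Lib.Comp.Quasisimple
import Cfsg.Agent.Lib.Classical.SLGroup
-- import your own Cfsg.Agent.* helpers here

set_option autoImplicit false
open Cfsg

namespace Cfsg.Agent.S1348

open Matrix

variable {F : Type*} [Field F]

/-- Reindexing of special linear groups. -/
noncomputable def reind {ι κ : Type} [Fintype ι] [DecidableEq ι] [Fintype κ] [DecidableEq κ] (e : ι ≃ κ) :
    Matrix.SpecialLinearGroup ι F ≃* Matrix.SpecialLinearGroup κ F where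
  toFun A := ⟨Matrix.reindex e e A.1, by rw [Matrix.det_reindex_self]; exact A.2⟩
  invFun A := ⟨Matrix.reindex e.symm e.symm A.1, by rw [Matrix.det_reindex_self]; exact A.2⟩
  left_inv A := Subtype.ext (by simp)
  right_inv A := Subtype.ext (by simp)
  map_mul' A B := Subtype.ext (by
    show Matrix.reindex e e (A.1 * B.1) = Matrix.reindex e e A.1 * Matrix.reindex e e B.1
    simp [Matrix.submatrix_mul_equiv])

/-- Block embedding. -/
noncomputable def block (m : ℕ) : Matrix.SpecialLinearGroup (Fin m) F →* Matrix.SpecialLinearGroup (Fin m ⊕ Fin 1) F where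
  toFun A := ⟨Matrix.fromBlocks A.1 0 0 1, by rw [Matrix.det_fromBlocks_zero₁₂, Matrix.det_one, mul_one]; exact A.2⟩
  map_one' := Subtype.ext Matrix.fromBlocks_one
  map_mul' A B := Subtype.ext (by
    show Matrix.fromBlocks (A.1 * B.1) 0 0 1 = Matrix.fromBlocks A.1 0 0 1 * Matrix.fromBlocks B.1 0 0 1
    rw [Matrix.fromBlocks_multiply]; simp)

theorem block_injective (m : ℕ) : Function.Injective (block (F := F) m) := fun A B h =>
  Subtype.ext (Matrix.fromBlocks_inj.1 (congrArg Subtype.val h)).1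

theorem block_form (m : ℕ) (h2 : (2 : F) ≠ 0) (τ : Matrix.SpecialLinearGroup (Fin m ⊕ Fin 1) F)
    (hτ : τ.1 = Matrix.fromBlocks (-1) 0 0 1)
    (g : Matrix.SpecialLinearGroup (Fin m ⊕ Fin 1) F) (hg : g * τ = τ * g) :
    g.1 = Matrix.fromBlocks g.1.toBlocks₁₁ 0 0 g.1.toBlocks₂₂ := by
  have h : g.1 * τ.1 = τ.1 * g.1 := congrArg Subtype.val hg
  rw [hτ] at h
  conv_lhs => rw [← Matrix.fromBlocks_toBlocks g.1]
  refine Matrix.fromBlocks_inj.2 ⟨rfl, ?_, ?_, rfl⟩
  · ext i j
    have h' := congrFun (congrFun h (Sum.inl i)) (Sum.inr j)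
    rw [← Matrix.fromBlocks_toBlocks g.1] at h'
    simp [Matrix.fromBlocks_multiply] at h'
    have : (2 : F) * g.1.toBlocks₁₂ i j = 0 := by rw [two_mul]; linear_combination h'
    exact (mul_eq_zero.1 this).resolve_left h2
  · ext i j
    have h' := congrFun (congrFun h (Sum.inr i)) (Sum.inl j)
    rw [← Matrix.fromBlocks_toBlocks g.1] at h'
    simp [Matrix.fromBlocks_multiply] at h'
    have : (2 : F) * g.1.toBlocks₂₁ i j = 0 := by rw [two_mul]; linear_combination -h'
    exact (mul_eq_zero.1 this).resolve_left h2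

theorem block_normal (m : ℕ) (h2 : (2 : F) ≠ 0) (τ : Matrix.SpecialLinearGroup (Fin m ⊕ Fin 1) F)
    (hτ : τ.1 = Matrix.fromBlocks (-1) 0 0 1)
    (g : Matrix.SpecialLinearGroup (Fin m ⊕ Fin 1) F) (hg : g * τ = τ * g)
    (B : Matrix.SpecialLinearGroup (Fin m) F) : ∃ C, block m C = g * block m B * g⁻¹ := by
  have e1 := block_form m h2 τ hτ g hg
  have e2 := block_form m h2 τ hτ g⁻¹ (Commute.inv_left hg).eq
  have hmul : g.1 * (g⁻¹).1 = 1 := congrArg Subtype.val (mul_inv_cancel g)
  rw [e1, e2, Matrix.fromBlocks_multiply, ← Matrix.fromBlocks_one, Matrix.fromBlocks_inj] at hmul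
  simp only [Matrix.zero_mul, Matrix.mul_zero, add_zero, zero_add] at hmul
  obtain ⟨hA, -, -, hD⟩ := hmul
  refine ⟨⟨g.1.toBlocks₁₁ * B.1 * (g⁻¹).1.toBlocks₁₁, ?_⟩, Subtype.ext ?_⟩
  · have h := congrArg Matrix.det hA
    rw [Matrix.det_mul, Matrix.det_one] at h
    rw [Matrix.det_mul, Matrix.det_mul, B.2, mul_one, h]
  · show Matrix.fromBlocks (g.1.toBlocks₁₁ * B.1 * (g⁻¹).1.toBlocks₁₁) 0 0 1 =
      g.1 * Matrix.fromBlocks B.1 0 0 1 * (g⁻¹).1
    rw [e1, e2, Matrix.fromBlocks_multiply, Matrix.fromBlocks_multiply]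
    simp only [Matrix.zero_mul, Matrix.mul_zero, add_zero, zero_add, Matrix.mul_one]
    rw [hD, Matrix.toBlocks_fromBlocks₁₁, Matrix.toBlocks_fromBlocks₁₁]

/-- The centralizer of the block subgroup. -/
theorem block_centralizer (m : ℕ) (g : Matrix.SpecialLinearGroup (Fin m ⊕ Fin 1) F)
    (hform : g.1 = Matrix.fromBlocks g.1.toBlocks₁₁ 0 0 g.1.toBlocks₂₂)
    (hg : ∀ B, g * block m B = block m B * g) :
    ∃ a d : F, g.1 = Matrix.fromBlocks (Matrix.scalar (Fin m) a) 0 0 (Matrix.scalar (Fin 1) d) := by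
  obtain ⟨a, ha⟩ := Matrix.mem_range_scalar_of_commute_transvectionStruct (M := g.1.toBlocks₁₁) (fun s => by
    have h : g.1 * Matrix.fromBlocks s.toMatrix 0 0 1 = Matrix.fromBlocks s.toMatrix 0 0 1 * g.1 :=
      congrArg Subtype.val (hg ⟨s.toMatrix, Matrix.TransvectionStruct.det s⟩)
    rw [hform, Matrix.fromBlocks_multiply, Matrix.fromBlocks_multiply, Matrix.fromBlocks_inj] at h
    have h' := h.1
    simp only [Matrix.zero_mul, Matrix.mul_zero, add_zero] at h'
    exact h'.symm)
  refine ⟨a, g.1.toBlocks₂₂ 0 0, ?_⟩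
  conv_lhs => rw [hform, ← ha]
  congr 1
  ext i j
  rw [Subsingleton.elim i 0, Subsingleton.elim j 0]
  simp

/-- Let F be a finite field of odd order, n ≥ 7 odd, and t ∈ SL(n, F) the diagonal matrix with entries −1, …, −1, 1. Then E(C(t)) is a standard subgroup of SL(n, F). -/
theorem result {F : Type*} [Field F] [Fintype F] [DecidableEq F] (hF : Odd (Fintype.card F)) (n : ℕ) (hn : 7 ≤ n) (hodd : Odd n) (t : Matrix.SpecialLinearGroup (Fin n) F) (ht : (t : Matrix (Fin n) (Fin n) F) = Matrix.diagonal (fun i : Fin n => if (i : ℕ) + 1 = n then (1 : F) else -1)) : Cfsg.IsStandardSubgroup ((Cfsg.layer ↥(Subgroup.centralizer ({t} : Set (Matrix.SpecialLinearGroup (Fin n) F)))).map (Subgroup.centralizer ({t} : Set (Matrix.SpecialLinearGroup (Fin n) F))).subtype) := by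
  classical
  obtain ⟨m, rfl⟩ : ∃ m, n = m + 1 := ⟨n - 1, by omega⟩
  have hm : Even m := Nat.odd_add_one.1 hodd |> Nat.not_odd_iff_even.1
  have h2 : (2 : F) ≠ 0 := fun h => by
    have hc : ringChar F = 2 := (CharP.ringChar_of_prime_eq_zero Nat.prime_two (by exact_mod_cast h))
    have := FiniteField.even_card_of_char_two hc
    exact (Nat.not_even_iff_odd.2 hF) (Nat.even_iff.2 this)
  haveI : Nontrivial (Fin m) := Fin.nontrivial_iff_two_le.2 (by omega)
  have hn' : 3 ≤ Fintype.card (Fin m) ∨ ∃ a : F, a ≠ 0 ∧ a ^ 2 ≠ 1 := Or.inl (by simp; omega)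
  have hqs : Cfsg.IsQuasisimple (Matrix.SpecialLinearGroup (Fin m) F) :=
    ⟨⟨Cfsg.Lib.Classical.SLGroup.commutator_sl_eq_top hn'⟩, Cfsg.Lib.Classical.SLGroup.isSimpleGroup_psl hn'⟩
  let e : Matrix.SpecialLinearGroup (Fin m ⊕ Fin 1) F ≃* Matrix.SpecialLinearGroup (Fin (m + 1)) F :=
    reind finSumFinEquiv
  let m1 : Matrix.SpecialLinearGroup (Fin m) F :=
    ⟨-1, by rw [Matrix.det_neg, Matrix.det_one, mul_one, Fintype.card_fin, hm.neg_one_pow]⟩
  set τ := block m m1 with hτdef
  have hτ : τ.1 = Matrix.fromBlocks (-1) 0 0 1 := rfl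
  have hte : t = e τ := by
    refine Subtype.ext ?_
    rw [ht]
    show _ = Matrix.reindex finSumFinEquiv finSumFinEquiv τ.1
    rw [hτ]
    ext i j
    obtain ⟨i', rfl⟩ := finSumFinEquiv.surjective i
    obtain ⟨j', rfl⟩ := finSumFinEquiv.surjective j
    rw [Matrix.reindex_apply, Matrix.submatrix_apply, Equiv.symm_apply_apply, Equiv.symm_apply_apply,
      Matrix.diagonal_apply]
    rcases i' with i' | i' <;> rcases j' with j' | j'
    · simp only [Matrix.fromBlocks_apply₁₁, Matrix.neg_apply, Matrix.one_apply, Equiv.apply_eq_iff_eq, Sum.inl.injEq]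
      have := i'.2
      split_ifs <;> simp_all <;> omega
    · have hij : finSumFinEquiv (Sum.inl i') ≠ finSumFinEquiv (Sum.inr j') := fun h => Sum.inl_ne_inr (finSumFinEquiv.injective h)
      rw [if_neg hij]; simp
    · have hij : finSumFinEquiv (Sum.inr i') ≠ finSumFinEquiv (Sum.inl j') := fun h => Sum.inr_ne_inl (finSumFinEquiv.injective h)
      rw [if_neg hij]; simp
    · simp [Subsingleton.elim i' 0, Subsingleton.elim j' 0, finSumFinEquiv_apply_right]
  set j : Matrix.SpecialLinearGroup (Fin m) F →* Matrix.SpecialLinearGroup (Fin (m + 1)) F :=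
    e.toMonoidHom.comp (block m) with hj
  have hjinj : Function.Injective j := e.injective.comp (block_injective m)
  set L := j.range with hL
  set C := Subgroup.centralizer ({t} : Set (Matrix.SpecialLinearGroup (Fin (m + 1)) F)) with hC
  have hcomm : ∀ g ∈ C, e.symm g * τ = τ * e.symm g := by
    intro g hg
    refine e.injective ?_
    rw [map_mul, map_mul, e.apply_symm_apply, ← hte]
    exact Subgroup.mem_centralizer_singleton_iff.1 hg
  have hconj : ∀ g ∈ C, ∀ x ∈ L, g * x * g⁻¹ ∈ L := by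
    rintro g hg _ ⟨B, rfl⟩
    obtain ⟨B', hB'⟩ := block_normal m h2 τ hτ _ (hcomm g hg) B
    refine ⟨B', ?_⟩
    show e (block m B') = g * e (block m B) * g⁻¹
    rw [hB', map_mul, map_mul, map_inv, e.apply_symm_apply]
  have htL : t ∈ L := ⟨m1, hte.symm⟩
  have hLC : L ≤ C := by
    rintro _ ⟨B, rfl⟩
    refine Subgroup.mem_centralizer_singleton_iff.2 ?_
    rw [hte]
    show e (block m B) * e τ = e τ * e (block m B)
    rw [hτdef, ← map_mul, ← map_mul, ← map_mul, ← map_mul]
    congr 2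
    refine Subtype.ext ?_
    show B.1 * (-1) = (-1) * B.1
    simp
  have hqL : Cfsg.IsQuasisimple ↥L :=
    (Cfsg.Lib.Comp.isQuasisimple_congr (MonoidHom.ofInjective hjinj)).1 hqs
  set K := Subgroup.centralizer (L : Set (Matrix.SpecialLinearGroup (Fin (m + 1)) F)) with hK
  have hKC : K ≤ C := Subgroup.centralizer_le (Set.singleton_subset_iff.2 htL)
  have hKform : ∀ g ∈ K, ∃ a d : F, (e.symm g).1 =
      Matrix.fromBlocks (Matrix.scalar (Fin m) a) 0 0 (Matrix.scalar (Fin 1) d) := by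
    intro g hg
    refine block_centralizer m _ (block_form m h2 τ hτ _ (hcomm g (hKC hg))) fun B => e.injective ?_
    rw [map_mul, map_mul, e.apply_symm_apply]
    exact (Subgroup.mem_centralizer_iff.1 hg _ ⟨B, rfl⟩).symm
  have hKab : ∀ a ∈ K, ∀ b ∈ K, a * b = b * a := by
    intro a ha b hb
    obtain ⟨x, y, hxy⟩ := hKform a ha
    obtain ⟨u, v, huv⟩ := hKform b hb
    refine e.symm.injective (Subtype.ext ?_)
    rw [map_mul, map_mul]
    show (e.symm a).1 * (e.symm b).1 = (e.symm b).1 * (e.symm a).1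
    rw [hxy, huv, Matrix.fromBlocks_multiply, Matrix.fromBlocks_multiply]
    simp [mul_comm x u, mul_comm y v]
  have hKinv : ∀ g ∈ K, orderOf g = 2 → g = t := by
    intro g hg hg2
    obtain ⟨a, d, had⟩ := hKform g hg
    have hsq : (e.symm g).1 * (e.symm g).1 = 1 := by
      have : e.symm g * e.symm g = 1 := by rw [← map_mul, ← sq, ← hg2, pow_orderOf_eq_one, map_one]
      exact congrArg Subtype.val this
    rw [had, Matrix.fromBlocks_multiply, ← Matrix.fromBlocks_one, Matrix.fromBlocks_inj] at hsq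
    have ha := congrFun (congrFun hsq.1 ⟨0, by omega⟩) ⟨0, by omega⟩
    simp at ha
    have hdet := (e.symm g).2
    rw [had, Matrix.det_fromBlocks_zero₁₂] at hdet
    simp at hdet
    rcases mul_self_eq_one_iff.1 ha with rfl | rfl
    · exfalso
      rw [one_pow, one_mul] at hdet
      subst hdet
      have : g = 1 := e.symm.injective (Subtype.ext (by rw [had, map_one]; simp [Matrix.fromBlocks_one]))
      rw [this, orderOf_one] at hg2
      exact absurd hg2 (by norm_num)
    · rw [hm.neg_one_pow, one_mul] at hdet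
      subst hdet
      rw [hte, ← e.apply_symm_apply g]
      congr 1
      refine Subtype.ext ?_
      rw [had, hτ]
      congr 1
      · ext i k
        simp [Matrix.diagonal_apply, Matrix.one_apply]
        split_ifs <;> simp
  have htK : t ∈ K := Subgroup.mem_centralizer_iff.2 fun x hx => Subgroup.mem_centralizer_singleton_iff.1 (hLC hx)
  have htt : orderOf t = 2 := by
    refine orderOf_eq_prime ?_ fun h => ?_
    · rw [hte, sq, ← map_mul, ← map_one e]
      congr 1
      refine Subtype.ext ?_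
      show τ.1 * τ.1 = 1
      rw [hτ, Matrix.fromBlocks_multiply]
      simp
    · rw [hte, ← map_one e] at h
      have := congrFun (congrFun (congrArg (fun x : Matrix.SpecialLinearGroup (Fin m ⊕ Fin 1) F => x.1)
        (e.injective h)) (Sum.inl ⟨0, by omega⟩)) (Sum.inl ⟨0, by omega⟩)
      simp [hτ] at this
      exact h2 (by linear_combination -this)
  -- the layer
  have hlayer : (Cfsg.layer ↥C).map C.subtype = L := by
    have hn : (L.subgroupOf C).Normal := ⟨fun x hx g => hconj g.1 g.2 x.1 hx⟩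
    have hcomp : Cfsg.IsComponent (L.subgroupOf C) :=
      ⟨hn.isSubnormal, (Cfsg.Lib.Comp.isQuasisimple_congr (Subgroup.subgroupOfEquivOfLe hLC)).2 hqL⟩
    have hEq : Cfsg.layer ↥C = L.subgroupOf C := by
      refine le_antisymm (sSup_le fun M hM => ?_) (le_sSup hcomp)
      rcases Cfsg.Lib.Comp.component_subnormal hM hn.isSubnormal with h | h
      · exact h
      exfalso
      rw [Subgroup.commutator_eq_bot_iff_le_centralizer] at h
      have hMK : ∀ x ∈ M, (x : Matrix.SpecialLinearGroup (Fin (m + 1)) F) ∈ K := fun x hx =>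
        Subgroup.mem_centralizer_iff.2 fun l hl => congrArg Subtype.val
          (Subgroup.mem_centralizer_iff.1 (h hx) ⟨l, hLC hl⟩ hl)
      haveI : IsMulCommutative ↥M := ⟨⟨fun a b => Subtype.ext (Subtype.ext (hKab _ (hMK _ a.2) _ (hMK _ b.2)))⟩⟩
      exact Cfsg.Lib.Comp.isQuasisimple_center_ne_top hM.2 (Subgroup.center_eq_top_iff.2 inferInstance)
    rw [hEq, Subgroup.subgroupOf_map_subtype, inf_eq_left.2 hLC]
  rw [hlayer]
  have hnorm : ∀ g, g ∈ Subgroup.normalizer (K : Set (Matrix.SpecialLinearGroup (Fin (m + 1)) F)) →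
      g ∈ Subgroup.normalizer (L : Set (Matrix.SpecialLinearGroup (Fin (m + 1)) F)) := by
    intro g hg
    have h := hKinv _ ((Subgroup.mem_normalizer_iff.1 hg t).1 htK)
      (by rw [← htt]; exact orderOf_injective (MulAut.conj g).toMonoidHom (MulAut.conj g).injective t)
    have hgC : g ∈ C := Subgroup.mem_centralizer_singleton_iff.2 (mul_inv_eq_iff_eq_mul.1 h)
    rw [Subgroup.mem_normalizer_iff]
    refine fun x => ⟨hconj g hgC x, fun hx => ?_⟩
    have := hconj g⁻¹ (inv_mem hgC) _ hx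
    simpa [mul_assoc] using this
  have hnorm' : Subgroup.normalizer (L : Set (Matrix.SpecialLinearGroup (Fin (m + 1)) F)) ≤
      Subgroup.normalizer (K : Set (Matrix.SpecialLinearGroup (Fin (m + 1)) F)) := by
    intro g hg
    have key : ∀ g, g ∈ Subgroup.normalizer (L : Set (Matrix.SpecialLinearGroup (Fin (m + 1)) F)) → ∀ x ∈ K, g * x * g⁻¹ ∈ K := by
      intro g hg x hx
      refine Subgroup.mem_centralizer_iff.2 fun l hl => ?_
      have hl' : g⁻¹ * l * g ∈ L := (Subgroup.mem_normalizer_iff''.1 hg l).1 hl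
      have h' := Subgroup.mem_centralizer_iff.1 hx _ hl'
      calc l * (g * x * g⁻¹) = g * ((g⁻¹ * l * g) * x) * g⁻¹ := by group
        _ = g * (x * (g⁻¹ * l * g)) * g⁻¹ := by rw [h']
        _ = g * x * g⁻¹ * l := by group
    rw [Subgroup.mem_normalizer_iff]
    refine fun x => ⟨key g hg x, fun hx => ?_⟩
    have := key g⁻¹ (inv_mem hg) _ hx
    simpa [mul_assoc] using this
  refine ⟨hqL, ⟨?_, fun g hg => ?_⟩, fun g hg hbot => ?_, le_antisymm hnorm' hnorm⟩
  · rw [even_iff_two_dvd, ← htt]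
    exact Subgroup.orderOf_dvd_natCard _ htK
  · rw [← Nat.not_even_iff_odd, even_iff_two_dvd]
    intro hev
    haveI : Fact (Nat.Prime 2) := ⟨Nat.prime_two⟩
    obtain ⟨x', hx'⟩ := exists_prime_orderOf_dvd_card'
      (G := ↥(K ⊓ K.map (MulAut.conj g).toMonoidHom)) 2 hev
    rw [← Subgroup.orderOf_coe] at hx'
    obtain ⟨x, hxK, y, hyK, hyx⟩ := x'
    have hx : orderOf x = 2 := hx'
    have hy : y = t := hKinv y hyK (by
      rw [← hx, ← hyx]; exact (orderOf_injective (MulAut.conj g).toMonoidHom (MulAut.conj g).injective y).symm)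
    have hxt : x = t := hKinv x hxK hx
    have hgt : g * t * g⁻¹ = t := by
      have h : g * y * g⁻¹ = x := hyx
      rwa [hy, hxt] at h
    have hgC : g ∈ C := Subgroup.mem_centralizer_singleton_iff.2 (mul_inv_eq_iff_eq_mul.1 hgt)
    refine hg (hnorm' ?_)
    rw [Subgroup.mem_normalizer_iff]
    refine fun x => ⟨hconj g hgC x, fun hx => ?_⟩
    have := hconj g⁻¹ (inv_mem hgC) _ hx
    simpa [mul_assoc] using this
  · rw [Subgroup.commutator_eq_bot_iff_le_centralizer, Subgroup.le_centralizer_iff] at hbot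
    haveI : IsMulCommutative ↥L := ⟨⟨fun a b => Subtype.ext ((MulAut.conj g).injective (by
      show MulAut.conj g (a.1 * b.1) = MulAut.conj g (b.1 * a.1)
      rw [map_mul, map_mul]
      exact hKab _ (hbot ⟨_, a.2, rfl⟩) _ (hbot ⟨_, b.2, rfl⟩)))⟩⟩
    exact Cfsg.Lib.Comp.isQuasisimple_center_ne_top hqL (Subgroup.center_eq_top_iff.2 inferInstance)

end Cfsg.Agent.S1348
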