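import Cfsg.Statements.S1459
import Mathlib
import Mathlib
import Cfsg.Agent.Lib.Solv.Cores
import Cfsg.Agent.Lib.Solv.PGroupBasic
import Cfsg.Agent.Lib.Solv.SchurZassenhaus
import Cfsg.Agent.Lib.Solv.Coprime
import Cfsg.Agent.Lib.Solv.Coprime2
-- import your own Cfsg.Agent.* helpers here

set_option autoImplicit false
open Cfsg
open scoped Pointwise commutatorElement

namespace Cfsg.Agent.S1459

/-- Let G be a finite solvable group. (a) If H is a normal subgroup of order coprime to its index, K is a complement to H, and H ≤ G', then H = [H, K] and H ∩ C_G(K) ≤ [H, H]. (b) If G' is nilpotent and has prime index in G, then the order of G' is coprime to its index and G' = [G, K] (the subgroup generated by commutators of elements of G with elements of K) for every complement K of G'. -/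
theorem result {G : Type*} [Group G] [Finite G] [Group.IsSolvable G] :
    (∀ (H K : Subgroup G), H.Normal → (Nat.card H).Coprime H.index → Subgroup.IsComplement' H K → H ≤ commutator G →
        H = ⁅H, K⁆ ∧ H ⊓ Subgroup.centralizer (K : Set G) ≤ ⁅H, H⁆) ∧
      (Group.IsNilpotent ↥(commutator G) → (commutator G).index.Prime →
        (Nat.card ↥(commutator G)).Coprime (commutator G).index ∧
        ∀ K : Subgroup G, Subgroup.IsComplement' (commutator G) K → commutator G = ⁅(⊤ : Subgroup G), K⁆) := by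
  classical
  have partA : ∀ (H K : Subgroup G), H.Normal → (Nat.card H).Coprime H.index → Subgroup.IsComplement' H K →
      H ≤ commutator G → H = ⁅H, K⁆ ∧ H ⊓ Subgroup.centralizer (K : Set G) ≤ ⁅H, H⁆ := by
    intro H K hHn hcop hc hle
    haveI := hHn
    have hKcard : Nat.card K = H.index := (Subgroup.IsComplement'.index_eq_card hc.symm).symm
    have hHK : H ⊔ K = ⊤ := hc.sup_eq_top
    have hcHK : (Nat.card K).Coprime (Nat.card H) := by rw [hKcard]; exact hcop.symm
    have hKn : K ≤ Subgroup.normalizer (H : Set G) := by rw [Subgroup.normalizer_eq_top]; exact le_top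
    have hMH : ⁅H, K⁆ ≤ H := Cfsg.Lib.Solv.commutator_le_of_normalizes hKn
    haveI hMn : (⁅H, K⁆ : Subgroup G).Normal := by
      rw [← Subgroup.normalizer_eq_top_iff, eq_top_iff, ← hHK]
      exact sup_le (Cfsg.Lib.Solv.le_normalizer_commutator_left H K) (Cfsg.Lib.Solv.le_normalizer_commutator_right H K)
    have hEq : H = ⁅H, K⁆ := by
      refine le_antisymm ?_ hMH
      set q := QuotientGroup.mk' ⁅H, K⁆ with hq
      set Hb := H.map q with hHb
      set Kb := K.map q with hKb
      have hcomm : ∀ a ∈ Hb, ∀ b ∈ Kb, a * b = b * a := by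
        rintro _ ⟨a, ha, rfl⟩ _ ⟨b, hb, rfl⟩
        rw [← commutatorElement_eq_one_iff_mul_comm, ← map_commutatorElement]
        exact (QuotientGroup.eq_one_iff _).2 (Subgroup.commutator_mem_commutator ha hb)
      haveI hHbn : Hb.Normal := hHn.map q (QuotientGroup.mk'_surjective _)
      have htop : Hb ⊔ Kb = ⊤ := by
        rw [hHb, hKb, ← Subgroup.map_sup, hHK, Subgroup.map_top_of_surjective q (QuotientGroup.mk'_surjective _)]
      have hcH : ⁅Hb, Hb⁆ ≤ Subgroup.centralizer ((⁅Kb, Kb⁆ : Subgroup (G ⧸ ⁅H, K⁆)) : Set (G ⧸ ⁅H, K⁆)) := fun a ha =>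
        Subgroup.mem_centralizer_iff.2 fun b hb =>
          (hcomm a (Subgroup.commutator_le_self _ ha) b (Subgroup.commutator_le_self _ hb)).symm
      have hQ : commutator (G ⧸ ⁅H, K⁆) ≤ ⁅Hb, Hb⁆ ⊔ ⁅Kb, Kb⁆ := by
        rw [commutator_def, Subgroup.commutator_le]
        intro g₁ _ g₂ _
        obtain ⟨a₁, ha₁, b₁, hb₁, rfl⟩ := Subgroup.mem_sup_of_normal_left.1 (htop ▸ Subgroup.mem_top g₁ : g₁ ∈ Hb ⊔ Kb)
        obtain ⟨a₂, ha₂, b₂, hb₂, rfl⟩ := Subgroup.mem_sup_of_normal_left.1 (htop ▸ Subgroup.mem_top g₂ : g₂ ∈ Hb ⊔ Kb)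
        have c1 : Commute b₁ a₂ := (hcomm a₂ ha₂ b₁ hb₁).symm
        have c3 : Commute b₂ a₁ := (hcomm a₁ ha₁ b₂ hb₂).symm
        have c4 : Commute (⁅b₁, b₂⁆) (a₁⁻¹ * a₂⁻¹) :=
          (hcomm _ (Hb.mul_mem (Hb.inv_mem ha₁) (Hb.inv_mem ha₂)) _ (Subgroup.commutator_le_self _ (Subgroup.commutator_mem_commutator hb₁ hb₂))).symm
        have e : ⁅a₁ * b₁, a₂ * b₂⁆ = ⁅a₁, a₂⁆ * ⁅b₁, b₂⁆ := by
          have e2 : b₁ * b₂ * b₁⁻¹ * a₁⁻¹ * b₂⁻¹ * a₂⁻¹ = ⁅b₁, b₂⁆ * (a₁⁻¹ * a₂⁻¹) := by
            have : a₁⁻¹ * b₂⁻¹ = b₂⁻¹ * a₁⁻¹ := c3.inv_inv.eq.symm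
            calc b₁ * b₂ * b₁⁻¹ * a₁⁻¹ * b₂⁻¹ * a₂⁻¹ = b₁ * b₂ * b₁⁻¹ * (a₁⁻¹ * b₂⁻¹) * a₂⁻¹ := by group
              _ = _ := by rw [this, commutatorElement_def]; group
          calc ⁅a₁ * b₁, a₂ * b₂⁆ = a₁ * (b₁ * a₂) * b₂ * b₁⁻¹ * a₁⁻¹ * b₂⁻¹ * a₂⁻¹ := by
                rw [commutatorElement_def]; group
            _ = a₁ * a₂ * (b₁ * b₂ * b₁⁻¹ * a₁⁻¹ * b₂⁻¹ * a₂⁻¹) := by rw [c1.eq]; group
            _ = a₁ * a₂ * ((a₁⁻¹ * a₂⁻¹) * ⁅b₁, b₂⁆) := by rw [e2, c4.eq]
            _ = ⁅a₁, a₂⁆ * ⁅b₁, b₂⁆ := by rw [commutatorElement_def a₁ a₂]; group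
        rw [e]
        exact Subgroup.mul_mem _ (Subgroup.mem_sup_left (Subgroup.commutator_mem_commutator ha₁ ha₂))
          (Subgroup.mem_sup_right (Subgroup.commutator_mem_commutator hb₁ hb₂))
      have hperf : Hb ≤ ⁅Hb, Hb⁆ := by
        intro h hh
        have h0 : h ∈ commutator (G ⧸ ⁅H, K⁆) := by
          obtain ⟨h₀, hh₀, rfl⟩ := hh
          have := Subgroup.mem_map_of_mem q (hle hh₀)
          rw [commutator_def, Subgroup.map_commutator, Subgroup.map_top_of_surjective q (QuotientGroup.mk'_surjective _)] at this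
          exact this
        haveI : (⁅Hb, Hb⁆ : Subgroup _).Normal := Subgroup.commutator_normal Hb Hb
        obtain ⟨a, ha, b, hb, hab⟩ := Subgroup.mem_sup_of_normal_left.1 (hQ h0)
        have hbH : b ∈ Hb ⊓ Kb := ⟨by
          rw [show b = a⁻¹ * h by rw [← hab, inv_mul_cancel_left]]
          exact Hb.mul_mem (Hb.inv_mem (Subgroup.commutator_le_self _ ha)) hh, Subgroup.commutator_le_self _ hb⟩
        rw [Cfsg.Lib.Solv.inf_eq_bot_of_coprime_card ((hcHK.symm.coprime_dvd_left (H.card_map_dvd q)).coprime_dvd_right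
          (K.card_map_dvd q)), Subgroup.mem_bot] at hbH
        rw [← hab, hbH, mul_one]
        exact ha
      have hHbb : Hb = ⊥ := by
        haveI : Group.IsSolvable Hb := inferInstance
        by_contra hne
        haveI : Nontrivial Hb := (Subgroup.nontrivial_iff_ne_bot Hb).2 hne
        refine (Group.IsSolvable.commutator_lt_top_of_nontrivial (G := Hb)).ne (eq_top_iff.2 fun x _ => ?_)
        have h1 : (x : G ⧸ ⁅H, K⁆) ∈ (commutator Hb).map Hb.subtype := by
          rw [Subgroup.map_subtype_commutator]; exact hperf x.2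
        obtain ⟨x', hx', hxe⟩ := h1
        rwa [← show x' = x from Subtype.ext hxe]
      rw [hHb, Subgroup.map_eq_bot_iff, QuotientGroup.ker_mk'] at hHbb
      exact hHbb
    refine ⟨hEq, fun c hc' => ?_⟩
    haveI : (⁅H, H⁆ : Subgroup G).Normal := Subgroup.commutator_normal H H
    set q := QuotientGroup.mk' ⁅H, H⁆ with hq
    haveI : IsMulCommutative ↥(H.map q) := by
      refine ⟨⟨?_⟩⟩
      rintro ⟨_, a, ha, rfl⟩ ⟨_, b, hb, rfl⟩
      refine Subtype.ext ?_
      show q a * q b = q b * q a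
      rw [← commutatorElement_eq_one_iff_mul_comm, ← map_commutatorElement]
      exact (QuotientGroup.eq_one_iff _).2 (Subgroup.commutator_mem_commutator ha hb)
    obtain ⟨hd, -⟩ := Cfsg.Lib.Solv.coprime_abelian_decomposition (K.map q) (H.map q)
      ((Subgroup.map_mono hKn).trans (Subgroup.le_normalizer_map q))
      ((hcHK.coprime_dvd_left (K.card_map_dvd q)).coprime_dvd_right (H.card_map_dvd q))
    rw [← Subgroup.map_commutator, ← hEq] at hd
    have h1 : q c ∈ H.map q ⊓ Subgroup.centralizer ((K.map q : Subgroup _) : Set (G ⧸ ⁅H, H⁆)) ⊓ H.map q := by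
      refine ⟨⟨Subgroup.mem_map_of_mem q hc'.1, Subgroup.mem_centralizer_iff.2 ?_⟩, Subgroup.mem_map_of_mem q hc'.1⟩
      rintro _ ⟨k, hk, rfl⟩
      rw [← map_mul, ← map_mul, Subgroup.mem_centralizer_iff.1 hc'.2 k hk]
    rw [hd, Subgroup.mem_bot] at h1
    exact (QuotientGroup.eq_one_iff c).1 h1
  refine ⟨partA, fun hnil hprime => ?_⟩
  set D := commutator G with hD
  set r := D.index with hr
  haveI := Fact.mk hprime
  have hcop : (Nat.card D).Coprime r := by
    set M := (Cfsg.pPrimeCore r D).map D.subtype with hM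
    haveI : M.Normal := inferInstance
    have hMc : (Nat.card M).Coprime r := by
      rw [hM, Subgroup.card_map_of_injective D.subtype_injective]
      exact Cfsg.Lib.Solv.coprime_pPrimeCore r
    have hpow : ∀ s : ℕ, s.Prime → s ∣ (Cfsg.pPrimeCore r D).index → s = r := by
      intro s hs hsd
      by_contra hne
      haveI := Fact.mk hs
      obtain ⟨T⟩ : Nonempty (Sylow s D) := inferInstance
      have hTn : (T : Subgroup D).Normal :=
        Sylow.normal_of_normalizerCondition (normalizerCondition_of_isNilpotent (G := D)) T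
      obtain ⟨t, ht⟩ := T.isPGroup'.exists_card_eq
      have hle := Cfsg.Lib.Solv.le_pPrimeCore (p := r) hTn (by
        rw [ht]; exact Nat.Coprime.pow_left t ((Nat.coprime_primes hs hprime).2 hne))
      exact T.not_dvd_index (hsd.trans (Subgroup.index_dvd_of_le hle))
    have hQp : IsPGroup r (G ⧸ M) := by
      refine IsPGroup.of_card (n := ((Cfsg.pPrimeCore r D).index).primeFactorsList.length + 1) ?_
      have h1 : Nat.card (G ⧸ M) = (Cfsg.pPrimeCore r D).index * r := by
        rw [← Subgroup.index_eq_card, hM, Subgroup.index_map_subtype]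
      rw [h1, pow_succ, ← Nat.eq_prime_pow_of_unique_prime_dvd Subgroup.index_ne_zero_of_finite
        (fun {d} hd hdd => hpow d hd hdd)]
    set q := QuotientGroup.mk' M with hq
    have hDq : commutator (G ⧸ M) = D.map q := by
      rw [hD, commutator_def, commutator_def, Subgroup.map_commutator,
        Subgroup.map_top_of_surjective q (QuotientGroup.mk'_surjective _)]
    have hidx : (commutator (G ⧸ M)).index = r := by
      rw [hDq, Subgroup.index_map_eq _ (QuotientGroup.mk'_surjective _)]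
      rw [QuotientGroup.ker_mk', hM]
      exact Subgroup.map_subtype_le _
    obtain ⟨x, hx⟩ : ∃ x : G ⧸ M, x ∉ commutator (G ⧸ M) := by
      by_contra hcon
      push Not at hcon
      rw [(eq_top_iff.2 fun x _ => hcon x : commutator (G ⧸ M) = ⊤), Subgroup.index_top] at hidx
      exact hprime.one_lt.ne hidx
    have hcyc : Subgroup.zpowers x = ⊤ := by
      refine frattini_nongenerating (eq_top_iff.2 (le_trans ?_ (sup_le_sup_left (Cfsg.Lib.Solv.commutator_le_frattini hQp) _)))
      refine le_of_eq ?_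
      by_contra hne
      have hlt : commutator (G ⧸ M) < Subgroup.zpowers x ⊔ commutator (G ⧸ M) :=
        lt_of_le_of_ne le_sup_right (fun h => hx (h.symm.le (Subgroup.mem_sup_left (Subgroup.mem_zpowers x))))
      have h2 : (Subgroup.zpowers x ⊔ commutator (G ⧸ M)).index ∣ r := hidx ▸ Subgroup.index_dvd_of_le le_sup_right
      rcases (Nat.dvd_prime hprime).1 h2 with h3 | h3
      · exact hne (Subgroup.index_eq_one.1 h3).symm
      · exact hlt.ne (Subgroup.eq_of_le_of_card_ge hlt.le (Nat.le_of_eq (by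
          have e1 := Subgroup.card_mul_index (commutator (G ⧸ M))
          have e2 := Subgroup.card_mul_index (Subgroup.zpowers x ⊔ commutator (G ⧸ M))
          rw [hidx] at e1; rw [h3] at e2
          exact Nat.eq_of_mul_eq_mul_right hprime.pos (e2.trans e1.symm))))
    have hab : commutator (G ⧸ M) = ⊥ := by
      rw [commutator_def, Subgroup.commutator_eq_bot_iff_le_centralizer]
      intro a _
      refine Subgroup.mem_centralizer_iff.2 fun b _ => ?_
      have ha : a ∈ Subgroup.zpowers x := hcyc ▸ Subgroup.mem_top a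
      have hb : b ∈ Subgroup.zpowers x := hcyc ▸ Subgroup.mem_top b
      obtain ⟨i, rfl⟩ := Subgroup.mem_zpowers_iff.1 ha
      obtain ⟨j, rfl⟩ := Subgroup.mem_zpowers_iff.1 hb
      exact ((Commute.refl x).zpow_zpow j i).eq
    rw [hDq, Subgroup.map_eq_bot_iff, QuotientGroup.ker_mk'] at hab
    exact hMc.coprime_dvd_left (Subgroup.card_dvd_of_le hab)
  refine ⟨hcop, fun K hK => le_antisymm ?_ ?_⟩
  · calc D = ⁅D, K⁆ := (partA D K inferInstance hcop hK le_rfl).1
      _ ≤ ⁅(⊤ : Subgroup G), K⁆ := Subgroup.commutator_mono le_top le_rfl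
  · exact Subgroup.commutator_mono le_top le_top

end Cfsg.Agent.S1459
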