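import Cfsg.Statements.S1460
import Mathlib
import Mathlib
import Cfsg.Agent.Lib.Solv.SchurZassenhaus
import Cfsg.Agent.Lib.Solv.Coprime
-- import your own Cfsg.Agent.* helpers here

set_option autoImplicit false
open Cfsg
open scoped Pointwise commutatorElement

namespace Cfsg.Agent.S1460

/-- Let G be a finite solvable group, K a normal subgroup and U a subgroup with G = KU, and H ≤ U a subgroup whose order is coprime to that of K. Then H ∩ G' = H ∩ U'; N_G(H) is generated by K ∩ C_G(H) and U ∩ N_G(H); and if gHg⁻¹ ≤ U for some g ∈ G then g = u c with u ∈ U and c ∈ K ∩ C_G(H). -/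
theorem result {G : Type*} [Group G] [Finite G] [Group.IsSolvable G] (K U H : Subgroup G) [K.Normal] (hKU : K ⊔ U = ⊤) (hH : H ≤ U) (hcop : (Nat.card H).Coprime (Nat.card K)) :
    H ⊓ commutator G = H ⊓ ⁅U, U⁆ ∧
      Subgroup.normalizer (H : Set G) = (K ⊓ Subgroup.centralizer (H : Set G)) ⊔ (U ⊓ Subgroup.normalizer (H : Set G)) ∧
      ∀ g : G, H.map (MulAut.conj g).toMonoidHom ≤ U → ∃ u ∈ U, ∃ c ∈ K ⊓ Subgroup.centralizer (H : Set G), g = u * c := by
  classical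
  have hKH : ∀ z, z ∈ K → z ∈ H → z = 1 := fun z hz hzH => by
    have h1 : z ∈ H ⊓ K := ⟨hzH, hz⟩
    rwa [Cfsg.Lib.Solv.inf_eq_bot_of_coprime_card hcop, Subgroup.mem_bot] at h1
  have hdec : ∀ g : G, ∃ u ∈ U, ∃ k ∈ K, u * k = g := fun g =>
    Subgroup.mem_sup_of_normal_right.1 (by rw [sup_comm, hKU]; exact Subgroup.mem_top g)
  have hmain : ∀ g : G, H.map (MulAut.conj g).toMonoidHom ≤ U →
      ∃ u ∈ U, ∃ c ∈ K ⊓ Subgroup.centralizer (H : Set G), g = u * c := by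
    intro g hg
    obtain ⟨u, hu, k, hk, rfl⟩ := hdec g
    set N := K ⊓ U with hN
    have hconj : ∀ h ∈ H, k * h * k⁻¹ ∈ U := fun h hh => by
      have h1 : u * k * h * (u * k)⁻¹ ∈ U := hg ⟨h, hh, rfl⟩
      have h2 := U.mul_mem (U.mul_mem (U.inv_mem hu) h1) hu
      simpa [mul_assoc] using h2
    have hHN : H ≤ Subgroup.normalizer (N : Set G) := by
      refine le_trans hH (le_trans (le_of_eq rfl) fun x hx => ?_)
      refine Subgroup.mem_normalizer_fintype fun n hn => ⟨‹K.Normal›.conj_mem n hn.1 x, ?_⟩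
      exact U.mul_mem (U.mul_mem hx hn.2) (U.inv_mem hx)
    have hU' : MulAut.conj k • H ≤ H ⊔ N := by
      intro z hz
      obtain ⟨h, hh, rfl⟩ := hz
      have h1 : h⁻¹ * (k * h * k⁻¹) ∈ N := ⟨by
        rw [show h⁻¹ * (k * h * k⁻¹) = h⁻¹ * k * h * k⁻¹ by group]
        exact K.mul_mem (by simpa using ‹K.Normal›.conj_mem k hk h⁻¹) (K.inv_mem hk),
        U.mul_mem (U.inv_mem (hH hh)) (hconj h hh)⟩
      show k * h * k⁻¹ ∈ H ⊔ N
      rw [← mul_inv_cancel_left h (k * h * k⁻¹)]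
      exact Subgroup.mul_mem _ (Subgroup.mem_sup_left hh) (Subgroup.mem_sup_right h1)
    have hcopN : (Nat.card H).Coprime (Nat.card N) := hcop.coprime_dvd_right (Subgroup.card_dvd_of_le inf_le_left)
    obtain ⟨n, hn, hle⟩ := Cfsg.Lib.Solv.exists_conj_le N H (MulAut.conj k • H) hHN hU' hcopN
      (by rw [Cfsg.Lib.Solv.card_conj_smul]; exact hcopN) (Or.inl inferInstance)
    refine ⟨u * n, U.mul_mem hu hn.2, n⁻¹ * k, ⟨K.mul_mem (K.inv_mem hn.1) hk, ?_⟩, by group⟩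
    refine Subgroup.mem_centralizer_iff.2 fun h hh => ?_
    have h1 : n⁻¹ * k * h * (n⁻¹ * k)⁻¹ ∈ H := by
      have h2 := hle (Subgroup.smul_mem_pointwise_smul h (MulAut.conj k) H hh)
      rw [Cfsg.Lib.Solv.mem_conj_smul] at h2
      simpa [mul_assoc] using h2
    have hc : n⁻¹ * k ∈ K := K.mul_mem (K.inv_mem hn.1) hk
    have h3 : n⁻¹ * k * h * (n⁻¹ * k)⁻¹ * h⁻¹ = 1 := hKH _ (by
      rw [show n⁻¹ * k * h * (n⁻¹ * k)⁻¹ * h⁻¹ = n⁻¹ * k * (h * (n⁻¹ * k)⁻¹ * h⁻¹) by group]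
      exact K.mul_mem hc (‹K.Normal›.conj_mem _ (K.inv_mem hc) h)) (H.mul_mem h1 (H.inv_mem hh))
    rw [mul_inv_eq_one] at h3
    calc h * (n⁻¹ * k) = n⁻¹ * k * h * (n⁻¹ * k)⁻¹ * (n⁻¹ * k) := by rw [h3]
      _ = n⁻¹ * k * h := by group
  refine ⟨?_, ?_, hmain⟩
  · refine le_antisymm (fun h hh => ⟨hh.1, ?_⟩) (inf_le_inf_left _ ?_)
    · rw [commutator_def]; exact Subgroup.commutator_mono le_top le_top
    set q := QuotientGroup.mk' K
    have hle : commutator G ≤ ⁅U, U⁆ ⊔ K := by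
      rw [← QuotientGroup.ker_mk' K, ← Subgroup.comap_map_eq, ← Subgroup.map_le_iff_le_comap,
        commutator_def, Subgroup.map_commutator, Subgroup.map_commutator]
      have h1 : U.map q = (⊤ : Subgroup G).map q := by
        rw [← hKU, Subgroup.map_sup, (Subgroup.map_eq_bot_iff K).2 (QuotientGroup.ker_mk' K).ge, bot_sup_eq]
      rw [h1]
    obtain ⟨n, hn, o, ho, hno⟩ := Subgroup.mem_sup_of_normal_right.1 (hle hh.2)
    have hnU : n ∈ U := Subgroup.commutator_le_self U hn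
    have hoU : o ∈ U := by
      rw [show o = n⁻¹ * h by rw [← hno, inv_mul_cancel_left]]
      exact U.mul_mem (U.inv_mem hnU) (hH hh.1)
    let π := Abelianization.of (G := U)
    have hπn : π ⟨n, hnU⟩ = 1 := by
      have hn' : n ∈ (commutator U).map U.subtype := by rw [Subgroup.map_subtype_commutator]; exact hn
      obtain ⟨n', hn', hne⟩ := hn'
      rw [show (⟨n, hnU⟩ : U) = n' from Subtype.ext hne.symm]
      exact (QuotientGroup.eq_one_iff n').2 hn'
    have hπs : π ⟨h, hH hh.1⟩ = π ⟨o, hoU⟩ := by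
      rw [show (⟨h, hH hh.1⟩ : U) = ⟨n, hnU⟩ * ⟨o, hoU⟩ from Subtype.ext hno.symm, map_mul, hπn, one_mul]
    have h1 : π ⟨h, hH hh.1⟩ = 1 := by
      have ha : π ⟨h, hH hh.1⟩ ^ orderOf h = 1 := by
        rw [← map_pow, show (⟨h, hH hh.1⟩ : U) ^ orderOf h = 1 from Subtype.ext (pow_orderOf_eq_one h), map_one]
      have hb : π ⟨h, hH hh.1⟩ ^ orderOf o = 1 := by
        rw [hπs, ← map_pow, show (⟨o, hoU⟩ : U) ^ orderOf o = 1 from Subtype.ext (pow_orderOf_eq_one o), map_one]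
      have hc := pow_gcd_eq_one.2 ⟨ha, hb⟩
      rwa [((hcop.coprime_dvd_left (Subgroup.orderOf_dvd_natCard _ hh.1)).coprime_dvd_right
        (Subgroup.orderOf_dvd_natCard _ ho)).gcd_eq_one, pow_one] at hc
    rw [← Subgroup.map_subtype_commutator]
    exact ⟨_, (QuotientGroup.eq_one_iff _).1 h1, rfl⟩
  · refine le_antisymm (fun g hg => ?_) (sup_le (inf_le_right.trans ?_) inf_le_right)
    · obtain ⟨u, hu, c, hc, rfl⟩ := hmain g (by
        rintro _ ⟨h, hh, rfl⟩
        exact hH ((Subgroup.mem_normalizer_iff.1 hg h).1 hh))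
      have hcN : c ∈ Subgroup.normalizer (H : Set G) := Subgroup.centralizer_le_normalizer (H : Set G) hc.2
      have huN : u ∈ Subgroup.normalizer (H : Set G) := by
        simpa using Subgroup.mul_mem _ hg (Subgroup.inv_mem _ hcN)
      exact Subgroup.mul_mem _ (Subgroup.mem_sup_right ⟨hu, huN⟩) (Subgroup.mem_sup_left hc)
    · exact Subgroup.centralizer_le_normalizer (H : Set G)

end Cfsg.Agent.S1460
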