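import Cfsg.Statements.S1461
import Mathlib
import Mathlib
import Cfsg.Agent.Lib.Solv.PLengthOneCons
-- import your own Cfsg.Agent.* helpers here

set_option autoImplicit false
open Cfsg

namespace Cfsg.Agent.S1461

/-- Let G be a finite solvable group, p a prime with G = O_{p',p,p'}(G), and S a Sylow p-subgroup. Then: if S ≤ G' then S ≤ [N_G(S), N_G(S)]; if Y ⊆ S and xYx⁻¹ ⊆ S then x = g c for some g ∈ N_G(S) and c centralizing Y; and for every p-subgroup Q there is x ∈ C_G(Q ∩ S) with xQx⁻¹ ≤ S. -/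
theorem result {G : Type*} [Group G] [Finite G] [Group.IsSolvable G] (p : ℕ) [Fact p.Prime] (hpl : Cfsg.PLengthLE p 1 G) (S : Sylow p G) :
    ((S : Subgroup G) ≤ commutator G → (S : Subgroup G) ≤ ⁅Subgroup.normalizer ((S : Subgroup G) : Set G), Subgroup.normalizer ((S : Subgroup G) : Set G)⁆) ∧
      (∀ (Y : Set G) (x : G), Y ⊆ (S : Subgroup G) → (fun y => x * y * x⁻¹) '' Y ⊆ (S : Subgroup G) →
        ∃ g ∈ Subgroup.normalizer ((S : Subgroup G) : Set G), ∃ c ∈ Subgroup.centralizer Y, g * c = x) ∧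
      ∀ Q : Subgroup G, IsPGroup p Q → ∃ x ∈ Subgroup.centralizer ((Q ⊓ (S : Subgroup G) : Subgroup G) : Set G), Q.map (MulAut.conj x).toMonoidHom ≤ (S : Subgroup G) := by
  classical
  set U := Cfsg.pPrimeCore p G with hU
  set q := QuotientGroup.mk' U with hq
  haveI : U.Normal := inferInstance
  set K := (Cfsg.pCore p (G ⧸ U)).comap q with hK
  haveI : K.Normal := inferInstance
  have hmap := Cfsg.Lib.Solv.map_sylow_eq_pCore hpl S
  have hKU : K = (S : Subgroup G) ⊔ U := by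
    rw [hK, ← hmap, Subgroup.comap_map_eq, QuotientGroup.ker_mk']
  have hSK : (S : Subgroup G) ≤ K := hKU ▸ le_sup_left
  set N := Subgroup.normalizer ((S : Subgroup G) : Set G) with hN
  have hNU : N ⊔ U = ⊤ := by
    have h := Sylow.normalizer_sup_eq_top (S.subtype hSK)
    have hm : ((S.subtype hSK : Subgroup K)).map K.subtype = S := by
      rw [Sylow.coe_subtype, Subgroup.subgroupOf_map_subtype, inf_eq_left.2 hSK]
    rw [hm, hKU, ← sup_assoc] at h
    rw [← h]
    congr 1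
    exact (sup_eq_left.2 (Subgroup.le_normalizer)).symm
  have hdisj : ∀ z, z ∈ U → z ∈ (S : Subgroup G) → z = 1 := by
    intro z hz hzS
    obtain ⟨k, hk⟩ := S.isPGroup' ⟨z, hzS⟩
    have hk' : z ^ p ^ k = 1 := congr_arg Subtype.val hk
    have h1 := (Cfsg.Lib.Solv.coprime_pPrimeCore (G := G) p).coprime_dvd_left
      (Subgroup.orderOf_dvd_natCard _ hz)
    have h2 := Nat.Coprime.pow_right k h1
    exact orderOf_eq_one_iff.1 (Nat.Coprime.eq_one_of_dvd h2 (orderOf_dvd_of_pow_eq_one hk'))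
  have hfix : ∀ o ∈ U, ∀ y ∈ (S : Subgroup G), o * y * o⁻¹ ∈ (S : Subgroup G) → o * y * o⁻¹ = y := by
    intro o ho y hy hoy
    have h1 : o * y * o⁻¹ * y⁻¹ = 1 := hdisj _ (by
      rw [show o * y * o⁻¹ * y⁻¹ = o * (y * o⁻¹ * y⁻¹) by group]
      exact U.mul_mem ho (‹U.Normal›.conj_mem _ (U.inv_mem ho) y)) (Subgroup.mul_mem _ hoy (Subgroup.inv_mem _ hy))
    exact mul_inv_eq_one.1 h1
  refine ⟨fun hSG => ?_, ?_, ?_⟩
  · -- focal part
    have hle : commutator G ≤ ⁅N, N⁆ ⊔ U := by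
      rw [← QuotientGroup.ker_mk' U, ← Subgroup.comap_map_eq, ← Subgroup.map_le_iff_le_comap,
        commutator_def, Subgroup.map_commutator, Subgroup.map_commutator]
      have h1 : N.map q = (⊤ : Subgroup G).map q := by
        rw [← hNU, Subgroup.map_sup]
        refine (sup_eq_left.2 ?_).symm
        rw [(Subgroup.map_eq_bot_iff U).2 (QuotientGroup.ker_mk' U).ge]
        exact bot_le
      rw [h1]
    intro s hs
    obtain ⟨n, hn, o, ho, hno⟩ := Subgroup.mem_sup_of_normal_right.1 (hle (hSG hs))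
    have hnN : n ∈ N := Subgroup.commutator_le_self N hn
    have hoN : o ∈ N := by
      rw [show o = n⁻¹ * s by rw [← hno, inv_mul_cancel_left]]
      exact N.mul_mem (N.inv_mem hnN) (Subgroup.le_normalizer hs)
    let π := Abelianization.of (G := N)
    have hπn : π ⟨n, hnN⟩ = 1 := by
      have hn' : n ∈ (commutator N).map N.subtype := by rw [Subgroup.map_subtype_commutator]; exact hn
      obtain ⟨n', hn', hne⟩ := hn'
      rw [show (⟨n, hnN⟩ : N) = n' from Subtype.ext hne.symm]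
      exact (QuotientGroup.eq_one_iff n').2 hn'
    have hπs : π ⟨s, Subgroup.le_normalizer hs⟩ = π ⟨o, hoN⟩ := by
      rw [show (⟨s, Subgroup.le_normalizer hs⟩ : N) = ⟨n, hnN⟩ * ⟨o, hoN⟩ from Subtype.ext hno.symm, map_mul, hπn, one_mul]
    have h1 : π ⟨s, Subgroup.le_normalizer hs⟩ = 1 := by
      obtain ⟨k, hk⟩ := S.isPGroup' ⟨s, hs⟩
      have hk' : (⟨s, Subgroup.le_normalizer hs⟩ : N) ^ p ^ k = 1 := by
        have := congr_arg Subtype.val hk
        exact Subtype.ext this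
      have ha : π ⟨s, Subgroup.le_normalizer hs⟩ ^ p ^ k = 1 := by rw [← map_pow, hk', map_one]
      have hb : π ⟨s, Subgroup.le_normalizer hs⟩ ^ orderOf o = 1 := by
        rw [hπs, ← map_pow, show (⟨o, hoN⟩ : N) ^ orderOf o = 1 from Subtype.ext (pow_orderOf_eq_one o), map_one]
      have hc := pow_gcd_eq_one.2 ⟨ha, hb⟩
      rwa [(Nat.Coprime.pow_left k (((Cfsg.Lib.Solv.coprime_pPrimeCore (G := G) p).coprime_dvd_left
        (Subgroup.orderOf_dvd_natCard _ ho)).symm)).gcd_eq_one, pow_one] at hc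
    rw [← Subgroup.map_subtype_commutator]
    exact ⟨_, (QuotientGroup.eq_one_iff _).1 h1, rfl⟩
  · intro Y x hY hxY
    have hx : x ∈ N ⊔ U := by rw [hNU]; exact Subgroup.mem_top x
    obtain ⟨n, hn, o, ho, rfl⟩ := Subgroup.mem_sup_of_normal_right.1 hx
    refine ⟨n, hn, o, Subgroup.mem_centralizer_iff.2 fun y hy => ?_, rfl⟩
    have h1 : o * y * o⁻¹ ∈ (S : Subgroup G) := by
      have h2 : n * o * y * (n * o)⁻¹ ∈ (S : Subgroup G) := hxY ⟨y, hy, rfl⟩
      have h3 := (Subgroup.mem_normalizer_iff''.1 hn _).1 h2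
      simpa [mul_assoc] using h3
    calc y * o = o * y * o⁻¹ * o := by rw [hfix o ho y (hY hy) h1]
      _ = o * y := by group
  · intro Q hQ
    have hQK : Q ≤ K := by
      rw [hK, ← Subgroup.map_le_iff_le_comap]
      obtain ⟨T, hT⟩ := hQ.exists_le_sylow
      exact (Subgroup.map_mono hT).trans (Cfsg.Lib.Solv.map_sylow_eq_pCore hpl T).le
    obtain ⟨T, hT⟩ := (hQ.comap_subtype (K := K)).exists_le_sylow
    obtain ⟨g, hg⟩ := MulAction.exists_smul_eq K T (S.subtype hSK)
    have hgS : ∀ z ∈ Q, (g : G) * z * (g : G)⁻¹ ∈ (S : Subgroup G) := by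
      intro z hz
      have h1 : g * ⟨z, hQK hz⟩ * g⁻¹ ∈ ((g • T : Sylow p K) : Subgroup K) :=
        ⟨⟨z, hQK hz⟩, hT hz, rfl⟩
      rw [hg] at h1
      exact h1
    have hgm : (g : G) ∈ (S : Subgroup G) ⊔ U := hKU ▸ g.2
    obtain ⟨s, hs, o, ho, hso⟩ := Subgroup.mem_sup_of_normal_right.1 hgm
    have hoS : ∀ z ∈ Q, o * z * o⁻¹ ∈ (S : Subgroup G) := by
      intro z hz
      have h1 := hgS z hz
      rw [← hso] at h1
      have h2 := Subgroup.mul_mem _ (Subgroup.mul_mem _ (Subgroup.inv_mem _ hs) h1) hs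
      simpa [mul_assoc] using h2
    refine ⟨o, Subgroup.mem_centralizer_iff.2 fun y hy => ?_, ?_⟩
    · calc y * o = o * y * o⁻¹ * o := by rw [hfix o ho y hy.2 (hoS y hy.1)]
        _ = o * y := by group
    · rintro _ ⟨z, hz, rfl⟩
      exact hoS z hz

end Cfsg.Agent.S1461
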