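import Cfsg.Statements.S1462
import Mathlib
import Mathlib
import Cfsg.Agent.Lib.Solv.PLengthOneCons
import Cfsg.Agent.Lib.Solv.Coprime2
import Cfsg.Agent.Lib.Transfer.Critical
-- import your own Cfsg.Agent.* helpers here

set_option autoImplicit false
open Cfsg

namespace Cfsg.Agent.S1462

/-- Let G be a finite solvable group, p an odd prime with G = O_{p',p,p'}(G), E an elementary abelian p-subgroup contained in no larger elementary abelian p-subgroup of G, and L a subgroup of order coprime to p normalized by E. Then L ≤ O_{p'}(G). -/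
theorem result {G : Type*} [Group G] [Finite G] [Group.IsSolvable G] (p : ℕ) [Fact p.Prime] (hp : p ≠ 2) (hpl : Cfsg.PLengthLE p 1 G) (E L : Subgroup G) (hE : Cfsg.IsElementaryAbelian p E)
    (hEmax : ∀ B : Subgroup G, Cfsg.IsElementaryAbelian p B → E ≤ B → B = E) (hL : (Nat.card L).Coprime p) (hEL : E ≤ Subgroup.normalizer (L : Set G)) :
    L ≤ Cfsg.pPrimeCore p G := by
  classical
  set U := Cfsg.pPrimeCore p G with hU
  set q := QuotientGroup.mk' U with hq
  haveI : U.Normal := inferInstance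
  obtain ⟨S, hES⟩ : ∃ S : Sylow p G, E ≤ (S : Subgroup G) := by
    refine IsPGroup.exists_le_sylow fun x => ⟨1, ?_⟩
    rw [pow_one]
    exact Subtype.ext (hE.2 x x.2)
  set P₀ := Cfsg.pCore p (G ⧸ U) with hP₀
  have hmap : (S : Subgroup G).map q = P₀ := Cfsg.Lib.Solv.map_sylow_eq_pCore hpl S
  have hinj : ∀ s ∈ (S : Subgroup G), q s = 1 → s = 1 := by
    intro s hs h1
    obtain ⟨k, hk⟩ := S.isPGroup' ⟨s, hs⟩
    have hk' : s ^ p ^ k = 1 := congr_arg Subtype.val hk
    have h2 := (Cfsg.Lib.Solv.coprime_pPrimeCore (G := G) p).coprime_dvd_left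
      (Subgroup.orderOf_dvd_natCard _ ((QuotientGroup.eq_one_iff s).1 h1))
    exact orderOf_eq_one_iff.1
      (Nat.Coprime.eq_one_of_dvd (Nat.Coprime.pow_right k h2) (orderOf_dvd_of_pow_eq_one hk'))
  set E' := E.map q with hE'
  set L' := L.map q with hL'
  have hE'P : E' ≤ P₀ := hmap ▸ Subgroup.map_mono hES
  have hP₀p : IsPGroup p P₀ := Cfsg.Lib.Solv.isPGroup_pCore p
  have hL'c : (Nat.card L').Coprime p := hL.coprime_dvd_left (L.card_map_dvd q)
  have hLP : ∀ z, z ∈ L' → z ∈ P₀ → z = 1 := by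
    intro z hz hzP
    obtain ⟨k, hk⟩ := hP₀p ⟨z, hzP⟩
    have hk' : z ^ p ^ k = 1 := congr_arg Subtype.val hk
    exact orderOf_eq_one_iff.1 (Nat.Coprime.eq_one_of_dvd
      (Nat.Coprime.pow_right k (hL'c.coprime_dvd_left (Subgroup.orderOf_dvd_natCard _ hz))) (orderOf_dvd_of_pow_eq_one hk'))
  have hEL' : E' ≤ Subgroup.normalizer (L' : Set (G ⧸ U)) :=
    (Subgroup.map_mono hEL).trans (Subgroup.le_normalizer_map q)
  have hcomm : ∀ e ∈ E', ∀ l ∈ L', e * l = l * e := by
    intro e he l hl
    have h1 : e * l * e⁻¹ * l⁻¹ = 1 := by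
      refine hLP _ (L'.mul_mem ((Subgroup.mem_normalizer_iff.1 (hEL' he) l).1 hl) (L'.inv_mem hl)) ?_
      rw [show e * l * e⁻¹ * l⁻¹ = e * (l * e⁻¹ * l⁻¹) by group]
      exact P₀.mul_mem (hE'P he) ((inferInstance : P₀.Normal).conj_mem _ (P₀.inv_mem (hE'P he)) l)
    calc e * l = e * l * e⁻¹ * l⁻¹ * (l * e) := by group
      _ = l * e := by rw [h1, one_mul]
  set C := P₀ ⊓ Subgroup.centralizer (E' : Set (G ⧸ U)) with hC
  have homega : ∀ x ∈ C, x ^ p = 1 → x ∈ E' := by
    intro x hx hxp
    obtain ⟨s, hs, rfl⟩ := (show x ∈ (S : Subgroup G).map q from hmap ▸ hx.1)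
    have hsp : s ^ p = 1 := hinj _ (Subgroup.pow_mem _ hs p) (by rw [map_pow, hxp])
    have hse : ∀ e ∈ E, e * s = s * e := by
      intro e he
      have h1 := Subgroup.mem_centralizer_iff.1 hx.2 (q e) (Subgroup.mem_map_of_mem q he)
      have h2 := hinj (e * s * e⁻¹ * s⁻¹)
        (Subgroup.mul_mem _ (Subgroup.mul_mem _ (Subgroup.mul_mem _ (hES he) hs) (Subgroup.inv_mem _ (hES he)))
          (Subgroup.inv_mem _ hs))
        (by rw [map_mul, map_mul, map_mul, map_inv, map_inv, h1]; group)
      calc e * s = e * s * e⁻¹ * s⁻¹ * (s * e) := by group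
        _ = s * e := by rw [h2, one_mul]
    have hB : Cfsg.IsElementaryAbelian p (Subgroup.closure ((E : Set G) ∪ {s})) := by
      have hcm : ∀ u ∈ (E : Set G) ∪ {s}, ∀ v ∈ (E : Set G) ∪ {s}, u * v = v * u := by
        rintro u (hu | rfl) v (hv | rfl)
        · exact congr_arg Subtype.val (hE.1.is_comm.comm ⟨u, hu⟩ ⟨v, hv⟩)
        · exact hse u hu
        · exact (hse v hv).symm
        · rfl
      have hcomm' := Subgroup.isMulCommutative_closure hcm
      refine ⟨hcomm', fun z hz => ?_⟩
      induction hz using Subgroup.closure_induction with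
      | mem u hu =>
        rcases hu with hu | rfl
        · exact hE.2 u hu
        · exact hsp
      | one => exact one_pow p
      | mul u v hu hv hu' hv' =>
        have hc : Commute u v := congr_arg Subtype.val (hcomm'.is_comm.comm ⟨u, hu⟩ ⟨v, hv⟩)
        rw [hc.mul_pow, hu', hv', one_mul]
      | inv u _ hu' => rw [inv_pow, hu', inv_one]
    have h1 := hEmax _ hB (fun e he => Subgroup.subset_closure (Or.inl he))
    exact Subgroup.mem_map_of_mem q (h1 ▸ Subgroup.subset_closure (Or.inr rfl))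
  have hfixC : C ≤ Subgroup.centralizer (L' : Set (G ⧸ U)) := by
    intro x hx
    refine Subgroup.mem_centralizer_iff.2 fun l hl => ?_
    have hlC : ∀ c, c ∈ C ↔ MulAut.conj l c ∈ C := by
      intro c
      have hlE : l ∈ Subgroup.centralizer (E' : Set (G ⧸ U)) :=
        Subgroup.mem_centralizer_iff.2 fun e he => hcomm e he l hl
      simp only [hC, Subgroup.mem_inf, MulAut.conj_apply]
      refine and_congr ⟨fun h => (inferInstance : P₀.Normal).conj_mem c h l, fun h => ?_⟩
        ⟨fun h => Subgroup.mul_mem _ (Subgroup.mul_mem _ hlE h) (Subgroup.inv_mem _ hlE), fun h => ?_⟩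
      · simpa [mul_assoc] using (inferInstance : P₀.Normal).conj_mem _ h l⁻¹
      · simpa [mul_assoc] using Subgroup.mul_mem _ (Subgroup.mul_mem _ (Subgroup.inv_mem _ hlE) h) hlE
    let f : C ≃* C :=
      { toFun := fun c => ⟨MulAut.conj l c, (hlC c).1 c.2⟩
        invFun := fun c => ⟨(MulAut.conj l).symm c, (hlC _).2 (by rw [MulEquiv.apply_symm_apply]; exact c.2)⟩
        left_inv := fun c => Subtype.ext ((MulAut.conj l).symm_apply_apply _)
        right_inv := fun c => Subtype.ext ((MulAut.conj l).apply_symm_apply _)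
        map_mul' := fun a b => Subtype.ext (map_mul (MulAut.conj l) _ _) }
    have hit : ∀ (n : ℕ) (c : C), ((f^[n] c : C) : G ⧸ U) = l ^ n * c * (l ^ n)⁻¹ := by
      intro n
      induction n with
      | zero => intro c; simp
      | succ n ih =>
        intro c
        rw [Function.iterate_succ_apply']
        show l * ((f^[n] c : C) : G ⧸ U) * l⁻¹ = _
        rw [ih, pow_succ']
        group
    have hfx := Cfsg.Lib.Transfer.fixed_of_fix_omega hp (Nat.card C) C rfl (hP₀p.to_le inf_le_left) f (orderOf l)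
      (hL'c.coprime_dvd_left (Subgroup.orderOf_dvd_natCard _ hl))
      (fun c => Subtype.ext (by rw [hit, pow_orderOf_eq_one]; simp))
      (fun c hc => Subtype.ext (by
        have h1 := hcomm c (homega c c.2 (congr_arg Subtype.val hc)) l hl
        show l * (c : G ⧸ U) * l⁻¹ = c
        rw [← h1, mul_inv_cancel_right]))
      ⟨x, hx⟩
    have h2 : l * x * l⁻¹ = x := congr_arg Subtype.val hfx
    calc l * x = l * x * l⁻¹ * l := by group
      _ = x * l := by rw [h2]
  have hQ := Cfsg.Lib.Solv.thompson_PxQ E' L' P₀ (hP₀p.to_le hE'P) hL'c hP₀p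
    (fun e he => Subgroup.mem_centralizer_iff.2 fun l hl => (hcomm e he l hl).symm)
    (by rw [Subgroup.normalizer_eq_top]; exact le_top) (by rw [Subgroup.normalizer_eq_top]; exact le_top) hfixC
  have hcs := Cfsg.Lib.Solv.centralizer_pCore_le (G := G ⧸ U) p (Cfsg.Lib.Solv.pPrimeCore_quotient_eq_bot (G := G) p)
  intro l hl
  refine (QuotientGroup.eq_one_iff l).1 ?_
  exact hLP _ (Subgroup.mem_map_of_mem q hl) (hcs (hQ (Subgroup.mem_map_of_mem q hl)))

end Cfsg.Agent.S1462
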