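import Cfsg.Statements.S1463
import Mathlib
import Mathlib
import Cfsg.Agent.Lib.PStable.QuadraticPair
-- import your own Cfsg.Agent.* helpers here

set_option autoImplicit false
open scoped MatrixGroups
open Cfsg

namespace Cfsg.Agent.S1463

/-- Let F be a field of odd characteristic p and H a finite subgroup of odd order of GL(2, F) that leaves no 1-dimensional subspace of F² invariant. Then p does not divide the order of H. -/
theorem result {F : Type*} [Field F] (p : ℕ) [Fact p.Prime] [CharP F p] (hp : p ≠ 2)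
    (H : Subgroup (GL (Fin 2) F)) [Finite H] (hodd : Odd (Nat.card H))
    (hirr : ∀ v : Fin 2 → F, v ≠ 0 → ∃ g ∈ H, (g : Matrix (Fin 2) (Fin 2) F).mulVec v ∉ Submodule.span F {v}) :
    ¬ p ∣ Nat.card H := by
  classical
  intro hdvd
  have hpp : p.Prime := Fact.out
  let φ : GL (Fin 2) F →* Module.End F (Fin 2 → F) :=
    (Matrix.toLinAlgEquiv' (R := F) (n := Fin 2)).toMonoidHom.comp (Units.coeHom _)
  have hφ : ∀ (g : GL (Fin 2) F) v, φ g v = (g : Matrix (Fin 2) (Fin 2) F).mulVec v := fun g v => rfl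
  have hφinv : ∀ (g : GL (Fin 2) F) v, φ g⁻¹ (φ g v) = v := fun g v => by
    rw [← Module.End.mul_apply, ← map_mul, inv_mul_cancel, map_one, Module.End.one_apply]
  have hφinj : Function.Injective φ := (Matrix.toLinAlgEquiv' (R := F) (n := Fin 2)).injective.comp Units.val_injective
  obtain ⟨aH, haH⟩ := exists_prime_orderOf_dvd_card' (G := H) p hdvd
  set a : GL (Fin 2) F := (aH : GL (Fin 2) F) with hadef
  have hap : a ^ p = 1 := by rw [hadef, ← Subgroup.coe_pow, ← haH, pow_orderOf_eq_one]; rfl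
  have ha1 : a ≠ 1 := fun h => hpp.ne_one (by rw [← haH, ← Subgroup.orderOf_coe, ← hadef, h, orderOf_one])
  set N := φ a - 1 with hN
  haveI : CharP (Polynomial F) p := inferInstance
  have hNp : N ^ p = 0 := by
    have h1 : (Polynomial.X - 1 : Polynomial F) ^ p = Polynomial.X ^ p - 1 := by rw [sub_pow_char, one_pow]
    have h := congr_arg (Polynomial.aeval (φ a)) h1
    rw [map_pow, map_sub, map_sub, map_pow, Polynomial.aeval_X, map_one, ← map_pow, hap, map_one, sub_self] at h
    exact h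
  have hN2 : ∀ w, N (N w) = 0 := by
    intro w
    have h1 := Module.End.ker_pow_le_ker_pow_finrank N p (show w ∈ LinearMap.ker (N ^ p) by rw [hNp]; simp)
    rw [Module.finrank_fin_fun, LinearMap.mem_ker, sq, Module.End.mul_apply] at h1
    exact h1
  obtain ⟨w₀, hw₀⟩ : ∃ w, N w ≠ 0 := by
    by_contra h
    push Not at h
    refine ha1 (hφinj ?_)
    rw [map_one]
    exact sub_eq_zero.1 (LinearMap.ext h)
  set v₀ := N w₀ with hv₀
  set L := Submodule.span F ({v₀} : Set (Fin 2 → F)) with hL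
  have hfixL : ∀ v, φ a v = v → v ∈ L := by
    intro v hv
    have h1 : L ≤ LinearMap.ker N := by
      rw [hL, Submodule.span_le, Set.singleton_subset_iff]
      exact hN2 w₀
    have h2 : LinearMap.ker N ≠ ⊤ := fun h => hw₀ (by
      have : w₀ ∈ LinearMap.ker N := h ▸ Submodule.mem_top
      exact this)
    have h3 := Submodule.finrank_lt h2
    rw [Module.finrank_fin_fun] at h3
    have h4 : L = LinearMap.ker N := Submodule.eq_of_le_of_finrank_le h1 (by
      rw [hL, finrank_span_singleton hw₀]; omega)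
    rw [h4, LinearMap.mem_ker, hN, LinearMap.sub_apply, Module.End.one_apply, hv, sub_self]
  obtain ⟨h, hhH, hhv⟩ := hirr v₀ hw₀
  set b := h * a * h⁻¹ with hb
  have hbH : b ∈ H := H.mul_mem (H.mul_mem hhH aH.2) (H.inv_mem hhH)
  have hquadA : ∀ w, φ a (φ a w - w) = φ a w - w := fun w => sub_eq_zero.1 (hN2 w)
  have hconjb : ∀ w, φ b w = φ h (φ a (φ h⁻¹ w)) := fun w => by
    rw [hb, map_mul, map_mul, Module.End.mul_apply, Module.End.mul_apply]
  have hquadB : ∀ w, φ b (φ b w - w) = φ b w - w := by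
    intro w
    have e : φ h⁻¹ (φ b w - w) = φ a (φ h⁻¹ w) - φ h⁻¹ w := by rw [map_sub, hconjb, hφinv]
    rw [hconjb (φ b w - w), e, hquadA, map_sub, ← hconjb, ← Module.End.mul_apply, ← map_mul, mul_inv_cancel, map_one,
      Module.End.one_apply]
  letI : Algebra (ZMod p) F := ZMod.algebra F p
  let W : Submodule (ZMod p) (Fin 2 → F) :=
    Submodule.span (ZMod p) (Set.range fun x : H × Fin 2 => φ (x.1 : GL (Fin 2) F) (Pi.single x.2 1))
  haveI : FiniteDimensional (ZMod p) W := FiniteDimensional.span_of_finite _ (Set.finite_range _)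
  haveI : Finite W := Module.finite_of_finite (ZMod p)
  have hWinv : ∀ g : H, ∀ w ∈ W, φ (g : GL (Fin 2) F) w ∈ W := by
    intro g w hw
    refine (Submodule.span_le (p := W.comap ((φ (g : GL (Fin 2) F)).restrictScalars (ZMod p)))).2 ?_ hw
    rintro _ ⟨x, rfl⟩
    show φ (g : GL (Fin 2) F) (φ (x.1 : GL (Fin 2) F) (Pi.single x.2 1)) ∈ W
    rw [← Module.End.mul_apply, ← map_mul]
    exact Submodule.subset_span ⟨(g * x.1, x.2), rfl⟩
  let K : Subgroup H := Subgroup.closure {aH, ⟨b, hbH⟩}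
  let ρ : K →* Module.End (ZMod p) W :=
    { toFun := fun g => ((φ ((g : H) : GL (Fin 2) F)).restrictScalars (ZMod p)).restrict (fun w hw => hWinv g w hw)
      map_one' := LinearMap.ext fun w => Subtype.ext (by
        show φ (((1 : K) : H) : GL (Fin 2) F) (w : Fin 2 → F) = w
        simp)
      map_mul' := fun g₁ g₂ => LinearMap.ext fun w => Subtype.ext (by
        show φ (((g₁ * g₂ : K) : H) : GL (Fin 2) F) (w : Fin 2 → F) = _
        rw [Subgroup.coe_mul, Subgroup.coe_mul, map_mul]
        rfl) }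
  let x : K := ⟨aH, Subgroup.subset_closure (Or.inl rfl)⟩
  let y : K := ⟨⟨b, hbH⟩, Subgroup.subset_closure (Or.inr rfl)⟩
  have hgen : Subgroup.closure ({x, y} : Set K) = ⊤ := by
    refine Subgroup.map_injective K.subtype_injective ?_
    rw [MonoidHom.map_closure, ← MonoidHom.range_eq_map, Subgroup.range_subtype, Set.image_pair]
    rfl
  have hnp : ¬ Cfsg.Lib.PStable.ActsAsP ρ ⊤ := by
    intro hact
    have hKp : IsPGroup p K := by
      intro l
      obtain ⟨i, hi⟩ := hact l
      refine ⟨i, Subtype.ext (Subtype.ext (hφinj ?_))⟩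
      rw [show (((1 : K) : H) : GL (Fin 2) F) = 1 from rfl, map_one]
      refine (Pi.basisFun F (Fin 2)).ext fun j => ?_
      have h1 := congr_arg Subtype.val (hi ⟨Pi.single j 1, Submodule.subset_span ⟨(1, j), by simp⟩⟩ Submodule.mem_top)
      rw [Pi.basisFun_apply, Module.End.one_apply]
      exact h1
    letI : MulAction K W :=
      { smul := fun g w => ρ g w
        one_smul := fun w => by show ρ 1 w = w; rw [map_one]; rfl
        mul_smul := fun g₁ g₂ w => by show ρ (g₁ * g₂) w = ρ g₁ (ρ g₂ w); rw [map_mul]; rfl }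
    have hWne : Nontrivial W :=
      ⟨⟨Pi.single 0 1, Submodule.subset_span ⟨((1 : H), (0 : Fin 2)), by simp⟩⟩, 0, fun he => by
        simpa using congr_fun (congr_arg Subtype.val he) 0⟩
    have hWcard : p ∣ Nat.card W := by
      obtain ⟨n, hn⟩ : ∃ n, Nat.card W = p ^ n := ⟨Module.finrank (ZMod p) W, by
        rw [Module.natCard_eq_pow_finrank (K := ZMod p), Nat.card_zmod]⟩
      have : n ≠ 0 := fun h0 => by
        have := Finite.one_lt_card_iff_nontrivial.2 hWne
        rw [hn, h0, pow_zero] at this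
        omega
      rw [hn]; exact dvd_pow_self p this
    obtain ⟨v, hv, hv0⟩ := hKp.exists_fixed_point_of_prime_dvd_card_of_fixed_point W hWcard
      (a := (0 : W)) (fun g => map_zero (ρ g))
    have hva : φ a (v : Fin 2 → F) = v := congr_arg Subtype.val (hv x)
    have hvb : φ b (v : Fin 2 → F) = v := congr_arg Subtype.val (hv y)
    have hvn : (v : Fin 2 → F) ≠ 0 := fun h0 => hv0 (Subtype.ext h0.symm)
    obtain ⟨t, ht⟩ := Submodule.mem_span_singleton.1 (hfixL _ hva)
    have hu : φ a (φ h⁻¹ (v : Fin 2 → F)) = φ h⁻¹ (v : Fin 2 → F) := by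
      conv_rhs => rw [← hvb, hconjb]
      rw [hφinv]
    obtain ⟨s, hs⟩ := Submodule.mem_span_singleton.1 (hfixL _ hu)
    have hsv : s • φ h v₀ = (v : Fin 2 → F) := by
      rw [← map_smul, hs, ← Module.End.mul_apply, ← map_mul, mul_inv_cancel, map_one, Module.End.one_apply]
    have hs0 : s ≠ 0 := fun h0 => hvn (by rw [← hsv, h0, zero_smul])
    refine hhv (Submodule.mem_span_singleton.2 ⟨s⁻¹ * t, ?_⟩)
    rw [mul_smul, ht, ← hsv, smul_smul, inv_mul_cancel₀ hs0, one_smul]
    rfl
  obtain ⟨L₀, ψ, V₁, π, hψ, -, -, -⟩ := Cfsg.Lib.PStable.exists_natural_section hp ρ hgen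
    (fun w => Subtype.ext (hquadA (w : Fin 2 → F))) (fun w => Subtype.ext (hquadB (w : Fin 2 → F))) hnp
  obtain ⟨z, hz⟩ := hψ (-1)
  haveI : Fact (2 < p) := ⟨lt_of_le_of_ne hpp.two_le (Ne.symm hp)⟩
  haveI : Fact (Even (Fintype.card (Fin 2))) := ⟨by decide⟩
  have h2 : 2 ∣ orderOf z := by
    refine dvd_trans ?_ (orderOf_map_dvd ψ z)
    rw [hz, orderOf_eq_prime (p := 2) (by rw [sq, neg_mul_neg, one_mul]) (fun he => ?_)]
    have h3 := congr_arg (fun M : Matrix.SpecialLinearGroup (Fin 2) (ZMod p) => (M : Matrix (Fin 2) (Fin 2) (ZMod p)) 0 0) he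
    simp at h3
    exact ZMod.neg_one_ne_one h3
  have h4 : 2 ∣ Nat.card H :=
    h2.trans ((_root_.orderOf_dvd_natCard z).trans ((Subgroup.card_subgroup_dvd_card L₀).trans (Subgroup.card_subgroup_dvd_card K)))
  exact (Nat.not_even_iff_odd.2 hodd) (even_iff_two_dvd.2 h4)

end Cfsg.Agent.S1463
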