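import Cfsg.Statements.S1470
import Mathlib
import Mathlib
-- import your own Cfsg.Agent.* helpers here

set_option autoImplicit false
open Cfsg

namespace Cfsg.Agent.S1470

/-- Let p and q be odd primes with (p^q − 1)/(p − 1) coprime to p − 1, and let E be the set of elements a of the field with p ^ q elements whose norm to the prime field is 1 and for which 2 − a also has norm 1. If a⁻¹ ∈ E for every a ∈ E and E has at least two elements, then p ≤ q. -/
theorem result (p q : ℕ) [Fact p.Prime] [Fact q.Prime] (hp : p ≠ 2) (hq : q ≠ 2) (hA : Nat.Coprime ((p ^ q - 1) / (p - 1)) (p - 1))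
    (hinv : ∀ a ∈ {a : GaloisField p q | Algebra.norm (ZMod p) a = 1 ∧ Algebra.norm (ZMod p) (2 - a) = 1}, a⁻¹ ∈ {a : GaloisField p q | Algebra.norm (ZMod p) a = 1 ∧ Algebra.norm (ZMod p) (2 - a) = 1})
    (h2 : 2 ≤ Set.ncard {a : GaloisField p q | Algebra.norm (ZMod p) a = 1 ∧ Algebra.norm (ZMod p) (2 - a) = 1}) :
    p ≤ q := by
  classical
  set S := {a : GaloisField p q | Algebra.norm (ZMod p) a = 1 ∧ Algebra.norm (ZMod p) (2 - a) = 1} with hS
  obtain ⟨a, ha, ha1⟩ : ∃ a ∈ S, a ≠ 1 := Set.exists_ne_of_one_lt_ncard (by omega) 1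
  set b := a - 1 with hb
  have hb0 : b ≠ 0 := sub_ne_zero.2 ha1
  have hne : ∀ x : GaloisField p q, Algebra.norm (ZMod p) x = 1 → x ≠ 0 := fun x hx h0 => by
    rw [h0, Algebra.norm_zero] at hx
    exact zero_ne_one hx
  have key : ∀ k : ℕ, Algebra.norm (ZMod p) (1 + (k : GaloisField p q) * b) = 1 ∧
      Algebra.norm (ZMod p) (1 + ((k : GaloisField p q) + 1) * b) = 1 ∧
      (1 + ((k : GaloisField p q) + 1) * b) * (1 + (k : GaloisField p q) * b)⁻¹ ∈ S := by
    intro k
    induction k with
    | zero =>
      refine ⟨by simp, ?_, ?_⟩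
      · rw [show (1 : GaloisField p q) + (((0 : ℕ) : GaloisField p q) + 1) * b = a by rw [hb]; push_cast; ring]; exact ha.1
      · rw [show ((1 : GaloisField p q) + (((0 : ℕ) : GaloisField p q) + 1) * b) * (1 + ((0 : ℕ) : GaloisField p q) * b)⁻¹ = a by rw [hb]; push_cast; simp]
        exact ha
    | succ k ih =>
      obtain ⟨h0, h1, h2⟩ := ih
      set c₀ := 1 + (k : GaloisField p q) * b with hc₀
      set c₁ := 1 + ((k : GaloisField p q) + 1) * b with hc₁
      have n0 := hne _ h0
      have n1 := hne _ h1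
      have e : (2 : GaloisField p q) - (c₁ * c₀⁻¹)⁻¹ = (1 + ((k : GaloisField p q) + 1 + 1) * b) * c₁⁻¹ := by
        rw [mul_inv, inv_inv]
        field_simp
        rw [hc₀, hc₁]; ring
      have h3 := (hinv _ h2).2
      rw [e, map_mul] at h3
      have h4 : Algebra.norm (ZMod p) c₁⁻¹ = 1 := by
        have := map_mul (Algebra.norm (ZMod p)) c₁ c₁⁻¹
        rw [mul_inv_cancel₀ n1, map_one, h1, one_mul] at this
        exact this.symm
      rw [h4, mul_one] at h3
      push_cast
      refine ⟨h1, h3, ⟨by rw [map_mul, h3, h4, one_mul], ?_⟩⟩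
      have e2 : (2 : GaloisField p q) - (1 + ((k : GaloisField p q) + 1 + 1) * b) * c₁⁻¹ = (c₁ * c₀⁻¹)⁻¹ := by
        rw [← e]; ring
      rw [e2]
      exact (hinv _ h2).1
  let f : Polynomial (GaloisField p q) :=
    (∏ i ∈ Finset.range q, (Polynomial.C (b ^ p ^ i) * Polynomial.X + 1)) - 1
  have hfac : ∀ i : ℕ, (Polynomial.C (b ^ p ^ i) * Polynomial.X + 1).natDegree = 1 := fun i => by
    rw [← Polynomial.C_1, Polynomial.natDegree_linear (pow_ne_zero _ hb0)]
  have hfne : ∀ i ∈ Finset.range q, Polynomial.C (b ^ p ^ i) * Polynomial.X + 1 ≠ 0 := fun i _ h => by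
    have := hfac i
    rw [h, Polynomial.natDegree_zero] at this
    exact zero_ne_one this
  have hdeg : f.natDegree = q := by
    have h1 : (∏ i ∈ Finset.range q, (Polynomial.C (b ^ p ^ i) * Polynomial.X + 1)).natDegree = q := by
      rw [Polynomial.natDegree_prod _ _ hfne, Finset.sum_congr rfl fun i _ => hfac i]
      simp
    rw [show f = _ - Polynomial.C 1 from by rw [Polynomial.C_1], Polynomial.natDegree_sub_C, h1]
  have hf0 : f ≠ 0 := fun h => by
    rw [h, Polynomial.natDegree_zero] at hdeg
    exact (Fact.out : q.Prime).ne_zero hdeg.symm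
  have hroot : ∀ k : ℕ, f.IsRoot (k : GaloisField p q) := by
    intro k
    have hfr : ∀ i : ℕ, (k : GaloisField p q) ^ p ^ i = (k : GaloisField p q) := by
      intro i
      induction i with
      | zero => simp
      | succ i ih =>
        rw [pow_succ, pow_mul, ih]
        exact (frobenius_def p (k : GaloisField p q)).symm.trans (map_natCast (frobenius (GaloisField p q) p) k)
    have h1 := congr_arg (algebraMap (ZMod p) (GaloisField p q)) (key k).1
    rw [map_one, FiniteField.algebraMap_norm_eq_prod_pow, GaloisField.finrank p (Fact.out : q.Prime).ne_zero, Nat.card_zmod] at h1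
    show Polynomial.eval (k : GaloisField p q) f = 0
    rw [Polynomial.eval_sub, Polynomial.eval_one, sub_eq_zero, Polynomial.eval_prod]
    refine Eq.trans (Finset.prod_congr rfl fun i _ => ?_) h1
    rw [Polynomial.eval_add, Polynomial.eval_mul, Polynomial.eval_C, Polynomial.eval_X, Polynomial.eval_one,
      add_pow_char_pow, one_pow, mul_pow, hfr, mul_comm, add_comm]
  have hle : ((Finset.range p).image fun k : ℕ => (k : GaloisField p q)).card ≤ q := by
    refine le_trans ?_ (((Multiset.toFinset_card_le f.roots).trans (Polynomial.card_roots' f)).trans hdeg.le)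
    refine Finset.card_le_card ?_
    intro x hx
    obtain ⟨k, -, rfl⟩ := Finset.mem_image.1 hx
    rw [Multiset.mem_toFinset, Polynomial.mem_roots hf0]
    exact hroot k
  rwa [Finset.card_image_of_injOn, Finset.card_range] at hle
  intro i hi j hj hij
  exact Nat.ModEq.eq_of_lt_of_lt ((CharP.natCast_eq_natCast (GaloisField p q) p).1 hij) (Finset.mem_range.1 hi) (Finset.mem_range.1 hj)

end Cfsg.Agent.S1470
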