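import Cfsg.Statements.S1473
import Cfsg.Agent.Lib.PLocal.CNGroups
-- import your own Cfsg.Agent.* helpers here

set_option autoImplicit false
open Cfsg

namespace Cfsg.Agent.S1473

/-- Let G be a finite group in which the centralizer of every non-identity element is nilpotent, and H a solvable normal subgroup of G. Then in G/H the centralizer of every non-identity element is nilpotent. -/
theorem result {G : Type*} [Group G] [Finite G] (hCN : Cfsg.IsCNGroup G) (H : Subgroup G) [H.Normal] (hH : Group.IsSolvable H) :
    Cfsg.IsCNGroup (G ⧸ H) := by
  exact Cfsg.Lib.PLocal.CNGroups.isCN_quotient_solvable (Nat.card G) G le_rfl hCN H hH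

end Cfsg.Agent.S1473
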