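import Cfsg.Statements.S1475
import Mathlib
import Mathlib
import Cfsg.Agent.Lib.Solv.MinNormal
import Cfsg.Agent.Lib.Solv.Hall
-- import your own Cfsg.Agent.* helpers here

set_option autoImplicit false
open Cfsg

namespace Cfsg.Agent.S1475

/-- Let G be a finite solvable group such that the order of every element is a prime power (1 included). Then at most two distinct primes divide the order of G. -/
theorem result {G : Type*} [Group G] [Finite G] [Group.IsSolvable G] (h : ∀ g : G, IsPrimePow (orderOf g) ∨ g = 1) :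
    (Nat.card G).primeFactors.card ≤ 2 := by
  classical
  by_contra hc
  push Not at hc
  haveI : Nontrivial G := by
    rw [← Finite.one_lt_card_iff_nontrivial]
    by_contra hle
    have : Nat.card G = 1 := le_antisymm (not_lt.1 hle) Nat.card_pos
    rw [this] at hc
    simp at hc
  haveI : Group.IsSolvable (⊤ : Subgroup G) := Group.isSolvable_of_isSolvable_injective (f := (⊤ : Subgroup G).subtype) Subtype.val_injective
  obtain ⟨V, hVn, -, hVb, hVmin⟩ := Cfsg.Lib.Solv.exists_minimal_normal_le (G := G) (N := ⊤) top_ne_bot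
  haveI := hVn
  obtain ⟨hVc, p, hp, hVp, hVexp⟩ := Cfsg.Lib.Solv.minimal_normal_elementary hVb inferInstance hVmin
  haveI := Fact.mk hp
  obtain ⟨K, hKπ, hKi⟩ := Cfsg.Lib.Solv.hall_exists (G := G) {s : ℕ | s ≠ p}
  have hKdiv : ∀ s : ℕ, s.Prime → s ≠ p → s ∣ Nat.card G → s ∣ Nat.card K := by
    intro s hs hsp hsG
    rw [← Subgroup.card_mul_index K] at hsG
    exact (hs.dvd_mul.1 hsG).resolve_right (hKi s hs hsp)
  obtain ⟨s₁, hs₁, s₂, hs₂, hs12⟩ : ∃ s₁ ∈ (Nat.card G).primeFactors.erase p, ∃ s₂ ∈ (Nat.card G).primeFactors.erase p, s₁ ≠ s₂ :=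
    Finset.one_lt_card.1 (by
      have := Finset.pred_card_le_card_erase (a := p) (s := (Nat.card G).primeFactors)
      omega)
  simp only [Finset.mem_erase, Nat.mem_primeFactors] at hs₁ hs₂
  haveI := Fact.mk hs₁.2.1
  have hKne : (⊤ : Subgroup K) ≠ ⊥ := by
    intro h
    have h1 := congr_arg (fun H : Subgroup K => Nat.card H) h
    simp only [Subgroup.card_top, Subgroup.card_bot] at h1
    have h2 := hKdiv s₁ hs₁.2.1 hs₁.1 hs₁.2.2.1
    rw [h1] at h2
    exact hs₁.2.1.one_lt.ne' (Nat.dvd_one.1 h2)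
  obtain ⟨L₀, hL₀n, -, hL₀b, hL₀min⟩ := Cfsg.Lib.Solv.exists_minimal_normal_le (G := K) (N := ⊤) hKne
  haveI := hL₀n
  obtain ⟨hL₀c, q, hq, hL₀p, hL₀exp⟩ := Cfsg.Lib.Solv.minimal_normal_elementary hL₀b inferInstance hL₀min
  set L := L₀.map K.subtype with hL
  have hLq : ∀ l ∈ L, l ^ q = 1 := by
    rintro _ ⟨l, hl, rfl⟩
    rw [← map_pow, hL₀exp l hl, map_one]
  obtain ⟨l₀, hl₀, hl₀1⟩ : ∃ l ∈ L, l ≠ 1 := by
    have : L ≠ ⊥ := by rw [hL, ne_eq, Subgroup.map_eq_bot_iff_of_injective _ K.subtype_injective]; exact hL₀b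
    by_contra hcon
    push Not at hcon
    exact this ((Subgroup.eq_bot_iff_forall L).2 hcon)
  haveI := Fact.mk hq
  have hqK : q ∣ Nat.card K := by
    have h1 : orderOf l₀ = q := orderOf_eq_prime (hLq l₀ hl₀) hl₀1
    rw [← h1]
    exact Subgroup.orderOf_dvd_natCard K (Subgroup.map_subtype_le _ hl₀)
  have hqp : q ≠ p := hKπ q hq hqK
  obtain ⟨r, hr, hrp, hrq, hrG⟩ : ∃ r : ℕ, r.Prime ∧ r ≠ p ∧ r ≠ q ∧ r ∣ Nat.card G := by
    by_cases h : s₁ = q
    · exact ⟨s₂, hs₂.2.1, hs₂.1, fun h2 => hs12 (h.trans h2.symm), hs₂.2.2.1⟩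
    · exact ⟨s₁, hs₁.2.1, hs₁.1, h, hs₁.2.2.1⟩
  haveI := Fact.mk hr
  obtain ⟨y₀, hy₀⟩ := exists_prime_orderOf_dvd_card' (G := K) r (hKdiv r hr hrp hrG)
  set y : G := (y₀ : G) with hy
  have hyr : orderOf y = r := by rw [hy, Subgroup.orderOf_coe, hy₀]
  have hyL : ∀ l ∈ L, y * l * y⁻¹ ∈ L := by
    rintro _ ⟨l, hl, rfl⟩
    exact ⟨y₀ * l * y₀⁻¹, hL₀n.conj_mem l hl y₀, rfl⟩
  -- no element centralizes an element of another prime order
  have hnc : ∀ {s t : ℕ} (a b : G), s.Prime → t.Prime → s ≠ t → orderOf a = s → orderOf b = t → Commute a b → False := by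
    intro s t a b hs ht hst ha hb hab
    have hord : orderOf (a * b) = s * t := by
      rw [hab.orderOf_mul_eq_mul_orderOf_of_coprime (by rw [ha, hb]; exact (Nat.coprime_primes hs ht).2 hst), ha, hb]
    rcases h (a * b) with hpp | h1
    · rw [hord, isPrimePow_nat_iff] at hpp
      obtain ⟨m, k, hm, -, hmk⟩ := hpp
      have e1 : s = m := (Nat.prime_dvd_prime_iff_eq hs hm).1 (hs.dvd_of_dvd_pow (hmk ▸ dvd_mul_right s t))
      have e2 : t = m := (Nat.prime_dvd_prime_iff_eq ht hm).1 (ht.dvd_of_dvd_pow (hmk ▸ dvd_mul_left t s))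
      exact hst (e1.trans e2.symm)
    · rw [h1, orderOf_one] at hord
      have := hs.one_lt
      have := Nat.le_mul_of_pos_right s ht.pos
      omega
  letI : CommGroup V := { (inferInstance : Group V) with mul_comm := hVc.is_comm.comm }
  let c : G → MulAut V := fun g => MulAut.conjNormal g
  have hcoe : ∀ g (v : V), ((c g v : V) : G) = g * v * g⁻¹ := fun g v => rfl
  have hcm : ∀ g g' (v : V), c (g * g') v = c g (c g' v) := fun g g' v => Subtype.ext (by
    rw [hcoe, hcoe, hcoe]; group)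
  have hfix : ∀ (g : G) (s : ℕ) (v : V), s.Prime → s ≠ p → orderOf g = s → c g v = v → v = 1 := by
    intro g s v hs hsp hg hgv
    by_contra hv
    refine hnc g (v : G) hs hp hsp hg (orderOf_eq_prime (hVexp v v.2) fun h' => hv (Subtype.ext h')) ?_
    have h1 : g * v * g⁻¹ = (v : G) := congr_arg Subtype.val hgv
    calc g * v = g * v * g⁻¹ * g := by group
      _ = v * g := by rw [h1]
  haveI := Fintype.ofFinite L
  have hsumL : ∀ v : V, ∏ l : L, c (l : G) v = 1 := by
    intro v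
    refine hfix l₀ q _ hq hqp (orderOf_eq_prime (hLq l₀ hl₀) hl₀1) ?_
    rw [map_prod]
    simp_rw [← hcm]
    exact Fintype.prod_equiv (Equiv.mulLeft (⟨l₀, hl₀⟩ : L)) _ _ fun l => rfl
  have hpow : ∀ (l : L) (i : ℕ), ((l : G) * y) ^ i * (y ^ i)⁻¹ ∈ L := by
    intro l i
    induction i with
    | zero => simp
    | succ i ih =>
      have : ((l : G) * y) ^ (i + 1) * (y ^ (i + 1))⁻¹ = (l : G) * (y * (((l : G) * y) ^ i * (y ^ i)⁻¹) * y⁻¹) := by
        rw [pow_succ', pow_succ']; group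
      rw [this]
      exact L.mul_mem l.2 (hyL _ ih)
  have hlyr : ∀ l : L, orderOf ((l : G) * y) = r := by
    intro l
    have hr1 : ((l : G) * y) ^ r ∈ L := by simpa [← hyr, pow_orderOf_eq_one] using hpow l r
    have hly1 : (l : G) * y ≠ 1 := by
      intro he
      have h1 : y ∈ L := by rw [show y = (l : G)⁻¹ from eq_inv_of_mul_eq_one_right he]; exact L.inv_mem l.2
      exact hrq ((Nat.prime_dvd_prime_iff_eq hr hq).1 (hyr ▸ orderOf_dvd_of_pow_eq_one (hLq y h1)))
    refine orderOf_eq_prime ?_ hly1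
    by_contra hne
    rcases h ((l : G) * y) with hpp | h1
    swap
    · exact hly1 h1
    obtain ⟨m, k, hm, -, hmk⟩ := (isPrimePow_nat_iff _).1 hpp
    have hd : orderOf ((l : G) * y) ∣ r * q := orderOf_dvd_of_pow_eq_one (by rw [pow_mul]; exact hLq _ hr1)
    have hmq : m = q := by
      have hq1 : q ∣ orderOf ((l : G) * y) := by
        by_contra hnd
        exact hne (orderOf_dvd_iff_pow_eq_one.1 ((Nat.Coprime.dvd_mul_right ((hq.coprime_iff_not_dvd.2 hnd).symm)).1 hd))
      exact ((Nat.prime_dvd_prime_iff_eq hq hm).1 (hq.dvd_of_dvd_pow (hmk ▸ hq1))).symm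
    -- then `y` is a `q`-element modulo `L`
    have h2 : orderOf ((l : G) * y) ∣ q := by
      rw [← hmk, hmq] at hd ⊢
      rw [hmq] at hmk
      have : (q ^ k).Coprime r := Nat.Coprime.pow_left k ((Nat.coprime_primes hq hr).2 hrq.symm)
      exact this.dvd_of_dvd_mul_left hd
    have h3 : ((l : G) * y) ^ q = 1 := orderOf_dvd_iff_pow_eq_one.1 h2
    have h4 := hpow l q
    rw [h3, one_mul] at h4
    have h5 : y ^ q ∈ L := by simpa using L.inv_mem h4
    have h6 : (y ^ q) ^ q = 1 := hLq _ h5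
    rw [← pow_mul] at h6
    have h7 : r ∣ q * q := hyr ▸ orderOf_dvd_of_pow_eq_one h6
    rcases hr.dvd_mul.1 h7 with h8 | h8 <;> exact hrq ((Nat.prime_dvd_prime_iff_eq hr hq).1 h8)
  have hsumC : ∀ (l : L) (v : V), ∏ i ∈ Finset.range r, c (((l : G) * y) ^ i) v = 1 := by
    intro l v
    refine hfix ((l : G) * y) r _ hr hrp (hlyr l) ?_
    rw [map_prod]
    simp_rw [← hcm, ← pow_succ']
    obtain ⟨r', hr'⟩ : ∃ r', r = r' + 1 := ⟨r - 1, by have := hr.pos; omega⟩
    rw [hr', Finset.prod_range_succ, Finset.prod_range_succ' (fun i => c (((l : G) * y) ^ i) v), pow_zero,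
      show ((l : G) * y) ^ (r' + 1) = 1 by rw [← hr', ← hlyr l, pow_orderOf_eq_one]]
  obtain ⟨v, hv1⟩ : ∃ v : V, v ≠ 1 := by
    haveI := (Subgroup.nontrivial_iff_ne_bot V).2 hVb
    exact exists_ne 1
  refine hv1 ?_
  have hall : ∏ i ∈ Finset.range r, ∏ l : L, c (((l : G) * y) ^ i) v = 1 := by
    rw [Finset.prod_comm]
    exact Finset.prod_eq_one fun l _ => hsumC l v
  rw [Finset.prod_eq_single 0] at hall
  · have h1 : v ^ Nat.card L = 1 := by
      rw [← hall]
      simp only [pow_zero, Nat.card_eq_fintype_card, ← Finset.card_univ, ← Finset.prod_const]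
      exact Finset.prod_congr rfl fun l _ => (Subtype.ext (by rw [hcoe]; simp)).symm
    have h2 : v ^ p = 1 := Subtype.ext (hVexp v v.2)
    have hcop : (Nat.card L).Coprime p := by
      obtain ⟨m, hm⟩ := (hL₀p.map K.subtype).exists_card_eq
      rw [hL, hm]
      exact Nat.Coprime.pow_left m ((Nat.coprime_primes hq hp).2 hqp)
    have h3 := pow_gcd_eq_one.2 ⟨h1, h2⟩
    rwa [hcop.gcd_eq_one, pow_one] at h3
  · intro i hi hi0
    rw [Finset.mem_range] at hi
    let φ : L → L := fun l => ⟨((l : G) * y) ^ i * (y ^ i)⁻¹, hpow l i⟩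
    have hφ : Function.Injective φ := by
      intro l l' he
      have h1 : ((l : G) * y) ^ i = ((l' : G) * y) ^ i := mul_right_cancel (congr_arg Subtype.val he)
      obtain ⟨j, hj⟩ := Nat.exists_mul_mod_eq_one_of_coprime
        ((hr.coprime_iff_not_dvd.2 (Nat.not_dvd_of_pos_of_lt (Nat.pos_of_ne_zero hi0) hi)).symm) hr.one_lt
      have key : ∀ z : L, (((z : G) * y) ^ i) ^ j = (z : G) * y := fun z => by
        rw [← pow_mul, ← pow_mod_orderOf, hlyr z, hj.2, pow_one]
      exact Subtype.ext (mul_right_cancel ((key l).symm.trans ((congr_arg (· ^ j) h1).trans (key l'))))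
    have hb : Function.Bijective φ := ⟨hφ, Finite.injective_iff_surjective.1 hφ⟩
    rw [← hsumL (c (y ^ i) v)]
    refine Fintype.prod_bijective φ hb _ _ fun l => ?_
    rw [← hcm]
    show _ = c (((l : G) * y) ^ i * (y ^ i)⁻¹ * y ^ i) v
    rw [inv_mul_cancel_right]
  · intro h0
    simp [hr.pos] at h0

end Cfsg.Agent.S1475
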