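import Cfsg.Statements.S1486
import Mathlib
import Cfsg.Agent.Lib.Characters.Normal
-- import your own Cfsg.Agent.* helpers here

set_option autoImplicit false
open Cfsg

namespace Cfsg.Agent.S1486

/-- Let H be a normal subgroup of the finite group G and θ, φ irreducible characters of H. If φ is a G-conjugate of θ then the functions induced from θ and φ coincide; if φ is not a G-conjugate of θ then the induced functions are orthogonal. -/
theorem result {G : Type*} [Group G] [Fintype G] (H : Subgroup G) [hN : H.Normal] (θ φ : H → ℂ) (hθ : Cfsg.IsIrrCharacter H θ) (hφ : Cfsg.IsIrrCharacter H φ) : ((∃ g : G, φ = fun h : H => θ ⟨g * h * g⁻¹, hN.conj_mem h h.2 g⟩) → Cfsg.indFun H φ = Cfsg.indFun H θ) ∧ ((¬ ∃ g : G, φ = fun h : H => θ ⟨g * h * g⁻¹, hN.conj_mem h h.2 g⟩) → Cfsg.classInner (Cfsg.indFun H φ) (Cfsg.indFun H θ) = 0) := by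
  haveI := Fintype.ofFinite H
  constructor
  · rintro ⟨g, rfl⟩
    exact Cfsg.Lib.Characters.indFun_conjFn g
  · intro h
    rw [← Cfsg.Lib.Characters.conj_classInner, Cfsg.Lib.Characters.classInner_indFun_indFun hθ hφ]
    have : IsEmpty {g : G // Cfsg.Lib.Characters.conjFn H θ g = φ} := ⟨fun g => h ⟨g.1, g.2.symm⟩⟩
    simp

end Cfsg.Agent.S1486
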