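import Cfsg.Statements.S1487
import Mathlib
import Cfsg.Agent.Lib.Characters.Induction
import Cfsg.Agent.Lib.Characters.Integrality
-- import your own Cfsg.Agent.* helpers here

set_option autoImplicit false
open Cfsg

namespace Cfsg.Agent.S1487

/-- Let A ≤ H be normal subgroups of the finite group G and θ an irreducible character of H. Then θ takes the value θ 1 on all of A if and only if the function induced from θ to G takes its value at 1 on all of A. -/
theorem result {G : Type*} [Group G] [Fintype G] (A H : Subgroup G) [A.Normal] [H.Normal] (hAH : A ≤ H) (θ : H → ℂ) (hθ : Cfsg.IsIrrCharacter H θ) : (∀ a : H, (a : G) ∈ A → θ a = θ 1) ↔ (∀ a : G, a ∈ A → Cfsg.indFun H θ a = Cfsg.indFun H θ 1) := by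
  classical
  have hAc : ∀ a ∈ A, ∀ x : G, x⁻¹ * a * x ∈ A := fun a ha x => by
    simpa using ‹A.Normal›.conj_mem a ha x⁻¹
  have hext : ∀ (a : G) (ha : a ∈ A) (x : G), Cfsg.extendByZero H θ (x⁻¹ * a * x) =
      θ ⟨x⁻¹ * a * x, hAH (hAc a ha x)⟩ := fun a ha x =>
    Cfsg.Lib.Characters.extendByZero_mem θ _
  constructor
  · intro h a ha
    unfold Cfsg.indFun
    congr 1
    refine Finset.sum_congr rfl fun x _ => ?_
    rw [hext a ha x, h _ (hAc a ha x), mul_one, inv_mul_cancel]
    exact (Cfsg.Lib.Characters.extendByZero_coe θ 1).symm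
  · intro h a ha
    have h0 := h a ha
    unfold Cfsg.indFun at h0
    rw [mul_right_inj' (inv_ne_zero (Nat.cast_ne_zero.mpr Nat.card_pos.ne'))] at h0
    obtain ⟨d, hd⟩ := Cfsg.Lib.Characters.exists_degree hθ.isCharacter
    have h1 : ∀ x : G, Cfsg.extendByZero H θ (x⁻¹ * 1 * x) = (d : ℂ) := fun x => by
      rw [mul_one, inv_mul_cancel, ← hd]; exact Cfsg.Lib.Characters.extendByZero_coe θ 1
    simp only [h1] at h0
    have h0r := congrArg Complex.re h0
    rw [Complex.re_sum, Complex.re_sum] at h0r
    have hle : ∀ x ∈ (Finset.univ : Finset G),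
        (Cfsg.extendByZero H θ (x⁻¹ * a * x)).re ≤ (d : ℂ).re := fun x _ => by
      rw [hext (a : G) ha x]
      have := Cfsg.Lib.Characters.char_norm_le_degree hθ.isCharacter
        ⟨x⁻¹ * (a : G) * x, hAH (hAc a ha x)⟩
      rw [hd] at this
      exact (Complex.re_le_norm _).trans this
    have he := (Finset.sum_eq_sum_iff_of_le hle).mp h0r 1 (Finset.mem_univ _)
    simp only [inv_one, one_mul, mul_one, Cfsg.Lib.Characters.extendByZero_coe] at he
    have hn := Cfsg.Lib.Characters.char_norm_le_degree hθ.isCharacter a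
    rw [hd, Complex.natCast_re] at hn
    rw [hd]
    rw [Complex.natCast_re] at he
    refine Complex.ext (by simpa using he) ?_
    rw [Complex.natCast_im]
    have h2 : ‖θ a‖ = (d : ℝ) := le_antisymm hn (he ▸ Complex.re_le_norm _)
    exact (Complex.abs_re_eq_norm.mp (by rw [he, h2, Nat.abs_cast]))

end Cfsg.Agent.S1487
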