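import Cfsg.Statements.S1488
import Mathlib
import Cfsg.Agent.Lib.Characters.Induction
-- import your own Cfsg.Agent.* helpers here

set_option autoImplicit false
open Cfsg

namespace Cfsg.Agent.S1488

/-- Let A be a normal subgroup of the finite group G contained in the subgroup H, let θ be a function on H and θ₁ a function on the image of H in G ⧸ A whose composite with the projection is θ. Then the function induced from θ₁ to G ⧸ A, composed with the projection G → G ⧸ A, equals the function induced from θ to G. -/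
theorem result {G : Type*} [Group G] [Fintype G] (A H : Subgroup G) [A.Normal] (hAH : A ≤ H) [Fintype (G ⧸ A)] [Fintype ↥(H.map (QuotientGroup.mk' A))] (θ : H → ℂ) (θ₁ : ↥(H.map (QuotientGroup.mk' A)) → ℂ) (hθ : ∀ x : H, θ₁ ⟨QuotientGroup.mk' A x, Subgroup.mem_map_of_mem _ x.2⟩ = θ x) (g : G) : Cfsg.indFun (H.map (QuotientGroup.mk' A)) θ₁ (QuotientGroup.mk' A g) = Cfsg.indFun H θ g := by
  classical
  have hmem : ∀ y : G, QuotientGroup.mk' A y ∈ H.map (QuotientGroup.mk' A) ↔ y ∈ H := by
    intro y
    refine ⟨fun hy => ?_, fun hy => Subgroup.mem_map_of_mem _ hy⟩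
    obtain ⟨z, hz, he⟩ := Subgroup.mem_map.mp hy
    have h2 := hAH (QuotientGroup.eq.mp he)
    simpa using H.mul_mem hz h2
  have hext : ∀ y : G, Cfsg.extendByZero (H.map (QuotientGroup.mk' A)) θ₁ (QuotientGroup.mk' A y) =
      Cfsg.extendByZero H θ y := by
    intro y
    by_cases hy : y ∈ H
    · rw [Cfsg.Lib.Characters.extendByZero_mem θ hy, Cfsg.Lib.Characters.extendByZero_mem θ₁ ((hmem y).mpr hy)]
      exact hθ ⟨y, hy⟩
    · rw [Cfsg.Lib.Characters.extendByZero_not_mem θ hy,
        Cfsg.Lib.Characters.extendByZero_not_mem θ₁ fun h => hy ((hmem y).mp h)]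
  set f : G ⧸ A → ℂ := fun q =>
    Cfsg.extendByZero (H.map (QuotientGroup.mk' A)) θ₁ (q⁻¹ * QuotientGroup.mk' A g * q)
  have hsum : ∑ x : G, Cfsg.extendByZero H θ (x⁻¹ * g * x) = (Nat.card A : ℂ) * ∑ q, f q := by
    have h1 : ∀ x : G, Cfsg.extendByZero H θ (x⁻¹ * g * x) = f (QuotientGroup.mk' A x) := fun x => by
      simp only [f]; rw [← map_inv, ← map_mul, ← map_mul, hext]
    simp only [h1]
    rw [← (Subgroup.groupEquivQuotientProdSubgroup (s := A)).symm.sum_comp, Fintype.sum_prod_type,
      Finset.mul_sum]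
    refine Finset.sum_congr rfl fun q _ => ?_
    have h2 : ∀ a : A, f (QuotientGroup.mk' A
        ((Subgroup.groupEquivQuotientProdSubgroup (s := A)).symm (q, a))) = f q := fun a => by
      congr 1
      have := congrArg Prod.fst ((Subgroup.groupEquivQuotientProdSubgroup (s := A)).apply_symm_apply (q, a))
      exact this
    simp only [h2, Finset.sum_const, Finset.card_univ, nsmul_eq_mul, Nat.card_eq_fintype_card]
  have hcard : Nat.card H = Nat.card A * Nat.card ↥(H.map (QuotientGroup.mk' A)) := by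
    have h := Subgroup.card_mul_index H
    have h' := Subgroup.card_mul_index (H.map (QuotientGroup.mk' A))
    rw [Subgroup.index_map_eq H (QuotientGroup.mk'_surjective A) (by rw [QuotientGroup.ker_mk']; exact hAH)] at h'
    have h2 := Subgroup.card_eq_card_quotient_mul_card_subgroup A
    refine Nat.eq_of_mul_eq_mul_right (Nat.pos_of_ne_zero H.index_ne_zero_of_finite) ?_
    rw [h, h2, mul_assoc, h', mul_comm]
  unfold Cfsg.indFun
  rw [hsum, hcard, Nat.cast_mul, mul_inv, mul_comm (Nat.card A : ℂ)⁻¹, mul_assoc,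
    ← mul_assoc (Nat.card A : ℂ)⁻¹, inv_mul_cancel₀ (Nat.cast_ne_zero.mpr Nat.card_pos.ne'), one_mul]

end Cfsg.Agent.S1488
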