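import Cfsg.Statements.S1489
import Mathlib
import Cfsg.Agent.Lib.Characters.Correspondence
-- import your own Cfsg.Agent.* helpers here

set_option autoImplicit false
open Cfsg

namespace Cfsg.Agent.S1489

/-- Let H be a normal subgroup of the finite group G, θ an irreducible character of H, and T the inertia group of θ (the elements g with θ(g h g⁻¹) = θ(h) for all h ∈ H). If ψ and ψ' are irreducible characters of T having nonzero inner product with the function induced from θ to T, then the function induced from ψ to G is an irreducible character of G, and it equals the one induced from ψ' only if ψ = ψ'. -/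
theorem result {G : Type*} [Group G] [Fintype G] (H T : Subgroup G) [hN : H.Normal] [Fintype T] (θ : H → ℂ) (hθ : Cfsg.IsIrrCharacter H θ) (hT : ∀ g : G, g ∈ T ↔ ∀ h : H, θ ⟨g * h * g⁻¹, hN.conj_mem h h.2 g⟩ = θ h) (hHT : H ≤ T) (ψ ψ' : T → ℂ) (hψ : Cfsg.IsIrrCharacter T ψ) (hψ' : Cfsg.IsIrrCharacter T ψ') (hc : Cfsg.classInner (Cfsg.indFun (H.subgroupOf T) (fun x => θ ⟨(x : T), Subgroup.mem_subgroupOf.mp x.2⟩)) ψ ≠ 0) (hc' : Cfsg.classInner (Cfsg.indFun (H.subgroupOf T) (fun x => θ ⟨(x : T), Subgroup.mem_subgroupOf.mp x.2⟩)) ψ' ≠ 0) : Cfsg.IsIrrCharacter G (Cfsg.indFun T ψ) ∧ (Cfsg.indFun T ψ = Cfsg.indFun T ψ' → ψ = ψ') := by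
  classical
  haveI : Fintype H := Fintype.ofFinite _
  have hTi : T = Cfsg.Lib.Characters.inertia H θ := by
    ext g
    rw [hT, Cfsg.Lib.Characters.mem_inertia]
    exact ⟨fun h => funext h, fun h x => congrFun h x⟩
  haveI : Fintype (H.subgroupOf T) := Fintype.ofFinite _
  have hconv : ∀ φ : T → ℂ, Cfsg.IsIrrCharacter T φ →
      Cfsg.classInner (Cfsg.indFun (H.subgroupOf T) (fun x => θ ⟨(x : T), Subgroup.mem_subgroupOf.mp x.2⟩)) φ ≠ 0 →
      Cfsg.classInner (fun n : H => φ ⟨(n : G), hHT n.2⟩) θ ≠ 0 := by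
    intro φ hφ h h0
    refine h ?_
    rw [Cfsg.Lib.Characters.classInner_indFun _ _ hφ.isClassFunction]
    have e := Cfsg.Lib.Characters.classInner_comp_equiv (Subgroup.subgroupOfEquivOfLe hHT)
      θ (fun n : H => φ ⟨(n : G), hHT n.2⟩)
    have h1 : Cfsg.classInner θ (fun n : H => φ ⟨(n : G), hHT n.2⟩) = 0 := by
      rw [← Cfsg.Lib.Characters.conj_classInner, h0, map_zero]
    exact e.trans h1
  obtain ⟨hirr, huniq⟩ := Cfsg.Lib.Characters.indFun_of_mem_inertia hθ T hTi hHT hψ (hconv ψ hψ hc)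
  exact ⟨hirr, fun h => (huniq ψ' hψ' (hconv ψ' hψ' hc') h.symm).symm⟩

end Cfsg.Agent.S1489
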