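import Cfsg.Statements.S1494
import Mathlib
import Cfsg.Agent.Lib.Characters.Induction

set_option autoImplicit false
open Cfsg Cfsg.Lib.Characters
open scoped ComplexConjugate

namespace Cfsg.Agent.S1494

theorem linear_case {A : Type*} [Group A] (lam : A →* ℂˣ) {p : ℕ} (hp : p.Prime) (x y : A)
    (hx : x ^ p = 1) : ∃ ω : ℂ, IsIntegral ℤ ω ∧ IsIntegral ℤ ((lam x : ℂ)) ∧
      (lam x : ℂ) - 1 = (1 - Complex.exp (2 * Real.pi * Complex.I / p)) * ω := by
  haveI : NeZero p := ⟨hp.ne_zero⟩
  have hζ := Complex.isPrimitiveRoot_exp p hp.ne_zero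
  have hμ : ((lam x : ℂ)) ^ p = 1 := by rw [← Units.val_pow_eq_pow_val, ← map_pow, hx, map_one, Units.val_one]
  obtain ⟨j, -, hj⟩ := hζ.eq_pow_of_pow_eq_one hμ
  set ε := Complex.exp (2 * Real.pi * Complex.I / p) with hε
  have hεi : IsIntegral ℤ ε := hζ.isIntegral hp.pos
  refine ⟨-∑ i ∈ Finset.range j, ε ^ i, (IsIntegral.sum _ fun i _ => hεi.pow i).neg, ?_, ?_⟩
  · rw [← hj]; exact hεi.pow j
  · rw [← hj]
    linear_combination (mul_neg_geom_sum ε j)


/-- Let χ be a generalized character of the finite group G, p a prime, x an element of order p and y an element commuting with x. Then χ(x * y) − χ(y) = (1 − ε) * ω for some algebraic integer ω, where ε = exp(2πi/p). -/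
theorem result {G : Type*} [Group G] [Finite G] (χ : G → ℂ) (hχ : Cfsg.IsGeneralizedCharacter G χ) (p : ℕ) (hp : p.Prime) (x y : G) (hx : orderOf x = p) (hxy : x * y = y * x) : ∃ ω : ℂ, IsIntegral ℤ ω ∧ χ (x * y) - χ y = (1 - Complex.exp (2 * Real.pi * Complex.I / p)) * ω := by
  classical
  haveI := Fintype.ofFinite G
  let A : Subgroup G := Subgroup.closure {x, y}
  haveI : IsMulCommutative A := Subgroup.isMulCommutative_closure (by
    intro a ha b hb
    simp only [Set.mem_insert_iff, Set.mem_singleton_iff] at ha hb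
    rcases ha with rfl | rfl <;> rcases hb with rfl | rfl
    · rfl
    · exact hxy
    · exact hxy.symm
    · rfl)
  let x' : A := ⟨x, Subgroup.subset_closure (by simp)⟩
  let y' : A := ⟨y, Subgroup.subset_closure (by simp)⟩
  haveI := Fintype.ofFinite A
  obtain ⟨a, hexp, -⟩ := exists_coeff (isGeneralized_comp hχ A.subtype)
  have hterm : ∀ ψ : IrrCharacter A, ∃ ω : ℂ, IsIntegral ℤ ω ∧
      (ψ : A → ℂ) (x' * y') - (ψ : A → ℂ) y' = (1 - Complex.exp (2 * Real.pi * Complex.I / p)) * ω := by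
    intro ψ
    obtain ⟨lam, hlam⟩ := exists_hom_of_degree_one ψ.2.isCharacter (degree_one_of_isMulCommutative ψ.2)
    obtain ⟨ω, hω, -, he⟩ := linear_case lam hp x' y' (Subtype.ext (by
      show x ^ p = 1
      rw [← hx, pow_orderOf_eq_one]))
    refine ⟨ω * (ψ : A → ℂ) y', hω.mul (char_isIntegral ψ.2.isCharacter y'), ?_⟩
    rw [hlam]
    simp only [map_mul, Units.val_mul]
    linear_combination (lam y' : ℂ) * he
  choose ω hω he using hterm
  refine ⟨∑ ψ, (a ψ : ℂ) * ω ψ,
    IsIntegral.sum _ fun ψ _ => (isIntegral_algebraMap (R := ℤ) (x := a ψ)).mul (hω ψ), ?_⟩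
  have h1 := congr_fun hexp (x' * y')
  have h2 := congr_fun hexp y'
  simp only [Finset.sum_apply, Pi.smul_apply, smul_eq_mul] at h1 h2
  show χ (A.subtype (x' * y')) - χ (A.subtype y') = _
  rw [show χ (A.subtype (x' * y')) = _ from h1, show χ (A.subtype y') = _ from h2,
    ← Finset.sum_sub_distrib, Finset.mul_sum]
  refine Finset.sum_congr rfl fun ψ _ => ?_
  rw [← mul_sub, he ψ]
  ring

end Cfsg.Agent.S1494
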