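import Cfsg.Statements.S1495
import Mathlib

-- import your own Cfsg.Agent.* helpers here

set_option autoImplicit false
open Cfsg

namespace Cfsg.Agent.S1495

/-- Let p be a prime, ε = exp(2πi/p), and n an integer such that n = (1 − ε) * ω for some algebraic integer ω. Then p divides n. -/
theorem result (p : ℕ) (hp : p.Prime) (n : ℤ) (ω : ℂ) (hω : IsIntegral ℤ ω) (h : (n : ℂ) = (1 - Complex.exp (2 * Real.pi * Complex.I / p)) * ω) : (p : ℤ) ∣ n := by
  by_contra hdvd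
  set ζ : ℂ := Complex.exp (2 * Real.pi * Complex.I / p)
  have hζ : IsPrimitiveRoot ζ p := Complex.isPrimitiveRoot_exp p hp.ne_zero
  obtain ⟨m, rfl⟩ : ∃ m, p = m + 1 := ⟨p - 1, (Nat.sub_add_cancel hp.pos).symm⟩
  have hprod := hζ.prod_one_sub_pow_eq_order
  have hζi : IsIntegral ℤ ζ := IsPrimitiveRoot.isIntegral hζ hp.pos
  have hone : (1 : ℂ) - ζ ≠ 0 := sub_ne_zero.mpr (hζ.ne_one hp.one_lt).symm
  -- `1 - ζ` divides `p`
  have hp1 : IsIntegral ℤ (((m + 1 : ℕ) : ℂ) / (1 - ζ)) := by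
    have h1 : (0 : ℕ) ∈ Finset.range m := Finset.mem_range.mpr (by have := hp.two_le; omega)
    rw [← Finset.mul_prod_erase _ _ h1, pow_one] at hprod
    push_cast at hprod ⊢
    rw [← hprod, mul_div_cancel_left₀ _ hone]
    exact IsIntegral.prod _ fun i _ => isIntegral_one.sub (hζi.pow _)
  obtain ⟨x, y, hxy⟩ := Int.isCoprime_iff_gcd_eq_one.mpr
    (show Int.gcd ((m + 1 : ℕ) : ℤ) n = 1 by
      rw [Int.gcd_eq_natAbs, Int.natAbs_natCast]
      exact (hp.coprime_iff_not_dvd.mpr fun hh => hdvd (Int.natCast_dvd.mpr hh)))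
  have hu : IsIntegral ℤ (1 / (1 - ζ)) := by
    have h1 : (1 : ℂ) / (1 - ζ) = (x : ℂ) * (((m + 1 : ℕ) : ℂ) / (1 - ζ)) + (y : ℂ) * ω := by
      have h2 : (x : ℂ) * ((m + 1 : ℕ) : ℂ) + (y : ℂ) * (n : ℂ) = 1 := by exact_mod_cast hxy
      rw [div_eq_iff hone, add_mul, mul_assoc, div_mul_cancel₀ _ hone, mul_assoc, mul_comm ω, ← h]
      exact h2.symm
    rw [h1]
    exact (isIntegral_algebraMap.mul hp1).add (isIntegral_algebraMap.mul hω)
  have hall : ∀ i ∈ Finset.range m, IsIntegral ℤ (1 / (1 - ζ ^ (i + 1))) := by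
    intro i hi
    have hcop : Nat.Coprime (i + 1) (m + 1) := (hp.coprime_iff_not_dvd.mpr fun hh => by
      have := Nat.le_of_dvd (Nat.succ_pos i) hh
      have := Finset.mem_range.mp hi
      omega).symm
    have hi1 : (1 : ℂ) - ζ ^ (i + 1) ≠ 0 :=
      sub_ne_zero.mpr ((hζ.pow_of_coprime _ hcop).ne_one hp.one_lt).symm
    obtain ⟨j, -, hj⟩ := Nat.exists_mul_mod_eq_one_of_coprime hcop hp.one_lt
    have hz : ζ = (ζ ^ (i + 1)) ^ j := by
      rw [← pow_mul, ← Nat.div_add_mod ((i + 1) * j) (m + 1), pow_add, pow_mul, hζ.pow_eq_one,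
        one_pow, one_mul, hj, pow_one]
    have h1 : (1 : ℂ) / (1 - ζ ^ (i + 1)) = (∑ k ∈ Finset.range j, (ζ ^ (i + 1)) ^ k) * (1 / (1 - ζ)) := by
      field_simp
      conv_lhs => rw [hz]
      rw [← geom_sum_mul_neg, mul_comm]
    rw [h1]
    exact (IsIntegral.sum _ fun k _ => (hζi.pow _).pow _).mul hu
  have hinv : IsIntegral ℤ ((((1 : ℚ) / (m + 1 : ℕ)) : ℚ) : ℂ) := by
    have : ((((1 : ℚ) / (m + 1 : ℕ)) : ℚ) : ℂ) = ∏ i ∈ Finset.range m, 1 / (1 - ζ ^ (i + 1)) := by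
      rw [Finset.prod_div_distrib, Finset.prod_const_one, hprod]
      push_cast
      ring
    rw [this]
    exact IsIntegral.prod _ hall
  have h' : IsIntegral ℤ ((1 : ℚ) / (m + 1 : ℕ)) :=
    IsIntegral.tower_bot (B := ℂ) (algebraMap ℚ ℂ).injective (by simpa using hinv)
  obtain ⟨z, hz⟩ := IsIntegrallyClosed.isIntegral_iff.mp h'
  have hp0 : (((m + 1 : ℕ) : ℚ)) ≠ 0 := Nat.cast_ne_zero.mpr hp.ne_zero
  have hz' : (z : ℤ) * ((m + 1 : ℕ) : ℤ) = 1 := by
    have : (z : ℚ) = 1 / ((m + 1 : ℕ) : ℚ) := hz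
    rw [eq_div_iff hp0] at this
    exact_mod_cast this
  have := Int.eq_one_of_mul_eq_one_left (by positivity) hz'
  have := hp.two_le
  omega

end Cfsg.Agent.S1495
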