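import Cfsg.Statements.S1497
import Mathlib
import Cfsg.Agent.Lib.Characters.Dade
-- import your own Cfsg.Agent.* helpers here

set_option autoImplicit false
open Cfsg

namespace Cfsg.Agent.S1497

/-- Let A be a nonempty subset of the finite group G not containing 1 and L a subgroup. Then A is a TI-subset whose normaliser is L if and only if the Dade hypothesis holds for A, L and the constant choice H(a) = ⊥. -/
theorem result {G : Type*} [Group G] [Finite G] (A : Set G) (hA : A.Nonempty) (h1 : (1 : G) ∉ A) (L : Subgroup G) : (Cfsg.IsTISubset A ∧ Subgroup.normalizer A = L) ↔ Cfsg.DadeHypothesis A L (fun _ => ⊥) := by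
  constructor
  · rintro ⟨hTI, rfl⟩
    have hmem : ∀ a ∈ A, ∀ g : G, g * a * g⁻¹ ∈ A → g ∈ Subgroup.normalizer A := by
      intro a ha g hg
      by_contra hn
      exact h1 (hTI g hn a ha hg ▸ ha)
    have hC : ∀ a ∈ A, Subgroup.centralizer ({a} : Set G) ≤ Subgroup.normalizer A := fun a ha c hc =>
      hmem a ha c (by rw [Subgroup.mem_centralizer_singleton_iff.mp hc, mul_inv_cancel_right]; exact ha)
    exact
    { one_not_mem := h1
      subset := fun a ha => hmem a ha a (by rw [mul_inv_cancel_right]; exact ha)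
      conj_mem := fun x hx a ha => (Subgroup.mem_set_normalizer_iff.mp hx a).mp ha
      fusion := fun a ha g hg => ⟨g, hmem a ha g hg, rfl⟩
      le_centralizer := fun _ _ => bot_le
      conj_mem_H := fun a _ c _ u hu => by
        rw [Subgroup.mem_bot] at hu ⊢; rw [hu, mul_one, mul_inv_cancel]
      inf_eq_bot := fun _ _ => bot_inf_eq _
      sup_eq := fun a ha => by rw [bot_sup_eq]; exact inf_eq_right.mpr (hC a ha)
      coprime := fun _ _ _ _ => by rw [Subgroup.card_bot]; exact Nat.coprime_one_left _ }
  · intro hD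
    obtain ⟨a₀, ha₀⟩ := hA
    have hC : ∀ a ∈ A, Subgroup.centralizer ({a} : Set G) ≤ L := fun a ha => by
      have := hD.sup_eq a ha
      rw [bot_sup_eq, inf_eq_right] at this
      exact this
    have hmem : ∀ a ∈ A, ∀ g : G, g * a * g⁻¹ ∈ A → g ∈ L := by
      intro a ha g hg
      obtain ⟨x, hx, hxe⟩ := hD.fusion a ha g hg
      have hc : x⁻¹ * g ∈ Subgroup.centralizer ({a} : Set G) := by
        rw [Subgroup.mem_centralizer_singleton_iff]
        calc x⁻¹ * g * a = x⁻¹ * (g * a * g⁻¹) * g := by group
          _ = x⁻¹ * (x * a * x⁻¹) * g := by rw [hxe]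
          _ = a * (x⁻¹ * g) := by group
      simpa using L.mul_mem hx (hC a ha hc)
    have hN : Subgroup.normalizer A = L := by
      refine le_antisymm (fun g hg => hmem a₀ ha₀ g ((Subgroup.mem_set_normalizer_iff.mp hg a₀).mp ha₀))
        fun x hx => Subgroup.mem_set_normalizer_iff.mpr fun n => ⟨hD.conj_mem x hx n, fun hn => ?_⟩
      have := hD.conj_mem x⁻¹ (L.inv_mem hx) _ hn
      simpa [mul_assoc] using this
    exact ⟨fun g hg x hx hgx => absurd (hN.symm ▸ hmem x hx g hgx) hg, hN⟩

end Cfsg.Agent.S1497
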