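import Cfsg.Statements.S1505
import Mathlib
import Cfsg.Agent.Lib.Characters.CyclicTI
-- import your own Cfsg.Agent.* helpers here

set_option autoImplicit false
open Cfsg

namespace Cfsg.Agent.S1505

open Classical in
/-- Let W₁, W₂ ≤ G form a self-normalising cyclic subgroup W = W₁ ⊔ W₂. For nontrivial linear characters φ, φ' of W trivial on W₂ and ψ, ψ' trivial on W₁, put α = (1 − φ)(1 − ψ) and α' = (1 − φ')(1 − ψ'). Then the function induced from α to G has inner product 1 with the principal character, and the inner product of the functions induced from α and α' is 1 + a + b + ab where a = 1 if φ = φ' (else 0) and b = 1 if ψ = ψ' (else 0). -/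
theorem result {G : Type*} [Group G] [Fintype G] (W₁ W₂ : Subgroup G) (hW : Cfsg.IsSelfNormalizingCyclic W₁ W₂) (φ φ' ψ ψ' : ↥(W₁ ⊔ W₂) →* ℂˣ) (hφ : φ ≠ 1) (hφ' : φ' ≠ 1) (hψ : ψ ≠ 1) (hψ' : ψ' ≠ 1) (hφ₂ : ∀ w : ↥(W₁ ⊔ W₂), (w : G) ∈ W₂ → φ w = 1 ∧ φ' w = 1) (hψ₁ : ∀ w : ↥(W₁ ⊔ W₂), (w : G) ∈ W₁ → ψ w = 1 ∧ ψ' w = 1) : Cfsg.classInner (Cfsg.indFun (W₁ ⊔ W₂) (fun w => 1 - (φ w : ℂ) - (ψ w : ℂ) + (φ w : ℂ) * (ψ w : ℂ))) (fun _ => 1) = 1 ∧ Cfsg.classInner (Cfsg.indFun (W₁ ⊔ W₂) (fun w => 1 - (φ w : ℂ) - (ψ w : ℂ) + (φ w : ℂ) * (ψ w : ℂ))) (Cfsg.indFun (W₁ ⊔ W₂) (fun w => 1 - (φ' w : ℂ) - (ψ' w : ℂ) + (φ' w : ℂ) * (ψ' w : ℂ))) = 1 + (if φ = φ' then 1 else 0) + (if ψ = ψ' then 1 else 0) + (if φ = φ' then 1 else 0) * (if ψ = ψ' then 1 else 0) := by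
  classical
  haveI : Fintype ↥(W₁ ⊔ W₂) := Fintype.ofFinite _
  have ha : ∀ w : ↥(W₁ ⊔ W₂), (w : G) ∈ W₂ → φ w = 1 := fun w h => (hφ₂ w h).1
  have ha' : ∀ w : ↥(W₁ ⊔ W₂), (w : G) ∈ W₂ → φ' w = 1 := fun w h => (hφ₂ w h).2
  have hb : ∀ w : ↥(W₁ ⊔ W₂), (w : G) ∈ W₁ → ψ w = 1 := fun w h => (hψ₁ w h).1
  have hb' : ∀ w : ↥(W₁ ⊔ W₂), (w : G) ∈ W₁ → ψ' w = 1 := fun w h => (hψ₁ w h).2
  constructor
  · rw [Cfsg.Lib.Characters.classInner_indFun (W₁ ⊔ W₂) _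
      (Cfsg.Lib.Characters.isIrrCharacter_one).isClassFunction]
    have h := Cfsg.Lib.Characters.classInner_fourTerm_hom φ ψ 1
    rw [if_pos rfl, if_neg hφ, if_neg hψ, if_neg] at h
    · refine Eq.trans ?_ (h.trans (by norm_num))
      simp [Cfsg.Lib.Characters.fourTerm]
      rfl
    · intro e
      exact hφ ((Cfsg.Lib.Characters.mul_hom_eq_iff (φ := φ) (φ' := 1) (ψ := ψ) (ψ' := 1)
        ha (fun _ _ => rfl) hb (fun _ _ => rfl)).mp (e.trans (one_mul (1 : ↥(W₁ ⊔ W₂) →* ℂˣ)).symm)).1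
  · refine (Cfsg.Lib.Characters.classInner_indFun_ti
      (Cfsg.Lib.Characters.selfNormalizingCyclic_ti hW) (Cfsg.Lib.Characters.fourTerm_support ha hb)
      (Cfsg.Lib.Characters.isClassFunction_fourTerm φ' ψ')
      (Cfsg.Lib.Characters.fourTerm_support ha' hb') ?_).trans ?_
    · norm_num [Cfsg.Lib.Characters.fourTerm]
    · convert Cfsg.Lib.Characters.classInner_fourTerm ha ha' hb hb' hφ hφ' hψ hψ' using 1
      split_ifs <;> rfl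

end Cfsg.Agent.S1505
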