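import Cfsg.Statements.S1502
import Cfsg.Agent.Lib.Characters.Grid
import Cfsg.Agent.Lib.Characters.CyclicTI2
import Cfsg.Agent.Lib.Characters.QuaternionD
import Cfsg.Agent.Lib.Characters.Integrality
import Cfsg.Agent.Lib.Characters.Induction
import Cfsg.Agent.S1505

set_option autoImplicit false
open Cfsg

namespace Cfsg.Agent.S1502

open Cfsg Cfsg.Lib.Characters
open scoped ComplexConjugate

universe u

variable {G : Type u} [Group G] [Fintype G] {W₁ W₂ : Subgroup G}

theorem finite_hom (X : Type*) [Group X] [Finite X] : Finite (X →* ℂˣ) :=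
  Finite.of_injective (fun l => (⟨fun x => (l x : ℂ), isIrrCharacter_linear l⟩ : IrrCharacter X))
    fun _ _ h => linear_char_injective (congrArg Subtype.val h)

theorem card_hom_abelian (X : Type*) [Group X] [Finite X] [IsMulCommutative X] :
    Nat.card (X →* ℂˣ) = Nat.card X := by
  rw [card_hom_units, show commutator X = ⊥ from ?_, Subgroup.index_bot]
  rw [commutator_def, Subgroup.commutator_eq_bot_iff_le_centralizer]
  exact fun a _ => Subgroup.mem_centralizer_iff.mpr fun b _ => mul_comm' b a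

/-- A function orthogonal to every four-term function vanishes outside both factors. -/
theorem vanish_of_orth [Fintype ↥(W₁ ⊔ W₂)] (hdisj : W₁ ⊓ W₂ = ⊥)
    (hcomm : ∀ a ∈ W₁, ∀ b ∈ W₂, a * b = b * a) [IsMulCommutative ↥(W₁ ⊔ W₂)]
    (f : ↥(W₁ ⊔ W₂) → ℂ)
    (key : ∀ φ ψ : ↥(W₁ ⊔ W₂) →* ℂˣ, (∀ x : ↥(W₁ ⊔ W₂), (x : G) ∈ W₂ → φ x = 1) →
      (∀ x : ↥(W₁ ⊔ W₂), (x : G) ∈ W₁ → ψ x = 1) → classInner f (fourTerm φ ψ) = 0)
    {w : ↥(W₁ ⊔ W₂)} (hw₁ : (w : G) ∉ W₁) (hw₂ : (w : G) ∉ W₂) : f w = 0 := by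
  classical
  obtain ⟨φ₀, hφ₀, hφ₀w⟩ := exists_factor_hom hdisj hcomm (w := w) hw₂
  obtain ⟨ψ₀, hψ₀, hψ₀w⟩ := exists_factor_hom' hdisj hcomm (w := w) hw₁
  set h : ↥(W₁ ⊔ W₂) → ℂ := fun x => f x * conj (fourTerm φ₀ ψ₀ x)
  have hcl : ∀ g : ↥(W₁ ⊔ W₂) → ℂ, IsClassFunction _ g := fun g a b => by
    rw [mul_comm' b a, mul_inv_cancel_right]
  have hh : h = 0 := by
    refine eq_zero_of_forall_classInner (hcl h) fun χ' => ?_
    obtain ⟨ω, hω⟩ := exists_hom_of_degree_one χ'.2.isCharacter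
      (degree_one_of_isMulCommutative χ'.2)
    obtain ⟨φ, ψ, hφ, hψ, rfl⟩ := exists_split hdisj hcomm ω
    have hsplit : (fun x => fourTerm φ₀ ψ₀ x * ((φ * ψ) x : ℂ)) =
        (fourTerm (φ * φ₀) (ψ * ψ₀) - fourTerm φ (ψ * ψ₀)) - fourTerm (φ * φ₀) ψ +
          fourTerm φ ψ := by
      funext x
      simp only [fourTerm, Pi.add_apply, Pi.sub_apply, MonoidHom.mul_apply, Units.val_mul]
      ring
    have e : classInner h (fun x => ((φ * ψ) x : ℂ)) =
        classInner f fun x => fourTerm φ₀ ψ₀ x * ((φ * ψ) x : ℂ) := by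
      simp only [classInner, h, map_mul]
      congr 1
      exact Finset.sum_congr rfl fun x _ => by ring
    rw [hω, e, hsplit, classInner_add_right, classInner_sub_right, classInner_sub_right,
      key _ _ (fun x hx => by simp [hφ x hx, hφ₀ x hx]) (fun x hx => by simp [hψ x hx, hψ₀ x hx]),
      key _ _ hφ (fun x hx => by simp [hψ x hx, hψ₀ x hx]),
      key _ _ (fun x hx => by simp [hφ x hx, hφ₀ x hx]) hψ, key _ _ hφ hψ]
    ring
  have hw0 : f w * conj (fourTerm φ₀ ψ₀ w) = 0 := congrFun hh w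
  refine (mul_eq_zero.mp hw0).resolve_right ?_
  rw [map_eq_zero]
  have : fourTerm φ₀ ψ₀ w = (1 - (φ₀ w : ℂ)) * (1 - (ψ₀ w : ℂ)) := by simp only [fourTerm]; ring
  rw [this]
  exact mul_ne_zero (sub_ne_zero.mpr fun h => hφ₀w (Units.ext h.symm))
    (sub_ne_zero.mpr fun h => hψ₀w (Units.ext h.symm))

/-- Let W₁, W₂ be nontrivial subgroups of the finite group G generating a cyclic subgroup W = W₁ ⊔ W₂ of odd order that is the normaliser of every nonempty set of its elements outside W₁ ∪ W₂. Then there is a family attaching to each linear character ω of W an irreducible character of G up to sign, orthonormal, sending the trivial character to the principal character, with χ ω = ω on W outside W₁ ∪ W₂, and such that inducing (1 − φ)(1 − ψ) to G gives 1 − χ φ − χ ψ + χ (φψ) whenever φ ≠ 1 is trivial on W₂ and ψ ≠ 1 is trivial on W₁. -/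
theorem result {G : Type*} [Group G] [Fintype G] (W₁ W₂ : Subgroup G) (hW : Cfsg.IsSelfNormalizingCyclic W₁ W₂) (hodd : Odd (Nat.card ↥(W₁ ⊔ W₂))) : ∃ χ : (↥(W₁ ⊔ W₂) →* ℂˣ) → (G → ℂ), Cfsg.IsCyclicTIFamily W₁ W₂ χ := by
  classical
  obtain ⟨hW1, hW2, hdisj, hcomm, hcyc, hN⟩ := hW
  haveI := hcyc
  haveI : IsMulCommutative ↥(W₁ ⊔ W₂) := inferInstance
  haveI : Fintype ↥(W₁ ⊔ W₂) := Fintype.ofFinite _
  haveI := finite_hom ↥(W₁ ⊔ W₂)
  haveI : Fintype (↥(W₁ ⊔ W₂) →* ℂˣ) := Fintype.ofFinite _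
  obtain ⟨π₁, π₂, hp1, hp2, hprod, hw1, hw2⟩ := exists_proj hdisj hcomm
  let PI := fun φ : ↥(W₁ ⊔ W₂) →* ℂˣ => φ ≠ 1 ∧ ∀ w : ↥(W₁ ⊔ W₂), (w : G) ∈ W₂ → φ w = 1
  let PJ := fun ψ : ↥(W₁ ⊔ W₂) →* ℂˣ => ψ ≠ 1 ∧ ∀ w : ↥(W₁ ⊔ W₂), (w : G) ∈ W₁ → ψ w = 1
  -- the sizes
  have hcount : ∀ (U V : Subgroup G) (π : ↥(W₁ ⊔ W₂) →* ↥(W₁ ⊔ W₂)) (hU : U ≤ W₁ ⊔ W₂),
      (∀ w, ((π w : ↥(W₁ ⊔ W₂)) : G) ∈ U) → (∀ w : ↥(W₁ ⊔ W₂), (w : G) ∈ U → π w = w) →
      (∀ w : ↥(W₁ ⊔ W₂), (w : G) ∈ V → π w = 1) →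
      (∀ φ : ↥(W₁ ⊔ W₂) →* ℂˣ, (∀ w : ↥(W₁ ⊔ W₂), (w : G) ∈ V → φ w = 1) → φ.comp π = φ) →
      Nat.card {φ : ↥(W₁ ⊔ W₂) →* ℂˣ // φ ≠ 1 ∧ ∀ w : ↥(W₁ ⊔ W₂), (w : G) ∈ V → φ w = 1} + 1 =
        Nat.card U := by
    intro U V π hU hπU hπid hπV hcomp
    haveI : IsMulCommutative ↥U := ⟨⟨fun a b => by
      refine Subtype.ext ?_
      have e := congrArg Subtype.val (mul_comm' (⟨a, hU a.2⟩ : ↥(W₁ ⊔ W₂)) ⟨b, hU b.2⟩)
      exact e⟩⟩
    have hr : Nat.card {φ : ↥(W₁ ⊔ W₂) →* ℂˣ // ∀ w : ↥(W₁ ⊔ W₂), (w : G) ∈ V → φ w = 1} =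
        Nat.card U := by
      rw [← card_hom_abelian U]
      refine Nat.card_eq_of_bijective (fun φ => φ.1.comp (Subgroup.inclusion hU)) ⟨?_, ?_⟩
      · intro φ φ' h
        refine Subtype.ext ?_
        rw [← hcomp _ φ.2, ← hcomp _ φ'.2]
        refine MonoidHom.ext fun w => ?_
        exact DFunLike.congr_fun h ⟨_, hπU w⟩
      · intro l
        refine ⟨⟨l.comp (MonoidHom.codRestrict ((W₁ ⊔ W₂).subtype.comp π) U hπU), fun w hw => ?_⟩,
          MonoidHom.ext fun x => ?_⟩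
        · show l ⟨_, _⟩ = 1
          rw [show (⟨((W₁ ⊔ W₂).subtype.comp π) w, hπU w⟩ : U) = 1 from
            Subtype.ext (by simp [hπV w hw]), map_one]
        · show l ⟨_, _⟩ = l x
          congr 1
          exact Subtype.ext (by
            show ((π (Subgroup.inclusion hU x) : ↥(W₁ ⊔ W₂)) : G) = x
            rw [hπid _ x.2]; rfl)
    rw [← hr]
    set T := {φ : ↥(W₁ ⊔ W₂) →* ℂˣ // ∀ w : ↥(W₁ ⊔ W₂), (w : G) ∈ V → φ w = 1}
    let t1 : T := ⟨1, fun _ _ => rfl⟩
    have e := Nat.card_congr (Equiv.optionSubtypeNe t1)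
    rw [Finite.card_option] at e
    rw [← e]
    congr 1
    exact Nat.card_congr
      { toFun := fun φ => ⟨⟨φ.1, φ.2.2⟩, fun h => φ.2.1 (congrArg Subtype.val h)⟩
        invFun := fun φ => ⟨φ.1.1, fun h => φ.2 (Subtype.ext h), φ.1.2⟩
        left_inv := fun _ => rfl
        right_inv := fun _ => rfl }
  have hφπ : ∀ φ : ↥(W₁ ⊔ W₂) →* ℂˣ, (∀ w : ↥(W₁ ⊔ W₂), (w : G) ∈ W₂ → φ w = 1) → φ.comp π₁ = φ :=
    fun φ h => MonoidHom.ext fun w => by
      conv_rhs => rw [← hprod w, map_mul, h _ (hp2 w), mul_one]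
      rfl
  have hψπ : ∀ ψ : ↥(W₁ ⊔ W₂) →* ℂˣ, (∀ w : ↥(W₁ ⊔ W₂), (w : G) ∈ W₁ → ψ w = 1) → ψ.comp π₂ = ψ :=
    fun ψ h => MonoidHom.ext fun w => by
      conv_rhs => rw [← hprod w, map_mul, h _ (hp1 w), one_mul]
      rfl
  have hIcard := hcount W₁ W₂ π₁ le_sup_left hp1 (fun w h => (hw1 w h).1) (fun w h => (hw2 w h).1) hφπ
  have hJcard := hcount W₂ W₁ π₂ le_sup_right hp2 (fun w h => (hw2 w h).2) (fun w h => (hw1 w h).2) hψπ
  have ho1 : Odd (Nat.card W₁) := Odd.of_dvd_nat hodd (Subgroup.card_dvd_of_le le_sup_left)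
  have ho2 : Odd (Nat.card W₂) := Odd.of_dvd_nat hodd (Subgroup.card_dvd_of_le le_sup_right)
  have hne1 : Nat.card W₁ ≠ 1 := fun h => hW1 (Subgroup.card_eq_one.mp h)
  have hne2 : Nat.card W₂ ≠ 1 := fun h => hW2 (Subgroup.card_eq_one.mp h)
  have hne12 : Nat.card W₁ ≠ Nat.card W₂ := fun h => hW1 (by
    have e := QD.eq_of_le_cyclic (A := W₁ ⊔ W₂) le_sup_left le_sup_right h
    rw [← e, inf_idem] at hdisj
    exact hdisj)
  -- the vectors
  let β : {φ // PI φ} → {ψ // PJ ψ} → G → ℂ := fun i j =>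
    indFun (W₁ ⊔ W₂) (fourTerm i.1 j.1) - fun _ => 1
  have hgen4 : ∀ i : {φ // PI φ}, ∀ j : {ψ // PJ ψ}, IsGeneralizedCharacter G (β i j) := by
    intro i j
    refine isGeneralized_sub (isGeneralized_indFun _ ?_) (isGeneralized_of_isCharacter isCharacter_one)
    have e : fourTerm i.1 j.1 = (((fun _ => (1 : ℂ)) - fun w => (i.1 w : ℂ)) - fun w => (j.1 w : ℂ)) +
        fun w => ((i.1 * j.1) w : ℂ) := by
      funext w; simp [fourTerm]
    rw [e]
    exact isGeneralized_add (isGeneralized_sub (isGeneralized_sub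
      (isGeneralized_of_isCharacter isCharacter_one)
      (isGeneralized_of_isCharacter (isIrrCharacter_linear _).isCharacter))
      (isGeneralized_of_isCharacter (isIrrCharacter_linear _).isCharacter))
      (isGeneralized_of_isCharacter (isIrrCharacter_linear _).isCharacter)
  choose v hv using fun i j (t : IrrCharacter G) =>
    classInner_int (hgen4 i j) (isGeneralized_of_isCharacter t.2.isCharacter)
  choose d hd using fun t : IrrCharacter G => exists_degree t.2.isCharacter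
  have hexp : ∀ i j, β i j = ∑ t, (v i j t : ℂ) • (t : G → ℂ) := fun i j =>
    (classFunction_expansion (isGeneralized_isClassFunction (hgen4 i j))).trans
      (Finset.sum_congr rfl fun t _ => by rw [hv])
  have hinner : ∀ i j k l, ((∑ t, v i j t * v k l t : ℤ) : ℂ) = classInner (β i j) (β k l) := by
    intro i j k l
    rw [classInner_eq_sum (isGeneralized_isClassFunction (hgen4 i j)), Int.cast_sum]
    refine Finset.sum_congr rfl fun t _ => ?_
    rw [hv, ← conj_classInner (β k l), hv, map_intCast, Int.cast_mul]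
  have hI1 : ∀ i : {φ // PI φ}, ∀ j : {ψ // PJ ψ},
      classInner (indFun (W₁ ⊔ W₂) (fourTerm i.1 j.1)) (fun _ => (1 : ℂ)) = 1 := fun i j =>
    (Cfsg.Agent.S1505.result W₁ W₂ ⟨hW1, hW2, hdisj, hcomm, hcyc, hN⟩ i.1 i.1 j.1 j.1
      i.2.1 i.2.1 j.2.1 j.2.1 (fun w h => ⟨i.2.2 w h, i.2.2 w h⟩) (fun w h => ⟨j.2.2 w h, j.2.2 w h⟩)).1
  have hbb : ∀ i j k l, classInner (β i j) (β k l) = (if i = k then 1 else 0) +
      (if j = l then 1 else 0) + (if i = k then 1 else 0) * (if j = l then 1 else 0) := by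
    intro i j k l
    have h := (Cfsg.Agent.S1505.result W₁ W₂ ⟨hW1, hW2, hdisj, hcomm, hcyc, hN⟩ i.1 k.1 j.1 l.1
      i.2.1 k.2.1 j.2.1 l.2.1 (fun w h => ⟨i.2.2 w h, k.2.2 w h⟩) (fun w h => ⟨j.2.2 w h, l.2.2 w h⟩)).2
    simp only [β, classInner_sub_left, classInner_sub_right]
    rw [show classInner (indFun (W₁ ⊔ W₂) (fourTerm i.1 j.1)) (indFun (W₁ ⊔ W₂) (fourTerm k.1 l.1)) = _
      from h, hI1 i j, ← conj_classInner (indFun (W₁ ⊔ W₂) (fourTerm k.1 l.1)), hI1 k l, map_one,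
      classInner_irr_self isIrrCharacter_one]
    simp only [Subtype.coe_inj]
    ring
  have hβ1 : ∀ i j, β i j 1 = -1 := fun i j => by
    simp [β, indFun_one_apply, fourTerm]
  have hdeg : ∀ i j, ∑ t, v i j t * (d t : ℤ) = -1 := by
    intro i j
    have e := hβ1 i j
    rw [hexp, Finset.sum_apply] at e
    have : ((∑ t, v i j t * (d t : ℤ) : ℤ) : ℂ) = ((-1 : ℤ) : ℂ) := by
      push_cast
      rw [← e]
      exact Finset.sum_congr rfl fun t _ => by rw [Pi.smul_apply, smul_eq_mul, hd]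
    exact_mod_cast this
  have hval : ∀ i j k l, ∑ t, v i j t * v k l t = (if i = k then 1 else 0) +
      (if j = l then 1 else 0) + (if i = k then 1 else 0) * (if j = l then 1 else 0) := by
    intro i j k l
    have e := (hinner i j k l).trans (hbb i j k l)
    split_ifs at e ⊢ <;> norm_num at e ⊢ <;> exact_mod_cast e
  have hyp : Grid.Hyp v fun t => (d t : ℤ) :=
    { deg_ne := fun t => Int.natCast_ne_zero.mpr fun h => t.2.one_ne_zero (by rw [hd, h, Nat.cast_zero])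
      norm := fun i j => by rw [hval]; simp
      col := fun i k j h => by rw [hval]; simp [h]
      row := fun i j l h => by rw [hval]; simp [h]
      orth := fun i k j l h h' => by rw [hval]; simp [h, h']
      deg := fun i j k l => by
        simp only [sub_mul, Finset.sum_sub_distrib, hdeg, sub_self] }
  have hcI : Fintype.card {φ // PI φ} + 1 = Nat.card W₁ := by rw [← Nat.card_eq_fintype_card]; exact hIcard
  have hcJ : Fintype.card {ψ // PJ ψ} + 1 = Nat.card W₂ := by rw [← Nat.card_eq_fintype_card]; exact hJcard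
  obtain ⟨q1, hq1⟩ := ho1
  obtain ⟨q2, hq2⟩ := ho2
  obtain ⟨x, y, z, a, b, c, hinj, ha, hb, hc, hxyz⟩ :=
    hyp.exists_points' (by omega) (by omega) (by omega) (by omega) (by omega)
  -- the family
  let one : IrrCharacter G := ⟨fun _ => 1, isIrrCharacter_one⟩
  have hone : ∀ i j, v i j one = 0 := by
    intro i j
    have e : classInner (β i j) (one : G → ℂ) = 0 := by
      simp only [β, one, classInner_sub_left, hI1 i j, classInner_irr_self isIrrCharacter_one, sub_self]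
    rw [hv] at e
    exact_mod_cast e
  have hI0 : Nonempty {φ // PI φ} := Fintype.card_pos_iff.mp (by omega)
  have hJ0 : Nonempty {ψ // PJ ψ} := Fintype.card_pos_iff.mp (by omega)
  have hxz : ∀ i k l, x i ≠ z k l := fun i k l e => by
    simpa using @hinj (Sum.inl i) (Sum.inr (Sum.inr (k, l))) e
  have hyz : ∀ j k l, y j ≠ z k l := fun j k l e => by
    simpa using @hinj (Sum.inr (Sum.inl j)) (Sum.inr (Sum.inr (k, l))) e
  have hxy : ∀ i j, x i ≠ y j := fun i j e => by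
    simpa using @hinj (Sum.inl i) (Sum.inr (Sum.inl j)) e
  have hxo : ∀ i, x i ≠ one := fun i e => by
    have := hxyz i hJ0.some (x i)
    rw [if_pos rfl, if_neg (hxy _ _), if_neg (hxz _ _ _), add_zero, add_zero, e, hone] at this
    have h := ha i
    rw [← this] at h; norm_num at h
  have hyo : ∀ j, y j ≠ one := fun j e => by
    have := hxyz hI0.some j (y j)
    rw [if_pos rfl, if_neg (hxy _ _).symm, if_neg (hyz _ _ _), zero_add, add_zero, e, hone] at this
    have h := hb j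
    rw [← this] at h; norm_num at h
  have hzo : ∀ i j, z i j ≠ one := fun i j e => by
    have := hxyz i j (z i j)
    rw [if_pos rfl, if_neg (hxz _ _ _).symm, if_neg (hyz _ _ _).symm, zero_add, zero_add, e, hone] at this
    have h := hc i j
    rw [← this] at h; norm_num at h
  let m : Option {φ // PI φ} → Option {ψ // PJ ψ} → IrrCharacter G × ℤ
    | none, none => (one, 1)
    | some i, none => (x i, -a i)
    | none, some j => (y j, -b j)
    | some i, some j => (z i j, c i j)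
  let e1 : (↥(W₁ ⊔ W₂) →* ℂˣ) → Option {φ // PI φ} := fun ω =>
    if h : ω.comp π₁ = 1 then none else some ⟨ω.comp π₁, h, fun w hw => by
      rw [MonoidHom.comp_apply, (hw2 w hw).1, map_one]⟩
  let e2 : (↥(W₁ ⊔ W₂) →* ℂˣ) → Option {ψ // PJ ψ} := fun ω =>
    if h : ω.comp π₂ = 1 then none else some ⟨ω.comp π₂, h, fun w hw => by
      rw [MonoidHom.comp_apply, (hw1 w hw).2, map_one]⟩
  have hω : ∀ ω : ↥(W₁ ⊔ W₂) →* ℂˣ, ω = ω.comp π₁ * ω.comp π₂ := fun ω => MonoidHom.ext fun w => by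
    rw [MonoidHom.mul_apply, MonoidHom.comp_apply, MonoidHom.comp_apply, ← map_mul, hprod]
  have he_inj : ∀ ω ω', e1 ω = e1 ω' → e2 ω = e2 ω' → ω = ω' := by
    intro ω ω' h1 h2
    have g1 : ω.comp π₁ = ω'.comp π₁ := by
      simp only [e1] at h1
      split_ifs at h1 with p q
      · exact p.trans q.symm
      · exact congrArg Subtype.val (Option.some_injective _ h1)
    have g2 : ω.comp π₂ = ω'.comp π₂ := by
      simp only [e2] at h2
      split_ifs at h2 with p q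
      · exact p.trans q.symm
      · exact congrArg Subtype.val (Option.some_injective _ h2)
    rw [hω ω, hω ω', g1, g2]
  have hm_inj : ∀ o p o' p', (m o p).1 = (m o' p').1 → o = o' ∧ p = p' := by
    intro o p o' p' h
    rcases o with _ | i <;> rcases p with _ | j <;> rcases o' with _ | k <;> rcases p' with _ | l <;>
      simp only [m] at h
    · exact ⟨rfl, rfl⟩
    · exact absurd h.symm (hyo l)
    · exact absurd h.symm (hxo k)
    · exact absurd h.symm (hzo k l)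
    · exact absurd h (hyo j)
    · exact ⟨rfl, by simpa using @hinj (Sum.inr (Sum.inl j)) (Sum.inr (Sum.inl l)) h⟩
    · exact absurd h.symm (hxy k j)
    · exact absurd h (hyz j k l)
    · exact absurd h (hxo i)
    · exact absurd h (hxy i l)
    · exact ⟨by simpa using @hinj (Sum.inl i) (Sum.inl k) h, rfl⟩
    · exact absurd h (hxz i k l)
    · exact absurd h (hzo i j)
    · exact absurd h.symm (hyz l i j)
    · exact absurd h.symm (hxz k i j)
    · have := @hinj (Sum.inr (Sum.inr (i, j))) (Sum.inr (Sum.inr (k, l))) h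
      simp only [Sum.inr.injEq, Prod.mk.injEq] at this
      exact ⟨by rw [this.1], by rw [this.2]⟩
  have hm_sq : ∀ o p, (m o p).2 * (m o p).2 = 1 := by
    intro o p
    rcases o with _ | i <;> rcases p with _ | j <;> simp only [m]
    · norm_num
    · rw [neg_mul_neg]; exact hb j
    · rw [neg_mul_neg]; exact ha i
    · exact hc i j
  let χ : (↥(W₁ ⊔ W₂) →* ℂˣ) → G → ℂ := fun ω =>
    ((m (e1 ω) (e2 ω)).2 : ℂ) • ((m (e1 ω) (e2 ω)).1 : G → ℂ)
  have horth : ∀ ω ω', classInner (χ ω) (χ ω') = if ω = ω' then 1 else 0 := by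
    intro ω ω'
    simp only [χ, classInner_smul_left, classInner_smul_right, map_intCast]
    by_cases h : ω = ω'
    · subst h
      rw [if_pos rfl, classInner_irr_self (m (e1 ω) (e2 ω)).1.2, mul_one, ← Int.cast_mul, hm_sq,
        Int.cast_one]
    · rw [if_neg h, classInner_irr_ne (m (e1 ω) (e2 ω)).1.2 (m (e1 ω') (e2 ω')).1.2 fun e => h
        (he_inj _ _ (hm_inj _ _ _ _ (Subtype.ext e)).1 (hm_inj _ _ _ _ (Subtype.ext e)).2),
        mul_zero, mul_zero]
  have hone' : χ 1 = fun _ => 1 := by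
    have h1 : e1 1 = none := by simp only [e1]; rw [dif_pos (MonoidHom.one_comp π₁)]
    have h2 : e2 1 = none := by simp only [e2]; rw [dif_pos (MonoidHom.one_comp π₂)]
    simp only [χ, h1, h2, m, one]
    simp
  have hind : ∀ φ ψ : ↥(W₁ ⊔ W₂) →* ℂˣ, φ ≠ 1 → ψ ≠ 1 →
      (∀ w : ↥(W₁ ⊔ W₂), (w : G) ∈ W₂ → φ w = 1) → (∀ w : ↥(W₁ ⊔ W₂), (w : G) ∈ W₁ → ψ w = 1) →
      indFun (W₁ ⊔ W₂) (fourTerm φ ψ) = fun g => 1 - χ φ g - χ ψ g + χ (φ * ψ) g := by
    intro φ ψ h1 h2 ha' hb'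
    have c1 : φ.comp π₂ = 1 := MonoidHom.ext fun w => ha' _ (hp2 w)
    have c2 : ψ.comp π₁ = 1 := MonoidHom.ext fun w => hb' _ (hp1 w)
    have d1 : φ.comp π₁ = φ := hφπ φ ha'
    have d2 : ψ.comp π₂ = ψ := hψπ ψ hb'
    have p1 : (φ * ψ).comp π₁ = φ := by rw [MonoidHom.mul_comp, d1, c2]; exact mul_one φ
    have p2 : (φ * ψ).comp π₂ = ψ := by rw [MonoidHom.mul_comp, d2, c1]; exact one_mul ψ
    let i : {φ // PI φ} := ⟨φ, h1, ha'⟩
    let j : {ψ // PJ ψ} := ⟨ψ, h2, hb'⟩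
    have f1 : e1 φ = some i := by
      simp only [e1]; rw [dif_neg (by rw [d1]; exact h1)]; exact congrArg some (Subtype.ext d1)
    have f2 : e2 φ = none := by simp only [e2]; rw [dif_pos c1]
    have g1 : e1 ψ = none := by simp only [e1]; rw [dif_pos c2]
    have g2 : e2 ψ = some j := by
      simp only [e2]; rw [dif_neg (by rw [d2]; exact h2)]; exact congrArg some (Subtype.ext d2)
    have k1 : e1 (φ * ψ) = some i := by
      simp only [e1]; rw [dif_neg (by rw [p1]; exact h1)]; exact congrArg some (Subtype.ext p1)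
    have k2 : e2 (φ * ψ) = some j := by
      simp only [e2]; rw [dif_neg (by rw [p2]; exact h2)]; exact congrArg some (Subtype.ext p2)
    funext g
    have e : β i j g = (a i : ℂ) * (x i : G → ℂ) g + (b j : ℂ) * (y j : G → ℂ) g +
        (c i j : ℂ) * (z i j : G → ℂ) g := by
      rw [hexp i j, Finset.sum_apply]
      simp only [Pi.smul_apply, smul_eq_mul, hxyz i j, Int.cast_add, add_mul, Finset.sum_add_distrib,
        Int.cast_ite, Int.cast_zero, ite_mul, zero_mul, Finset.sum_ite_eq', Finset.mem_univ, if_true]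
    simp only [β, Pi.sub_apply] at e
    simp only [χ, f1, f2, g1, g2, k1, k2, m, Pi.smul_apply, smul_eq_mul, Int.cast_neg]
    linear_combination e
  refine ⟨χ, ?_, fun ω ω' => (horth ω ω').trans (by split_ifs <;> rfl), hone', ?_, fun φ ψ h1 h2 h3 h4 => hind φ ψ h1 h2 h3 h4⟩
  · intro ω
    set p := m (e1 ω) (e2 ω) with hp
    rcases mul_self_eq_one_iff.mp (hm_sq (e1 ω) (e2 ω)) with h | h
    · left; show IsIrrCharacter G ((p.2 : ℂ) • (p.1 : G → ℂ))
      rw [show p.2 = 1 from h, Int.cast_one, one_smul]; exact p.1.2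
    · right; show IsIrrCharacter G (-((p.2 : ℂ) • (p.1 : G → ℂ)))
      rw [show p.2 = -1 from h]; simpa using p.1.2
  · intro ω w hw₁ hw₂
    have hcf : IsClassFunction G (χ ω) := fun g k => by
      simp only [χ, Pi.smul_apply, (m (e1 ω) (e2 ω)).1.2.isClassFunction g k]
    have hz := vanish_of_orth hdisj hcomm (fun u => χ ω u - (ω u : ℂ)) (fun φ ψ h3 h4 => ?_) hw₁ hw₂
    · exact sub_eq_zero.mp hz
    by_cases h1 : φ = 1
    · rw [show fourTerm φ ψ = 0 by funext x; simp [fourTerm, h1], classInner_zero_right]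
    by_cases h2 : ψ = 1
    · rw [show fourTerm φ ψ = 0 by funext x; simp [fourTerm, h2], classInner_zero_right]
    have e : (fun g => 1 - χ φ g - χ ψ g + χ (φ * ψ) g) = ((χ 1 - χ φ) - χ ψ) + χ (φ * ψ) := by
      funext g; simp [hone']
    rw [show (fun u : ↥(W₁ ⊔ W₂) => χ ω u - (ω u : ℂ)) =
        (fun u : ↥(W₁ ⊔ W₂) => χ ω u) - fun u => (ω u : ℂ) from rfl, classInner_sub_left,
      ← classInner_indFun_right _ _ hcf, hind φ ψ h1 h2 h3 h4, e, classInner_add_right,
      classInner_sub_right, classInner_sub_right, horth, horth, horth, horth,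
      ← conj_classInner (fourTerm φ ψ), classInner_fourTerm_hom]
    by_cases t1 : ω = 1 <;> by_cases t2 : ω = φ <;> by_cases t3 : ω = ψ <;> by_cases t4 : ω = φ * ψ <;>
      simp [t1, t2, t3, t4, Ne.symm, eq_comm]

end Cfsg.Agent.S1502
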