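import Cfsg.Statements.S1503
import Cfsg.Agent.Lib.Characters.CyclicTI2

set_option autoImplicit false
open Cfsg

namespace Cfsg.Agent.S1503

open Cfsg Cfsg.Lib.Characters
open scoped ComplexConjugate

/-- Let W₁, W₂ ≤ G with W = W₁ ⊔ W₂ and let χ an orthonormal family of irreducible characters of G up to sign, indexed by the linear characters ω of W, with χ_1 = 1, χ_ω = ω on W outside W₁ ∪ W₂, and the induction identity for (1 − φ)(1 − ψ). If θ is an irreducible character of G orthogonal to χ ω for every linear character ω of W, then θ vanishes at every element of W lying outside W₁ ∪ W₂. -/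
theorem result {G : Type*} [Group G] [Fintype G] (W₁ W₂ : Subgroup G) (hW : Cfsg.IsSelfNormalizingCyclic W₁ W₂) (χ : (↥(W₁ ⊔ W₂) →* ℂˣ) → (G → ℂ)) (hχ : Cfsg.IsCyclicTIFamily W₁ W₂ χ) (θ : G → ℂ) (hθ : Cfsg.IsIrrCharacter G θ) (horth : ∀ ω, Cfsg.classInner θ (χ ω) = 0) (w : ↥(W₁ ⊔ W₂)) (hw₁ : (w : G) ∉ W₁) (hw₂ : (w : G) ∉ W₂) : θ w = 0 := by
  classical
  haveI : Fintype ↥(W₁ ⊔ W₂) := Fintype.ofFinite _
  obtain ⟨-, -, hdisj, hcomm, hcyc, -⟩ := hW
  haveI := hcyc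
  haveI : IsMulCommutative ↥(W₁ ⊔ W₂) := inferInstance
  set f : ↥(W₁ ⊔ W₂) → ℂ := fun x => θ x
  obtain ⟨φ₀, hφ₀, hφ₀w⟩ := exists_factor_hom hdisj hcomm (w := w) hw₂
  obtain ⟨ψ₀, hψ₀, hψ₀w⟩ := exists_factor_hom' hdisj hcomm (w := w) hw₁
  have key : ∀ φ ψ : ↥(W₁ ⊔ W₂) →* ℂˣ, (∀ x : ↥(W₁ ⊔ W₂), (x : G) ∈ W₂ → φ x = 1) →
      (∀ x : ↥(W₁ ⊔ W₂), (x : G) ∈ W₁ → ψ x = 1) → classInner f (fourTerm φ ψ) = 0 := by
    intro φ ψ ha hb
    by_cases h1 : φ = 1
    · rw [show fourTerm φ ψ = 0 by funext x; simp [fourTerm, h1], classInner_zero_right]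
    by_cases h2 : ψ = 1
    · rw [show fourTerm φ ψ = 0 by funext x; simp [fourTerm, h2], classInner_zero_right]
    rw [← classInner_indFun_right _ _ hθ.isClassFunction,
      show fourTerm φ ψ = fun w => 1 - (φ w : ℂ) - (ψ w : ℂ) + (φ w : ℂ) * (ψ w : ℂ) from rfl,
      hχ.induced_eq φ ψ h1 h2 ha hb]
    have he : (fun g => 1 - χ φ g - χ ψ g + χ (φ * ψ) g) = ((χ 1 - χ φ) - χ ψ) + χ (φ * ψ) := by
      funext g; simp [hχ.map_one]
    rw [he, classInner_add_right, classInner_sub_right, classInner_sub_right, horth, horth, horth,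
      horth]
    ring
  set h : ↥(W₁ ⊔ W₂) → ℂ := fun x => f x * conj (fourTerm φ₀ ψ₀ x)
  have hcl : ∀ g : ↥(W₁ ⊔ W₂) → ℂ, IsClassFunction _ g := fun g a b => by
    rw [mul_comm' b a, mul_inv_cancel_right]
  have hh : h = 0 := by
    refine eq_zero_of_forall_classInner (hcl h) fun χ' => ?_
    obtain ⟨ω, hω⟩ := exists_hom_of_degree_one χ'.2.isCharacter
      (degree_one_of_isMulCommutative χ'.2)
    obtain ⟨φ, ψ, hφ, hψ, rfl⟩ := exists_split hdisj hcomm ω
    have hsplit : (fun x => fourTerm φ₀ ψ₀ x * ((φ * ψ) x : ℂ)) =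
        (fourTerm (φ * φ₀) (ψ * ψ₀) - fourTerm φ (ψ * ψ₀)) - fourTerm (φ * φ₀) ψ +
          fourTerm φ ψ := by
      funext x
      simp only [fourTerm, Pi.add_apply, Pi.sub_apply, MonoidHom.mul_apply, Units.val_mul]
      ring
    have e : classInner h (fun x => ((φ * ψ) x : ℂ)) =
        classInner f fun x => fourTerm φ₀ ψ₀ x * ((φ * ψ) x : ℂ) := by
      simp only [classInner, h, map_mul]
      congr 1
      exact Finset.sum_congr rfl fun x _ => by ring
    rw [hω, e, hsplit, classInner_add_right, classInner_sub_right, classInner_sub_right,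
      key _ _ (fun x hx => by simp [hφ x hx, hφ₀ x hx]) (fun x hx => by simp [hψ x hx, hψ₀ x hx]),
      key _ _ hφ (fun x hx => by simp [hψ x hx, hψ₀ x hx]),
      key _ _ (fun x hx => by simp [hφ x hx, hφ₀ x hx]) hψ, key _ _ hφ hψ]
    ring
  have hw0 : θ w * conj (fourTerm φ₀ ψ₀ w) = 0 := congrFun hh w
  refine (mul_eq_zero.mp hw0).resolve_right ?_
  rw [map_eq_zero]
  have : fourTerm φ₀ ψ₀ w = (1 - (φ₀ w : ℂ)) * (1 - (ψ₀ w : ℂ)) := by simp only [fourTerm]; ring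
  rw [this]
  refine mul_ne_zero (sub_ne_zero.mpr fun h => hφ₀w (Units.ext h.symm))
    (sub_ne_zero.mpr fun h => hψ₀w (Units.ext h.symm))

end Cfsg.Agent.S1503
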