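import Cfsg.Statements.S1504
import Mathlib
import Cfsg.Agent.Lib.Characters.CyclicTI
-- import your own Cfsg.Agent.* helpers here

set_option autoImplicit false
open Cfsg

namespace Cfsg.Agent.S1504

/-- Let W₁, W₂ be subgroups of a finite group with W₁ ⊓ W₂ = ⊥ whose elements commute, and W = W₁ ⊔ W₂. For linear characters φ, ψ of W with φ trivial on W₂ and ψ trivial on W₁, the function (1 − φ)(1 − ψ) vanishes on W₁ ∪ W₂; and the family of these functions, indexed by pairs (φ, ψ) with φ ≠ 1 ≠ ψ, is linearly independent over ℂ. -/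
theorem result {G : Type*} [Group G] [Finite G] (W₁ W₂ : Subgroup G) (hdisj : W₁ ⊓ W₂ = ⊥) (hcomm : ∀ a ∈ W₁, ∀ b ∈ W₂, a * b = b * a) : (∀ φ ψ : ↥(W₁ ⊔ W₂) →* ℂˣ, (∀ w : ↥(W₁ ⊔ W₂), (w : G) ∈ W₂ → φ w = 1) → (∀ w : ↥(W₁ ⊔ W₂), (w : G) ∈ W₁ → ψ w = 1) → ∀ w : ↥(W₁ ⊔ W₂), ((w : G) ∈ W₁ ∨ (w : G) ∈ W₂) → (1 - (φ w : ℂ) - (ψ w : ℂ) + (φ w : ℂ) * (ψ w : ℂ)) = 0) ∧ LinearIndependent ℂ (fun p : {p : (↥(W₁ ⊔ W₂) →* ℂˣ) × (↥(W₁ ⊔ W₂) →* ℂˣ) // p.1 ≠ 1 ∧ p.2 ≠ 1 ∧ (∀ w : ↥(W₁ ⊔ W₂), (w : G) ∈ W₂ → p.1 w = 1) ∧ (∀ w : ↥(W₁ ⊔ W₂), (w : G) ∈ W₁ → p.2 w = 1)} => fun w : ↥(W₁ ⊔ W₂) => 1 - (p.1.1 w : ℂ) - (p.1.2 w : ℂ) + (p.1.1 w : ℂ) * (p.1.2 w : ℂ)) := by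
  classical
  haveI : Fintype ↥(W₁ ⊔ W₂) := Fintype.ofFinite _
  haveI : Finite (↥(W₁ ⊔ W₂) →* ℂˣ) := inferInstance
  haveI : Fintype {p : (↥(W₁ ⊔ W₂) →* ℂˣ) × (↥(W₁ ⊔ W₂) →* ℂˣ) // p.1 ≠ 1 ∧ p.2 ≠ 1 ∧ (∀ w : ↥(W₁ ⊔ W₂), (w : G) ∈ W₂ → p.1 w = 1) ∧ (∀ w : ↥(W₁ ⊔ W₂), (w : G) ∈ W₁ → p.2 w = 1)} := Fintype.ofFinite _
  refine ⟨fun φ ψ hφ hψ w hw => Cfsg.Lib.Characters.fourTerm_eq_zero hφ hψ hw, ?_⟩
  rw [Fintype.linearIndependent_iff]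
  intro c hc p
  have hl := congrArg (fun f => Cfsg.classInner f (fun w => ((p.1.1 * p.1.2) w : ℂ))) hc
  simp only [Cfsg.Lib.Characters.classInner_sum_left, Cfsg.Lib.Characters.classInner_zero_left,
    Cfsg.Lib.Characters.classInner_smul_left] at hl
  rw [Finset.sum_eq_single p] at hl
  · obtain ⟨h1, h2, hφ, hψ⟩ := p.2
    have hkey := Cfsg.Lib.Characters.classInner_fourTerm_hom p.1.1 p.1.2 (p.1.1 * p.1.2)
    rw [if_pos rfl, if_neg, if_neg, if_neg] at hkey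
    · unfold Cfsg.Lib.Characters.fourTerm at hkey
      rw [hkey] at hl
      simpa using hl
    · intro e
      exact h1 ((Cfsg.Lib.Characters.mul_hom_eq_iff (φ' := p.1.1) (ψ' := p.1.2) (φ := 1) (ψ := p.1.2)
        (fun _ _ => rfl) hφ hψ hψ).mp ((one_mul p.1.2).trans e)).1.symm
    · intro e
      exact h2 ((Cfsg.Lib.Characters.mul_hom_eq_iff (φ' := p.1.1) (ψ' := p.1.2) (φ := p.1.1) (ψ := 1)
        hφ hφ (fun _ _ => rfl) hψ).mp ((mul_one p.1.1).trans e)).2.symm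
    · intro e
      exact h1 ((Cfsg.Lib.Characters.mul_hom_eq_iff (φ' := p.1.1) (ψ' := p.1.2) (φ := 1) (ψ := 1)
        (fun _ _ => rfl) hφ (fun _ _ => rfl) hψ).mp ((one_mul (1 : ↥(W₁ ⊔ W₂) →* ℂˣ)).trans e)).1.symm
  · intro q _ hqp
    obtain ⟨h1, h2, hφ, hψ⟩ := p.2
    obtain ⟨h1', h2', hφ', hψ'⟩ := q.2
    have hkey := Cfsg.Lib.Characters.classInner_fourTerm_hom q.1.1 q.1.2 (p.1.1 * p.1.2)
    rw [if_neg, if_neg, if_neg, if_neg] at hkey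
    · unfold Cfsg.Lib.Characters.fourTerm at hkey
      rw [hkey]
      simp
    · intro e
      obtain ⟨ea, eb⟩ := (Cfsg.Lib.Characters.mul_hom_eq_iff hφ' hφ hψ' hψ).mp e
      exact hqp (Subtype.ext (Prod.ext ea eb))
    · intro e
      exact h1 ((Cfsg.Lib.Characters.mul_hom_eq_iff (φ' := p.1.1) (ψ' := p.1.2) (φ := 1) (ψ := q.1.2)
        (fun _ _ => rfl) hφ hψ' hψ).mp ((one_mul q.1.2).trans e)).1.symm
    · intro e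
      exact h2 ((Cfsg.Lib.Characters.mul_hom_eq_iff (φ' := p.1.1) (ψ' := p.1.2) (φ := q.1.1) (ψ := 1)
        hφ' hφ (fun _ _ => rfl) hψ).mp ((mul_one q.1.1).trans e)).2.symm
    · intro e
      exact h1 ((Cfsg.Lib.Characters.mul_hom_eq_iff (φ' := p.1.1) (ψ' := p.1.2) (φ := 1) (ψ := 1)
        (fun _ _ => rfl) hφ (fun _ _ => rfl) hψ).mp ((one_mul (1 : ↥(W₁ ⊔ W₂) →* ℂˣ)).trans e)).1.symm
  · simp

end Cfsg.Agent.S1504
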