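import Cfsg.Statements.S1506
import Mathlib
import Cfsg.Agent.Lib.Characters.CyclicTI
-- import your own Cfsg.Agent.* helpers here

set_option autoImplicit false
open Cfsg

namespace Cfsg.Agent.S1506

/-- Let W₁, W₂ ≤ G form a self-normalising cyclic subgroup W = W₁ ⊔ W₂ and χ an orthonormal family of irreducible characters of G up to sign, indexed by the linear characters ω of W, with χ_1 = 1, χ_ω = ω on W outside W₁ ∪ W₂, and the induction identity for (1 − φ)(1 − ψ). Let θ be a class function of G vanishing at every element of W outside W₁ ∪ W₂. For linear characters φ, φ' of W trivial on W₂ and ψ, ψ' trivial on W₁, the inner products a(ω) = ⟨θ, χ ω⟩ satisfy a(φψ) + a(φ'ψ') = a(φψ') + a(φ'ψ). -/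
theorem result {G : Type*} [Group G] [Fintype G] (W₁ W₂ : Subgroup G) (hW : Cfsg.IsSelfNormalizingCyclic W₁ W₂) (χ : (↥(W₁ ⊔ W₂) →* ℂˣ) → (G → ℂ)) (hχ : Cfsg.IsCyclicTIFamily W₁ W₂ χ) (θ : G → ℂ) (hθ : Cfsg.IsClassFunction G θ) (hθV : ∀ w : ↥(W₁ ⊔ W₂), (w : G) ∉ W₁ → (w : G) ∉ W₂ → θ w = 0) (φ φ' ψ ψ' : ↥(W₁ ⊔ W₂) →* ℂˣ) (hφ₂ : ∀ w : ↥(W₁ ⊔ W₂), (w : G) ∈ W₂ → φ w = 1 ∧ φ' w = 1) (hψ₁ : ∀ w : ↥(W₁ ⊔ W₂), (w : G) ∈ W₁ → ψ w = 1 ∧ ψ' w = 1) : Cfsg.classInner θ (χ (φ * ψ)) + Cfsg.classInner θ (χ (φ' * ψ')) = Cfsg.classInner θ (χ (φ * ψ')) + Cfsg.classInner θ (χ (φ' * ψ)) := by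
  classical
  haveI : Fintype ↥(W₁ ⊔ W₂) := Fintype.ofFinite _
  set a := fun ω => Cfsg.classInner θ (χ ω)
  have key : ∀ φ ψ : ↥(W₁ ⊔ W₂) →* ℂˣ, (∀ w : ↥(W₁ ⊔ W₂), (w : G) ∈ W₂ → φ w = 1) →
      (∀ w : ↥(W₁ ⊔ W₂), (w : G) ∈ W₁ → ψ w = 1) → a (φ * ψ) = a φ + a ψ - a 1 := by
    intro φ ψ ha hb
    by_cases h1 : φ = 1
    · rw [h1, show (1 : ↥(W₁ ⊔ W₂) →* ℂˣ) * ψ = ψ from MonoidHom.ext fun w => one_mul _]; ring
    by_cases h2 : ψ = 1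
    · rw [h2, show φ * (1 : ↥(W₁ ⊔ W₂) →* ℂˣ) = φ from MonoidHom.ext fun w => mul_one _]; ring
    have h0 : Cfsg.classInner θ
        (Cfsg.indFun (W₁ ⊔ W₂) (Cfsg.Lib.Characters.fourTerm φ ψ)) = 0 := by
      rw [Cfsg.Lib.Characters.classInner_indFun_right _ _ hθ]
      unfold Cfsg.classInner
      rw [Finset.sum_eq_zero, mul_zero]
      intro w _
      by_cases hw : (w : G) ∈ W₁ ∨ (w : G) ∈ W₂
      · rw [Cfsg.Lib.Characters.fourTerm_eq_zero ha hb hw, map_zero, mul_zero]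
      · simp [hθV w (fun h => hw (Or.inl h)) (fun h => hw (Or.inr h))]
    unfold Cfsg.Lib.Characters.fourTerm at h0
    rw [hχ.induced_eq φ ψ h1 h2 ha hb] at h0
    have he : (fun g => 1 - χ φ g - χ ψ g + χ (φ * ψ) g) = ((χ 1 - χ φ) - χ ψ) + χ (φ * ψ) := by
      funext g; simp [hχ.map_one]
    rw [he, Cfsg.Lib.Characters.classInner_add_right, Cfsg.Lib.Characters.classInner_sub_right,
      Cfsg.Lib.Characters.classInner_sub_right] at h0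
    simp only [a]
    linear_combination h0
  have ha : ∀ w : ↥(W₁ ⊔ W₂), (w : G) ∈ W₂ → φ w = 1 := fun w h => (hφ₂ w h).1
  have ha' : ∀ w : ↥(W₁ ⊔ W₂), (w : G) ∈ W₂ → φ' w = 1 := fun w h => (hφ₂ w h).2
  have hb : ∀ w : ↥(W₁ ⊔ W₂), (w : G) ∈ W₁ → ψ w = 1 := fun w h => (hψ₁ w h).1
  have hb' : ∀ w : ↥(W₁ ⊔ W₂), (w : G) ∈ W₁ → ψ' w = 1 := fun w h => (hψ₁ w h).2
  show a (φ * ψ) + a (φ' * ψ') = a (φ * ψ') + a (φ' * ψ)
  rw [key φ ψ ha hb, key φ' ψ' ha' hb', key φ ψ' ha hb', key φ' ψ ha' hb]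
  ring

end Cfsg.Agent.S1506
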