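import Cfsg.Statements.S1507
import Cfsg.Agent.Lib.Characters.CyclicTI2
import Cfsg.Agent.S1506
import Mathlib.GroupTheory.FiniteAbelian.Duality

set_option autoImplicit false
open Cfsg

namespace Cfsg.Agent.S1507

open Cfsg Cfsg.Lib.Characters
open scoped ComplexConjugate

theorem grid {A B : Type*} [Fintype A] [Fintype B] [DecidableEq A] [DecidableEq B]
    (c : A → B → ℂ) (hrect : ∀ a a' b b', c a b + c a' b' = c a b' + c a' b)
    (hlt : Fintype.card A < Fintype.card B) (hA : Odd (Fintype.card A)) (hB : Odd (Fintype.card B))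
    (hfew : (Finset.univ.filter fun p : A × B => c p.1 p.2 ≠ 0).card < 2 * Fintype.card A) :
    (∀ a b, c a b = 0) ∨ (∃ (b₀ : B) (x : ℂ), ∀ a b, c a b = if b = b₀ then x else 0) ∨
      ∃ (a₀ : A) (x : ℂ), ∀ a b, c a b = if a = a₀ then x else 0 := by
  set S := Finset.univ.filter fun p : A × B => c p.1 p.2 ≠ 0 with hS
  have hmem : ∀ a b, (a, b) ∈ S ↔ c a b ≠ 0 := fun a b => by simp [hS]
  by_cases hz : ∀ a b, c a b = 0
  · exact Or.inl hz
  push Not at hz
  obtain ⟨a₀, b₀, hne⟩ := hz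
  by_cases hu : ∀ a a' b, c a b = c a' b
  · refine Or.inr (Or.inl ⟨b₀, c a₀ b₀, fun a b => ?_⟩)
    split_ifs with h
    · rw [h, hu a a₀]
    · by_contra hb
      have hsub : (Finset.univ : Finset A) ×ˢ ({b₀, b} : Finset B) ⊆ S := by
        rintro ⟨x, y⟩ hxy
        rw [hmem]
        rcases Finset.mem_insert.mp (Finset.mem_product.mp hxy).2 with rfl | hy
        · rw [hu x a₀]; exact hne
        · obtain rfl : y = b := Finset.mem_singleton.mp hy
          rw [hu x a]; exact hb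
      have := Finset.card_le_card hsub
      rw [Finset.card_product, Finset.card_univ, Finset.card_pair (Ne.symm h)] at this
      omega
  by_cases hv : ∀ a b b', c a b = c a b'
  · refine Or.inr (Or.inr ⟨a₀, c a₀ b₀, fun a b => ?_⟩)
    split_ifs with h
    · rw [h, hv a₀ b b₀]
    · by_contra hb
      have hsub : ({a₀, a} : Finset A) ×ˢ (Finset.univ : Finset B) ⊆ S := by
        rintro ⟨x, y⟩ hxy
        rw [hmem]
        rcases Finset.mem_insert.mp (Finset.mem_product.mp hxy).1 with rfl | hx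
        · rw [hv x y b₀]; exact hne
        · obtain rfl : x = a := Finset.mem_singleton.mp hx
          rw [hv x y b]; exact hb
      have := Finset.card_le_card hsub
      rw [Finset.card_product, Finset.card_univ, Finset.card_pair (Ne.symm h)] at this
      omega
  exfalso
  push Not at hu hv
  obtain ⟨p, q, b', hpq⟩ := hu
  obtain ⟨a', r, s, hrs⟩ := hv
  -- every row meets one of two columns, every column one of two rows
  have hrow : ∀ a, c a r ≠ 0 ∨ c a s ≠ 0 := by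
    intro a
    by_contra h
    push Not at h
    have := hrect a a' r s
    rw [h.1, h.2, zero_add, zero_add] at this
    exact hrs this.symm
  have hcol : ∀ b, c p b ≠ 0 ∨ c q b ≠ 0 := by
    intro b
    by_contra h
    push Not at h
    have := hrect p q b b'
    rw [h.1, h.2, zero_add, add_zero] at this
    exact hpq this.symm
  let f : A ⊕ {b : B // b ≠ r ∧ b ≠ s} → A × B := fun z => match z with
    | Sum.inl a => if c a r ≠ 0 then (a, r) else (a, s)
    | Sum.inr b => if c p b.1 ≠ 0 then (p, b.1) else (q, b.1)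
  have hfS : ∀ z, f z ∈ S := by
    rintro (a | b)
    · show (if c a r ≠ 0 then (a, r) else (a, s)) ∈ S
      split_ifs with h
      · exact (hmem _ _).mpr h
      · exact (hmem _ _).mpr ((hrow a).resolve_left h)
    · show (if c p b.1 ≠ 0 then (p, b.1) else (q, b.1)) ∈ S
      split_ifs with h
      · exact (hmem _ _).mpr h
      · exact (hmem _ _).mpr ((hcol b.1).resolve_left h)
  have h1 : ∀ a, (f (Sum.inl a)).1 = a ∧ ((f (Sum.inl a)).2 = r ∨ (f (Sum.inl a)).2 = s) := fun a => by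
    show (if c a r ≠ 0 then (a, r) else (a, s)).1 = a ∧ _
    show _ ∧ ((if c a r ≠ 0 then (a, r) else (a, s)).2 = r ∨
      (if c a r ≠ 0 then (a, r) else (a, s)).2 = s)
    split_ifs <;> simp
  have h2 : ∀ b, (f (Sum.inr b)).2 = b.1 := fun b => by
    show (if c p b.1 ≠ 0 then (p, b.1) else (q, b.1)).2 = b.1
    split_ifs <;> rfl
  have hinj : Function.Injective f := by
    rintro (a | b) (a₁ | b₁) h
    · have := congrArg Prod.fst h
      rw [(h1 a).1, (h1 a₁).1] at this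
      rw [this]
    · have := congrArg Prod.snd h
      rw [h2] at this
      rcases (h1 a).2 with e | e <;> rw [e] at this
      · exact absurd this.symm b₁.2.1
      · exact absurd this.symm b₁.2.2
    · have := congrArg Prod.snd h
      rw [h2] at this
      rcases (h1 a₁).2 with e | e <;> rw [e] at this
      · exact absurd this b.2.1
      · exact absurd this b.2.2
    · have := congrArg Prod.snd h
      rw [h2, h2] at this
      rw [Subtype.ext this]
  have hcard := Finset.card_le_card_of_injOn (s := Finset.univ) f (fun z _ => hfS z) hinj.injOn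
  rw [Finset.card_univ, Fintype.card_sum, Fintype.card_subtype] at hcard
  have hrest : Fintype.card B ≤ (Finset.univ.filter fun b : B => b ≠ r ∧ b ≠ s).card + 2 := by
    have := Finset.card_le_card (show (Finset.univ : Finset B) ⊆
      (Finset.univ.filter fun b : B => b ≠ r ∧ b ≠ s) ∪ {r, s} from fun b _ => by
        by_cases h : b ≠ r ∧ b ≠ s
        · exact Finset.mem_union_left _ (by simp [h])
        · refine Finset.mem_union_right _ ?_
          simp only [Finset.mem_insert, Finset.mem_singleton]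
          tauto)
    rw [Finset.card_univ] at this
    refine this.trans ((Finset.card_union_le _ _).trans ?_)
    have := Finset.card_le_two (a := r) (b := s)
    omega
  obtain ⟨x, hx⟩ := hA
  obtain ⟨y, hy⟩ := hB
  omega

open Classical in
/-- Let W₁, W₂ ≤ G form a self-normalising cyclic subgroup W = W₁ ⊔ W₂ of odd order with Nat.card W₁ < Nat.card W₂, and χ an orthonormal family of irreducible characters of G up to sign, indexed by the linear characters ω of W, with χ_1 = 1, χ_ω = ω on W outside W₁ ∪ W₂, and the induction identity for (1 − φ)(1 − ψ). Let θ be a class function of G vanishing on W outside W₁ ∪ W₂, and suppose fewer than 2 · Nat.card W₁ linear characters ω of W have ⟨θ, χ ω⟩ ≠ 0. Then one of: all ⟨θ, χ ω⟩ vanish; or there are ψ₀ and a with ⟨θ, χ ω⟩ = a when ω ψ₀⁻¹ is trivial on W₂ and 0 otherwise; or there are φ₀ and a with ⟨θ, χ ω⟩ = a when ω φ₀⁻¹ is trivial on W₁ and 0 otherwise. -/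
theorem result {G : Type*} [Group G] [Fintype G] (W₁ W₂ : Subgroup G) (hW : Cfsg.IsSelfNormalizingCyclic W₁ W₂) (hodd : Odd (Nat.card ↥(W₁ ⊔ W₂))) (χ : (↥(W₁ ⊔ W₂) →* ℂˣ) → (G → ℂ)) (hχ : Cfsg.IsCyclicTIFamily W₁ W₂ χ) (hlt : Nat.card W₁ < Nat.card W₂) (θ : G → ℂ) (hθ : Cfsg.IsClassFunction G θ) (hθV : ∀ w : ↥(W₁ ⊔ W₂), (w : G) ∉ W₁ → (w : G) ∉ W₂ → θ w = 0) (hfew : Nat.card {ω : ↥(W₁ ⊔ W₂) →* ℂˣ // Cfsg.classInner θ (χ ω) ≠ 0} < 2 * Nat.card W₁) : (∀ ω, Cfsg.classInner θ (χ ω) = 0) ∨ (∃ (ψ₀ : ↥(W₁ ⊔ W₂) →* ℂˣ) (a : ℂ), ∀ ω, Cfsg.classInner θ (χ ω) = if (∀ w : ↥(W₁ ⊔ W₂), (w : G) ∈ W₂ → (ω * ψ₀⁻¹) w = 1) then a else 0) ∨ (∃ (φ₀ : ↥(W₁ ⊔ W₂) →* ℂˣ) (a : ℂ), ∀ ω, Cfsg.classInner θ (χ ω) = if (∀ w : ↥(W₁ ⊔ W₂), (w : G) ∈ W₁ → (ω * φ₀⁻¹) w = 1) then a else 0) := by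
  classical
  haveI : Fintype ↥(W₁ ⊔ W₂) := Fintype.ofFinite _
  have hW' := hW
  obtain ⟨hW1, hW2, hdisj, hcomm, hcyc, -⟩ := id hW
  haveI := hcyc
  haveI : IsMulCommutative ↥(W₁ ⊔ W₂) := inferInstance
  obtain ⟨π₁, π₂, hπ1, hπ2, hprod, hw1, hw2⟩ := exists_proj hdisj hcomm
  haveI : Finite (↥(W₁ ⊔ W₂) →* ℂˣ) := Finite.of_injective
    (fun l => (⟨fun n => (l n : ℂ), isIrrCharacter_linear l⟩ : IrrCharacter ↥(W₁ ⊔ W₂)))
    fun a b h => linear_char_injective (congrArg Subtype.val h)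
  let A := {φ : ↥(W₁ ⊔ W₂) →* ℂˣ // ∀ x : ↥(W₁ ⊔ W₂), (x : G) ∈ W₂ → φ x = 1}
  let B := {ψ : ↥(W₁ ⊔ W₂) →* ℂˣ // ∀ x : ↥(W₁ ⊔ W₂), (x : G) ∈ W₁ → ψ x = 1}
  haveI : Fintype A := Fintype.ofFinite _
  haveI : Fintype B := Fintype.ofFinite _
  have hdual : ∀ W : Subgroup G, W ≤ W₁ ⊔ W₂ → Nat.card (W →* ℂˣ) = Nat.card W := by
    intro W hW
    letI : CommGroup W := { (inferInstance : Group W) with
      mul_comm := fun a b => Subtype.ext (show (a : G) * b = b * a from
        congrArg (fun z : ↥(W₁ ⊔ W₂) => (z : G))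
          (mul_comm' (⟨a, hW a.2⟩ : ↥(W₁ ⊔ W₂)) ⟨b, hW b.2⟩)) }
    exact CommGroup.card_monoidHom_of_hasEnoughRootsOfUnity W ℂ
  have hcA : Fintype.card A = Nat.card W₁ := by
    rw [← hdual W₁ le_sup_left, ← Nat.card_eq_fintype_card]
    refine Nat.card_congr
      { toFun := fun φ => φ.1.comp (Subgroup.inclusion le_sup_left)
        invFun := fun l => ⟨l.comp ((W₁ ⊔ W₂).subtype.comp π₁ |>.codRestrict W₁ hπ1),
          fun x hx => by
            rw [MonoidHom.comp_apply, ← map_one l]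
            refine congrArg l (Subtype.ext ?_)
            show ((π₁ x : ↥(W₁ ⊔ W₂)) : G) = 1
            rw [(hw2 x hx).1]; rfl⟩
        left_inv := fun φ => Subtype.ext (MonoidHom.ext fun w => ?_)
        right_inv := fun l => MonoidHom.ext fun w => ?_ }
    · show φ.1 (π₁ w) = φ.1 w
      conv_rhs => rw [← hprod w, map_mul, φ.2 _ (hπ2 w), mul_one]
    · refine congrArg l (Subtype.ext ?_)
      show ((π₁ (Subgroup.inclusion le_sup_left w) : ↥(W₁ ⊔ W₂)) : G) = w
      rw [(hw1 _ w.2).1]; rfl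
  have hcB : Fintype.card B = Nat.card W₂ := by
    rw [← hdual W₂ le_sup_right, ← Nat.card_eq_fintype_card]
    refine Nat.card_congr
      { toFun := fun φ => φ.1.comp (Subgroup.inclusion le_sup_right)
        invFun := fun l => ⟨l.comp ((W₁ ⊔ W₂).subtype.comp π₂ |>.codRestrict W₂ hπ2),
          fun x hx => by
            rw [MonoidHom.comp_apply, ← map_one l]
            refine congrArg l (Subtype.ext ?_)
            show ((π₂ x : ↥(W₁ ⊔ W₂)) : G) = 1
            rw [(hw1 x hx).2]; rfl⟩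
        left_inv := fun φ => Subtype.ext (MonoidHom.ext fun w => ?_)
        right_inv := fun l => MonoidHom.ext fun w => ?_ }
    · show φ.1 (π₂ w) = φ.1 w
      conv_rhs => rw [← hprod w, map_mul, φ.2 _ (hπ1 w), one_mul]
    · refine congrArg l (Subtype.ext ?_)
      show ((π₂ (Subgroup.inclusion le_sup_right w) : ↥(W₁ ⊔ W₂)) : G) = w
      rw [(hw2 _ w.2).2]; rfl
  let c : A → B → ℂ := fun a b => classInner θ (χ (a.1 * b.1))
  have hinjmul : Function.Injective fun p : A × B => p.1.1 * p.2.1 := fun p q h => by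
    obtain ⟨e1, e2⟩ := (mul_hom_eq_iff p.1.2 q.1.2 p.2.2 q.2.2).mp h
    exact Prod.ext (Subtype.ext e1) (Subtype.ext e2)
  have hfew' : (Finset.univ.filter fun p : A × B => c p.1 p.2 ≠ 0).card < 2 * Fintype.card A := by
    rw [hcA]
    refine lt_of_le_of_lt ?_ hfew
    rw [← Fintype.card_subtype, ← Nat.card_eq_fintype_card]
    exact Nat.card_le_card_of_injective
      (fun p => (⟨p.1.1.1 * p.1.2.1, p.2⟩ : {ω : ↥(W₁ ⊔ W₂) →* ℂˣ // classInner θ (χ ω) ≠ 0}))
      fun p q h => Subtype.ext (hinjmul (congrArg Subtype.val h))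
  have hoddW : ∀ W : Subgroup G, W ≤ W₁ ⊔ W₂ → Odd (Nat.card W) := fun W hW =>
    Odd.of_dvd_nat hodd (Subgroup.card_dvd_of_le hW)
  have hres := grid c (fun a a' b b' => Cfsg.Agent.S1506.result W₁ W₂ hW' χ hχ θ hθ hθV a.1 a'.1 b.1 b'.1
      (fun x hx => ⟨a.2 x hx, a'.2 x hx⟩) fun x hx => ⟨b.2 x hx, b'.2 x hx⟩)
    (by rw [hcA, hcB]; exact hlt) (by rw [hcA]; exact hoddW W₁ le_sup_left)
    (by rw [hcB]; exact hoddW W₂ le_sup_right) hfew'
  have hdec : ∀ ω, ∃ (a : A) (b : B), ω = a.1 * b.1 := fun ω => by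
    obtain ⟨φ, ψ, h1, h2, h⟩ := exists_split hdisj hcomm ω
    exact ⟨⟨φ, h1⟩, ⟨ψ, h2⟩, h⟩
  rcases hres with h | ⟨b₀, x, h⟩ | ⟨a₀, x, h⟩
  · refine Or.inl fun ω => ?_
    obtain ⟨a, b, rfl⟩ := hdec ω
    exact h a b
  · refine Or.inr (Or.inl ⟨b₀.1, x, fun ω => ?_⟩)
    obtain ⟨a, b, rfl⟩ := hdec ω
    show c a b = _
    rw [h a b]
    suffices hiff : b = b₀ ↔ ∀ w : ↥(W₁ ⊔ W₂), (w : G) ∈ W₂ → (a.1 * b.1 * b₀.1⁻¹) w = 1 by
      by_cases he : b = b₀
      · rw [if_pos he, if_pos (hiff.mp he)]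
      · rw [if_neg he, if_neg fun hh => he (hiff.mpr hh)]
    refine ⟨fun e w hw => ?_, fun e => ?_⟩
    · rw [e]; simp [a.2 w hw]
    · refine Subtype.ext (MonoidHom.ext fun w => ?_)
      conv_lhs => rw [← hprod w]
      conv_rhs => rw [← hprod w]
      rw [map_mul, map_mul, b.2 _ (hπ1 w), b₀.2 _ (hπ1 w)]
      have := e (π₂ w) (hπ2 w)
      rw [MonoidHom.mul_apply, MonoidHom.mul_apply, a.2 _ (hπ2 w), one_mul, MonoidHom.inv_apply,
        mul_inv_eq_one] at this
      rw [this]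
  · refine Or.inr (Or.inr ⟨a₀.1, x, fun ω => ?_⟩)
    obtain ⟨a, b, rfl⟩ := hdec ω
    show c a b = _
    rw [h a b]
    suffices hiff : a = a₀ ↔ ∀ w : ↥(W₁ ⊔ W₂), (w : G) ∈ W₁ → (a.1 * b.1 * a₀.1⁻¹) w = 1 by
      by_cases he : a = a₀
      · rw [if_pos he, if_pos (hiff.mp he)]
      · rw [if_neg he, if_neg fun hh => he (hiff.mpr hh)]
    refine ⟨fun e w hw => ?_, fun e => ?_⟩
    · rw [e]; simp [b.2 w hw]
    · refine Subtype.ext (MonoidHom.ext fun w => ?_)
      conv_lhs => rw [← hprod w]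
      conv_rhs => rw [← hprod w]
      rw [map_mul, map_mul, a.2 _ (hπ2 w), a₀.2 _ (hπ2 w)]
      have := e (π₁ w) (hπ1 w)
      rw [MonoidHom.mul_apply, MonoidHom.mul_apply, b.2 _ (hπ1 w), mul_one, MonoidHom.inv_apply,
        mul_inv_eq_one] at this
      rw [this]

end Cfsg.Agent.S1507
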