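import Cfsg.Statements.S1508
import Cfsg.Agent.Lib.Characters.CyclicTI2
import Cfsg.Agent.Lib.Characters.Galois
import Cfsg.Agent.Lib.Characters.PowerConj
import Cfsg.Agent.Lib.Characters.Isometry
import Cfsg.Agent.S1506

set_option autoImplicit false
open Cfsg

namespace Cfsg.Agent.S1508

open Cfsg Cfsg.Lib.Characters
open scoped ComplexConjugate

/-- Let W₁, W₂ ≤ G form a self-normalising cyclic subgroup W = W₁ ⊔ W₂ of odd order and χ an orthonormal family of irreducible characters of G up to sign, indexed by the linear characters ω of W, with χ_1 = 1, χ_ω = ω on W outside W₁ ∪ W₂, and the induction identity for (1 − φ)(1 − ψ). Let ω be a linear character of W and g an element of G whose order is coprime to the order of ω. Then χ ω g is an integer. -/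
theorem result {G : Type*} [Group G] [Fintype G] (W₁ W₂ : Subgroup G) (hW : Cfsg.IsSelfNormalizingCyclic W₁ W₂) (hodd : Odd (Nat.card ↥(W₁ ⊔ W₂))) (χ : (↥(W₁ ⊔ W₂) →* ℂˣ) → (G → ℂ)) (hχ : Cfsg.IsCyclicTIFamily W₁ W₂ χ) (ω : ↥(W₁ ⊔ W₂) →* ℂˣ) (g : G) (hg : Nat.Coprime (orderOf g) (orderOf ω)) : ∃ n : ℤ, χ ω g = n := by
  classical
  haveI : Fintype ↥(W₁ ⊔ W₂) := Fintype.ofFinite _
  obtain ⟨hW1, hW2, hdisj, hcomm, hcyc, -⟩ := id hW
  haveI := hcyc
  haveI : IsMulCommutative ↥(W₁ ⊔ W₂) := inferInstance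
  have hpow : ∀ (f : ↥(W₁ ⊔ W₂) →* ℂˣ), f ^ Nat.card ↥(W₁ ⊔ W₂) = 1 := fun f =>
    MonoidHom.ext fun x => by rw [MonoidHom.pow_apply, ← map_pow, pow_card_eq_one', map_one]; rfl
  let A := {φ : ↥(W₁ ⊔ W₂) →* ℂˣ // ∀ x : ↥(W₁ ⊔ W₂), (x : G) ∈ W₂ → φ x = 1}
  let B := {ψ : ↥(W₁ ⊔ W₂) →* ℂˣ // ∀ x : ↥(W₁ ⊔ W₂), (x : G) ∈ W₁ → ψ x = 1}
  have hthree : ∀ (W : Subgroup G) (f : ↥(W₁ ⊔ W₂) →* ℂˣ), f ≠ 1 →
      (∀ x : ↥(W₁ ⊔ W₂), (x : G) ∈ W → f x = 1) →
      ∀ a a' : {φ : ↥(W₁ ⊔ W₂) →* ℂˣ // ∀ x : ↥(W₁ ⊔ W₂), (x : G) ∈ W → φ x = 1},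
        ∃ x, x ≠ a ∧ x ≠ a' := by
    intro W f hf hfW a a'
    have hf2 : f * f ≠ 1 := fun h => hf <| MonoidHom.ext fun x => by
      have h1 : f x ^ 2 = 1 := by rw [pow_two]; exact DFunLike.congr_fun h x
      have h2 : f x ^ Nat.card ↥(W₁ ⊔ W₂) = 1 := by rw [← map_pow, pow_card_eq_one', map_one]
      have := pow_gcd_eq_one.mpr ⟨h1, h2⟩
      rwa [Nat.coprime_two_left.mpr hodd, pow_one] at this
    by_contra hcon
    push Not at hcon
    let P := {φ : ↥(W₁ ⊔ W₂) →* ℂˣ // ∀ x : ↥(W₁ ⊔ W₂), (x : G) ∈ W → φ x = 1}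
    let p0 : P := ⟨1, fun x _ => rfl⟩
    let p1 : P := ⟨f, hfW⟩
    let p2 : P := ⟨f * f, fun x hx => by simp [hfW x hx]⟩
    have h01 : p0 ≠ p1 := fun h => hf (congrArg Subtype.val h).symm
    have h02 : p0 ≠ p2 := fun h => hf2 (congrArg Subtype.val h).symm
    have h12 : p1 ≠ p2 := fun h => hf <| MonoidHom.ext fun x => by
      have := DFunLike.congr_fun (congrArg Subtype.val h) x
      simpa [p1, p2] using this
    by_cases c0 : p0 = a
    · exact h12 ((hcon p1 fun h => h01 (c0.trans h.symm)).trans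
        (hcon p2 fun h => h02 (c0.trans h.symm)).symm)
    · by_cases c1 : p1 = a
      · exact h02 ((hcon p0 c0).trans (hcon p2 fun h => h12 (c1.trans h.symm)).symm)
      · exact h01 ((hcon p0 c0).trans (hcon p1 c1).symm)
  have hA : ∀ a a' : A, ∃ x, x ≠ a ∧ x ≠ a' := by
    obtain ⟨x, hx, hx1⟩ : ∃ x ∈ W₁, x ≠ 1 := by
      by_contra h; push Not at h; exact hW1 ((Subgroup.eq_bot_iff_forall _).mpr h)
    obtain ⟨f, hfW, hfx⟩ := exists_factor_hom hdisj hcomm (w := ⟨x, Subgroup.mem_sup_left hx⟩)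
      (fun h => hx1 ((Subgroup.eq_bot_iff_forall _).mp hdisj x ⟨hx, h⟩))
    exact hthree W₂ f (fun h => hfx (by rw [h]; rfl)) hfW
  have hB : ∀ a a' : B, ∃ x, x ≠ a ∧ x ≠ a' := by
    obtain ⟨x, hx, hx1⟩ : ∃ x ∈ W₂, x ≠ 1 := by
      by_contra h; push Not at h; exact hW2 ((Subgroup.eq_bot_iff_forall _).mpr h)
    obtain ⟨f, hfW, hfx⟩ := exists_factor_hom' hdisj hcomm (w := ⟨x, Subgroup.mem_sup_right hx⟩)
      (fun h => hx1 ((Subgroup.eq_bot_iff_forall _).mp hdisj x ⟨h, hx⟩))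
    exact hthree W₁ f (fun h => hfx (by rw [h]; rfl)) hfW
  -- powers prime to the order fixing `ω` fix the value
  have hfix : ∀ k : ℕ, (Nat.card G).Coprime k → k ≡ 1 [MOD orderOf ω] →
      ∀ x : G, χ ω (x ^ k) = χ ω x := by
    intro k hk hk1
    set θ : G → ℂ := fun x => χ ω (x ^ k) with hθdef
    have hθirr : IsIrrCharacter G θ ∨ IsIrrCharacter G (-θ) := (hχ.irr_or_neg ω).elim
      (fun h => Or.inl (isIrrCharacter_comp_pow h hk))
      fun h => Or.inr (isIrrCharacter_comp_pow h hk)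
    have hV : ∀ w : ↥(W₁ ⊔ W₂), (w : G) ∉ W₁ → (w : G) ∉ W₂ → θ w = χ ω w := by
      intro w h1 h2
      have hmem : ∀ W : Subgroup G, (w : G) ∉ W → ((w : G) ^ k) ∉ W := fun W h hin =>
        h ((pow_mem_iff_of_coprime hk W _).mp hin)
      show χ ω ((w : G) ^ k) = _
      have e := hχ.eq_on ω (w ^ k) (by rw [SubgroupClass.coe_pow]; exact hmem W₁ h1)
        (by rw [SubgroupClass.coe_pow]; exact hmem W₂ h2)
      rw [SubgroupClass.coe_pow] at e
      rw [e, hχ.eq_on ω w h1 h2]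
      refine congrArg Units.val ?_
      rw [map_pow]
      have hω : (ω w) ^ orderOf ω = 1 := by
        rw [← MonoidHom.pow_apply, pow_orderOf_eq_one]; rfl
      rw [pow_eq_pow_mod k hω, hk1, ← pow_eq_pow_mod 1 hω, pow_one]
    have hθc : IsClassFunction G θ := by
      rcases hθirr with h | h
      · exact h.isClassFunction
      · intro a b
        have := h.isClassFunction a b
        simpa using this
    have hχc : IsClassFunction G (χ ω) := by
      rcases hχ.irr_or_neg ω with h | h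
      · exact h.isClassFunction
      · intro a b
        have := h.isClassFunction a b
        simpa using this
    let d : A → B → ℂ := fun φ ψ => classInner (θ - χ ω) (χ (φ.1 * ψ.1))
    obtain ⟨φω, ψω, hφω, hψω, hωs⟩ := exists_split hdisj hcomm ω
    have hrect : ∀ a a' b b', d a b + d a' b' = d a b' + d a' b := fun a a' b b' =>
      Cfsg.Agent.S1506.result W₁ W₂ hW χ hχ (θ - χ ω)
        (fun x y => by simp only [Pi.sub_apply, hθc x y, hχc x y])
        (fun w h1 h2 => by rw [Pi.sub_apply, hV w h1 h2, sub_self]) a.1 a'.1 b.1 b'.1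
        (fun x hx => ⟨a.2 x hx, a'.2 x hx⟩) (fun x hx => ⟨b.2 x hx, b'.2 x hx⟩)
    -- at most one member of the family meets `θ`
    have honce : ∀ ω₁ ω₂, classInner θ (χ ω₁) ≠ 0 → classInner θ (χ ω₂) ≠ 0 → ω₁ = ω₂ := by
      intro ω₁ ω₂ h1 h2
      by_contra hne
      have h12 := hχ.orthonormal ω₁ ω₂
      rw [if_neg hne] at h12
      rcases signed_irr_cases hθirr (hχ.irr_or_neg ω₁) with h | ⟨-, h⟩ | ⟨-, h⟩
      · exact h1 h
      · exact h2 (h ▸ h12)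
      · exact h2 (by rw [h, classInner_neg_left, h12, neg_zero])
    obtain ⟨φ₁, ψ₁, hφ₁, hψ₁, hsupp⟩ : ∃ φ ψ : ↥(W₁ ⊔ W₂) →* ℂˣ,
        (∀ x : ↥(W₁ ⊔ W₂), (x : G) ∈ W₂ → φ x = 1) ∧ (∀ x : ↥(W₁ ⊔ W₂), (x : G) ∈ W₁ → ψ x = 1) ∧
        ∀ ω', classInner θ (χ ω') ≠ 0 → ω' = φ * ψ := by
      by_cases h : ∃ ω', classInner θ (χ ω') ≠ 0
      · obtain ⟨ω', hω'⟩ := h
        obtain ⟨φ, ψ, h1, h2, rfl⟩ := exists_split hdisj hcomm ω'
        exact ⟨φ, ψ, h1, h2, fun ω'' h'' => honce _ _ h'' hω'⟩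
      · exact ⟨φω, ψω, hφω, hψω, fun ω' h' => absurd ⟨ω', h'⟩ h⟩
    have hzero := rect_eq_zero d hA hB hrect ⟨φω, hφω⟩ ⟨φ₁, hφ₁⟩ ⟨ψω, hψω⟩ ⟨ψ₁, hψ₁⟩ ?_
    · have h0 : classInner (θ - χ ω) (χ ω) = 0 := by
        have := hzero ⟨φω, hφω⟩ ⟨ψω, hψω⟩
        change classInner (θ - χ ω) (χ (φω * ψω)) = 0 at this
        rwa [← hωs] at this
      rw [classInner_sub_left, hχ.orthonormal, if_pos rfl, sub_eq_zero] at h0
      rcases signed_irr_cases hθirr (hχ.irr_or_neg ω) with h | ⟨-, h⟩ | ⟨h, -⟩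
      · rw [h] at h0; exact absurd h0 zero_ne_one
      · exact fun x => congrFun h x
      · rw [h] at h0; norm_num at h0
    · intro a b hab
      change classInner (θ - χ ω) (χ (a.1 * b.1)) ≠ 0 at hab
      rw [classInner_sub_left, hχ.orthonormal] at hab
      by_cases he : ω = a.1 * b.1
      · rw [hωs] at he
        obtain ⟨e1, e2⟩ := (mul_hom_eq_iff hφω a.2 hψω b.2).mp he
        exact Or.inl ⟨Subtype.ext e1.symm, Subtype.ext e2.symm⟩
      · rw [if_neg he, sub_zero] at hab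
        obtain ⟨e1, e2⟩ := (mul_hom_eq_iff a.2 hφ₁ b.2 hψ₁).mp (hsupp _ hab)
        exact Or.inr ⟨Subtype.ext e1, Subtype.ext e2⟩
  -- rationality
  have hm : orderOf g * orderOf ω ∣ Nat.card G :=
    hg.mul_dvd_of_dvd_of_dvd (orderOf_dvd_natCard g)
      ((orderOf_dvd_of_pow_eq_one (hpow ω)).trans (Subgroup.card_subgroup_dvd_card _))
  haveI : NeZero (Nat.card G) := ⟨Nat.card_pos.ne'⟩
  have hlift : ∀ k : ℕ, k.Coprime (Nat.card G) → ∃ k' : ℕ, (Nat.card G).Coprime k' ∧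
      k' ≡ k [MOD orderOf g] ∧ k' ≡ 1 [MOD orderOf ω] := by
    intro k hk
    obtain ⟨c, hc1, hc2⟩ := Nat.chineseRemainder hg k 1
    have hcop : c.Coprime (orderOf g * orderOf ω) := by
      refine Nat.Coprime.mul_right ?_ ?_
      · rw [Nat.Coprime, hc1.gcd_eq]
        exact hk.coprime_dvd_right (orderOf_dvd_natCard g)
      · rw [Nat.Coprime, hc2.gcd_eq, Nat.gcd_one_left]
    obtain ⟨u, hu⟩ := ZMod.unitsMap_surjective hm (ZMod.unitOfCoprime c hcop)
    refine ⟨(u : ZMod (Nat.card G)).val, Nat.Coprime.symm (ZMod.val_coe_unit_coprime u), ?_⟩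
    have h : ((u : ZMod (Nat.card G)).val : ZMod (orderOf g * orderOf ω)) = (c : ℕ) := by
      have := congrArg Units.val hu
      rw [ZMod.unitsMap_def, Units.coe_map] at this
      simp only [MonoidHom.coe_coe, ZMod.castHom_apply, ZMod.coe_unitOfCoprime] at this
      rw [ZMod.natCast_val]
      exact this
    have h' := (ZMod.natCast_eq_natCast_iff _ _ _).mp h
    exact ⟨(h'.of_mul_right _).trans hc1, (h'.of_mul_left _).trans hc2⟩
  have hinv : ∀ k : ℕ, k.Coprime (Nat.card G) → χ ω (g ^ k) = χ ω g := by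
    intro k hk
    obtain ⟨k', hk', h1, h2⟩ := hlift k hk
    rw [← pow_eq_pow_iff_modEq.mpr h1]
    exact hfix k' hk' h2 g
  rcases hχ.irr_or_neg ω with h | h
  · obtain ⟨q, hq⟩ := char_rat_of_pow h.isCharacter g hinv
    obtain ⟨n, hn⟩ := exists_int_of_isIntegral (hq ▸ char_isIntegral h.isCharacter g)
    exact ⟨n, hq.trans hn⟩
  · obtain ⟨q, hq⟩ := char_rat_of_pow h.isCharacter g (fun k hk => by simp [hinv k hk])
    obtain ⟨n, hn⟩ := exists_int_of_isIntegral (hq ▸ char_isIntegral h.isCharacter g)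
    refine ⟨-n, ?_⟩
    have := hq.trans hn
    rw [Pi.neg_apply, neg_eq_iff_eq_neg] at this
    rw [this, Int.cast_neg]

end Cfsg.Agent.S1508
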