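import Cfsg.Statements.S1509
import Mathlib
import Cfsg.Agent.Lib.Characters.Isometry
-- import your own Cfsg.Agent.* helpers here

set_option autoImplicit false
open Cfsg

namespace Cfsg.Agent.S1509

/-- Let α, β, γ, δ be functions on a finite group X each of which is an irreducible character or the negative of one, and u, v nonzero real numbers. Suppose ⟨α, β⟩ = ⟨γ, δ⟩ = 0, ⟨α − β, uγ − vδ⟩ = 0, α 1 = β 1 and u γ 1 = v δ 1. Then also ⟨α, γ⟩ = ⟨α, δ⟩ = ⟨β, γ⟩ = ⟨β, δ⟩ = 0. -/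
theorem result {X : Type*} [Group X] [Fintype X] (α β γ δ : X → ℂ) (hα : Cfsg.IsIrrCharacter X α ∨ Cfsg.IsIrrCharacter X (-α)) (hβ : Cfsg.IsIrrCharacter X β ∨ Cfsg.IsIrrCharacter X (-β)) (hγ : Cfsg.IsIrrCharacter X γ ∨ Cfsg.IsIrrCharacter X (-γ)) (hδ : Cfsg.IsIrrCharacter X δ ∨ Cfsg.IsIrrCharacter X (-δ)) (u v : ℝ) (hu : u ≠ 0) (hv : v ≠ 0) (hab : Cfsg.classInner α β = 0) (hcd : Cfsg.classInner γ δ = 0) (hmix : Cfsg.classInner (α - β) ((u : ℂ) • γ - (v : ℂ) • δ) = 0) (h1 : α 1 = β 1) (h2 : (u : ℂ) * γ 1 = (v : ℂ) * δ 1) : Cfsg.classInner α γ = 0 ∧ Cfsg.classInner α δ = 0 ∧ Cfsg.classInner β γ = 0 ∧ Cfsg.classInner β δ = 0 := by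
  classical
  have key : ∀ (a b c d : X → ℂ) (p q : ℝ), q ≠ 0 →
      (Cfsg.IsIrrCharacter X a ∨ Cfsg.IsIrrCharacter X (-a)) →
      (Cfsg.IsIrrCharacter X b ∨ Cfsg.IsIrrCharacter X (-b)) →
      (Cfsg.IsIrrCharacter X c ∨ Cfsg.IsIrrCharacter X (-c)) →
      (Cfsg.IsIrrCharacter X d ∨ Cfsg.IsIrrCharacter X (-d)) →
      Cfsg.classInner a b = 0 → Cfsg.classInner c d = 0 → p ≠ 0 → a 1 = b 1 →
      (p : ℂ) * c 1 = (q : ℂ) * d 1 →
      (p : ℂ) * Cfsg.classInner a c - (q : ℂ) * Cfsg.classInner a d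
        - (p : ℂ) * Cfsg.classInner b c + (q : ℂ) * Cfsg.classInner b d = 0 →
      Cfsg.classInner a c = 0 := by
    intro a b c d p q hq ha hb hc hd hab' hcd' hp h1' h2' hm
    by_contra hne
    obtain ⟨s, hs, hac, hsv⟩ : ∃ s : ℂ, (s = 1 ∨ s = -1) ∧ Cfsg.classInner a c = s ∧ a = s • c := by
      rcases (Cfsg.Lib.Characters.signed_irr_cases ha hc) with h | ⟨h, he⟩ | ⟨h, he⟩
      · exact absurd h hne
      · exact ⟨1, Or.inl rfl, h, by rw [one_smul]; exact he⟩
      · exact ⟨-1, Or.inr rfl, h, by rw [neg_one_smul]; exact he⟩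
    have hs0 : s ≠ 0 := by rcases hs with rfl | rfl <;> norm_num
    have hscj : starRingEnd ℂ s = s := by rcases hs with rfl | rfl <;> simp
    have had : Cfsg.classInner a d = 0 := by
      rw [hsv, Cfsg.Lib.Characters.classInner_smul_left, hcd', mul_zero]
    have hbc : Cfsg.classInner b c = 0 := by
      have hba : Cfsg.classInner b a = 0 := by rw [← Cfsg.Lib.Characters.conj_classInner, hab', map_zero]
      rw [hsv, Cfsg.Lib.Characters.classInner_smul_right, hscj] at hba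
      exact (mul_eq_zero.mp hba).resolve_left hs0
    rw [hac, had, hbc] at hm
    have hp' : (p : ℂ) ≠ 0 := Complex.ofReal_ne_zero.mpr hp
    have hq' : (q : ℂ) ≠ 0 := Complex.ofReal_ne_zero.mpr hq
    obtain ⟨t, ht, hbd, htv⟩ : ∃ t : ℂ, (t = 1 ∨ t = -1) ∧ Cfsg.classInner b d = t ∧ b = t • d := by
      rcases (Cfsg.Lib.Characters.signed_irr_cases hb hd) with h | ⟨h, he⟩ | ⟨h, he⟩
      · exfalso
        rw [h] at hm
        exact mul_ne_zero hp' hs0 (by linear_combination hm)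
      · exact ⟨1, Or.inl rfl, h, by rw [one_smul]; exact he⟩
      · exact ⟨-1, Or.inr rfl, h, by rw [neg_one_smul]; exact he⟩
    rw [hbd] at hm
    have ht0 : t ≠ 0 := by rcases ht with rfl | rfl <;> norm_num
    have hdeg : s * c 1 = t * d 1 := by
      rw [hsv, htv] at h1'
      simpa using h1'
    have hd1 : d 1 ≠ 0 := by
      rcases hd with h | h
      · exact h.one_ne_zero
      · exact fun h0 => h.one_ne_zero (by simp [h0])
    have h3 : (p : ℂ) * t = (q : ℂ) * s := mul_right_cancel₀ hd1 (by linear_combination (s : ℂ) * h2' - (p : ℂ) * hdeg)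
    rcases hs with rfl | rfl <;> rcases ht with rfl | rfl <;>
      first
        | exact hp' (by linear_combination (hm + h3) / 2)
        | exact hp' (by linear_combination (hm - h3) / 2)
        | exact hp' (by linear_combination -(hm + h3) / 2)
        | exact hp' (by linear_combination -(hm - h3) / 2)
  have hm0 : (u : ℂ) * Cfsg.classInner α γ - (v : ℂ) * Cfsg.classInner α δ
      - (u : ℂ) * Cfsg.classInner β γ + (v : ℂ) * Cfsg.classInner β δ = 0 := by
    rw [Cfsg.Lib.Characters.classInner_sub_left, Cfsg.Lib.Characters.classInner_sub_right,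
      Cfsg.Lib.Characters.classInner_sub_right] at hmix
    simp only [Cfsg.Lib.Characters.classInner_smul_right, Complex.conj_ofReal] at hmix
    linear_combination hmix
  have hba : Cfsg.classInner β α = 0 := by rw [← Cfsg.Lib.Characters.conj_classInner, hab, map_zero]
  have hdc : Cfsg.classInner δ γ = 0 := by rw [← Cfsg.Lib.Characters.conj_classInner, hcd, map_zero]
  exact ⟨key α β γ δ u v hv hα hβ hγ hδ hab hcd hu h1 h2 hm0,
    key α β δ γ v u hu hα hβ hδ hγ hab hdc hv h1 h2.symm (by linear_combination -hm0),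
    key β α γ δ u v hv hβ hα hγ hδ hba hcd hu h1.symm h2 (by linear_combination -hm0),
    key β α δ γ v u hu hβ hα hδ hγ hba hdc hv h1.symm h2.symm (by linear_combination hm0)⟩

end Cfsg.Agent.S1509
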