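import Cfsg.Statements.S1510
import Mathlib
import Cfsg.Agent.Lib.Characters.PiSection
-- import your own Cfsg.Agent.* helpers here

set_option autoImplicit false
open Cfsg

namespace Cfsg.Agent.S1510

/-- Let L be a finite group with a normal subgroup K and a nontrivial cyclic subgroup W₁ of order coprime to its index, K ⊓ W₁ = ⊥ and K ⊔ W₁ = ⊤; let W₂ ≠ ⊥ be a cyclic subgroup of K with K ⊓ C_L(x) = W₂ for every non-identity x ∈ W₁, and suppose W₁ ⊔ W₂ has odd order. Then (W₁, W₂) is a self-normalising cyclic pair in L. -/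
theorem result {L : Type*} [Group L] [Fintype L] (K W₁ W₂ : Subgroup L) [hK : K.Normal] (hKW₁ : K ⊓ W₁ = ⊥) (hKW₁' : K ⊔ W₁ = ⊤) (hW₁ : W₁ ≠ ⊥) (hW₁c : IsCyclic W₁) (hHall : Nat.Coprime (Nat.card W₁) W₁.index) (hW₂ : W₂ ≠ ⊥) (hW₂c : IsCyclic W₂) (hW₂K : W₂ ≤ K) (hC : ∀ x ∈ W₁, x ≠ 1 → K ⊓ Subgroup.centralizer ({x} : Set L) = W₂) (hodd : Odd (Nat.card ↥(W₁ ⊔ W₂))) : Cfsg.IsSelfNormalizingCyclic W₁ W₂ := by
  classical
  have hinf : W₁ ⊓ W₂ = ⊥ := by
    rw [eq_bot_iff, ← hKW₁]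
    exact le_inf (inf_le_right.trans hW₂K) inf_le_left
  have hcomm : ∀ a ∈ W₁, ∀ b ∈ W₂, a * b = b * a := by
    intro a ha b hb
    by_cases h1 : a = 1
    · rw [h1, one_mul, mul_one]
    · rw [← hC a ha h1] at hb
      exact (Subgroup.mem_centralizer_singleton_iff.mp hb.2).symm
  have hidx : Nat.card K = W₁.index := by
    have hc : Subgroup.IsComplement' K W₁ :=
      Subgroup.isComplement'_of_disjoint_and_mul_eq_univ (disjoint_iff.mpr hKW₁)
        (by rw [← Subgroup.normal_mul, hKW₁']; rfl)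
    exact hc.index_eq_card.symm
  have hcop : Nat.Coprime (Nat.card W₁) (Nat.card W₂) :=
    (hidx ▸ hHall).coprime_dvd_right (Subgroup.card_dvd_of_le hW₂K)
  obtain ⟨a₀, ha₀⟩ := hW₁c.exists_zpow_surjective
  obtain ⟨b₀, hb₀⟩ := hW₂c.exists_zpow_surjective
  have hoa : orderOf (a₀ : L) = Nat.card W₁ := by
    rw [Subgroup.orderOf_coe]; exact orderOf_eq_card_of_forall_mem_zpowers fun x => ha₀ x
  have hob : orderOf (b₀ : L) = Nat.card W₂ := by
    rw [Subgroup.orderOf_coe]; exact orderOf_eq_card_of_forall_mem_zpowers fun x => hb₀ x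
  have hc0 : Commute (a₀ : L) (b₀ : L) := hcomm _ a₀.2 _ b₀.2
  have hcop0 : Nat.Coprime (orderOf (a₀ : L)) (orderOf (b₀ : L)) := by rw [hoa, hob]; exact hcop
  obtain ⟨e, he1, he0⟩ := Cfsg.Lib.Characters.exists_piExp hcop0
  obtain ⟨f, hf1, hf0⟩ := Cfsg.Lib.Characters.exists_piExp hcop0.symm
  have hpowa : ((a₀ : L) * b₀) ^ e = a₀ := by
    rw [hc0.mul_pow, Cfsg.Lib.Characters.pow_piExp_of_left he1 (pow_orderOf_eq_one _),
      Cfsg.Lib.Characters.pow_piExp_of_right he0 (pow_orderOf_eq_one _), mul_one]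
  have hpowb : ((a₀ : L) * b₀) ^ f = b₀ := by
    rw [hc0.mul_pow, Cfsg.Lib.Characters.pow_piExp_of_left hf1 (pow_orderOf_eq_one _),
      Cfsg.Lib.Characters.pow_piExp_of_right hf0 (pow_orderOf_eq_one _), one_mul]
  have hsup : W₁ ⊔ W₂ = Subgroup.zpowers ((a₀ : L) * b₀) := by
    refine le_antisymm (sup_le (fun x hx => ?_) fun x hx => ?_) (Subgroup.zpowers_le.mpr
      (mul_mem (Subgroup.mem_sup_left a₀.2) (Subgroup.mem_sup_right b₀.2)))
    · obtain ⟨k, hk⟩ := ha₀ ⟨x, hx⟩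
      have hk' : (a₀ : L) ^ k = x := congrArg Subtype.val hk
      rw [← hk']
      refine Subgroup.zpow_mem _ ?_ k
      have h := Subgroup.pow_mem _ (Subgroup.mem_zpowers ((a₀ : L) * b₀)) e
      rwa [hpowa] at h
    · obtain ⟨k, hk⟩ := hb₀ ⟨x, hx⟩
      have hk' : (b₀ : L) ^ k = x := congrArg Subtype.val hk
      rw [← hk']
      refine Subgroup.zpow_mem _ ?_ k
      have h := Subgroup.pow_mem _ (Subgroup.mem_zpowers ((a₀ : L) * b₀)) f
      rwa [hpowb] at h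
  have hcyc : IsCyclic ↥(W₁ ⊔ W₂) := by rw [hsup]; infer_instance
  refine ⟨hW₁, hW₂, hinf, hcomm, hcyc, fun X hX hXne => ?_⟩
  have habel : ∀ x ∈ W₁ ⊔ W₂, ∀ y ∈ W₁ ⊔ W₂, x * y = y * x := by
    intro x hx y hy
    rw [hsup] at hx hy
    obtain ⟨i, rfl⟩ := Subgroup.mem_zpowers_iff.mp hx
    obtain ⟨j, rfl⟩ := Subgroup.mem_zpowers_iff.mp hy
    rw [← zpow_add, ← zpow_add, add_comm]
  refine le_antisymm (fun g hg => ?_) fun w hw => ?_
  swap
  · rw [Subgroup.mem_set_normalizer_iff]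
    intro x
    constructor
    · intro hx
      rw [habel w hw x (hX hx).1, mul_inv_cancel_right]; exact hx
    · intro hx
      have h1 := habel w hw (w * x * w⁻¹) (hX hx).1
      rw [inv_mul_cancel_right] at h1
      rw [← mul_left_cancel h1]; exact hx
  obtain ⟨x, hx⟩ := hXne
  obtain ⟨a, ha, b, hb, hab⟩ : ∃ a ∈ W₁, ∃ b ∈ W₂, a * b = x := by
    have hxm := (hX hx).1
    rw [hsup] at hxm
    obtain ⟨k, hk⟩ := Subgroup.mem_zpowers_iff.mp hxm
    exact ⟨_, W₁.zpow_mem a₀.2 k, _, W₂.zpow_mem b₀.2 k, by rw [← hc0.mul_zpow]; exact hk⟩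
  have ha1 : a ≠ 1 := by
    intro h
    exact (hX hx).2 (Or.inr (by rw [← hab, h, one_mul]; exact hb))
  obtain ⟨e', he1', he0'⟩ := Cfsg.Lib.Characters.exists_piExp hcop
  have hWpow : ∀ y ∈ W₁ ⊔ W₂, y ^ e' ∈ W₁ := by
    intro y hy
    rw [hsup] at hy
    obtain ⟨k, rfl⟩ := Subgroup.mem_zpowers_iff.mp hy
    rw [← zpow_natCast, ← zpow_mul, mul_comm, zpow_mul, zpow_natCast]
    refine W₁.zpow_mem ?_ k
    have hb1 : (b₀ : L) ^ e' = 1 :=
      Cfsg.Lib.Characters.pow_piExp_of_right he0' (by rw [← hob]; exact pow_orderOf_eq_one _)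
    rw [hc0.mul_pow, hb1, mul_one]
    exact W₁.pow_mem a₀.2 _
  have hxe : x ^ e' = a := by
    have hc : Commute a b := hcomm a ha b hb
    rw [← hab, hc.mul_pow,
      Cfsg.Lib.Characters.pow_piExp_of_left he1'
        (orderOf_dvd_iff_pow_eq_one.mp (Subgroup.orderOf_dvd_natCard _ ha)),
      Cfsg.Lib.Characters.pow_piExp_of_right he0'
        (orderOf_dvd_iff_pow_eq_one.mp (Subgroup.orderOf_dvd_natCard _ hb)), mul_one]
  have hga : g * a * g⁻¹ ∈ W₁ := by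
    rw [← hxe, ← conj_pow]
    exact hWpow _ (hX ((Subgroup.mem_set_normalizer_iff.mp hg x).mp hx)).1
  obtain ⟨k, hk, w, hw, rfl⟩ : ∃ k ∈ K, ∃ w ∈ W₁, k * w = g :=
    Subgroup.mem_sup_of_normal_left.mp (hKW₁' ▸ Subgroup.mem_top g)
  have hwa : w * a * w⁻¹ = a := by
    rw [habel w (Subgroup.mem_sup_left hw) a (Subgroup.mem_sup_left ha), mul_inv_cancel_right]
  have hka : k * a * k⁻¹ ∈ W₁ := by
    have : k * w * a * (k * w)⁻¹ = k * (w * a * w⁻¹) * k⁻¹ := by group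
    rwa [this, hwa] at hga
  have hin : k * a * k⁻¹ * a⁻¹ ∈ K ⊓ W₁ := by
    refine ⟨?_, W₁.mul_mem hka (W₁.inv_mem ha)⟩
    have h := K.mul_mem hk (hK.conj_mem _ (K.inv_mem hk) a)
    simpa [mul_assoc] using h
  rw [hKW₁, Subgroup.mem_bot, mul_inv_eq_one, mul_inv_eq_iff_eq_mul] at hin
  have hkW : k ∈ W₂ := by
    rw [← hC a ha ha1]
    exact ⟨hk, Subgroup.mem_centralizer_singleton_iff.mpr hin⟩
  exact mul_mem (Subgroup.mem_sup_right hkW) (Subgroup.mem_sup_left hw)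

end Cfsg.Agent.S1510
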