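import Cfsg.Statements.S1511
import Cfsg.Agent.S1502
import Cfsg.Agent.S1510
import Cfsg.Agent.Lib.Characters.TI

set_option autoImplicit false
open Cfsg

namespace Cfsg.Agent.S1511

open Cfsg Cfsg.Lib.Characters
open scoped ComplexConjugate

/-- Let L be a finite group with K normal with complement W₁ ≠ 1 a cyclic Hall subgroup, and W₂ ≠ 1 a cyclic subgroup of K equal to C_K(x) for every non-identity x ∈ W₁, with W₁W₂ of odd order. Then there are a map μ from the linear characters of W = W₁ ⊔ W₂ to irreducible characters of L, injective, and a sign δ(ω) ∈ {1, −1} depending only on the values of ω on W₂, such that: for ω, ω' agreeing on W₂, the function induced to L from ω − ω' equals δ(ω) • (μ ω − μ ω'); μ ω x = δ(ω) ω x for x ∈ W outside W₂; every irreducible character of L not of the form μ ω vanishes on W outside W₂; and μ ω 1 − δ(ω) is an integer multiple of Nat.card W₁. -/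
theorem result {L : Type*} [Group L] [Fintype L] (K W₁ W₂ : Subgroup L) [hK : K.Normal] (hKW₁ : K ⊓ W₁ = ⊥) (hKW₁' : K ⊔ W₁ = ⊤) (hW₁ : W₁ ≠ ⊥) (hW₁c : IsCyclic W₁) (hHall : Nat.Coprime (Nat.card W₁) W₁.index) (hW₂ : W₂ ≠ ⊥) (hW₂c : IsCyclic W₂) (hW₂K : W₂ ≤ K) (hC : ∀ x ∈ W₁, x ≠ 1 → K ⊓ Subgroup.centralizer ({x} : Set L) = W₂) (hodd : Odd (Nat.card ↥(W₁ ⊔ W₂))) : ∃ (μ : (↥(W₁ ⊔ W₂) →* ℂˣ) → (L → ℂ)) (δ : (↥(W₁ ⊔ W₂) →* ℂˣ) → ℂ), Function.Injective μ ∧ (∀ ω, Cfsg.IsIrrCharacter L (μ ω)) ∧ (∀ ω, δ ω = 1 ∨ δ ω = -1) ∧ (∀ ω ω' : ↥(W₁ ⊔ W₂) →* ℂˣ, (∀ w : ↥(W₁ ⊔ W₂), (w : L) ∈ W₂ → ω w = ω' w) → δ ω = δ ω' ∧ Cfsg.indFun (W₁ ⊔ W₂) (fun w => (ω w : ℂ) - (ω' w : ℂ)) = δ ω • (μ ω - μ ω')) ∧ (∀ ω, ∀ w : ↥(W₁ ⊔ W₂), (w : L) ∉ W₂ → μ ω w = δ ω * (ω w : ℂ)) ∧ (∀ θ : L → ℂ, Cfsg.IsIrrCharacter L θ → (∀ ω, θ ≠ μ ω) → ∀ w : ↥(W₁ ⊔ W₂), (w : L) ∉ W₂ → θ w = 0) ∧ (∀ ω, ∃ n : ℤ, μ ω 1 - δ ω = n * (Nat.card W₁ : ℂ)) := by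
  classical
  have hW := Cfsg.Agent.S1510.result K W₁ W₂ hKW₁ hKW₁' hW₁ hW₁c hHall hW₂ hW₂c hW₂K hC hodd
  obtain ⟨χ, hχ⟩ := Cfsg.Agent.S1502.result W₁ W₂ hW hodd
  obtain ⟨-, -, hdisj, hcomm, hcyc, -⟩ := id hW
  haveI := hcyc
  haveI : IsMulCommutative ↥(W₁ ⊔ W₂) := inferInstance
  haveI : Fintype ↥(W₁ ⊔ W₂) := Fintype.ofFinite _
  haveI : Fintype W₁ := Fintype.ofFinite _
  set E := fun f : ↥(W₁ ⊔ W₂) → ℂ => indFun (W₁ ⊔ W₂) f with hE
  obtain ⟨π₁, π₂, hp1, hp2, hprod, hw1, hw2⟩ := exists_proj hdisj hcomm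
  have hcomp : Subgroup.IsComplement' K W₁ := Subgroup.isComplement'_of_disjoint_and_mul_eq_univ
    (disjoint_iff.mpr hKW₁) (by rw [← Subgroup.normal_mul K W₁, hKW₁']; rfl)
  have hcop : Nat.Coprime (Nat.card W₁) (Nat.card W₂) :=
    (hcomp.index_eq_card ▸ hHall).coprime_dvd_right (Subgroup.card_dvd_of_le hW₂K)
  -- `W ∖ W₂` is a TI set
  have hdec : ∀ g : L, ∃ k ∈ K, ∃ w ∈ W₁, g = k * w := by
    intro g
    have h : g ∈ ((K ⊔ W₁ : Subgroup L) : Set L) := by rw [hKW₁']; exact Subgroup.mem_top g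
    rw [Subgroup.normal_mul] at h
    obtain ⟨k, hk, w, hw, rfl⟩ := h
    exact ⟨k, hk, w, hw, rfl⟩
  have hparts : ∀ t : L, t ∈ W₁ ⊔ W₂ → ∃ x ∈ W₁, ∃ y ∈ W₂, t = x * y := fun t ht =>
    ⟨_, hp1 ⟨t, ht⟩, _, hp2 ⟨t, ht⟩, (congrArg Subtype.val (hprod ⟨t, ht⟩)).symm⟩
  have hTI : ∀ g : L, g ∉ W₁ ⊔ W₂ → ∀ t ∈ ((↑(W₁ ⊔ W₂) : Set L) \ ↑W₂),
      g * t * g⁻¹ ∈ ((↑(W₁ ⊔ W₂) : Set L) \ ↑W₂) → t = 1 := by
    intro g hg t ht hgt
    exfalso
    apply hg
    obtain ⟨x, hx, y, hy, rfl⟩ := hparts t ht.1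
    obtain ⟨x', hx', y', hy', hxy'⟩ := hparts _ hgt.1
    have hx1 : x ≠ 1 := fun h => ht.2 (by rw [h, one_mul]; exact hy)
    obtain ⟨k, hk, v, hv, rfl⟩ := hdec g
    have hvx : v * x * v⁻¹ = x := by
      haveI := hW₁c
      letI := IsCyclic.commGroup (α := W₁)
      have := congrArg Subtype.val (mul_comm (⟨v, hv⟩ : W₁) ⟨x, hx⟩)
      rw [show v * x = x * v from this, mul_inv_cancel_right]
    have hvy : v * y * v⁻¹ = y := by rw [hcomm v hv y hy, mul_inv_cancel_right]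
    have hconj : k * v * (x * y) * (k * v)⁻¹ = k * (x * y) * k⁻¹ := by
      calc k * v * (x * y) * (k * v)⁻¹ = k * ((v * x * v⁻¹) * (v * y * v⁻¹)) * k⁻¹ := by group
        _ = _ := by rw [hvx, hvy]
    rw [hconj] at hxy'
    obtain ⟨e, he⟩ := Nat.chineseRemainder hcop 1 0
    have hzero : ∀ z ∈ W₂, z ^ e = 1 := fun z hz => by
      have h2 : Nat.card W₂ ∣ e := Nat.modEq_zero_iff_dvd.mp he.2
      have := (orderOf_dvd_natCard (⟨z, hz⟩ : W₂)).trans h2
      rw [Subgroup.orderOf_mk] at this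
      exact orderOf_dvd_iff_pow_eq_one.mp this
    have hone : ∀ z ∈ W₁, z ^ e = z := fun z hz => by
      have h1 : e ≡ 1 [MOD orderOf z] := he.1.of_dvd (by
        have := orderOf_dvd_natCard (⟨z, hz⟩ : W₁)
        rwa [Subgroup.orderOf_mk] at this)
      conv_rhs => rw [← pow_one z]
      exact pow_eq_pow_iff_modEq.mpr h1
    have hke : k * x * k⁻¹ = x' := by
      have h := congrArg (fun z => z ^ e) hxy'
      rwa [conj_pow, Commute.mul_pow (hcomm x hx y hy), Commute.mul_pow (hcomm x' hx' y' hy'),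
        hone x hx, hone x' hx', hzero y hy, hzero y' hy', mul_one, mul_one] at h
    have hxx : x' = x := by
      have h1 : x' * x⁻¹ ∈ K := by
        rw [← hke, show k * x * k⁻¹ * x⁻¹ = k * (x * k⁻¹ * x⁻¹) by group]
        exact K.mul_mem hk (hK.conj_mem _ (K.inv_mem hk) x)
      have h2 : x' * x⁻¹ ∈ K ⊓ W₁ := ⟨h1, W₁.mul_mem hx' (W₁.inv_mem hx)⟩
      rw [hKW₁, Subgroup.mem_bot] at h2
      exact mul_inv_eq_one.mp h2
    rw [hxx] at hke
    have hkW : k ∈ W₂ := by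
      rw [← hC x hx hx1]
      exact ⟨hk, Subgroup.mem_centralizer_singleton_iff.mpr (mul_inv_eq_iff_eq_mul.mp hke)⟩
    exact Subgroup.mul_mem _ (Subgroup.mem_sup_right hkW) (Subgroup.mem_sup_left hv)
  -- the linear characters trivial on `W₂` extend
  have hext : ∀ φ : ↥(W₁ ⊔ W₂) →* ℂˣ, (∀ w : ↥(W₁ ⊔ W₂), (w : L) ∈ W₂ → φ w = 1) →
      ∃ Φ : L →* ℂˣ, ∀ w : ↥(W₁ ⊔ W₂), Φ w = φ w := by
    intro φ hφ
    set π := (QuotientGroup.mk' K).comp W₁.subtype with hπ
    have hπb : Function.Bijective π := by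
      refine ⟨(injective_iff_map_eq_one π).mpr fun x hx => ?_, fun q => ?_⟩
      · have h : (x : L) ∈ K ⊓ W₁ := ⟨(QuotientGroup.eq_one_iff _).mp hx, x.2⟩
        rw [hKW₁, Subgroup.mem_bot] at h
        exact Subtype.ext h
      · obtain ⟨g, rfl⟩ := QuotientGroup.mk'_surjective K q
        obtain ⟨k, hk, w, hw, rfl⟩ := hdec g
        refine ⟨⟨w, hw⟩, ?_⟩
        rw [map_mul, show QuotientGroup.mk' K k = 1 from (QuotientGroup.eq_one_iff k).mpr hk, one_mul]
        rfl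
    set e := MulEquiv.ofBijective π hπb
    refine ⟨((φ.comp (Subgroup.inclusion le_sup_left)).comp e.symm.toMonoidHom).comp (QuotientGroup.mk' K),
      fun w => ?_⟩
    have h2 : QuotientGroup.mk' K ((π₂ w : ↥(W₁ ⊔ W₂)) : L) = 1 :=
      (QuotientGroup.eq_one_iff _).mpr (hW₂K (hp2 w))
    show φ (Subgroup.inclusion le_sup_left (e.symm (QuotientGroup.mk' K (w : L)))) = φ w
    rw [show QuotientGroup.mk' K (w : L) = e ⟨_, hp1 w⟩ from by
      conv_lhs => rw [← hprod w, Subgroup.coe_mul, map_mul, h2, mul_one]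
      rfl, MulEquiv.symm_apply_apply]
    conv_rhs => rw [← hprod w, map_mul, hφ _ (hp2 w), mul_one]
    rfl
  have hχgen : ∀ ω, IsGeneralizedCharacter L (χ ω) := fun ω => by
    rcases hχ.irr_or_neg ω with h | h
    · exact isGeneralized_of_isCharacter h.isCharacter
    · simpa using isGeneralized_neg (isGeneralized_of_isCharacter h.isCharacter)
  have hh1 : ∀ (a b : ↥(W₁ ⊔ W₂) →* ℂˣ), classInner (fun w => (a w : ℂ)) (fun w => (b w : ℂ)) =
      if a = b then 1 else 0 := fun a b => classInner_hom a b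
  have hkey1 : ∀ φ : ↥(W₁ ⊔ W₂) →* ℂˣ, φ ≠ 1 → (∀ w : ↥(W₁ ⊔ W₂), (w : L) ∈ W₂ → φ w = 1) →
      E ((fun _ => 1) - fun w => (φ w : ℂ)) = (fun _ => 1) - χ φ := by
    intro φ hφ1 hφ
    obtain ⟨Φ, hΦ⟩ := hext φ hφ
    set A := E ((fun _ => 1) - fun w => (φ w : ℂ)) with hA
    set P : L → ℂ := fun g => (Φ g : ℂ)
    have hP : IsIrrCharacter L P := isIrrCharacter_linear Φ
    have hne : (fun _ : L => (1 : ℂ)) ≠ P := fun h => hφ1 (MonoidHom.ext fun w => Units.ext (by
      rw [← hΦ w]; exact (congrFun h w).symm))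
    have hA1 : classInner A (fun _ => (1 : ℂ)) = 1 := by
      rw [hA, hE, classInner_indFun _ _ isIrrCharacter_one.isClassFunction, classInner_sub_left,
        classInner_irr_self isIrrCharacter_one, classInner_irr_ne (isIrrCharacter_linear φ) isIrrCharacter_one
          (fun h => hφ1 (MonoidHom.ext fun w => Units.ext (congrFun h w))), sub_zero]
    have hAP : classInner A P = -1 := by
      rw [hA, hE, classInner_indFun _ _ hP.isClassFunction,
        show (fun w : ↥(W₁ ⊔ W₂) => P w) = fun w => (φ w : ℂ) from funext fun w => by simp [P, hΦ],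
        classInner_sub_left, classInner_irr_self (isIrrCharacter_linear φ),
        classInner_irr_ne isIrrCharacter_one (isIrrCharacter_linear φ)
          (fun h => hφ1 (MonoidHom.ext fun w => Units.ext (congrFun h w).symm)), zero_sub]
    have hAA : classInner A A = 2 := by
      rw [hA, hE, classInner_indFun_ti hTI]
      · rw [classInner_sub_left, classInner_sub_right, classInner_sub_right,
          classInner_irr_self isIrrCharacter_one, classInner_irr_self (isIrrCharacter_linear φ),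
          classInner_irr_ne isIrrCharacter_one (isIrrCharacter_linear φ)
            (fun h => hφ1 (MonoidHom.ext fun w => Units.ext (congrFun h w).symm)),
          classInner_irr_ne (isIrrCharacter_linear φ) isIrrCharacter_one
            (fun h => hφ1 (MonoidHom.ext fun w => Units.ext (congrFun h w)))]
        norm_num
      · intro w hw
        have : (w : L) ∈ W₂ := by_contra fun h => hw ⟨w.2, h⟩
        simp [hφ w this]
      · exact fun g k => by
          rw [show k * g * k⁻¹ = g by rw [mul_comm' k g, mul_inv_cancel_right]]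
      · intro w hw
        have : (w : L) ∈ W₂ := by_contra fun h => hw ⟨w.2, h⟩
        simp [hφ w this]
      · simp
    have hAeq : A = (fun _ => 1) - P := by
      refine sub_eq_zero.mp (classInner_self_eq_zero ?_)
      simp only [classInner_sub_left, classInner_sub_right]
      rw [hAA, ← conj_classInner A (fun _ => (1 : ℂ)), hA1, ← conj_classInner A P, hAP,
        classInner_irr_self isIrrCharacter_one, classInner_irr_self hP,
        classInner_irr_ne isIrrCharacter_one hP hne, classInner_irr_ne hP isIrrCharacter_one hne.symm]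
      norm_num
    -- identify `P` with `χ φ`
    have hψ : ∀ ψ : ↥(W₁ ⊔ W₂) →* ℂˣ, ψ ≠ 1 → (∀ w : ↥(W₁ ⊔ W₂), (w : L) ∈ W₁ → ψ w = 1) →
        P = χ φ ∨ P = χ ψ ∨ P = -χ (φ * ψ) := by
      intro ψ hψ1 hψ'
      have h : classInner (E (fourTerm φ ψ)) P = -1 := by
        have h0 : φ * ψ ≠ φ := fun e => hψ1 (mul_left_cancel (e.trans (mul_one φ).symm))
        have h00 : φ ≠ ψ := hom_left_ne_right hφ hψ' hφ1
        rw [hE, classInner_indFun _ _ hP.isClassFunction,
          show (fun w : ↥(W₁ ⊔ W₂) => P w) = fun w => (φ w : ℂ) from funext fun w => by simp [P, hΦ],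
          classInner_fourTerm_hom, if_neg hφ1.symm, if_pos rfl, if_neg h00.symm, if_neg h0]
        norm_num
      simp only [hE] at h
      rw [show indFun (W₁ ⊔ W₂) (fourTerm φ ψ) = ((χ 1 - χ φ) - χ ψ) + χ (φ * ψ) from by
        rw [show fourTerm φ ψ = fun w => 1 - (φ w : ℂ) - (ψ w : ℂ) + (φ w : ℂ) * (ψ w : ℂ) from rfl,
          hχ.induced_eq φ ψ hφ1 hψ1 hφ hψ']
        funext g; simp [hχ.map_one], classInner_add_left, classInner_sub_left, classInner_sub_left,
        hχ.map_one, classInner_irr_ne isIrrCharacter_one hP hne, zero_sub] at h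
      have hcase : ∀ ω, classInner (χ ω) P = 0 ∨ χ ω = P ∨ χ ω = -P := by
        intro ω
        rcases hχ.irr_or_neg ω with h | h
        · by_cases e : χ ω = P
          · exact Or.inr (Or.inl e)
          · exact Or.inl (classInner_irr_ne h hP e)
        · by_cases e : -χ ω = P
          · exact Or.inr (Or.inr (by rw [← e, neg_neg]))
          · have := classInner_irr_ne h hP e
            rw [classInner_neg_left, neg_eq_zero] at this
            exact Or.inl this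
      have hPP := classInner_irr_self hP
      have hcoef : ∀ ω, (classInner (χ ω) P = 0) ∨ (χ ω = P ∧ classInner (χ ω) P = 1) ∨
          (χ ω = -P ∧ classInner (χ ω) P = -1) := fun ω => by
        rcases hcase ω with e | e | e
        · exact Or.inl e
        · exact Or.inr (Or.inl ⟨e, by rw [e, hPP]⟩)
        · exact Or.inr (Or.inr ⟨e, by rw [e, classInner_neg_left, hPP]⟩)
      rcases hcoef φ with e | ⟨e, e'⟩ | ⟨e, e'⟩
      · rcases hcoef ψ with f | ⟨f, f'⟩ | ⟨f, f'⟩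
        · rcases hcoef (φ * ψ) with g | ⟨g, g'⟩ | ⟨g, g'⟩
          · rw [e, f, g] at h; norm_num at h
          · rw [e, f, g'] at h; norm_num at h
          · exact Or.inr (Or.inr (by rw [g, neg_neg]))
        · exact Or.inr (Or.inl f.symm)
        · rw [e, f'] at h
          rcases hcoef (φ * ψ) with g | ⟨g, g'⟩ | ⟨g, g'⟩
          · rw [g] at h; norm_num at h
          · rw [g'] at h; norm_num at h
          · rw [g'] at h; norm_num at h
      · exact Or.inl e.symm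
      · rw [e'] at h
        rcases hcoef ψ with f | ⟨f, f'⟩ | ⟨f, f'⟩
        · rw [f] at h
          rcases hcoef (φ * ψ) with g | ⟨g, g'⟩ | ⟨g, g'⟩
          · rw [g] at h; norm_num at h
          · rw [g'] at h; norm_num at h
          · exact Or.inr (Or.inr (by rw [g, neg_neg]))
        · exact Or.inr (Or.inl f.symm)
        · rw [f'] at h
          rcases hcoef (φ * ψ) with g | ⟨g, g'⟩ | ⟨g, g'⟩
          · rw [g] at h; norm_num at h
          · rw [g'] at h; norm_num at h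
          · exact Or.inr (Or.inr (by rw [g, neg_neg]))
    have horth : ∀ a b, a ≠ b → χ a ≠ χ b ∧ χ a ≠ -χ b := by
      intro a b hab
      have h0 := hχ.orthonormal a b
      rw [if_neg hab] at h0
      have h1 := hχ.orthonormal b b
      rw [if_pos rfl] at h1
      refine ⟨fun e => ?_, fun e => ?_⟩
      · rw [e, h1] at h0; exact one_ne_zero h0
      · rw [e, classInner_neg_left, h1] at h0; norm_num at h0
    -- two different `ψ`
    obtain ⟨y, hy, hy1⟩ := (Subgroup.bot_or_exists_ne_one W₂).resolve_left hW₂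
    have hyW : (⟨y, Subgroup.mem_sup_right hy⟩ : ↥(W₁ ⊔ W₂)) ≠ 1 := fun e => hy1 (congrArg Subtype.val e)
    obtain ⟨ψ, hψ', hψy⟩ := exists_factor_hom' hdisj hcomm (w := ⟨y, Subgroup.mem_sup_right hy⟩)
      (fun h => hy1 (by
        have : y ∈ W₁ ⊓ W₂ := ⟨h, hy⟩
        rwa [hdisj, Subgroup.mem_bot] at this))
    have hψ1 : ψ ≠ 1 := fun e => hψy (by rw [e]; rfl)
    have hψi : ψ⁻¹ ≠ ψ := fun e => hψy (by
      have h2 : ψ ⟨y, Subgroup.mem_sup_right hy⟩ ^ 2 = 1 := by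
        rw [sq]; nth_rewrite 1 [← e]
        simp
      have h3 : ψ ⟨y, Subgroup.mem_sup_right hy⟩ ^ Nat.card ↥(W₁ ⊔ W₂) = 1 := by
        rw [← map_pow, pow_card_eq_one', map_one]
      have := pow_gcd_eq_one.mpr ⟨h2, h3⟩
      rwa [(Nat.coprime_two_left.mpr hodd).gcd_eq_one, pow_one] at this)
    rw [hAeq]
    congr 1
    have hψi' : ∀ w : ↥(W₁ ⊔ W₂), (w : L) ∈ W₁ → ψ⁻¹ w = 1 := fun w hw => by simp [hψ' w hw]
    have hψi0 : ψ⁻¹ ≠ 1 := fun e => hψy (by
      have := DFunLike.congr_fun e ⟨y, Subgroup.mem_sup_right hy⟩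
      simpa using this)
    have hne2 : ψ ≠ φ * ψ⁻¹ := fun e => hφ1 (by
      have := (mul_hom_eq_iff (φ := 1) (φ' := φ) (fun _ _ => rfl) hφ hψ' hψi').mp
        ((one_mul ψ).trans e)
      exact this.1.symm)
    have hne3 : φ * ψ ≠ ψ⁻¹ := fun e => hφ1 (by
      have := (mul_hom_eq_iff (φ := φ) (φ' := 1) hφ (fun _ _ => rfl) hψ' hψi').mp
        (e.trans (one_mul ψ⁻¹).symm)
      exact this.1)
    rcases hψ ψ hψ1 hψ' with e | e | e
    · exact e
    · rcases hψ ψ⁻¹ hψi0 hψi' with f | f | f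
      · exact f
      · exact absurd (e.symm.trans f) (horth _ _ hψi.symm).1
      · exact absurd (e.symm.trans f) (horth _ _ hne2).2
    · rcases hψ ψ⁻¹ hψi0 hψi' with f | f | f
      · exact f
      · exact absurd ((e.symm.trans f).symm) (horth _ _ hne3.symm).2
      · exact absurd (neg_injective (e.symm.trans f)) (horth _ _ fun e' => hψi (mul_left_cancel e').symm).1
  have hdiff : ∀ ω ω' : ↥(W₁ ⊔ W₂) →* ℂˣ, (∀ w : ↥(W₁ ⊔ W₂), (w : L) ∈ W₂ → ω w = ω' w) →
      E (fun w => (ω w : ℂ) - (ω' w : ℂ)) = χ ω - χ ω' := by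
    have hbase : ∀ φ ψ : ↥(W₁ ⊔ W₂) →* ℂˣ, (∀ w : ↥(W₁ ⊔ W₂), (w : L) ∈ W₂ → φ w = 1) →
        (∀ w : ↥(W₁ ⊔ W₂), (w : L) ∈ W₁ → ψ w = 1) →
        E (fun w => (φ w : ℂ) * (ψ w : ℂ) - (ψ w : ℂ)) = χ (φ * ψ) - χ ψ := by
      intro φ ψ hφ hψ'
      by_cases h1 : φ = 1
      · subst h1
        rw [show (1 : ↥(W₁ ⊔ W₂) →* ℂˣ) * ψ = ψ from one_mul ψ, sub_self,
          show (fun w => ((1 : ↥(W₁ ⊔ W₂) →* ℂˣ) w : ℂ) * (ψ w : ℂ) - (ψ w : ℂ)) = 0 from
            funext fun w => by simp, hE]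
        funext g
        simp [indFun, extendByZero, Function.extend_def]
      by_cases h2 : ψ = 1
      · subst h2
        rw [show φ * (1 : ↥(W₁ ⊔ W₂) →* ℂˣ) = φ from mul_one φ, hχ.map_one,
          show (fun w => (φ w : ℂ) * ((1 : ↥(W₁ ⊔ W₂) →* ℂˣ) w : ℂ) - ((1 : ↥(W₁ ⊔ W₂) →* ℂˣ) w : ℂ)) =
            -((fun _ => 1) - fun w => (φ w : ℂ)) from funext fun w => by simp]
        have := hkey1 φ h1 hφ
        simp only [hE] at this ⊢
        rw [indFun_neg, this, neg_sub]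
      · rw [show (fun w => (φ w : ℂ) * (ψ w : ℂ) - (ψ w : ℂ)) =
            fourTerm φ ψ - ((fun _ => 1) - fun w => (φ w : ℂ)) from
          funext fun w => by simp [fourTerm]; ring]
        have := hkey1 φ h1 hφ
        simp only [hE] at this ⊢
        rw [indFun_sub, this,
          show fourTerm φ ψ = fun w => 1 - (φ w : ℂ) - (ψ w : ℂ) + (φ w : ℂ) * (ψ w : ℂ) from rfl,
          hχ.induced_eq φ ψ h1 h2 hφ hψ']
        funext g
        simp only [Pi.sub_apply]
        ring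
    intro ω ω' hagree
    obtain ⟨φ, ψ, hφ, hψ', rfl⟩ := exists_split hdisj hcomm ω
    obtain ⟨φ', ψ', hφ', hψ'', rfl⟩ := exists_split hdisj hcomm ω'
    have hψeq : ψ = ψ' := MonoidHom.ext fun w => by
      have h1 : ∀ η : ↥(W₁ ⊔ W₂) →* ℂˣ, (∀ w : ↥(W₁ ⊔ W₂), (w : L) ∈ W₁ → η w = 1) →
          η w = η (π₂ w) := fun η hη => by
        conv_lhs => rw [← hprod w, map_mul, hη _ (hp1 w), one_mul]
      have := hagree (π₂ w) (hp2 w)
      rw [MonoidHom.mul_apply, MonoidHom.mul_apply, hφ _ (hp2 w), hφ' _ (hp2 w), one_mul, one_mul] at this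
      rw [h1 ψ hψ', h1 ψ' hψ'', this]
    subst hψeq
    rw [show (fun w => ((φ * ψ) w : ℂ) - ((φ' * ψ) w : ℂ)) =
        (fun w => (φ w : ℂ) * (ψ w : ℂ) - (ψ w : ℂ)) - fun w => (φ' w : ℂ) * (ψ w : ℂ) - (ψ w : ℂ) from
      funext fun w => by simp]
    have e1 := hbase φ ψ hφ hψ'
    have e2 := hbase φ' ψ hφ' hψ'
    simp only [hE] at e1 e2 ⊢
    rw [indFun_sub, e1, e2, sub_sub_sub_cancel_right]
  -- functions orthogonal to these differences
  have hvanish : ∀ f : ↥(W₁ ⊔ W₂) → ℂ, (∀ ω ω' : ↥(W₁ ⊔ W₂) →* ℂˣ,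
      (∀ w : ↥(W₁ ⊔ W₂), (w : L) ∈ W₂ → ω w = ω' w) →
      classInner f (fun w => (ω w : ℂ) - (ω' w : ℂ)) = 0) →
      ∀ w : ↥(W₁ ⊔ W₂), (w : L) ∉ W₂ → f w = 0 := by
    intro f hf w hw
    obtain ⟨φ₀, hφ₀, hφ₀w⟩ := exists_factor_hom hdisj hcomm (w := w) hw
    set h : ↥(W₁ ⊔ W₂) → ℂ := fun x => f x * conj (1 - (φ₀ x : ℂ))
    have hh : h = 0 := by
      refine eq_zero_of_forall_classInner
        (fun g k => by rw [show k * g * k⁻¹ = g by rw [mul_comm' k g, mul_inv_cancel_right]])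
        fun χ' => ?_
      obtain ⟨ω, hω⟩ := exists_hom_of_degree_one χ'.2.isCharacter (degree_one_of_isMulCommutative χ'.2)
      have e : classInner h (fun x => (ω x : ℂ)) =
          classInner f fun x => (ω x : ℂ) - ((φ₀ * ω) x : ℂ) := by
        simp only [classInner, h]
        congr 1
        refine Finset.sum_congr rfl fun x _ => ?_
        simp only [MonoidHom.mul_apply, Units.val_mul, map_sub, map_mul, map_one]
        ring
      rw [hω, e]
      exact hf ω (φ₀ * ω) fun x hx => by simp [hφ₀ x hx]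
    have h0 : f w * conj (1 - (φ₀ w : ℂ)) = 0 := congrFun hh w
    refine (mul_eq_zero.mp h0).resolve_right ?_
    rw [map_eq_zero]
    exact sub_ne_zero.mpr fun h => hφ₀w (Units.ext h.symm)
  -- signs
  choose dd hdd using fun ω => classInner_int (hχgen ω) (hχgen ω)
  let μ : (↥(W₁ ⊔ W₂) →* ℂˣ) → L → ℂ := fun ω => if IsIrrCharacter L (χ ω) then χ ω else -χ ω
  let δ : (↥(W₁ ⊔ W₂) →* ℂˣ) → ℂ := fun ω => if IsIrrCharacter L (χ ω) then 1 else -1
  have hμi : ∀ ω, IsIrrCharacter L (μ ω) := fun ω => by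
    simp only [μ]; split_ifs with h
    · exact h
    · exact (hχ.irr_or_neg ω).resolve_left h
  have hχμ : ∀ ω, χ ω = δ ω • μ ω := fun ω => by simp only [μ, δ]; split_ifs <;> simp
  have hδ : ∀ ω, δ ω = 1 ∨ δ ω = -1 := fun ω => by simp only [δ]; split_ifs <;> simp
  have hδsame : ∀ ω ω', (∀ w : ↥(W₁ ⊔ W₂), (w : L) ∈ W₂ → ω w = ω' w) → δ ω = δ ω' := by
    intro ω ω' hag
    have h0 := congrFun (hdiff ω ω' hag) 1
    simp only [hE, indFun_one_apply, Pi.sub_apply, map_one, sub_self, mul_zero] at h0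
    obtain ⟨p, hp0, hp⟩ := (hμi ω).exists_degree_pos
    obtain ⟨q, hq0, hq⟩ := (hμi ω').exists_degree_pos
    rw [hχμ, hχμ, Pi.smul_apply, Pi.smul_apply, smul_eq_mul, smul_eq_mul, hp, hq] at h0
    rcases hδ ω with e | e <;> rcases hδ ω' with e' | e' <;> rw [e, e'] at h0 ⊢
    · have : ((p + q : ℕ) : ℂ) = 0 := by push_cast; linear_combination -h0
      have := Nat.cast_eq_zero.mp this
      omega
    · have : ((p + q : ℕ) : ℂ) = 0 := by push_cast; linear_combination h0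
      have := Nat.cast_eq_zero.mp this
      omega
  have hperpdiff : ∀ (θ : L → ℂ), IsClassFunction L θ → ∀ ω ω' : ↥(W₁ ⊔ W₂) →* ℂˣ,
      (∀ w : ↥(W₁ ⊔ W₂), (w : L) ∈ W₂ → ω w = ω' w) →
      classInner (fun w : ↥(W₁ ⊔ W₂) => θ w) (fun w => (ω w : ℂ) - (ω' w : ℂ)) =
        classInner θ (χ ω) - classInner θ (χ ω') := by
    intro θ hθ ω ω' hag
    rw [← classInner_indFun_right _ _ hθ]
    have := hdiff ω ω' hag
    simp only [hE] at this
    rw [this, classInner_sub_right]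
  have hon : ∀ ω, ∀ w : ↥(W₁ ⊔ W₂), (w : L) ∉ W₂ → χ ω w = (ω w : ℂ) := by
    intro ω w hw
    refine sub_eq_zero.mp (hvanish (fun u => χ ω u - (ω u : ℂ)) (fun a b hab => ?_) w hw)
    rw [show (fun u : ↥(W₁ ⊔ W₂) => χ ω u - (ω u : ℂ)) =
        (fun u : ↥(W₁ ⊔ W₂) => χ ω u) - fun u => (ω u : ℂ) from rfl, classInner_sub_left,
      hperpdiff _ (isGeneralized_isClassFunction (hχgen ω)) a b hab, hχ.orthonormal, hχ.orthonormal,
      show (fun u => (a u : ℂ) - (b u : ℂ)) = (fun u => (a u : ℂ)) - fun u => (b u : ℂ) from rfl,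
      classInner_sub_right, hh1, hh1]
    by_cases t1 : ω = a <;> by_cases t2 : ω = b <;> simp [t1, t2]
  have hμon : ∀ ω, ∀ w : ↥(W₁ ⊔ W₂), (w : L) ∉ W₂ → μ ω w = δ ω * (ω w : ℂ) := by
    intro ω w hw
    rw [← hon ω w hw, hχμ, Pi.smul_apply, smul_eq_mul, ← mul_assoc]
    rcases hδ ω with e | e <;> rw [e] <;> ring
  refine ⟨μ, δ, fun ω ω' h => ?_, hμi, hδ, fun ω ω' hag => ⟨hδsame ω ω' hag, ?_⟩, hμon, ?_, ?_⟩
  · by_contra hne
    have h0 := hχ.orthonormal ω ω'
    rw [if_neg hne, hχμ ω, hχμ ω', h, classInner_smul_left, classInner_smul_right,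
      classInner_irr_self (hμi ω')] at h0
    rcases hδ ω with e | e <;> rcases hδ ω' with e' | e' <;> rw [e, e'] at h0 <;> norm_num at h0
  · have := hdiff ω ω' hag
    simp only [hE] at this
    rw [this, hχμ ω, hχμ ω', ← hδsame ω ω' hag, smul_sub]
  · intro θ hθ hne w hw
    refine hvanish (fun u => θ u) (fun a b hab => ?_) w hw
    rw [hperpdiff θ hθ.isClassFunction a b hab, hχμ a, hχμ b, classInner_smul_right,
      classInner_smul_right, classInner_irr_ne hθ (hμi a) (hne a), classInner_irr_ne hθ (hμi b) (hne b)]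
    ring
  · intro ω
    let l : W₁ →* ℂˣ := ω.comp (Subgroup.inclusion le_sup_left)
    obtain ⟨n, hn⟩ := classInner_int (isGeneralized_of_isCharacter (isCharacter_restrict (hμi ω).isCharacter W₁))
      (isGeneralized_of_isCharacter (isIrrCharacter_linear l).isCharacter)
    obtain ⟨s, hs⟩ : ∃ s : ℤ, δ ω = s := by
      rcases hδ ω with e | e
      · exact ⟨1, by rw [e]; norm_num⟩
      · exact ⟨-1, by rw [e]; norm_num⟩
    refine ⟨n - s, ?_⟩
    have hterm : ∀ x : W₁, (μ ω x) * conj ((l x : ℂ)) =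
        δ ω + if x = 1 then μ ω 1 - δ ω else 0 := by
      intro x
      by_cases hx : x = 1
      · simp [hx]
      · have hxW : (x : L) ∉ W₂ := fun h => hx (by
          have h' : (x : L) ∈ W₁ ⊓ W₂ := ⟨x.2, h⟩
          rw [hdisj, Subgroup.mem_bot] at h'
          exact Subtype.ext h')
        have := hμon ω (Subgroup.inclusion le_sup_left x) hxW
        rw [if_neg hx, add_zero]
        rw [show μ ω (x : L) = _ from this]
        have hu : (ω (Subgroup.inclusion le_sup_left x) : ℂ) *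
            conj ((ω (Subgroup.inclusion le_sup_left x) : ℂ)) = 1 := by
          rw [← char_inv_eq_conj (isIrrCharacter_linear ω).isCharacter, ← Units.val_mul, ← map_mul,
            mul_inv_cancel, map_one, Units.val_one]
        show δ ω * _ * conj ((ω (Subgroup.inclusion le_sup_left x) : ℂ)) = _
        rw [mul_assoc, hu, mul_one]
    rw [classInner, Finset.sum_congr rfl fun x _ => hterm x, Finset.sum_add_distrib, Finset.sum_const,
      Finset.sum_ite_eq', if_pos (Finset.mem_univ _), Finset.card_univ, nsmul_eq_mul,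
      ← Nat.card_eq_fintype_card, inv_mul_eq_iff_eq_mul₀ (Nat.cast_ne_zero.mpr Nat.card_pos.ne'), hs] at hn
    rw [hs]
    push_cast
    linear_combination hn

end Cfsg.Agent.S1511
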