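import Cfsg.Statements.S1512
import Mathlib
import Cfsg.Agent.Lib.Characters.FixedChars
-- import your own Cfsg.Agent.* helpers here

set_option autoImplicit false
open Cfsg

namespace Cfsg.Agent.S1512

/-- Let K be a normal subgroup of the finite group L and x a non-identity element whose order is coprime to the order of K, such that K ⊓ C_L(y) = W₂ for every non-identity element y of the cyclic group generated by x. Then the number of conjugacy classes of K mapped to themselves by conjugation by x is at most Nat.card W₂. -/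
theorem result {L : Type*} [Group L] [Finite L] (K W₂ : Subgroup L) [hK : K.Normal] (x : L) (hx1 : x ≠ 1) (hx : Nat.Coprime (orderOf x) (Nat.card K)) (hC : ∀ y ∈ Subgroup.zpowers x, y ≠ 1 → K ⊓ Subgroup.centralizer ({y} : Set L) = W₂) : Nat.card {C : ConjClasses K // ConjClasses.map (MulEquiv.toMonoidHom ((MulAut.conjNormal x : MulAut K))) C = C} ≤ Nat.card W₂ := by
  classical
  have hmem : ∀ y : L, y ∈ W₂ ↔ y ∈ K ∧ x * y = y * x := by
    intro y
    rw [← hC x (Subgroup.mem_zpowers x) hx1, Subgroup.mem_inf, Subgroup.mem_centralizer_singleton_iff]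
    exact and_congr_right fun _ => eq_comm
  refine Nat.card_le_card_of_surjective
    (fun w : W₂ => (⟨ConjClasses.mk (⟨(w : L), ((hmem w).mp w.2).1⟩ : K), ?_⟩ : {C : ConjClasses K // _})) ?_
  · rw [Cfsg.Lib.Characters.conjClassesMap_mk]
    refine congrArg ConjClasses.mk (Subtype.ext ?_)
    show x * (w : L) * x⁻¹ = w
    rw [((hmem w).mp w.2).2, mul_inv_cancel_right]
  · rintro ⟨C, hC'⟩
    obtain ⟨k, rfl⟩ := ConjClasses.mk_surjective C
    obtain ⟨m, hm⟩ := isConj_iff.mp (ConjClasses.mk_eq_mk_iff_isConj.mp hC')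
    have hval : (m : L) * (x * k * x⁻¹) * (m : L)⁻¹ = k := by
      simpa using congrArg Subtype.val hm
    obtain ⟨n, hn, hcomm⟩ := Cfsg.Lib.Characters.exists_conj_fixed_coprime
      (N := K) (by rw [Subgroup.normalizer_eq_top]; exact Subgroup.mem_top x) hx m.2 hval
    refine ⟨⟨n * k * n⁻¹, (hmem _).mpr ⟨K.mul_mem (K.mul_mem hn k.2) (K.inv_mem hn), hcomm⟩⟩, Subtype.ext ?_⟩
    refine ConjClasses.mk_eq_mk_iff_isConj.mpr (isConj_iff.mpr ⟨⟨n⁻¹, K.inv_mem hn⟩, Subtype.ext ?_⟩)
    show n⁻¹ * (n * k * n⁻¹) * n⁻¹⁻¹ = k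
    group

end Cfsg.Agent.S1512
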