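import Cfsg.Statements.S1513
import Cfsg.Agent.Lib.Characters.Gallagher
import Cfsg.Agent.Lib.Characters.FixedChars
import Cfsg.Agent.Lib.Characters.CoprimeCoset

set_option autoImplicit false
open Cfsg

namespace Cfsg.Agent.S1513

open Cfsg Cfsg.Lib.Characters
open scoped ComplexConjugate

/-- Classes fixed by an element acting coprimely are those of its centralizer. -/
theorem card_fixed_classes {L : Type*} [Group L] [Finite L] (K W : Subgroup L) [K.Normal] (x : L)
    (hcop : Nat.Coprime (orderOf x) (Nat.card K)) (hC : K ⊓ Subgroup.centralizer ({x} : Set L) = W)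
    (hab : ∀ a ∈ W, ∀ b ∈ W, a * b = b * a) :
    Nat.card {C : ConjClasses K //
      ConjClasses.map ((MulAut.conjNormal x : MulAut K) : K ≃* K).toMonoidHom C = C} = Nat.card W := by
  have hWK : W ≤ K := hC ▸ inf_le_left
  have hWx : ∀ w ∈ W, x * w = w * x := fun w hw => by
    rw [← hC] at hw
    exact (Subgroup.mem_centralizer_iff.mp hw.2) x rfl
  have hxN : x ∈ Subgroup.normalizer (K : Set L) := by
    rw [Subgroup.normalizer_eq_top]; exact Subgroup.mem_top x
  let F : W → {C : ConjClasses K //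
      ConjClasses.map ((MulAut.conjNormal x : MulAut K) : K ≃* K).toMonoidHom C = C} := fun w =>
    ⟨ConjClasses.mk ⟨w, hWK w.2⟩, by
      rw [conjClassesMap_mk]
      congr 1
      exact Subtype.ext (by simp [hWx w w.2])⟩
  refine (Nat.card_congr (Equiv.ofBijective F ⟨fun w w' hww => ?_, fun C => ?_⟩)).symm
  · obtain ⟨k, hk⟩ := isConj_iff.mp (ConjClasses.mk_eq_mk_iff_isConj.mp (congrArg Subtype.val hww))
    have hk' : (k : L) * w * (k : L)⁻¹ = w' := congrArg Subtype.val hk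
    have hxw : x * (w : L) * x⁻¹ = w := by rw [hWx w w.2, mul_inv_cancel_right]
    have hxw' : x * (w' : L) * x⁻¹ = w' := by rw [hWx w' w'.2, mul_inv_cancel_right]
    set Cw := K ⊓ Subgroup.centralizer ({(w : L)} : Set L) with hCw
    have hxC : x ∈ Subgroup.normalizer (Cw : Set L) := by
      rw [Subgroup.mem_normalizer_iff]
      intro z
      have hz : z ∈ K ↔ x * z * x⁻¹ ∈ K := Subgroup.mem_normalizer_iff.mp hxN z
      simp only [hCw, Subgroup.mem_inf, Subgroup.mem_centralizer_singleton_iff]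
      refine and_congr hz ⟨fun h => ?_, fun h => ?_⟩
      · calc x * z * x⁻¹ * w = x * z * x⁻¹ * (x * w * x⁻¹) := by rw [hxw]
          _ = x * (z * w) * x⁻¹ := by group
          _ = x * (w * z) * x⁻¹ := by rw [h]
          _ = x * w * x⁻¹ * (x * z * x⁻¹) := by group
          _ = w * (x * z * x⁻¹) := by rw [hxw]
      · have h2 : x * (z * w) * x⁻¹ = x * (w * z) * x⁻¹ := by
          calc x * (z * w) * x⁻¹ = x * z * x⁻¹ * (x * w * x⁻¹) := by group
            _ = x * z * x⁻¹ * w := by rw [hxw]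
            _ = w * (x * z * x⁻¹) := h
            _ = x * w * x⁻¹ * (x * z * x⁻¹) := by rw [hxw]
            _ = x * (w * z) * x⁻¹ := by group
        exact mul_left_cancel (mul_right_cancel h2)
    have hh : (k : L)⁻¹ * (x * k * x⁻¹) ∈ Cw := by
      refine ⟨K.mul_mem (K.inv_mem k.2) ((Subgroup.mem_normalizer_iff.mp hxN k).mp k.2), ?_⟩
      refine Subgroup.mem_centralizer_singleton_iff.mpr ?_
      have e1 : (x * k * x⁻¹) * w = w' * (x * k * x⁻¹) := by
        calc (x * k * x⁻¹) * w = (x * k * x⁻¹) * (x * w * x⁻¹) := by rw [hxw]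
          _ = x * (k * w * (k : L)⁻¹) * k * x⁻¹ := by group
          _ = x * w' * k * x⁻¹ := by rw [hk']
          _ = (x * w' * x⁻¹) * (x * k * x⁻¹) := by group
          _ = w' * (x * k * x⁻¹) := by rw [hxw']
      calc (k : L)⁻¹ * (x * k * x⁻¹) * w = (k : L)⁻¹ * (w' * (x * k * x⁻¹)) := by rw [← e1]; group
        _ = w * ((k : L)⁻¹ * (x * k * x⁻¹)) := by rw [← hk']; group
    have hcop' : Nat.Coprime (orderOf x) (Nat.card Cw) :=
      hcop.coprime_dvd_right (Subgroup.card_dvd_of_le inf_le_left)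
    obtain ⟨n, hn, c, hc, hcx, heq, -⟩ := exists_conj_coprime_coset hxC hcop' hh
    have e2 : (k : L)⁻¹ * (x * k * x⁻¹) * x = (k : L)⁻¹ * x * k := by group
    rw [e2] at heq
    have hc1 : c = 1 := by
      have h1 : (c * x) ^ orderOf x = 1 := by
        rw [← heq, conj_pow, show ((k : L)⁻¹ * x * k) = (k : L)⁻¹ * x * ((k : L)⁻¹)⁻¹ by rw [inv_inv],
          conj_pow, pow_orderOf_eq_one]
        simp
      rw [Commute.mul_pow hcx, pow_orderOf_eq_one, mul_one] at h1
      rw [← orderOf_eq_one_iff]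
      have h2 := orderOf_dvd_natCard (⟨c, hc⟩ : Cw)
      rw [Subgroup.orderOf_mk] at h2
      exact Nat.eq_one_of_dvd_coprimes hcop' (orderOf_dvd_of_pow_eq_one h1) h2
    rw [hc1, one_mul] at heq
    have hu : (k : L) * n⁻¹ ∈ W := by
      rw [← hC]
      refine ⟨K.mul_mem k.2 (K.inv_mem hn.1), ?_⟩
      refine Subgroup.mem_centralizer_singleton_iff.mpr ?_
      calc (k : L) * n⁻¹ * x = k * n⁻¹ * (n * ((k : L)⁻¹ * x * k) * n⁻¹) := by rw [heq]
        _ = x * (k * n⁻¹) := by group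
    have hnw : n * (w : L) = w * n := by
      exact Subgroup.mem_centralizer_singleton_iff.mp hn.2
    refine Subtype.ext ?_
    calc (w : L) = (k * n⁻¹) * w * (k * n⁻¹)⁻¹ := by
          rw [hab _ hu w w.2, mul_inv_cancel_right]
      _ = k * (n⁻¹ * w * n) * (k : L)⁻¹ := by group
      _ = k * w * (k : L)⁻¹ := by rw [mul_assoc n⁻¹ (w : L) n, ← hnw, inv_mul_cancel_left]
      _ = w' := hk'
  · obtain ⟨C, hCfix⟩ := C
    obtain ⟨k, rfl⟩ := ConjClasses.mk_surjective C
    rw [conjClassesMap_mk, ConjClasses.mk_eq_mk_iff_isConj] at hCfix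
    obtain ⟨m, hm⟩ := isConj_iff.mp hCfix
    have hm' : (m : L) * (x * k * x⁻¹) * (m : L)⁻¹ = k := by
      have := congrArg Subtype.val hm
      simpa using this
    obtain ⟨n, hn, hnk⟩ := exists_conj_fixed_coprime hxN hcop m.2 hm'
    have hw : n * (k : L) * n⁻¹ ∈ W := by
      rw [← hC]
      refine ⟨K.mul_mem (K.mul_mem hn k.2) (K.inv_mem hn), ?_⟩
      refine Subgroup.mem_centralizer_singleton_iff.mpr ?_
      exact hnk.symm
    refine ⟨⟨_, hw⟩, Subtype.ext ?_⟩
    show ConjClasses.mk (⟨n * (k : L) * n⁻¹, hWK hw⟩ : K) = ConjClasses.mk k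
    rw [ConjClasses.mk_eq_mk_iff_isConj]
    exact (isConj_iff.mpr ⟨⟨n, hn⟩, Subtype.ext rfl⟩).symm

/-- Let L be a finite group with K normal with complement W₁ ≠ 1 a cyclic Hall subgroup, and W₂ ≠ 1 a cyclic subgroup of K equal to C_K(x) for every non-identity x ∈ W₁, with W₁W₂ of odd order. For an irreducible character θ of K: if θ is not fixed under conjugation by some element of W₁, then the function induced from θ to L is an irreducible character of L; and the irreducible characters of K fixed by all of W₁ are exactly Nat.card W₂ in number, each inducing to the sum of Nat.card W₁ pairwise distinct irreducible characters of L. -/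
theorem result {L : Type*} [Group L] [Fintype L] (K W₁ W₂ : Subgroup L) [hK : K.Normal] (hKW₁ : K ⊓ W₁ = ⊥) (hKW₁' : K ⊔ W₁ = ⊤) (hW₁ : W₁ ≠ ⊥) (hW₁c : IsCyclic W₁) (hHall : Nat.Coprime (Nat.card W₁) W₁.index) (hW₂ : W₂ ≠ ⊥) (hW₂c : IsCyclic W₂) (hW₂K : W₂ ≤ K) (hC : ∀ x ∈ W₁, x ≠ 1 → K ⊓ Subgroup.centralizer ({x} : Set L) = W₂) (hodd : Odd (Nat.card ↥(W₁ ⊔ W₂))) : (∀ θ : K → ℂ, Cfsg.IsIrrCharacter K θ → (∃ x ∈ W₁, (fun k : K => θ ⟨x * k * x⁻¹, hK.conj_mem (k : L) k.2 x⟩) ≠ θ) → Cfsg.IsIrrCharacter L (Cfsg.indFun K θ)) ∧ Nat.card {θ : Cfsg.IrrCharacter K // ∀ x ∈ W₁, (fun k : K => (θ : K → ℂ) ⟨x * k * x⁻¹, hK.conj_mem (k : L) k.2 x⟩) = θ} = Nat.card W₂ ∧ (∀ θ : K → ℂ, Cfsg.IsIrrCharacter K θ → (∀ x ∈ W₁, (fun k : K => θ ⟨x * k * x⁻¹, hK.conj_mem (k : L) k.2 x⟩) = θ) → ∃ C : Finset (L → ℂ), C.card = Nat.card W₁ ∧ (∀ μ ∈ C, Cfsg.IsIrrCharacter L μ) ∧ Cfsg.indFun K θ = ∑ μ ∈ C, μ) := by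
  classical
  have hcomp : Subgroup.IsComplement' K W₁ := Subgroup.isComplement'_of_disjoint_and_mul_eq_univ
    (disjoint_iff.mpr hKW₁) (by rw [← Subgroup.normal_mul K W₁, hKW₁']; rfl)
  have hcardK : W₁.index = Nat.card K := hcomp.index_eq_card
  have hcop : ∀ x ∈ W₁, Nat.Coprime (orderOf x) (Nat.card K) := fun x hx => by
    refine Nat.Coprime.coprime_dvd_left ?_ (hcardK ▸ hHall)
    simpa using orderOf_dvd_natCard (⟨x, hx⟩ : W₁)
  haveI := hW₂c
  have hab : ∀ a ∈ W₂, ∀ b ∈ W₂, a * b = b * a := fun a ha b hb => by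
    letI := IsCyclic.commGroup (α := W₂)
    exact congrArg Subtype.val (mul_comm (⟨a, ha⟩ : W₂) ⟨b, hb⟩)
  set Fx : L → Set (IrrCharacter K) := fun x => {θ | conjFn K (θ : K → ℂ) x = (θ : K → ℂ)} with hFx
  have hcard : ∀ x ∈ W₁, x ≠ 1 → (Fx x).ncard = Nat.card W₂ := by
    intro x hx hx1
    rw [← Nat.card_coe_set_eq, ← card_fixed_classes K W₂ x (hcop x hx) (hC x hx hx1) hab]
    exact card_fixed_conjFn K x
  haveI := hW₁c
  obtain ⟨g0, hg0⟩ := IsCyclic.exists_generator (α := W₁)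
  have hg1 : (g0 : L) ≠ 1 := by
    intro h
    refine hW₁ (eq_bot_iff.mpr fun z hz => ?_)
    obtain ⟨i, hi⟩ := Subgroup.mem_zpowers_iff.mp (hg0 ⟨z, hz⟩)
    have := congrArg Subtype.val hi
    rw [Subgroup.coe_zpow, h, one_zpow] at this
    exact Subgroup.mem_bot.mpr this.symm
  have hgen : ∀ θ : K → ℂ, conjFn K θ g0 = θ → ∀ x ∈ W₁, conjFn K θ x = θ := by
    intro θ hθ x hx
    obtain ⟨i, hi⟩ := Subgroup.mem_zpowers_iff.mp (hg0 ⟨x, hx⟩)
    have h' : x = (g0 : L) ^ i := by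
      have := congrArg Subtype.val hi
      rw [Subgroup.coe_zpow] at this
      exact this.symm
    rw [h', ← mem_inertia]
    exact Subgroup.zpow_mem _ (mem_inertia.mpr hθ) i
  have hall : ∀ y ∈ W₁, y ≠ 1 → ∀ θ : IrrCharacter K, conjFn K (θ : K → ℂ) y = θ →
      ∀ x ∈ W₁, conjFn K (θ : K → ℂ) x = θ := by
    intro y hy hy1 θ hθ
    have hsub : Fx g0 ⊆ Fx y := fun φ hφ => hgen _ hφ y hy
    have heq := Set.eq_of_subset_of_ncard_le hsub
      (by rw [hcard y hy hy1, hcard g0 g0.2 hg1]) (Set.toFinite _)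
    have : θ ∈ Fx g0 := by rw [heq]; exact hθ
    exact hgen _ this
  have hdec : ∀ g : L, ∃ k ∈ K, ∃ w ∈ W₁, g = k * w := by
    intro g
    have h : g ∈ ((K ⊔ W₁ : Subgroup L) : Set L) := by rw [hKW₁']; exact Subgroup.mem_top g
    rw [Subgroup.normal_mul] at h
    obtain ⟨k, hk, w, hw, rfl⟩ := h
    exact ⟨k, hk, w, hw, rfl⟩
  refine ⟨fun θ hθ hmov => ?_, ?_, fun θ hθ hfix => ?_⟩
  · refine (isIrrCharacter_indFun_iff hθ).mpr (le_antisymm (fun g hg => ?_) (le_inertia hθ.isClassFunction))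
    obtain ⟨k, hk, w, hw, rfl⟩ := hdec g
    rw [mem_inertia, ← conjFn_conjFn, show conjFn K θ k = θ from conjFn_mem hθ.isClassFunction ⟨k, hk⟩] at hg
    by_cases hw1 : w = 1
    · rw [hw1, mul_one]; exact hk
    · obtain ⟨x, hx, hne⟩ := hmov
      exact absurd (hall w hw hw1 ⟨θ, hθ⟩ hg x hx) hne
  · rw [← hcard g0 g0.2 hg1, ← Nat.card_coe_set_eq]
    exact Nat.card_congr (Equiv.subtypeEquivRight fun θ => ⟨fun h => h g0 g0.2, fun h => hgen _ h⟩)
  · have hinv : ∀ g, conjFn K θ g = θ := by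
      intro g
      obtain ⟨k, hk, w, hw, rfl⟩ := hdec g
      rw [← conjFn_conjFn, show conjFn K θ k = θ from conjFn_mem hθ.isClassFunction ⟨k, hk⟩]
      exact hfix w hw
    have hcyc : IsCyclic (L ⧸ K) := by
      refine isCyclic_of_surjective ((QuotientGroup.mk' K).comp W₁.subtype) fun q => ?_
      obtain ⟨g, rfl⟩ := QuotientGroup.mk'_surjective K q
      obtain ⟨k, hk, w, hw, rfl⟩ := hdec g
      refine ⟨⟨w, hw⟩, ?_⟩
      rw [MonoidHom.comp_apply, map_mul, (QuotientGroup.eq_one_iff k).mpr hk |> fun h =>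
        (show QuotientGroup.mk' K k = 1 from h), one_mul]
      rfl
    have hind : W₁.index * K.index = Nat.card L ∧ K.index = Nat.card W₁ := by
      refine ⟨?_, hcomp.symm.index_eq_card⟩
      rw [hcardK, K.card_mul_index]
    set f := indFun K θ with hf
    have hfc : IsClassFunction L f := isClassFunction_indFun K θ
    set C : Finset (IrrCharacter L) := Finset.filter (fun μ : IrrCharacter L => classInner f μ.1 ≠ 0) Finset.univ with hCdef
    have hone : ∀ μ ∈ C, classInner f (μ : L → ℂ) = 1 := by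
      intro μ hμ
      rw [hCdef, Finset.mem_filter] at hμ
      have hμ2 := hμ.2
      rw [hf, classInner_indFun K θ μ.2.isClassFunction] at hμ2 ⊢
      have hne : classInner (fun n : K => (μ : L → ℂ) n) θ ≠ 0 := fun h => hμ2 (by
        rw [← conj_classInner, h, map_zero])
      obtain ⟨e, he, -, he1⟩ := multiplicity_dvd_index hθ hinv μ.2 hne
      rw [he, classInner_smul_right, classInner_irr_self hθ, he1 hcyc]
      simp
    have hexp : f = ∑ μ ∈ C, (μ : L → ℂ) := by
      conv_lhs => rw [classFunction_expansion hfc]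
      rw [hCdef, Finset.sum_filter]
      refine Finset.sum_congr rfl fun μ _ => ?_
      by_cases h : classInner f (μ : L → ℂ) = 0
      · rw [if_neg (not_not.mpr h), h, zero_smul]
      · rw [if_pos h, hone μ (Finset.mem_filter.mpr ⟨Finset.mem_univ _, h⟩), one_smul]
    refine ⟨C.image Subtype.val, ?_, fun μ hμ => ?_, ?_⟩
    · rw [Finset.card_image_of_injective _ Subtype.val_injective, ← hind.2]
      have h1 := classInner_indFun_self_of_invariant hθ hinv
      rw [← hf] at h1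
      have h2 : classInner f f = (C.card : ℂ) := by
        conv_lhs => arg 2; rw [hexp]
        rw [classInner_sum_right, Finset.sum_congr rfl hone, Finset.sum_const, nsmul_eq_mul, mul_one]
      exact_mod_cast h2.symm.trans h1
    · obtain ⟨μ', -, rfl⟩ := Finset.mem_image.mp hμ
      exact μ'.2
    · rw [Finset.sum_image Subtype.val_injective.injOn]
      exact hexp

end Cfsg.Agent.S1513
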