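import Cfsg.Statements.S1514
import Mathlib
import Cfsg.Agent.Lib.Characters.Isometry
import Cfsg.Agent.Lib.Characters.Permutation
-- import your own Cfsg.Agent.* helpers here

set_option autoImplicit false
open Cfsg

namespace Cfsg.Agent.S1514

/-- Let S be a nonempty set of irreducible characters of the finite group L, closed under complex conjugation and containing no real-valued member, and τ a linear isometry on the integer combinations of S vanishing at 1, with values virtual characters of G vanishing at 1. Then there is a choice R making (S, τ, R) a coherence system. -/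
theorem result {L : Type*} [Group L] [Fintype L] {G : Type*} [Group G] [Fintype G] (S : Set (L → ℂ)) (hS : S.Nonempty) (hirr : ∀ χ ∈ S, Cfsg.IsIrrCharacter L χ) (hconj : ∀ χ ∈ S, Cfsg.conjFun χ ∈ S ∧ Cfsg.conjFun χ ≠ χ) (τ : (L → ℂ) → (G → ℂ)) (hτ : Cfsg.IsLinearIsometryOn (Cfsg.zspanOn S {1}ᶜ) τ) (hτ1 : ∀ α ∈ Cfsg.zspanOn S {1}ᶜ, τ α 1 = 0) : ∃ R : (L → ℂ) → Finset (G → ℂ), Cfsg.IsCoherenceSystem S τ R := by
  classical
  have key : ∀ χ ∈ S, ∃ a b : G → ℂ, Cfsg.IsIrrCharacter G a ∧ Cfsg.IsIrrCharacter G b ∧ a ≠ b ∧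
      τ (χ - Cfsg.conjFun χ) = a - b := by
    intro χ hχS
    obtain ⟨hcS, hne⟩ := hconj χ hχS
    have hmem : χ - Cfsg.conjFun χ ∈ Cfsg.zspanOn S {1}ᶜ := by
      refine ⟨Submodule.sub_mem _ (Submodule.subset_span hχS) (Submodule.subset_span hcS), fun x hx => ?_⟩
      rw [Set.notMem_compl_iff, Set.mem_singleton_iff] at hx
      obtain ⟨n, hn⟩ := Cfsg.Lib.Characters.exists_degree (hirr χ hχS).isCharacter
      simp [hx, Cfsg.conjFun, hn]
    have hn : Cfsg.classInner (τ (χ - Cfsg.conjFun χ)) (τ (χ - Cfsg.conjFun χ)) = 2 := by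
      rw [hτ.2.2.1 _ hmem _ hmem, Cfsg.Lib.Characters.classInner_irr_sub_sub (hirr _ hχS) (hirr _ hcS)
        (hirr _ hχS) (hirr _ hcS)]
      simp [hne, Ne.symm hne]
      norm_num
    exact Cfsg.Lib.Characters.exists_sub_of_norm_two (hτ.2.2.2 _ hmem) (hτ1 _ hmem) hn
  choose! a b ha hb hab he using key
  refine ⟨fun χ => {a χ, -b χ}, hS, fun χ h => (hirr χ h).isCharacter, fun χ h => (hconj χ h).1,
    fun χ h => (hconj χ h).2, hτ, hτ1, fun χ h φ h' hne => ?_, ?_, ?_, ?_, ?_⟩
  · exact Cfsg.Lib.Characters.classInner_irr_ne (hirr χ h) (hirr φ h') hne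
  · intro χ h x hx y hy
    have h0 := Cfsg.Lib.Characters.classInner_irr (ha χ h) (hb χ h)
    have h0' := Cfsg.Lib.Characters.classInner_irr (hb χ h) (ha χ h)
    rw [if_neg (hab χ h)] at h0
    rw [if_neg (Ne.symm (hab χ h))] at h0'
    have hne : a χ ≠ -b χ := by
      intro e
      have := congrArg (fun z => Cfsg.classInner z (a χ)) e
      simp only [Cfsg.Lib.Characters.classInner_neg_left, h0',
        Cfsg.Lib.Characters.classInner_irr_self (ha χ h)] at this
      norm_num at this
    simp only [Finset.mem_insert, Finset.mem_singleton] at hx hy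
    rcases hx with rfl | rfl <;> rcases hy with rfl | rfl <;>
      simp [Cfsg.Lib.Characters.classInner_neg_left, Cfsg.Lib.Characters.classInner_neg_right, h0, h0',
        Cfsg.Lib.Characters.classInner_irr_self (ha χ h), Cfsg.Lib.Characters.classInner_irr_self (hb χ h),
        hne, Ne.symm hne]
  · intro χ h x hx
    simp only [Finset.mem_insert, Finset.mem_singleton] at hx
    rcases hx with rfl | rfl
    · exact Cfsg.Lib.Characters.isGeneralized_of_isCharacter (ha χ h).isCharacter
    · exact Cfsg.Lib.Characters.isGeneralized_neg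
        (Cfsg.Lib.Characters.isGeneralized_of_isCharacter (hb χ h).isCharacter)
  · intro χ h
    have hne : a χ ≠ -b χ := by
      intro e
      have h0' := Cfsg.Lib.Characters.classInner_irr_ne (hb χ h) (ha χ h) (Ne.symm (hab χ h))
      have := congrArg (fun z => Cfsg.classInner z (a χ)) e
      simp only [Cfsg.Lib.Characters.classInner_neg_left, h0',
        Cfsg.Lib.Characters.classInner_irr_self (ha χ h)] at this
      norm_num at this
    rw [Finset.sum_pair hne, he χ h, sub_eq_add_neg]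
  · intro χ h φ h' hφχ hφχc x hx y hy
    obtain ⟨hcS, hnc⟩ := hconj χ h
    obtain ⟨hcS', hnc'⟩ := hconj φ h'
    have h1 : φ ≠ χ := fun e => by
      rw [e, Cfsg.Lib.Characters.classInner_irr_self (hirr χ h)] at hφχ; exact one_ne_zero hφχ
    have h2 : φ ≠ Cfsg.conjFun χ := fun e => by
      rw [e, Cfsg.Lib.Characters.classInner_irr_self (hirr _ hcS)] at hφχc; exact one_ne_zero hφχc
    have hcc : ∀ z : L → ℂ, Cfsg.conjFun (Cfsg.conjFun z) = z := fun z =>
      funext fun g => Complex.conj_conj (z g)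
    have h3 : Cfsg.conjFun φ ≠ χ := fun e => h2 (by rw [← e, hcc])
    have h4 : Cfsg.conjFun φ ≠ Cfsg.conjFun χ := fun e => h1 (by rw [← hcc φ, e, hcc])
    have hmem : ∀ z ∈ S, z - Cfsg.conjFun z ∈ Cfsg.zspanOn S {1}ᶜ := fun z hz => by
      refine ⟨Submodule.sub_mem _ (Submodule.subset_span hz) (Submodule.subset_span (hconj z hz).1),
        fun w hw => ?_⟩
      rw [Set.notMem_compl_iff, Set.mem_singleton_iff] at hw
      obtain ⟨n, hn⟩ := Cfsg.Lib.Characters.exists_degree (hirr z hz).isCharacter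
      simp [hw, Cfsg.conjFun, hn]
    have h0 : Cfsg.classInner (a φ - b φ) (a χ - b χ) = 0 := by
      rw [← he φ h', ← he χ h, hτ.2.2.1 _ (hmem φ h') _ (hmem χ h),
        Cfsg.Lib.Characters.classInner_irr_sub_sub (hirr _ h') (hirr _ hcS') (hirr _ h) (hirr _ hcS)]
      simp [h1, h2, h3, h4]
    rw [Cfsg.Lib.Characters.classInner_irr_sub_sub (ha φ h') (hb φ h') (ha χ h) (hb χ h)] at h0
    have hn : a φ ≠ a χ ∧ a φ ≠ b χ ∧ b φ ≠ a χ ∧ b φ ≠ b χ := by
      have := hab φ h'
      have := hab χ h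
      split_ifs at h0 <;> norm_num at h0 <;> grind
    simp only [Finset.mem_insert, Finset.mem_singleton] at hx hy
    rcases hx with rfl | rfl <;> rcases hy with rfl | rfl <;>
      simp [Cfsg.Lib.Characters.classInner_neg_left, Cfsg.Lib.Characters.classInner_neg_right,
        Cfsg.Lib.Characters.classInner_irr_ne, ha φ h', hb φ h', ha χ h, hb χ h, hn.1, hn.2.1, hn.2.2.1, hn.2.2.2]

end Cfsg.Agent.S1514
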