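import Cfsg.Statements.S1515
import Cfsg.Agent.Lib.Characters.Induction

set_option autoImplicit false
open Cfsg

namespace Cfsg.Agent.S1515

open Cfsg Cfsg.Lib.Characters
open scoped ComplexConjugate

/-- Let (S, τ, R) be a coherence system from L to G, χ ∈ S, and ψ an integer combination of S with ⟨χ, ψ⟩ = ⟨conj χ, ψ⟩ = 0. Let τ₁ be a linear isometry on the integer combinations of χ − ψ and χ − conj χ, with virtual-character values, agreeing with τ on integer multiples of χ − conj χ. Then the sum over α ∈ R χ of the squared absolute values of ⟨τ₁(χ − ψ), α⟩ is at least ⟨χ, χ⟩; and if ⟨τ₁(χ − ψ), τ₁(χ − ψ)⟩ minus that sum is at least ⟨ψ, ψ⟩, then the sum equals ⟨χ, χ⟩ and every ⟨τ₁(χ − ψ), α⟩ with α ∈ R χ is 0 or 1. -/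
theorem result {L : Type*} [Group L] [Fintype L] {G : Type*} [Group G] [Fintype G] (S : Set (L → ℂ)) (τ : (L → ℂ) → (G → ℂ)) (R : (L → ℂ) → Finset (G → ℂ)) (hS : Cfsg.IsCoherenceSystem S τ R) (χ : L → ℂ) (hχ : χ ∈ S) (ψ : L → ℂ) (hψ : ψ ∈ Cfsg.zspan S) (h1 : Cfsg.classInner χ ψ = 0) (h2 : Cfsg.classInner (Cfsg.conjFun χ) ψ = 0) (τ₁ : (L → ℂ) → (G → ℂ)) (hτ₁ : Cfsg.IsLinearIsometryOn (Cfsg.zspan {χ - ψ, χ - Cfsg.conjFun χ}) τ₁) (hagree : ∀ n : ℤ, τ₁ (n • (χ - Cfsg.conjFun χ)) = τ (n • (χ - Cfsg.conjFun χ))) : (Cfsg.classInner χ χ).re ≤ ∑ α ∈ R χ, ‖Cfsg.classInner (τ₁ (χ - ψ)) α‖ ^ 2 ∧ ((Cfsg.classInner ψ ψ).re ≤ (Cfsg.classInner (τ₁ (χ - ψ)) (τ₁ (χ - ψ))).re - ∑ α ∈ R χ, ‖Cfsg.classInner (τ₁ (χ - ψ)) α‖ ^ 2 → (∑ α ∈ R χ, ‖Cfsg.classInner (τ₁ (χ - ψ)) α‖ ^ 2 = (Cfsg.classInner χ χ).re ∧ ∀ α ∈ R χ, Cfsg.classInner (τ₁ (χ - ψ)) α = 0 ∨ Cfsg.classInner (τ₁ (χ - ψ)) α = 1)) := by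
  classical
  obtain ⟨-, hsm, hiso, hgen⟩ := hτ₁
  have hu : χ - ψ ∈ zspan {χ - ψ, χ - conjFun χ} := Submodule.subset_span (Set.mem_insert _ _)
  have hv : χ - conjFun χ ∈ zspan {χ - ψ, χ - conjFun χ} :=
    Submodule.subset_span (Set.mem_insert_of_mem _ rfl)
  set Y := τ₁ (χ - ψ)
  have hY : IsGeneralizedCharacter G Y := hgen _ hu
  choose! c hc using fun α (hα : α ∈ R χ) => classInner_int hY (hS.virtual χ hχ α hα)
  obtain ⟨n, hn⟩ := classInner_nat (hS.isCharacter χ hχ) (hS.isCharacter χ hχ)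
  have hval : τ₁ (χ - conjFun χ) = ∑ α ∈ R χ, α := by
    have := hagree 1
    rwa [one_smul, hS.sum_eq χ hχ] at this
  have hψχ : classInner ψ χ = 0 := by rw [← conj_classInner, h1, map_zero]
  have hψc : classInner ψ (conjFun χ) = 0 := by rw [← conj_classInner, h2, map_zero]
  have hortho : classInner χ (conjFun χ) = 0 :=
    hS.orthogonal χ hχ _ (hS.conj_mem χ hχ) (hS.conj_ne χ hχ).symm
  have hsum : ∑ α ∈ R χ, c α = (n : ℤ) := by
    have h := hiso _ hu _ hv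
    rw [hval, classInner_sum_right, Finset.sum_congr rfl hc, classInner_sub_left,
      classInner_sub_right, classInner_sub_right, hn, hortho, hψχ, hψc] at h
    simp only [sub_zero] at h
    exact_mod_cast h
  have hYY : classInner Y Y = (n : ℂ) + classInner ψ ψ := by
    rw [hiso _ hu _ hu, classInner_sub_left, classInner_sub_right, classInner_sub_right, hn, h1, hψχ]
    ring
  have hnorm : ∀ α ∈ R χ, ‖classInner Y α‖ ^ 2 = ((c α ^ 2 : ℤ) : ℝ) := by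
    intro α hα
    rw [hc α hα, Complex.norm_intCast, sq_abs, Int.cast_pow]
  have hle : ∀ α ∈ R χ, c α ≤ c α ^ 2 := fun α _ => Int.le_self_sq _
  have hn' : (classInner χ χ).re = (n : ℝ) := by rw [hn, Complex.natCast_re]
  rw [Finset.sum_congr rfl hnorm, hn', ← Int.cast_sum]
  have hle' : (n : ℤ) ≤ ∑ α ∈ R χ, c α ^ 2 := hsum ▸ Finset.sum_le_sum hle
  refine ⟨by exact_mod_cast hle', fun hh => ?_⟩
  rw [hYY, Complex.add_re, Complex.natCast_re] at hh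
  have hge : ∑ α ∈ R χ, c α ^ 2 ≤ (n : ℤ) := by
    have : ((∑ α ∈ R χ, c α ^ 2 : ℤ) : ℝ) ≤ (n : ℝ) := by linarith
    exact_mod_cast this
  refine ⟨by exact_mod_cast le_antisymm hge hle', fun α hα => ?_⟩
  have he : c α = c α ^ 2 :=
    (Finset.sum_eq_sum_iff_of_le hle).mp (hsum.trans (le_antisymm hle' hge)) α hα
  rw [hc α hα]
  rcases eq_or_ne (c α) 0 with h0 | h0
  · exact Or.inl (by rw [h0, Int.cast_zero])
  · refine Or.inr ?_
    rw [mul_right_cancel₀ h0 (show c α * c α = 1 * c α by rw [one_mul, ← sq, ← he]), Int.cast_one]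

end Cfsg.Agent.S1515
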