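import Cfsg.Statements.S1516
import Cfsg.Agent.Lib.Characters.Induction
import Cfsg.Agent.Lib.Characters.Correspondence

set_option autoImplicit false
open Cfsg

namespace Cfsg.Agent.S1516

open Cfsg Cfsg.Lib.Characters
open scoped ComplexConjugate

universe u v

variable {L : Type u} [Group L] [Fintype L] {G : Type v} [Group G] [Fintype G]

theorem norm_re_nonneg (f : G → ℂ) : 0 ≤ (classInner f f).re := by
  rw [classInner]
  have h : ∑ g : G, f g * conj (f g) = ((∑ g : G, Complex.normSq (f g) : ℝ) : ℂ) := by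
    push_cast
    exact Finset.sum_congr rfl fun g _ => Complex.mul_conj _
  rw [h, ← Complex.ofReal_natCast, ← Complex.ofReal_inv, ← Complex.ofReal_mul, Complex.ofReal_re]
  exact mul_nonneg (by positivity) (Finset.sum_nonneg fun g _ => Complex.normSq_nonneg _)

/-- The coefficient of `φ` in `f` with respect to an orthogonal family. -/
noncomputable def co (f φ : L → ℂ) : ℂ := classInner f φ / classInner φ φ

/-- The map determined by the values `X` on the orthogonal family `F`. -/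
noncomputable def ext' (F : Finset (L → ℂ)) (X : (L → ℂ) → G → ℂ) (f : L → ℂ) : G → ℂ :=
  ∑ φ ∈ F, co f φ • X φ

section family

variable {F : Finset (L → ℂ)} (ho : ∀ φ ∈ F, ∀ ψ ∈ F, φ ≠ ψ → classInner φ ψ = 0)
  (hnn : ∀ φ ∈ F, classInner φ φ ≠ 0)

include ho hnn in
theorem ext'_apply (X : (L → ℂ) → G → ℂ) {φ : L → ℂ} (hφ : φ ∈ F) : ext' F X φ = X φ := by
  rw [ext', Finset.sum_eq_single φ]
  · rw [co, div_self (hnn φ hφ), one_smul]
  · intro ψ hψ hne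
    rw [co, ho φ hφ ψ hψ (Ne.symm hne), zero_div, zero_smul]
  · exact fun h => absurd hφ h

theorem ext'_add (X : (L → ℂ) → G → ℂ) (f g : L → ℂ) :
    ext' F X (f + g) = ext' F X f + ext' F X g := by
  simp only [ext', co, classInner_add_left, add_div, add_smul, Finset.sum_add_distrib]

theorem ext'_zsmul (X : (L → ℂ) → G → ℂ) (n : ℤ) (f : L → ℂ) :
    ext' F X (n • f) = n • ext' F X f := by
  simp only [ext', co]
  rw [← Int.cast_smul_eq_zsmul ℂ n f, ← Int.cast_smul_eq_zsmul ℂ n (Finset.sum _ _), Finset.smul_sum]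
  refine Finset.sum_congr rfl fun φ _ => ?_
  rw [classInner_smul_left, mul_div_assoc, smul_smul]

theorem ext'_zero (X : (L → ℂ) → G → ℂ) : ext' F X 0 = 0 := by
  have h := ext'_zsmul (F := F) X 0 0
  rwa [zero_smul, zero_smul] at h

include ho hnn in
theorem repr_of_mem {f : L → ℂ} (hf : f ∈ zspan (F : Set (L → ℂ))) :
    ∃ a : (L → ℂ) → ℤ, f = ∑ φ ∈ F, (a φ : ℂ) • φ ∧ ∀ φ ∈ F, co f φ = a φ := by
  obtain ⟨a, -, ha⟩ := Submodule.mem_span_finset.mp hf
  have ha' : f = ∑ φ ∈ F, (a φ : ℂ) • φ := by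
    rw [← ha]
    exact Finset.sum_congr rfl fun φ _ => (Int.cast_smul_eq_zsmul ℂ _ _).symm
  refine ⟨a, ha', fun φ hφ => ?_⟩
  rw [co, div_eq_iff (hnn φ hφ), ha', classInner_sum_left, Finset.sum_eq_single φ]
  · rw [classInner_smul_left]
  · intro ψ hψ hne
    rw [classInner_smul_left, ho ψ hψ φ hφ hne, mul_zero]
  · exact fun h => absurd hφ h

include ho hnn in
theorem isometry_ext' (X : (L → ℂ) → G → ℂ) (hX : ∀ φ ∈ F, ∀ ψ ∈ F,
      classInner (X φ) (X ψ) = classInner φ ψ) (hXg : ∀ φ ∈ F, IsGeneralizedCharacter G (X φ)) :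
    IsLinearIsometryOn (zspan (F : Set (L → ℂ))) (ext' F X) := by
  refine ⟨fun f _ g _ => ext'_add X f g, fun f _ n => ext'_zsmul X n f, fun f hf g hg => ?_,
    fun f hf => ?_⟩
  · obtain ⟨a, ha, hca⟩ := repr_of_mem ho hnn hf
    obtain ⟨b, hb, hcb⟩ := repr_of_mem ho hnn hg
    simp only [ext']
    rw [Finset.sum_congr rfl fun φ hφ => by rw [hca φ hφ],
      show (∑ φ ∈ F, co g φ • X φ) = ∑ φ ∈ F, (b φ : ℂ) • X φ from
        Finset.sum_congr rfl fun φ hφ => by rw [hcb φ hφ], ha, hb]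
    simp only [classInner_sum_left, classInner_sum_right, classInner_smul_left, classInner_smul_right]
    exact Finset.sum_congr rfl fun φ hφ => congrArg _ (Finset.sum_congr rfl fun ψ hψ => by
      rw [hX ψ hψ φ hφ])
  · obtain ⟨a, ha, hca⟩ := repr_of_mem ho hnn hf
    refine Finset.sum_induction _ _ (fun _ _ => isGeneralized_add) ?_ fun φ hφ => ?_
    · exact isGeneralized_of_isCharacter isCharacter_zero
    · rw [hca φ hφ]
      exact isGeneralized_zsmul (hXg φ hφ) _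

end family

/-- Let (S, τ, R) be a coherence system from L to G, with degrees d φ and norms n φ on S, S₁ a finite subset of S closed under conjugation with (S₁, L minus 1, τ) coherent, χ in S with χ and conj χ outside S₁, and χ₁ ∈ S₁ with d χ₁ dividing d χ and 2 d χ d χ₁ < Σ_{φ ∈ S₁} d φ ^ 2 / n φ. Then (S₁ ∪ {χ, conj χ}, L minus 1, τ) is coherent. -/
theorem result {L : Type*} [Group L] [Fintype L] {G : Type*} [Group G] [Fintype G] (S : Set (L → ℂ)) (τ : (L → ℂ) → (G → ℂ)) (R : (L → ℂ) → Finset (G → ℂ)) (hS : Cfsg.IsCoherenceSystem S τ R) (d n : (L → ℂ) → ℕ) (hd : ∀ φ ∈ S, φ 1 = (d φ : ℂ)) (hn : ∀ φ ∈ S, Cfsg.classInner φ φ = (n φ : ℂ)) (S₁ : Finset (L → ℂ)) (hS₁ : ↑S₁ ⊆ S) (hS₁c : ∀ φ ∈ S₁, Cfsg.conjFun φ ∈ S₁) (hcoh : Cfsg.IsCoherent (↑S₁ : Set (L → ℂ)) {1}ᶜ τ) (χ : L → ℂ) (hχ : χ ∈ S) (hχ₁ : χ ∉ S₁) (hχ₂ : Cfsg.conjFun χ ∉ S₁) (χ₁ : L → ℂ) (hχ₁S : χ₁ ∈ S₁) (hdvd : d χ₁ ∣ d χ) (hineq : (2 * d χ * d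 χ₁ : ℝ) < ∑ φ ∈ S₁, ((d φ : ℝ) ^ 2 / (n φ : ℝ))) : Cfsg.IsCoherent (↑S₁ ∪ {χ, Cfsg.conjFun χ} : Set (L → ℂ)) {1}ᶜ τ := by
  classical
  obtain ⟨hadd, hsmul, hiso, hgen⟩ := hS.isometry
  obtain ⟨-, τ₁, ⟨h1add, h1smul, h1iso, h1gen⟩, hagree⟩ := hcoh
  -- generalities on members of `S`
  have hne0 : ∀ φ ∈ S, φ ≠ 0 := fun φ hφ h => hS.conj_ne φ hφ (by
    subst h; funext x; simp [conjFun])
  have hnn : ∀ φ ∈ S, classInner φ φ ≠ 0 := fun φ hφ h => hne0 φ hφ (classInner_self_eq_zero h)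
  have hn0 : ∀ φ ∈ S, n φ ≠ 0 := fun φ hφ h => hnn φ hφ (by rw [hn φ hφ, h, Nat.cast_zero])
  have hd0 : ∀ φ ∈ S, d φ ≠ 0 := fun φ hφ h => hne0 φ hφ
    (char_eq_zero_of_degree_zero (hS.isCharacter φ hφ) (by rw [hd φ hφ, h, Nat.cast_zero]))
  have hortho := hS.orthogonal
  have hconj := hS.conj_mem
  have hcc : ∀ φ : L → ℂ, conjFun (conjFun φ) = φ := fun φ => funext fun x => Complex.conj_conj _
  have hnc : ∀ φ ∈ S, classInner (conjFun φ) (conjFun φ) = n φ := by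
    intro φ hφ
    have := congrArg conj (hn φ hφ)
    rw [map_natCast] at this
    rw [← this]
    simp [classInner, conjFun, map_sum]
  have hspan : ∀ φ ∈ S, φ ∈ zspan S := fun φ hφ => Submodule.subset_span hφ
  have hdeg1 : ∀ φ ∈ S, conjFun φ 1 = φ 1 := fun φ hφ => by
    rw [conjFun, hd φ hφ]; simp
  have hdiffc : ∀ φ ∈ S, φ - conjFun φ ∈ zspanOn S {1}ᶜ := by
    intro φ hφ
    refine ⟨Submodule.sub_mem _ (hspan φ hφ) (hspan _ (hconj φ hφ)), fun x hx => ?_⟩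
    rw [show x = 1 by simpa using hx, Pi.sub_apply, hdeg1 φ hφ, sub_self]
  have hR : ∀ φ ∈ S, (R φ).card = 2 * n φ := by
    intro φ hφ
    have h := hiso _ (hdiffc φ hφ) _ (hdiffc φ hφ)
    rw [hS.sum_eq φ hφ, classInner_sum_left, Finset.sum_congr rfl fun α hα => by
      rw [classInner_sum_right, Finset.sum_congr rfl fun β hβ => hS.orthonormal φ hφ α hα β hβ,
        Finset.sum_ite_eq, if_pos hα], classInner_sub_left, classInner_sub_right, classInner_sub_right,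
      hortho φ hφ _ (hconj φ hφ) (hS.conj_ne φ hφ).symm,
      hortho _ (hconj φ hφ) φ hφ (hS.conj_ne φ hφ), hn φ hφ, hnc φ hφ] at h
    have : ((R φ).card : ℂ) = ((2 * n φ : ℕ) : ℂ) := by
      rw [Finset.sum_const, nsmul_eq_mul, mul_one] at h
      rw [h]; push_cast; ring
    exact_mod_cast this
  -- inner products of combinations of an `R φ`
  have hcomb : ∀ φ ∈ S, ∀ a b : (G → ℂ) → ℤ,
      classInner (∑ α ∈ R φ, (a α : ℂ) • α) (∑ α ∈ R φ, (b α : ℂ) • α) =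
        ((∑ α ∈ R φ, a α * b α : ℤ) : ℂ) := by
    intro φ hφ a b
    rw [classInner_sum_left, Int.cast_sum]
    refine Finset.sum_congr rfl fun α hα => ?_
    rw [classInner_smul_left, classInner_sum_right, Finset.sum_eq_single α]
    · rw [classInner_smul_right, hS.orthonormal φ hφ α hα α hα, if_pos rfl, map_intCast, mul_one,
        Int.cast_mul]
    · intro β hβ hne
      rw [classInner_smul_right, hS.orthonormal φ hφ α hα β hβ, if_neg (Ne.symm hne), mul_zero]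
    · exact fun h => absurd hα h
  -- `τ₁ φ` lies in the span of `R φ`
  have hmem₁ : ∀ φ ∈ S₁, φ ∈ zspan (↑S₁ : Set (L → ℂ)) := fun φ hφ => Submodule.subset_span hφ
  have hτ₁R : ∀ φ ∈ S₁, ∃ c : (G → ℂ) → ℤ, τ₁ φ = ∑ α ∈ R φ, (c α : ℂ) • α := by
    intro φ hφ
    have hφS := hS₁ hφ
    have hd1 : τ₁ φ - τ₁ (conjFun φ) = ∑ α ∈ R φ, α := by
      have h1 := hagree (φ - conjFun φ) ⟨Submodule.sub_mem _ (hmem₁ φ hφ) (hmem₁ _ (hS₁c φ hφ)),
        (hdiffc φ hφS).2⟩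
      rw [hS.sum_eq φ hφS] at h1
      rw [← h1, sub_eq_iff_eq_add, ← h1add _ (Submodule.sub_mem _ (hmem₁ φ hφ) (hmem₁ _ (hS₁c φ hφ)))
        _ (hmem₁ _ (hS₁c φ hφ)), sub_add_cancel]
    choose! c hc using fun α (hα : α ∈ R φ) => classInner_int (h1gen _ (hmem₁ φ hφ)) (hS.virtual φ hφS α hα)
    refine ⟨c, ?_⟩
    have hsum : (∑ α ∈ R φ, c α : ℤ) = (n φ : ℤ) := by
      have h : classInner (τ₁ φ) (∑ α ∈ R φ, α) = (n φ : ℂ) := by
        rw [← hd1, classInner_sub_right, h1iso _ (hmem₁ φ hφ) _ (hmem₁ φ hφ),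
          h1iso _ (hmem₁ φ hφ) _ (hmem₁ _ (hS₁c φ hφ)), hn φ hφS,
          hortho φ hφS _ (hconj φ hφS) (hS.conj_ne φ hφS).symm, sub_zero]
      rw [classInner_sum_right, Finset.sum_congr rfl hc] at h
      exact_mod_cast h
    set P := ∑ α ∈ R φ, (c α : ℂ) • α with hP
    have hTP : classInner (τ₁ φ) P = ((∑ α ∈ R φ, c α * c α : ℤ) : ℂ) := by
      rw [hP, classInner_sum_right, Int.cast_sum]
      refine Finset.sum_congr rfl fun α hα => ?_
      rw [classInner_smul_right, hc α hα, map_intCast, Int.cast_mul]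
    have hnorm : classInner (τ₁ φ - P) (τ₁ φ - P) =
        (((n φ : ℤ) - ∑ α ∈ R φ, c α * c α : ℤ) : ℂ) := by
      rw [classInner_sub_left, classInner_sub_right, classInner_sub_right,
        h1iso _ (hmem₁ φ hφ) _ (hmem₁ φ hφ), hn φ hφS, ← conj_classInner (τ₁ φ) P, hTP,
        show classInner P P = _ from hcomb φ hφS c c, map_intCast]
      push_cast
      ring
    have hge := norm_re_nonneg (τ₁ φ - P)
    rw [hnorm, Complex.intCast_re] at hge
    have hge' : (0 : ℤ) ≤ (n φ : ℤ) - ∑ α ∈ R φ, c α * c α := by exact_mod_cast hge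
    have hle : ∑ α ∈ R φ, c α ≤ ∑ α ∈ R φ, c α * c α :=
      Finset.sum_le_sum fun α _ => by rw [← sq]; exact Int.le_self_sq _
    have hz : (n φ : ℤ) - ∑ α ∈ R φ, c α * c α = 0 := by omega
    rw [hz, Int.cast_zero] at hnorm
    exact sub_eq_zero.mp (classInner_self_eq_zero hnorm)
  -- orthogonality to `R χ`
  have hχc := hconj χ hχ
  have hne1 : ∀ φ ∈ S₁, φ ≠ χ ∧ φ ≠ conjFun χ := fun φ hφ =>
    ⟨fun h => hχ₁ (h ▸ hφ), fun h => hχ₂ (h ▸ hφ)⟩
  have hperp : ∀ φ ∈ S₁, ∀ α ∈ R χ, classInner (τ₁ φ) α = 0 := by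
    intro φ hφ α hα
    obtain ⟨c, hc⟩ := hτ₁R φ hφ
    rw [hc, classInner_sum_left]
    refine Finset.sum_eq_zero fun β hβ => ?_
    rw [classInner_smul_left, hS.disjoint χ hχ φ (hS₁ hφ) (hortho φ (hS₁ hφ) χ hχ (hne1 φ hφ).1)
      (hortho φ (hS₁ hφ) _ hχc (hne1 φ hφ).2) β hβ α hα, mul_zero]
  -- the difference `χ - a χ₁`
  obtain ⟨a, ha⟩ := hdvd
  have h1S := hS₁ hχ₁S
  set β : L → ℂ := χ - (a : ℤ) • χ₁ with hβ
  have hβmem : β ∈ zspanOn S {1}ᶜ := by
    refine ⟨Submodule.sub_mem _ (hspan χ hχ) (Submodule.smul_mem _ _ (hspan χ₁ h1S)), fun x hx => ?_⟩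
    rw [show x = 1 by simpa using hx, hβ, Pi.sub_apply, Pi.smul_apply, hd χ hχ, hd χ₁ h1S, ha,
      zsmul_eq_mul]
    push_cast
    ring
  have hinβ : ∀ f : L → ℂ, classInner β f = classInner χ f - (a : ℂ) * classInner χ₁ f := by
    intro f
    rw [hβ, classInner_sub_left, ← Int.cast_smul_eq_zsmul ℂ, classInner_smul_left, Int.cast_natCast]
  set Y := τ β with hY
  have hYgen : IsGeneralizedCharacter G Y := hgen _ hβmem
  choose! c hc using fun α (hα : α ∈ R χ) => classInner_int hYgen (hS.virtual χ hχ α hα)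
  have hsumc : (∑ α ∈ R χ, c α : ℤ) = (n χ : ℤ) := by
    have h := hiso _ hβmem _ (hdiffc χ hχ)
    rw [hS.sum_eq χ hχ, classInner_sum_right, Finset.sum_congr rfl hc, hinβ, classInner_sub_right,
      classInner_sub_right, hn χ hχ, hortho χ hχ _ hχc (hS.conj_ne χ hχ).symm,
      hortho χ₁ h1S χ hχ (hne1 χ₁ hχ₁S).1, hortho χ₁ h1S _ hχc (hne1 χ₁ hχ₁S).2] at h
    simp only [sub_zero, mul_zero] at h
    exact_mod_cast h
  set C := ∑ α ∈ R χ, (c α : ℂ) • α with hC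
  have hCperp : ∀ φ ∈ S₁, classInner C (τ₁ φ) = 0 := by
    intro φ hφ
    rw [hC, classInner_sum_left]
    refine Finset.sum_eq_zero fun α hα => ?_
    rw [classInner_smul_left, ← conj_classInner, hperp φ hφ α hα, map_zero, mul_zero]
  obtain ⟨t, ht⟩ := classInner_int hYgen (h1gen _ (hmem₁ χ₁ hχ₁S))
  set s : ℤ := t + (a : ℤ) * (n χ₁ : ℤ) with hs
  -- the inner products with `τ₁ φ`
  set W := Y - C + (a : ℂ) • τ₁ χ₁ with hW
  have hd1ne : (d χ₁ : ℂ) ≠ 0 := Nat.cast_ne_zero.mpr (hd0 χ₁ h1S)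
  have hWφ : ∀ φ ∈ S₁, classInner W (τ₁ φ) = (s : ℂ) * (d φ : ℂ) / (d χ₁ : ℂ) := by
    intro φ hφ
    have hφS := hS₁ hφ
    have hW' : classInner W (τ₁ φ) = classInner Y (τ₁ φ) + (a : ℂ) * classInner χ₁ φ := by
      rw [hW, classInner_add_left, classInner_sub_left, hCperp φ hφ, sub_zero, classInner_smul_left,
        h1iso _ (hmem₁ χ₁ hχ₁S) _ (hmem₁ φ hφ)]
    rw [hW']
    set γ : L → ℂ := (d χ₁ : ℤ) • φ - (d φ : ℤ) • χ₁ with hγ
    have hγmem : γ ∈ zspanOn (↑S₁ : Set (L → ℂ)) {1}ᶜ := by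
      refine ⟨Submodule.sub_mem _ (Submodule.smul_mem _ _ (hmem₁ φ hφ))
        (Submodule.smul_mem _ _ (hmem₁ χ₁ hχ₁S)), fun x hx => ?_⟩
      rw [show x = 1 by simpa using hx, hγ, Pi.sub_apply, Pi.smul_apply, Pi.smul_apply, hd φ hφS,
        hd χ₁ h1S, zsmul_eq_mul, zsmul_eq_mul]
      push_cast
      ring
    have hγS : γ ∈ zspanOn S {1}ᶜ := ⟨Submodule.span_mono hS₁ hγmem.1, hγmem.2⟩
    have h := hiso _ hβmem _ hγS
    have hτγ : τ γ = (d χ₁ : ℂ) • τ₁ φ - (d φ : ℂ) • τ₁ χ₁ := by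
      rw [← hagree γ hγmem, hγ, eq_sub_iff_add_eq]
      have e1 : ((d φ : ℂ) • τ₁ χ₁) = τ₁ ((d φ : ℤ) • χ₁) := by
        rw [h1smul _ (hmem₁ χ₁ hχ₁S), ← Int.cast_smul_eq_zsmul ℂ, Int.cast_natCast]
      have e2 : ((d χ₁ : ℂ) • τ₁ φ) = τ₁ ((d χ₁ : ℤ) • φ) := by
        rw [h1smul _ (hmem₁ φ hφ), ← Int.cast_smul_eq_zsmul ℂ, Int.cast_natCast]
      rw [e1, e2, ← h1add _ hγmem.1 _ (Submodule.smul_mem _ _ (hmem₁ χ₁ hχ₁S)), sub_add_cancel]
    rw [hτγ, classInner_sub_right, classInner_smul_right, classInner_smul_right, ← hY, ht, hinβ,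
      hγ, classInner_sub_right, classInner_sub_right, ← Int.cast_smul_eq_zsmul ℂ,
      ← Int.cast_smul_eq_zsmul ℂ, classInner_smul_right, classInner_smul_right,
      classInner_smul_right, classInner_smul_right, hn χ₁ h1S,
      hortho χ hχ φ hφS (hne1 φ hφ).1.symm, hortho χ hχ χ₁ h1S (hne1 χ₁ hχ₁S).1.symm] at h
    simp only [Int.cast_natCast, map_natCast] at h
    rw [eq_div_iff hd1ne, hs]
    push_cast
    linear_combination h
  -- the norm of the rest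
  have hYC : classInner Y C = ((∑ α ∈ R χ, c α * c α : ℤ) : ℂ) := by
    rw [hC, classInner_sum_right, Int.cast_sum]
    refine Finset.sum_congr rfl fun α hα => ?_
    rw [classInner_smul_right, hc α hα, map_intCast, Int.cast_mul]
  have hYY : classInner Y Y = (n χ : ℂ) + (a : ℂ) ^ 2 * (n χ₁ : ℂ) := by
    rw [hY, hiso _ hβmem _ hβmem, hinβ, hβ, classInner_sub_right, classInner_sub_right,
      ← Int.cast_smul_eq_zsmul ℂ, classInner_smul_right, classInner_smul_right, hn χ hχ, hn χ₁ h1S,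
      hortho χ hχ χ₁ h1S (hne1 χ₁ hχ₁S).1.symm, hortho χ₁ h1S χ hχ (hne1 χ₁ hχ₁S).1]
    simp only [Int.cast_natCast, map_natCast]
    ring
  have hWW : classInner W W =
      (((n χ : ℤ) - ∑ α ∈ R χ, c α * c α + 2 * (a : ℤ) * s : ℤ) : ℂ) := by
    rw [hW]
    simp only [classInner_add_left, classInner_add_right, classInner_sub_left, classInner_sub_right,
      classInner_smul_left, classInner_smul_right]
    rw [hYY, ← conj_classInner Y C, hYC, ← conj_classInner Y (τ₁ χ₁), ht,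
      show classInner C C = _ from hcomb χ hχ c c, ← conj_classInner C (τ₁ χ₁), hCperp χ₁ hχ₁S,
      h1iso _ (hmem₁ χ₁ hχ₁S) _ (hmem₁ χ₁ hχ₁S), hn χ₁ h1S, hs]
    simp only [map_intCast, map_natCast, map_zero]
    push_cast
    ring
  -- the inequality forces `s = 0`
  set r : ℝ := ∑ φ ∈ S₁, (d φ : ℝ) ^ 2 / (n φ : ℝ) with hr
  set Q := ∑ φ ∈ S₁, ((d φ : ℂ) / (n φ : ℂ)) • τ₁ φ with hQ
  set e : ℝ := (s : ℝ) / (d χ₁ : ℝ) with he
  have hWQ : classInner W Q = ((e * r : ℝ) : ℂ) := by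
    rw [hQ, classInner_sum_right, hr, Finset.mul_sum, Complex.ofReal_sum]
    refine Finset.sum_congr rfl fun φ hφ => ?_
    rw [classInner_smul_right, hWφ φ hφ, map_div₀, map_natCast, map_natCast, he]
    push_cast
    ring
  have hQQ : classInner Q Q = ((r : ℝ) : ℂ) := by
    rw [hQ, classInner_sum_left, hr, Complex.ofReal_sum]
    refine Finset.sum_congr rfl fun φ hφ => ?_
    rw [classInner_smul_left, classInner_sum_right, Finset.sum_eq_single φ]
    · rw [classInner_smul_right, h1iso _ (hmem₁ φ hφ) _ (hmem₁ φ hφ), hn φ (hS₁ hφ), map_div₀,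
        map_natCast, map_natCast]
      have := hn0 φ (hS₁ hφ)
      push_cast
      field_simp
    · intro ψ hψ hne
      rw [classInner_smul_right, h1iso _ (hmem₁ φ hφ) _ (hmem₁ ψ hψ),
        hortho φ (hS₁ hφ) ψ (hS₁ hψ) (Ne.symm hne), mul_zero]
    · exact fun h => absurd hφ h
  set N : ℤ := (n χ : ℤ) - ∑ α ∈ R χ, c α * c α + 2 * (a : ℤ) * s with hN
  have hres : (0 : ℝ) ≤ (N : ℝ) - e ^ 2 * r := by
    have h := norm_re_nonneg (W - (e : ℂ) • Q)
    rw [classInner_sub_left, classInner_sub_right, classInner_sub_right] at h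
    simp only [classInner_smul_left, classInner_smul_right] at h
    rw [hWW, hWQ, ← conj_classInner W Q, hWQ, hQQ, Complex.conj_ofReal, Complex.conj_ofReal,
      ← Complex.ofReal_intCast, ← Complex.ofReal_mul, ← Complex.ofReal_mul, ← Complex.ofReal_mul,
      ← Complex.ofReal_sub, ← Complex.ofReal_sub, ← Complex.ofReal_sub, Complex.ofReal_re] at h
    linarith
  have hle : ∑ α ∈ R χ, c α ≤ ∑ α ∈ R χ, c α * c α :=
    Finset.sum_le_sum fun α _ => by rw [← sq]; exact Int.le_self_sq _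
  have hs0 : s = 0 := by
    have hd1pos : (0 : ℝ) < (d χ₁ : ℝ) := Nat.cast_pos.mpr (Nat.pos_of_ne_zero (hd0 χ₁ h1S))
    have hN2 : (N : ℝ) ≤ 2 * (a : ℝ) * (s : ℝ) := by
      have : N ≤ 2 * (a : ℤ) * s := by omega
      exact_mod_cast this
    have hr0 : (0 : ℝ) ≤ r := Finset.sum_nonneg fun φ _ => by positivity
    rw [ha] at hineq
    push_cast at hineq
    rcases lt_trichotomy s 0 with h | h | h
    · exfalso
      have hsR : (s : ℝ) ≤ -1 := by exact_mod_cast (by omega : s ≤ -1)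
      rcases Nat.eq_zero_or_pos a with ha0 | ha0
      · exact hd0 χ hχ (by rw [ha, ha0, mul_zero])
      · have haR : (0 : ℝ) < (a : ℝ) := Nat.cast_pos.mpr ha0
        nlinarith [sq_nonneg e]
    · exact h
    · exfalso
      have hsR : (1 : ℝ) ≤ (s : ℝ) := by exact_mod_cast h
      have hed : e * (d χ₁ : ℝ) = (s : ℝ) := by rw [he]; field_simp
      have h2 : (s : ℝ) ^ 2 * r ≤ 2 * (a : ℝ) * (s : ℝ) * (d χ₁ : ℝ) ^ 2 := by
        have : e ^ 2 * r ≤ 2 * (a : ℝ) * (s : ℝ) := by linarith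
        calc (s : ℝ) ^ 2 * r = e ^ 2 * r * (d χ₁ : ℝ) ^ 2 := by rw [← hed]; ring
          _ ≤ 2 * (a : ℝ) * (s : ℝ) * (d χ₁ : ℝ) ^ 2 := mul_le_mul_of_nonneg_right this (sq_nonneg _)
      have h3 : (s : ℝ) * r ≤ 2 * (a : ℝ) * (d χ₁ : ℝ) ^ 2 :=
        le_of_mul_le_mul_left (a := (s : ℝ)) (by linarith [h2]) (by linarith)
      nlinarith
  have hN0 : N = 0 := by
    have h1 : (0 : ℤ) ≤ N := by
      have h := norm_re_nonneg W
      rw [hWW, Complex.intCast_re] at h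
      exact_mod_cast h
    simp only [hN, hs0, mul_zero, add_zero] at h1 ⊢
    omega
  have hW0 : W = 0 := classInner_self_eq_zero (by rw [hWW, hN0, Int.cast_zero])
  have hc2 : ∑ α ∈ R χ, c α * c α = (n χ : ℤ) := by
    simp only [hN, hs0, mul_zero, add_zero] at hN0
    omega
  -- the images of `χ` and its conjugate
  set C' := ∑ α ∈ R χ, ((c α - 1 : ℤ) : ℂ) • α with hC'
  have hC'eq : C' = C - ∑ α ∈ R χ, α := by
    rw [hC', hC, ← Finset.sum_sub_distrib]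
    exact Finset.sum_congr rfl fun α _ => by rw [Int.cast_sub, Int.cast_one, sub_smul, one_smul]
  have hcard := hR χ hχ
  have hgenC : ∀ b : (G → ℂ) → ℤ, IsGeneralizedCharacter G (∑ α ∈ R χ, (b α : ℂ) • α) := fun b => by
    refine Finset.sum_induction _ _ (fun _ _ => isGeneralized_add) ?_ fun α hα => ?_
    · exact isGeneralized_of_isCharacter isCharacter_zero
    · exact isGeneralized_zsmul (hS.virtual χ hχ α hα) _
  let X : (L → ℂ) → G → ℂ := fun φ => if φ = χ then C else if φ = conjFun χ then C' else τ₁ φ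
  have hXχ : X χ = C := if_pos rfl
  have hXc : X (conjFun χ) = C' := by
    simp only [X]; rw [if_neg (hS.conj_ne χ hχ), if_pos trivial]
  have hX1 : ∀ φ ∈ S₁, X φ = τ₁ φ := fun φ hφ => by
    simp only [X]; rw [if_neg (hne1 φ hφ).1, if_neg (hne1 φ hφ).2]
  set F := insert χ (insert (conjFun χ) S₁) with hF
  have hFS : ∀ φ ∈ F, φ ∈ S := by
    intro φ hφ
    rw [hF, Finset.mem_insert, Finset.mem_insert] at hφ
    rcases hφ with rfl | rfl | h
    exacts [hχ, hχc, hS₁ h]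
  have hset : (↑S₁ ∪ {χ, conjFun χ} : Set (L → ℂ)) = ↑F := by
    ext φ
    simp [hF]
  have hFo : ∀ φ ∈ F, ∀ ψ ∈ F, φ ≠ ψ → classInner φ ψ = 0 := fun φ hφ ψ hψ =>
    hortho φ (hFS φ hφ) ψ (hFS ψ hψ)
  have hFn : ∀ φ ∈ F, classInner φ φ ≠ 0 := fun φ hφ => hnn φ (hFS φ hφ)
  have hC'perp : ∀ φ ∈ S₁, classInner C' (τ₁ φ) = 0 := by
    intro φ hφ
    rw [hC', classInner_sum_left]
    refine Finset.sum_eq_zero fun α hα => ?_
    rw [classInner_smul_left, ← conj_classInner, hperp φ hφ α hα, map_zero, mul_zero]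
  have hCC' : classInner C C' = 0 := by
    rw [hC, hC', hcomb χ hχ]
    have : ∑ α ∈ R χ, c α * (c α - 1) = 0 := by
      simp only [mul_sub, mul_one, Finset.sum_sub_distrib]
      omega
    rw [this, Int.cast_zero]
  have hXiso : ∀ φ ∈ F, ∀ ψ ∈ F, classInner (X φ) (X ψ) = classInner φ ψ := by
    intro φ hφ ψ hψ
    simp only [hF, Finset.mem_insert] at hφ hψ
    rcases hφ with rfl | rfl | hφ <;> rcases hψ with rfl | rfl | hψ
    · rw [hXχ, hn _ hχ, hC, hcomb _ hχ, hc2, Int.cast_natCast]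
    · rw [hXχ, hXc, hCC', hortho _ hχ _ hχc (hS.conj_ne _ hχ).symm]
    · rw [hXχ, hX1 _ hψ, hCperp _ hψ, hortho _ hχ _ (hS₁ hψ) (hne1 _ hψ).1.symm]
    · rw [hXχ, hXc, ← conj_classInner, hCC', map_zero, hortho _ hχc _ hχ (hS.conj_ne _ hχ)]
    · rw [hXc, hnc _ hχ, hC', hcomb _ hχ]
      have : ∑ α ∈ R χ, (c α - 1) * (c α - 1) = (n χ : ℤ) := by
        simp only [sub_mul, mul_sub, mul_one, one_mul, Finset.sum_sub_distrib, Finset.sum_const,
          nsmul_eq_mul, hcard]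
        push_cast
        omega
      rw [this, Int.cast_natCast]
    · rw [hXc, hX1 _ hψ, hC'perp _ hψ, hortho _ hχc _ (hS₁ hψ) (hne1 _ hψ).2.symm]
    · rw [hXχ, hX1 _ hφ, ← conj_classInner, hCperp _ hφ, map_zero,
        hortho _ (hS₁ hφ) _ hχ (hne1 _ hφ).1]
    · rw [hXc, hX1 _ hφ, ← conj_classInner, hC'perp _ hφ, map_zero,
        hortho _ (hS₁ hφ) _ hχc (hne1 _ hφ).2]
    · rw [hX1 _ hφ, hX1 _ hψ, h1iso _ (hmem₁ _ hφ) _ (hmem₁ _ hψ)]
  have hXg : ∀ φ ∈ F, IsGeneralizedCharacter G (X φ) := by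
    intro φ hφ
    simp only [hF, Finset.mem_insert] at hφ
    rcases hφ with rfl | rfl | hφ
    · rw [hXχ]; exact hgenC c
    · rw [hXc]; exact hgenC fun α => c α - 1
    · rw [hX1 _ hφ]; exact h1gen _ (hmem₁ _ hφ)
  refine ⟨⟨χ - conjFun χ, ?_, sub_ne_zero.mpr (hS.conj_ne χ hχ).symm⟩, ext' F X, ?_, ?_⟩
  · exact ⟨Submodule.sub_mem _ (Submodule.subset_span (Or.inr (Set.mem_insert _ _)))
      (Submodule.subset_span (Or.inr (Set.mem_insert_of_mem _ rfl))), (hdiffc χ hχ).2⟩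
  · rw [hset]
    exact isometry_ext' hFo hFn X hXiso hXg
  -- agreement with `τ`
  have hS₁F : ∀ φ ∈ S₁, φ ∈ F := fun φ h => Finset.mem_insert_of_mem (Finset.mem_insert_of_mem h)
  have hτ₁0 : τ₁ 0 = 0 := by
    have := h1smul _ (hmem₁ χ₁ hχ₁S) 0
    rwa [zero_smul, zero_smul] at this
  have hon₁ : ∀ g ∈ zspan (↑S₁ : Set (L → ℂ)), ext' F X g = τ₁ g := by
    intro g hg
    induction hg using Submodule.span_induction with
    | mem φ hφ => rw [ext'_apply hFo hFn X (hS₁F φ hφ), hX1 φ hφ]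
    | zero => rw [ext'_zero, hτ₁0]
    | add f g hf hg i1 i2 => rw [ext'_add, h1add f hf g hg, i1, i2]
    | smul m f hf i1 => rw [ext'_zsmul, h1smul f hf, i1]
  rintro f ⟨hf, hf0⟩
  have hf' : f ∈ Submodule.span ℤ (↑S₁ : Set (L → ℂ)) ⊔ Submodule.span ℤ {χ, conjFun χ} := by
    rw [← Submodule.span_union]; exact hf
  obtain ⟨f₁, hf₁, p, hp, rfl⟩ := Submodule.mem_sup.mp hf'
  obtain ⟨i, j, rfl⟩ := Submodule.mem_span_pair.mp hp
  set g := f₁ + ((i + j) * (a : ℤ)) • χ₁ with hg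
  have hgmem : g ∈ zspan (↑S₁ : Set (L → ℂ)) :=
    Submodule.add_mem _ hf₁ (Submodule.smul_mem _ _ (hmem₁ χ₁ hχ₁S))
  have hdecomp : f₁ + (i • χ + j • conjFun χ) = g + ((i + j) • β + (-j) • (χ - conjFun χ)) := by
    rw [hg, hβ]; simp only [← Int.cast_smul_eq_zsmul ℂ]; funext x
    simp only [Pi.add_apply, Pi.sub_apply, Pi.smul_apply, smul_eq_mul]
    push_cast
    ring
  have hrest : (i + j) • β + (-j) • (χ - conjFun χ) ∈ zspanOn S {1}ᶜ :=
    ⟨Submodule.add_mem _ (Submodule.smul_mem _ _ hβmem.1) (Submodule.smul_mem _ _ (hdiffc χ hχ).1),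
      fun x hx => by rw [Pi.add_apply, Pi.smul_apply, Pi.smul_apply, hβmem.2 x hx,
        (hdiffc χ hχ).2 x hx, smul_zero, smul_zero, add_zero]⟩
  have hgon : g ∈ zspanOn (↑S₁ : Set (L → ℂ)) {1}ᶜ := ⟨hgmem, fun x hx => by
    have h := hf0 x hx
    rw [hdecomp, Pi.add_apply, hrest.2 x hx, add_zero] at h
    exact h⟩
  have hgS : g ∈ zspanOn S {1}ᶜ := ⟨Submodule.span_mono hS₁ hgon.1, hgon.2⟩
  have hzs : ∀ (m : ℤ) (h : L → ℂ), h ∈ zspanOn S {1}ᶜ → m • h ∈ zspanOn S {1}ᶜ := fun m h hh =>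
    ⟨Submodule.smul_mem _ _ hh.1, fun x hx => by rw [Pi.smul_apply, hh.2 x hx, smul_zero]⟩
  have hlhs : ext' F X (f₁ + (i • χ + j • conjFun χ)) = τ₁ f₁ + (i • C + j • C') := by
    rw [ext'_add, ext'_add, ext'_zsmul, ext'_zsmul, hon₁ f₁ hf₁,
      ext'_apply hFo hFn X (φ := χ) (Finset.mem_insert_self _ _),
      ext'_apply hFo hFn X (φ := conjFun χ) (Finset.mem_insert_of_mem (Finset.mem_insert_self _ _)),
      hXχ, hXc]
  rw [hlhs, hdecomp, hadd _ hgS _ hrest, hadd _ (hzs _ _ hβmem) _ (hzs _ _ (hdiffc χ hχ)),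
    hsmul _ hβmem, hsmul _ (hdiffc χ hχ), hS.sum_eq χ hχ, ← hagree g hgon, hg,
    h1add _ hf₁ _ (Submodule.smul_mem _ _ (hmem₁ χ₁ hχ₁S)), h1smul _ (hmem₁ χ₁ hχ₁S), ← hY, hC'eq]
  have hYeq : Y = C - (a : ℂ) • τ₁ χ₁ := by
    rw [eq_sub_iff_add_eq, ← sub_eq_zero, ← hW0, hW]; abel
  rw [hYeq]
  simp only [← Int.cast_smul_eq_zsmul ℂ]
  push_cast
  module

end Cfsg.Agent.S1516
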