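import Cfsg.Statements.S1517
import Cfsg.Agent.Lib.Characters.Coherence.Defs

set_option autoImplicit false
open Cfsg

namespace Cfsg.Agent.S1517

open Cfsg Cfsg.Lib.Characters
open scoped ComplexConjugate

universe u v

variable {L : Type u} [Group L] [Fintype L] {G : Type v} [Group G] [Fintype G]

theorem sq_sum_bound {ι : Type*} (s : Finset ι) (c : ι → ℤ) :
    (∑ i ∈ s, c i ≤ ∑ i ∈ s, c i ^ 2) ∧
      (∑ i ∈ s, c i ^ 2 = ∑ i ∈ s, c i → ∀ i ∈ s, c i = 0 ∨ c i = 1) := by
  have h : ∀ i ∈ s, c i ≤ c i ^ 2 := fun i _ => Int.le_self_sq _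
  refine ⟨Finset.sum_le_sum h, fun he i hi => ?_⟩
  have h1 : c i = c i ^ 2 := ((Finset.sum_eq_sum_iff_of_le h).mp he.symm) i hi
  rcases eq_or_ne (c i) 0 with h0 | h0
  · exact Or.inl h0
  · exact Or.inr (mul_right_cancel₀ h0 (show c i * c i = 1 * c i by rw [one_mul, ← sq, ← h1]))

/-- The part of a virtual character in the span of an orthonormal set of virtual characters. -/
theorem ortho_part {s : Finset (G → ℂ)} (hs : ∀ α ∈ s, IsGeneralizedCharacter G α)
    (ho : ∀ α ∈ s, ∀ β ∈ s, α ≠ β → classInner α β = 0) (hn : ∀ α ∈ s, classInner α α = 1)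
    {D : G → ℂ} (hD : IsGeneralizedCharacter G D) (c : (G → ℂ) → ℤ)
    (hc : ∀ α ∈ s, classInner D α = c α) :
    IsGeneralizedCharacter G (D - ∑ α ∈ s, (c α : ℂ) • α) ∧
      classInner (D - ∑ α ∈ s, (c α : ℂ) • α) (D - ∑ α ∈ s, (c α : ℂ) • α) =
        classInner D D - ((∑ α ∈ s, c α ^ 2 : ℤ) : ℂ) := by
  classical
  have hsum : IsGeneralizedCharacter G (∑ α ∈ s, (c α : ℂ) • α) := by
    refine Finset.sum_induction _ _ (fun _ _ => isGeneralized_add) ?_ fun α hα => ?_
    · exact isGeneralized_of_isCharacter isCharacter_zero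
    · exact isGeneralized_zsmul (hs α hα) _
  refine ⟨isGeneralized_sub hD hsum, ?_⟩
  set P := ∑ α ∈ s, (c α : ℂ) • α with hP
  have h1 : classInner D P = ((∑ α ∈ s, c α ^ 2 : ℤ) : ℂ) := by
    rw [hP, classInner_sum_right, Int.cast_sum]
    refine Finset.sum_congr rfl fun α hα => ?_
    rw [classInner_smul_right, hc α hα, map_intCast, Int.cast_pow, sq]
  have h2 : classInner P D = ((∑ α ∈ s, c α ^ 2 : ℤ) : ℂ) := by
    rw [← conj_classInner, h1, map_intCast]
  have h3 : classInner P P = ((∑ α ∈ s, c α ^ 2 : ℤ) : ℂ) := by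
    nth_rewrite 1 [hP]
    rw [classInner_sum_left, Int.cast_sum]
    refine Finset.sum_congr rfl fun α hα => ?_
    rw [hP, classInner_smul_left, classInner_sum_right, Finset.sum_eq_single α]
    · rw [classInner_smul_right, hn α hα, map_intCast, Int.cast_pow, mul_one, sq]
    · intro β hβ hne
      rw [classInner_smul_right, ho α hα β hβ hne.symm, mul_zero]
    · exact fun h => absurd hα h
  rw [classInner_sub_left, classInner_sub_right, classInner_sub_right, h1, h2, h3]
  ring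

/-- Let (S, τ, R) be a coherence system from L to G such that φ 1 = ψ 1 for all φ, ψ ∈ S. Then (S, L minus 1, τ) is coherent. -/
theorem result {L : Type*} [Group L] [Fintype L] {G : Type*} [Group G] [Fintype G] (S : Set (L → ℂ)) (τ : (L → ℂ) → (G → ℂ)) (R : (L → ℂ) → Finset (G → ℂ)) (hS : Cfsg.IsCoherenceSystem S τ R) (hdeg : ∀ φ ∈ S, ∀ ψ ∈ S, φ 1 = ψ 1) : Cfsg.IsCoherent S {1}ᶜ τ := by
  classical
  obtain ⟨χ, hχ⟩ := hS.nonempty
  obtain ⟨hadd, hsmul, hiso, hgen⟩ := hS.isometry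
  have hne0 : ∀ φ ∈ S, φ ≠ 0 := fun φ hφ h => hS.conj_ne φ hφ (by
    subst h; funext x; simp [conjFun])
  have hnn : ∀ φ ∈ S, classInner φ φ ≠ 0 := fun φ hφ h => hne0 φ hφ (classInner_self_eq_zero h)
  -- finiteness
  have hfin : S.Finite := by
    have hlin : LinearIndependent ℂ (fun φ : S => (φ : L → ℂ)) := by
      rw [linearIndependent_iff']
      intro s c hc φ hφ
      have := congrArg (fun f => classInner f (φ : L → ℂ)) hc
      simp only [classInner_sum_left, classInner_smul_left, classInner_zero_left] at this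
      rw [Finset.sum_eq_single φ] at this
      · exact (mul_eq_zero.mp this).resolve_right (hnn _ φ.2)
      · intro b _ hb
        rw [hS.orthogonal _ b.2 _ φ.2 fun h => hb (Subtype.ext h), mul_zero]
      · exact fun h => absurd hφ h
    exact Set.finite_coe_iff.mp hlin.finite
  let Sf := hfin.toFinset
  have hmem : ∀ φ, φ ∈ Sf ↔ φ ∈ S := fun φ => hfin.mem_toFinset
  have hspan : ∀ φ ∈ S, φ ∈ zspan S := fun φ hφ => Submodule.subset_span hφ
  have hdiff : ∀ φ ∈ S, ∀ ψ ∈ S, φ - ψ ∈ zspanOn S {1}ᶜ := by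
    intro φ hφ ψ hψ
    refine ⟨Submodule.sub_mem _ (hspan φ hφ) (hspan ψ hψ), fun x hx => ?_⟩
    rw [show x = 1 by simpa using hx, Pi.sub_apply, hdeg φ hφ ψ hψ, sub_self]
  have hconj : ∀ φ ∈ S, conjFun φ ∈ S := hS.conj_mem
  -- the norm of a member
  choose! nn hnn' using fun φ (hφ : φ ∈ S) => classInner_nat (hS.isCharacter φ hφ) (hS.isCharacter φ hφ)
  have hnc : ∀ φ ∈ S, classInner (conjFun φ) (conjFun φ) = nn φ := by
    intro φ hφ
    have := congrArg conj (hnn' φ hφ)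
    rw [map_natCast] at this
    rw [← this]
    simp [classInner, conjFun, map_sum]
  have hR : ∀ φ ∈ S, classInner (∑ α ∈ R φ, α) (∑ α ∈ R φ, α) = ((R φ).card : ℂ) := by
    intro φ hφ
    rw [classInner_sum_left, Finset.sum_congr rfl fun α hα => by
      rw [classInner_sum_right, Finset.sum_congr rfl fun β hβ => hS.orthonormal φ hφ α hα β hβ,
        Finset.sum_ite_eq, if_pos hα]]
    simp
  have hRcard : ∀ φ ∈ S, (R φ).card = 2 * nn φ := by
    intro φ hφ
    have h := hiso _ (hdiff φ hφ _ (hconj φ hφ)) _ (hdiff φ hφ _ (hconj φ hφ))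
    rw [hS.sum_eq φ hφ, hR φ hφ, classInner_sub_left, classInner_sub_right, classInner_sub_right,
      hS.orthogonal φ hφ _ (hconj φ hφ) (hS.conj_ne φ hφ).symm,
      hS.orthogonal _ (hconj φ hφ) φ hφ (hS.conj_ne φ hφ), hnn' φ hφ, hnc φ hφ] at h
    have : ((R φ).card : ℂ) = ((2 * nn φ : ℕ) : ℂ) := by rw [h]; push_cast; ring
    exact_mod_cast this
  have hinner : ∀ φ ∈ S, ∀ ψ ∈ S, φ ≠ ψ → classInner φ ψ = 0 := hS.orthogonal
  -- the coefficients on `R φ`
  let D : (L → ℂ) → (G → ℂ) := fun φ => τ (χ - φ)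
  have hDgen : ∀ φ ∈ S, IsGeneralizedCharacter G (D φ) := fun φ hφ => hgen _ (hdiff χ hχ φ hφ)
  let cf : (L → ℂ) → (G → ℂ) → ℤ := fun φ α =>
    if h : ∃ k : ℤ, classInner (D φ) α = k then h.choose else 0
  have hcf : ∀ φ ∈ S, ∀ ψ ∈ S, ∀ α ∈ R ψ, classInner (D φ) α = cf φ α := by
    intro φ hφ ψ hψ α hα
    have h := classInner_int (hDgen φ hφ) (hS.virtual ψ hψ α hα)
    simp only [cf, dif_pos h]
    exact h.choose_spec
  have hother : ∀ φ, φ ∈ S → φ ≠ χ → φ ≠ conjFun χ → ∀ α ∈ R φ, ∀ β ∈ R χ,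
      classInner α β = 0 := fun φ hφ h1 h2 =>
    hS.disjoint χ hχ φ hφ (hinner φ hφ χ hχ h1) (hinner φ hφ _ (hconj χ hχ) h2)
  -- structure of the difference maps
  have hstruct : ∀ φ ∈ S, φ ≠ χ → φ ≠ conjFun χ →
      (∑ α ∈ R χ, cf φ α = nn χ) ∧ (∑ α ∈ R χ, cf φ α ^ 2 = nn χ) ∧
      ∃ B : (G → ℂ) → ℂ, D φ = ∑ α ∈ R χ, (cf φ α : ℂ) • α + ∑ β ∈ R φ, B β • β := by
    intro φ hφ h1 h2
    have h3 : χ ≠ conjFun φ := fun h => h2 (by rw [h]; funext x; simp [conjFun])
    have hsum1 : (∑ α ∈ R χ, cf φ α : ℤ) = (nn χ : ℤ) := by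
      have h := hiso _ (hdiff χ hχ φ hφ) _ (hdiff χ hχ _ (hconj χ hχ))
      rw [hS.sum_eq χ hχ, classInner_sum_right, Finset.sum_congr rfl fun α hα => hcf φ hφ χ hχ α hα,
        classInner_sub_left, classInner_sub_right, classInner_sub_right, hnn' χ hχ,
        hinner χ hχ _ (hconj χ hχ) (hS.conj_ne χ hχ).symm, hinner φ hφ χ hχ h1,
        hinner φ hφ _ (hconj χ hχ) h2] at h
      simp only [sub_zero] at h
      exact_mod_cast h
    have hsum2 : (∑ β ∈ R φ, -cf φ β : ℤ) = (nn φ : ℤ) := by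
      have h := hiso _ (hdiff χ hχ φ hφ) _ (hdiff φ hφ _ (hconj φ hφ))
      rw [hS.sum_eq φ hφ, classInner_sum_right, Finset.sum_congr rfl fun α hα => hcf φ hφ φ hφ α hα,
        classInner_sub_left, classInner_sub_right, classInner_sub_right, hnn' φ hφ,
        hinner χ hχ φ hφ (Ne.symm h1), hinner χ hχ _ (hconj φ hφ) h3,
        hinner φ hφ _ (hconj φ hφ) (hS.conj_ne φ hφ).symm] at h
      simp only [sub_zero, zero_sub] at h
      rw [Finset.sum_neg_distrib, neg_eq_iff_eq_neg]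
      exact_mod_cast h
    have hnorm : classInner (D φ) (D φ) = ((nn χ + nn φ : ℤ) : ℂ) := by
      rw [hiso _ (hdiff χ hχ φ hφ) _ (hdiff χ hχ φ hφ), classInner_sub_left, classInner_sub_right,
        classInner_sub_right, hnn' χ hχ, hnn' φ hφ, hinner χ hχ φ hφ (Ne.symm h1),
        hinner φ hφ χ hχ h1]
      push_cast
      ring
    have hdisj : Disjoint (R χ) (R φ) := by
      rw [Finset.disjoint_left]
      intro α hα hα'
      have := hother φ hφ h1 h2 α hα' α hα
      rw [hS.orthonormal χ hχ α hα α hα, if_pos rfl] at this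
      exact one_ne_zero this
    obtain ⟨hZ, hZn⟩ := ortho_part (s := R χ ∪ R φ)
      (fun α hα => (Finset.mem_union.mp hα).elim (hS.virtual χ hχ α) (hS.virtual φ hφ α))
      (fun α hα β hβ hne => by
        rcases Finset.mem_union.mp hα with ha | ha <;> rcases Finset.mem_union.mp hβ with hb | hb
        · rw [hS.orthonormal χ hχ α ha β hb, if_neg hne]
        · rw [← conj_classInner, hother φ hφ h1 h2 β hb α ha, map_zero]
        · exact hother φ hφ h1 h2 α ha β hb
        · rw [hS.orthonormal φ hφ α ha β hb, if_neg hne])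
      (fun α hα => by
        rcases Finset.mem_union.mp hα with ha | ha
        · rw [hS.orthonormal χ hχ α ha α ha, if_pos rfl]
        · rw [hS.orthonormal φ hφ α ha α ha, if_pos rfl])
      (hDgen φ hφ) (cf φ) (fun α hα => (Finset.mem_union.mp hα).elim
        (hcf φ hφ χ hχ α) (hcf φ hφ φ hφ α))
    obtain ⟨k, hk, hk0⟩ := Coherence.gen_norm_nonneg hZ
    rw [hZn, hnorm, Finset.sum_union hdisj, ← Int.cast_sub] at hk
    have hk' : (nn χ + nn φ : ℤ) - (∑ α ∈ R χ, cf φ α ^ 2 + ∑ β ∈ R φ, cf φ β ^ 2) = k := by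
      exact_mod_cast hk
    have hb1 := (sq_sum_bound (R χ) (cf φ)).1
    have hb2 := (sq_sum_bound (R φ) fun β => -cf φ β).1
    simp only [neg_sq] at hb2
    have hk00 : k = 0 := by omega
    refine ⟨hsum1, by omega, fun β => (cf φ β : ℂ), ?_⟩
    have := hk0 hk00
    rw [Finset.sum_union hdisj, sub_eq_zero] at this
    exact this
  have hindep : ∀ φ φ', φ ∈ S → φ' ∈ S → φ ≠ χ → φ ≠ conjFun χ → φ' ≠ χ → φ' ≠ conjFun χ →
      ∀ α ∈ R χ, cf φ α = cf φ' α := by
    intro φ φ' hφ hφ' a1 a2 b1 b2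
    by_cases heq : φ' = φ
    · subst heq; exact fun α _ => rfl
    by_cases hc : φ' = conjFun φ
    · subst hc
      intro α hα
      have h1 : D (conjFun φ) = D φ + ∑ β ∈ R φ, β := by
        rw [← hS.sum_eq φ hφ]
        show τ (χ - conjFun φ) = τ (χ - φ) + τ (φ - conjFun φ)
        rw [← hadd _ (hdiff χ hχ φ hφ) _ (hdiff φ hφ _ (hconj φ hφ)), sub_add_sub_cancel]
      have h2 := hcf _ hφ' χ hχ α hα
      rw [h1, classInner_add_left, hcf φ hφ χ hχ α hα, classInner_sum_left,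
        Finset.sum_eq_zero fun β hβ => hother φ hφ a1 a2 β hβ α hα, add_zero] at h2
      exact_mod_cast h2
    obtain ⟨s1, q1, B, hB⟩ := hstruct φ hφ a1 a2
    obtain ⟨s2, q2, B', hB'⟩ := hstruct φ' hφ' b1 b2
    have hcross : classInner (D φ') (D φ) = ((∑ α ∈ R χ, cf φ α * cf φ' α : ℤ) : ℂ) := by
      conv_lhs => arg 2; rw [hB]
      rw [classInner_add_right, classInner_sum_right, classInner_sum_right]
      have hz : ∀ β ∈ R φ, classInner (D φ') (B β • β) = 0 := by
        intro β hβ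
        rw [classInner_smul_right, hB', classInner_add_left, classInner_sum_left, classInner_sum_left,
          Finset.sum_eq_zero, Finset.sum_eq_zero, add_zero, mul_zero]
        · intro β' hβ'
          rw [classInner_smul_left, hS.disjoint φ hφ φ' hφ' (hinner φ' hφ' φ hφ heq)
            (hinner φ' hφ' _ (hconj φ hφ) hc) β' hβ' β hβ, mul_zero]
        · intro α hα
          rw [classInner_smul_left, ← conj_classInner, hother φ hφ a1 a2 β hβ α hα, map_zero,
            mul_zero]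
      rw [Finset.sum_eq_zero hz, add_zero, Int.cast_sum]
      refine Finset.sum_congr rfl fun α hα => ?_
      rw [classInner_smul_right, hcf φ' hφ' χ hχ α hα, map_intCast, Int.cast_mul]
    rw [hiso _ (hdiff χ hχ φ' hφ') _ (hdiff χ hχ φ hφ), classInner_sub_left, classInner_sub_right,
      classInner_sub_right, hnn' χ hχ, hinner χ hχ φ hφ (Ne.symm a1), hinner φ' hφ' χ hχ b1,
      hinner φ' hφ' φ hφ heq] at hcross
    simp only [sub_zero] at hcross
    have hcr : (∑ α ∈ R χ, cf φ α * cf φ' α : ℤ) = (nn χ : ℤ) := by exact_mod_cast hcross.symm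
    have hzero : ∑ α ∈ R χ, (cf φ α - cf φ' α) ^ 2 = 0 := by
      simp only [sub_sq, Finset.sum_add_distrib, Finset.sum_sub_distrib, mul_assoc,
        ← Finset.mul_sum, q1, q2, hcr]
      ring
    intro α hα
    exact sub_eq_zero.mp (pow_eq_zero_iff two_ne_zero |>.mp
      ((Finset.sum_eq_zero_iff_of_nonneg fun i _ => sq_nonneg _).mp hzero α hα))
  -- the common part
  obtain ⟨c, hc, hc2, hcφ⟩ : ∃ c : (G → ℂ) → ℤ, (∑ α ∈ R χ, c α = nn χ) ∧
      (∑ α ∈ R χ, c α ^ 2 = nn χ) ∧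
      ∀ φ ∈ S, φ ≠ χ → φ ≠ conjFun χ → ∀ α ∈ R χ, c α = cf φ α := by
    by_cases h : ∃ φ ∈ S, φ ≠ χ ∧ φ ≠ conjFun χ
    · obtain ⟨φ₀, h0, a1, a2⟩ := h
      obtain ⟨s1, q1, -⟩ := hstruct φ₀ h0 a1 a2
      exact ⟨cf φ₀, s1, q1, fun φ hφ b1 b2 => hindep φ₀ φ h0 hφ a1 a2 b1 b2⟩
    · obtain ⟨t, ht, htc⟩ := Finset.exists_subset_card_eq
        (show nn χ ≤ (R χ).card by rw [hRcard χ hχ]; omega)
      refine ⟨fun α => if α ∈ t then 1 else 0, ?_, ?_, fun φ hφ b1 b2 => absurd ⟨φ, hφ, b1, b2⟩ h⟩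
      · rw [Finset.sum_boole, Finset.filter_mem_eq_inter, Finset.inter_eq_right.mpr ht, htc]
      · simp only [ite_pow, one_pow, ne_eq, OfNat.ofNat_ne_zero, not_false_eq_true, zero_pow]
        rw [Finset.sum_boole, Finset.filter_mem_eq_inter, Finset.inter_eq_right.mpr ht, htc]
  set A : G → ℂ := ∑ α ∈ R χ, (c α : ℂ) • α with hA
  have hAgen : IsGeneralizedCharacter G A := by
    refine Finset.sum_induction _ _ (fun _ _ => isGeneralized_add) ?_ fun α hα => ?_
    · exact isGeneralized_of_isCharacter isCharacter_zero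
    · exact isGeneralized_zsmul (hS.virtual χ hχ α hα) _
  have hAα : ∀ α ∈ R χ, classInner A α = c α := by
    intro α hα
    rw [hA, classInner_sum_left, Finset.sum_eq_single α]
    · rw [classInner_smul_left, hS.orthonormal χ hχ α hα α hα, if_pos rfl, mul_one]
    · intro β hβ hne
      rw [classInner_smul_left, hS.orthonormal χ hχ β hβ α hα, if_neg hne, mul_zero]
    · exact fun h => absurd hα h
  have hAA : classInner A A = (nn χ : ℂ) := by
    nth_rewrite 2 [hA]
    rw [classInner_sum_right, Finset.sum_congr rfl fun α hα => by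
      rw [classInner_smul_right, hAα α hα, map_intCast, ← Int.cast_mul, ← sq], ← Int.cast_sum, hc2,
      Int.cast_natCast]
  have hD0 : D χ = 0 := by
    show τ (χ - χ) = 0
    have := hsmul _ (hdiff χ hχ χ hχ) 0
    rwa [zero_smul, zero_smul, ← sub_self χ] at this
  have hDA : ∀ φ ∈ S, classInner (D φ) A = if φ = χ then 0 else (nn χ : ℂ) := by
    intro φ hφ
    split_ifs with h
    · rw [h, hD0, classInner_zero_left]
    rw [hA, classInner_sum_right]
    by_cases h2 : φ = conjFun χ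
    · subst h2
      rw [Finset.sum_congr rfl fun α hα => by
        rw [classInner_smul_right, show D (conjFun χ) = _ from hS.sum_eq χ hχ, classInner_sum_left,
          Finset.sum_eq_single α (fun β hβ hne => by
            rw [hS.orthonormal χ hχ β hβ α hα, if_neg hne]) (fun h => absurd hα h),
          hS.orthonormal χ hχ α hα α hα, if_pos rfl, mul_one, map_intCast], ← Int.cast_sum, hc,
        Int.cast_natCast]
    · rw [Finset.sum_congr rfl fun α hα => by
        rw [classInner_smul_right, hcf φ hφ χ hχ α hα, ← hcφ φ hφ h h2 α hα, map_intCast,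
          ← Int.cast_mul, ← sq], ← Int.cast_sum, hc2, Int.cast_natCast]
  have hX : ∀ φ ∈ S, ∀ ψ ∈ S, classInner (A - D φ) (A - D ψ) = classInner φ ψ := by
    intro φ hφ ψ hψ
    have hAD : classInner A (D ψ) = if ψ = χ then 0 else (nn χ : ℂ) := by
      rw [← conj_classInner, hDA ψ hψ]
      split_ifs <;> simp
    rw [classInner_sub_left, classInner_sub_right, classInner_sub_right, hAA, hAD, hDA φ hφ,
      hiso _ (hdiff χ hχ φ hφ) _ (hdiff χ hχ ψ hψ), classInner_sub_left, classInner_sub_right,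
      classInner_sub_right, hnn' χ hχ]
    split_ifs with h1 h2 h2
    · rw [h1, h2, hnn' χ hχ]; ring
    · rw [h1, hinner φ hφ χ hχ h2, hnn' χ hχ]; ring
    · rw [h2, hnn' χ hχ, hinner χ hχ ψ hψ (Ne.symm h1)]; ring
    · rw [hinner χ hχ ψ hψ (Ne.symm h1), hinner φ hφ χ hχ h2]; ring
  -- the extension
  let co : (L → ℂ) → (L → ℂ) → ℂ := fun f φ => classInner f φ / classInner φ φ
  let τ₁ : (L → ℂ) → (G → ℂ) := fun f => ∑ φ ∈ Sf, co f φ • (A - D φ)
  have hrepr : ∀ f ∈ zspan S, ∃ a : (L → ℂ) → ℤ, f = ∑ φ ∈ Sf, (a φ : ℂ) • φ ∧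
      ∀ φ ∈ Sf, co f φ = a φ := by
    intro f hf
    have hf' : f ∈ Submodule.span ℤ ((Sf : Finset (L → ℂ)) : Set (L → ℂ)) := by
      rw [hfin.coe_toFinset]; exact hf
    obtain ⟨a, -, ha⟩ := Submodule.mem_span_finset.mp hf'
    have ha' : f = ∑ φ ∈ Sf, (a φ : ℂ) • φ := by
      rw [← ha]
      exact Finset.sum_congr rfl fun φ _ => (Int.cast_smul_eq_zsmul ℂ _ _).symm
    refine ⟨a, ha', fun φ hφ => ?_⟩
    show classInner f φ / classInner φ φ = _
    rw [div_eq_iff (hnn φ ((hmem φ).mp hφ)), ha', classInner_sum_left, Finset.sum_eq_single φ]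
    · rw [classInner_smul_left]
    · intro ψ hψ hne
      rw [classInner_smul_left, hinner ψ ((hmem ψ).mp hψ) φ ((hmem φ).mp hφ) hne, mul_zero]
    · exact fun h => absurd hφ h
  refine ⟨⟨χ - conjFun χ, hdiff χ hχ _ (hconj χ hχ),
    sub_ne_zero.mpr (hS.conj_ne χ hχ).symm⟩, τ₁, ⟨?_, ?_, ?_, ?_⟩, ?_⟩
  · intro f _ g _
    simp only [τ₁, co, classInner_add_left, add_div, add_smul, Finset.sum_add_distrib]
  · intro f _ n
    simp only [τ₁, co]
    rw [← Int.cast_smul_eq_zsmul ℂ n f, ← Int.cast_smul_eq_zsmul ℂ n (Finset.sum _ _),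
      Finset.smul_sum]
    refine Finset.sum_congr rfl fun φ _ => ?_
    rw [classInner_smul_left, mul_div_assoc, smul_smul]
  · intro f hf g hg
    obtain ⟨a, ha, hca⟩ := hrepr f hf
    obtain ⟨b, hb, hcb⟩ := hrepr g hg
    simp only [τ₁]
    rw [Finset.sum_congr rfl fun φ hφ => by rw [hca φ hφ],
      show (∑ φ ∈ Sf, co g φ • (A - D φ)) = ∑ φ ∈ Sf, (b φ : ℂ) • (A - D φ) from
        Finset.sum_congr rfl fun φ hφ => by rw [hcb φ hφ], ha, hb]
    simp only [classInner_sum_left, classInner_sum_right, classInner_smul_left, classInner_smul_right]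
    exact Finset.sum_congr rfl fun φ hφ => congrArg _ (Finset.sum_congr rfl fun ψ hψ => by
      rw [hX ψ ((hmem ψ).mp hψ) φ ((hmem φ).mp hφ)])
  · intro f hf
    obtain ⟨a, ha, hca⟩ := hrepr f hf
    refine Finset.sum_induction _ _ (fun _ _ => isGeneralized_add) ?_ fun φ hφ => ?_
    · exact isGeneralized_of_isCharacter isCharacter_zero
    · rw [hca φ hφ]
      exact isGeneralized_zsmul (isGeneralized_sub hAgen (hDgen φ ((hmem φ).mp hφ))) _
  · rintro f ⟨hf, hf0⟩
    obtain ⟨a, ha, hca⟩ := hrepr f hf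
    have hsum0 : (∑ φ ∈ Sf, (a φ : ℂ)) = 0 := by
      have h := hf0 1 (by simp)
      rw [ha, Finset.sum_apply] at h
      simp only [Pi.smul_apply, smul_eq_mul] at h
      rw [Finset.sum_congr rfl fun φ hφ => by rw [hdeg φ ((hmem φ).mp hφ) χ hχ],
        ← Finset.sum_mul] at h
      exact (mul_eq_zero.mp h).resolve_right fun h0 =>
        hne0 χ hχ (char_eq_zero_of_degree_zero (hS.isCharacter χ hχ) h0)
    have h1 : τ₁ f = -∑ φ ∈ Sf, (a φ : ℂ) • D φ := by
      simp only [τ₁]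
      rw [Finset.sum_congr rfl fun φ hφ => by rw [hca φ hφ, smul_sub], Finset.sum_sub_distrib,
        ← Finset.sum_smul, hsum0, zero_smul, zero_sub]
    have h2 : f = ∑ φ ∈ Sf, (-a φ : ℤ) • (χ - φ) := by
      conv_lhs => rw [ha]
      simp only [← Int.cast_smul_eq_zsmul ℂ, Int.cast_neg, neg_smul, smul_sub,
        Finset.sum_neg_distrib, Finset.sum_sub_distrib, ← Finset.sum_smul, hsum0, zero_smul,
        zero_sub, neg_neg]
      simp
    have hzsmul : ∀ (t : Finset (L → ℂ)), t ⊆ Sf →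
        (∑ φ ∈ t, (-a φ : ℤ) • (χ - φ)) ∈ zspanOn S {1}ᶜ ∧
        τ (∑ φ ∈ t, (-a φ : ℤ) • (χ - φ)) = ∑ φ ∈ t, (-a φ : ℤ) • D φ := by
      intro t
      induction t using Finset.induction with
      | empty =>
        intro _
        refine ⟨⟨Submodule.zero_mem _, fun _ _ => rfl⟩, ?_⟩
        simp only [Finset.sum_empty]
        have := hsmul _ (hdiff χ hχ χ hχ) 0
        rwa [zero_smul, zero_smul] at this
      | insert φ t hφt ih =>
        intro hsub
        obtain ⟨hφ, hsub'⟩ := Finset.insert_subset_iff.mp hsub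
        obtain ⟨hm, he⟩ := ih hsub'
        have hd := hdiff χ hχ φ ((hmem φ).mp hφ)
        have hd' : (-a φ : ℤ) • (χ - φ) ∈ zspanOn S {1}ᶜ :=
          ⟨Submodule.smul_mem _ _ hd.1, fun x hx => by rw [Pi.smul_apply, hd.2 x hx, smul_zero]⟩
        rw [Finset.sum_insert hφt, Finset.sum_insert hφt]
        refine ⟨⟨Submodule.add_mem _ hd'.1 hm.1, fun x hx => by
          rw [Pi.add_apply, hd'.2 x hx, hm.2 x hx, add_zero]⟩, ?_⟩
        rw [hadd _ hd' _ hm, he, hsmul _ hd]
    rw [h1]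
    conv_rhs => rw [h2, (hzsmul Sf subset_rfl).2]
    simp only [← Int.cast_smul_eq_zsmul ℂ, Int.cast_neg, neg_smul, Finset.sum_neg_distrib]

end Cfsg.Agent.S1517
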