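import Cfsg.Statements.S1518
import Mathlib
import Cfsg.Agent.Lib.Characters.Dade
-- import your own Cfsg.Agent.* helpers here

set_option autoImplicit false
open Cfsg

namespace Cfsg.Agent.S1518

/-- Under the Dade hypothesis for (A, L, H): if χ is an irreducible character of L vanishing at every non-identity element of L outside A, then the Dade image of χ − conj χ equals μ − conj μ for some irreducible character μ of G. -/
theorem result {G : Type*} [Group G] [Fintype G] (A : Set G) (L : Subgroup G) [Fintype L] (H : G → Subgroup G) (hD : Cfsg.DadeHypothesis A L H) (χ : L → ℂ) (hχ : Cfsg.IsIrrCharacter L χ) (hsupp : ∀ x : L, x ≠ 1 → (x : G) ∉ A → χ x = 0) : ∃ μ : G → ℂ, Cfsg.IsIrrCharacter G μ ∧ Cfsg.dadeIsometry A L H (χ - Cfsg.conjFun χ) = μ - Cfsg.conjFun μ := by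
  classical
  have hconj : ∀ α : L → ℂ, Cfsg.conjFun (Cfsg.dadeIsometry A L H α) =
      Cfsg.dadeIsometry A L H (Cfsg.conjFun α) := by
    intro α; funext g; unfold Cfsg.dadeIsometry Cfsg.conjFun; dsimp only; split_ifs <;> simp
  have hneg : ∀ α : L → ℂ, Cfsg.dadeIsometry A L H (-α) = -Cfsg.dadeIsometry A L H α := by
    intro α; funext g; unfold Cfsg.dadeIsometry; simp only [Pi.neg_apply]; split_ifs <;> simp
  by_cases hreal : Cfsg.conjFun χ = χ
  · refine ⟨fun _ => 1, Cfsg.Lib.Characters.isIrrCharacter_one, ?_⟩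
    funext g
    unfold Cfsg.dadeIsometry
    simp [hreal, Cfsg.conjFun]
  have hχ' : Cfsg.IsIrrCharacter L (Cfsg.conjFun χ) := Cfsg.Lib.Characters.isIrrCharacter_conj hχ
  set α := χ - Cfsg.conjFun χ
  have hαg : Cfsg.IsGeneralizedCharacter L α := ⟨χ, Cfsg.conjFun χ, hχ.isCharacter, hχ'.isCharacter, rfl⟩
  have hαA : ∀ x : L, (x : G) ∉ A → α x = 0 := by
    intro x hx
    by_cases h1 : x = 1
    · subst h1
      obtain ⟨n, hn⟩ := Cfsg.Lib.Characters.exists_degree hχ.isCharacter
      simp [α, Cfsg.conjFun, hn]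
    · simp [α, Cfsg.conjFun, hsupp x h1 hx]
  have hα := Cfsg.Lib.Characters.isGeneralized_isClassFunction hαg
  refine Cfsg.Lib.Characters.exists_sub_conj_of_norm_two
    (Cfsg.Lib.Characters.dade_isGeneralized hD hαg hαA) (Cfsg.Lib.Characters.dade_apply_one hD α) ?_ ?_
  · rw [Cfsg.Lib.Characters.classInner_dade_dade hD hα hαA hα]
    simp only [α]
    rw [Cfsg.Lib.Characters.classInner_irr_sub_sub hχ hχ' hχ hχ']
    simp [hreal, Ne.symm hreal]
    norm_num
  · rw [hconj, ← hneg]
    congr 1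
    funext x
    simp [α, Cfsg.conjFun]

end Cfsg.Agent.S1518
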