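import Cfsg.Statements.S1520
import Cfsg.Agent.Lib.Characters.CoherenceStep
-- import your own Cfsg.Agent.* helpers here

set_option autoImplicit false
open Cfsg

namespace Cfsg.Agent.S1520

/-- Let K be a solvable normal subgroup of the finite group L and (S, τ, R) a coherence system from L to G with S the functions induced from non-principal irreducible characters of K; S(A) the members of S induced from characters whose kernel contains A. Let M ≤ H₁ ≤ H ≤ K be normal subgroups of L such that every term of the lower central series of H eventually lies in M (H/M nilpotent), S(H₁) is coherent and [H:H₁] > 4 * [L:K]^2 + 1. Then S(M) is coherent. -/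
theorem result {L : Type*} [Group L] [Fintype L] {G : Type*} [Group G] [Fintype G] (K : Subgroup L) [hK : K.Normal] (hsolv : Group.IsSolvable K) (τ : (L → ℂ) → (G → ℂ)) (R : (L → ℂ) → Finset (G → ℂ)) (hS : Cfsg.IsCoherenceSystem (Cfsg.inducedIrrAbove K ⊥) τ R) (M H₁ H : Subgroup L) [M.Normal] [H₁.Normal] [H.Normal] (hMH₁ : M ≤ H₁) (hH₁H : H₁ ≤ H) (hHK : H ≤ K) [(M.subgroupOf H).Normal] (hnil : Group.IsNilpotent (↥H ⧸ M.subgroupOf H)) (hcoh : Cfsg.IsCoherent (Cfsg.inducedIrrAbove K H₁) {1}ᶜ τ) (hbig : 4 * K.index ^ 2 + 1 < H₁.relIndex H) : Cfsg.IsCoherent (Cfsg.inducedIrrAbove K M) {1}ᶜ τ := by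
  classical
  have hH : H₁ < H := lt_of_le_of_ne hH₁H fun h => by
    rw [h, Subgroup.relIndex_self] at hbig
    omega
  -- a least term with coherence
  let P : Subgroup L → Prop := fun B => B.Normal ∧ M ≤ B ∧ B ≤ H₁ ∧
    Cfsg.IsCoherent (Cfsg.inducedIrrAbove K B) {1}ᶜ τ
  obtain ⟨B, hBmin⟩ := (Set.toFinite {B | P B}).exists_minimal ⟨H₁, inferInstance, hMH₁, le_rfl, hcoh⟩
  obtain ⟨hBn, hMB, hBH₁, hBcoh⟩ : P B := hBmin.1
  by_contra hcon
  have hMB' : M < B := lt_of_le_of_ne hMB fun h => hcon (by subst h; exact hBcoh)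
  let Q : Subgroup L → Prop := fun A => A.Normal ∧ M ≤ A ∧ A < B
  obtain ⟨A, hAmax⟩ := (Set.toFinite {A | Q A}).exists_maximal ⟨M, inferInstance, le_rfl, hMB'⟩
  obtain ⟨hAn, hMA, hAB⟩ : Q A := hAmax.1
  haveI := hBn
  haveI := hAn
  haveI : H.Normal := inferInstance
  have hBH : B ≤ H := hBH₁.trans hH₁H
  have hcomm : ⁅B, H⁆ ≤ A := by
    have hn : (⁅B, H⁆ ⊔ A).Normal := inferInstance
    have hle : ⁅B, H⁆ ⊔ A ≤ B := sup_le (Subgroup.commutator_le_left B H) hAB.le
    rcases hle.lt_or_eq with hlt | heq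
    · exact le_sup_left.trans (hAmax.2 ⟨hn, hMA.trans le_sup_right, hlt⟩ le_sup_right)
    · exfalso
      -- inside the nilpotent section
      let B' : Subgroup H := B.subgroupOf H
      let A' : Subgroup H := A.subgroupOf H
      haveI : A'.Normal := inferInstance
      haveI : B'.Normal := inferInstance
      have hB' : ⁅B', (⊤ : Subgroup H)⁆ ⊔ A' = B' := by
        refine Subgroup.map_injective H.subtype_injective ?_
        rw [Subgroup.map_sup, Subgroup.map_commutator, ← MonoidHom.range_eq_map,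
          Subgroup.range_subtype, Subgroup.map_subgroupOf_eq_of_le hBH,
          Subgroup.map_subgroupOf_eq_of_le (hAB.le.trans hBH)]
        exact heq
      haveI : Group.IsNilpotent (↥H ⧸ A') :=
        Group.nilpotent_of_surjective
          (QuotientGroup.map (M.subgroupOf H) A' (MonoidHom.id H) (fun x hx => hMA hx))
          (fun q => by obtain ⟨x, rfl⟩ := QuotientGroup.mk'_surjective A' q; exact ⟨QuotientGroup.mk x, rfl⟩)
      let b : Subgroup (↥H ⧸ A') := B'.map (QuotientGroup.mk' A')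
      have hb : ⁅b, (⊤ : Subgroup (↥H ⧸ A'))⁆ = b := by
        have h := congrArg (Subgroup.map (QuotientGroup.mk' A')) hB'
        rwa [Subgroup.map_sup, Subgroup.map_commutator,
          Subgroup.map_top_of_surjective _ (QuotientGroup.mk'_surjective A'),
          QuotientGroup.map_mk'_self, sup_bot_eq] at h
      have hγ : ∀ n, b ≤ Subgroup.lowerCentralSeries ⊤ n := by
        intro n
        induction n with
        | zero => simp
        | succ n ih =>
          rw [← hb, Subgroup.lowerCentralSeries_succ]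
          exact Subgroup.commutator_mono ih le_rfl
      obtain ⟨n, hn'⟩ := nilpotent_iff_lowerCentralSeries.mp (inferInstance : Group.IsNilpotent (↥H ⧸ A'))
      have hb0 : b ≤ ⊥ := hn' ▸ hγ n
      rw [Subgroup.map_le_iff_le_comap, MonoidHom.comap_bot, QuotientGroup.ker_mk'] at hb0
      exact hAB.not_ge fun x hx => hb0 (show (⟨x, hBH hx⟩ : H) ∈ B' from hx)
  have hKH : H ≤ K := hHK
  have hBK : B < K := lt_of_le_of_lt hBH₁ (lt_of_lt_of_le hH hHK)
  have hrel : H₁.relIndex H ≤ B.relIndex H := by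
    rw [← Subgroup.relIndex_mul_relIndex B H₁ H hBH₁ hH₁H]
    exact Nat.le_mul_of_pos_left _ (Nat.pos_of_ne_zero Subgroup.index_ne_zero_of_finite)
  have hstep := Cfsg.Lib.Characters.CoherenceStep.step K hsolv τ R hS B A H B hBK
    (hAB.trans hBK) hAB.le hBH hHK
    (fun x hx y hy => hcomm (Subgroup.commutator_mem_commutator hx hy)) hBcoh (by
      rw [← Subgroup.relIndex_mul_relIndex B H K hBH hHK, ← Subgroup.relIndex_mul_index hHK]
      have hf : 1 ≤ H.relIndex K := Nat.pos_of_ne_zero Subgroup.index_ne_zero_of_finite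
      have hx : 4 * K.index ^ 2 + 2 ≤ B.relIndex H := by omega
      generalize H.relIndex K = f at hf ⊢
      generalize K.index = e at hx ⊢
      generalize B.relIndex H = x at hx ⊢
      obtain ⟨y, rfl⟩ : ∃ y, x = 4 * e ^ 2 + 2 + y := ⟨x - (4 * e ^ 2 + 2), by omega⟩
      obtain ⟨g, rfl⟩ : ∃ g, f = 1 + g := ⟨f - 1, by omega⟩
      have h1 : (4 * e ^ 2 + 2 + y) * (1 + g) - 1 = (4 * e ^ 2 + 1 + y) * (1 + g) + g := by
        refine Nat.sub_eq_of_eq_add ?_
        ring
      rw [h1]
      refine lt_of_lt_of_le ?_ (Nat.pow_le_pow_left (Nat.le_add_right _ g) 2)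
      have h2 : 0 < (1 + g) ^ 2 := by positivity
      have h3 : 4 * e ^ 2 * (4 * e ^ 2 + 2 + y) < (4 * e ^ 2 + 1 + y) ^ 2 := by nlinarith
      calc 4 * ((1 + g) * e) ^ 2 * (4 * e ^ 2 + 2 + y)
          = (1 + g) ^ 2 * (4 * e ^ 2 * (4 * e ^ 2 + 2 + y)) := by ring
        _ < (1 + g) ^ 2 * (4 * e ^ 2 + 1 + y) ^ 2 := Nat.mul_lt_mul_of_pos_left h3 h2
        _ = ((4 * e ^ 2 + 1 + y) * (1 + g)) ^ 2 := by ring)
  exact hAB.not_ge (hBmin.2 ⟨hAn, hMA, hAB.le.trans hBH₁, hstep⟩ hAB.le)

end Cfsg.Agent.S1520
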