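import Cfsg.Statements.S1521
import Cfsg.Agent.S1517
import Cfsg.Agent.S1520
import Cfsg.Agent.Lib.Characters.CoherenceStep
-- import your own Cfsg.Agent.* helpers here

set_option autoImplicit false
open Cfsg

namespace Cfsg.Agent.S1521

open scoped commutatorElement
open Cfsg.Lib.Characters Cfsg.Lib.Characters.Coherence Cfsg.Lib.Characters.CoherenceStep

universe u v

/-- A normal subgroup supplementing the derived subgroup of a nilpotent group is everything. -/
theorem normal_eq_top {X : Type u} [Group X] (hnil : Group.IsNilpotent X) (N : Subgroup X) [N.Normal]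
    (h : N ⊔ commutator X = ⊤) : N = ⊤ := by
  let f := QuotientGroup.mk' N
  have h1 : commutator (X ⧸ N) = ⊤ := by
    have h2 := congrArg (Subgroup.map f) h
    rwa [Subgroup.map_sup, QuotientGroup.map_mk'_self, bot_sup_eq, commutator_def,
      Subgroup.map_commutator, Subgroup.map_top_of_surjective _ (QuotientGroup.mk'_surjective N)] at h2
  haveI : Group.IsNilpotent (X ⧸ N) :=
    Group.nilpotent_of_surjective f (QuotientGroup.mk'_surjective N)
  by_contra hne
  haveI : Nontrivial (X ⧸ N) := QuotientGroup.nontrivial_iff.mpr hne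
  haveI : Group.IsSolvable (X ⧸ N) := IsNilpotent.to_isSolvable
  exact (Group.IsSolvable.commutator_lt_top_of_nontrivial (G := X ⧸ N)).ne h1

/-- A subgroup supplementing the derived subgroup of a finite nilpotent group is everything. -/
theorem eq_top {X : Type u} [Group X] [Finite X] (hnil : Group.IsNilpotent X) (S : Subgroup X)
    (h : S ⊔ commutator X = ⊤) : S = ⊤ := by
  by_contra hne
  obtain ⟨C, hC, hSC⟩ := (eq_top_or_exists_le_coatom S).resolve_left hne
  haveI : C.Normal :=
    Subgroup.NormalizerCondition.normal_of_coatom C Group.normalizerCondition_of_isNilpotent hC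
  exact hC.1 (normal_eq_top hnil C (top_le_iff.mp (h ▸ sup_le_sup_right hSC _)))

theorem eq_two_mul_add {e x : ℕ} (he : Odd e) (hx : Odd x) (h1 : 1 < x) (hmod : x ≡ 1 [MOD e]) :
    2 * e + 1 ≤ x := by
  obtain ⟨m, hm⟩ : e ∣ x - 1 := (Nat.modEq_iff_dvd' h1.le).mp hmod.symm
  have hx' : x = e * m + 1 := by omega
  obtain ⟨a, ha⟩ := hx
  obtain ⟨b, hb⟩ := he
  rcases Nat.even_or_odd m with ⟨c, hc⟩ | ⟨c, hc⟩
  · subst hc hb
    rcases Nat.eq_zero_or_pos c with rfl | hc0
    · simp at hm; omega
    · nlinarith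
  · subst hc hb
    exfalso
    have : 2 * a + 1 = 2 * (2 * b * c + b + c + 1) := by rw [← ha, hx']; ring
    omega

variable {L : Type u} [Group L] [Fintype L]

/-- In a Frobenius section the order of every normal piece is one modulo the index. -/
theorem relIndex_modEq (K H₁ N : Subgroup L) [K.Normal] [H₁.Normal] [N.Normal] (hNK : N ≤ K)
    (hH₁N : H₁ ≤ N) (hcomm : ⁅K, K⁆ ≤ H₁)
    (hfrob : ∀ k ∈ K, k ∉ H₁ → ∀ x : L, x * k * x⁻¹ * k⁻¹ ∈ H₁ → x ∈ K) :
    H₁.relIndex N ≡ 1 [MOD K.index] := by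
  classical
  let π := QuotientGroup.mk' H₁
  let N' : Subgroup (L ⧸ H₁) := N.map π
  haveI : N'.Normal := Subgroup.Normal.map inferInstance π (QuotientGroup.mk'_surjective H₁)
  have hcardN : Nat.card N' = H₁.relIndex N := by
    rw [show N' = N.map π from rfl, ← Subgroup.relIndex_ker N π, QuotientGroup.ker_mk']
  letI : MulAction L N' := MulAction.compHom N' ((MulAut.conjNormal (H := N')).comp π)
  have hsm : ∀ (x : L) (n : N'), ((x • n : N') : L ⧸ H₁) = π x * n * (π x)⁻¹ := fun x n => rfl
  have hone : ∀ x : L, x • (1 : N') = 1 := fun x => Subtype.ext (by rw [hsm]; simp)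
  have hstab : ∀ n : N', n ≠ 1 → MulAction.stabilizer L n = K := by
    rintro ⟨_, k, hk, rfl⟩ hne
    have hk1 : k ∉ H₁ := fun h => hne (Subtype.ext ((QuotientGroup.eq_one_iff k).mpr h))
    have hiff : ∀ x : L, x • (⟨π k, k, hk, rfl⟩ : N') = ⟨π k, k, hk, rfl⟩ ↔ x * k * x⁻¹ * k⁻¹ ∈ H₁ := by
      intro x
      rw [Subtype.ext_iff, hsm, ← mul_inv_eq_one, ← map_inv, ← map_mul, ← map_mul, ← map_inv, ← map_mul]
      exact QuotientGroup.eq_one_iff _
    ext x
    rw [MulAction.mem_stabilizer_iff, hiff]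
    exact ⟨hfrob k (hNK hk) hk1 x, fun hx => hcomm (Subgroup.commutator_mem_commutator hx (hNK hk))⟩
  haveI := Fintype.ofFinite N'
  have horb : ∀ n : N', n ≠ 1 → Nat.card (MulAction.orbit L n) = K.index := fun n hn => by
    rw [Nat.card_coe_set_eq, ← MulAction.index_stabilizer, hstab n hn]
  have h := Nat.card_congr (MulAction.selfEquivSigmaOrbits L N')
  haveI := Fintype.ofFinite (MulAction.orbitRel.Quotient L N')
  rw [Nat.card_sigma, ← Finset.add_sum_erase _ _ (Finset.mem_univ
    (Quotient.mk'' (1 : N') : MulAction.orbitRel.Quotient L N'))] at h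
  rw [← hcardN, h, Nat.ModEq]
  have hfst : Nat.card (MulAction.orbit L (Quotient.out
      (Quotient.mk'' (1 : N') : MulAction.orbitRel.Quotient L N'))) = 1 := by
    have ho : Quotient.out (Quotient.mk'' (1 : N') : MulAction.orbitRel.Quotient L N') = 1 := by
      obtain ⟨x, hx⟩ := (Quotient.mk_out (1 : N') : MulAction.orbitRel L N' _ _)
      exact hx.symm.trans (hone x)
    rw [ho, Nat.card_eq_one_iff_exists]
    refine ⟨⟨1, MulAction.mem_orbit_self _⟩, fun y => Subtype.ext ?_⟩
    obtain ⟨x, hx⟩ := y.2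
    exact hx.symm.trans (hone x)
  have hrest : K.index ∣ ∑ ω ∈ (Finset.univ : Finset (MulAction.orbitRel.Quotient L N')).erase
      (Quotient.mk'' (1 : N')), Nat.card (MulAction.orbit L (Quotient.out ω)) := by
    refine Finset.dvd_sum fun ω hω => ?_
    rw [horb]
    intro h1
    refine (Finset.mem_erase.mp hω).1 ?_
    rw [← h1]
    exact (Quotient.out_eq' ω).symm
  obtain ⟨c, hc⟩ := hrest
  rw [hfst, hc, Nat.add_mul_mod_self_left]

/-- Let K be a solvable normal subgroup of the finite group L of odd order and (S, τ, R) a coherence system from L to G with S the functions induced from non-principal irreducible characters of K; S(A) as before. Let M ≤ K be normal in L with K/M nilpotent, H₁ = [K, K] ⊔ M, H₁ < K < L, and suppose every element of K outside H₁ is centralised modulo H₁ only from inside K (L/H₁ is a Frobenius group with kernel K/H₁). Suppose one of the following: some normal subgroup of L lies strictly between H₁ and K; or [K:H₁] > 4[L:K]^2 + 1; or [K:M] is not a prime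 power; or [K,K] ≤ M; or [K:M] is a power of a prime p with [L:K] dividing p − 1. Then S(M) is coherent. -/
theorem result {L : Type*} [Group L] [Fintype L] {G : Type*} [Group G] [Fintype G] (K : Subgroup L) [hK : K.Normal] (hsolv : Group.IsSolvable K) (τ : (L → ℂ) → (G → ℂ)) (R : (L → ℂ) → Finset (G → ℂ)) (hS : Cfsg.IsCoherenceSystem (Cfsg.inducedIrrAbove K ⊥) τ R) (hodd : Odd (Nat.card L)) (M : Subgroup L) [M.Normal] (hMK : M ≤ K) [(M.subgroupOf K).Normal] (hnil : Group.IsNilpotent (↥K ⧸ M.subgroupOf K)) (H₁ : Subgroup L) (hH₁ : H₁ = ⁅K, K⁆ ⊔ M) (hH₁K : H₁ < K) (hKL : K < ⊤) (hfrob : ∀ k ∈ K, k ∉ H₁ → ∀ x : L, x * k * x⁻¹ * k⁻¹ ∈ H₁ → x ∈ K) (hgood : (∃ N : Subgroup L, N.Normal ∧ H₁ < N ∧ N < K) ∨ 4 * K.index ^ 2 + 1 < H₁.relIndex K ∨ (¬ ∃ p m : ℕ, p.Prime ∧ M.relIndex K = p ^ m) ∨ ⁅K, K⁆ ≤ M ∨ (∃ p m : ℕ, p.Prime ∧ M.relIndex K = p ^ m ∧ K.index ∣ p - 1)) : Cfsg.IsCoherent (Cfsg.inducedIrrAbove K M) {1}ᶜ τ := by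
  classical
  haveI : H₁.Normal := by rw [hH₁]; infer_instance
  have hcomm : ⁅K, K⁆ ≤ H₁ := by rw [hH₁]; exact le_sup_left
  have hMH₁ : M ≤ H₁ := by rw [hH₁]; exact le_sup_right
  -- coherence above the derived subgroup
  have hdeg : ∀ φ ∈ Cfsg.inducedIrrAbove K H₁, φ 1 = (K.index : ℂ) := by
    haveI := Fintype.ofFinite K
    rintro φ ⟨θ, hθ, -, hθt, rfl⟩
    obtain ⟨ψ, -, hirr, hψ⟩ := exists_of_quotient (N := H₁.subgroupOf K) hθ.isCharacter
      (fun a ha => hθt a ha)
    haveI : IsMulCommutative (↥K ⧸ H₁.subgroupOf K) := ⟨⟨fun a b => by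
      induction a using QuotientGroup.induction_on with
      | _ a =>
        induction b using QuotientGroup.induction_on with
        | _ b =>
          rw [← QuotientGroup.mk_mul, ← QuotientGroup.mk_mul, QuotientGroup.eq]
          have h := hcomm (Subgroup.commutator_mem_commutator (K.inv_mem b.2) (K.inv_mem a.2))
          rw [Subgroup.mem_subgroupOf]
          simpa [commutatorElement_def, mul_assoc] using h⟩⟩
    rw [indFun_one_apply, ← hψ 1, QuotientGroup.mk_one, degree_one_of_isMulCommutative (hirr hθ), mul_one]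
  have hlinear : ∀ A : Subgroup L, A.Normal → A < K → ∃ φ, φ ∈ Cfsg.inducedIrrAbove K A := by
    intro A hA hAK
    obtain ⟨θ, hθ, hθn, hθt, -⟩ := exists_linear hsolv (A.subgroupOf K)
      (fun h => hAK.not_ge (Subgroup.subgroupOf_eq_top.mp h))
    exact ⟨_, θ, hθ, hθn, fun a ha => hθt a ha, rfl⟩
  have hcoh : Cfsg.IsCoherent (Cfsg.inducedIrrAbove K H₁) {1}ᶜ τ := by
    have hsub : Cfsg.inducedIrrAbove K H₁ ⊆ Cfsg.inducedIrrAbove K ⊥ := fun φ h => mem_bot_family h
    have hz : Cfsg.zspanOn (Cfsg.inducedIrrAbove K H₁) {1}ᶜ ⊆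
        Cfsg.zspanOn (Cfsg.inducedIrrAbove K ⊥) {1}ᶜ := fun a ha =>
      ⟨SetLike.coe_subset_coe.mpr (Submodule.span_mono hsub) ha.1, ha.2⟩
    refine Cfsg.Agent.S1517.result _ τ R ⟨hlinear H₁ inferInstance hH₁K, fun χ h => hS.isCharacter χ (hsub h),
      fun χ h => conj_mem_family h, fun χ h => hS.conj_ne χ (hsub h), ?_,
      fun a ha => hS.map_one a (hz ha), fun χ h φ h' => hS.orthogonal χ (hsub h) φ (hsub h'),
      fun χ h => hS.orthonormal χ (hsub h), fun χ h => hS.virtual χ (hsub h),
      fun χ h => hS.sum_eq χ (hsub h), fun χ h φ h' => hS.disjoint χ (hsub h) φ (hsub h')⟩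
      (fun φ h ψ h' => by rw [hdeg φ h, hdeg ψ h'])
    obtain ⟨i1, i2, i3, i4⟩ := hS.isometry
    exact ⟨fun a ha b hb => i1 a (hz ha) b (hz hb), fun a ha n => i2 a (hz ha) n,
      fun a ha b hb => i3 a (hz ha) b (hz hb), fun a ha => i4 a (hz ha)⟩
  -- the large case
  have big : 4 * K.index ^ 2 + 1 < H₁.relIndex K →
      Cfsg.IsCoherent (Cfsg.inducedIrrAbove K M) {1}ᶜ τ := fun h =>
    Cfsg.Agent.S1520.result K hsolv τ R hS M H₁ K hMH₁ hH₁K.le le_rfl hnil hcoh h
  -- pieces of the abelian section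
  have hodd' : ∀ A B : Subgroup L, A ≤ B → Odd (A.relIndex B) := fun A B hAB =>
    hodd.of_dvd_nat ((Subgroup.relIndex_dvd_card A B).trans B.card_subgroup_dvd_card)
  have he : Odd K.index := hodd.of_dvd_nat K.index_dvd_card
  have hN : ∀ N : Subgroup L, N.Normal → H₁ < N → N < K →
      Cfsg.IsCoherent (Cfsg.inducedIrrAbove K M) {1}ᶜ τ := by
    intro N hNn h1 h2
    haveI := hNn
    apply big
    have m1 := relIndex_modEq K H₁ N h2.le h1.le hcomm hfrob
    have m2 := relIndex_modEq K H₁ K le_rfl hH₁K.le hcomm hfrob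
    have hprod := Subgroup.relIndex_mul_relIndex H₁ N K h1.le h2.le
    have m3 : N.relIndex K ≡ 1 [MOD K.index] := by
      have := (m1.mul_right (N.relIndex K)).symm
      rw [one_mul, hprod] at this
      exact this.trans m2
    have one_lt : ∀ A B : Subgroup L, A < B → 1 < A.relIndex B := fun A B h =>
      lt_of_le_of_ne (Nat.pos_of_ne_zero Subgroup.index_ne_zero_of_finite)
        (fun h' => h.not_ge (Subgroup.relIndex_eq_one.mp h'.symm))
    have x1 := eq_two_mul_add he (hodd' H₁ N h1.le) (one_lt _ _ h1) m1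
    have x2 := eq_two_mul_add he (hodd' N K h2.le) (one_lt _ _ h2) m3
    have hp := Nat.mul_le_mul x1 x2
    rw [hprod] at hp
    have hpos : 0 < K.index := Nat.pos_of_ne_zero K.index_ne_zero_of_finite
    nlinarith
  -- the nilpotent section
  let Q := ↥K ⧸ M.subgroupOf K
  have hcase : ∀ k ∈ K, Subgroup.zpowers k ⊔ H₁ = K → ⁅K, K⁆ ≤ M := by
    intro k hk hgen
    let q : Q := QuotientGroup.mk ⟨k, hk⟩
    have hq : Subgroup.zpowers q ⊔ commutator Q = ⊤ := by
      have h1 : (Subgroup.zpowers (⟨k, hk⟩ : K)) ⊔ (⁅(⊤ : Subgroup K), ⊤⁆ ⊔ M.subgroupOf K) = ⊤ := by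
        refine Subgroup.map_injective K.subtype_injective ?_
        rw [Subgroup.map_sup, Subgroup.map_sup, MonoidHom.map_zpowers, Subgroup.map_commutator,
          ← MonoidHom.range_eq_map, Subgroup.range_subtype, Subgroup.map_subgroupOf_eq_of_le hMK,
          ← hH₁]
        exact hgen
      have h2 := congrArg (Subgroup.map (QuotientGroup.mk' (M.subgroupOf K))) h1
      rwa [Subgroup.map_sup, Subgroup.map_sup, MonoidHom.map_zpowers, Subgroup.map_commutator,
        Subgroup.map_top_of_surjective _ (QuotientGroup.mk'_surjective _),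
        QuotientGroup.map_mk'_self, sup_bot_eq] at h2
    have htop := eq_top hnil _ hq
    refine Subgroup.commutator_le.mpr fun a ha b hb => ?_
    obtain ⟨i, hi⟩ := Subgroup.mem_zpowers_iff.mp (htop ▸ Subgroup.mem_top (QuotientGroup.mk ⟨a, ha⟩ : Q))
    obtain ⟨j, hj⟩ := Subgroup.mem_zpowers_iff.mp (htop ▸ Subgroup.mem_top (QuotientGroup.mk ⟨b, hb⟩ : Q))
    have h0 : (QuotientGroup.mk (⁅(⟨a, ha⟩ : K), ⟨b, hb⟩⁆) : Q) = 1 := by
      rw [← QuotientGroup.mk'_apply, map_commutatorElement, QuotientGroup.mk'_apply,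
        QuotientGroup.mk'_apply, ← hi, ← hj, commutatorElement_eq_one_iff_commute]
      exact (Commute.refl q).zpow_zpow i j
    exact Subgroup.mem_subgroupOf.mp ((QuotientGroup.eq_one_iff _).mp h0)
  have habelian : ⁅K, K⁆ ≤ M → Cfsg.IsCoherent (Cfsg.inducedIrrAbove K M) {1}ᶜ τ := fun h => by
    have : M = H₁ := by rw [hH₁, sup_of_le_right h]
    exact this ▸ hcoh
  have hx1 : 1 < H₁.relIndex K := lt_of_le_of_ne (Nat.pos_of_ne_zero Subgroup.index_ne_zero_of_finite)
    (fun h' => hH₁K.not_ge (Subgroup.relIndex_eq_one.mp h'.symm))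
  rcases hgood with ⟨N, h1, h2, h3⟩ | h | h | h | ⟨p, m, hp, hm, hdvd⟩
  · exact hN N h1 h2 h3
  · exact big h
  · -- two primes
    obtain ⟨p, hp, hpd⟩ := Nat.exists_prime_and_dvd hx1.ne'
    haveI := Fact.mk hp
    set x := H₁.relIndex K with hx
    set a := x.factorization p
    by_cases hall : x = p ^ a
    · exfalso
      obtain ⟨P⟩ : Nonempty (Sylow p Q) := inferInstance
      haveI : Group.IsNilpotent Q := hnil
      haveI : (P : Subgroup Q).Normal := Sylow.normal_of_normalizerCondition Group.normalizerCondition_of_isNilpotent P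
      have hP : (P : Subgroup Q) = ⊤ := by
        refine normal_eq_top hnil _ (Subgroup.index_eq_one.mp (Nat.eq_one_of_dvd_coprimes ?_
          (Subgroup.index_dvd_of_le le_sup_left) (Subgroup.index_dvd_of_le le_sup_right)))
        have hci : (commutator Q).index = x := by
          have hc : commutator Q = (H₁.subgroupOf K).map (QuotientGroup.mk' (M.subgroupOf K)) := by
            have h1 : H₁.subgroupOf K = ⁅(⊤ : Subgroup K), ⊤⁆ ⊔ M.subgroupOf K := by
              refine Subgroup.map_injective K.subtype_injective ?_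
              rw [Subgroup.map_sup, Subgroup.map_commutator, ← MonoidHom.range_eq_map,
                Subgroup.range_subtype, Subgroup.map_subgroupOf_eq_of_le hMK,
                Subgroup.map_subgroupOf_eq_of_le hH₁K.le, hH₁]
            rw [h1, Subgroup.map_sup, Subgroup.map_commutator, QuotientGroup.map_mk'_self, sup_bot_eq,
              Subgroup.map_top_of_surjective _ (QuotientGroup.mk'_surjective _)]
            rfl
          rw [hc, Subgroup.index_map_eq _ (QuotientGroup.mk'_surjective _) (by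
            rw [QuotientGroup.ker_mk']; exact fun y hy => hMH₁ hy)]
          rfl
        rw [hci, hall]
        exact (hp.coprime_iff_not_dvd.mpr P.not_dvd_index).symm.pow_right a
      obtain ⟨m, hm⟩ := P.isPGroup'.exists_card_eq
      refine h ⟨p, m, hp, ?_⟩
      rw [hP, Subgroup.card_top] at hm
      exact hm
    · -- the primary part
      let N : Subgroup L :=
        { carrier := {k | k ∈ K ∧ k ^ p ^ a ∈ H₁}
          one_mem' := ⟨one_mem _, by rw [one_pow]; exact one_mem _⟩
          mul_mem' := fun {b c} hb hc => ⟨mul_mem hb.1 hc.1, by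
            have hbc : Commute (QuotientGroup.mk b : L ⧸ H₁) (QuotientGroup.mk c) := by
              rw [← commutatorElement_eq_one_iff_commute, ← QuotientGroup.mk'_apply,
                ← QuotientGroup.mk'_apply, ← map_commutatorElement, QuotientGroup.mk'_apply,
                QuotientGroup.eq_one_iff]
              exact hcomm (Subgroup.commutator_mem_commutator hb.1 hc.1)
            rw [← QuotientGroup.eq_one_iff, QuotientGroup.mk_pow, QuotientGroup.mk_mul, hbc.mul_pow,
              ← QuotientGroup.mk_pow, ← QuotientGroup.mk_pow, (QuotientGroup.eq_one_iff _).mpr hb.2,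
              (QuotientGroup.eq_one_iff _).mpr hc.2, one_mul]⟩
          inv_mem' := fun {b} hb => ⟨inv_mem hb.1, by rw [inv_pow]; exact inv_mem hb.2⟩ }
      have hNn : N.Normal := ⟨fun n hn g => ⟨Subgroup.Normal.conj_mem inferInstance n hn.1 g, by
        rw [conj_pow]
        exact Subgroup.Normal.conj_mem inferInstance _ hn.2 g⟩⟩
      have hcardQ : Nat.card (↥K ⧸ H₁.subgroupOf K) = x := rfl
      refine hN N hNn ⟨fun k hk => ⟨hH₁K.le hk, pow_mem hk _⟩, fun hle => ?_⟩ ⟨fun k hk => hk.1, fun hle => ?_⟩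
      · obtain ⟨y, hy⟩ := exists_prime_orderOf_dvd_card' (G := ↥K ⧸ H₁.subgroupOf K) p (hcardQ ▸ hpd)
        induction y using QuotientGroup.induction_on with
        | _ y =>
          have ha1 : 1 ≤ a := hp.factorization_pos_of_dvd (by omega) hpd
          have hy' : (y : L) ^ p ^ a ∈ H₁ := by
            have h0 : (QuotientGroup.mk (y ^ p ^ a) : ↥K ⧸ H₁.subgroupOf K) = 1 := by
              rw [QuotientGroup.mk_pow, ← orderOf_dvd_iff_pow_eq_one, hy]
              exact dvd_pow_self p (by omega)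
            exact Subgroup.mem_subgroupOf.mp ((QuotientGroup.eq_one_iff _).mp h0)
          have h0 : (QuotientGroup.mk y : ↥K ⧸ H₁.subgroupOf K) = 1 :=
            (QuotientGroup.eq_one_iff _).mpr (hle ⟨y.2, hy'⟩)
          rw [h0, orderOf_one] at hy
          exact hp.ne_one hy.symm
      · -- another prime
        have hcop := Nat.ordProj_dvd x p
        obtain ⟨q, hq, hqd⟩ := Nat.exists_prime_and_dvd (n := x / p ^ a) (fun h1 => hall (by
          rw [← Nat.div_mul_cancel hcop, h1, one_mul]))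
        have hqp : q ≠ p := fun h' => Nat.not_dvd_ordCompl hp (by omega) (h' ▸ hqd)
        haveI := Fact.mk hq
        obtain ⟨y, hy⟩ := exists_prime_orderOf_dvd_card' (G := ↥K ⧸ H₁.subgroupOf K) q
          (hcardQ ▸ hqd.trans (Nat.div_dvd_of_dvd hcop))
        induction y using QuotientGroup.induction_on with
        | _ y =>
          have h0 : (QuotientGroup.mk (y ^ p ^ a) : ↥K ⧸ H₁.subgroupOf K) = 1 :=
            (QuotientGroup.eq_one_iff _).mpr (hle y.2).2
          rw [QuotientGroup.mk_pow, ← orderOf_dvd_iff_pow_eq_one, hy] at h0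
          exact hqp ((Nat.prime_dvd_prime_iff_eq hq hp).mp (hq.dvd_of_dvd_pow h0))
  · exact habelian h
  · -- the prime congruent to one
    obtain ⟨a, -, ha⟩ := (Nat.dvd_prime_pow hp).mp
      (hm ▸ Subgroup.relIndex_dvd_of_le_left K hMH₁ : H₁.relIndex K ∣ p ^ m)
    have ha0 : a ≠ 0 := by rintro rfl; rw [pow_zero] at ha; omega
    rcases eq_or_ne a 1 with rfl | ha1
    · apply habelian
      obtain ⟨k, hk, hk1⟩ := SetLike.exists_of_lt hH₁K
      refine hcase k hk ?_
      haveI := Fact.mk hp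
      have hle : Subgroup.zpowers k ⊔ H₁ ≤ K := sup_le (Subgroup.zpowers_le.mpr hk) hH₁K.le
      have hd : H₁.relIndex (Subgroup.zpowers k ⊔ H₁) * (Subgroup.zpowers k ⊔ H₁).relIndex K = p := by
        rw [Subgroup.relIndex_mul_relIndex _ _ _ le_sup_right hle, ha, pow_one]
      rcases hp.eq_one_or_self_of_dvd _ ⟨_, hd.symm⟩ with h' | h'
      · exact absurd ((Subgroup.relIndex_eq_one.mp h') (Subgroup.mem_sup_left (Subgroup.mem_zpowers k))) hk1
      · rw [h'] at hd
        exact le_antisymm hle (Subgroup.relIndex_eq_one.mp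
          (Nat.eq_of_mul_eq_mul_left hp.pos (by rw [hd, mul_one])))
    · apply big
      have hpx : p ∣ H₁.relIndex K := ha ▸ dvd_pow_self p ha0
      have hpo : Odd p := (hodd' H₁ K hH₁K.le).of_dvd_nat hpx
      have hpe := eq_two_mul_add he hpo hp.one_lt
        ((Nat.modEq_iff_dvd' hp.one_lt.le).mpr hdvd).symm
      have : p ^ 2 ≤ H₁.relIndex K := ha ▸ Nat.pow_le_pow_right hp.pos (by omega)
      have hpos : 0 < K.index := Nat.pos_of_ne_zero K.index_ne_zero_of_finite
      nlinarith

end Cfsg.Agent.S1521
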