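import Cfsg.Statements.S1522
import Cfsg.Agent.S1521
import Cfsg.Agent.Lib.Characters.CoherenceStep
-- import your own Cfsg.Agent.* helpers here

set_option autoImplicit false
open Cfsg

namespace Cfsg.Agent.S1522

open Cfsg.Lib.Characters Cfsg.Lib.Characters.Coherence Cfsg.Lib.Characters.CoherenceStep
open scoped ComplexConjugate

universe u v

variable {L : Type u} [Group L] [Fintype L] {G : Type v} [Group G] [Fintype G]

/-- A coherence system restricts to conjugation-closed subsets. -/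
theorem system_subset {S X : Set (L → ℂ)} {τ : (L → ℂ) → (G → ℂ)} {R : (L → ℂ) → Finset (G → ℂ)}
    (hS : IsCoherenceSystem S τ R) (hsub : X ⊆ S) (hne : X.Nonempty)
    (hc : ∀ χ ∈ X, conjFun χ ∈ X) : IsCoherenceSystem X τ R := by
  have hz : zspanOn X {1}ᶜ ⊆ zspanOn S {1}ᶜ := fun a ha =>
    ⟨SetLike.coe_subset_coe.mpr (Submodule.span_mono hsub) ha.1, ha.2⟩
  obtain ⟨i1, i2, i3, i4⟩ := hS.isometry
  exact ⟨hne, fun χ h => hS.isCharacter χ (hsub h), hc, fun χ h => hS.conj_ne χ (hsub h),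
    ⟨fun a ha b hb => i1 a (hz ha) b (hz hb), fun a ha n => i2 a (hz ha) n,
      fun a ha b hb => i3 a (hz ha) b (hz hb), fun a ha => i4 a (hz ha)⟩,
    fun a ha => hS.map_one a (hz ha), fun χ h φ h' => hS.orthogonal χ (hsub h) φ (hsub h'),
    fun χ h => hS.orthonormal χ (hsub h), fun χ h => hS.virtual χ (hsub h),
    fun χ h => hS.sum_eq χ (hsub h), fun χ h φ h' => hS.disjoint χ (hsub h) φ (hsub h')⟩

/-- An induced character trivial at a point of the normal subgroup comes from a character trivial there. -/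
theorem triv_of_ind {K : Subgroup L} [K.Normal] {θ : K → ℂ} (hθ : IsCharacter K θ) (z : K)
    (h : indFun K θ (z : L) = indFun K θ 1) : θ z = θ 1 := by
  classical
  haveI := Fintype.ofFinite K
  have h' : indFun K θ ((z : K) : L) = indFun K θ ((1 : K) : L) := by simpa using h
  rw [show indFun K θ ((z : K) : L) = (fun n : K => indFun K θ n) z from rfl,
    show indFun K θ ((1 : K) : L) = (fun n : K => indFun K θ n) 1 from rfl, res_indFun] at h'
  simp only [Pi.smul_apply, Finset.sum_apply, smul_eq_mul] at h'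
  have h2 := mul_left_cancel₀ (inv_ne_zero (Nat.cast_ne_zero.mpr Nat.card_pos.ne')) h'
  have hre : ∀ g : L, (conjFn K θ g z).re ≤ (conjFn K θ g 1).re := fun g =>
    (Complex.re_le_norm _).trans (char_norm_le_degree (isCharacter_conjFn hθ g) z)
  have hsum : ∑ g : L, (conjFn K θ g z).re = ∑ g : L, (conjFn K θ g 1).re := by
    have h3 := congrArg Complex.re h2
    rwa [Complex.re_sum, Complex.re_sum] at h3
  have h1 := (Finset.sum_eq_sum_iff_of_le fun g _ => hre g).mp hsum 1 (Finset.mem_univ _)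
  rw [conjFn_one] at h1
  have h4 := char_norm_le_degree hθ z
  rw [← h1] at h4
  have h5 : ‖θ z‖ = (θ z).re := le_antisymm h4 (Complex.re_le_norm _)
  have h6 : θ z = (‖θ z‖ : ℂ) := Complex.eq_coe_norm_of_nonneg (Complex.re_eq_norm.mp h5.symm)
  rw [h6, h5, h1, degC_spec hθ]
  simp

/-- Let K be a nilpotent normal subgroup of the finite group L of odd order with [K,K] < K < L and L/[K,K] a Frobenius group with kernel K/[K,K] (elements of K outside [K,K] are centralised modulo [K,K] only from inside K); let (S, τ, R) be a coherence system from L to G with S the functions induced from non-principal irreducible characters of K. Let Z be a nontrivial normal subgroup of L contained in the centre of K, and suppose every member of S outside S(Z) is an irreducible character of L. Then S minus S(Z) is the set of irreducible characters χ of L with χ z ≠ χ 1 for some z ∈ Z, and it is coherent. -/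
theorem result {L : Type*} [Group L] [Fintype L] {G : Type*} [Group G] [Fintype G] (K : Subgroup L) [hK : K.Normal] (hsolv : Group.IsSolvable K) (τ : (L → ℂ) → (G → ℂ)) (R : (L → ℂ) → Finset (G → ℂ)) (hS : Cfsg.IsCoherenceSystem (Cfsg.inducedIrrAbove K ⊥) τ R) (hodd : Odd (Nat.card L)) (hnil : Group.IsNilpotent K) (hH₁K : ⁅K, K⁆ < K) (hKL : K < ⊤) (hfrob : ∀ k ∈ K, k ∉ ⁅K, K⁆ → ∀ x : L, x * k * x⁻¹ * k⁻¹ ∈ ⁅K, K⁆ → x ∈ K) (Z : Subgroup L) [Z.Normal] (hZ1 : Z ≠ ⊥) (hZK : Z ≤ K) (hZc : ∀ z ∈ Z, ∀ k ∈ K, z * k = k * z) (hirr : ∀ χ ∈ Cfsg.inducedIrrAbove K ⊥ \ Cfsg.inducedIrrAbove K Z, Cfsg.IsIrrCharacter L χ) : Cfsg.inducedIrrAbove K ⊥ \ Cfsg.inducedIrrAbove K Z = {χ | Cfsg.IsIrrCharacter L χ ∧ ∃ z ∈ Z, χ z ≠ χ 1} ∧ Cfsg.IsCoherent (Cfsg.inducedIrrAbove K ⊥ \ Cfsg.inducedIrrAbove K Z) {1}ᶜ τ := by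
  classical
  haveI := Fintype.ofFinite K
  set X := Cfsg.inducedIrrAbove K ⊥ \ Cfsg.inducedIrrAbove K Z with hXdef
  have hKn : (⁅K, K⁆).Normal := inferInstance
  -- conjugates of a character trivial on the central subgroup
  have hset : X = {χ | Cfsg.IsIrrCharacter L χ ∧ ∃ z ∈ Z, χ z ≠ χ 1} := by
    ext χ
    constructor
    · intro hχ
      refine ⟨hirr χ hχ, ?_⟩
      obtain ⟨θ, hθ, hθn, -, rfl⟩ := hχ.1
      by_contra hcon
      push Not at hcon
      exact hχ.2 ⟨θ, hθ, hθn, fun a ha => triv_of_ind hθ.isCharacter a (hcon a ha), rfl⟩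
    · rintro ⟨hχ, z, hz, hne⟩
      obtain ⟨θ, hθ, hθc⟩ := classInner_res_ne_zero (N := K) hχ
      have hclf := clifford hχ hθ hθc
      have hnt : ¬ ∀ a : K, (a : L) ∈ Z → θ a = θ 1 := by
        intro htr
        refine hne ?_
        have e1 := congrFun hclf ⟨z, hZK hz⟩
        have e2 := congrFun hclf 1
        simp only [Pi.smul_apply, Finset.sum_apply, smul_eq_mul, OneMemClass.coe_one] at e1 e2
        rw [e1, e2]
        congr 1
        refine Finset.sum_congr rfl fun ψ hψ => ?_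
        obtain ⟨g, rfl⟩ := mem_orbitFinset.mp hψ
        have hconj : g * z * g⁻¹ ∈ Z := Subgroup.Normal.conj_mem inferInstance z hz g
        have h1 : ∀ n : K, (n : L) ∈ Z → conjFn K θ g n = θ 1 := fun n hn => by
          rw [conjFn]
          refine htr _ ?_
          first
            | exact Subgroup.Normal.conj_mem inferInstance _ hn g
            | exact Subgroup.Normal.conj_mem' inferInstance _ hn g
        rw [h1 _ hz, h1 1 (one_mem _)]
      have hθn : θ ≠ fun _ => 1 := fun h => hnt fun a _ => by rw [h]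
      have hmem : Cfsg.indFun K θ ∈ X := by
        refine ⟨⟨θ, hθ, hθn, fun a ha => ?_, rfl⟩, ?_⟩
        · rw [Subgroup.mem_bot] at ha
          rw [show a = 1 from Subtype.ext ha]
        · rintro ⟨θ', hθ', -, htr, he⟩
          refine hnt fun a ha => triv_of_ind hθ.isCharacter a ?_
          rw [he]
          have hres := congrFun (res_indFun (N := K) θ') a
          have hres1 := congrFun (res_indFun (N := K) θ') 1
          simp only [Pi.smul_apply, Finset.sum_apply, smul_eq_mul, OneMemClass.coe_one] at hres hres1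
          rw [hres, hres1]
          congr 1
          refine Finset.sum_congr rfl fun g _ => ?_
          have h1 : ∀ n : K, (n : L) ∈ Z → conjFn K θ' g n = θ' 1 := fun n hn => by
            rw [conjFn]
            refine htr _ ?_
            first
              | exact Subgroup.Normal.conj_mem inferInstance _ hn g
              | exact Subgroup.Normal.conj_mem' inferInstance _ hn g
          rw [h1 _ ha, h1 1 (one_mem _)]
      have hind := hirr _ hmem
      have hne' : Cfsg.classInner (Cfsg.indFun K θ) χ ≠ 0 := by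
        rw [classInner_indFun K θ hχ.isClassFunction, ← conj_classInner, Ne, map_eq_zero]
        exact hθc
      have : Cfsg.indFun K θ = χ := by
        by_contra h
        exact hne' (classInner_irr_ne hind hχ h)
      exact this ▸ hmem
  refine ⟨hset, ?_⟩
  have hsub : X ⊆ Cfsg.inducedIrrAbove K ⊥ := Set.sdiff_subset
  have hconj : ∀ χ ∈ X, Cfsg.conjFun χ ∈ X := fun χ hχ => ⟨conj_mem_family hχ.1, fun h => hχ.2 (by
    have := conj_mem_family h
    rwa [conjFun_conjFun'] at this)⟩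
  -- degrees
  have hidx : ∀ θ : K → ℂ, Cfsg.IsCharacter K θ → degC (Cfsg.indFun K θ) = K.index * degC θ := by
    intro θ hθ
    have h1 := degC_spec (isCharacter_indFun K hθ)
    rw [indFun_one_apply, degC_spec hθ] at h1
    exact_mod_cast h1.symm
  let Xf : Finset (L → ℂ) := (irrFin L).filter fun χ => ¬ TrivOn Z χ
  have hXf : (Xf : Set (L → ℂ)) = X := by
    rw [hset]
    ext χ
    simp [Xf, mem_irrFin, TrivOn]
  let dd : (L → ℂ) → ℕ := fun χ => degC χ / K.index
  have he : 0 < K.index := Nat.pos_of_ne_zero K.index_ne_zero_of_finite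
  set x := Z.relIndex K with hx
  have hxpos : 0 < x := Nat.pos_of_ne_zero Subgroup.index_ne_zero_of_finite
  have hdd : ∀ χ ∈ X, degC χ = K.index * dd χ ∧ dd χ ^ 2 ≤ x ∧ dd χ ∣ Nat.card K ∧ 0 < dd χ := by
    intro χ hχ
    obtain ⟨θ, hθ, -, -, rfl⟩ := hχ.1
    have h1 : dd (Cfsg.indFun K θ) = degC θ := by
      show degC (Cfsg.indFun K θ) / K.index = _
      rw [hidx θ hθ.isCharacter, Nat.mul_div_cancel_left _ he]
    rw [h1]
    refine ⟨hidx θ hθ.isCharacter, ?_, degree_dvd_card hθ (degC_spec hθ.isCharacter), degC_pos hθ⟩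
    refine degC_sq_le_index hθ (Z.subgroupOf K) ⊥ (fun b hb => by rw [Subgroup.mem_bot.mp hb]) ?_
    intro a ha y
    rw [Subgroup.mem_bot, mul_inv_eq_one, mul_inv_eq_iff_eq_mul]
    exact Subtype.ext (hZc _ ha _ y.2)
  -- the total
  have htot : ∑ χ ∈ Xf, degC χ ^ 2 + Z.index = Nat.card L := by
    have hZs := sum_sq_trivOn (L := L) Z
    have hall := sum_sq_trivOn (L := L) (⊥ : Subgroup L)
    rw [Subgroup.index_bot, Finset.filter_true_of_mem (fun χ _ => trivOn_bot χ),
      ← Finset.sum_filter_add_sum_filter_not _ (TrivOn Z), hZs] at hall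
    rw [← hall, add_comm]
  have hT : K.index * ∑ χ ∈ Xf, dd χ ^ 2 + x = x * Nat.card Z := by
    rw [← Subgroup.card_mul_index Z, ← Subgroup.relIndex_mul_index hZK] at htot
    have hs : ∑ χ ∈ Xf, degC χ ^ 2 = K.index ^ 2 * ∑ χ ∈ Xf, dd χ ^ 2 := by
      rw [Finset.mul_sum]
      refine Finset.sum_congr rfl fun χ hχ => ?_
      rw [(hdd χ (hXf ▸ hχ)).1, mul_pow]
    rw [hs, ← hx] at htot
    refine Nat.eq_of_mul_eq_mul_right he ?_
    linarith [htot, show K.index ^ 2 * ∑ χ ∈ Xf, dd χ ^ 2 = K.index * (∑ χ ∈ Xf, dd χ ^ 2) * K.index by ring]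
  have hZ2 : 2 ≤ Nat.card Z := (Z.one_lt_card_iff_ne_bot).mpr hZ1
  have hTpos : 0 < ∑ χ ∈ Xf, dd χ ^ 2 := by
    by_contra h0
    rw [not_lt, Nat.le_zero] at h0
    rw [h0, mul_zero, zero_add] at hT
    nlinarith
  obtain ⟨χ₁, hχ₁f, hmin⟩ : ∃ χ₁ ∈ Xf, ∀ χ ∈ Xf, dd χ₁ ≤ dd χ := by
    refine Finset.exists_min_image Xf dd ?_
    by_contra h0
    rw [Finset.not_nonempty_iff_eq_empty] at h0
    simp [h0] at hTpos
  have hχ₁ : χ₁ ∈ X := hXf ▸ hχ₁f
  have hXne : ∃ α ∈ Cfsg.zspanOn X {1}ᶜ, α ≠ 0 := by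
    refine ⟨χ₁ - Cfsg.conjFun χ₁, ⟨sub_mem (Submodule.subset_span hχ₁) (Submodule.subset_span (hconj _ hχ₁)),
      fun y hy => ?_⟩, sub_ne_zero.mpr (hS.conj_ne _ hχ₁.1).symm⟩
    simp only [Set.mem_compl_iff, Set.mem_singleton_iff, not_not] at hy
    subst hy
    simp [Cfsg.conjFun, degC_spec (hS.isCharacter _ hχ₁.1)]
  by_cases hpg : ∃ p m : ℕ, p.Prime ∧ (⊥ : Subgroup L).relIndex K = p ^ m
  swap
  · -- several primes
    haveI : ((⊥ : Subgroup L).subgroupOf K).Normal := inferInstance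
    refine isCoherent_subset ?_ hsub hXne
    exact Cfsg.Agent.S1521.result K hsolv τ R hS hodd ⊥ bot_le
      (Group.nilpotent_of_surjective _ (QuotientGroup.mk'_surjective _)) ⁅K, K⁆ (sup_bot_eq _).symm
      hH₁K hKL hfrob (Or.inr (Or.inr (Or.inl hpg)))
  obtain ⟨p, m, hp, hm⟩ := hpg
  rw [Subgroup.relIndex_bot_left] at hm
  haveI := Fact.mk hp
  have hKodd : Odd (Nat.card K) := hodd.of_dvd_nat K.card_subgroup_dvd_card
  have hm0 : m ≠ 0 := by
    rintro rfl
    rw [pow_zero, Subgroup.card_eq_one] at hm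
    exact hH₁K.not_ge (by rw [hm]; exact bot_le)
  have hp3 : 3 ≤ p := by
    rcases Nat.lt_or_ge p 3 with h | h
    · exfalso
      have hp2 : p = 2 := le_antisymm (by omega) hp.two_le
      rw [hm, hp2] at hKodd
      exact (Nat.not_even_iff_odd.mpr hKodd) (Nat.even_pow.mpr ⟨even_two, hm0⟩)
    · exact h
  have hcop : Nat.Coprime p K.index := by
    rw [hp.coprime_iff_not_dvd]
    intro hd
    have hmod := Cfsg.Agent.S1521.relIndex_modEq K ⁅K, K⁆ K le_rfl hH₁K.le le_rfl hfrob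
    have hdiv : ⁅K, K⁆.relIndex K ∣ p ^ m := hm ▸ Subgroup.relIndex_dvd_card _ _
    obtain ⟨a, -, ha⟩ := (Nat.dvd_prime_pow hp).mp hdiv
    have ha0 : a ≠ 0 := by
      rintro rfl
      exact hH₁K.not_ge (Subgroup.relIndex_eq_one.mp (by rw [ha, pow_zero]))
    have h1 : ⁅K, K⁆.relIndex K ≡ 1 [MOD p] := hmod.of_dvd hd
    rw [ha, Nat.ModEq, Nat.pow_mod, Nat.mod_self, zero_pow ha0, Nat.zero_mod,
      Nat.mod_eq_of_lt hp.one_lt] at h1
    omega
  have hddpow : ∀ χ ∈ X, ∃ k, dd χ = p ^ k := fun χ hχ => by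
    obtain ⟨k, -, hk⟩ := (Nat.dvd_prime_pow hp).mp (hm ▸ (hdd χ hχ).2.2.1)
    exact ⟨k, hk⟩
  have hsqT : ∀ χ ∈ X, dd χ ^ 2 ∣ ∑ ψ ∈ Xf, dd ψ ^ 2 := by
    intro χ hχ
    obtain ⟨k, hk⟩ := hddpow χ hχ
    obtain ⟨s, -, hs⟩ := (Nat.dvd_prime_pow hp).mp (show x ∣ p ^ m from hm ▸ (Subgroup.relIndex_dvd_card Z K : x ∣ Nat.card K))
    have hle := (hdd χ hχ).2.1
    rw [hk, hs, ← pow_mul, Nat.pow_le_pow_iff_right hp.one_lt] at hle
    have hdx : dd χ ^ 2 ∣ x := by rw [hk, hs, ← pow_mul]; exact pow_dvd_pow p hle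
    have hco : Nat.Coprime (dd χ ^ 2) K.index := by
      rw [hk, ← pow_mul]; exact hcop.pow_left _
    refine hco.dvd_of_dvd_mul_left ?_
    rw [Nat.dvd_add_iff_left hdx, hT]
    exact dvd_mul_of_dvd_left hdx _
  -- the characters level by level
  have hnrm : ∀ χ ∈ X, nrm χ = 1 := fun χ hχ => by
    have h := nrm_spec (hS.isCharacter χ hχ.1)
    rw [classInner_irr_self (hirr χ hχ)] at h
    exact_mod_cast h.symm
  have key : ∀ n, dd χ₁ ≤ n → ∃ S₁ : Finset (L → ℂ), (↑S₁ : Set (L → ℂ)) ⊆ X ∧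
      (∀ φ ∈ S₁, Cfsg.conjFun φ ∈ S₁) ∧ (∀ φ ∈ Xf, dd φ ≤ n → φ ∈ S₁) ∧
      Cfsg.IsCoherent (↑S₁ : Set (L → ℂ)) {1}ᶜ τ := by
    intro n hn
    induction n, hn using Nat.le_induction with
    | base =>
      let S₀ := Xf.filter fun φ => dd φ = dd χ₁
      have hS₀ : (↑S₀ : Set (L → ℂ)) ⊆ X := fun φ hφ => hXf ▸ (Finset.mem_filter.mp hφ).1
      have hc₀ : ∀ φ ∈ S₀, Cfsg.conjFun φ ∈ S₀ := by
        intro φ hφ
        refine Finset.mem_filter.mpr ⟨?_, ?_⟩
        · rw [← Finset.mem_coe, hXf]; exact hconj φ (hS₀ hφ)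
        · rw [← (Finset.mem_filter.mp hφ).2]
          simp [dd, degC, Cfsg.conjFun]
      refine ⟨S₀, hS₀, hc₀, fun φ hφ h => Finset.mem_filter.mpr ⟨hφ, le_antisymm h (hmin φ hφ)⟩, ?_⟩
      refine Cfsg.Agent.S1517.result _ τ R (system_subset hS (hS₀.trans hsub)
        ⟨χ₁, Finset.mem_filter.mpr ⟨hχ₁f, rfl⟩⟩ hc₀) fun φ hφ ψ hψ => ?_
      rw [degC_spec (hS.isCharacter φ (hS₀ hφ).1), degC_spec (hS.isCharacter ψ (hS₀ hψ).1),
        (hdd φ (hS₀ hφ)).1, (hdd ψ (hS₀ hψ)).1, (Finset.mem_filter.mp hφ).2, (Finset.mem_filter.mp hψ).2]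
    | succ n hn ih =>
      obtain ⟨S₁, hS₁, hc₁, hall, hcoh⟩ := ih
      suffices hF : ∀ F : Finset (L → ℂ), (∀ φ ∈ F, φ ∈ Xf ∧ dd φ = n + 1) →
          ∃ S₂ : Finset (L → ℂ), S₁ ⊆ S₂ ∧ F ⊆ S₂ ∧ (↑S₂ : Set (L → ℂ)) ⊆ X ∧
          (∀ φ ∈ S₂, Cfsg.conjFun φ ∈ S₂) ∧ Cfsg.IsCoherent (↑S₂ : Set (L → ℂ)) {1}ᶜ τ by
        obtain ⟨S₂, h1, h2, h3, h4, h5⟩ := hF (Xf.filter fun φ => dd φ = n + 1)
          fun φ hφ => Finset.mem_filter.mp hφ
        refine ⟨S₂, h3, h4, fun φ hφ h => ?_, h5⟩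
        rcases Nat.lt_or_ge n (dd φ) with h' | h'
        · exact h2 (Finset.mem_filter.mpr ⟨hφ, by omega⟩)
        · exact h1 (hall φ hφ h')
      intro F
      induction F using Finset.induction_on with
      | empty => exact fun _ => ⟨S₁, subset_rfl, Finset.empty_subset _, hS₁, hc₁, hcoh⟩
      | @insert χ F' hχF ih' =>
        intro hF'
        obtain ⟨S₂, h1, h2, h3, h4, h5⟩ := ih' fun φ hφ => hF' φ (Finset.mem_insert_of_mem hφ)
        by_cases hχ : χ ∈ S₂
        · exact ⟨S₂, h1, Finset.insert_subset hχ h2, h3, h4, h5⟩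
        have hχc : Cfsg.conjFun χ ∉ S₂ := fun h => hχ (conjFun_conjFun' χ ▸ h4 _ h)
        obtain ⟨hχXf, hχd⟩ := hF' χ (Finset.mem_insert_self _ _)
        have hχX : χ ∈ X := hXf ▸ hχXf
        refine ⟨S₂ ∪ {χ, Cfsg.conjFun χ}, h1.trans Finset.subset_union_left,
          Finset.insert_subset (by simp) (h2.trans Finset.subset_union_left), ?_, ?_, ?_⟩
        · rw [Finset.coe_union, Finset.coe_pair]
          exact Set.union_subset h3 (Set.insert_subset hχX (Set.singleton_subset_iff.mpr (hconj χ hχX)))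
        · intro φ hφ
          simp only [Finset.mem_union, Finset.mem_insert, Finset.mem_singleton] at hφ ⊢
          rcases hφ with h | rfl | rfl
          · exact Or.inl (h4 φ h)
          · exact Or.inr (Or.inr rfl)
          · exact Or.inr (Or.inl (conjFun_conjFun' χ))
        · rw [Finset.coe_union, Finset.coe_pair]
          obtain ⟨k, hk⟩ := hddpow χ hχX
          obtain ⟨k₁, hk₁⟩ := hddpow χ₁ hχ₁
          have hlt : k₁ < k := by
            have : p ^ k₁ < p ^ k := by omega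
            exact (Nat.pow_lt_pow_iff_right hp.one_lt).mp this
          refine Cfsg.Agent.S1516.result (Cfsg.inducedIrrAbove K ⊥) τ R hS degC nrm
            (fun φ h => degC_spec (hS.isCharacter φ h)) (fun φ h => nrm_spec (hS.isCharacter φ h)) S₂
            (h3.trans hsub) h4 h5 χ hχX.1 hχ hχc χ₁ (h1 (hall χ₁ hχ₁f hn)) ?_ ?_
          · rw [(hdd χ₁ hχ₁).1, (hdd χ hχX).1, hk, hk₁]
            exact mul_dvd_mul_left _ (pow_dvd_pow p hlt.le)
          · have hlow : (n + 1) ^ 2 ≤ ∑ φ ∈ Xf.filter (fun φ => dd φ ≤ n), dd φ ^ 2 := by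
              refine Nat.le_of_dvd (Finset.sum_pos (fun φ hφ => pow_pos (hdd φ (hXf ▸ (Finset.mem_filter.mp hφ).1)).2.2.2 2)
                ⟨χ₁, Finset.mem_filter.mpr ⟨hχ₁f, hn⟩⟩) ?_
              have hd1 := hsqT χ hχX
              rw [hχd, ← Finset.sum_filter_add_sum_filter_not Xf (fun φ => dd φ ≤ n)] at hd1
              refine (Nat.dvd_add_iff_left ?_).mpr hd1
              refine Finset.dvd_sum fun φ hφ => ?_
              obtain ⟨hφX, hφn⟩ := Finset.mem_filter.mp hφ
              obtain ⟨i, hi⟩ := hddpow φ (hXf ▸ hφX)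
              rw [← hχd, hk, hi]
              refine pow_dvd_pow_of_dvd (pow_dvd_pow p ?_) 2
              have : p ^ k ≤ p ^ i := by omega
              exact (Nat.pow_le_pow_iff_right hp.one_lt).mp this
            have hS₂f : Xf.filter (fun φ => dd φ ≤ n) ⊆ S₂ := fun φ hφ =>
              h1 (hall φ (Finset.mem_filter.mp hφ).1 (Finset.mem_filter.mp hφ).2)
            have hsum : ((K.index ^ 2 * (n + 1) ^ 2 : ℕ) : ℝ) ≤
                ∑ φ ∈ S₂, ((degC φ : ℝ) ^ 2 / (nrm φ : ℝ)) := by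
              refine le_trans ?_ (Finset.sum_le_sum_of_subset_of_nonneg hS₂f fun φ _ _ => by positivity)
              calc ((K.index ^ 2 * (n + 1) ^ 2 : ℕ) : ℝ)
                  ≤ ((K.index ^ 2 * ∑ φ ∈ Xf.filter (fun φ => dd φ ≤ n), dd φ ^ 2 : ℕ) : ℝ) := by
                    exact_mod_cast Nat.mul_le_mul_left _ hlow
                _ = _ := by
                    push_cast
                    rw [Finset.mul_sum]
                    refine Finset.sum_congr rfl fun φ hφ => ?_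
                    have hφX : φ ∈ X := hXf ▸ (Finset.mem_filter.mp hφ).1
                    rw [(hdd φ hφX).1, hnrm φ hφX]
                    push_cast
                    ring
            refine lt_of_lt_of_le ?_ hsum
            have h3p : 3 * dd χ₁ ≤ n + 1 := by
              rw [← hχd, hk, hk₁]
              calc 3 * p ^ k₁ ≤ p * p ^ k₁ := Nat.mul_le_mul_right _ hp3
                _ = p ^ (k₁ + 1) := by ring
                _ ≤ p ^ k := Nat.pow_le_pow_right hp.pos hlt
            have h0 := (hdd χ₁ hχ₁).2.2.2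
            rw [(hdd χ hχX).1, (hdd χ₁ hχ₁).1, hχd]
            have : 2 * (K.index * (n + 1)) * (K.index * dd χ₁) < K.index ^ 2 * (n + 1) ^ 2 := by
              calc 2 * (K.index * (n + 1)) * (K.index * dd χ₁)
                  = (K.index ^ 2 * (n + 1)) * (2 * dd χ₁) := by ring
                _ < (K.index ^ 2 * (n + 1)) * (n + 1) := Nat.mul_lt_mul_of_pos_left (by omega) (by positivity)
                _ = _ := by ring
            exact_mod_cast this
  obtain ⟨S₁, hS₁, -, hall, hcoh⟩ := key (dd χ₁ + Nat.card K) (Nat.le_add_right _ _)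
  refine isCoherent_subset hcoh (fun φ hφ => ?_) hXne
  refine hall φ (by rw [← Finset.mem_coe, hXf]; exact hφ) ?_
  exact (Nat.le_of_dvd Nat.card_pos (hdd φ hφ).2.2.1).trans (Nat.le_add_left _ _)

end Cfsg.Agent.S1522
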