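import Cfsg.Statements.S1525
import Mathlib
import Cfsg.Agent.Lib.Characters.Dade
-- import your own Cfsg.Agent.* helpers here

set_option autoImplicit false
open Cfsg

namespace Cfsg.Agent.S1525

/-- Under the Dade hypothesis for (A, L, H), let χ be a class function of G and let ψ be a function on L whose value at each a ∈ A is the average of χ over the coset a·H(a). Then (1/|G|) Σ |χ g|² over the elements g of G conjugate into some coset a·H(a) with a ∈ A is at least (1/|L|) Σ_{a ∈ A ∩ L} |ψ a|². -/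
theorem result {G : Type*} [Group G] [Fintype G] (A : Set G) (L : Subgroup G) [Fintype L] (H : G → Subgroup G) (hD : Cfsg.DadeHypothesis A L H) (χ : G → ℂ) (hχ : Cfsg.IsClassFunction G χ) (ψ : L → ℂ) (hψ : ∀ a : L, (a : G) ∈ A → ψ a = (Nat.card (H a) : ℂ)⁻¹ * ∑ᶠ u ∈ (H a : Set G), χ (a * u)) : (Nat.card L : ℝ)⁻¹ * ∑ᶠ a ∈ {a : L | (a : G) ∈ A}, ‖ψ a‖ ^ 2 ≤ (Nat.card G : ℝ)⁻¹ * ∑ᶠ g ∈ {g : G | ∃ a ∈ A, ∃ u ∈ H a, ∃ x : G, x * g * x⁻¹ = a * u}, ‖χ g‖ ^ 2 := by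
  classical
  set F : G → ℂ := fun g =>
    if ∃ a : L, (a : G) ∈ A ∧ Cfsg.Lib.Characters.DadeMem H g (a : G) then ((‖χ g‖ ^ 2 : ℝ) : ℂ) else 0
  have hF : Cfsg.IsClassFunction G F := by
    intro g x
    have h : (∃ a : L, (a : G) ∈ A ∧ Cfsg.Lib.Characters.DadeMem H (x * g * x⁻¹) (a : G)) ↔
        ∃ a : L, (a : G) ∈ A ∧ Cfsg.Lib.Characters.DadeMem H g (a : G) := by
      refine ⟨fun ⟨a, ha, hm⟩ => ⟨a, ha, ?_⟩, fun ⟨a, ha, hm⟩ => ⟨a, ha, Cfsg.Lib.Characters.dadeMem_conj x hm⟩⟩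
      have := Cfsg.Lib.Characters.dadeMem_conj x⁻¹ hm
      simpa [mul_assoc] using this
    simp only [F, h, hχ g x]
  have hsum := Cfsg.Lib.Characters.sum_dade_support hD hF fun g hg => by
    simp only [F]; rw [if_neg]; exact fun ⟨a, ha, hm⟩ => hg a ha hm
  have hFv : ∀ (a : {a : L // (a : G) ∈ A}) (u : H (a.1 : G)),
      F ((a.1 : G) * u) = ((‖χ ((a.1 : G) * u)‖ ^ 2 : ℝ) : ℂ) := fun a u =>
    if_pos ⟨a.1, a.2, 1, u, u.2, by simp⟩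
  simp only [hFv] at hsum
  have hlhs : ∑ g : G, F g = ((∑ᶠ g ∈ {g : G | ∃ a ∈ A, ∃ u ∈ H a, ∃ x : G, x * g * x⁻¹ = a * u},
      ‖χ g‖ ^ 2 : ℝ) : ℂ) := by
    rw [finsum_mem_eq_sum_of_inter_support_eq (t := Finset.univ.filter
      (fun g : G => ∃ a : L, (a : G) ∈ A ∧ Cfsg.Lib.Characters.DadeMem H g (a : G))) _ ?_,
      Complex.ofReal_sum, Finset.sum_filter]
    ext g
    simp only [Set.mem_inter_iff, Finset.coe_filter, Finset.mem_univ, true_and, Set.mem_setOf_eq]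
    refine and_congr_left fun _ => ⟨fun ⟨a, ha, u, hu, x, hx⟩ => ⟨⟨a, hD.subset ha⟩, ha, x, u, hu, hx⟩,
      fun ⟨a, ha, x, u, hu, hx⟩ => ⟨a, ha, u, hu, x, hx⟩⟩
  rw [hlhs] at hsum
  have hsum' : (∑ᶠ g ∈ {g : G | ∃ a ∈ A, ∃ u ∈ H a, ∃ x : G, x * g * x⁻¹ = a * u}, ‖χ g‖ ^ 2 : ℝ) =
      (Nat.card G : ℝ) / (Nat.card L : ℝ) * ∑ a : {a : L // (a : G) ∈ A},
        (Nat.card (H (a.1 : G)) : ℝ)⁻¹ * ∑ u : H (a.1 : G), ‖χ ((a.1 : G) * u)‖ ^ 2 :=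
    Complex.ofReal_injective (by push_cast at hsum ⊢; exact hsum)
  rw [hsum', ← mul_assoc, mul_div, inv_mul_cancel₀ (Nat.cast_ne_zero.mpr Nat.card_pos.ne'), one_div]
  refine mul_le_mul_of_nonneg_left ?_ (by positivity)
  rw [finsum_mem_eq_sum_of_inter_support_eq (t := Finset.univ.filter (fun a : L => (a : G) ∈ A)) _
      (by ext; simp), Finset.sum_subtype _ (p := fun a : L => (a : G) ∈ A) (fun a => by simp)]
  refine Finset.sum_le_sum fun a _ => ?_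
  rw [hψ a.1 a.2, Cfsg.Lib.Characters.finsum_mem_subgroup, norm_mul, norm_inv, Complex.norm_natCast]
  have hn : (0 : ℝ) < (Nat.card (H (a.1 : G)) : ℝ) := Nat.cast_pos.mpr Nat.card_pos
  have hcs := sq_sum_le_card_mul_sum_sq (s := (Finset.univ : Finset (H (a.1 : G))))
    (f := fun u => ‖χ ((a.1 : G) * u)‖)
  rw [Finset.card_univ, ← Nat.card_eq_fintype_card] at hcs
  have hle : ‖∑ u : H (a.1 : G), χ ((a.1 : G) * u)‖ ^ 2 ≤
      (∑ u : H (a.1 : G), ‖χ ((a.1 : G) * u)‖) ^ 2 :=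
    pow_le_pow_left₀ (norm_nonneg _) (norm_sum_le _ _) 2
  rw [mul_pow, pow_two (Nat.card (H (a.1 : G)) : ℝ)⁻¹, mul_assoc]
  refine mul_le_mul_of_nonneg_left ?_ (by positivity)
  rw [inv_mul_le_iff₀ hn]
  exact hle.trans hcs

end Cfsg.Agent.S1525
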