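import Cfsg.Statements.S1528
import Mathlib
import Cfsg.Agent.Lib.Characters.FixedChars
import Cfsg.Agent.Lib.Characters.Gallagher
-- import your own Cfsg.Agent.* helpers here

set_option autoImplicit false
open Cfsg

namespace Cfsg.Agent.S1528

/-- Let N be a normal subgroup of the finite group G such that every element of G commuting with a non-identity element of N lies in N. If χ is an irreducible character of G with χ n ≠ χ 1 for some n ∈ N, then χ is the function induced from some irreducible character of N. -/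
theorem result {G : Type*} [Group G] [Fintype G] (N : Subgroup G) [N.Normal] (hC : ∀ n ∈ N, n ≠ 1 → Subgroup.centralizer ({n} : Set G) ≤ N) (χ : G → ℂ) (hχ : Cfsg.IsIrrCharacter G χ) (hker : ∃ n ∈ N, χ n ≠ χ 1) : ∃ φ : N → ℂ, Cfsg.IsIrrCharacter N φ ∧ χ = Cfsg.indFun N φ := by
  classical
  haveI := Fintype.ofFinite N
  obtain ⟨θ, hθ, hne⟩ := Cfsg.Lib.Characters.classInner_res_ne_zero (N := N) hχ
  have hθ1 : θ ≠ fun _ => 1 := by
    intro h1
    subst h1
    obtain ⟨n, hn, hnχ⟩ := hker
    have horbit : Cfsg.Lib.Characters.orbitFinset N (fun _ : N => (1 : ℂ)) = {fun _ => 1} := by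
      refine Finset.ext fun a => ?_
      rw [Cfsg.Lib.Characters.mem_orbitFinset, Finset.mem_singleton]
      exact ⟨fun ⟨g, hg⟩ => hg, fun h => ⟨1, h⟩⟩
    have hcl := Cfsg.Lib.Characters.clifford hχ hθ hne
    rw [horbit, Finset.sum_singleton] at hcl
    have h1 := congrFun hcl ⟨n, hn⟩
    have h2 := congrFun hcl 1
    simp only [Pi.smul_apply, smul_eq_mul, OneMemClass.coe_one] at h1 h2
    exact hnχ (h1.trans h2.symm)
  have hirr := (Cfsg.Lib.Characters.isIrrCharacter_indFun_iff hθ).mpr
    (Cfsg.Lib.Characters.inertia_eq_of_centralizer_le N hC hθ hθ1)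
  refine ⟨θ, hθ, ?_⟩
  by_contra hdiff
  refine hne ?_
  rw [← Cfsg.Lib.Characters.classInner_indFun_right N θ hχ.isClassFunction]
  exact Cfsg.Lib.Characters.classInner_irr_ne hχ hirr hdiff

end Cfsg.Agent.S1528
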