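import Cfsg.Statements.S1529
import Mathlib
import Cfsg.Agent.Lib.Characters.Isometry
-- import your own Cfsg.Agent.* helpers here

set_option autoImplicit false
open Cfsg

namespace Cfsg.Agent.S1529

/-- Let N be a subgroup of the finite group G, S a set of irreducible characters of N with at least two members, and τ₁ a linear isometry on the integer combinations of S with virtual-character values such that τ₁ α vanishes at 1 whenever α ∈ ℤ[S] does. Then there is ε ∈ {1, −1} such that ε • τ₁ χ is an irreducible character of G for every χ ∈ S, and distinct members of S give distinct characters. -/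
theorem result {G : Type*} [Group G] [Fintype G] (N : Subgroup G) [Fintype N] (S : Set (N → ℂ)) (hirr : ∀ χ ∈ S, Cfsg.IsIrrCharacter N χ) (htwo : ∃ χ ∈ S, ∃ ψ ∈ S, χ ≠ ψ) (τ₁ : (N → ℂ) → (G → ℂ)) (hτ₁ : Cfsg.IsLinearIsometryOn (Cfsg.zspan S) τ₁) (h0 : ∀ α ∈ Cfsg.zspan S, α 1 = 0 → τ₁ α 1 = 0) : ∃ ε : ℂ, (ε = 1 ∨ ε = -1) ∧ (∀ χ ∈ S, Cfsg.IsIrrCharacter G (ε • τ₁ χ)) ∧ (∀ χ ∈ S, ∀ ψ ∈ S, τ₁ χ = τ₁ ψ → χ = ψ) := by
  classical
  obtain ⟨hadd, hzsmul, hip, hgen⟩ := hτ₁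
  have hmem : ∀ χ ∈ S, χ ∈ Cfsg.zspan S := fun χ hχ => Submodule.subset_span hχ
  have hnorm : ∀ χ ∈ S, Cfsg.classInner (τ₁ χ) (τ₁ χ) = 1 := fun χ hχ => by
    rw [hip χ (hmem χ hχ) χ (hmem χ hχ), Cfsg.Lib.Characters.classInner_irr_self (hirr χ hχ)]
  have hpm : ∀ χ ∈ S, Cfsg.IsIrrCharacter G (τ₁ χ) ∨ Cfsg.IsIrrCharacter G (-τ₁ χ) := fun χ hχ =>
    Cfsg.Lib.Characters.isGeneralized_norm_one (hgen χ (hmem χ hχ)) (hnorm χ hχ)
  have hinj : ∀ χ ∈ S, ∀ ψ ∈ S, τ₁ χ = τ₁ ψ → χ = ψ := by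
    intro χ hχ ψ hψ he
    by_contra hne
    have := hip χ (hmem χ hχ) ψ (hmem ψ hψ)
    rw [he, hnorm ψ hψ, Cfsg.Lib.Characters.classInner_irr_ne (hirr χ hχ) (hirr ψ hψ) hne] at this
    exact one_ne_zero this
  obtain ⟨χ₀, hχ₀, -⟩ := htwo
  obtain ⟨ε, hε, hε0⟩ : ∃ ε : ℂ, (ε = 1 ∨ ε = -1) ∧ Cfsg.IsIrrCharacter G (ε • τ₁ χ₀) := by
    rcases hpm χ₀ hχ₀ with h | h
    · exact ⟨1, Or.inl rfl, by rwa [one_smul]⟩
    · exact ⟨-1, Or.inr rfl, by rwa [neg_one_smul]⟩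
  refine ⟨ε, hε, fun χ hχ => ?_, hinj⟩
  obtain ⟨d, hd0, hd⟩ := (hirr χ hχ).exists_degree_pos
  obtain ⟨e, he0, he⟩ := (hirr χ₀ hχ₀).exists_degree_pos
  have hm1 : (e : ℤ) • χ ∈ Cfsg.zspan S := Submodule.smul_mem _ _ (hmem χ hχ)
  have hm2 : (-(d : ℤ)) • χ₀ ∈ Cfsg.zspan S := Submodule.smul_mem _ _ (hmem χ₀ hχ₀)
  have h1 := h0 _ (Submodule.add_mem _ hm1 hm2) (by simp [hd, he, mul_comm])
  rw [hadd _ hm1 _ hm2, hzsmul χ (hmem χ hχ), hzsmul χ₀ (hmem χ₀ hχ₀)] at h1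
  simp at h1
  obtain ⟨f, hf0, hf⟩ := hε0.exists_degree_pos
  rw [Pi.smul_apply, smul_eq_mul] at hf
  have hτ1 : (e : ℂ) * (ε * τ₁ χ 1) = ((d * f : ℕ) : ℂ) := by
    push_cast
    rw [← hf]
    linear_combination ε * h1
  rcases hε with rfl | rfl
  · rcases hpm χ hχ with h | h
    · rwa [one_smul]
    · exfalso
      obtain ⟨c, hc0, hc⟩ := h.exists_degree_pos
      have h3 : ((e * c + d * f : ℕ) : ℂ) = 0 := by
        push_cast
        rw [Pi.neg_apply] at hc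
        push_cast at hτ1
        linear_combination -hτ1 - (e : ℂ) * hc
      have := Nat.cast_eq_zero.mp h3
      nlinarith
  · rcases hpm χ hχ with h | h
    · exfalso
      obtain ⟨c, hc0, hc⟩ := h.exists_degree_pos
      have h3 : ((e * c + d * f : ℕ) : ℂ) = 0 := by
        push_cast
        push_cast at hτ1
        linear_combination -hτ1 - (e : ℂ) * hc
      have := Nat.cast_eq_zero.mp h3
      nlinarith
    · rwa [neg_one_smul]

end Cfsg.Agent.S1529
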