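import Cfsg.Statements.S1530
import Cfsg.Agent.S1516

set_option autoImplicit false
open Cfsg

namespace Cfsg.Agent.S1530

open Cfsg Cfsg.Lib.Characters Cfsg.Agent.S1516
open scoped ComplexConjugate

/-- Let N be a subgroup of the finite group G and S₀ a finite set of irreducible characters of N, χ an irreducible character of N not in S₀, with degrees ξ 1 = d ξ. Let τ be a linear isometry on the integer combinations of S₀ ∪ {χ} vanishing at 1, with values virtual characters of G vanishing at 1, such that (S₀, N minus 1, τ) is coherent. If some ψ ∈ S₀ has d ψ dividing d χ and 2 · d ψ · d χ < Σ_{ξ ∈ S₀} (d ξ)², then (S₀ ∪ {χ}, N minus 1, τ) is coherent. -/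
theorem result {G : Type*} [Group G] [Fintype G] (N : Subgroup G) [Fintype N] (S₀ : Finset (N → ℂ)) (χ : N → ℂ) (hirr : ∀ ξ ∈ S₀, Cfsg.IsIrrCharacter N ξ) (hχ : Cfsg.IsIrrCharacter N χ) (hχS : χ ∉ S₀) (d : (N → ℂ) → ℕ) (hd : ∀ ξ ∈ insert χ S₀, ξ 1 = (d ξ : ℂ)) (τ : (N → ℂ) → (G → ℂ)) (hτ : Cfsg.IsLinearIsometryOn (Cfsg.zspanOn (↑(insert χ S₀) : Set (N → ℂ)) {1}ᶜ) τ) (hτ1 : ∀ α ∈ Cfsg.zspanOn (↑(insert χ S₀) : Set (N → ℂ)) {1}ᶜ, τ α 1 = 0) (hcoh : Cfsg.IsCoherent (↑S₀ : Set (N → ℂ)) {1}ᶜ τ) (ψ : N → ℂ) (hψ : ψ ∈ S₀) (hdvd : d ψ ∣ d χ) (hlt : 2 * d ψ * d χ < ∑ ξ ∈ S₀, d ξ ^ 2) : Cfsg.IsCoherent (↑(insert χ S₀) : Set (N → ℂ)) {1}ᶜ τ := by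
  classical
  obtain ⟨hadd, hsmul, hiso, hgen⟩ := hτ
  obtain ⟨-, τ₁, ⟨h1add, h1smul, h1iso, h1gen⟩, hagree⟩ := hcoh
  set F := insert χ S₀ with hF
  have hFirr : ∀ φ ∈ F, IsIrrCharacter N φ := fun φ hφ => by
    rcases Finset.mem_insert.mp hφ with rfl | h
    exacts [hχ, hirr φ h]
  have hd0 : ∀ φ ∈ F, d φ ≠ 0 := fun φ hφ h => by
    have h0 := char_eq_zero_of_degree_zero (hFirr φ hφ).isCharacter (by rw [hd φ hφ, h, Nat.cast_zero])
    have h1 := classInner_irr_self (hFirr φ hφ)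
    rw [h0] at h1
    simp [classInner] at h1
  have hSF : ∀ φ ∈ S₀, φ ∈ F := fun φ h => Finset.mem_insert_of_mem h
  have hχF : χ ∈ F := Finset.mem_insert_self _ _
  have hne : ∀ φ ∈ S₀, φ ≠ χ := fun φ h e => hχS (e ▸ h)
  have hmem₁ : ∀ φ ∈ S₀, φ ∈ zspan (↑S₀ : Set (N → ℂ)) := fun φ h => Submodule.subset_span h
  have hspanF : ∀ φ ∈ F, φ ∈ zspan (↑F : Set (N → ℂ)) := fun φ h => Submodule.subset_span h
  obtain ⟨a, ha⟩ := hdvd
  have hψ1 := hirr ψ hψ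
  have haC : ψ 1 * (a : ℂ) = χ 1 := by
    rw [hd χ hχF, hd ψ (hSF ψ hψ), ha, Nat.cast_mul]
  have hdψ : (d ψ : ℂ) ≠ 0 := Nat.cast_ne_zero.mpr (hd0 ψ (hSF ψ hψ))
  set β : N → ℂ := χ - (a : ℤ) • ψ with hβ
  have hβmem : β ∈ zspanOn (↑F : Set (N → ℂ)) {1}ᶜ := by
    refine ⟨Submodule.sub_mem _ (hspanF χ hχF) (Submodule.smul_mem _ _ (hspanF ψ (hSF ψ hψ))),
      fun x hx => ?_⟩
    rw [show x = 1 by simpa using hx, hβ, Pi.sub_apply, Pi.smul_apply, zsmul_eq_mul, ← haC]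
    push_cast
    ring
  have hinβ : ∀ f : N → ℂ, classInner β f = classInner χ f - (a : ℂ) * classInner ψ f := by
    intro f
    rw [hβ, classInner_sub_left, ← Int.cast_smul_eq_zsmul ℂ, classInner_smul_left, Int.cast_natCast]
  set Y := τ β with hY
  have hYgen : IsGeneralizedCharacter G Y := hgen _ hβmem
  obtain ⟨t, ht⟩ := classInner_int hYgen (h1gen _ (hmem₁ ψ hψ))
  set s : ℤ := t + (a : ℤ) with hs
  set W := Y + (a : ℂ) • τ₁ ψ with hW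
  have hWgen : IsGeneralizedCharacter G W := by
    rw [hW, ← Int.cast_natCast]
    exact isGeneralized_add hYgen (isGeneralized_zsmul (h1gen _ (hmem₁ ψ hψ)) _)
  have hYY : classInner Y Y = 1 + (a : ℂ) ^ 2 := by
    rw [hY, hiso _ hβmem _ hβmem, hinβ, hβ, classInner_sub_right, classInner_sub_right,
      ← Int.cast_smul_eq_zsmul ℂ, classInner_smul_right, classInner_smul_right,
      classInner_irr_self hχ, classInner_irr_self hψ1,
      classInner_irr_ne hψ1 hχ (hne ψ hψ), classInner_irr_ne hχ hψ1 (hne ψ hψ).symm]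
    simp only [Int.cast_natCast, map_natCast]
    ring
  have hWW : classInner W W = ((1 + 2 * (a : ℤ) * s : ℤ) : ℂ) := by
    rw [hW]
    simp only [classInner_add_left, classInner_add_right, classInner_smul_left, classInner_smul_right]
    rw [hYY, ← conj_classInner Y (τ₁ ψ), ht, h1iso _ (hmem₁ ψ hψ) _ (hmem₁ ψ hψ),
      classInner_irr_self hψ1, hs]
    simp only [map_intCast, map_natCast]
    push_cast
    ring
  have hγfacts : ∀ φ ∈ S₀, ((d ψ : ℤ) • φ - (d φ : ℤ) • ψ) ∈ zspanOn (↑S₀ : Set (N → ℂ)) {1}ᶜ := by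
    intro φ hφ
    refine ⟨Submodule.sub_mem _ (Submodule.smul_mem _ _ (hmem₁ φ hφ))
      (Submodule.smul_mem _ _ (hmem₁ ψ hψ)), fun x hx => ?_⟩
    rw [show x = 1 by simpa using hx, Pi.sub_apply, Pi.smul_apply, Pi.smul_apply, hd φ (hSF φ hφ),
      hd ψ (hSF ψ hψ), zsmul_eq_mul, zsmul_eq_mul]
    push_cast
    ring
  have hzmono : ∀ f ∈ zspanOn (↑S₀ : Set (N → ℂ)) {1}ᶜ, f ∈ zspanOn (↑F : Set (N → ℂ)) {1}ᶜ :=
    fun f hf => ⟨Submodule.span_mono (fun x hx => hSF x hx) hf.1, hf.2⟩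
  have hτγ : ∀ φ ∈ S₀, τ ((d ψ : ℤ) • φ - (d φ : ℤ) • ψ) =
      (d ψ : ℂ) • τ₁ φ - (d φ : ℂ) • τ₁ ψ := by
    intro φ hφ
    rw [← hagree _ (hγfacts φ hφ), eq_sub_iff_add_eq]
    have e1 : ((d φ : ℂ) • τ₁ ψ) = τ₁ ((d φ : ℤ) • ψ) := by
      rw [h1smul _ (hmem₁ ψ hψ), ← Int.cast_smul_eq_zsmul ℂ, Int.cast_natCast]
    have e2 : ((d ψ : ℂ) • τ₁ φ) = τ₁ ((d ψ : ℤ) • φ) := by
      rw [h1smul _ (hmem₁ φ hφ), ← Int.cast_smul_eq_zsmul ℂ, Int.cast_natCast]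
    rw [e1, e2, ← h1add _ (hγfacts φ hφ).1 _ (Submodule.smul_mem _ _ (hmem₁ ψ hψ)), sub_add_cancel]
  have hWφ : ∀ φ ∈ S₀, classInner W (τ₁ φ) = (s : ℂ) * (d φ : ℂ) / (d ψ : ℂ) := by
    intro φ hφ
    have hW' : classInner W (τ₁ φ) = classInner Y (τ₁ φ) + (a : ℂ) * classInner ψ φ := by
      rw [hW, classInner_add_left, classInner_smul_left, h1iso _ (hmem₁ ψ hψ) _ (hmem₁ φ hφ)]
    rw [hW']
    have h := hiso _ hβmem _ (hzmono _ (hγfacts φ hφ))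
    rw [hτγ φ hφ, classInner_sub_right, classInner_smul_right, classInner_smul_right, ← hY, ht, hinβ,
      classInner_sub_right, classInner_sub_right, ← Int.cast_smul_eq_zsmul ℂ,
      ← Int.cast_smul_eq_zsmul ℂ, classInner_smul_right, classInner_smul_right,
      classInner_smul_right, classInner_smul_right, classInner_irr_self hψ1,
      classInner_irr_ne hχ (hirr φ hφ) (hne φ hφ).symm,
      classInner_irr_ne hχ hψ1 (hne ψ hψ).symm] at h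
    simp only [Int.cast_natCast, map_natCast] at h
    rw [eq_div_iff hdψ, hs]
    push_cast
    linear_combination h
  -- Bessel's inequality
  have hproj : ∀ e : (N → ℂ) → ℝ, (∀ φ ∈ S₀, classInner W (τ₁ φ) = (e φ : ℂ)) →
      classInner (W - ∑ φ ∈ S₀, (e φ : ℂ) • τ₁ φ) (W - ∑ φ ∈ S₀, (e φ : ℂ) • τ₁ φ) =
        ((((1 + 2 * (a : ℤ) * s : ℤ) : ℝ) - ∑ φ ∈ S₀, e φ ^ 2 : ℝ) : ℂ) := by
    intro e he
    have hWQ : classInner W (∑ φ ∈ S₀, (e φ : ℂ) • τ₁ φ) = ((∑ φ ∈ S₀, e φ ^ 2 : ℝ) : ℂ) := by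
      rw [classInner_sum_right, Complex.ofReal_sum]
      refine Finset.sum_congr rfl fun φ hφ => ?_
      rw [classInner_smul_right, he φ hφ, Complex.conj_ofReal]
      push_cast
      ring
    have hQQ : classInner (∑ φ ∈ S₀, (e φ : ℂ) • τ₁ φ) (∑ φ ∈ S₀, (e φ : ℂ) • τ₁ φ) =
        ((∑ φ ∈ S₀, e φ ^ 2 : ℝ) : ℂ) := by
      rw [classInner_sum_left, Complex.ofReal_sum]
      refine Finset.sum_congr rfl fun φ hφ => ?_
      rw [classInner_smul_left, classInner_sum_right, Finset.sum_eq_single φ]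
      · rw [classInner_smul_right, h1iso _ (hmem₁ φ hφ) _ (hmem₁ φ hφ),
          classInner_irr_self (hirr φ hφ), Complex.conj_ofReal]
        push_cast
        ring
      · intro ψ' hψ' hne'
        rw [classInner_smul_right, h1iso _ (hmem₁ φ hφ) _ (hmem₁ ψ' hψ'),
          classInner_irr_ne (hirr φ hφ) (hirr ψ' hψ') (Ne.symm hne'), mul_zero]
      · exact fun h => absurd hφ h
    rw [classInner_sub_left, classInner_sub_right, classInner_sub_right, hWW,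
      ← conj_classInner W, hWQ, hQQ, Complex.conj_ofReal]
    push_cast
    ring
  have hr : (2 * a * d ψ ^ 2 : ℝ) < ∑ φ ∈ S₀, (d φ : ℝ) ^ 2 := by
    have h : (2 * (a * d ψ ^ 2) : ℕ) < ∑ φ ∈ S₀, d φ ^ 2 := by
      calc 2 * (a * d ψ ^ 2) = 2 * d ψ * d χ := by rw [ha]; ring
        _ < _ := hlt
    calc (2 * a * d ψ ^ 2 : ℝ) = ((2 * (a * d ψ ^ 2) : ℕ) : ℝ) := by push_cast; ring
      _ < ((∑ φ ∈ S₀, d φ ^ 2 : ℕ) : ℝ) := Nat.cast_lt.mpr h
      _ = _ := by push_cast; rfl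
  have hdψR : (0 : ℝ) < (d ψ : ℝ) := Nat.cast_pos.mpr (Nat.pos_of_ne_zero (hd0 ψ (hSF ψ hψ)))
  have haR : (1 : ℝ) ≤ (a : ℝ) := by
    have : a ≠ 0 := fun h => hd0 χ hχF (by rw [ha, h, mul_zero])
    exact_mod_cast Nat.pos_of_ne_zero this
  have hres : (s : ℝ) ^ 2 * (∑ φ ∈ S₀, (d φ : ℝ) ^ 2) ≤ (1 + 2 * a * s) * (d ψ : ℝ) ^ 2 := by
    have h := norm_re_nonneg (W - ∑ φ ∈ S₀, (((s : ℝ) * d φ / d ψ : ℝ) : ℂ) • τ₁ φ)
    rw [hproj (fun φ => (s : ℝ) * d φ / d ψ) (fun φ hφ => by rw [hWφ φ hφ]; push_cast; rfl),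
      Complex.ofReal_re] at h
    have e : ∑ φ ∈ S₀, ((s : ℝ) * d φ / d ψ) ^ 2 = (s : ℝ) ^ 2 * (∑ φ ∈ S₀, (d φ : ℝ) ^ 2) /
        (d ψ : ℝ) ^ 2 := by
      rw [Finset.mul_sum, Finset.sum_div]
      exact Finset.sum_congr rfl fun φ _ => by rw [div_pow, mul_pow]
    rw [e, sub_nonneg, div_le_iff₀ (by positivity)] at h
    push_cast at h
    linarith
  have hs0 : s = 0 := by
    have hs01 : s = 0 ∨ s = 1 := by
      by_contra hh
      rcases lt_trichotomy s 0 with h | h | h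
      · have hsR : (s : ℝ) ≤ -1 := by exact_mod_cast (by omega : s ≤ -1)
        have : (0 : ℝ) ≤ (s : ℝ) ^ 2 * ∑ φ ∈ S₀, (d φ : ℝ) ^ 2 :=
          mul_nonneg (sq_nonneg _) (Finset.sum_nonneg fun _ _ => sq_nonneg _)
        have h2 : (0 : ℝ) ≤ 1 + 2 * a * s :=
          nonneg_of_mul_nonneg_left (this.trans hres) (by positivity)
        nlinarith
      · exact hh (Or.inl h)
      · have hsR : (2 : ℝ) ≤ (s : ℝ) := by exact_mod_cast (by omega : (2 : ℤ) ≤ s)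
        have h1 : (s : ℝ) ^ 2 * (2 * a * d ψ ^ 2) < (1 + 2 * a * s) * (d ψ : ℝ) ^ 2 :=
          (mul_lt_mul_of_pos_left hr (by positivity)).trans_le hres
        have h2 : (s : ℝ) ^ 2 * (2 * a) < 1 + 2 * a * s :=
          lt_of_mul_lt_mul_right (a := (d ψ : ℝ) ^ 2) (by linarith) (sq_nonneg _)
        nlinarith [mul_le_mul_of_nonneg_right hsR (show (0:ℝ) ≤ (a:ℝ) * s by positivity), mul_le_mul haR hsR (by norm_num) (by linarith)]
    refine hs01.resolve_right fun h1 => ?_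
    subst s
    choose! k hk using fun φ (hφ : φ ∈ S₀) => classInner_int hWgen (h1gen _ (hmem₁ φ hφ))
    have hkd : ∀ φ ∈ S₀, (k φ : ℂ) * (d ψ : ℂ) = (d φ : ℂ) := fun φ hφ => by
      rw [← hk φ hφ, hWφ φ hφ, h1, Int.cast_one, one_mul, div_mul_cancel₀ _ hdψ]
    have hsq : ∑ φ ∈ S₀, k φ ^ 2 = 1 + 2 * (a : ℤ) := by
      have hle := norm_re_nonneg (W - ∑ φ ∈ S₀, ((k φ : ℝ) : ℂ) • τ₁ φ)
      rw [hproj (fun φ => (k φ : ℝ)) (fun φ hφ => by rw [hk φ hφ, Complex.ofReal_intCast]),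
        Complex.ofReal_re, h1, mul_one] at hle
      have hle' : ∑ φ ∈ S₀, k φ ^ 2 ≤ 1 + 2 * (a : ℤ) := by
        have : ((∑ φ ∈ S₀, k φ ^ 2 : ℤ) : ℝ) ≤ ((1 + 2 * (a : ℤ) : ℤ) : ℝ) := by
          push_cast at hle ⊢
          linarith
        exact_mod_cast this
      have hgt : 2 * (a : ℤ) < ∑ φ ∈ S₀, k φ ^ 2 := by
        have e : ∀ φ ∈ S₀, (d φ : ℝ) ^ 2 = (k φ : ℝ) ^ 2 * (d ψ : ℝ) ^ 2 := by
          intro φ hφ
          have h : (k φ : ℝ) * (d ψ : ℝ) = (d φ : ℝ) := by exact_mod_cast hkd φ hφ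
          rw [← h, mul_pow]
        rw [Finset.sum_congr rfl e, ← Finset.sum_mul] at hr
        have h := lt_of_mul_lt_mul_right hr (sq_nonneg _)
        exact_mod_cast h
      omega
    have hzero : W = ∑ φ ∈ S₀, ((k φ : ℝ) : ℂ) • τ₁ φ := by
      refine sub_eq_zero.mp (classInner_self_eq_zero ?_)
      rw [hproj (fun φ => (k φ : ℝ)) (fun φ hφ => by rw [hk φ hφ, Complex.ofReal_intCast]), h1, mul_one]
      have : ((1 + 2 * (a : ℤ) : ℤ) : ℝ) - ∑ φ ∈ S₀, (k φ : ℝ) ^ 2 = 0 := by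
        rw [← hsq]; push_cast; ring
      rw [this, Complex.ofReal_zero]
    have hone : ∀ φ ∈ S₀, τ₁ φ 1 = (k φ : ℂ) * τ₁ ψ 1 := by
      intro φ hφ
      have h := hτ1 _ (hzmono _ (hγfacts φ hφ))
      rw [hτγ φ hφ, Pi.sub_apply, Pi.smul_apply, Pi.smul_apply, smul_eq_mul, smul_eq_mul,
        sub_eq_zero] at h
      rw [← hkd φ hφ] at h
      exact mul_left_cancel₀ hdψ (h.trans (by ring))
    have hW1 : W 1 = (a : ℂ) * τ₁ ψ 1 := by
      rw [hW, Pi.add_apply, hY, hτ1 _ hβmem, zero_add, Pi.smul_apply, smul_eq_mul]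
    rw [hzero, Finset.sum_apply, Finset.sum_congr rfl fun φ hφ => show
      (((k φ : ℝ) : ℂ) • τ₁ φ) 1 = ((k φ ^ 2 : ℤ) : ℂ) * τ₁ ψ 1 by
        rw [Pi.smul_apply, smul_eq_mul, hone φ hφ, Complex.ofReal_intCast]; push_cast; ring,
      ← Finset.sum_mul, ← Int.cast_sum, hsq] at hW1
    have h0 : τ₁ ψ 1 = 0 := by
      have : ((1 + (a : ℤ) : ℤ) : ℂ) * τ₁ ψ 1 = 0 := by
        push_cast at hW1 ⊢
        linear_combination hW1
      exact (mul_eq_zero.mp this).resolve_left (Int.cast_ne_zero.mpr (by omega))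
    have hn1 : classInner (τ₁ ψ) (τ₁ ψ) = 1 := by
      rw [h1iso _ (hmem₁ ψ hψ) _ (hmem₁ ψ hψ), classInner_irr_self hψ1]
    rcases isGeneralized_norm_one (h1gen _ (hmem₁ ψ hψ)) hn1 with h | h
    · have := char_eq_zero_of_degree_zero h.isCharacter h0
      rw [this] at hn1
      simp [classInner] at hn1
    · have := neg_eq_zero.mp (char_eq_zero_of_degree_zero h.isCharacter (by rw [Pi.neg_apply, h0, neg_zero]))
      rw [this] at hn1
      simp [classInner] at hn1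
  have hW1 : classInner W W = 1 := by rw [hWW, hs0, mul_zero, add_zero, Int.cast_one]
  have hWp : ∀ φ ∈ S₀, classInner W (τ₁ φ) = 0 := fun φ hφ => by
    rw [hWφ φ hφ, hs0, Int.cast_zero, zero_mul, zero_div]
  -- the extension
  let X : (N → ℂ) → G → ℂ := fun φ => if φ = χ then W else τ₁ φ
  have hXχ : X χ = W := if_pos rfl
  have hX1 : ∀ φ ∈ S₀, X φ = τ₁ φ := fun φ hφ => if_neg (hne φ hφ)
  have hFo : ∀ φ ∈ F, ∀ φ' ∈ F, φ ≠ φ' → classInner φ φ' = 0 := fun φ hφ φ' hφ' h =>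
    classInner_irr_ne (hFirr φ hφ) (hFirr φ' hφ') h
  have hFn : ∀ φ ∈ F, classInner φ φ ≠ 0 := fun φ hφ => by
    rw [classInner_irr_self (hFirr φ hφ)]; exact one_ne_zero
  have hXiso : ∀ φ ∈ F, ∀ φ' ∈ F, classInner (X φ) (X φ') = classInner φ φ' := by
    intro φ hφ φ' hφ'
    simp only [hF, Finset.mem_insert] at hφ hφ'
    rcases hφ with hφ | hφ <;> rcases hφ' with hφ' | hφ'
    · rw [hφ, hφ', hXχ, hW1, classInner_irr_self hχ]
    · rw [hφ, hXχ, hX1 _ hφ', hWp _ hφ', classInner_irr_ne hχ (hirr _ hφ') (hne _ hφ').symm]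
    · rw [hφ', hXχ, hX1 _ hφ, ← conj_classInner W, hWp _ hφ, map_zero,
        classInner_irr_ne (hirr _ hφ) hχ (hne _ hφ)]
    · rw [hX1 _ hφ, hX1 _ hφ', h1iso _ (hmem₁ _ hφ) _ (hmem₁ _ hφ')]
  have hXg : ∀ φ ∈ F, IsGeneralizedCharacter G (X φ) := by
    intro φ hφ
    rcases Finset.mem_insert.mp hφ with hφ | hφ
    · rw [hφ, hXχ]; exact hWgen
    · rw [hX1 _ hφ]; exact h1gen _ (hmem₁ _ hφ)
  refine ⟨⟨β, hβmem, fun h => ?_⟩, ext' F X, isometry_ext' hFo hFn X hXiso hXg, ?_⟩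
  · have h' := hinβ χ
    rw [h, classInner_irr_self hχ, classInner_irr_ne hψ1 hχ (hne ψ hψ), mul_zero, sub_zero] at h'
    simp [classInner] at h'
  have hτ₁0 : τ₁ 0 = 0 := by
    have := h1smul _ (hmem₁ ψ hψ) 0
    rwa [zero_smul, zero_smul] at this
  have hon₁ : ∀ g ∈ zspan (↑S₀ : Set (N → ℂ)), ext' F X g = τ₁ g := by
    intro g hg
    induction hg using Submodule.span_induction with
    | mem φ hφ => rw [ext'_apply hFo hFn X (hSF φ hφ), hX1 φ hφ]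
    | zero => rw [ext'_zero, hτ₁0]
    | add f g hf hg i1 i2 => rw [ext'_add, h1add f hf g hg, i1, i2]
    | smul m f hf i1 => rw [ext'_zsmul, h1smul f hf, i1]
  rintro f ⟨hf, hf0⟩
  obtain ⟨i, f₁, hf₁, rfl⟩ : ∃ i : ℤ, ∃ f₁ ∈ zspan (↑S₀ : Set (N → ℂ)), f = i • χ + f₁ := by
    have hf' : f ∈ Submodule.span ℤ (insert χ (↑S₀ : Set (N → ℂ))) := by
      rw [← Finset.coe_insert]; exact hf
    obtain ⟨i, f₁, hf₁, rfl⟩ := Submodule.mem_span_insert.mp hf'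
    exact ⟨i, f₁, hf₁, rfl⟩
  set g := f₁ + (i * (a : ℤ)) • ψ with hg
  have hgmem : g ∈ zspan (↑S₀ : Set (N → ℂ)) :=
    Submodule.add_mem _ hf₁ (Submodule.smul_mem _ _ (hmem₁ ψ hψ))
  have hdecomp : i • χ + f₁ = g + i • β := by
    rw [hg, hβ]; simp only [← Int.cast_smul_eq_zsmul ℂ]; funext x
    simp only [Pi.add_apply, Pi.sub_apply, Pi.smul_apply, smul_eq_mul]
    push_cast
    ring
  have hiβ : i • β ∈ zspanOn (↑F : Set (N → ℂ)) {1}ᶜ :=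
    ⟨Submodule.smul_mem _ _ hβmem.1, fun x hx => by rw [Pi.smul_apply, hβmem.2 x hx, smul_zero]⟩
  have hgon : g ∈ zspanOn (↑S₀ : Set (N → ℂ)) {1}ᶜ := ⟨hgmem, fun x hx => by
    have h := hf0 x hx
    rw [hdecomp, Pi.add_apply, hiβ.2 x hx, add_zero] at h
    exact h⟩
  rw [ext'_add, ext'_zsmul, hon₁ f₁ hf₁, ext'_apply hFo hFn X hχF, hXχ, hdecomp,
    hadd _ (hzmono _ hgon) _ hiβ, hsmul _ hβmem, ← hagree g hgon, hg,
    h1add _ hf₁ _ (Submodule.smul_mem _ _ (hmem₁ ψ hψ)), h1smul _ (hmem₁ ψ hψ), ← hY, hW]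
  simp only [← Int.cast_smul_eq_zsmul ℂ]
  push_cast
  module

end Cfsg.Agent.S1530
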