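import Cfsg.Statements.S1531
import Cfsg.Agent.S1516

set_option autoImplicit false
open Cfsg

namespace Cfsg.Agent.S1531

open Cfsg Cfsg.Lib.Characters Cfsg.Agent.S1516
open scoped ComplexConjugate

universe u

theorem parallel {G : Type u} [Group G] [Fintype G] {f g : G → ℂ} (hf : IsGeneralizedCharacter G f)
    (hg : IsGeneralizedCharacter G g) (hf1 : classInner f f = 1) (hg1 : classInner g g = 1)
    (h : classInner f g ≠ 0) : ∃ ε : ℂ, ε ≠ 0 ∧ classInner f g = ε ∧ f = ε • g := by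
  obtain ⟨k, hk⟩ := classInner_int hf hg
  have hk0 : k ≠ 0 := fun h0 => h (by rw [hk, h0, Int.cast_zero])
  have e : classInner (f - (k : ℂ) • g) (f - (k : ℂ) • g) = ((1 - k ^ 2 : ℤ) : ℂ) := by
    rw [classInner_sub_left, classInner_sub_right, classInner_sub_right]
    simp only [classInner_smul_left, classInner_smul_right]
    rw [hf1, hg1, ← conj_classInner f g, hk]
    simp only [map_intCast]
    push_cast
    ring
  have hge := norm_re_nonneg (f - (k : ℂ) • g)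
  rw [e, Complex.intCast_re] at hge
  have hge' : (0 : ℤ) ≤ 1 - k ^ 2 := by exact_mod_cast hge
  have hpos : 0 < k ^ 2 := sq_pos_of_ne_zero hk0
  have hz : 1 - k ^ 2 = 0 := by omega
  rw [hz, Int.cast_zero] at e
  exact ⟨k, Int.cast_ne_zero.mpr hk0, hk, sub_eq_zero.mp (classInner_self_eq_zero e)⟩

/-- Let N be a subgroup of the finite group G, S a set of irreducible characters of N, and α a linear isometry on the integer combinations of S vanishing at 1 with values virtual characters of G vanishing at 1. Let X, Y ⊆ S be disjoint, each with at least two members, and σ, τ linear isometries on ℤ[X], ℤ[Y] into virtual characters agreeing with α on the members vanishing at 1. Then ⟨σ χ, τ η⟩ = 0 for χ ∈ X, η ∈ Y; and if for some χ₀ ∈ X, η₀ ∈ Y with degrees c = χ₀ 1, e = η₀ 1 one has α (c • η₀ − e • χ₀) = c • τ η₀ − e • σ χ₀, then (X ∪ Y, N minus 1, α) is coherent. -/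
theorem result {G : Type*} [Group G] [Fintype G] (N : Subgroup G) [Fintype N] (S X Y : Set (N → ℂ)) (hirr : ∀ ξ ∈ S, Cfsg.IsIrrCharacter N ξ) (hXS : X ⊆ S) (hYS : Y ⊆ S) (hXY : Disjoint X Y) (hX2 : ∃ a ∈ X, ∃ b ∈ X, a ≠ b) (hY2 : ∃ a ∈ Y, ∃ b ∈ Y, a ≠ b) (α : (N → ℂ) → (G → ℂ)) (hα : Cfsg.IsLinearIsometryOn (Cfsg.zspanOn S {1}ᶜ) α) (hα1 : ∀ θ ∈ Cfsg.zspanOn S {1}ᶜ, α θ 1 = 0) (σ τ : (N → ℂ) → (G → ℂ)) (hσ : Cfsg.IsLinearIsometryOn (Cfsg.zspan X) σ) (hσα : ∀ θ ∈ Cfsg.zspanOn X {1}ᶜ, σ θ = α θ) (hτ : Cfsg.IsLinearIsometryOn (Cfsg.zspan Y) τ) (hτα : ∀ θ ∈ Cfsg.zspanOn Y {1}ᶜ, τ θ = α θ) : (∀ χ ∈ X, ∀ η ∈ Y, Cfsg.classInner (σ χ) (τ η) = 0) ∧ ((∃ χ₀ ∈ X, ∃ η₀ ∈ Y, α (χ₀ 1 • η₀ - η₀ 1 • χ₀) = χ₀ 1 • τ η₀ - η₀ 1 • σ χ₀) → Cfsg.IsCoherent (X ∪ Y) {1}ᶜ α) := by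
  classical
  have : Finite (IrrCharacter N) := finite_irrCharacter
  have hSfin : S.Finite := (Set.finite_range (fun ξ : IrrCharacter N => (ξ : N → ℂ))).subset
    fun ξ hξ => ⟨⟨ξ, hirr ξ hξ⟩, rfl⟩
  obtain ⟨aadd, asmul, aiso, agen⟩ := hα
  obtain ⟨sadd, ssmul, siso, sgen⟩ := hσ
  obtain ⟨tadd, tsmul, tiso, tgen⟩ := hτ
  choose! d hd using fun ξ (hξ : ξ ∈ S) => exists_degree (hirr ξ hξ).isCharacter
  have hd0 : ∀ ξ ∈ S, d ξ ≠ 0 := fun ξ hξ h => by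
    have h0 := char_eq_zero_of_degree_zero (hirr ξ hξ).isCharacter (by rw [hd ξ hξ, h, Nat.cast_zero])
    have h1 := classInner_irr_self (hirr ξ hξ)
    rw [h0] at h1
    simp [classInner] at h1
  have hon : ∀ ξ ∈ S, ∀ η ∈ S, ξ ≠ η → classInner ξ η = 0 := fun ξ hξ η hη h =>
    classInner_irr_ne (hirr ξ hξ) (hirr η hη) h
  have hmem : ∀ (Z : Set (N → ℂ)) (ξ : N → ℂ), ξ ∈ Z → ξ ∈ zspan Z := fun Z ξ h => Submodule.subset_span h
  -- differences of two members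
  have hdiff : ∀ Z ⊆ S, ∀ ξ ∈ Z, ∀ ξ' ∈ Z, ((d ξ' : ℤ) • ξ - (d ξ : ℤ) • ξ') ∈ zspanOn Z {1}ᶜ := by
    intro Z hZ ξ hξ ξ' hξ'
    refine ⟨Submodule.sub_mem _ (Submodule.smul_mem _ _ (hmem Z ξ hξ))
      (Submodule.smul_mem _ _ (hmem Z ξ' hξ')), fun x hx => ?_⟩
    rw [show x = 1 by simpa using hx, Pi.sub_apply, Pi.smul_apply, Pi.smul_apply, hd ξ (hZ hξ),
      hd ξ' (hZ hξ'), zsmul_eq_mul, zsmul_eq_mul]
    push_cast
    ring
  have hval : ∀ (Z : Set (N → ℂ)), Z ⊆ S → ∀ (ω : (N → ℂ) → G → ℂ),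
      (∀ a ∈ zspan Z, ∀ b ∈ zspan Z, ω (a + b) = ω a + ω b) →
      (∀ a ∈ zspan Z, ∀ n : ℤ, ω (n • a) = n • ω a) → (∀ θ ∈ zspanOn Z {1}ᶜ, ω θ = α θ) →
      ∀ ξ ∈ Z, ∀ ξ' ∈ Z, α ((d ξ' : ℤ) • ξ - (d ξ : ℤ) • ξ') =
        (d ξ' : ℂ) • ω ξ - (d ξ : ℂ) • ω ξ' := by
    intro Z hZ ω wadd wsmul wα ξ hξ ξ' hξ'
    rw [← wα _ (hdiff Z hZ ξ hξ ξ' hξ'), eq_sub_iff_add_eq]
    have e1 : ((d ξ : ℂ) • ω ξ') = ω ((d ξ : ℤ) • ξ') := by
      rw [wsmul _ (hmem Z ξ' hξ'), ← Int.cast_smul_eq_zsmul ℂ, Int.cast_natCast]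
    have e2 : ((d ξ' : ℂ) • ω ξ) = ω ((d ξ' : ℤ) • ξ) := by
      rw [wsmul _ (hmem Z ξ hξ), ← Int.cast_smul_eq_zsmul ℂ, Int.cast_natCast]
    rw [e1, e2, ← wadd _ (hdiff Z hZ ξ hξ ξ' hξ').1 _ (Submodule.smul_mem _ _ (hmem Z ξ' hξ')),
      sub_add_cancel]
  have hother : ∀ Z : Set (N → ℂ), (∃ a ∈ Z, ∃ b ∈ Z, a ≠ b) → ∀ c ∈ Z, ∃ c' ∈ Z, c' ≠ c := by
    rintro Z ⟨a, ha, b, hb, hab⟩ c -
    by_cases h : a = c
    · exact ⟨b, hb, fun e => hab (h.trans e.symm)⟩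
    · exact ⟨a, ha, h⟩
  have hsn : ∀ χ ∈ X, classInner (σ χ) (σ χ) = 1 := fun χ hχ => by
    rw [siso _ (hmem X χ hχ) _ (hmem X χ hχ), classInner_irr_self (hirr χ (hXS hχ))]
  have htn : ∀ η ∈ Y, classInner (τ η) (τ η) = 1 := fun η hη => by
    rw [tiso _ (hmem Y η hη) _ (hmem Y η hη), classInner_irr_self (hirr η (hYS hη))]
  -- orthogonality
  have horth : ∀ χ ∈ X, ∀ η ∈ Y, classInner (σ χ) (τ η) = 0 := by
    intro χ hχ η hη
    by_contra hne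
    obtain ⟨ε, hε, hεi, hεf⟩ := parallel (sgen _ (hmem X χ hχ)) (tgen _ (hmem Y η hη)) (hsn χ hχ)
      (htn η hη) hne
    obtain ⟨χ', hχ', hχne⟩ := hother X hX2 χ hχ
    obtain ⟨η', hη', hηne⟩ := hother Y hY2 η hη
    have h1 : classInner (σ χ) (τ η') = 0 := by
      rw [hεf, classInner_smul_left, tiso _ (hmem Y η hη) _ (hmem Y η' hη'),
        hon η (hYS hη) η' (hYS hη') hηne.symm, mul_zero]
    have h2 : classInner (σ χ') (τ η) = 0 := by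
      have h : classInner (σ χ') (σ χ) = 0 := by
        rw [siso _ (hmem X χ' hχ') _ (hmem X χ hχ), hon χ' (hXS hχ') χ (hXS hχ) hχne]
      rw [hεf, classInner_smul_right] at h
      exact (mul_eq_zero.mp h).resolve_left ((map_ne_zero _).mpr hε)
    have hθ1 := hdiff S subset_rfl χ (hXS hχ) χ' (hXS hχ')
    have hθ2 := hdiff S subset_rfl η (hYS hη) η' (hYS hη')
    have hαX := hval X hXS σ sadd ssmul hσα χ hχ χ' hχ'
    have hαY := hval Y hYS τ tadd tsmul hτα η hη η' hη'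
    have hz : ∀ a ∈ X, ∀ b ∈ Y, classInner a b = 0 := fun a ha b hb =>
      hon a (hXS ha) b (hYS hb) fun e => Set.disjoint_left.mp hXY ha (e ▸ hb)
    have hq := aiso _ hθ1 _ hθ2
    rw [hαX, hαY] at hq
    simp only [← Int.cast_smul_eq_zsmul ℂ, Int.cast_natCast, classInner_sub_left, classInner_sub_right,
      classInner_smul_left, classInner_smul_right, map_natCast, hz χ hχ η hη, hz χ hχ η' hη',
      hz χ' hχ' η hη, hz χ' hχ' η' hη', hεi, h1, h2, mul_zero, sub_zero, zero_sub] at hq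
    have hdc : (d χ : ℂ) ≠ 0 := Nat.cast_ne_zero.mpr (hd0 χ (hXS hχ))
    have hdc' : (d χ' : ℂ) ≠ 0 := Nat.cast_ne_zero.mpr (hd0 χ' (hXS hχ'))
    have hde : (d η : ℂ) ≠ 0 := Nat.cast_ne_zero.mpr (hd0 η (hYS hη))
    have hde' : (d η' : ℂ) ≠ 0 := Nat.cast_ne_zero.mpr (hd0 η' (hYS hη'))
    have hne' : classInner (σ χ') (τ η') ≠ 0 := by
      intro h0
      rw [h0] at hq
      have : (d χ' : ℂ) * (d η' : ℂ) * ε = 0 := by linear_combination hq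
      exact mul_ne_zero (mul_ne_zero hdc' hde') hε this
    obtain ⟨ε', -, hε'i, hε'f⟩ := parallel (sgen _ (hmem X χ' hχ')) (tgen _ (hmem Y η' hη'))
      (hsn χ' hχ') (htn η' hη') hne'
    rw [hε'i] at hq
    have hX1 : (d χ' : ℂ) * (ε * τ η 1) = (d χ : ℂ) * (ε' * τ η' 1) := by
      have h := hα1 _ hθ1
      rw [hαX, hεf, hε'f] at h
      simp only [Pi.sub_apply, Pi.smul_apply, smul_eq_mul] at h
      exact sub_eq_zero.mp h
    have hY1 : (d η' : ℂ) * τ η 1 = (d η : ℂ) * τ η' 1 := by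
      have h := hα1 _ hθ2
      rw [hαY] at h
      simp only [Pi.sub_apply, Pi.smul_apply, smul_eq_mul] at h
      exact sub_eq_zero.mp h
    have hv : τ η' 1 ≠ 0 := by
      intro h0
      rcases isGeneralized_norm_one (tgen _ (hmem Y η' hη')) (htn η' hη') with h | h
      · have := htn η' hη'
        rw [char_eq_zero_of_degree_zero h.isCharacter h0] at this
        simp [classInner] at this
      · have := htn η' hη'
        rw [neg_eq_zero.mp (char_eq_zero_of_degree_zero h.isCharacter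
          (by rw [Pi.neg_apply, h0, neg_zero]))] at this
        simp [classInner] at this
    have hr : ε * (d χ' : ℂ) * (d η : ℂ) - ε' * (d χ : ℂ) * (d η' : ℂ) = 0 := by
      have : (ε * (d χ' : ℂ) * (d η : ℂ) - ε' * (d χ : ℂ) * (d η' : ℂ)) * τ η' 1 = 0 := by
        linear_combination (d η' : ℂ) * hX1 - ε * (d χ' : ℂ) * hY1
      exact (mul_eq_zero.mp this).resolve_right hv
    have hfin : ε * (d χ' : ℂ) * ((d η ^ 2 + d η' ^ 2 : ℕ) : ℂ) = 0 := by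
      push_cast
      linear_combination (d η : ℂ) * hr + (d η' : ℂ) * hq
    refine mul_ne_zero (mul_ne_zero hε hdc') (Nat.cast_ne_zero.mpr ?_) hfin
    have := Nat.pos_of_ne_zero (hd0 η (hYS hη))
    positivity
  refine ⟨horth, ?_⟩
  rintro ⟨χ₀, hχ₀, η₀, hη₀, hglue⟩
  set F := (hSfin.subset (Set.union_subset hXS hYS)).toFinset with hF
  have hFc : (↑F : Set (N → ℂ)) = X ∪ Y := Set.Finite.coe_toFinset _
  have hFmem : ∀ φ, φ ∈ F ↔ φ ∈ X ∪ Y := fun φ => Set.Finite.mem_toFinset _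
  have hFS : ∀ φ ∈ F, φ ∈ S := fun φ h => Set.union_subset hXS hYS ((hFmem φ).mp h)
  let Z : (N → ℂ) → G → ℂ := fun φ => if φ ∈ X then σ φ else τ φ
  have hZX : ∀ φ ∈ X, Z φ = σ φ := fun φ h => if_pos h
  have hZY : ∀ φ ∈ Y, Z φ = τ φ := fun φ h => if_neg fun h' => Set.disjoint_left.mp hXY h' h
  have hFo : ∀ φ ∈ F, ∀ φ' ∈ F, φ ≠ φ' → classInner φ φ' = 0 := fun φ hφ φ' hφ' =>
    hon φ (hFS φ hφ) φ' (hFS φ' hφ')
  have hFn : ∀ φ ∈ F, classInner φ φ ≠ 0 := fun φ hφ => by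
    rw [classInner_irr_self (hirr φ (hFS φ hφ))]; exact one_ne_zero
  have hzX : ∀ a ∈ X, ∀ b ∈ Y, classInner a b = 0 := fun a ha b hb =>
    hon a (hXS ha) b (hYS hb) fun e => Set.disjoint_left.mp hXY ha (e ▸ hb)
  have hZiso : ∀ φ ∈ F, ∀ φ' ∈ F, classInner (Z φ) (Z φ') = classInner φ φ' := by
    intro φ hφ φ' hφ'
    rcases (hFmem φ).mp hφ with h | h <;> rcases (hFmem φ').mp hφ' with h' | h'
    · rw [hZX _ h, hZX _ h', siso _ (hmem X _ h) _ (hmem X _ h')]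
    · rw [hZX _ h, hZY _ h', horth _ h _ h', hzX _ h _ h']
    · rw [hZY _ h, hZX _ h', ← conj_classInner (σ φ'), horth _ h' _ h, ← conj_classInner φ',
        hzX _ h' _ h]
    · rw [hZY _ h, hZY _ h', tiso _ (hmem Y _ h) _ (hmem Y _ h')]
  have hZg : ∀ φ ∈ F, IsGeneralizedCharacter G (Z φ) := by
    intro φ hφ
    rcases (hFmem φ).mp hφ with h | h
    · rw [hZX _ h]; exact sgen _ (hmem X _ h)
    · rw [hZY _ h]; exact tgen _ (hmem Y _ h)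
  set E := ext' F Z with hE
  have honX : ∀ g ∈ zspan X, E g = σ g := by
    intro g hg
    induction hg using Submodule.span_induction with
    | mem φ hφ => rw [hE, ext'_apply hFo hFn Z ((hFmem φ).mpr (Or.inl hφ)), hZX φ hφ]
    | zero =>
      have := ssmul _ (hmem X χ₀ hχ₀) 0
      rw [zero_smul, zero_smul] at this
      rw [hE, ext'_zero, this]
    | add f g hf hg i1 i2 => rw [hE, ext'_add, ← hE, sadd f hf g hg, i1, i2]
    | smul m f hf i1 => rw [hE, ext'_zsmul, ← hE, ssmul f hf, i1]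
  have honY : ∀ g ∈ zspan Y, E g = τ g := by
    intro g hg
    induction hg using Submodule.span_induction with
    | mem φ hφ => rw [hE, ext'_apply hFo hFn Z ((hFmem φ).mpr (Or.inr hφ)), hZY φ hφ]
    | zero =>
      have := tsmul _ (hmem Y η₀ hη₀) 0
      rw [zero_smul, zero_smul] at this
      rw [hE, ext'_zero, this]
    | add f g hf hg i1 i2 => rw [hE, ext'_add, ← hE, tadd f hf g hg, i1, i2]
    | smul m f hf i1 => rw [hE, ext'_zsmul, ← hE, tsmul f hf, i1]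
  set δ : N → ℂ := (d χ₀ : ℤ) • η₀ - (d η₀ : ℤ) • χ₀ with hδ
  have hδU : δ ∈ zspanOn (X ∪ Y) {1}ᶜ :=
    hdiff (X ∪ Y) (Set.union_subset hXS hYS) η₀ (Or.inr hη₀) χ₀ (Or.inl hχ₀)
  have hδα : α δ = (d χ₀ : ℤ) • τ η₀ - (d η₀ : ℤ) • σ χ₀ := by
    rw [hd χ₀ (hXS hχ₀), hd η₀ (hYS hη₀)] at hglue
    rw [hδ]
    simp only [← Int.cast_smul_eq_zsmul ℂ, Int.cast_natCast]
    exact hglue
  have hEδ : E δ = α δ := by
    rw [hδα, hδ, hE, sub_eq_add_neg, ext'_add, ← neg_smul, ext'_zsmul, ext'_zsmul, ← hE,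
      honX χ₀ (hmem X _ hχ₀), honY η₀ (hmem Y _ hη₀), neg_smul, ← sub_eq_add_neg]
  refine ⟨⟨δ, hδU, fun h0 => ?_⟩, E, ?_, ?_⟩
  · have h : classInner δ η₀ = (d χ₀ : ℂ) := by
      simp only [hδ, ← Int.cast_smul_eq_zsmul ℂ, Int.cast_natCast, classInner_sub_left,
        classInner_smul_left, classInner_irr_self (hirr η₀ (hYS hη₀)), hzX χ₀ hχ₀ η₀ hη₀]
      ring
    rw [h0] at h
    exact hd0 χ₀ (hXS hχ₀) (Nat.cast_eq_zero.mp (h.symm.trans (by simp [classInner])))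
  · rw [← hFc]
    exact isometry_ext' hFo hFn Z hZiso hZg
  rintro f ⟨hf, hf0⟩
  have hf' : f ∈ Submodule.span ℤ X ⊔ Submodule.span ℤ Y := by
    rw [← Submodule.span_union]; exact hf
  obtain ⟨f₁, hf₁, f₂, hf₂, rfl⟩ := Submodule.mem_sup.mp hf'
  have hint : ∃ m : ℤ, f₁ 1 = m := by
    refine Submodule.span_induction (p := fun (g : N → ℂ) _ => ∃ m : ℤ, g 1 = (m : ℂ)) ?_ ⟨0, by simp⟩ ?_ ?_ hf₁
    · exact fun φ hφ => ⟨d φ, by rw [hd φ (hXS hφ)]; simp⟩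
    · rintro g g' - - ⟨m, hm⟩ ⟨m', hm'⟩
      exact ⟨m + m', by rw [Pi.add_apply, hm, hm']; push_cast; rfl⟩
    · rintro c g - ⟨m, hm⟩
      exact ⟨c * m, by rw [Pi.smul_apply, hm, zsmul_eq_mul]; push_cast; rfl⟩
  obtain ⟨m, hm⟩ := hint
  have hm2 : f₂ 1 = -(m : ℂ) := by
    have h := hf0 1 (by simp)
    rw [Pi.add_apply, hm] at h
    exact eq_neg_of_add_eq_zero_right h
  set D : ℤ := (d χ₀ : ℤ) * (d η₀ : ℤ) with hD
  set g₁ := D • f₁ + (-(m * (d η₀ : ℤ))) • χ₀ with hg₁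
  set g₂ := D • f₂ + (m * (d χ₀ : ℤ)) • η₀ with hg₂
  have hg₁m : g₁ ∈ zspanOn X {1}ᶜ := by
    refine ⟨Submodule.add_mem _ (Submodule.smul_mem _ _ hf₁) (Submodule.smul_mem _ _ (hmem X _ hχ₀)),
      fun x hx => ?_⟩
    rw [show x = 1 by simpa using hx, hg₁, Pi.add_apply, Pi.smul_apply, Pi.smul_apply, hm,
      hd χ₀ (hXS hχ₀), zsmul_eq_mul, zsmul_eq_mul, hD]
    push_cast
    ring
  have hg₂m : g₂ ∈ zspanOn Y {1}ᶜ := by
    refine ⟨Submodule.add_mem _ (Submodule.smul_mem _ _ hf₂) (Submodule.smul_mem _ _ (hmem Y _ hη₀)),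
      fun x hx => ?_⟩
    rw [show x = 1 by simpa using hx, hg₂, Pi.add_apply, Pi.smul_apply, Pi.smul_apply, hm2,
      hd η₀ (hYS hη₀), zsmul_eq_mul, zsmul_eq_mul, hD]
    push_cast
    ring
  have hup : ∀ {Z : Set (N → ℂ)}, Z ⊆ S → ∀ g ∈ zspanOn Z {1}ᶜ, g ∈ zspanOn S {1}ᶜ :=
    fun hZ g hg => ⟨Submodule.span_mono hZ hg.1, hg.2⟩
  have hUS : X ∪ Y ⊆ S := Set.union_subset hXS hYS
  have hδS := hup hUS _ hδU
  have hmδ : (-m) • δ ∈ zspanOn S {1}ᶜ :=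
    ⟨Submodule.smul_mem _ _ hδS.1, fun x hx => by rw [Pi.smul_apply, hδS.2 x hx, smul_zero]⟩
  have h12 : g₁ + g₂ ∈ zspanOn S {1}ᶜ :=
    ⟨Submodule.add_mem _ (hup hXS _ hg₁m).1 (hup hYS _ hg₂m).1, fun x hx => by
      rw [Pi.add_apply, hg₁m.2 x hx, hg₂m.2 x hx, add_zero]⟩
  have hdec : D • (f₁ + f₂) = (g₁ + g₂) + (-m) • δ := by
    rw [hg₁, hg₂, hδ, hD]
    module
  have hkey : D • E (f₁ + f₂) = D • α (f₁ + f₂) := by
    rw [← ext'_zsmul, ← asmul _ (hup hUS _ ⟨hf, hf0⟩), ← hE, hdec, aadd _ h12 _ hmδ,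
      aadd _ (hup hXS _ hg₁m) _ (hup hYS _ hg₂m), asmul _ hδS, hE, ext'_add, ext'_add, ext'_zsmul,
      ← hE, hEδ, honX _ hg₁m.1, honY _ hg₂m.1, hσα _ hg₁m, hτα _ hg₂m]
  have hD0 : (D : ℂ) ≠ 0 := Int.cast_ne_zero.mpr (mul_ne_zero
    (Int.natCast_ne_zero.mpr (hd0 χ₀ (hXS hχ₀))) (Int.natCast_ne_zero.mpr (hd0 η₀ (hYS hη₀))))
  rw [← Int.cast_smul_eq_zsmul ℂ, ← Int.cast_smul_eq_zsmul ℂ] at hkey
  funext x
  exact mul_left_cancel₀ hD0 (congrFun hkey x)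

end Cfsg.Agent.S1531
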