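import Cfsg.Statements.S1532
import Cfsg.Agent.Lib.Characters.SibleyApps


set_option autoImplicit false
open Cfsg

namespace Cfsg.Agent.S1532

/-- Let G be a finite group, p an odd prime and P a Sylow p-subgroup that is non-abelian, whose underlying set is a TI-subset of G, with P properly contained in its set normaliser N and C_G(x) ≤ P for every non-identity x ∈ P. Let Z be a nontrivial subgroup of the centre of P normalised by N. Then the set of irreducible characters χ of N with χ z ≠ χ 1 for some z ∈ Z is coherent for the map induced by induction from N to G. -/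
theorem result {G : Type*} [Group G] [Fintype G] (p : ℕ) [Fact p.Prime] (hp : p ≠ 2) (P : Sylow p G) (hna : ¬ IsMulCommutative (P : Subgroup G)) (hTI : Cfsg.IsTISubset ((P : Subgroup G) : Set G)) (hlt : (P : Subgroup G) < Subgroup.normalizer ((P : Subgroup G) : Set G)) (hC : ∀ k ∈ (P : Subgroup G), k ≠ 1 → Subgroup.centralizer ({k} : Set G) ≤ (P : Subgroup G)) [Fintype ↥(Subgroup.normalizer ((P : Subgroup G) : Set G))] (Z : Subgroup G) (hZ1 : Z ≠ ⊥) (hZP : ∀ z ∈ Z, z ∈ (P : Subgroup G) ∧ ∀ y ∈ (P : Subgroup G), z * y = y * z) (hZn : ∀ x ∈ Subgroup.normalizer ((P : Subgroup G) : Set G), ∀ z ∈ Z, x * z * x⁻¹ ∈ Z) : Cfsg.IsCoherent {χ : ↥(Subgroup.normalizer ((P : Subgroup G) : Set G)) → ℂ | Cfsg.IsIrrCharacter ↥(Subgroup.normalizer ((P : Subgroup G) : Set G)) χ ∧ ∃ z : ↥(Subgroup.normalizer ((P : Subgroup G) : Set G)), (z : G) ∈ Z ∧ χ z ≠ χ 1} {1}ᶜ (fun α => Cfsg.indFun (Subgroup.normalizer ((P : Subgroup G) : Set G)) α) := by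
  classical
  have h := Cfsg.Lib.Characters.SibleyApps.sylow_coherent hp P hna hTI hC _ rfl
  refine Cfsg.Lib.Characters.isCoherent_subset h ?_ ?_
  · rintro χ ⟨hχ, z, hz, hne⟩
    exact ⟨hχ, z, (hZP _ hz).1, hne⟩
  · obtain ⟨z, hz, hz1⟩ := (Subgroup.bot_or_exists_ne_one Z).resolve_left hZ1
    set z' : ↥(Subgroup.normalizer ((P : Subgroup G) : Set G)) :=
      ⟨z, Subgroup.le_normalizer (hZP z hz).1⟩ with hz'
    have hz'1 : z' ≠ 1 := fun e => hz1 (congrArg Subtype.val e)
    obtain ⟨χ, hχ⟩ : ∃ χ : Cfsg.IrrCharacter ↥(Subgroup.normalizer ((P : Subgroup G) : Set G)),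
        χ.1 z' ≠ χ.1 1 := by
      by_contra hall
      push Not at hall
      have h1 := Cfsg.Lib.Characters.sum_degree_mul_irr z'
      rw [if_neg hz'1] at h1
      have h2 := Cfsg.Lib.Characters.sum_sq_degree (G := ↥(Subgroup.normalizer ((P : Subgroup G) : Set G)))
      simp only [hall] at h1
      simp only [sq] at h2
      rw [h1] at h2
      replace h1 := h2.symm
      exact Nat.card_pos.ne' (Nat.cast_eq_zero.mp h1)
    have hodd : Odd (Nat.card ↥(Subgroup.normalizer ((P : Subgroup G) : Set G))) :=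
      Cfsg.Lib.Characters.SibleyApps.odd_normalizer hp P hna hC
    refine ⟨χ.1 - (fun g => (starRingEnd ℂ) (χ.1 g)), ⟨Submodule.sub_mem _
      (Submodule.subset_span ⟨χ.2, z', hz, hχ⟩) (Submodule.subset_span
        ⟨Cfsg.Lib.Characters.isIrrCharacter_conjVal χ.2, z', hz, fun e => hχ (star_injective e)⟩),
      fun x hx => ?_⟩, ?_⟩
    · obtain ⟨d, hd⟩ := Cfsg.Lib.Characters.exists_degree χ.2.isCharacter
      rw [show x = 1 by simpa using hx, Pi.sub_apply, hd, map_natCast, sub_self]
    · exact sub_ne_zero.mpr (Ne.symm (Cfsg.Lib.Characters.conjVal_ne_self hodd χ.2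
        (fun e => hχ (by rw [e]))))

end Cfsg.Agent.S1532
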