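import Cfsg.Statements.S1535
import Cfsg.Agent.Lib.Characters.FrobCoherence


set_option autoImplicit false
open Cfsg

namespace Cfsg.Agent.S1535

open Cfsg.Lib.Characters Cfsg.Lib.Characters.FrobCoh

universe u v

theorem split_exists {H : Type*} [Group H] [Fintype H] [Group.IsNilpotent H] {p : ℕ} (hp : p.Prime)
    (hnp : ¬ ∃ m : ℕ, Nat.card H = p ^ m) :
    ∃ (A B : Subgroup H) (k : ℕ), Nonempty (A × B ≃* H) ∧ Nat.Coprime (Nat.card A) (Nat.card B) ∧
      Nat.card A = p ^ k ∧ ¬ p ∣ Nat.card B ∧ Nontrivial B := by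
  have := Fact.mk hp
  obtain ⟨P, B, hBn, hc⟩ := Cfsg.Lib.Solv.hasNormalPComplement_of_nilpotent (G := H) p
  have hPn : (P : Subgroup H).Normal :=
    Sylow.normal_of_normalizerCondition Group.normalizerCondition_of_isNilpotent P
  obtain ⟨k, hk⟩ := IsPGroup.iff_card.mp P.isPGroup'
  obtain ⟨hcop, -⟩ := Cfsg.Lib.Transfer.coprime_card_of_isComplement' hc
  have hnB : ¬ p ∣ Nat.card B := (Nat.Prime.coprime_iff_not_dvd hp).mp hcop.symm
  have hdisj : Disjoint (P : Subgroup H) B := hc.disjoint.symm
  have hcomm : ∀ (a : (P : Subgroup H)) (b : B), Commute ((P : Subgroup H).subtype a) (B.subtype b) :=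
    fun a b => Subgroup.commute_of_normal_of_disjoint _ _ hPn hBn hdisj _ _ a.2 b.2
  have hinj : Function.Injective (MonoidHom.noncommCoprod (P : Subgroup H).subtype B.subtype hcomm) :=
    fun x y h => Subgroup.IsComplement'.symm hc |>.1 (a₁ := x) (a₂ := y) (by simpa using h)
  have hbij : Function.Bijective (MonoidHom.noncommCoprod (P : Subgroup H).subtype B.subtype hcomm) := by
    refine (Nat.bijective_iff_injective_and_card _).mpr ⟨hinj, ?_⟩
    rw [Nat.card_prod]
    exact (Subgroup.IsComplement'.symm hc).card_mul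
  refine ⟨P, B, k, ⟨MulEquiv.ofBijective _ hbij⟩, ?_, hk, hnB, ?_⟩
  · rw [hk]
    exact Nat.Coprime.pow_left _ hcop.symm
  · rw [← Finite.one_lt_card_iff_nontrivial]
    by_contra hle
    have h1 := hc.card_mul
    have h0 : 0 < Nat.card B := Nat.card_pos
    rw [show Nat.card B = 1 by omega, one_mul, hk] at h1
    exact hnp ⟨k, h1.symm⟩

theorem card_linear_prod {H A B : Type*} [Group H] [Fintype H] [Group A] [Fintype A] [Group B]
    [Fintype B] (ι : A × B ≃* H) :
    (commutator A).index * (commutator B).index ≤ (commutator H).index := by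
  classical
  rw [← card_deg_one, ← card_deg_one, ← card_deg_one, ← Finset.card_product]
  refine Finset.card_le_card_of_injOn
    (fun q => (⟨_, isIrrCharacter_mulEquiv (prodIrr q).2 ι.symm⟩ : IrrCharacter H)) (fun q hq => ?_)
    (fun q _ q' _ h => prodIrr_injective (Subtype.ext (funext fun x => ?_)))
  · simp only [Finset.coe_product, Set.mem_prod, Finset.mem_coe, Finset.mem_filter,
      Finset.mem_univ, true_and] at hq ⊢
    have e : (deg (⟨_, isIrrCharacter_mulEquiv (prodIrr q).2 ι.symm⟩ : IrrCharacter H) : ℂ) = 1 := by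
      rw [← deg_spec]
      show (q.1 : A → ℂ) (ι.symm 1).1 * (q.2 : B → ℂ) (ι.symm 1).2 = 1
      rw [map_one, Prod.fst_one, Prod.snd_one, deg_spec, deg_spec, hq.1, hq.2, Nat.cast_one, one_mul]
    exact_mod_cast e
  · simpa using congrFun (congrArg Subtype.val h) (ι x)


/-- Let N be a finite group with a proper nontrivial normal subgroup H such that every element commuting with a non-identity element of H lies in H (N is a Frobenius group with kernel H); let e be the index of H and suppose Nat.card H ≠ e + 1. Let S be the set of irreducible characters χ of N with χ h ≠ χ 1 for some h ∈ H, and τ a linear isometry on the integer combinations of S vanishing at 1, with values virtual characters of a finite group G vanishing at 1. Then (S, N minus 1, τ) is coherent, or there is a prime p with Nat.card H a power of p, H non-abelian and [H : [H,H]] ≤ 4e² + 1. -/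
theorem result {N : Type*} [Group N] [Fintype N] {G : Type*} [Group G] [Fintype G] (H : Subgroup N) [H.Normal] (hH1 : H ≠ ⊥) (hH2 : H ≠ ⊤) (hC : ∀ h ∈ H, h ≠ 1 → Subgroup.centralizer ({h} : Set N) ≤ H) (he : Nat.card H ≠ H.index + 1) (τ : (N → ℂ) → (G → ℂ)) (hτ : Cfsg.IsLinearIsometryOn (Cfsg.zspanOn {χ : N → ℂ | Cfsg.IsIrrCharacter N χ ∧ ∃ h ∈ H, χ h ≠ χ 1} {1}ᶜ) τ) (hτ1 : ∀ α ∈ Cfsg.zspanOn {χ : N → ℂ | Cfsg.IsIrrCharacter N χ ∧ ∃ h ∈ H, χ h ≠ χ 1} {1}ᶜ, τ α 1 = 0) : Cfsg.IsCoherent {χ : N → ℂ | Cfsg.IsIrrCharacter N χ ∧ ∃ h ∈ H, χ h ≠ χ 1} {1}ᶜ τ ∨ ∃ p : ℕ, p.Prime ∧ (∃ m : ℕ, Nat.card H = p ^ m) ∧ ¬ IsMulCommutative H ∧ (⁅H, H⁆.subgroupOf H).index ≤ 4 * H.index ^ 2 + 1 := by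
  classical
  obtain ⟨φ, r, hfpf⟩ := Cfsg.Agent.S1526.exists_fpf H hH2 hC
  have : Group.IsNilpotent H := Cfsg.Lib.Solv.ThompsonKernel.fpf_isNilpotent hfpf
  let : Fintype H := Fintype.ofFinite H
  have : Nontrivial H := (Subgroup.nontrivial_iff_ne_bot H).mpr hH1
  set e := H.index with he'
  have he0 : 0 < e := Nat.pos_of_ne_zero Subgroup.index_ne_zero_of_finite
  have hbase : e + 1 ≤ (commutator H).index := by
    refine index_lt_linear H hC (A := PUnit) (B := H) (MulEquiv.uniqueProd (M := H) (N := PUnit)) ?_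
    rw [show Nat.card PUnit = 1 from Nat.card_unique]
    exact Nat.coprime_one_left _
  have hlin : e + 1 < (commutator H).index →
      e < ((nonone H).filter fun θ => deg θ = 1).card := by
    intro h
    have h2 := card_linear_nonone H
    rw [card_deg_one] at h2
    omega
  have hnn : ∀ t : ℕ, ∑ φ ∈ Finset.univ.filter (fun φ : IrrCharacter H => deg φ < t), deg φ ^ 2 ≤
      ∑ φ ∈ (nonone H).filter (fun φ => deg φ < t), deg φ ^ 2 + 1 := by
    intro t
    refine (sum_nonone_le H _).trans ?_
    rw [Finset.filter_inter, Finset.univ_inter]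
  by_cases hcm : IsMulCommutative H
  · left
    have hbot : commutator H = ⊥ := by
      rw [commutator_def, Subgroup.commutator_eq_bot_iff_le_centralizer]
      intro x _ y _
      exact hcm.is_comm.comm y x
    have hidx : (commutator H).index = Nat.card H := by rw [hbot, Subgroup.index_bot]
    refine coherent_of_ineq H hC (hlin (by omega)) (fun θ hθ => absurd hθ ?_) τ hτ hτ1
    have h1 := sum_deg_sq H
    rw [← Finset.sum_filter_add_sum_filter_not _ (fun χ => deg χ = 1)] at h1
    rw [Finset.sum_congr rfl fun χ hχ => show deg χ ^ 2 = 1 by rw [(Finset.mem_filter.mp hχ).2, one_pow],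
      Finset.sum_const, card_deg_one, hidx, smul_eq_mul, mul_one] at h1
    intro hθ'
    have h2 := Finset.single_le_sum (f := fun χ : IrrCharacter H => deg χ ^ 2) (fun _ _ => Nat.zero_le _)
      (Finset.mem_filter.mpr ⟨Finset.mem_univ θ, (by omega : ¬ deg θ = 1)⟩ :
        θ ∈ Finset.univ.filter fun χ => ¬ deg χ = 1)
    nlinarith
  by_cases hpg : ∃ p : ℕ, p.Prime ∧ ∃ m : ℕ, Nat.card H = p ^ m
  · obtain ⟨p, hp, m, hm⟩ := hpg
    by_cases hsmall : (commutator H).index ≤ 4 * e ^ 2 + 1
    · refine Or.inr ⟨p, hp, ⟨m, hm⟩, hcm, ?_⟩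
      have : ⁅H, H⁆.subgroupOf H = commutator H := by
        have hmap : (commutator H).map H.subtype = ⁅H, H⁆ := by
          rw [commutator_def, Subgroup.map_commutator, ← MonoidHom.range_eq_map, Subgroup.range_subtype]
        rw [Subgroup.subgroupOf, ← hmap, Subgroup.comap_map_eq_self_of_injective H.subtype_injective]
      rw [this]; exact hsmall
    · left
      refine coherent_of_ineq H hC (hlin (by nlinarith)) (fun θ hθ => ?_) τ hτ hτ1
      set t := deg θ
      have h1 := hnn t
      have h2 := sum_below hp hm θ hθ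
      have h3 : (commutator H).index ≤
          ∑ φ ∈ Finset.univ.filter (fun φ : IrrCharacter H => deg φ < t), deg φ ^ 2 := by
        rw [← card_deg_one, Finset.card_eq_sum_ones]
        refine le_trans (le_of_eq ?_) (Finset.sum_le_sum_of_subset (s := Finset.univ.filter
          fun φ : IrrCharacter H => deg φ = 1) fun φ hφ => Finset.mem_filter.mpr
          ⟨Finset.mem_univ _, (Finset.mem_filter.mp hφ).2.trans_lt hθ⟩)
        exact Finset.sum_congr rfl fun φ hφ => by rw [(Finset.mem_filter.mp hφ).2, one_pow]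
      change t ^ 2 ≤ _ at h2
      rcases Nat.lt_or_ge t (2 * e + 1) with ht | ht
      · nlinarith
      · nlinarith
  · left
    push Not at hpg
    have hsplit : ∀ p : ℕ, p.Prime → _ := fun p hp =>
      split_exists (H := H) hp fun ⟨m, hm⟩ => hpg p hp m hm
    refine coherent_of_ineq H hC ?_ (fun θ hθ => ?_) τ hτ hτ1
    · obtain ⟨p, hp, hpd⟩ := Nat.exists_prime_and_dvd (n := Nat.card H) Finite.one_lt_card.ne'
      obtain ⟨A, B, k, ⟨ι⟩, hcop, hA, hnB, hB⟩ := hsplit p hp
      have hnA : Nontrivial A := by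
        rw [← Finite.one_lt_card_iff_nontrivial]
        by_contra hle
        have hc := Nat.card_congr ι.toEquiv
        have : 0 < Nat.card A := Nat.card_pos
        rw [Nat.card_prod, show Nat.card A = 1 by omega, one_mul] at hc
        exact hnB (hc ▸ hpd)
      have h1 := index_lt_linear H hC ι hcop
      have h2 := index_lt_linear H hC (A := B) (B := A) (MulEquiv.prodComm.trans ι) hcop.symm
      refine hlin (lt_of_lt_of_le ?_ ((Nat.mul_le_mul h2 h1).trans (card_linear_prod ι)))
      nlinarith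
    · obtain ⟨p, hp, hpθ⟩ := Nat.exists_prime_and_dvd (n := deg θ) hθ.ne'
      obtain ⟨A, B, k, ⟨ι⟩, hcop, hA, hnB, hB⟩ := hsplit p hp
      exact product_ineq H hC ι hcop hp hA hnB θ hpθ

end Cfsg.Agent.S1535
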