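import Cfsg.Statements.S1533
import Cfsg.Agent.Lib.Characters.SibleyApps
import Cfsg.Agent.S1535


set_option autoImplicit false
open Cfsg

namespace Cfsg.Agent.S1533

/-- Let G be a finite group, p an odd prime, and P a nontrivial Sylow p-subgroup whose underlying set is a TI-subset of G, with P properly contained in its set normaliser N and C_G(x) ≤ P for every non-identity x ∈ P. Let S be the set of irreducible characters χ of N with χ x ≠ χ 1 for some x ∈ P. Then either S has exactly one member, P is elementary abelian and Nat.card P = [N:P] + 1; or (S, N minus 1, induction to G) is coherent. -/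
theorem result {G : Type*} [Group G] [Fintype G] (p : ℕ) [Fact p.Prime] (hp : p ≠ 2) (P : Sylow p G) (hP1 : (P : Subgroup G) ≠ ⊥) (hTI : Cfsg.IsTISubset ((P : Subgroup G) : Set G)) (hlt : (P : Subgroup G) < Subgroup.normalizer ((P : Subgroup G) : Set G)) (hC : ∀ k ∈ (P : Subgroup G), k ≠ 1 → Subgroup.centralizer ({k} : Set G) ≤ (P : Subgroup G)) [Fintype ↥(Subgroup.normalizer ((P : Subgroup G) : Set G))] : (Nat.card {χ : ↥(Subgroup.normalizer ((P : Subgroup G) : Set G)) → ℂ // Cfsg.IsIrrCharacter ↥(Subgroup.normalizer ((P : Subgroup G) : Set G)) χ ∧ ∃ x : ↥(Subgroup.normalizer ((P : Subgroup G) : Set G)), (x : G) ∈ (P : Subgroup G) ∧ χ x ≠ χ 1} = 1 ∧ Cfsg.IsElementaryAbelian p (P : Subgroup G) ∧ Nat.card (P : Subgroup G) = ((P : Subgroup G).subgroupOf (Subgroup.normalizer ((P : Subgroup G) : Set G))).index + 1) ∨ Cfsg.IsCoherent {χ : ↥(Subgroup.normalizer ((P : Subgroup G) : Set G)) → ℂ | Cfsg.IsIrrCharacter ↥(Subgroup.normalizer ((P : Subgroup G) : Set G)) χ ∧ ∃ x : ↥(Subgroup.normalizer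 ((P : Subgroup G) : Set G)), (x : G) ∈ (P : Subgroup G) ∧ χ x ≠ χ 1} {1}ᶜ (fun α => Cfsg.indFun (Subgroup.normalizer ((P : Subgroup G) : Set G)) α) := by
  classical
  have hKN : (P : Subgroup G) ≤ Subgroup.normalizer ((P : Subgroup G) : Set G) := Subgroup.le_normalizer
  have := Cfsg.Lib.Characters.SibleyApps.normal_in_normalizer (P : Subgroup G)
  have hC' := Cfsg.Lib.Characters.SibleyApps.hC_normalizer hC
  have hH1 : (P : Subgroup G).subgroupOf (Subgroup.normalizer ((P : Subgroup G) : Set G)) ≠ ⊥ := fun h => hP1 (by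
    rw [← Cfsg.Lib.Characters.SibleyApps.map_eq (P : Subgroup G), h, Subgroup.map_bot])
  have hH2 : (P : Subgroup G).subgroupOf (Subgroup.normalizer ((P : Subgroup G) : Set G)) ≠ ⊤ := fun h =>
    hlt.not_ge (Subgroup.subgroupOf_eq_top.mp h)
  have hcardH : Nat.card ((P : Subgroup G).subgroupOf (Subgroup.normalizer ((P : Subgroup G) : Set G))) = Nat.card (P : Subgroup G) :=
    Nat.card_congr (Subgroup.subgroupOfEquivOfLe hKN).toEquiv
  by_cases hab : IsMulCommutative (P : Subgroup G)
  · by_cases hcard : Nat.card (P : Subgroup G) = ((P : Subgroup G).subgroupOf (Subgroup.normalizer ((P : Subgroup G) : Set G))).index + 1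
    · left
      let _ : Fintype ((P : Subgroup G).subgroupOf (Subgroup.normalizer ((P : Subgroup G) : Set G))) := Fintype.ofFinite _
      refine ⟨Cfsg.Lib.Characters.SibleyApps.card_exc_eq_one _ hC' hH1 (hcardH.trans hcard), ?_, hcard⟩
      have hnil : Group.IsNilpotent ((P : Subgroup G).subgroupOf (Subgroup.normalizer ((P : Subgroup G) : Set G))) := by
        have : Group.IsNilpotent (P : Subgroup G) := P.2.isNilpotent
        exact Group.nilpotent_of_mulEquiv (Subgroup.subgroupOfEquivOfLe hKN).symm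
      obtain ⟨-, r, hr, hexp⟩ := Cfsg.Lib.Characters.SibleyApps.elementary_of_card_eq _ hC' hH1
        (hcardH.trans hcard)
      refine ⟨hab, fun a ha => ?_⟩
      obtain ⟨b, hb, hb1⟩ := (Subgroup.bot_or_exists_ne_one (P : Subgroup G)).resolve_left hP1
      have h1 : b ^ r = 1 := congrArg Subtype.val (hexp ⟨b, hKN hb⟩ hb)
      obtain ⟨j, hj⟩ := P.2 ⟨b, hb⟩
      have h2 : b ^ p ^ j = 1 := congrArg Subtype.val hj
      have hrp : r = p := by
        have ho := orderOf_eq_prime (hp := ⟨hr⟩) h1 hb1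
        have hd := orderOf_dvd_of_pow_eq_one h2
        rw [ho] at hd
        exact (Nat.prime_dvd_prime_iff_eq hr Fact.out).mp (hr.dvd_of_dvd_pow hd)
      exact hrp ▸ congrArg Subtype.val (hexp ⟨a, hKN ha⟩ ha)
    · right
      obtain ⟨hτ, hτ1⟩ := Cfsg.Lib.Characters.SibleyApps.isometry_exc _ _ hC'
        (Cfsg.Lib.Characters.SibleyApps.hTI_normalizer hTI)
      rcases Cfsg.Agent.S1535.result _ hH1 hH2 hC' (hcardH.trans_ne hcard) _ hτ hτ1 with h | ⟨q, -, -, hna, -⟩
      · exact h
      · exact absurd ⟨⟨fun a b => Subtype.ext (Subtype.ext (congrArg (fun x : (P : Subgroup G) => (x : G))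
          (hab.is_comm.comm (⟨(a : ↥(Subgroup.normalizer ((P : Subgroup G) : Set G))), a.2⟩ : (P : Subgroup G))
            ⟨(b : ↥(Subgroup.normalizer ((P : Subgroup G) : Set G))), b.2⟩)))⟩⟩ hna
  · exact Or.inr (Cfsg.Lib.Characters.SibleyApps.sylow_coherent hp P hab hTI hC _ rfl)

end Cfsg.Agent.S1533
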