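import Cfsg.Statements.S1534
import Cfsg.Agent.Lib.Characters.SibleyApps
import Cfsg.Agent.S1535


set_option autoImplicit false
open Cfsg

namespace Cfsg.Agent.S1534

/-- Let G be a finite group and K a nontrivial nilpotent subgroup whose underlying set is a TI-subset of G, properly contained in its set normaliser N, with C_G(k) ≤ K for every non-identity k ∈ K; let e be the index of K in N and S the set of irreducible characters χ of N with χ k ≠ χ 1 for some k ∈ K. Then one of: S has exactly one member, Nat.card K = e + 1 and K is an elementary abelian p-group for some prime p; or K is a Sylow 2-subgroup of G (Nat.card K is the largest power of 2 dividing Nat.card G) and [K : [K,K]] < 4e²; or (S, N minus 1, induction to G) is coherent. -/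
theorem result {G : Type*} [Group G] [Fintype G] (K : Subgroup G) (hK1 : K ≠ ⊥) (hnil : Group.IsNilpotent K) (hTI : Cfsg.IsTISubset (K : Set G)) (hlt : K < Subgroup.normalizer (K : Set G)) (hC : ∀ k ∈ K, k ≠ 1 → Subgroup.centralizer ({k} : Set G) ≤ K) [Fintype ↥(Subgroup.normalizer (K : Set G))] : (Nat.card {χ : ↥(Subgroup.normalizer (K : Set G)) → ℂ // Cfsg.IsIrrCharacter ↥(Subgroup.normalizer (K : Set G)) χ ∧ ∃ k : ↥(Subgroup.normalizer (K : Set G)), (k : G) ∈ K ∧ χ k ≠ χ 1} = 1 ∧ Nat.card K = (K.subgroupOf (Subgroup.normalizer (K : Set G))).index + 1 ∧ ∃ p : ℕ, p.Prime ∧ Cfsg.IsElementaryAbelian p K) ∨ (Nat.card K = 2 ^ (Nat.card G).factorization 2 ∧ (⁅K, K⁆.subgroupOf K).index < 4 * (K.subgroupOf (Subgroup.normalizer (K : Set G))).index ^ 2) ∨ Cfsg.IsCoherent {χ : ↥(Subgroup.normalizer (K : Set G)) → ℂ | Cfsg.IsIrrCharacter ↥(Subgroup.normalizer (K : Set G)) χ ∧ ∃ k : ↥(Subgroup.normalizer (K : Set G)), (k : G) ∈ K ∧ χ k ≠ χ 1} {1}ᶜ (fun α => Cfsg.indFun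 (Subgroup.normalizer (K : Set G)) α) := by
  classical
  have hKN : K ≤ Subgroup.normalizer (K : Set G) := Subgroup.le_normalizer
  have := Cfsg.Lib.Characters.SibleyApps.normal_in_normalizer K
  have hC' := Cfsg.Lib.Characters.SibleyApps.hC_normalizer hC
  have hH1 : K.subgroupOf (Subgroup.normalizer (K : Set G)) ≠ ⊥ := fun h => hK1 (by
    rw [← Cfsg.Lib.Characters.SibleyApps.map_eq K, h, Subgroup.map_bot])
  have hH2 : K.subgroupOf (Subgroup.normalizer (K : Set G)) ≠ ⊤ := fun h =>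
    hlt.not_ge (Subgroup.subgroupOf_eq_top.mp h)
  have hcardH : Nat.card (K.subgroupOf (Subgroup.normalizer (K : Set G))) = Nat.card K :=
    Nat.card_congr (Subgroup.subgroupOfEquivOfLe hKN).toEquiv
  by_cases hcard : Nat.card K = (K.subgroupOf (Subgroup.normalizer (K : Set G))).index + 1
  · left
    let _ : Fintype (K.subgroupOf (Subgroup.normalizer (K : Set G))) := Fintype.ofFinite _
    refine ⟨Cfsg.Lib.Characters.SibleyApps.card_exc_eq_one _ hC' hH1 (hcardH.trans hcard), hcard, ?_⟩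
    have : Group.IsNilpotent (K.subgroupOf (Subgroup.normalizer (K : Set G))) :=
      Group.nilpotent_of_mulEquiv (Subgroup.subgroupOfEquivOfLe hKN).symm
    obtain ⟨hcomm, r, hr, hexp⟩ := Cfsg.Lib.Characters.SibleyApps.elementary_of_card_eq _ hC' hH1
      (hcardH.trans hcard)
    exact ⟨r, hr, ⟨⟨fun a b => Subtype.ext (congrArg (fun x : ↥(Subgroup.normalizer (K : Set G)) => (x : G))
      (hcomm ⟨a, hKN a.2⟩ a.2 ⟨b, hKN b.2⟩ b.2))⟩⟩, fun a ha => congrArg Subtype.val (hexp ⟨a, hKN ha⟩ ha)⟩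
  · obtain ⟨hτ, hτ1⟩ := Cfsg.Lib.Characters.SibleyApps.isometry_exc _ _ hC'
      (Cfsg.Lib.Characters.SibleyApps.hTI_normalizer hTI)
    rcases Cfsg.Agent.S1535.result _ hH1 hH2 hC' (hcardH.trans_ne hcard) _ hτ hτ1 with
      h | ⟨p, hp, ⟨m, hm⟩, hna, hle⟩
    · exact Or.inr (Or.inr h)
    have := Fact.mk hp
    obtain ⟨P, rfl⟩ := Cfsg.Lib.Characters.SibleyApps.eq_sylow (p := p)
      (IsPGroup.of_card (hcardH.symm.trans hm)) hK1 hC
    have hna' : ¬ IsMulCommutative (P : Subgroup G) := fun hab => hna ⟨⟨fun a b => Subtype.ext (Subtype.ext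
      (congrArg (fun x : (P : Subgroup G) => (x : G)) (hab.is_comm.comm
        (⟨(a : ↥(Subgroup.normalizer ((P : Subgroup G) : Set G))), a.2⟩ : (P : Subgroup G))
        ⟨(b : ↥(Subgroup.normalizer ((P : Subgroup G) : Set G))), b.2⟩)))⟩⟩
    by_cases hp2 : p = 2
    · subst hp2
      refine Or.inr (Or.inl ⟨P.card_eq_multiplicity, ?_⟩)
      exact Cfsg.Lib.Characters.SibleyApps.index_lt_of_two (P : Subgroup G) _ P.2 hlt hle hK1 hC
    · exact Or.inr (Or.inr (Cfsg.Lib.Characters.SibleyApps.sylow_coherent hp2 P hna' hTI hC _ rfl))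

end Cfsg.Agent.S1534
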