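import Cfsg.Statements.S1536
import Mathlib
import Cfsg.Agent.Lib.Characters.FixedChars
-- import your own Cfsg.Agent.* helpers here

set_option autoImplicit false
open Cfsg

namespace Cfsg.Agent.S1536

/-- Let H be a normal subgroup of the finite group M whose order is coprime to its index. For x ∈ M: some non-principal irreducible character of H is unchanged under h ↦ θ(x h x⁻¹) if and only if some non-identity element of H commutes with x. -/
theorem result {M : Type*} [Group M] [Finite M] (H : Subgroup M) [hN : H.Normal] (hHall : Nat.Coprime (Nat.card H) H.index) (x : M) : (∃ θ : H → ℂ, Cfsg.IsIrrCharacter H θ ∧ θ ≠ (fun _ => 1) ∧ (fun h : H => θ ⟨x * h * x⁻¹, hN.conj_mem h h.2 x⟩) = θ) ↔ ∃ h ∈ H, h ≠ 1 ∧ x * h = h * x := by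
  classical
  have hiff := Cfsg.Lib.Characters.exists_fixed_irr_iff H x
  constructor
  · rintro ⟨θ, hθ, hne, hfix⟩
    obtain ⟨k, hk, hconj⟩ := hiff.mp ⟨θ, hθ, hne, hfix⟩
    obtain ⟨m, hm⟩ := isConj_iff.mp hconj
    have hval : (m : M) * (x * k * x⁻¹) * (m : M)⁻¹ = k := by
      simpa using congrArg Subtype.val hm
    obtain ⟨e, he1, he0⟩ := Cfsg.Lib.Characters.exists_piExp hHall.symm
    have hexp : x ^ (H.index * Nat.card H) = 1 := by
      rw [mul_comm, Subgroup.card_mul_index]; exact pow_card_eq_one'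
    set u := x * (x ^ e)⁻¹ with hu
    have hu1 : u ^ Nat.card H = 1 := Cfsg.Lib.Characters.piExp_compl he1 hexp
    have hy1 : (x ^ e) ^ H.index = 1 := Cfsg.Lib.Characters.piExp_pow_left he0 hexp
    have huH : u ∈ H := by
      rw [← QuotientGroup.eq_one_iff]
      have h1 : orderOf (u : M ⧸ H) ∣ Nat.card H := orderOf_dvd_of_pow_eq_one (by rw [← QuotientGroup.mk_pow, hu1]; rfl)
      have h2 : orderOf (u : M ⧸ H) ∣ H.index := orderOf_dvd_natCard _
      exact orderOf_eq_one_iff.mp (Nat.eq_one_of_dvd_coprimes hHall h1 h2)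
    by_cases hu0 : u = 1
    · have hxe : x ^ e = x := (mul_inv_eq_one.mp hu0).symm
      have hcop : Nat.Coprime (orderOf x) (Nat.card H) := by
        rw [← hxe]
        exact hHall.symm.coprime_dvd_left (orderOf_dvd_of_pow_eq_one hy1)
      obtain ⟨n, hn, hcomm⟩ := Cfsg.Lib.Characters.exists_conj_fixed_coprime
        (N := H) (by rw [Subgroup.normalizer_eq_top]; exact Subgroup.mem_top x) hcop m.2 hval
      refine ⟨n * k * n⁻¹, H.mul_mem (H.mul_mem hn k.2) (H.inv_mem hn), fun h => hk (Subtype.ext ?_), hcomm⟩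
      exact conj_eq_one_iff.mp h
    · exact ⟨u, huH, hu0, ((Commute.refl x).mul_right ((Commute.refl x).pow_right e).inv_right).eq⟩
  · rintro ⟨h, hh, hh1, hc⟩
    have hconj : IsConj (MulAut.conjNormal x (⟨h, hh⟩ : H)) ⟨h, hh⟩ := by
      refine isConj_iff.mpr ⟨1, Subtype.ext ?_⟩
      simp [hc]
    obtain ⟨θ, hθ, hne, hfix⟩ := hiff.mpr ⟨⟨h, hh⟩, fun e => hh1 (congrArg Subtype.val e), hconj⟩
    exact ⟨θ, hθ, hne, hfix⟩

end Cfsg.Agent.S1536
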