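import Cfsg.Statements.S1545
import Cfsg.Agent.Lib.Characters.FrobeniusFormula
import Cfsg.Agent.Lib.Solv.Coprime
import Cfsg.Agent.Lib.Solv.ThompsonKernel

set_option autoImplicit false
open Cfsg

namespace Cfsg.Agent.S1545

open Cfsg.Lib.Characters Subgroup

/-- The formula for a linear action. -/
theorem lin_general {X : Type*} [Group X] [Finite X] {r : ℕ} [Fact r.Prime] {M : Type*}
    [AddCommGroup M] [Module (ZMod r) M] [Finite M] (σ : X →* Module.End (ZMod r) M)
    (E : Subgroup X) (hE : ¬ r ∣ Nat.card E) :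
    ∀ (n : ℕ) (U : Subgroup X), Nat.card U = n → Group.IsSolvable U →
      (∀ e ∈ E, ∀ u ∈ U, e * u * e⁻¹ ∈ U) →
      (∀ e ∈ E, e ≠ 1 → ∀ u ∈ U, e * u * e⁻¹ = u → u = 1) →
      (∀ e ∈ E, (orderOf e).Coprime n) → ¬ r ∣ n →
      Nat.card {x : M // (∀ u ∈ U, σ u x = x) ∧ ∀ e ∈ E, σ e x = x} ^ Nat.card E * Nat.card M =
        Nat.card {x : M // ∀ e ∈ E, σ e x = x} ^ Nat.card E *
          Nat.card {x : M // ∀ u ∈ U, σ u x = x} := by
  intro n
  induction n using Nat.strong_induction_on with
  | _ n ih =>
    intro U hn hsolv hEU hfpf hcop hr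
    rcases eq_or_ne U ⊥ with rfl | hU
    · have h1 : Nat.card {x : M // (∀ u ∈ (⊥ : Subgroup X), σ u x = x) ∧ ∀ e ∈ E, σ e x = x} =
          Nat.card {x : M // ∀ e ∈ E, σ e x = x} :=
        Nat.card_congr (Equiv.subtypeEquivRight fun x => ⟨fun h => h.2, fun h =>
          ⟨fun u hu => by rw [mem_bot.mp hu, map_one]; rfl, h⟩⟩)
      have h2 : Nat.card {x : M // ∀ u ∈ (⊥ : Subgroup X), σ u x = x} = Nat.card M :=
        Nat.card_congr (Equiv.subtypeUnivEquiv fun x u hu => by rw [mem_bot.mp hu, map_one]; rfl)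
      rw [h1, h2]
    set U' : Subgroup X := (commutator U).map U.subtype with hU'def
    have hU'U : U' ≤ U := map_subtype_le _
    haveI := hsolv
    haveI : Nontrivial U := (nontrivial_iff_ne_bot U).mpr hU
    have hlt : Nat.card U' < n := by
      rw [← hn]
      refine lt_of_le_of_ne (card_le_of_le hU'U) fun h => ?_
      have htop : commutator U = ⊤ := eq_top_of_card_eq _ (by
        rw [hU'def, card_map_of_injective U.subtype_injective] at h; exact h)
      exact (Group.IsSolvable.commutator_lt_top_of_nontrivial U).ne htop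
    have hnorm : ∀ x : X, (∀ u ∈ U, x * u * x⁻¹ ∈ U) → ∀ v ∈ U', x * v * x⁻¹ ∈ U' := by
      intro x hx v hv
      obtain ⟨w, hw, rfl⟩ := hv
      let f : U →* U :=
        { toFun := fun u => ⟨x * u * x⁻¹, hx u u.2⟩
          map_one' := Subtype.ext (by simp)
          map_mul' := fun a b => Subtype.ext (by simp [mul_assoc]) }
      have hle : (commutator U).map f ≤ commutator U := by
        rw [commutator_def, Subgroup.map_commutator]
        exact commutator_mono le_top le_top
      exact ⟨f w, hle ⟨w, hw, rfl⟩, rfl⟩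
    have hEU' : ∀ e ∈ E, ∀ v ∈ U', e * v * e⁻¹ ∈ U' := fun e he => hnorm e (hEU e he)
    have hUU' : ∀ u ∈ U, ∀ v ∈ U', u * v * u⁻¹ ∈ U' := fun u hu =>
      hnorm u fun w hw => U.mul_mem (U.mul_mem hu hw) (U.inv_mem hu)
    have hab : ∀ u ∈ U, ∀ v ∈ U, u * v * u⁻¹ * v⁻¹ ∈ U' := fun u hu v hv => by
      refine ⟨(⟨u, hu⟩ : U) * ⟨v, hv⟩ * ⟨u, hu⟩⁻¹ * ⟨v, hv⟩⁻¹, ?_, rfl⟩
      rw [SetLike.mem_coe, ← commutatorElement_def, commutator_def]
      exact Subgroup.commutator_mem_commutator (mem_top _) (mem_top _)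
    have hfpf' : ∀ e ∈ E, e ≠ 1 → ∀ u ∈ U, e * u * e⁻¹ * u⁻¹ ∈ U' → u ∈ U' := by
      intro e he he1 u hu hmem
      have hAU : zpowers e ≤ normalizer (U : Set X) := by
        refine zpowers_le.mpr (mem_normalizer_iff.mpr fun w => ⟨hEU e he w, fun h => ?_⟩)
        have := hEU e⁻¹ (E.inv_mem he) _ h
        simpa [mul_assoc] using this
      have hAU' : zpowers e ≤ normalizer (U' : Set X) := by
        refine zpowers_le.mpr (mem_normalizer_iff.mpr fun w => ⟨hEU' e he w, fun h => ?_⟩)
        have := hEU' e⁻¹ (E.inv_mem he) _ h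
        simpa [mul_assoc] using this
      have hUn : U ≤ normalizer (U' : Set X) := fun v hv =>
        mem_normalizer_iff.mpr fun w => ⟨hUU' v hv w, fun h => by
          have := hUU' v⁻¹ (U.inv_mem hv) _ h
          simpa [mul_assoc] using this⟩
      -- the elements fixing the coset of `u`
      have hall : ∀ a ∈ zpowers e, a * u * a⁻¹ * u⁻¹ ∈ U' := by
        intro a ha
        obtain ⟨i, rfl⟩ := (isOfFinOrder_of_finite e).mem_powers_iff_mem_zpowers.mpr ha
        show e ^ i * u * (e ^ i)⁻¹ * u⁻¹ ∈ U'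
        induction i with
        | zero => simp
        | succ i hi =>
          have hi' := hi (pow_mem (mem_zpowers e) i)
          rw [show e ^ (i + 1) * u * (e ^ (i + 1))⁻¹ * u⁻¹ =
            e * (e ^ i * u * (e ^ i)⁻¹ * u⁻¹) * e⁻¹ * (e * u * e⁻¹ * u⁻¹) by
            rw [pow_succ']; group]
          exact U'.mul_mem (hEU' e he _ hi') hmem
      obtain ⟨c, ⟨hcU, hcA⟩, hc⟩ := Cfsg.Lib.Solv.fixed_coset (zpowers e) U hAU
        (by rw [Nat.card_zpowers, hn]; exact hcop e he) (Or.inr hsolv) U' hU'U hUn hAU' u hu hall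
      have hc1 : c = 1 := hfpf e he he1 c hcU (by
        rw [(mem_centralizer_iff.mp hcA e (mem_zpowers e)), mul_inv_cancel_right])
      rw [hc1, mul_one] at hc
      simpa using U'.inv_mem hc
    have hsolv' : Group.IsSolvable U' := Cfsg.Lib.Solv.solvable_of_le hU'U hsolv
    have hdvd : Nat.card U' ∣ n := hn ▸ card_dvd_of_le hU'U
    have hrec := ih _ hlt U' rfl hsolv' hEU'
      (fun e he he1 u hu => hfpf e he he1 u (hU'U hu))
      (fun e he => (hcop e he).coprime_dvd_right hdvd) fun h => hr (h.trans hdvd)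
    -- the layer fixed by `U'`
    let V : Submodule (ZMod r) M :=
      { carrier := {x | ∀ v ∈ U', σ v x = x}
        zero_mem' := fun v _ => map_zero _
        add_mem' := fun {a b} ha hb v hv => by rw [map_add, ha v hv, hb v hv]
        smul_mem' := fun c a ha v hv => by rw [map_smul, ha v hv] }
    let S : Subgroup X := Subgroup.normalizer (U' : Set X)
    have hSV : ∀ s ∈ S, ∀ x ∈ V, σ s x ∈ V := by
      intro s hs x hx v hv
      have hw : s⁻¹ * v * s ∈ U' := (mem_normalizer_iff''.mp hs v).mp hv
      rw [← Module.End.mul_apply, ← map_mul, show v * s = s * (s⁻¹ * v * s) by group, map_mul,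
        Module.End.mul_apply, hx _ hw]
    let τ : S →* Module.End (ZMod r) V :=
      { toFun := fun s => (σ s).restrict fun x hx => hSV s s.2 x hx
        map_one' := LinearMap.ext fun x => Subtype.ext (by simp)
        map_mul' := fun a b => LinearMap.ext fun x => Subtype.ext (by simp) }
    have hUS : U ≤ S := fun u hu => mem_normalizer_iff.mpr fun w => ⟨hUU' u hu w, fun h => by
      have := hUU' u⁻¹ (U.inv_mem hu) _ h
      simpa [mul_assoc] using this⟩
    have hES : E ≤ S := fun u hu => mem_normalizer_iff.mpr fun w => ⟨hEU' u hu w, fun h => by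
      have := hEU' u⁻¹ (E.inv_mem hu) _ h
      simpa [mul_assoc] using this⟩
    have hcU : Nat.card (U.subgroupOf S) = Nat.card U :=
      Nat.card_congr (subgroupOfEquivOfLe hUS).toEquiv
    have hcE : Nat.card (E.subgroupOf S) = Nat.card E :=
      Nat.card_congr (subgroupOfEquivOfLe hES).toEquiv
    have hlayer := FrobFormula.card_formula τ (U.subgroupOf S) (E.subgroupOf S) (U'.subgroupOf S)
      (fun x hx => hU'U hx) (fun v hv => LinearMap.ext fun x => Subtype.ext (x.2 _ hv))
      (fun u hu v hv => hUU' _ hu _ hv) (fun u hu v hv => hab _ hu _ hv)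
      (fun e he u hu => hEU _ he _ hu) (fun e he u hu => hEU' _ he _ hu)
      (fun e he he1 u hu h => hfpf' _ he (fun h' => he1 (Subtype.ext h')) _ hu h)
      (by rw [hcU, hn]; exact hr) (by rw [hcE]; exact hE)
    have e1 : Nat.card {x : V // (∀ u ∈ U.subgroupOf S, τ u x = x) ∧
        ∀ e ∈ E.subgroupOf S, τ e x = x} =
        Nat.card {x : M // (∀ u ∈ U, σ u x = x) ∧ ∀ e ∈ E, σ e x = x} :=
      Nat.card_congr
        { toFun := fun x => ⟨x.1.1, fun u hu => congrArg Subtype.val (x.2.1 ⟨u, hUS hu⟩ hu),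
            fun e he => congrArg Subtype.val (x.2.2 ⟨e, hES he⟩ he)⟩
          invFun := fun x => ⟨⟨x.1, fun v hv => x.2.1 v (hU'U hv)⟩,
            fun u hu => Subtype.ext (x.2.1 _ hu), fun e he => Subtype.ext (x.2.2 _ he)⟩
          left_inv := fun x => rfl
          right_inv := fun x => rfl }
    have e2 : Nat.card {x : V // ∀ e ∈ E.subgroupOf S, τ e x = x} =
        Nat.card {x : M // (∀ u ∈ U', σ u x = x) ∧ ∀ e ∈ E, σ e x = x} :=
      Nat.card_congr
        { toFun := fun x => ⟨x.1.1, x.1.2,
            fun e he => congrArg Subtype.val (x.2 ⟨e, hES he⟩ he)⟩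
          invFun := fun x => ⟨⟨x.1, x.2.1⟩, fun e he => Subtype.ext (x.2.2 _ he)⟩
          left_inv := fun x => rfl
          right_inv := fun x => rfl }
    have e3 : Nat.card {x : V // ∀ u ∈ U.subgroupOf S, τ u x = x} =
        Nat.card {x : M // ∀ u ∈ U, σ u x = x} :=
      Nat.card_congr
        { toFun := fun x => ⟨x.1.1, fun u hu => congrArg Subtype.val (x.2 ⟨u, hUS hu⟩ hu)⟩
          invFun := fun x => ⟨⟨x.1, fun v hv => x.2 v (hU'U hv)⟩, fun u hu => Subtype.ext (x.2 _ hu)⟩
          left_inv := fun x => rfl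
          right_inv := fun x => rfl }
    have e4 : Nat.card V = Nat.card {x : M // ∀ u ∈ U', σ u x = x} := rfl
    rw [e1, e2, e3, e4, hcE] at hlayer
    have hpos : 0 < Nat.card {x : M // (∀ u ∈ U', σ u x = x) ∧ ∀ e ∈ E, σ e x = x} ^ Nat.card E :=
      Nat.pow_pos (Nat.card_pos_iff.mpr
        ⟨⟨⟨0, fun v _ => map_zero _, fun v _ => map_zero _⟩⟩, inferInstance⟩)
    refine Nat.eq_of_mul_eq_mul_left hpos ?_
    calc _ = Nat.card {x : M // (∀ u ∈ U, σ u x = x) ∧ ∀ e ∈ E, σ e x = x} ^ Nat.card E *
          (Nat.card {x : M // (∀ u ∈ U', σ u x = x) ∧ ∀ e ∈ E, σ e x = x} ^ Nat.card E * Nat.card M) := by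
            ring
      _ = Nat.card {x : M // ∀ e ∈ E, σ e x = x} ^ Nat.card E *
          (Nat.card {x : M // (∀ u ∈ U, σ u x = x) ∧ ∀ e ∈ E, σ e x = x} ^ Nat.card E *
            Nat.card {x : M // ∀ u ∈ U', σ u x = x}) := by rw [hrec]; ring
      _ = _ := by rw [hlayer]; ring

/-- An action by endomorphisms of an abelian group of exponent `r`, as a linear action. -/
def linearize {F Q : Type*} [Monoid F] [CommGroup Q] (r : ℕ) [Module (ZMod r) (Additive Q)]
    (act : F → (Q →* Q)) (h1 : ∀ q, act 1 q = q) (hmul : ∀ x y q, act (x * y) q = act x (act y q)) :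
    F →* Module.End (ZMod r) (Additive Q) where
  toFun x := (MonoidHom.toAdditive (act x)).toZModLinearMap r
  map_one' := LinearMap.ext fun v => congrArg Additive.ofMul (h1 (Additive.toMul v))
  map_mul' x y := LinearMap.ext fun v => congrArg Additive.ofMul (hmul x y (Additive.toMul v))

/-- Let X be a finite group with subgroups U, E and H such that U and E generate a subgroup UE = U ⊔ E normalising H, with U normal in UE, U ⊓ E = ⊥, U ≠ ⊥, E ≠ ⊥, every non-identity element of E commuting with no non-identity element of U (UE is a Frobenius group with kernel U acting on H by conjugation), H solvable, H ⊓ (U ⊔ E) = ⊥ and the orders of H and U ⊔ E coprime. Then Nat.card (H ⊓ C(U ⊔ E)) ^ Nat.card E * Nat.card H = Nat.card (H ⊓ C(E)) ^ Nat.card E * Nat.card (H ⊓ C(U)), where C(·) denotes the centraliser. -/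
theorem result {X : Type*} [Group X] [Finite X] (U E H : Subgroup X) (hU1 : U ≠ ⊥) (hE1 : E ≠ ⊥) (hUE : U ⊓ E = ⊥) (hUn : ∀ e ∈ E, ∀ u ∈ U, e * u * e⁻¹ ∈ U) (hfpf : ∀ e ∈ E, e ≠ 1 → ∀ u ∈ U, e * u = u * e → u = 1) (hHn : ∀ x ∈ U ⊔ E, ∀ h ∈ H, x * h * x⁻¹ ∈ H) (hdisj : H ⊓ (U ⊔ E) = ⊥) (hsolv : Group.IsSolvable H) (hcop : Nat.Coprime (Nat.card H) (Nat.card ↥(U ⊔ E))) : Nat.card ↥(H ⊓ Subgroup.centralizer ((U ⊔ E : Subgroup X) : Set X)) ^ Nat.card E * Nat.card H = Nat.card ↥(H ⊓ Subgroup.centralizer (E : Set X)) ^ Nat.card E * Nat.card ↥(H ⊓ Subgroup.centralizer (U : Set X)) := by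
  classical
  haveI := Fintype.ofFinite X
  set F := U ⊔ E with hF
  -- orders
  have hcopE : ∀ e ∈ E, (orderOf e).Coprime (Nat.card U) := by
    intro e he
    by_cases he1 : e = 1
    · simp [he1]
    letI act : MulAction (zpowers e) {u : U // u ≠ 1} :=
      { smul := fun z u => ⟨⟨(z : X) * u.1 * (z : X)⁻¹, hUn _ (zpowers_le.mpr he z.2) _ u.1.2⟩,
          fun h => u.2 (Subtype.ext (by simpa using congrArg Subtype.val h))⟩
        one_smul := fun u => Subtype.ext (Subtype.ext (by
          show ((1 : zpowers e) : X) * u.1 * ((1 : zpowers e) : X)⁻¹ = u.1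
          simp))
        mul_smul := fun a b u => Subtype.ext (Subtype.ext (by
          show ((a * b : zpowers e) : X) * u.1 * ((a * b : zpowers e) : X)⁻¹ =
            (a : X) * ((b : X) * u.1 * (b : X)⁻¹) * (a : X)⁻¹
          simp [mul_assoc])) }
    have hstab : ∀ u : {u : U // u ≠ 1}, MulAction.stabilizer (zpowers e) u = ⊥ := by
      intro u
      rw [eq_bot_iff]
      intro z hz
      rw [mem_bot]
      by_contra hne
      refine u.2 (Subtype.ext ?_)
      have h' : (z : X) * u.1 * (z : X)⁻¹ = u.1 :=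
        congrArg (fun s : {u : U // u ≠ 1} => ((s.1 : U) : X)) hz
      exact hfpf z (zpowers_le.mpr he z.2) (fun h => hne (Subtype.ext h)) _ u.1.2
        (mul_inv_eq_iff_eq_mul.mp h')
    have hdvd : orderOf e ∣ Nat.card U - 1 := by
      have hcard : Nat.card U - 1 = Nat.card {u : U // u ≠ 1} := by
        rw [Nat.card_eq_fintype_card, Nat.card_eq_fintype_card, Fintype.card_subtype_compl,
          Fintype.card_subtype_eq]
      rw [hcard, Nat.card_congr (MulAction.selfEquivSigmaOrbits (zpowers e) _), Nat.card_sigma]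
      refine Finset.dvd_sum fun ω _ => ?_
      rw [Nat.card_coe_set_eq, ← MulAction.index_stabilizer, hstab, index_bot, Nat.card_zpowers]
    refine Nat.coprime_of_dvd fun k hk h1 h2 => hk.not_dvd_one ?_
    have := Nat.dvd_sub h2 (h1.trans hdvd)
    rwa [Nat.sub_sub_self Nat.card_pos] at this
  have hUsolv : Group.IsSolvable U := by
    obtain ⟨e, he, he1⟩ : ∃ e ∈ E, e ≠ 1 := by
      by_contra h; push Not at h; exact hE1 ((eq_bot_iff_forall _).mpr h)
    obtain ⟨q, hq, hqd⟩ := Nat.exists_prime_and_dvd (fun h => he1 (orderOf_eq_one_iff.mp h))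
    set a := e ^ (orderOf e / q) with ha
    have haE : a ∈ E := E.pow_mem he _
    have hao : orderOf a = q := by
      rw [ha, orderOf_pow_orderOf_div (orderOf_pos e).ne' hqd]
    let φ : U ≃* U :=
      { toFun := fun u => ⟨a * u * a⁻¹, hUn a haE u u.2⟩
        invFun := fun u => ⟨a⁻¹ * u * a, by
          have := hUn a⁻¹ (E.inv_mem haE) u u.2; rwa [inv_inv] at this⟩
        left_inv := fun u => Subtype.ext (by simp [mul_assoc])
        right_inv := fun u => Subtype.ext (by simp [mul_assoc])
        map_mul' := fun u v => Subtype.ext (by simp [mul_assoc]) }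
    have hit : ∀ (i : ℕ) (u : U), ((φ^[i] u : U) : X) = a ^ i * u * (a ^ i)⁻¹ := by
      intro i
      induction i with
      | zero => simp
      | succ i hi =>
        intro u
        rw [Function.iterate_succ_apply']
        show a * ((φ^[i] u : U) : X) * a⁻¹ = _
        rw [hi, pow_succ']; group
    have hfp : Cfsg.Lib.Solv.ThompsonKernel.Fpf φ q := by
      refine ⟨hq, fun u hu => ?_, fun u => Subtype.ext ?_⟩
      · refine Subtype.ext (hfpf a haE (fun h => hq.ne_one ?_) u u.2
          (mul_inv_eq_iff_eq_mul.mp (congrArg Subtype.val hu)))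
        rw [← hao, h, orderOf_one]
      · rw [hit, ← hao, pow_orderOf_eq_one]; simp
    haveI := Cfsg.Lib.Solv.ThompsonKernel.fpf_isNilpotent hfp
    infer_instance
  have hfpf' : ∀ e ∈ E, e ≠ 1 → ∀ u ∈ U, e * u * e⁻¹ = u → u = 1 := fun e he he1 u hu h =>
    hfpf e he he1 u hu (mul_inv_eq_iff_eq_mul.mp h)
  -- induction on the group acted upon
  suffices key : ∀ (n : ℕ) (H : Subgroup X), Nat.card H = n →
      (∀ x ∈ F, ∀ h ∈ H, x * h * x⁻¹ ∈ H) → Group.IsSolvable H → n.Coprime (Nat.card F) →
      Nat.card ↥(H ⊓ centralizer (F : Set X)) ^ Nat.card E * Nat.card H =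
        Nat.card ↥(H ⊓ centralizer (E : Set X)) ^ Nat.card E *
          Nat.card ↥(H ⊓ centralizer (U : Set X)) from key _ H rfl hHn hsolv hcop
  intro n
  induction n using Nat.strong_induction_on with
  | _ n ih =>
    intro H hn hHn hsolv hcop
    rcases eq_or_ne H ⊥ with rfl | hH
    · simp
    haveI := hsolv
    haveI : Nontrivial H := (nontrivial_iff_ne_bot H).mpr hH
    have hAbnt : 1 < Nat.card (Abelianization H) := by
      by_contra hle
      have : Subsingleton (Abelianization H) := (Finite.card_le_one_iff_subsingleton).mp (by omega)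
      refine (Group.IsSolvable.commutator_lt_top_of_nontrivial H).ne (eq_top_iff.mpr fun x _ => ?_)
      exact (QuotientGroup.eq_one_iff x).mp
        (Subsingleton.elim (Abelianization.of x) (1 : Abelianization H))
    obtain ⟨r, hr, hrd⟩ := Nat.exists_prime_and_dvd hAbnt.ne'
    haveI := Fact.mk hr
    obtain ⟨P, hPdef⟩ : ∃ P : Subgroup (Abelianization H),
        P = (powMonoidHom r : Abelianization H →* Abelianization H).range := ⟨_, rfl⟩
    let π : H →* Abelianization H ⧸ P := (QuotientGroup.mk' P).comp Abelianization.of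
    have hπsurj : Function.Surjective π := by
      intro x
      obtain ⟨y, rfl⟩ := QuotientGroup.mk'_surjective P x
      obtain ⟨z, rfl⟩ := QuotientGroup.mk_surjective y
      exact ⟨z, rfl⟩
    set N0 := π.ker
    set N := N0.map H.subtype with hNdef
    have hNH : N ≤ H := map_subtype_le _
    have hN0ne : N0 ≠ ⊤ := by
      intro htop
      obtain ⟨a, ha⟩ := exists_prime_orderOf_dvd_card' r hrd
      have hinj : ¬ Function.Injective (powMonoidHom r : Abelianization H →* Abelianization H) := by
        intro hi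
        have : a = 1 := hi (by
          show a ^ r = 1 ^ r
          rw [one_pow, ← ha, pow_orderOf_eq_one])
        rw [this, orderOf_one] at ha
        exact hr.ne_one ha.symm
      refine hinj ((Finite.injective_iff_surjective).mpr fun y => ?_)
      obtain ⟨z, rfl⟩ := QuotientGroup.mk_surjective y
      have : π z = 1 := MonoidHom.mem_ker.mp (show z ∈ N0 from htop ▸ mem_top z)
      have h' := (QuotientGroup.eq_one_iff _).mp this
      rw [hPdef] at h'
      exact h'
    have hNlt : Nat.card N < n := by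
      rw [← hn, hNdef, card_map_of_injective H.subtype_injective]
      exact lt_of_le_of_ne (card_le_card_group _) fun h => hN0ne (eq_top_of_card_eq _ h)
    -- the action on the top layer
    let cj : F → (H →* H) := fun x =>
      { toFun := fun h => ⟨(x : X) * h * (x : X)⁻¹, hHn x x.2 h h.2⟩
        map_one' := Subtype.ext (by simp)
        map_mul' := fun a b => Subtype.ext (by simp [mul_assoc]) }
    have hPmap : ∀ x : F, P ≤ P.comap (Abelianization.map (cj x)) := by
      rw [hPdef]
      rintro x _ ⟨y, rfl⟩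
      exact ⟨Abelianization.map (cj x) y, (map_pow (Abelianization.map (cj x)) y r).symm⟩
    let act : F → (Abelianization H ⧸ P →* Abelianization H ⧸ P) := fun x =>
      QuotientGroup.map P P (Abelianization.map (cj x)) (hPmap x)
    have hact : ∀ (x : F) (h : H), act x (π h) = π (cj x h) := fun x h => rfl
    have hexp : ∀ v : Additive (Abelianization H ⧸ P), r • v = 0 := by
      intro v
      obtain ⟨y, hy⟩ := QuotientGroup.mk'_surjective P (Additive.toMul v)
      refine Additive.toMul.injective ?_
      rw [toMul_nsmul, toMul_zero, ← hy, ← map_pow, QuotientGroup.mk'_apply, QuotientGroup.eq_one_iff]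
      rw [hPdef]
      exact ⟨y, rfl⟩
    letI : Module (ZMod r) (Additive (Abelianization H ⧸ P)) :=
      AddCommGroup.zmodModule (n := r) (G := Additive (Abelianization H ⧸ P)) hexp
    let σ : F →* Module.End (ZMod r) (Additive (Abelianization H ⧸ P)) :=
      linearize r act
        (fun q => by
          obtain ⟨h, rfl⟩ := hπsurj q
          rw [hact, show cj 1 h = h from Subtype.ext (by simp [cj])])
        (fun x y q => by
          obtain ⟨h, rfl⟩ := hπsurj q
          rw [hact, hact, hact,
            show cj (x * y) h = cj x (cj y h) from Subtype.ext (by simp [cj, mul_assoc])])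
    -- fixed points through the layer
    have hcount : ∀ A : Subgroup X, ∀ hAF : A ≤ F,
        Nat.card ↥(H ⊓ centralizer (A : Set X)) = Nat.card ↥(N ⊓ centralizer (A : Set X)) *
          Nat.card {v : Additive (Abelianization H ⧸ P) // ∀ a : F, (a : X) ∈ A → σ a v = v} := by
      intro A hAF
      let C : Subgroup H := (centralizer (A : Set X)).subgroupOf H
      let f : C →* Abelianization H ⧸ P := π.comp C.subtype
      have h1 : Nat.card C = Nat.card ↥(H ⊓ centralizer (A : Set X)) := by
        rw [← card_map_of_injective (f := H.subtype) H.subtype_injective, subgroupOf_map_subtype,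
          inf_comm]
      have h2 : Nat.card f.ker = Nat.card ↥(N ⊓ centralizer (A : Set X)) :=
        Nat.card_congr
          { toFun := fun c => ⟨(c.1.1 : X), ⟨c.1.1, c.2, rfl⟩, c.1.2⟩
            invFun := fun z => ⟨⟨⟨z.1, hNH z.2.1⟩, z.2.2⟩, by
              obtain ⟨w, hw, hwz⟩ := z.2.1
              have : w = ⟨z.1, hNH z.2.1⟩ := Subtype.ext hwz
              rw [this] at hw
              exact hw⟩
            left_inv := fun c => rfl
            right_inv := fun z => rfl }
      have hAH : A ≤ normalizer (H : Set X) := fun a ha => mem_normalizer_iff.mpr fun z =>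
        ⟨hHn a (hAF ha) z, fun h => by
          have := hHn a⁻¹ (F.inv_mem (hAF ha)) _ h
          simpa [mul_assoc] using this⟩
      have hinvN : ∀ a ∈ F, ∀ z ∈ N, a * z * a⁻¹ ∈ N := by
        rintro a ha _ ⟨w, hw, rfl⟩
        refine ⟨cj ⟨a, ha⟩ w, ?_, rfl⟩
        rw [SetLike.mem_coe, MonoidHom.mem_ker] at hw ⊢
        rw [← hact, hw, map_one]
      have hAN : A ≤ normalizer (N : Set X) := fun a ha => mem_normalizer_iff.mpr fun z =>
        ⟨hinvN a (hAF ha) z, fun h => by
          have := hinvN a⁻¹ (F.inv_mem (hAF ha)) _ h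
          simpa [mul_assoc] using this⟩
      have hHN : H ≤ normalizer (N : Set X) := fun h hh => mem_normalizer_iff.mpr fun z => by
        have hinv : ∀ g ∈ H, ∀ w ∈ N, g * w * g⁻¹ ∈ N := by
          rintro g hg _ ⟨w, hw, rfl⟩
          exact ⟨⟨g, hg⟩ * w * ⟨g, hg⟩⁻¹, (inferInstance : N0.Normal).conj_mem w hw _, rfl⟩
        exact ⟨hinv h hh z, fun h' => by
          have := hinv h⁻¹ (H.inv_mem hh) _ h'
          simpa [mul_assoc] using this⟩
      have h3 : Nat.card f.range =
          Nat.card {v : Additive (Abelianization H ⧸ P) // ∀ a : F, (a : X) ∈ A → σ a v = v} := by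
        refine Nat.card_congr ((Equiv.subtypeEquiv Additive.ofMul fun v => ?_))
        constructor
        · rintro ⟨c, rfl⟩ a ha
          show Additive.ofMul (act a (π c.1)) = Additive.ofMul (π c.1)
          rw [hact]
          congr 2
          refine Subtype.ext ?_
          show (a : X) * c.1 * (a : X)⁻¹ = c.1
          rw [mem_centralizer_iff.mp (show ((c.1 : H) : X) ∈ centralizer (A : Set X) from c.2) a ha,
            mul_inv_cancel_right]
        · intro hv
          obtain ⟨k, rfl⟩ := hπsurj v
          obtain ⟨c, ⟨hcH, hcA⟩, hck⟩ := Cfsg.Lib.Solv.fixed_coset A H hAH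
            ((hn ▸ hcop).symm.coprime_dvd_left (card_dvd_of_le hAF)) (Or.inr hsolv) N hNH hHN hAN k k.2
            (fun a ha => by
              have e : act ⟨a, hAF ha⟩ (π k) = π k := Additive.ofMul.injective (hv ⟨a, hAF ha⟩ ha)
              rw [hact, eq_comm, ← mul_inv_eq_one, ← map_inv, ← map_mul] at e
              have hmem := N0.inv_mem (MonoidHom.mem_ker.mpr e)
              rw [mul_inv_rev, inv_inv] at hmem
              exact ⟨_, hmem, rfl⟩)
          refine ⟨⟨⟨c, hcH⟩, hcA⟩, ?_⟩
          obtain ⟨w, hw, hwe⟩ := hck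
          show π ⟨c, hcH⟩ = π k
          rw [show (⟨c, hcH⟩ : H) = k * w from Subtype.ext (by
            show c = (k : X) * (w : X)
            rw [show (w : X) = (k : X)⁻¹ * c from hwe, mul_inv_cancel_left]),
            map_mul, MonoidHom.mem_ker.mp hw, mul_one]
      rw [← h1, ← h2, ← h3, ← index_ker, card_mul_index]
    have hfix : ∀ A : Subgroup X, ∀ hAF : A ≤ F,
        Nat.card {v : Additive (Abelianization H ⧸ P) // ∀ a : F, (a : X) ∈ A → σ a v = v} =
        Nat.card {v : Additive (Abelianization H ⧸ P) // ∀ a ∈ A.subgroupOf F, σ a v = v} :=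
      fun A hAF => rfl
    have hFfix : Nat.card {v : Additive (Abelianization H ⧸ P) // ∀ a : F, (a : X) ∈ F → σ a v = v} =
        Nat.card {v : Additive (Abelianization H ⧸ P) //
          (∀ a ∈ U.subgroupOf F, σ a v = v) ∧ ∀ a ∈ E.subgroupOf F, σ a v = v} := by
      refine Nat.card_congr (Equiv.subtypeEquivRight fun v => ⟨fun h => ⟨fun a _ => h a a.2,
        fun a _ => h a a.2⟩, fun h a _ => ?_⟩)
      let St : Subgroup F :=
        { carrier := {a | σ a v = v}
          one_mem' := by show σ 1 v = v; rw [map_one]; rfl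
          mul_mem' := fun {a b} ha hb => by
            show σ (a * b) v = v
            rw [map_mul, Module.End.mul_apply, show σ b v = v from hb]
            exact ha
          inv_mem' := fun {a} ha => by
            show σ a⁻¹ v = v
            conv_lhs => rw [← show σ a v = v from ha]
            rw [← Module.End.mul_apply, ← map_mul, inv_mul_cancel, map_one]
            rfl }
      have hle : U.subgroupOf F ⊔ E.subgroupOf F ≤ St := sup_le h.1 h.2
      rw [show U.subgroupOf F ⊔ E.subgroupOf F = ⊤ by
        rw [← subgroupOf_sup le_sup_left le_sup_right]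
        exact subgroupOf_eq_top.mpr le_rfl] at hle
      exact hle (mem_top a)
    have hUF : U ≤ F := le_sup_left
    have hEF : E ≤ F := le_sup_right
    have hrn : r ∣ n := by
      rw [← hn]
      exact hrd.trans (Subgroup.card_quotient_dvd_card _)
    have hrF : ¬ r ∣ Nat.card F := fun h => hr.not_dvd_one (hcop ▸ Nat.dvd_gcd hrn h)
    have hcU : Nat.card (U.subgroupOf F) = Nat.card U :=
      Nat.card_congr (subgroupOfEquivOfLe hUF).toEquiv
    have hcE : Nat.card (E.subgroupOf F) = Nat.card E :=
      Nat.card_congr (subgroupOfEquivOfLe hEF).toEquiv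
    have htop := lin_general σ (E.subgroupOf F)
      (fun h => hrF ((hcE ▸ h).trans (card_dvd_of_le hEF))) _ (U.subgroupOf F) rfl
      (Group.isSolvable_of_isSolvable_injective (f := (subgroupOfEquivOfLe hUF).toMonoidHom)
        (subgroupOfEquivOfLe hUF).injective)
      (fun e he u hu => hUn _ he _ hu)
      (fun e he he1 u hu h => Subtype.ext (hfpf' _ he (fun h' => he1 (Subtype.ext h')) _ hu
        (congrArg Subtype.val h)))
      (fun e he => by
        rw [hcU, ← orderOf_injective F.subtype F.subtype_injective e]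
        exact hcopE _ he)
      (fun h => hrF ((hcU ▸ h).trans (card_dvd_of_le hUF)))
    rw [hcE, ← hFfix, ← hfix E hEF, ← hfix U hUF] at htop
    have hM : Nat.card H = Nat.card N * Nat.card (Additive (Abelianization H ⧸ P)) := by
      rw [hNdef, card_map_of_injective H.subtype_injective]
      have h := N0.card_mul_index
      rw [index_ker π, MonoidHom.range_eq_top.mpr hπsurj, card_top] at h
      exact h.symm
    have hinvN : ∀ x ∈ F, ∀ z ∈ N, x * z * x⁻¹ ∈ N := by
      rintro x hx _ ⟨w, hw, rfl⟩
      refine ⟨cj ⟨x, hx⟩ w, ?_, rfl⟩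
      rw [SetLike.mem_coe, MonoidHom.mem_ker] at hw ⊢
      rw [← hact, hw, map_one]
    have hIH := ih _ hNlt N rfl hinvN (Cfsg.Lib.Solv.solvable_of_le hNH hsolv)
      (hcop.coprime_dvd_left (hn ▸ card_dvd_of_le hNH))
    rw [hcount F le_rfl, hcount E hEF, hcount U hUF, hM, mul_pow, mul_pow]
    calc _ = (Nat.card ↥(N ⊓ centralizer (F : Set X)) ^ Nat.card E * Nat.card N) *
          (Nat.card {v : Additive (Abelianization H ⧸ P) // ∀ a : F, (a : X) ∈ F → σ a v = v}
              ^ Nat.card E * Nat.card (Additive (Abelianization H ⧸ P))) := by ring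
      _ = _ := by rw [hIH, htop]; ring

end Cfsg.Agent.S1545
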