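import Cfsg.Statements.S1546
import Mathlib

-- import your own Cfsg.Agent.* helpers here

set_option autoImplicit false
open Cfsg

namespace Cfsg.Agent.S1546

/-- Let p and q be odd primes and N = (p ^ q − 1) / (p − 1) = 1 + p + ⋯ + p^(q−1). Then N is odd; if p ≡ 1 (mod q) then q ∣ N; and if p is not ≡ 1 (mod q) then N is coprime to p − 1 and every divisor of N is ≡ 1 (mod q). -/
theorem result (p q : ℕ) (hp : p.Prime) (hq : q.Prime) (hp2 : p ≠ 2) (hq2 : q ≠ 2) : Odd ((p ^ q - 1) / (p - 1)) ∧ (p % q = 1 → q ∣ (p ^ q - 1) / (p - 1)) ∧ (p % q ≠ 1 → Nat.Coprime ((p ^ q - 1) / (p - 1)) (p - 1) ∧ ∀ x : ℕ, x ∣ (p ^ q - 1) / (p - 1) → x % q = 1) := by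
  classical
  have hp1 : 1 < p := hp.one_lt
  set N := (p ^ q - 1) / (p - 1) with hNdef
  have hN : N = ∑ k ∈ Finset.range q, p ^ k := (Nat.geomSum_eq (by omega) q).symm
  have hmul : N * (p - 1) = p ^ q - 1 := by
    rw [hN, Nat.geomSum_eq (by omega) q]
    exact Nat.div_mul_cancel (by simpa using Nat.sub_dvd_pow_sub_pow p 1 q)
  have hpq : p ^ q = N * (p - 1) + 1 := by
    have := Nat.one_le_pow q p hp.pos
    omega
  haveI := Fact.mk hq
  refine ⟨?_, fun hmod => ?_, fun hmod => ?_⟩
  · rw [hN, Finset.odd_sum_iff_odd_card_odd]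
    have : (Finset.range q).filter (fun k => Odd (p ^ k)) = Finset.range q :=
      Finset.filter_true_of_mem fun k _ => (hp.odd_of_ne_two hp2).pow
    rw [this, Finset.card_range]
    exact hq.odd_of_ne_two hq2
  · apply Nat.dvd_of_mod_eq_zero
    rw [hN, Finset.sum_nat_mod]
    have h1 : ∀ k ∈ Finset.range q, p ^ k % q = 1 := fun k _ => by
      rw [Nat.pow_mod, hmod, one_pow, Nat.mod_eq_of_lt hq.one_lt]
    rw [Finset.sum_congr rfl h1]
    simp
  · have hne : ∀ r : ℕ, r.Prime → r ∣ N → p % r ≠ 1 := by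
      intro r hr hrN h1
      have h2 : N % r = q % r := by
        rw [hN, Finset.sum_nat_mod]
        have h3 : ∀ k ∈ Finset.range q, p ^ k % r = 1 := fun k _ => by
          rw [Nat.pow_mod, h1, one_pow, Nat.mod_eq_of_lt hr.one_lt]
        rw [Finset.sum_congr rfl h3]
        simp
      rw [Nat.mod_eq_zero_of_dvd hrN, eq_comm] at h2
      have hrq : r = q := (Nat.prime_dvd_prime_iff_eq hr hq).mp (Nat.dvd_of_mod_eq_zero h2)
      exact hmod (hrq ▸ h1)
    constructor
    · refine Nat.coprime_of_dvd fun r hr hrN hrp => hne r hr hrN ?_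
      obtain ⟨c, hc⟩ := hrp
      have hp' : p = 1 + r * c := by omega
      rw [hp', Nat.add_mul_mod_self_left, Nat.mod_eq_of_lt hr.one_lt]
    intro x hx
    induction x using induction_on_primes with
    | zero =>
      exfalso
      have h0 : N = 0 := Nat.eq_zero_of_zero_dvd hx
      have := Nat.one_lt_pow hq.ne_zero hp1
      rw [h0] at hpq
      omega
    | one => exact Nat.mod_eq_of_lt hq.one_lt
    | prime_mul r y hr ih =>
      have hrN : r ∣ N := (dvd_mul_right r y).trans hx
      rw [Nat.mul_mod, ih ((dvd_mul_left y r).trans hx), mul_one, Nat.mod_mod]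
      haveI := Fact.mk hr
      have h1 : ((p : ZMod r)) ^ q = 1 := by
        rw [← Nat.cast_pow, hpq, Nat.cast_add, Nat.cast_mul,
          (ZMod.natCast_eq_zero_iff N r).mpr hrN, zero_mul, zero_add, Nat.cast_one]
      have hne1 : (p : ZMod r) ≠ 1 := by
        intro h
        apply hne r hr hrN
        rw [← Nat.cast_one, ZMod.natCast_eq_natCast_iff'] at h
        rw [h, Nat.mod_eq_of_lt hr.one_lt]
      have hne0 : (p : ZMod r) ≠ 0 := fun h => by
        rw [h, zero_pow hq.ne_zero] at h1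
        exact zero_ne_one h1
      have hdvd : q ∣ r - 1 :=
        orderOf_eq_prime h1 hne1 ▸ ZMod.orderOf_dvd_card_sub_one hne0
      obtain ⟨c, hc⟩ := hdvd
      have hr' : r = 1 + q * c := by have := hr.one_lt; omega
      rw [hr', Nat.add_mul_mod_self_left, Nat.mod_eq_of_lt hq.one_lt]

end Cfsg.Agent.S1546
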