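import Cfsg.Statements.S1550
import Cfsg.Agent.Lib.Golay.Cosets

set_option autoImplicit false
set_option linter.constructorNameAsVariable false
set_option maxRecDepth 20000
open scoped Pointwise
open Cfsg

namespace Cfsg.Agent.S1550

/-- Every 4-element set of the 24 points is a tetrad of exactly one sextet, and the sextets number 1771. -/
theorem result : (∀ t : Finset Cfsg.GolayPt, t.card = 4 → ∃! S : Finset (Finset Cfsg.GolayPt), S ∈ Cfsg.sextets ∧ t ∈ S) ∧ Cfsg.sextets.ncard = 1771 := by
  classical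
  have hkey : ∀ t : Finset Cfsg.GolayPt, t.card = 4 → ∀ S : Finset (Finset Cfsg.GolayPt),
      (S ∈ Cfsg.sextets ∧ t ∈ S) ↔ S = Cfsg.Lib.Golay.sextetOf t := by
    intro t ht S
    constructor
    · rintro ⟨⟨hS6, hS4, hSo⟩, htS⟩
      refine Finset.eq_of_subset_of_card_le (fun u hu => ?_) (by rw [hS6, Cfsg.Lib.Golay.card_sextetOf ht])
      rw [Cfsg.Lib.Golay.mem_sextetOf ht]
      by_cases e : u = t
      · exact Or.inl e
      · have ho := hSo t htS u hu (fun h => e h.symm)
        refine Or.inr ⟨?_, ho⟩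
        have h8 := Cfsg.Lib.Golay.card_octad ho
        have h1 := Finset.card_union_add_card_inter t u
        rw [h8, ht, hS4 u hu] at h1
        rw [Finset.disjoint_iff_inter_eq_empty, ← Finset.card_eq_zero]
        omega
    · rintro rfl
      exact ⟨⟨Cfsg.Lib.Golay.card_sextetOf ht, fun u hu => Cfsg.Lib.Golay.card_of_mem_sextetOf ht hu,
        fun u hu v hv hne => (Cfsg.Lib.Golay.pair_sextetOf ht hu hv hne).2⟩,
        (Cfsg.Lib.Golay.mem_sextetOf ht).2 (Or.inl rfl)⟩
  refine ⟨fun t ht => ⟨_, (hkey t ht _).2 rfl, fun S hS => (hkey t ht S).1 hS⟩, ?_⟩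
  let T := (Finset.univ : Finset Cfsg.GolayPt).powersetCard 4
  have himg : (T.image Cfsg.Lib.Golay.sextetOf : Set (Finset (Finset Cfsg.GolayPt))) = Cfsg.sextets := by
    ext S
    simp only [Finset.coe_image, Set.mem_image, Finset.mem_coe, T, Finset.mem_powersetCard, Finset.subset_univ, true_and]
    constructor
    · rintro ⟨t, ht, rfl⟩; exact ((hkey t ht _).2 rfl).1
    · intro hS
      obtain ⟨t, htS⟩ := Finset.card_pos.1 (by rw [hS.1]; norm_num : 0 < S.card)
      exact ⟨t, hS.2.1 t htS, ((hkey t (hS.2.1 t htS) S).1 ⟨hS, htS⟩).symm⟩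
  rw [← himg, Set.ncard_coe_finset]
  have hfib : ∀ S ∈ T.image Cfsg.Lib.Golay.sextetOf, (T.filter fun t => Cfsg.Lib.Golay.sextetOf t = S).card = 6 := by
    intro S hS
    obtain ⟨t, ht, rfl⟩ := Finset.mem_image.1 hS
    simp only [T, Finset.mem_powersetCard, Finset.subset_univ, true_and] at ht
    rw [← Cfsg.Lib.Golay.card_sextetOf ht]
    refine congrArg Finset.card ?_
    ext u
    simp only [T, Finset.mem_filter, Finset.mem_powersetCard, Finset.subset_univ, true_and]
    constructor
    · rintro ⟨hu, he⟩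
      exact he ▸ ((hkey u hu _).2 rfl).2
    · intro hu
      have hu4 := Cfsg.Lib.Golay.card_of_mem_sextetOf ht hu
      exact ⟨hu4, ((hkey u hu4 _).1 ⟨((hkey t ht _).2 rfl).1, hu⟩).symm⟩
  have h := Finset.card_eq_sum_card_image Cfsg.Lib.Golay.sextetOf T
  rw [Finset.sum_const_nat hfib] at h
  have hT : T.card = 10626 := by
    simp only [T, Finset.card_powersetCard, Finset.card_univ, Cfsg.GolayPt, Fintype.card_option, ZMod.card]
    norm_num [Nat.choose_eq_descFactorial_div_factorial, Nat.descFactorial, Nat.factorial]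
  omega

end Cfsg.Agent.S1550
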