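import Cfsg.Statements.S1551
import Cfsg.Agent.Lib.Golay.SextetStab
-- import your own Cfsg.Agent.* helpers here

set_option autoImplicit false
open scoped Pointwise
open Cfsg

namespace Cfsg.Agent.S1551

/-- Structure of a sextet stabiliser: it induces every permutation of the six tetrads, the subgroup fixing each tetrad setwise has order 192, and there is a normal subgroup of order 64 consisting of elements squaring to the identity. -/
theorem result (S : Finset (Finset Cfsg.GolayPt)) (hS : S ∈ Cfsg.sextets) : (∀ e : Equiv.Perm ↥S, ∃ g ∈ MulAction.stabilizer Cfsg.M24 S, ∀ t : ↥S, (g : Equiv.Perm Cfsg.GolayPt) • (t : Finset Cfsg.GolayPt) = ((e t : ↥S) : Finset Cfsg.GolayPt)) ∧ Nat.card {g : ↥(MulAction.stabilizer Cfsg.M24 S) // ∀ t ∈ S, ((g : Cfsg.M24) : Equiv.Perm Cfsg.GolayPt) • t = t} = 192 ∧ ∃ N : Subgroup ↥(MulAction.stabilizer Cfsg.M24 S), N.Normal ∧ Nat.card N = 64 ∧ ∀ x ∈ N, x * x = 1 := by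
  classical
  open Cfsg.Lib.Golay Cfsg.Lib.Golay.Dec Cfsg.Lib.Golay.SextetStab in
  exact by
    obtain ⟨τ, hτ, hS'⟩ := SextetCls.isCls.trans S hS
    change τ • S₀ = S at hS'
    subst hS'
    have hconj : ∀ g : Equiv.Perm Cfsg.GolayPt, g ∈ Cfsg.M24 → τ⁻¹ * g * τ ∈ Cfsg.M24 := fun g hg =>
      Cfsg.M24.mul_mem (Cfsg.M24.mul_mem (Cfsg.M24.inv_mem hτ) hg) hτ
    have hconj' : ∀ g : Equiv.Perm Cfsg.GolayPt, g ∈ Cfsg.M24 → τ * g * τ⁻¹ ∈ Cfsg.M24 := fun g hg =>
      Cfsg.M24.mul_mem (Cfsg.M24.mul_mem hτ hg) (Cfsg.M24.inv_mem hτ)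
    have hback : ∀ {x}, x ∈ τ • S₀ → ∃ y ∈ S₀, τ • y = x := fun hx => Finset.mem_smul_finset.1 hx
    let K : Subgroup ↥(MulAction.stabilizer Cfsg.M24 (τ • S₀)) :=
      (ker.comap ((MulAut.conj τ⁻¹).toMonoidHom.comp (Cfsg.M24.subtype.comp (Subgroup.subtype _))))
    have hK : ∀ g : ↥(MulAction.stabilizer Cfsg.M24 (τ • S₀)), g ∈ K ↔ ∀ t ∈ τ • S₀, ((g : Cfsg.M24) : Equiv.Perm Cfsg.GolayPt) • t = t := by
      intro g
      show τ⁻¹ * _ * τ⁻¹⁻¹ ∈ ker ↔ _
      rw [inv_inv]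
      constructor
      · intro h t ht
        obtain ⟨y, hy, rfl⟩ := hback ht
        have := h.2 y hy
        rw [mul_smul, mul_smul, inv_smul_eq_iff] at this
        exact this
      · intro h
        refine ⟨hconj _ (g : Cfsg.M24).2, fun y hy => ?_⟩
        rw [mul_smul, mul_smul, inv_smul_eq_iff]
        exact h _ (Finset.smul_mem_smul_finset hy)
    have hstab : ∀ h, h ∈ ker → (τ * h * τ⁻¹) • (τ • S₀) = τ • S₀ := by
      intro h hh
      rw [mul_smul, mul_smul, inv_smul_smul]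
      congr 1
      refine Finset.eq_of_subset_of_card_le (fun x hx => ?_) (by rw [Finset.card_smul_finset])
      obtain ⟨y, hy, rfl⟩ := Finset.mem_smul_finset.1 hx
      rw [hh.2 y hy]; exact hy
    have hcard : Nat.card K = Nat.card ker := Nat.card_congr
      { toFun := fun g => ⟨τ⁻¹ * g.1.1.1 * τ, by have h := g.2; change τ⁻¹ * _ * τ⁻¹⁻¹ ∈ ker at h; rwa [inv_inv] at h⟩
        invFun := fun h => ⟨⟨⟨τ * h.1 * τ⁻¹, hconj' _ h.2.1⟩, hstab _ h.2⟩, by
          show τ⁻¹ * (τ * h.1 * τ⁻¹) * τ⁻¹⁻¹ ∈ ker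
          rw [show τ⁻¹ * (τ * h.1 * τ⁻¹) * τ⁻¹⁻¹ = h.1 by group]; exact h.2⟩
        left_inv := fun g => by
          apply Subtype.ext; apply Subtype.ext; apply Subtype.ext
          show τ * (τ⁻¹ * g.1.1.1 * τ) * τ⁻¹ = g.1.1.1
          group
        right_inv := fun h => by
          apply Subtype.ext
          show τ⁻¹ * (τ * h.1 * τ⁻¹) * τ = h.1
          group }
    refine ⟨fun e => ?_, ?_, ?_⟩
    · have hb : ∀ i, τ • tet i ∈ τ • S₀ := fun i => Finset.smul_mem_smul_finset (by rw [S₀_eq]; exact Finset.mem_image_of_mem _ (Finset.mem_univ i))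
      let φ : Fin 6 ≃ ↥(τ • S₀) := Equiv.ofBijective (fun i => ⟨τ • tet i, hb i⟩)
        ⟨fun a b h => tet_inj (MulAction.injective τ (congrArg Subtype.val h)), fun x => by
          obtain ⟨y, hy, e'⟩ := hback x.2
          rw [S₀_eq] at hy
          obtain ⟨i, -, rfl⟩ := Finset.mem_image.1 hy
          exact ⟨i, Subtype.ext e'⟩⟩
      obtain ⟨g, hg, he⟩ := perm_realised (φ.trans (e.trans φ.symm))
      have key : ∀ t : ↥(τ • S₀), (τ * g * τ⁻¹) • (t : Finset Cfsg.GolayPt) = ((e t : ↥(τ • S₀)) : Finset Cfsg.GolayPt) := by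
        intro t
        obtain ⟨i, rfl⟩ := φ.surjective t
        show (τ * g * τ⁻¹) • τ • tet i = _
        rw [mul_smul, mul_smul, inv_smul_smul, he]
        show ((φ (φ.symm (e (φ i))) : ↥(τ • S₀)) : Finset Cfsg.GolayPt) = _
        rw [Equiv.apply_symm_apply]
      refine ⟨⟨τ * g * τ⁻¹, hconj' g hg⟩, ?_, key⟩
      show (τ * g * τ⁻¹) • (τ • S₀) = τ • S₀
      refine Finset.eq_of_subset_of_card_le (fun x hx => ?_) (by simp [Finset.card_smul_finset])
      obtain ⟨y, hy, rfl⟩ := Finset.mem_smul_finset.1 hx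
      rw [key ⟨y, hy⟩]; exact (e _).2
    · rw [← card_ker, ← hcard]
      exact Nat.card_congr (Equiv.subtypeEquivRight fun g => (hK g).symm)
    · let N : Subgroup ↥(MulAction.stabilizer Cfsg.M24 (τ • S₀)) :=
        { carrier := {g | g ∈ K ∧ g * g = 1}
          one_mem' := ⟨K.one_mem, one_mul _⟩
          mul_mem' := by
            rintro a b ⟨ha, ha2⟩ ⟨hb, hb2⟩
            have hc : a * b = b * a := by
              have h := comm_of_inv (a := MulAut.conj τ⁻¹ a.1.1) (b := MulAut.conj τ⁻¹ b.1.1) ha hb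
                (by rw [← map_mul, ← Subgroup.coe_mul, ← Subgroup.coe_mul, ha2]; exact map_one _)
                (by rw [← map_mul, ← Subgroup.coe_mul, ← Subgroup.coe_mul, hb2]; exact map_one _)
              rw [← map_mul, ← map_mul] at h
              exact Subtype.ext (Subtype.ext ((MulAut.conj τ⁻¹).injective h))
            refine ⟨K.mul_mem ha hb, ?_⟩
            calc a * b * (a * b) = a * b * (b * a) := by rw [hc]
              _ = a * (b * b) * a := by group
              _ = 1 := by rw [hb2, mul_one, ha2]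
          inv_mem' := by
            rintro a ⟨ha, ha2⟩
            exact ⟨K.inv_mem ha, by rw [← mul_inv_rev, ha2, inv_one]⟩ }
      refine ⟨N, ⟨fun n hn g => ?_⟩, ?_, fun x hx => hx.2⟩
      · refine ⟨(hK _).2 fun t ht => ?_, ?_⟩
        · have hgt : ((g : Cfsg.M24) : Equiv.Perm Cfsg.GolayPt)⁻¹ • t ∈ τ • S₀ := by
            rw [Finset.inv_smul_mem_iff, show ((g : Cfsg.M24) : Equiv.Perm Cfsg.GolayPt) • (τ • S₀) = τ • S₀ from g.2]
            exact ht
          show (((g : Cfsg.M24) : Equiv.Perm Cfsg.GolayPt) * ((n : Cfsg.M24) : Equiv.Perm Cfsg.GolayPt) * ((g : Cfsg.M24) : Equiv.Perm Cfsg.GolayPt)⁻¹) • t = t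
          rw [mul_smul, mul_smul, (hK n).1 hn.1 _ hgt, smul_inv_smul]
        · calc g * n * g⁻¹ * (g * n * g⁻¹) = g * (n * n) * g⁻¹ := by group
            _ = 1 := by rw [hn.2, mul_one, mul_inv_cancel]
      · rw [← ncard_inv, ← SetLike.coe_sort_coe, Nat.card_coe_set_eq]
        refine Set.ncard_congr (fun g _ => MulAut.conj τ⁻¹ g.1.1) (fun g hg => ⟨hg.1, ?_⟩)
          (fun a b _ _ h => Subtype.ext (Subtype.ext ((MulAut.conj τ⁻¹).injective h))) fun h hh => ?_
        · rw [← map_mul, ← Subgroup.coe_mul, ← Subgroup.coe_mul, hg.2]; exact map_one _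
        · have e : MulAut.conj τ⁻¹ (τ * h * τ⁻¹) = h := by simp [mul_assoc]
          refine ⟨⟨⟨τ * h * τ⁻¹, hconj' _ hh.1.1⟩, hstab _ hh.1⟩, ⟨?_, ?_⟩, e⟩
          · show MulAut.conj τ⁻¹ (τ * h * τ⁻¹) ∈ ker
            rw [e]; exact hh.1
          · refine Subtype.ext (Subtype.ext ?_)
            show τ * h * τ⁻¹ * (τ * h * τ⁻¹) = 1
            calc τ * h * τ⁻¹ * (τ * h * τ⁻¹) = τ * (h * h) * τ⁻¹ := by group
              _ = 1 := by rw [hh.2, mul_one, mul_inv_cancel]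

end Cfsg.Agent.S1551
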