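import Cfsg.Statements.S1552
import Cfsg.Agent.Lib.Golay.Dec.Use
import Cfsg.Agent.Lib.Golay.Dec.SextetSextet

set_option autoImplicit false
open scoped Pointwise
open Cfsg.Lib.Golay.Dec
open Cfsg

namespace Cfsg.Agent.S1552

/-- A sextet stabiliser has four orbits on the 1771 sextets, of sizes 1, 90, 240, 1440; and the stabiliser is a maximal proper subgroup. -/
theorem result (S : Finset (Finset Cfsg.GolayPt)) (hS : S ∈ Cfsg.sextets) : ∃ X₁ ∈ Cfsg.sextets, ∃ X₂ ∈ Cfsg.sextets, ∃ X₃ ∈ Cfsg.sextets, (MulAction.orbit ↥(MulAction.stabilizer Cfsg.M24 S) X₁).ncard = 90 ∧ (MulAction.orbit ↥(MulAction.stabilizer Cfsg.M24 S) X₂).ncard = 240 ∧ (MulAction.orbit ↥(MulAction.stabilizer Cfsg.M24 S) X₃).ncard = 1440 ∧ Cfsg.sextets = {S} ∪ MulAction.orbit ↥(MulAction.stabilizer Cfsg.M24 S) X₁ ∪ MulAction.orbit ↥(MulAction.stabilizer Cfsg.M24 S) X₂ ∪ MulAction.orbit ↥(MulAction.stabilizer Cfsg.M24 S) X₃ ∧ IsCoatom (MulAction.stabilizer Cfsg.M24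 S) := by
  have hv₀ : profS (interp SextetCls.base) (interp SextetCls.base) = 393246 := by rw [← profC_eq _ _ (by decide +kernel) (by decide +kernel)]; decide +kernel
  obtain ⟨X₁, mX₁, -, oX₁, cX₁⟩ := exists_orbit SextetSextet.isDecomp sextets_invar isEmb_id isEmb_id obj_surj (x := S) hS (n := 90) (v := 3096) (by decide) (by norm_num)
  obtain ⟨X₂, mX₂, -, oX₂, cX₂⟩ := exists_orbit SextetSextet.isDecomp sextets_invar isEmb_id isEmb_id obj_surj (x := S) hS (n := 240) (v := 8496) (by decide) (by norm_num)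
  obtain ⟨X₃, mX₃, -, oX₃, cX₃⟩ := exists_orbit SextetSextet.isDecomp sextets_invar isEmb_id isEmb_id obj_surj (x := S) hS (n := 1440) (v := 1296) (by decide) (by norm_num)
  refine ⟨X₁, mX₁, X₂, mX₂, X₃, mX₃, cX₁, cX₂, cX₃, ?_, isCoatom_stabilizer isEmb_id SextetCls.isCls SextetSextet.isDecomp (v₀ := 393246) hv₀ (by decide) (by decide) (by norm_num) (by decide +kernel) hS⟩
  have hs := fibre_self SextetCls.isCls SextetSextet.isDecomp hv₀ (by decide) hS
  rw [← hs, oX₁, oX₂, oX₃]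
  ext z
  simp only [Set.mem_union, Set.mem_ofPred_eq, id]
  constructor
  · intro hz
    obtain ⟨nv, hnv, e'⟩ := SextetSextet.isDecomp.covers _ hS z hz
    simp only [List.mem_cons, List.not_mem_nil, or_false] at hnv
    rcases hnv with rfl | rfl | rfl | rfl <;> simp [hz, e']
  · intro h
    simp only [or_assoc] at h
    rcases h with ⟨h, -⟩ | ⟨h, -⟩ | ⟨h, -⟩ | ⟨h, -⟩ <;> exact h

end Cfsg.Agent.S1552
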