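import Cfsg.Statements.S1554
import Cfsg.Agent.Lib.Golay.OctadStab
-- import your own Cfsg.Agent.* helpers here

set_option autoImplicit false
open scoped Pointwise
open Cfsg

namespace Cfsg.Agent.S1554

/-- An octad stabiliser is a split extension: the joint stabiliser of the octad and a point outside it is a complement to the pointwise stabiliser of the octad, and is isomorphic to the alternating group of degree 8. -/
theorem result (o : Finset Cfsg.GolayPt) (ho : o ∈ Cfsg.octads) (p : Cfsg.GolayPt) (hp : p ∉ o) : (Cfsg.M24 ⊓ fixingSubgroup (Equiv.Perm Cfsg.GolayPt) (o : Set Cfsg.GolayPt)) ⊓ (Cfsg.M24 ⊓ MulAction.stabilizer (Equiv.Perm Cfsg.GolayPt) o ⊓ MulAction.stabilizer (Equiv.Perm Cfsg.GolayPt) p) = ⊥ ∧ (Cfsg.M24 ⊓ fixingSubgroup (Equiv.Perm Cfsg.GolayPt) (o : Set Cfsg.GolayPt)) ⊔ (Cfsg.M24 ⊓ MulAction.stabilizer (Equiv.Perm Cfsg.GolayPt) o ⊓ MulAction.stabilizer (Equiv.Perm Cfsg.GolayPt)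 p) = (Cfsg.M24 ⊓ MulAction.stabilizer (Equiv.Perm Cfsg.GolayPt) o) ∧ Nonempty (↥(Cfsg.M24 ⊓ MulAction.stabilizer (Equiv.Perm Cfsg.GolayPt) o ⊓ MulAction.stabilizer (Equiv.Perm Cfsg.GolayPt) p) ≃* alternatingGroup (Fin 8)) := by
  classical
  have hfx : ∀ g : Equiv.Perm Cfsg.GolayPt, g ∈ Cfsg.M24 ⊓ fixingSubgroup (Equiv.Perm Cfsg.GolayPt) (o : Set Cfsg.GolayPt) ↔
      g ∈ Cfsg.Lib.Golay.fixer o := by
    intro g
    simp [Cfsg.Lib.Golay.mem_fixer, mem_fixingSubgroup_iff, Equiv.Perm.smul_def]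
  have hle : Cfsg.M24 ⊓ fixingSubgroup (Equiv.Perm Cfsg.GolayPt) (o : Set Cfsg.GolayPt) ≤
      Cfsg.M24 ⊓ MulAction.stabilizer (Equiv.Perm Cfsg.GolayPt) o := fun g hg =>
    Cfsg.Lib.Golay.OctadStab.fixer_le_octStab o ((hfx g).1 hg)
  have hbot : (Cfsg.M24 ⊓ fixingSubgroup (Equiv.Perm Cfsg.GolayPt) (o : Set Cfsg.GolayPt)) ⊓
      (Cfsg.M24 ⊓ MulAction.stabilizer (Equiv.Perm Cfsg.GolayPt) o ⊓ MulAction.stabilizer (Equiv.Perm Cfsg.GolayPt) p) = ⊥ := by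
    rw [eq_bot_iff]
    rintro g ⟨hg, -, hgp⟩
    exact Cfsg.Lib.Golay.OctadStab.eq_one_of_fixer ho hp ((hfx g).1 hg) hgp
  refine ⟨hbot, le_antisymm (sup_le hle inf_le_left) fun g hg => ?_, ?_⟩
  · have hgp : g p ∉ o := fun h => hp ((Cfsg.Lib.Golay.OctadStab.mem_iff_of_stab hg.2 p).1 h)
    obtain ⟨k, hk, e⟩ := Cfsg.Lib.Golay.OctadStab.fixer_transitive ho hp hgp
    have hk' := (hfx k).2 hk
    rw [show g = k * (k⁻¹ * g) by group]
    refine Subgroup.mul_mem_sup hk' ⟨Subgroup.mul_mem _ (Subgroup.inv_mem _ (hle hk')) hg, ?_⟩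
    show (k⁻¹ * g) p = p
    rw [Equiv.Perm.mul_apply, ← e]
    exact k.symm_apply_apply p
  · set K := Cfsg.M24 ⊓ MulAction.stabilizer (Equiv.Perm Cfsg.GolayPt) o ⊓ MulAction.stabilizer (Equiv.Perm Cfsg.GolayPt) p
    let f : ↥K →* Equiv.Perm ↥o := (Cfsg.Lib.Golay.OctadStab.restr o).comp (Subgroup.inclusion (inf_le_left : K ≤ _))
    have hinj : Function.Injective f := by
      rw [injective_iff_map_eq_one]
      intro g hg
      have hm := (Cfsg.Lib.Golay.OctadStab.mem_ker (Subgroup.inclusion (inf_le_left : K ≤ _) g)).1 hg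
      exact Subtype.ext (Cfsg.Lib.Golay.OctadStab.eq_one_of_fixer ho hp hm g.2.2)
    have hrange : f.range = alternatingGroup ↥o := by
      rw [← Cfsg.Lib.Golay.OctadStab.range_restr ho]
      refine le_antisymm ?_ ?_
      · rintro _ ⟨g, rfl⟩; exact ⟨_, rfl⟩
      · rintro _ ⟨g, rfl⟩
        have hgp : g.1 p ∉ o := fun h => hp ((Cfsg.Lib.Golay.OctadStab.mem_iff_of_stab g.2.2 p).1 h)
        obtain ⟨k, hk, e⟩ := Cfsg.Lib.Golay.OctadStab.fixer_transitive ho hp hgp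
        have hk' := Cfsg.Lib.Golay.OctadStab.fixer_le_octStab o hk
        have hs : (k⁻¹ * g.1) • p = p := by
          rw [Equiv.Perm.smul_def, Equiv.Perm.mul_apply, ← e]; exact k.symm_apply_apply p
        refine ⟨⟨k⁻¹ * g.1, Subgroup.mul_mem _ (Subgroup.inv_mem _ hk') g.2, hs⟩, ?_⟩
        refine Equiv.ext fun x => Subtype.ext ?_
        show k⁻¹ (g.1 x) = g.1 x
        rw [Equiv.Perm.inv_eq_iff_eq]
        exact (hk.2 _ ((Cfsg.Lib.Golay.OctadStab.mem_iff_of_stab g.2.2 _).2 x.2)).symm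
    obtain ⟨e8⟩ : Nonempty (↥o ≃ Fin 8) := ⟨o.equivFinOfCardEq ho.2⟩
    exact ⟨(MonoidHom.ofInjective hinj).trans ((MulEquiv.subgroupCongr hrange).trans (Equiv.altCongrHom e8))⟩

end Cfsg.Agent.S1554
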