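import Cfsg.Statements.S1555
import Cfsg.Agent.Lib.Golay.Cosets

set_option autoImplicit false
open scoped Pointwise
open Cfsg

namespace Cfsg.Agent.S1555

/-- Bottom row of the Leech triangle: an octad is met in a prescribed pair of its points by exactly 16 octads and in a prescribed 4-subset by exactly 4 octads. -/
theorem result (o : Finset Cfsg.GolayPt) (ho : o ∈ Cfsg.octads) (s : Finset Cfsg.GolayPt) (hs : s ⊆ o) : (s.card = 2 → {o' : Finset Cfsg.GolayPt | o' ∈ Cfsg.octads ∧ o ∩ o' = s}.ncard = 16) ∧ (s.card = 4 → {o' : Finset Cfsg.GolayPt | o' ∈ Cfsg.octads ∧ o ∩ o' = s}.ncard = 4) := by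
  classical
  open Cfsg.Lib.Golay Cfsg.Lib.Steiner in
  have hne : ∀ S : Finset Cfsg.GolayPt, S ⊆ o → S.card = 3 → (exact' Cfsg.octads o S).card = 0 := by
    intro S hS hc
    rw [Finset.card_eq_zero, exact', Finset.filter_eq_empty_iff]
    intro c hc' he
    simp only [others, Finset.mem_erase, mem_blocks] at hc'
    have := octad_inter ho hc'.2 hc'.1.symm
    rw [he, hc] at this
    omega
  have hk : o.card = 8 := Cfsg.Lib.Golay.card_octad ho
  have hα : Fintype.card Cfsg.GolayPt = 24 := by simp [Cfsg.GolayPt]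
  have hsum := fun (S : Finset Cfsg.GolayPt) (h : S ⊆ o) (h5 : S.card ≤ 5) (l : ℕ) hl =>
    Cfsg.Lib.Steiner.sum_exact Cfsg.Lib.Golay.steiner ho h h5 (l := l) hl (by norm_num)
  have hsize : ∀ (S : Finset Cfsg.GolayPt), S ⊆ o → ∀ i, S.card ≤ i →
      ((o.powersetCard i).filter fun T => S ⊆ T).card = (8 - S.card).choose (i - S.card) := by
    intro S hS i h
    rw [Cfsg.Lib.Steiner.card_supersets o S hS h, hk]
  have h4 : ∀ S, S ⊆ o → S.card = 4 → (Cfsg.Lib.Steiner.exact' Cfsg.octads o S).card = 4 := by
    intro S hS hc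
    have h := hsum S hS (by omega) 5 (by rw [hc, hα]; decide)
    rw [hc, show Finset.Ico 4 5 = {4} by decide, Finset.sum_singleton] at h
    have hf : (o.powersetCard 4).filter (fun T => S ⊆ T) = {S} := by
      refine Finset.eq_singleton_iff_unique_mem.mpr ⟨by simp [hS, hc], fun T hT => ?_⟩
      simp only [Finset.mem_filter, Finset.mem_powersetCard] at hT
      exact (Finset.eq_of_subset_of_card_le hT.2 (by omega)).symm
    rw [hf, Finset.sum_singleton] at h
    exact h
  refine ⟨fun hc => ?_, fun hc => ?_⟩ <;> rw [Cfsg.Lib.Steiner.ncard_exact (by omega)]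
  · have h := hsum s hs (by omega) 77 (by rw [hc, hα]; decide)
    rw [hc, show Finset.Ico 2 5 = {2, 3, 4} by decide, Finset.sum_insert (by decide), Finset.sum_pair (by decide),
      Finset.sum_const_nat (m := 4) (fun T hT => h4 T (Finset.mem_powersetCard.mp (Finset.mem_filter.mp hT).1).1
        (Finset.mem_powersetCard.mp (Finset.mem_filter.mp hT).1).2),
      Finset.sum_const_nat (m := 0) (fun T hT => hne T (Finset.mem_powersetCard.mp (Finset.mem_filter.mp hT).1).1
        (Finset.mem_powersetCard.mp (Finset.mem_filter.mp hT).1).2), hsize s hs 4 (by omega), hc] at h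
    have hf : (o.powersetCard 2).filter (fun T => s ⊆ T) = {s} := by
      refine Finset.eq_singleton_iff_unique_mem.mpr ⟨by simp [hs, hc], fun T hT => ?_⟩
      simp only [Finset.mem_filter, Finset.mem_powersetCard] at hT
      exact (Finset.eq_of_subset_of_card_le hT.2 (by omega)).symm
    rw [hf, Finset.sum_singleton] at h
    simp [Nat.choose] at h
    omega
  · exact h4 s hs hc

end Cfsg.Agent.S1555
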