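import Cfsg.Statements.S1556
import Cfsg.Agent.Lib.Golay.Dec.OctOct
import Cfsg.Agent.Lib.Golay.Dec.Use

set_option autoImplicit false
open scoped Pointwise
open Cfsg.Lib.Golay.Dec
open Cfsg

namespace Cfsg.Agent.S1556

/-- Two octads meeting a fixed octad in equally many points are in the same orbit of its stabiliser. -/
theorem result (o o' o'' : Finset Cfsg.GolayPt) (ho : o ∈ Cfsg.octads) (ho' : o' ∈ Cfsg.octads) (ho'' : o'' ∈ Cfsg.octads) (h : (o ∩ o').card = (o ∩ o'').card) : ∃ g : Equiv.Perm Cfsg.GolayPt, g ∈ Cfsg.M24 ∧ g • o = o ∧ g • o' = o'' := by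
  open Cfsg.Lib.Golay.Dec in
  obtain ⟨σ, hσ, h1, h2⟩ := OctOct.isDecomp.trans {o} ⟨o, ho, rfl⟩ {o'} ⟨o', ho', rfl⟩ {o''} ⟨o'', ho'', rfl⟩
    (by simp [profS_single, h])
  rw [Finset.smul_finset_singleton, Finset.singleton_inj] at h1 h2
  exact ⟨σ, hσ, h1, h2⟩

end Cfsg.Agent.S1556
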