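import Cfsg.Statements.S1559
import Cfsg.Agent.Lib.Golay.Dec.Use
import Cfsg.Agent.Lib.Golay.Dec.TrioTrio

set_option autoImplicit false
open scoped Pointwise
open Cfsg.Lib.Golay.Dec
open Cfsg

namespace Cfsg.Agent.S1559

/-- A trio stabiliser has five orbits on the 3795 trios, of sizes 1, 42, 56, 1008, 2688; and the stabiliser is a maximal proper subgroup. -/
theorem result (T : Finset (Finset Cfsg.GolayPt)) (hT : T ∈ Cfsg.trios) : ∃ X₁ ∈ Cfsg.trios, ∃ X₂ ∈ Cfsg.trios, ∃ X₃ ∈ Cfsg.trios, ∃ X₄ ∈ Cfsg.trios, (MulAction.orbit ↥(MulAction.stabilizer Cfsg.M24 T) X₁).ncard = 42 ∧ (MulAction.orbit ↥(MulAction.stabilizer Cfsg.M24 T) X₂).ncard = 56 ∧ (MulAction.orbit ↥(MulAction.stabilizer Cfsg.M24 T) X₃).ncard = 1008 ∧ (MulAction.orbit ↥(MulAction.stabilizer Cfsg.M24 T) X₄).ncard = 2688 ∧ Cfsg.trios = {T} ∪ MulAction.orbit ↥(MulAction.stabilizer Cfsg.M24 T) X₁ ∪ MulAction.orbit ↥(MulAction.stabilizer Cfsg.M24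 T) X₂ ∪ MulAction.orbit ↥(MulAction.stabilizer Cfsg.M24 T) X₃ ∪ MulAction.orbit ↥(MulAction.stabilizer Cfsg.M24 T) X₄ ∧ IsCoatom (MulAction.stabilizer Cfsg.M24 T) := by
  have hv₀ : profS (interp TrioCls.base) (interp TrioCls.base) = 12884901894 := by rw [← profC_eq _ _ (by decide +kernel) (by decide +kernel)]; decide +kernel
  obtain ⟨X₁, mX₁, -, oX₁, cX₁⟩ := exists_orbit TrioTrio.isDecomp trios_invar isEmb_id isEmb_id obj_surj (x := T) hT (n := 42) (v := 4295229444) (by decide) (by norm_num)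
  obtain ⟨X₂, mX₂, -, oX₂, cX₂⟩ := exists_orbit TrioTrio.isDecomp trios_invar isEmb_id isEmb_id obj_surj (x := T) hT (n := 56) (v := 393219) (by decide) (by norm_num)
  obtain ⟨X₃, mX₃, -, oX₃, cX₃⟩ := exists_orbit TrioTrio.isDecomp trios_invar isEmb_id isEmb_id obj_surj (x := T) hT (n := 1008) (v := 263169) (by decide) (by norm_num)
  obtain ⟨X₄, mX₄, -, oX₄, cX₄⟩ := exists_orbit TrioTrio.isDecomp trios_invar isEmb_id isEmb_id obj_surj (x := T) hT (n := 2688) (v := 198144) (by decide) (by norm_num)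
  refine ⟨X₁, mX₁, X₂, mX₂, X₃, mX₃, X₄, mX₄, cX₁, cX₂, cX₃, cX₄, ?_, isCoatom_stabilizer isEmb_id TrioCls.isCls TrioTrio.isDecomp (v₀ := 12884901894) hv₀ (by decide) (by decide) (by norm_num) (by decide +kernel) hT⟩
  have hs := fibre_self TrioCls.isCls TrioTrio.isDecomp hv₀ (by decide) hT
  rw [← hs, oX₁, oX₂, oX₃, oX₄]
  ext z
  simp only [Set.mem_union, Set.mem_ofPred_eq, id]
  constructor
  · intro hz
    obtain ⟨nv, hnv, e'⟩ := TrioTrio.isDecomp.covers _ hT z hz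
    simp only [List.mem_cons, List.not_mem_nil, or_false] at hnv
    rcases hnv with rfl | rfl | rfl | rfl | rfl <;> simp [hz, e']
  · intro h
    simp only [or_assoc] at h
    rcases h with ⟨h, -⟩ | ⟨h, -⟩ | ⟨h, -⟩ | ⟨h, -⟩ | ⟨h, -⟩ <;> exact h

end Cfsg.Agent.S1559
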