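import Cfsg.Statements.S1560
import Cfsg.Agent.Lib.Golay.Dec.DodDod
import Cfsg.Agent.Lib.Golay.Dec.Use

set_option autoImplicit false
open scoped Pointwise
open Cfsg.Lib.Golay.Dec
open Cfsg

namespace Cfsg.Agent.S1560

/-- Intersection numbers of dodecads: a dodecad meets every other dodecad in 0, 4, 6 or 8 points, meeting 495 of them in 4 points, 1584 in 6 points and 495 in 8 points. -/
theorem result (d : Finset Cfsg.GolayPt) (hd : d ∈ Cfsg.dodecads) : (∀ d' ∈ Cfsg.dodecads, d' ≠ d → (d ∩ d').card = 0 ∨ (d ∩ d').card = 4 ∨ (d ∩ d').card = 6 ∨ (d ∩ d').card = 8) ∧ {d' : Finset Cfsg.GolayPt | d' ∈ Cfsg.dodecads ∧ (d ∩ d').card = 4}.ncard = 495 ∧ {d' : Finset Cfsg.GolayPt | d' ∈ Cfsg.dodecads ∧ (d ∩ d').card = 6}.ncard = 1584 ∧ {d' : Finset Cfsg.GolayPt | d' ∈ Cfsg.dodecads ∧ (d ∩ d').card = 8}.ncard = 495 := by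
  have hpow : ∀ {a b : ℕ}, 16 ^ a = 16 ^ b ↔ a = b := fun {a b} => Nat.pow_right_injective (by norm_num : 2 ≤ 16) |>.eq_iff
  have hcount : ∀ k n, (n, 16 ^ k) ∈ [(1, 281474976710656), (495, 4294967296), (1584, 16777216), (495, 65536), (1, 1)] →
      {d' : Finset Cfsg.GolayPt | d' ∈ Cfsg.dodecads ∧ (d ∩ d').card = k}.ncard = n := by
    intro k n h
    have := ncard_fibre DodDod.isDecomp isEmb_single dodCls_surj (S := {d}) ⟨d, hd, rfl⟩ h
    simpa [single_mem_dodCls, profS_single, hpow] using this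
  refine ⟨fun d' hd' hne => ?_, hcount 4 495 (by decide), hcount 6 1584 (by decide), hcount 8 495 (by decide)⟩
  obtain ⟨nv, hnv, e⟩ := DodDod.isDecomp.covers {d} ⟨d, hd, rfl⟩ {d'} ⟨d', hd', rfl⟩
  rw [profS_single] at e
  simp only [List.mem_cons, List.not_mem_nil, or_false] at hnv
  rcases hnv with rfl | rfl | rfl | rfl | rfl
  · have h12 : (d ∩ d').card = 12 := hpow.1 (e.trans (by norm_num))
    refine absurd ?_ hne
    have h1 : d ∩ d' = d := Finset.eq_of_subset_of_card_le Finset.inter_subset_left (by rw [h12]; exact hd.2.le)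
    have h2 : d ∩ d' = d' := Finset.eq_of_subset_of_card_le Finset.inter_subset_right (by rw [h12]; exact hd'.2.le)
    exact h2.symm.trans h1
  · exact Or.inr (Or.inr (Or.inr (hpow.1 (e.trans (by norm_num)))))
  · exact Or.inr (Or.inr (Or.inl (hpow.1 (e.trans (by norm_num)))))
  · exact Or.inr (Or.inl (hpow.1 (e.trans (by norm_num))))
  · exact Or.inl (hpow.1 (e.trans (by norm_num)))

end Cfsg.Agent.S1560
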