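import Cfsg.Statements.S1562
import Cfsg.Agent.Lib.Golay.Dec.TripleTriple
import Cfsg.Agent.Lib.Golay.Dec.Use

set_option autoImplicit false
open scoped Pointwise
open Cfsg.Lib.Golay.Dec
open Cfsg

namespace Cfsg.Agent.S1562

/-- Orbits of a triad stabiliser on the triads disjoint from it: the 210 triads inside a common octad with it form one orbit and the remaining 1120 another. -/
theorem result (T : Finset Cfsg.GolayPt) (hT : T.card = 3) : {U : Finset Cfsg.GolayPt | U.card = 3 ∧ Disjoint T U ∧ (∃ o ∈ Cfsg.octads, T ∪ U ⊆ o)}.ncard = 210 ∧ {U : Finset Cfsg.GolayPt | U.card = 3 ∧ Disjoint T U ∧ ¬ (∃ o ∈ Cfsg.octads, T ∪ U ⊆ o)}.ncard = 1120 ∧ ∀ U U' : Finset Cfsg.GolayPt, U.card = 3 → U'.card = 3 → Disjoint T U → Disjoint T U' → ((∃ o ∈ Cfsg.octads, T ∪ U ⊆ o) ↔ (∃ o ∈ Cfsg.octads, T ∪ U' ⊆ o)) → ∃ g : Equiv.Perm Cfsg.GolayPt, g ∈ Cfsg.M24 ∧ g • T = T ∧ g • U = U' := by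
  classical
  have hval : ∀ U : Finset Cfsg.GolayPt, tripS {T} {U} =
      2 * (T ∩ U).card + if (∃ o ∈ Cfsg.octads, T ∪ U ⊆ o) then 1 else 0 := by
    intro U
    simp only [tripS, Finset.sup_singleton, id, Cfsg.Lib.Golay.mem_octadFinset]
  have hd : ∀ U : Finset Cfsg.GolayPt, Disjoint T U ↔ (T ∩ U).card = 0 := fun U => by
    rw [Finset.card_eq_zero, Finset.disjoint_iff_inter_eq_empty]
  refine ⟨?_, ?_, fun U U' hU hU' hdU hdU' hiff => ?_⟩
  · have := ncard_fibre TripleTriple.isDecomp isEmb_single ptCls_surj (S := {T}) ⟨T, hT, rfl⟩ (n := 210) (v := 1) (by decide)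
    refine Eq.trans (congrArg Set.ncard ?_) this
    ext U
    simp only [Set.mem_ofPred_eq, single_mem_ptCls, hval, hd]
    constructor
    · rintro ⟨h1, h2, h3⟩
      exact ⟨h1, by rw [if_pos h3]; omega⟩
    · rintro ⟨h1, h2⟩
      split_ifs at h2 with h3
      · exact ⟨h1, by omega, h3⟩
      · omega
  · have := ncard_fibre TripleTriple.isDecomp isEmb_single ptCls_surj (S := {T}) ⟨T, hT, rfl⟩ (n := 1120) (v := 0) (by decide)
    refine Eq.trans (congrArg Set.ncard ?_) this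
    ext U
    simp only [Set.mem_ofPred_eq, single_mem_ptCls, hval, hd]
    constructor
    · rintro ⟨h1, h2, h3⟩
      exact ⟨h1, by rw [if_neg h3]; omega⟩
    · rintro ⟨h1, h2⟩
      by_cases h3 : ∃ o ∈ Cfsg.octads, T ∪ U ⊆ o
      · rw [if_pos h3] at h2; omega
      · rw [if_neg h3] at h2; exact ⟨h1, by omega, h3⟩
  · obtain ⟨σ, hσ, h1, h2⟩ := TripleTriple.isDecomp.trans {T} ⟨T, hT, rfl⟩ {U} ⟨U, hU, rfl⟩ {U'} ⟨U', hU', rfl⟩
      (by rw [hval, hval, (hd U).1 hdU, (hd U').1 hdU']; simp only [hiff])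
    rw [Finset.smul_finset_singleton, Finset.singleton_inj] at h1 h2
    exact ⟨σ, hσ, h1, h2⟩

end Cfsg.Agent.S1562
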