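import Cfsg.Statements.S1564
import Cfsg.Agent.Lib.Golay.Dec.Maximal
import Cfsg.Agent.Lib.Golay.Dec.TripleTriple

set_option autoImplicit false
open scoped Pointwise
open Cfsg

namespace Cfsg.Agent.S1564

/-- The stabiliser of a set of three points (setwise) is a maximal proper subgroup of the group of the length-24 code. -/
theorem result (s : Finset Cfsg.GolayPt) (hs : s.card = 3) : IsCoatom (MulAction.stabilizer Cfsg.M24 s) := by
  open Cfsg.Lib.Golay.Dec in
  exact isCoatom_stabilizer isEmb_single TripleCls.isCls TripleTriple.isDecomp (v₀ := 7) (by rw [← tripC_eq _ _ (by decide +kernel) (by decide +kernel)]; decide +kernel)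
    (by decide) (by decide) (by norm_num) (by decide +kernel) ⟨s, hs, rfl⟩

end Cfsg.Agent.S1564
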