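import Cfsg.Statements.S1567
import Mathlib
import Cfsg.Agent.Lib.Leech.Gens

set_option autoImplicit false
open Cfsg

namespace Cfsg.Agent.S1567

/-- The rank-24 lattice is the additive subgroup generated by its 196560 minimal vectors. -/
theorem result : AddSubgroup.closure {x : Cfsg.GolayPt → ℤ | x ∈ Cfsg.leechLattice ∧ Cfsg.sqNorm x = 32} = Cfsg.leechLattice := by
  refine le_antisymm ?_ ?_
  · rw [AddSubgroup.closure_le]; exact fun x hx => hx.1
  · conv_lhs => rw [← Lib.Leech.closure_genSet]
    refine (AddSubgroup.closure_le _).2 ?_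
    have hmin : ∀ x ∈ Lib.Leech.genSet, (x ∈ leechLattice ∧ sqNorm x = 32) ∨ x = Lib.Leech.fourVec none := by
      have h1 : sqNorm Lib.Leech.uVec = 32 := by decide +kernel
      have h2 : ∀ n ∈ Lib.Golay.octBasis, sqNorm (Lib.Leech.twoVec n) = 32 := by decide +kernel
      have h3 : ∀ p, p ≠ none → sqNorm (Lib.Leech.fourVec p) = 32 := by decide +kernel
      rintro x ((rfl | ⟨n, hn, rfl⟩) | ⟨p, rfl⟩)
      · exact Or.inl ⟨Lib.Leech.mem_of_check Lib.Leech.check_uVec, h1⟩
      · exact Or.inl ⟨Lib.Leech.mem_of_check (Lib.Leech.check_twoVec n hn), h2 n hn⟩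
      · by_cases hp : p = none
        · exact Or.inr (by rw [hp])
        · exact Or.inl ⟨Lib.Leech.mem_of_check (Lib.Leech.check_fourVec p), h3 p hp⟩
    intro x hx
    rcases hmin x hx with h | rfl
    · exact AddSubgroup.subset_closure h
    · let w : GolayPt → ℤ := fun i => (if i = none then 4 else 0) - (if i = some 0 then 4 else 0)
      have hw : w ∈ leechLattice ∧ sqNorm w = 32 := ⟨Lib.Leech.mem_of_check (by decide +kernel), by decide +kernel⟩
      have e : Lib.Leech.fourVec none = Lib.Leech.fourVec (some 0) + w := by decide +kernel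
      rw [e]
      exact add_mem (AddSubgroup.subset_closure ⟨Lib.Leech.mem_of_check (Lib.Leech.check_fourVec _), by decide +kernel⟩)
        (AddSubgroup.subset_closure hw)

end Cfsg.Agent.S1567
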