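import Mathlib
import Cfsg.Statements.S1583
import Cfsg.Agent.Lib.Leech.Tri.Triangles
-- import your own Cfsg.Agent.* helpers here

set_option autoImplicit false
open Cfsg

namespace Cfsg.Agent.S1583

/-- The Higman–Sims configuration: for two vectors of customary norm 6 with inner product −4, exactly 100 minimal vectors have customary inner products 3 and −3 with them, and the joint stabiliser permutes these transitively. -/
theorem result (v w : ↥Cfsg.leechLattice) (hv : Cfsg.sqNorm (v : Cfsg.GolayPt → ℤ) = 48) (hw : Cfsg.sqNorm (w : Cfsg.GolayPt → ℤ) = 48) (hvw : Cfsg.dotInt (v : Cfsg.GolayPt → ℤ) (w : Cfsg.GolayPt → ℤ) = -32) : {x : ↥Cfsg.leechLattice | Cfsg.sqNorm (x : Cfsg.GolayPt → ℤ) = 32 ∧ Cfsg.dotInt (v : Cfsg.GolayPt → ℤ) (x : Cfsg.GolayPt → ℤ) = 24 ∧ Cfsg.dotInt (w : Cfsg.GolayPt → ℤ) (x : Cfsg.GolayPt → ℤ) = -24}.ncard = 100 ∧ ∀ x ∈ {x : ↥Cfsg.leechLattice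 | Cfsg.sqNorm (x : Cfsg.GolayPt → ℤ) = 32 ∧ Cfsg.dotInt (v : Cfsg.GolayPt → ℤ) (x : Cfsg.GolayPt → ℤ) = 24 ∧ Cfsg.dotInt (w : Cfsg.GolayPt → ℤ) (x : Cfsg.GolayPt → ℤ) = -24}, ∀ x' ∈ {x : ↥Cfsg.leechLattice | Cfsg.sqNorm (x : Cfsg.GolayPt → ℤ) = 32 ∧ Cfsg.dotInt (v : Cfsg.GolayPt → ℤ) (x : Cfsg.GolayPt → ℤ) = 24 ∧ Cfsg.dotInt (w : Cfsg.GolayPt → ℤ) (x : Cfsg.GolayPt → ℤ) = -24}, ∃ g : ↥Cfsg.Co0, g • v = v ∧ g • w = w ∧ g • x = x' := by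
  open Cfsg.Lib.Leech Cfsg.Lib.Leech.Tri in
  have hn : nm (v + w) = 32 := by rw [nm_add]; simp only [nm, dt]; rw [hv, hw, hvw]; norm_num
  open Cfsg.Lib.Leech Cfsg.Lib.Leech.Tri in
  have hd : dt v (v + w) = 16 := by rw [dt_add, dt_self]; simp only [nm, dt]; rw [hv, hvw]; norm_num
  open Cfsg.Lib.Leech Cfsg.Lib.Leech.Tri in
  have he : ∀ x : ↥Cfsg.leechLattice, dt (v + w) x = dt v x + dt w x := fun x => by
    rw [dt_comm, dt_add, dt_comm x v, dt_comm x w]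
  refine ⟨?_, fun x hx x' hx' => ?_⟩
  · rw [← Cfsg.Lib.Leech.Tri.count_split hv hn hd]
    congr 1
    ext x
    simp only [Set.mem_ofPred_eq]
    have := he x
    constructor
    · rintro ⟨h1, h2, h3⟩
      exact ⟨h1, h2, by simp only [Cfsg.Lib.Leech.Tri.dt] at this ⊢; omega⟩
    · rintro ⟨h1, h2, h3⟩
      exact ⟨h1, h2, by simp only [Cfsg.Lib.Leech.Tri.dt] at this h2 h3 ⊢; omega⟩
  · obtain ⟨g, hgv, hgu, hgx⟩ := Cfsg.Lib.Leech.Tri.trans_split (x := x) (x' := x') hv hn hd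
      ⟨hx.1, hx.2.1, by rw [he]; show Cfsg.dotInt _ _ + Cfsg.dotInt _ _ = 0; rw [hx.2.1, hx.2.2]; norm_num⟩ hv hn hd
      ⟨hx'.1, hx'.2.1, by rw [he]; show Cfsg.dotInt _ _ + Cfsg.dotInt _ _ = 0; rw [hx'.2.1, hx'.2.2]; norm_num⟩
    refine ⟨g, hgv, ?_, hgx⟩
    have := hgu
    rw [Cfsg.Lib.Leech.co0_add, hgv] at this
    exact add_left_cancel this

end Cfsg.Agent.S1583
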