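import Mathlib
import Cfsg.Statements.S1584
import Cfsg.Agent.Lib.Leech.Tri.Split22
-- import your own Cfsg.Agent.* helpers here

set_option autoImplicit false
open Cfsg

namespace Cfsg.Agent.S1584

/-- The Higman–Sims group acts with rank 3 and subdegrees 1, 22, 77 on its 100 points, the orbits of a point stabiliser being distinguished by customary inner product 1 with the fixed point. -/
theorem result (v w x : ↥Cfsg.leechLattice) (hv : Cfsg.sqNorm (v : Cfsg.GolayPt → ℤ) = 48) (hw : Cfsg.sqNorm (w : Cfsg.GolayPt → ℤ) = 48) (hvw : Cfsg.dotInt (v : Cfsg.GolayPt → ℤ) (w : Cfsg.GolayPt → ℤ) = -32) (hx : x ∈ {x : ↥Cfsg.leechLattice | Cfsg.sqNorm (x : Cfsg.GolayPt → ℤ) = 32 ∧ Cfsg.dotInt (v : Cfsg.GolayPt → ℤ) (x : Cfsg.GolayPt → ℤ) = 24 ∧ Cfsg.dotInt (w : Cfsg.GolayPt → ℤ) (x : Cfsg.GolayPt → ℤ) = -24}) :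 {y : ↥Cfsg.leechLattice | y ∈ {x : ↥Cfsg.leechLattice | Cfsg.sqNorm (x : Cfsg.GolayPt → ℤ) = 32 ∧ Cfsg.dotInt (v : Cfsg.GolayPt → ℤ) (x : Cfsg.GolayPt → ℤ) = 24 ∧ Cfsg.dotInt (w : Cfsg.GolayPt → ℤ) (x : Cfsg.GolayPt → ℤ) = -24} ∧ Cfsg.dotInt (x : Cfsg.GolayPt → ℤ) (y : Cfsg.GolayPt → ℤ) = 8}.ncard = 22 ∧ {y : ↥Cfsg.leechLattice | y ∈ {x : ↥Cfsg.leechLattice | Cfsg.sqNorm (x : Cfsg.GolayPt → ℤ) = 32 ∧ Cfsg.dotInt (v : Cfsg.GolayPt → ℤ) (x : Cfsg.GolayPt → ℤ) = 24 ∧ Cfsg.dotInt (w : Cfsg.GolayPt → ℤ) (x : Cfsg.GolayPt → ℤ) = -24} ∧ y ≠ x ∧ Cfsg.dotInt (x : Cfsg.GolayPt → ℤ) (y : Cfsg.GolayPt → ℤ) ≠ 8}.ncard = 77 ∧ ∀ y ∈ {x : ↥Cfsg.leechLattice | Cfsg.sqNorm (x : Cfsg.GolayPt → ℤ) = 32 ∧ Cfsg.dotInt (v : Cfsg.GolayPt → ℤ) (x : Cfsg.GolayPt → ℤ) = 24 ∧ Cfsg.dotInt (w : Cfsg.GolayPt → ℤ) (x : Cfsg.GolayPt →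 ℤ) = -24}, ∀ y' ∈ {x : ↥Cfsg.leechLattice | Cfsg.sqNorm (x : Cfsg.GolayPt → ℤ) = 32 ∧ Cfsg.dotInt (v : Cfsg.GolayPt → ℤ) (x : Cfsg.GolayPt → ℤ) = 24 ∧ Cfsg.dotInt (w : Cfsg.GolayPt → ℤ) (x : Cfsg.GolayPt → ℤ) = -24}, y ≠ x → y' ≠ x → (Cfsg.dotInt (x : Cfsg.GolayPt → ℤ) (y : Cfsg.GolayPt → ℤ) = 8 ↔ Cfsg.dotInt (x : Cfsg.GolayPt → ℤ) (y' : Cfsg.GolayPt → ℤ) = 8) → ∃ g : ↥Cfsg.Co0, g • v = v ∧ g • w = w ∧ g • x = x ∧ g • y = y' := by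
  open Cfsg.Lib.Leech Cfsg.Lib.Leech.Tri in
  have hn : nm (v + w) = 32 := by rw [nm_add]; simp only [nm, dt]; rw [hv, hw, hvw]; norm_num
  open Cfsg.Lib.Leech Cfsg.Lib.Leech.Tri in
  have hd : dt v (v + w) = 16 := by rw [dt_add, dt_self]; simp only [nm, dt]; rw [hv, hvw]; norm_num
  open Cfsg.Lib.Leech Cfsg.Lib.Leech.Tri in
  have he : ∀ y : ↥Cfsg.leechLattice, (nm y = 32 ∧ dt v y = 24 ∧ dt (v + w) y = 0) ↔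
      (nm y = 32 ∧ dt v y = 24 ∧ dt w y = -24) := fun y => by
    rw [dt_comm (v + w) y, dt_add, dt_comm y v, dt_comm y w]; omega
  obtain ⟨h22, h77, horb⟩ := Cfsg.Lib.Leech.Tri.split_suborbits hv hn hd ((he x).2 hx)
  refine ⟨?_, ?_, fun y hy y' hy' hne hne' h => ?_⟩
  · refine Eq.trans ?_ h22; congr 1; ext y; exact and_congr_left' (he y).symm
  · refine Eq.trans ?_ h77; congr 1; ext y; exact and_congr_left' (he y).symm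
  · obtain ⟨g, g1, g2, g3, g4⟩ := horb y y' ((he y).2 hy) ((he y').2 hy') hne hne' h
    refine ⟨g, g1, ?_, g3, g4⟩
    rw [Cfsg.Lib.Leech.co0_add, g1] at g2
    exact add_left_cancel g2

end Cfsg.Agent.S1584
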