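import Mathlib
import Cfsg.Statements.S1585
import Cfsg.Agent.Lib.Leech.Tri.Triangles
-- import your own Cfsg.Agent.* helpers here

set_option autoImplicit false
open Cfsg

namespace Cfsg.Agent.S1585

/-- Two vectors of customary norm 6 with inner product −4 are exchanged by some automorphism of the lattice. -/
theorem result (v w : ↥Cfsg.leechLattice) (hv : Cfsg.sqNorm (v : Cfsg.GolayPt → ℤ) = 48) (hw : Cfsg.sqNorm (w : Cfsg.GolayPt → ℤ) = 48) (hvw : Cfsg.dotInt (v : Cfsg.GolayPt → ℤ) (w : Cfsg.GolayPt → ℤ) = -32) : ∃ g : ↥Cfsg.Co0, g • v = w ∧ g • w = v := by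
  open Cfsg.Lib.Leech Cfsg.Lib.Leech.Tri in
  have hn : nm (v + w) = 32 := by rw [nm_add]; simp only [nm, dt]; rw [hv, hw, hvw]; norm_num
  open Cfsg.Lib.Leech Cfsg.Lib.Leech.Tri in
  obtain ⟨g, hgv, hgu⟩ := trans_vu (v := v) (u := v + w) (v' := w) (u' := v + w) hv hn
    (by rw [dt_add, dt_self]; simp only [nm, dt]; rw [hv, hvw]; norm_num) hw hn
    (by rw [dt_add, dt_self, dt_comm w v]; simp only [nm, dt]; rw [hw, hvw]; norm_num)
  refine ⟨g, hgv, ?_⟩
  have := hgu
  rw [Cfsg.Lib.Leech.co0_add, hgv] at this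
  exact add_left_cancel (this.trans (add_comm v w))

end Cfsg.Agent.S1585
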