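import Cfsg.Statements.S1587
import Mathlib

set_option autoImplicit false
open Matrix
open Cfsg

namespace Cfsg.Agent.S1587

/-- First step of the characterisation of the rank-24 lattice: in an even lattice without roots, norm-8 vectors congruent modulo 2 are equal, opposite or orthogonal. -/
theorem result (B : Matrix (Fin 24) (Fin 24) ℤ) (hsymm : B.IsSymm) (hpos : ∀ x : Fin 24 → ℤ, x ≠ 0 → 0 < x ⬝ᵥ (B *ᵥ x)) (heven : ∀ x : Fin 24 → ℤ, (2 : ℤ) ∣ x ⬝ᵥ (B *ᵥ x)) (h2 : ∀ x : Fin 24 → ℤ, x ⬝ᵥ (B *ᵥ x) ≠ 2) (x y : Fin 24 → ℤ) (hx : x ⬝ᵥ (B *ᵥ x) = 8) (hy : y ⬝ᵥ (B *ᵥ y) = 8) (hc : ∀ i, (2 : ℤ) ∣ (x - y) i) : y = x ∨ y = -x ∨ x ⬝ᵥ (B *ᵥ y) = 0 := by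
  have hlin : ∀ a b : Fin 24 → ℤ, (a + b) ⬝ᵥ (B *ᵥ (a + b)) =
      a ⬝ᵥ (B *ᵥ a) + 2 * (a ⬝ᵥ (B *ᵥ b)) + b ⬝ᵥ (B *ᵥ b) := by
    intro a b
    have hs : b ⬝ᵥ (B *ᵥ a) = a ⬝ᵥ (B *ᵥ b) := by
      rw [Matrix.dotProduct_mulVec, ← Matrix.mulVec_transpose, hsymm.eq, dotProduct_comm]
    rw [Matrix.mulVec_add, add_dotProduct, dotProduct_add, dotProduct_add, hs]
    ring
  choose z hz using hc
  by_cases hz0 : z = 0
  · left
    funext i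
    have := hz i
    simp [hz0] at this
    omega
  by_cases hw0 : x + -z = 0
  · right; left
    funext i
    have := hz i
    have := congrFun hw0 i
    simp only [Pi.sub_apply, Pi.add_apply, Pi.neg_apply, Pi.zero_apply] at *
    omega
  right; right
  have hy' : y = (x + -z) + -z := by
    funext i
    have := hz i
    simp only [Pi.sub_apply, Pi.add_apply, Pi.neg_apply] at *
    omega
  have hneg : ∀ a b : Fin 24 → ℤ, a ⬝ᵥ (B *ᵥ (-b)) = -(a ⬝ᵥ (B *ᵥ b)) := fun a b => by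
    rw [Matrix.mulVec_neg, dotProduct_neg]
  have hnn : (-z) ⬝ᵥ (B *ᵥ (-z)) = z ⬝ᵥ (B *ᵥ z) := by
    rw [Matrix.mulVec_neg, neg_dotProduct_neg]
  have h1 := hlin (x + -z) (-z)
  rw [← hy', hy, hnn, hneg] at h1
  have h3 := hlin x (-z)
  rw [hx, hnn, hneg] at h3
  have h4 : (x + -z) ⬝ᵥ (B *ᵥ z) = x ⬝ᵥ (B *ᵥ z) - z ⬝ᵥ (B *ᵥ z) := by
    rw [add_dotProduct, neg_dotProduct]; ring
  have h5 : x ⬝ᵥ (B *ᵥ y) = x ⬝ᵥ (B *ᵥ x) - 2 * (x ⬝ᵥ (B *ᵥ z)) := by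
    rw [hy', Matrix.mulVec_add, Matrix.mulVec_add, dotProduct_add, dotProduct_add, hneg]
    ring
  have e1 := heven z
  have p1 := hpos z hz0
  have q1 := h2 z
  have e2 := heven (x + -z)
  have p2 := hpos _ hw0
  have q2 := h2 (x + -z)
  omega

end Cfsg.Agent.S1587
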