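import Cfsg.Statements.S1590
import Mathlib
import Cfsg.Agent.Lib.TernaryGolay.Code

set_option autoImplicit false
open Cfsg Cfsg.Lib.TernaryGolay

namespace Cfsg.Agent.S1590

/-- The length-12 ternary code has 729 words with weight distribution 0^1 6^264 9^440 12^24. -/
theorem result : Nat.card ↥Cfsg.ternaryGolayCode = 729 ∧ (∀ x ∈ Cfsg.ternaryGolayCode, x ≠ 0 → (Cfsg.ternarySupport x).card = 6 ∨ (Cfsg.ternarySupport x).card = 9 ∨ (Cfsg.ternarySupport x).card = 12) ∧ {x : Cfsg.ArrayPt → ZMod 3 | x ∈ Cfsg.ternaryGolayCode ∧ (Cfsg.ternarySupport x).card = 6}.ncard = 264 ∧ {x : Cfsg.ArrayPt → ZMod 3 | x ∈ Cfsg.ternaryGolayCode ∧ (Cfsg.ternarySupport x).card = 9}.ncard = 440 ∧ {x : Cfsg.ArrayPt → ZMod 3 | x ∈ Cfsg.ternaryGolayCode ∧ (Cfsg.ternarySupport x).card = 12}.ncard = 24 := by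
  have h0 : ∀ n < 729, n ≠ 0 → pop (mask n) = 6 ∨ pop (mask n) = 9 ∨ pop (mask n) = 12 := by
    decide +kernel
  refine ⟨?_, ?_, ?_, ?_, ?_⟩
  · rw [show Nat.card ↥ternaryGolayCode = (ternaryGolayCode : Set (ArrayPt → ZMod 3)).ncard from rfl,
      code_eq, Set.InjOn.ncard_image (s := Set.Iio 729) (f := word) (fun n hn m hm => word_injective n hn m hm),
      Set.ncard_eq_toFinset_card', Set.toFinset_Iio, Nat.card_Iio]
  · intro x hx hne
    obtain ⟨n, hn, rfl⟩ := exists_word hx
    rw [card_support]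
    refine h0 n hn ?_
    rintro rfl
    exact hne (funext fun p => by revert p; decide)
  · rw [ncard_words (fun n => pop (mask n) = 6) _ (fun n _ => by rw [card_support])]
    decide +kernel
  · rw [ncard_words (fun n => pop (mask n) = 9) _ (fun n _ => by rw [card_support])]
    decide +kernel
  · rw [ncard_words (fun n => pop (mask n) = 12) _ (fun n _ => by rw [card_support])]
    decide +kernel

end Cfsg.Agent.S1590
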