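import Cfsg.Statements.S1591
import Mathlib
import Cfsg.Agent.Lib.TernaryGolay.Code

set_option autoImplicit false
open Cfsg Cfsg.Lib.TernaryGolay

namespace Cfsg.Agent.S1591

/-- Any two words of the length-12 ternary code have dot product zero. -/
theorem result (x y : Cfsg.ArrayPt → ZMod 3) (hx : x ∈ Cfsg.ternaryGolayCode) (hy : y ∈ Cfsg.ternaryGolayCode) : ∑ p, x p * y p = 0 := by
  have hlin : ∀ n < 729, ∀ p : ArrayPt, word n p = ∑ i : Fin 6, (dig n i : ZMod 3) * word (3 ^ (i : ℕ)) p := by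
    intro n _ p
    have hb : ∀ (i : Fin 6) (p : ArrayPt),
        word (3 ^ (i : ℕ)) p = (((coef.getD (idx p) []).getD i 0 : ℕ) : ZMod 3) := by decide +kernel
    simp only [hb]
    simp [word, val, List.range_succ, Fin.sum_univ_six]
    ring
  have hgen : ∀ i j : Fin 6, ∑ p, word (3 ^ (i : ℕ)) p * word (3 ^ (j : ℕ)) p = 0 := by decide +kernel
  obtain ⟨n, hn, rfl⟩ := exists_word hx
  obtain ⟨m, hm, rfl⟩ := exists_word hy
  simp only [hlin n hn, hlin m hm, Finset.sum_mul_sum]
  rw [Finset.sum_comm]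
  refine Finset.sum_eq_zero fun i _ => ?_
  rw [Finset.sum_comm]
  refine Finset.sum_eq_zero fun j _ => ?_
  simp only [mul_mul_mul_comm, ← Finset.mul_sum, hgen i j, mul_zero]

end Cfsg.Agent.S1591
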