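import Cfsg.Statements.S1593
import Mathlib
import Cfsg.Agent.Lib.TernaryGolay.Code

set_option autoImplicit false
open Cfsg Cfsg.Lib.TernaryGolay

namespace Cfsg.Agent.S1593

/-- The only sign changes preserving the length-12 ternary code are the identity and negation of all coordinates. -/
theorem result (c : Cfsg.ArrayPt → (ZMod 3)ˣ) (h : (∀ x ∈ Cfsg.ternaryGolayCode, Cfsg.monomialMap 1 c x ∈ Cfsg.ternaryGolayCode)) : (∀ p, c p = 1) ∨ (∀ p, c p = -1) := by
  have hsign : ∀ p q : ArrayPt, c p = c q := by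
    intro p q
    have hs : ∃ s : Finset ArrayPt, s.card = 5 ∧ p ∈ s ∧ q ∈ s := by
      obtain ⟨s, hs1, hs2⟩ := Finset.exists_superset_card_eq (s := ({p, q} : Finset ArrayPt)) (n := 5)
        (Finset.card_le_two.trans (by norm_num)) (by simp)
      exact ⟨s, hs2, hs1 (by simp), hs1 (by simp)⟩
    obtain ⟨s, hs5, hp, hq⟩ := hs
    obtain ⟨b, ⟨hb, hsb⟩, -⟩ := isSteiner.2 s hs5
    rw [supports_six, Finset.mem_coe, Finset.mem_image] at hb
    obtain ⟨m, hm, rfl⟩ := hb
    simp only [List.mem_toFinset, blockMasks, List.mem_map] at hm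
    obtain ⟨e, he, rfl⟩ := hm
    obtain ⟨-, h6, hn, hmask⟩ := blockMasks_facts.2.2 e he
    have hy := h _ (word_mem hn)
    set y := Cfsg.monomialMap 1 c (word e.2.1) with hy'
    obtain ⟨n, hn', hyn⟩ := exists_word hy
    have hsupp : toSet (mask n) = toSet e.1 := by
      rw [← hmask, ← support_word, ← support_word, ← hyn, hy']
      ext r
      simp [ternarySupport, monomialMap, Equiv.Perm.one_symm]
    have hmn : mask n = e.1 :=
      toSet_injOn (Nat.ofBits_lt_two_pow _) (blockMasks_facts.2.2 e he).1 hsupp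
    obtain ⟨e', he', h2⟩ := List.any_eq_true.1 (blocks_complete n hn' (hmn ▸ h6))
    simp only [Bool.and_eq_true, decide_eq_true_eq, Bool.or_eq_true] at h2
    obtain rfl : e' = e := List.inj_on_of_nodup_map blockMasks_facts.1 he' he (h2.1.trans hmn)
    have hcases : ∃ u : ZMod 3, ∀ r, y r = u * word e'.2.1 r := by
      rcases h2.2 with rfl | rfl
      · exact ⟨1, fun r => by rw [hyn, one_mul]⟩
      · exact ⟨-1, fun r => by rw [hyn, neg_pair e' he' r, neg_one_mul]⟩
    obtain ⟨u, hu⟩ := hcases
    have hc : ∀ r ∈ s, (c r : ZMod 3) = u := by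
      intro r hr
      have hne : word e'.2.1 r ≠ 0 := by
        have := hsb hr
        rw [← hmask, ← support_word] at this
        simpa [ternarySupport] using this
      have := hu r
      simp only [hy', monomialMap, Equiv.Perm.one_symm, Equiv.Perm.one_apply] at this
      exact mul_right_cancel₀ hne this
    exact Units.ext ((hc p hp).trans (hc q hq).symm)
  have h2 : ∀ v : (ZMod 3)ˣ, v = 1 ∨ v = -1 := by decide
  rcases h2 (c (0, 0)) with e | e
  · exact Or.inl fun p => (hsign p (0, 0)).trans e
  · exact Or.inr fun p => (hsign p (0, 0)).trans e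

end Cfsg.Agent.S1593
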