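import Cfsg.Statements.S1595
import Cfsg.Agent.Lib.Steiner.Counts

set_option autoImplicit false
open Cfsg

namespace Cfsg.Agent.S1595

/-- Leech triangle of S(5, 6, 12): blocks meet in 0, 2, 3 or 4 points, and a block is met exactly in a given 2-, 3- or 4-subset by 3, 2, 3 blocks respectively. -/
theorem result {α : Type*} [Fintype α] [DecidableEq α] (hα : Fintype.card α = 12) {B : Set (Finset α)} (hB : Cfsg.IsSteinerSystem 5 6 B) (b : Finset α) (hb : b ∈ B) : (∀ c ∈ B, c ≠ b → (b ∩ c).card = 0 ∨ (b ∩ c).card = 2 ∨ (b ∩ c).card = 3 ∨ (b ∩ c).card = 4) ∧ ∀ s ⊆ b, (s.card = 2 → {c : Finset α | c ∈ B ∧ b ∩ c = s}.ncard = 3) ∧ (s.card = 3 → {c : Finset α | c ∈ B ∧ b ∩ c = s}.ncard = 2) ∧ (s.card = 4 → {c : Finset α | c ∈ B ∧ b ∩ c = s}.ncard = 3) := by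
  classical
  have hk : b.card = 6 := hB.1 b hb
  have eq := fun s hs => Cfsg.Lib.Steiner.meet_equation hB hb (s := s) hs
  have e1 := eq 1 (by norm_num) 66 (by rw [hα]; decide) (by norm_num)
  have e2 := eq 2 (by norm_num) 30 (by rw [hα]; decide) (by norm_num)
  have e3 := eq 3 (by norm_num) 12 (by rw [hα]; decide) (by norm_num)
  have e4 := eq 4 (by norm_num) 4 (by rw [hα]; decide) (by norm_num)
  simp only [Finset.sum_range_succ, Finset.sum_range_zero] at e1 e2 e3 e4
  norm_num [Nat.choose] at e1 e2 e3 e4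
  refine ⟨fun c hc hne => ?_, fun s hs => ?_⟩
  · have hpos := Cfsg.Lib.Steiner.meetNum_pos hc hne.symm
    have hlt : (b ∩ c).card < 5 := by
      by_contra h
      exact hne (Cfsg.Lib.Steiner.eq_of_le_inter hB hb hc (not_lt.mp h)).symm
    interval_cases h : (b ∩ c).card
    · omega
    · omega
    · omega
    · omega
    · omega
  have hsum := fun (S : Finset α) (h : S ⊆ b) (h5 : S.card ≤ 5) (l : ℕ) hl =>
    Cfsg.Lib.Steiner.sum_exact hB hb h h5 (l := l) hl (by norm_num)
  have hsize : ∀ (S : Finset α), S ⊆ b → ∀ i, ((b.powersetCard i).filter fun T => S ⊆ T).card =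
      if S.card ≤ i then (6 - S.card).choose (i - S.card) else 0 := by
    intro S hS i
    split_ifs with h
    · rw [Cfsg.Lib.Steiner.card_supersets b S hS h, hk]
    · rw [Finset.card_eq_zero, Finset.filter_eq_empty_iff]
      intro T hT hST
      have := Finset.card_le_card hST
      rw [(Finset.mem_powersetCard.mp hT).2] at this
      omega
  have h4 : ∀ S, S ⊆ b → S.card = 4 → (Cfsg.Lib.Steiner.exact' B b S).card = 3 := by
    intro S hS hc
    have h := hsum S hS (by omega) 4 (by rw [hc, hα]; decide)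
    rw [hc, show Finset.Ico 4 5 = {4} by decide, Finset.sum_singleton] at h
    have hf : (b.powersetCard 4).filter (fun T => S ⊆ T) = {S} := by
      refine Finset.eq_singleton_iff_unique_mem.mpr ⟨by simp [hS, hc], fun T hT => ?_⟩
      simp only [Finset.mem_filter, Finset.mem_powersetCard] at hT
      exact (Finset.eq_of_subset_of_card_le hT.2 (by omega)).symm
    rw [hf, Finset.sum_singleton] at h
    exact h
  have h3 : ∀ S, S ⊆ b → S.card = 3 → (Cfsg.Lib.Steiner.exact' B b S).card = 2 := by
    intro S hS hc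
    have h := hsum S hS (by omega) 12 (by rw [hc, hα]; decide)
    rw [hc, show Finset.Ico 3 5 = {3, 4} by decide, Finset.sum_pair (by decide),
      Finset.sum_const_nat (m := 3) (fun T hT => h4 T (Finset.mem_powersetCard.mp (Finset.mem_filter.mp hT).1).1
        (Finset.mem_powersetCard.mp (Finset.mem_filter.mp hT).1).2), hsize S hS, hc] at h
    have hf : (b.powersetCard 3).filter (fun T => S ⊆ T) = {S} := by
      refine Finset.eq_singleton_iff_unique_mem.mpr ⟨by simp [hS, hc], fun T hT => ?_⟩
      simp only [Finset.mem_filter, Finset.mem_powersetCard] at hT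
      exact (Finset.eq_of_subset_of_card_le hT.2 (by omega)).symm
    rw [hf, Finset.sum_singleton] at h
    simp [Nat.choose] at h
    omega
  have h2 : ∀ S, S ⊆ b → S.card = 2 → (Cfsg.Lib.Steiner.exact' B b S).card = 3 := by
    intro S hS hc
    have h := hsum S hS (by omega) 30 (by rw [hc, hα]; decide)
    rw [hc, show Finset.Ico 2 5 = {2, 3, 4} by decide, Finset.sum_insert (by decide), Finset.sum_pair (by decide),
      Finset.sum_const_nat (m := 3) (fun T hT => h4 T (Finset.mem_powersetCard.mp (Finset.mem_filter.mp hT).1).1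
        (Finset.mem_powersetCard.mp (Finset.mem_filter.mp hT).1).2),
      Finset.sum_const_nat (m := 2) (fun T hT => h3 T (Finset.mem_powersetCard.mp (Finset.mem_filter.mp hT).1).1
        (Finset.mem_powersetCard.mp (Finset.mem_filter.mp hT).1).2), hsize S hS, hsize S hS, hc] at h
    have hf : (b.powersetCard 2).filter (fun T => S ⊆ T) = {S} := by
      refine Finset.eq_singleton_iff_unique_mem.mpr ⟨by simp [hS, hc], fun T hT => ?_⟩
      simp only [Finset.mem_filter, Finset.mem_powersetCard] at hT
      exact (Finset.eq_of_subset_of_card_le hT.2 (by omega)).symm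
    rw [hf, Finset.sum_singleton] at h
    simp [Nat.choose] at h
    omega
  refine ⟨fun hc => ?_, fun hc => ?_, fun hc => ?_⟩ <;>
    rw [Cfsg.Lib.Steiner.ncard_exact (by omega)]
  · exact h2 s hs hc
  · exact h3 s hs hc
  · exact h4 s hs hc

end Cfsg.Agent.S1595
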