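import Cfsg.Statements.S1596
import Cfsg.Agent.Lib.Golay.Quartets
-- import your own Cfsg.Agent.* helpers here

set_option autoImplicit false
open scoped Pointwise
open Cfsg

namespace Cfsg.Agent.S1596

/-- A quartet of a dodecad is determined by any two of its triples: two disjoint triples uniting to a hexad extend to exactly one quartet. -/
theorem result (d : Finset Cfsg.GolayPt) (hd : d ∈ Cfsg.dodecads) (t u : Finset Cfsg.GolayPt) (ht : t.card = 3) (hu : u.card = 3) (htu : Disjoint t u) (hh : t ∪ u ∈ Cfsg.hexadsOn d) : ∃! Q : Finset (Finset Cfsg.GolayPt), Q ∈ Cfsg.quartets d ∧ t ∈ Q ∧ u ∈ Q := by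
  classical
  open Cfsg.Lib.Golay Cfsg.Lib.Golay.Quartets Cfsg.Lib.Golay.Chain in
  exact by
    obtain ⟨τ, hτ, rfl⟩ := dodecad_transitive baseDod_mem hd
    have hback : ∀ {Q}, Q ∈ Cfsg.quartets (τ • toSet baseDod) → τ⁻¹ • Q ∈ Cfsg.quartets (toSet baseDod) := fun {Q} hQ => by
      simpa using quartets_smul (Cfsg.M24.inv_mem hτ) hQ
    have hh' : τ⁻¹ • t ∪ τ⁻¹ • u ∈ Cfsg.hexadsOn (toSet baseDod) := by
      simpa [Finset.smul_finset_union] using hexadsOn_smul (Cfsg.M24.inv_mem hτ) hh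
    obtain ⟨Q, ⟨hQ, hQt, hQu⟩, huniq⟩ := exists_unique_quartet (t := τ⁻¹ • t) (u := τ⁻¹ • u)
      (by rw [Finset.card_smul_finset, ht]) (by rw [Finset.card_smul_finset, hu]) hh'
    refine ⟨τ • Q, ⟨quartets_smul hτ hQ, Finset.inv_smul_mem_iff.1 hQt, Finset.inv_smul_mem_iff.1 hQu⟩, ?_⟩
    rintro R ⟨hR, hRt, hRu⟩
    rw [← huniq (τ⁻¹ • R) ⟨hback hR, Finset.smul_mem_smul_finset hRt, Finset.smul_mem_smul_finset hRu⟩, smul_inv_smul]

end Cfsg.Agent.S1596
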