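import Cfsg.Statements.S1597
import Cfsg.Agent.Lib.Golay.Quartets
-- import your own Cfsg.Agent.* helpers here

set_option autoImplicit false
open scoped Pointwise
open Cfsg

namespace Cfsg.Agent.S1597

/-- A dodecad has 220 quartets and its stabiliser is transitive on them. -/
theorem result (d : Finset Cfsg.GolayPt) (hd : d ∈ Cfsg.dodecads) : (Cfsg.quartets d).ncard = 220 ∧ ∀ Q ∈ Cfsg.quartets d, ∀ Q' ∈ Cfsg.quartets d, ∃ g : Equiv.Perm Cfsg.GolayPt, g ∈ Cfsg.M24 ∧ g • d = d ∧ g • Q = Q' := by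
  classical
  open Cfsg.Lib.Golay Cfsg.Lib.Golay.Quartets Cfsg.Lib.Golay.Chain in
  exact by
    obtain ⟨τ, hτ, rfl⟩ := dodecad_transitive baseDod_mem hd
    have hback : ∀ {Q}, Q ∈ Cfsg.quartets (τ • toSet baseDod) → τ⁻¹ • Q ∈ Cfsg.quartets (toSet baseDod) := fun {Q} hQ => by
      simpa using quartets_smul (Cfsg.M24.inv_mem hτ) hQ
    refine ⟨?_, fun Q hQ Q' hQ' => ?_⟩
    · rw [← ncard_quartets]
      exact Set.ncard_congr (fun Q _ => τ⁻¹ • Q) (fun Q hQ => hback hQ) (fun a b _ _ e => MulAction.injective τ⁻¹ e)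
        (fun Q hQ => ⟨τ • Q, quartets_smul hτ hQ, inv_smul_smul τ Q⟩)
    · obtain ⟨g, hg, e⟩ := quartet_trans (hback hQ) (hback hQ')
      refine ⟨τ * g * τ⁻¹, Cfsg.M24.mul_mem (Cfsg.M24.mul_mem hτ hg.1) (Cfsg.M24.inv_mem hτ), conj_mem_stab hg, ?_⟩
      rw [mul_smul, mul_smul, e, smul_inv_smul]

end Cfsg.Agent.S1597
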