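import Cfsg.Statements.S1598
import Cfsg.Agent.Lib.Golay.QuartetStab
-- import your own Cfsg.Agent.* helpers here

set_option autoImplicit false
open scoped Pointwise
open Cfsg

namespace Cfsg.Agent.S1598

/-- A quartet stabiliser inside the dodecad stabiliser has order 432, a normal subgroup of order 9 with quotient GL(2, 3), and is transitive on the dodecad. -/
theorem result (d : Finset Cfsg.GolayPt) (hd : d ∈ Cfsg.dodecads) (Q : Finset (Finset Cfsg.GolayPt)) (hQ : Q ∈ Cfsg.quartets d) : Nat.card ↥(MulAction.stabilizer Cfsg.M24 d ⊓ MulAction.stabilizer Cfsg.M24 Q) = 432 ∧ (∃ (N : Subgroup ↥(MulAction.stabilizer Cfsg.M24 d ⊓ MulAction.stabilizer Cfsg.M24 Q)) (_ : N.Normal), Nat.card N = 9 ∧ Nonempty (↥(MulAction.stabilizer Cfsg.M24 d ⊓ MulAction.stabilizer Cfsg.M24 Q) ⧸ N ≃* GL (Fin 2) (ZMod 3))) ∧ ∀ p ∈ d, ∀ q ∈ d, ∃ g ∈ (MulAction.stabilizer Cfsg.M24 d ⊓ MulAction.stabilizer Cfsg.M24 Q), ((g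 : ↥Cfsg.M24) : Equiv.Perm Cfsg.GolayPt) p = q := by
  classical
  open Cfsg.Lib.Golay Cfsg.Lib.Golay.Chain Cfsg.Lib.Golay.Quartets Cfsg.Lib.Golay.QuartetStab in
  exact by
    obtain ⟨σ, hσ, rfl⟩ := dodecad_transitive baseDod_mem hd
    obtain ⟨g₀, hg₀, eg⟩ := quartet_trans qBase_mem (show σ⁻¹ • Q ∈ Cfsg.quartets (toSet baseDod) by
      simpa using quartets_smul (Cfsg.M24.inv_mem hσ) hQ)
    have hτ : σ * g₀ ∈ Cfsg.M24 := Cfsg.M24.mul_mem hσ hg₀.1
    have hτd : (σ * g₀) • toSet baseDod = σ • toSet baseDod := by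
      rw [mul_smul, show g₀ • toSet baseDod = toSet baseDod from hg₀.2]
    have hτQ : (σ * g₀) • qBase = Q := by rw [mul_smul, eg, smul_inv_smul]
    revert hQ hd
    rw [← hτd, ← hτQ]
    intro hd hQ
    set τ := σ * g₀
    let e : ↥(MulAction.stabilizer Cfsg.M24 (τ • toSet baseDod) ⊓ MulAction.stabilizer Cfsg.M24 (τ • qBase)) ≃* H₀ :=
      { toFun := fun g => ⟨τ⁻¹ * g.1.1 * τ, mem_G12_conj hτ g.1.2 g.2.1, by
          show (τ⁻¹ * g.1.1 * τ) • qBase = qBase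
          rw [mul_smul, mul_smul, inv_smul_eq_iff]; exact g.2.2⟩
        invFun := fun h => ⟨⟨τ * h.1 * τ⁻¹, Cfsg.M24.mul_mem (Cfsg.M24.mul_mem hτ h.2.1.1) (Cfsg.M24.inv_mem hτ)⟩,
          conj_mem_stab h.2.1, by
            show (τ * h.1 * τ⁻¹) • τ • qBase = τ • qBase
            rw [mul_smul, mul_smul, inv_smul_smul, show h.1 • qBase = qBase from h.2.2]⟩
        left_inv := fun g => by
          apply Subtype.ext; apply Subtype.ext
          show τ * (τ⁻¹ * g.1.1 * τ) * τ⁻¹ = g.1.1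
          group
        right_inv := fun h => by
          apply Subtype.ext
          show τ⁻¹ * (τ * h.1 * τ⁻¹) * τ = h.1
          group
        map_mul' := fun a b => by
          apply Subtype.ext
          show τ⁻¹ * (a.1.1 * b.1.1) * τ = τ⁻¹ * a.1.1 * τ * (τ⁻¹ * b.1.1 * τ)
          group }
    obtain ⟨h1, h2⟩ := of_iso e
    refine ⟨h1, h2, fun p hp q hq => ?_⟩
    obtain ⟨a, ha, ea⟩ := trans_H₀ (Finset.inv_smul_mem_iff.2 hp)
    obtain ⟨b, hb, eb⟩ := trans_H₀ (Finset.inv_smul_mem_iff.2 hq)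
    refine ⟨(e.symm (⟨b, hb⟩ * ⟨a, ha⟩⁻¹)).1, (e.symm _).2, ?_⟩
    show (τ * (b * a⁻¹) * τ⁻¹) p = q
    show τ (b (a⁻¹ (τ⁻¹ p))) = q
    rw [show a⁻¹ (τ⁻¹ p) = pt dodPt from Equiv.Perm.inv_eq_iff_eq.2 ea.symm, eb]
    exact τ.apply_symm_apply q

end Cfsg.Agent.S1598
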