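import Cfsg.Statements.S1599
import Cfsg.Agent.Lib.Golay.QuartetOrbits

set_option autoImplicit false
open scoped Pointwise
open Cfsg

namespace Cfsg.Agent.S1599

/-- A quartet stabiliser has five orbits on the quartets of its dodecad, of sizes 1, 12, 27, 72, 108. -/
theorem result (d : Finset Cfsg.GolayPt) (hd : d ∈ Cfsg.dodecads) (Q : Finset (Finset Cfsg.GolayPt)) (hQ : Q ∈ Cfsg.quartets d) : ∃ X₁ ∈ Cfsg.quartets d, ∃ X₂ ∈ Cfsg.quartets d, ∃ X₃ ∈ Cfsg.quartets d, ∃ X₄ ∈ Cfsg.quartets d, (MulAction.orbit ↥(MulAction.stabilizer Cfsg.M24 d ⊓ MulAction.stabilizer Cfsg.M24 Q) X₁).ncard = 12 ∧ (MulAction.orbit ↥(MulAction.stabilizer Cfsg.M24 d ⊓ MulAction.stabilizer Cfsg.M24 Q) X₂).ncard = 27 ∧ (MulAction.orbit ↥(MulAction.stabilizer Cfsg.M24 d ⊓ MulAction.stabilizer Cfsg.M24 Q) X₃).ncard = 72 ∧ (MulAction.orbit ↥(MulAction.stabilizer Cfsg.M24 d ⊓ MulAction.stabilizer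 Cfsg.M24 Q) X₄).ncard = 108 ∧ Cfsg.quartets d = {Q} ∪ MulAction.orbit ↥(MulAction.stabilizer Cfsg.M24 d ⊓ MulAction.stabilizer Cfsg.M24 Q) X₁ ∪ MulAction.orbit ↥(MulAction.stabilizer Cfsg.M24 d ⊓ MulAction.stabilizer Cfsg.M24 Q) X₂ ∪ MulAction.orbit ↥(MulAction.stabilizer Cfsg.M24 d ⊓ MulAction.stabilizer Cfsg.M24 Q) X₃ ∪ MulAction.orbit ↥(MulAction.stabilizer Cfsg.M24 d ⊓ MulAction.stabilizer Cfsg.M24 Q) X₄ := by
  classical
  obtain ⟨τ, hτ, hτd⟩ := Cfsg.Lib.Golay.dodecad_transitive hd Cfsg.Lib.Golay.Chain.baseDod_mem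
  set D := Cfsg.Lib.Golay.toSet Cfsg.Lib.Golay.baseDod with hD
  have hτQ : τ • Q ∈ Cfsg.quartets D := hτd ▸ Cfsg.Lib.Golay.Quartets.quartets_smul hτ hQ
  obtain ⟨σ, hσ, hσQ⟩ := Cfsg.Lib.Golay.Quartets.quartet_trans hτQ Cfsg.Lib.Golay.Quartets.qBase_mem
  set k := σ * τ with hk
  have hkM : k ∈ Cfsg.M24 := Subgroup.mul_mem _ hσ.1 hτ
  have hkd : k • d = D := by rw [hk, mul_smul, hτd]; exact hσ.2
  have hkQ : k • Q = Cfsg.Lib.Golay.Quartets.qBase := by rw [hk, mul_smul]; exact hσQ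
  have hkq : ∀ X : Finset (Finset Cfsg.GolayPt), X ∈ Cfsg.quartets d ↔ k • X ∈ Cfsg.quartets D := fun X => by
    constructor
    · intro h; rw [← hkd]; exact Cfsg.Lib.Golay.Quartets.quartets_smul hkM h
    · intro h
      have h' := Cfsg.Lib.Golay.Quartets.quartets_smul (Subgroup.inv_mem _ hkM) h
      rwa [inv_smul_smul, ← hkd, inv_smul_smul] at h'
  set S := MulAction.stabilizer ↥Cfsg.M24 d ⊓ MulAction.stabilizer ↥Cfsg.M24 Q with hS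
  have horb : ∀ Y : Finset (Finset Cfsg.GolayPt),
      MulAction.orbit ↥S (k⁻¹ • Y) =
        (fun Z => k⁻¹ • Z) '' MulAction.orbit ↥Cfsg.Lib.Golay.QuartetStab.H₀ Y := by
    intro Y
    ext Z
    constructor
    · rintro ⟨⟨⟨g, hg⟩, hgd, hgQ⟩, rfl⟩
      have hgd' : g • d = d := hgd
      have hgQ' : g • Q = Q := hgQ
      refine ⟨k • (g • (k⁻¹ • Y)), ⟨⟨k * g * k⁻¹, ⟨⟨Subgroup.mul_mem _ (Subgroup.mul_mem _ hkM hg)
        (Subgroup.inv_mem _ hkM), ?_⟩, ?_⟩⟩, ?_⟩, ?_⟩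
      · show (k * g * k⁻¹) • D = D
        rw [← hkd, mul_smul, inv_smul_smul, mul_smul, hgd']
      · show (k * g * k⁻¹) • _ = _
        rw [← hkQ, mul_smul, inv_smul_smul, mul_smul, hgQ']
      · show (k * g * k⁻¹) • Y = _
        rw [mul_smul, mul_smul]
      · show k⁻¹ • k • g • k⁻¹ • Y = _
        rw [inv_smul_smul]
        rfl
    · rintro ⟨_, ⟨⟨h, ⟨hhM, hhd⟩, hhQ⟩, rfl⟩, rfl⟩
      have hhd' : h • D = D := hhd
      have hhQ' : h • Cfsg.Lib.Golay.Quartets.qBase = Cfsg.Lib.Golay.Quartets.qBase := hhQ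
      refine ⟨⟨⟨k⁻¹ * h * k, Subgroup.mul_mem _ (Subgroup.mul_mem _ (Subgroup.inv_mem _ hkM) hhM) hkM⟩,
        ?_, ?_⟩, ?_⟩
      · show (k⁻¹ * h * k) • d = d
        rw [mul_smul, hkd, mul_smul, hhd', ← hkd, inv_smul_smul]
      · show (k⁻¹ * h * k) • Q = Q
        rw [mul_smul, hkQ, mul_smul, hhQ', ← hkQ, inv_smul_smul]
      · show (k⁻¹ * h * k) • (k⁻¹ • Y) = k⁻¹ • (h • Y)
        rw [mul_smul, smul_inv_smul, mul_smul]
  obtain ⟨c1, c2, c3, c4, c5, call, c0⟩ := Cfsg.Lib.Golay.QuartetOrbits.counts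
  have lev : ∀ v m, Cfsg.Lib.Golay.QuartetOrbits.qList.countP
      (fun X => Cfsg.Lib.Golay.QuartetOrbits.invL X == v) = m → 0 < m →
      ∃ X ∈ Cfsg.quartets d, (MulAction.orbit ↥S X).ncard = m ∧
        ∀ Z ∈ Cfsg.quartets d, Cfsg.Lib.Golay.QuartetOrbits.invF (k • Z) = v → Z ∈ MulAction.orbit ↥S X := by
    intro v m hm hpos
    obtain ⟨Y, hY, hYv⟩ := Cfsg.Lib.Golay.QuartetOrbits.exists_level v (by rw [hm]; exact hpos)
    obtain ⟨h1, h2⟩ := Cfsg.Lib.Golay.QuartetOrbits.orbit_spec hY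
    rw [hYv] at h1 h2
    refine ⟨k⁻¹ • Cfsg.Lib.Golay.QuartetOrbits.qSet Y,
      (hkq _).2 (by rw [smul_inv_smul]; exact Cfsg.Lib.Golay.QuartetOrbits.qSet_mem hY), ?_, fun Z hZ hi => ?_⟩
    · rw [horb, Set.ncard_image_of_injective _ (MulAction.injective k⁻¹), h2, hm]
    · rw [horb]
      exact ⟨k • Z, h1.ge ⟨(hkq Z).1 hZ, hi⟩, inv_smul_smul k Z⟩
  obtain ⟨X₁, hX₁, n₁, t₁⟩ := lev 90 12 c1 (by norm_num)
  obtain ⟨X₂, hX₂, n₂, t₂⟩ := lev 68 27 c2 (by norm_num)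
  obtain ⟨X₃, hX₃, n₃, t₃⟩ := lev 54 72 c3 (by norm_num)
  obtain ⟨X₄, hX₄, n₄, t₄⟩ := lev 26 108 c4 (by norm_num)
  obtain ⟨X₀, hX₀, n₀, t₀⟩ := lev 324 1 c5 (by norm_num)
  refine ⟨X₁, hX₁, X₂, hX₂, X₃, hX₃, X₄, hX₄, n₁, n₂, n₃, n₄, ?_⟩
  have hclosed : ∀ X ∈ Cfsg.quartets d, MulAction.orbit ↥S X ⊆ Cfsg.quartets d := by
    rintro X hX _ ⟨⟨⟨g, hg⟩, hgd, -⟩, rfl⟩
    have h' := Cfsg.Lib.Golay.Quartets.quartets_smul hg hX
    rwa [show g • d = d from hgd] at h'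
  have hQv : Cfsg.Lib.Golay.QuartetOrbits.invF (k • Q) = 324 := by
    rw [hkQ, ← c0]
    exact Cfsg.Lib.Golay.QuartetOrbits.invF_qSet
      (of_decide_eq_true Cfsg.Lib.Golay.QuartetOrbits.nodup_ok.2.1)
      fun a ha => of_decide_eq_true (List.all_eq_true.1 Cfsg.Lib.Golay.QuartetOrbits.nodup_ok.2.2.1 a ha)
  obtain ⟨W, hW⟩ := Set.ncard_eq_one.1 n₀
  refine Set.Subset.antisymm (fun Z hZ => ?_) ?_
  · obtain ⟨Y, hY, hYe⟩ := (Cfsg.Lib.Golay.QuartetOrbits.quartets_eq ▸ (hkq Z).1 hZ :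
      k • Z ∈ Cfsg.Lib.Golay.QuartetOrbits.qSet '' {X | X ∈ Cfsg.Lib.Golay.QuartetOrbits.qList})
    have hi : Cfsg.Lib.Golay.QuartetOrbits.invF (k • Z) = Cfsg.Lib.Golay.QuartetOrbits.invL Y := by
      rw [← hYe]; exact Cfsg.Lib.Golay.QuartetOrbits.inv_of_mem hY
    have hv := List.all_eq_true.1 call Y hY
    simp only [Bool.or_eq_true, beq_iff_eq] at hv
    simp only [Set.mem_union, Set.mem_singleton_iff]
    rcases hv with (((h | h) | h) | h) | h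
    · exact Or.inl (Or.inl (Or.inl (Or.inr (t₁ Z hZ (hi.trans h)))))
    · exact Or.inl (Or.inl (Or.inr (t₂ Z hZ (hi.trans h))))
    · exact Or.inl (Or.inr (t₃ Z hZ (hi.trans h)))
    · exact Or.inr (t₄ Z hZ (hi.trans h))
    · have h1 := t₀ Z hZ (hi.trans h)
      have h2 := t₀ Q hQ hQv
      rw [hW, Set.mem_singleton_iff] at h1 h2
      exact Or.inl (Or.inl (Or.inl (Or.inl (h1.trans h2.symm))))
  · simp only [Set.union_subset_iff, Set.singleton_subset_iff]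
    exact ⟨⟨⟨⟨hQ, hclosed X₁ hX₁⟩, hclosed X₂ hX₂⟩, hclosed X₃ hX₃⟩, hclosed X₄ hX₄⟩

end Cfsg.Agent.S1599
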