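import Cfsg.Statements.S1600
import Cfsg.Agent.Lib.Golay.NineTrans
-- import your own Cfsg.Agent.* helpers here

set_option autoImplicit false
open scoped Pointwise
open Cfsg

namespace Cfsg.Agent.S1600

/-- The pointwise stabiliser of three points of a dodecad inside the dodecad stabiliser (order 72) is transitive on the complementary dodecad. -/
theorem result (d : Finset Cfsg.GolayPt) (hd : d ∈ Cfsg.dodecads) (p q r : Cfsg.GolayPt) (hp : p ∈ d) (hq : q ∈ d) (hr : r ∈ d) (hpq : p ≠ q) (hpr : p ≠ r) (hqr : q ≠ r) : Nat.card ↥(MulAction.stabilizer Cfsg.M24 d ⊓ MulAction.stabilizer Cfsg.M24 p ⊓ MulAction.stabilizer Cfsg.M24 q ⊓ MulAction.stabilizer Cfsg.M24 r) = 72 ∧ ∀ x ∉ d, ∀ y ∉ d, ∃ g ∈ (MulAction.stabilizer Cfsg.M24 d ⊓ MulAction.stabilizer Cfsg.M24 p ⊓ MulAction.stabilizer Cfsg.M24 q ⊓ MulAction.stabilizer Cfsg.M24 r), ((g : ↥Cfsg.M24) : Equiv.Perm Cfsg.GolayPt) x = y := by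
  classical
  open Cfsg.Lib.Golay Cfsg.Lib.Golay.Chain in
  exact by
    obtain ⟨τ, hτ, h0, h1, h2, h3⟩ := NineGroup.exists_std hd hp hq hr hpq hpr hqr
    refine ⟨by rw [Nat.card_congr (NineGroup.equivM9 hτ h0 h1 h2 h3).toEquiv, NineGroup.card_M9], fun x hx y hy => ?_⟩
    have hin : ∀ z, z ∉ d → τ⁻¹ z ∉ toSet baseDod := fun z hz h => hz (h0 ▸ Finset.inv_smul_mem_iff.1 h)
    obtain ⟨g, hg, hge⟩ := NineGroup.trans_out (hin x hx) (hin y hy)
    refine ⟨((NineGroup.equivM9 hτ h0 h1 h2 h3).symm ⟨g, hg⟩).1, ((NineGroup.equivM9 hτ h0 h1 h2 h3).symm ⟨g, hg⟩).2, ?_⟩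
    show (τ * g * τ⁻¹) x = y
    rw [Equiv.Perm.mul_apply, Equiv.Perm.mul_apply, hge]
    exact τ.apply_symm_apply y

end Cfsg.Agent.S1600
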