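import Cfsg.Statements.S1601
import Cfsg.Agent.Lib.Golay.ElevenPoint
import Cfsg.Agent.Lib.Recog.SimplePSLTwoPrime

set_option autoImplicit false
open scoped Pointwise
open Cfsg

namespace Cfsg.Agent.S1601

/-- In the 3-transitive action of the smallest Mathieu group on the complementary dodecad, a point stabiliser is isomorphic to PSL(2, 11). -/
theorem result (d : Finset Cfsg.GolayPt) (hd : d ∈ Cfsg.dodecads) (p q : Cfsg.GolayPt) (hp : p ∈ d) (hq : q ∉ d) : Nonempty (↥(MulAction.stabilizer Cfsg.M24 d ⊓ MulAction.stabilizer Cfsg.M24 p ⊓ MulAction.stabilizer Cfsg.M24 q) ≃* Matrix.ProjectiveSpecialLinearGroup (Fin 2) (ZMod 11)) := by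
  classical
  obtain ⟨τ, hτ, hτd⟩ := Cfsg.Lib.Golay.dodecad_transitive hd Cfsg.Lib.Golay.Chain.baseDod_mem
  have hτp : τ p ∈ Cfsg.Lib.Golay.toSet Cfsg.Lib.Golay.baseDod := by
    rw [← hτd]; exact Finset.smul_mem_smul_finset hp
  obtain ⟨σ, hσ, hσp⟩ := Cfsg.Lib.Golay.Chain.trans12 (k := 1) (by norm_num)
    ⟨fun _ => τ p, fun a b _ => Subsingleton.elim a b⟩
    ⟨fun _ => Cfsg.Lib.Golay.pt Cfsg.Lib.Golay.Chain.dodPt, fun a b _ => Subsingleton.elim a b⟩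
    (fun _ => hτp) (fun _ => Cfsg.Lib.Golay.Chain.dodPt_mem)
  set k := σ * τ with hk
  have hkM : k ∈ Cfsg.M24 := Subgroup.mul_mem _ hσ.1 hτ
  have hkd : k • d = Cfsg.Lib.Golay.toSet Cfsg.Lib.Golay.baseDod := by
    rw [hk, mul_smul, hτd]; exact hσ.2
  have hkp : k p = Cfsg.Lib.Golay.pt Cfsg.Lib.Golay.Chain.dodPt := hσp 0
  have hkq : k q ∉ Cfsg.Lib.Golay.toSet Cfsg.Lib.Golay.baseDod := by
    rw [← hkd]
    exact fun h => hq ((Finset.smul_mem_smul_finset_iff k).1 h)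
  haveI : IsSimpleGroup ↥(Cfsg.Lib.Golay.ElevenPoint.A (k q)) :=
    Cfsg.Lib.Golay.ElevenPoint.isSimpleGroup_A hkq
  haveI : Fact (Nat.Prime 11) := ⟨by norm_num⟩
  obtain ⟨e⟩ := Cfsg.Lib.Recog.SimplePSLTwo.nonempty_equiv (p := 11) (k := 5)
    (G := ↥(Cfsg.Lib.Golay.ElevenPoint.A (k q))) rfl (by norm_num) (by norm_num)
    (Cfsg.Lib.Golay.ElevenPoint.card_A hkq) (by norm_num) (by
      intro n hn h1
      have := Nat.le_of_dvd (by norm_num) hn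
      interval_cases n <;> first | (norm_num; done) | omega | (exfalso; norm_num at hn; done))
  have hfw : ∀ g : Equiv.Perm Cfsg.GolayPt, g ∈ Cfsg.M24 → g • d = d → g p = p → g q = q →
      k * g * k⁻¹ ∈ Cfsg.Lib.Golay.ElevenPoint.A (k q) := by
    intro g hg gd gp gq
    refine ⟨⟨⟨Subgroup.mul_mem _ (Subgroup.mul_mem _ hkM hg) (Subgroup.inv_mem _ hkM), ?_⟩, ?_⟩, ?_⟩
    · show (k * g * k⁻¹) • _ = _
      rw [← hkd, mul_smul, inv_smul_smul, mul_smul, gd]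
    · show (k * g * k⁻¹) _ = _
      rw [← hkp, Equiv.Perm.mul_apply, Equiv.Perm.mul_apply, Equiv.Perm.coe_inv, Equiv.symm_apply_apply, gp]
    · show (k * g * k⁻¹) (k q) = k q
      rw [Equiv.Perm.mul_apply, Equiv.Perm.mul_apply, Equiv.Perm.coe_inv, Equiv.symm_apply_apply, gq]
  have hbw : ∀ h : Equiv.Perm Cfsg.GolayPt, h ∈ Cfsg.Lib.Golay.ElevenPoint.A (k q) →
      k⁻¹ * h * k ∈ Cfsg.M24 ∧ (k⁻¹ * h * k) • d = d ∧ (k⁻¹ * h * k) p = p ∧ (k⁻¹ * h * k) q = q := by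
    rintro h ⟨⟨⟨hM, hd'⟩, hp'⟩, hq'⟩
    have hp'' : h (Cfsg.Lib.Golay.pt Cfsg.Lib.Golay.Chain.dodPt) =
        Cfsg.Lib.Golay.pt Cfsg.Lib.Golay.Chain.dodPt := hp'
    have hq'' : h (k q) = k q := hq'
    refine ⟨Subgroup.mul_mem _ (Subgroup.mul_mem _ (Subgroup.inv_mem _ hkM) hM) hkM, ?_, ?_, ?_⟩
    · rw [mul_smul, hkd, mul_smul, MulAction.mem_stabilizer_iff.1 hd', ← hkd, inv_smul_smul]
    · rw [Equiv.Perm.mul_apply, hkp, Equiv.Perm.mul_apply, hp'', ← hkp, Equiv.Perm.coe_inv, Equiv.symm_apply_apply]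
    · rw [Equiv.Perm.mul_apply, Equiv.Perm.mul_apply, hq'', Equiv.Perm.coe_inv, Equiv.symm_apply_apply]
  refine ⟨MulEquiv.trans ?_ e⟩
  exact
    { toFun := fun g => ⟨k * (g.1 : Equiv.Perm Cfsg.GolayPt) * k⁻¹,
        hfw _ g.1.2 g.2.1.1 g.2.1.2 g.2.2⟩
      invFun := fun h => ⟨⟨k⁻¹ * (h : Equiv.Perm Cfsg.GolayPt) * k, (hbw _ h.2).1⟩,
        ⟨(hbw _ h.2).2.1, (hbw _ h.2).2.2.1⟩, (hbw _ h.2).2.2.2⟩
      left_inv := fun g => Subtype.ext (Subtype.ext (by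
        show k⁻¹ * (k * (g.1 : Equiv.Perm Cfsg.GolayPt) * k⁻¹) * k = _; group))
      right_inv := fun h => Subtype.ext (by
        show k * (k⁻¹ * (h : Equiv.Perm Cfsg.GolayPt) * k) * k⁻¹ = _; group)
      map_mul' := fun g h => Subtype.ext (by
        show k * ((g.1 : Equiv.Perm Cfsg.GolayPt) * (h.1 : Equiv.Perm Cfsg.GolayPt)) * k⁻¹ = _ * _
        simp [mul_assoc]) }

end Cfsg.Agent.S1601
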