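import Cfsg.Statements.S1603
import Cfsg.Agent.Lib.Golay.ElevenInv
-- import your own Cfsg.Agent.* helpers here

set_option autoImplicit false
open scoped Pointwise
open Cfsg

namespace Cfsg.Agent.S1603

/-- Involution centralisers in the smallest Mathieu group are isomorphic to GL(2, 3). -/
theorem result (d : Finset Cfsg.GolayPt) (hd : d ∈ Cfsg.dodecads) (p : Cfsg.GolayPt) (hp : p ∈ d) (x : ↥(MulAction.stabilizer Cfsg.M24 d ⊓ MulAction.stabilizer Cfsg.M24 p)) (hx : orderOf x = 2) : Nonempty (↥(Subgroup.centralizer ({x} : Set ↥(MulAction.stabilizer Cfsg.M24 d ⊓ MulAction.stabilizer Cfsg.M24 p))) ≃* GL (Fin 2) (ZMod 3)) := by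
  classical
  open Cfsg.Lib.Golay Cfsg.Lib.Golay.Chain in
  exact by
    obtain ⟨τ, hτ, hτd, hτp⟩ := exists_move hd hp
    let H := MulAction.stabilizer Cfsg.M24 d ⊓ MulAction.stabilizer Cfsg.M24 p
    let e : ↥H ≃* G11 :=
      { toFun := fun g => ⟨τ⁻¹ * g.1.1 * τ, mem_G12_conj hτ g.1.2 (by rw [hτd]; exact g.2.1), by
          show (τ⁻¹ * g.1.1 * τ) (pt dodPt) = _
          rw [Equiv.Perm.mul_apply, Equiv.Perm.mul_apply, hτp, show g.1.1 p = p from g.2.2, Equiv.Perm.inv_eq_iff_eq, hτp]⟩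
        invFun := fun g => ⟨⟨τ * g.1 * τ⁻¹, Cfsg.M24.mul_mem (Cfsg.M24.mul_mem hτ g.2.1.1) (Cfsg.M24.inv_mem hτ)⟩,
          by
            show (τ * g.1 * τ⁻¹) • d = d
            rw [← hτd]; exact conj_mem_stab g.2.1,
          by
            show (τ * g.1 * τ⁻¹) p = p
            rw [← hτp, Equiv.Perm.mul_apply, Equiv.Perm.mul_apply, show τ⁻¹ (τ (pt dodPt)) = _ from τ.symm_apply_apply _,
              show g.1 (pt dodPt) = pt dodPt from g.2.2]⟩
        left_inv := fun g => by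
          apply Subtype.ext; apply Subtype.ext
          show τ * (τ⁻¹ * g.1.1 * τ) * τ⁻¹ = g.1.1
          group
        right_inv := fun g => by
          apply Subtype.ext
          show τ⁻¹ * (τ * g.1 * τ⁻¹) * τ = g.1
          group
        map_mul' := fun a b => by
          apply Subtype.ext
          show τ⁻¹ * (a.1.1 * b.1.1) * τ = τ⁻¹ * a.1.1 * τ * (τ⁻¹ * b.1.1 * τ)
          group }
    have ho : orderOf ((e x : G11) : Equiv.Perm Cfsg.GolayPt) = 2 := by
      rw [Subgroup.orderOf_coe, MulEquiv.orderOf_eq, hx]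
    obtain ⟨k, hk, hkx⟩ := ElevenInv.exists_conj (e x).2 ho
    let f : ↥H ≃* G11 := e.trans (MulAut.conj (⟨k, hk⟩ : G11))
    have hfx : ((f x : G11) : Equiv.Perm Cfsg.GolayPt) = permOf ElevenInv.repX := hkx
    obtain ⟨i⟩ := ElevenInv.C₀_iso
    have hmem : ∀ c : ↥H, c ∈ Subgroup.centralizer ({x} : Set ↥H) ↔
        ((f c : G11) : Equiv.Perm Cfsg.GolayPt) ∈ ElevenInv.C₀ := by
      intro c
      rw [Subgroup.mem_centralizer_singleton_iff, ElevenInv.C₀, Subgroup.mem_inf, Subgroup.mem_centralizer_singleton_iff,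
        ← hfx, ← Subgroup.coe_mul, ← Subgroup.coe_mul, ← map_mul, ← map_mul]
      exact ⟨fun h => ⟨(f c).2, by rw [h]⟩, fun h => f.injective (Subtype.ext h.2)⟩
    let j : ↥(Subgroup.centralizer ({x} : Set ↥H)) ≃* ElevenInv.C₀ :=
      { toFun := fun c => ⟨((f c.1 : G11) : Equiv.Perm Cfsg.GolayPt), (hmem c.1).1 c.2⟩
        invFun := fun c => ⟨f.symm ⟨c.1, c.2.1⟩, (hmem _).2 (by rw [MulEquiv.apply_symm_apply]; exact c.2)⟩
        left_inv := fun c => Subtype.ext (f.injective (by rw [MulEquiv.apply_symm_apply]))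
        right_inv := fun c => by
          apply Subtype.ext
          show ((f (f.symm ⟨c.1, c.2.1⟩) : G11) : Equiv.Perm Cfsg.GolayPt) = c.1
          rw [MulEquiv.apply_symm_apply]
        map_mul' := fun a b => by
          apply Subtype.ext
          show ((f (a.1 * b.1) : G11) : Equiv.Perm Cfsg.GolayPt) = ((f a.1 : G11) : Equiv.Perm Cfsg.GolayPt) * ((f b.1 : G11) : Equiv.Perm Cfsg.GolayPt)
          rw [map_mul, Subgroup.coe_mul] }
    exact ⟨j.trans i⟩

end Cfsg.Agent.S1603
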