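import Cfsg.Statements.S1604
import Cfsg.Agent.Lib.Golay.OctOrbits
-- import your own Cfsg.Agent.* helpers here

set_option autoImplicit false
open scoped Pointwise
open Cfsg

namespace Cfsg.Agent.S1604

/-- A hexad stabiliser in the two-point stabiliser has orbits of sizes 1, 16, 60 on the 77 hexads: the 16 hexads disjoint from it and the 60 meeting it in two points. -/
theorem result (p q : Cfsg.GolayPt) (hpq : p ≠ q) (o o' o'' : Finset Cfsg.GolayPt) (ho : o ∈ Cfsg.octads) (ho' : o' ∈ Cfsg.octads) (ho'' : o'' ∈ Cfsg.octads) (hp : p ∈ o ∧ p ∈ o' ∧ p ∈ o'') (hq : q ∈ o ∧ q ∈ o' ∧ q ∈ o'') (h : (o ∩ o').card = (o ∩ o'').card) : {x : Finset Cfsg.GolayPt | x ∈ Cfsg.octads ∧ p ∈ x ∧ q ∈ x ∧ (o ∩ x).card = 2}.ncard = 16 ∧ {x : Finset Cfsg.GolayPt | x ∈ Cfsg.octads ∧ p ∈ x ∧ q ∈ x ∧ (o ∩ x).card = 4}.ncard = 60 ∧ ∃ g : Equiv.Perm Cfsg.GolayPt, g ∈ Cfsg.M24 ∧ g p = p ∧ g q = q ∧ g • o = o ∧ g • o' = o'' := by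
  classical
  open Cfsg.Lib.Golay Cfsg.Lib.Golay.OctOrbits in
  exact by
    obtain ⟨z, -, hz⟩ := Finset.exists_mem_notMem_of_card_lt_card (t := (Finset.univ : Finset Cfsg.GolayPt)) (s := o)
      (by rw [Finset.card_univ, ho.2]; simp [Cfsg.GolayPt])
    obtain ⟨τ, hτ, hτo, e0, e1, -⟩ := exists_std ho hp.1 hq.1 hpq hz
    have hpt : ∀ x : Finset Cfsg.GolayPt, (p ∈ x ↔ baseP 0 ∈ τ • x) ∧ (q ∈ x ↔ baseP 1 ∈ τ • x) ∧
        (o ∩ x).card = (baseO ∩ τ • x).card := fun x =>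
      ⟨by rw [← e0]; exact (Finset.smul_mem_smul_finset_iff τ).symm, by rw [← e1]; exact (Finset.smul_mem_smul_finset_iff τ).symm,
        by rw [← hτo, ← Finset.smul_finset_inter, Finset.card_smul_finset]⟩
    have cnt : ∀ k c, octMasks.countP (fun t => predTwo t && pop (t &&& baseOctad) == k) = c →
        {x : Finset Cfsg.GolayPt | x ∈ Cfsg.octads ∧ p ∈ x ∧ q ∈ x ∧ (o ∩ x).card = k}.ncard = c := by
      intro k c hc
      rw [ncard_conj (P := fun x => p ∈ x ∧ q ∈ x ∧ (o ∩ x).card = k)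
        (Q := fun y => baseP 0 ∈ y ∧ baseP 1 ∈ y ∧ (baseO ∩ y).card = k) hτ
        (fun x _ => by rw [(hpt x).1, (hpt x).2.1, (hpt x).2.2])]
      refine ncard_base (fun n _ => ?_) hc
      simp only [predTwo, Bool.and_eq_true, beq_iff_eq, and_assoc, testBit_baseIdx n (show 0 < 7 by norm_num),
        testBit_baseIdx n (show 1 < 7 by norm_num), inter_card]
    refine ⟨cnt 2 16 counts.1, cnt 4 60 counts.2.1, ?_⟩
    obtain ⟨m, hm, em⟩ := exists_octMask (show τ • o' ∈ Cfsg.octads from smul_mem_words hτ ho')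
    obtain ⟨n, hn, en⟩ := exists_octMask (show τ • o'' ∈ Cfsg.octads from smul_mem_words hτ ho'')
    obtain ⟨g, hg, hgo, hgp, hge⟩ := conf_trans inTwo_ok hm hn
      (by simp only [predTwo, Bool.and_eq_true, testBit_baseIdx m (show 0 < 7 by norm_num), testBit_baseIdx m (show 1 < 7 by norm_num), em]
          exact ⟨(hpt o').1.1 hp.2.1, (hpt o').2.1.1 hq.2.1⟩)
      (by simp only [predTwo, Bool.and_eq_true, testBit_baseIdx n (show 0 < 7 by norm_num), testBit_baseIdx n (show 1 < 7 by norm_num), en]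
          exact ⟨(hpt o'').1.1 hp.2.2, (hpt o'').2.1.1 hq.2.2⟩)
      (by rw [← inter_card, ← inter_card, em, en, ← (hpt o').2.2, ← (hpt o'').2.2]; exact h)
    refine ⟨τ⁻¹ * g * τ, Cfsg.M24.mul_mem (Cfsg.M24.mul_mem (Cfsg.M24.inv_mem hτ) hg) hτ, ?_, ?_, ?_, ?_⟩
    · rw [Equiv.Perm.mul_apply, Equiv.Perm.mul_apply, e0, show g (baseP 0) = baseP 0 from hgp _ (List.mem_cons_self ..), ← e0]
      exact τ.symm_apply_apply p
    · rw [Equiv.Perm.mul_apply, Equiv.Perm.mul_apply, e1, show g (baseP 1) = baseP 1 from hgp _ (by simp), ← e1]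
      exact τ.symm_apply_apply q
    · rw [mul_smul, mul_smul, hτo, hgo, ← hτo, inv_smul_smul]
    · rw [mul_smul, mul_smul, ← em, hge, en, inv_smul_smul]

end Cfsg.Agent.S1604
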