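import Cfsg.Statements.S1605
import Cfsg.Agent.Lib.Golay.OctOrbits
-- import your own Cfsg.Agent.* helpers here

set_option autoImplicit false
open scoped Pointwise
open Cfsg

namespace Cfsg.Agent.S1605

/-- The two-point stabiliser acts on the 176 octads through the first point avoiding the second with rank 3 and subdegrees 1, 70, 105 (intersections 8, 2, 4). -/
theorem result (p q : Cfsg.GolayPt) (hpq : p ≠ q) : {x : Finset Cfsg.GolayPt | (x ∈ Cfsg.octads ∧ p ∈ x ∧ q ∉ x)}.ncard = 176 ∧ (∀ o o' : Finset Cfsg.GolayPt, (o ∈ Cfsg.octads ∧ p ∈ o ∧ q ∉ o) → (o' ∈ Cfsg.octads ∧ p ∈ o' ∧ q ∉ o') → ∃ g : Equiv.Perm Cfsg.GolayPt, g ∈ Cfsg.M24 ∧ g p = p ∧ g q = q ∧ g • o = o') ∧ ∀ o : Finset Cfsg.GolayPt, (o ∈ Cfsg.octads ∧ p ∈ o ∧ q ∉ o) → {x : Finset Cfsg.GolayPt | (x ∈ Cfsg.octads ∧ p ∈ x ∧ q ∉ x) ∧ (o ∩ x).card = 2}.ncard = 70 ∧ {x : Finset Cfsg.GolayPt | (x ∈ Cfsg.octads ∧ p ∈ x ∧ q ∉ x) ∧ (o ∩ x).card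 = 4}.ncard = 105 ∧ ∀ o' o'' : Finset Cfsg.GolayPt, (o' ∈ Cfsg.octads ∧ p ∈ o' ∧ q ∉ o') → (o'' ∈ Cfsg.octads ∧ p ∈ o'' ∧ q ∉ o'') → (o ∩ o').card = (o ∩ o'').card → ∃ g : Equiv.Perm Cfsg.GolayPt, g ∈ Cfsg.M24 ∧ g p = p ∧ g q = q ∧ g • o = o ∧ g • o' = o'' := by
  classical
  open Cfsg.Lib.Golay Cfsg.Lib.Golay.OctOrbits in
  exact by
    have hstd : ∀ o, o ∈ Cfsg.octads → p ∈ o → q ∉ o → ∃ τ ∈ Cfsg.M24, τ • o = baseO ∧ τ p = baseP 0 ∧ τ q = baseP 5 := by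
      intro o ho hp hq
      obtain ⟨p', hp', hne⟩ := Finset.exists_mem_ne (show 1 < o.card by rw [ho.2]; norm_num) p
      obtain ⟨τ, hτ, h1, h2, -, h4⟩ := exists_std ho hp hp' (Ne.symm hne) hq
      exact ⟨τ, hτ, h1, h2, h4⟩
    refine ⟨?_, ?_, ?_⟩
    · obtain ⟨τ, hτ, hs⟩ := exists_tuple_to_base (show 2 ≤ 5 by norm_num) ⟨![p, q], by
        intro i j e; fin_cases i <;> fin_cases j <;> first | rfl | exact absurd e hpq | exact absurd e.symm hpq⟩
      have t0 : τ p = baseP 0 := hs 0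
      have t1 : τ q = baseP 1 := hs 1
      obtain ⟨σ, hσ, hσs⟩ := exists_tuple_to_base (show 2 ≤ 5 by norm_num) ⟨![baseP 0, baseP 5], by
        intro i j e; fin_cases i <;> fin_cases j <;> first | rfl | exact absurd e (by decide +kernel) | exact absurd e.symm (by decide +kernel)⟩
      have s0 : σ (baseP 0) = baseP 0 := hσs 0
      have s1 : σ (baseP 5) = baseP 1 := hσs 1
      have e0 : (σ⁻¹ * τ) p = baseP 0 := by
        rw [Equiv.Perm.mul_apply, t0, Equiv.Perm.inv_eq_iff_eq, s0]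
      have e5 : (σ⁻¹ * τ) q = baseP 5 := by
        rw [Equiv.Perm.mul_apply, t1, Equiv.Perm.inv_eq_iff_eq, s1]
      rw [ncard_conj (P := fun x => p ∈ x ∧ q ∉ x) (Q := fun y => baseP 0 ∈ y ∧ baseP 5 ∉ y)
        (Cfsg.M24.mul_mem (Cfsg.M24.inv_mem hσ) hτ) (fun x _ => by
          rw [← e0, ← e5]
          exact and_congr (Finset.smul_mem_smul_finset_iff _).symm (not_congr (Finset.smul_mem_smul_finset_iff _).symm))]
      refine ncard_base (fun n _ => ?_) counts.2.2.2.2.2.2.2.1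
      simp only [predInOut, Bool.and_eq_true, Bool.not_eq_true', ← Bool.not_eq_true, testBit_baseIdx n (show 0 < 7 by norm_num),
        testBit_baseIdx n (show 5 < 7 by norm_num)]
    · rintro o o' ⟨ho, hp, hq⟩ ⟨ho', hp', hq'⟩
      obtain ⟨a, ha, a1, a2, a3⟩ := hstd o ho hp hq
      obtain ⟨b, hb, b1, b2, b3⟩ := hstd o' ho' hp' hq'
      refine ⟨b⁻¹ * a, Cfsg.M24.mul_mem (Cfsg.M24.inv_mem hb) ha, ?_, ?_, ?_⟩
      · rw [Equiv.Perm.mul_apply, a2, Equiv.Perm.inv_eq_iff_eq, b2]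
      · rw [Equiv.Perm.mul_apply, a3, Equiv.Perm.inv_eq_iff_eq, b3]
      · rw [mul_smul, a1, ← b1, inv_smul_smul]
    · rintro o ⟨ho, hp, hq⟩
      obtain ⟨τ, hτ, hτo, e0, e5⟩ := hstd o ho hp hq
      have hpt : ∀ x : Finset Cfsg.GolayPt, (p ∈ x ↔ baseP 0 ∈ τ • x) ∧ (q ∉ x ↔ baseP 5 ∉ τ • x) ∧
          (o ∩ x).card = (baseO ∩ τ • x).card := fun x =>
        ⟨by rw [← e0]; exact (Finset.smul_mem_smul_finset_iff τ).symm,
          by rw [← e5]; exact not_congr (Finset.smul_mem_smul_finset_iff τ).symm,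
          by rw [← hτo, ← Finset.smul_finset_inter, Finset.card_smul_finset]⟩
      have cnt : ∀ k c, octMasks.countP (fun t => predInOut t && pop (t &&& baseOctad) == k) = c →
          {x : Finset Cfsg.GolayPt | (x ∈ Cfsg.octads ∧ p ∈ x ∧ q ∉ x) ∧ (o ∩ x).card = k}.ncard = c := by
        intro k c hc
        rw [show {x : Finset Cfsg.GolayPt | (x ∈ Cfsg.octads ∧ p ∈ x ∧ q ∉ x) ∧ (o ∩ x).card = k} =
          {x | x ∈ Cfsg.octads ∧ (p ∈ x ∧ q ∉ x ∧ (o ∩ x).card = k)} by ext; simp [and_assoc],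
          ncard_conj (P := fun x => p ∈ x ∧ q ∉ x ∧ (o ∩ x).card = k)
          (Q := fun y => baseP 0 ∈ y ∧ baseP 5 ∉ y ∧ (baseO ∩ y).card = k) hτ
          (fun x _ => by rw [(hpt x).1, (hpt x).2.1, (hpt x).2.2])]
        refine ncard_base (fun n _ => ?_) hc
        simp only [predInOut, Bool.and_eq_true, Bool.not_eq_true', ← Bool.not_eq_true, beq_iff_eq, and_assoc,
          testBit_baseIdx n (show 0 < 7 by norm_num), testBit_baseIdx n (show 5 < 7 by norm_num), inter_card]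
      refine ⟨cnt 2 70 counts.2.2.2.2.2.2.2.2.1, cnt 4 105 counts.2.2.2.2.2.2.2.2.2, ?_⟩
      rintro o' o'' ⟨ho', hp', hq'⟩ ⟨ho'', hp'', hq''⟩ h
      obtain ⟨m, hm, em⟩ := exists_octMask (show τ • o' ∈ Cfsg.octads from smul_mem_words hτ ho')
      obtain ⟨n, hn, en⟩ := exists_octMask (show τ • o'' ∈ Cfsg.octads from smul_mem_words hτ ho'')
      obtain ⟨g, hg, hgo, hgp, hge⟩ := conf_trans inOut_ok hm hn
        (by simp only [predInOut, Bool.and_eq_true, Bool.not_eq_true', ← Bool.not_eq_true,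
              testBit_baseIdx m (show 0 < 7 by norm_num), testBit_baseIdx m (show 5 < 7 by norm_num), em]
            exact ⟨(hpt o').1.1 hp', (hpt o').2.1.1 hq'⟩)
        (by simp only [predInOut, Bool.and_eq_true, Bool.not_eq_true', ← Bool.not_eq_true,
              testBit_baseIdx n (show 0 < 7 by norm_num), testBit_baseIdx n (show 5 < 7 by norm_num), en]
            exact ⟨(hpt o'').1.1 hp'', (hpt o'').2.1.1 hq''⟩)
        (by rw [← inter_card, ← inter_card, em, en, ← (hpt o').2.2, ← (hpt o'').2.2]; exact h)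
      refine ⟨τ⁻¹ * g * τ, Cfsg.M24.mul_mem (Cfsg.M24.mul_mem (Cfsg.M24.inv_mem hτ) hg) hτ, ?_, ?_, ?_, ?_⟩
      · rw [Equiv.Perm.mul_apply, Equiv.Perm.mul_apply, e0, show g (baseP 0) = baseP 0 from hgp _ (List.mem_cons_self ..), ← e0]
        exact τ.symm_apply_apply p
      · rw [Equiv.Perm.mul_apply, Equiv.Perm.mul_apply, e5, show g (baseP 5) = baseP 5 from hgp _ (by simp), ← e5]
        exact τ.symm_apply_apply q
      · rw [mul_smul, mul_smul, hτo, hgo, ← hτo, inv_smul_smul]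
      · rw [mul_smul, mul_smul, ← em, hge, en, inv_smul_smul]

end Cfsg.Agent.S1605
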