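import Cfsg.Statements.S1608
import Cfsg.Agent.Lib.Golay.OctOrbits
-- import your own Cfsg.Agent.* helpers here

set_option autoImplicit false
open scoped Pointwise
open Cfsg

namespace Cfsg.Agent.S1608

/-- The point stabiliser acts on the 506 octads avoiding the point with rank 4 and subdegrees 1, 15, 210, 280, the suborbits being given by intersection size with the fixed octad. -/
theorem result (x : Cfsg.GolayPt) (o : Finset Cfsg.GolayPt) (ho : o ∈ Cfsg.octads) (hx : x ∉ o) : {o' : Finset Cfsg.GolayPt | o' ∈ Cfsg.octads ∧ x ∉ o' ∧ (o ∩ o').card = 0}.ncard = 15 ∧ {o' : Finset Cfsg.GolayPt | o' ∈ Cfsg.octads ∧ x ∉ o' ∧ (o ∩ o').card = 4}.ncard = 210 ∧ {o' : Finset Cfsg.GolayPt | o' ∈ Cfsg.octads ∧ x ∉ o' ∧ (o ∩ o').card = 2}.ncard = 280 ∧ ∀ o' o'' : Finset Cfsg.GolayPt, o' ∈ Cfsg.octads → o'' ∈ Cfsg.octads → x ∉ o' → x ∉ o'' → (o ∩ o').card = (o ∩ o'').card → ∃ g : Equiv.Perm Cfsg.GolayPt, g ∈ Cfsg.M24 ∧ g x = x ∧ g • o =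 o ∧ g • o' = o'' := by
  classical
  open Cfsg.Lib.Golay Cfsg.Lib.Golay.OctOrbits in
  exact by
    obtain ⟨p₀, hp₀⟩ := Finset.card_pos.1 (show 0 < o.card by rw [ho.2]; norm_num)
    obtain ⟨p₁, hp₁, hne⟩ := Finset.exists_mem_ne (show 1 < o.card by rw [ho.2]; norm_num) p₀
    obtain ⟨τ, hτ, hτo, -, -, e0⟩ := exists_std ho hp₀ hp₁ (Ne.symm hne) hx
    have hpt : ∀ w : Finset Cfsg.GolayPt, (x ∉ w ↔ baseP 5 ∉ τ • w) ∧ (o ∩ w).card = (baseO ∩ τ • w).card := fun w =>
      ⟨by rw [← e0]; exact not_congr (Finset.smul_mem_smul_finset_iff τ).symm, by rw [← hτo, ← Finset.smul_finset_inter, Finset.card_smul_finset]⟩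
    have cnt : ∀ k c, octMasks.countP (fun t => predOut t && pop (t &&& baseOctad) == k) = c →
        {o' : Finset Cfsg.GolayPt | o' ∈ Cfsg.octads ∧ x ∉ o' ∧ (o ∩ o').card = k}.ncard = c := by
      intro k c hc
      rw [ncard_conj (P := fun w => x ∉ w ∧ (o ∩ w).card = k)
        (Q := fun y => baseP 5 ∉ y ∧ (baseO ∩ y).card = k) hτ
        (fun w _ => by rw [(hpt w).1, (hpt w).2])]
      refine ncard_base (fun n _ => ?_) hc
      simp only [predOut, Bool.and_eq_true, Bool.not_eq_true', ← Bool.not_eq_true, beq_iff_eq, and_assoc, testBit_baseIdx n (show 5 < 7 by norm_num), inter_card]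
    refine ⟨cnt 0 15 counts.2.2.2.2.1, cnt 4 210 counts.2.2.2.2.2.1, cnt 2 280 counts.2.2.2.2.2.2.1, ?_⟩
    intro o' o'' ho' ho'' hx' hx'' h
    obtain ⟨m, hm, em⟩ := exists_octMask (show τ • o' ∈ Cfsg.octads from smul_mem_words hτ ho')
    obtain ⟨n, hn, en⟩ := exists_octMask (show τ • o'' ∈ Cfsg.octads from smul_mem_words hτ ho'')
    obtain ⟨g, hg, hgo, hgp, hge⟩ := conf_trans outOne_ok hm hn
      (by simp only [predOut, Bool.and_eq_true, Bool.not_eq_true', ← Bool.not_eq_true, beq_iff_eq, and_assoc, testBit_baseIdx m (show 5 < 7 by norm_num), em]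
          exact (hpt o').1.1 hx')
      (by simp only [predOut, Bool.and_eq_true, Bool.not_eq_true', ← Bool.not_eq_true, beq_iff_eq, and_assoc, testBit_baseIdx n (show 5 < 7 by norm_num), en]
          exact (hpt o'').1.1 hx'')
      (by rw [← inter_card, ← inter_card, em, en, ← (hpt o').2, ← (hpt o'').2]; exact h)
    refine ⟨τ⁻¹ * g * τ, Cfsg.M24.mul_mem (Cfsg.M24.mul_mem (Cfsg.M24.inv_mem hτ) hg) hτ, ?_, ?_, ?_⟩
    · rw [Equiv.Perm.mul_apply, Equiv.Perm.mul_apply, e0, show g (baseP 5) = baseP 5 from hgp _ (List.mem_cons_self ..), ← e0]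
      exact τ.symm_apply_apply x
    · rw [mul_smul, mul_smul, hτo, hgo, ← hτo, inv_smul_smul]
    · rw [mul_smul, mul_smul, ← em, hge, en, inv_smul_smul]

end Cfsg.Agent.S1608
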