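import Cfsg.Statements.S1610
import Mathlib
import Cfsg.Agent.Lib.Hexacode.Basic

set_option autoImplicit false
open Cfsg Cfsg.Lib.Hexacode

namespace Cfsg.Agent.S1610

/-- The hexacode has 64 words, minimum weight 4, and weight distribution 0^1 4^45 6^18. -/
theorem result (F : Type*) [Field F] [Fintype F] [DecidableEq F] (hF : Fintype.card F = 4) (ω : F) (hω : ω ^ 2 + ω + 1 = 0) : Nat.card ↥(Cfsg.hexacode F ω) = 64 ∧ (∀ x ∈ Cfsg.hexacode F ω, x ≠ 0 → (Finset.univ.filter fun i => x i ≠ 0).card = 4 ∨ (Finset.univ.filter fun i => x i ≠ 0).card = 6) ∧ {x : Fin 6 → F | x ∈ Cfsg.hexacode F ω ∧ (Finset.univ.filter fun i => x i ≠ 0).card = 4}.ncard = 45 ∧ {x : Fin 6 → F | x ∈ Cfsg.hexacode F ω ∧ (Finset.univ.filter fun i => x i ≠ 0).card = 6}.ncard = 18 := by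
  have hcard := ncard_code hF ω hω (fun _ => True)
  refine ⟨?_, ?_, ?_, ?_⟩
  · rw [show Nat.card ↥(hexacode F ω) = (hexacode F ω : Set (Fin 6 → F)).ncard from rfl,
      show (hexacode F ω : Set (Fin 6 → F)) = {x : Fin 6 → F | x ∈ hexacode F ω ∧ True} from by ext; simp,
      hcard]
    decide +kernel
  · intro x hx hne
    obtain ⟨v, rfl⟩ := exists_model hF ω hω x
    obtain ⟨a, b, c, rfl⟩ := (isWord_iff v).1 ((mem_iff hF ω hω v).1 hx)
    have hwt : (Finset.univ.filter fun i => (phi ω ∘ comb a b c) i ≠ 0).card = wt (comb a b c) := by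
      simp [wt, phi_eq_zero hF ω hω]
    rw [hwt]
    rcases combs_facts.2.2.1 a b c with ⟨-, h0⟩ | h | h
    · exact absurd (funext fun i => by simp [h0 i, (phi_vals (F := F) ω).1]) hne
    · exact Or.inl h
    · exact Or.inr h
  · rw [ncard_code hF ω hω (fun m => m = 4)]
    exact combs_facts.2.2.2.1
  · rw [ncard_code hF ω hω (fun m => m = 6)]
    exact combs_facts.2.2.2.2

end Cfsg.Agent.S1610
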