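import Cfsg.Statements.S1611
import Mathlib
import Cfsg.Agent.Lib.Hexacode.Monomial

set_option autoImplicit false
open Cfsg Cfsg.Lib.Hexacode

namespace Cfsg.Agent.S1611

/-- The monomial automorphism group of the hexacode has order 1080: its diagonal part is the scalars and its permutation parts form the alternating group of degree 6. -/
theorem result (F : Type*) [Field F] [Fintype F] [DecidableEq F] (hF : Fintype.card F = 4) (ω : F) (hω : ω ^ 2 + ω + 1 = 0) : Nat.card {f : Equiv.Perm (Fin 6) × (Fin 6 → Fˣ) // (∀ x ∈ Cfsg.hexacode F ω, Cfsg.monomialMap f.1 f.2 x ∈ Cfsg.hexacode F ω)} = 1080 ∧ (∀ c : Fin 6 → Fˣ, (∀ x ∈ Cfsg.hexacode F ω, Cfsg.monomialMap 1 c x ∈ Cfsg.hexacode F ω) → ∀ i j, c i = c j) ∧ {σ : Equiv.Perm (Fin 6) | ∃ c : Fin 6 → Fˣ, (∀ x ∈ Cfsg.hexacode F ω, Cfsg.monomialMap σ c x ∈ Cfsg.hexacode F ω)} = (alternatingGroup (Fin 6) : Set (Equiv.Perm (Fin 6))) := by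
  refine ⟨card_monomial hF ω hω, fun c h i j => ?_, ?_⟩
  · rw [diag_scalar hF ω hω c h i, diag_scalar hF ω hω c h j]
  · rw [← permGroup_eq hF ω hω]
    ext σ
    rw [Set.mem_ofPred_eq, SetLike.mem_coe, mem_permGroup]
    rfl

end Cfsg.Agent.S1611
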