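import Cfsg.Statements.S1629
import Cfsg.Agent.Lib.Classical.ReflTriples
import Cfsg.Agent.Lib.Classical.SphereMod

set_option autoImplicit false
open scoped MatrixGroups
open Cfsg

namespace Cfsg.Agent.S1629

/-- The orthogonal transvections of the plus-type orthogonal group in dimension 2m ≥ 6 over the field with two elements form a generating conjugacy class of 3-transpositions. -/
theorem result (m : ℕ) (hm : 3 ≤ m) : Cfsg.IsThreeTranspositionClass {g : ↥(Cfsg.isometryGroup (ZMod 2) (Cfsg.quadFormPlus m (ZMod 2))) | (((g : GL (Fin m ⊕ Fin m) (ZMod 2)) : Matrix (Fin m ⊕ Fin m) (Fin m ⊕ Fin m) (ZMod 2)) - 1).rank = 1} := by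
  let Q : QuadraticForm (ZMod 2) (Fin m ⊕ Fin m → ZMod 2) :=
    (Cfsg.Lib.Classical.QuadOrders.Qs m (Cfsg.Lib.Classical.QuadOrders.Q0 (F := ZMod 2))).comp
      (Cfsg.Lib.Classical.QuadOrders.ePlus (ZMod 2) m).toLinearMap
  refine Cfsg.Lib.Classical.ReflTriples.threeTranspositionClass (Q := Q)
    (fun v => Cfsg.Lib.Classical.QuadOrders.ePlus_form m v)
    (Cfsg.Lib.Classical.QuadOrders.nondeg_comp _
      (Cfsg.Lib.Classical.QuadOrders.nondeg_std Cfsg.Lib.Classical.QuadOrders.Q0_nondeg))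
    (Or.inr (by simp; omega)) (fun v hv => ?_) (by decide) ?_
  · revert hv; generalize Q v = x; revert x; decide
  · refine ⟨fun i => if (i = Sum.inl ⟨0, by omega⟩ ∨ i = Sum.inr ⟨0, by omega⟩) then 1 else 0, ?_⟩
    rw [show ∀ v, Q v = Cfsg.quadFormPlus m (ZMod 2) v from Cfsg.Lib.Classical.QuadOrders.ePlus_form m]
    rw [Cfsg.quadFormPlus, Finset.sum_eq_single ⟨0, by omega⟩ (fun i _ hi => by simp [hi]) (by simp)]
    simp

end Cfsg.Agent.S1629
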