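import Cfsg.Statements.S1630
import Cfsg.Agent.Lib.Classical.ReflTriples
import Cfsg.Agent.Lib.Classical.SphereMod

set_option autoImplicit false
open scoped MatrixGroups
open Cfsg

namespace Cfsg.Agent.S1630

/-- The orthogonal transvections of the minus-type orthogonal group in dimension ≥ 6 over the field with two elements form a generating conjugacy class of 3-transpositions. -/
theorem result (m : ℕ) (hm : 2 ≤ m) : Cfsg.IsThreeTranspositionClass {g : ↥(Cfsg.isometryGroup (ZMod 2) (Cfsg.quadFormMinus m (ZMod 2) 1 1)) | (((g : GL ((Fin m ⊕ Fin m) ⊕ Fin 2) (ZMod 2)) : Matrix ((Fin m ⊕ Fin m) ⊕ Fin 2) ((Fin m ⊕ Fin m) ⊕ Fin 2) (ZMod 2)) - 1).rank = 1} := by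
  let Q : QuadraticForm (ZMod 2) ((Fin m ⊕ Fin m) ⊕ Fin 2 → ZMod 2) :=
    (Cfsg.Lib.Classical.QuadOrders.Qs m (Cfsg.Lib.Classical.QuadOrders.Q2 (1 : ZMod 2) 1)).comp
      (Cfsg.Lib.Classical.QuadOrders.eMinus (ZMod 2) m).toLinearMap
  refine Cfsg.Lib.Classical.ReflTriples.threeTranspositionClass (Q := Q)
    (fun v => Cfsg.Lib.Classical.QuadOrders.eMinus_form m 1 1 v)
    (Cfsg.Lib.Classical.QuadOrders.nondeg_comp _
      (Cfsg.Lib.Classical.QuadOrders.nondeg_std (Cfsg.Lib.Classical.QuadOrders.Q2_nondeg (by decide))))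
    (Or.inr (by simp; omega)) (fun v hv => ?_) (by decide) ?_
  · revert hv; generalize Q v = x; revert x; decide
  · refine ⟨fun i => if i = Sum.inr 0 then 1 else 0, ?_⟩
    rw [show ∀ v, Q v = Cfsg.quadFormMinus m (ZMod 2) 1 1 v from Cfsg.Lib.Classical.QuadOrders.eMinus_form m 1 1]
    simp [Cfsg.quadFormMinus]

end Cfsg.Agent.S1630
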