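import Cfsg.Statements.S1631
import Cfsg.Agent.Lib.Classical.UnitaryTransvSU
import Cfsg.Agent.Lib.Classical.UnitaryGen

set_option autoImplicit false
open scoped MatrixGroups
open Cfsg

namespace Cfsg.Agent.S1631

/-- The unitary transvections of SU(n, 2), n ≥ 4, form a generating conjugacy class of 3-transpositions. -/
theorem result (F : Type) [Field F] [Fintype F] [DecidableEq F] (hF : Fintype.card F = 4) (n : ℕ) (hn : 4 ≤ n) : Cfsg.IsThreeTranspositionClass {g : ↥(Cfsg.SU n F 2) | (((g : Matrix.SpecialLinearGroup (Fin n) F) : Matrix (Fin n) (Fin n) F) - 1).rank = 1} := by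
  have hF' : Fintype.card F = 2 ^ 2 := by rw [hF]; norm_num
  obtain ⟨σ, hne, hσ, hinv⟩ := Cfsg.Lib.Classical.exists_frobSq hF'
  have hf := Cfsg.Lib.Classical.hermForm_isUnitaryForm hne hσ hinv n
  have hn3 : 3 ≤ Fintype.card (Fin n) := by rw [Fintype.card_fin]; omega
  have h2 : (2 : F) = 0 := by
    have h4 : ((4 : ℕ) : F) = 0 := hF ▸ FiniteField.cast_card_eq_zero F
    have : (2 : F) * 2 = 0 := by rw [← h4]; norm_num
    exact mul_self_eq_zero.mp this
  have hone : ∀ c : F, c + σ c = 0 → c ≠ 0 → c = 1 := fun c hc hc0 => by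
    rw [hσ] at hc
    have : c * (1 + c) = 0 := by linear_combination hc
    linear_combination (mul_eq_zero.1 this).resolve_left hc0 - h2
  have hnorm : ∀ c : F, c ≠ 0 → c * σ c = 1 := fun c hc => by
    rw [hσ, ← pow_succ', show 2 + 1 = Fintype.card F - 1 by rw [hF]]
    exact FiniteField.pow_card_sub_one_eq_one c hc
  have h11 : (1 : F) + σ 1 = 0 := by rw [map_one, one_add_one_eq_two, h2]
  have hT : ∀ g : ↥(Cfsg.SU n F 2), ((Cfsg.Lib.Classical.UTransv.suToGL g : Matrix (Fin n) (Fin n) F) - 1).rank = 1 →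
      ∃ v, v ≠ 0 ∧ ∃ hv : Cfsg.hermForm n F 2 v v = 0,
        Cfsg.Lib.Classical.UTransv.suToGL g = Cfsg.Lib.Classical.utv hf v hv 1 := fun g hg => by
    obtain ⟨v, hv0, hv, c, hc, hc0, he⟩ := Cfsg.Lib.Classical.UTransv.eq_utv_su hf hg
    exact ⟨v, hv0, hv, by rw [he, hone c hc hc0]⟩
  refine ⟨⟨fun d hd => ?_, fun d hd e he => ?_⟩, ?_, ?_⟩
  · obtain ⟨v, hv0, hv, he⟩ := hT d hd
    refine orderOf_eq_prime (Cfsg.Lib.Classical.UTransv.suToGL_injective ?_) fun h1 => ?_
    · rw [map_pow, he, map_one, pow_two]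
      refine Units.ext (Matrix.ext_iff_mulVec.mpr fun x => ?_)
      rw [Units.val_mul, Units.val_one, Matrix.one_mulVec, ← Matrix.mulVec_mulVec, Cfsg.Lib.Classical.utv_mulVec,
        Cfsg.Lib.Classical.utv_mulVec, hf.add_left, hf.smul_left, hv, mul_zero, add_zero, add_assoc, ← add_smul,
        ← two_mul, h2, zero_mul, zero_smul, add_zero]
    · have hd' : ((((1 : ↥(Cfsg.SU n F 2)) : Matrix.SpecialLinearGroup (Fin n) F) : Matrix (Fin n) (Fin n) F) - 1).rank = 1 := h1 ▸ hd
      simp at hd'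
  · obtain ⟨u, -, hu, h⟩ := hT d hd
    obtain ⟨v, -, hv, h'⟩ := hT e he
    rcases Cfsg.Lib.Classical.UTransv.utv_pair hf h2 hnorm hu hv with h3 | h3
    · exact Or.inl (Cfsg.Lib.Classical.UTransv.suToGL_injective (by rw [map_pow, map_mul, h, h', h3, map_one]))
    · exact Or.inr (Cfsg.Lib.Classical.UTransv.suToGL_injective (by rw [map_pow, map_mul, h, h', h3, map_one]))
  · let i0 : Fin n := ⟨0, by omega⟩
    let i1 : Fin n := ⟨1, by omega⟩
    let v : Fin n → F := fun i => if i = i0 ∨ i = i1 then 1 else 0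
    have hv0 : v ≠ 0 := fun h => by simpa [v] using congrFun h i0
    have hv : Cfsg.hermForm n F 2 v v = 0 := by
      rw [Cfsg.hermForm, Finset.sum_eq_add_of_mem i0 i1 (Finset.mem_univ _) (Finset.mem_univ _)
        (by simp [i0, i1, Fin.ext_iff]) (fun i _ hi => by simp [v, hi.1, hi.2])]
      simp [v, one_add_one_eq_two, h2]
    obtain ⟨d, hd⟩ := Cfsg.Lib.Classical.UTransv.exists_eq_suToGL hf
      (Cfsg.Lib.Classical.utv_mem_uGen (Submodule.mem_top (x := v)) hv h11)
    have hdr : ((Cfsg.Lib.Classical.UTransv.suToGL d : Matrix (Fin n) (Fin n) F) - 1).rank = 1 := by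
      rw [hd]; exact Cfsg.Lib.Classical.UTransv.rank_utv hf hv0 hv one_ne_zero
    refine ⟨d, hdr, Set.ext fun g => ⟨fun hg => Cfsg.Lib.Classical.UTransv.isConj_su hf (by omega) hdr hg, fun hg => ?_⟩⟩
    obtain ⟨k, hk⟩ := isConj_iff.mp hg
    subst hk
    show ((Cfsg.Lib.Classical.UTransv.suToGL (k * d * k⁻¹) : Matrix (Fin n) (Fin n) F) - 1).rank = 1
    have hgv : Cfsg.hermForm n F 2 ((Cfsg.Lib.Classical.UTransv.suToGL k : Matrix (Fin n) (Fin n) F).mulVec v)
        ((Cfsg.Lib.Classical.UTransv.suToGL k : Matrix (Fin n) (Fin n) F).mulVec v) = 0 := (k.2 v v).trans hv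
    rw [map_mul, map_mul, map_inv, hd, Cfsg.Lib.Classical.conj_utv hf (Cfsg.Lib.Classical.UTransv.suToGL k) (fun x y => k.2 x y) v hv 1 hgv]
    refine Cfsg.Lib.Classical.UTransv.rank_utv hf (fun h => hv0 ?_) hgv one_ne_zero
    have := congrArg (fun w => (((Cfsg.Lib.Classical.UTransv.suToGL k)⁻¹ : Matrix.GeneralLinearGroup (Fin n) F) :
      Matrix (Fin n) (Fin n) F).mulVec w) h
    simp only [Matrix.mulVec_mulVec, Units.inv_mul, Matrix.one_mulVec, Matrix.mulVec_zero] at this
    exact this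
  · rw [eq_top_iff]
    intro g _
    have hle : Cfsg.Lib.Classical.uGen hf (⊤ : Submodule F (Fin n → F)) ≤
        (Subgroup.closure {g : ↥(Cfsg.SU n F 2) | (((g : Matrix.SpecialLinearGroup (Fin n) F) : Matrix (Fin n) (Fin n) F) - 1).rank = 1}).map
          Cfsg.Lib.Classical.UTransv.suToGL := by
      refine Cfsg.Lib.Classical.uGen_le fun v _ hv c hc => ?_
      obtain ⟨s, hs⟩ := Cfsg.Lib.Classical.UTransv.exists_eq_suToGL hf
        (Cfsg.Lib.Classical.utv_mem_uGen (Submodule.mem_top (x := v)) hv hc)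
      refine ⟨s, ?_, hs⟩
      by_cases htriv : v = 0 ∨ c = 0
      · have : s = 1 := Cfsg.Lib.Classical.UTransv.suToGL_injective (by
          rw [hs, map_one]
          refine Units.ext (Matrix.ext_iff_mulVec.mpr fun x => ?_)
          rw [Cfsg.Lib.Classical.utv_mulVec, Units.val_one, Matrix.one_mulVec]
          rcases htriv with h | h <;> simp [h])
        rw [this]
        exact one_mem _
      · push Not at htriv
        refine Subgroup.subset_closure ?_
        show ((Cfsg.Lib.Classical.UTransv.suToGL s : Matrix (Fin n) (Fin n) F) - 1).rank = 1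
        rw [hs]
        exact Cfsg.Lib.Classical.UTransv.rank_utv hf htriv.1 hv htriv.2
    have hmem := Cfsg.Lib.Classical.mem_uGen_top hf (g := Cfsg.Lib.Classical.UTransv.suToGL g)
      (fun h => by rw [Fintype.card_fin] at h; omega) (fun x y => g.2 x y)
      (Units.ext (by rw [Matrix.GeneralLinearGroup.val_det_apply]; exact g.1.2))
    obtain ⟨g', hg', he⟩ := hle hmem
    rwa [← Cfsg.Lib.Classical.UTransv.suToGL_injective he]

end Cfsg.Agent.S1631
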