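import Cfsg.Statements.S1636
import Cfsg.Agent.Lib.Golay.Puncture

set_option autoImplicit false
set_option linter.constructorNameAsVariable false
set_option maxRecDepth 20000
open Cfsg

namespace Cfsg.Agent.S1636

/-- The punctured length-23 code has weight distribution 0^1 7^253 8^506 11^1288 12^1288 15^506 16^253 23^1. -/
theorem result : {u : ZMod 23 → ZMod 2 | ∃ w ∈ Cfsg.golayCode, ∀ x : ZMod 23, u x = w (some x)}.ncard = 4096 ∧ {u : ZMod 23 → ZMod 2 | u ∈ {u : ZMod 23 → ZMod 2 | ∃ w ∈ Cfsg.golayCode, ∀ x : ZMod 23, u x = w (some x)} ∧ hammingNorm u = 7}.ncard = 253 ∧ {u : ZMod 23 → ZMod 2 | u ∈ {u : ZMod 23 → ZMod 2 | ∃ w ∈ Cfsg.golayCode, ∀ x : ZMod 23, u x = w (some x)} ∧ hammingNorm u = 8}.ncard = 506 ∧ {u : ZMod 23 → ZMod 2 | u ∈ {u : ZMod 23 → ZMod 2 | ∃ w ∈ Cfsg.golayCode, ∀ x : ZMod 23, u x = w (some x)} ∧ hammingNorm u = 11}.ncard = 1288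 ∧ {u : ZMod 23 → ZMod 2 | u ∈ {u : ZMod 23 → ZMod 2 | ∃ w ∈ Cfsg.golayCode, ∀ x : ZMod 23, u x = w (some x)} ∧ hammingNorm u = 12}.ncard = 1288 ∧ {u : ZMod 23 → ZMod 2 | u ∈ {u : ZMod 23 → ZMod 2 | ∃ w ∈ Cfsg.golayCode, ∀ x : ZMod 23, u x = w (some x)} ∧ hammingNorm u = 15}.ncard = 506 ∧ {u : ZMod 23 → ZMod 2 | u ∈ {u : ZMod 23 → ZMod 2 | ∃ w ∈ Cfsg.golayCode, ∀ x : ZMod 23, u x = w (some x)} ∧ hammingNorm u = 16}.ncard = 253 ∧ ∀ u ∈ {u : ZMod 23 → ZMod 2 | ∃ w ∈ Cfsg.golayCode, ∀ x : ZMod 23, u x = w (some x)}, u ≠ 0 → 7 ≤ hammingNorm u := by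
  open Cfsg.Lib.Golay in
  have hc := weight_counts
  simp only [List.map_cons, List.map_nil, List.cons.injEq, and_true] at hc
  obtain ⟨h7, h8, h11, h12, h15, h16⟩ := hc
  refine ⟨Cfsg.Lib.Golay.ncard_punct, ?_, ?_, ?_, ?_, ?_, ?_, ?_⟩
  · rw [Cfsg.Lib.Golay.ncard_punct_weight]; exact h7
  · rw [Cfsg.Lib.Golay.ncard_punct_weight]; exact h8
  · rw [Cfsg.Lib.Golay.ncard_punct_weight]; exact h11
  · rw [Cfsg.Lib.Golay.ncard_punct_weight]; exact h12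
  · rw [Cfsg.Lib.Golay.ncard_punct_weight]; exact h15
  · rw [Cfsg.Lib.Golay.ncard_punct_weight]; exact h16
  · rintro u ⟨w, hw, he⟩ hne
    exact Cfsg.Lib.Golay.punct_min ⟨w, hw, (funext he).symm⟩ hne

end Cfsg.Agent.S1636
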