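import Cfsg.Statements.S1637
import Cfsg.Agent.Lib.Golay.Puncture

set_option autoImplicit false
set_option linter.constructorNameAsVariable false
set_option maxRecDepth 20000
open Cfsg

namespace Cfsg.Agent.S1637

/-- The punctured length-23 code is a perfect 3-error-correcting code: each word of length 23 is within distance 3 of exactly one codeword. -/
theorem result (u : ZMod 23 → ZMod 2) : ∃! c : ZMod 23 → ZMod 2, c ∈ {u : ZMod 23 → ZMod 2 | ∃ w ∈ Cfsg.golayCode, ∀ x : ZMod 23, u x = w (some x)} ∧ hammingDist u c ≤ 3 := by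
  classical
  have hkey : ∀ x y : ZMod 23 → ZMod 2, hammingNorm (x - y) = hammingDist x y := by
    intro x y
    simp only [hammingNorm, hammingDist, Pi.sub_apply, sub_ne_zero]
  open Cfsg.Lib.Golay in
  have huniq : ∀ c c' : ZMod 23 → ZMod 2, (∃ w ∈ Cfsg.golayCode, punct w = c) → (∃ w ∈ Cfsg.golayCode, punct w = c') →
      hammingDist u c ≤ 3 → hammingDist u c' ≤ 3 → c = c' := by
    rintro c c' ⟨w, hw, rfl⟩ ⟨w', hw', rfl⟩ h h'
    by_contra hne
    have h7 := punct_min (u := punct w - punct w') ⟨w - w', sub_mem hw hw', rfl⟩ (sub_ne_zero.2 hne)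
    have htri := hammingDist_triangle (punct w) u (punct w')
    rw [hammingDist_comm (punct w) u] at htri
    rw [hkey] at h7
    omega
  open Cfsg.Lib.Golay in
  have hex : ∃ w ∈ Cfsg.golayCode, hammingDist u (punct w) ≤ 3 := by
    let W : Cfsg.GolayPt → ZMod 2 := fun p => p.elim 0 u
    have hWu : punct W = u := rfl
    obtain ⟨v, hv, hwv⟩ : ∃ v : Finset Cfsg.GolayPt, (v.erase none).card ≤ 3 ∧
        symmDiff (Cfsg.support₂ W) v ∈ Cfsg.supports (Cfsg.golayCode : Set (Cfsg.GolayPt → ZMod 2)) := by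
      rcases coset_small (Cfsg.support₂ W) with ⟨v, hv, hwv, -⟩ | ⟨t, ht, hiff⟩
      · exact ⟨v, Finset.card_erase_le.trans hv, hwv⟩
      · -- some tetrad of the sextet contains the extra point
        have hcover : (sextetOf t).biUnion id = Finset.univ := by
          refine Finset.eq_univ_of_card _ ?_
          rw [Finset.card_biUnion (t := id) (fun a ha b hb hne => (pair_sextetOf ht ha hb hne).1)]
          rw [Finset.sum_const_nat (m := 4) (f := fun u => (id u : Finset Cfsg.GolayPt).card)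
            (fun a ha => card_of_mem_sextetOf ht ha), card_sextetOf ht]
          simp [Cfsg.GolayPt]
        obtain ⟨s, hs, hns⟩ := Finset.mem_biUnion.1 (hcover ▸ Finset.mem_univ (none : Cfsg.GolayPt))
        refine ⟨s, ?_, ((hiff s).2 hs).2⟩
        rw [Finset.card_erase_of_mem (show none ∈ s from hns), card_of_mem_sextetOf ht hs]
    obtain ⟨x, rfl⟩ := support_surjective v
    refine ⟨W - x, (sub_mem_iff W x).2 hwv, ?_⟩
    rw [← hWu, ← hkey, ← punct_sub, sub_sub_cancel, hammingNorm_punct]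
    exact hv
  obtain ⟨w, hw, hd⟩ := hex
  refine ⟨Cfsg.Lib.Golay.punct w, ⟨⟨w, hw, fun x => rfl⟩, hd⟩, ?_⟩
  rintro c ⟨⟨w', hw', he⟩, hd'⟩
  exact huniq c _ ⟨w', hw', (funext he).symm⟩ ⟨w, hw, rfl⟩ hd' hd

end Cfsg.Agent.S1637
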