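import Cfsg.Statements.S1638
import Cfsg.Agent.Lib.Golay.MarkedOrbits
import Cfsg.Agent.Lib.Golay.Fixer

set_option autoImplicit false
open scoped Pointwise
open Cfsg

namespace Cfsg.Agent.S1638

/-- Fix two points p ≠ q and a pair s of two further points. Among the pairs avoiding p, q and disjoint from s, exactly 30 lie in an octad together with p, q and s and exactly 160 do not; and any two pairs other than s that meet s in equally many points and agree on that octad property are carried to one another by an element of the group of the length-24 code fixing p, q and s. -/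
theorem result (p q : Cfsg.GolayPt) (hpq : p ≠ q) (s : Finset Cfsg.GolayPt) (hs : (s.card = 2 ∧ p ∉ s ∧ q ∉ s)) : {t : Finset Cfsg.GolayPt | (t.card = 2 ∧ p ∉ t ∧ q ∉ t) ∧ Disjoint s t ∧ (∃ o ∈ Cfsg.octads, p ∈ o ∧ q ∈ o ∧ s ∪ t ⊆ o)}.ncard = 30 ∧ {t : Finset Cfsg.GolayPt | (t.card = 2 ∧ p ∉ t ∧ q ∉ t) ∧ Disjoint s t ∧ ¬ (∃ o ∈ Cfsg.octads, p ∈ o ∧ q ∈ o ∧ s ∪ t ⊆ o)}.ncard = 160 ∧ ∀ t t' : Finset Cfsg.GolayPt, (t.card = 2 ∧ p ∉ t ∧ q ∉ t) → (t'.card = 2 ∧ p ∉ t' ∧ q ∉ t') → t ≠ s → t' ≠ s → (s ∩ t).card = (s ∩ t').card → ((∃ o ∈ Cfsg.octads, p ∈ o ∧ q ∈ o ∧ s ∪ t ⊆ o) ↔ (∃ o ∈ Cfsg.octads, p ∈ o ∧ q ∈ o ∧ s ∪ t' ⊆ o)) → ∃ g : Equiv.Perm Cfsg.GolayPt, g ∈ Cfsg.M24 ∧ g p = p ∧ g q = q ∧ g • s = s ∧ g • t = t' := by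
  classical
  obtain ⟨hsc, hps, hqs⟩ := hs
  obtain ⟨a, b, hab, rfl⟩ := Finset.card_eq_two.1 hsc
  simp only [Finset.mem_insert, Finset.mem_singleton, not_or] at hps hqs
  let v : Fin 4 ↪ Cfsg.GolayPt := ⟨![p, q, a, b], by
    intro i j h
    fin_cases i <;> fin_cases j <;> first
      | rfl
      | exact absurd h hpq | exact absurd h.symm hpq
      | exact absurd h hps.1 | exact absurd h.symm hps.1
      | exact absurd h hps.2 | exact absurd h.symm hps.2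
      | exact absurd h hqs.1 | exact absurd h.symm hqs.1
      | exact absurd h hqs.2 | exact absurd h.symm hqs.2
      | exact absurd h hab | exact absurd h.symm hab⟩
  obtain ⟨k, hkM, hk⟩ := Cfsg.Lib.Golay.exists_tuple_to_base (n := 4) (by norm_num) v
  set P₀ := Cfsg.Lib.Golay.baseP 0 with hP₀
  set Q₀ := Cfsg.Lib.Golay.baseP 1 with hQ₀
  set S₀ := Cfsg.Lib.Golay.toSet Cfsg.Lib.Golay.MarkedOrbits.sMask with hS₀
  have hkp : k p = P₀ := hk 0
  have hkq : k q = Q₀ := hk 1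
  have hks : k • ({a, b} : Finset Cfsg.GolayPt) = S₀ := by
    have h1 : k a = Cfsg.Lib.Golay.baseP 2 := hk 2
    have h2 : k b = Cfsg.Lib.Golay.baseP 3 := hk 3
    have h3 : S₀ = {Cfsg.Lib.Golay.baseP 2, Cfsg.Lib.Golay.baseP 3} := by decide +kernel
    rw [h3, ← h1, ← h2, Finset.smul_finset_insert, Finset.smul_finset_singleton]
    rfl
  set R : Finset Cfsg.GolayPt → Prop := fun t => ∃ o ∈ Cfsg.octads, P₀ ∈ o ∧ Q₀ ∈ o ∧ S₀ ∪ t ⊆ o
  have hmoveP : ∀ t : Finset Cfsg.GolayPt, (t.card = 2 ∧ p ∉ t ∧ q ∉ t) ↔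
      ((k • t).card = 2 ∧ P₀ ∉ k • t ∧ Q₀ ∉ k • t) := fun t => by
    rw [Finset.card_smul_finset, ← hkp, ← hkq]
    exact and_congr Iff.rfl (and_congr (not_congr (Finset.smul_mem_smul_finset_iff (s := t) k).symm)
      (not_congr (Finset.smul_mem_smul_finset_iff (s := t) k).symm))
  have hmoveR : ∀ t : Finset Cfsg.GolayPt,
      (∃ o ∈ Cfsg.octads, p ∈ o ∧ q ∈ o ∧ ({a, b} : Finset Cfsg.GolayPt) ∪ t ⊆ o) ↔ R (k • t) := by
    intro t
    constructor
    · rintro ⟨o, ho, hpo, hqo, hsub⟩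
      refine ⟨k • o, Cfsg.Lib.Golay.smul_mem_words hkM ho, ?_, ?_, ?_⟩
      · rw [← hkp]; exact Finset.smul_mem_smul_finset hpo
      · rw [← hkq]; exact Finset.smul_mem_smul_finset hqo
      · rw [← hks, ← Finset.smul_finset_union]; exact Finset.smul_finset_subset_smul_finset hsub
    · rintro ⟨o, ho, hpo, hqo, hsub⟩
      refine ⟨k⁻¹ • o, Cfsg.Lib.Golay.smul_mem_words (Subgroup.inv_mem _ hkM) ho, ?_, ?_, ?_⟩
      · rw [Finset.mem_inv_smul_finset_iff]; show k p ∈ o; rw [hkp]; exact hpo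
      · rw [Finset.mem_inv_smul_finset_iff]; show k q ∈ o; rw [hkq]; exact hqo
      · rw [Finset.subset_smul_finset_iff, inv_inv, Finset.smul_finset_union, hks]; exact hsub
  have hdisj : ∀ t : Finset Cfsg.GolayPt, Disjoint ({a, b} : Finset Cfsg.GolayPt) t ↔ (S₀ ∩ k • t).card = 0 := by
    intro t
    rw [← hks, ← Finset.smul_finset_inter, Finset.card_smul_finset, Finset.card_eq_zero,
      Finset.disjoint_iff_inter_eq_empty]
  have hmask : ∀ u : Finset Cfsg.GolayPt, u.card = 2 →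
      Cfsg.Lib.Golay.setNat u ∈ Cfsg.Lib.Golay.MarkedOrbits.pairMasks := by
    intro u hu
    obtain ⟨y, z, hyz, rfl⟩ := Finset.card_eq_two.1 hu
    have h := List.all_eq_true.1 (List.all_eq_true.1 Cfsg.Lib.Golay.MarkedOrbits.pair_complete
      (Cfsg.Lib.Golay.idx y) (List.mem_range.2 (Cfsg.Lib.Golay.idx_lt y)))
      (Cfsg.Lib.Golay.idx z) (List.mem_range.2 (Cfsg.Lib.Golay.idx_lt z))
    simp only [Bool.or_eq_true, beq_iff_eq, List.contains_eq_mem, decide_eq_true_eq] at h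
    rcases h with h | h
    · exact absurd (Cfsg.Lib.Golay.idx_inj h) hyz
    · have hlt : 2 ^ Cfsg.Lib.Golay.idx y ||| 2 ^ Cfsg.Lib.Golay.idx z < 2 ^ 24 :=
        Nat.or_lt_two_pow (Nat.pow_lt_pow_right (by norm_num) (Cfsg.Lib.Golay.idx_lt y))
          (Nat.pow_lt_pow_right (by norm_num) (Cfsg.Lib.Golay.idx_lt z))
      have he : Cfsg.Lib.Golay.toSet (2 ^ Cfsg.Lib.Golay.idx y ||| 2 ^ Cfsg.Lib.Golay.idx z) = {y, z} := by
        ext w
        simp only [Cfsg.Lib.Golay.mem_toSet, Nat.testBit_or, Nat.testBit_two_pow, Bool.or_eq_true,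
          decide_eq_true_eq, Finset.mem_insert, Finset.mem_singleton]
        exact ⟨fun h => h.imp (fun e => (Cfsg.Lib.Golay.idx_inj e).symm) (fun e => (Cfsg.Lib.Golay.idx_inj e).symm),
          fun h => h.imp (fun e => by rw [e]) (fun e => by rw [e])⟩
      rw [← he, Cfsg.Lib.Golay.setNat_toSet hlt]
      exact h
  have hinv : ∀ n ∈ Cfsg.Lib.Golay.MarkedOrbits.pairMasks, n < 2 ^ 24 ∧ (Cfsg.Lib.Golay.toSet n).card = 2 := by
    intro n hn
    have h := List.all_eq_true.1 Cfsg.Lib.Golay.MarkedOrbits.pairMasks_check.2 n hn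
    simp only [Bool.and_eq_true, decide_eq_true_eq, beq_iff_eq] at h
    exact ⟨h.1, by rw [Cfsg.Lib.Golay.card_toSet]; exact h.2⟩
  have hpq' : ∀ n : ℕ, (P₀ ∉ Cfsg.Lib.Golay.toSet n ∧ Q₀ ∉ Cfsg.Lib.Golay.toSet n) ↔
      (n &&& Cfsg.Lib.Golay.MarkedOrbits.pqMask == 0) = true := by
    intro n
    rw [beq_iff_eq]
    have hset : Cfsg.Lib.Golay.toSet Cfsg.Lib.Golay.MarkedOrbits.pqMask = {P₀, Q₀} := by decide +kernel
    have hlt : n &&& Cfsg.Lib.Golay.MarkedOrbits.pqMask < 2 ^ 24 :=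
      lt_of_le_of_lt Nat.and_le_right (by decide +kernel)
    rw [← Cfsg.Lib.Golay.toSet_eq_iff hlt (by norm_num), Cfsg.Lib.Golay.toSet_and, hset,
      show Cfsg.Lib.Golay.toSet 0 = ∅ by decide +kernel, ← Finset.disjoint_iff_inter_eq_empty,
      Finset.disjoint_insert_right, Finset.disjoint_singleton_right]
  have hR : ∀ n : ℕ, n < 2 ^ 24 → (R (Cfsg.Lib.Golay.toSet n) ↔ Cfsg.Lib.Golay.MarkedOrbits.inOct n = true) := by
    intro n hn
    have hset : Cfsg.Lib.Golay.toSet Cfsg.Lib.Golay.MarkedOrbits.pqMask = {P₀, Q₀} := by decide +kernel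
    have hlt : Cfsg.Lib.Golay.MarkedOrbits.pqMask ||| Cfsg.Lib.Golay.MarkedOrbits.sMask ||| n < 2 ^ 24 :=
      Nat.or_lt_two_pow (Nat.or_lt_two_pow (by decide +kernel) (by decide +kernel)) hn
    have hto : ∀ m, Cfsg.Lib.Golay.toSet (Cfsg.Lib.Golay.MarkedOrbits.pqMask ||| Cfsg.Lib.Golay.MarkedOrbits.sMask ||| n) ⊆
        Cfsg.Lib.Golay.toSet m ↔
        (P₀ ∈ Cfsg.Lib.Golay.toSet m ∧ Q₀ ∈ Cfsg.Lib.Golay.toSet m ∧
          S₀ ∪ Cfsg.Lib.Golay.toSet n ⊆ Cfsg.Lib.Golay.toSet m) := by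
      intro m
      have hor : ∀ u w, Cfsg.Lib.Golay.toSet (u ||| w) = Cfsg.Lib.Golay.toSet u ∪ Cfsg.Lib.Golay.toSet w :=
        fun u w => by ext r; simp [Cfsg.Lib.Golay.mem_toSet, Nat.testBit_or]
      rw [hor, hor, hset, ← hS₀, Finset.union_assoc, Finset.union_subset_iff, Finset.insert_subset_iff,
        Finset.singleton_subset_iff, and_assoc]
    simp only [R, Cfsg.Lib.Golay.MarkedOrbits.inOct, List.any_eq_true, beq_iff_eq]
    constructor
    · rintro ⟨o, ho, h⟩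
      refine ⟨Cfsg.Lib.Golay.setNat o, (Cfsg.Lib.Golay.mem_octads_iff o).1 ho, ?_⟩
      rw [Nat.and_comm, ← Cfsg.Lib.Golay.toSet_subset_iff _ _ hlt, hto, Cfsg.Lib.Golay.toSet_setNat]
      exact h
    · rintro ⟨m, hm, h⟩
      rw [Nat.and_comm, ← Cfsg.Lib.Golay.toSet_subset_iff _ _ hlt, hto] at h
      exact ⟨_, Cfsg.Lib.Golay.toSet_mem_octads hm, h⟩
  have hcount : ∀ (neg : Bool) (m : ℕ), Cfsg.Lib.Golay.MarkedOrbits.pairMasks.countP (fun t =>
      t &&& Cfsg.Lib.Golay.MarkedOrbits.pqMask == 0 && (Cfsg.Lib.Golay.MarkedOrbits.sMask &&& t == 0) &&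
        (Cfsg.Lib.Golay.MarkedOrbits.inOct t ^^ neg)) = m →
      {t : Finset Cfsg.GolayPt | (t.card = 2 ∧ p ∉ t ∧ q ∉ t) ∧ Disjoint ({a, b} : Finset Cfsg.GolayPt) t ∧
        ((∃ o ∈ Cfsg.octads, p ∈ o ∧ q ∈ o ∧ ({a, b} : Finset Cfsg.GolayPt) ∪ t ⊆ o) ↔ neg = false)}.ncard = m := by
    intro neg m hm
    rw [← hm, List.countP_eq_length_filter, ← List.toFinset_card_of_nodup
      (Cfsg.Lib.Golay.MarkedOrbits.pairMasks_check.1.filter _), ← Set.ncard_coe_finset]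
    refine Set.ncard_congr (fun t _ => Cfsg.Lib.Golay.setNat (k • t)) (fun t ht => ?_)
      (fun t u _ _ e => ?_) (fun n hn => ?_)
    · obtain ⟨ht1, ht2, ht3⟩ := ht
      obtain ⟨hc, hP, hQ⟩ := (hmoveP t).1 ht1
      rw [Finset.mem_coe, List.mem_toFinset, List.mem_filter, Bool.and_eq_true, Bool.and_eq_true]
      refine ⟨hmask _ hc, ⟨(hpq' _).1 (by rw [Cfsg.Lib.Golay.toSet_setNat]; exact ⟨hP, hQ⟩), ?_⟩, ?_⟩
      · have h := (hdisj t).1 ht2
        rw [hS₀, ← Cfsg.Lib.Golay.toSet_setNat (k • t), Cfsg.Lib.Golay.card_inter_toSet,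
          ← Cfsg.Lib.Golay.card_toSet, Finset.card_eq_zero] at h
        rw [beq_iff_eq]
        refine (Cfsg.Lib.Golay.toSet_eq_iff (lt_of_le_of_lt Nat.and_le_left (by decide +kernel)) (by norm_num)).1 ?_
        rw [h]; decide +kernel
      · have h := (hmoveR t).symm.trans ht3
        rw [← Cfsg.Lib.Golay.toSet_setNat (k • t), hR _ (Cfsg.Lib.Golay.setNat_lt _)] at h
        revert h
        cases neg <;> cases Cfsg.Lib.Golay.MarkedOrbits.inOct (Cfsg.Lib.Golay.setNat (k • t)) <;> simp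
    · have e' := congrArg Cfsg.Lib.Golay.toSet e
      rw [Cfsg.Lib.Golay.toSet_setNat, Cfsg.Lib.Golay.toSet_setNat] at e'
      exact MulAction.injective k e'
    · rw [Finset.mem_coe, List.mem_toFinset, List.mem_filter, Bool.and_eq_true, Bool.and_eq_true] at hn
      obtain ⟨hn, ⟨h1, h2⟩, h3⟩ := hn
      have he : k • (k⁻¹ • Cfsg.Lib.Golay.toSet n) = Cfsg.Lib.Golay.toSet n := smul_inv_smul _ _
      refine ⟨k⁻¹ • Cfsg.Lib.Golay.toSet n, ⟨?_, ?_, ?_⟩, ?_⟩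
      · rw [hmoveP, he]; exact ⟨(hinv n hn).2, ((hpq' n).2 h1).1, ((hpq' n).2 h1).2⟩
      · rw [hdisj, he, hS₀, Cfsg.Lib.Golay.card_inter_toSet, beq_iff_eq.1 h2]
        decide +kernel
      · rw [hmoveR, he, hR n (hinv n hn).1]
        revert h3
        cases neg <;> cases Cfsg.Lib.Golay.MarkedOrbits.inOct n <;> simp
      · rw [he, Cfsg.Lib.Golay.setNat_toSet (hinv n hn).1]
  refine ⟨?_, ?_, ?_⟩
  · have h := hcount false 30 (by simpa using Cfsg.Lib.Golay.MarkedOrbits.duad_counts.1)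
    simpa using h
  · have h := hcount true 160 (by simpa using Cfsg.Lib.Golay.MarkedOrbits.duad_counts.2)
    simpa using h
  · intro t t' ht ht' hne hne' hcard hiff
    have hL : ∀ t : Finset Cfsg.GolayPt, (t.card = 2 ∧ p ∉ t ∧ q ∉ t) → t ≠ {a, b} →
        Cfsg.Lib.Golay.setNat (k • t) ∈ Cfsg.Lib.Golay.MarkedOrbits.duadL := by
      intro t ht hne
      obtain ⟨hc, hP, hQ⟩ := (hmoveP t).1 ht
      rw [Cfsg.Lib.Golay.MarkedOrbits.duadL, List.mem_filter, Bool.and_eq_true, Bool.not_eq_true', beq_eq_false_iff_ne]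
      refine ⟨hmask _ hc, (hpq' _).1 (by rw [Cfsg.Lib.Golay.toSet_setNat]; exact ⟨hP, hQ⟩), fun h => hne ?_⟩
      refine MulAction.injective k ?_
      show k • t = k • {a, b}
      rw [hks, hS₀, ← h, Cfsg.Lib.Golay.toSet_setNat]
    obtain ⟨g, hg, hgS, hgp, hge⟩ := Cfsg.Lib.Golay.MarkedOrbits.conf_trans
      Cfsg.Lib.Golay.MarkedOrbits.duad_ok (hL t ht hne) (hL t' ht' hne') (by
        rw [Cfsg.Lib.Golay.MarkedOrbits.duadCls, Cfsg.Lib.Golay.MarkedOrbits.duadCls,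
          ← Cfsg.Lib.Golay.card_inter_toSet, ← Cfsg.Lib.Golay.card_inter_toSet, Cfsg.Lib.Golay.toSet_setNat,
          Cfsg.Lib.Golay.toSet_setNat, ← hS₀, Finset.inter_comm (k • t), Finset.inter_comm (k • t'), ← hks,
          ← Finset.smul_finset_inter, ← Finset.smul_finset_inter, Finset.card_smul_finset,
          Finset.card_smul_finset, hcard]
        refine congrArg (fun c => 2 * ((({a, b} : Finset Cfsg.GolayPt)) ∩ t').card + c) ?_
        have h := ((hmoveR t).symm.trans hiff).trans (hmoveR t')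
        rw [← Cfsg.Lib.Golay.toSet_setNat (k • t), ← Cfsg.Lib.Golay.toSet_setNat (k • t'),
          hR _ (Cfsg.Lib.Golay.setNat_lt _), hR _ (Cfsg.Lib.Golay.setNat_lt _)] at h
        exact if_congr h rfl rfl)
    rw [Cfsg.Lib.Golay.toSet_setNat, Cfsg.Lib.Golay.toSet_setNat] at hge
    refine ⟨k⁻¹ * g * k, Subgroup.mul_mem _ (Subgroup.mul_mem _ (Subgroup.inv_mem _ hkM) hg) hkM, ?_, ?_, ?_, ?_⟩
    · rw [Equiv.Perm.mul_apply, hkp, Equiv.Perm.mul_apply, hP₀, Cfsg.Lib.Golay.baseP,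
        hgp _ (by simp), ← Cfsg.Lib.Golay.baseP, ← hP₀, ← hkp, Equiv.Perm.coe_inv, Equiv.symm_apply_apply]
    · rw [Equiv.Perm.mul_apply, hkq, Equiv.Perm.mul_apply, hQ₀, Cfsg.Lib.Golay.baseP,
        hgp _ (by simp), ← Cfsg.Lib.Golay.baseP, ← hQ₀, ← hkq, Equiv.Perm.coe_inv, Equiv.symm_apply_apply]
    · rw [mul_smul, hks, mul_smul, hS₀, hgS, ← hS₀, ← hks, inv_smul_smul]
    · rw [mul_smul, mul_smul, hge, inv_smul_smul]

end Cfsg.Agent.S1638
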