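import Cfsg.Statements.S1639
import Cfsg.Agent.Lib.Golay.MarkedDod

set_option autoImplicit false
open scoped Pointwise
open Cfsg

namespace Cfsg.Agent.S1639

/-- The point stabiliser acts on the 1288 dodecads through the point with rank 4 and subdegrees 1, 165, 330, 792, distinguished by intersection 4, 8, 6 with the fixed dodecad. -/
theorem result (x : Cfsg.GolayPt) (d : Finset Cfsg.GolayPt) (hd : d ∈ Cfsg.dodecads) (hx : x ∈ d) : {d' : Finset Cfsg.GolayPt | d' ∈ Cfsg.dodecads ∧ x ∈ d' ∧ (d ∩ d').card = 4}.ncard = 165 ∧ {d' : Finset Cfsg.GolayPt | d' ∈ Cfsg.dodecads ∧ x ∈ d' ∧ (d ∩ d').card = 8}.ncard = 330 ∧ {d' : Finset Cfsg.GolayPt | d' ∈ Cfsg.dodecads ∧ x ∈ d' ∧ (d ∩ d').card = 6}.ncard = 792 ∧ ∀ d' d'' : Finset Cfsg.GolayPt, d' ∈ Cfsg.dodecads → d'' ∈ Cfsg.dodecads → x ∈ d' → x ∈ d'' → (d ∩ d').card = (d ∩ d'').card → ∃ g : Equiv.Perm Cfsg.GolayPt,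 g ∈ Cfsg.M24 ∧ g x = x ∧ g • d = d ∧ g • d' = d'' := by
  classical
  obtain ⟨τ, hτ, hτd⟩ := Cfsg.Lib.Golay.dodecad_transitive hd Cfsg.Lib.Golay.Chain.baseDod_mem
  have hτx : τ x ∈ Cfsg.Lib.Golay.toSet Cfsg.Lib.Golay.baseDod := by
    rw [← hτd]; exact Finset.smul_mem_smul_finset hx
  obtain ⟨σ, hσ, hσx⟩ := Cfsg.Lib.Golay.Chain.trans12 (k := 1) (by norm_num)
    ⟨fun _ => τ x, fun a b _ => Subsingleton.elim a b⟩
    ⟨fun _ => Cfsg.Lib.Golay.pt Cfsg.Lib.Golay.Chain.dodPt, fun a b _ => Subsingleton.elim a b⟩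
    (fun _ => hτx) (fun _ => Cfsg.Lib.Golay.Chain.dodPt_mem)
  set k := σ * τ with hk
  have hkM : k ∈ Cfsg.M24 := Subgroup.mul_mem _ hσ.1 hτ
  set D := Cfsg.Lib.Golay.toSet Cfsg.Lib.Golay.baseDod with hD
  set x₀ := Cfsg.Lib.Golay.pt Cfsg.Lib.Golay.Chain.dodPt with hx₀
  have hkd : k • d = D := by rw [hk, mul_smul, hτd]; exact hσ.2
  have hkx : k x = x₀ := hσx 0
  have hmove : ∀ d' : Finset Cfsg.GolayPt, (x ∈ d' ↔ x₀ ∈ k • d') ∧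
      (d ∩ d').card = (D ∩ k • d').card := fun d' => by
    refine ⟨?_, ?_⟩
    · rw [← hkx]; exact (Finset.smul_mem_smul_finset_iff (s := d') k).symm
    · rw [← hkd, ← Finset.smul_finset_inter, Finset.card_smul_finset]
  have hbit : ∀ n : ℕ, x₀ ∈ Cfsg.Lib.Golay.toSet n ↔ n.testBit Cfsg.Lib.Golay.Chain.dodPt = true :=
    fun n => by rw [Cfsg.Lib.Golay.mem_toSet, hx₀, Cfsg.Lib.Golay.idx_pt Cfsg.Lib.Golay.Chain.dodPt_lt]
  have hcount : ∀ (c m : ℕ), Cfsg.Lib.Golay.dodMasks.countP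
      (fun t => t.testBit Cfsg.Lib.Golay.Chain.dodPt && Cfsg.Lib.Golay.pop (Cfsg.Lib.Golay.baseDod &&& t) == c) = m →
      {d' : Finset Cfsg.GolayPt | d' ∈ Cfsg.dodecads ∧ x ∈ d' ∧ (d ∩ d').card = c}.ncard = m := by
    intro c m hm
    rw [← hm, ← Cfsg.Lib.Golay.ncard_dodecads_filter (fun s => x₀ ∈ s ∧ (D ∩ s).card = c) _ fun n _ => by
      rw [hbit, hD, Cfsg.Lib.Golay.card_inter_toSet, Bool.and_eq_true, beq_iff_eq]]
    refine Set.ncard_congr (fun s _ => k • s) (fun s hs => ⟨Cfsg.Lib.Golay.smul_mem_words hkM hs.1,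
      (hmove s).1.1 hs.2.1, (hmove s).2.symm.trans hs.2.2⟩) (fun a b _ _ e => MulAction.injective k e)
      fun s hs => ⟨k⁻¹ • s, ⟨Cfsg.Lib.Golay.smul_mem_words (Subgroup.inv_mem _ hkM) hs.1,
        (hmove _).1.2 (by rw [smul_inv_smul]; exact hs.2.1),
        (hmove _).2.trans (by rw [smul_inv_smul]; exact hs.2.2)⟩, smul_inv_smul k s⟩
  refine ⟨hcount 4 165 Cfsg.Lib.Golay.MarkedOrbits.dod_count_four,
    hcount 8 330 Cfsg.Lib.Golay.MarkedOrbits.dod_count_eight,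
    hcount 6 792 Cfsg.Lib.Golay.MarkedOrbits.dod_count_six, ?_⟩
  intro d' d'' hd' hd'' hx' hx'' hc
  have hmem : ∀ e ∈ Cfsg.dodecads, x ∈ e → ∃ m ∈ Cfsg.Lib.Golay.MarkedOrbits.dodL,
      Cfsg.Lib.Golay.toSet m = k • e ∧ Cfsg.Lib.Golay.MarkedOrbits.dodCls m = (d ∩ e).card := by
    intro e he hxe
    refine ⟨Cfsg.Lib.Golay.setNat (k • e), List.mem_filter.2
      ⟨(Cfsg.Lib.Golay.mem_dodecads_iff _).1 (Cfsg.Lib.Golay.smul_mem_words hkM he), ?_⟩,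
      Cfsg.Lib.Golay.toSet_setNat _, ?_⟩
    · exact (hbit _).1 (by rw [Cfsg.Lib.Golay.toSet_setNat]; exact (hmove e).1.1 hxe)
    · rw [(hmove e).2, Cfsg.Lib.Golay.MarkedOrbits.dodCls, ← Cfsg.Lib.Golay.card_inter_toSet,
        Cfsg.Lib.Golay.toSet_setNat, ← hD, Finset.inter_comm]
  obtain ⟨m, hm, hme, hmc⟩ := hmem d' hd' hx'
  obtain ⟨n, hn, hne, hnc⟩ := hmem d'' hd'' hx''
  obtain ⟨g, hg, hgD, hgp, hge⟩ := Cfsg.Lib.Golay.MarkedOrbits.conf_trans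
    Cfsg.Lib.Golay.MarkedOrbits.dod_ok hm hn (by rw [hmc, hnc, hc])
  refine ⟨k⁻¹ * g * k, Subgroup.mul_mem _ (Subgroup.mul_mem _ (Subgroup.inv_mem _ hkM) hg) hkM, ?_, ?_, ?_⟩
  · rw [Equiv.Perm.mul_apply, hkx, Equiv.Perm.mul_apply, hx₀, hgp _ (List.mem_singleton_self _), ← hx₀,
      ← hkx, Equiv.Perm.coe_inv, Equiv.symm_apply_apply]
  · rw [mul_smul, hkd, mul_smul, hD, hgD, ← hD, ← hkd, inv_smul_smul]
  · rw [mul_smul, ← hme, mul_smul, hge, hne, inv_smul_smul]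

end Cfsg.Agent.S1639
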