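import Mathlib
import Cfsg.Statements.S1640
import Cfsg.Agent.Lib.Leech.Tri.Triangles
-- import your own Cfsg.Agent.* helpers here

set_option autoImplicit false
open Cfsg

namespace Cfsg.Agent.S1640

/-- The stabiliser of a vector of customary norm 6 is transitive on the 11178 minimal vectors of customary inner product −2 with it. -/
theorem result (u : ↥Cfsg.leechLattice) (hu : Cfsg.sqNorm (u : Cfsg.GolayPt → ℤ) = 48) : {x : ↥Cfsg.leechLattice | Cfsg.sqNorm (x : Cfsg.GolayPt → ℤ) = 32 ∧ Cfsg.dotInt (u : Cfsg.GolayPt → ℤ) (x : Cfsg.GolayPt → ℤ) = -16}.ncard = 11178 ∧ ∀ x ∈ {x : ↥Cfsg.leechLattice | Cfsg.sqNorm (x : Cfsg.GolayPt → ℤ) = 32 ∧ Cfsg.dotInt (u : Cfsg.GolayPt → ℤ) (x : Cfsg.GolayPt → ℤ) = -16}, ∀ x' ∈ {x : ↥Cfsg.leechLattice | Cfsg.sqNorm (x : Cfsg.GolayPt → ℤ) = 32 ∧ Cfsg.dotInt (u : Cfsg.GolayPt → ℤ) (x : Cfsg.GolayPt → ℤ)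 = -16}, ∃ g : ↥Cfsg.Co0, g • u = u ∧ g • x = x' := by
  refine ⟨Cfsg.Lib.Leech.Tri.count_opposite hu, fun x hx x' hx' => ?_⟩
  open Cfsg.Lib.Leech Cfsg.Lib.Leech.Tri in
  have key : ∀ y : ↥Cfsg.leechLattice, nm y = 32 → dt u y = -16 → nm (-y) = 32 ∧ dt u (-y) = 16 :=
    fun y h1 h2 => ⟨by rw [nm_neg, h1], by rw [dt_neg, h2]; norm_num⟩
  obtain ⟨g, hgu, hgx⟩ := Cfsg.Lib.Leech.Tri.trans_vu hu (key x hx.1 hx.2).1 (key x hx.1 hx.2).2 hu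
    (key x' hx'.1 hx'.2).1 (key x' hx'.1 hx'.2).2
  rw [Cfsg.Lib.Leech.co0_neg] at hgx
  exact ⟨g, hgu, neg_injective hgx⟩

end Cfsg.Agent.S1640
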