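import Mathlib
import Cfsg.Statements.S1642
import Cfsg.Agent.Lib.Leech.Tri.Triangles
-- import your own Cfsg.Agent.* helpers here

set_option autoImplicit false
open Cfsg

namespace Cfsg.Agent.S1642

/-- Some involution of the Higman–Sims group acts without fixed points on its 100 points. -/
theorem result (v w : ↥Cfsg.leechLattice) (hv : Cfsg.sqNorm (v : Cfsg.GolayPt → ℤ) = 48) (hw : Cfsg.sqNorm (w : Cfsg.GolayPt → ℤ) = 48) (hvw : Cfsg.dotInt (v : Cfsg.GolayPt → ℤ) (w : Cfsg.GolayPt → ℤ) = -32) : ∃ g : ↥Cfsg.Co0, g • v = v ∧ g • w = w ∧ orderOf g = 2 ∧ ∀ x ∈ {x : ↥Cfsg.leechLattice | Cfsg.sqNorm (x : Cfsg.GolayPt → ℤ) = 32 ∧ Cfsg.dotInt (v : Cfsg.GolayPt → ℤ) (x : Cfsg.GolayPt → ℤ) = 24 ∧ Cfsg.dotInt (w : Cfsg.GolayPt → ℤ) (x : Cfsg.GolayPt → ℤ) = -24}, g • x ≠ x := by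
  open Cfsg.Lib.Leech Cfsg.Lib.Leech.Tri in
  have hn : nm (v + w) = 32 := by rw [nm_add]; simp only [nm, dt]; rw [hv, hw, hvw]; norm_num
  open Cfsg.Lib.Leech Cfsg.Lib.Leech.Tri in
  obtain ⟨g, hgv, hgu, ho, hfree⟩ := exists_free_involution (v := v) (u := v + w) hv hn
    (by rw [dt_add, dt_self]; simp only [nm, dt]; rw [hv, hvw]; norm_num)
  refine ⟨g, hgv, ?_, ho, fun x hx => hfree x hx.1 hx.2.1 ?_⟩
  · have := hgu
    rw [Cfsg.Lib.Leech.co0_add, hgv] at this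
    exact add_left_cancel this
  · rw [Cfsg.Lib.Leech.Tri.dt_comm, Cfsg.Lib.Leech.Tri.dt_add, Cfsg.Lib.Leech.Tri.dt_comm x v,
      Cfsg.Lib.Leech.Tri.dt_comm x w]
    show Cfsg.dotInt _ _ + Cfsg.dotInt _ _ = 0
    rw [hx.2.1, hx.2.2]; norm_num

end Cfsg.Agent.S1642
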