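import Cfsg.Statements.S1691
import Mathlib

set_option autoImplicit false
open Cfsg Cfsg.Spor

namespace Cfsg.Agent.S1691

/-- The commutator subgroup of the presented group Fi₂₄ has index 2 (the presented group is Fi₂₄′:2 with Fi₂₄′ its derived subgroup). -/
theorem result : (commutator Cfsg.Spor.Fi24).index = 2 := by
  classical
  let G := Cfsg.Spor.Fi24
  have hrel : ∀ x ∈ Cfsg.Spor.coxNodes Fi24.edges, ∀ y ∈ Cfsg.Spor.coxNodes Fi24.edges,
      ((PresentedGroup.of x : G) * PresentedGroup.of y) ^ Cfsg.Spor.coxLabel Fi24.edges x y = 1 := by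
    intro x hx y hy
    have := PresentedGroup.one_of_mem (rels := Cfsg.Spor.coxRelators Fi24.edges ∪ {r | r ∈ Fi24.extra})
      (x := (FreeGroup.of x * FreeGroup.of y) ^ Cfsg.Spor.coxLabel Fi24.edges x y)
      (Or.inl ⟨x, hx, y, hy, rfl⟩)
    rw [map_pow, map_mul] at this
    exact this
  let f : Fi24.Gen → Multiplicative (ZMod 2) := fun _ => Multiplicative.ofAdd 1
  have hf : ∀ r ∈ Cfsg.Spor.coxRelators Fi24.edges ∪ {r | r ∈ Fi24.extra}, FreeGroup.lift f r = 1 := by
    rintro r (⟨x, -, y, -, rfl⟩ | hr)
    · rw [map_pow, map_mul, FreeGroup.lift_apply_of, FreeGroup.lift_apply_of,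
        show f x * f y = 1 from by decide, one_pow]
    · simp only [Set.mem_ofPred_eq, Fi24.extra, List.mem_cons, List.not_mem_nil, or_false] at hr
      rcases hr with rfl | rfl <;>
        simp only [map_mul, map_pow, map_inv, Fi24.l, Fi24.k, Fi24.a, Fi24.b, Fi24.c, Fi24.d, Fi24.e,
          Fi24.f, Fi24.g, Fi24.h, Fi24.i, Fi24.j, FreeGroup.lift_apply_of, f] <;> decide
  let φ : G →* Multiplicative (ZMod 2) := PresentedGroup.toGroup hf
  let q : G →* Abelianization G := Abelianization.of
  have hq : ∀ x y : Fi24.Gen, Cfsg.Spor.coxLabel Fi24.edges x x = 1 → Cfsg.Spor.coxLabel Fi24.edges y y = 1 →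
      Cfsg.Spor.coxLabel Fi24.edges x y = 3 →
      x ∈ Cfsg.Spor.coxNodes Fi24.edges → y ∈ Cfsg.Spor.coxNodes Fi24.edges →
      q (PresentedGroup.of x) = q (PresentedGroup.of y) := by
    intro x y exx eyy exy hx hy
    have h1 := congrArg q (hrel x hx x hx)
    have h2 := congrArg q (hrel y hy y hy)
    have h3 := congrArg q (hrel x hx y hy)
    simp only [exx, eyy, exy, map_pow, map_mul, map_one, pow_one] at h1 h2 h3
    generalize q (PresentedGroup.of x) = a at *
    generalize q (PresentedGroup.of y) = b at *
    rw [mul_pow, pow_succ a 2, pow_succ b 2, sq, sq, h1, h2, one_mul, one_mul] at h3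
    rw [eq_inv_of_mul_eq_one_left h3]
    exact (eq_inv_of_mul_eq_one_left h2).symm
  have hall : ∀ x : Fi24.Gen, q (PresentedGroup.of x) = q (PresentedGroup.of Fi24.Gen.d) := by
    have e1 := hq .l .k (by decide) (by decide) (by decide) (by decide) (by decide)
    have e2 := hq .k .a (by decide) (by decide) (by decide) (by decide) (by decide)
    have e3 := hq .a .b (by decide) (by decide) (by decide) (by decide) (by decide)
    have e4 := hq .b .c (by decide) (by decide) (by decide) (by decide) (by decide)
    have e5 := hq .c .d (by decide) (by decide) (by decide) (by decide) (by decide)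
    have e6 := hq .d .e (by decide) (by decide) (by decide) (by decide) (by decide)
    have e7 := hq .d .h (by decide) (by decide) (by decide) (by decide) (by decide)
    have e8 := hq .e .f (by decide) (by decide) (by decide) (by decide) (by decide)
    have e9 := hq .f .g (by decide) (by decide) (by decide) (by decide) (by decide)
    have e10 := hq .g .j (by decide) (by decide) (by decide) (by decide) (by decide)
    have e11 := hq .h .i (by decide) (by decide) (by decide) (by decide) (by decide)
    intro x
    cases x <;> simp only [e1, e2, e3, e4, e5, ← e6, ← e7, ← e8, ← e9, ← e10, ← e11]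
  have hker : φ.ker = commutator G := by
    refine le_antisymm ?_ (Abelianization.commutator_subset_ker φ)
    have hsq : q (PresentedGroup.of Fi24.Gen.d) * q (PresentedGroup.of Fi24.Gen.d) = 1 := by
      have h1 := congrArg q (hrel .d (by decide) .d (by decide))
      simpa [show Cfsg.Spor.coxLabel Fi24.edges Fi24.Gen.d Fi24.Gen.d = 1 from by decide] using h1
    let ψ : Multiplicative (ZMod 2) →* Abelianization G :=
      { toFun := fun t => if t = 1 then 1 else q (PresentedGroup.of Fi24.Gen.d)
        map_one' := if_pos rfl
        map_mul' := by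
          have h2 : ∀ t : Multiplicative (ZMod 2), t = 1 ∨ t = Multiplicative.ofAdd 1 := by decide
          intro s t
          rcases h2 s with rfl | rfl <;> rcases h2 t with rfl | rfl
          · simp
          · simp
          · simp
          · rw [show (Multiplicative.ofAdd (1 : ZMod 2) * Multiplicative.ofAdd 1) = 1 from by decide,
              if_pos rfl, if_neg (show ¬ (Multiplicative.ofAdd (1 : ZMod 2) = 1) by decide), hsq] }
    have hcomp : ψ.comp φ = q := by
      refine PresentedGroup.ext fun x => ?_
      rw [MonoidHom.comp_apply, PresentedGroup.toGroup.of, hall x]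
      simp only [ψ, MonoidHom.coe_mk, OneHom.coe_mk, f]
      exact if_neg (show ¬ (Multiplicative.ofAdd (1 : ZMod 2) = 1) by decide)
    intro g hg
    rw [MonoidHom.mem_ker] at hg
    rw [← Abelianization.ker_of, MonoidHom.mem_ker]
    change q g = 1
    rw [← hcomp, MonoidHom.comp_apply, hg, map_one]
  have hsurj : Function.Surjective φ := by
    intro t
    have h2 : ∀ t : Multiplicative (ZMod 2), t = 1 ∨ t = Multiplicative.ofAdd 1 := by decide
    rcases h2 t with rfl | rfl
    · exact ⟨1, map_one φ⟩
    · exact ⟨PresentedGroup.of Fi24.Gen.d, PresentedGroup.toGroup.of _⟩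
  rw [← hker, Subgroup.index_ker, MonoidHom.range_eq_top.2 hsurj, Subgroup.card_top,
    Nat.card_eq_fintype_card, Fintype.card_multiplicative, ZMod.card]

end Cfsg.Agent.S1691
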