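import Cfsg.Statements.S1717
import Mathlib

set_option autoImplicit false
open Cfsg

namespace Cfsg.Agent.S1717

/-- Let G be a finite group with an involution z whose centraliser C is isomorphic to the centraliser of a transvection of SL(5, 2). Then a Sylow 2-subgroup of C, viewed in G, is a Sylow 2-subgroup of G (its index in G is odd). -/
theorem result {G : Type*} [Group G] [Finite G] (s : Matrix.SpecialLinearGroup (Fin 5) (ZMod 2)) (hs : (s : Matrix (Fin 5) (Fin 5) (ZMod 2)) = Matrix.transvection 0 1 1) (z : G) (hz : orderOf z = 2) (e : (Subgroup.centralizer ({z} : Set G)) ≃* Subgroup.centralizer ({s} : Set (Matrix.SpecialLinearGroup (Fin 5) (ZMod 2)))) (T : Sylow 2 (Subgroup.centralizer ({z} : Set G))) : ¬ 2 ∣ ((T : Subgroup (Subgroup.centralizer ({z} : Set G))).map (Subgroup.subtype (Subgroup.centralizer ({z} : Set G)))).index := by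
  classical
  let SL := Matrix.SpecialLinearGroup (Fin 5) (ZMod 2)
  let r : Fin 5 → ℕ := ![0, 4, 1, 2, 3]
  have h2 : (1 + 1 : ZMod 2) = 0 := by decide
  let tv : Fin 5 × Fin 5 → SL := fun p => if h : p.1 = p.2 then 1 else
    ⟨Matrix.transvection p.1 p.2 1, Matrix.det_transvection_of_ne p.1 p.2 h 1⟩
  have htv : ∀ i j, i ≠ j → (tv (i, j) : Matrix (Fin 5) (Fin 5) (ZMod 2)) = 1 + Matrix.single i j 1 := by
    intro i j h
    simp [tv, h, Matrix.transvection]
  have hcomm : ∀ (M : SL) i j, i ≠ j → M * tv (i, j) = tv (i, j) * M →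
      (M : Matrix (Fin 5) (Fin 5) (ZMod 2)) * Matrix.single i j 1 = Matrix.single i j 1 * M.1 := by
    intro M i j hij h
    have := congrArg Subtype.val h
    rw [Matrix.SpecialLinearGroup.coe_mul, Matrix.SpecialLinearGroup.coe_mul, htv i j hij, mul_add, add_mul,
      mul_one, one_mul] at this
    exact add_left_cancel this
  set C := Subgroup.centralizer ({s} : Set SL) with hC
  have htC : ∀ i j, r i < r j → tv (i, j) ∈ C := by
    intro i j h
    rw [hC, Subgroup.mem_centralizer_singleton_iff]
    refine Subtype.ext ?_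
    have hij : i ≠ j := fun e => by simp [e] at h
    rw [Matrix.SpecialLinearGroup.coe_mul, Matrix.SpecialLinearGroup.coe_mul, htv i j hij, hs,
      Matrix.transvection]
    simp only [mul_add, add_mul, one_mul, mul_one]
    rw [Matrix.single_mul_single_of_ne, Matrix.single_mul_single_of_ne]
    · abel
    · revert h; revert i j; decide
    · revert h; revert i j; decide
  let W : Subgroup C := Subgroup.closure {x | ∃ i j, r i < r j ∧ (x : SL) = tv (i, j)}
  let D : ℕ → Matrix (Fin 5) (Fin 5) (ZMod 2) → Prop := fun k N => ∀ i j, r j < r i + k → N i j = 0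
  have hD : ∀ a b M N, D a M → D b N → D (a + b) (M * N) := by
    intro a b M N hM hN i j h
    rw [Matrix.mul_apply]
    refine Finset.sum_eq_zero fun l _ => ?_
    by_cases hl : r l < r i + a
    · rw [hM i l hl, zero_mul]
    · rw [hN l j (by omega), mul_zero]
  have hW : ∀ x ∈ W, D 1 ((x : SL).1 - 1) := by
    intro x hx
    rw [← Subgroup.mem_toSubmonoid, Subgroup.closure_toSubmonoid_of_finite] at hx
    induction hx using Submonoid.closure_induction with
    | mem x hx =>
      obtain ⟨i, j, hij, hx⟩ := hx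
      have hne : i ≠ j := fun e => by simp [e] at hij
      rw [hx, htv i j hne, add_sub_cancel_left]
      intro a b hab
      rw [Matrix.single_apply, if_neg]
      rintro ⟨rfl, rfl⟩
      omega
    | one => intro a b _; simp
    | mul x y _ _ hx hy =>
      intro a b hab
      have e : ((x * y : C) : SL).1 - 1 =
          ((x : SL).1 - 1) * ((y : SL).1 - 1) + ((x : SL).1 - 1) + ((y : SL).1 - 1) := by
        rw [Subgroup.coe_mul, Matrix.SpecialLinearGroup.coe_mul]
        noncomm_ring
      rw [e, Matrix.add_apply, Matrix.add_apply, hD 1 1 _ _ hx hy a b (by omega), hx a b hab, hy a b hab]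
      simp
  have hW2 : IsPGroup 2 W := by
    rintro ⟨x, hx⟩
    refine ⟨3, Subtype.ext (Subtype.ext (Subtype.ext ?_))⟩
    have hN := hW x hx
    set N := (x : SL).1 - 1 with hNdef
    have h5 : N ^ 5 = 0 := by
      have h : ∀ k, 1 ≤ k → D k (N ^ k) := by
        intro k hk
        induction k, hk using Nat.le_induction with
        | base => simpa using hN
        | succ k _ ih => rw [pow_succ]; exact hD k 1 _ _ ih hN
      ext i j
      exact h 5 (by norm_num) i j (by revert i j; decide)
    have hM : (x : SL).1 = 1 + N := by rw [hNdef]; abel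
    have h88 : ((x : SL).1) ^ 8 = 1 := by
      haveI : CharP (Matrix (Fin 5) (Fin 5) (ZMod 2)) 2 := inferInstance
      rw [hM, show (8 : ℕ) = 2 ^ 3 from rfl, add_pow_char_pow_of_commute _ _ (Commute.one_left N),
        one_pow, show (2 : ℕ) ^ 3 = 5 + 3 from rfl, pow_add, h5, zero_mul, add_zero]
    simp only [SubmonoidClass.coe_pow, Subgroup.coe_pow, Matrix.SpecialLinearGroup.coe_pow,
      OneMemClass.coe_one, Matrix.SpecialLinearGroup.coe_one]
    exact h88
  have hcentW : ∀ M : C, (∀ w ∈ W, M * w = w * M) → (M : SL) = 1 ∨ (M : SL) = s := by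
    intro M hM
    have key : ∀ i j, r i < r j → (M : SL).1 * Matrix.single i j 1 = Matrix.single i j 1 * (M : SL).1 := by
      intro i j h
      refine hcomm _ i j (fun e => by simp [e] at h) ?_
      exact congrArg Subtype.val (hM ⟨tv (i, j), htC i j h⟩ (Subgroup.subset_closure ⟨i, j, h, rfl⟩))
    have k1 : ∀ i j a, r i < r j → a ≠ i → (M : SL).1 a i = 0 := by
      intro i j a h ha
      have := congrFun (congrFun (key i j h) a) j
      rwa [Matrix.mul_single_apply_same, Matrix.single_mul_apply_of_ne _ _ _ _ _ ha, mul_one] at this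
    have k2 : ∀ i j b, r i < r j → b ≠ j → (M : SL).1 j b = 0 := by
      intro i j b h hb
      have := congrFun (congrFun (key i j h) i) b
      rwa [Matrix.mul_single_apply_of_ne _ _ _ _ _ hb, Matrix.single_mul_apply_same, one_mul,
        eq_comm] at this
    have k3 : ∀ i j, r i < r j → (M : SL).1 i i = (M : SL).1 j j := by
      intro i j h
      have := congrFun (congrFun (key i j h) i) j
      rwa [Matrix.mul_single_apply_same, Matrix.single_mul_apply_same, mul_one, one_mul] at this
    have hoff : ∀ a b, a ≠ b → ¬(a = 0 ∧ b = 1) → (M : SL).1 a b = 0 := by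
      intro a b hab h01
      by_cases hb : b = 1
      · exact k2 0 a b (by subst hb; revert a; decide) (Ne.symm hab)
      · exact k1 b 1 a (by clear hab h01; revert b; decide) hab
    have hdiag : ∀ a, (M : SL).1 a a = (M : SL).1 0 0 := by
      intro a
      by_cases ha : a = 0
      · rw [ha]
      · exact (k3 0 a (by revert a; decide)).symm
    have htri : (M : SL).1.IsUpperTriangular := fun i j hij =>
      hoff i j (ne_of_gt hij) fun h => by
        rw [h.1, h.2] at hij
        exact absurd hij (by decide)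
    have h00 : (M : SL).1 0 0 = 1 := by
      have hdet := (M : SL).2
      rw [Matrix.det_of_isUpperTriangular htri] at hdet
      simp only [hdiag, Finset.prod_const, Finset.card_univ, Fintype.card_fin] at hdet
      revert hdet
      generalize (M : SL).1 0 0 = v
      revert v; decide
    have h01 : (M : SL).1 0 1 = 0 ∨ (M : SL).1 0 1 = 1 := by
      generalize (M : SL).1 0 1 = v; revert v; decide
    rcases h01 with h | h
    · left; refine Subtype.ext (Matrix.ext fun a b => ?_)
      by_cases hab : a = b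
      · subst hab; simp [hdiag, h00]
      · by_cases h' : a = 0 ∧ b = 1
        · simp [h'.1, h'.2, h]
        · simp [hoff a b hab h', hab]
    · right; refine Subtype.ext (Matrix.ext fun a b => ?_)
      rw [hs, Matrix.transvection, Matrix.add_apply]
      by_cases hab : a = b
      · subst hab
        rw [hdiag, h00, Matrix.one_apply_eq, Matrix.single_apply, if_neg, add_zero]
        rintro ⟨rfl, h'⟩; exact absurd h' (by decide)
      · by_cases h' : a = 0 ∧ b = 1
        · simp [h'.1, h'.2, h]
        · rw [hoff a b hab h', Matrix.one_apply_ne hab, Matrix.single_apply, if_neg, add_zero]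
          rintro ⟨rfl, rfl⟩; exact h' ⟨rfl, rfl⟩
  let H : Subgroup G := Subgroup.centralizer ({z} : Set G)
  have hH : H = Subgroup.centralizer ({z} : Set G) := rfl
  -- the centre of a Sylow 2-subgroup of `H` has at most two elements
  have hs' : ∀ c : C, c * ⟨s, by rw [hC, Subgroup.mem_centralizer_singleton_iff]⟩ =
      ⟨s, by rw [hC, Subgroup.mem_centralizer_singleton_iff]⟩ * c := fun c =>
    Subtype.ext (Subgroup.mem_centralizer_singleton_iff.1 c.2)
  have hcenter : ∀ x y : H, x ∈ (T : Subgroup H) → y ∈ (T : Subgroup H) → x ≠ 1 → y ≠ 1 →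
      (∀ t ∈ (T : Subgroup H), x * t = t * x) → (∀ t ∈ (T : Subgroup H), y * t = t * y) → x = y := by
    haveI : Fact (Nat.Prime 2) := ⟨Nat.prime_two⟩
    obtain ⟨S₀, hS₀⟩ := hW2.exists_le_sylow
    let T' : Sylow 2 C := T.mapSurjective (f := e.toMonoidHom) e.surjective
    obtain ⟨c, hc⟩ := MulAction.exists_smul_eq C S₀ T'
    have key : ∀ x : H, x ∈ (T : Subgroup H) → x ≠ 1 → (∀ t ∈ (T : Subgroup H), x * t = t * x) →
        ((c⁻¹ * e x * c : C) : SL) = s := by
      intro x hx hx1 hxc
      refine (hcentW _ fun w hw => ?_).resolve_left fun h => hx1 ?_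
      · have hw' : c * w * c⁻¹ ∈ (T' : Subgroup C) := by
          rw [← hc, Sylow.coe_subgroup_smul]
          exact ⟨w, hS₀ hw, by simp [MulAut.conj_apply]⟩
        change c * w * c⁻¹ ∈ (T : Subgroup H).map e.toMonoidHom at hw'
        obtain ⟨t, ht, hte⟩ := hw'
        have := congrArg e (hxc t ht)
        rw [map_mul, map_mul] at this
        change e t = _ at hte
        rw [hte] at this
        calc c⁻¹ * e x * c * w = c⁻¹ * (e x * (c * w * c⁻¹)) * c := by group
          _ = c⁻¹ * (c * w * c⁻¹ * e x) * c := by rw [this]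
          _ = w * (c⁻¹ * e x * c) := by group
      · have h' : c⁻¹ * e x * c = 1 := Subtype.ext h
        rw [mul_assoc, inv_mul_eq_one, eq_comm, mul_eq_right] at h'
        exact (map_eq_one_iff e e.injective).1 h'
    intro x y hx hy hx1 hy1 hxc hyc
    have := (key x hx hx1 hxc).trans (key y hy hy1 hyc).symm
    exact e.injective (mul_left_cancel (mul_right_cancel (Subtype.ext this)))
  intro hdvd
  haveI : Fact (Nat.Prime 2) := ⟨Nat.prime_two⟩
  set P := (T : Subgroup H).map H.subtype with hP
  obtain ⟨Q, hPQ⟩ := (T.2.map H.subtype : IsPGroup 2 P).exists_le_sylow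
  have hlt : P.subgroupOf Q < ⊤ := by
    refine lt_top_iff_ne_top.2 fun h => ?_
    rw [Subgroup.subgroupOf_eq_top] at h
    rw [le_antisymm (show P ≤ (Q : Subgroup G) from hPQ) h] at hdvd
    exact Q.not_dvd_index hdvd
  haveI := (Q.2).isNilpotent
  obtain ⟨g, hgN, hgP⟩ := SetLike.exists_of_lt (Group.normalizerCondition_of_isNilpotent _ hlt)
  rw [Subgroup.mem_normalizer_iff] at hgN
  rw [Subgroup.mem_subgroupOf] at hgP
  have hzH : z ∈ H := by rw [hH, Subgroup.mem_centralizer_singleton_iff]
  let zH : H := ⟨z, hzH⟩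
  have hzc : ∀ t : H, zH * t = t * zH := fun t =>
    Subtype.ext (Subgroup.mem_centralizer_singleton_iff.1 t.2).symm
  have hzT : zH ∈ (T : Subgroup H) := by
    have hz2 : IsPGroup 2 (Subgroup.zpowers zH) := IsPGroup.of_card (n := 1) (by
      rw [Nat.card_zpowers, ← Subgroup.orderOf_coe, hz, pow_one])
    haveI : (Subgroup.zpowers zH).Normal := ⟨fun n hn h => by
      obtain ⟨k, rfl⟩ := hn
      have : h * zH ^ k * h⁻¹ = zH ^ k := by
        rw [← (Commute.zpow_left (hzc h) k).eq, mul_inv_cancel_right]
      exact ⟨k, this.symm⟩⟩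
    have hsup := T.2.to_sup_of_normal_right hz2
    rw [← T.3 hsup le_sup_left]
    exact Subgroup.mem_sup_right (Subgroup.mem_zpowers _)
  have hz1 : zH ≠ 1 := fun h => by
    have : z = 1 := congrArg Subtype.val h
    rw [this] at hz; simp at hz
  have hzP : z ∈ P := ⟨zH, hzT, rfl⟩
  have hgz : (g : G) * z * (g : G)⁻¹ ∈ P := by
    have := (hgN ⟨z, hPQ hzP⟩).1 (by rw [Subgroup.mem_subgroupOf]; exact hzP)
    rw [Subgroup.mem_subgroupOf] at this
    simpa using this
  obtain ⟨y, hyT, hy⟩ := hgz
  have hyc : ∀ t ∈ (T : Subgroup H), y * t = t * y := by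
    intro t ht
    have htP : (t : G) ∈ P := ⟨t, ht, rfl⟩
    have := (hgN ⟨(g : G)⁻¹ * t * g, ?_⟩).2 ?_
    · rw [Subgroup.mem_subgroupOf] at this
      obtain ⟨u, hu, hu'⟩ := this
      refine Subtype.ext ?_
      change (y : G) * t = t * y
      have hu'' : (u : G) = (g : G)⁻¹ * t * g := hu'
      have hzu := congrArg Subtype.val (hzc u)
      change z * (u : G) = (u : G) * z at hzu
      rw [hu''] at hzu
      change (y : G) = _ at hy
      rw [hy]
      calc (g : G) * z * (g : G)⁻¹ * t = g * (z * ((g : G)⁻¹ * t * g)) * (g : G)⁻¹ := by group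
        _ = g * (((g : G)⁻¹ * t * g) * z) * (g : G)⁻¹ := by rw [hzu]
        _ = t * (g * z * (g : G)⁻¹) := by group
    · exact mul_mem (mul_mem (inv_mem g.2) (hPQ htP)) g.2
    · rw [Subgroup.mem_subgroupOf]
      simpa [mul_assoc] using htP
  have hy1 : y ≠ 1 := fun h => by
    rw [h, map_one] at hy
    have hz1' : z = 1 := conj_eq_one_iff.1 hy.symm
    rw [hz1'] at hz
    simp at hz
  have hyz := hcenter y zH hyT hzT hy1 hz1 hyc fun t _ => hzc t
  have hgH : (g : G) ∈ H := by
    rw [hH, Subgroup.mem_centralizer_singleton_iff]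
    change (y : G) = _ at hy
    rw [hyz] at hy
    exact (eq_mul_inv_iff_mul_eq.1 hy).symm
  have hle : (T : Subgroup H) ≤ (Q : Subgroup G).subgroupOf H := fun t ht => hPQ ⟨t, ht, rfl⟩
  have hQH : IsPGroup 2 ((Q : Subgroup G).subgroupOf H) := Q.2.comap_subtype
  have := T.3 hQH hle
  refine hgP ⟨⟨g, hgH⟩, ?_, rfl⟩
  rw [← this]
  exact g.2

end Cfsg.Agent.S1717
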