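import Cfsg.Statements.S1753
import Mathlib
-- import your own Cfsg.Agent.* helpers here

set_option autoImplicit false
universe u
open Cfsg

namespace Cfsg.Agent.S1753

/-- Let K be any property of groups. (1) If G is a minimal counterexample relative to K — a finite non-abelian simple group not satisfying K such that every finite non-abelian simple group of smaller order satisfies K — then every proper subgroup of G is a K-group (all its non-abelian simple sections satisfy K), since such sections have smaller order than G. (2) Consequently (induction on the order), if every finite non-abelian simple group all of whose proper subgroups are K-groups satisfies K, then every finite non-abelian simple group satisfies K. -/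
theorem result (K : ∀ (X : Type u) [Group X], Prop) :
    (∀ (G : Type u) [Group G], Cfsg.IsMinCounterexampleWith K G → Cfsg.IsKProperWith K G) ∧
      ((∀ (X : Type u) [Group X] [Finite X], IsSimpleGroup X → ¬ IsMulCommutative X → Cfsg.IsKProperWith K X → K X) →
        ∀ (G : Type u) [Group G] [Finite G], IsSimpleGroup G → ¬ IsMulCommutative G → K G) := by
  have key : ∀ (G : Type u) [Group G] [Finite G],
      (∀ (X : Type u) [Group X] [Finite X],
        IsSimpleGroup X → ¬ IsMulCommutative X → Nat.card X < Nat.card G → K X) →
      Cfsg.IsKProperWith K G := by
    intro G _ _ h H hH L N _ hs hc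
    have h1 : Nat.card (↥L ⧸ N) ≤ Nat.card ↥H :=
      (Nat.card_le_card_of_surjective _ (QuotientGroup.mk'_surjective N)).trans
        (Subgroup.card_le_card_group L)
    have h2 : Nat.card ↥H < Nat.card G :=
      lt_of_le_of_ne (Subgroup.card_le_card_group H) fun e => hH (Subgroup.eq_top_of_card_eq H e)
    exact h _ hs hc (lt_of_le_of_lt h1 h2)
  refine ⟨fun G _ hG => ?_, fun hyp => ?_⟩
  · obtain ⟨hfin, -, -, -, hmin⟩ := hG
    exact key G hmin
  · suffices hn : ∀ (n : ℕ) (G : Type u) [Group G] [Finite G],
        Nat.card G = n → IsSimpleGroup G → ¬ IsMulCommutative G → K G from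
      fun G _ _ hs hc => hn _ G rfl hs hc
    intro n
    induction n using Nat.strong_induction_on with
    | _ n ih =>
      intro G _ _ hcard hs hc
      exact hyp G hs hc (key G fun X _ _ hXs hXc hlt => ih _ (hcard ▸ hlt) X rfl hXs hXc)

end Cfsg.Agent.S1753
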