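import Cfsg.Statements.S1754
import Mathlib
import Cfsg.Agent.Lib.Comp.Quasisimple
-- import your own Cfsg.Agent.* helpers here

set_option autoImplicit false
open Cfsg

namespace Cfsg.Agent.S1754

/-- Let A be a standard subgroup of the finite group G (A quasisimple, C_G(A) tightly embedded of even order, A commuting elementwise with no other conjugate of itself, and N_G(A) = N_G(C_G(A))), and let t be an involution of G centralizing A. Then the centralizer of t lies in the normalizer of A; in particular A, viewed inside C_G(t), is a component of C_G(t). -/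
theorem result {G : Type*} [Group G] [Finite G]
    (A : Subgroup G) (hA : Cfsg.IsStandardSubgroup A) (t : G) (ht : orderOf t = 2) (htA : t ∈ Subgroup.centralizer (A : Set G)) :
    Subgroup.centralizer ({t} : Set G) ≤ Subgroup.normalizer (A : Set G) ∧
      Cfsg.IsComponent (A.subgroupOf (Subgroup.centralizer ({t} : Set G))) := by
  obtain ⟨hq, ⟨-, htight⟩, -, hN⟩ := hA
  have hle : Subgroup.centralizer ({t} : Set G) ≤ Subgroup.normalizer (A : Set G) := by
    intro g hg
    rw [hN]
    by_contra hgN
    have h := htight g hgN
    have hgt : g * t * g⁻¹ = t := by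
      rw [← Subgroup.mem_centralizer_iff.1 hg t rfl, mul_inv_cancel_right]
    have hmem : t ∈ Subgroup.centralizer (A : Set G) ⊓
        (Subgroup.centralizer (A : Set G)).map (MulAut.conj g).toMonoidHom := ⟨htA, t, htA, hgt⟩
    have hd := orderOf_dvd_natCard (⟨t, hmem⟩ : ↥(Subgroup.centralizer (A : Set G) ⊓
        (Subgroup.centralizer (A : Set G)).map (MulAut.conj g).toMonoidHom))
    rw [← Subgroup.orderOf_coe, ht] at hd
    exact Nat.not_even_iff_odd.2 h (even_iff_two_dvd.2 hd)
  have hAC : A ≤ Subgroup.centralizer ({t} : Set G) := fun a ha =>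
    Subgroup.mem_centralizer_iff.2 fun y hy => by
      rw [Set.mem_singleton_iff.1 hy]; exact (Subgroup.mem_centralizer_iff.1 htA a ha).symm
  refine ⟨hle, Subgroup.Normal.isSubnormal ?_,
    (Cfsg.Lib.Comp.isQuasisimple_congr (Subgroup.subgroupOfEquivOfLe hAC)).2 hq⟩
  exact Subgroup.normal_subgroupOf_of_le_normalizer hle

end Cfsg.Agent.S1754
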