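import Cfsg.Statements.S1756
import Mathlib
import Cfsg.Agent.Lib.Solv.PGroupBasic
import Cfsg.Agent.Lib.Invol.Dihedral
-- import your own Cfsg.Agent.* helpers here

set_option autoImplicit false
open Cfsg

namespace Cfsg.Agent.S1756

/-- Let Q be an extraspecial 2-subgroup of the finite group G (special with centre of order 2) and t an involution of G normalizing Q such that the centralizer of t in Q has index at most 2 in Q. Then t lies in the product of Q with the centralizer of Q. -/
theorem result {G : Type*} [Group G] [Finite G] (Q : Subgroup G)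
    (hQ : Cfsg.IsExtraspecial 2 ↥Q) (t : G) (ht : orderOf t = 2) (htN : t ∈ Subgroup.normalizer (Q : Set G))
    (hi : (Subgroup.centralizer ({t} : Set G) ⊓ Q).relIndex Q ≤ 2) :
    t ∈ Q ⊔ Subgroup.centralizer (Q : Set G) := by
  classical
  have : Fact (Nat.Prime 2) := ⟨Nat.prime_two⟩
  obtain ⟨⟨hQp, hΦ, hder⟩, hZc⟩ := hQ
  set C := Subgroup.centralizer ({t} : Set G) ⊓ Q with hC
  by_cases hall : Q ≤ Subgroup.centralizer ({t} : Set G)
  · exact Subgroup.mem_sup_right (Subgroup.mem_centralizer_iff.2 fun q hq =>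
      Subgroup.mem_centralizer_singleton_iff.1 (hall hq))
  have hrel : C.relIndex Q = 2 := by
    have h0 : C.relIndex Q ≠ 0 := Subgroup.index_ne_zero_of_finite (H := C.subgroupOf Q)
    have h1 : C.relIndex Q ≠ 1 := fun h => hall ((Subgroup.relIndex_eq_one.1 h).trans inf_le_left)
    omega
  set M := C.subgroupOf Q with hM
  have hMi : M.index = 2 := hrel
  haveI := Subgroup.normal_of_index_eq_two hMi
  set Z := Subgroup.center ↥Q with hZ
  have hMco : IsCoatom M := by
    refine ⟨fun e => by rw [e, Subgroup.index_top] at hMi; omega, fun K hK => ?_⟩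
    have hd := Subgroup.index_dvd_of_le hK.le
    rw [hMi] at hd
    rcases (Nat.dvd_prime Nat.prime_two).1 hd with h | h
    · exact Subgroup.index_eq_one.1 h
    · exfalso
      have := Subgroup.relIndex_mul_index hK.le
      rw [hMi, h] at this
      exact hK.not_ge (Subgroup.relIndex_eq_one.1 (Nat.eq_of_mul_eq_mul_right two_pos (by omega)))
  have hZM : Z ≤ M := fun w hw => by
    rw [← hΦ] at hw
    exact Cfsg.Lib.Solv.mem_frattini_iff.1 hw M hMco
  have hsqZ : ∀ q : ↥Q, q * q ∈ Z := fun q => by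
    rw [← hΦ, ← sq]; exact Cfsg.Lib.Solv.pow_mem_frattini hQp q
  have hcomZ : ∀ q r : ↥Q, q * r * q⁻¹ * r⁻¹ ∈ Z := fun q r => by
    rw [← hder, commutator_def, ← commutatorElement_def]
    exact Subgroup.commutator_mem_commutator (Subgroup.mem_top q) (Subgroup.mem_top r)
  have hZz : ∀ a ∈ Z, ∀ b ∈ Z, a ≠ 1 → b ≠ 1 → a = b := by
    intro a ha b hb ha1 hb1
    by_contra hab
    have h3 : ({⟨1, one_mem _⟩, ⟨a, ha⟩, ⟨b, hb⟩} : Finset ↥Z).card ≤ Nat.card ↥Z := by
      have := Fintype.ofFinite ↥Z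
      rw [Nat.card_eq_fintype_card]
      exact Finset.card_le_univ _
    rw [hZc, Finset.card_insert_of_notMem (by simp [Ne.symm ha1, Ne.symm hb1]),
      Finset.card_insert_of_notMem (by simp [hab]), Finset.card_singleton] at h3
    omega
  -- centralizers of subgroups over the centre are large
  have hbig : ∀ K : Subgroup ↥Q, Z ≤ K →
      Nat.card ↥Q * 2 ≤ Nat.card ↥K * Nat.card ↥(Subgroup.centralizer (K : Set ↥Q)) := by
    intro K
    induction hn : Nat.card ↥K using Nat.strong_induction_on generalizing K with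
    | _ n ih =>
    subst hn
    intro hZK
    by_cases hKZ : K ≤ Z
    · rw [le_antisymm hKZ hZK, hZc, show Subgroup.centralizer ((Z : Subgroup ↥Q) : Set ↥Q) = ⊤ from
        eq_top_iff.2 fun q _ => Subgroup.mem_centralizer_iff.2 fun w hw =>
          (Subgroup.mem_center_iff.1 hw q).symm, Subgroup.card_top, mul_comm]
    obtain ⟨y, hyK, hyZ⟩ := SetLike.not_le_iff_exists.1 hKZ
    -- a maximal subgroup of `K` over `Z` missing some element
    have hlt : Z.subgroupOf K < ⊤ := lt_top_iff_ne_top.2 fun e =>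
      hyZ (Subgroup.subgroupOf_eq_top.1 e hyK)
    obtain ⟨L, hL, hZL⟩ := (eq_top_or_exists_le_coatom (Z.subgroupOf K)).resolve_left hlt.ne
    obtain ⟨x, hx⟩ : ∃ x : ↥K, x ∉ L := by
      by_contra h
      push Not at h
      exact hL.1 (eq_top_iff.2 fun x _ => h x)
    set K' := L.map K.subtype with hK'
    have hLi : L.index = 2 := Cfsg.Lib.Solv.coatom_index_eq_prime (hQp.to_subgroup K) hL
    have hcard : 2 * Nat.card ↥K' = Nat.card ↥K := by
      rw [hK', Subgroup.card_map_of_injective K.subtype_injective, ← hLi, Subgroup.index_mul_card]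
    have hZK' : Z ≤ K' := fun w hw =>
      ⟨⟨w, hZK hw⟩, hZL (Subgroup.mem_subgroupOf.2 hw), rfl⟩
    have hpos : 0 < Nat.card ↥K' := Nat.card_pos
    have hi := ih _ (by omega) K' rfl hZK'
    -- the centralizer drops by at most a factor 2
    set C' := Subgroup.centralizer (K' : Set ↥Q)
    have hsup : ∀ w ∈ C', Commute w (x : ↥Q) → w ∈ Subgroup.centralizer (K : Set ↥Q) := by
      intro w hw hwx
      rw [Subgroup.mem_centralizer_iff]
      intro k hk
      rcases Classical.em ((⟨k, hk⟩ : ↥K) ∈ L) with h | h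
      · exact Subgroup.mem_centralizer_iff.1 hw k ⟨⟨k, hk⟩, h, rfl⟩
      · have h2 : (⟨k, hk⟩ : ↥K) * x ∈ L :=
          (Subgroup.mul_mem_iff_of_index_two hLi).2 (iff_of_false h hx)
        have h3 : Commute (k * (x : ↥Q)) w := Subgroup.mem_centralizer_iff.1 hw _ ⟨_, h2, rfl⟩
        have h4 := h3.mul_left hwx.symm.inv_left
        rwa [mul_inv_cancel_right] at h4
    have hle : Nat.card ↥C' ≤ 2 * Nat.card ↥(Subgroup.centralizer (K : Set ↥Q)) := by
      rcases Classical.em (∀ w ∈ C', Commute w (x : ↥Q)) with h | h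
      · have := Nat.le_of_dvd Nat.card_pos (Subgroup.card_dvd_of_le
          (fun w hw => hsup w hw (h w hw) : C' ≤ Subgroup.centralizer (K : Set ↥Q)))
        omega
      push Not at h
      obtain ⟨w₀, hw₀, hw₀x⟩ := h
      have hne : ∀ {w : ↥Q}, ¬ Commute w (x : ↥Q) → w * x * w⁻¹ * (x : ↥Q)⁻¹ ≠ 1 := fun hw e =>
        hw (mul_inv_eq_iff_eq_mul.1 (mul_inv_eq_one.1 e))
      set D := Subgroup.centralizer (K : Set ↥Q)
      let f : ↥C' → ↥D × Bool := fun w =>
        if h : Commute (w : ↥Q) (x : ↥Q) then (⟨w, hsup w w.2 h⟩, true)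
        else (⟨w₀⁻¹ * w, hsup _ (mul_mem (inv_mem hw₀) w.2) (by
          have e1 := hZz _ (hcomZ w x) _ (hcomZ w₀ x) (hne h) (hne hw₀x)
          have e2 : (w : ↥Q) * x * (w : ↥Q)⁻¹ = w₀ * x * w₀⁻¹ := mul_right_cancel e1
          refine mul_inv_eq_iff_eq_mul.1 ?_
          calc w₀⁻¹ * (w : ↥Q) * x * (w₀⁻¹ * (w : ↥Q))⁻¹
              = w₀⁻¹ * ((w : ↥Q) * x * (w : ↥Q)⁻¹) * w₀ := by group
            _ = w₀⁻¹ * (w₀ * x * w₀⁻¹) * w₀ := by rw [e2]
            _ = x := by group)⟩, false)
      have hf : Function.Injective f := by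
        intro a b hab
        simp only [f] at hab
        by_cases ha : Commute (a : ↥Q) (x : ↥Q) <;> by_cases hb : Commute (b : ↥Q) (x : ↥Q) <;>
          simp [ha, hb] at hab ⊢ <;> exact hab
      have := Nat.card_le_card_of_injective f hf
      rwa [Nat.card_prod, Nat.card_eq_fintype_card (α := Bool), Fintype.card_bool, mul_comm] at this
    calc Nat.card ↥Q * 2 ≤ Nat.card ↥K' * Nat.card ↥C' := hi
      _ ≤ Nat.card ↥K' * (2 * Nat.card ↥(Subgroup.centralizer (K : Set ↥Q))) :=
        Nat.mul_le_mul_left _ hle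
      _ = _ := by rw [← hcard]; ring
  -- an element `x ∈ M ∖ Z` centralizing `M`
  obtain ⟨x, hxC, hxZ⟩ : ∃ x, x ∈ Subgroup.centralizer (M : Set ↥Q) ∧ x ∉ Z := by
    by_contra h
    push Not at h
    have h1 := hbig M hZM
    have h2 := Nat.le_of_dvd Nat.card_pos (Subgroup.card_dvd_of_le
      (h : Subgroup.centralizer (M : Set ↥Q) ≤ Z))
    rw [hZc] at h2
    rw [← Subgroup.index_mul_card M, hMi] at h1
    have := Nat.card_pos (α := ↥M)
    nlinarith
  have hxM : x ∈ M := by
    by_contra hxM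
    refine hxZ (Subgroup.mem_center_iff.2 fun q => ?_)
    rcases Classical.em (q ∈ M) with h | h
    · exact Subgroup.mem_centralizer_iff.1 hxC q h
    · have h2 : q * x ∈ M := (Subgroup.mul_mem_iff_of_index_two hMi).2 (iff_of_false h hxM)
      have h3 : Commute (q * x) x := Subgroup.mem_centralizer_iff.1 hxC _ h2
      have h4 := h3.mul_left (Commute.refl x).inv_left
      rwa [mul_inv_cancel_right] at h4
  -- the action of `t`
  obtain ⟨q, hq⟩ : ∃ q : ↥Q, q ∉ M := by
    by_contra h
    push Not at h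
    exact hall fun q hq => (Subgroup.mem_subgroupOf.1 (h ⟨q, hq⟩)).1
  have hfix : ∀ m ∈ M, t * (m : G) * t⁻¹ = (m : G) := fun m hm => by
    rw [← Subgroup.mem_centralizer_singleton_iff.1 (Subgroup.mem_subgroupOf.1 hm).1,
      mul_inv_cancel_right]
  set c : ↥Q := q⁻¹ * ⟨t * q * t⁻¹, (Subgroup.mem_normalizer_iff.1 htN _).1 q.2⟩ with hc
  have hceq : (c : G) = (q : G)⁻¹ * (t * q * t⁻¹) := rfl
  have hcM' : c ∈ Subgroup.centralizer (M : Set ↥Q) := by
    refine Subgroup.mem_centralizer_iff.2 fun m hm => Subtype.ext ?_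
    have h2 : t * ((q * m * q⁻¹ : ↥Q) : G) * t⁻¹ = ((q * m * q⁻¹ : ↥Q) : G) :=
      hfix _ (Subgroup.Normal.conj_mem inferInstance m hm q)
    push_cast at h2
    show (m : G) * (c : G) = (c : G) * (m : G)
    have h3 : (t * q * t⁻¹) * (m : G) * (t * q * t⁻¹)⁻¹ = q * m * (q : G)⁻¹ := by
      calc (t * q * t⁻¹) * (m : G) * (t * q * t⁻¹)⁻¹
          = (t * q * t⁻¹) * (t * m * t⁻¹) * (t * q * t⁻¹)⁻¹ := by rw [hfix m hm]
        _ = t * (q * m * (q : G)⁻¹) * t⁻¹ := by group
        _ = _ := h2
    rw [hceq]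
    calc (m : G) * ((q : G)⁻¹ * (t * q * t⁻¹))
        = (q : G)⁻¹ * (q * m * (q : G)⁻¹) * (t * q * t⁻¹) := by group
      _ = _ := by rw [← h3]; group
  have hcM : c ∈ M := by
    by_contra hcM
    refine hxZ (Subgroup.mem_center_iff.2 fun r => ?_)
    rcases Classical.em (r ∈ M) with h | h
    · exact Subgroup.mem_centralizer_iff.1 hxC r h
    · have h2 : r * c ∈ M := (Subgroup.mul_mem_iff_of_index_two hMi).2 (iff_of_false h hcM)
      have h3 : Commute c x := (Subgroup.mem_centralizer_iff.1 hcM' x hxM).symm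
      have h4 : Commute (r * c) x := Subgroup.mem_centralizer_iff.1 hxC _ h2
      have h5 := h4.mul_left h3.inv_left
      rwa [mul_inv_cancel_right] at h5
  have htt : t * t = 1 := Cfsg.Lib.Invol.mul_self_of_orderTwo ht
  have hcc : c * c = 1 := by
    refine Subtype.ext ?_
    show (c : G) * (c : G) = 1
    calc (c : G) * (c : G) = (c : G) * (t * (c : G) * t⁻¹) := by rw [hfix c hcM]
      _ = (q : G)⁻¹ * ((t * t) * (q : G) * (t * t)⁻¹) := by rw [hceq]; group
      _ = 1 := by rw [htt]; group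
  have hcZ : c ∈ Z := by
    refine Subgroup.mem_center_iff.2 fun r => ?_
    have hqc : Commute q c := by
      have h1 : t * ((q * q : ↥Q) : G) * t⁻¹ = ((q * q : ↥Q) : G) := hfix _ (hZM (hsqZ q))
      have h2 : (q * c) * (q * c) = q * q := by
        refine Subtype.ext ?_
        push_cast at h1 ⊢
        rw [hceq]
        calc (q : G) * ((q : G)⁻¹ * (t * q * t⁻¹)) * ((q : G) * ((q : G)⁻¹ * (t * q * t⁻¹)))
            = t * ((q : G) * q) * t⁻¹ := by group
          _ = _ := h1
      have h3 : c * q * c = q := by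
        calc c * q * c = q⁻¹ * ((q * c) * (q * c)) := by group
          _ = q := by rw [h2]; group
      show q * c = c * q
      calc q * c = c * q * c * c := by rw [h3]
        _ = c * q * (c * c) := mul_assoc _ _ _
        _ = c * q := by rw [hcc, mul_one]
    rcases Classical.em (r ∈ M) with h | h
    · exact Subgroup.mem_centralizer_iff.1 hcM' r h
    · have h2 : r * q ∈ M := (Subgroup.mul_mem_iff_of_index_two hMi).2 (iff_of_false h hq)
      have h4 : Commute (r * q) c := Subgroup.mem_centralizer_iff.1 hcM' _ h2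
      have h5 := h4.mul_left hqc.inv_left
      rwa [mul_inv_cancel_right] at h5
  have hext : ∀ y : ↥Q, (∀ m ∈ M, (y : G) * (m : G) = (m : G) * (y : G)) →
      (y : G) * (q : G) * (y : G)⁻¹ = t * (q : G) * t⁻¹ →
      t ∈ Q ⊔ Subgroup.centralizer (Q : Set G) := by
    intro y hym hyq
    have hu : (y : G)⁻¹ * t ∈ Subgroup.centralizer (Q : Set G) := by
      refine Subgroup.mem_centralizer_iff.2 fun r hr => ?_
      have hm : ∀ m ∈ M, Commute ((y : G)⁻¹ * t) (m : G) := fun m hm =>
        (show Commute (y : G) (m : G) from hym m hm).inv_left.mul_left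
          (mul_inv_eq_iff_eq_mul.1 (hfix m hm))
      have hqq : Commute ((y : G)⁻¹ * t) (q : G) := by
        refine mul_inv_eq_iff_eq_mul.1 ?_
        calc (y : G)⁻¹ * t * (q : G) * ((y : G)⁻¹ * t)⁻¹
            = (y : G)⁻¹ * (t * q * t⁻¹) * (y : G) := by group
          _ = (q : G) := by rw [← hyq]; group
      rcases Classical.em ((⟨r, hr⟩ : ↥Q) ∈ M) with h | h
      · exact (hm _ h).eq.symm
      · have h2 : (⟨r, hr⟩ : ↥Q) * q ∈ M :=
          (Subgroup.mul_mem_iff_of_index_two hMi).2 (iff_of_false h hq)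
        have h3 := (hm _ h2).mul_right hqq.inv_right
        rw [show ((⟨r, hr⟩ * q : ↥Q) : G) * (q : G)⁻¹ = r from mul_inv_cancel_right r (q : G)] at h3
        exact h3.eq.symm
    have := mul_mem (Subgroup.mem_sup_left (T := Subgroup.centralizer (Q : Set G)) y.2)
      (Subgroup.mem_sup_right hu)
    rwa [mul_inv_cancel_left] at this
  by_cases hc1 : c = 1
  · refine hext 1 (fun m _ => by simp) ?_
    have h1 : (c : G) = 1 := by rw [hc1]; rfl
    rw [hceq, inv_mul_eq_one] at h1
    simpa using h1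
  · -- conjugation by `x`
    have hxq : ¬ Commute x q := by
      intro hxq
      refine hxZ (Subgroup.mem_center_iff.2 fun r => ?_)
      rcases Classical.em (r ∈ M) with h | h
      · exact Subgroup.mem_centralizer_iff.1 hxC r h
      · have h2 : r * q ∈ M := (Subgroup.mul_mem_iff_of_index_two hMi).2 (iff_of_false h hq)
        have h4 : Commute (r * q) x := Subgroup.mem_centralizer_iff.1 hxC _ h2
        have h5 := h4.mul_left hxq.symm.inv_left
        rwa [mul_inv_cancel_right] at h5
    have hw : q⁻¹ * (x * q * x⁻¹) = c := by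
      refine hZz _ ?_ c hcZ ?_ hc1
      · have := hcomZ q⁻¹ x
        rwa [inv_inv, show q⁻¹ * x * q * x⁻¹ = q⁻¹ * (x * q * x⁻¹) by group] at this
      · intro e
        exact hxq (mul_inv_eq_iff_eq_mul.1 (inv_mul_eq_one.1 e).symm)
    refine hext x (fun m hm => congrArg Subtype.val (Subgroup.mem_centralizer_iff.1 hxC m hm).symm) ?_
    have h1 := congrArg Subtype.val hw
    push_cast at h1
    rw [hceq] at h1
    exact mul_left_cancel h1

end Cfsg.Agent.S1756
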