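import Cfsg.Statements.S1757
import Mathlib
-- import your own Cfsg.Agent.* helpers here

set_option autoImplicit false
open Cfsg

namespace Cfsg.Agent.S1757

/-- Let p be a prime and A, B p-subgroups of the finite group G, each of which meets every conjugate of itself other than itself trivially. Suppose the order of A is at most that of B, A and B intersect trivially, and B normalizes A. Then A and B commute elementwise. -/
theorem result {G : Type*} [Group G] [Finite G] (p : ℕ) [Fact p.Prime] (A B : Subgroup G)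
    (hA : IsPGroup p ↥A) (hB : IsPGroup p ↥B)
    (hAti : ∀ g : G, A.map (MulAut.conj g).toMonoidHom = A ∨ A.map (MulAut.conj g).toMonoidHom ⊓ A = ⊥)
    (hBti : ∀ g : G, B.map (MulAut.conj g).toMonoidHom = B ∨ B.map (MulAut.conj g).toMonoidHom ⊓ B = ⊥)
    (hle : Nat.card ↥A ≤ Nat.card ↥B) (hAB : A ⊓ B = ⊥) (hN : B ≤ Subgroup.normalizer (A : Set G)) : ⁅A, B⁆ = ⊥ := by
  rw [Subgroup.commutator_eq_bot_iff_le_centralizer]
  intro a ha
  by_contra hcon
  have ha1 : a ≠ 1 := fun h => hcon (h ▸ one_mem _)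
  have hfix : ∀ b ∈ B, b ≠ 1 → ¬ Commute b a := by
    intro b hb hb1 hc
    rcases hBti a with h | h
    · refine hcon (Subgroup.mem_centralizer_iff.2 fun b' hb' => ?_)
      have h1 : a * b' * a⁻¹ ∈ B := by rw [← h]; exact ⟨b', hb', rfl⟩
      have h2 : a * b' * a⁻¹ * b'⁻¹ ∈ A ⊓ B := Subgroup.mem_inf.2 ⟨by
        have := (Subgroup.mem_normalizer_iff.1 (hN hb') a⁻¹).1 (inv_mem ha)
        rw [show a * b' * a⁻¹ * b'⁻¹ = a * (b' * a⁻¹ * b'⁻¹) by group]
        exact mul_mem ha this, mul_mem h1 (inv_mem hb')⟩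
      rw [hAB, Subgroup.mem_bot] at h2
      calc b' * a = (a * b' * a⁻¹ * b'⁻¹)⁻¹ * (a * b') := by group
        _ = a * b' := by rw [h2, inv_one, one_mul]
    · refine hb1 ((Subgroup.mem_bot).1 (h.le ⟨⟨b, hb, ?_⟩, hb⟩))
      show a * b * a⁻¹ = b
      rw [← hc.eq, mul_inv_cancel_right]
  let f : ↥B → {x : ↥A // x ≠ 1} := fun b =>
    ⟨⟨(b : G) * a * (b : G)⁻¹, (Subgroup.mem_normalizer_iff.1 (hN b.2) a).1 ha⟩, fun h => by
      have h' : (b : G) * a * (b : G)⁻¹ = 1 := congrArg Subtype.val h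
      exact ha1 (conj_eq_one_iff.1 h')⟩
  have hf : Function.Injective f := by
    intro b c h
    have h' : (b : G) * a * (b : G)⁻¹ = (c : G) * a * (c : G)⁻¹ :=
      congrArg (fun x => ((x : ↥A) : G)) (congrArg Subtype.val h)
    by_contra hne
    refine hfix ((c : G)⁻¹ * b) (mul_mem (inv_mem c.2) b.2) (fun h1 => hne ?_) ?_
    · exact Subtype.ext (inv_mul_eq_one.1 h1).symm
    · show (c : G)⁻¹ * b * a = a * ((c : G)⁻¹ * b)
      calc (c : G)⁻¹ * b * a = (c : G)⁻¹ * ((b : G) * a * (b : G)⁻¹) * b := by group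
        _ = a * ((c : G)⁻¹ * b) := by rw [h']; group
  have h1 := Nat.card_le_card_of_injective f hf
  have h2 : Nat.card {x : ↥A // x ≠ 1} < Nat.card ↥A :=
    Finite.card_subtype_lt (x := (1 : ↥A)) (by simp)
  omega

end Cfsg.Agent.S1757
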