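import Cfsg.Statements.S1780
import Mathlib
-- import your own Cfsg.Agent.* helpers here

set_option autoImplicit false
open Cfsg

namespace Cfsg.Agent.S1780

/-- Let A be a finite abelian 2-group and t an automorphism of A whose order is a power of 2. If every element of A fixed by t² is fixed by t, then t fixes every element of A. -/
theorem result {A : Type*} [CommGroup A] [Finite A]
    (hA : IsPGroup 2 A) (t : MulAut A) (ht : ∃ k : ℕ, orderOf t = 2 ^ k) (hC : ∀ a : A, t (t a) = a → t a = a) :
    ∀ a : A, t a = a := by
  obtain ⟨k, hk⟩ := ht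
  have hpow : (t ^ 2 ^ k) = 1 := by rw [← hk]; exact pow_orderOf_eq_one t
  let s : A → A := fun a => t a * a
  have hsq2 : ∀ a : A, a * a = 1 → t a * t a = 1 := fun a ha => by rw [← map_mul, ha, map_one]
  have hiter : ∀ j : ℕ, ∀ a : A, a * a = 1 → s^[2 ^ j] a = (t ^ 2 ^ j) a * a := by
    intro j
    induction j with
    | zero => intro a _; simp [s]
    | succ j ih =>
      intro a ha
      have hb : (t ^ 2 ^ j) a * (t ^ 2 ^ j) a = 1 := by rw [← map_mul, ha, map_one]
      rw [pow_succ, mul_two, Function.iterate_add_apply, ih a ha,
        ih _ (by rw [mul_mul_mul_comm, hb, ha, one_mul]), map_mul, pow_add, MulAut.mul_apply,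
        mul_assoc, ← mul_assoc ((t ^ 2 ^ j) a), hb, one_mul]
  have hOmega : ∀ a : A, a * a = 1 → t a = a := by
    intro a ha
    have h1 : s^[2 ^ k] a = 1 := by rw [hiter k a ha, hpow, MulAut.one_apply, ha]
    have hdown : ∀ n : ℕ, ∀ b : A, b * b = 1 → s^[n + 1] b = 1 → s b = 1 := by
      intro n
      induction n with
      | zero => intro b _ h; simpa using h
      | succ n ih =>
        intro b hb h
        rw [Function.iterate_succ_apply] at h
        have h2 : s (s b) = 1 := ih (s b) (by rw [mul_mul_mul_comm, hsq2 b hb, hb, one_mul]) h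
        have h3 : t (t b) = b := by
          have e : s (s b) = t (t b) * (t b * t b) * b := by
            simp only [s, map_mul, mul_assoc]
          rw [e, hsq2 b hb, mul_one] at h2
          calc t (t b) = t (t b) * (b * b) := by rw [hb, mul_one]
            _ = b := by rw [← mul_assoc, h2, one_mul]
        show t b * b = 1
        rw [hC b h3, hb]
    have h2 := hdown (2 ^ k - 1) a ha (by rwa [Nat.sub_add_cancel Nat.one_le_two_pow])
    calc t a = t a * (a * a) := by rw [ha, mul_one]
      _ = a := by rw [← mul_assoc]; show s a * a = a; rw [h2, one_mul]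
  have hall : ∀ m : ℕ, ∀ a : A, a ^ 2 ^ m = 1 → t a = a := by
    intro m
    induction m with
    | zero => intro a ha; simp at ha; simp [ha]
    | succ m ih =>
      intro a ha
      have hfix : t (a * a) = a * a := ih _ (by rwa [← sq, ← pow_mul, ← pow_succ'])
      rw [map_mul] at hfix
      have hc2 : t a / a * (t a / a) = 1 := by rw [div_mul_div_comm, hfix, div_self']
      have htc := hOmega _ hc2
      refine hC a ?_
      rw [map_div] at htc
      calc t (t a) = t (t a) / t a * t a := by rw [div_mul_cancel]
        _ = (t a / a) * t a := by rw [htc]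
        _ = (t a / a) * ((t a / a) * a) := by rw [div_mul_cancel]
        _ = a := by rw [← mul_assoc, hc2, one_mul]
  intro a
  obtain ⟨m, hm⟩ := hA a
  exact hall m a hm

end Cfsg.Agent.S1780
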