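import Cfsg.Statements.S1781
import Mathlib
import Cfsg.Agent.Lib.TwoFus.TISubgroups
-- import your own Cfsg.Agent.* helpers here

set_option autoImplicit false
open Cfsg

namespace Cfsg.Agent.S1781

/-- Let A be an abelian 2-subgroup of the finite group G such that every conjugate of A equals A or meets A trivially, and let g ∈ G with g A g⁻¹ ≠ A. Then either the subgroup of those elements of A that normalize g A g⁻¹ is an elementary abelian 2-group, or A and g A g⁻¹ commute elementwise. -/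
theorem result {G : Type*} [Group G] [Finite G] (A : Subgroup G)
    (hA2 : IsPGroup 2 ↥A) (hAa : IsMulCommutative ↥A)
    (hti : ∀ h : G, A.map (MulAut.conj h).toMonoidHom = A ∨ A.map (MulAut.conj h).toMonoidHom ⊓ A = ⊥)
    (g : G) (hg : A.map (MulAut.conj g).toMonoidHom ≠ A) :
    Cfsg.IsElementaryAbelian 2 (A ⊓ Subgroup.normalizer ((A.map (MulAut.conj g).toMonoidHom : Subgroup G) : Set G)) ∨
      ⁅A, A.map (MulAut.conj g).toMonoidHom⁆ = ⊥ := by
  have : Fact (Nat.Prime 2) := ⟨Nat.prime_two⟩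
  set B := A.map (MulAut.conj g).toMonoidHom with hB
  rw [or_iff_not_imp_left]
  intro hne
  have hd : A ⊓ B = ⊥ := by rw [inf_comm]; exact (hti g).resolve_left hg
  have hBa : ∀ b ∈ B, ∀ c ∈ B, Commute b c := by
    rintro _ ⟨x, hx, rfl⟩ _ ⟨y, hy, rfl⟩
    have h := congrArg Subtype.val (hAa.is_comm.comm ⟨x, hx⟩ ⟨y, hy⟩)
    show _ = _
    rw [← map_mul, ← map_mul]
    exact congrArg _ h
  have hAc : ∀ a ∈ A, ∀ c ∈ A, Commute a c := fun a ha c hc =>
    congrArg Subtype.val (hAa.is_comm.comm ⟨a, ha⟩ ⟨c, hc⟩)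
  have hN : ∀ {a : G}, a ∈ A → a ≠ 1 → ∀ {b : G}, Commute b a →
      b ∈ Subgroup.normalizer (A : Set G) := by
    intro a ha ha1 b hb
    rcases hti b with h | h
    · refine Subgroup.mem_normalizer_iff.2 fun y => ⟨fun hy => h ▸ ⟨y, hy, rfl⟩, fun hy => ?_⟩
      rw [← h] at hy
      obtain ⟨z, hz, hze⟩ := hy
      exact (MulAut.conj b).injective hze ▸ hz
    · exfalso
      have hmem : a ∈ A.map (MulAut.conj b).toMonoidHom ⊓ A :=
        ⟨⟨a, ha, by simp [MulAut.conj_apply, hb.eq]⟩, ha⟩
      rw [h, Subgroup.mem_bot] at hmem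
      exact ha1 hmem
  obtain ⟨a, haA, haB, ha2⟩ : ∃ a, a ∈ A ∧ a ∈ Subgroup.normalizer (B : Set G) ∧ a ^ 2 ≠ 1 := by
    by_contra hno
    push Not at hno
    exact hne ⟨⟨⟨fun x y => Subtype.ext (hAc _ x.2.1 _ y.2.1)⟩⟩, fun x hx => hno x hx.1 hx.2⟩
  have ha1 : a ≠ 1 := by rintro rfl; simp at ha2
  -- `a` centralizes `B`
  have hcent : ∀ b ∈ B, Commute b a := by
    by_contra hno
    push Not at hno
    obtain ⟨b₀, hb₀, hb₀a⟩ := hno
    let δ : G → G := fun b => a * b * a⁻¹ * b⁻¹
    have hδB : ∀ b ∈ B, δ b ∈ B := fun b hb =>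
      B.mul_mem ((Subgroup.mem_normalizer_iff.1 haB b).1 hb) (B.inv_mem hb)
    have hone : ∀ b, δ b = 1 ↔ Commute b a := fun b => by
      simp only [δ, ← commutatorElement_def, commutatorElement_eq_one_iff_mul_comm]
      exact eq_comm
    have hpow : ∀ b ∈ B, ∀ n : ℕ, δ (b ^ n) = δ b ^ n := fun b hb n => by
      simp only [δ]
      rw [(hBa _ ((Subgroup.mem_normalizer_iff.1 haB b).1 hb) _ (B.inv_mem hb)).mul_pow,
        conj_pow, inv_pow]
    -- the commutator map is nilpotent
    set P := A ⊓ Subgroup.normalizer (B : Set G) ⊔ B with hP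
    have hBp : IsPGroup 2 ↥B := hA2.map _
    have hPp : IsPGroup 2 ↥P :=
      IsPGroup.to_sup_of_normal_right' (hA2.to_le inf_le_left) hBp inf_le_right
    have : Group.IsNilpotent ↥P := hPp.isNilpotent
    have haP : a ∈ P := Subgroup.mem_sup_left ⟨haA, haB⟩
    obtain ⟨n, hn⟩ : ∃ n, ∀ b ∈ B, δ^[n] b = 1 := by
      obtain ⟨n, hn⟩ := P.isNilpotent_iff_lowerCentralSeries.1 this
      refine ⟨n, fun b hb => ?_⟩
      have key : ∀ k, δ^[k] b ∈ B ∧ δ^[k] b ∈ P.lowerCentralSeries k := by
        intro k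
        induction k with
        | zero => exact ⟨hb, Subgroup.mem_sup_right hb⟩
        | succ k ih =>
          rw [Function.iterate_succ_apply', Subgroup.lowerCentralSeries_succ,
            Subgroup.commutator_comm]
          exact ⟨hδB _ ih.1, Subgroup.commutator_mem_commutator haP ih.2⟩
      exact Subgroup.mem_bot.1 (hn ▸ (key n).2)
    classical
    have hex : ∃ k, δ^[k + 1] b₀ = 1 := by
      rcases n with _ | n
      · exact absurd ((hone b₀).1 (by rw [show b₀ = 1 from hn b₀ hb₀]; simp [δ])) hb₀a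
      · exact ⟨n, hn b₀ hb₀⟩
    obtain ⟨m, hm⟩ : ∃ m, m = Nat.find hex := ⟨_, rfl⟩
    have hm1 : δ^[m + 1] b₀ = 1 := hm ▸ Nat.find_spec hex
    have hm0 : m ≠ 0 := fun h => hb₀a ((hone b₀).1 (by rw [h] at hm1; exact hm1))
    have hiter : ∀ k, δ^[k] b₀ ∈ B := fun k => by
      induction k with
      | zero => exact hb₀
      | succ k ih => rw [Function.iterate_succ_apply']; exact hδB _ ih
    set b := δ^[m - 1] b₀ with hb
    have hbB : b ∈ B := hiter _
    have hc1 : δ b ≠ 1 := by
      rw [hb, ← Function.iterate_succ_apply' δ (m - 1) b₀]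
      intro h
      exact Nat.find_min hex (show m - 1 < Nat.find hex by omega) h
    have hc2 : δ (δ b) = 1 := by
      rw [hb, ← Function.iterate_succ_apply' δ (m - 1) b₀, show (m - 1).succ = m by omega,
        ← Function.iterate_succ_apply' δ m b₀]
      exact hm1
    obtain ⟨j, hj⟩ := IsPGroup.iff_orderOf.1 hBp ⟨δ b, hδB b hbB⟩
    rw [← Subgroup.orderOf_coe] at hj
    change orderOf (δ b) = 2 ^ j at hj
    rcases j with _ | j
    · exact hc1 (orderOf_eq_one_iff.1 (by simpa using hj))
    set b' := b ^ 2 ^ j with hb'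
    have hb'B : b' ∈ B := B.pow_mem hbB _
    have hc' : δ b' = δ b ^ 2 ^ j := hpow b hbB _
    have hc'1 : δ b' ≠ 1 := by
      rw [hc']
      intro h
      have := Nat.le_of_dvd (by positivity) (hj ▸ orderOf_dvd_of_pow_eq_one h)
      rw [pow_succ] at this
      have := Nat.two_pow_pos j
      omega
    have hc'2 : δ b' * δ b' = 1 := by
      rw [hc', ← pow_add, ← two_mul, ← pow_succ', ← hj, pow_orderOf_eq_one]
    have hcom' : Commute (δ b') a := by
      rw [hc']
      exact ((hone _).1 hc2).pow_left _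
    have h2 : Commute b' (a ^ 2) := by
      have h3 : a * b' * a⁻¹ = δ b' * b' := by simp only [δ]; group
      have h4 : a ^ 2 * b' * (a ^ 2)⁻¹ = b' := by
        calc a ^ 2 * b' * (a ^ 2)⁻¹ = a * (a * b' * a⁻¹) * a⁻¹ := by rw [sq]; group
          _ = a * (δ b' * b') * a⁻¹ := by rw [h3]
          _ = (a * δ b' * a⁻¹) * (a * b' * a⁻¹) := by group
          _ = δ b' * (δ b' * b') := by rw [h3, ← hcom'.eq, mul_inv_cancel_right]
          _ = b' := by rw [← mul_assoc, hc'2, one_mul]
      exact (mul_inv_eq_iff_eq_mul.1 h4).symm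
    exact hc'1 ((hone b').2 (Cfsg.Lib.TwoFus.commute_of_normalize_of_disjoint hd haA hb'B haB
      (hN (A.pow_mem haA 2) ha2 h2)).symm)
  have hBN : B ≤ Subgroup.normalizer (A : Set G) := fun b hb => hN haA ha1 (hcent b hb)
  have hAN : A ≤ Subgroup.normalizer (B : Set G) := by
    refine Cfsg.Lib.TwoFus.le_normalizer_of_ti hA2 (hA2.map _)
      (Subgroup.card_map_of_injective (MulAut.conj g).injective).ge hd hBN fun x hx => ?_
    have hmap : ∀ u v : G, (A.map (MulAut.conj u).toMonoidHom).map (MulAut.conj v).toMonoidHom =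
        A.map (MulAut.conj (v * u)).toMonoidHom := fun u v => by
      rw [Subgroup.map_map]
      congr 1
      ext y
      simp [MulAut.conj_apply, mul_assoc]
    rcases hti (g⁻¹ * x * g) with h | h
    · left
      have := congrArg (Subgroup.map (MulAut.conj g).toMonoidHom) h
      rw [hmap] at this
      rw [hB, hmap]
      simpa [mul_assoc] using this
    · right
      have := congrArg (Subgroup.map (MulAut.conj g).toMonoidHom) h
      rw [Subgroup.map_inf _ _ _ (MulAut.conj g).injective, hmap, Subgroup.map_bot] at this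
      rw [hB, hmap]
      simpa [mul_assoc] using this
  rw [Subgroup.commutator_eq_bot_iff_le_centralizer]
  intro x hx
  refine Subgroup.mem_centralizer_iff.2 fun b hb => ?_
  exact (Cfsg.Lib.TwoFus.commute_of_normalize_of_disjoint hd hx hb (hAN hx) (hBN hb)).symm.eq

end Cfsg.Agent.S1781
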