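import Cfsg.Statements.S1782
import Mathlib
import Cfsg.Agent.Lib.TwoFus.TISubgroups
import Cfsg.Agent.Lib.Transfer.Action
import Cfsg.Agent.Lib.Solv.PGroupBasic
-- import your own Cfsg.Agent.* helpers here

set_option autoImplicit false
open Cfsg

namespace Cfsg.Agent.S1782

/-- Let S be a finite 2-group and Δ a set of subgroups of S closed under conjugation by S, all of the same order, each with nontrivial Frattini subgroup, and such that two distinct members of Δ meet trivially. Then any two distinct members of Δ commute elementwise. -/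
theorem result {S : Type*} [Group S] [Finite S] (hS : IsPGroup 2 S)
    (Δ : Set (Subgroup S)) (hinv : ∀ s : S, ∀ R ∈ Δ, R.map (MulAut.conj s).toMonoidHom ∈ Δ)
    (hΦ : ∀ R ∈ Δ, frattini ↥R ≠ ⊥) (hord : ∀ R ∈ Δ, ∀ T ∈ Δ, Nat.card ↥R = Nat.card ↥T)
    (hti : ∀ R ∈ Δ, ∀ T ∈ Δ, R = T ∨ R ⊓ T = ⊥) :
    ∀ R ∈ Δ, ∀ T ∈ Δ, R ≠ T → ⁅R, T⁆ = ⊥ := by
  have : Fact (Nat.Prime 2) := ⟨Nat.prime_two⟩
  have hp : ∀ R : Subgroup S, IsPGroup 2 ↥R := fun R => hS.to_subgroup R
  have hnorm : ∀ {R : Subgroup S}, R ∈ Δ → ∀ {s r : S}, r ∈ R → r ≠ 1 → s * r * s⁻¹ ∈ R →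
      s ∈ Subgroup.normalizer (R : Set S) := by
    intro R hR s r hr hr1 hsr
    rcases hti _ (hinv s R hR) R hR with h | h
    · refine Subgroup.mem_normalizer_iff.2 fun y => ⟨fun hy => h ▸ ⟨y, hy, rfl⟩, fun hy => ?_⟩
      rw [← h] at hy
      obtain ⟨z, hz, hze⟩ := hy
      exact (MulAut.conj s).injective hze ▸ hz
    · exfalso
      have hmem : s * r * s⁻¹ ∈ R.map (MulAut.conj s).toMonoidHom ⊓ R :=
        ⟨⟨r, hr, rfl⟩, hsr⟩
      rw [h, Subgroup.mem_bot, conj_eq_one_iff] at hmem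
      exact hr1 hmem
  have hmutual : ∀ {R T : Subgroup S}, R ∈ Δ → T ∈ Δ → R ≠ T →
      T ≤ Subgroup.normalizer (R : Set S) → R ≤ Subgroup.normalizer (T : Set S) := fun {R T} hR hT hne h =>
    Cfsg.Lib.TwoFus.le_normalizer_of_ti (hp R) (hp T) (hord R hR T hT).le
      ((hti R hR T hT).resolve_left hne) h fun a _ => hti _ (hinv a T hT) T hT
  suffices H : ∀ n, ∀ M : Subgroup S, Nat.card ↥M = n → ∀ R ∈ Δ, ∀ T ∈ Δ, R ≤ M → T ≤ M → R ≠ T →
      ∀ r ∈ R, ∀ t ∈ T, Commute r t by
    intro R hR T hT hne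
    rw [Subgroup.commutator_eq_bot_iff_le_centralizer]
    exact fun r hr => Subgroup.mem_centralizer_iff.2 fun t ht =>
      (H _ ⊤ rfl R hR T hT le_top le_top hne r hr t ht).symm.eq
  intro n
  induction n using Nat.strong_induction_on with
  | _ n ih =>
  rintro M rfl R hR T hT hRM hTM hne
  -- conjugates of a member under `M` commute
  have hconj : ∀ A ∈ Δ, A ≤ M → A ≠ M → ∀ m ∈ M, A.map (MulAut.conj m).toMonoidHom ≠ A →
      ∀ a ∈ A, ∀ b ∈ A, Commute a (m * b * m⁻¹) := by
    intro A hA hAM hAne m hm hmA a ha b hb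
    have hlt : A.subgroupOf M < ⊤ := lt_top_iff_ne_top.2 fun e =>
      hAne (le_antisymm hAM (Subgroup.subgroupOf_eq_top.1 e))
    obtain ⟨K, hK, hAK⟩ := (eq_top_or_exists_le_coatom (A.subgroupOf M)).resolve_left hlt.ne
    have : Group.IsNilpotent ↥M := (hp M).isNilpotent
    have hKn : K.Normal := Subgroup.NormalizerCondition.normal_of_coatom K
      (Group.normalizerCondition_of_isNilpotent (G := ↥M)) hK
    have hAK' : A ≤ K.map M.subtype := fun x hx =>
      ⟨⟨x, hAM hx⟩, hAK (Subgroup.mem_subgroupOf.2 hx), rfl⟩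
    have hAmK : A.map (MulAut.conj m).toMonoidHom ≤ K.map M.subtype := by
      rintro _ ⟨x, hx, rfl⟩
      exact ⟨⟨m, hm⟩ * ⟨x, hAM hx⟩ * ⟨m, hm⟩⁻¹,
        hKn.conj_mem _ (hAK (Subgroup.mem_subgroupOf.2 hx)) _, rfl⟩
    refine ih (Nat.card ↥(K.map M.subtype)) ?_ _ rfl A hA _ (hinv m A hA) hAK' hAmK hmA.symm
      a ha _ ⟨b, hb, rfl⟩
    rw [Subgroup.card_map_of_injective M.subtype_injective]
    refine lt_of_le_of_ne (Subgroup.card_le_card_group K) fun e => hK.1 ?_
    exact Subgroup.eq_top_of_card_eq K e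
  have hRne : R ≠ M := fun e => hne
    ((hti R hR T hT).resolve_right fun h => hΦ T hT (by
      rw [inf_eq_right.2 (e ▸ hTM)] at h
      subst h
      exact Subsingleton.elim _ _))
  have hTne : T ≠ M := fun e => hne
    ((hti R hR T hT).resolve_right fun h => hΦ R hR (by
      rw [inf_eq_left.2 (e ▸ hRM)] at h
      subst h
      exact Subsingleton.elim _ _))
  have hd : R ⊓ T = ⊥ := (hti R hR T hT).resolve_left hne
  suffices h : T ≤ Subgroup.normalizer (R : Set S) ∨ R ≤ Subgroup.normalizer (T : Set S) by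
    have h' : T ≤ Subgroup.normalizer (R : Set S) ∧ R ≤ Subgroup.normalizer (T : Set S) := by
      rcases h with h | h
      · exact ⟨h, hmutual hR hT hne h⟩
      · exact ⟨hmutual hT hR hne.symm h, h⟩
    exact fun r hr t ht =>
      Cfsg.Lib.TwoFus.commute_of_normalize_of_disjoint hd hr ht (h'.2 hr) (h'.1 ht)
  by_contra hno
  push Not at hno
  obtain ⟨t₁, ht₁, ht₁R⟩ := SetLike.not_le_iff_exists.1 hno.1
  -- an element of `T` with non-trivial square
  obtain ⟨t, ht, ht2⟩ : ∃ t ∈ T, t ^ 2 ≠ 1 := by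
    by_contra hel
    push Not at hel
    refine hΦ T hT ?_
    have hsq : ∀ c : ↥T, c * c = 1 := fun c => Subtype.ext (by simpa [sq] using hel c c.2)
    refine le_bot_iff.1 (Cfsg.Lib.Solv.frattini_le_of_elementary_quotient (p := 2) ⊥ ?_
      fun c => by rw [Subgroup.mem_bot, sq]; exact hsq c)
    rw [commutator_def, Subgroup.commutator_le]
    intro a _ b _
    rw [Subgroup.mem_bot, commutatorElement_eq_one_iff_mul_comm]
    calc a * b = (b * b) * (a * b) * (a * a) := by rw [hsq, hsq, one_mul, mul_one]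
      _ = b * (b * a) * (b * a) * a := by group
      _ = b * a := by
        rw [show b * (b * a) * (b * a) * a = b * ((b * a) * (b * a)) * a by group, hsq, mul_one]
  -- a central involution of `R`
  have hRbot : R ≠ ⊥ := fun e => hΦ R hR (by subst e; exact Subsingleton.elim _ _)
  have hRnt : Nontrivial ↥R := (Subgroup.nontrivial_iff_ne_bot R).2 hRbot
  haveI := (hp R).center_nontrivial
  obtain ⟨u, hu⟩ := exists_prime_orderOf_dvd_card' (G := Subgroup.center ↥R) 2
    (((hp R).to_subgroup (Subgroup.center _)).card_eq_or_dvd.resolve_left Finite.one_lt_card.ne')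
  set r : S := ((u : ↥R) : S) with hrdef
  have hr2 : orderOf r = 2 := by rw [hrdef, Subgroup.orderOf_coe, Subgroup.orderOf_coe]; exact hu
  have hrR : r ∈ R := (u : ↥R).2
  have hr1 : r ≠ 1 := fun e => by rw [e, orderOf_one] at hr2; omega
  have hrc : ∀ x ∈ R, Commute x r := fun x hx =>
    congrArg Subtype.val (Subgroup.mem_center_iff.1 u.2 ⟨x, hx⟩)
  have hrr : r * r = 1 := by rw [← sq]; exact hr2 ▸ pow_orderOf_eq_one r
  have hmapne : ∀ {A : Subgroup S} {s : S}, s ∉ Subgroup.normalizer (A : Set S) →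
      A.map (MulAut.conj s).toMonoidHom ≠ A := by
    intro A s hs e
    refine hs (Subgroup.mem_normalizer_iff.2 fun y => ⟨fun hy => e ▸ ⟨y, hy, rfl⟩, fun hy => ?_⟩)
    rw [← e] at hy
    obtain ⟨z, hz, hze⟩ := hy
    exact (MulAut.conj s).injective hze ▸ hz
  -- from a nontrivial element of `R` normalizing `T`, its centralizer in `R` normalizes `T`
  have key : ∀ x ∈ R, x ≠ 1 → x ∈ Subgroup.normalizer (T : Set S) → ∀ y ∈ R, Commute y x →
      y ∈ Subgroup.normalizer (T : Set S) := by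
    intro x hx hx1 hxT y hy hyx
    have hτT : t₁ * x * t₁⁻¹ * x⁻¹ ∈ T := by
      rw [show t₁ * x * t₁⁻¹ * x⁻¹ = t₁ * (x * t₁⁻¹ * x⁻¹) by group]
      exact T.mul_mem ht₁ ((Subgroup.mem_normalizer_iff.1 hxT t₁⁻¹).1 (T.inv_mem ht₁))
    have hne' : t₁ * x * t₁⁻¹ * x⁻¹ ≠ 1 := fun e => ht₁R (hnorm hR hx hx1 (by
      rw [mul_inv_eq_one.1 e]; exact hx))
    have hc : Commute y (t₁ * x * t₁⁻¹ * x⁻¹) :=
      (hconj R hR hRM hRne t₁ (hTM ht₁) (hmapne ht₁R) y hy x hx).mul_right hyx.inv_right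
    exact hnorm hT hτT hne' (by rw [hc.eq, mul_inv_cancel_right]; exact hτT)
  -- `r` normalizes `T`
  have hrT : r ∈ Subgroup.normalizer (T : Set S) := by
    by_contra hrT
    have ht1 : t ≠ 1 := by rintro rfl; simp at ht2
    by_cases htR : t ∈ Subgroup.normalizer (R : Set S)
    · -- `t` fixes a nontrivial element of `R`
      have hmod := Cfsg.Lib.Transfer.card_modEq_card_inf_centralizer R (Subgroup.zpowers t)
        ((hp _)) (Subgroup.zpowers_le.2 htR)
      obtain ⟨m, hm⟩ := (hp R).exists_card_eq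
      have hm0 : m ≠ 0 := by
        rintro rfl
        exact hRbot (Subgroup.card_eq_one.1 (by simpa using hm))
      have hne1 : R ⊓ Subgroup.centralizer ((Subgroup.zpowers t : Subgroup S) : Set S) ≠ ⊥ := by
        intro e
        rw [e, Subgroup.card_bot, hm, Nat.ModEq, Nat.pow_mod, Nat.mod_self, zero_pow hm0] at hmod
        simp at hmod
      obtain ⟨⟨x, hxR, hxc⟩, hx1⟩ := (Subgroup.ne_bot_iff_exists_ne_one).1 hne1
      have hxt : Commute x t :=
        (Subgroup.mem_centralizer_iff.1 hxc t (Subgroup.mem_zpowers t)).symm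
      have hxT : x ∈ Subgroup.normalizer (T : Set S) :=
        hnorm hT ht ht1 (by rw [hxt.eq, mul_inv_cancel_right]; exact ht)
      exact hrT (key x hxR (fun e => hx1 (Subtype.ext e)) hxT r hrR (hrc x hxR).symm)
    · have hcom := hconj R hR hRM hRne t (hTM ht) (hmapne htR) r hrR r hrR
      have hcom2 := hconj T hT hTM hTne r (hRM hrR) (hmapne hrT) t ht t ht
      have hrinv : r⁻¹ = r := inv_eq_of_mul_eq_one_right hrr
      rw [hrinv] at hcom2
      have hw : Commute t (r * (t * r * t⁻¹)) := by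
        have : r * (t * r * t⁻¹) = (r * t * r) * t⁻¹ := by group
        rw [this]
        exact hcom2.mul_right (Commute.refl t).inv_right
      have h2 : Commute (t ^ 2) r := by
        have h3 : (t * r * t⁻¹) * (t ^ 2 * r * (t ^ 2)⁻¹) = r * (t * r * t⁻¹) := by
          calc (t * r * t⁻¹) * (t ^ 2 * r * (t ^ 2)⁻¹) = t * (r * (t * r * t⁻¹)) * t⁻¹ := by
                rw [sq]; group
            _ = _ := by rw [hw.eq, mul_inv_cancel_right]
        rw [hcom.eq] at h3
        exact mul_inv_eq_iff_eq_mul.1 (mul_left_cancel h3)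
      exact hrT (hnorm hT (T.pow_mem ht 2) ht2
        (by rw [h2.symm.eq, mul_inv_cancel_right]; exact T.pow_mem ht 2))
  exact hno.2 fun y hy => key r hrR hr1 hrT y hy (hrc y hy)

end Cfsg.Agent.S1782
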