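import Cfsg.Statements.S1783
import Cfsg.Agent.Lib.Comp.FStar
import Cfsg.Agent.Lib.Solv.Coprime2
import Cfsg.Agent.Lib.Solv.PGroupBasic
-- import your own Cfsg.Agent.* helpers here

set_option autoImplicit false
open Cfsg

namespace Cfsg.Agent.S1783

open Subgroup
open scoped commutatorElement

variable {X : Type*} [Group X] [Finite X]

/-- Conjugate subgroup. -/
abbrev cj (g : X) (A : Subgroup X) : Subgroup X := A.map (MulAut.conj g).toMonoidHom

theorem mem_cj {g : X} {A : Subgroup X} {x : X} : x ∈ cj g A ↔ g⁻¹ * x * g ∈ A := by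
  constructor
  · rintro ⟨y, hy, rfl⟩; simpa [mul_assoc] using hy
  · exact fun h => ⟨_, h, by simp [mul_assoc]⟩

theorem cj_cj (g h : X) (A : Subgroup X) : cj g (cj h A) = cj (g * h) A := by
  ext x; simp only [mem_cj, mul_inv_rev, mul_assoc]

theorem cj_one (A : Subgroup X) : cj 1 A = A := by ext x; simp [mem_cj]

/-- TI in the conjugation sense. -/
def TI (A : Subgroup X) : Prop := ∀ h : X, cj h A = A ∨ cj h A ⊓ A = ⊥

theorem TI.conj {A : Subgroup X} (hA : TI A) (g : X) : TI (cj g A) := by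
  intro h
  rw [cj_cj]
  rcases hA (g⁻¹ * h * g) with e | e
  · left
    conv_rhs => rw [← e, cj_cj]
    congr 1; group
  · right
    rw [eq_bot_iff]
    rintro x ⟨hx, hx'⟩
    have h1 : g⁻¹ * x * g ∈ cj (g⁻¹ * h * g) A ⊓ A := by
      refine ⟨mem_cj.2 ?_, mem_cj.1 hx'⟩
      have := mem_cj.1 hx
      simpa [mul_assoc] using this
    rw [e, mem_bot] at h1
    rw [mem_bot, show x = g * (g⁻¹ * x * g) * g⁻¹ by group, h1, mul_one, mul_inv_cancel]

/-- An element acting quadratically on an abelian group normalizes a TI subgroup which is not elementary. -/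
theorem quad_normalizes {A : Subgroup X} (hA2 : IsPGroup 2 A) (hA : TI A) (hne : ∃ a ∈ A, a ^ 2 ≠ 1) {t : X}
    (hU : ∀ a ∈ A, ∀ b ∈ A, Commute a (t * b * t⁻¹))
    (hq : ∀ a ∈ A, Commute t (t * a * t⁻¹ * a⁻¹)) : cj t A = A := by
  rcases hA t with e | e
  · exact e
  exfalso
  obtain ⟨a0, ha0, ha0'⟩ := hne
  have hc2 : ∀ a ∈ A, (t * a * t⁻¹ * a⁻¹) ^ 2 = t * a ^ 2 * t⁻¹ * (a ^ 2)⁻¹ := fun a ha => by
    rw [((hU a ha a ha).symm.inv_right).mul_pow, conj_pow, inv_pow]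
  have hit : ∀ a ∈ A, t ^ 2 * a * (t ^ 2)⁻¹ = (t * a * t⁻¹ * a⁻¹) ^ 2 * a := by
    intro a ha
    set c := t * a * t⁻¹ * a⁻¹ with hc
    have h1 : t * a * t⁻¹ = c * a := by rw [hc]; group
    calc t ^ 2 * a * (t ^ 2)⁻¹ = t * (t * a * t⁻¹) * t⁻¹ := by rw [sq]; group
      _ = (t * c) * a * t⁻¹ := by rw [h1]; group
      _ = c * (t * a * t⁻¹) := by rw [(show Commute t c from hq a ha).eq]; group
      _ = c ^ 2 * a := by rw [h1, sq]; group
  obtain ⟨z, hz⟩ : ∃ z : A, orderOf z = 2 := by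
    refine exists_prime_orderOf_dvd_card' (G := A) 2 ?_
    obtain ⟨n, hn⟩ := IsPGroup.iff_card.1 hA2
    rcases n with _ | n
    · exact absurd (by
        have h1 : A = ⊥ := eq_bot_of_card_eq _ (by simpa using hn)
        rw [h1, mem_bot] at ha0
        rw [ha0, one_pow]) ha0'
    · exact hn ▸ dvd_pow_self 2 n.succ_ne_zero
  have hz2 : (z : X) ^ 2 = 1 := by
    have h1 : z ^ 2 = 1 := hz ▸ pow_orderOf_eq_one z
    exact congrArg Subtype.val h1
  have hz1 : (z : X) ≠ 1 := fun h => by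
    rw [show z = 1 from Subtype.ext h, orderOf_one] at hz; exact absurd hz (by norm_num)
  have htt : cj (t ^ 2) A = A := by
    refine (hA (t ^ 2)).resolve_right fun h => hz1 ?_
    have hm : (z : X) ∈ cj (t ^ 2) A ⊓ A := by
      refine ⟨⟨z, z.2, ?_⟩, z.2⟩
      show t ^ 2 * (z : X) * (t ^ 2)⁻¹ = z
      rw [hit z z.2, hc2 z z.2, hz2]
      simp
    rwa [h, mem_bot] at hm
  apply ha0'
  have h1 : t * a0 ^ 2 * t⁻¹ ∈ A := by
    have h2 : t ^ 2 * a0 * (t ^ 2)⁻¹ ∈ A := htt ▸ ⟨a0, ha0, rfl⟩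
    rw [hit a0 ha0, hc2 a0 ha0] at h2
    have h3 := A.mul_mem (A.mul_mem h2 (A.inv_mem ha0)) (A.pow_mem ha0 2)
    rwa [mul_inv_cancel_right, inv_mul_cancel_right] at h3
  have h4 : t * a0 ^ 2 * t⁻¹ ∈ cj t A ⊓ A := ⟨⟨a0 ^ 2, A.pow_mem ha0 2, rfl⟩, h1⟩
  rwa [e, mem_bot, conj_eq_one_iff] at h4

/-- Two TI subgroups in abelian groups normalizing each other commute. -/
theorem commute_of_pair {A A' U V : Subgroup X} (hA2 : IsPGroup 2 A) (hA'2 : IsPGroup 2 A')
    (hA : TI A) (hA' : TI A') (hne : ∃ a ∈ A, a ^ 2 ≠ 1) (hne' : ∃ a ∈ A', a ^ 2 ≠ 1)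
    (hU : IsMulCommutative U) (hV : IsMulCommutative V) (hUV : U ≤ normalizer (V : Set X))
    (hVU : V ≤ normalizer (U : Set X)) (hAU : A ≤ U) (hAV : A' ≤ V) (hdis : A ⊓ A' = ⊥) :
    ∀ a ∈ A, ∀ b ∈ A', Commute a b := by
  have key : ∀ {A : Subgroup X} {U V : Subgroup X}, IsPGroup 2 A → TI A → (∃ a ∈ A, a ^ 2 ≠ 1) →
      IsMulCommutative U → IsMulCommutative V → U ≤ normalizer (V : Set X) → V ≤ normalizer (U : Set X) →
      A ≤ U → ∀ t ∈ V, cj t A = A := by
    intro A U V hA2 hA hne hU hV hUV hVU hAU t ht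
    refine quad_normalizes hA2 hA hne (fun a ha b hb => ?_) fun a ha => ?_
    · exact congrArg Subtype.val (hU.is_comm.comm ⟨a, hAU ha⟩ ⟨_, (mem_normalizer_iff.1 (hVU ht) b).1 (hAU hb)⟩)
    · have h1 : t * a * t⁻¹ * a⁻¹ ∈ V := by
        rw [show t * a * t⁻¹ * a⁻¹ = t * (a * t⁻¹ * a⁻¹) by group]
        exact V.mul_mem ht ((mem_normalizer_iff.1 (hUV (hAU ha)) _).1 (V.inv_mem ht))
      exact congrArg Subtype.val (hV.is_comm.comm ⟨t, ht⟩ ⟨_, h1⟩)
  intro a ha b hb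
  have h1 : a * b * a⁻¹ ∈ A' := key hA'2 hA' hne' hV hU hVU hUV hAV a (hAU ha) ▸ ⟨b, hb, rfl⟩
  have h2 : b * a⁻¹ * b⁻¹ ∈ A := key hA2 hA hne hU hV hUV hVU hAU b (hAV hb) ▸ ⟨a⁻¹, A.inv_mem ha, rfl⟩
  have h3 : a * b * a⁻¹ * b⁻¹ ∈ A ⊓ A' := ⟨by
    rw [show a * b * a⁻¹ * b⁻¹ = a * (b * a⁻¹ * b⁻¹) by group]; exact A.mul_mem ha h2,
    A'.mul_mem h1 (A'.inv_mem hb)⟩
  rw [hdis, mem_bot, mul_inv_eq_one, mul_inv_eq_iff_eq_mul] at h3
  exact h3

/-- The join of the conjugates of `A` by `M`. -/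
def clo (M A : Subgroup X) : Subgroup X := Subgroup.closure {x | ∃ m ∈ M, x ∈ cj m A}

theorem le_clo (M A : Subgroup X) : A ≤ clo M A := fun a ha =>
  subset_closure ⟨1, M.one_mem, by rw [cj_one]; exact ha⟩

theorem le_normalizer_clo (M A : Subgroup X) : M ≤ normalizer (clo M A : Set X) := by
  have key : ∀ m ∈ M, clo M A ≤ (clo M A).comap (MulAut.conj m).toMonoidHom := by
    intro m hm
    refine (closure_le _).2 ?_
    rintro x ⟨k, hk, hx⟩
    refine subset_closure ⟨m * k, M.mul_mem hm hk, ?_⟩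
    rw [← cj_cj]
    exact ⟨x, hx, rfl⟩
  intro m hm
  rw [mem_normalizer_iff]
  refine fun x => ⟨fun hx => key m hm hx, fun hx => ?_⟩
  have h1 : m⁻¹ * (m * x * m⁻¹) * m⁻¹⁻¹ ∈ clo M A := key m⁻¹ (M.inv_mem hm) hx
  simpa [mul_assoc] using h1

theorem clo_le {M A : Subgroup X} (h : A ≤ M) : clo M A ≤ M := (closure_le _).2 (by
  rintro x ⟨m, hm, y, hy, rfl⟩
  exact M.mul_mem (M.mul_mem hm (h hy)) (M.inv_mem hm))

theorem clo_comm {M A : Subgroup X} (hAa : IsMulCommutative A)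
    (h : ∀ m ∈ M, ∀ a ∈ A, ∀ b ∈ cj m A, Commute a b) : IsMulCommutative (clo M A) := by
  refine Subgroup.isMulCommutative_closure ?_
  rintro x ⟨m, hm, hx⟩ y ⟨k, hk, hy⟩
  have h1 := h (m⁻¹ * k) (M.mul_mem (M.inv_mem hm) hk) (m⁻¹ * x * m) (mem_cj.1 hx) (m⁻¹ * y * m) (by
    rw [mem_cj]
    have := mem_cj.1 hy
    simpa [mul_assoc] using this)
  calc x * y = m * ((m⁻¹ * x * m) * (m⁻¹ * y * m)) * m⁻¹ := by group
    _ = y * x := by rw [h1.eq]; group

theorem conj_commute (M : Subgroup X) : ∀ A : Subgroup X, IsPGroup 2 M → A ≤ M → IsMulCommutative A → TI A →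
    (∃ a ∈ A, a ^ 2 ≠ 1) → ∀ x ∈ M, ∀ a ∈ A, ∀ b ∈ cj x A, Commute a b := by
  generalize hn : Nat.card M = n
  induction n using Nat.strong_induction_on generalizing M with
  | _ n ih =>
    subst hn
    intro A hM hAM hAa hA hne x hx a ha b hb
    have hA2 : IsPGroup 2 A := hM.to_le hAM
    rcases hA x with e | e
    · rw [e] at hb
      exact congrArg Subtype.val (hAa.is_comm.comm ⟨a, ha⟩ ⟨b, hb⟩)
    -- a proper normal subgroup of `M` containing `A`
    have hlt : A.subgroupOf M < ⊤ := by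
      refine lt_top_iff_ne_top.2 fun h => ?_
      have hxA : x ∈ A := subgroupOf_eq_top.1 h hx
      obtain ⟨a0, ha0, ha0'⟩ := hne
      have : a0 ∈ cj x A ⊓ A := ⟨mem_cj.2 (A.mul_mem (A.mul_mem (A.inv_mem hxA) ha0) hxA), ha0⟩
      rw [e, mem_bot] at this
      exact ha0' (by rw [this, one_pow])
    obtain ⟨K, hK, hAK⟩ := (eq_top_or_exists_le_coatom (A.subgroupOf M)).resolve_left hlt.ne
    haveI := hM.isNilpotent
    have hKn : K.Normal := Subgroup.NormalizerCondition.normal_of_coatom K Group.normalizerCondition_of_isNilpotent hK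
    set M1 := K.map M.subtype with hM1
    have hM1M : M1 ≤ M := map_subtype_le _
    have hAM1 : A ≤ M1 := fun y hy => ⟨⟨y, hAM hy⟩, hAK hy, rfl⟩
    have hcard : Nat.card M1 < Nat.card M := by
      refine lt_of_le_of_ne (card_le_of_le hM1M) fun h => hK.1 ?_
      rw [hM1, card_map_of_injective M.subtype_injective] at h
      exact eq_top_of_card_eq K h
    have hnorm : ∀ y ∈ M, ∀ z ∈ M1, y * z * y⁻¹ ∈ M1 := by
      rintro y hy _ ⟨k, hk, rfl⟩
      exact ⟨_, hKn.conj_mem k hk ⟨y, hy⟩, rfl⟩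
    have hAxM1 : cj x A ≤ M1 := by
      rintro _ ⟨y, hy, rfl⟩
      exact hnorm x hx y (hAM1 hy)
    have hne' : ∃ c ∈ cj x A, c ^ 2 ≠ 1 := by
      obtain ⟨a0, ha0, ha0'⟩ := hne
      refine ⟨_, ⟨a0, ha0, rfl⟩, fun h => ha0' ?_⟩
      have h' : (x * a0 * x⁻¹) ^ 2 = 1 := h
      rwa [conj_pow, conj_eq_one_iff] at h'
    have hAxa : IsMulCommutative (cj x A) := inferInstance
    have hU := clo_comm hAa (ih _ hcard M1 rfl A (hM.to_le hM1M) hAM1 hAa hA hne)
    have hV := clo_comm hAxa (ih _ hcard M1 rfl (cj x A) (hM.to_le hM1M) hAxM1 hAxa (hA.conj x) hne')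
    exact commute_of_pair hA2 (hA2.map _) hA (hA.conj x) hne hne' hU hV
      ((clo_le hAM1).trans (le_normalizer_clo _ _)) ((clo_le hAxM1).trans (le_normalizer_clo _ _))
      (le_clo _ _) (le_clo _ _) (by rw [inf_comm]; exact e) a ha b hb


/-- Let X be a finite group whose generalized Fitting subgroup equals its largest normal 2-subgroup Q, and let A be an abelian 2-subgroup of X such that every conjugate of A equals A or meets A trivially. Let B be the subgroup generated by the squares of the elements of A. Then B lies in Q, and if B is not an elementary abelian 2-group then the normal closure of B in X is commutative. -/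
theorem result {X : Type*} [Group X] [Finite X]
    (hX : Cfsg.generalizedFittingSubgroup X = Cfsg.pCore 2 X) (A : Subgroup X) (hA2 : IsPGroup 2 ↥A) (hAa : IsMulCommutative ↥A)
    (hti : ∀ h : X, A.map (MulAut.conj h).toMonoidHom = A ∨ A.map (MulAut.conj h).toMonoidHom ⊓ A = ⊥) :
    Subgroup.closure ((fun a : X => a ^ 2) '' (A : Set X)) ≤ Cfsg.pCore 2 X ∧
      (¬ Cfsg.IsElementaryAbelian 2 (Subgroup.closure ((fun a : X => a ^ 2) '' (A : Set X))) →
        IsMulCommutative ↥(Subgroup.normalClosure ((fun a : X => a ^ 2) '' (A : Set X)))) := by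
  classical
  haveI := Fact.mk Nat.prime_two
  set Q := Cfsg.pCore 2 X with hQdef
  have hQ2 : IsPGroup 2 Q := Cfsg.Lib.Solv.isPGroup_pCore 2
  have hCQ : Subgroup.centralizer (Q : Set X) ≤ Q := by
    rw [← hX]; exact Cfsg.Lib.Comp.centralizer_fstar_le
  have hsq : ∀ a ∈ A, a ^ 2 ∈ Q := by
    intro a ha
    by_cases hne : a ^ 2 = 1
    · rw [hne]; exact Q.one_mem
    set Φ := (frattini ↥Q).map Q.subtype with hΦ
    haveI : Φ.Normal := ConjAct.normal_of_characteristic_of_normal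
    -- the kernel of the action on the Frattini quotient
    let K : Subgroup X :=
      { carrier := {k | ∀ q ∈ Q, k * q * k⁻¹ * q⁻¹ ∈ Φ}
        one_mem' := fun q _ => by simp
        mul_mem' := by
          intro k l hk hl q hq
          have h1 := hk _ ((inferInstance : Q.Normal).conj_mem q hq l)
          have h2 := Φ.mul_mem h1 (hl q hq)
          simpa [mul_assoc] using h2
        inv_mem' := by
          intro k hk q hq
          have h1 := Φ.inv_mem (hk _ ((inferInstance : Q.Normal).conj_mem q hq k⁻¹))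
          simpa [mul_assoc] using h1 }
    have hKn : K.Normal := by
      refine ⟨fun k hk g q hq => ?_⟩
      have h1 := (inferInstance : Φ.Normal).conj_mem _ (hk _ ((inferInstance : Q.Normal).conj_mem q hq g⁻¹)) g
      simpa [mul_assoc] using h1
    have hK2 : IsPGroup 2 K := by
      intro k
      obtain ⟨e, m, hm, hn⟩ := Nat.exists_eq_pow_mul_and_not_dvd (orderOf_pos (k : X)).ne' 2 (by norm_num)
      refine ⟨e, Subtype.ext ?_⟩
      show (k : X) ^ 2 ^ e = 1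
      set l := (k : X) ^ 2 ^ e with hl
      have hlm : l ^ m = 1 := by rw [hl, ← pow_mul, ← hn, pow_orderOf_eq_one]
      have hlodd : (orderOf l).Coprime 2 :=
        ((Nat.prime_two.coprime_iff_not_dvd).2 hm).symm.of_dvd_left (orderOf_dvd_of_pow_eq_one hlm)
      obtain ⟨n, hn'⟩ := IsPGroup.iff_card.1 (hQ2.to_subgroup (frattini ↥Q))
      have hc : Subgroup.zpowers l ≤ Subgroup.centralizer (Q : Set X) := by
        refine Cfsg.Lib.Solv.centralizes_of_frattini _ Q Subgroup.le_normalizer_of_normal ?_ fun z hz q hq => ?_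
        · rw [Nat.card_zpowers, hn']; exact hlodd.pow_right n
        · exact (Subgroup.zpowers_le.2 (K.pow_mem k.2 (2 ^ e)) : Subgroup.zpowers l ≤ K) hz q hq
      have hlQ : l ∈ Q := hCQ (hc (Subgroup.mem_zpowers l))
      obtain ⟨i, hi⟩ := hQ2 ⟨l, hlQ⟩
      exact orderOf_eq_one_iff.1 (Nat.eq_one_of_dvd_coprimes (hlodd.pow_right i) dvd_rfl
        (orderOf_dvd_of_pow_eq_one (congrArg Subtype.val hi)))
    refine Cfsg.Lib.Solv.le_pCore hKn hK2 (show a ^ 2 ∈ K from fun q hq => ?_)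
    have hM : IsPGroup 2 (Q ⊔ A : Subgroup X) := IsPGroup.to_sup_of_normal_left hQ2 hA2
    have hcom := clo_comm (M := Q ⊔ A) hAa
      (conj_commute (Q ⊔ A) A hM le_sup_right hAa hti ⟨a, ha, hne⟩)
    have hcU : q * a * q⁻¹ ∈ clo (Q ⊔ A) A :=
      Subgroup.subset_closure ⟨q, Subgroup.mem_sup_left hq, a, ha, rfl⟩
    set c := a * q * a⁻¹ * q⁻¹ with hc
    have hcQ : c ∈ Q := Q.mul_mem ((inferInstance : Q.Normal).conj_mem q hq a) (Q.inv_mem hq)
    have hca : Commute a c := by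
      have hcU' : c ∈ clo (Q ⊔ A) A := by
        rw [show c = a * (q * a * q⁻¹)⁻¹ by rw [hc]; group]
        exact Subgroup.mul_mem _ (le_clo _ _ ha) (Subgroup.inv_mem _ hcU)
      exact congrArg Subtype.val (hcom.is_comm.comm ⟨a, le_clo _ _ ha⟩ ⟨c, hcU'⟩)
    have h1 : a ^ 2 * q * (a ^ 2)⁻¹ * q⁻¹ = c ^ 2 := by
      calc a ^ 2 * q * (a ^ 2)⁻¹ * q⁻¹ = (a * c) * (q * a⁻¹ * q⁻¹) := by rw [hc, sq]; group
        _ = c * (a * q * a⁻¹ * q⁻¹) := by rw [hca.eq]; group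
        _ = c ^ 2 := by rw [← hc, sq]
    rw [h1]
    exact ⟨(⟨c, hcQ⟩ : ↥Q) ^ 2, Cfsg.Lib.Solv.pow_mem_frattini hQ2 _, rfl⟩
  have hBQ : Subgroup.closure ((fun a : X => a ^ 2) '' (A : Set X)) ≤ Q := by
    rw [Subgroup.closure_le]
    rintro _ ⟨a, ha, rfl⟩
    exact hsq a ha
  refine ⟨hBQ, fun hBne => ?_⟩
  obtain ⟨a0, ha0, ha0'⟩ : ∃ a ∈ A, (a ^ 2) ^ 2 ≠ 1 := by
    by_contra h
    push_neg at h
    apply hBne
    have hcomm : IsMulCommutative (Subgroup.closure ((fun a : X => a ^ 2) '' (A : Set X))) := by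
      refine Subgroup.isMulCommutative_closure ?_
      rintro _ ⟨a, ha, rfl⟩ _ ⟨b, hb, rfl⟩
      exact congrArg Subtype.val (hAa.is_comm.comm ⟨a ^ 2, A.pow_mem ha 2⟩ ⟨b ^ 2, A.pow_mem hb 2⟩)
    refine ⟨hcomm, ?_⟩
    have h1 : ∀ y ∈ Subgroup.closure ((fun a : X => a ^ 2) '' (A : Set X)), y ∈ A ∧ y ^ 2 = 1 := by
      intro y hy
      induction hy using Subgroup.closure_induction with
      | mem y hy => obtain ⟨a, ha, rfl⟩ := hy; exact ⟨A.pow_mem ha 2, h a ha⟩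
      | one => exact ⟨A.one_mem, one_pow _⟩
      | mul y z _ _ hy hz =>
        exact ⟨A.mul_mem hy.1 hz.1, by
          rw [(show Commute y z from congrArg Subtype.val (hAa.is_comm.comm ⟨y, hy.1⟩ ⟨z, hz.1⟩)).mul_pow,
            hy.2, hz.2, one_mul]⟩
      | inv y _ hy => exact ⟨A.inv_mem hy.1, by rw [inv_pow, hy.2, inv_one]⟩
    exact fun g hg => (h1 g hg).2
  have hA0 : TI (A ⊓ Q) := by
    intro h
    have e0 : cj h (A ⊓ Q) = cj h A ⊓ Q := by
      ext y
      simp only [Subgroup.mem_inf, mem_cj]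
      refine and_congr_right fun _ => ⟨fun hy => ?_, fun hy => ?_⟩
      · have := (inferInstance : Q.Normal).conj_mem _ hy h
        simpa [mul_assoc] using this
      · have := (inferInstance : Q.Normal).conj_mem _ hy h⁻¹
        simpa [mul_assoc] using this
    rcases hti h with e | e
    · exact Or.inl (by rw [e0, show cj h A = A from e])
    · refine Or.inr (eq_bot_iff.2 ?_)
      rw [← show cj h A ⊓ A = ⊥ from e, e0]
      exact inf_le_inf inf_le_left inf_le_left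
  have hne0 : ∀ g : X, ∃ y ∈ cj g (A ⊓ Q), y ^ 2 ≠ 1 := fun g =>
    ⟨_, ⟨a0 ^ 2, ⟨A.pow_mem ha0 2, hsq a0 ha0⟩, rfl⟩, fun h => ha0' (by
      have h' : (g * a0 ^ 2 * g⁻¹) ^ 2 = 1 := h
      rwa [conj_pow, conj_eq_one_iff] at h')⟩
  have hA0Q : ∀ g : X, cj g (A ⊓ Q) ≤ Q := by
    rintro g _ ⟨y, hy, rfl⟩
    exact (inferInstance : Q.Normal).conj_mem y hy.2 g
  have hA0a : IsMulCommutative (A ⊓ Q : Subgroup X) :=
    ⟨⟨fun a b => by
      have h := congrArg Subtype.val (hAa.is_comm.comm ⟨a, a.2.1⟩ ⟨b, b.2.1⟩)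
      exact Subtype.ext h⟩⟩
  have hclo : ∀ g : X, IsMulCommutative (clo Q (cj g (A ⊓ Q))) := fun g =>
    clo_comm inferInstance (conj_commute Q _ hQ2 (hA0Q g) inferInstance (hA0.conj g) (hne0 g))
  refine Subgroup.isMulCommutative_closure ?_
  intro x hx y hy
  have hdec : ∀ z ∈ Group.conjugatesOfSet ((fun a : X => a ^ 2) '' (A : Set X)), ∃ g, z ∈ cj g (A ⊓ Q) := by
    intro z hz
    obtain ⟨b, hb, hbz⟩ := Group.mem_conjugatesOfSet_iff.1 hz
    obtain ⟨g, rfl⟩ := isConj_iff.1 hbz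
    obtain ⟨a, ha, rfl⟩ := hb
    exact ⟨g, _, ⟨A.pow_mem ha 2, hsq a ha⟩, rfl⟩
  obtain ⟨g, hg⟩ := hdec x hx
  obtain ⟨k, hk⟩ := hdec y hy
  rcases hA0.conj g (k * g⁻¹) with e | e <;> rw [cj_cj, inv_mul_cancel_right] at e
  · rw [e] at hk
    exact congrArg Subtype.val ((inferInstance : IsMulCommutative (cj g (A ⊓ Q))).is_comm.comm ⟨x, hg⟩ ⟨y, hk⟩)
  · exact commute_of_pair ((hQ2.to_le inf_le_right).map _) ((hQ2.to_le inf_le_right).map _) (hA0.conj g) (hA0.conj k)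
      (hne0 g) (hne0 k) (hclo g) (hclo k) ((clo_le (hA0Q g)).trans (le_normalizer_clo _ _))
      ((clo_le (hA0Q k)).trans (le_normalizer_clo _ _)) (le_clo _ _) (le_clo _ _) (by rw [inf_comm]; exact e)
      x hg y hk

end Cfsg.Agent.S1783
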