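import Cfsg.Statements.S1785
import Mathlib
import Cfsg.Agent.Lib.PLocal.ElementaryAbelian
-- import your own Cfsg.Agent.* helpers here

set_option autoImplicit false
open Cfsg

namespace Cfsg.Agent.S1785

open Cfsg.Lib.PLocal
open scoped commutatorElement

variable {X : Type*} [Group X]

private theorem inv_eq {U : Subgroup X} (hU : IsElementaryAbelian 2 U) {u : X} (hu : u ∈ U) : u⁻¹ = u := by
  have h := hU.2 u hu
  rw [pow_two] at h
  exact inv_eq_of_mul_eq_one_right h

private theorem mem_cent {u : X} {s : Set X} (h : ∀ y ∈ s, y * u = u * y) : u ∈ Subgroup.centralizer s :=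
  Subgroup.mem_centralizer_iff.2 h

private theorem mem_cent_single {v u : X} (h : v * u = u * v) : u ∈ Subgroup.centralizer ({v} : Set X) :=
  mem_cent fun y hy => by rw [Set.mem_singleton_iff.1 hy]; exact h

private theorem fix_sq [Finite X] {U : Subgroup X} (hU : IsElementaryAbelian 2 U) {v : X} (hv : v ^ 2 = 1)
    (hn : ∀ u ∈ U, v * u * v⁻¹ ∈ U) :
    Nat.card ↥U ≤ Nat.card ↥(U ⊓ Subgroup.centralizer ({v} : Set X)) ^ 2 := by
  let f : ↥U →* ↥U := MonoidHom.mk' (fun u => ⟨u * (v * u * v⁻¹), U.mul_mem u.2 (hn _ u.2)⟩) fun a b => by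
    apply Subtype.ext
    change (a : X) * b * (v * (a * b) * v⁻¹) = a * (v * a * v⁻¹) * (b * (v * b * v⁻¹))
    have h1 := elem_comm hU b.2 (hn _ a.2)
    calc (a : X) * b * (v * (a * b) * v⁻¹) = a * (b * (v * a * v⁻¹)) * (v * b * v⁻¹) := by group
      _ = a * ((v * a * v⁻¹) * b) * (v * b * v⁻¹) := by rw [h1]
      _ = _ := by group
  have hker : Nat.card ↥f.ker ≤ Nat.card ↥(U ⊓ Subgroup.centralizer ({v} : Set X)) := by
    refine Nat.card_le_card_of_injective (fun u => ⟨((u : ↥U) : X), ⟨(u : ↥U).2, ?_⟩⟩) ?_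
    · have h1 : ((u : ↥U) : X) * (v * (u : ↥U) * v⁻¹) = 1 := congrArg Subtype.val u.2
      have h2 := eq_inv_of_mul_eq_one_right h1
      rw [inv_eq hU (u : ↥U).2, mul_inv_eq_iff_eq_mul] at h2
      exact mem_cent_single h2
    · intro a b hab
      have h := congrArg (fun t : ↥(U ⊓ Subgroup.centralizer ({v} : Set X)) => (t : X)) hab
      exact Subtype.ext (Subtype.ext h)
  have hran : Nat.card ↥f.range ≤ Nat.card ↥(U ⊓ Subgroup.centralizer ({v} : Set X)) := by
    refine Nat.card_le_card_of_injective (fun u => ⟨((u : ↥U) : X), ⟨(u : ↥U).2, ?_⟩⟩) ?_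
    · obtain ⟨w, hw⟩ := u.2
      have h1 : ((u : ↥U) : X) = (w : X) * (v * w * v⁻¹) := by rw [← hw]; rfl
      apply mem_cent_single
      rw [h1]
      have hv' : v * v = 1 := by rw [← pow_two]; exact hv
      have hvi : v⁻¹ = v := inv_eq_of_mul_eq_one_right hv'
      have h2 := elem_comm hU w.2 (hn _ w.2)
      calc v * ((w : X) * (v * w * v⁻¹)) = (v * w * v) * (w * v⁻¹) := by simp only [mul_assoc]
        _ = (v * w * v⁻¹) * w * v⁻¹ := by rw [hvi]; simp only [mul_assoc]
        _ = (w * (v * w * v⁻¹)) * v⁻¹ := by rw [h2]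
        _ = _ := by rw [hvi]
    · intro a b hab
      have h := congrArg (fun t : ↥(U ⊓ Subgroup.centralizer ({v} : Set X)) => (t : X)) hab
      exact Subtype.ext (Subtype.ext h)
  have h := f.ker.card_mul_index
  rw [Subgroup.index_ker] at h
  rw [← h, pow_two]
  exact Nat.mul_le_mul hker hran

private theorem pow2_ge [Finite X] (hX : IsPGroup 2 X) (U : Subgroup X) {k : ℕ} (h : 2 ^ k < Nat.card ↥U) :
    2 ^ (k + 1) ≤ Nat.card ↥U := by
  obtain ⟨n, hn⟩ := IsPGroup.iff_card.1 (hX.to_subgroup U)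
  rw [hn] at h ⊢
  exact Nat.pow_le_pow_right (by norm_num) ((Nat.pow_lt_pow_iff_right (by norm_num)).1 h)

private theorem fix_single [Finite X] (hX : IsPGroup 2 X) (E : Subgroup X) [E.Normal]
    (hE : IsElementaryAbelian 2 E) (hE32 : 32 ≤ Nat.card ↥E) {v : X} (hv : v ^ 2 = 1) :
    8 ≤ Nat.card ↥(E ⊓ Subgroup.centralizer ({v} : Set X)) := by
  have h := fix_sq hE hv fun u hu => Subgroup.Normal.conj_mem inferInstance u hu v
  have h4 : 2 ^ 2 < Nat.card ↥(E ⊓ Subgroup.centralizer ({v} : Set X)) := by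
    by_contra hc
    have := Nat.pow_le_pow_left (not_lt.1 hc) 2
    omega
  exact pow2_ge hX _ h4

private theorem fix_step [Finite X] (E : Subgroup X) [E.Normal] (hE : IsElementaryAbelian 2 E) (s : Set X) {w : X}
    (hw : w ^ 2 = 1) (hcomm : ∀ y ∈ s, y * w = w * y) :
    Nat.card ↥(E ⊓ Subgroup.centralizer s) ≤ Nat.card ↥(E ⊓ Subgroup.centralizer (insert w s)) ^ 2 := by
  have h := fix_sq (elem_le hE (inf_le_left (b := Subgroup.centralizer s))) hw fun u hu =>
    ⟨Subgroup.Normal.conj_mem inferInstance u hu.1 w, mem_cent fun y hy => by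
      have h1 := Subgroup.mem_centralizer_iff.1 hu.2 y hy
      have h2 : y * w⁻¹ = w⁻¹ * y := Commute.inv_right (hcomm y hy)
      calc y * (w * u * w⁻¹) = (y * w) * u * w⁻¹ := by simp only [mul_assoc]
        _ = w * (y * u) * w⁻¹ := by rw [hcomm y hy]; simp only [mul_assoc]
        _ = w * u * (y * w⁻¹) := by rw [h1]; simp only [mul_assoc]
        _ = _ := by rw [h2]; simp only [mul_assoc]⟩
  have he : E ⊓ Subgroup.centralizer s ⊓ Subgroup.centralizer ({w} : Set X) =
      E ⊓ Subgroup.centralizer (insert w s) := by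
    ext u
    simp only [Subgroup.mem_inf, Subgroup.mem_centralizer_iff, Set.mem_insert_iff, Set.mem_singleton_iff,
      forall_eq_or_imp, forall_eq]
    tauto
  rw [he] at h
  exact h

private theorem fix_pair [Finite X] (hX : IsPGroup 2 X) (E : Subgroup X) [E.Normal]
    (hE : IsElementaryAbelian 2 E) (hE32 : 32 ≤ Nat.card ↥E) {v w : X} (hv : v ^ 2 = 1) (hw : w ^ 2 = 1)
    (hvw : v * w = w * v) :
    4 ≤ Nat.card ↥(E ⊓ Subgroup.centralizer ({w, v} : Set X)) := by
  have h8 := fix_single hX E hE hE32 hv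
  have h := fix_step E hE {v} hw fun y hy => by rw [Set.mem_singleton_iff.1 hy]; exact hvw
  have h2 : 2 ^ 1 < Nat.card ↥(E ⊓ Subgroup.centralizer ({w, v} : Set X)) := by
    by_contra hc
    have := Nat.pow_le_pow_left (not_lt.1 hc) 2
    omega
  exact pow2_ge hX _ h2

/-- A vector centralizes the group generated by two (or three) involutions it commutes with. -/
private theorem cent_sup {A B : Subgroup X} {u : X} (hA : u ∈ Subgroup.centralizer (A : Set X))
    (hB : u ∈ Subgroup.centralizer (B : Set X)) : u ∈ Subgroup.centralizer ((A ⊔ B : Subgroup X) : Set X) := by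
  rw [← Subgroup.zpowers_le, Subgroup.le_centralizer_iff] at hA hB ⊢
  exact sup_le hA hB

private theorem cent_zp {v u : X} (h : v * u = u * v) :
    u ∈ Subgroup.centralizer (Subgroup.zpowers v : Set X) := by
  rw [Subgroup.zpowers_eq_closure, Subgroup.centralizer_closure]
  exact mem_cent_single h

private theorem sup_card [Finite X] {W : Subgroup X} {x : X} (hx : x ^ 2 = 1)
    (hc : x ∈ Subgroup.centralizer (W : Set X)) (hxW : x ∉ W) :
    Nat.card ↥(W ⊔ Subgroup.zpowers x) = 2 * Nat.card ↥W := by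
  have hle : Subgroup.zpowers x ≤ Subgroup.centralizer (W : Set X) := Subgroup.zpowers_le.2 hc
  have hinf : Subgroup.zpowers x ⊓ W = ⊥ := by
    rw [Subgroup.eq_bot_iff_forall]
    rintro y ⟨hy, hyW⟩
    obtain ⟨n, rfl⟩ := Subgroup.mem_zpowers_iff.1 hy
    rcases Int.even_or_odd n with ⟨m, rfl⟩ | ⟨m, rfl⟩
    · rw [← two_mul, zpow_mul, show x ^ (2 : ℤ) = 1 by exact_mod_cast hx, one_zpow]
    · exfalso
      apply hxW
      have hyW' : x ^ (2 * m + 1) ∈ W := hyW
      rw [zpow_add, zpow_mul, show x ^ (2 : ℤ) = 1 by exact_mod_cast hx, one_zpow, one_mul, zpow_one] at hyW'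
      exact hyW'
  have h := card_sup_mul_card_inf hle
  have ho : orderOf x = 2 := orderOf_eq_prime hx fun h1 => hxW (h1 ▸ one_mem W)
  rw [hinf, Subgroup.card_bot, mul_one, Nat.card_zpowers, ho] at h
  rw [sup_comm, h]

private theorem exists_not_mem [Finite X] {W A : Subgroup X} (h : Nat.card ↥W < Nat.card ↥A) :
    ∃ x ∈ A, x ∉ W := by
  by_contra hc
  push Not at hc
  exact absurd h (not_lt.2 (Subgroup.card_le_of_le (show A ≤ W from hc)))

private theorem elem_cent {A W : Subgroup X} (hA : IsElementaryAbelian 2 A) (hW : W ≤ A) {x : X} (hx : x ∈ A) :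
    x ∈ Subgroup.centralizer (W : Set X) :=
  mem_cent fun _ hy => elem_comm hA (hW hy) hx

/-- The adjacency relation of the statement. -/
private def Adj (C D : Subgroup X) : Prop :=
  IsElementaryAbelian 2 C ∧ Nat.card ↥C = 8 ∧ IsElementaryAbelian 2 D ∧ Nat.card ↥D = 8 ∧ ⁅C, D⁆ = ⊥

private theorem adj_of_le {U C D : Subgroup X} (hU : IsElementaryAbelian 2 U) (hC : C ≤ U) (hD : D ≤ U)
    (hC8 : Nat.card ↥C = 8) (hD8 : Nat.card ↥D = 8) : Adj C D :=
  ⟨elem_le hU hC, hC8, elem_le hU hD, hD8, Subgroup.commutator_eq_bot_iff_le_centralizer.2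
    fun _ hx => elem_cent hU hD (hC hx)⟩

private theorem exists_eight [Finite X] (hX : IsPGroup 2 X) (U : Subgroup X) (h : 8 ≤ Nat.card ↥U) :
    ∃ K : Subgroup X, K ≤ U ∧ Nat.card ↥K = 8 := by
  obtain ⟨n, hn⟩ := IsPGroup.iff_card.1 (hX.to_subgroup U)
  have h3 : 3 ≤ n := by
    rw [hn] at h
    exact (Nat.pow_le_pow_iff_right (a := 2) (by norm_num)).1 h
  have hd : 2 ^ 3 ∣ Nat.card ↥U := by rw [hn]; exact pow_dvd_pow 2 h3
  haveI : Fact (Nat.Prime 2) := ⟨Nat.prime_two⟩
  obtain ⟨K, hK⟩ := Sylow.exists_subgroup_card_pow_prime 2 hd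
  exact ⟨K.map U.subtype, Subgroup.map_subtype_le K,
    (Subgroup.card_map_of_injective U.subtype_injective).trans hK⟩

private theorem to_E [Finite X] (hX : IsPGroup 2 X) (E : Subgroup X) [E.Normal]
    (hE : IsElementaryAbelian 2 E) (hE32 : 32 ≤ Nat.card ↥E) (A : Subgroup X)
    (hA : IsElementaryAbelian 2 A) (hA8 : Nat.card ↥A = 8) (K : Subgroup X) (hK : K ≤ E)
    (hK8 : Nat.card ↥K = 8) : Relation.ReflTransGen Adj A K := by
  by_cases hAE : A ≤ E
  · exact Relation.ReflTransGen.single (adj_of_le hE hAE hK hA8 hK8)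
  obtain ⟨v, hvA, hvE⟩ := Set.not_subset.1 hAE
  have hv1 : v ≠ 1 := fun h => hvE (h ▸ one_mem E)
  have hvle : Subgroup.zpowers v ≤ A := Subgroup.zpowers_le.2 hvA
  have cardv : Nat.card ↥(Subgroup.zpowers v) = 2 := by
    rw [Nat.card_zpowers]; exact orderOf_eq_prime (hA.2 v hvA) hv1
  -- a fixed point of `A`
  obtain ⟨w, hwA, hw⟩ := exists_not_mem (W := Subgroup.zpowers v) (A := A) (by omega)
  have card0 := sup_card (hA.2 w hwA) (elem_cent hA hvle hwA) hw
  have hV0A : Subgroup.zpowers v ⊔ Subgroup.zpowers w ≤ A := sup_le hvle (Subgroup.zpowers_le.2 hwA)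
  obtain ⟨t, htA, ht⟩ := exists_not_mem (W := Subgroup.zpowers v ⊔ Subgroup.zpowers w) (A := A) (by omega)
  have hA0 : Subgroup.zpowers v ⊔ Subgroup.zpowers w ⊔ Subgroup.zpowers t = A := by
    refine Subgroup.eq_of_le_of_card_ge (sup_le hV0A (Subgroup.zpowers_le.2 htA)) ?_
    rw [sup_card (hA.2 t htA) (elem_cent hA hV0A htA) ht]
    omega
  have h4 := fix_pair hX E hE hE32 (hA.2 v hvA) (hA.2 w hwA) (elem_comm hA hvA hwA)
  have h2 := fix_step E hE ({w, v} : Set X) (hA.2 t htA) fun y hy => by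
    rcases hy with h | h
    · rw [h]; exact elem_comm hA hwA htA
    · rw [Set.mem_singleton_iff.1 h]; exact elem_comm hA hvA htA
  have hne : E ⊓ Subgroup.centralizer ({t, w, v} : Set X) ≠ ⊥ := by
    intro hc
    rw [hc, Subgroup.card_bot] at h2
    omega
  obtain ⟨⟨z, hzE, hz⟩, hz1⟩ := Subgroup.ne_bot_iff_exists_ne_one.1 hne
  have hzA : z ∈ Subgroup.centralizer (A : Set X) := by
    have hzc := Subgroup.mem_centralizer_iff.1 hz
    rw [← hA0]
    exact cent_sup (cent_sup (cent_zp (hzc v (by simp))) (cent_zp (hzc w (by simp)))) (cent_zp (hzc t (by simp)))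
  have hzinv : z ^ 2 = 1 := hE.2 z hzE
  have hz1' : z ≠ 1 := fun h => hz1 (Subtype.ext h)
  have hzv : z ∉ Subgroup.zpowers v := by
    intro hc
    have h : Subgroup.zpowers z = Subgroup.zpowers v :=
      Subgroup.eq_of_le_of_card_ge (Subgroup.zpowers_le.2 hc) (by
        rw [cardv, Nat.card_zpowers, orderOf_eq_prime hzinv hz1'])
    have hv2 : v ∈ Subgroup.zpowers z := by rw [h]; exact Subgroup.mem_zpowers v
    exact hvE ((Subgroup.zpowers_le.2 hzE) hv2)
  have cardvz := sup_card hzinv (Subgroup.centralizer_le (fun _ hy => hvle hy) hzA) hzv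
  obtain ⟨s, hsA, hs⟩ := exists_not_mem (W := Subgroup.zpowers v ⊔ Subgroup.zpowers z) (A := A) (by omega)
  have cardV := sup_card (hA.2 s hsA) (elem_cent hA hvle hsA) fun h => hs (Subgroup.mem_sup_left h)
  set V := Subgroup.zpowers v ⊔ Subgroup.zpowers s with hV
  have hVA : V ≤ A := sup_le hvle (Subgroup.zpowers_le.2 hsA)
  have hvV : v ∈ V := Subgroup.mem_sup_left (Subgroup.mem_zpowers v)
  have hzV : z ∉ V := by
    intro hc
    have h : Subgroup.zpowers v ⊔ Subgroup.zpowers z = V :=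
      Subgroup.eq_of_le_of_card_ge (sup_le le_sup_left (Subgroup.zpowers_le.2 hc)) (by omega)
    exact hs (by rw [h]; exact Subgroup.mem_sup_right (Subgroup.mem_zpowers s))
  have hzVc : z ∈ Subgroup.centralizer (V : Set X) := Subgroup.centralizer_le (fun _ hy => hVA hy) hzA
  set U1 := Subgroup.zpowers z ⊔ A with hU1
  have hU1e : IsElementaryAbelian 2 U1 := elem_sup (elem_zpowers hzinv) hA (Subgroup.zpowers_le.2 hzA)
  set C2 := E ⊓ Subgroup.centralizer (V : Set X) with hC2
  set C3 := E ⊓ Subgroup.centralizer (Subgroup.zpowers v : Set X) with hC3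
  set U2 := C2 ⊔ V with hU2
  set U3 := C3 ⊔ Subgroup.zpowers v with hU3
  have hU2e : IsElementaryAbelian 2 U2 := elem_sup (elem_le hE inf_le_left) (elem_le hA hVA) inf_le_right
  have hU3e : IsElementaryAbelian 2 U3 :=
    elem_sup (elem_le hE inf_le_left) (elem_zpowers (hA.2 v hvA)) inf_le_right
  have hC24 : 4 ≤ Nat.card ↥C2 := by
    refine (fix_pair hX E hE hE32 (hA.2 v hvA) (hA.2 s hsA) (elem_comm hA hvA hsA)).trans
      (Subgroup.card_le_of_le (le_inf inf_le_left ?_))
    intro u hu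
    have huc := Subgroup.mem_centralizer_iff.1 hu.2
    exact cent_sup (cent_zp (huc v (by simp))) (cent_zp (huc s (by simp)))
  have h12 : 8 ≤ Nat.card ↥(U1 ⊓ U2) := by
    have h := sup_card hzinv hzVc hzV
    have hle : V ⊔ Subgroup.zpowers z ≤ U1 ⊓ U2 := le_inf
      (sup_le (hVA.trans le_sup_right) le_sup_left)
      (sup_le le_sup_right (Subgroup.zpowers_le.2 (Subgroup.mem_sup_left ⟨hzE, hzVc⟩)))
    have := Subgroup.card_le_of_le hle
    omega
  have h23 : 8 ≤ Nat.card ↥(U2 ⊓ U3) := by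
    have h := sup_card (W := C2) (hA.2 v hvA)
      (mem_cent fun y hy => (Subgroup.mem_centralizer_iff.1 hy.2 v hvV).symm) fun h => hvE h.1
    have hC23 : C2 ≤ C3 := le_inf inf_le_left
      (inf_le_right.trans (Subgroup.centralizer_le fun _ hy => (Subgroup.zpowers_le.2 hvV) hy))
    have hle : C2 ⊔ Subgroup.zpowers v ≤ U2 ⊓ U3 := le_inf
      (sup_le le_sup_left ((Subgroup.zpowers_le.2 hvV).trans le_sup_right))
      (sup_le (hC23.trans le_sup_left) le_sup_right)
    have := Subgroup.card_le_of_le hle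
    omega
  have h34 : 8 ≤ Nat.card ↥(U3 ⊓ E) := by
    refine (fix_single hX E hE hE32 (hA.2 v hvA)).trans (Subgroup.card_le_of_le (le_inf ?_ inf_le_left))
    refine le_trans ?_ le_sup_left
    exact le_inf inf_le_left fun u hu => cent_zp (Subgroup.mem_centralizer_iff.1 hu.2 v rfl)
  obtain ⟨K1, hK1, hK18⟩ := exists_eight hX _ h12
  obtain ⟨K2, hK2, hK28⟩ := exists_eight hX _ h23
  obtain ⟨K3, hK3, hK38⟩ := exists_eight hX _ h34
  refine Relation.ReflTransGen.trans (b := K1)
    (.single (adj_of_le hU1e le_sup_right (hK1.trans inf_le_left) hA8 hK18)) ?_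
  refine Relation.ReflTransGen.trans (b := K2)
    (.single (adj_of_le hU2e (hK1.trans inf_le_right) (hK2.trans inf_le_left) hK18 hK28)) ?_
  refine Relation.ReflTransGen.trans (b := K3)
    (.single (adj_of_le hU3e (hK2.trans inf_le_right) (hK3.trans inf_le_left) hK28 hK38)) ?_
  exact .single (adj_of_le hE (hK3.trans inf_le_right) hK hK38 hK8)

private theorem main [Finite X] (hX : IsPGroup 2 X) (E : Subgroup X) [E.Normal]
    (hE : IsElementaryAbelian 2 E) (hE32 : 32 ≤ Nat.card ↥E) :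
    (∀ A B : Subgroup X, IsElementaryAbelian 2 A → Nat.card ↥A = 8 → IsElementaryAbelian 2 B → Nat.card ↥B = 8 →
        Relation.ReflTransGen Adj A B) ∧
      (∀ V : Subgroup X, IsElementaryAbelian 2 V → Nat.card ↥V = 4 →
        ∃ A : Subgroup X, V ≤ A ∧ IsElementaryAbelian 2 A ∧ Nat.card ↥A = 8) := by
  constructor
  · intro A B hA hA8 hB hB8
    obtain ⟨K, hK, hK8⟩ := exists_eight hX E (by omega)
    refine (to_E hX E hE hE32 A hA hA8 K hK hK8).trans ?_
    refine Relation.ReflTransGen.mono ?_ _ _ ((to_E hX E hE hE32 B hB hB8 K hK hK8).swap)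
    rintro C D ⟨h1, h2, h3, h4, h5⟩
    exact ⟨h3, h4, h1, h2, by rw [Subgroup.commutator_comm]; exact h5⟩
  · intro V hV hV4
    have hV1 : V ≠ ⊥ := fun h => by rw [h, Subgroup.card_bot] at hV4; omega
    obtain ⟨⟨v, hv⟩, hv1⟩ := Subgroup.ne_bot_iff_exists_ne_one.1 hV1
    have cardv : Nat.card ↥(Subgroup.zpowers v) = 2 := by
      rw [Nat.card_zpowers]; exact orderOf_eq_prime (hV.2 v hv) fun h => hv1 (Subtype.ext h)
    obtain ⟨w, hwV, hw⟩ := exists_not_mem (W := Subgroup.zpowers v) (A := V) (by omega)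
    have hvle : Subgroup.zpowers v ≤ V := Subgroup.zpowers_le.2 hv
    have hVe : Subgroup.zpowers v ⊔ Subgroup.zpowers w = V := by
      refine Subgroup.eq_of_le_of_card_ge (sup_le hvle (Subgroup.zpowers_le.2 hwV)) ?_
      rw [sup_card (hV.2 w hwV) (elem_cent hV hvle hwV) hw]
      omega
    have h4 := fix_pair hX E hE hE32 (hV.2 v hv) (hV.2 w hwV) (elem_comm hV hv hwV)
    obtain ⟨x, hx, hxV⟩ : ∃ x ∈ E ⊓ Subgroup.centralizer ({w, v} : Set X), x ∉ V := by
      by_contra hc
      push Not at hc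
      have heq : E ⊓ Subgroup.centralizer ({w, v} : Set X) = V :=
        Subgroup.eq_of_le_of_card_ge hc (by omega)
      have hVE : V ≤ E := heq ▸ inf_le_left
      have hEV : E ≤ V := fun u hu => hc u ⟨hu, mem_cent fun y hy =>
        elem_comm hE (hVE (hy.elim (fun h => h ▸ hwV) fun h => (Set.mem_singleton_iff.1 h).symm ▸ hv)) hu⟩
      have := Subgroup.card_le_of_le hEV
      omega
    have hxc := Subgroup.mem_centralizer_iff.1 hx.2
    have hxC : x ∈ Subgroup.centralizer (V : Set X) := by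
      rw [← hVe]
      exact cent_sup (cent_zp (hxc v (by simp))) (cent_zp (hxc w (by simp)))
    refine ⟨V ⊔ Subgroup.zpowers x, le_sup_left, ?_, ?_⟩
    · rw [sup_comm]; exact elem_sup (elem_zpowers (hE.2 x hx.1)) hV (Subgroup.zpowers_le.2 hxC)
    · rw [sup_card (hE.2 x hx.1) hxC hxV]
      omega


/-- Let X be a finite 2-group having a normal elementary abelian subgroup of order at least 32. Then (a) for any two elementary abelian subgroups A, B of X of order 8 there is a chain A = A₁, A₂, …, Aₙ = B of elementary abelian subgroups of order 8 in which consecutive members commute elementwise; and (b) every elementary abelian subgroup of X of order 4 is contained in an elementary abelian subgroup of order 8. -/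
theorem result {X : Type*} [Group X] [Finite X]
    (hX : IsPGroup 2 X) (E : Subgroup X) [E.Normal] (hE : Cfsg.IsElementaryAbelian 2 E) (hE32 : 32 ≤ Nat.card ↥E) :
    (∀ A B : Subgroup X, Cfsg.IsElementaryAbelian 2 A → Nat.card ↥A = 8 → Cfsg.IsElementaryAbelian 2 B → Nat.card ↥B = 8 →
        Relation.ReflTransGen
          (fun C D : Subgroup X => Cfsg.IsElementaryAbelian 2 C ∧ Nat.card ↥C = 8 ∧ Cfsg.IsElementaryAbelian 2 D ∧ Nat.card ↥D = 8 ∧ ⁅C, D⁆ = ⊥)
          A B) ∧
      (∀ V : Subgroup X, Cfsg.IsElementaryAbelian 2 V → Nat.card ↥V = 4 →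
        ∃ A : Subgroup X, V ≤ A ∧ Cfsg.IsElementaryAbelian 2 A ∧ Nat.card ↥A = 8) := by
  obtain ⟨h1, h2⟩ := main hX E hE hE32
  exact ⟨h1, h2⟩

end Cfsg.Agent.S1785
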