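import Cfsg.Statements.S1850
import Mathlib
import Cfsg.Agent.Lib.Comp.CharP
-- import your own Cfsg.Agent.* helpers here

set_option autoImplicit false
open Cfsg

namespace Cfsg.Agent.S1850

/-- Let G be a non-abelian finite simple QTKE-group and T a Sylow 2-subgroup of G. If U is a nontrivial 2-subgroup of G with U ∩ Z(T) ≠ 1, then F*(N_G(U)) = O₂(N_G(U)). -/
theorem result {G : Type*} [Group G] [Finite G] [IsSimpleGroup G]
    (hG : ¬ IsMulCommutative G) (hQ : Cfsg.IsQTKE G) (T : Sylow 2 G) (U : Subgroup G)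
    (hU : IsPGroup 2 ↥U) (hZ : U ⊓ ((T : Subgroup G) ⊓ Subgroup.centralizer ((T : Subgroup G) : Set G)) ≠ ⊥) :
    Subgroup.normalizer (U : Set G) ∈ Cfsg.calHe G := by
  set Z := U ⊓ ((T : Subgroup G) ⊓ Subgroup.centralizer ((T : Subgroup G) : Set G))
  have hZp : IsPGroup 2 Z := hU.to_inf_left
  obtain ⟨n, hn⟩ := IsPGroup.iff_card.1 hZp
  have hn0 : n ≠ 0 := by
    rintro rfl
    rw [pow_zero, Subgroup.card_eq_one] at hn
    exact hZ hn
  obtain ⟨⟨t, htU, hts, htT⟩, ht⟩ := exists_prime_orderOf_dvd_card' (G := Z) 2 (hn ▸ dvd_pow_self 2 hn0)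
  rw [← Subgroup.orderOf_coe] at ht
  dsimp only at ht
  have htp : IsPGroup 2 (Subgroup.zpowers t) := hU.to_le (Subgroup.zpowers_le.2 htU)
  have ht1 : Subgroup.zpowers t ≠ ⊥ := by
    rw [Ne, Subgroup.zpowers_eq_bot]
    rintro rfl
    simp at ht
  have hTN : (T : Subgroup G) ≤ Subgroup.normalizer (Subgroup.zpowers t : Set G) := fun y hy => by
    refine Subgroup.centralizer_le_normalizer _ (Subgroup.mem_centralizer_iff.2 ?_)
    intro z hz
    obtain ⟨k, rfl⟩ := Subgroup.mem_zpowers_iff.1 hz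
    exact ((Commute.symm (Subgroup.mem_centralizer_iff.1 htT y hy)).zpow_left k).eq
  have hchar := hQ.2.2 _ ⟨_, htp, ht1, rfl⟩ ⟨T, hTN⟩
  have hO : Cfsg.pPrimeCore 2 ↥(Subgroup.normalizer (Subgroup.zpowers t : Set G)) = ⊥ := by
    have hle : Cfsg.pPrimeCore 2 ↥(Subgroup.normalizer (Subgroup.zpowers t : Set G)) ≤
        Subgroup.centralizer (Cfsg.pCore 2 ↥(Subgroup.normalizer (Subgroup.zpowers t : Set G)) : Set _) := by
      rw [← Subgroup.commutator_eq_bot_iff_le_centralizer, ← le_bot_iff,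
        ← Cfsg.Lib.Solv.pCore_inf_pPrimeCore 2, inf_comm]
      exact Subgroup.commutator_le_inf _ _
    rw [← inf_eq_right.2 (hle.trans hchar), Cfsg.Lib.Solv.pCore_inf_pPrimeCore 2]
  exact Cfsg.Lib.Comp.fstar_normalizer_eq_of_ge hU (Subgroup.zpowers_le.2 htU)
    (Cfsg.Lib.Comp.fstar_eq_pCore_of_centralizer hO hchar)

end Cfsg.Agent.S1850
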