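import Cfsg.Statements.S1851
import Cfsg.Agent.Lib.Comp.CharPSubgroups
import Cfsg.Agent.Lib.Comp.Component
import Cfsg.Agent.Lib.PLocal.PIrreducible
-- import your own Cfsg.Agent.* helpers here

set_option autoImplicit false
open Cfsg

namespace Cfsg.Agent.S1851

open Subgroup
open scoped Pointwise commutatorElement

variable {G : Type*} [Group G]

/-- `O_2` of a subgroup. -/
abbrev O2 (A : Subgroup G) : Subgroup G := Cfsg.pCoreTwoOf A

theorem O2_le (A : Subgroup G) : O2 A ≤ A := map_subtype_le _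

theorem isPGroup_O2 [Finite G] (A : Subgroup G) : IsPGroup 2 (O2 A) :=
  (Cfsg.Lib.Solv.isPGroup_pCore 2).map _

theorem conj_mem_O2 {A : Subgroup G} {g : G} (hg : g ∈ normalizer (A : Set G)) {x : G} (hx : x ∈ O2 A) :
    g * x * g⁻¹ ∈ O2 A := by
  obtain ⟨y, hy, rfl⟩ := hx
  have hgA := Cfsg.Lib.Solv.conj_smul_eq_self_iff.2 hg
  let φ : A ≃* A := ((MulAut.conj g).subgroupMap A).trans (MulEquiv.subgroupCongr hgA)
  exact ⟨φ y, Cfsg.Lib.Solv.map_pCore_le (f := φ.toMonoidHom) 2 φ.surjective ⟨y, hy, rfl⟩, rfl⟩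

theorem mem_normalizer_of_conj [Finite G] {A : Subgroup G} {g : G} (h : ∀ x ∈ A, g * x * g⁻¹ ∈ A) :
    g ∈ normalizer (A : Set G) :=
  Subgroup.mem_normalizer_iff.2 fun x => ⟨fun hx => h x hx, fun hx => by
    have hsurj : Function.Surjective (fun y : A => (⟨g * y * g⁻¹, h y y.2⟩ : A)) := by
      refine (Finite.injective_iff_surjective).1 fun a b hab => Subtype.ext ?_
      simpa using congrArg Subtype.val hab
    obtain ⟨y, hy⟩ := hsurj ⟨g * x * g⁻¹, hx⟩
    have hyx : (y : G) = x := by simpa using congrArg Subtype.val hy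
    exact hyx ▸ y.2⟩

theorem normalizer_le_normalizer_O2 [Finite G] (A : Subgroup G) :
    normalizer (A : Set G) ≤ normalizer (O2 A : Set G) :=
  fun _ hg => mem_normalizer_of_conj fun _ hx => conj_mem_O2 hg hx

/-- `Ω₁(Z(P))`. -/
abbrev U (P : Subgroup G) : Subgroup G := Cfsg.omegaOne 2 (P ⊓ centralizer (P : Set G))

theorem U_le (P : Subgroup G) : U P ≤ P ⊓ centralizer (P : Set G) :=
  (closure_le _).2 fun _ hx => hx.1

theorem sq_of_mem_U {P : Subgroup G} {x : G} (hx : x ∈ U P) : x ^ 2 = 1 := by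
  induction hx using closure_induction with
  | mem y hy => exact hy.2
  | one => simp
  | mul a b ha hb iha ihb =>
    have hc : Commute a b := ((mem_centralizer_iff.1 (U_le P hb).2 a (U_le P ha).1))
    rw [hc.mul_pow, iha, ihb, one_mul]
  | inv a _ iha => rw [inv_pow, iha, inv_one]

theorem mem_U {P : Subgroup G} {x : G} (h : x ∈ P ⊓ centralizer (P : Set G)) (h2 : x ^ 2 = 1) : x ∈ U P :=
  subset_closure ⟨h, h2⟩

theorem normalizer_le_normalizer_U [Finite G] (P : Subgroup G) :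
    normalizer (P : Set G) ≤ normalizer (U P : Set G) := by
  intro g hg
  refine mem_normalizer_of_conj fun x hx => mem_U ⟨(mem_normalizer_iff.1 hg x).1 (U_le P hx).1, ?_⟩ ?_
  · refine mem_centralizer_iff.2 fun y hy => ?_
    have hy' : g⁻¹ * y * g ∈ P := by
      refine (mem_normalizer_iff.1 hg _).2 ?_
      simpa [mul_assoc] using hy
    have h := mem_centralizer_iff.1 (U_le P hx).2 _ hy'
    calc y * (g * x * g⁻¹) = g * ((g⁻¹ * y * g) * x) * g⁻¹ := by group
      _ = g * (x * (g⁻¹ * y * g)) * g⁻¹ := by rw [h]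
      _ = g * x * g⁻¹ * y := by group
  · rw [conj_pow, sq_of_mem_U hx, mul_one, mul_inv_cancel]

theorem char2_congr {X Y : Type*} [Group X] [Group Y] (e : X ≃* Y)
    (h : centralizer (Cfsg.pCore 2 X : Set X) ≤ Cfsg.pCore 2 X) :
    centralizer (Cfsg.pCore 2 Y : Set Y) ≤ Cfsg.pCore 2 Y := by
  intro y hy
  have hx : e.symm y ∈ centralizer (Cfsg.pCore 2 X : Set X) := by
    refine mem_centralizer_iff.2 fun x hx => e.injective ?_
    have := mem_centralizer_iff.1 hy (e x) (Cfsg.Lib.Solv.map_pCore_le (f := e.toMonoidHom) 2 e.surjective ⟨x, hx, rfl⟩)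
    simpa using this
  exact Cfsg.Lib.Solv.map_pCore_le (f := e.toMonoidHom) 2 e.surjective ⟨_, h hx, e.apply_symm_apply y⟩

/-- An overgroup of a Sylow `2`-subgroup with `O_2 ≠ 1` has characteristic `2`. -/
theorem char2_of_evenChar [Finite G] (hG : Cfsg.IsOfEvenCharacteristic G) (T : Sylow 2 G) (H : Subgroup G)
    (hTH : (T : Subgroup G) ≤ H) (hO : Cfsg.pCore 2 H ≠ ⊥) :
    centralizer (Cfsg.pCore 2 H : Set H) ≤ Cfsg.pCore 2 H := by
  have hP1 : O2 H ≠ ⊥ := fun h => hO ((map_eq_bot_iff_of_injective _ H.subtype_injective).1 h)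
  set M := normalizer (O2 H : Set G) with hM
  have hHM : H ≤ M := le_normalizer.trans (normalizer_le_normalizer_O2 H)
  have hchar : Cfsg.IsOfCharacteristicTwo M :=
    hG M ⟨O2 H, isPGroup_O2 H, hP1, hM⟩ ⟨T, hTH.trans hHM⟩
  haveI := Cfsg.Lib.Transfer.pCore_normal (G := ↥M) 2
  set TM := T.subtype (hTH.trans hHM) with hTM
  have hT0 : (TM : Subgroup M) = (T : Subgroup G).subgroupOf M := rfl
  have hQT : Cfsg.pCore 2 M ≤ (TM : Subgroup M) := Cfsg.Lib.Transfer.pCore_le_sylow TM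
  have h := Cfsg.Lib.Comp.charP_of_centric hchar TM (Cfsg.pCore 2 M) hQT
    (by rw [normalizer_eq_top]; exact le_top) (inf_le_right.trans hchar) (H.subgroupOf M)
    (hQT.trans (fun x hx => hTH hx))
  exact char2_congr (subgroupOfEquivOfLe hHM) h

/-- A subnormal subgroup generated by its elements of odd order is normalized by `O_2`. -/
theorem O2_le_normalizer [Finite G] {H L : Subgroup G} (hLH : L ≤ H) (hL : (L.subgroupOf H).IsSubnormal)
    (hgen : Cfsg.oddGenerated L = L) : O2 H ≤ normalizer (L : Set G) := by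
  haveI : Fact (Nat.Prime 2) := ⟨Nat.prime_two⟩
  haveI := Cfsg.Lib.Transfer.pCore_normal (G := ↥H) 2
  intro g hg
  obtain ⟨g', hg', rfl⟩ := hg
  set L' := L.subgroupOf H
  set X := L' ⊔ Cfsg.pCore 2 H with hX
  have hLX : L' ≤ X := le_sup_left
  have hsub : (L'.subgroupOf X).IsSubnormal := hL.comap X.subtype
  obtain ⟨k, hk⟩ : ∃ k, (L'.subgroupOf X).index = 2 ^ k := by
    have h1 : (L'.subgroupOf X).index ∣ Nat.card (Cfsg.pCore 2 H) := by
      have h2 := Cfsg.Lib.Solv.card_sup_dvd_mul L' (Cfsg.pCore 2 H)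
      rw [← card_mul_index (L'.subgroupOf X), Nat.card_congr (subgroupOfEquivOfLe hLX).toEquiv] at h2
      exact Nat.dvd_of_mul_dvd_mul_left Nat.card_pos h2
    obtain ⟨n, hn⟩ := IsPGroup.iff_card.1 (Cfsg.Lib.Solv.isPGroup_pCore (G := ↥H) 2)
    rw [hn] at h1
    obtain ⟨k, -, hk⟩ := (Nat.dvd_prime_pow Nat.prime_two).1 h1
    exact ⟨k, hk⟩
  refine mem_normalizer_of_conj fun x hx => ?_
  have hle : Cfsg.oddGenerated L ≤ L.comap (MulAut.conj (g' : G)).toMonoidHom := by
    refine (closure_le _).2 fun y hy => ?_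
    show (g' : G) * y * (g' : G)⁻¹ ∈ L
    have hy' : (⟨y, hLH hy.1⟩ : H) ∈ X := hLX hy.1
    have hgX : g' ∈ X := mem_sup_right hg'
    have hm := Cfsg.Lib.PLocal.PIrr.mem_of_subnormal_index (p := 2) hsub hk
      ⟨_, X.mul_mem (X.mul_mem hgX hy') (X.inv_mem hgX)⟩ ?_
    · exact hm
    · rw [← Subgroup.orderOf_coe, ← Subgroup.orderOf_coe]
      show (orderOf (MulAut.conj (g' : G) y)).Coprime 2
      rw [MulEquiv.orderOf_eq]
      exact Nat.coprime_two_right.2 hy.2
  exact hle (hgen.symm ▸ hx)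

theorem O2_le_O2 [Finite G] {H L : Subgroup G} (hLH : L ≤ H) (hL : (L.subgroupOf H).IsSubnormal) :
    O2 L ≤ O2 H := by
  haveI : Fact (Nat.Prime 2) := ⟨Nat.prime_two⟩
  have h2 : ((O2 L).subgroupOf H).IsSubnormal := by
    refine IsSubnormal.trans (K := L.subgroupOf H) (fun x hx => O2_le L hx) (Normal.isSubnormal ⟨?_⟩) hL
    intro n hn l
    exact conj_mem_O2 (le_normalizer (show ((l : H) : G) ∈ L from l.2)) hn
  intro x hx
  exact ⟨⟨x, hLH (O2_le L hx)⟩, Cfsg.Lib.PLocal.PIrr.subnormal_le_pCore h2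
    ((isPGroup_O2 L).of_equiv (subgroupOfEquivOfLe ((O2_le L).trans hLH)).symm) (show x ∈ O2 L from hx), rfl⟩

/-- `L` acts nontrivially on `Ω₁(Z(O_2(LT)))`. -/
theorem commutator_ne_bot [Finite G] {H L : Subgroup G} (hLH : L ≤ H) (hL : (L.subgroupOf H).IsSubnormal)
    (hgen : Cfsg.oddGenerated L = L) (hV : Cfsg.moduleV L ≠ ⊥) : ⁅U (O2 H), L⁆ ≠ ⊥ := by
  haveI : Fact (Nat.Prime 2) := ⟨Nat.prime_two⟩
  intro hcon
  set R := O2 L
  set P := O2 H
  set V := U R
  have hPL : P ≤ normalizer (L : Set G) := O2_le_normalizer hLH hL hgen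
  have hRP : R ≤ P := O2_le_O2 hLH hL
  have hLP : L ≤ normalizer (P : Set G) := hLH.trans (le_normalizer.trans (normalizer_le_normalizer_O2 H))
  refine hV (commutator_eq_bot_iff_le_centralizer.2 (le_centralizer_iff.1 ?_))
  conv_lhs => rw [← hgen]
  refine (closure_le _).2 fun x ⟨hxL, hxo⟩ => ?_
  have hxZ : ∀ y ∈ U P, Commute x y := fun y hy =>
    (mem_centralizer_iff.1 (commutator_eq_bot_iff_le_centralizer.1 hcon hy) x hxL)
  have hxR : zpowers x ≤ normalizer (R : Set G) :=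
    zpowers_le.2 (normalizer_le_normalizer_O2 L (le_normalizer hxL))
  have hQ : (Nat.card (zpowers x)).Coprime 2 := by
    rw [Nat.card_zpowers]; exact Nat.coprime_two_right.2 hxo
  have hVP : V ≤ P := ((U_le R).trans inf_le_left).trans hRP
  refine Cfsg.Lib.Solv.thompson_PxQ (P ⊓ centralizer (zpowers x : Set G)) (zpowers x) V
    ((isPGroup_O2 H).to_le inf_le_left) hQ ((isPGroup_O2 L).to_le ((U_le R).trans inf_le_left))
    inf_le_right (inf_le_left.trans ((hPL.trans (normalizer_le_normalizer_O2 L)).trans (normalizer_le_normalizer_U R)))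
    (hxR.trans (normalizer_le_normalizer_U R)) ?_ (mem_zpowers x)
  -- a fixed point commutes with all of `P`
  rintro v ⟨hv, hvC⟩
  have hvU : v ∈ U P := by
    refine mem_U ⟨hVP hv, mem_centralizer_iff.2 fun g hg => ?_⟩ (sq_of_mem_U hv)
    have hcomm : ∀ b ∈ zpowers x, b * g * b⁻¹ * g⁻¹ ∈ R := by
      intro b hb
      have hbL : b ∈ L := zpowers_le.2 hxL hb
      have h1 : b * g * b⁻¹ * g⁻¹ ∈ L := by
        rw [show b * g * b⁻¹ * g⁻¹ = b * (g * b⁻¹ * g⁻¹) by group]
        exact L.mul_mem hbL ((mem_normalizer_iff.1 (hPL hg) _).1 (L.inv_mem hbL))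
      have h2 : b * g * b⁻¹ * g⁻¹ ∈ P := P.mul_mem ((mem_normalizer_iff.1 (hLP hbL) _).1 hg) (P.inv_mem hg)
      haveI : ((P ⊓ L).subgroupOf L).Normal := ⟨fun n hn l => by
        refine mem_subgroupOf.2 ⟨(mem_normalizer_iff.1 (hLP l.2) _).1 (mem_subgroupOf.1 hn).1, (l * n * l⁻¹).2⟩⟩
      have h4 : (P ⊓ L).subgroupOf L ≤ Cfsg.pCore 2 L := Cfsg.Lib.Solv.le_pCore inferInstance
        (((isPGroup_O2 H).to_le inf_le_left).of_equiv (subgroupOfEquivOfLe inf_le_right).symm)
      exact ⟨⟨_, h1⟩, h4 (mem_subgroupOf.2 ⟨h2, h1⟩), rfl⟩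
    obtain ⟨nP, hnP⟩ := IsPGroup.iff_card.1 (isPGroup_O2 H)
    obtain ⟨c, hc, hcg⟩ := Cfsg.Lib.Solv.fixed_coset (zpowers x) P ((zpowers_le.2 hxL).trans hLP)
      (hnP ▸ Nat.Coprime.pow_right nP hQ) (Or.inl inferInstance) R hRP
      (hPL.trans (normalizer_le_normalizer_O2 L)) hxR g hg hcomm
    have h5 : Commute c v := mem_centralizer_iff.1 hvC c hc
    have h6 : Commute (g⁻¹ * c) v := mem_centralizer_iff.1 (U_le R hv).2 _ hcg
    have hg' : g = c * (g⁻¹ * c)⁻¹ := by group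
    rw [hg']
    exact (h5.mul_left h6.inv_left).eq
  exact mem_centralizer_iff.2 fun b hb => by
    obtain ⟨k, rfl⟩ := mem_zpowers_iff.1 hb
    exact ((hxZ v hvU).zpow_left k).eq

/-- Let G be a non-abelian finite simple QTKE-group and T a Sylow 2-subgroup of G, and let L be a member of ℒ_f(G, T) (a member of ℒ(G, T) that lies in 𝒳 — L ≠ 1, L = O²(L), F*(L) = O₂(L) — and acts nontrivially on Ω₁(Z(O₂(L)))). Then (1) every member K of ℒ(G, T) containing L is again in ℒ_f(G, T) (a sharper form of (1) also compares the modules [Ω₁(Z(R)), L] and [Ω₁(Z(R')), K] for suitable 2-subgroups R, R'; that comparison is not included); and (2) if L is maximal under inclusion among the members of ℒ_f(G, T), then L is a maximal member of ℒ(G, T), hence a member of ℒ_f*(G, T). -/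
theorem result {G : Type*} [Group G] [Finite G] [IsSimpleGroup G]
    (hG : ¬ IsMulCommutative G) (hQ : Cfsg.IsQTKE G) (T : Sylow 2 G) (L : Subgroup G)
    (hL : L ∈ Cfsg.calLf (T : Subgroup G)) :
    (∀ K ∈ Cfsg.calL (T : Subgroup G), L ≤ K → K ∈ Cfsg.calLf (T : Subgroup G)) ∧
    ((∀ K ∈ Cfsg.calLf (T : Subgroup G), L ≤ K → K = L) → L ∈ Cfsg.calLfMax (T : Subgroup G)) := by
  classical
  haveI : Fact (Nat.Prime 2) := ⟨Nat.prime_two⟩
  have main : ∀ K ∈ Cfsg.calL (T : Subgroup G), L ≤ K → K ∈ Cfsg.calLf (T : Subgroup G) := by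
    intro K hK hLK
    refine ⟨hK, ?_⟩
    obtain ⟨⟨⟨-, -, hLsn, -⟩, -, -⟩, ⟨-, hLgen, -⟩, hLV⟩ := hL
    obtain ⟨⟨hKne, hKp, hKsn, -⟩, -, hO⟩ := hK
    set H := K ⊔ (T : Subgroup G) with hH
    set H0 := L ⊔ (T : Subgroup G) with hH0
    have hKH : K ≤ H := le_sup_left
    have hKperf : ⁅K, K⁆ = K := by
      have h := congrArg (Subgroup.map H.subtype) hKp
      rw [map_commutator, map_subgroupOf_eq_of_le hKH] at h
      exact h
    have hHchar := char2_of_evenChar hQ.2.2 T H le_sup_right hO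
    have hKchar : centralizer (Cfsg.pCore 2 K : Set K) ≤ Cfsg.pCore 2 K :=
      char2_congr (subgroupOfEquivOfLe hKH) (Cfsg.Lib.Comp.charP_subnormal hHchar _ hKsn)
    have hgen : Cfsg.oddGenerated K = K := by
      refine le_antisymm ((closure_le _).2 fun _ h => h.1) ?_
      haveI := Cfsg.Lib.Transfer.pResidual_normal (G := ↥K) 2
      have h1 : Cfsg.pResidual 2 K = ⊤ := by
        by_contra h1
        have hp := Cfsg.Lib.Transfer.isPGroup_quotient_of_pResidual_le (p := 2) (Cfsg.pResidual 2 K) le_rfl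
        haveI := hp.isNilpotent
        haveI : Nontrivial (↥K ⧸ Cfsg.pResidual 2 K) := by
          rw [← Finite.one_lt_card_iff_nontrivial, ← Subgroup.index_eq_card]
          exact one_lt_index_of_ne_top h1
        refine (Group.IsSolvable.commutator_lt_top_of_nontrivial (↥K ⧸ Cfsg.pResidual 2 K)).ne ?_
        have hperf : _root_.commutator K = ⊤ := Subgroup.map_injective K.subtype_injective (by
          rw [map_subtype_commutator, hKperf, ← MonoidHom.range_eq_map, range_subtype])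
        have h2 := congrArg (Subgroup.map (QuotientGroup.mk' (Cfsg.pResidual 2 K))) hperf
        rwa [commutator_def, map_commutator, map_top_of_surjective _ (QuotientGroup.mk'_surjective _)] at h2
      intro x hx
      have h2 : Cfsg.pResidual 2 K ≤ (Cfsg.oddGenerated K).comap K.subtype := by
        refine (closure_le _).2 fun y hy => subset_closure ⟨y.2, ?_⟩
        show Odd (orderOf (y : G))
        rw [Subgroup.orderOf_coe]
        exact Nat.coprime_two_right.1 hy
      exact h2 (h1.ge (mem_top ⟨x, hx⟩))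
    refine ⟨⟨fun h => hKne (by rw [h]; exact bot_subgroupOf _), hgen, ?_⟩, fun hKV => ?_⟩
    · exact Cfsg.Lib.Comp.fstar_eq_pCore_iff.2 hKchar
    -- the module of `K`
    set P := O2 H
    set P0 := O2 H0
    set RK := O2 K
    have hH0H : H0 ≤ H := sup_le (hLK.trans hKH) le_sup_right
    have hPT : P ≤ (T : Subgroup G) := by
      rintro _ ⟨y, hy, rfl⟩
      exact Cfsg.Lib.Transfer.pCore_le_sylow (T.subtype (le_sup_right : (T : Subgroup G) ≤ H)) hy
    have hP0H : P0 ≤ H := (O2_le H0).trans hH0H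
    have hPP0 : P ≤ P0 := by
      have hn0 : (P.subgroupOf H0).Normal := ⟨fun n hn g => mem_subgroupOf.2
        ((mem_normalizer_iff.1 (normalizer_le_normalizer_O2 H (le_normalizer (hH0H g.2))) _).1 hn)⟩
      intro x hx
      exact ⟨⟨x, le_sup_right (a := L) (hPT hx)⟩, Cfsg.Lib.Solv.le_pCore hn0
        ((isPGroup_O2 H).comap_subtype) (mem_subgroupOf.2 hx), rfl⟩
    have hZU : U P0 ≤ U P := by
      intro z hz
      have hzC : z ∈ centralizer (P : Set G) := centralizer_le hPP0 (U_le P0 hz).2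
      have hzP : z ∈ P := by
        refine ⟨⟨z, hP0H (U_le P0 hz).1⟩, hHchar (mem_centralizer_iff.2 fun y hy => Subtype.ext ?_), rfl⟩
        exact mem_centralizer_iff.1 hzC (y : G) ⟨y, hy, rfl⟩
      exact mem_U ⟨hzP, hzC⟩ (sq_of_mem_U hz)
    have hne : ⁅U P, K⁆ ≠ ⊥ := fun h => commutator_ne_bot (le_sup_left : L ≤ H0) hLsn hLgen hLV
      (le_bot_iff.1 (h ▸ commutator_mono hZU hLK))
    refine hne ?_
    rw [commutator_comm]
    refine Cfsg.Lib.Comp.commutator_eq_bot_of_perfect hKperf (le_bot_iff.1 ?_)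
    have hPK : P ≤ normalizer (K : Set G) := O2_le_normalizer hKH hKsn hgen
    have hRP : RK ≤ P := O2_le_O2 hKH hKsn
    have hUN : K ≤ normalizer (U P : Set G) :=
      ((hKH.trans le_normalizer).trans (normalizer_le_normalizer_O2 H)).trans (normalizer_le_normalizer_U P)
    have hKP : K ≤ normalizer (P : Set G) := (hKH.trans le_normalizer).trans (normalizer_le_normalizer_O2 H)
    haveI : ((P ⊓ K).subgroupOf K).Normal := ⟨fun n hn k => mem_subgroupOf.2
      ⟨(mem_normalizer_iff.1 (hKP k.2) _).1 (mem_subgroupOf.1 hn).1, (k * n * k⁻¹).2⟩⟩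
    have h4 : (P ⊓ K).subgroupOf K ≤ Cfsg.pCore 2 K := Cfsg.Lib.Solv.le_pCore inferInstance
      (((isPGroup_O2 H).to_le inf_le_left).of_equiv (subgroupOfEquivOfLe inf_le_right).symm)
    refine (commutator_mono ?_ le_rfl).trans (le_of_eq hKV)
    refine commutator_le.2 fun u hu k hk => ?_
    have huU : ⁅u, k⁆ ∈ U P := by
      rw [commutatorElement_def, show u * k * u⁻¹ * k⁻¹ = u * (k * u⁻¹ * k⁻¹) by group]
      exact (U P).mul_mem hu ((mem_normalizer_iff.1 (hUN hk) _).1 ((U P).inv_mem hu))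
    have huK : ⁅u, k⁆ ∈ K := by
      rw [commutatorElement_def]
      exact K.mul_mem ((mem_normalizer_iff.1 (hPK (U_le P hu).1) _).1 hk) (K.inv_mem hk)
    exact mem_U ⟨⟨⟨_, huK⟩, h4 (mem_subgroupOf.2 ⟨(U_le P huU).1, huK⟩), rfl⟩,
      centralizer_le hRP (U_le P huU).2⟩ (sq_of_mem_U huU)
  refine ⟨main, fun hmax => ⟨⟨hL.1, fun K hK hLK => ?_⟩, hL.2⟩⟩
  exact hmax K (main K hK hLK) hLK

end Cfsg.Agent.S1851
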