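import Cfsg.Statements.S1960
import Cfsg.Agent.Lib.PLocal.ClimbApply

set_option autoImplicit false
open Cfsg

namespace Cfsg.Agent.S1960

/-- Let p be a prime, G a finite group with Sylow p-subgroup S, and 𝓦 a set of conjugacy functors for p on G. Suppose that 𝓦 controls transfer in N_G(T) for every nonidentity subgroup T of S for which N_S(T) is a Sylow p-subgroup of N_G(T): for a Sylow p-subgroup T' of N_G(T), the intersection of T' with the derived subgroup of N_G(T) is generated by its intersections with the derived subgroups of the normalizers in N_G(T) of the W(T'), W ∈ 𝓦. Then 𝓦 controls transfer in G: S ∩ G' is generated by the subgroups S ∩ (N_G(W(S)))', W ∈ 𝓦. -/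
theorem result {G : Type*} [Group G] [Finite G] {p : ℕ} [Fact p.Prime] (S : Sylow p G) (𝓦 : Set (Subgroup G → Subgroup G)) (h𝓦 : ∀ W ∈ 𝓦, Cfsg.IsConjugacyFunctor p W) (hloc : ∀ T : Subgroup G, T ≤ (S : Subgroup G) → T ≠ ⊥ → ¬ p ∣ ((S : Subgroup G) ⊓ Subgroup.normalizer ((T : Subgroup G) : Set G)).relIndex (Subgroup.normalizer ((T : Subgroup G) : Set G)) → Cfsg.FamilyControlsTransferIn p 𝓦 (Subgroup.normalizer ((T : Subgroup G) : Set G))) : Cfsg.FamilyControlsTransferIn p 𝓦 ⊤ := by
  classical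
  refine ⟨(S : Subgroup G), le_top, S.isPGroup', by rw [Subgroup.relIndex_top_right]; exact S.not_dvd_index, ?_⟩
  have h := Cfsg.Lib.PLocal.Climb.family_transfer_of_locals S
    (Good := Cfsg.Lib.PLocal.Climb.Fully p (S : Subgroup G)) (fun W : 𝓦 => (W : Subgroup G → Subgroup G))
    (fun W => h𝓦 _ W.2) (fun V _ => Cfsg.Lib.PLocal.Climb.move_fully S V) (fun _ h => h) (fun T hT hTS hT1 => by
      obtain ⟨Q, h1, h2, h3, h4⟩ := hloc T hTS hT1 hT
      exact ⟨Q, h1, h2, h3, h4.le.trans (le_of_eq (iSup_subtype'' 𝓦 _).symm)⟩)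
  rw [show ⁅(⊤ : Subgroup G), ⊤⁆ = commutator G from rfl, h, iSup_subtype'' 𝓦 (fun W => (S : Subgroup G) ⊓ ⁅Subgroup.normalizer ((W (S : Subgroup G) : Subgroup G) : Set G), Subgroup.normalizer ((W (S : Subgroup G) : Subgroup G) : Set G)⁆)]
  simp only [top_inf_eq]

end Cfsg.Agent.S1960
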