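import Cfsg.Statements.S1961
import Cfsg.Agent.Lib.PLocal.ClimbApply

set_option autoImplicit false
open Cfsg

namespace Cfsg.Agent.S1961

/-- Local-to-global control of strong fusion through well-placed subgroups. Let p be a prime, G a finite group with Sylow p-subgroup S, and W a conjugacy functor for p on G. If W controls strong fusion in N_G(T) for every nonidentity subgroup T of S that is well placed in S with respect to W, then W controls strong fusion in G. -/
theorem result {G : Type*} [Group G] [Finite G] {p : ℕ} [Fact p.Prime] (S : Sylow p G) (W : Subgroup G → Subgroup G) (hW : Cfsg.IsConjugacyFunctor p W) (hloc : ∀ T : Subgroup G, T ≠ ⊥ → Cfsg.IsWellPlaced p W (S : Subgroup G) T → Cfsg.ControlsStrongFusionIn p W (Subgroup.normalizer ((T : Subgroup G) : Set G))) : Cfsg.ControlsStrongFusionIn p W ⊤ := by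
  classical
  have hW' : ∀ W' ∈ ({W} : Set (Subgroup G → Subgroup G)), IsConjugacyFunctor p W' := by
    rintro _ rfl
    exact hW
  refine ⟨(S : Subgroup G), le_top, S.isPGroup', by rw [Subgroup.relIndex_top_right]; exact S.not_dvd_index, ?_⟩
  intro A h _ hA hhA
  rw [Cfsg.Lib.PLocal.Climb.image_left] at hhA
  obtain ⟨g', hs, he⟩ := Cfsg.Lib.PLocal.Climb.family_fusion_of_locals S
    (Good := IsWellPlaced p W (S : Subgroup G)) hW' (Cfsg.Lib.PLocal.Climb.move_wellPlaced S hW)
    (fun _ h => Cfsg.Lib.PLocal.Climb.wellPlaced_fully h) (fun T hT _ hT1 => by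
      obtain ⟨Q, h1, h2, h3, h4⟩ := hloc T hT1 hT
      refine ⟨Q, h1, h2, h3, fun A h hh hA hhA => ?_⟩
      obtain ⟨x, hx, hxe⟩ := h4 A h hh hA hhA
      refine ⟨1, ![1, x], rfl, fun i => ⟨W, rfl, ?_⟩, ?_, fun a ha => hxe a ha⟩
      · have : i = 0 := Subsingleton.elim _ _
        subst this
        simpa using hx
      · intro i
        fin_cases i
        · simpa using hA
        · rintro _ ⟨a, ha, rfl⟩
          exact hhA ⟨a, ha, (hxe a ha).symm⟩) hA hhA
  have hg' : g' ∈ Subgroup.normalizer ((W (S : Subgroup G) : Subgroup G) : Set G) :=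
    hs.mem_subgroup (H := Subgroup.normalizer ((W (S : Subgroup G) : Subgroup G) : Set G)) (by
      rintro x ⟨W', rfl, hx⟩
      exact hx)
  refine ⟨g'⁻¹, ⟨Subgroup.mem_top _, Subgroup.inv_mem _ hg'⟩, fun a ha => ?_⟩
  have h5 := he a ha
  rw [inv_inv] at h5 ⊢
  exact h5.symm

end Cfsg.Agent.S1961
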