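import Cfsg.Statements.S1964
import Cfsg.Agent.Lib.PLocal.ClimbApply

set_option autoImplicit false
open Cfsg

namespace Cfsg.Agent.S1964

/-- Let p be a prime, G a finite group with Sylow p-subgroup S and W a conjugacy functor for p on G. Then the subgroups of S that are well placed in S with respect to W form a conjugation family for S in G. -/
theorem result {G : Type*} [Group G] [Finite G] {p : ℕ} [Fact p.Prime] (S : Sylow p G) (W : Subgroup G → Subgroup G) (hW : Cfsg.IsConjugacyFunctor p W) : Cfsg.IsConjugationFamily {T : Subgroup G | Cfsg.IsWellPlaced p W (S : Subgroup G) T} (S : Subgroup G) := by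
  classical
  refine ⟨fun T hT => hT.1, fun A g _ hA hgA => ?_⟩
  have hmove := Cfsg.Lib.PLocal.Climb.move_wellPlaced S hW
  have hone : ∀ T ∈ {T : Subgroup G | IsWellPlaced p W (S : Subgroup G) T}, ∀ y ∈ Subgroup.normalizer (T : Set G),
      Cfsg.Lib.PLocal.Climb.Fam {T : Subgroup G | IsWellPlaced p W (S : Subgroup G) T} (T : Set G) y := by
    intro T hT y hy
    rw [← mul_one y]
    exact .cons T hT subset_rfl hy (.nil _)
  refine (Cfsg.Lib.PLocal.Climb.global S (Good := IsWellPlaced p W (S : Subgroup G))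
    (Cfsg.Lib.PLocal.Climb.isReal_fam _) hmove ?_ ?_ (fun n _ T hT _ _ _ _ y hy => hone T hT y hy) hA hgA).exists_factor
  · obtain ⟨m, hm, hgood⟩ := hmove (S : Subgroup G) le_rfl
    rw [Cfsg.Lib.PLocal.Climb.cj_sylow_of_move S hm] at hgood
    exact hone _ hgood
  · intro B hB y
    obtain ⟨m, -, hgood⟩ := hmove ⊥ bot_le
    simp only [Cfsg.Lib.PLocal.Climb.cj, Subgroup.map_bot] at hgood
    refine (hone ⊥ hgood y ?_).mono ?_
    · exact Subgroup.mem_normalizer_iff.2 fun h => by simp
    · simpa using hB

end Cfsg.Agent.S1964
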