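import Cfsg.Statements.S1965
import Cfsg.Agent.Lib.PLocal.ClimbApply

set_option autoImplicit false
open Cfsg

namespace Cfsg.Agent.S1965

/-- Let p be a prime, G a finite group with Sylow p-subgroup S and 𝓕 a set of subgroups of S. Suppose that every subgroup T of S is G-conjugate to some member U of 𝓕 for which N_S(U) is a Sylow p-subgroup of N_G(U). Then 𝓕 is a conjugation family for S in G. -/
theorem result {G : Type*} [Group G] [Finite G] {p : ℕ} [Fact p.Prime] (S : Sylow p G) (𝓕 : Set (Subgroup G)) (h𝓕 : ∀ U ∈ 𝓕, U ≤ (S : Subgroup G)) (h : ∀ T : Subgroup G, T ≤ (S : Subgroup G) → ∃ U ∈ 𝓕, (∃ g : G, T.map (MulAut.conj g).toMonoidHom = U) ∧ ¬ p ∣ ((S : Subgroup G) ⊓ Subgroup.normalizer ((U : Subgroup G) : Set G)).relIndex (Subgroup.normalizer ((U : Subgroup G) : Set G))) : Cfsg.IsConjugationFamily 𝓕 (S : Subgroup G) := by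
  classical
  refine ⟨h𝓕, fun A g _ hA hgA => ?_⟩
  have hmove : ∀ V : Subgroup G, V ≤ (S : Subgroup G) → ∃ m : G,
      Cfsg.Lib.Transfer.conjR m (Cfsg.Lib.PLocal.Climb.sN (S : Subgroup G) V : Set G) ⊆ (S : Set G) ∧
      (Cfsg.Lib.PLocal.Climb.cj m V ∈ 𝓕 ∧
        Cfsg.Lib.PLocal.Climb.Fully p (S : Subgroup G) (Cfsg.Lib.PLocal.Climb.cj m V)) := by
    intro V hV
    obtain ⟨U, hU, ⟨k, hk⟩, hfull⟩ := h V hV
    obtain ⟨m, hm, he⟩ := Cfsg.Lib.PLocal.Climb.move_of S (V := V) (g := k⁻¹)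
      (by simpa [Cfsg.Lib.PLocal.Climb.cj] using hk) hfull
    exact ⟨m, hm, he ▸ ⟨hU, hfull⟩⟩
  have hone : ∀ T ∈ 𝓕, ∀ y ∈ Subgroup.normalizer (T : Set G),
      Cfsg.Lib.PLocal.Climb.Fam 𝓕 (T : Set G) y := by
    intro T hT y hy
    rw [← mul_one y]
    exact .cons T hT subset_rfl hy (.nil _)
  refine (Cfsg.Lib.PLocal.Climb.global S
    (Good := fun T => T ∈ 𝓕 ∧ Cfsg.Lib.PLocal.Climb.Fully p (S : Subgroup G) T)
    (Cfsg.Lib.PLocal.Climb.isReal_fam _) hmove ?_ ?_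
    (fun n _ T hT _ _ _ _ y hy => hone T hT.1 y hy) hA hgA).exists_factor
  · obtain ⟨m, hm, hgood⟩ := hmove (S : Subgroup G) le_rfl
    rw [Cfsg.Lib.PLocal.Climb.cj_sylow_of_move S hm] at hgood
    exact hone _ hgood.1
  · intro B hB y
    obtain ⟨m, -, hgood⟩ := hmove ⊥ bot_le
    simp only [Cfsg.Lib.PLocal.Climb.cj, Subgroup.map_bot] at hgood
    refine (hone ⊥ hgood.1 y ?_).mono ?_
    · exact Subgroup.mem_normalizer_iff.2 fun h => by simp
    · simpa using hB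

end Cfsg.Agent.S1965
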