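import Cfsg.Statements.S1966
import Cfsg.Agent.Lib.Transfer.Basic

set_option autoImplicit false
open Cfsg

namespace Cfsg.Agent.S1966

/-- Let p be a prime, G a finite group with Sylow p-subgroup S and 𝓕 a conjugation family for S in G. Then the members of 𝓕 containing O_p(G) still form a conjugation family for S in G. -/
theorem result {G : Type*} [Group G] [Finite G] {p : ℕ} [Fact p.Prime] (S : Sylow p G) (𝓕 : Set (Subgroup G)) (h : Cfsg.IsConjugationFamily 𝓕 (S : Subgroup G)) : Cfsg.IsConjugationFamily {T : Subgroup G | T ∈ 𝓕 ∧ Cfsg.pCore p G ≤ T} (S : Subgroup G) := by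
  classical
  refine ⟨fun T hT => h.1 T hT.1, fun A g hA hAS hgA => ?_⟩
  have hnorm : (pCore p G).Normal := Cfsg.Lib.Transfer.pCore_normal p
  have hOS : pCore p G ≤ (S : Subgroup G) := Cfsg.Lib.Transfer.pCore_le_sylow S
  have hO : ∀ x : G, ∀ a ∈ pCore p G, x⁻¹ * a * x ∈ pCore p G := fun x a ha => by
    simpa using hnorm.conj_mem a ha x⁻¹
  obtain ⟨n, T, x, h1, h2, h3, h4, h5⟩ := h.2 (A ∪ (pCore p G : Set G)) g (hA.inl) (Set.union_subset hAS hOS)
    (by
      rintro _ ⟨a, ha | ha, rfl⟩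
      · exact hgA ⟨a, ha, rfl⟩
      · exact hOS (hO g a ha))
  refine ⟨n, T, x, h1, fun i => ⟨h2 i, ?_⟩, h3, fun hn => Set.subset_union_left.trans (h4 hn),
    fun i hi => (Set.image_mono Set.subset_union_left).trans (h5 i hi)⟩
  intro a ha
  obtain ⟨i, hin⟩ := i
  rcases i with _ | j
  · exact h4 hin (Set.mem_union_right _ ha)
  · have := h5 ⟨j, by omega⟩ hin
      ⟨_, Set.mem_union_right _ (hnorm.conj_mem a ha (((List.ofFn x).take (j + 1)).prod)), rfl⟩
    simpa [mul_assoc] using this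

end Cfsg.Agent.S1966
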