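import Cfsg.Statements.S1967
import Mathlib
-- import your own Cfsg.Agent.* helpers here

set_option autoImplicit false
open Cfsg

namespace Cfsg.Agent.S1967

/-- Let p be a prime, G a finite group with Sylow p-subgroup S and W a conjugacy functor for p on G. Then W controls strong fusion in G if and only if, whenever T ≤ S and g ∈ G satisfy gTg⁻¹ ≤ S, one can write g = n c with n ∈ N_G(W(S)) and c ∈ C_G(T). -/
theorem result {G : Type*} [Group G] [Finite G] {p : ℕ} [Fact p.Prime] (S : Sylow p G) (W : Subgroup G → Subgroup G) (hW : Cfsg.IsConjugacyFunctor p W) : Cfsg.ControlsStrongFusionIn p W ⊤ ↔ ∀ (T : Subgroup G) (g : G), T ≤ (S : Subgroup G) → T.map (MulAut.conj g).toMonoidHom ≤ (S : Subgroup G) → ∃ n ∈ Subgroup.normalizer ((W (S : Subgroup G) : Subgroup G) : Set G), ∃ c ∈ Subgroup.centralizer (T : Set G), g = n * c := by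
  constructor
  · rintro ⟨T₀, -, hTp, hidx, h⟩ T g hT hg
    have : Fact p.Prime := inferInstance
    rw [Subgroup.relIndex_top_right] at hidx
    obtain ⟨k, hk⟩ := MulAction.exists_smul_eq G S (hTp.toSylow hidx)
    have hk' : (S : Subgroup G).map (MulAut.conj k).toMonoidHom = T₀ := by
      have := congrArg (fun P : Sylow p G => (P : Subgroup G)) hk
      rw [← IsPGroup.toSylow_coe hTp hidx]
      exact this
    have hW0 : W T₀ = (W (S : Subgroup G)).map (MulAut.conj k).toMonoidHom :=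
      hk' ▸ (hW _ S.2).2.2 k
    have hmem : ∀ a ∈ (S : Subgroup G), k * a * k⁻¹ ∈ T₀ := fun a ha =>
      hk' ▸ Subgroup.mem_map_of_mem (MulAut.conj k).toMonoidHom ha
    obtain ⟨x, hx, hxa⟩ := h ((fun a => k * a * k⁻¹) '' (T : Set G)) (k * g * k⁻¹) (Subgroup.mem_top _)
      (by rintro _ ⟨a, ha, rfl⟩; exact hmem a (hT ha))
      (by
        rintro _ ⟨_, ⟨a, ha, rfl⟩, rfl⟩
        have := hmem _ (hg (Subgroup.mem_map_of_mem (MulAut.conj g).toMonoidHom ha))
        show k * g * k⁻¹ * (k * a * k⁻¹) * (k * g * k⁻¹)⁻¹ ∈ T₀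
        rwa [show k * g * k⁻¹ * (k * a * k⁻¹) * (k * g * k⁻¹)⁻¹ = k * (g * a * g⁻¹) * k⁻¹ by group])
    refine ⟨k⁻¹ * x * k, ?_, (k⁻¹ * x * k)⁻¹ * g, ?_, by group⟩
    · have hx' : x ∈ Subgroup.normalizer ((W T₀ : Subgroup G) : Set G) := hx.2
      rw [hW0, Subgroup.mem_normalizer_iff] at hx'
      rw [Subgroup.mem_normalizer_iff]
      intro y
      have := hx' (k * y * k⁻¹)
      have hinj : ∀ z, z ∈ W (S : Subgroup G) ↔
          k * z * k⁻¹ ∈ (W (S : Subgroup G)).map (MulAut.conj k).toMonoidHom := fun z =>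
        (Subgroup.mem_map_iff_mem (MulAut.conj k).injective).symm
      rw [hinj y, hinj]
      rwa [show k * (k⁻¹ * x * k * y * (k⁻¹ * x * k)⁻¹) * k⁻¹ = x * (k * y * k⁻¹) * x⁻¹ by group]
    · rw [Subgroup.mem_centralizer_iff]
      intro a ha
      have h1 : x * (k * a * k⁻¹) * x⁻¹ = k * g * k⁻¹ * (k * a * k⁻¹) * (k * g * k⁻¹)⁻¹ :=
        hxa _ ⟨a, ha, rfl⟩
      have h2 : (k⁻¹ * x * k) * a * (k⁻¹ * x * k)⁻¹ = g * a * g⁻¹ :=
        calc _ = k⁻¹ * (x * (k * a * k⁻¹) * x⁻¹) * k := by group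
          _ = k⁻¹ * (k * g * k⁻¹ * (k * a * k⁻¹) * (k * g * k⁻¹)⁻¹) * k := by rw [h1]
          _ = g * a * g⁻¹ := by group
      calc a * ((k⁻¹ * x * k)⁻¹ * g)
          = (k⁻¹ * x * k)⁻¹ * ((k⁻¹ * x * k) * a * (k⁻¹ * x * k)⁻¹) * g := by group
        _ = (k⁻¹ * x * k)⁻¹ * (g * a * g⁻¹) * g := by rw [h2]
        _ = _ := by group
  · intro h
    refine ⟨S, le_top, S.2, by rw [Subgroup.relIndex_top_right]; exact S.not_dvd_index, ?_⟩
    intro A g _ hA hgA
    obtain ⟨n, hn, c, hc, rfl⟩ := h (Subgroup.closure A) g ((Subgroup.closure_le _).2 hA) (by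
      rw [MonoidHom.map_closure, Subgroup.closure_le]
      exact hgA)
    refine ⟨n, ⟨Subgroup.mem_top _, hn⟩, fun a ha => ?_⟩
    have := Subgroup.mem_centralizer_iff.1 hc a (Subgroup.subset_closure ha)
    calc n * a * n⁻¹ = n * (a * c) * c⁻¹ * n⁻¹ := by group
      _ = n * (c * a) * c⁻¹ * n⁻¹ := by rw [this]
      _ = n * c * a * (n * c)⁻¹ := by group

end Cfsg.Agent.S1967
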