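import Cfsg.Statements.S1968
import Cfsg.Agent.Lib.PLocal.ClimbApply

set_option autoImplicit false
open Cfsg

namespace Cfsg.Agent.S1968

open Cfsg.Lib.PLocal.Climb in
/-- Conjugation by `g` fixes `A` as soon as `A` is involved. -/
theorem isReal_fixes {G : Type*} [Group G] (S : Set G) (A : Subgroup G) :
    IsReal S (fun B g => ((A : Set G) ⊆ B ∨ (A : Set G) ⊆ Cfsg.Lib.Transfer.conjR g B) →
      Cfsg.Lib.Transfer.conjR g (A : Set G) = (A : Set G)) where
  one := fun _ _ => Cfsg.Lib.Transfer.conjR_one _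
  mul := by
    intro B x y _ _ h1 h2 h
    rw [Cfsg.Lib.Transfer.conjR_mul]
    rcases h with h | h
    · have e := h1 (Or.inl h)
      rw [e]
      exact h2 (Or.inl (e ▸ Cfsg.Lib.Transfer.conjR_mono x h))
    · rw [Cfsg.Lib.Transfer.conjR_mul] at h
      have e := h2 (Or.inr h)
      have h' : (A : Set G) ⊆ Cfsg.Lib.Transfer.conjR x B := by
        have := Cfsg.Lib.Transfer.conjR_mono y⁻¹ h
        rw [conjR_inv_cancel] at this
        have e' : Cfsg.Lib.Transfer.conjR y⁻¹ (A : Set G) = (A : Set G) := by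
          nth_rewrite 1 [← e]
          exact conjR_inv_cancel y _
        rwa [e'] at this
      rw [h1 (Or.inr h'), e]
  mono := fun {B B' x} hBB h h' => h (h'.imp (fun h'' => h''.trans hBB)
    (fun h'' => h''.trans (Cfsg.Lib.Transfer.conjR_mono x hBB)))
  inv := by
    intro B x _ _ h h'
    rw [conjR_inv_cancel] at h'
    have e := h h'.symm
    nth_rewrite 1 [← e]
    exact conjR_inv_cancel x _

/-- Let p be a prime, G a finite group with Sylow p-subgroup S and W a conjugacy functor for p on G with Z(P) ≤ W(P) for every p-subgroup P. Let A be a subgroup of Z(S) normalized by N_G(W(S)) that is not weakly closed in S with respect to G. Then there is a subgroup T of S, well placed in S with respect to W, such that: A ≤ T; N_G(W(N_S(T))) normalizes A; N_S(T) is a Sylow p-subgroup of N_G(T); A ≤ Z(N_S(T)); and A is not weakly closed in N_S(T) with respect to N_G(T), that is, some N_G(T)-conjugate of A other than A lies in N_S(T). -/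
theorem result {G : Type*} [Group G] [Finite G] {p : ℕ} [Fact p.Prime] (S : Sylow p G) (W : Subgroup G → Subgroup G) (hW : Cfsg.IsConjugacyFunctor p W) (hWZ : ∀ P : Subgroup G, IsPGroup p ↥P → P ⊓ Subgroup.centralizer (P : Set G) ≤ W P) (A : Subgroup G) (hAZ : A ≤ (S : Subgroup G) ⊓ Subgroup.centralizer ((S : Subgroup G) : Set G)) (hAN : Subgroup.normalizer ((W (S : Subgroup G) : Subgroup G) : Set G) ≤ Subgroup.normalizer ((A : Subgroup G) : Set G)) (hnwc : ¬ Cfsg.IsWeaklyClosed A (S : Subgroup G)) : ∃ T : Subgroup G, Cfsg.IsWellPlaced p W (S : Subgroup G) T ∧ A ≤ T ∧ Subgroup.normalizer ((W ((S : Subgroup G) ⊓ Subgroup.normalizer ((T : Subgroup G) : Set G)) : Subgroup G) : Set G) ≤ Subgroup.normalizer ((A : Subgroup G) : Set G) ∧ ¬ p ∣ ((S : Subgroup G) ⊓ Subgroup.normalizer ((T : Subgroup G) : Set G)).relIndex (Subgroup.normalizer ((T : Subgroup G) : Set G)) ∧ A ≤ Subgroup.centralizer (((S : Subgroup G) ⊓ Subgroup.normalizer ((T : Subgroup G) : Set G) : Subgroup G) : Set G)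 ∧ ∃ g ∈ Subgroup.normalizer ((T : Subgroup G) : Set G), A.map (MulAut.conj g).toMonoidHom ≤ (S : Subgroup G) ⊓ Subgroup.normalizer ((T : Subgroup G) : Set G) ∧ A.map (MulAut.conj g).toMonoidHom ≠ A := by
  classical
  by_contra hno
  have hA1 : A ≠ ⊥ := by
    rintro rfl
    exact hnwc ⟨bot_le, fun g _ => Subgroup.map_bot _⟩
  have hAS : A ≤ (S : Subgroup G) := hAZ.trans inf_le_left
  have key : ∀ T : Subgroup G, IsWellPlaced p W (S : Subgroup G) T → A ≤ T →
      ∀ y ∈ Subgroup.normalizer (T : Set G), A.map (MulAut.conj y).toMonoidHom = A := by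
    intro T
    induction hk : Nat.card (S : Subgroup G) - Nat.card (Cfsg.Lib.PLocal.Climb.sN (S : Subgroup G) T)
      using Nat.strong_induction_on generalizing T with
    | _ k ih =>
    subst hk
    intro hT hAT y hy
    set P := Cfsg.Lib.PLocal.Climb.sN (S : Subgroup G) T with hP
    have hPp := Cfsg.Lib.PLocal.Climb.isPGroup_sN S T
    have hTP : T ≤ P := le_inf hT.1 Subgroup.le_normalizer
    have hAC : A ≤ Subgroup.centralizer (P : Set G) :=
      hAZ.trans (inf_le_right.trans (Subgroup.centralizer_le inf_le_left))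
    have hAW : A ≤ W P := (le_inf (hAT.trans hTP) hAC).trans (hWZ P hPp)
    have hNA : Subgroup.normalizer ((W P : Subgroup G) : Set G) ≤ Subgroup.normalizer (A : Set G) := by
      by_cases hPS : P = (S : Subgroup G)
      · rw [hPS]; exact hAN
      intro z hz
      have hwp : IsWellPlaced p W (S : Subgroup G) (W P) :=
        ⟨(hW P hPp).1.trans inf_le_left, fun i => by
          rw [← Cfsg.Lib.PLocal.Climb.tower_shift]; exact hT.2 (i + 1)⟩
      have hlt := Cfsg.Lib.Transfer.lt_inf_normalizer (R := S) (D := P) (lt_of_le_of_ne inf_le_left hPS)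
      have hcard : Nat.card P < Nat.card (Cfsg.Lib.PLocal.Climb.sN (S : Subgroup G) (W P)) :=
        lt_of_lt_of_le (lt_of_le_of_ne (Subgroup.card_le_of_le hlt.le) fun e =>
          hlt.ne (Subgroup.eq_of_le_of_card_ge hlt.le e.ge))
          (Subgroup.card_le_of_le (inf_le_inf le_rfl (Cfsg.Lib.PLocal.Climb.functor_normalizer_le hW hPp)))
      have hle : Nat.card (Cfsg.Lib.PLocal.Climb.sN (S : Subgroup G) (W P)) ≤ Nat.card (S : Subgroup G) :=
        Subgroup.card_le_of_le inf_le_left
      have h2 := ih _ (by omega) (W P) rfl hwp hAW z hz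
      rw [Subgroup.mem_normalizer_iff]
      refine fun a => ⟨fun ha => h2 ▸ ⟨a, ha, rfl⟩, fun ha => ?_⟩
      rw [← h2] at ha
      obtain ⟨u, hu, hu'⟩ := ha
      simp only [MulEquiv.coe_toMonoidHom, MulAut.conj_apply, mul_left_inj, mul_right_inj] at hu'
      exact hu' ▸ hu
    by_contra hne
    refine hno ⟨T, hT, hAT, hNA, hT.2 0, hAC, y, hy, ?_, hne⟩
    rintro _ ⟨a, ha, rfl⟩
    exact hTP ((Subgroup.mem_normalizer_iff.1 hy a).1 (hAT ha))
  have hfix : ∀ T : Subgroup G, IsWellPlaced p W (S : Subgroup G) T → ∀ y ∈ Subgroup.normalizer (T : Set G),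
      ((A : Set G) ⊆ (T : Set G) ∨ (A : Set G) ⊆ Cfsg.Lib.Transfer.conjR y (T : Set G)) →
      Cfsg.Lib.Transfer.conjR y (A : Set G) = (A : Set G) := by
    intro T hT y hy h
    rw [Cfsg.Lib.Transfer.conjR_subgroup_of_mem_normalizer hy, or_self] at h
    rw [← Cfsg.Lib.Transfer.coe_map_conj_inv, key T hT h _ (Subgroup.inv_mem _ hy)]
  refine hnwc ⟨hAS, fun g hg => ?_⟩
  have h := Cfsg.Lib.PLocal.Climb.global S (Good := IsWellPlaced p W (S : Subgroup G)) (isReal_fixes _ A)
    (Cfsg.Lib.PLocal.Climb.move_wellPlaced S hW) ?_ ?_ (fun n _ T hT _ _ _ _ y hy => hfix T hT y hy)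
    (B := (A : Set G)) (g := g⁻¹) (fun a ha => hAS ha)
    (by rw [← Cfsg.Lib.Transfer.coe_map_conj_inv, inv_inv]; exact hg) (Or.inl subset_rfl)
  · rwa [← Cfsg.Lib.Transfer.coe_map_conj_inv, inv_inv, SetLike.coe_set_eq] at h
  · intro y hy
    obtain ⟨m, hm, hgood⟩ := Cfsg.Lib.PLocal.Climb.move_wellPlaced S hW (S : Subgroup G) le_rfl
    rw [Cfsg.Lib.PLocal.Climb.cj_sylow_of_move S hm] at hgood
    exact hfix _ hgood y hy
  · intro B hB y h
    exfalso
    apply hA1
    rw [eq_bot_iff]
    intro a ha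
    rcases h with h | h
    · exact hB (h ha)
    · obtain ⟨b, hb, rfl⟩ := h ha
      rw [Set.mem_singleton_iff.1 (hB hb)]
      simp

end Cfsg.Agent.S1968
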