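import Cfsg.Statements.S1970
import Cfsg.Agent.Lib.PLocal.TransferDegree
import Cfsg.Agent.Lib.PLocal.SectionTransport

set_option autoImplicit false
universe u
open Cfsg

namespace Cfsg.Agent.S1970

/-- Let p be a prime, G a finite group and W an isomorphism-invariant p-group functor (W assigns to every group Q a subgroup W(Q), nontrivial whenever Q is a nontrivial finite p-group, and every isomorphism from a finite p-group Q onto a group R carries W(Q) onto W(R)). Suppose that for every section G* = K/R of G with C_{G*}(O_p(G*)) ≤ O_p(G*) and every Sylow p-subgroup S* of G*, one has O_p(G*) ∩ (G*)' = O_p(G*) ∩ (N_{G*}(W(S*)))'. Then W controls transfer in every section G* of G: S* ∩ (G*)' = S* ∩ (N_{G*}(W(S*)))' for a Sylow p-subgroup S* of G*. -/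
theorem result {G : Type u} [Group G] [Finite G] {p : ℕ} [Fact p.Prime] (W : ∀ (Q : Type u) [Group Q], Subgroup Q) (hW : Cfsg.IsCharPFunctor.{u} p W) (hloc : ∀ (K R : Subgroup G) [hR : (R.subgroupOf K).Normal], Subgroup.centralizer ((Cfsg.pCore p (↥K ⧸ R.subgroupOf K) : Subgroup (↥K ⧸ R.subgroupOf K)) : Set (↥K ⧸ R.subgroupOf K)) ≤ Cfsg.pCore p (↥K ⧸ R.subgroupOf K) → ∀ T : Sylow p (↥K ⧸ R.subgroupOf K), Cfsg.pCore p (↥K ⧸ R.subgroupOf K) ⊓ commutator (↥K ⧸ R.subgroupOf K) = Cfsg.pCore p (↥K ⧸ R.subgroupOf K) ⊓ ⁅Subgroup.normalizer ((Cfsg.inducedFunctor (G := (↥K ⧸ R.subgroupOf K)) W ((T : Subgroup (↥K ⧸ R.subgroupOf K))) : Subgroup (↥K ⧸ R.subgroupOf K)) : Set (↥K ⧸ R.subgroupOf K)), Subgroup.normalizer ((Cfsg.inducedFunctor (G := (↥K ⧸ R.subgroupOf K)) W ((T : Subgroup (↥K ⧸ R.subgroupOf K))) : Subgroup (↥K ⧸ R.subgroupOf K)) : Set (↥K ⧸ R.subgroupOf K))⁆) : ∀ (K R : Subgroup G) [hR : (R.subgroupOf K).Normal], Cfsg.ControlsTransferIn p (Cfsg.inducedFunctor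 (G := (↥K ⧸ R.subgroupOf K)) W) ⊤ := by
  open Cfsg.Lib.PLocal.TransferControl in
  intro K R hR
  open Cfsg.Lib.PLocal.TransferControl in
  refine (ctl_of_involves (𝓦 := {W}) (fun L _ _ hL hm => ?_) _ (involves_section K R)).single
  have h𝓦 : ∀ W' ∈ ({W} : Set (∀ (Q : Type u) [Group Q], Subgroup Q)), Cfsg.IsCharPFunctor.{u} p W' := fun W' h => by
    rw [Set.mem_singleton_iff.1 h]; exact hW
  have hne : ({W} : Set (∀ (Q : Type u) [Group Q], Subgroup Q)).Nonempty := Set.singleton_nonempty W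
  obtain ⟨K', R', hR', ⟨e⟩⟩ := hL
  have hC := hm.centralizer_le h𝓦 hne
  obtain ⟨S⟩ : Nonempty (Sylow p L) := inferInstance
  refine hm.commutator_not_le h𝓦 hne S ?_
  obtain ⟨T, hT⟩ := Cfsg.Lib.PLocal.SectionTransport.exists_sylow_map e S
  have h1 := hloc K' R' (Cfsg.Lib.PLocal.SectionTransport.centralizer_le_of_equiv e hC) T
  have h2 := congrArg (Subgroup.map e.toMonoidHom) h1
  rw [Subgroup.map_inf _ _ _ e.injective, Subgroup.map_inf _ _ _ e.injective,
    Cfsg.Lib.PLocal.SectionTransport.map_pCore, commutator_def, Subgroup.map_commutator, Subgroup.map_commutator,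
    Subgroup.map_top_of_surjective _ e.surjective, Cfsg.Lib.PLocal.SectionTransport.map_normalizer_induced hW e T S hT] at h2
  have hQ : Cfsg.pCore p L ≤ (S : Subgroup L) := Cfsg.Lib.Transfer.pCore_le_sylow S
  haveI := Cfsg.Lib.Transfer.pCore_normal (G := L) p
  refine le_trans (le_inf (Subgroup.commutator_le_left _ _) (Subgroup.commutator_mono le_top le_rfl)) ?_
  rw [h2]
  exact (inf_le_inf_right _ hQ).trans (Cfsg.Lib.PLocal.TransferControl.le_trace (Set.mem_singleton W) _)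

end Cfsg.Agent.S1970
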