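import Cfsg.Statements.S1972
import Cfsg.Agent.Lib.PLocal.TransferDegree
import Cfsg.Agent.Lib.PLocal.SectionTransport

set_option autoImplicit false
universe u
open Cfsg

namespace Cfsg.Agent.S1972

/-- Let p be a prime, G a finite group and W an isomorphism-invariant p-group functor (W assigns to every group Q a subgroup W(Q), nontrivial whenever Q is a nontrivial finite p-group, and every isomorphism from a finite p-group Q onto a group R carries W(Q) onto W(R)). Suppose that whenever G* = K/R is a section of G with C_{G*}(O_p(G*)) ≤ O_p(G*) and S* is a Sylow p-subgroup of G* with W(S*) not normal in G*, there is an element g of S* outside O_p(G*) such that [X, g, …, g] ≤ Y with p − 1 entries g, for every chief factor X/Y of G* with X ≤ O_p(G*). Then W controls transfer in every section of G. -/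
theorem result {G : Type u} [Group G] [Finite G] {p : ℕ} [Fact p.Prime] (W : ∀ (Q : Type u) [Group Q], Subgroup Q) (hW : Cfsg.IsCharPFunctor.{u} p W) (hloc : ∀ (K R : Subgroup G) [hR : (R.subgroupOf K).Normal], Subgroup.centralizer ((Cfsg.pCore p (↥K ⧸ R.subgroupOf K) : Subgroup (↥K ⧸ R.subgroupOf K)) : Set (↥K ⧸ R.subgroupOf K)) ≤ Cfsg.pCore p (↥K ⧸ R.subgroupOf K) → ∀ T : Sylow p (↥K ⧸ R.subgroupOf K), ¬ (Cfsg.inducedFunctor (G := (↥K ⧸ R.subgroupOf K)) W ((T : Subgroup (↥K ⧸ R.subgroupOf K)))).Normal → ∃ g : (↥K ⧸ R.subgroupOf K), g ∈ (T : Subgroup (↥K ⧸ R.subgroupOf K)) ∧ g ∉ Cfsg.pCore p (↥K ⧸ R.subgroupOf K) ∧ ∀ U V : Subgroup (↥K ⧸ R.subgroupOf K), Cfsg.IsChiefFactor U V → U ≤ Cfsg.pCore p (↥K ⧸ R.subgroupOf K) → Cfsg.iterCommutator U (Subgroup.zpowers g) (p - 1) ≤ V) : ∀ (K R : Subgroup G) [hR : (R.subgroupOf K).Normal], Cfsg.ControlsTransferIn p (Cfsg.inducedFunctor (G := (↥K ⧸ R.subgroupOf K)) W) ⊤ := by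
  open Cfsg.Lib.PLocal.TransferControl Cfsg.Lib.PLocal.SectionTransport in
  intro K R hR
  open Cfsg.Lib.PLocal.TransferControl Cfsg.Lib.PLocal.SectionTransport in
  refine (ctl_of_involves (𝓦 := {W}) (fun L _ _ hL hm => ?_) _ (involves_section K R)).single
  have h𝓦 : ∀ W' ∈ ({W} : Set (∀ (Q : Type u) [Group Q], Subgroup Q)), Cfsg.IsCharPFunctor.{u} p W' := fun W' h => by
    rw [Set.mem_singleton_iff.1 h]; exact hW
  have hne : ({W} : Set (∀ (Q : Type u) [Group Q], Subgroup Q)).Nonempty := Set.singleton_nonempty W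
  obtain ⟨K', R', hR', ⟨e⟩⟩ := hL
  have hC := hm.centralizer_le h𝓦 hne
  obtain ⟨S⟩ : Nonempty (Sylow p L) := inferInstance
  obtain ⟨T, hT⟩ := exists_sylow_map e S
  by_cases hn : (Cfsg.inducedFunctor W (T : Subgroup (↥K' ⧸ R'.subgroupOf K'))).Normal
  · have hN := Subgroup.normalizer_eq_top_iff.2 (normal_induced hW e T S hT hn)
    refine hm.not_ctl (ctl_of_one h𝓦 S (le_trans (inf_le_inf_left _ ?_) (le_trace (Set.mem_singleton W) _)))
    rw [commutator_def]
    exact Subgroup.commutator_mono hN.ge hN.ge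
  obtain ⟨g, hgT, hgQ, hdeg⟩ := hloc K' R' (centralizer_le_of_equiv e hC) T hn
  refine hm.no_small_degree h𝓦 hne S (e g) (hT ▸ ⟨g, hgT, rfl⟩) (fun h => hgQ ?_) fun U V hUV hU => ?_
  · rw [← map_pCore e] at h
    obtain ⟨g', hg', hgg⟩ := h
    exact e.injective hgg ▸ hg'
  obtain ⟨U, rfl⟩ : ∃ U0 : Subgroup (↥K' ⧸ R'.subgroupOf K'), U0.map e.toMonoidHom = U := ⟨_, Subgroup.map_comap_eq_self_of_surjective e.surjective U⟩
  obtain ⟨V, rfl⟩ : ∃ V0 : Subgroup (↥K' ⧸ R'.subgroupOf K'), V0.map e.toMonoidHom = V := ⟨_, Subgroup.map_comap_eq_self_of_surjective e.surjective V⟩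
  have hUV' : Cfsg.IsChiefFactor U V := by
    obtain ⟨hlt, hUn, hVn, hmin⟩ := hUV
    refine ⟨(Subgroup.map_lt_map_iff_of_injective e.injective).1 hlt, ?_, ?_, fun N hN hVN hNU => ?_⟩
    · exact (Subgroup.comap_map_eq_self_of_injective (f := e.toMonoidHom) e.injective U) ▸ hUn.comap e.toMonoidHom
    · exact (Subgroup.comap_map_eq_self_of_injective (f := e.toMonoidHom) e.injective V) ▸ hVn.comap e.toMonoidHom
    · exact (hmin _ (hN.map _ e.surjective) (Subgroup.map_mono hVN) (Subgroup.map_mono hNU)).imp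
        (fun h => Subgroup.map_injective e.injective h) (fun h => Subgroup.map_injective e.injective h)
  have hU' : U ≤ Cfsg.pCore p (↥K' ⧸ R'.subgroupOf K') := by
    rw [← map_pCore e] at hU
    exact (Subgroup.map_le_map_iff_of_injective e.injective).1 hU
  have h1 := Subgroup.map_mono (f := e.toMonoidHom) (hdeg U V hUV' hU')
  rw [Cfsg.Lib.PLocal.WeakClosure.map_iterCommutator, MonoidHom.map_zpowers] at h1
  exact h1

end Cfsg.Agent.S1972
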