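import Cfsg.Statements.S1976
import Mathlib
-- import your own Cfsg.Agent.* helpers here

set_option autoImplicit false
open Cfsg

namespace Cfsg.Agent.S1976

/-- Let P be a finite p-group. The K-sequence of P is eventually constant on each parity: from some index on, every even-indexed term equals the lower K-infinity subgroup and every odd-indexed term equals the upper K-infinity subgroup. -/
theorem result {P : Type*} [Group P] [Finite P] {p : ℕ} [Fact p.Prime] (hP : IsPGroup p P) : ∃ n : ℕ, ∀ m : ℕ, n ≤ m → Cfsg.kSeqEven P m = Cfsg.kInfLower P ∧ Cfsg.kSeqOdd P m = Cfsg.kInfUpper P := by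
  have hmono : ∀ m, Cfsg.kSeqOdd P (m + 1) ≤ Cfsg.kSeqOdd P m ∧
      Cfsg.kSeqEven P m ≤ Cfsg.kSeqEven P (m + 1) := by
    have hup : ∀ Q R : Subgroup P, Q ≤ R → Cfsg.kUpperStarFamily R ⊆ Cfsg.kUpperStarFamily Q :=
      fun Q R h B hB => ⟨hB.1, le_trans (Subgroup.commutator_mono le_rfl h) hB.2⟩
    have hlow : ∀ Q R : Subgroup P, Q ≤ R → Cfsg.kLowerStarFamily R ⊆ Cfsg.kLowerStarFamily Q :=
      fun Q R h B hB => ⟨hB.1, h.trans hB.2.1, fun A hA hAQ => hB.2.2 A hA (hAQ.trans h)⟩
    have hodd : ∀ m : ℕ, Cfsg.kSeqOdd P (m + 1) ≤ Cfsg.kSeqOdd P m := by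
      intro m
      induction m with
      | zero => exact le_top
      | succ m ih => exact sSup_le_sSup (hup _ _ (sSup_le_sSup (hlow _ _ ih)))
    exact fun m => ⟨hodd m, sSup_le_sSup (hlow _ _ (hodd m))⟩
  obtain ⟨a, ha⟩ := WellFoundedGT.monotone_chain_condition
    ⟨Cfsg.kSeqEven P, monotone_nat_of_le_succ fun m => (hmono m).2⟩
  obtain ⟨b, hb⟩ := WellFoundedGT.monotone_chain_condition (α := (Subgroup P)ᵒᵈ)
    ⟨fun m => OrderDual.toDual (Cfsg.kSeqOdd P m), monotone_nat_of_le_succ fun m => (hmono m).1⟩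
  refine ⟨max a b, fun m hm => ⟨?_, ?_⟩⟩
  · refine le_antisymm (le_iSup (Cfsg.kSeqEven P) m) (iSup_le fun j => ?_)
    rcases le_total j m with h | h
    · exact monotone_nat_of_le_succ (fun i => (hmono i).2) h
    · exact (((ha j (by omega)).symm).trans (ha m (by omega))).le
  · refine le_antisymm (le_iInf fun j => ?_) (iInf_le (Cfsg.kSeqOdd P) m)
    rcases le_total j m with h | h
    · exact antitone_nat_of_succ_le (fun i => (hmono i).1) h
    · exact (congrArg OrderDual.ofDual (((hb m (by omega)).symm).trans (hb j (by omega)))).le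

end Cfsg.Agent.S1976
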