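import Cfsg.Statements.S1977
import Cfsg.Agent.Lib.PLocal.KInfinity

set_option autoImplicit false
open Cfsg
open scoped commutatorElement

namespace Cfsg.Agent.S1977

/-- Let P be a finite p-group. A member B that is maximal under inclusion in any one of the families used to build the K-sequence of P — the class-two family, the lower-star family relative to an odd-indexed term, or the upper-star family relative to an even-indexed term — contains its centralizer: C_P(B) ≤ B. -/
theorem result {P : Type*} [Group P] [Finite P] {p : ℕ} [Fact p.Prime] (hP : IsPGroup p P) (B : Subgroup P) (𝒦 : Set (Subgroup P)) (h𝒦 : 𝒦 = Cfsg.classTwoSubgroups P ∨ (∃ n, 𝒦 = Cfsg.kLowerStarFamily (Cfsg.kSeqOdd P n)) ∨ ∃ n, 𝒦 = Cfsg.kUpperStarFamily (Cfsg.kSeqEven P n)) (hB : B ∈ 𝒦) (hmax : ∀ C ∈ 𝒦, B ≤ C → C = B) : Subgroup.centralizer (B : Set P) ≤ B := by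
  set C := Subgroup.centralizer (B : Set P) with hC
  have hBN : B ≤ Subgroup.normalizer (B : Set P) := Subgroup.le_normalizer
  -- the subgroup acting on the centralizer
  obtain ⟨Q, hQB, hfam⟩ : ∃ Q : Subgroup P, Q ≤ Subgroup.normalizer (B : Set P) ∧
      ∀ x ∈ C, (∀ q ∈ Q, x * q * x⁻¹ * q⁻¹ ∈ B ⊓ C) → B ⊔ Subgroup.zpowers x ∈ 𝒦 := by
    have hclass : ∀ x ∈ C, B ∈ Cfsg.classTwoSubgroups P → B ⊔ Subgroup.zpowers x ∈ Cfsg.classTwoSubgroups P ∧
        B ⊓ C ≤ (B ⊔ Subgroup.zpowers x) ⊓ Subgroup.centralizer ((B ⊔ Subgroup.zpowers x : Subgroup P) : Set P) := by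
      intro x hx hB2
      set D := B ⊔ Subgroup.zpowers x
      set E := (B ⊓ C) ⊔ Subgroup.zpowers x
      have h1 : B ⊓ C ≤ Subgroup.centralizer (D : Set P) := by
        refine Subgroup.le_centralizer_iff.1 (sup_le (Subgroup.le_centralizer_iff.1 inf_le_right) ?_)
        exact Subgroup.le_centralizer_iff.1 (inf_le_left.trans (Subgroup.le_centralizer_iff.1
          (Subgroup.zpowers_le.2 hx)))
      refine ⟨?_, le_inf (inf_le_left.trans le_sup_left) h1⟩
      show ⁅D, D⁆ ≤ Subgroup.centralizer (D : Set P)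
      refine le_trans ?_ h1
      refine le_trans (Subgroup.commutator_le.2 fun a ha b hb => ?_) (le_inf (Subgroup.commutator_le_self B) hB2)
      have hD : ∀ a ∈ D, ∃ b' ∈ B, ∃ i : ℤ, a = b' * x ^ i := by
        intro a ha
        have hn : Subgroup.zpowers x ≤ Subgroup.normalizer (B : Set P) :=
          (Subgroup.zpowers_le.2 hx).trans (Subgroup.centralizer_le_normalizer _)
        rw [← SetLike.mem_coe, Subgroup.coe_mul_of_right_le_normalizer_left _ _ hn] at ha
        obtain ⟨b', hb', _, ⟨i, rfl⟩, rfl⟩ := ha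
        exact ⟨b', hb', i, rfl⟩
      obtain ⟨a', ha', i, rfl⟩ := hD a ha
      obtain ⟨b', hb', j, rfl⟩ := hD b hb
      have hc : ∀ (k : ℤ), ∀ c ∈ B, c * x ^ k = x ^ k * c := fun k c hc =>
        (Commute.zpow_right (show Commute c x from (Subgroup.mem_centralizer_iff.1 hx c hc)) k).eq
      have e : ⁅a' * x ^ i, b' * x ^ j⁆ = ⁅a', b'⁆ := by
        rw [commutatorElement_def, commutatorElement_def, mul_inv_rev, mul_inv_rev]
        calc a' * x ^ i * (b' * x ^ j) * ((x ^ i)⁻¹ * a'⁻¹) * ((x ^ j)⁻¹ * b'⁻¹)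
            = a' * (x ^ i * b') * x ^ j * (x ^ (-i) * a'⁻¹) * (x ^ (-j) * b'⁻¹) := by group
          _ = a' * (b' * x ^ i) * x ^ j * (a'⁻¹ * x ^ (-i)) * (b'⁻¹ * x ^ (-j)) := by
              rw [hc i b' hb', hc (-i) _ (inv_mem ha'), hc (-j) _ (inv_mem hb')]
          _ = a' * b' * (x ^ (i + j) * a'⁻¹) * (x ^ (-i) * b'⁻¹) * x ^ (-j) := by group
          _ = a' * b' * (a'⁻¹ * x ^ (i + j)) * (b'⁻¹ * x ^ (-i)) * x ^ (-j) := by
              rw [hc (i + j) _ (inv_mem ha'), hc (-i) _ (inv_mem hb')]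
          _ = a' * b' * a'⁻¹ * (x ^ (i + j) * b'⁻¹) * x ^ (-(i + j)) := by group
          _ = a' * b' * a'⁻¹ * (b'⁻¹ * x ^ (i + j)) * x ^ (-(i + j)) := by rw [hc (i + j) _ (inv_mem hb')]
          _ = _ := by group
      rw [e]
      exact Subgroup.commutator_mem_commutator ha' hb'
    -- commutators of the enlarged subgroup
    have hcom : ∀ (x : P) (Q : Subgroup P), x ∈ C → (∀ q ∈ Q, x * q * x⁻¹ * q⁻¹ ∈ B ⊓ C) → ⁅B, Q⁆ ≤ B ⊓ C →
        ⁅B ⊔ Subgroup.zpowers x, Q⁆ ≤ B ⊓ C := by
      intro x Q hx hq hB'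
      refine Subgroup.commutator_le.2 fun a ha q hq' => ?_
      refine Subgroup.closure_induction (p := fun a _ => ∀ q ∈ Q, ⁅a, q⁆ ∈ B ⊓ C)
        (k := (B : Set P) ∪ {x}) ?_ ?_ ?_ ?_ (?_ : a ∈ Subgroup.closure ((B : Set P) ∪ {x})) q hq'
      · rintro y (hy | rfl) q hq'
        · exact hB' (Subgroup.commutator_mem_commutator hy hq')
        · exact hq q hq'
      · intro q _
        rw [commutatorElement_one_left]; exact one_mem _
      · intro y z hy hz h1 h2 q hq'
        have e : ⁅y * z, q⁆ = y * ⁅z, q⁆ * y⁻¹ * ⁅y, q⁆ := by simp [commutatorElement_def, mul_assoc]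
        have hc : y * ⁅z, q⁆ * y⁻¹ = ⁅z, q⁆ := by
          have hy' : y ∈ B ⊔ Subgroup.zpowers x := by
            rw [Subgroup.zpowers_eq_closure, ← Subgroup.closure_eq B, ← Subgroup.closure_union]; exact hy
          have hcen : B ⊔ Subgroup.zpowers x ≤ Subgroup.centralizer ((B ⊓ C : Subgroup P) : Set P) :=
            sup_le (Subgroup.le_centralizer_iff.1 inf_le_right) ((Subgroup.zpowers_le.2 hx).trans
              (Subgroup.centralizer_le inf_le_left))
          rw [mul_inv_eq_iff_eq_mul]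
          exact (Subgroup.mem_centralizer_iff.1 (hcen hy') _ (h2 q hq')).symm
        rw [e, hc]
        exact mul_mem (h2 q hq') (h1 q hq')
      · intro y hy h1 q hq'
        have e : ⁅y⁻¹, q⁆ = y⁻¹ * ⁅y, q⁆⁻¹ * y := by simp [commutatorElement_def, mul_assoc]
        have hc : y⁻¹ * ⁅y, q⁆⁻¹ * y = ⁅y, q⁆⁻¹ := by
          have hy' : y ∈ B ⊔ Subgroup.zpowers x := by
            rw [Subgroup.zpowers_eq_closure, ← Subgroup.closure_eq B, ← Subgroup.closure_union]; exact hy
          have hcen : B ⊔ Subgroup.zpowers x ≤ Subgroup.centralizer ((B ⊓ C : Subgroup P) : Set P) :=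
            sup_le (Subgroup.le_centralizer_iff.1 inf_le_right) ((Subgroup.zpowers_le.2 hx).trans
              (Subgroup.centralizer_le inf_le_left))
          rw [mul_assoc, Subgroup.mem_centralizer_iff.1 (hcen hy') _ (inv_mem (h1 q hq'))]
          group
        rw [e, hc]
        exact inv_mem (h1 q hq')
      · rw [Subgroup.closure_union, Subgroup.closure_eq, ← Subgroup.zpowers_eq_closure]; exact ha
    rcases h𝒦 with rfl | ⟨n, rfl⟩ | ⟨n, rfl⟩
    · exact ⟨⊥, bot_le, fun x hx _ => (hclass x hx hB).1⟩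
    · refine ⟨Cfsg.kSeqOdd P n, hB.2.1, fun x hx hq => ⟨(hclass x hx hB.1).1, ?_, ?_⟩⟩
      · intro q hq'
        refine Subgroup.mem_normalizer_fintype fun y hy => ?_
        have hle : (B ⊔ Subgroup.zpowers x).map (MulAut.conj q).toMonoidHom ≤ B ⊔ Subgroup.zpowers x := by
          rw [Subgroup.map_sup]
          refine sup_le ?_ ?_
          · rintro _ ⟨b, hb, rfl⟩
            exact Subgroup.mem_sup_left ((Subgroup.mem_normalizer_iff.1 (hB.2.1 hq') b).1 hb)
          · rw [MonoidHom.map_zpowers, Subgroup.zpowers_le]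
            have h1 := hq q hq'
            have e : (MulAut.conj q).toMonoidHom x = (x * q * x⁻¹ * q⁻¹)⁻¹ * x := by simp [mul_assoc]
            rw [e]
            exact mul_mem (inv_mem (Subgroup.mem_sup_left h1.1)) (Subgroup.mem_sup_right (Subgroup.mem_zpowers x))
        exact hle ⟨y, hy, rfl⟩
      · intro A hA hAQ hBA h1 h2
        refine le_trans (hcom x A hx (fun a ha => hq a (hAQ ha)) ?_) (hclass x hx hB.1).2
        exact hB.2.2 A hA hAQ (le_sup_left.trans hBA)
          (le_bot_iff.1 ((Subgroup.commutator_mono le_sup_left le_rfl).trans h1.le))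
          (le_bot_iff.1 ((Subgroup.commutator_mono (Subgroup.commutator_mono (hclass x hx hB.1).2 le_rfl) le_rfl).trans h2.le))
    · refine ⟨Cfsg.kSeqEven P n, fun q hq => Subgroup.mem_normalizer_fintype fun b hb => ?_,
        fun x hx hq => ⟨(hclass x hx hB.1).1, (hcom x _ hx hq hB.2).trans (hclass x hx hB.1).2⟩⟩
      have h := (hB.2 (Subgroup.commutator_mem_commutator hb hq)).1
      rw [show q * b * q⁻¹ = (b⁻¹ * ⁅b, q⁆)⁻¹ by simp [commutatorElement_def, mul_assoc]]
      exact inv_mem (mul_mem (inv_mem hb) h)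
  -- a fixed point on the quotient
  intro x0 hx0
  by_contra hx0B
  set M := B ⊔ Q
  have hMN : M ≤ Subgroup.normalizer (B : Set P) := sup_le hBN hQB
  have hCn : Subgroup.normalizer (B : Set P) ≤ Subgroup.normalizer (C : Set P) := fun g hg => by
    refine Subgroup.mem_normalizer_fintype fun y hy => Subgroup.mem_centralizer_iff.2 fun b hb => ?_
    have h1 : g⁻¹ * b * g ∈ B := by
      have := (Subgroup.mem_normalizer_iff.1 (inv_mem hg) b).1 hb
      rwa [inv_inv] at this
    have h2 := Subgroup.mem_centralizer_iff.1 hy _ h1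
    calc b * (g * y * g⁻¹) = g * (g⁻¹ * b * g * y) * g⁻¹ := by group
      _ = g * (y * (g⁻¹ * b * g)) * g⁻¹ := by rw [h2]
      _ = g * y * g⁻¹ * b := by group
  set N := Subgroup.normalizer (B : Set P)
  have hCN : C ≤ N := Subgroup.centralizer_le_normalizer _
  haveI : (B.subgroupOf N).Normal := Subgroup.normal_in_normalizer
  haveI : (C.subgroupOf N).Normal := (Subgroup.normal_subgroupOf_iff_le_normalizer hCN).2 hCn
  haveI : (B.subgroupOf N ⊓ C.subgroupOf N).Normal := inferInstance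
  obtain ⟨B', b, -, -, hB'C, -, hbB', hbn, -, hfix⟩ := Cfsg.Lib.Transfer.exists_normal_step (p := p)
    (hP.to_subgroup N) (B.subgroupOf N ⊓ C.subgroupOf N) (C.subgroupOf N)
    (lt_of_le_of_ne inf_le_right fun e => hx0B (e.ge (show (⟨x0, hCN hx0⟩ : N) ∈ C.subgroupOf N from hx0)).1)
  have hmem : B ⊔ Subgroup.zpowers (b : P) ∈ 𝒦 := by
    refine hfam b (hB'C hbB') fun q hq => ?_
    obtain ⟨h1, h2⟩ := inv_mem (hfix ⟨q, hQB hq⟩)
    exact ⟨by simpa [Subgroup.mem_subgroupOf, mul_assoc] using h1, by simpa [Subgroup.mem_subgroupOf, mul_assoc] using h2⟩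
  exact hbn ⟨(hmax _ hmem le_sup_left).le (Subgroup.mem_sup_right (Subgroup.mem_zpowers (b : P))), hB'C hbB'⟩

end Cfsg.Agent.S1977
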