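import Cfsg.Statements.S1980
import Mathlib
-- import your own Cfsg.Agent.* helpers here

set_option autoImplicit false
open Cfsg

namespace Cfsg.Agent.S1980

/-- Let P be a finite p-group and A an abelian normal subgroup of P. Then A belongs to every family used to build the K-sequence of P: the class-two family, every lower-star family relative to an odd-indexed term, and every upper-star family relative to an even-indexed term. In particular A lies in every term of the K-sequence. -/
theorem result {P : Type*} [Group P] [Finite P] {p : ℕ} [Fact p.Prime] (hP : IsPGroup p P) (A : Subgroup P) [A.Normal] (hA : IsMulCommutative ↥A) : A ∈ Cfsg.classTwoSubgroups P ∧ ∀ n : ℕ, A ∈ Cfsg.kLowerStarFamily (Cfsg.kSeqOdd P n) ∧ A ∈ Cfsg.kUpperStarFamily (Cfsg.kSeqEven P n) := by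
  have hAA : A ≤ Subgroup.centralizer (A : Set P) := fun a ha => Subgroup.mem_centralizer_iff.2
    fun b hb => congrArg Subtype.val (hA.is_comm.comm (⟨b, hb⟩ : A) ⟨a, ha⟩)
  have hclass : A ∈ Cfsg.classTwoSubgroups P := by
    show ⁅A, A⁆ ≤ Subgroup.centralizer (A : Set P)
    rw [Subgroup.commutator_eq_bot_iff_le_centralizer.2 hAA]
    exact bot_le
  have hcomm : ∀ Q : Subgroup P, ⁅A, Q⁆ ≤ A ⊓ Subgroup.centralizer (A : Set P) := fun Q =>
    le_inf (Subgroup.commutator_le_left A Q) ((Subgroup.commutator_le_left A Q).trans hAA)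
  exact ⟨hclass, fun n => ⟨⟨hclass, by rw [Subgroup.normalizer_eq_top]; exact le_top,
    fun B _ _ _ _ _ => hcomm B⟩, ⟨hclass, hcomm _⟩⟩⟩

end Cfsg.Agent.S1980
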