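import Cfsg.Statements.S1981
import Cfsg.Agent.Lib.PLocal.KInfinity

set_option autoImplicit false
open Cfsg

namespace Cfsg.Agent.S1981

/-- Let P be a finite p-group generated by its abelian normal subgroups. Then both K-infinity subgroups of P equal P. -/
theorem result {P : Type*} [Group P] [Finite P] {p : ℕ} [Fact p.Prime] (hP : IsPGroup p P) (hgen : ⨆ A ∈ {A : Subgroup P | A.Normal ∧ IsMulCommutative ↥A}, A = ⊤) : Cfsg.kInfLower P = ⊤ ∧ Cfsg.kInfUpper P = ⊤ := by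
  have key : ∀ A ∈ {A : Subgroup P | A.Normal ∧ IsMulCommutative ↥A}, A ≤ Cfsg.kInfLower P ∧ A ≤ Cfsg.kInfUpper P := by
    rintro A ⟨hn, hc⟩
    haveI := hn
    exact Cfsg.Lib.PLocal.KInf.abelianNormal_le_kInf A fun a ha => Subgroup.mem_centralizer_iff.2
      fun b hb => congrArg Subtype.val (hc.is_comm.comm (⟨b, hb⟩ : A) ⟨a, ha⟩)
  exact ⟨top_le_iff.1 (hgen ▸ iSup₂_le fun A hA => (key A hA).1),
    top_le_iff.1 (hgen ▸ iSup₂_le fun A hA => (key A hA).2)⟩

end Cfsg.Agent.S1981
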