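import Cfsg.Statements.S1982
import Cfsg.Agent.Lib.PLocal.KInfTransfer

set_option autoImplicit false
universe u
open Cfsg

namespace Cfsg.Agent.S1982

/-- Let p be a prime, G a finite group with Sylow p-subgroup S, T = O_p(G), and A a characteristic subgroup of T with A/Z(A) elementary abelian, [T, A] ≤ Z(A), C_T(A) = Z(A), and such that every automorphism of T of order prime to p fixing A elementwise is trivial (a critical subgroup of T). Suppose that the lower or the upper K-infinity subgroup of S is not normal in G. Then there is an element g of S outside T with [A, g, g, g] ≤ Z(A) and [Z(A), g, g] = 1, and such that if moreover C_G(T) ≤ T then some chief factor X/Y of G with X ≤ A satisfies [X, g, g] ≤ Y but [X, g] ≰ Y. -/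
theorem result {G : Type u} [Group G] [Finite G] {p : ℕ} [Fact p.Prime] (S : Sylow p G) (A : Subgroup G) (hAT : A ≤ (Cfsg.pCore p G)) (hAchar : (A.subgroupOf (Cfsg.pCore p G)).Characteristic) (hA1 : ∀ a ∈ A, a ^ p ∈ A ⊓ Subgroup.centralizer ((A : Subgroup G) : Set G)) (hA2 : ⁅A, A⁆ ≤ Subgroup.centralizer ((A : Subgroup G) : Set G)) (hA3 : ⁅(Cfsg.pCore p G), A⁆ ≤ A ⊓ Subgroup.centralizer ((A : Subgroup G) : Set G)) (hA4 : (Cfsg.pCore p G) ⊓ Subgroup.centralizer ((A : Subgroup G) : Set G) = A ⊓ Subgroup.centralizer ((A : Subgroup G) : Set G)) (hA5 : ∀ φ : MulAut ↥(Cfsg.pCore p G), (orderOf φ).Coprime p → (∀ a : ↥(Cfsg.pCore p G), (a : G) ∈ A → φ a = a) → φ = 1) (hK : ¬ (Cfsg.inducedFunctor Cfsg.kInfLower (S : Subgroup G)).Normal ∨ ¬ (Cfsg.inducedFunctor Cfsg.kInfUpper (S : Subgroup G)).Normal) : ∃ g : G, g ∈ (S : Subgroup G) ∧ g ∉ (Cfsg.pCore p G) ∧ Cfsg.iterCommutator A (Subgroup.zpowers g) 3 ≤ A ⊓ Subgroup.centralizer ((A :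 Subgroup G) : Set G) ∧ ⁅⁅A ⊓ Subgroup.centralizer ((A : Subgroup G) : Set G), (Subgroup.zpowers g)⁆, (Subgroup.zpowers g)⁆ = ⊥ ∧ (Subgroup.centralizer (((Cfsg.pCore p G) : Subgroup G) : Set G) ≤ (Cfsg.pCore p G) → ∃ U V : Subgroup G, Cfsg.IsChiefFactor U V ∧ U ≤ A ∧ ⁅⁅U, (Subgroup.zpowers g)⁆, (Subgroup.zpowers g)⁆ ≤ V ∧ ¬ ⁅U, (Subgroup.zpowers g)⁆ ≤ V) := by
  open Cfsg.Lib.PLocal Cfsg.Lib.PLocal.Displacement Cfsg.Lib.PLocal.KInfSmall in
  haveI := Cfsg.Lib.Transfer.pCore_normal (G := G) p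
  haveI := hAchar
  haveI hAn : A.Normal := by
    rw [← Subgroup.map_subgroupOf_eq_of_le hAT]
    exact ConjAct.normal_of_characteristic_of_normal
  set ZA := A ⊓ Subgroup.centralizer (A : Set G)
  have hD : Cfsg.Lib.PLocal.KInfSmall.Critical p A :=
    ⟨hAn, hAT, hA2, by rw [Subgroup.commutator_comm]; exact hA3, hA4.le.trans inf_le_left⟩
  have hout : ∀ g : G, Cfsg.Lib.PLocal.KInfSmall.Cubic A g →
      Cfsg.iterCommutator A (Subgroup.zpowers g) 3 ≤ ZA ∧ ⁅⁅ZA, Subgroup.zpowers g⁆, Subgroup.zpowers g⁆ = ⊥ :=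
    fun g hg => ⟨Cfsg.Lib.PLocal.Displacement.iterCommutator_le A ZA (le_inf (Subgroup.commutator_le_self A) hA2) g 3 hg.1,
      le_bot_iff.1 (Cfsg.Lib.PLocal.Displacement.iterCommutator_le ZA ⊥
        (le_of_eq (Subgroup.commutator_eq_bot_iff_le_centralizer.2 fun x hx => Subgroup.centralizer_le inf_le_left hx.2))
        g 2 fun z hz => Subgroup.mem_bot.2 (hg.2 z hz))⟩
  have hneg : ¬ ((Cfsg.inducedFunctor Cfsg.kInfLower (S : Subgroup G)).Normal ∧
      (Cfsg.inducedFunctor Cfsg.kInfUpper (S : Subgroup G)).Normal) :=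
    fun h => hK.elim (fun h1 => h1 h.1) fun h2 => h2 h.2
  by_cases hC : Subgroup.centralizer (((Cfsg.pCore p G) : Subgroup G) : Set G) ≤ Cfsg.pCore p G
  · by_contra hno
    refine hneg (Cfsg.Lib.PLocal.KInfSmall.normal_of_factors S hD hC fun g hgS hg U V hUV hU hq u hu => ?_)
    by_contra hu'
    haveI := hUV.2.1
    haveI := hUV.2.2.1
    refine hno ⟨g, hgS, fun hgQ => hu' ((Cfsg.Lib.PLocal.Displacement.chief_commutator_le hUV
      (Cfsg.Lib.Transfer.pCore_isPGroup p) (hU.trans hAT)).1 (Subgroup.commutator_mem_commutator hgQ hu)),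
      (hout g hg).1, (hout g hg).2, fun _ => ⟨U, V, hUV, hU, Cfsg.Lib.PLocal.Displacement.iterCommutator_le U V
        (Cfsg.Lib.PLocal.Displacement.chief_commutator_le hUV (Cfsg.Lib.Transfer.pCore_isPGroup p) (hU.trans hAT)).2
        g 2 hq, fun hle => hu' ?_⟩⟩
    exact hle (by rw [← commutatorElement_inv]; exact inv_mem (Subgroup.commutator_mem_commutator hu (Subgroup.mem_zpowers g)))
  · obtain ⟨g, hgS, hgQ, hg⟩ := Cfsg.Lib.PLocal.KInfSmall.exists_cubic S hD hneg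
    exact ⟨g, hgS, hgQ, (hout g hg).1, (hout g hg).2, fun h => absurd h hC⟩

end Cfsg.Agent.S1982
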