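import Cfsg.Statements.S1983
import Cfsg.Agent.Lib.PLocal.KInfTransfer

set_option autoImplicit false
universe u
open Cfsg

namespace Cfsg.Agent.S1983

/-- Let p be a prime, G a finite group with Sylow p-subgroup S and T = O_p(G). Suppose that the lower or the upper K-infinity subgroup of S is not normal in G. Then there is an element g of S outside T such that [X, g, g, g, g] ≤ Y for every chief factor X/Y of G with X ≤ T, and [Z(T), g, g] = 1; and if moreover C_G(T) ≤ T then some quotient group of G is not p-stable (in the normalizer form: some quadratically acting element of a normalizer fails to map into O_p of the automizer). -/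
theorem result {G : Type u} [Group G] [Finite G] {p : ℕ} [Fact p.Prime] (S : Sylow p G) (hK : ¬ (Cfsg.inducedFunctor Cfsg.kInfLower (S : Subgroup G)).Normal ∨ ¬ (Cfsg.inducedFunctor Cfsg.kInfUpper (S : Subgroup G)).Normal) : ∃ g : G, g ∈ (S : Subgroup G) ∧ g ∉ (Cfsg.pCore p G) ∧ (∀ U V : Subgroup G, Cfsg.IsChiefFactor U V → U ≤ (Cfsg.pCore p G) → Cfsg.iterCommutator U (Subgroup.zpowers g) 4 ≤ V) ∧ ⁅⁅((Cfsg.pCore p G) ⊓ Subgroup.centralizer (((Cfsg.pCore p G) : Subgroup G) : Set G)), (Subgroup.zpowers g)⁆, (Subgroup.zpowers g)⁆ = ⊥ ∧ (Subgroup.centralizer (((Cfsg.pCore p G) : Subgroup G) : Set G) ≤ (Cfsg.pCore p G) → ∃ (N : Subgroup G) (_ : N.Normal), ¬ Cfsg.IsNormalizerPStable p (G ⧸ N)) := by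
  obtain ⟨D, hD⟩ := Cfsg.Lib.PLocal.KInfSmall.exists_critical_core (G := G) (p := p)
  have hneg : ¬ ((Cfsg.inducedFunctor Cfsg.kInfLower (S : Subgroup G)).Normal ∧
      (Cfsg.inducedFunctor Cfsg.kInfUpper (S : Subgroup G)).Normal) :=
    fun h => hK.elim (fun h1 => h1 h.1) fun h2 => h2 h.2
  obtain ⟨g, hgS, hgQ, hg⟩ := Cfsg.Lib.PLocal.KInfSmall.exists_cubic S hD hneg
  obtain ⟨h1, h2⟩ := Cfsg.Lib.PLocal.KInfSmall.degree_four_commutators hD hg
  refine ⟨g, hgS, hgQ, h1, h2, fun hC => ?_⟩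
  by_contra hno
  exact hneg (Cfsg.Lib.PLocal.KInfSmall.normal_of_stable S hC fun N _ => by_contra fun h => hno ⟨N, inferInstance, h⟩)

end Cfsg.Agent.S1983
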