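import Cfsg.Statements.S1985
import Cfsg.Agent.Lib.PLocal.WeakClosureEngel
import Cfsg.Agent.Lib.PLocal.KInfinity

set_option autoImplicit false
universe u
open Cfsg

namespace Cfsg.Agent.S1985

/-- Let p be an odd prime and G a finite group. Then the lower K-infinity subgroup controls weak closure of elements in G: the lower K-infinity subgroup of every p-subgroup P of G contains Z(P), and for some (equivalently, every) Sylow p-subgroup S of G, with K the lower K-infinity subgroup of S, every element of S commuting with all of N_G(K) is weakly closed in S with respect to G (every G-conjugate of it lying in S equals it). -/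
theorem result {G : Type u} [Group G] [Finite G] {p : ℕ} [Fact p.Prime] (hp : p ≠ 2) : Cfsg.ControlsWeakClosureOfElementsIn p (Cfsg.inducedFunctor (G := G) Cfsg.kInfLower) ⊤ := by
  refine Cfsg.Lib.PLocal.WeakClosure.weakly_closed_engel _ Cfsg.Lib.PLocal.KInf.isConjugacyFunctor
    (fun P _ => Cfsg.Lib.PLocal.KInf.center_le_induced P) (fun H T h1 h2 h3 h4 => ?_) ⊤
  obtain ⟨g, hg, hgQ, hq⟩ := Cfsg.Lib.PLocal.KInf.exists_quadratic H T h1 h2 h3 h4
  refine ⟨g, hg, hgQ, fun U V _ hU => ?_⟩
  have h2' : Cfsg.iterCommutator (U.map H.subtype) (Subgroup.zpowers g) 2 = ⊥ :=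
    le_bot_iff.1 ((Subgroup.commutator_mono (Subgroup.commutator_mono hU le_rfl) le_rfl).trans hq.le)
  have hz : ∀ n, Cfsg.iterCommutator (U.map H.subtype) (Subgroup.zpowers g) (2 + n) = ⊥ := by
    intro n
    induction n with
    | zero => exact h2'
    | succ n ih =>
      show ⁅Cfsg.iterCommutator (U.map H.subtype) (Subgroup.zpowers g) (2 + n), Subgroup.zpowers g⁆ = ⊥
      rw [ih, Subgroup.commutator_bot_left]
  have h3p : 3 ≤ p := by
    have := (Fact.out : p.Prime).two_le
    omega
  rw [show p - 1 = 2 + (p - 3) by omega, hz]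
  exact bot_le

end Cfsg.Agent.S1985
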