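import Cfsg.Statements.S1988
import Cfsg.Agent.Lib.PLocal.KInfNormal
import Cfsg.Agent.Lib.PLocal.FunctorComplement

set_option autoImplicit false
universe u
open Cfsg

namespace Cfsg.Agent.S1988

/-- Let p be an odd prime, G a finite group with Sylow p-subgroup S and K the lower K-infinity subgroup of S. If N_G(K) has a normal p-complement, or if N_G(K)/C_G(K) is a p-group (every element of N_G(K) of order prime to p centralizes K), then G has a normal p-complement. -/
theorem result {G : Type u} [Group G] [Finite G] {p : ℕ} [Fact p.Prime] (hp : p ≠ 2) (S : Sylow p G) (h : Cfsg.HasNormalPComplement p ↥(Subgroup.normalizer ((Cfsg.inducedFunctor Cfsg.kInfLower (S : Subgroup G) : Subgroup G) : Set G)) ∨ ∀ g ∈ Subgroup.normalizer ((Cfsg.inducedFunctor Cfsg.kInfLower (S : Subgroup G) : Subgroup G) : Set G), (orderOf g).Coprime p → g ∈ Subgroup.centralizer ((Cfsg.inducedFunctor Cfsg.kInfLower (S : Subgroup G) : Subgroup G) : Set G)) : Cfsg.HasNormalPComplement p G := by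
  have hP : Cfsg.Lib.PLocal.IsPFunctor p
      (fun {X : Type u} [Group X] (Q : Subgroup X) => Cfsg.inducedFunctor Cfsg.kInfLower Q) :=
    { map := fun {X Y} _ _ _ f Q _ hf => by
        let f' : Q →* Q.map f := (f.comp Q.subtype).codRestrict (Q.map f) fun x => ⟨x, x.2, rfl⟩
        have hbij : Function.Bijective f' := by
          refine ⟨fun x y h => Subtype.ext (hf x.2 y.2 (congrArg Subtype.val h)), ?_⟩
          rintro ⟨_, x, hx, rfl⟩
          exact ⟨⟨x, hx⟩, rfl⟩
        show (Cfsg.kInfLower ↥(Q.map f)).map (Q.map f).subtype = ((Cfsg.kInfLower ↥Q).map Q.subtype).map f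
        rw [← Cfsg.Lib.PLocal.KInf.kInfLower_equiv (MulEquiv.ofBijective f' hbij), Subgroup.map_map, Subgroup.map_map]
        rfl
      le := fun Q => Cfsg.Lib.PLocal.KInf.induced_le Q
      ne_bot := fun Q hQ hne => (Cfsg.Lib.PLocal.KInf.isConjugacyFunctor Q hQ).2.1 hne }
  refine Cfsg.Lib.PLocal.functor_complement_core hP (fun _ _ => True) (fun _ _ _ _ => trivial)
    (fun _ _ _ _ _ => trivial) ?_ _ G le_rfl trivial ⟨S, ?_⟩
  · intro X _ _ _ hC P K' m hK hOK hKc hm hKm hKS hinv hN
    haveI := hK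
    exact Cfsg.Lib.PLocal.hasNormalPComplement_congr_top
      (Cfsg.Lib.PLocal.KInf.normal_kInfLower hp hC P K' hOK hKc hm hKm hKS hinv) hN
  rcases h with h | h
  · exact h
  set K := Cfsg.inducedFunctor Cfsg.kInfLower (S : Subgroup G) with hKdef
  set N := Subgroup.normalizer (K : Set G)
  have hSN : (S : Subgroup G) ≤ N := Subgroup.le_normalizer.trans (Cfsg.Lib.PLocal.KInf.normalizer_le_induced _)
  have hS : Cfsg.Lib.PLocal.WeakClosure.IsSylowIn p (S : Subgroup G) N :=
    (⟨le_top, S.isPGroup', by rw [Subgroup.relIndex_top_right]; exact S.not_dvd_index⟩ :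
      Cfsg.Lib.PLocal.WeakClosure.IsSylowIn p (S : Subgroup G) ⊤).of_le hSN le_top
  have hCS : ∀ x ∈ (S : Subgroup G), x ∈ Subgroup.centralizer (K : Set G) → x ∈ K := fun x hx hc => by
    refine ⟨⟨x, hx⟩, (Cfsg.Lib.PLocal.KInf.centralizer_kInf_le S.isPGroup').1 ?_, rfl⟩
    exact Subgroup.mem_centralizer_iff.2 fun y hy => Subtype.ext
      (Subgroup.mem_centralizer_iff.1 hc y ⟨y, hy, rfl⟩)
  set C' : Subgroup N := (Subgroup.centralizer (K : Set G)).subgroupOf N with hC'
  obtain ⟨P⟩ : Nonempty (Sylow p C') := inferInstance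
  have hnpc : Cfsg.HasNormalPComplement p C' := by
    refine Cfsg.Lib.Transfer.hasNormalPComplement_of_normalizer_le_centralizer P fun x _ =>
      Subgroup.mem_centralizer_iff.2 fun y hy => ?_
    set U := ((P : Subgroup C').map C'.subtype).map N.subtype with hU
    obtain ⟨n, hn, hle⟩ := hS.exists_conj_le (U := U) (Subgroup.map_subtype_le _) ((P.isPGroup'.map _).map _)
    have hyK : ((y : N) : G) ∈ K := by
      have hyU : ((y : N) : G) ∈ U := ⟨(y : N), ⟨y, hy, rfl⟩, rfl⟩
      refine (Subgroup.mem_normalizer_iff.1 hn _).2 (hCS _ (hle ⟨_, hyU, rfl⟩) ?_)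
      refine Subgroup.mem_centralizer_iff.2 fun z hz => ?_
      have hz' : n⁻¹ * z * n ∈ K := (Subgroup.mem_normalizer_iff.1 hn _).2 (by
        rwa [show n * (n⁻¹ * z * n) * n⁻¹ = z by group])
      have h2 := Subgroup.mem_centralizer_iff.1 y.2 _ hz'
      show z * (n * ((y : N) : G) * n⁻¹) = n * ((y : N) : G) * n⁻¹ * z
      calc z * (n * ((y : N) : G) * n⁻¹) = n * (n⁻¹ * z * n * ((y : N) : G)) * n⁻¹ := by group
        _ = n * (((y : N) : G) * (n⁻¹ * z * n)) * n⁻¹ := congrArg (fun w => n * w * n⁻¹) h2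
        _ = _ := by group
    exact Subtype.ext (Subtype.ext (Subgroup.mem_centralizer_iff.1 x.2 _ hyK))
  rw [Cfsg.Lib.Transfer.hasNormalPComplement_iff_pResidual] at hnpc ⊢
  have hle : Cfsg.pResidual p N ≤ (Cfsg.pResidual p C').map C'.subtype := by
    refine (Subgroup.closure_le _).2 fun g hg => ?_
    have hgC : g ∈ C' := h _ g.2 ((Subgroup.orderOf_coe g).symm ▸ hg)
    exact ⟨⟨g, hgC⟩, Subgroup.subset_closure (show (orderOf (⟨g, hgC⟩ : C')).Coprime p by
      rw [← Subgroup.orderOf_coe]; exact hg), rfl⟩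
  refine Nat.Coprime.coprime_dvd_left (Subgroup.card_dvd_of_le hle) ?_
  rw [Subgroup.card_map_of_injective C'.subtype_injective]
  exact hnpc

end Cfsg.Agent.S1988
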