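import Cfsg.Statements.S1990
import Cfsg.Agent.Lib.PLocal.FunctorComplement
-- import your own Cfsg.Agent.* helpers here

set_option autoImplicit false
universe u
open Cfsg

namespace Cfsg.Agent.S1990

/-- Let p be an odd prime, G a finite group with Sylow p-subgroup S, and W an isomorphism-invariant p-group functor (W assigns to every group Q a subgroup W(Q), nontrivial whenever Q is a nontrivial finite p-group, and every isomorphism from a finite p-group Q onto a group R carries W(Q) onto W(R)). Suppose N_G(W(S)) has a normal p-complement, and W(T) controls strong fusion in every section G* = K/R of G all of whose sections are p-stable in the normalizer form, for every Sylow p-subgroup T of G*. Then G has a normal p-complement. -/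
theorem result {G : Type u} [Group G] [Finite G] {p : ℕ} [Fact p.Prime] (hp : p ≠ 2) (W : ∀ (Q : Type u) [Group Q], Subgroup Q) (hW : Cfsg.IsCharPFunctor.{u} p W) (S : Sylow p G) (hN : Cfsg.HasNormalPComplement p ↥(Subgroup.normalizer ((Cfsg.inducedFunctor (G := G) W (S : Subgroup G) : Subgroup G) : Set G))) (hctl : ∀ (K R : Subgroup G) [hR : (R.subgroupOf K).Normal], (∀ (K' R' : Subgroup (↥K ⧸ R.subgroupOf K)) [hR' : (R'.subgroupOf K').Normal], Cfsg.IsNormalizerPStable p (↥K' ⧸ R'.subgroupOf K')) → ∀ T : Sylow p (↥K ⧸ R.subgroupOf K), Cfsg.ControlsStrongFusion p (Cfsg.inducedFunctor (G := (↥K ⧸ R.subgroupOf K)) W (T : Subgroup (↥K ⧸ R.subgroupOf K)))) : Cfsg.HasNormalPComplement p G := by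
  let W' : ∀ {X : Type u} [Group X], Subgroup X → Subgroup X := fun {X} [Group X] Q => Cfsg.inducedFunctor W Q
  have hmap : ∀ {X Y : Type u} [Group X] [Group Y] [Finite X] (f : X →* Y) (Q : Subgroup X), IsPGroup p Q →
      Set.InjOn f Q → W' (Q.map f) = (W' Q).map f := by
    intro X Y _ _ _ f Q hQ hf
    let f' : Q →* Q.map f := (f.comp Q.subtype).codRestrict (Q.map f) fun x => ⟨x, x.2, rfl⟩
    have hbij : Function.Bijective f' := by
      refine ⟨fun x y h => Subtype.ext (hf x.2 y.2 (congrArg Subtype.val h)), ?_⟩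
      rintro ⟨_, x, hx, rfl⟩
      exact ⟨⟨x, hx⟩, rfl⟩
    let e : Q ≃* Q.map f := MulEquiv.ofBijective f' hbij
    show (W ↥(Q.map f)).map (Q.map f).subtype = ((W ↥Q).map Q.subtype).map f
    rw [← hW.2 Q (Q.map f) hQ e, Subgroup.map_map, Subgroup.map_map]
    rfl
  have hP : Cfsg.Lib.PLocal.IsPFunctor p (fun {X} [Group X] Q => W' Q) :=
    { map := fun f Q hQ hf => hmap f Q hQ hf
      le := fun Q => Subgroup.map_subtype_le _
      ne_bot := fun Q hQ hne h => hW.1 Q hQ ((Subgroup.nontrivial_iff_ne_bot Q).2 hne)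
        ((Subgroup.map_eq_bot_iff_of_injective _ Q.subtype_injective).1 h) }
  refine Cfsg.Lib.PLocal.functor_complement_aux hp hP _ G le_rfl ?_ ⟨S, hN⟩
  intro L _ _ hL hst T a ha g hg
  obtain ⟨K, R, hn, ⟨e⟩⟩ := hL
  have he : ∀ (M : Type u) [Group M] [Finite M], Cfsg.Involves M (↥K ⧸ R.subgroupOf K) → Cfsg.IsNormalizerPStable p M :=
    fun M _ _ hM => hst M (Cfsg.Lib.Fusion.involves_of_injective e.toMonoidHom e.injective hM)
  have hc := hctl K R (fun K' R' hR' => he _ ⟨K', R', hR', ⟨MulEquiv.refl _⟩⟩)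
  have hU : ∀ T' : Sylow p (↥K ⧸ R.subgroupOf K),
      ∀ a' ∈ (T' : Subgroup (↥K ⧸ R.subgroupOf K)), ∀ g', g' * a' * g'⁻¹ ∈ (T' : Subgroup (↥K ⧸ R.subgroupOf K)) →
      ∃ x ∈ Subgroup.normalizer (W' (T' : Subgroup (↥K ⧸ R.subgroupOf K)) : Set (↥K ⧸ R.subgroupOf K)),
        x * a' * x⁻¹ = g' * a' * g'⁻¹ := by
    intro T' a' ha' g' hg'
    obtain ⟨T0, hUT, hfus⟩ := hc T'
    -- move into the Sylow subgroup of the definition
    set U := W' (T' : Subgroup (↥K ⧸ R.subgroupOf K)) with hUdef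
    set N := Subgroup.normalizer (U : Set (↥K ⧸ R.subgroupOf K)) with hNdef
    have hT'N : (T' : Subgroup (↥K ⧸ R.subgroupOf K)) ≤ N :=
      Subgroup.le_normalizer.trans (hP.normalizer_le _ T'.isPGroup')
    have hT0N : (T0 : Subgroup (↥K ⧸ R.subgroupOf K)) ≤ N := by
      intro t ht
      refine Subgroup.mem_normalizer_fintype fun u hu => ?_
      obtain ⟨-, h⟩ := hfus (U : Set (↥K ⧸ R.subgroupOf K)) hUT
      obtain ⟨x, hx, hxa⟩ := h t (by
        rintro _ ⟨u, hu, rfl⟩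
        exact mul_mem (mul_mem ht (hUT hu)) (inv_mem ht))
      rw [hxa u hu]
      exact (Subgroup.mem_normalizer_iff.1 hx u).1 hu
    obtain ⟨c, hc'⟩ := MulAction.exists_smul_eq N (T'.subtype hT'N) (T0.subtype hT0N)
    have hcT : ∀ y : ↥K ⧸ R.subgroupOf K, y ∈ (T' : Subgroup (↥K ⧸ R.subgroupOf K)) →
        (c : ↥K ⧸ R.subgroupOf K) * y * (c : ↥K ⧸ R.subgroupOf K)⁻¹ ∈ (T0 : Subgroup (↥K ⧸ R.subgroupOf K)) := by
      intro y hy
      have h1 : c * ⟨y, hT'N hy⟩ * c⁻¹ ∈ ((T0.subtype hT0N : Sylow p N) : Subgroup N) := by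
        rw [← hc', Sylow.coe_subgroup_smul]
        exact Subgroup.smul_mem_pointwise_smul _ (MulAut.conj c) _
          (show (⟨y, hT'N hy⟩ : N) ∈ ((T'.subtype hT'N : Sylow p N) : Subgroup N) from hy)
      exact h1
    set d := (c : ↥K ⧸ R.subgroupOf K) with hd
    obtain ⟨-, h⟩ := hfus {d * a' * d⁻¹} (by rintro _ rfl; exact hcT a' ha')
    obtain ⟨x, hx, hxa⟩ := h (d * g' * d⁻¹) (by
      rintro _ ⟨y, rfl, rfl⟩
      have e1 : d * g' * d⁻¹ * (d * a' * d⁻¹) * (d * g' * d⁻¹)⁻¹ = d * (g' * a' * g'⁻¹) * d⁻¹ := by group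
      show d * g' * d⁻¹ * (d * a' * d⁻¹) * (d * g' * d⁻¹)⁻¹ ∈ (T0 : Subgroup (↥K ⧸ R.subgroupOf K))
      rw [e1]
      exact hcT _ hg')
    refine ⟨d⁻¹ * x * d, mul_mem (mul_mem (inv_mem c.2) hx) c.2, ?_⟩
    have e2 := hxa (d * a' * d⁻¹) rfl
    calc d⁻¹ * x * d * a' * (d⁻¹ * x * d)⁻¹ = d⁻¹ * (x * (d * a' * d⁻¹) * x⁻¹) * d := by group
      _ = d⁻¹ * (d * g' * d⁻¹ * (d * a' * d⁻¹) * (d * g' * d⁻¹)⁻¹) * d := by rw [← e2]
      _ = g' * a' * g'⁻¹ := by group
  -- transport along the isomorphism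
  obtain ⟨T', hT'⟩ : ∃ T' : Sylow p (↥K ⧸ R.subgroupOf K),
      (T' : Subgroup (↥K ⧸ R.subgroupOf K)).map e.toMonoidHom = (T : Subgroup L) :=
    ⟨T.mapSurjective e.symm.surjective, by
      rw [Sylow.coe_mapSurjective, Subgroup.map_map]
      rw [show e.toMonoidHom.comp e.symm.toMonoidHom = MonoidHom.id L from
        MonoidHom.ext fun x => e.apply_symm_apply x]
      exact Subgroup.map_id _⟩
  have ha0 := ha
  rw [← hT'] at ha0
  obtain ⟨a', ha', rfl⟩ := ha0
  obtain ⟨g', rfl⟩ := e.surjective g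
  have hg0 : g' * a' * g'⁻¹ ∈ (T' : Subgroup (↥K ⧸ R.subgroupOf K)) := by
    rw [← hT'] at hg
    obtain ⟨b, hb, hbe⟩ := hg
    have : b = g' * a' * g'⁻¹ := e.injective (by rw [map_mul, map_mul, map_inv]; exact hbe)
    exact this ▸ hb
  obtain ⟨x, hx, hxa⟩ := hU T' a' ha' g' hg0
  refine ⟨e x, ?_, ?_⟩
  · rw [← hT']
    show e x ∈ Subgroup.normalizer (W' ((T' : Subgroup (↥K ⧸ R.subgroupOf K)).map e.toMonoidHom) : Set L)
    rw [hmap e.toMonoidHom _ T'.isPGroup' e.injective.injOn]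
    exact Subgroup.le_normalizer_map _ ⟨x, hx, rfl⟩
  · show e x * e a' * (e x)⁻¹ = e g' * e a' * (e g')⁻¹
    rw [← map_inv, ← map_mul, ← map_mul, hxa, map_mul, map_mul, map_inv]

end Cfsg.Agent.S1990
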