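import Cfsg.Statements.S1997
import Cfsg.Agent.Lib.PLocal.FamilyOmega

set_option autoImplicit false
universe u
open Cfsg

namespace Cfsg.Agent.S1997

/-- Let p be a prime, G a finite group with Sylow p-subgroup S, and W₁, W₂ two isomorphism-invariant p-group functors (W assigns to every group Q a subgroup W(Q), nontrivial whenever Q is a nontrivial finite p-group, and every isomorphism from a finite p-group Q onto a group R carries W(Q) onto W(R)). Suppose that G* = C_{G*}(Ω₁Z(S*)) N_{G*}(W₁(S*)) = C_{G*}(Ω₁Z(S*)) N_{G*}(W₂(S*)) = N_{G*}(W₁(S*)) N_{G*}(W₂(S*)) whenever G* = K/R is a section of G with C_{G*}(O_p(G*)) ≤ O_p(G*) and S* is a Sylow p-subgroup of G*, where Ω₁Z denotes the subgroup generated by the elements of order dividing p in the centre. Suppose also Ω₁Z(S) ≤ W₁(S) ∩ W₂(S), and let A be the normal closure of Ω₁Z(S) in N_G(W₁(S)). Then A is an elementary abelian subgroup of S, strongly closed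 in S with respect to G, and A controls strong fusion in G. -/
theorem result {G : Type u} [Group G] [Finite G] {p : ℕ} [Fact p.Prime] (S : Sylow p G) (W₁ W₂ : ∀ (Q : Type u) [Group Q], Subgroup Q) (hW₁ : Cfsg.IsCharPFunctor.{u} p W₁) (hW₂ : Cfsg.IsCharPFunctor.{u} p W₂) (hfac : ∀ (K R : Subgroup G) [hR : (R.subgroupOf K).Normal], Subgroup.centralizer ((Cfsg.pCore p (↥K ⧸ R.subgroupOf K) : Subgroup (↥K ⧸ R.subgroupOf K)) : Set (↥K ⧸ R.subgroupOf K)) ≤ Cfsg.pCore p (↥K ⧸ R.subgroupOf K) → ∀ T : Sylow p (↥K ⧸ R.subgroupOf K), (∀ x : (↥K ⧸ R.subgroupOf K), ∃ a ∈ Subgroup.centralizer ((Cfsg.omegaOne p ((T : Subgroup (↥K ⧸ R.subgroupOf K)) ⊓ Subgroup.centralizer (((T : Subgroup (↥K ⧸ R.subgroupOf K)) : Subgroup (↥K ⧸ R.subgroupOf K)) : Set (↥K ⧸ R.subgroupOf K))) : Subgroup (↥K ⧸ R.subgroupOf K)) : Set (↥K ⧸ R.subgroupOf K)), ∃ b ∈ Subgroup.normalizer ((Cfsg.inducedFunctor (G := (↥K ⧸ R.subgroupOf K)) W₁ (T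 : Subgroup (↥K ⧸ R.subgroupOf K)) : Subgroup (↥K ⧸ R.subgroupOf K)) : Set (↥K ⧸ R.subgroupOf K)), x = a * b) ∧ (∀ x : (↥K ⧸ R.subgroupOf K), ∃ a ∈ Subgroup.centralizer ((Cfsg.omegaOne p ((T : Subgroup (↥K ⧸ R.subgroupOf K)) ⊓ Subgroup.centralizer (((T : Subgroup (↥K ⧸ R.subgroupOf K)) : Subgroup (↥K ⧸ R.subgroupOf K)) : Set (↥K ⧸ R.subgroupOf K))) : Subgroup (↥K ⧸ R.subgroupOf K)) : Set (↥K ⧸ R.subgroupOf K)), ∃ b ∈ Subgroup.normalizer ((Cfsg.inducedFunctor (G := (↥K ⧸ R.subgroupOf K)) W₂ (T : Subgroup (↥K ⧸ R.subgroupOf K)) : Subgroup (↥K ⧸ R.subgroupOf K)) : Set (↥K ⧸ R.subgroupOf K)), x = a * b) ∧ (∀ x : (↥K ⧸ R.subgroupOf K), ∃ a ∈ Subgroup.normalizer ((Cfsg.inducedFunctor (G := (↥K ⧸ R.subgroupOf K)) W₁ (T : Subgroup (↥K ⧸ R.subgroupOf K)) : Subgroup (↥K ⧸ R.subgroupOf K)) : Set (↥K ⧸ R.subgroupOf K)), ∃ b ∈ Subgroup.normalizer ((Cfsg.inducedFunctor (G := (↥K ⧸ R.subgroupOf K)) W₂ (T : Subgroup (↥K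 ⧸ R.subgroupOf K)) : Subgroup (↥K ⧸ R.subgroupOf K)) : Set (↥K ⧸ R.subgroupOf K)), x = a * b)) (hZ : Cfsg.omegaOne p ((S : Subgroup G) ⊓ Subgroup.centralizer (((S : Subgroup G) : Subgroup G) : Set G)) ≤ Cfsg.inducedFunctor (G := G) W₁ (S : Subgroup G) ⊓ Cfsg.inducedFunctor (G := G) W₂ (S : Subgroup G)) (N₁ : Subgroup G) (hN₁ : N₁ = Subgroup.normalizer ((Cfsg.inducedFunctor (G := G) W₁ (S : Subgroup G) : Subgroup G) : Set G)) (A : Subgroup G) (hA : A = (Subgroup.normalClosure (((Cfsg.omegaOne p ((S : Subgroup G) ⊓ Subgroup.centralizer (((S : Subgroup G) : Subgroup G) : Set G))).subgroupOf N₁ : Subgroup ↥N₁) : Set ↥N₁)).map N₁.subtype) : A ≤ (S : Subgroup G) ∧ Cfsg.IsElementaryAbelian p A ∧ Cfsg.IsStronglyClosed A (S : Subgroup G) ∧ Cfsg.ControlsStrongFusion p A := by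
  classical
  set V₁ := inducedFunctor (G := G) W₁ (S : Subgroup G) with hV₁
  set V₂ := inducedFunctor (G := G) W₂ (S : Subgroup G) with hV₂
  set N₂ := Subgroup.normalizer ((V₂ : Subgroup G) : Set G) with hN₂
  set Z := Cfsg.Lib.PLocal.FamilyOmega.zOm p (S : Subgroup G) with hZdef
  have hZ1 : Z ≤ V₁ := hZ.trans inf_le_left
  have hZ2 : Z ≤ V₂ := hZ.trans inf_le_right
  have hV₁N : V₁ ≤ N₁ := hN₁ ▸ Subgroup.le_normalizer
  have hV₁S : V₁ ≤ (S : Subgroup G) := Subgroup.map_subtype_le _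
  have hZN : Z ≤ N₁ := hZ1.trans hV₁N
  set cl := Subgroup.normalClosure ((Z.subgroupOf N₁ : Subgroup N₁) : Set N₁) with hcl
  have hV₁n : (V₁.subgroupOf N₁).Normal := by
    subst hN₁
    exact Subgroup.normal_in_normalizer
  -- `Z` is in `A`
  have hZA : ∀ z ∈ Z, z ∈ A := fun z hz => by
    rw [hA]
    exact ⟨⟨z, hZN hz⟩, Subgroup.subset_normalClosure (show (⟨z, hZN hz⟩ : N₁) ∈ Z.subgroupOf N₁ from hz), rfl⟩
  have hAN : N₁ ≤ Subgroup.normalizer (A : Set G) := fun m hm => by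
    rw [hA]
    refine Cfsg.Lib.PLocal.mem_normalizer_of_conj_le ?_
    rintro _ ⟨u, hu, rfl⟩
    exact ⟨_, (inferInstance : cl.Normal).conj_mem u hu ⟨m, hm⟩, rfl⟩
  have hmemA : ∀ m ∈ N₁, ∀ z ∈ Z, m * z * m⁻¹ ∈ A := fun m hm z hz =>
    (Subgroup.mem_normalizer_iff.1 (hAN hm) z).1 (hZA z hz)
  have hclV : cl ≤ V₁.subgroupOf N₁ := by
    haveI := hV₁n
    exact Subgroup.normalClosure_le_normal fun z hz => hZ1 hz
  have hAV : A ≤ V₁ := by
    rw [hA]
    rintro _ ⟨u, hu, rfl⟩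
    exact hclV hu
  have hAS : A ≤ (S : Subgroup G) := hAV.trans hV₁S
  have helem : IsElementaryAbelian p A := by
    set Y := pCore p N₁ with hY
    have hVY : V₁.subgroupOf N₁ ≤ Y := Cfsg.Lib.Transfer.le_pCore hV₁n
      ((S.isPGroup'.to_le hV₁S).comap_of_injective N₁.subtype N₁.subtype_injective)
    have hSN : (S : Subgroup G) ≤ N₁ := by
      rw [hN₁]
      exact Subgroup.le_normalizer.trans (Cfsg.Lib.PLocal.TransferControl.normalizer_le hW₁ _ S.isPGroup')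
    have hYS : ∀ y ∈ Y, (y : G) ∈ (S : Subgroup G) := fun y hy =>
      (Cfsg.Lib.Transfer.pCore_le_sylow (S.subtype hSN) hy : y ∈ (S : Subgroup G).subgroupOf N₁)
    haveI : Y.Normal := Cfsg.Lib.Transfer.pCore_normal p
    have hclC : cl ≤ Subgroup.centralizer (Y : Set N₁) :=
      Subgroup.normalClosure_le_normal fun z hz => Subgroup.mem_centralizer_iff.2 fun y hy =>
        Subtype.ext (Subgroup.mem_centralizer_iff.1 (Cfsg.Lib.PLocal.FamilyOmega.zOm_le _ hz).2 (y : G) (hYS y hy))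
    have hcomm : ∀ a ∈ cl, ∀ b ∈ cl, a * b = b * a := fun a ha b hb =>
      Subgroup.mem_centralizer_iff.1 (hclC hb) a (hVY (hclV ha))
    have hpow : ∀ a ∈ cl, a ^ p = 1 := by
      intro a ha
      have hsub : Z.subgroupOf N₁ ≤ cl := Subgroup.subset_normalClosure
      have hZp : ∀ z ∈ Z, z ^ p = 1 := by
        intro z hz
        induction hz using Subgroup.closure_induction with
        | mem x hx => exact hx.2
        | one => exact one_pow p
        | mul x y hx hy h1 h2 =>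
          have hxy : x * y = y * x := Subgroup.mem_centralizer_iff.1 (Cfsg.Lib.PLocal.FamilyOmega.zOm_le _ hy).2 x
            (Cfsg.Lib.PLocal.FamilyOmega.zOm_le _ hx).1
          rw [Commute.mul_pow hxy, h1, h2, one_mul]
        | inv x _ h => rw [inv_pow, h, inv_one]
      induction ha using Subgroup.closure_induction with
      | mem x hx =>
        obtain ⟨z, hz, hzx⟩ := Group.mem_conjugatesOfSet_iff.1 hx
        obtain ⟨c, rfl⟩ := isConj_iff.1 hzx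
        rw [conj_pow, show z ^ p = 1 from Subtype.ext (hZp _ hz), mul_one, mul_inv_cancel]
      | one => exact one_pow p
      | mul x y hx hy h1 h2 => rw [Commute.mul_pow (hcomm x hx y hy), h1, h2, one_mul]
      | inv x _ h => rw [inv_pow, h, inv_one]
    refine ⟨⟨⟨fun a b => Subtype.ext ?_⟩⟩, fun a ha => ?_⟩
    · obtain ⟨a, ha⟩ := a
      obtain ⟨b, hb⟩ := b
      show a * b = b * a
      rw [hA] at ha hb
      obtain ⟨a', ha', rfl⟩ := ha
      obtain ⟨b', hb', rfl⟩ := hb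
      exact congrArg Subtype.val (hcomm a' ha' b' hb')
    · rw [hA] at ha
      obtain ⟨a', ha', rfl⟩ := ha
      exact congrArg Subtype.val (hpow a' ha')
  have hyp₁ : Cfsg.Lib.PLocal.FamilyOmega.Hyp p W₁ G :=
    Cfsg.Lib.PLocal.FamilyOmega.hyp_of_sections hW₁ fun K R _ hc T => (hfac K R hc T).1
  have hyp₂ : Cfsg.Lib.PLocal.FamilyOmega.Hyp p W₂ G :=
    Cfsg.Lib.PLocal.FamilyOmega.hyp_of_sections hW₂ fun K R _ hc T => (hfac K R hc T).2.1
  -- `N(W₂ S)` normalizes `A`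
  have hN₂A : N₂ ≤ Subgroup.normalizer (A : Set G) := by
    intro n hn
    refine Cfsg.Lib.PLocal.mem_normalizer_of_conj_le ?_
    have h1 : ∀ k ∈ N₂, ∀ z ∈ Z, k * z * k⁻¹ ∈ A := by
      intro k hk z hz
      obtain ⟨m, hm, hmz⟩ := Cfsg.Lib.PLocal.FamilyOmega.conj_eq_of_fac S hW₁ hW₂ hyp₁ hZ2 hk
      rw [hmz z hz]
      exact hmemA m (hN₁ ▸ hm) z hz
    have hle : A ≤ A.comap (MulAut.conj n).toMonoidHom := by
      nth_rewrite 1 [hA]
      rw [Subgroup.map_le_iff_le_comap]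
      refine (Subgroup.closure_le _).2 fun x hx => ?_
      obtain ⟨z, hz, hzx⟩ := Group.mem_conjugatesOfSet_iff.1 hx
      obtain ⟨c, rfl⟩ := isConj_iff.1 hzx
      have hc : (c : G) ∈ Subgroup.normalizer ((V₁ : Subgroup G) : Set G) := hN₁ ▸ c.2
      obtain ⟨k, hk, hkz⟩ := Cfsg.Lib.PLocal.FamilyOmega.conj_eq_of_fac S hW₂ hW₁ hyp₂ hZ1 hc
      show n * ((c : G) * (z : G) * (c : G)⁻¹) * n⁻¹ ∈ A
      rw [hkz (z : G) hz, show n * (k * (z : G) * k⁻¹) * n⁻¹ = (n * k) * (z : G) * (n * k)⁻¹ by group]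
      exact h1 _ (N₂.mul_mem hn hk) _ hz
    exact fun x hx => hle hx
  -- fusion
  have h𝓦 : ∀ W ∈ ({W₁, W₂} : Set (∀ (Q : Type u) [Group Q], Subgroup Q)), IsCharPFunctor.{u} p W := by
    intro W hW
    simp only [Set.mem_insert_iff, Set.mem_singleton_iff] at hW
    rcases hW with h | h <;> rw [h]
    · exact hW₁
    · exact hW₂
  have h := Cfsg.Lib.PLocal.FamilyInd.control_of_hyp h𝓦 _ G rfl
    (Cfsg.Lib.PLocal.FamilyInd.hyp_of_sections h𝓦 fun K R _ hc => by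
      obtain ⟨T⟩ := (inferInstance : Nonempty (Sylow p (↥K ⧸ R.subgroupOf K)))
      exact Cfsg.Lib.PLocal.FamilyInd.control_of_pair h𝓦 (Set.mem_insert _ _)
        (Set.mem_insert_of_mem _ rfl) T (hfac K R hc T).2.2)
  have hctrl : ∀ B : Set G, B ⊆ (S : Subgroup G) → ∀ g : G, (fun a => g * a * g⁻¹) '' B ⊆ (S : Subgroup G) →
      ∃ x ∈ Subgroup.normalizer (A : Set G), ∀ a ∈ B, g * a * g⁻¹ = x * a * x⁻¹ := by
    intro B hB g hg
    rw [Cfsg.Lib.PLocal.Climb.image_left] at hg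
    obtain ⟨g', hs, he⟩ := Cfsg.Lib.PLocal.Climb.real_of_family S
      (Cfsg.Lib.PLocal.FamilyInd.famG_functor h𝓦 G)
      (Cfsg.Lib.PLocal.FamilyInd.isReal_steps (𝓦 := {W₁, W₂}) S) (H := ⊤) (P := (S : Subgroup G)) le_rfl le_top
      (by rw [Subgroup.relIndex_top_right]; exact S.not_dvd_index) h (fun h e => h.congr e)
      (fun f hf x hx B _ hxB => .of_mem ⟨f, hf, hx.2⟩ hxB) (y := g⁻¹) trivial hB hg
    have hg' : g' ∈ Subgroup.normalizer (A : Set G) := hs.mem_subgroup (by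
      rintro x ⟨_, ⟨W, hW, rfl⟩, hx⟩
      simp only [Set.mem_insert_iff, Set.mem_singleton_iff] at hW
      rcases hW with h | h
      · subst h
        exact hAN (hN₁ ▸ hx)
      · subst h
        exact hN₂A hx)
    refine ⟨g'⁻¹, Subgroup.inv_mem _ hg', fun a ha => ?_⟩
    have h5 := he a ha
    rw [inv_inv] at h5 ⊢
    exact h5
  refine ⟨hAS, helem, ⟨hAS, fun x hx g hg => ?_⟩, S, hAS, fun B hB => ⟨hB, fun g hg => hctrl B hB g hg⟩⟩
  obtain ⟨m, hm, hme⟩ := hctrl {x} (Set.singleton_subset_iff.2 (hAS hx)) g (by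
    rintro _ ⟨_, rfl, rfl⟩
    exact hg)
  rw [hme x rfl]
  exact (Subgroup.mem_normalizer_iff.1 hm x).1 hx

end Cfsg.Agent.S1997
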