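import Cfsg.Statements.S2007
import Mathlib
import Cfsg.Agent.Lib.Transfer.NormalPComplement
import Cfsg.Agent.Lib.Transfer.Action
import Cfsg.Agent.Lib.Solv.Coprime2
-- import your own Cfsg.Agent.* helpers here

set_option autoImplicit false
open Cfsg

namespace Cfsg.Agent.S2007

/-- Let p be a prime, G a finite group with Sylow p-subgroup S, and T a normal subgroup of S containing C_S(T). If N_G(T)/C_G(T) is a p-group (every element of N_G(T) of order prime to p centralizes T), then N_G(T) has a normal p-complement. -/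
theorem result {G : Type*} [Group G] [Finite G] {p : ℕ} [Fact p.Prime] (S : Sylow p G) (T : Subgroup G) (hTS : T ≤ (S : Subgroup G)) (hTn : (S : Subgroup G) ≤ Subgroup.normalizer ((T : Subgroup G) : Set G)) (hC : (S : Subgroup G) ⊓ Subgroup.centralizer ((T : Subgroup G) : Set G) ≤ T) (hN : ∀ g ∈ Subgroup.normalizer ((T : Subgroup G) : Set G), (orderOf g).Coprime p → g ∈ Subgroup.centralizer ((T : Subgroup G) : Set G)) : Cfsg.HasNormalPComplement p ↥(Subgroup.normalizer ((T : Subgroup G) : Set G)) := by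
  set N := Subgroup.normalizer ((T : Subgroup G) : Set G) with hNdef
  let K : Subgroup ↥N := (Subgroup.centralizer ((T : Subgroup G) : Set G)).subgroupOf N
  refine Cfsg.Lib.Transfer.hasNormalPComplement_of_pResidual K ((Subgroup.closure_le _).2 fun x hx => ?_) ?_
  · exact hN x x.2 (by rw [Subgroup.orderOf_coe]; exact hx)
  obtain ⟨Q⟩ := (inferInstance : Nonempty (Sylow p ↥K))
  refine Cfsg.Lib.Transfer.hasNormalPComplement_of_normalizer_le_centralizer Q fun y _ => ?_
  rw [Subgroup.mem_centralizer_iff]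
  intro x hx
  have hxT : ((x : ↥N) : G) ∈ T := by
    obtain ⟨P', hP'⟩ := (Q.2.map K.subtype).exists_le_sylow
    obtain ⟨g, rfl⟩ := MulAction.exists_smul_eq ↥N (S.subtype hTn) P'
    have h1 := hP' (Subgroup.mem_map_of_mem K.subtype hx)
    rw [Sylow.coe_subgroup_smul, Subgroup.mem_pointwise_smul_iff_inv_smul_mem] at h1
    have h2 : (g : G)⁻¹ * ((x : ↥N) : G) * g ∈ (S : Subgroup G) := by
      have h3 : ((MulAut.conj g)⁻¹ • (x : ↥N) : ↥N) ∈ (S : Subgroup G).subgroupOf N := h1
      simpa [MulAut.smul_def, Subgroup.mem_subgroupOf, mul_assoc] using h3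
    have hgC := Subgroup.mem_normalizer_iff''.1
      (Cfsg.Lib.Solv.normalizer_le_normalizer_centralizer T g.2)
    exact (Subgroup.mem_normalizer_iff''.1 g.2 _).2 (hC ⟨h2, (hgC _).1 x.2⟩)
  exact Subtype.ext (Subtype.ext (Subgroup.mem_centralizer_iff.1 y.2 _ hxT))

end Cfsg.Agent.S2007
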