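import Cfsg.Statements.S2009
import Mathlib
-- import your own Cfsg.Agent.* helpers here

set_option autoImplicit false
open Cfsg

namespace Cfsg.Agent.S2009

/-- Let H be a finite group and z an involution such that every proper normal subgroup of H meets the centralizer of z trivially, and suppose z lies in a Klein four-subgroup E of H all three of whose involutions are conjugate to z in H. Then H is simple. -/
theorem result {H : Type*} [Group H] [Finite H] (z : H) (hz : orderOf z = 2) (hN : ∀ N : Subgroup H, N.Normal → N ≠ ⊤ → N ⊓ Subgroup.centralizer ({z} : Set H) = ⊥) (E : Subgroup H) (hE : IsKleinFour ↥E) (hzE : z ∈ E) (hc : ∀ e ∈ E, e ≠ 1 → IsConj z e) : IsSimpleGroup H := by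
  classical
  have hE4 : Nat.card E = 4 := hE.card_four
  have hE2 : ∀ e ∈ E, e * e = 1 := fun e he => by
    have := congrArg Subtype.val (IsKleinFour.mul_self (⟨e, he⟩ : E))
    simpa using this
  obtain ⟨w, hw, hw1, hwz⟩ : ∃ w ∈ E, w ≠ 1 ∧ w ≠ z := by
    by_contra h
    push Not at h
    have : Nat.card E ≤ 2 := by
      refine (Nat.card_le_card_of_injective (fun e : E => if (e : H) = 1 then (0 : Fin 2) else 1) ?_).trans (by simp)
      intro a b hab
      rcases eq_or_ne (a : H) 1 with ha | ha <;> rcases eq_or_ne (b : H) 1 with hb | hb <;>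
        simp [ha, hb] at hab ⊢
      · exact Subtype.ext (ha.trans hb.symm)
      · exact Subtype.ext ((h a a.2 ha).trans (h b b.2 hb).symm)
    omega
  have hz1 : z ≠ 1 := fun h => by rw [h, orderOf_one] at hz; omega
  have hzw : z * w ≠ 1 := fun h => hwz
    (mul_left_cancel (h.trans (hE2 z hzE).symm))
  have : Nontrivial H := ⟨z, 1, hz1⟩
  refine ⟨fun N hNn => ?_⟩
  by_contra hcon
  push Not at hcon
  obtain ⟨hb, ht⟩ := hcon
  have hfix : ∀ e ∈ E, e ≠ 1 → ∀ x ∈ N, x * e = e * x → x = 1 := by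
    intro e he he1 x hx hxe
    obtain ⟨g, rfl⟩ := isConj_iff.1 (hc e he he1)
    have h1 : g⁻¹ * x * g ∈ N ⊓ Subgroup.centralizer ({z} : Set H) := by
      refine ⟨by simpa using hNn.conj_mem x hx g⁻¹, Subgroup.mem_centralizer_singleton_iff.2 ?_⟩
      calc g⁻¹ * x * g * z = g⁻¹ * (x * (g * z * g⁻¹)) * g := by group
        _ = g⁻¹ * (g * z * g⁻¹ * x) * g := by rw [hxe]
        _ = z * (g⁻¹ * x * g) := by group
    rw [hN N hNn ht, Subgroup.mem_bot] at h1
    calc x = g * (g⁻¹ * x * g) * g⁻¹ := by group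
      _ = 1 := by rw [h1]; group
  have hinvert : ∀ e ∈ E, e ≠ 1 → ∀ x ∈ N, e * x * e⁻¹ = x⁻¹ := by
    intro e he he1 x hx
    let φ : ↥N →* ↥N := ((MulAut.conjNormal (H := N) e)).toMonoidHom
    have hφ : MonoidHom.FixedPointFree φ := fun y hy => by
      have h1 : e * (y : H) * e⁻¹ = y := congrArg Subtype.val hy
      exact Subtype.ext (hfix e he he1 y y.2 (mul_inv_eq_iff_eq_mul.1 h1).symm)
    have h2 : Function.Involutive φ := fun y => Subtype.ext (by
      show e * (e * (y : H) * e⁻¹) * e⁻¹ = y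
      rw [show e * (e * (y : H) * e⁻¹) * e⁻¹ = e * e * y * (e * e)⁻¹ by group, hE2 e he]
      group)
    exact congrArg Subtype.val (congrFun (hφ.coe_eq_inv_of_involutive h2) ⟨x, hx⟩)
  refine hb ((Subgroup.eq_bot_iff_forall N).2 fun x hx => ?_)
  refine hfix (z * w) (E.mul_mem hzE hw) hzw x hx ?_
  have h1 := hinvert z hzE hz1 x hx
  have h2 := hinvert w hw hw1 x hx
  calc x * (z * w) = z * (z⁻¹ * x * z) * w := by group
    _ = z * (z * x * z⁻¹) * w := by rw [inv_eq_of_mul_eq_one_right (hE2 z hzE)]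
    _ = z * x⁻¹ * w := by rw [h1]
    _ = z * w * (w⁻¹ * x⁻¹ * w) := by group
    _ = z * w * (w * x * w⁻¹)⁻¹ := by
        conv_lhs => rw [inv_eq_of_mul_eq_one_right (hE2 w hw)]
        conv_rhs => rw [inv_eq_of_mul_eq_one_right (hE2 w hw)]
        rw [mul_inv_rev, mul_inv_rev, inv_eq_of_mul_eq_one_right (hE2 w hw)]
        simp only [mul_assoc]
    _ = z * w * x := by rw [h2, inv_inv]

end Cfsg.Agent.S2009
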