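import Cfsg.Statements.S2008
import Mathlib
import Cfsg.Agent.S2009
-- import your own Cfsg.Agent.* helpers here

set_option autoImplicit false
open Cfsg

namespace Cfsg.Agent.S2008

/-- Let H be a finite group and z an involution such that every proper normal subgroup of H meets the centralizer of z trivially, and suppose z lies in a Klein four-subgroup E of H all three of whose involutions are conjugate to z in H. Then H has no non-trivial abelian normal subgroup. -/
theorem result {H : Type*} [Group H] [Finite H] (z : H) (hz : orderOf z = 2) (hN : ∀ N : Subgroup H, N.Normal → N ≠ ⊤ → N ⊓ Subgroup.centralizer ({z} : Set H) = ⊥) (E : Subgroup H) (hE : IsKleinFour ↥E) (hzE : z ∈ E) (hc : ∀ e ∈ E, e ≠ 1 → IsConj z e) (N : Subgroup H) [N.Normal] (hab : IsMulCommutative ↥N) : N = ⊥ := by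
  haveI := Cfsg.Agent.S2009.result z hz hN E hE hzE hc
  refine (Subgroup.Normal.eq_bot_or_eq_top (inferInstance : N.Normal)).resolve_right ?_
  rintro rfl
  have hE2 : Nat.card E ≤ 2 := by
    classical
    refine (Nat.card_le_card_of_injective (fun e : E => if (e : H) = 1 then (0 : Fin 2) else 1) ?_).trans (by simp)
    have hz' : ∀ e ∈ E, e ≠ 1 → e = z := fun e he he1 => by
      obtain ⟨g, rfl⟩ := isConj_iff.1 (hc e he he1)
      have := congrArg Subtype.val (hab.is_comm.comm (⟨g, Subgroup.mem_top g⟩ : (⊤ : Subgroup H))
        ⟨z, Subgroup.mem_top z⟩)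
      exact mul_inv_eq_of_eq_mul this
    intro a b hab'
    rcases eq_or_ne (a : H) 1 with ha | ha <;> rcases eq_or_ne (b : H) 1 with hb | hb <;>
      simp [ha, hb] at hab' ⊢
    · exact Subtype.ext (ha.trans hb.symm)
    · exact Subtype.ext ((hz' a a.2 ha).trans (hz' b b.2 hb).symm)
  have := hE.card_four
  omega

end Cfsg.Agent.S2008
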