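import Cfsg.Statements.S2126
import Cfsg.Agent.Lib.SzB.Auto
import Cfsg.Agent.Lib.SzB.Std

set_option autoImplicit false
open Cfsg

namespace Cfsg.Agent.S2126

/-- Outer automorphisms of the Suzuki groups: for q = 2^(2m+1) with m ≥ 1 the outer automorphism group of Sz(q) has order 2m + 1 (field automorphisms only). -/
theorem result {F : Type*} [Field F] [Fintype F] {m : ℕ} (hm : 1 ≤ m) (hF : Fintype.card F = 2 ^ (2 * m + 1)) : Nat.card (Cfsg.Out ↥(Cfsg.Lie.Sz F (2 ^ (m + 1)))) = 2 * m + 1 := by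
  classical
  haveI := Cfsg.Agent.SzB.charTwo_of_card hF
  let τ := Cfsg.Agent.SzB.stdTwist hF
  rw [show Nat.card (Cfsg.Out ↥(Cfsg.Lie.Sz F (2 ^ (m + 1)))) = Nat.card (F ≃+* F) from
    Cfsg.Agent.SzB.card_out τ (Cfsg.Agent.SzB.exists_unit_ne hm hF) ⟨Cfsg.Agent.SzB.sylTwo hF τ, rfl⟩]
  haveI : Fact (Nat.Prime 2) := ⟨Nat.prime_two⟩
  letI : Algebra (ZMod 2) F := ZMod.algebra F 2
  let e : (F ≃ₐ[ZMod 2] F) ≃ (F ≃+* F) :=
    { toFun := fun f => f.toRingEquiv
      invFun := fun f => AlgEquiv.ofRingEquiv (f := f) fun r => by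
        have h : ((f : F →+* F).comp (algebraMap (ZMod 2) F)) = algebraMap (ZMod 2) F :=
          Subsingleton.elim _ _
        exact RingHom.congr_fun h r
      left_inv := fun f => AlgEquiv.ext fun _ => rfl
      right_inv := fun f => RingEquiv.ext fun _ => rfl }
  rw [← Nat.card_congr e, ← Nat.card_congr
    (Equiv.ofBijective _ (FiniteField.bijective_frobeniusAlgEquivOfAlgebraic_pow (ZMod 2) F)),
    Nat.card_eq_fintype_card, Fintype.card_fin]
  have h := Module.card_eq_pow_finrank (K := ZMod 2) (V := F)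
  rw [hF, ZMod.card] at h
  exact (Nat.pow_right_injective le_rfl h).symm

end Cfsg.Agent.S2126
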