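import Cfsg.Statements.S2158
import Cfsg.Agent.Lib.Chev.CharDiag
import Cfsg.Agent.Lib.Chev.All
-- import your own Cfsg.Agent.* helpers here

set_option autoImplicit false
open Cfsg

namespace Cfsg.Agent.S2158

/-- In a Chevalley group of type G₂, B₂, D₄, F₄, E₆, E₇ or E₈ over any field, an element of the group whose matrix is the diagonal matrix `ĥ(χ)` of a character `χ` of the root lattice already lies in the diagonal subgroup H (the non-trivial inclusion of the statement that the group meets the group of all such diagonal matrices in H). -/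
theorem result {F : Type*} [Field F] (D : Cfsg.Lie.ChevalleyDatum) (hD : D ∈ [Cfsg.Lie.chevG2, Cfsg.Lie.chevB2, Cfsg.Lie.chevD4, Cfsg.Lie.chevF4, Cfsg.Lie.chevE6, Cfsg.Lie.chevE7, Cfsg.Lie.chevE8]) (χ : ℕ → Fˣ) (hχ : D.IsRootCharacter χ) (g : GL D.Idx F) (hg : g ∈ D.group F)
    (hgχ : (g : Matrix D.Idx D.Idx F) = D.charDiag F χ) : g ∈ D.diagonalSubgroup F := by
  suffices key : ∀ (A : Cfsg.Lib.Chev.Aux), Cfsg.Lib.Chev.Cert D A → Cfsg.Lib.Chev.decompOK D A = true →
      g ∈ D.diagonalSubgroup F by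
    simp only [List.mem_cons, List.not_mem_nil, or_false] at hD
    rcases hD with rfl | rfl | rfl | rfl | rfl | rfl | rfl
    · exact key _ Cfsg.Lib.Chev.certG2 (by decide +kernel)
    · exact key _ Cfsg.Lib.Chev.certB2 (by decide +kernel)
    · exact key _ Cfsg.Lib.Chev.certD4 (by decide +kernel)
    · exact key _ Cfsg.Lib.Chev.certF4 (by decide +kernel)
    · exact key _ Cfsg.Lib.Chev.certE6 (by decide +kernel)
    · exact key _ Cfsg.Lib.Chev.certE7 (by decide +kernel)
    · exact key _ Cfsg.Lib.Chev.certE8 (by decide +kernel)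
  intro A hc hd
  have hge : g = Cfsg.Lib.Chev.dg D χ := Units.ext hgχ
  rw [hge, Cfsg.Lib.Chev.charDiag_eq hc hd hχ] at hg ⊢
  exact Cfsg.Lib.Chev.charDiag_mem_H hc (Cfsg.Lib.Chev.isChar_chi hc _) hg

end Cfsg.Agent.S2158
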