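import Cfsg.Statements.S2160
import Cfsg.Agent.Lib.Chev.SimpleGen
-- import your own Cfsg.Agent.* helpers here

set_option autoImplicit false
open Cfsg

namespace Cfsg.Agent.S2160

/-- In a Chevalley group of type G₂, B₂, D₄, F₄, E₆, E₇ or E₈ over a finite field, every field automorphism commutes with every graph automorphism. -/
theorem result {F : Type*} [Field F] [Finite F] (D : Cfsg.Lie.ChevalleyDatum) (hD : D ∈ [Cfsg.Lie.chevG2, Cfsg.Lie.chevB2, Cfsg.Lie.chevD4, Cfsg.Lie.chevF4, Cfsg.Lie.chevE6, Cfsg.Lie.chevE7, Cfsg.Lie.chevE8]) (f g : ↥(D.group F) ≃* ↥(D.group F))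
    (hf : D.IsFieldAut f) (hg : D.IsGraphAut g) (y : ↥(D.group F)) : f (g y) = g (f y) := by

  obtain ⟨A, hc⟩ := Cfsg.Lib.Chev.certified_of_mem hD
  obtain ⟨σ, hσ⟩ := hf
  obtain ⟨π, -, hπ⟩ := hg
  suffices h : (f.toMonoidHom.comp g.toMonoidHom) = g.toMonoidHom.comp f.toMonoidHom from DFunLike.congr_fun h y
  refine Cfsg.Lib.Chev.group_hom_ext hc fun x i t hx => Subtype.ext (Units.ext ?_)
  have hlt : ∀ j : Fin D.rank, D.simple j < D.nroots ∧ D.neg (D.simple j) < D.nroots := fun j =>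
    ⟨Cfsg.Lib.Chev.simple_lt hc j.2, by
      rw [Cfsg.Lib.Chev.neg_eq hc (Cfsg.Lib.Chev.simple_lt hc j.2)]
      exact Cfsg.Lib.Chev.negI_lt (Cfsg.Lib.Chev.simple_lt hc j.2)⟩
  simp only [MonoidHom.coe_comp, MulEquiv.coe_toMonoidHom, Function.comp_apply]
  rcases hx with hx | hx
  · rw [(hσ _ _ _ (hlt (π i)).1 ((hπ x i t).1 hx)), ((hπ (f x) i (σ t)).1 (hσ x _ t (hlt i).1 hx)), map_pow]
  · rw [(hσ _ _ _ (hlt (π i)).2 ((hπ x i t).2 hx)), ((hπ (f x) i (σ t)).2 (hσ x _ t (hlt i).2 hx)), map_pow]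

end Cfsg.Agent.S2160
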