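import Cfsg.Statements.S2161
import Cfsg.Agent.Lib.Chev.SimpleGen
-- import your own Cfsg.Agent.* helpers here

set_option autoImplicit false
open Cfsg

namespace Cfsg.Agent.S2161

/-- For the Chevalley groups of types D₄ and E₆ (one root length) over any field: if `π` is a symmetry of the Dynkin diagram and `φ` is an automorphism sending `x_{p_i}(t)` to `x_{p_{π i}}(t)` and `x_{-p_i}(t)` to `x_{-p_{π i}}(t)` for every fundamental root `p_i`, then for every root `r` there is a sign `ε = ±1` with `φ(x_r(t)) = x_{π·r}(ε t)` for all `t`, where `π·r` is the root whose coefficients are those of `r` permuted by `π`. -/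
theorem result {F : Type*} [Field F] (D : Cfsg.Lie.ChevalleyDatum) (hD : D ∈ [Cfsg.Lie.chevD4, Cfsg.Lie.chevE6])
    (π : Equiv.Perm (Fin D.rank)) (hπ : D.IsDiagramSymmetry π) (φ : ↥(D.group F) ≃* ↥(D.group F))
    (hφ : ∀ (g : ↥(D.group F)) (i : Fin D.rank) (t : F),
      (((g : GL D.Idx F) : Matrix D.Idx D.Idx F) = D.x F (D.simple i) t →
        ((φ g : GL D.Idx F) : Matrix D.Idx D.Idx F) = D.x F (D.simple (π i)) t) ∧
      (((g : GL D.Idx F) : Matrix D.Idx D.Idx F) = D.x F (D.neg (D.simple i)) t →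
        ((φ g : GL D.Idx F) : Matrix D.Idx D.Idx F) = D.x F (D.neg (D.simple (π i))) t))
    (r : ℕ) (hr : r < D.nroots) :
    ∃ ε : F, (ε = 1 ∨ ε = -1) ∧ ∀ (g : ↥(D.group F)) (t : F),
      ((g : GL D.Idx F) : Matrix D.Idx D.Idx F) = D.x F r t →
        ((φ g : GL D.Idx F) : Matrix D.Idx D.Idx F) = D.x F (D.permRoot π r) (ε * t) := by
  obtain ⟨A, hc⟩ := Cfsg.Lib.Chev.certified_of_mem (show D ∈ [Cfsg.Lie.chevG2, Cfsg.Lie.chevB2, Cfsg.Lie.chevD4, Cfsg.Lie.chevF4, Cfsg.Lie.chevE6, Cfsg.Lie.chevE7, Cfsg.Lie.chevE8] by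
    rcases List.mem_pair.1 hD with rfl | rfl <;> simp)
  have hcart : ∀ i j : Fin D.rank, D.cartan i (D.simple j) = D.cartan j (D.simple i) ∧
      D.cartan i (D.simple j) = if i = j then 2 else -D.bonds i j := by
    rcases List.mem_pair.1 hD with rfl | rfl <;> decide +kernel
  set w := fun (L : List (Fin D.rank)) => Cfsg.Lib.Chev.wp hc L with hw
  have hlt : ∀ j : Fin D.rank, D.simple j < D.nroots := fun j => Cfsg.Lib.Chev.simple_lt hc j.2
  have hA : ∀ i j : Fin D.rank, A.cA i (D.simple j) = A.cA j (D.simple i) := fun i j => by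
    rw [← Cfsg.Lib.Chev.cartan_eq hc i.2 (hlt j), ← Cfsg.Lib.Chev.cartan_eq hc j.2 (hlt i)]
    exact (hcart i j).1
  have hAπ : ∀ i j : Fin D.rank, A.cA (π i) (D.simple (π j)) = A.cA i (D.simple j) := fun i j => by
    rw [← Cfsg.Lib.Chev.cartan_eq hc (π i).2 (hlt _), ← Cfsg.Lib.Chev.cartan_eq hc i.2 (hlt _), (hcart _ _).2, (hcart _ _).2]
    by_cases h : i = j
    · simp [h]
    · rw [if_neg h, if_neg (fun e => h (π.injective e)), hπ i j h]
  -- coroot coordinates are root coordinates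
  have hco : ∀ s < D.nroots, ∀ j < D.rank, A.cc j s = A.co j s := by
    refine Cfsg.Lib.Chev.root_induction hc (fun i hi j hj => ?_) (fun i s hi hs ih j hj => ?_)
    · rw [Cfsg.Lib.Chev.cc_simple hc hi hj, Cfsg.Lib.Chev.co_simple hc hi hj]
    · rw [Cfsg.Lib.Chev.cc_w hc hi hj hs, Cfsg.Lib.Chev.co_w hc hi hj hs, ih j hj, Cfsg.Lib.Chev.cA_linear hc hi hs]
      congr 2
      refine Finset.sum_congr rfl fun k hk => ?_
      rw [ih k (Finset.mem_range.1 hk), mul_comm, show A.cA k (D.simple i) = A.cA i (D.simple k) from hA ⟨k, Finset.mem_range.1 hk⟩ ⟨i, hi⟩]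
  have key : ∀ (L : List (Fin D.rank)) (i j : Fin D.rank),
      A.cc (π j) (Cfsg.Lib.Chev.wp hc (L.map π) (Cfsg.Lib.Chev.sR hc (π i))) = A.cc j (Cfsg.Lib.Chev.wp hc L (Cfsg.Lib.Chev.sR hc i)) := by
    intro L i
    induction L with
    | nil =>
      intro j
      show A.cc (π j) (D.simple (π i)) = A.cc j (D.simple i)
      rw [Cfsg.Lib.Chev.cc_simple hc (π i).2 (π j).2, Cfsg.Lib.Chev.cc_simple hc i.2 j.2]
      simp [Fin.val_inj]
    | cons a L ih =>
      intro j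
      simp only [List.map_cons, Cfsg.Lib.Chev.wp_cons, Equiv.Perm.mul_apply, Cfsg.Lib.Chev.sig_apply]
      rw [Cfsg.Lib.Chev.cc_w hc (π a).2 (π j).2 (Fin.isLt _), Cfsg.Lib.Chev.cc_w hc a.2 j.2 (Fin.isLt _), ih j]
      congr 1
      simp only [Fin.val_inj, EmbeddingLike.apply_eq_iff_eq]
      congr 1
      rw [Finset.sum_range, Finset.sum_range, ← Equiv.sum_comp π]
      exact Finset.sum_congr rfl fun k _ => by rw [ih k, hAπ k a]
  obtain ⟨L, i, hL⟩ := Cfsg.Lib.Chev.exists_word_to hc ⟨r, hr⟩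
  set r' := Cfsg.Lib.Chev.wp hc (L.map π) (Cfsg.Lib.Chev.sR hc (π i)) with hr'
  have hkey : ∀ j : Fin D.rank, A.cc (π j) r' = A.cc j r := fun j => by rw [hr', key L i j, hL]
  have hperm : D.permRoot π r = r' := by
    unfold Cfsg.Lie.ChevalleyDatum.permRoot
    cases hf : (List.range D.nroots).find? (fun s => (List.finRange D.rank).all fun i =>
        (D.coroot.getD s #[]).getD (π i).val 0 == (D.coroot.getD r #[]).getD i.val 0) with
    | none =>
      exfalso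
      rw [List.find?_eq_none] at hf
      refine hf r' (List.mem_range.2 r'.2) ?_
      simp only [List.all_eq_true, beq_iff_eq]
      intro j _
      rw [Cfsg.Lib.Chev.coroot_getD hc (π j).2 r'.2, Cfsg.Lib.Chev.coroot_getD hc j.2 hr, hkey j]
    | some s =>
      have hs : s < D.nroots := List.mem_range.1 (List.mem_of_find?_eq_some hf)
      have hp := List.find?_some hf
      simp only [List.all_eq_true, beq_iff_eq] at hp
      rw [Option.getD_some]
      refine Cfsg.Lib.Chev.root_ext hc hs r'.2 fun k hk => ?_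
      obtain ⟨j, hj⟩ := π.surjective ⟨k, hk⟩
      have h1 := hp j (List.mem_finRange j)
      rw [Cfsg.Lib.Chev.coroot_getD hc (π j).2 hs, Cfsg.Lib.Chev.coroot_getD hc j.2 hr, ← hkey j,
        show ((π j : Fin D.rank) : ℕ) = k from congrArg Fin.val hj, hco s hs k hk, hco r' r'.2 k hk] at h1
      exact h1
  rw [hperm]
  have hsig : ∀ M : List (Fin D.rank), ∀ s : Fin D.nroots, ∃ c : F, (c = 1 ∨ c = -1) ∧ ∀ t : F,
      Cfsg.Lib.Chev.wg D F M * Cfsg.Lib.Chev.xg D F s t * (Cfsg.Lib.Chev.wg D F M)⁻¹ =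
        Cfsg.Lib.Chev.xg D F (Cfsg.Lib.Chev.wp hc M s) (c * t) := by
    intro M
    induction M with
    | nil => intro s; exact ⟨1, Or.inl rfl, fun t => by simp [Cfsg.Lib.Chev.wp]⟩
    | cons a M ih =>
      intro s
      obtain ⟨c, hc', h⟩ := ih s
      refine ⟨(A.eta a (Cfsg.Lib.Chev.wp hc M s) : F) * c, ?_, fun t => ?_⟩
      · rcases Cfsg.Lib.Chev.eta_cases A a (Cfsg.Lib.Chev.wp hc M s) with e | e <;> rcases hc' with e' | e' <;>
          simp [e, e']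
      · rw [Cfsg.Lib.Chev.wg_cons, mul_inv_rev, show Cfsg.Lib.Chev.ng D F a * Cfsg.Lib.Chev.wg D F M * Cfsg.Lib.Chev.xg D F s t * ((Cfsg.Lib.Chev.wg D F M)⁻¹ * (Cfsg.Lib.Chev.ng D F a)⁻¹) =
          Cfsg.Lib.Chev.ng D F a * (Cfsg.Lib.Chev.wg D F M * Cfsg.Lib.Chev.xg D F s t * (Cfsg.Lib.Chev.wg D F M)⁻¹) * (Cfsg.Lib.Chev.ng D F a)⁻¹ by group,
          h, Cfsg.Lib.Chev.ng_conj_xg hc a.2 (Fin.isLt _), Cfsg.Lib.Chev.wp_cons, Equiv.Perm.mul_apply, Cfsg.Lib.Chev.sig_apply, mul_assoc]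
  obtain ⟨c, hc1, hcx⟩ := hsig L (Cfsg.Lib.Chev.sR hc i)
  obtain ⟨c', hc1', hcx'⟩ := hsig (L.map π) (Cfsg.Lib.Chev.sR hc (π i))
  refine ⟨c' * c, by rcases hc1 with e | e <;> rcases hc1' with e' | e' <;> simp [e, e'], fun g t hg => ?_⟩
  have hcc : c * c = 1 := by rcases hc1 with e | e <;> simp [e]
  -- the images of the generators
  have himg : ∀ (a : Fin D.rank) (u : F),
      ((φ ⟨_, Cfsg.Lib.Chev.xg_mem_group hc (hlt a) u⟩ : ↥(D.group F)) : GL D.Idx F) = Cfsg.Lib.Chev.xg D F (D.simple (π a)) u ∧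
      ((φ ⟨_, Cfsg.Lib.Chev.xg_mem_group hc (Cfsg.Lib.Chev.negI_lt (hlt a)) u⟩ : ↥(D.group F)) : GL D.Idx F) =
        Cfsg.Lib.Chev.xg D F (Cfsg.Lib.Chev.negI D (D.simple (π a))) u := by
    intro a u
    constructor <;> refine Units.ext ?_
    · rw [(hφ _ a u).1 (Cfsg.Lib.Chev.coe_xg hc (hlt a) u), Cfsg.Lib.Chev.coe_xg hc (hlt _) u]
    · rw [(hφ _ a u).2 (by rw [Cfsg.Lib.Chev.neg_eq hc (hlt a)]; exact Cfsg.Lib.Chev.coe_xg hc (Cfsg.Lib.Chev.negI_lt (hlt a)) u),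
        Cfsg.Lib.Chev.neg_eq hc (hlt _), Cfsg.Lib.Chev.coe_xg hc (Cfsg.Lib.Chev.negI_lt (hlt _)) u]
  have hwg : ∀ M : List (Fin D.rank), ∃ x : ↥(D.group F), (x : GL D.Idx F) = Cfsg.Lib.Chev.wg D F M ∧
      ((φ x : ↥(D.group F)) : GL D.Idx F) = Cfsg.Lib.Chev.wg D F (M.map π) := by
    intro M
    induction M with
    | nil => exact ⟨1, by simp, by simp⟩
    | cons a M ih =>
      obtain ⟨x, hx, hx'⟩ := ih
      refine ⟨(⟨_, Cfsg.Lib.Chev.xg_mem_group hc (hlt a) 1⟩ * (⟨_, Cfsg.Lib.Chev.xg_mem_group hc (Cfsg.Lib.Chev.negI_lt (hlt a)) (-(1 : F)⁻¹)⟩ * ⟨_, Cfsg.Lib.Chev.xg_mem_group hc (hlt a) 1⟩)) * x, ?_, ?_⟩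
      · simp only [Subgroup.coe_mul, hx, Cfsg.Lib.Chev.wg_cons]
        rfl
      · simp only [map_mul, Subgroup.coe_mul, (himg a _).1, (himg a _).2, hx', List.map_cons, Cfsg.Lib.Chev.wg_cons]
        rfl
  obtain ⟨x, hx, hx'⟩ := hwg L
  have hg' : g = x * ⟨_, Cfsg.Lib.Chev.xg_mem_group hc (hlt i) (c * t)⟩ * x⁻¹ := by
    refine Subtype.ext ?_
    rw [(Cfsg.Lib.Chev.eq_xg hc hr).1 hg, Subgroup.coe_mul, Subgroup.coe_mul, Subgroup.coe_inv, hx]
    have h1 := hcx (c * t)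
    rw [hL, ← mul_assoc c c t, hcc, one_mul] at h1
    exact h1.symm
  rw [hg', map_mul, map_mul, map_inv, Subgroup.coe_mul, Subgroup.coe_mul, Subgroup.coe_inv, hx', (himg i _).1]
  have h2 := hcx' (c * t)
  rw [← mul_assoc c' c t, ← hr'] at h2
  refine Eq.trans ?_ (Cfsg.Lib.Chev.coe_xg hc r'.2 _)
  exact congrArg Units.val h2

end Cfsg.Agent.S2161
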