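import Cfsg.Statements.S2298
import Cfsg.Agent.Lib.Classical.TwoDimMcKay
import Cfsg.Agent.S2330
-- import your own Cfsg.Agent.* helpers here

set_option autoImplicit false
open Cfsg

namespace Cfsg.Agent.S2298

/-- Over a finite field F with q elements, every irreducible complex character of GL₂ has degree 1, q − 1, q or q + 1; and when q ≥ 3 (so that these four numbers are distinct) there are exactly q − 1 irreducible characters of degree 1, exactly q − 1 of degree q, exactly (q − 1)(q − 2)/2 of degree q + 1 and exactly q(q − 1)/2 of degree q − 1. -/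
theorem result {F : Type*} [Field F] [Fintype F] :
    (∀ χ : Matrix.GeneralLinearGroup (Fin 2) F → ℂ, Cfsg.IsIrrCharacter (Matrix.GeneralLinearGroup (Fin 2) F) χ →
      χ 1 = 1 ∨ χ 1 = (Fintype.card F : ℂ) - 1 ∨ χ 1 = (Fintype.card F : ℂ) ∨ χ 1 = (Fintype.card F : ℂ) + 1) ∧
    (3 ≤ Fintype.card F →
      Nat.card {χ : Cfsg.IrrCharacter (Matrix.GeneralLinearGroup (Fin 2) F) // (χ : Matrix.GeneralLinearGroup (Fin 2) F → ℂ) 1 = 1} = Fintype.card F - 1 ∧
      Nat.card {χ : Cfsg.IrrCharacter (Matrix.GeneralLinearGroup (Fin 2) F) // (χ : Matrix.GeneralLinearGroup (Fin 2) F → ℂ) 1 = (Fintype.card F : ℂ)} = Fintype.card F - 1 ∧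
      Nat.card {χ : Cfsg.IrrCharacter (Matrix.GeneralLinearGroup (Fin 2) F) // (χ : Matrix.GeneralLinearGroup (Fin 2) F → ℂ) 1 = (Fintype.card F : ℂ) + 1} = (Fintype.card F - 1) * (Fintype.card F - 2) / 2 ∧
      Nat.card {χ : Cfsg.IrrCharacter (Matrix.GeneralLinearGroup (Fin 2) F) // (χ : Matrix.GeneralLinearGroup (Fin 2) F → ℂ) 1 = (Fintype.card F : ℂ) - 1} = Fintype.card F * (Fintype.card F - 1) / 2) := by
  classical
  open Cfsg.Lib.Classical.TwoDim Matrix in
  refine ⟨fun χ hχ => ?_, fun h3 => ?_⟩
  · rcases degree_cases hχ with h | h | h | h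
    exacts [Or.inl h, Or.inr (Or.inl h), Or.inr (Or.inr (Or.inl h)), Or.inr (Or.inr (Or.inr h))]
  · set G := GL (Fin 2) F
    obtain ⟨m, hm⟩ : ∃ m, Fintype.card F = m + 3 := ⟨_, (Nat.sub_add_cancel h3).symm⟩
    have hcast : ((Fintype.card F - 1 : ℕ) : ℂ) = (Fintype.card F : ℂ) - 1 := by rw [Nat.cast_sub (by omega)]; simp
    obtain ⟨hcl, hsq, -⟩ := degree_split (G := G)
      {1, Fintype.card F, Fintype.card F + 1, Fintype.card F - 1} fun χ => by
        obtain ⟨d, -, hd⟩ := χ.2.exists_degree_pos
        rw [charDegree_eq hd]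
        simp only [Finset.mem_insert, Finset.mem_singleton]
        rcases degree_cases χ.2 with h | h | h | h <;> rw [hd] at h
        · exact Or.inl (Nat.cast_injective (R := ℂ) (by rw [h, Nat.cast_one]))
        · exact Or.inr (Or.inr (Or.inr (Nat.cast_injective (R := ℂ) (by rw [hcast, h]))))
        · exact Or.inr (Or.inl (Nat.cast_injective (R := ℂ) h))
        · exact Or.inr (Or.inr (Or.inl (Nat.cast_injective (R := ℂ) (by push_cast; exact h))))
    have key : ∀ (c : ℂ) (d : ℕ), c = d →
        Nat.card {χ : Cfsg.IrrCharacter G // (χ : G → ℂ) 1 = c} = numDeg G d := fun c d h =>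
      Nat.card_congr (Equiv.subtypeEquivRight fun χ => by rw [charDegree_iff, h])
    have ha1 : ∃ a : F, a ≠ 0 ∧ a ≠ 1 := by
      by_contra h
      push Not at h
      have hsub : (Finset.univ : Finset F) ⊆ {0, 1} := fun a _ => by
        by_cases ha : a = 0
        · simp [ha]
        · simp [h a ha]
      have := (Finset.card_le_card hsub).trans Finset.card_le_two
      rw [Finset.card_univ] at this
      omega
    have n1 : numDeg G 1 = Fintype.card F - 1 := by
      rw [← key 1 1 (by simp), Cfsg.Lib.Characters.card_linear_irr,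
        Cfsg.Lib.Classical.SLGroup.commutator_gl_eq_ker (Or.inr ha1), Subgroup.index_ker,
        MonoidHom.range_eq_top.2 (fun a => ⟨Cfsg.Lib.Classical.TwoDim.dg a 1, Units.ext (by simp [det_fin_two])⟩),
        Subgroup.card_top, Nat.card_units, Nat.card_eq_fintype_card]
    have nq : numDeg G (Fintype.card F) = Fintype.card F - 1 := by
      let f : MulChar F ℂ → {χ : Cfsg.IrrCharacter G // Cfsg.charDegree (χ : G → ℂ) = Fintype.card F} := fun α =>
        ⟨⟨_, stTwist_irr α⟩, (charDegree_iff _ _).2 (by simp [G, st_one])⟩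
      have hf : Function.Bijective f := by
        refine ⟨fun α β e => ?_, fun χ => ?_⟩
        · refine MulChar.ext fun a => ?_
          by_cases ha : a = 1
          · simp [ha]
          have h := congrArg (fun χ : {χ : Cfsg.IrrCharacter G // Cfsg.charDegree (χ : G → ℂ) = Fintype.card F} =>
            (χ.1 : G → ℂ) (dg a 1)) e
          have hst : st (dg a (1 : Fˣ)) = 1 := by
            unfold st
            rw [(Cfsg.Agent.S2308.result (dg a 1)).2.1 (by simp) (by simp) (by simpa using ha)]; norm_num
          simp only [f, hst, mul_one] at h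
          simpa [det_fin_two] using h
        · have hd := (charDegree_iff χ.1 _).1 χ.2
          have h1 : (χ.1 : G → ℂ) 1 ≠ 1 := fun e => by
            have := card_inj (F := F) (n := 1) (by rw [Nat.cast_one]; exact hd.symm.trans e); omega
          rcases gl_cases χ.1.2 h1 with ⟨h, -⟩ | ⟨α, h⟩ | ⟨α, β, -, h⟩
          · exact absurd (show (1 : ℂ) = 0 by linear_combination h - hd) one_ne_zero
          · exact ⟨α, Subtype.ext (Subtype.ext h.symm)⟩
          · rw [h, indFun_one'] at hd; simp at hd
      rw [numDeg, ← Nat.card_congr (Equiv.ofBijective f hf), MulChar.card_eq_card_units_of_hasEnoughRootsOfUnity,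
        Nat.card_units, Nat.card_eq_fintype_card]
    rw [Cfsg.Agent.S2330.result, Finset.sum_insert (by simp; omega), Finset.sum_insert (by simp; omega),
      Finset.sum_pair (by omega), n1, nq] at hcl
    rw [Cfsg.Lib.Classical.GL2.card_gl2, Finset.sum_insert (by simp; omega), Finset.sum_insert (by simp; omega),
      Finset.sum_pair (by omega), n1, nq] at hsq
    refine ⟨(key _ 1 (by simp)).trans n1, (key _ _ rfl).trans nq, ?_⟩
    rw [key _ (Fintype.card F + 1) (by push_cast; ring), key _ (Fintype.card F - 1) hcast.symm]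
    generalize numDeg G (Fintype.card F + 1) = a at hcl hsq ⊢
    generalize numDeg G (Fintype.card F - 1) = b at hcl hsq ⊢
    simp only [hm, show m + 3 - 1 = m + 2 by omega, show m + 3 - 2 = m + 1 by omega] at hcl hsq ⊢
    have he : (m + 3) ^ 2 = (m + 2) + (m + 2) + (a + b) + 1 := by
      have h0 : 1 ≤ (m + 3) ^ 2 := Nat.one_le_pow _ _ (by omega)
      omega
    have he' := congrArg (Nat.cast (R := ℤ)) he
    have hsq' := congrArg (Nat.cast (R := ℤ)) hsq
    push_cast at he' hsq'
    have ha : (2 * (a : ℤ) - ((m : ℤ) + 2) * (m + 1)) * (2 * (m : ℤ) + 6) = 0 := by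
      linear_combination -hsq' + ((m : ℤ) + 2) ^ 2 * he'
    have ha' : 2 * a = (m + 2) * (m + 1) := by
      rcases mul_eq_zero.1 ha with h | h
      · exact_mod_cast (show (2 : ℤ) * a = ((m : ℤ) + 2) * (m + 1) by linear_combination h)
      · omega
    have hb' : 2 * b = (m + 3) * (m + 2) := by nlinarith
    exact ⟨by omega, by omega⟩

end Cfsg.Agent.S2298
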