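import Cfsg.Statements.S2299
import Cfsg.Agent.Lib.Classical.TwoDimMcKay
-- import your own Cfsg.Agent.* helpers here

set_option autoImplicit false
open Cfsg

namespace Cfsg.Agent.S2299

/-- Over a finite field F with q elements, q odd, every irreducible complex character of SL₂ has degree 1, q, q + 1, q − 1, (q + 1)/2 or (q − 1)/2; and when q ≥ 5 (so that these six numbers are distinct) there are exactly one irreducible character of degree 1, one of degree q, (q − 3)/2 of degree q + 1, (q − 1)/2 of degree q − 1, two of degree (q + 1)/2 and two of degree (q − 1)/2. -/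
theorem result {F : Type*} [Field F] [Fintype F] (hodd : Odd (Fintype.card F)) :
    (∀ χ : Matrix.SpecialLinearGroup (Fin 2) F → ℂ, Cfsg.IsIrrCharacter (Matrix.SpecialLinearGroup (Fin 2) F) χ →
      χ 1 = 1 ∨ χ 1 = (Fintype.card F : ℂ) ∨ χ 1 = (Fintype.card F : ℂ) + 1 ∨ χ 1 = (Fintype.card F : ℂ) - 1 ∨
        χ 1 = (((Fintype.card F + 1) / 2 : ℕ) : ℂ) ∨ χ 1 = (((Fintype.card F - 1) / 2 : ℕ) : ℂ)) ∧
    (5 ≤ Fintype.card F →
      Nat.card {χ : Cfsg.IrrCharacter (Matrix.SpecialLinearGroup (Fin 2) F) // (χ : Matrix.SpecialLinearGroup (Fin 2) F → ℂ) 1 = 1} = 1 ∧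
      Nat.card {χ : Cfsg.IrrCharacter (Matrix.SpecialLinearGroup (Fin 2) F) // (χ : Matrix.SpecialLinearGroup (Fin 2) F → ℂ) 1 = (Fintype.card F : ℂ)} = 1 ∧
      Nat.card {χ : Cfsg.IrrCharacter (Matrix.SpecialLinearGroup (Fin 2) F) // (χ : Matrix.SpecialLinearGroup (Fin 2) F → ℂ) 1 = (Fintype.card F : ℂ) + 1} = (Fintype.card F - 3) / 2 ∧
      Nat.card {χ : Cfsg.IrrCharacter (Matrix.SpecialLinearGroup (Fin 2) F) // (χ : Matrix.SpecialLinearGroup (Fin 2) F → ℂ) 1 = (Fintype.card F : ℂ) - 1} = (Fintype.card F - 1) / 2 ∧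
      Nat.card {χ : Cfsg.IrrCharacter (Matrix.SpecialLinearGroup (Fin 2) F) // (χ : Matrix.SpecialLinearGroup (Fin 2) F → ℂ) 1 = (((Fintype.card F + 1) / 2 : ℕ) : ℂ)} = 2 ∧
      Nat.card {χ : Cfsg.IrrCharacter (Matrix.SpecialLinearGroup (Fin 2) F) // (χ : Matrix.SpecialLinearGroup (Fin 2) F → ℂ) 1 = (((Fintype.card F - 1) / 2 : ℕ) : ℂ)} = 2) := by
  classical
  obtain ⟨r, hr⟩ := hodd
  have e1 : (Fintype.card F + 1) / 2 = r + 1 := by omega
  have e0 : (Fintype.card F - 1) / 2 = r := by omega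
  have hq : (Fintype.card F : ℂ) = ((2 * r + 1 : ℕ) : ℂ) := by rw [hr]
  rw [e1, e0]
  refine ⟨fun χ hχ => ?_, fun h5 => ?_⟩
  · have h := Cfsg.Lib.Classical.TwoDim.degree_mem hr ⟨χ, hχ⟩
    obtain ⟨d, -, hd⟩ := hχ.exists_degree_pos
    rw [Cfsg.Lib.Classical.TwoDim.charDegree_eq hd] at h
    simp only [Finset.mem_insert, Finset.mem_singleton] at h
    rw [hd, hq]
    rcases h with rfl | rfl | rfl | rfl | rfl | rfl
    · simp
    · exact Or.inr (Or.inl rfl)
    · exact Or.inr (Or.inr (Or.inl (by push_cast; ring)))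
    · exact Or.inr (Or.inr (Or.inr (Or.inl (by push_cast; ring))))
    · exact Or.inr (Or.inr (Or.inr (Or.inr (Or.inl rfl))))
    · exact Or.inr (Or.inr (Or.inr (Or.inr (Or.inr rfl))))
  · obtain ⟨n1, nq, na, nb, nc, nd⟩ := Cfsg.Lib.Classical.TwoDim.numDeg_SL hr (by omega)
    have key : ∀ (c : ℂ) (d : ℕ), c = d →
        Nat.card {χ : Cfsg.IrrCharacter (Matrix.SpecialLinearGroup (Fin 2) F) // (χ : Matrix.SpecialLinearGroup (Fin 2) F → ℂ) 1 = c} =
          Cfsg.Lib.Classical.TwoDim.numDeg (Matrix.SpecialLinearGroup (Fin 2) F) d := fun c d h =>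
      Nat.card_congr (Equiv.subtypeEquivRight fun χ => by rw [Cfsg.Lib.Classical.TwoDim.charDegree_iff, h])
    refine ⟨(key _ 1 (by simp)).trans n1, (key _ _ hq).trans nq,
      (key _ (2 * r + 2) (by rw [hq]; push_cast; ring)).trans (na.trans (by omega)),
      (key _ (2 * r) (by rw [hq]; push_cast; ring)).trans nb,
      (key _ (r + 1) rfl).trans nc, (key _ r rfl).trans nd⟩

end Cfsg.Agent.S2299
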