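import Cfsg.Statements.S2301
import Cfsg.Agent.Lib.Classical.TwoDimClasses
import Cfsg.Agent.Lib.Classical.TwoByTwo
-- import your own Cfsg.Agent.* helpers here

set_option autoImplicit false
open Cfsg

namespace Cfsg.Agent.S2301

/-- Over a finite field with q elements of odd characteristic p, the elements of order p of SL₂ (the non-identity unipotent elements) fall into exactly two conjugacy classes, each of size (q² − 1)/2; two upper unitriangular matrices with non-zero off-diagonal entries b and b′ are conjugate exactly when bb′ is a square. -/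
theorem result {F : Type*} [Field F] [Fintype F] (p : ℕ) [Fact p.Prime] [CharP F p] (hp : p ≠ 2) :
    Nat.card {C : ConjClasses (Matrix.SpecialLinearGroup (Fin 2) F) // ∃ g : Matrix.SpecialLinearGroup (Fin 2) F, orderOf g = p ∧ ConjClasses.mk g = C} = 2 ∧
    (∀ g : Matrix.SpecialLinearGroup (Fin 2) F, orderOf g = p → Nat.card (ConjClasses.mk g).carrier = (Fintype.card F ^ 2 - 1) / 2) ∧
    ∀ g h : Matrix.SpecialLinearGroup (Fin 2) F, (g : Matrix (Fin 2) (Fin 2) F) 0 0 = 1 → (g : Matrix (Fin 2) (Fin 2) F) 1 1 = 1 → (g : Matrix (Fin 2) (Fin 2) F) 1 0 = 0 → (g : Matrix (Fin 2) (Fin 2) F) 0 1 ≠ 0 →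
      (h : Matrix (Fin 2) (Fin 2) F) 0 0 = 1 → (h : Matrix (Fin 2) (Fin 2) F) 1 1 = 1 → (h : Matrix (Fin 2) (Fin 2) F) 1 0 = 0 → (h : Matrix (Fin 2) (Fin 2) F) 0 1 ≠ 0 →
      (IsConj g h ↔ IsSquare ((g : Matrix (Fin 2) (Fin 2) F) 0 1 * (h : Matrix (Fin 2) (Fin 2) F) 0 1)) := by
  classical
  open Cfsg.Lib.Classical.TwoDim in
  obtain ⟨h2, hodd⟩ : (2 : F) ≠ 0 ∧ Odd (Fintype.card F) := by
    have h : ringChar F ≠ 2 := by rw [ringChar.eq F p]; exact hp
    exact ⟨Ring.two_ne_zero h, Nat.odd_iff.2 (FiniteField.odd_card_of_char_ne_two h)⟩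
  open Cfsg.Lib.Classical.TwoDim in
  have hord : ∀ g : Matrix.SpecialLinearGroup (Fin 2) F, orderOf g = p →
      ∃ b : F, b ≠ 0 ∧ ConjClasses.mk g = ConjClasses.mk (uS b) ∧ g ≠ 1 ∧ tr g = tr 1 := by
    intro g hg
    have h1 : g ≠ 1 := fun e => (Fact.out : p.Prime).ne_one (by rw [← hg, e, orderOf_one])
    have hn : IsNilpotent ((g : Matrix (Fin 2) (Fin 2) F) - 1) := ⟨p, by
      rw [sub_pow_char_of_commute (p := p) (Commute.one_right _), one_pow, ← Matrix.SpecialLinearGroup.coe_pow, ← hg,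
        pow_orderOf_eq_one, Matrix.SpecialLinearGroup.coe_one, sub_self]⟩
    have ht := (Matrix.isNilpotent_trace_of_isNilpotent hn).eq_zero
    have ht' : tr g = tr 1 := by
      simp [Matrix.trace_fin_two] at ht
      simp [tr]
      linear_combination ht
    obtain ⟨x, b, hb, hx⟩ := exists_unip h2 (Or.inl rfl) h1 ht'
    rw [one_mul] at hx
    exact ⟨b, hb, ConjClasses.mk_eq_mk_iff_isConj.2 (isConj_iff.2 ⟨x, hx⟩), h1, ht'⟩
  open Cfsg.Lib.Classical.TwoDim in
  have hcrit : ∀ b c : F, b ≠ 0 → c ≠ 0 → (IsConj (uS b) (uS c) ↔ IsSquare (b * c)) := by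
    intro b c hb hc
    constructor
    · intro h
      obtain ⟨A, hA⟩ := isConj_iff.1 h
      rw [mul_inv_eq_iff_eq_mul] at hA
      have h0 := congrArg (fun z : Matrix.SpecialLinearGroup (Fin 2) F => (z : Matrix (Fin 2) (Fin 2) F) 0 0) hA
      have h1 := congrArg (fun z : Matrix.SpecialLinearGroup (Fin 2) F => (z : Matrix (Fin 2) (Fin 2) F) 0 1) hA
      simp [Matrix.mul_apply, Fin.sum_univ_two] at h0 h1
      have h10 := h0.resolve_left hc
      have hd := A.2
      rw [Matrix.det_fin_two, h10, mul_zero, sub_zero] at hd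
      refine ⟨b * (A : Matrix (Fin 2) (Fin 2) F) 0 0, ?_⟩
      linear_combination (-b * c) * hd - (b * (A : Matrix (Fin 2) (Fin 2) F) 0 0) * h1
    · rintro ⟨s, hs⟩
      have hs0 : s ≠ 0 := fun e => mul_ne_zero hb hc (by rw [hs, e, zero_mul])
      let D : Matrix.SpecialLinearGroup (Fin 2) F := ⟨!![s / b, 0; 0, b / s], by simp [Matrix.det_fin_two]; field_simp⟩
      refine isConj_iff.2 ⟨D, mul_inv_eq_iff_eq_mul.2 (Subtype.ext ?_)⟩
      show (!![s / b, 0; 0, b / s] : Matrix (Fin 2) (Fin 2) F) * !![1, b; 0, 1] = !![1, c; 0, 1] * !![s / b, 0; 0, b / s]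
      ext i j
      fin_cases i <;> fin_cases j <;> simp [Matrix.mul_apply, Fin.sum_univ_two] <;> field_simp <;>
        linear_combination -hs
  open Cfsg.Lib.Classical.TwoDim in
  have hpu : ∀ b : F, b ≠ 0 → orderOf (uS b) = p := fun b hb => by
    refine orderOf_eq_prime ?_ fun e => hb ?_
    · have := (uSHom (F := F)).map_pow (Multiplicative.ofAdd b) p
      rw [← ofAdd_nsmul, nsmul_eq_mul, CharP.cast_eq_zero, zero_mul, ofAdd_zero, map_one] at this
      exact this.symm
    · simpa using congrArg (fun z : Matrix.SpecialLinearGroup (Fin 2) F => (z : Matrix (Fin 2) (Fin 2) F) 0 1) e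
  open Cfsg.Lib.Classical.TwoDim in
  refine ⟨?_, fun g hg => ?_, fun g h a1 a2 a3 a4 b1 b2 b3 b4 => ?_⟩
  · obtain ⟨ε, hε⟩ := FiniteField.exists_nonsquare (F := F) (ringChar_ne_two hodd)
    have hε0 : ε ≠ 0 := fun e => hε (e ▸ IsSquare.zero)
    have hset : {C : ConjClasses (Matrix.SpecialLinearGroup (Fin 2) F) |
        ∃ g : Matrix.SpecialLinearGroup (Fin 2) F, orderOf g = p ∧ ConjClasses.mk g = C} =
        {ConjClasses.mk (uS 1), ConjClasses.mk (uS ε)} := by
      ext C
      simp only [Set.mem_ofPred_eq, Set.mem_insert_iff, Set.mem_singleton_iff]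
      constructor
      · rintro ⟨g, hg, rfl⟩
        obtain ⟨b, hb, e, -⟩ := hord g hg
        rw [e, ConjClasses.mk_eq_mk_iff_isConj, ConjClasses.mk_eq_mk_iff_isConj, hcrit b 1 hb one_ne_zero, hcrit b ε hb hε0,
          mul_one]
        by_cases hs : IsSquare b
        · exact Or.inl hs
        · right
          rw [← quadraticChar_one_iff_isSquare (mul_ne_zero hb hε0), map_mul,
            quadraticChar_neg_one_iff_not_isSquare.2 hs, quadraticChar_neg_one_iff_not_isSquare.2 hε]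
          norm_num
      · rintro (rfl | rfl)
        exacts [⟨_, hpu 1 one_ne_zero, rfl⟩, ⟨_, hpu ε hε0, rfl⟩]
    have := congrArg Set.ncard hset
    rw [Set.ncard_pair (fun e => not_isConj_uS hε (ConjClasses.mk_eq_mk_iff_isConj.1 e)), ← Nat.card_coe_set_eq] at this
    exact this
  · obtain ⟨b, -, -, h1, ht⟩ := hord g hg
    have hc := Cfsg.Lib.Classical.TwoByTwo.card_carrier_mul g
    rw [card_centralizer_unip hodd (Or.inl rfl) h1 ht, card_SL] at hc
    refine (Nat.div_eq_of_eq_mul_left two_pos ?_).symm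
    refine Nat.eq_of_mul_eq_mul_right (Fintype.card_pos (α := F)) ?_
    obtain ⟨m, hm⟩ := Nat.exists_eq_succ_of_ne_zero (Fintype.card_ne_zero (α := F))
    simp only [hm, Nat.succ_eq_add_one, Nat.add_sub_cancel] at hc ⊢
    rw [show (m + 1) ^ 2 - 1 = m * (m + 2) from Nat.sub_eq_of_eq_add (by ring)]
    linear_combination -hc
  · have e : ∀ x : Matrix.SpecialLinearGroup (Fin 2) F, (x : Matrix (Fin 2) (Fin 2) F) 0 0 = 1 →
        (x : Matrix (Fin 2) (Fin 2) F) 1 1 = 1 → (x : Matrix (Fin 2) (Fin 2) F) 1 0 = 0 →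
        x = uS ((x : Matrix (Fin 2) (Fin 2) F) 0 1) := fun x u v w => Subtype.ext (by
      ext i j; fin_cases i <;> fin_cases j <;> simp [u, v, w])
    have := hcrit _ _ a4 b4
    rwa [← e g a1 a2 a3, ← e h b1 b2 b3] at this

end Cfsg.Agent.S2301
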