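import Cfsg.Statements.S2302
import Cfsg.Agent.Lib.Classical.TwoByTwo
import Cfsg.Agent.Lib.Classical.LinearOrders
-- import your own Cfsg.Agent.* helpers here

set_option autoImplicit false
open Cfsg

namespace Cfsg.Agent.S2302

/-- Over a finite field with q elements of characteristic 2, the involutions of SL₂ (the non-identity unipotent elements) form a single conjugacy class, of size q² − 1. -/
theorem result {F : Type*} [Field F] [Fintype F] [CharP F 2] (g h : Matrix.SpecialLinearGroup (Fin 2) F) (hg : orderOf g = 2) (hh : orderOf h = 2) :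
    IsConj g h ∧ Nat.card (ConjClasses.mk g).carrier = Fintype.card F ^ 2 - 1 := by
  classical
  open Cfsg.Lib.Classical in
  haveI : Fact (Nat.Prime 2) := ⟨Nat.prime_two⟩
  let U : Matrix.SpecialLinearGroup (Fin 2) F := ⟨!![1, 1; 0, 1], by simp [Matrix.det_fin_two]⟩
  have key : ∀ x : Matrix.SpecialLinearGroup (Fin 2) F, orderOf x = 2 → IsConj U x := by
    intro x hx
    have hx2 : (x : Matrix (Fin 2) (Fin 2) F) ^ 2 ^ 1 = 1 := by
      have h := pow_orderOf_eq_one x
      rw [hx] at h
      rw [pow_one]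
      exact (Matrix.SpecialLinearGroup.coe_pow x 2).symm.trans (congrArg Subtype.val h)
    have hN := TwoByTwo.sub_one_sq_zero (p := 2) 1 hx2
    rw [pow_two] at hN
    obtain ⟨P, hP, hPx⟩ := TwoByTwo.exists_jordan hN (fun e => by
      rw [show x = 1 from Subtype.ext e, orderOf_one] at hx; omega)
    obtain ⟨c, hc⟩ := FiniteField.isSquare_of_char_two (ringChar.eq F 2) P.det⁻¹
    let R : Matrix.SpecialLinearGroup (Fin 2) F := ⟨c • P, by
      rw [Matrix.det_smul, Fintype.card_fin, pow_two, ← hc, inv_mul_cancel₀ hP]⟩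
    exact isConj_iff.2 ⟨R, by rw [mul_inv_eq_iff_eq_mul]; exact Subtype.ext (hPx c).symm⟩
  refine ⟨(key g hg).symm.trans (key h hh), ?_⟩
  rw [← ConjClasses.mk_eq_mk_iff_isConj.2 (key g hg)]
  have hC : Nat.card (Subgroup.centralizer ({U} : Set (Matrix.SpecialLinearGroup (Fin 2) F))) = Fintype.card F := by
    rw [← Nat.card_eq_fintype_card]
    refine (Nat.card_congr (Equiv.ofBijective (fun b : F => (⟨⟨!![1, b; 0, 1], by simp [Matrix.det_fin_two]⟩, ?_⟩ :
      Subgroup.centralizer ({U} : Set (Matrix.SpecialLinearGroup (Fin 2) F)))) ⟨fun a b e => ?_, fun y => ?_⟩)).symm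
    · refine Subgroup.mem_centralizer_singleton_iff.2 (Subtype.ext ?_)
      show !![1, b; 0, 1] * !![(1 : F), 1; 0, 1] = !![1, 1; 0, 1] * !![1, b; 0, 1]
      ext i j; fin_cases i <;> fin_cases j <;> simp [Matrix.mul_apply, Fin.sum_univ_two, add_comm]
    · simpa using congrArg (fun z : Subgroup.centralizer ({U} : Set (Matrix.SpecialLinearGroup (Fin 2) F)) =>
        ((z : Matrix.SpecialLinearGroup (Fin 2) F) : Matrix (Fin 2) (Fin 2) F) 0 1) e
    · have hy : ((y : Matrix.SpecialLinearGroup (Fin 2) F) : Matrix (Fin 2) (Fin 2) F) * !![1, 1; 0, 1] =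
          !![1, 1; 0, 1] * ((y : Matrix.SpecialLinearGroup (Fin 2) F) : Matrix (Fin 2) (Fin 2) F) :=
        congrArg (fun z : Matrix.SpecialLinearGroup (Fin 2) F => (z : Matrix (Fin 2) (Fin 2) F)) (Subgroup.mem_centralizer_singleton_iff.1 y.2)
      set M := ((y : Matrix.SpecialLinearGroup (Fin 2) F) : Matrix (Fin 2) (Fin 2) F) with hM
      have h00 := congrFun (congrFun hy 0) 0
      have h01 := congrFun (congrFun hy 0) 1
      simp [Matrix.mul_apply, Fin.sum_univ_two] at h00 h01
      have hd : M.det = 1 := (y : Matrix.SpecialLinearGroup (Fin 2) F).2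
      have h11 : M 1 1 = M 0 0 := by linear_combination -h01
      rw [Matrix.det_fin_two, h00, h11, mul_zero, sub_zero] at hd
      have ha : M 0 0 = 1 := by
        rcases mul_self_eq_one_iff.1 hd with e | e
        · exact e
        · rw [e, CharTwo.neg_eq]
      refine ⟨M 0 1, Subtype.ext (Subtype.ext ?_)⟩
      show !![1, M 0 1; 0, 1] = M
      conv_rhs => rw [Matrix.eta_fin_two M, h00, h11, ha]
  have hG := LinearOrders.card_sl_mul (F := F) (n := 2) one_le_two
  have h := TwoByTwo.card_carrier_mul U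
  rw [hC] at h
  rw [← h, Fin.prod_univ_two] at hG
  simp only [Fin.val_zero, pow_zero, Fin.val_one, pow_one] at hG
  have hq : 2 ≤ Fintype.card F := Fintype.one_lt_card
  obtain ⟨k, hk⟩ : ∃ k, Fintype.card F = k + 1 := ⟨Fintype.card F - 1, by omega⟩
  rw [hk] at hG ⊢
  have e1 : (k + 1) ^ 2 - 1 = (k + 2) * k := by rw [show (k + 1) ^ 2 = (k + 2) * k + 1 by ring, Nat.add_sub_cancel]
  have e2 : (k + 1) ^ 2 - (k + 1) = (k + 1) * k := by rw [show (k + 1) ^ 2 = (k + 1) * k + (k + 1) by ring, Nat.add_sub_cancel]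
  rw [e1, e2, Nat.add_sub_cancel] at hG
  rw [e1]
  refine Nat.eq_of_mul_eq_mul_left (show 0 < k * (k + 1) by exact Nat.mul_pos (by omega) (by omega)) ?_
  linarith

end Cfsg.Agent.S2302
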