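import Cfsg.Statements.S2303
import Cfsg.Agent.Lib.Classical.TwoByTwo
-- import your own Cfsg.Agent.* helpers here

set_option autoImplicit false
open Cfsg

namespace Cfsg.Agent.S2303

/-- Over a finite field with q elements: a diagonal element of GL₂ with two distinct diagonal entries has centralizer of order (q − 1)² (so q(q + 1) conjugates), and an element of GL₂ with no eigenvector in F² has centralizer of order q² − 1 (so q(q − 1) conjugates). -/
theorem result {F : Type*} [Field F] [Fintype F] (g : Matrix.GeneralLinearGroup (Fin 2) F) :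
    ((g : Matrix (Fin 2) (Fin 2) F) 0 1 = 0 → (g : Matrix (Fin 2) (Fin 2) F) 1 0 = 0 → (g : Matrix (Fin 2) (Fin 2) F) 0 0 ≠ (g : Matrix (Fin 2) (Fin 2) F) 1 1 →
      Nat.card (Subgroup.centralizer ({g} : Set (Matrix.GeneralLinearGroup (Fin 2) F))) = (Fintype.card F - 1) ^ 2) ∧
    ((∀ (c : F) (v : Fin 2 → F), v ≠ 0 → (g : Matrix (Fin 2) (Fin 2) F).mulVec v ≠ c • v) →
      Nat.card (Subgroup.centralizer ({g} : Set (Matrix.GeneralLinearGroup (Fin 2) F))) = Fintype.card F ^ 2 - 1) := by
  classical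
  open Cfsg.Lib.Classical in
  set G := (g : Matrix (Fin 2) (Fin 2) F) with hG
  refine ⟨fun h01 h10 hne => ?_, fun hirr => ?_⟩
  · have hc : ∀ x : Matrix.GeneralLinearGroup (Fin 2) F, x ∈ Subgroup.centralizer ({g} : Set _) ↔
        (x : Matrix (Fin 2) (Fin 2) F) 0 1 = 0 ∧ (x : Matrix (Fin 2) (Fin 2) F) 1 0 = 0 := by
      intro x
      rw [Subgroup.mem_centralizer_singleton_iff, Units.ext_iff, Units.val_mul, Units.val_mul, ← hG]
      constructor
      · intro e
        have e1 := congrFun (congrFun e 0) 1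
        have e2 := congrFun (congrFun e 1) 0
        simp [Matrix.mul_apply, Fin.sum_univ_two, h01, h10] at e1 e2
        have hs : G 1 1 - G 0 0 ≠ 0 := sub_ne_zero.2 (Ne.symm hne)
        exact ⟨(mul_eq_zero.1 (show (G 1 1 - G 0 0) * (x : Matrix (Fin 2) (Fin 2) F) 0 1 = 0 by linear_combination e1)).resolve_left hs,
          (mul_eq_zero.1 (show (G 1 1 - G 0 0) * (x : Matrix (Fin 2) (Fin 2) F) 1 0 = 0 by linear_combination -e2)).resolve_left hs⟩
      · rintro ⟨a, b⟩
        ext i j
        fin_cases i <;> fin_cases j <;> simp [Matrix.mul_apply, Fin.sum_univ_two, h01, h10, a, b, mul_comm]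
    rw [pow_two, show Fintype.card F - 1 = Nat.card Fˣ by rw [Nat.card_eq_fintype_card, Fintype.card_units], ← Nat.card_prod]
    refine (Nat.card_congr (Equiv.ofBijective (fun p : Fˣ × Fˣ => (⟨Matrix.GeneralLinearGroup.mkOfDetNeZero
      !![(p.1 : F), 0; 0, (p.2 : F)] (by simp [Matrix.det_fin_two]), (hc _).2 (by simp)⟩ :
      Subgroup.centralizer ({g} : Set (Matrix.GeneralLinearGroup (Fin 2) F)))) ⟨fun a b e => ?_, fun y => ?_⟩)).symm
    · have e0 := congrArg (fun z : Subgroup.centralizer ({g} : Set (Matrix.GeneralLinearGroup (Fin 2) F)) =>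
        (((z : Matrix.GeneralLinearGroup (Fin 2) F) : Matrix (Fin 2) (Fin 2) F) 0 0, ((z : Matrix.GeneralLinearGroup (Fin 2) F) : Matrix (Fin 2) (Fin 2) F) 1 1)) e
      simp at e0
      exact Prod.ext (Units.ext e0.1) (Units.ext e0.2)
    · obtain ⟨y0, y1⟩ := (hc y.1).1 y.2
      have hd := Matrix.GeneralLinearGroup.det_ne_zero y.1
      rw [Matrix.det_fin_two, y0, y1, mul_zero, sub_zero] at hd
      refine ⟨(Units.mk0 _ (left_ne_zero_of_mul hd), Units.mk0 _ (right_ne_zero_of_mul hd)), Subtype.ext (Units.ext ?_)⟩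
      show !![_, 0; 0, _] = ((y.1 : Matrix.GeneralLinearGroup (Fin 2) F) : Matrix (Fin 2) (Fin 2) F)
      ext i j; fin_cases i <;> fin_cases j <;> simp [y0, y1]
  · have hdet : ∀ a b : F, (a, b) ≠ 0 → (a • (1 : Matrix (Fin 2) (Fin 2) F) + b • G).det ≠ 0 := by
      intro a b hab h0
      obtain ⟨v, hv, e⟩ := Matrix.exists_mulVec_eq_zero_iff.2 h0
      rw [Matrix.add_mulVec, Matrix.smul_mulVec, Matrix.smul_mulVec, Matrix.one_mulVec] at e
      rcases eq_or_ne b 0 with rfl | hb
      · rw [zero_smul, add_zero, smul_eq_zero] at e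
        exact hab (Prod.ext (e.resolve_right hv) rfl)
      · refine hirr (-(a / b)) v hv ?_
        funext i
        have := congrFun e i
        simp only [Pi.add_apply, Pi.smul_apply, smul_eq_mul, Pi.zero_apply] at this ⊢
        field_simp
        linear_combination this
    set v : Fin 2 → F := Pi.single 0 1 with hv
    have hcyc : !![v 0, (G.mulVec v) 0; v 1, (G.mulVec v) 1].det ≠ 0 := by
      simp [hv, Matrix.det_fin_two, Matrix.mulVec_single_one, Matrix.col]
      intro e
      refine hirr (G 0 0) (Pi.single 0 1) (by simp) ?_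
      funext i
      fin_cases i <;> simp [← hG, Matrix.mulVec_single_one, Matrix.col, e]
    have e : Nat.card {p : F × F // p ≠ 0} = Fintype.card F ^ 2 - 1 := by
      rw [Nat.card_eq_fintype_card, Fintype.card_subtype_compl, Fintype.card_subtype_eq, Fintype.card_prod, pow_two]
    rw [← e]
    refine (Nat.card_congr (Equiv.ofBijective (fun p : {p : F × F // p ≠ 0} =>
      (⟨Matrix.GeneralLinearGroup.mkOfDetNeZero (p.1.1 • (1 : Matrix (Fin 2) (Fin 2) F) + p.1.2 • G) (hdet _ _ p.2), ?_⟩ :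
      Subgroup.centralizer ({g} : Set (Matrix.GeneralLinearGroup (Fin 2) F)))) ⟨fun a b e => ?_, fun y => ?_⟩)).symm
    · rw [Subgroup.mem_centralizer_singleton_iff]
      refine Units.ext ?_
      show (p.1.1 • (1 : Matrix (Fin 2) (Fin 2) F) + p.1.2 • G) * G = G * (p.1.1 • 1 + p.1.2 • G)
      simp [Matrix.add_mul, Matrix.mul_add]
    · have e0 : a.1.1 • (1 : Matrix (Fin 2) (Fin 2) F) + a.1.2 • G = b.1.1 • 1 + b.1.2 • G :=
        congrArg (fun z : Subgroup.centralizer ({g} : Set (Matrix.GeneralLinearGroup (Fin 2) F)) => ((z : Matrix.GeneralLinearGroup (Fin 2) F) : Matrix (Fin 2) (Fin 2) F)) e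
      by_contra hne
      refine hdet (a.1.1 - b.1.1) (a.1.2 - b.1.2) (fun h0 => hne (Subtype.ext (sub_eq_zero.1 h0))) ?_
      rw [show (a.1.1 - b.1.1) • (1 : Matrix (Fin 2) (Fin 2) F) + (a.1.2 - b.1.2) • G = 0 by
        rw [sub_smul, sub_smul, sub_add_sub_comm, e0, sub_self]]
      simp
    · obtain ⟨a, b, hab⟩ := TwoByTwo.commutant hcyc
        (congrArg Units.val (Subgroup.mem_centralizer_singleton_iff.1 y.2))
      refine ⟨⟨(a, b), fun h0 => ?_⟩, Subtype.ext (Units.ext hab.symm)⟩
      have hd := Matrix.GeneralLinearGroup.det_ne_zero y.1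
      rw [hab, show a = 0 from congrArg Prod.fst h0, show b = 0 from congrArg Prod.snd h0] at hd
      simp at hd

end Cfsg.Agent.S2303
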