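import Cfsg.Statements.S2305
import Cfsg.Agent.Lib.Classical.PrincipalSeries
-- import your own Cfsg.Agent.* helpers here

set_option autoImplicit false
open Cfsg

namespace Cfsg.Agent.S2305

/-- Over a finite field F, for multiplicative characters α, β, α′, β′ of F, the characters of GL₂ induced from the linear characters b ↦ α(b₁₁) β(b₂₂) and b ↦ α′(b₁₁) β′(b₂₂) of the upper triangular subgroup coincide exactly when {α, β} = {α′, β′} as unordered pairs. -/
theorem result {F : Type*} [Field F] [Fintype F] [DecidableEq F] (α β α' β' : MulChar F ℂ) :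
    Cfsg.indFun (Cfsg.upperTriangularGL 2 F) (fun b => α (((b : Matrix.GeneralLinearGroup (Fin 2) F) : Matrix (Fin 2) (Fin 2) F) 0 0) * β (((b : Matrix.GeneralLinearGroup (Fin 2) F) : Matrix (Fin 2) (Fin 2) F) 1 1)) = Cfsg.indFun (Cfsg.upperTriangularGL 2 F) (fun b => α' (((b : Matrix.GeneralLinearGroup (Fin 2) F) : Matrix (Fin 2) (Fin 2) F) 0 0) * β' (((b : Matrix.GeneralLinearGroup (Fin 2) F) : Matrix (Fin 2) (Fin 2) F) 1 1)) ↔
      (α = α' ∧ β = β') ∨ (α = β' ∧ β = α') := by
  classical
  show Cfsg.indFun _ (Cfsg.Lib.Classical.ProjLine.thGL α β) = Cfsg.indFun _ (Cfsg.Lib.Classical.ProjLine.thGL α' β') ↔ _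
  constructor
  · intro e
    have h1 := Cfsg.Lib.Classical.ProjLine.inner_GL α β α' β'
    rw [← e, Cfsg.Lib.Classical.ProjLine.inner_GL, if_pos ⟨rfl, rfl⟩] at h1
    by_contra hno
    push Not at hno
    rw [show (if α = α' ∧ β = β' then (1 : ℂ) else 0) = 0 from if_neg (fun h => hno.1 h.1 h.2),
      show (if α = β' ∧ β = α' then (1 : ℂ) else 0) = 0 from if_neg (fun h => hno.2 h.1 h.2), add_zero] at h1
    by_cases hab : α = β ∧ β = α
    · rw [if_pos hab] at h1; norm_num at h1
    · rw [if_neg hab] at h1; norm_num at h1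
  · intro h
    rw [← sub_eq_zero]
    refine Cfsg.Lib.Characters.classInner_self_eq_zero ?_
    rw [Cfsg.Lib.Characters.classInner_sub_left, Cfsg.Lib.Characters.classInner_sub_right, Cfsg.Lib.Characters.classInner_sub_right,
      Cfsg.Lib.Classical.ProjLine.inner_GL, Cfsg.Lib.Classical.ProjLine.inner_GL, Cfsg.Lib.Classical.ProjLine.inner_GL, Cfsg.Lib.Classical.ProjLine.inner_GL]
    rcases h with ⟨rfl, rfl⟩ | ⟨rfl, rfl⟩
    · ring
    · simp only [and_self, if_true, and_comm, eq_comm]
      ring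

end Cfsg.Agent.S2305
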