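import Cfsg.Statements.S2307
import Cfsg.Agent.Lib.Classical.TwoDimSLFacts
-- import your own Cfsg.Agent.* helpers here

set_option autoImplicit false
open Cfsg

namespace Cfsg.Agent.S2307

/-- Over a finite field F with q elements, q odd, let α be the multiplicative character of F of order 2. The character of SL₂ induced from the linear character b ↦ α(b₁₁) of the upper triangular subgroup is the sum of two distinct irreducible characters, each of degree (q + 1)/2, which are conjugate under GL₂: some fixed element of GL₂ conjugates the one into the other. -/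
theorem result {F : Type*} [Field F] [Fintype F] [DecidableEq F] (hodd : Odd (Fintype.card F)) (α : MulChar F ℂ)
    (hα : α ^ 2 = 1) (hα1 : α ≠ 1) :
    ∃ χ₁ χ₂ : Matrix.SpecialLinearGroup (Fin 2) F → ℂ, Cfsg.IsIrrCharacter (Matrix.SpecialLinearGroup (Fin 2) F) χ₁ ∧ Cfsg.IsIrrCharacter (Matrix.SpecialLinearGroup (Fin 2) F) χ₂ ∧ χ₁ ≠ χ₂ ∧
      Cfsg.indFun ((Cfsg.upperTriangularGL 2 F).comap Matrix.SpecialLinearGroup.toGL) (fun b => α (((b : Matrix.SpecialLinearGroup (Fin 2) F) : Matrix (Fin 2) (Fin 2) F) 0 0)) = χ₁ + χ₂ ∧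
      χ₁ 1 = (((Fintype.card F + 1) / 2 : ℕ) : ℂ) ∧ χ₂ 1 = (((Fintype.card F + 1) / 2 : ℕ) : ℂ) ∧
      ∃ x : Matrix.GeneralLinearGroup (Fin 2) F, ∀ g h : Matrix.SpecialLinearGroup (Fin 2) F,
        Matrix.SpecialLinearGroup.toGL h = x * Matrix.SpecialLinearGroup.toGL g * x⁻¹ → χ₂ h = χ₁ g := by
  classical
  have hne : α ≠ (1 : MulChar F ℂ) := hα1
  have hI := Cfsg.Lib.Classical.ProjLine.inner_GL α (1 : MulChar F ℂ) α 1
  simp [hne] at hI
  set π := Cfsg.indFun (Cfsg.upperTriangularGL 2 F) (Cfsg.Lib.Classical.ProjLine.thGL α 1) with hπdef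
  have hπ : Cfsg.IsIrrCharacter _ π := Cfsg.Lib.Characters.isIrrCharacter_of_classInner_eq_one
    (Cfsg.Lib.Characters.isCharacter_indFun _ (Cfsg.Lib.Classical.ProjLine.isCharacter_thGL _ _)) hI
  have hπd : π 1 = (Fintype.card F : ℂ) + 1 := Cfsg.Lib.Classical.TwoDim.indFun_one' _ _
  have h1 : π 1 ≠ 1 := fun e => Nat.cast_ne_zero.2 Fintype.card_ne_zero (show (Fintype.card F : ℂ) = 0 by linear_combination e - hπd)
  have hres : ∀ A, π (Matrix.SpecialLinearGroup.toGL A) = Cfsg.indFun _ (Cfsg.Lib.Classical.ProjLine.thSL α) A := fun A => by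
    rw [hπdef, Cfsg.Lib.Classical.TwoDim.res_indFun]; simp
  rcases Cfsg.Lib.Classical.TwoDim.res_cases hπ h1 with hirr | ⟨x, θ, θ', hθ, hθ', hd, hx, hsum⟩
  · exfalso
    have h2 := Cfsg.Lib.Classical.ProjLine.inner_SL α α
    have e1 : α = α⁻¹ := eq_inv_of_mul_eq_one_left (by rw [← sq]; exact hα)
    rw [if_pos rfl, if_pos e1, show (Cfsg.indFun _ (Cfsg.Lib.Classical.ProjLine.thSL α)) =
      fun A => π (Matrix.SpecialLinearGroup.toGL A) from funext fun A => (hres A).symm,
      Cfsg.Lib.Characters.classInner_irr_self hirr] at h2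
    norm_num at h2
  · have hdeg : θ' 1 = θ 1 := by rw [hx, map_one]
    have hh : θ' 1 + θ' 1 = (Fintype.card F : ℂ) + 1 := by
      rw [← hπd, ← map_one (Matrix.SpecialLinearGroup.toGL : Matrix.SpecialLinearGroup (Fin 2) F →* _), hsum, hdeg]
    have hcast : (((Fintype.card F + 1) / 2 : ℕ) : ℂ) = θ' 1 := by
      obtain ⟨r, hr⟩ := hodd
      rw [show (Fintype.card F + 1) / 2 = r + 1 by omega]
      rw [hr] at hh
      push_cast at hh ⊢
      linear_combination -hh / 2
    refine ⟨θ', θ, hθ', hθ, hd.symm, funext fun A => ?_, hcast.symm, hdeg ▸ hcast.symm, x, fun g h hgh => ?_⟩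
    · exact ((hres A).symm.trans ((hsum A).trans (add_comm _ _)))
    · rw [hx]
      exact congrArg θ (Cfsg.Lib.Classical.TwoDim.toGL_inj (by rw [hgh, Cfsg.Lib.Classical.TwoDim.toGL_conjS]))

end Cfsg.Agent.S2307
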