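import Cfsg.Statements.S2309
import Cfsg.Agent.Lib.Classical.TwoDimGL
-- import your own Cfsg.Agent.* helpers here

set_option autoImplicit false
open Cfsg

namespace Cfsg.Agent.S2309

/-- Over a finite field F with q elements: every irreducible complex character of GL₂ of degree q − 1 vanishes at every diagonal matrix with two distinct entries, and every irreducible complex character of degree q + 1 vanishes at every element with no eigenvector in F². -/
theorem result {F : Type*} [Field F] [Fintype F] (χ : Matrix.GeneralLinearGroup (Fin 2) F → ℂ) (hχ : Cfsg.IsIrrCharacter (Matrix.GeneralLinearGroup (Fin 2) F) χ) (g : Matrix.GeneralLinearGroup (Fin 2) F) :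
    (χ 1 = (Fintype.card F : ℂ) - 1 → (g : Matrix (Fin 2) (Fin 2) F) 0 1 = 0 → (g : Matrix (Fin 2) (Fin 2) F) 1 0 = 0 → (g : Matrix (Fin 2) (Fin 2) F) 0 0 ≠ (g : Matrix (Fin 2) (Fin 2) F) 1 1 → χ g = 0) ∧
    (χ 1 = (Fintype.card F : ℂ) + 1 → (∀ (c : F) (v : Fin 2 → F), v ≠ 0 → (g : Matrix (Fin 2) (Fin 2) F).mulVec v ≠ c • v) → χ g = 0) := by
  classical
  have q1 : (Fintype.card F : ℂ) ≠ 0 := Nat.cast_ne_zero.2 Fintype.card_ne_zero
  have hq2 : 2 ≤ Fintype.card F := Fintype.one_lt_card
  refine ⟨fun hd h01 h10 hne => ?_, fun hd hev => ?_⟩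
  · by_cases h1 : χ 1 = 1
    · have hq : Fintype.card F = 2 := by
        have : ((Fintype.card F : ℕ) : ℂ) = ((2 : ℕ) : ℂ) := by push_cast; linear_combination h1 - hd
        exact Nat.cast_injective this
      have hd' := Matrix.GeneralLinearGroup.det_ne_zero g
      rw [Matrix.det_fin_two, h01, zero_mul, sub_zero] at hd'
      have hcard : Fintype.card Fˣ = 1 := by rw [Fintype.card_units, hq]
      have := Fintype.card_le_one_iff_subsingleton.1 hcard.le
      exact absurd (congrArg Units.val (Subsingleton.elim (Units.mk0 _ (left_ne_zero_of_mul hd'))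
        (Units.mk0 _ (right_ne_zero_of_mul hd')))) hne
    · refine Cfsg.Lib.Classical.TwoDim.eq_zero_diag hχ.isCharacter ?_ h01 h10 hne
      have := Cfsg.Lib.Classical.TwoDim.sub_u_eq hχ h1
      rw [Cfsg.Lib.Classical.TwoDim.sum_u hχ.isClassFunction]
      linear_combination (Fintype.card F : ℂ) * hd - ((Fintype.card F : ℂ) - 1) * this
  · have h1 : χ 1 ≠ 1 := fun h1 => q1 (by linear_combination h1 - hd)
    rcases Cfsg.Lib.Classical.TwoDim.gl_cases hχ h1 with ⟨h, -⟩ | ⟨α, rfl⟩ | ⟨α, β, -, rfl⟩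
    · exact absurd (show (2 : ℂ) = 0 by linear_combination h - hd) two_ne_zero
    · simp [Cfsg.Lib.Classical.TwoDim.st_one] at hd
    · exact Cfsg.Lib.Classical.TwoDim.indFun_elliptic α β hev

end Cfsg.Agent.S2309
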