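import Cfsg.Statements.S2310
import Cfsg.Agent.Lib.Classical.TwoDimGL
-- import your own Cfsg.Agent.* helpers here

set_option autoImplicit false
open Cfsg

namespace Cfsg.Agent.S2310

/-- Over a finite field F with q ≥ 3 elements, let u be the upper unitriangular matrix of GL₂ with off-diagonal entry 1. An irreducible complex character χ of GL₂ takes at u the value 1 if χ has degree 1 or q + 1, the value −1 if χ has degree q − 1, and the value 0 if χ has degree q. -/
theorem result {F : Type*} [Field F] [Fintype F] (hq : 3 ≤ Fintype.card F) (χ : Matrix.GeneralLinearGroup (Fin 2) F → ℂ) (hχ : Cfsg.IsIrrCharacter (Matrix.GeneralLinearGroup (Fin 2) F) χ)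
    (u : Matrix.GeneralLinearGroup (Fin 2) F) (hu : (u : Matrix (Fin 2) (Fin 2) F) = !![1, 1; 0, 1]) :
    (χ 1 = 1 → χ u = 1) ∧ (χ 1 = (Fintype.card F : ℂ) + 1 → χ u = 1) ∧
    (χ 1 = (Fintype.card F : ℂ) - 1 → χ u = -1) ∧ (χ 1 = (Fintype.card F : ℂ) → χ u = 0) := by
  classical
  obtain rfl : u = Cfsg.Lib.Classical.GL2.u 1 := Units.ext (by rw [hu]; rfl)
  refine ⟨fun h1 => ?_, fun h => ?_, fun h => ?_, fun h => ?_⟩
  · obtain ⟨lam, rfl⟩ := Cfsg.Lib.Characters.exists_hom_of_degree_one hχ.isCharacter h1
    obtain ⟨e, he⟩ : ∃ e : F, e ≠ 0 ∧ e ≠ 1 := by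
      by_contra hc
      simp only [not_exists, not_and, not_not] at hc
      have : Finset.univ ⊆ ({0, 1} : Finset F) := fun x _ => by
        by_cases hx : x = 0
        · simp [hx]
        · simp [hc x hx]
      have := (Finset.card_le_card this).trans Finset.card_le_two
      rw [Finset.card_univ] at this
      omega
    set d := Cfsg.Lib.Classical.TwoDim.dg (Units.mk0 e he.1) 1
    set x := (1 : F) / (e - 1)
    have hx : Cfsg.Lib.Classical.GL2.u (e * x) = Cfsg.Lib.Classical.GL2.u 1 * Cfsg.Lib.Classical.GL2.u x := by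
      rw [Cfsg.Lib.Classical.TwoDim.u_mul]
      congr 1
      have : e - 1 ≠ 0 := sub_ne_zero.2 he.2
      simp only [x]; field_simp; ring
    have h2 := congrArg lam (Cfsg.Lib.Classical.TwoDim.dg_u (Units.mk0 e he.1) 1 x)
    simp only [Units.val_mk0, Units.val_one, div_one, hx, map_mul] at h2
    rw [mul_comm] at h2
    have h3 : lam (Cfsg.Lib.Classical.GL2.u 1) = 1 := by
      have h4 := mul_right_cancel h2
      exact (mul_eq_right.1 h4.symm)
    simp [h3]
  all_goals
    have h1 : χ 1 ≠ 1 := fun h1 => by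
      have hz : ∀ k : ℕ, 3 ≤ k → (k : ℂ) ≠ 1 := fun k hk e => by
        have := Nat.cast_injective (e.trans Nat.cast_one.symm); omega
      have hz2 : (Fintype.card F : ℂ) ≠ 2 := fun e => by
        have : ((Fintype.card F : ℕ) : ℂ) = ((2 : ℕ) : ℂ) := by exact_mod_cast e
        have := Nat.cast_injective this; omega
      first
        | exact hz _ (by omega : 3 ≤ Fintype.card F) (h.symm.trans h1)
        | exact hz2 (by linear_combination h1 - h)
        | exact absurd (by linear_combination h1 - h : (Fintype.card F : ℂ) = 0) (Nat.cast_ne_zero.2 Fintype.card_ne_zero)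
    have := Cfsg.Lib.Classical.TwoDim.sub_u_eq hχ h1
    linear_combination h - this

end Cfsg.Agent.S2310
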