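import Cfsg.Statements.S2314
import Cfsg.Agent.Lib.Chev.Steinberg
-- import your own Cfsg.Agent.* helpers here

set_option autoImplicit false
open Cfsg

namespace Cfsg.Agent.S2314

/-- Steinberg's count of unipotent elements: in a Chevalley group of type G₂, B₂, D₄, F₄, E₆, E₇ or E₈ over a finite field of characteristic p with q elements, the number of elements of p-power order is q^(2N), N the number of positive roots — the square of the order of a Sylow p-subgroup. -/
theorem result {F : Type*} [Field F] [Fintype F] (p : ℕ) [Fact p.Prime] [CharP F p] (D : Cfsg.Lie.ChevalleyDatum) (hD : D ∈ [Cfsg.Lie.chevG2, Cfsg.Lie.chevB2, Cfsg.Lie.chevD4, Cfsg.Lie.chevF4, Cfsg.Lie.chevE6, Cfsg.Lie.chevE7, Cfsg.Lie.chevE8]) :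
    Nat.card {g : ↥(D.group F) // ∃ k : ℕ, orderOf g = p ^ k} = Fintype.card F ^ (2 * (D.nroots / 2)) := by
  classical
  obtain ⟨A, hc⟩ := Cfsg.Lib.Chev.exists_cert hD
  haveI := Fintype.ofFinite ↥(D.group F)
  haveI := Fintype.ofFinite (Cfsg.Lib.Chev.bnPair F hc).S
  have h := Cfsg.Lib.Chev.split_bnPair hc (F := F) p hD
  rw [h.card_pelements, Cfsg.Lib.Chev.card_posUnipotent hc, Nat.card_eq_fintype_card, ← pow_mul, mul_comm 2]

end Cfsg.Agent.S2314
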