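import Cfsg.Statements.S2315
import Cfsg.Agent.Lib.LinAlg.NilpotentCount
import Cfsg.Agent.Lib.Classical.PSLOrders

set_option autoImplicit false
open Cfsg

namespace Cfsg.Agent.S2315

/-- Steinberg's count of unipotent elements for the general linear group: over a finite field with q elements of characteristic p, the number of elements of GL_n of p-power order (the unipotent matrices) is q^(n(n−1)). -/
theorem result {F : Type*} [Field F] [Fintype F] (p : ℕ) [Fact p.Prime] [CharP F p] (n : ℕ) :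
    Nat.card {g : Matrix.GeneralLinearGroup (Fin n) F // ∃ k : ℕ, orderOf g = p ^ k} = Fintype.card F ^ (n * (n - 1)) := by
  classical
  rcases Nat.eq_zero_or_pos n with rfl | hn
  · simp only [Nat.zero_mul, pow_zero]
    exact Nat.card_eq_one_iff_unique.2 ⟨⟨fun a b => Subtype.ext (Subsingleton.elim _ _)⟩, ⟨⟨1, 0, by simp⟩⟩⟩
  rw [← Cfsg.Agent.LinAlg.NilCount.card_nilpotent n, Cfsg.Agent.LinAlg.NilCount.N]
  haveI : Nonempty (Fin n) := ⟨⟨0, hn⟩⟩
  refine Nat.card_congr (Equiv.ofBijective (fun g => ⟨(g.1 : Matrix (Fin n) (Fin n) F) - 1, ?_⟩) ⟨?_, ?_⟩)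
  · obtain ⟨k, hk⟩ := g.2
    refine ⟨p ^ k, ?_⟩
    rw [sub_pow_char_pow_of_commute p k (Commute.one_right (g.1 : Matrix (Fin n) (Fin n) F)), one_pow,
      ← Units.val_pow_eq_pow_val, ← hk, pow_orderOf_eq_one, Units.val_one, sub_self]
  · intro a b h
    exact Subtype.ext (Units.ext (sub_left_inj.1 (congrArg Subtype.val h)))
  · rintro ⟨T, hT⟩
    obtain ⟨g, hg⟩ : IsUnit (T + 1) := hT.isUnit_add_one
    obtain ⟨K, hK⟩ := hT
    have hgp : g ^ p ^ n = 1 := Units.ext (by
      rw [Units.val_pow_eq_pow_val, Units.val_one]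
      exact Cfsg.Lib.PSLOrders.unipotent_pow_eq_one (K := K) (by rw [hg, add_sub_cancel_right, hK])
        (Nat.lt_pow_self (Fact.out : p.Prime).one_lt).le)
    obtain ⟨i, -, hi⟩ := (Nat.dvd_prime_pow (Fact.out : p.Prime)).1 (orderOf_dvd_of_pow_eq_one hgp)
    exact ⟨⟨g, i, hi⟩, Subtype.ext (by show (g : Matrix (Fin n) (Fin n) F) - 1 = T; rw [hg, add_sub_cancel_right])⟩

end Cfsg.Agent.S2315
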