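import Cfsg.Statements.S2317
import Cfsg.Agent.Lib.LinAlg.UnipotentClasses
-- import your own Cfsg.Agent.* helpers here

set_option autoImplicit false
open Cfsg

namespace Cfsg.Agent.S2317

/-- Over a finite field of characteristic p, the conjugacy classes of GL_n consisting of elements of p-power order (the unipotent classes) are as many as the partitions of n. -/
theorem result {F : Type*} [Field F] [Fintype F] (p : ℕ) [Fact p.Prime] [CharP F p] (n : ℕ) :
    Nat.card {C : ConjClasses (Matrix.GeneralLinearGroup (Fin n) F) //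
      ∃ g : Matrix.GeneralLinearGroup (Fin n) F, (∃ k : ℕ, orderOf g = p ^ k) ∧ ConjClasses.mk g = C} =
      Fintype.card (Nat.Partition n) := by
  classical
  rcases Nat.eq_zero_or_pos n with rfl | hn
  · haveI : Subsingleton (Matrix.GeneralLinearGroup (Fin 0) F) := Units.val_injective.subsingleton
    have h1 : Nat.card {C : ConjClasses (Matrix.GeneralLinearGroup (Fin 0) F) //
      ∃ g : Matrix.GeneralLinearGroup (Fin 0) F, (∃ k : ℕ, orderOf g = p ^ k) ∧ ConjClasses.mk g = C} = 1 := by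
      haveI : Subsingleton (ConjClasses (Matrix.GeneralLinearGroup (Fin 0) F)) := ConjClasses.mk_surjective.subsingleton
      rw [Nat.card_eq_one_iff_unique]
      exact ⟨inferInstance, ⟨⟨ConjClasses.mk 1, 1, ⟨0, by simp⟩, rfl⟩⟩⟩
    rw [h1]
    rfl
  haveI : Nonempty (Fin n) := ⟨⟨0, hn⟩⟩
  rw [← Nat.card_eq_fintype_card]
  symm
  let f : Nat.Partition n → {C : ConjClasses (Matrix.GeneralLinearGroup (Fin n) F) //
      ∃ g : Matrix.GeneralLinearGroup (Fin n) F, (∃ k : ℕ, orderOf g = p ^ k) ∧ ConjClasses.mk g = C} := fun μ =>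
    ⟨ConjClasses.mk (Cfsg.Lib.Jordan.unip F μ), Cfsg.Lib.Jordan.unip F μ, by
      have hnk : n ≤ p ^ n := (Nat.lt_pow_self (Fact.out : p.Prime).one_lt).le
      have h : Cfsg.Lib.Jordan.unip F μ ^ (p ^ n) = 1 := by
        rw [Cfsg.Lib.Jordan.order_pow_iff p, Cfsg.Lib.Jordan.unip_sub_one]
        exact pow_eq_zero_of_le hnk (Cfsg.Lib.Jordan.nilMat_nilpotent μ)
      obtain ⟨k, -, hk⟩ := (Nat.dvd_prime_pow (Fact.out : p.Prime)).1 (orderOf_dvd_of_pow_eq_one h)
      exact ⟨k, hk⟩, rfl⟩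
  refine Nat.card_eq_of_bijective f ⟨fun μ ν h => ?_, ?_⟩
  · exact Cfsg.Lib.Jordan.unip_injective (ConjClasses.mk_eq_mk_iff_isConj.1 (congrArg Subtype.val h))
  · rintro ⟨_, g, ⟨k, hk⟩, rfl⟩
    have h : g ^ (p ^ k) = 1 := hk ▸ pow_orderOf_eq_one g
    obtain ⟨μ, hμ⟩ := Cfsg.Lib.Jordan.exists_unip g ((Cfsg.Lib.Jordan.order_pow_iff p g k).1 h)
    exact ⟨μ, Subtype.ext (ConjClasses.mk_eq_mk_iff_isConj.2 hμ.symm)⟩

end Cfsg.Agent.S2317
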