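import Cfsg.Statements.S2318
import Cfsg.Agent.Lib.Chev.DefectUnique
-- import your own Cfsg.Agent.* helpers here

set_option autoImplicit false
open Cfsg

namespace Cfsg.Agent.S2318

/-- In a Chevalley group of type G₂, B₂, D₄, F₄, E₆, E₇ or E₈ over a finite field of characteristic p (for types G₂ and B₂ the field is assumed to have at least 3 elements, so that the group is perfect), the Steinberg character is the only irreducible complex character whose degree is divisible by the full power of p dividing the group order (the only irreducible character of p-defect zero). -/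
theorem result {F : Type*} [Field F] [Fintype F] (p : ℕ) [Fact p.Prime] [CharP F p] (D : Cfsg.Lie.ChevalleyDatum) (hD : D ∈ [Cfsg.Lie.chevG2, Cfsg.Lie.chevB2, Cfsg.Lie.chevD4, Cfsg.Lie.chevF4, Cfsg.Lie.chevE6, Cfsg.Lie.chevE7, Cfsg.Lie.chevE8]) (hq : (D = Cfsg.Lie.chevG2 ∨ D = Cfsg.Lie.chevB2) → 3 ≤ Fintype.card F)
    (χ : ↥(D.group F) → ℂ) (hχ : Cfsg.IsIrrCharacter ↥(D.group F) χ)
    (hdeg : ∃ d : ℕ, χ 1 = (d : ℂ) ∧ p ^ (Nat.card ↥(D.group F)).factorization p ∣ d) :
    χ = D.steinbergCharacter F := by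
  classical
  obtain ⟨A, hc⟩ := Cfsg.Lib.Chev.exists_cert hD
  haveI := Fintype.ofFinite ↥(D.group F)
  haveI := Fintype.ofFinite (Cfsg.Lib.Chev.bnPair F hc).S
  have h := Cfsg.Lib.Chev.split_bnPair hc (F := F) p hD
  have hst : D.steinbergCharacter F =
      fun g => (Cfsg.Lib.LieBN.stSum (Cfsg.Lib.Chev.bnPair F hc) g : ℂ) :=
    funext fun g => Cfsg.Lib.Chev.steinberg_eq hc g
  let χ' : Cfsg.IrrCharacter ↥(D.group F) := ⟨χ, hχ⟩
  let ψ : Cfsg.IrrCharacter ↥(D.group F) := ⟨_, h.isIrr⟩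
  obtain ⟨d, hd, hdvd⟩ := hdeg
  have hdeg' : Cfsg.charDegree (χ' : ↥(D.group F) → ℂ) = d := Cfsg.Lib.Blocks.charDegree_eq hd
  have hχ0 : (Cfsg.charDegree (χ' : ↥(D.group F) → ℂ)).factorization p =
      (Nat.card ↥(D.group F)).factorization p := by
    refine le_antisymm (Cfsg.Lib.Blocks.charDegree_factorization_le χ') ?_
    rw [hdeg']
    have hd0 : d ≠ 0 := by
      intro e
      have := Cfsg.Lib.Blocks.charDegree_pos χ'
      omega
    exact (Nat.Prime.pow_dvd_iff_le_factorization Fact.out hd0).1 hdvd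
  have hψ0 : (Cfsg.charDegree (ψ : ↥(D.group F) → ℂ)).factorization p =
      (Nat.card ↥(D.group F)).factorization p := by
    let S : Sylow p ↥(D.group F) := ⟨_, h.pgroup, fun {Q} hQ hle => h.max Q hQ hle⟩
    rw [Cfsg.Lib.Blocks.charDegree_eq (χ := (ψ : ↥(D.group F) → ℂ))
      (show ((Cfsg.Lib.LieBN.stSum (Cfsg.Lib.Chev.bnPair F hc) 1 : ℤ) : ℂ) = _ by
        rw [h.stSum_one, Int.cast_natCast])]
    have e : Nat.card ((D.posUnipotent F).subgroupOf (D.group F)) =
        p ^ (Nat.card ↥(D.group F)).factorization p := S.card_eq_multiplicity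
    rw [e, (Fact.out : p.Prime).factorization_pow, Finsupp.single_eq_same]
  rw [hst]
  exact congrArg Subtype.val
    (Cfsg.Lib.LieBN.defectZero_unique (Cfsg.Lib.Chev.rankOne hc p hD) h (χ := χ') (ψ := ψ) hχ0 hψ0)

end Cfsg.Agent.S2318
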