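import Cfsg.Statements.S2319
import Cfsg.Agent.Lib.Chev.HeckeChev
-- import your own Cfsg.Agent.* helpers here

set_option autoImplicit false
open Cfsg

namespace Cfsg.Agent.S2319

/-- In a Chevalley group of type G₂, B₂, D₄, F₄, E₆, E₇ or E₈ over a finite field, the number of distinct irreducible constituents of the permutation character on the cosets of B = UH equals the number of conjugacy classes (equivalently, of irreducible characters) of the Weyl group, the Coxeter group of the type with nodes numbered as the fundamental roots. -/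
theorem result {F : Type*} [Field F] [Fintype F]
    (dw : Cfsg.Lie.ChevalleyDatum × (Σ n : ℕ, CoxeterMatrix (Fin n)))
    (hdw : dw ∈ [(Cfsg.Lie.chevG2, ⟨2, CoxeterMatrix.G₂⟩), (Cfsg.Lie.chevB2, ⟨2, CoxeterMatrix.B 2⟩), (Cfsg.Lie.chevD4, ⟨4, Cfsg.Lie.coxeterD4⟩), (Cfsg.Lie.chevF4, ⟨4, CoxeterMatrix.F₄⟩),
      (Cfsg.Lie.chevE6, ⟨6, CoxeterMatrix.E₆⟩), (Cfsg.Lie.chevE7, ⟨7, CoxeterMatrix.E₇⟩), (Cfsg.Lie.chevE8, ⟨8, CoxeterMatrix.E₈⟩)]) :
    Nat.card {χ : Cfsg.IrrCharacter ↥(dw.1.group F) //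
      ∃ φ : ↥(dw.1.group F) → ℂ, Cfsg.IsCharacter ↥(dw.1.group F) φ ∧
        Cfsg.fixedPointCharacter ((dw.1.borelSubgroup F).subgroupOf (dw.1.group F)) = (χ : ↥(dw.1.group F) → ℂ) + φ} =
      Nat.card (ConjClasses dw.2.2.Group) := by
  simp only [List.mem_cons, List.not_mem_nil, or_false] at hdw
  rcases hdw with rfl | rfl | rfl | rfl | rfl | rfl | rfl
  · exact Cfsg.Lib.Chev.card_constituents_borel Cfsg.Lib.Chev.certG2 _ Cfsg.Lib.Chev.ord_G2 (by simp)
  · exact Cfsg.Lib.Chev.card_constituents_borel Cfsg.Lib.Chev.certB2 _ Cfsg.Lib.Chev.ord_B2 (by simp)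
  · exact Cfsg.Lib.Chev.card_constituents_borel Cfsg.Lib.Chev.certD4 _ Cfsg.Lib.Chev.ord_D4 (by simp)
  · exact Cfsg.Lib.Chev.card_constituents_borel Cfsg.Lib.Chev.certF4 _ Cfsg.Lib.Chev.ord_F4 (by simp)
  · exact Cfsg.Lib.Chev.card_constituents_borel Cfsg.Lib.Chev.certE6 _ Cfsg.Lib.Chev.ord_E6 (by simp)
  · exact Cfsg.Lib.Chev.card_constituents_borel Cfsg.Lib.Chev.certE7 _ Cfsg.Lib.Chev.ord_E7 (by simp)
  · exact Cfsg.Lib.Chev.card_constituents_borel Cfsg.Lib.Chev.certE8 _ Cfsg.Lib.Chev.ord_E8 (by simp)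

end Cfsg.Agent.S2319
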