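import Cfsg.Statements.S2320
import Cfsg.Agent.Lib.Classical.TwoDimGL
import Cfsg.Agent.S2308
-- import your own Cfsg.Agent.* helpers here

set_option autoImplicit false
open Cfsg

namespace Cfsg.Agent.S2320

/-- Over a finite field F with q elements, every irreducible complex character of GL₂ of degree q takes a value of absolute value 1 at every diagonal matrix with two different diagonal entries and at every element with no eigenvector in F². -/
theorem result {F : Type*} [Field F] [Fintype F] (χ : Matrix.GeneralLinearGroup (Fin 2) F → ℂ) (hχ : Cfsg.IsIrrCharacter (Matrix.GeneralLinearGroup (Fin 2) F) χ) (hdeg : χ 1 = (Fintype.card F : ℂ)) (g : Matrix.GeneralLinearGroup (Fin 2) F) :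
    ((g : Matrix (Fin 2) (Fin 2) F) 0 1 = 0 → (g : Matrix (Fin 2) (Fin 2) F) 1 0 = 0 → (g : Matrix (Fin 2) (Fin 2) F) 0 0 ≠ (g : Matrix (Fin 2) (Fin 2) F) 1 1 → ‖χ g‖ = 1) ∧
    ((∀ (c : F) (v : Fin 2 → F), v ≠ 0 → (g : Matrix (Fin 2) (Fin 2) F).mulVec v ≠ c • v) → ‖χ g‖ = 1) := by
  classical
  have h1 : χ 1 ≠ 1 := by
    rw [hdeg]
    intro e
    exact (Fintype.one_lt_card (α := F)).ne' (by exact_mod_cast e)
  rcases Cfsg.Lib.Classical.TwoDim.gl_cases hχ h1 with ⟨h, -⟩ | ⟨α, rfl⟩ | ⟨α, β, -, rfl⟩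
  · exact absurd (show (1 : ℂ) = 0 by linear_combination h - hdeg) one_ne_zero
  · have hn : ∀ g : Matrix.GeneralLinearGroup (Fin 2) F, ‖α (g : Matrix (Fin 2) (Fin 2) F).det‖ = 1 := fun g => by
      have h := Cfsg.Lib.Characters.char_inv_eq_conj (Cfsg.Lib.Classical.TwoDim.detLin_irr α).isCharacter g
      have hm : α ((g⁻¹ : Matrix.GeneralLinearGroup (Fin 2) F) : Matrix (Fin 2) (Fin 2) F).det * α (g : Matrix (Fin 2) (Fin 2) F).det = 1 := by
        rw [← map_mul, ← Matrix.det_mul, Units.inv_mul, Matrix.det_one, map_one]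
      rw [h, mul_comm, Complex.mul_conj, Complex.ofReal_eq_one, Complex.normSq_eq_norm_sq] at hm
      nlinarith [norm_nonneg (α (g : Matrix (Fin 2) (Fin 2) F).det)]
    refine ⟨fun h01 h10 hne => ?_, fun hev => ?_⟩
    · have hf : Cfsg.Lib.Classical.TwoDim.st g = 1 := by
        unfold Cfsg.Lib.Classical.TwoDim.st
        rw [(Cfsg.Agent.S2308.result g).2.1 h01 h10 hne]; norm_num
      simp [hf, hn g]
    · have hf : Cfsg.Lib.Classical.TwoDim.st g = -1 := by
        unfold Cfsg.Lib.Classical.TwoDim.st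
        rw [(Cfsg.Agent.S2308.result g).2.2.1 hev]; norm_num
      simp [hf, hn g]
  · rw [Cfsg.Lib.Classical.TwoDim.indFun_one'] at hdeg
    simp at hdeg

end Cfsg.Agent.S2320
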