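import Cfsg.Statements.S2321
import Cfsg.Agent.Lib.Classical.TwoDimSLFacts
-- import your own Cfsg.Agent.* helpers here

set_option autoImplicit false
open Cfsg

namespace Cfsg.Agent.S2321

/-- Over a finite field F with q elements, an irreducible complex character of SL₂ of degree q (the Steinberg character) takes the value 1 at every diagonal matrix whose diagonal entry a has a² ≠ 1, the value −1 at every element with no eigenvector in F², and the value 0 at every upper triangular matrix with equal diagonal entries and non-zero upper right entry. -/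
theorem result {F : Type*} [Field F] [Fintype F] (χ : Matrix.SpecialLinearGroup (Fin 2) F → ℂ) (hχ : Cfsg.IsIrrCharacter (Matrix.SpecialLinearGroup (Fin 2) F) χ) (hdeg : χ 1 = (Fintype.card F : ℂ)) (g : Matrix.SpecialLinearGroup (Fin 2) F) :
    ((g : Matrix (Fin 2) (Fin 2) F) 0 1 = 0 → (g : Matrix (Fin 2) (Fin 2) F) 1 0 = 0 → (g : Matrix (Fin 2) (Fin 2) F) 0 0 ^ 2 ≠ 1 → χ g = 1) ∧
    ((∀ (c : F) (v : Fin 2 → F), v ≠ 0 → (g : Matrix (Fin 2) (Fin 2) F).mulVec v ≠ c • v) → χ g = -1) ∧
    ((g : Matrix (Fin 2) (Fin 2) F) 1 0 = 0 → (g : Matrix (Fin 2) (Fin 2) F) 0 0 = (g : Matrix (Fin 2) (Fin 2) F) 1 1 → (g : Matrix (Fin 2) (Fin 2) F) 0 1 ≠ 0 → χ g = 0) := by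
  classical
  have hq0 : (Fintype.card F : ℂ) ≠ 0 := Nat.cast_ne_zero.2 Fintype.card_ne_zero
  have h1 : χ 1 ≠ 1 := fun h => (Fintype.one_lt_card (α := F)).ne'
    (Cfsg.Lib.Classical.TwoDim.card_inj (n := 1) (by push_cast; exact hdeg.symm.trans h))
  obtain ⟨π, hπ, hπ1, hd, hcase⟩ := Cfsg.Lib.Classical.TwoDim.sl_cases hχ h1
  rcases hcase with ⟨he, hres⟩ | ⟨he, -⟩
  · rw [hdeg] at he
    rcases Cfsg.Lib.Classical.TwoDim.gl_cases hπ hπ1 with ⟨h, -⟩ | ⟨α, rfl⟩ | ⟨α, β, -, rfl⟩
    · exact absurd (show (1 : ℂ) = 0 by linear_combination h - he) one_ne_zero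
    · obtain ⟨-, f1, f2, f3⟩ := Cfsg.Agent.S2308.result (Matrix.SpecialLinearGroup.toGL g)
      have hg : χ g = Cfsg.fixedPointCharacter (Cfsg.upperTriangularGL 2 F) (Matrix.SpecialLinearGroup.toGL g) - 1 := by
        rw [← hres g]
        simp [Cfsg.Lib.Classical.TwoDim.st]
      refine ⟨fun h01 h10 ha => ?_, fun hev => ?_, fun h10 hd h01 => ?_⟩
      · rw [hg, f1 h01 h10]
        · norm_num
        · intro e
          apply ha
          have hdet := g.2
          rw [Matrix.det_fin_two, h01, zero_mul, sub_zero] at hdet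
          calc (g : Matrix (Fin 2) (Fin 2) F) 0 0 ^ 2 = (g : Matrix (Fin 2) (Fin 2) F) 0 0 * (g : Matrix (Fin 2) (Fin 2) F) 0 0 := sq _
            _ = 1 := by
              have e' : (g : Matrix (Fin 2) (Fin 2) F) 0 0 = (g : Matrix (Fin 2) (Fin 2) F) 1 1 := e
              conv_lhs => arg 2; rw [e']
              exact hdet
      · rw [hg, f2 hev]; norm_num
      · rw [hg, f3 h10 hd h01]; norm_num
    · rw [Cfsg.Lib.Classical.TwoDim.indFun_one'] at he
      simp at he
  · rw [hdeg] at he
    exfalso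
    rcases hd with h | h | h
    · have : ((Fintype.card F + 1 : ℕ) : ℂ) = 0 := by push_cast; linear_combination h - he
      exact Nat.cast_ne_zero.2 (Nat.succ_ne_zero _) this
    · exact hq0 (by linear_combination h - he)
    · exact (Fintype.one_lt_card (α := F)).ne' (Cfsg.Lib.Classical.TwoDim.card_inj (n := 1) (by push_cast; linear_combination h - he))

end Cfsg.Agent.S2321
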