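import Cfsg.Statements.S2322
import Cfsg.Agent.Lib.Classical.TwoDimHalves
import Cfsg.Agent.Lib.Classical.TwoDimThree
-- import your own Cfsg.Agent.* helpers here

set_option autoImplicit false
open Cfsg

namespace Cfsg.Agent.S2322

/-- Over a finite field F with q elements, q odd: every irreducible complex character of SL₂ of degree q − 1 or (q − 1)/2 vanishes at every diagonal matrix whose diagonal entry a has a² ≠ 1, and every irreducible complex character of degree q + 1 or (q + 1)/2 vanishes at every element with no eigenvector in F². -/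
theorem result {F : Type*} [Field F] [Fintype F] (hodd : Odd (Fintype.card F)) (χ : Matrix.SpecialLinearGroup (Fin 2) F → ℂ) (hχ : Cfsg.IsIrrCharacter (Matrix.SpecialLinearGroup (Fin 2) F) χ) (g : Matrix.SpecialLinearGroup (Fin 2) F) :
    ((χ 1 = (Fintype.card F : ℂ) - 1 ∨ χ 1 = (((Fintype.card F - 1) / 2 : ℕ) : ℂ)) →
      (g : Matrix (Fin 2) (Fin 2) F) 0 1 = 0 → (g : Matrix (Fin 2) (Fin 2) F) 1 0 = 0 → (g : Matrix (Fin 2) (Fin 2) F) 0 0 ^ 2 ≠ 1 → χ g = 0) ∧
    ((χ 1 = (Fintype.card F : ℂ) + 1 ∨ χ 1 = (((Fintype.card F + 1) / 2 : ℕ) : ℂ)) →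
      (∀ (c : F) (v : Fin 2 → F), v ≠ 0 → (g : Matrix (Fin 2) (Fin 2) F).mulVec v ≠ c • v) → χ g = 0) := by
  classical
  obtain ⟨r, hr⟩ := hodd
  have hr1 : 1 ≤ r := by
    have := Fintype.one_lt_card (α := F); omega
  have hp : (((Fintype.card F + 1) / 2 : ℕ) : ℂ) = r + 1 := by
    rw [show (Fintype.card F + 1) / 2 = r + 1 by omega]; push_cast; ring
  have hm : (((Fintype.card F - 1) / 2 : ℕ) : ℂ) = r := by rw [show (Fintype.card F - 1) / 2 = r by omega]
  have hqC : (Fintype.card F : ℂ) = 2 * r + 1 := by rw [hr]; push_cast; ring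
  have hn : ∀ a b : ℕ, a ≠ b → (a : ℂ) ≠ b := fun a b h e => h (Nat.cast_injective e)
  have h2 : (2 : F) ≠ 0 := Cfsg.Lib.Classical.TwoDim.two_ne_zero_of_odd ⟨r, hr⟩
  rw [hp, hm]
  refine ⟨fun hd h01 h10 ha => ?_, fun hd hev => ?_⟩
  · have hdet := g.2
    rw [Matrix.det_fin_two, h01, zero_mul, sub_zero] at hdet
    have hr2 : 2 ≤ r := by
      by_contra hc
      apply ha
      have h := FiniteField.pow_card_sub_one_eq_one ((g : Matrix (Fin 2) (Fin 2) F) 0 0)
        (fun e => by rw [e, zero_mul] at hdet; exact zero_ne_one hdet)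
      rwa [show Fintype.card F - 1 = 2 by omega] at h
    have hne : (g : Matrix (Fin 2) (Fin 2) F) 0 0 ≠ (g : Matrix (Fin 2) (Fin 2) F) 1 1 := by
      intro e; apply ha; rw [sq]; conv_lhs => arg 2; rw [e]
      exact hdet
    have h1 : χ 1 ≠ 1 := by
      intro e
      rcases hd with h | h
      · exact hn (2 * r) 1 (by omega) (by rw [hqC] at h; push_cast; linear_combination e - h)
      · exact hn r 1 (by omega) (by push_cast; linear_combination e - h)
    obtain ⟨π, hπ, hπ1, hdeg, ⟨he, hres⟩ | ⟨he, x, χ', -, -, hx, hsum⟩⟩ := Cfsg.Lib.Classical.TwoDim.sl_cases hχ h1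
    all_goals
      have hπd : π 1 = (Fintype.card F : ℂ) - 1 := by
        rw [he, hqC] at hdeg ⊢
        rcases hd with h | h
        · rw [hqC] at h
          rw [h] at hdeg ⊢
          all_goals rcases hdeg with h' | h' | h'
          all_goals first
            | exact h'
            | exact absurd (show (1 : ℂ) = 0 by linear_combination -h') one_ne_zero
            | exact absurd (show (2 : ℂ) = 0 by linear_combination -h') two_ne_zero
            | exact absurd (show ((2 * r : ℕ) : ℂ) = ((1 : ℕ) : ℂ) by push_cast; linear_combination h') (hn _ _ (by omega))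
            | exact absurd (show ((r : ℕ) : ℂ) = ((1 : ℕ) : ℂ) by push_cast; linear_combination h' / 2) (hn _ _ (by omega))
            | exact absurd (show ((r : ℕ) : ℂ) = ((0 : ℕ) : ℂ) by push_cast; linear_combination h' / 2) (hn _ _ (by omega))
        · rw [h] at hdeg ⊢
          rcases hdeg with h' | h' | h'
          · exact h'
          all_goals first
            | exact absurd (show (1 : ℂ) = 0 by linear_combination -h') one_ne_zero
            | exact absurd (show (2 : ℂ) = 0 by linear_combination -h') two_ne_zero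
            | exact absurd (show ((r + 1 : ℕ) : ℂ) = ((0 : ℕ) : ℂ) by push_cast; linear_combination -h') (hn _ _ (by omega))
            | exact absurd (show ((r + 2 : ℕ) : ℂ) = ((0 : ℕ) : ℂ) by push_cast; linear_combination -h') (hn _ _ (by omega))
      have hz : π (Matrix.SpecialLinearGroup.toGL g) = 0 := by
        refine Cfsg.Lib.Classical.TwoDim.eq_zero_diag hπ.isCharacter ?_ h01 h10 hne
        rw [Cfsg.Lib.Classical.TwoDim.sum_u hπ.isClassFunction]
        linear_combination (Fintype.card F : ℂ) * hπd - ((Fintype.card F : ℂ) - 1) * Cfsg.Lib.Classical.TwoDim.sub_u_eq hπ hπ1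
    · rw [← hres g, hz]
    · have h := hsum g
      rw [hz, Cfsg.Lib.Classical.TwoDim.half_eq_diag hχ.isClassFunction hx h01 h10] at h
      linear_combination -h / 2
  · have h1 : χ 1 ≠ 1 := by
      intro e
      rcases hd with h | h
      · exact hn (2 * r + 1) 0 (by omega) (by rw [hqC] at h; push_cast; linear_combination e - h)
      · exact hn r 0 (by omega) (by push_cast; linear_combination e - h)
    have hps : ∀ π : Matrix.GeneralLinearGroup (Fin 2) F → ℂ, Cfsg.IsIrrCharacter _ π → π 1 ≠ 1 →
        π 1 = (Fintype.card F : ℂ) + 1 → π (Matrix.SpecialLinearGroup.toGL g) = 0 := by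
      intro π hπ hπ1 hπd
      rcases Cfsg.Lib.Classical.TwoDim.gl_cases hπ hπ1 with ⟨h, -⟩ | ⟨α, rfl⟩ | ⟨α, β, -, rfl⟩
      · exact absurd (show (2 : ℂ) = 0 by linear_combination h - hπd) two_ne_zero
      · simp [Cfsg.Lib.Classical.TwoDim.st_one] at hπd
      · exact Cfsg.Lib.Classical.TwoDim.indFun_elliptic α β hev
    obtain ⟨π, hπ, hπ1, hdeg, ⟨he, hres⟩ | ⟨he, x, χ', -, -, hx, hsum⟩⟩ := Cfsg.Lib.Classical.TwoDim.sl_cases hχ h1
    · rcases hd with h | h
      · rw [← hres g]; exact hps π hπ hπ1 (he.trans h)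
      · have hr11 : r = 1 := by
          rw [he, h, hqC] at hdeg
          rcases hdeg with h' | h' | h'
          · exact Nat.cast_injective (show ((r : ℕ) : ℂ) = ((1 : ℕ) : ℂ) by push_cast; linear_combination -h')
          · exact absurd (show ((r : ℕ) : ℂ) = ((0 : ℕ) : ℂ) by push_cast; linear_combination -h') (hn _ _ (by omega))
          · exact absurd (show ((r + 1 : ℕ) : ℂ) = ((0 : ℕ) : ℂ) by push_cast; linear_combination -h') (hn _ _ (by omega))
        subst hr11
        have hπd : π 1 = 2 := by rw [he, h]; norm_num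
        refine Cfsg.Lib.Classical.TwoDim.three_vanish hr hπ hπd ?_ hχ hres hev
        have := Cfsg.Lib.Classical.TwoDim.sub_u_eq hπ hπ1
        rw [hπd, hqC] at this
        push_cast at this
        linear_combination -this
    · have hπd : π 1 = (Fintype.card F : ℂ) + 1 := by
        rcases hd with h | h
        · exfalso
          rw [he, h, hqC] at hdeg
          rcases hdeg with h' | h' | h'
          · exact hn (r + 2) 0 (by omega) (by push_cast; linear_combination h' / 2)
          · exact hn (2 * r + 3) 0 (by omega) (by push_cast; linear_combination h')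
          · exact hn (r + 1) 0 (by omega) (by push_cast; linear_combination h' / 2)
        · rw [he, h, hqC]; ring
      have hh := hsum g
      rw [hps π hπ hπ1 hπd, Cfsg.Lib.Classical.TwoDim.half_eq_elliptic h2 hχ.isClassFunction hx hev] at hh
      linear_combination -hh / 2

end Cfsg.Agent.S2322
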