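import Cfsg.Statements.S2323
import Cfsg.Agent.Lib.Classical.TwoDimSLFacts
-- import your own Cfsg.Agent.* helpers here

set_option autoImplicit false
open Cfsg

namespace Cfsg.Agent.S2323

/-- Over a finite field F with q ≥ 4 elements, let u be the upper unitriangular matrix of SL₂ with off-diagonal entry 1. An irreducible complex character of SL₂ takes at u the value 1 if its degree is q + 1 and the value −1 if its degree is q − 1. -/
theorem result {F : Type*} [Field F] [Fintype F] (hq : 4 ≤ Fintype.card F) (χ : Matrix.SpecialLinearGroup (Fin 2) F → ℂ) (hχ : Cfsg.IsIrrCharacter (Matrix.SpecialLinearGroup (Fin 2) F) χ)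
    (u : Matrix.SpecialLinearGroup (Fin 2) F) (hu : (u : Matrix (Fin 2) (Fin 2) F) = !![1, 1; 0, 1]) :
    (χ 1 = (Fintype.card F : ℂ) + 1 → χ u = 1) ∧ (χ 1 = (Fintype.card F : ℂ) - 1 → χ u = -1) := by
  classical
  obtain rfl : u = Cfsg.Lib.Classical.TwoDim.uS 1 := Subtype.ext hu
  have hne : ∀ n : ℕ, n < 4 → (Fintype.card F : ℂ) ≠ n := fun n hn h => by
    have := Cfsg.Lib.Classical.TwoDim.card_inj h; omega
  have key : (χ 1 = (Fintype.card F : ℂ) + 1 ∨ χ 1 = (Fintype.card F : ℂ) - 1) →
      χ (Cfsg.Lib.Classical.TwoDim.uS 1) = χ 1 - Fintype.card F := by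
    intro h
    have h1 : χ 1 ≠ 1 := by
      intro e
      rcases h with h | h
      · exact Nat.cast_ne_zero.2 Fintype.card_ne_zero (show (Fintype.card F : ℂ) = 0 by linear_combination e - h)
      · exact hne 2 (by norm_num) (by push_cast; linear_combination e - h)
    obtain ⟨π, hπ, hπ1, hd, ⟨he, hres⟩ | ⟨he, -⟩⟩ := Cfsg.Lib.Classical.TwoDim.sl_cases hχ h1
    · rw [← he, ← hres, Cfsg.Lib.Classical.TwoDim.toGL_uS]
      linear_combination -(Cfsg.Lib.Classical.TwoDim.sub_u_eq hπ hπ1)
    · exfalso
      have hp : ∀ n : ℕ, (Fintype.card F : ℂ) + n + 1 ≠ 0 := fun n => by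
        exact_mod_cast Nat.succ_ne_zero (Fintype.card F + n)
      rcases h with h | h <;> rw [h] at he <;> rcases hd with h' | h' | h'
      · exact hp 2 (by push_cast; linear_combination h' - he)
      · exact hp 1 (by push_cast; linear_combination h' - he)
      · exact hp 0 (by push_cast; linear_combination h' - he)
      · exact hne 1 (by norm_num) (by push_cast; linear_combination h' - he)
      · exact hne 2 (by norm_num) (by push_cast; linear_combination h' - he)
      · exact hne 3 (by norm_num) (by push_cast; linear_combination h' - he)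
  exact ⟨fun h => by rw [key (Or.inl h), h]; ring, fun h => by rw [key (Or.inr h), h]; ring⟩

end Cfsg.Agent.S2323
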