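import Cfsg.Statements.S2327
import Cfsg.Agent.Lib.Chev.Steinberg
-- import your own Cfsg.Agent.* helpers here

set_option autoImplicit false
open Cfsg

namespace Cfsg.Agent.S2327

/-- In a Chevalley group of type G₂, B₂, D₄, F₄, E₆, E₇ or E₈ over a finite field with q elements, the Steinberg character (the alternating sum of the permutation characters on the standard parabolic subgroups) has degree q^N, N the number of positive roots; this is the order of U and the largest power of the characteristic dividing the group order. -/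
theorem result {F : Type*} [Field F] [Fintype F] (D : Cfsg.Lie.ChevalleyDatum) (hD : D ∈ [Cfsg.Lie.chevG2, Cfsg.Lie.chevB2, Cfsg.Lie.chevD4, Cfsg.Lie.chevF4, Cfsg.Lie.chevE6, Cfsg.Lie.chevE7, Cfsg.Lie.chevE8]) :
    D.steinbergCharacter F 1 = (Fintype.card F : ℂ) ^ (D.nroots / 2) := by
  classical
  haveI : CharP F (ringChar F) := ringChar.charP F
  obtain ⟨k, hp, -⟩ := FiniteField.card F (ringChar F)
  haveI : Fact (ringChar F).Prime := ⟨hp⟩
  obtain ⟨A, hc⟩ := Cfsg.Lib.Chev.exists_cert hD
  haveI := Fintype.ofFinite ↥(D.group F)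
  haveI := Fintype.ofFinite (Cfsg.Lib.Chev.bnPair F hc).S
  have h := Cfsg.Lib.Chev.split_bnPair hc (F := F) (ringChar F) hD
  rw [Cfsg.Lib.Chev.steinberg_eq hc, h.stSum_one, Cfsg.Lib.Chev.card_posUnipotent hc, Nat.card_eq_fintype_card]
  push_cast
  rfl

end Cfsg.Agent.S2327
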