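import Cfsg.Statements.S2329
import Cfsg.Agent.Lib.Classical.TwoByTwo
-- import your own Cfsg.Agent.* helpers here

set_option autoImplicit false
open Cfsg

namespace Cfsg.Agent.S2329

/-- Over a finite field of characteristic p, any two elements of order p of GL₂ are conjugate: there is a single conjugacy class of non-identity unipotent elements. -/
theorem result {F : Type*} [Field F] [Fintype F] (p : ℕ) [Fact p.Prime] [CharP F p] (g h : Matrix.GeneralLinearGroup (Fin 2) F)
    (hg : orderOf g = p) (hh : orderOf h = p) : IsConj g h := by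
  classical
  open Cfsg.Lib.Classical in
  let U : Matrix.GeneralLinearGroup (Fin 2) F := Matrix.GeneralLinearGroup.mkOfDetNeZero !![1, 1; 0, 1] (by simp [Matrix.det_fin_two])
  have key : ∀ x : Matrix.GeneralLinearGroup (Fin 2) F, orderOf x = p → IsConj U x := by
    intro x hx
    have hN := TwoByTwo.sub_one_sq_zero (p := p) 1 (g := (x : Matrix (Fin 2) (Fin 2) F))
      (by rw [pow_one, ← Units.val_pow_eq_pow_val, ← hx, pow_orderOf_eq_one, Units.val_one])
    rw [pow_two] at hN
    obtain ⟨P, hP, hPx⟩ := TwoByTwo.exists_jordan hN (fun e => by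
      rw [show x = 1 from Units.ext e, orderOf_one] at hx
      exact (Fact.out : p.Prime).one_lt.ne hx)
    refine isConj_iff.2 ⟨Matrix.GeneralLinearGroup.mkOfDetNeZero P hP, ?_⟩
    rw [mul_inv_eq_iff_eq_mul]
    refine Units.ext ?_
    show P * !![1, 1; 0, 1] = (x : Matrix (Fin 2) (Fin 2) F) * P
    simpa using (hPx 1).symm
  exact (key g hg).symm.trans (key h hh)

end Cfsg.Agent.S2329
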