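import Cfsg.Statements.S2367
-- import your own Cfsg.Agent.* helpers here

set_option autoImplicit false
open Cfsg

namespace Cfsg.Agent.S2367

/-- The primes dividing the order of a sporadic group. -/
def smallPrimes : List ℕ :=
  [2, 3, 5, 7, 11, 13, 17, 19, 23, 29, 31, 37, 41, 43, 47, 53, 59, 61, 67, 71]

/-- The test to be decided on each order. -/
def cubeTest (n : ℕ) : Bool :=
  decide (smallPrimes.prod ^ 50 % n = 0) &&
    smallPrimes.all fun q => q == 2 || decide (n % q ^ 3 ≠ 0) || decide (n % q ^ 4 = 0) ||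
      (List.range 50).any fun a => decide (n % 2 ^ a = 0) && decide (q ^ 3 < 2 ^ a)

theorem smallPrimes_prime : ∀ q ∈ smallPrimes, q.Prime := by decide

theorem of_cubeTest {n : ℕ} (hn : n ≠ 0) (h : cubeTest n = true) {p : ℕ} (hp : p.Prime) (hodd : p ≠ 2)
    (h3 : n.factorization p = 3) : p ^ 3 < 2 ^ n.factorization 2 := by
  simp only [cubeTest, Bool.and_eq_true, decide_eq_true_eq, List.all_eq_true, Bool.or_eq_true,
    beq_iff_eq, List.any_eq_true] at h
  obtain ⟨h1, h2⟩ := h
  have hpn : p ∣ n := Nat.dvd_of_factorization_pos (by omega)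
  obtain ⟨q, hq, hpq⟩ := hp.prime.dvd_prod_iff.1
    (hp.dvd_of_dvd_pow (hpn.trans (Nat.dvd_of_mod_eq_zero h1)))
  obtain rfl := (Nat.prime_dvd_prime_iff_eq hp (smallPrimes_prime q hq)).1 hpq
  rcases h2 p hq with ((h | h) | h) | ⟨a, -, ha, hlt⟩
  · exact absurd h hodd
  · exact absurd (Nat.mod_eq_zero_of_dvd ((hp.pow_dvd_iff_le_factorization hn).2 h3.ge)) h
  · have := (hp.pow_dvd_iff_le_factorization hn).1 (Nat.dvd_of_mod_eq_zero h)
    omega
  · exact hlt.trans_le (Nat.pow_le_pow_right (by omega)
      ((Nat.prime_two.pow_dvd_iff_le_factorization hn).1 (Nat.dvd_of_mod_eq_zero ha)))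

theorem cube_lt_two_pow : ∀ p : ℕ, 5 ≤ p → p ^ 3 < 2 ^ (2 * p - 1) := by
  intro p hp
  induction p, hp using Nat.le_induction with
  | base => norm_num
  | succ p hp ih =>
    have h1 : 2 ^ (2 * (p + 1) - 1) = 4 * 2 ^ (2 * p - 1) := by
      rw [show 2 * (p + 1) - 1 = 2 + (2 * p - 1) by omega, pow_add]; norm_num
    rw [h1]
    nlinarith [Nat.mul_le_mul hp hp, Nat.mul_le_mul (Nat.mul_le_mul hp hp) hp]

theorem alternating_case {n p : ℕ} (hn : 5 ≤ n) (hp : p.Prime) (hodd : p ≠ 2)
    (m : ℕ) (hm : 2 * m = n.factorial) (h3 : m.factorization p = 3) :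
    p ^ 3 < 2 ^ m.factorization 2 := by
  have hm0 : m ≠ 0 := by
    intro h; rw [h] at hm; exact n.factorial_ne_zero hm.symm
  have hf : n.factorial.factorization = (2 : ℕ).factorization + m.factorization := by
    rw [← hm, Nat.factorization_mul two_ne_zero hm0]
  have hpv : n.factorial.factorization p = 3 := by
    rw [hf, Finsupp.add_apply, Nat.factorization_eq_zero_of_not_dvd
      (fun h => hodd ((Nat.prime_dvd_prime_iff_eq hp Nat.prime_two).1 h)), h3]
  have h2v : n.factorial.factorization 2 = 1 + m.factorization 2 := by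
    rw [hf, Finsupp.add_apply, Nat.Prime.factorization_self Nat.prime_two]
  have hp3 : p ≠ 3 := by
    rintro rfl
    rcases Nat.lt_or_ge n 9 with h | h
    · interval_cases n <;> rw [Nat.factorization_factorial Nat.prime_three (b := 3)
        (Nat.log_lt_of_lt_pow (by norm_num) (by norm_num))] at hpv <;> simp [Finset.sum_Ico_succ_top] at hpv
    · have h1 : Nat.factorization (Nat.factorial 9) 3 ≤ n.factorial.factorization 3 :=
        (Nat.factorization_le_iff_dvd (Nat.factorial_ne_zero 9) n.factorial_ne_zero).2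
          (Nat.factorial_dvd_factorial h) 3
      rw [hpv, Nat.factorization_factorial Nat.prime_three (b := 3)
        (Nat.log_lt_of_lt_pow (by norm_num) (by norm_num))] at h1
      simp [Finset.sum_Ico_succ_top] at h1
  have hp5 : 5 ≤ p := by
    have := hp.two_le
    have h4 : p ≠ 4 := by rintro rfl; norm_num at hp
    omega
  have hnp : 3 * p ≤ n := by
    by_contra hlt
    push Not at hlt
    have hsq : n < p ^ 2 := by nlinarith
    rw [Nat.factorization_factorial hp (b := 2) (Nat.log_lt_of_lt_pow (by omega) hsq)] at hpv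
    simp only [Nat.Ico_succ_singleton, Finset.sum_singleton, pow_one] at hpv
    have := Nat.div_lt_iff_lt_mul (k := p) (x := n) (y := 3) hp.pos
    omega
  have h2big : n / 2 + n / 4 ≤ n.factorial.factorization 2 := by
    rw [Nat.factorization_factorial Nat.prime_two (b := n + 1)
      (Nat.lt_succ_of_le (Nat.log_le_self 2 n))]
    refine le_trans ?_ (Finset.sum_le_sum_of_subset (s := {1, 2}) ?_)
    · simp
    · intro x hx
      simp only [Finset.mem_insert, Finset.mem_singleton] at hx
      exact Finset.mem_Ico.2 (by omega)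
  refine (cube_lt_two_pow p hp5).trans_le (Nat.pow_le_pow_right (by omega) ?_)
  omega

/-- Let G be an alternating group of degree at least 5 or a simple group with the order of one of the 26 sporadic groups, and let p be an odd prime such that p³ is the exact power of p dividing the order of G. Then p³ is less than the 2-part of the order of G. -/
theorem result {G : Type*} [Group G] [Finite G] (hG : Cfsg.IsAlternating G ∨ Cfsg.IsSporadic G)
    (p : ℕ) (hp : p.Prime) (hodd : p ≠ 2) (h3 : (Nat.card G).factorization p = 3) :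
    p ^ 3 < 2 ^ (Nat.card G).factorization 2 := by
  have hn0 : Nat.card G ≠ 0 := Nat.card_pos.ne'
  rcases hG with ⟨n, hn, ⟨e⟩⟩ | hG
  · haveI : Nontrivial (Fin n) := Fin.nontrivial_iff_two_le.2 (by omega)
    refine alternating_case hn hp hodd _ ?_ h3
    rw [Nat.card_congr e.toEquiv, two_mul_nat_card_alternatingGroup, Nat.card_perm, Nat.card_fin]
  · refine of_cubeTest hn0 ?_ hp hodd h3
    rcases hG with h | h | h | h | h | h | h | h | h | h | h | h | h | h | h | h | h | h | h | h | h | h | h | h |
      h | h <;> rw [h.2] <;> decide +kernel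

end Cfsg.Agent.S2367
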