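import Cfsg.Statements.S2368
import Cfsg.Agent.Lib.Classical.TwoByTwo
-- import your own Cfsg.Agent.* helpers here

set_option autoImplicit false
open Cfsg

namespace Cfsg.Agent.S2368

/-- Let F be a finite field of characteristic p and m ≥ 1. Every element of GL(m, F) of p-power order has order less than p·m, and GL(m, F) has an element of p-power order at least m; so the largest order of a p-element of GL(m, F) is the least power of p that is at least m. -/
theorem result {F : Type*} [Field F] [Fintype F] (p : ℕ) [Fact p.Prime] [CharP F p] (m : ℕ) (hm : 1 ≤ m) :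
    (∀ g : Matrix.GeneralLinearGroup (Fin m) F, (∃ j : ℕ, orderOf g = p ^ j) → orderOf g < p * m) ∧
      ∃ g : Matrix.GeneralLinearGroup (Fin m) F, (∃ j : ℕ, orderOf g = p ^ j) ∧ m ≤ orderOf g := by
  classical
  haveI : Nonempty (Fin m) := ⟨⟨0, hm⟩⟩
  haveI : CharP (Matrix (Fin m) (Fin m) F) p := inferInstance
  haveI : ExpChar (Matrix (Fin m) (Fin m) F) p := ExpChar.prime Fact.out
  have hp : p.Prime := Fact.out
  have key : ∀ (u : Matrix.GeneralLinearGroup (Fin m) F) (k : ℕ), u ^ p ^ k = 1 ↔ ((u : Matrix (Fin m) (Fin m) F) - 1) ^ p ^ k = 0 := fun u k => by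
    rw [sub_pow_expChar_pow_of_commute p k (Commute.one_right _), one_pow, sub_eq_zero, Units.ext_iff, Units.val_pow_eq_pow_val,
      Units.val_one]
  constructor
  · rintro g ⟨j, hj⟩
    have hN : ((g : Matrix (Fin m) (Fin m) F) - 1) ^ m = 0 :=
      Cfsg.Lib.Classical.TwoByTwo.sub_one_sq_zero (p := p) j (by rw [← Units.val_pow_eq_pow_val, ← hj, pow_orderOf_eq_one, Units.val_one])
    rcases Nat.lt_or_ge 1 m with h1 | h1
    · have hle : orderOf g ≤ p ^ Nat.clog p m := Nat.le_of_dvd (pow_pos hp.pos _)
        (orderOf_dvd_of_pow_eq_one ((key g _).2 (pow_eq_zero_of_le (Nat.le_pow_clog hp.one_lt m) hN)))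
      refine hle.trans_lt ?_
      have h2 := Nat.pow_pred_clog_lt_self hp.one_lt h1
      have h3 : 0 < Nat.clog p m := Nat.clog_pos hp.one_lt h1
      calc p ^ Nat.clog p m = p * p ^ (Nat.clog p m).pred := by rw [← pow_succ']; congr 1; exact (Nat.succ_pred_eq_of_pos h3).symm
        _ < p * m := Nat.mul_lt_mul_of_pos_left h2 hp.pos
    · obtain rfl : m = 1 := by omega
      rw [pow_one, sub_eq_zero] at hN
      rw [show g = 1 from Units.ext hN, orderOf_one, mul_one]
      exact hp.one_lt
  · let N : Matrix (Fin m) (Fin m) F := Matrix.of fun i j => if (j : ℕ) = i + 1 then 1 else 0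
    have hpowN : ∀ k : ℕ, N ^ k = Matrix.of fun (i j : Fin m) => if (j : ℕ) = i + k then 1 else 0 := by
      intro k
      induction k with
      | zero =>
        ext i j
        simp [Matrix.one_apply, Fin.ext_iff, eq_comm]
      | succ k ih =>
        ext i j
        rw [pow_succ, ih, Matrix.mul_apply]
        by_cases hik : (i : ℕ) + k < m
        · rw [Finset.sum_eq_single ⟨i + k, hik⟩]
          · simp [N, add_assoc]
          · intro b _ hb
            have : (b : ℕ) ≠ i + k := fun e => hb (Fin.ext e)
            simp [this]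
          · simp
        · have := j.isLt
          rw [Finset.sum_eq_zero fun b _ => by have := b.isLt; simp; omega]
          simp
          omega
    have hdet : (1 + N).det = 1 := by
      rw [Matrix.det_of_isUpperTriangular]
      · refine Finset.prod_eq_one fun i _ => ?_
        simp [N]
      · intro i j hij
        have hij' : j < i := hij
        have : (j : ℕ) < i := hij'
        simp [N, Matrix.one_apply, hij'.ne']
        omega
    let u : Matrix.GeneralLinearGroup (Fin m) F := Matrix.GeneralLinearGroup.mkOfDetNeZero (1 + N) (by rw [hdet]; exact one_ne_zero)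
    have hu : (u : Matrix (Fin m) (Fin m) F) - 1 = N := by show 1 + N - 1 = N; abel
    have hNm : N ^ m = 0 := by
      rw [hpowN]; ext i j
      have := j.isLt
      simp; omega
    obtain ⟨j, -, hj⟩ := (Nat.dvd_prime_pow hp).1 (orderOf_dvd_of_pow_eq_one
      ((key u (Nat.clog p m)).2 (by rw [hu]; exact pow_eq_zero_of_le (Nat.le_pow_clog hp.one_lt m) hNm)))
    refine ⟨u, ⟨j, hj⟩, ?_⟩
    by_contra hlt
    have h0 : N ^ p ^ j = 0 := hu ▸ (key u j).1 (by rw [← hj]; exact pow_orderOf_eq_one u)
    have h1 : N ^ (m - 1) = 0 := pow_eq_zero_of_le (by omega) h0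
    rw [hpowN] at h1
    have := congrFun (congrFun h1 (⟨0, hm⟩ : Fin m)) (⟨m - 1, by omega⟩ : Fin m)
    simp at this

end Cfsg.Agent.S2368
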