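import Cfsg.Statements.S2569
-- import your own Cfsg.Agent.* helpers here

set_option autoImplicit false
open Cfsg

namespace Cfsg.Agent.S2569

open Polynomial in
/-- a semisimple operator on a nonzero space over a finite field centralises elements of every determinant -/
theorem exists_commute_det {F V : Type*} [Field F] [Finite F] [AddCommGroup V] [Module F V] [FiniteDimensional F V]
    [Nontrivial V] {x : Module.End F V} (hx : x.IsSemisimple) (a : F) :
    ∃ T : Module.End F V, Commute x T ∧ LinearMap.det T = a := by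
  classical
  obtain ⟨g, hgm, hgi, hgd⟩ := Polynomial.exists_monic_irreducible_factor (minpoly F x)
    (minpoly.not_isUnit F x)
  have hint : IsIntegral F x := IsIntegral.of_finite F x
  obtain ⟨v, hv0, hv⟩ : ∃ v : V, v ≠ 0 ∧ aeval x g v = 0 := by
    by_contra hall
    push Not at hall
    obtain ⟨h, hh⟩ := hgd
    have h0 : aeval x h = 0 := LinearMap.ext fun v => by
      by_contra hne
      refine hall _ hne ?_
      rw [← Module.End.mul_apply, ← map_mul, ← hh, minpoly.aeval]
      simp
    have hdvd := minpoly.dvd F x h0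
    have hh0 : h ≠ 0 := fun e => minpoly.ne_zero hint (by rw [hh, e, mul_zero])
    have := Polynomial.degree_le_of_dvd hdvd hh0
    rw [hh, Polynomial.degree_mul, Polynomial.degree_eq_natDegree hgm.ne_zero,
      Polynomial.degree_eq_natDegree hh0, ← Nat.cast_add, Nat.cast_le] at this
    have := hgi.natDegree_pos
    omega
  have : Fact (Irreducible g) := ⟨hgi⟩
  have : Module.Finite F (AdjoinRoot g) := (AdjoinRoot.powerBasis hgm.ne_zero).finite
  have : Finite (AdjoinRoot g) := Module.finite_of_finite F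
  let ι : AdjoinRoot g →ₗ[F] V :=
    ((LinearMap.applyₗ v).comp (Polynomial.aeval x).toLinearMap).comp (AdjoinRoot.modByMonicHom hgm)
  have hι : ∀ h : F[X], ι (AdjoinRoot.mk g h) = aeval x h v := fun h => by
    show aeval x (AdjoinRoot.modByMonicHom hgm (AdjoinRoot.mk g h)) v = _
    conv_rhs => rw [← Polynomial.modByMonic_add_div h g]
    rw [AdjoinRoot.modByMonicHom_mk, map_add, mul_comm g, map_mul, LinearMap.add_apply, Module.End.mul_apply, hv,
      map_zero, add_zero]
  have hιx : ∀ k, x (ι k) = ι (AdjoinRoot.root g * k) := fun k => by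
    induction k using AdjoinRoot.induction_on with
    | ih h => rw [← AdjoinRoot.mk_X, ← map_mul, hι, hι, map_mul, aeval_X, Module.End.mul_apply]
  have hιinj : Function.Injective ι := by
    rw [injective_iff_map_eq_zero]
    intro k hk
    by_contra hne
    obtain ⟨h, rfl⟩ := AdjoinRoot.mk_surjective k
    obtain ⟨j, hj⟩ := AdjoinRoot.mk_surjective (g := g) (AdjoinRoot.mk g h)⁻¹
    apply hv0
    have h1 : ι (AdjoinRoot.mk g (j * h)) = v := by
      rw [map_mul, hj, inv_mul_cancel₀ hne, ← map_one (AdjoinRoot.mk g), hι, map_one, Module.End.one_apply]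
    rw [hι] at hk
    rw [hι, map_mul, Module.End.mul_apply, hk, map_zero] at h1
    exact h1.symm
  have hinv : LinearMap.range ι ∈ Module.End.invtSubmodule x := by
    rintro w ⟨k, rfl⟩
    exact ⟨_, (hιx k).symm⟩
  obtain ⟨q, hq, hpq⟩ := Module.End.isSemisimple_iff.mp hx _ hinv
  let Φ : (AdjoinRoot g × q) ≃ₗ[F] V :=
    ((LinearEquiv.ofInjective ι hιinj).prodCongr (LinearEquiv.refl F q)).trans
      (Submodule.prodEquivOfIsCompl _ _ hpq)
  have hΦ : ∀ z, Φ z = ι z.1 + (z.2 : V) := fun z => rfl
  obtain ⟨α, hα⟩ := FiniteField.norm_surjective F (AdjoinRoot g) a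
  let T0 : (AdjoinRoot g × q) →ₗ[F] (AdjoinRoot g × q) :=
    (Algebra.lmul F (AdjoinRoot g) α).prodMap LinearMap.id
  refine ⟨(Φ : (AdjoinRoot g × q) →ₗ[F] V) ∘ₗ T0 ∘ₗ (Φ.symm : V →ₗ[F] (AdjoinRoot g × q)), ?_, ?_⟩
  · refine LinearMap.ext fun w => ?_
    obtain ⟨z, rfl⟩ := Φ.surjective w
    have hxz : x (Φ z) = Φ (AdjoinRoot.root g * z.1, ⟨x z.2, hq z.2.2⟩) := by
      rw [hΦ, hΦ, map_add, hιx]
    simp only [Module.End.mul_apply, LinearMap.comp_apply, LinearEquiv.coe_coe, LinearEquiv.symm_apply_apply, hxz]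
    simp only [T0, LinearMap.prodMap_apply, LinearMap.id_apply, Algebra.coe_lmul_eq_mul, LinearMap.mul_apply']
    rw [hΦ, hΦ, map_add, hιx, mul_left_comm]
  · rw [LinearMap.det_conj, LinearMap.det_prodMap, LinearMap.det_id, mul_one, ← Algebra.norm_apply, hα]

/-- In GL_n over a finite field of characteristic p, the conjugacy class of a semisimple element (an element of order prime to p) under the special linear group is its whole GL-conjugacy class: for every such x and every invertible g there is h of determinant one with h x h⁻¹ = g x g⁻¹. -/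
theorem result {F : Type*} [Field F] [Fintype F] {p : ℕ} [Fact p.Prime] [CharP F p] {n : ℕ} (x g : GL (Fin n) F) (hx : (orderOf x).Coprime p) : ∃ h : GL (Fin n) F, (h : Matrix (Fin n) (Fin n) F).det = 1 ∧ h * x * h⁻¹ = g * x * g⁻¹ := by
  classical
  rcases Nat.eq_zero_or_pos n with rfl | hn
  · exact ⟨g, Matrix.det_fin_zero, rfl⟩
  have : Nonempty (Fin n) := ⟨⟨0, hn⟩⟩
  set X : Module.End F (Fin n → F) := Matrix.toLinAlgEquiv' (x : Matrix (Fin n) (Fin n) F) with hX
  have hm : ((orderOf x : ℕ) : F) ≠ 0 := by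
    rw [Ne, CharP.cast_eq_zero_iff F p]
    intro hd
    exact (Fact.out : p.Prime).ne_one (Nat.eq_one_of_dvd_coprimes hx hd dvd_rfl)
  have hss : X.IsSemisimple := by
    refine Module.End.isSemisimple_of_squarefree_aeval_eq_zero
      (Polynomial.X_pow_sub_one_separable_iff.mpr hm).squarefree ?_
    rw [map_sub, map_pow, Polynomial.aeval_X, map_one, hX, ← map_pow, ← Units.val_pow_eq_pow_val,
      pow_orderOf_eq_one, Units.val_one, map_one, sub_self]
  set a := Matrix.GeneralLinearGroup.det g with ha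
  obtain ⟨T, hT, hdet⟩ := exists_commute_det hss ((a⁻¹ : Fˣ) : F)
  set M : Matrix (Fin n) (Fin n) F := Matrix.toLinAlgEquiv'.symm T with hM
  have hMd : M.det = ((a⁻¹ : Fˣ) : F) := by
    rw [← hdet, hM, ← LinearMap.det_toMatrix']
    rfl
  let c : GL (Fin n) F := Matrix.GeneralLinearGroup.mkOfDetNeZero M (by rw [hMd]; exact (a⁻¹).ne_zero)
  have hc : x * c = c * x := Units.ext (Matrix.toLinAlgEquiv'.injective (by
    simp only [Units.val_mul, map_mul]
    rw [show Matrix.toLinAlgEquiv' (c : Matrix (Fin n) (Fin n) F) = T from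
      Matrix.toLinAlgEquiv'.apply_symm_apply T]
    exact hT.eq))
  refine ⟨g * c, ?_, ?_⟩
  · rw [Units.val_mul, Matrix.det_mul, show (c : Matrix (Fin n) (Fin n) F).det = ((a⁻¹ : Fˣ) : F) from hMd,
      show (g : Matrix (Fin n) (Fin n) F).det = (a : F) from rfl, ← Units.val_mul, mul_inv_cancel, Units.val_one]
  · calc g * c * x * (g * c)⁻¹ = g * (c * x) * c⁻¹ * g⁻¹ := by group
      _ = g * x * g⁻¹ := by rw [← hc]; group

end Cfsg.Agent.S2569
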