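import Cfsg.Statements.S2388
import Cfsg.Agent.Lib.LinAlg.SemisimpleClasses
import Cfsg.Agent.S2569

set_option autoImplicit false
open Cfsg

namespace Cfsg.Agent.S2388

/-- In `SL_n(q)`, `q` a power of the prime `p`, two elements of order prime to `p` with the same characteristic polynomial are conjugate in `SL_n(q)` (not merely in `GL_n`). -/
theorem result {F : Type*} [Field F] [Fintype F] (p : ℕ) [Fact p.Prime] [CharP F p] (n : ℕ)
    (g h : Matrix.SpecialLinearGroup (Fin n) F) (hg : (orderOf g).Coprime p) (hh : (orderOf h).Coprime p)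
    (hc : (g : Matrix (Fin n) (Fin n) F).charpoly = (h : Matrix (Fin n) (Fin n) F).charpoly) : IsConj g h := by
  have ho : ∀ z : Matrix.SpecialLinearGroup (Fin n) F, orderOf (z : GL (Fin n) F) = orderOf z := fun z =>
    orderOf_injective Matrix.SpecialLinearGroup.toGL (fun a b e => Subtype.ext
      (congrArg (fun w : GL (Fin n) F => (w : Matrix (Fin n) (Fin n) F)) e)) z
  obtain ⟨c, hcc⟩ := isConj_iff.mp (LinAlg.SSClass.isConj_of_charpoly_eq p (x := (g : GL (Fin n) F))
    (y := (h : GL (Fin n) F)) (by rwa [ho]) (by rwa [ho]) hc)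
  obtain ⟨d, hd, hdc⟩ := Cfsg.Agent.S2569.result (g : GL (Fin n) F) c (by rwa [ho])
  rw [hcc] at hdc
  rw [isConj_iff]
  let dd : Matrix.SpecialLinearGroup (Fin n) F := ⟨(d : Matrix (Fin n) (Fin n) F), hd⟩
  refine ⟨dd, ?_⟩
  rw [mul_inv_eq_iff_eq_mul] at hdc ⊢
  exact Subtype.ext (congrArg (fun w : GL (Fin n) F => (w : Matrix (Fin n) (Fin n) F)) hdc)

end Cfsg.Agent.S2388
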