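import Cfsg.Statements.S2384
import Cfsg.Agent.Lib.LinAlg.SemisimpleClasses
import Cfsg.Agent.S2388

set_option autoImplicit false
open Cfsg

namespace Cfsg.Agent.S2384

/-- In `SL_n(q)`, `q` a power of the prime `p`, the number of conjugacy classes of elements of order prime to `p` (the semisimple classes) is `q^(n-1)`. -/
theorem result {F : Type*} [Field F] [Fintype F] {q : ℕ} (hq : Fintype.card F = q) (p : ℕ) [Fact p.Prime] [CharP F p] (n : ℕ) (hn : 1 ≤ n) :
    Nat.card {c : ConjClasses (Matrix.SpecialLinearGroup (Fin n) F) //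
      ∃ g : Matrix.SpecialLinearGroup (Fin n) F, ConjClasses.mk g = c ∧ (orderOf g).Coprime p} = q ^ (n - 1) := by
  classical
  obtain ⟨m, rfl⟩ : ∃ m, n = m + 1 := ⟨n - 1, by omega⟩
  let T := {f : {f : Polynomial F // f.Monic ∧ f.natDegree = m + 1} // f.1.coeff 0 = (-1) ^ (m + 1)}
  have ho : ∀ z : Matrix.SpecialLinearGroup (Fin (m + 1)) F, orderOf (z : GL (Fin (m + 1)) F) = orderOf z :=
    fun z => orderOf_injective Matrix.SpecialLinearGroup.toGL (fun a b e => Subtype.ext
      (congrArg (fun w : GL (Fin (m + 1)) F => (w : Matrix (Fin (m + 1)) (Fin (m + 1)) F)) e)) z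
  have hone : ((-1 : F) ^ (m + 1)) * (-1) ^ (m + 1) = 1 := by rw [← mul_pow]; simp
  have hex : ∀ f : T, ∃ x : Matrix.SpecialLinearGroup (Fin (m + 1)) F, (orderOf x).Coprime p ∧
      (x : Matrix (Fin (m + 1)) (Fin (m + 1)) F).charpoly = f.1.1 := fun f => by
    obtain ⟨x, hx, hxf⟩ := LinAlg.SSClass.exists_gl p f.1.2.1 f.1.2.2
      (by rw [f.2]; exact pow_ne_zero _ (neg_ne_zero.mpr one_ne_zero))
    have hd : (x : Matrix (Fin (m + 1)) (Fin (m + 1)) F).det = 1 := by
      rw [Matrix.det_eq_sign_charpoly_coeff, hxf, f.2, Fintype.card_fin, hone]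
    let y : Matrix.SpecialLinearGroup (Fin (m + 1)) F := ⟨(x : Matrix (Fin (m + 1)) (Fin (m + 1)) F), hd⟩
    refine ⟨y, ?_, hxf⟩
    rw [← ho, show (y : GL (Fin (m + 1)) F) = x from Units.ext rfl]
    exact hx
  choose x hx hxf using hex
  let θ : T → {c : ConjClasses (Matrix.SpecialLinearGroup (Fin (m + 1)) F) //
      ∃ g : Matrix.SpecialLinearGroup (Fin (m + 1)) F, ConjClasses.mk g = c ∧ (orderOf g).Coprime p} :=
    fun f => ⟨ConjClasses.mk (x f), x f, rfl, hx f⟩
  have hθ : Function.Bijective θ := by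
    refine ⟨fun f f' h => ?_, ?_⟩
    · have h1 : IsConj (x f) (x f') := ConjClasses.mk_eq_mk_iff_isConj.mp (congrArg Subtype.val h)
      obtain ⟨c, hc⟩ := isConj_iff.mp h1
      have h2 := congrArg (fun z : Matrix.SpecialLinearGroup (Fin (m + 1)) F => (z : GL (Fin (m + 1)) F)) hc
      simp only [map_mul, map_inv] at h2
      refine Subtype.ext (Subtype.ext ?_)
      rw [← hxf, ← hxf]
      show ((x f : GL (Fin (m + 1)) F) : Matrix (Fin (m + 1)) (Fin (m + 1)) F).charpoly =
        ((x f' : GL (Fin (m + 1)) F) : Matrix (Fin (m + 1)) (Fin (m + 1)) F).charpoly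
      rw [← h2, Units.val_mul, Units.val_mul, Matrix.coe_units_inv, Matrix.charpoly_units_conj]
    · rintro ⟨c, g, rfl, hg⟩
      refine ⟨⟨⟨(g : Matrix (Fin (m + 1)) (Fin (m + 1)) F).charpoly, Matrix.charpoly_monic _, by rw [Matrix.charpoly_natDegree_eq_dim, Fintype.card_fin]⟩, ?_⟩,
        Subtype.ext (ConjClasses.mk_eq_mk_iff_isConj.mpr ?_)⟩
      · have h1 := (Matrix.det_eq_sign_charpoly_coeff (g : Matrix (Fin (m + 1)) (Fin (m + 1)) F)).symm
        rw [g.2, Fintype.card_fin] at h1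
        calc _ = ((-1 : F) ^ (m + 1) * (-1) ^ (m + 1)) *
              (g : Matrix (Fin (m + 1)) (Fin (m + 1)) F).charpoly.coeff 0 := by rw [hone, one_mul]
          _ = _ := by rw [mul_assoc, h1, mul_one]
      · exact Cfsg.Agent.S2388.result p (m + 1) _ _ (hx _) hg (hxf _)
  rw [← Nat.card_eq_of_bijective θ hθ]
  let e : T ≃ (Fin m → F) :=
    ((LinAlg.SSClass.coeffEquiv (F := F) (m + 1)).subtypeEquiv
      (q := fun c : Fin (m + 1) → F => c 0 = (-1) ^ (m + 1))
      (fun f => by rw [LinAlg.SSClass.coeffEquiv_apply]; rfl)).trans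
    { toFun := fun c => Fin.tail c.1
      invFun := fun z => ⟨Fin.cons ((-1) ^ (m + 1)) z, by simp⟩
      left_inv := fun c => Subtype.ext (by
        show Fin.cons _ (Fin.tail c.1) = c.1
        exact (congrArg (fun a => Fin.cons a (Fin.tail c.1)) c.2.symm).trans (Fin.cons_self_tail c.1))
      right_inv := fun z => by simp [Fin.tail_cons] }
  rw [Nat.card_congr e, Nat.card_eq_fintype_card, Fintype.card_fun, Fintype.card_fin, hq, Nat.add_sub_cancel]

end Cfsg.Agent.S2384
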