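import Cfsg.Statements.S2389
import Cfsg.Agent.Lib.LinAlg.SympSemisimple
import Cfsg.Agent.Lib.LinAlg.SemisimpleClasses

set_option autoImplicit false
open Cfsg

namespace Cfsg.Agent.S2389

/-- In the symplectic group `Sp_{2n}(q)`, `q` a power of the prime `p`, two elements of order prime to `p` with the same characteristic polynomial are conjugate in `Sp_{2n}(q)`. -/
theorem result {F : Type*} [Field F] [Fintype F] (p : ℕ) [Fact p.Prime] [CharP F p] (n : ℕ)
    (g h : ↥(Matrix.symplecticGroup (Fin n) F)) (hg : (orderOf g).Coprime p) (hh : (orderOf h).Coprime p)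
    (hc : (g : Matrix (Fin n ⊕ Fin n) (Fin n ⊕ Fin n) F).charpoly = (h : Matrix (Fin n ⊕ Fin n) (Fin n ⊕ Fin n) F).charpoly) :
    IsConj g h := by
  have hN : ((orderOf g : ℕ) : F) ≠ 0 := by
    rw [Ne, CharP.cast_eq_zero_iff F p]
    exact fun hd => (Fact.out : p.Prime).ne_one (Nat.eq_one_of_dvd_coprimes hg hd dvd_rfl)
  have hpg := congrArg Subtype.val (pow_orderOf_eq_one g)
  have hph := congrArg Subtype.val (pow_orderOf_eq_one h)
  refine Cfsg.Lib.SympSS.exists_conj g h hN hpg ?_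
  obtain ⟨f, hf, hxf⟩ := Cfsg.Agent.LinAlg.SSClass.exists_squarefree_killer p hg (M := (g : Matrix (Fin n ⊕ Fin n) (Fin n ⊕ Fin n) F)) hpg
  obtain ⟨f', hf', hyf⟩ := Cfsg.Agent.LinAlg.SSClass.exists_squarefree_killer p hh (M := (h : Matrix (Fin n ⊕ Fin n) (Fin n ⊕ Fin n) F)) hph
  obtain ⟨e, he⟩ := Cfsg.Agent.LinAlg.SSClass.exists_conj_of_charpoly_eq (F := F) _ (V := Fin n ⊕ Fin n → F) (W := Fin n ⊕ Fin n → F)
    rfl _ _ hf hxf hf' hyf (by
      rw [← Matrix.charpoly_toLin', ← Matrix.charpoly_toLin'] at hc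
      exact hc)
  set C := LinearMap.toMatrix' (e : (Fin n ⊕ Fin n → F) →ₗ[F] (Fin n ⊕ Fin n → F)) with hC
  set D := LinearMap.toMatrix' (e.symm : (Fin n ⊕ Fin n → F) →ₗ[F] (Fin n ⊕ Fin n → F)) with hD
  have h1 : C * D = 1 := by rw [hC, hD, ← LinearMap.toMatrix'_comp]; simp
  have h2 : D * C = 1 := by rw [hC, hD, ← LinearMap.toMatrix'_comp]; simp
  refine ⟨⟨C, D, h1, h2⟩, Matrix.toLinAlgEquiv'.injective ?_⟩
  have hCe : Matrix.toLinAlgEquiv' C = (e : (Fin n ⊕ Fin n → F) →ₗ[F] (Fin n ⊕ Fin n → F)) := Matrix.toLin'_toMatrix' _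
  show Matrix.toLinAlgEquiv' (C * _) = Matrix.toLinAlgEquiv' (_ * C)
  rw [map_mul, map_mul, hCe, he]
  refine LinearMap.ext fun w => ?_
  simp [LinearEquiv.conj_apply]

end Cfsg.Agent.S2389
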