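import Cfsg.Statements.S2586
import Cfsg.Agent.Lib.LinAlg.Transpose

set_option autoImplicit false
open Cfsg

namespace Cfsg.Agent.S2586

/-- Over a finite field, every element of the symplectic group Sp_2m(F) is conjugate by an invertible matrix to its inverse. -/
theorem result {F : Type*} [Field F] [Finite F] {m : ℕ} (A : Matrix.symplecticGroup (Fin m) F) : IsConj (A : Matrix (Fin m ⊕ Fin m) (Fin m ⊕ Fin m) F) ((A⁻¹ : Matrix.symplecticGroup (Fin m) F) : Matrix (Fin m ⊕ Fin m) (Fin m ⊕ Fin m) F) := by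
  classical
  set J := Matrix.J (Fin m) F with hJ
  have hJJ : J * J = -1 := Matrix.J_squared (Fin m) F
  let uJ : (Matrix (Fin m ⊕ Fin m) (Fin m ⊕ Fin m) F)ˣ := ⟨J, -J, by rw [mul_neg, hJJ, neg_neg], by rw [neg_mul, hJJ, neg_neg]⟩
  have hA : (A : Matrix (Fin m ⊕ Fin m) (Fin m ⊕ Fin m) F) * J * (A : Matrix (Fin m ⊕ Fin m) (Fin m ⊕ Fin m) F).transpose = J :=
    SymplecticGroup.mem_iff.mp A.2
  have hinv : ((A⁻¹ : Matrix.symplecticGroup (Fin m) F) : Matrix (Fin m ⊕ Fin m) (Fin m ⊕ Fin m) F) * (A : Matrix (Fin m ⊕ Fin m) (Fin m ⊕ Fin m) F) = 1 := by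
    exact congrArg Subtype.val (inv_mul_cancel A)
  refine (Cfsg.Agent.LinAlg.isConj_transpose _).trans ⟨uJ, ?_⟩
  show J * (A : Matrix (Fin m ⊕ Fin m) (Fin m ⊕ Fin m) F).transpose = _ * J
  conv_rhs => rw [← hA, ← mul_assoc, ← mul_assoc, hinv, one_mul]

end Cfsg.Agent.S2586
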