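import Cfsg.Statements.S2385
import Cfsg.Agent.Lib.LinAlg.SympCompanion
import Cfsg.Agent.Lib.LinAlg.SemisimpleClasses
import Cfsg.Agent.Lib.Classical.SymplecticMatrix
import Cfsg.Agent.S2586
import Cfsg.Agent.S2389

set_option autoImplicit false
open Cfsg

namespace Cfsg.Agent.S2385

open Matrix Polynomial

set_option maxHeartbeats 800000

variable {F : Type*} [Field F] [Fintype F]

theorem det_one {n : ℕ} (g : Matrix.symplecticGroup (Fin n) F) :
    (g : Matrix (Fin n ⊕ Fin n) (Fin n ⊕ Fin n) F).det = 1 := by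
  have hu : IsUnit (g : Matrix (Fin n ⊕ Fin n) (Fin n ⊕ Fin n) F) :=
    (Matrix.isUnit_iff_isUnit_det _).2 (SymplecticGroup.symplectic_det g.2)
  have h := Cfsg.Lib.Classical.det_eq_one_of_isometry _ (Cfsg.Lib.Classical.sympBilin_isAlt F n)
    (Cfsg.Lib.Classical.sympBilin_nondegenerate F n) hu.unit (fun x y => by
      simp only [Cfsg.Lib.Classical.sympBilin, Matrix.toBilin'_apply', IsUnit.unit_spec]
      rw [Matrix.mulVec_mulVec, Matrix.dotProduct_mulVec, ← Matrix.vecMul_transpose, Matrix.vecMul_vecMul, ← mul_assoc,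
        SymplecticGroup.mem_iff'.1 g.2, ← Matrix.dotProduct_mulVec])
  exact congrArg Units.val h

theorem coeff_symm {n : ℕ} (g : Matrix.symplecticGroup (Fin n) F) (k : ℕ) (hk : k ≤ 2 * n) :
    (g : Matrix (Fin n ⊕ Fin n) (Fin n ⊕ Fin n) F).charpoly.coeff (2 * n - k) =
      (g : Matrix (Fin n ⊕ Fin n) (Fin n ⊕ Fin n) F).charpoly.coeff k := by
  set G := (g : Matrix (Fin n ⊕ Fin n) (Fin n ⊕ Fin n) F)
  obtain ⟨c, hc⟩ := Cfsg.Agent.S2586.result g
  have hi : ((g⁻¹ : Matrix.symplecticGroup (Fin n) F) : Matrix (Fin n ⊕ Fin n) (Fin n ⊕ Fin n) F) = G⁻¹ :=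
    (Matrix.inv_eq_left_inv (congrArg Subtype.val (inv_mul_cancel g))).symm
  have e : G⁻¹.charpoly = G.charpoly := by
    rw [← hi, ← Matrix.charpoly_units_conj c G]
    congr 1
    rw [← Matrix.coe_units_inv]
    exact (Units.eq_mul_inv_iff_mul_eq c).2 hc.symm
  have e' := congrArg (fun P => Polynomial.coeff P k) e
  beta_reduce at e'
  rw [Matrix.charpoly_inv _ ((Matrix.isUnit_iff_isUnit_det _).2 (SymplecticGroup.symplectic_det g.2)), det_one g,
    Ring.inverse_one, map_one, mul_one, Fintype.card_sum, Fintype.card_fin, ← Matrix.reverse_charpoly,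
    Even.neg_one_pow ⟨n, rfl⟩, one_mul, coeff_reverse, Matrix.charpoly_natDegree_eq_dim, Fintype.card_sum,
    Fintype.card_fin, ← two_mul, Polynomial.revAt_le hk] at e'
  exact e'

theorem pow_card_pow {ι : Type*} [Fintype ι] [DecidableEq ι] (M : Matrix ι ι F) :
    ∀ e : ℕ, (M ^ (Fintype.card F ^ e)).charpoly = M.charpoly := by
  intro e
  induction e with
  | zero => rw [pow_zero, pow_one]
  | succ e ih => rw [pow_succ, pow_mul, FiniteField.Matrix.charpoly_pow_card, ih]


/-- In the symplectic group `Sp_{2n}(q)`, `q` a power of the prime `p`, the number of conjugacy classes of elements of order prime to `p` is `q^n`. -/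
theorem result {F : Type*} [Field F] [Fintype F] {q : ℕ} (hq : Fintype.card F = q) (p : ℕ) [Fact p.Prime] [CharP F p] (n : ℕ) :
    Nat.card {c : ConjClasses ↥(Matrix.symplecticGroup (Fin n) F) //
      ∃ g : ↥(Matrix.symplecticGroup (Fin n) F), ConjClasses.mk g = c ∧ (orderOf g).Coprime p} = q ^ n := by
  classical
  rcases Nat.eq_zero_or_pos n with rfl | hn
  · haveI : Subsingleton ↥(Matrix.symplecticGroup (Fin 0) F) := ⟨fun a b => Subtype.ext (by ext i; rcases i with i | i <;> exact i.elim0)⟩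
    rw [pow_zero, Nat.card_eq_one_iff_unique]
    refine ⟨⟨fun a b => Subtype.ext ?_⟩, ⟨⟨ConjClasses.mk 1, 1, rfl, by simp⟩⟩⟩
    obtain ⟨x, hx, -⟩ := a.2; obtain ⟨y, hy, -⟩ := b.2
    rw [← hx, ← hy, Subsingleton.elim x y]
  have hex : ∀ v : Fin n → F, ∃ g : ↥(Matrix.symplecticGroup (Fin n) F), (orderOf g).Coprime p ∧
      ∀ i : Fin n, (g : Matrix (Fin n ⊕ Fin n) (Fin n ⊕ Fin n) F).charpoly.coeff (i.1 + 1) = v i := by
    intro v
    let b : ℕ → F := fun k => if h : 1 ≤ k ∧ k ≤ 2 * n - 1 then v ⟨min k (2 * n - k) - 1, by omega⟩ else 1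
    obtain ⟨⟨f, hfm, hfd⟩, hf⟩ := (LinAlg.SSClass.coeffEquiv (F := F) (2 * n)).surjective (fun k => b k)
    have hfi : ∀ k ≤ 2 * n, f.coeff k = b k := fun k hk => by
      rcases hk.eq_or_lt with rfl | hk
      · show _ = b (2 * n)
        rw [show b (2 * n) = 1 from dif_neg (by omega)]
        calc f.coeff (2 * n) = f.coeff f.natDegree := by rw [hfd]
          _ = 1 := hfm.coeff_natDegree
      · have := congrFun hf ⟨k, hk⟩
        rwa [LinAlg.SSClass.coeffEquiv_apply] at this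
    obtain ⟨A, hA⟩ := Cfsg.Lib.SympCompanion.exists_symplectic hn f hfm hfd (fun k hk => by
      rw [hfi k hk, hfi _ (Nat.sub_le _ _)]
      simp only [b]
      split_ifs <;> first | rfl | omega | (congr 1; ext; simp; omega))
    obtain ⟨e, r, hr, he⟩ := Nat.exists_eq_pow_mul_and_not_dvd (orderOf_pos A).ne' p (Fact.out : p.Prime).ne_one
    refine ⟨A ^ Fintype.card F ^ e, ?_, fun i => ?_⟩
    · refine Nat.Coprime.coprime_dvd_left (orderOf_dvd_of_pow_eq_one ?_) (((Fact.out : p.Prime).coprime_iff_not_dvd.2 hr).symm)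
      rw [← pow_mul]
      refine orderOf_dvd_iff_pow_eq_one.1 (he ▸ Nat.mul_dvd_mul_right (pow_dvd_pow_of_dvd ?_ e) r)
      obtain ⟨a, -, ha⟩ := FiniteField.card F p
      rw [ha]; exact dvd_pow_self p a.pos.ne'
    · rw [SubmonoidClass.coe_pow, pow_card_pow, hA, hfi _ (by omega)]
      simp only [b]
      rw [dif_pos (by omega)]
      congr 1; ext; simp; omega
  choose g hgp hgc using hex
  let θ : (Fin n → F) → {c : ConjClasses ↥(Matrix.symplecticGroup (Fin n) F) //
      ∃ g : ↥(Matrix.symplecticGroup (Fin n) F), ConjClasses.mk g = c ∧ (orderOf g).Coprime p} :=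
    fun v => ⟨ConjClasses.mk (g v), g v, rfl, hgp v⟩
  have hθ : Function.Bijective θ := by
    refine ⟨fun v v' h => ?_, ?_⟩
    · obtain ⟨z, hz⟩ := isConj_iff.1 (ConjClasses.mk_eq_mk_iff_isConj.mp (congrArg Subtype.val h))
      refine funext fun i => ?_
      rw [← hgc v i, ← hgc v' i, ← hz]
      show _ = ((z : Matrix (Fin n ⊕ Fin n) (Fin n ⊕ Fin n) F) * (g v : Matrix (Fin n ⊕ Fin n) (Fin n ⊕ Fin n) F) *
        ((z⁻¹ : ↥(Matrix.symplecticGroup (Fin n) F)) : Matrix (Fin n ⊕ Fin n) (Fin n ⊕ Fin n) F)).charpoly.coeff (i.1 + 1)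
      rw [Matrix.charpoly_mul_comm, ← mul_assoc,
        show ((z⁻¹ : ↥(Matrix.symplecticGroup (Fin n) F)) : Matrix (Fin n ⊕ Fin n) (Fin n ⊕ Fin n) F) *
          (z : Matrix (Fin n ⊕ Fin n) (Fin n ⊕ Fin n) F) = 1 from congrArg Subtype.val (inv_mul_cancel z), one_mul]
    · rintro ⟨C, x, rfl, hx⟩
      refine ⟨fun i => (x : Matrix (Fin n ⊕ Fin n) (Fin n ⊕ Fin n) F).charpoly.coeff (i.1 + 1),
        Subtype.ext (ConjClasses.mk_eq_mk_iff_isConj.mpr (Cfsg.Agent.S2389.result p n _ _ (hgp _) hx ?_))⟩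
      set v : Fin n → F := fun i => (x : Matrix (Fin n ⊕ Fin n) (Fin n ⊕ Fin n) F).charpoly.coeff (i.1 + 1) with hv
      have low : ∀ k ≤ n, (g v : Matrix (Fin n ⊕ Fin n) (Fin n ⊕ Fin n) F).charpoly.coeff k =
          (x : Matrix (Fin n ⊕ Fin n) (Fin n ⊕ Fin n) F).charpoly.coeff k := fun k hk => by
        rcases k with _ | k
        · have e : ∀ y : ↥(Matrix.symplecticGroup (Fin n) F), (y : Matrix (Fin n ⊕ Fin n) (Fin n ⊕ Fin n) F).charpoly.coeff 0 = 1 := fun y => by
            have := det_one y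
            rwa [Matrix.det_eq_sign_charpoly_coeff, Fintype.card_sum, Fintype.card_fin, Even.neg_one_pow ⟨n, rfl⟩, one_mul] at this
          rw [e, e]
        · exact hgc v ⟨k, by omega⟩
      ext k
      rcases Nat.lt_or_ge (2 * n) k with hk | hk
      · rw [Polynomial.coeff_eq_zero_of_natDegree_lt, Polynomial.coeff_eq_zero_of_natDegree_lt] <;>
          (rw [Matrix.charpoly_natDegree_eq_dim, Fintype.card_sum, Fintype.card_fin]; omega)
      · rcases Nat.lt_or_ge n k with h | h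
        · rw [← coeff_symm _ k hk, ← coeff_symm x k hk]; exact low _ (by omega)
        · exact low k h
  rw [← Nat.card_eq_of_bijective θ hθ, Nat.card_fun, Nat.card_fin, Nat.card_eq_fintype_card, hq]

end Cfsg.Agent.S2385
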