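import Cfsg.Statements.S2588
import Cfsg.Agent.Lib.LinAlg.HermitianGU

set_option autoImplicit false
open Cfsg

namespace Cfsg.Agent.S2588

/-- An invertible matrix A over the field with q² elements is conjugate in GL_n(q²) to an element of the general unitary group GU_n(q) (isometries of the Hermitian form Σ u_i v_i^q) if and only if A is similar to the inverse transpose of its entrywise q-th power (A ~ A^(−qT), the image of A under the map sending a matrix to the inverse transpose of its entrywise q-th power — inverse transpose composed with the field automorphism — whose fixed points form GU_n(q)). -/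
theorem result {K : Type*} [Field K] [Fintype K] {q n : ℕ} (hK : Fintype.card K = q ^ 2) (A : GL (Fin n) K) : (∃ B : ↥(Cfsg.GU n K q), IsConj A (B : GL (Fin n) K)) ↔ IsConj (A : Matrix (Fin n) (Fin n) K) (((A : Matrix (Fin n) (Fin n) K).map (fun x : K => x ^ q)).transpose)⁻¹ := by
  obtain ⟨σ, hne, hσ, hinv⟩ := Cfsg.Lib.Classical.exists_frobSq hK
  have hst : ((A : Matrix (Fin n) (Fin n) K).map (fun x : K => x ^ q)).transpose
      = Cfsg.Lib.HermNorm.st σ.toRingHom (A : Matrix (Fin n) (Fin n) K) := by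
    ext i j
    simp [Cfsg.Lib.HermNorm.st, hσ]
  rw [hst]
  have hd : IsUnit (Cfsg.Lib.HermNorm.st σ.toRingHom (A : Matrix (Fin n) (Fin n) K)).det :=
    (Matrix.isUnit_iff_isUnit_det _).1 Cfsg.Lib.HermNorm.st_inv
  constructor
  · rintro ⟨B, hB⟩
    obtain ⟨c, hc⟩ := isConj_iff.1 hB
    have hBu := (Cfsg.Lib.HermNorm.gu_iff hσ).1 B.2
    have hcA : (c : Matrix (Fin n) (Fin n) K) * A = ((B : GL (Fin n) K) : Matrix (Fin n) (Fin n) K) * c := by
      show ((c * A : GL (Fin n) K) : Matrix (Fin n) (Fin n) K) = (((B : GL (Fin n) K) * c : GL (Fin n) K) : Matrix (Fin n) (Fin n) K)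
      rw [← hc, inv_mul_cancel_right]
    refine ⟨((Cfsg.Lib.HermNorm.st_inv (σ := σ) (X := c)).mul c.isUnit).unit, ?_⟩
    show Cfsg.Lib.HermNorm.st σ.toRingHom (c : Matrix (Fin n) (Fin n) K) * c * A = _ * (Cfsg.Lib.HermNorm.st σ.toRingHom (c : Matrix (Fin n) (Fin n) K) * c)
    have e : Cfsg.Lib.HermNorm.st σ.toRingHom (A : Matrix (Fin n) (Fin n) K)
        * (Cfsg.Lib.HermNorm.st σ.toRingHom (c : Matrix (Fin n) (Fin n) K) * c * A)
        = Cfsg.Lib.HermNorm.st σ.toRingHom (c : Matrix (Fin n) (Fin n) K) * c := by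
      rw [mul_assoc _ (c : Matrix (Fin n) (Fin n) K), hcA, ← mul_assoc, ← Cfsg.Lib.HermNorm.st_mul, hcA,
        Cfsg.Lib.HermNorm.st_mul, mul_assoc, ← mul_assoc _ ((B : GL (Fin n) K) : Matrix (Fin n) (Fin n) K), hBu, one_mul]
    conv_rhs => rw [← e, ← mul_assoc, Matrix.nonsing_inv_mul _ hd, one_mul]
  · rintro ⟨u, hu⟩
    have hu' : (u : Matrix (Fin n) (Fin n) K) * A
        = (Cfsg.Lib.HermNorm.st σ.toRingHom (A : Matrix (Fin n) (Fin n) K))⁻¹ * u := hu
    have hM : Cfsg.Lib.HermNorm.st σ.toRingHom (A : Matrix (Fin n) (Fin n) K) * (u : Matrix (Fin n) (Fin n) K) * A = u := by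
      rw [mul_assoc, hu', ← mul_assoc, Matrix.mul_nonsing_inv _ hd, one_mul]
    obtain ⟨H, hH, hHs, hHA⟩ := Cfsg.Lib.HermNorm.exists_hermitian (σ := σ.toRingHom) hinv
      (Cfsg.Lib.HermNorm.ne_id hne) _ _ u.isUnit hM
    obtain ⟨P, hP, -, hPH⟩ := Cfsg.Lib.HermNorm.exists_norm (σ := σ.toRingHom) hinv
      (Cfsg.Lib.HermNorm.ne_id hne) 1 H hH hHs (by simp)
    refine ⟨⟨hP.unit * A * hP.unit⁻¹, (Cfsg.Lib.HermNorm.gu_iff hσ).2 ?_⟩, isConj_iff.2 ⟨hP.unit, rfl⟩⟩
    show Cfsg.Lib.HermNorm.st σ.toRingHom (P * (A : Matrix (Fin n) (Fin n) K) * ((hP.unit⁻¹ : GL (Fin n) K) : Matrix (Fin n) (Fin n) K))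
      * (P * (A : Matrix (Fin n) (Fin n) K) * ((hP.unit⁻¹ : GL (Fin n) K) : Matrix (Fin n) (Fin n) K)) = 1
    rw [Cfsg.Lib.HermNorm.st_mul, Cfsg.Lib.HermNorm.st_mul]
    simp only [mul_assoc]
    rw [← mul_assoc (Cfsg.Lib.HermNorm.st σ.toRingHom P), hPH, ← mul_assoc H, ← mul_assoc _ (H * _), ← mul_assoc _ H, hHA,
      ← hPH, mul_assoc, IsUnit.mul_val_inv, mul_one, ← Cfsg.Lib.HermNorm.st_mul, IsUnit.mul_val_inv, Cfsg.Lib.HermNorm.st_one]

end Cfsg.Agent.S2588
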