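import Cfsg.Statements.S2390
import Cfsg.Agent.Lib.LinAlg.HermitianGU
import Cfsg.Agent.Lib.LinAlg.SemisimpleClasses
import Cfsg.Agent.S2587
import Cfsg.Agent.S2588

set_option autoImplicit false
open Cfsg

namespace Cfsg.Agent.S2390

open Matrix Polynomial Cfsg.Lib.HermNorm Cfsg.Agent.LinAlg.SSClass

set_option maxHeartbeats 800000

variable {F : Type*} [Field F] [Fintype F] {q : ℕ}

theorem st_pow {σ : F →+* F} {n : ℕ} (X : Matrix (Fin n) (Fin n) F) (j : ℕ) : st σ (X ^ j) = st σ X ^ j := by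
  induction j with
  | zero => rw [pow_zero, pow_zero, st_one]
  | succ j ih => rw [pow_succ, pow_succ', st_mul, ih]

theorem st_zero {σ : F →+* F} {n : ℕ} : st σ (0 : Matrix (Fin n) (Fin n) F) = 0 := by
  ext i j; simp [st]

theorem st_aeval {σ : F →+* F} {n : ℕ} (X : Matrix (Fin n) (Fin n) F) (P : F[X]) :
    aeval (st σ X) (P.map σ) = st σ (aeval X P) := by
  induction P using Polynomial.induction_on' with
  | add a b ha hb => simp only [Polynomial.map_add, map_add, ha, hb, st_add]
  | monomial k a =>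
    simp [aeval_monomial, Algebra.algebraMap_eq_smul_one, smul_mul_assoc, st_smul, st_pow]

/-- the substitution sending the polynomials killing `X` to those killing its dual -/
noncomputable def tw (σ : F →+* F) (N : ℕ) (P : F[X]) : F[X] := (P.map σ).comp (X ^ (N - 1))

theorem aeval_dual {σ : F →+* F} (hinv : ∀ a, σ (σ a) = a) {n N : ℕ} (Y : Matrix (Fin n) (Fin n) F) (P : F[X]) :
    aeval (st σ (Y ^ (N - 1))) P = st σ (aeval Y (tw σ N P)) := by
  rw [tw, aeval_comp, aeval_X_pow, ← st_aeval, Polynomial.map_map, RingHom.ext (f := σ.comp σ) (g := RingHom.id F) hinv,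
    Polynomial.map_id]

/-- The dual of an element of finite order. -/
theorem dual_mul {σ : F →+* F} {n N : ℕ} (hN : 0 < N) {Y : Matrix (Fin n) (Fin n) F} (hY : Y ^ N = 1) :
    st σ (Y ^ (N - 1)) * st σ Y = 1 := by
  rw [← st_mul, ← pow_succ', Nat.sub_add_cancel hN, hY, st_one]

theorem reindex_st {σ : F →+* F} {k l n : ℕ} (e : Fin k ⊕ Fin l ≃ Fin n) (X : Matrix (Fin k) (Fin k) F)
    (Y : Matrix (Fin l) (Fin l) F) :
    st σ (reindexAlgEquiv F F e (fromBlocks X 0 0 Y)) = reindexAlgEquiv F F e (fromBlocks (st σ X) 0 0 (st σ Y)) := by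
  ext i j
  simp only [st, coe_reindexAlgEquiv, reindex_apply, submatrix_apply, transpose_apply, Matrix.map_apply]
  rcases e.symm i with a | a <;> rcases e.symm j with b | b <;> simp

theorem charpoly_block {k l n : ℕ} (e : Fin k ⊕ Fin l ≃ Fin n) (X : Matrix (Fin k) (Fin k) F)
    (Y : Matrix (Fin l) (Fin l) F) :
    (reindexAlgEquiv F F e (fromBlocks X 0 0 Y)).charpoly = X.charpoly * Y.charpoly := by
  rw [coe_reindexAlgEquiv, charpoly_reindex, charpoly_fromBlocks_zero₁₂]

theorem block_mul {k l n : ℕ} (e : Fin k ⊕ Fin l ≃ Fin n) (X X' : Matrix (Fin k) (Fin k) F)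
    (Y Y' : Matrix (Fin l) (Fin l) F) :
    reindexAlgEquiv F F e (fromBlocks X 0 0 Y) * reindexAlgEquiv F F e (fromBlocks X' 0 0 Y') =
      reindexAlgEquiv F F e (fromBlocks (X * X') 0 0 (Y * Y')) := by
  rw [← map_mul, fromBlocks_multiply]; simp

theorem block_pow {k l n : ℕ} (e : Fin k ⊕ Fin l ≃ Fin n) (X : Matrix (Fin k) (Fin k) F)
    (Y : Matrix (Fin l) (Fin l) F) (j : ℕ) :
    reindexAlgEquiv F F e (fromBlocks X 0 0 Y) ^ j = reindexAlgEquiv F F e (fromBlocks (X ^ j) 0 0 (Y ^ j)) := by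
  induction j with
  | zero => simp only [pow_zero, fromBlocks_one, map_one]
  | succ j ih => rw [pow_succ, ih, block_mul, pow_succ, pow_succ]

theorem exists_poly_det {k : ℕ} (hk : 0 < k) (X : Matrix (Fin k) (Fin k) F) (hf : Squarefree X.charpoly) (c : F) :
    ∃ P : F[X], (aeval X P).det = c := by
  classical
  set x : Module.End F (Fin k → F) := Matrix.toLinAlgEquiv' X with hx
  have hcp : x.charpoly = X.charpoly := Matrix.charpoly_toLin' X
  have hkill : aeval x X.charpoly = 0 := by
    rw [← hcp]; exact LinearMap.aeval_self_charpoly x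
  have hnu : ¬ IsUnit X.charpoly := fun h => by
    have := natDegree_eq_zero_of_isUnit h
    rw [X.charpoly_natDegree_eq_dim, Fintype.card_fin] at this
    omega
  obtain ⟨g, hgm, hgi, hgd⟩ := Polynomial.exists_monic_irreducible_factor X.charpoly hnu
  obtain ⟨v, hv0, hv⟩ := exists_vec_of_dvd_charpoly (x := x) hgi (hcp.symm ▸ hgd)
  obtain ⟨r, y, e, hy, hxe⟩ := exists_split (Module.End.isSemisimple_of_squarefree_aeval_eq_zero hf hkill) hgm hgi hv0 hv
  haveI : Fact (Irreducible g) := ⟨hgi⟩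
  haveI : Module.Finite F (AdjoinRoot g) := (AdjoinRoot.powerBasis hgm.ne_zero).finite
  haveI : Finite (AdjoinRoot g) := Module.finite_of_finite F
  have hcg : (LinearMap.mulLeft F (AdjoinRoot.root g)).charpoly = g := by
    have h := charpoly_leftMulMatrix (AdjoinRoot.powerBasis hgm.ne_zero)
    rw [AdjoinRoot.minpoly_powerBasis_gen_of_monic hgm, AdjoinRoot.powerBasis_gen] at h
    rw [← LinearMap.charpoly_toMatrix _ (AdjoinRoot.powerBasis hgm.ne_zero).basis]
    exact h
  have hprod : g * y.charpoly = X.charpoly := by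
    rw [← hcp, hxe, LinearEquiv.charpoly_conj, LinearMap.charpoly_prodMap, hcg]
  have hcop : IsCoprime g y.charpoly := hgi.coprime_iff_not_dvd.2 fun hd => hgi.not_isUnit (hf g (by
    rw [← hprod]; exact mul_dvd_mul_left g hd))
  obtain ⟨u, w, huw⟩ := hcop
  obtain ⟨α, hα⟩ := FiniteField.norm_surjective F (AdjoinRoot g) c
  obtain ⟨R, hR⟩ := AdjoinRoot.mk_surjective (g := g) α
  let P : F[X] := 1 + w * y.charpoly * (R - 1)
  refine ⟨P, ?_⟩
  have hy0 : aeval y P = 1 := by simp [P, LinearMap.aeval_self_charpoly y]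
  have hroot : aeval (AdjoinRoot.root g) P = α := by
    have hg0 : aeval (AdjoinRoot.root g) g = 0 := by rw [AdjoinRoot.aeval_eq, AdjoinRoot.mk_self]
    have h1 : aeval (AdjoinRoot.root g) (w * y.charpoly) = 1 := by
      have := congrArg (aeval (AdjoinRoot.root g)) huw
      rwa [map_add, map_mul, hg0, mul_zero, zero_add, map_one] at this
    simp only [P, map_add, map_one, map_mul, map_sub] at h1 ⊢
    rw [h1, AdjoinRoot.aeval_eq, hR]; ring
  have hP : aeval x P = e.conjAlgEquiv F ((LinearMap.prodMapAlgHom F (AdjoinRoot g) r)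
      (Algebra.lmul F (AdjoinRoot g) α, 1)) := by
    have hx' : x = e.conjAlgEquiv F ((LinearMap.prodMapAlgHom F (AdjoinRoot g) r)
        (Algebra.lmul F (AdjoinRoot g) (AdjoinRoot.root g), y)) := hxe
    rw [hx', aeval_algHom_apply, aeval_algHom_apply]
    congr 2
    rw [Polynomial.aeval_prod, AlgHom.prod_apply, aeval_algHom_apply, hroot, hy0]
  have hd : (aeval X P).det = LinearMap.det (aeval x P) := by
    rw [hx, aeval_algHom_apply]
    exact (LinearMap.det_toLin' _).symm
  rw [hd, hP]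
  show LinearMap.det (e.conj (LinearMap.prodMap (Algebra.lmul F (AdjoinRoot g) α) 1)) = c
  rw [LinearEquiv.conj_apply, LinearMap.comp_assoc, LinearMap.det_conj, LinearMap.det_prodMap, map_one, mul_one,
    ← Algebra.norm_apply, hα]

theorem exists_det_centralizer {σ : F ≃+* F} (hF : Fintype.card F = q ^ 2) (hσ : ∀ a, σ a = a ^ q)
    (hinv : ∀ a, σ (σ a) = a) (p : ℕ) [Fact p.Prime] [CharP F p] {n : ℕ} (hn : 0 < n) {g : GL (Fin n) F}
    (hg : g ∈ Cfsg.GU n F q) (hgp : (orderOf g).Coprime p) (a : F) (ha : σ a * a = 1) :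
    ∃ U ∈ Cfsg.GU n F q, U * g = g * U ∧ (U : Matrix (Fin n) (Fin n) F).det = a := by
  classical
  set G : Matrix (Fin n) (Fin n) F := g.val
  set N := orderOf g
  have hN : 0 < N := orderOf_pos g
  have hGN : G ^ N = 1 := by rw [← Units.val_pow_eq_pow_val, pow_orderOf_eq_one, Units.val_one]
  have hGu := (gu_iff hσ).1 hg
  have hGdual : st σ.toRingHom (G ^ (N - 1)) = G := by
    calc st σ.toRingHom (G ^ (N - 1)) = st σ.toRingHom (G ^ (N - 1)) * (st σ.toRingHom G * G) := by rw [hGu, mul_one]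
      _ = G := by rw [← mul_assoc, dual_mul hN hGN, one_mul]
  -- the squarefree part
  set f0 := minpoly F G with hf0
  have hint : IsIntegral F G := IsIntegral.of_finite F G
  have hsep : (X ^ N - 1 : F[X]).Separable := X_pow_sub_one_separable_iff.mpr (by
    rw [Ne, CharP.cast_eq_zero_iff F p]
    exact fun hd => (Fact.out : p.Prime).ne_one (Nat.eq_one_of_dvd_coprimes hgp hd dvd_rfl))
  have hsq : Squarefree f0 := Squarefree.squarefree_of_dvd (minpoly.dvd F G (by simp [hGN])) hsep.squarefree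
  have hf0m : f0.Monic := minpoly.monic hint
  obtain ⟨f2, hf2⟩ : f0 ∣ G.charpoly := Matrix.minpoly_dvd_charpoly G
  have hf2m : f2.Monic := hf0m.of_mul_monic_left (hf2 ▸ G.charpoly_monic)
  obtain ⟨k, hk_⟩ : ∃ k, f0.natDegree = k := ⟨_, rfl⟩
  obtain ⟨l, hl_⟩ : ∃ l, f2.natDegree = l := ⟨_, rfl⟩
  have hkl : k + l = n := by rw [← hk_, ← hl_, ← hf0m.natDegree_mul hf2m, ← hf2, G.charpoly_natDegree_eq_dim, Fintype.card_fin]
  have hc0 := coeff_zero_ne g
  rw [show (g : Matrix (Fin n) (Fin n) F).charpoly = f0 * f2 from hf2, mul_coeff_zero] at hc0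
  have hk : 0 < k := by
    haveI : Nonempty (Fin n) := ⟨⟨0, hn⟩⟩
    rw [← hk_]; exact minpoly.natDegree_pos hint
  obtain ⟨g1, hg1p, hg1c⟩ := exists_gl p hf0m hk_ (left_ne_zero_of_mul hc0)
  obtain ⟨g2, hg2p, hg2c⟩ := exists_gl p hf2m hl_ (right_ne_zero_of_mul hc0)
  let e : Fin k ⊕ Fin l ≃ Fin n := finSumFinEquiv.trans (finCongr hkl)
  -- the block sum is similar to `g`
  set N' := orderOf g1 * orderOf g2 * N
  have hN' : 0 < N' := Nat.mul_pos (Nat.mul_pos (orderOf_pos g1) (orderOf_pos g2)) hN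
  have hN'p : N'.Coprime p := (hg1p.mul_left hg2p).mul_left hgp
  have p1 : g1.val ^ N' = 1 := by
    rw [← Units.val_pow_eq_pow_val, orderOf_dvd_iff_pow_eq_one.1 (Dvd.intro _ (mul_assoc _ _ _).symm), Units.val_one]
  have p2 : g2.val ^ N' = 1 := by
    rw [← Units.val_pow_eq_pow_val, orderOf_dvd_iff_pow_eq_one.1 ((Dvd.intro_left _ rfl).trans (Dvd.intro N rfl)), Units.val_one]
  have pG : G ^ N' = 1 := by
    rw [show N' = N * (orderOf g1 * orderOf g2) from mul_comm _ _, pow_mul, hGN, one_pow]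
  have mkGL : ∀ {j : ℕ} (M : Matrix (Fin j) (Fin j) F), M ^ N' = 1 → ∃ u : GL (Fin j) F, u.val = M ∧ (orderOf u).Coprime p :=
    fun M hM => ⟨Units.ofPowEqOne M N' hM hN'.ne', rfl,
      hN'p.coprime_dvd_left (orderOf_dvd_of_pow_eq_one (Units.pow_ofPowEqOne hM hN'.ne'))⟩
  have hGdual' : st σ.toRingHom (G ^ (N' - 1)) = G := by
    calc st σ.toRingHom (G ^ (N' - 1)) = st σ.toRingHom (G ^ (N' - 1)) * (st σ.toRingHom G * G) := by rw [hGu, mul_one]
      _ = G := by rw [← mul_assoc, dual_mul hN' pG, one_mul]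
  -- minimal polynomial of the dual of `g1`
  have hmin1 : minpoly F g1.val = f0 := by
    obtain ⟨f, hf, hxf⟩ := exists_squarefree_killer p hN'p (M := g1.val) p1
    refine (eq_of_monic_of_associated (minpoly.monic (IsIntegral.of_finite F _)) hf0m ?_)
    refine associated_of_dvd_dvd (hg1c ▸ Matrix.minpoly_dvd_charpoly g1.val) ?_
    -- every irreducible factor of the squarefree `f0` divides the minimal polynomial
    refine (UniqueFactorizationMonoid.dvd_iff_normalizedFactors_le_normalizedFactors hf0m.ne_zero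
      (minpoly.ne_zero (IsIntegral.of_finite F _))).2 ?_
    refine Multiset.le_iff_count.2 fun h => ?_
    by_cases hm : h ∈ UniqueFactorizationMonoid.normalizedFactors f0
    · have hc : (UniqueFactorizationMonoid.normalizedFactors f0).count h ≤ 1 :=
        Multiset.nodup_iff_count_le_one.1 ((UniqueFactorizationMonoid.squarefree_iff_nodup_normalizedFactors hf0m.ne_zero).1 hsq) h
      refine hc.trans (Multiset.one_le_count_iff_mem.2 ?_)
      have hi := UniqueFactorizationMonoid.irreducible_of_normalized_factor h hm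
      obtain ⟨v, hv0, hv⟩ := exists_vec_of_dvd_charpoly (x := Matrix.toLinAlgEquiv' g1.val) hi (by
        rw [show (Matrix.toLinAlgEquiv' g1.val : Module.End F (Fin k → F)).charpoly = g1.val.charpoly from
          Matrix.charpoly_toLin' _, hg1c]
        exact UniqueFactorizationMonoid.dvd_of_mem_normalizedFactors hm)
      have hd : h ∣ minpoly F g1.val := by
        by_contra hnd
        obtain ⟨u, w, huw⟩ := hi.coprime_iff_not_dvd.2 hnd
        have := congrArg (fun P => aeval (Matrix.toLinAlgEquiv' g1.val : Module.End F (Fin k → F)) P v) huw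
        have h0 : aeval (Matrix.toLinAlgEquiv' g1.val : Module.End F (Fin k → F)) (minpoly F g1.val) = 0 := by
          rw [aeval_algHom_apply, minpoly.aeval, map_zero]
        simp only [map_add, map_mul, map_one, LinearMap.add_apply, Module.End.mul_apply, Module.End.one_apply, h0, hv,
          LinearMap.zero_apply, map_zero, add_zero, mul_zero] at this
        exact hv0 this.symm
      obtain ⟨h', hh', hassoc⟩ := UniqueFactorizationMonoid.exists_mem_normalizedFactors_of_dvd
        (minpoly.ne_zero (IsIntegral.of_finite F _)) hi hd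
      have hn1 := UniqueFactorizationMonoid.normalize_normalized_factor h hm
      have hn2 := UniqueFactorizationMonoid.normalize_normalized_factor h' hh'
      rwa [← hn1, normalize_eq_normalize_iff_associated.2 hassoc, hn2]
    · rw [Multiset.count_eq_zero_of_notMem hm]; exact Nat.zero_le _
  set h1 := st σ.toRingHom (g1.val ^ (N' - 1))
  set h2 := st σ.toRingHom (g2.val ^ (N' - 1))
  have hm1 : minpoly F h1 = f0 := by
    refine eq_of_monic_of_associated (minpoly.monic (IsIntegral.of_finite F _)) hf0m (associated_of_dvd_dvd ?_ ?_)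
    · refine minpoly.dvd F h1 ?_
      have h : aeval G (tw σ.toRingHom N' f0) = 0 := by
        have := aeval_dual (σ := σ.toRingHom) hinv (N := N') G f0
        rw [hGdual', minpoly.aeval] at this
        have h' := congrArg (st σ.toRingHom) this
        rw [st_st (σ := σ.toRingHom) hinv, st_zero] at h'
        exact h'.symm
      obtain ⟨R, hR⟩ := minpoly.dvd F G h
      rw [aeval_dual (σ := σ.toRingHom) hinv, hR, map_mul, ← hf0, ← hmin1, minpoly.aeval, zero_mul, st_zero]
    · refine minpoly.dvd F G ?_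
      set Q := minpoly F h1
      have h : aeval g1.val (tw σ.toRingHom N' Q) = 0 := by
        have := aeval_dual (σ := σ.toRingHom) hinv (N := N') g1.val Q
        rw [minpoly.aeval] at this
        have h' := congrArg (st σ.toRingHom) this
        rw [st_st (σ := σ.toRingHom) hinv, st_zero] at h'
        exact h'.symm
      obtain ⟨R, hR⟩ := hmin1 ▸ minpoly.dvd F g1.val h
      rw [← hGdual', aeval_dual (σ := σ.toRingHom) hinv, hR, map_mul, hf0, minpoly.aeval, zero_mul, st_zero]
  have hc1 : h1.charpoly = f0 := by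
    refine (Polynomial.eq_of_monic_of_dvd_of_natDegree_le hf0m h1.charpoly_monic (hm1 ▸ Matrix.minpoly_dvd_charpoly h1) ?_)
    rw [h1.charpoly_natDegree_eq_dim, Fintype.card_fin, hk_]
  have hblockpow : reindexAlgEquiv F F e (fromBlocks g1.val 0 0 g2.val) ^ N' = 1 := by
    rw [block_pow, p1, p2, fromBlocks_one, map_one]
  obtain ⟨gb, hgb, hgbp⟩ := mkGL _ hblockpow
  have hsim : IsConj g gb := isConj_of_charpoly_eq p hgp hgbp (by
    rw [hgb, charpoly_block, hg1c, hg2c]; exact hf2)
  have hc2 : h2.charpoly = f2 := by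
    have h : (st σ.toRingHom (reindexAlgEquiv F F e (fromBlocks g1.val 0 0 g2.val) ^ (N' - 1))).charpoly = G.charpoly := by
      obtain ⟨c, hc⟩ := isConj_iff.1 hsim
      have hcj : gb.val ^ (N' - 1) = c.val * G ^ (N' - 1) * c⁻¹.val := by
        rw [← Units.val_pow_eq_pow_val, ← hc, conj_pow]
        simp [G]
      rw [← hgb, hcj, st_mul, st_mul, hGdual', ← mul_assoc]
      have hinvst : st σ.toRingHom c.val * st σ.toRingHom c⁻¹.val = 1 := by rw [← st_mul, Units.inv_mul, st_one]
      rw [Matrix.charpoly_mul_comm, ← mul_assoc, hinvst, one_mul]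
    rw [block_pow, reindex_st, charpoly_block, hc1, hf2] at h
    exact mul_left_cancel₀ hf0m.ne_zero h
  have mkB : ∀ {j : ℕ} (u : GL (Fin j) F) (f : F[X]), u.val ^ N' = 1 → (orderOf u).Coprime p → u.val.charpoly = f →
      (st σ.toRingHom (u.val ^ (N' - 1))).charpoly = f → ∃ B ∈ Cfsg.GU j F q, IsConj u B := by
    intro j u f hu hup huc hhc
    have hhpow : st σ.toRingHom (u.val ^ (N' - 1)) ^ N' = 1 := by
      rw [← st_pow, ← pow_mul, mul_comm, pow_mul, hu, one_pow, st_one]
    obtain ⟨v, hv, hvp⟩ := mkGL _ hhpow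
    obtain ⟨B, hB⟩ := (Cfsg.Agent.S2588.result hF u).2 (by
      have hst : (u.val.map (fun x : F => x ^ q)).transpose = st σ.toRingHom u.val := by
        ext i j; simp [st, hσ]
      rw [hst, Matrix.inv_eq_left_inv (dual_mul hN' hu), ← hv]
      exact (Units.coeHom (Matrix (Fin j) (Fin j) F)).map_isConj (isConj_of_charpoly_eq p hup hvp (by rw [huc, hv, hhc])))
    exact ⟨B, B.2, hB⟩
  obtain ⟨B1, hB1, hB1c⟩ := mkB g1 f0 p1 hg1p hg1c hc1
  obtain ⟨B2, hB2, hB2c⟩ := mkB g2 f2 p2 hg2p hg2c hc2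
  have cpB : ∀ {j : ℕ} (u B : GL (Fin j) F), IsConj u B → B.val.charpoly = u.val.charpoly ∧ orderOf B = orderOf u := by
    intro j u B h
    obtain ⟨c, hc⟩ := isConj_iff.1 h
    subst hc
    refine ⟨?_, orderOf_injective (MulAut.conj c).toMonoidHom (MulAut.conj c).injective u⟩
    rw [Units.val_mul, Units.val_mul, Matrix.coe_units_inv]
    exact Matrix.charpoly_units_conj c _
  obtain ⟨hB1cp, hB1o⟩ := cpB _ _ hB1c
  obtain ⟨hB2cp, hB2o⟩ := cpB _ _ hB2c
  have q1 : B1.val ^ N' = 1 := by
    rw [← Units.val_pow_eq_pow_val, orderOf_dvd_iff_pow_eq_one.1 (hB1o ▸ Dvd.intro _ (mul_assoc _ _ _).symm), Units.val_one]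
  have q2 : B2.val ^ N' = 1 := by
    rw [← Units.val_pow_eq_pow_val,
      orderOf_dvd_iff_pow_eq_one.1 (hB2o ▸ (Dvd.intro_left _ rfl).trans (Dvd.intro N rfl)), Units.val_one]
  obtain ⟨b, hb, hbp⟩ := mkGL (reindexAlgEquiv F F e (fromBlocks B1.val 0 0 B2.val))
    (by rw [block_pow, q1, q2, fromBlocks_one, map_one])
  have hu1 := (gu_iff hσ).1 hB1
  have hu2 := (gu_iff hσ).1 hB2
  have hbm : b ∈ Cfsg.GU n F q := (gu_iff hσ).2 (by
    rw [hb, reindex_st, block_mul, hu1, hu2, fromBlocks_one, map_one])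
  have hgb' : IsConj g b := isConj_of_charpoly_eq p hgp hbp (by
    rw [hb, charpoly_block, hB1cp, hB2cp, hg1c, hg2c]; exact hf2)
  obtain ⟨V, hV⟩ := isConj_iff.1 ((Cfsg.Agent.S2587.result hF ⟨g, hg⟩ ⟨b, hbm⟩).2 hgb')
  -- the unitary element on the squarefree block
  obtain ⟨c, hc0', hc⟩ : ∃ c : F, c ≠ 0 ∧ c = a * σ c := by
    have ha0 : a ≠ 0 := right_ne_zero_of_mul_eq_one ha
    by_cases h : ∃ z : F, z + a * σ z ≠ 0
    · obtain ⟨z, hz⟩ := h
      refine ⟨z + a * σ z, hz, ?_⟩
      rw [map_add, map_mul, hinv]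
      linear_combination -z * ha
    · push Not at h
      have h1 : a = -1 := by have := h 1; rw [map_one, mul_one] at this; linear_combination this
      have h2 : ∀ z, σ z = z := fun z => by have := h z; rw [h1] at this; linear_combination -this
      refine ⟨1, one_ne_zero, ?_⟩
      have h3 : q < Fintype.card F := by
        have := Fintype.one_lt_card (α := F)
        rw [hF] at this ⊢
        nlinarith
      exfalso
      obtain ⟨z, hz⟩ := IsCyclic.exists_monoid_generator (α := Fˣ)
      have h5 : z ^ (q - 1) = 1 := Units.ext (by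
        apply mul_right_cancel₀ z.ne_zero
        rw [Units.val_pow_eq_pow_val, ← pow_succ, Nat.sub_add_cancel (Nat.one_le_iff_ne_zero.2 fun hq => by simp [hF, hq] at h3),
          ← hσ, h2, Units.val_one, one_mul])
      have h6 : orderOf z = Fintype.card F - 1 := by
        rw [← Fintype.card_units, ← Nat.card_eq_fintype_card]; exact orderOf_eq_card_of_forall_mem_powers hz
      have h8 : Fintype.card F - 1 ∣ q - 1 := by rw [← h6]; exact orderOf_dvd_of_pow_eq_one h5
      have hq2 : 2 ≤ q := by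
        by_contra hq
        have := Fintype.one_lt_card (α := F); rw [hF] at this
        interval_cases q <;> simp at this
      have h7 := Nat.le_of_dvd (by omega) h8
      omega
  obtain ⟨P, hP⟩ := exists_poly_det hk B1.val (by rw [hB1cp, hg1c]; exact hsq) c
  set W := aeval B1.val P with hW
  have hWc : Commute W B1.val := by
    have h := (Commute.all P Polynomial.X).map (aeval B1.val)
    rwa [aeval_X] at h
  have hsB : st σ.toRingHom B1.val = B1.val ^ (N' - 1) := by
    calc st σ.toRingHom B1.val = st σ.toRingHom B1.val * (B1.val * B1.val ^ (N' - 1)) := by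
          rw [← pow_succ', Nat.sub_add_cancel hN', q1, mul_one]
      _ = B1.val ^ (N' - 1) := by rw [← mul_assoc, hu1, one_mul]
  have hsW : st σ.toRingHom W = aeval B1.val ((P.map σ.toRingHom).comp (Polynomial.X ^ (N' - 1))) := by
    rw [hW, ← st_aeval, hsB, aeval_comp, aeval_X_pow]
  have hWW : Commute W (st σ.toRingHom W) := by
    rw [hW] at hsW ⊢
    rw [hsW]
    exact (Commute.all _ _).map (aeval B1.val)
  have hWs : Commute (st σ.toRingHom W) B1.val := by
    rw [hsW]
    have h := (Commute.all ((P.map σ.toRingHom).comp (Polynomial.X ^ (N' - 1))) Polynomial.X).map (aeval B1.val)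
    rwa [aeval_X] at h
  have hdetW : (st σ.toRingHom W).det = σ c := by
    rw [st, det_transpose, ← RingHom.mapMatrix_apply, ← RingHom.map_det, hP]; rfl
  obtain ⟨s, hs⟩ := (Matrix.isUnit_iff_isUnit_det (st σ.toRingHom W)).2 (by
    rw [hdetW]; exact isUnit_iff_ne_zero.2 ((map_ne_zero σ).2 hc0'))
  set U1 := W * s⁻¹.val with hU1
  have hU1u : st σ.toRingHom U1 * U1 = 1 := by
    have hst : st σ.toRingHom s.val = W := by rw [hs, st_st (σ := σ.toRingHom) hinv]
    have h1 : st σ.toRingHom s⁻¹.val * W = 1 := by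
      have := congrArg (st σ.toRingHom) (Units.mul_inv s)
      rwa [st_mul, hst, st_one] at this
    have h2 : Commute W s.val := hs.symm ▸ hWW
    rw [hU1, st_mul, mul_assoc, ← mul_assoc (st σ.toRingHom W), ← hs, ← h2.eq, mul_assoc W, Units.mul_inv, mul_one, h1]
  have hU1d : U1.det = a := by
    have : s⁻¹.val.det * (st σ.toRingHom W).det = 1 := by rw [← hs, ← det_mul, Units.inv_mul, det_one]
    rw [hdetW] at this
    rw [hU1, det_mul, hP]
    linear_combination s⁻¹.val.det * hc + a * this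
  have hU1c : Commute U1 B1.val := hWc.mul_left ((hs.symm ▸ hWs : Commute s.val B1.val).units_inv_left)
  set Ub := reindexAlgEquiv F F e (fromBlocks U1 0 0 1) with hUb
  have hUbu : st σ.toRingHom Ub * Ub = 1 := by
    rw [hUb, reindex_st, block_mul, hU1u, st_one, one_mul, fromBlocks_one, map_one]
  let Ug : GL (Fin n) F := ⟨Ub, _, mul_eq_one_comm.1 hUbu, hUbu⟩
  have hUgb : Ug * b = b * Ug := Units.ext (by
    show Ub * b.val = b.val * Ub
    rw [hb, hUb, block_mul, block_mul, hU1c.eq, one_mul, mul_one])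
  have hV' : (V : GL (Fin n) F) * g * (V : GL (Fin n) F)⁻¹ = b := congrArg Subtype.val hV
  refine ⟨(V : GL (Fin n) F)⁻¹ * Ug * V, mul_mem (mul_mem (inv_mem V.2) ((gu_iff hσ).2 hUbu)) V.2, ?_, ?_⟩
  · calc (V : GL (Fin n) F)⁻¹ * Ug * V * g = (V : GL (Fin n) F)⁻¹ * (Ug * b) * V := by rw [← hV']; group
      _ = g * ((V : GL (Fin n) F)⁻¹ * Ug * V) := by rw [hUgb, ← hV']; group
  · simp only [Units.val_mul]
    rw [det_units_conj' (V : GL (Fin n) F)]
    show Ub.det = a
    rw [hUb, det_reindexAlgEquiv, det_fromBlocks_zero₁₂, det_one, mul_one, hU1d]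


/-- In the special unitary group `SU_n(q)` (inside `SL_n` over the field with `q²` elements), `q` a power of the prime `p`, two elements of order prime to `p` with the same characteristic polynomial are conjugate in `SU_n(q)`. -/
theorem result {F : Type*} [Field F] [Fintype F] {q : ℕ} (hF : Fintype.card F = q ^ 2) (p : ℕ) [Fact p.Prime] [CharP F p] (n : ℕ)
    (g h : ↥(Cfsg.SU n F q)) (hg : (orderOf g).Coprime p) (hh : (orderOf h).Coprime p)
    (hc : ((g : Matrix.SpecialLinearGroup (Fin n) F) : Matrix (Fin n) (Fin n) F).charpoly =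
      ((h : Matrix.SpecialLinearGroup (Fin n) F) : Matrix (Fin n) (Fin n) F).charpoly) : IsConj g h := by
  classical
  rcases Nat.eq_zero_or_pos n with rfl | hn
  · have : g = h := Subtype.ext (Subtype.ext (by ext i; exact i.elim0))
    rw [this]
  obtain ⟨σ, -, hσ, hinv⟩ := Cfsg.Lib.Classical.exists_frobSq hF
  let gG : GL (Fin n) F := Matrix.SpecialLinearGroup.toGL (g : Matrix.SpecialLinearGroup (Fin n) F)
  let hG : GL (Fin n) F := Matrix.SpecialLinearGroup.toGL (h : Matrix.SpecialLinearGroup (Fin n) F)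
  have inj : Function.Injective (Matrix.SpecialLinearGroup.toGL (n := Fin n) (R := F)) := fun a b e =>
    Subtype.ext (congrArg Units.val e)
  have og : orderOf gG = orderOf g := (orderOf_injective _ inj _).trans (Subgroup.orderOf_coe g)
  have oh : orderOf hG = orderOf h := (orderOf_injective _ inj _).trans (Subgroup.orderOf_coe h)
  obtain ⟨U, hU⟩ := isConj_iff.1 ((Cfsg.Agent.S2587.result hF ⟨gG, g.2⟩ ⟨hG, h.2⟩).2
    (Cfsg.Agent.LinAlg.SSClass.isConj_of_charpoly_eq p (og ▸ hg) (oh ▸ hh) hc))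
  have hU' : (U : GL (Fin n) F) * gG * (U : GL (Fin n) F)⁻¹ = hG := congrArg Subtype.val hU
  have hUn : σ ((U : GL (Fin n) F) : Matrix (Fin n) (Fin n) F).det * ((U : GL (Fin n) F) : Matrix (Fin n) (Fin n) F).det = 1 := by
    have h := congrArg Matrix.det ((Cfsg.Lib.HermNorm.gu_iff hσ).1 U.2)
    rw [Matrix.det_mul, Matrix.det_one, Cfsg.Lib.HermNorm.st, Matrix.det_transpose, ← RingHom.mapMatrix_apply,
      ← RingHom.map_det] at h
    exact h
  set δ := ((U : GL (Fin n) F) : Matrix (Fin n) (Fin n) F).det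
  obtain ⟨C, hC, hCg, hCd⟩ := exists_det_centralizer hF hσ hinv p hn (g := gG) g.2 (og ▸ hg) δ⁻¹
    (by rw [map_inv₀, ← mul_inv, hUn, inv_one])
  have hd : (((U : GL (Fin n) F) * C : GL (Fin n) F) : Matrix (Fin n) (Fin n) F).det = 1 := by
    rw [Units.val_mul, Matrix.det_mul, hCd]
    exact mul_inv_cancel₀ (right_ne_zero_of_mul_eq_one hUn)
  refine isConj_iff.2 ⟨⟨⟨_, hd⟩, mul_mem U.2 hC⟩, mul_inv_eq_iff_eq_mul.2 (Subtype.ext (Subtype.ext ?_))⟩
  exact congrArg Units.val (show (U : GL (Fin n) F) * C * gG = hG * ((U : GL (Fin n) F) * C) by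
    rw [mul_assoc, hCg, ← mul_assoc, ← mul_assoc, ← hU', inv_mul_cancel_right])

end Cfsg.Agent.S2390
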