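import Cfsg.Statements.S2386
import Cfsg.Agent.Lib.LinAlg.HermitianGU
import Cfsg.Agent.Lib.LinAlg.SemisimpleClasses
import Cfsg.Agent.S2588
import Cfsg.Agent.S2390

set_option autoImplicit false
open Cfsg

namespace Cfsg.Agent.S2386

open Matrix Polynomial Cfsg.Lib.HermNorm

set_option maxHeartbeats 800000

variable {F : Type*} [Field F] [Fintype F] {q : ℕ}

theorem card_fixed {σ : F ≃+* F} (hF : Fintype.card F = q ^ 2) (hinv : ∀ a, σ (σ a) = a)
    (hne : ∃ a, σ a ≠ a) (m : ℕ) (c : F) (hc : σ c = c) (hcc : c * c = 1) :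
    Nat.card {v : Fin m → F // ∀ i, v i = c * σ (v i.rev)} = q ^ m := by
  classical
  obtain ⟨ε, hε⟩ := hne
  have hd : ε - σ ε ≠ 0 := sub_ne_zero.2 (Ne.symm hε)
  let T := {v : Fin m → F // ∀ i, v i = c * σ (v i.rev)}
  let φ : T × T → (Fin m → F) := fun z i => z.1.1 i + ε * z.2.1 i
  have hφ : Function.Bijective φ := by
    constructor
    · rintro ⟨x, y⟩ ⟨x', y'⟩ h
      have key : ∀ i, x.1 i = x'.1 i ∧ y.1 i = y'.1 i := fun i => by
        have h1 : x.1 i + ε * y.1 i = x'.1 i + ε * y'.1 i := congrFun h i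
        have h2 := congrArg (fun a => c * σ a) (congrFun h i.rev)
        simp only [φ, map_add, map_mul] at h2
        rw [mul_add, mul_add, ← x.2, ← x'.2] at h2
        have h3 : x.1 i + σ ε * y.1 i = x'.1 i + σ ε * y'.1 i := by
          linear_combination h2 + σ ε * (y.2 i) - σ ε * (y'.2 i)
        have h4 : y.1 i = y'.1 i := mul_left_cancel₀ hd (by linear_combination h1 - h3)
        exact ⟨by linear_combination h1 - ε * h4, h4⟩
      exact Prod.ext (Subtype.ext (funext fun i => (key i).1)) (Subtype.ext (funext fun i => (key i).2))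
    · intro v
      let y : Fin m → F := fun i => (v i - c * σ (v i.rev)) / (ε - σ ε)
      have hy : ∀ i, y i = c * σ (y i.rev) := fun i => by
        have hd' : σ ε - ε ≠ 0 := sub_ne_zero.2 hε
        simp only [y, Fin.rev_rev, map_div₀, map_sub, map_mul, hinv, hc]
        field_simp
        linear_combination (v i * (ε - σ ε)) * hcc
      refine ⟨(⟨fun i => v i - ε * y i, fun i => ?_⟩, ⟨y, hy⟩), funext fun i => by simp [φ]⟩
      have e1 : y i * (ε - σ ε) = v i - c * σ (v i.rev) := div_mul_cancel₀ _ hd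
      simp only [map_sub, map_mul]
      linear_combination -e1 - σ ε * hy i
  have h := Nat.card_eq_of_bijective φ hφ
  rw [Nat.card_prod, Nat.card_fun, Nat.card_fin, Nat.card_eq_fintype_card (α := F), hF, ← pow_mul, mul_comm 2 m, pow_mul, sq] at h
  exact Nat.mul_self_inj.1 h

theorem charpoly_inv_coeff {n : ℕ} (A : GL (Fin n) F) (hd : (A : Matrix (Fin n) (Fin n) F).det = 1) (k : ℕ) :
    ((A⁻¹ : GL (Fin n) F) : Matrix (Fin n) (Fin n) F).charpoly.coeff k =
      (-1) ^ n * (A : Matrix (Fin n) (Fin n) F).charpoly.coeff (Polynomial.revAt n k) := by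
  rw [Matrix.coe_units_inv, Matrix.charpoly_inv _ (Units.isUnit A), hd, Ring.inverse_one, map_one, mul_one,
    Fintype.card_fin, ← Matrix.reverse_charpoly, show ((-1 : F[X]) ^ n) = C ((-1 : F) ^ n) by simp,
    coeff_C_mul, coeff_reverse, Matrix.charpoly_natDegree_eq_dim, Fintype.card_fin]

theorem charpoly_st {σ : F →+* F} {n : ℕ} (X : Matrix (Fin n) (Fin n) F) :
    (st σ X).charpoly = X.charpoly.map σ := by
  rw [st, Matrix.charpoly_transpose, Matrix.charpoly_map]


/-- In the special unitary group `SU_n(q)` (matrices of determinant one over the field with `q²` elements preserving the standard Hermitian form), `q` a power of the prime `p`, the number of conjugacy classes of elements of order prime to `p` is `q^(n-1)`. -/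
theorem result {F : Type*} [Field F] [Fintype F] {q : ℕ} (hF : Fintype.card F = q ^ 2) (p : ℕ) [Fact p.Prime] [CharP F p] (n : ℕ) (hn : 1 ≤ n) :
    Nat.card {c : ConjClasses ↥(Cfsg.SU n F q) // ∃ g : ↥(Cfsg.SU n F q), ConjClasses.mk g = c ∧ (orderOf g).Coprime p} = q ^ (n - 1) := by
  classical
  obtain ⟨m, rfl⟩ : ∃ m, n = m + 1 := ⟨n - 1, by omega⟩
  obtain ⟨σ, hne, hσ, hinv⟩ := Cfsg.Lib.Classical.exists_frobSq hF
  set c : F := (-1) ^ (m + 1) with hcdef
  have hc : σ c = c := by simp [hcdef]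
  have hcc : c * c = 1 := by rw [hcdef, ← mul_pow, neg_mul_neg, one_mul, one_pow]
  let T := {v : Fin m → F // ∀ i, v i = c * σ (v i.rev)}
  have hrev : ∀ i : Fin m, Polynomial.revAt (m + 1) (i.1 + 1) = i.rev.1 + 1 := fun i => by
    rw [Polynomial.revAt_le (by omega), Fin.val_rev]; omega
  have hex : ∀ v : T, ∃ g : ↥(Cfsg.SU (m + 1) F q), (orderOf g).Coprime p ∧
      ∀ i : Fin m, ((g : Matrix.SpecialLinearGroup (Fin (m + 1)) F) : Matrix (Fin (m + 1)) (Fin (m + 1)) F).charpoly.coeff (i.1 + 1) = v.1 i := by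
    intro v
    obtain ⟨⟨f, hfm, hfd⟩, hf⟩ := (LinAlg.SSClass.coeffEquiv (F := F) (m + 1)).surjective (Fin.cons c v.1)
    have hfi : ∀ i : Fin (m + 1), f.coeff i = (Fin.cons c v.1 : Fin (m + 1) → F) i := fun i => by
      rw [← hf, LinAlg.SSClass.coeffEquiv_apply]
    have hf0 : f.coeff 0 = c := by simpa using hfi 0
    have hfs : ∀ i : Fin m, f.coeff (i.1 + 1) = v.1 i := fun i => by simpa using hfi i.succ
    obtain ⟨A, hAp, hAc⟩ := LinAlg.SSClass.exists_gl p hfm hfd (by rw [hf0]; exact left_ne_zero_of_mul_eq_one hcc)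
    have hAd : (A : Matrix (Fin (m + 1)) (Fin (m + 1)) F).det = 1 := by
      rw [Matrix.det_eq_sign_charpoly_coeff, Fintype.card_fin, hAc, hf0, ← hcdef, hcc]
    have hinvc : ((A⁻¹ : GL (Fin (m + 1)) F) : Matrix (Fin (m + 1)) (Fin (m + 1)) F).charpoly = f.map σ.toRingHom := by
      ext k
      rw [charpoly_inv_coeff A hAd, hAc, Polynomial.coeff_map, ← hcdef]
      show _ = σ (f.coeff k)
      have htop : f.coeff (m + 1) = 1 := by rw [← hfd]; exact hfm.coeff_natDegree
      rcases Nat.lt_or_ge (m + 1) k with hk | hk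
      · rw [show Polynomial.revAt (m + 1) k = k by rw [← Polynomial.revAtFun_eq, Polynomial.revAtFun, if_neg (not_le.2 hk)],
          Polynomial.coeff_eq_zero_of_natDegree_lt (hfd ▸ hk), mul_zero, map_zero]
      · rcases Nat.eq_zero_or_pos k with rfl | hk0
        · rw [Polynomial.revAt_le (Nat.zero_le _), Nat.sub_zero, htop, hf0, hc, mul_one]
        · rcases hk.eq_or_lt with rfl | hk'
          · rw [Polynomial.revAt_le le_rfl, Nat.sub_self, hf0, htop, map_one, hcc]
          · obtain ⟨i, rfl⟩ : ∃ i : Fin m, k = i.1 + 1 := ⟨⟨k - 1, by omega⟩, by simp; omega⟩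
            rw [hrev, hfs, hfs, v.2 i.rev, Fin.rev_rev, ← mul_assoc, hcc, one_mul]
    set N := orderOf A with hN
    have hN0 : 0 < N := orderOf_pos A
    have hpow : (Cfsg.Lib.HermNorm.st σ.toRingHom ((A⁻¹ : GL (Fin (m + 1)) F) : Matrix (Fin (m + 1)) (Fin (m + 1)) F)) ^ N = 1 := by
      rw [← Cfsg.Agent.S2390.st_pow, ← Units.val_pow_eq_pow_val, inv_pow, hN, pow_orderOf_eq_one, inv_one, Units.val_one,
        Cfsg.Lib.HermNorm.st_one]
    obtain ⟨B, hB⟩ := (Cfsg.Agent.S2588.result hF A).2 (by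
      have hst : ((A : Matrix (Fin (m + 1)) (Fin (m + 1)) F).map (fun x : F => x ^ q)).transpose
          = Cfsg.Lib.HermNorm.st σ.toRingHom (A : Matrix (Fin (m + 1)) (Fin (m + 1)) F) := by
        ext i j; simp [Cfsg.Lib.HermNorm.st, hσ]
      rw [hst, Matrix.inv_eq_left_inv (B := Cfsg.Lib.HermNorm.st σ.toRingHom ((A⁻¹ : GL (Fin (m + 1)) F) : Matrix _ _ F))
        (by rw [← Cfsg.Lib.HermNorm.st_mul, Units.mul_inv, Cfsg.Lib.HermNorm.st_one])]
      refine (Units.coeHom (Matrix (Fin (m + 1)) (Fin (m + 1)) F)).map_isConj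
        (LinAlg.SSClass.isConj_of_charpoly_eq p (x := A) (y := Units.ofPowEqOne _ N hpow hN0.ne') hAp
          (hAp.coprime_dvd_left (orderOf_dvd_of_pow_eq_one (Units.pow_ofPowEqOne hpow hN0.ne'))) ?_)
      rw [Units.val_ofPowEqOne, charpoly_st, hinvc, Polynomial.map_map,
        RingHom.ext (f := σ.toRingHom.comp σ.toRingHom) (g := RingHom.id F) hinv, Polynomial.map_id, hAc])
    obtain ⟨z, hz⟩ := isConj_iff.1 hB
    have hBc : ((B : GL (Fin (m + 1)) F) : Matrix (Fin (m + 1)) (Fin (m + 1)) F).charpoly = f := by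
      rw [← hz, Units.val_mul, Units.val_mul, Matrix.coe_units_inv, Matrix.charpoly_units_conj, hAc]
    have hBd : ((B : GL (Fin (m + 1)) F) : Matrix (Fin (m + 1)) (Fin (m + 1)) F).det = 1 := by
      rw [Matrix.det_eq_sign_charpoly_coeff, Fintype.card_fin, hBc, hf0, ← hcdef, hcc]
    let g : ↥(Cfsg.SU (m + 1) F q) := ⟨⟨_, hBd⟩, B.2⟩
    have inj : Function.Injective (Matrix.SpecialLinearGroup.toGL (n := Fin (m + 1)) (R := F)) := fun a b e =>
      Subtype.ext (congrArg Units.val e)
    refine ⟨g, ?_, fun i => ?_⟩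
    · have h1 : orderOf g = orderOf (B : GL (Fin (m + 1)) F) := by
        rw [← Subgroup.orderOf_coe g, ← orderOf_injective _ inj]
        exact congrArg orderOf (Units.ext rfl)
      have h2 : orderOf (B : GL (Fin (m + 1)) F) = orderOf A := by
        rw [← hz]; exact orderOf_injective (MulAut.conj z).toMonoidHom (MulAut.conj z).injective A
      rw [h1, h2]; exact hAp
    · show ((B : GL (Fin (m + 1)) F) : Matrix (Fin (m + 1)) (Fin (m + 1)) F).charpoly.coeff _ = _
      rw [hBc, hfs]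
  choose g hgp hgc using hex
  let θ : T → {c : ConjClasses ↥(Cfsg.SU (m + 1) F q) //
      ∃ g : ↥(Cfsg.SU (m + 1) F q), ConjClasses.mk g = c ∧ (orderOf g).Coprime p} :=
    fun v => ⟨ConjClasses.mk (g v), g v, rfl, hgp v⟩
  have hθ : Function.Bijective θ := by
    refine ⟨fun v v' h => ?_, ?_⟩
    · obtain ⟨z, hz⟩ := isConj_iff.1 (ConjClasses.mk_eq_mk_iff_isConj.mp (congrArg Subtype.val h))
      refine Subtype.ext (funext fun i => ?_)
      rw [← hgc, ← hgc, ← hz]
      have e := Matrix.charpoly_units_conj (Matrix.SpecialLinearGroup.toGL (z : Matrix.SpecialLinearGroup (Fin (m + 1)) F))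
        ((g v : Matrix.SpecialLinearGroup (Fin (m + 1)) F) : Matrix (Fin (m + 1)) (Fin (m + 1)) F)
      rw [← Matrix.coe_units_inv, ← map_inv] at e
      exact congrArg (fun P => Polynomial.coeff P (i.1 + 1)) e.symm
    · rintro ⟨C, x, rfl, hx⟩
      let X : GL (Fin (m + 1)) F := Matrix.SpecialLinearGroup.toGL (x : Matrix.SpecialLinearGroup (Fin (m + 1)) F)
      have hXd : (X : Matrix (Fin (m + 1)) (Fin (m + 1)) F).det = 1 := x.1.2
      have hXi : ((X⁻¹ : GL (Fin (m + 1)) F) : Matrix (Fin (m + 1)) (Fin (m + 1)) F) =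
          Cfsg.Lib.HermNorm.st σ.toRingHom (X : Matrix (Fin (m + 1)) (Fin (m + 1)) F) := by
        rw [Matrix.coe_units_inv, Matrix.inv_eq_left_inv ((gu_iff hσ).1 (show X ∈ Cfsg.GU (m + 1) F q from x.2))]
      have hX : ∀ k, σ ((X : Matrix (Fin (m + 1)) (Fin (m + 1)) F).charpoly.coeff k) =
          c * (X : Matrix (Fin (m + 1)) (Fin (m + 1)) F).charpoly.coeff (Polynomial.revAt (m + 1) k) := fun k => by
        rw [hcdef, ← charpoly_inv_coeff X hXd, hXi, charpoly_st, Polynomial.coeff_map]; rfl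
      let v : T := ⟨fun i => (X : Matrix (Fin (m + 1)) (Fin (m + 1)) F).charpoly.coeff (i.1 + 1), fun i => by
        have := congrArg σ (hX (i.1 + 1))
        rw [hinv, map_mul, hc, hrev] at this
        exact this⟩
      refine ⟨v, Subtype.ext (ConjClasses.mk_eq_mk_iff_isConj.mpr
        (Cfsg.Agent.S2390.result hF p (m + 1) _ _ (hgp v) hx ?_))⟩
      ext k
      rcases Nat.lt_or_ge (m + 1) k with hk | hk
      · rw [Polynomial.coeff_eq_zero_of_natDegree_lt, Polynomial.coeff_eq_zero_of_natDegree_lt] <;>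
          simpa [Matrix.charpoly_natDegree_eq_dim] using hk
      · rcases hk.eq_or_lt with rfl | hk'
        · have e : ∀ M : Matrix (Fin (m + 1)) (Fin (m + 1)) F, M.charpoly.coeff (m + 1) = 1 := fun M => by
            simpa [Matrix.charpoly_natDegree_eq_dim] using M.charpoly_monic.coeff_natDegree
          rw [e, e]
        · rcases k with _ | k
          · have e : ∀ M : Matrix (Fin (m + 1)) (Fin (m + 1)) F, M.det = 1 → M.charpoly.coeff 0 = c := fun M hM => by
              rw [Matrix.det_eq_sign_charpoly_coeff, Fintype.card_fin, ← hcdef] at hM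
              linear_combination c * hM - M.charpoly.coeff 0 * hcc
            rw [e _ (g v).1.2, e _ x.1.2]
          · exact hgc v ⟨k, by omega⟩
  rw [← Nat.card_eq_of_bijective θ hθ, Nat.add_sub_cancel]
  exact card_fixed hF hinv (Cfsg.Lib.HermNorm.ne_id hne) m c hc hcc

end Cfsg.Agent.S2386
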