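import Cfsg.Statements.S2387
import Cfsg.Agent.Lib.LinAlg.SemisimpleClasses

set_option autoImplicit false
open scoped MatrixGroups
open Cfsg

namespace Cfsg.Agent.S2387

/-- In `GL_n(q)` with `n ≥ 1`, `q` a power of the prime `p`, the number of conjugacy classes of elements of order prime to `p` (diagonalisable over the algebraic closure; determined by the characteristic polynomial) is `(q - 1) q^(n-1)`. -/
theorem result {F : Type*} [Field F] [Fintype F] {q : ℕ} (hq : Fintype.card F = q) (p : ℕ) [Fact p.Prime] [CharP F p] (n : ℕ) (hn : 1 ≤ n) :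
    Nat.card {c : ConjClasses (GL (Fin n) F) // ∃ g : GL (Fin n) F, ConjClasses.mk g = c ∧ (orderOf g).Coprime p} = (q - 1) * q ^ (n - 1) := by
  classical
  obtain ⟨m, rfl⟩ : ∃ m, n = m + 1 := ⟨n - 1, by omega⟩
  let T := {f : {f : Polynomial F // f.Monic ∧ f.natDegree = m + 1} // f.1.coeff 0 ≠ 0}
  have hex : ∀ f : T, ∃ x : GL (Fin (m + 1)) F, (orderOf x).Coprime p ∧
      (x : Matrix (Fin (m + 1)) (Fin (m + 1)) F).charpoly = f.1.1 :=
    fun f => LinAlg.SSClass.exists_gl p f.1.2.1 f.1.2.2 f.2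
  choose x hx hxf using hex
  let θ : T → {c : ConjClasses (GL (Fin (m + 1)) F) //
      ∃ g : GL (Fin (m + 1)) F, ConjClasses.mk g = c ∧ (orderOf g).Coprime p} :=
    fun f => ⟨ConjClasses.mk (x f), x f, rfl, hx f⟩
  have hθ : Function.Bijective θ := by
    refine ⟨fun f f' h => ?_, ?_⟩
    · have h1 : IsConj (x f) (x f') := ConjClasses.mk_eq_mk_iff_isConj.mp (congrArg Subtype.val h)
      obtain ⟨c, hc⟩ := isConj_iff.mp h1
      refine Subtype.ext (Subtype.ext ?_)
      rw [← hxf, ← hxf, ← hc, Units.val_mul, Units.val_mul, Matrix.coe_units_inv, Matrix.charpoly_units_conj]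
    · rintro ⟨c, g, rfl, hg⟩
      refine ⟨⟨⟨_, Matrix.charpoly_monic _, by rw [Matrix.charpoly_natDegree_eq_dim, Fintype.card_fin]⟩,
        LinAlg.SSClass.coeff_zero_ne g⟩, Subtype.ext (ConjClasses.mk_eq_mk_iff_isConj.mpr ?_)⟩
      exact LinAlg.SSClass.isConj_of_charpoly_eq p (hx _) hg (hxf _)
  rw [← Nat.card_eq_of_bijective θ hθ]
  let e : T ≃ {a : F // a ≠ 0} × (Fin m → F) :=
    ((LinAlg.SSClass.coeffEquiv (F := F) (m + 1)).subtypeEquiv (q := fun c : Fin (m + 1) → F => c 0 ≠ 0)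
      (fun f => by rw [LinAlg.SSClass.coeffEquiv_apply]; rfl)).trans
    { toFun := fun c => (⟨c.1 0, c.2⟩, Fin.tail c.1)
      invFun := fun z => ⟨Fin.cons z.1.1 z.2, by simpa using z.1.2⟩
      left_inv := fun c => Subtype.ext (Fin.cons_self_tail c.1)
      right_inv := fun z => by simp [Fin.tail_cons] }
  rw [Nat.card_congr e, Nat.card_prod, Nat.card_eq_fintype_card, Nat.card_eq_fintype_card,
    Fintype.card_subtype_compl, Fintype.card_subtype_eq, Fintype.card_fun, Fintype.card_fin, hq, Nat.add_sub_cancel]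

end Cfsg.Agent.S2387
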