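import Cfsg.Statements.S2391

-- import your own Cfsg.Agent.* helpers here

set_option autoImplicit false
open Cfsg

namespace Cfsg.Agent.S2391

private lemma dvd_card {F : Type*} [Field F] (p : ℕ) [Fact p.Prime] [CharP F p] (M : Type*) [AddCommGroup M]
    [Module F M] [Nontrivial M] : p ∣ Nat.card M := by
  obtain ⟨x, hx⟩ := exists_ne (0 : M)
  have h : addOrderOf x = p := addOrderOf_eq_prime (by rw [← Nat.cast_smul_eq_nsmul F, CharP.cast_eq_zero, zero_smul]) hx
  exact h ▸ addOrderOf_dvd_natCard x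

private lemma exists_fixed {p : ℕ} [Fact p.Prime] {G V : Type*} [Group G] [Zero V] [Finite V] (hG : IsPGroup p G)
    (L : G → V → V) (h1 : ∀ x, L 1 x = x) (hm : ∀ g h x, L (g * h) x = L g (L h x)) (h0 : ∀ g, L g 0 = 0)
    (hdvd : p ∣ Nat.card V) : ∃ x, x ≠ 0 ∧ ∀ g, L g x = x := by
  let inst : MulAction G V := { smul := L, one_smul := h1, mul_smul := hm }
  obtain ⟨x, hx, hx0⟩ := hG.exists_fixed_point_of_prime_dvd_card_of_fixed_point V hdvd
    (show (0 : V) ∈ MulAction.fixedPoints G V from h0)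
  exact ⟨x, hx0.symm, hx⟩

private lemma exists_new {F : Type*} [Field F] (p : ℕ) [Fact p.Prime] [CharP F p] {W : Type*} [AddCommGroup W]
    [Module F W] [Finite W] {G : Type*} [Group G] (hG : IsPGroup p G) (ρ : G → W →ₗ[F] W) (h1 : ∀ x, ρ 1 x = x)
    (hm : ∀ g h x, ρ (g * h) x = ρ g (ρ h x)) (V : Submodule F W) (hV : V ≠ ⊤) (hst : ∀ g, ∀ v ∈ V, ρ g v ∈ V) :
    ∃ v, v ∉ V ∧ ∀ g, ρ g v - v ∈ V := by
  have : Nontrivial (W ⧸ V) := Submodule.Quotient.nontrivial_iff.2 hV
  have : Finite (W ⧸ V) := Quotient.finite _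
  let L : G → (W ⧸ V) → (W ⧸ V) := fun g => Submodule.mapQ V V (ρ g) (fun v hv => hst g v hv)
  obtain ⟨x, hx0, hx⟩ := exists_fixed hG L
    (fun x => by induction x using Submodule.Quotient.induction_on with
      | H v => show Submodule.Quotient.mk (ρ 1 v) = _; rw [h1])
    (fun g h x => by induction x using Submodule.Quotient.induction_on with
      | H v => show Submodule.Quotient.mk (ρ (g * h) v) = Submodule.Quotient.mk (ρ g (ρ h v)); rw [hm])
    (fun g => map_zero _) (dvd_card (F := F) p (W ⧸ V))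
  induction x using Submodule.Quotient.induction_on with
  | H v => exact ⟨v, fun hv => hx0 ((Submodule.Quotient.mk_eq_zero _).2 hv), fun g => (Submodule.Quotient.eq _).1 (hx g)⟩

private noncomputable def nextSub {F : Type*} [Field F] {n : ℕ} (U : Subgroup (Matrix.SpecialLinearGroup (Fin n) F))
    (V : Submodule F (Fin n → F)) : Submodule F (Fin n → F) :=
  ⨅ u : U, V.comap (Matrix.mulVecLin ((u.1 : Matrix (Fin n) (Fin n) F)) - LinearMap.id)

private noncomputable def flag {F : Type*} [Field F] {n : ℕ} (U : Subgroup (Matrix.SpecialLinearGroup (Fin n) F)) :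
    ℕ → Submodule F (Fin n → F)
  | 0 => ⊥
  | i + 1 => nextSub U (flag U i)

/-- The Borel–Tits property of `SL_n(q)` in flag form: for a field `F` of characteristic `p` with finitely many elements and a non-trivial `p`-subgroup `U` of `SL_n(F)`, there is a flag `0 = V₀ < V₁ < ⋯ < V_{k+1} = F^n` with at least one proper non-zero member such that every element of the normaliser of `U` maps each `V_i` onto itself and every element of `U` acts trivially on each quotient `V_{i+1}/V_i` (so the normaliser lies in the parabolic subgroup of the flag and `U` in its unipotent radical). -/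
theorem result {F : Type*} [Field F] [Fintype F] (p : ℕ) [Fact p.Prime] [CharP F p] (n : ℕ)
    (U : Subgroup (Matrix.SpecialLinearGroup (Fin n) F)) (hU : IsPGroup p ↥U) (hne : U ≠ ⊥) :
    ∃ (k : ℕ) (V : Fin (k + 2) → Submodule F (Fin n → F)), 1 ≤ k ∧ StrictMono V ∧ V 0 = ⊥ ∧ V (Fin.last (k + 1)) = ⊤ ∧
      (∀ g ∈ Subgroup.normalizer (U : Set (Matrix.SpecialLinearGroup (Fin n) F)), ∀ i, (V i).map (Matrix.mulVecLin (g : Matrix (Fin n) (Fin n) F)) = V i) ∧
      (∀ u ∈ U, ∀ i : Fin (k + 1), ∀ v ∈ V i.succ, (u : Matrix (Fin n) (Fin n) F).mulVec v - v ∈ V (Fin.castSucc i)) := by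
  classical
  let S := Matrix.SpecialLinearGroup (Fin n) F
  let N := Subgroup.normalizer (U : Set (Matrix.SpecialLinearGroup (Fin n) F))
  let f : ℕ → Submodule F (Fin n → F) := flag U
  have hnext : ∀ V v, v ∈ nextSub U V ↔ ∀ u ∈ U, (u : Matrix (Fin n) (Fin n) F).mulVec v - v ∈ V := fun V v => by
    simp [nextSub, Submodule.mem_iInf]
  have hf : ∀ i, ∀ g ∈ N, ∀ v ∈ f i, (g : Matrix (Fin n) (Fin n) F).mulVec v ∈ f i := by
    intro i
    induction i with
    | zero => intro g _ v hv; rw [(Submodule.mem_bot F).1 hv, Matrix.mulVec_zero]; exact Submodule.zero_mem _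
    | succ i ih =>
      intro g hg v hv
      refine (hnext _ _).2 fun u hu => ?_
      have hu' : g⁻¹ * u * g ∈ U := by
        have h := ((Subgroup.mem_normalizer_iff.1 (N.inv_mem hg)) u).1 hu
        rwa [inv_inv] at h
      have h1 := ih g hg _ ((hnext _ _).1 hv _ hu')
      rw [Matrix.mulVec_sub, Matrix.mulVec_mulVec, ← Matrix.SpecialLinearGroup.coe_mul,
        show g * (g⁻¹ * u * g) = u * g by group, Matrix.SpecialLinearGroup.coe_mul, ← Matrix.mulVec_mulVec] at h1
      exact h1
  have hUN : ∀ u ∈ U, u ∈ N := fun u hu => Subgroup.le_normalizer hu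
  have hle : ∀ i, f i ≤ f (i + 1) := fun i v hv =>
    (hnext _ _).2 fun u hu => Submodule.sub_mem _ (hf i u (hUN u hu) v hv) hv
  have hlt : ∀ i, f i ≠ ⊤ → f i < f (i + 1) := by
    intro i hi
    refine lt_of_le_of_ne (hle i) fun heq => ?_
    obtain ⟨v, hv, hfix⟩ := exists_new p hU (fun u : U => Matrix.mulVecLin (u.1 : Matrix (Fin n) (Fin n) F))
      (fun x => by simp) (fun u w x => by simp [Matrix.mulVec_mulVec]) (f i) hi
      (fun u v hv => hf i u.1 (hUN u.1 u.2) v hv)
    refine hv ?_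
    rw [heq]
    exact (hnext _ _).2 fun u hu => hfix ⟨u, hu⟩
  have hex : ∃ i, f i = ⊤ := by
    refine Classical.byContradiction fun h => ?_
    push Not at h
    exact not_injective_infinite_finite f (strictMono_nat_of_lt_succ fun i => hlt i (h i)).injective
  have : DecidablePred fun i => f i = ⊤ := Classical.decPred _
  have h1 : f 1 ≠ ⊤ := by
    refine fun h => hne (eq_bot_iff.2 fun u hu => ?_)
    refine Subgroup.mem_bot.2 (Subtype.ext (Matrix.toLin'.injective (LinearMap.ext fun v => ?_)))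
    have hv : v ∈ f 1 := h ▸ Submodule.mem_top
    have := (hnext _ _).1 hv u hu
    replace this : (u : Matrix (Fin n) (Fin n) F).mulVec v - v ∈ (⊥ : Submodule F (Fin n → F)) := this
    rw [Submodule.mem_bot, sub_eq_zero] at this
    simpa using this
  obtain ⟨k, hk⟩ : ∃ k, Nat.find hex = k + 2 := by
    refine ⟨Nat.find hex - 2, ?_⟩
    have h0 : Nat.find hex ≠ 0 := fun e => h1 (top_le_iff.1 ((Nat.find_spec hex).ge.trans (by rw [e]; exact hle 0)))
    have h1' : Nat.find hex ≠ 1 := fun e => h1 (e ▸ Nat.find_spec hex)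
    omega
  refine ⟨k + 1, fun i => f i, by omega, Fin.strictMono_iff_lt_succ.2 fun i => ?_, rfl, ?_, fun g hg i => ?_, fun u hu i v hv => ?_⟩
  · exact hlt i (Nat.find_min hex (show (i : ℕ) < Nat.find hex by rw [hk]; exact i.2))
  · show f (k + 1 + 1) = ⊤
    rw [← hk]; exact Nat.find_spec hex
  · refine le_antisymm (Submodule.map_le_iff_le_comap.2 fun v hv => hf i g hg v hv) fun v hv => ?_
    exact ⟨_, hf i g⁻¹ (N.inv_mem hg) v hv, by
      rw [Matrix.mulVecLin_apply, Matrix.mulVec_mulVec, ← Matrix.SpecialLinearGroup.coe_mul, mul_inv_cancel,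
        Matrix.SpecialLinearGroup.coe_one, Matrix.one_mulVec]⟩
  · exact (hnext _ _).1 hv u hu

end Cfsg.Agent.S2391
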