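import Cfsg.Statements.S2392
import Mathlib

set_option autoImplicit false
open Cfsg

namespace Cfsg.Agent.S2392

open Matrix

/-- A transvection moving `u` to `v` when some `2 × 2` minor is nonzero. -/
theorem move {F : Type*} [Field F] {ι : Type*} [Fintype ι] [DecidableEq ι] (u v : ι → F) {i j : ι}
    (h : u i * v j - u j * v i ≠ 0) : ∃ A : SpecialLinearGroup ι F, (A : Matrix ι ι F) *ᵥ u = v := by
  set D := u i * v j - u j * v i with hD
  let φ : ι → F := Pi.single i ((v j - u j) / D) + Pi.single j ((u i - v i) / D)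
  have hu : φ ⬝ᵥ u = 1 := by
    simp only [φ, add_dotProduct, single_dotProduct]
    field_simp
    rw [hD]; ring
  have hv : φ ⬝ᵥ v = 1 := by
    simp only [φ, add_dotProduct, single_dotProduct]
    field_simp
    rw [hD]; ring
  refine ⟨⟨1 + replicateCol (Fin 1) (v - u) * replicateRow (Fin 1) φ, ?_⟩, ?_⟩
  · refine (det_one_add_replicateCol_mul_replicateRow (ι := Fin 1) (v - u) φ).trans ?_
    rw [dotProduct_sub, hu, hv, sub_self, add_zero]
  · show (1 + replicateCol (Fin 1) (v - u) * replicateRow (Fin 1) φ) *ᵥ u = v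
    funext k
    have h1 : ((replicateCol (Fin 1) (v - u) * replicateRow (Fin 1) φ) *ᵥ u) k = (v k - u k) * (φ ⬝ᵥ u) := by
      simp [Matrix.mulVec, dotProduct, Matrix.mul_apply, Finset.mul_sum, mul_assoc]
    rw [add_mulVec, one_mulVec, Pi.add_apply, h1, hu]
    ring

/-- `SL` is transitive on nonzero vectors. -/
theorem transitive {F : Type*} [Field F] {ι : Type*} [Fintype ι] [DecidableEq ι] [Nontrivial ι] {u v : ι → F}
    (hu : u ≠ 0) (hv : v ≠ 0) : ∃ A : SpecialLinearGroup ι F, (A : Matrix ι ι F) *ᵥ u = v := by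
  by_cases h : ∃ i j, u i * v j - u j * v i ≠ 0
  · obtain ⟨i, j, h⟩ := h; exact move u v h
  push Not at h
  obtain ⟨i, hi⟩ := Function.ne_iff.mp hu
  simp only [Pi.zero_apply] at hi
  have hvi : v i ≠ 0 := fun h0 => hv (funext fun j => by
    have := h i j
    rw [h0, mul_zero, sub_zero, mul_eq_zero] at this
    exact this.resolve_left hi)
  obtain ⟨j, hj⟩ := exists_ne i
  obtain ⟨A, hA⟩ := move u (Pi.single j 1) (i := i) (j := j) (by simp [hj.symm, hi])
  obtain ⟨B, hB⟩ := move (Pi.single j 1) v (i := j) (j := i) (by simp [hj.symm, hvi])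
  exact ⟨B * A, by show ((B : Matrix ι ι F) * (A : Matrix ι ι F)) *ᵥ u = v; rw [← mulVec_mulVec, hA, hB]⟩

/-- A finite abelian group of exponent `p` acting nontrivially has an eigenvector with nontrivial character. -/
theorem exists_char {L : Type*} [Field L] [IsAlgClosed L] {V W : Type*} [AddCommGroup W] [Module L W] [FiniteDimensional L W]
    [CommGroup V] {p : ℕ} (hp : (p : L) ≠ 0) (hexp : ∀ v : V, v ^ p = 1) (σ : V →* (W →ₗ[L] W))
    (v0 : V) (hv0 : σ v0 ≠ 1) :
    ∃ (χ : V →* L) (w : W), w ≠ 0 ∧ (∀ v, σ v w = χ v • w) ∧ χ v0 ≠ 1 := by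
  let R : Submodule L W := LinearMap.range (σ v0 - 1)
  have hcomm : ∀ v v' : V, ∀ x : W, σ v (σ v' x) = σ v' (σ v x) := fun v v' x => by
    rw [← Module.End.mul_apply, ← map_mul, mul_comm, map_mul, Module.End.mul_apply]
  have hR0 : R ≠ ⊥ := fun h => hv0 (sub_eq_zero.mp (LinearMap.range_eq_bot.mp h))
  have hRinv : ∀ v, ∀ x ∈ R, σ v x ∈ R := by
    rintro v _ ⟨x, rfl⟩
    exact ⟨σ v x, by simp [hcomm v0 v x]⟩
  obtain ⟨U, ⟨hU0, hUR, hUinv⟩, hUmin⟩ := exists_minimalFor_of_wellFoundedLT
    (fun U : Submodule L W => U ≠ ⊥ ∧ U ≤ R ∧ ∀ v, ∀ x ∈ U, σ v x ∈ U) (fun U => U) ⟨R, hR0, le_rfl, hRinv⟩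
  haveI : Nontrivial U := Submodule.nontrivial_iff_ne_bot.mpr hU0
  have hscal : ∀ v, ∃ c : L, ∀ x ∈ U, σ v x = c • x := by
    intro v
    obtain ⟨c, hc⟩ := Module.End.exists_eigenvalue ((σ v).restrict (hUinv v))
    obtain ⟨x, hx, hx0⟩ := hc.exists_hasEigenvector
    refine ⟨c, ?_⟩
    let E : Submodule L W := U ⊓ LinearMap.ker (σ v - c • 1)
    have hmem : ∀ y, y ∈ LinearMap.ker (σ v - c • 1) ↔ σ v y = c • y := fun y => by
      simp [sub_eq_zero]
    have hxE : (x : W) ∈ E := ⟨x.2, (hmem _).mpr (congrArg Subtype.val (Module.End.mem_eigenspace_iff.mp hx))⟩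
    have hUE : U ≤ E := hUmin (j := E) ⟨fun h => hx0 (Subtype.ext ((Submodule.mem_bot L).mp (h ▸ hxE))),
      inf_le_left.trans hUR, fun v' y hy => ⟨hUinv v' y hy.1, (hmem _).mpr (by
        rw [hcomm v v' y, (hmem y).mp hy.2, map_smul])⟩⟩ inf_le_left
    exact fun y hy => (hmem y).mp (hUE hy).2
  choose c hc using hscal
  obtain ⟨w, hw, hw0⟩ := U.ne_bot_iff.mp hU0
  have hinj : ∀ {a b : L}, a • w = b • w → a = b := fun h => smul_left_injective L hw0 h
  refine ⟨{ toFun := c, map_one' := ?_, map_mul' := ?_ }, w, hw0, fun v => hc v w hw, fun h => ?_⟩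
  · exact hinj (by rw [← hc 1 w hw, map_one, one_smul, Module.End.one_apply])
  · intro a b
    exact hinj (by rw [← hc (a * b) w hw, map_mul, Module.End.mul_apply, hc b w hw, map_smul, hc a w hw, smul_smul, mul_comm])
  obtain ⟨y, hy⟩ := hUR hw
  rw [LinearMap.sub_apply, Module.End.one_apply] at hy
  have hfix : σ v0 w = w := by rw [hc v0 w hw, show c v0 = 1 from h, one_smul]
  have hpow : ∀ i : ℕ, σ (v0 ^ i) y = y + (i : L) • w := by
    intro i
    induction i with
    | zero => simp
    | succ i ih =>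
      rw [pow_succ', map_mul, Module.End.mul_apply, ih, map_add, map_smul, hfix, Nat.cast_succ, add_smul, one_smul,
        show σ v0 y = y + w from by rw [← hy]; abel]
      abel
  have := hpow p
  rw [hexp, map_one, Module.End.one_apply, left_eq_add] at this
  exact hw0 ((smul_eq_zero.mp this).resolve_left hp)

/-- A lower bound for representations in cross characteristic: for `n ≥ 3` and a field `F` with `q` elements, every homomorphism from `SL_n(F)` to `GL_d(K)`, `K` a field of characteristic different from that of `F`, whose kernel is central has `d ≥ q^(n-1) - 1`. -/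
theorem result {F : Type*} [Field F] [Fintype F] {q : ℕ} (hq : Fintype.card F = q) (n : ℕ) (hn : 3 ≤ n)
    {K : Type*} [Field K] (hK : ringChar K ≠ ringChar F) {d : ℕ}
    (ρ : Matrix.SpecialLinearGroup (Fin n) F →* GL (Fin d) K) (hker : ρ.ker ≤ Subgroup.center (Matrix.SpecialLinearGroup (Fin n) F)) :
    q ^ (n - 1) - 1 ≤ d := by
  classical
  obtain ⟨m, rfl⟩ : ∃ m, n = 1 + m := ⟨n - 1, by omega⟩
  rw [show 1 + m - 1 = m by omega]
  haveI : Nontrivial (Fin m) := Fin.nontrivial_iff_two_le.mpr (by omega)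
  obtain ⟨p, hp⟩ := CharP.exists F
  haveI := Fact.mk (CharP.char_is_prime F p)
  let L := AlgebraicClosure K
  have hpL : (p : L) ≠ 0 := fun h => by
    have h1 : (p : K) = 0 := (algebraMap K L).injective (by rw [map_natCast, map_zero]; exact h)
    rw [ringChar.spec] at h1
    apply hK
    rw [ringChar.eq F p]
    rcases (Nat.dvd_prime Fact.out).mp h1 with h2 | h2
    · exfalso
      haveI : CharP K 1 := h2 ▸ (ringChar.charP K)
      have h3 := CharP.cast_eq_zero K 1
      rw [Nat.cast_one] at h3
      exact one_ne_zero h3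
    · exact h2
  -- the affine subgroup
  let e : (Fin 1 ⊕ Fin m) ≃ Fin (1 + m) := finSumFinEquiv
  let T : SpecialLinearGroup (Fin 1 ⊕ Fin m) F →* SpecialLinearGroup (Fin (1 + m)) F :=
    { toFun := fun g => ⟨Matrix.reindex e e (g : Matrix _ _ F), by rw [det_reindex_self]; exact g.2⟩
      map_one' := Subtype.ext (by simp)
      map_mul' := fun a b => Subtype.ext (by
        show Matrix.reindex e e ((a : Matrix _ _ F) * (b : Matrix _ _ F)) = Matrix.reindex e e (a : Matrix _ _ F) * Matrix.reindex e e (b : Matrix _ _ F)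
        simp [submatrix_mul_equiv]) }
  have hT : Function.Injective T := fun a b h =>
    Subtype.ext ((Matrix.reindex e e).injective (congrArg Subtype.val h))
  let u : (Fin m → F) → SpecialLinearGroup (Fin 1 ⊕ Fin m) F := fun v =>
    ⟨fromBlocks 1 (replicateRow (Fin 1) v) 0 1, by rw [det_fromBlocks_zero₂₁, det_one, det_one, one_mul]⟩
  let hh : SpecialLinearGroup (Fin m) F → SpecialLinearGroup (Fin 1 ⊕ Fin m) F := fun A =>
    ⟨fromBlocks 1 0 0 (A : Matrix _ _ F), by rw [det_fromBlocks_zero₂₁, det_one, one_mul]; exact A.2⟩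
  have huh : ∀ (A : SpecialLinearGroup (Fin m) F) v, u v * hh A = hh A * u (v ᵥ* (A : Matrix _ _ F)) := by
    intro A v
    apply Subtype.ext
    show fromBlocks 1 (replicateRow (Fin 1) v) 0 1 * fromBlocks 1 0 0 (A : Matrix (Fin m) (Fin m) F) = fromBlocks 1 0 0 (A : Matrix (Fin m) (Fin m) F) * fromBlocks 1 (replicateRow (Fin 1) (v ᵥ* (A : Matrix (Fin m) (Fin m) F))) 0 1
    simp [fromBlocks_multiply, replicateRow_vecMul]
  let U : Multiplicative (Fin m → F) →* SpecialLinearGroup (Fin (1 + m)) F :=
    { toFun := fun v => T (u v.toAdd)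
      map_one' := by
        rw [show u (Multiplicative.toAdd (1 : Multiplicative (Fin m → F))) = 1 from Subtype.ext (by simp [u, fromBlocks_one]), map_one]
      map_mul' := fun a b => by
        rw [← map_mul]
        exact congrArg T (Subtype.ext (by
          show fromBlocks 1 (replicateRow (Fin 1) (a.toAdd + b.toAdd)) 0 1 = fromBlocks 1 (replicateRow (Fin 1) a.toAdd) 0 1 * fromBlocks 1 (replicateRow (Fin 1) b.toAdd) 0 1
          simp [fromBlocks_multiply, add_comm])) }
  let ρL : SpecialLinearGroup (Fin (1 + m)) F →* ((Fin d → L) →ₗ[L] (Fin d → L)) :=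
    (Matrix.toLinAlgEquiv' (R := L) (n := Fin d)).toMonoidHom.comp
      ((Units.coeHom _).comp ((Matrix.GeneralLinearGroup.map (algebraMap K L)).comp ρ))
  have hρL : ∀ g, ρL g = 1 → ρ g = 1 := fun g hg => by
    apply Units.ext
    apply Matrix.map_injective (algebraMap K L).injective
    apply (Matrix.toLinAlgEquiv' (R := L) (n := Fin d)).injective
    simp only [Units.val_one, Matrix.map_one, map_zero, map_one]
    exact hg
  let σ : Multiplicative (Fin m → F) →* ((Fin d → L) →ₗ[L] (Fin d → L)) := ρL.comp U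
  have hexp : ∀ v : Multiplicative (Fin m → F), v ^ p = 1 := fun v => by
    apply Multiplicative.toAdd.injective
    funext i
    simp [CharP.cast_eq_zero]
  let i0 : Fin m := Classical.arbitrary _
  have hv0 : σ (Multiplicative.ofAdd (Pi.single i0 1)) ≠ 1 := by
    intro h
    have h1 := hker (MonoidHom.mem_ker.mpr (hρL _ h))
    obtain ⟨r, -, hr⟩ := Matrix.SpecialLinearGroup.mem_center_iff.mp h1
    have h2 := congrFun (congrFun hr (e (Sum.inl 0))) (e (Sum.inr i0))
    change _ = ((Matrix.reindex e e) (fromBlocks 1 (replicateRow (Fin 1) (Pi.single i0 (1 : F))) 0 1)) (e (Sum.inl 0)) (e (Sum.inr i0)) at h2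
    simp at h2
  obtain ⟨χ, w, hw0, hwχ, hχ0⟩ := exists_char hpL hexp σ _ hv0
  -- every character is a twist of one
  set ψ : (Fin m → F) → Multiplicative (Fin m → F) →* L := fun a =>
    χ.comp (AddMonoidHom.toMultiplicative
      { toFun := fun v => (v ⬝ᵥ a) • (Pi.single i0 (1 : F) : Fin m → F)
        map_zero' := by simp
        map_add' := fun x y => by simp [add_smul] }) with hψdef
  have hψapp : ∀ a v, ψ a v = χ (Multiplicative.ofAdd ((v.toAdd ⬝ᵥ a) • (Pi.single i0 (1 : F) : Fin m → F))) :=
    fun a v => rfl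
  have hψinj : Function.Injective ψ := by
    intro a b hab
    by_contra hne
    obtain ⟨i, hi⟩ := Function.ne_iff.mp hne
    have hd0 : a i - b i ≠ 0 := sub_ne_zero.mpr hi
    have h1 := DFunLike.congr_fun hab (Multiplicative.ofAdd (Pi.single i (a i - b i)⁻¹))
    rw [hψapp, hψapp, toAdd_ofAdd, single_dotProduct, single_dotProduct] at h1
    apply hχ0
    have h2 : ((a i - b i)⁻¹ * a i) • (Pi.single i0 (1 : F) : Fin m → F) =
        ((a i - b i)⁻¹ * b i) • Pi.single i0 1 + Pi.single i0 1 := by
      rw [show ((a i - b i)⁻¹ * b i) • (Pi.single i0 (1 : F) : Fin m → F) + Pi.single i0 1 = ((a i - b i)⁻¹ * b i + 1) • (Pi.single i0 (1 : F) : Fin m → F) by rw [add_smul, one_smul]]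
      congr 1
      field_simp
      ring
    rw [h2, ofAdd_add, map_mul] at h1
    have h3 : χ (Multiplicative.ofAdd (((a i - b i)⁻¹ * b i) • (Pi.single i0 (1 : F) : Fin m → F))) ≠ 0 := by
      intro h0
      have h4 := map_pow χ (Multiplicative.ofAdd (((a i - b i)⁻¹ * b i) • (Pi.single i0 (1 : F) : Fin m → F))) p
      rw [hexp, map_one, h0, zero_pow (Fact.out : p.Prime).ne_zero] at h4
      exact one_ne_zero h4
    exact mul_right_eq_self₀.mp h1 |>.resolve_right h3
  have hcardV : Nat.card (Multiplicative (Fin m → F)) = q ^ m := by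
    rw [Nat.card_congr Multiplicative.toAdd, Nat.card_eq_fintype_card, Fintype.card_fun, Fintype.card_fin, hq]
  haveI : Fintype (Multiplicative (Fin m → F)) := Fintype.ofFinite _
  obtain ⟨a0, ha0⟩ : ∃ a, ψ a = χ := by
    by_contra hno
    push Not at hno
    let f : Option (Fin m → F) → (Multiplicative (Fin m → F) →* L) := fun o => o.elim χ ψ
    have hf : Function.Injective f := by
      rintro (_ | a) (_ | b) h
      · rfl
      · exact absurd h.symm (hno b)
      · exact absurd h (hno a)
      · exact congrArg some (hψinj h)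
    have hli := (linearIndependent_monoidHom (Multiplicative (Fin m → F)) L).comp f hf
    have := hli.fintype_card_le_finrank
    rw [Module.finrank_fintype_fun_eq_card, Fintype.card_option] at this
    rw [show Fintype.card (Multiplicative (Fin m → F)) = Fintype.card (Fin m → F) from Fintype.card_congr Multiplicative.toAdd] at this
    omega
  have ha0' : a0 ≠ 0 := by
    rintro rfl
    apply hχ0
    rw [← ha0, hψapp]
    simp
  choose A hA using fun a : {a : Fin m → F // a ≠ 0} => transitive ha0' a.2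
  -- eigenvectors for the twists
  let wv : {a : Fin m → F // a ≠ 0} → (Fin d → L) := fun a => ρL (T (hh (A a))) w
  have hev : ∀ a v, σ v (wv a) = ψ (a : Fin m → F) v • wv a := by
    intro a v
    have hc : ρL (T (u v.toAdd)) * ρL (T (hh (A a))) =
        ρL (T (hh (A a))) * ρL (T (u (v.toAdd ᵥ* ((A a) : SpecialLinearGroup (Fin m) F).1))) := by
      rw [← map_mul, ← map_mul, ← map_mul, ← map_mul, huh]
    have h1 := LinearMap.congr_fun hc w
    rw [Module.End.mul_apply, Module.End.mul_apply] at h1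
    show ρL (T (u v.toAdd)) (wv a) = _
    rw [h1]
    show ρL (T (hh (A a))) (σ (Multiplicative.ofAdd (v.toAdd ᵥ* ((A a) : SpecialLinearGroup (Fin m) F).1)) w) = _
    rw [hwχ, map_smul]
    congr 1
    rw [← ha0, hψapp, hψapp, toAdd_ofAdd, ← dotProduct_mulVec]
    congr 3
    rw [hA a]
  have hwv0 : ∀ a, wv a ≠ 0 := fun a h => hw0 (by
    have h' := congrArg (ρL ((T (hh (A a)))⁻¹)) h
    rw [map_zero, ← Module.End.mul_apply, ← map_mul, inv_mul_cancel, map_one, Module.End.one_apply] at h'
    exact h')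
  have hli : LinearIndependent L wv := by
    rw [Fintype.linearIndependent_iff]
    intro g hg a
    have h1 := congrArg (fun x => ∑ v : Multiplicative (Fin m → F), (ψ (a : Fin m → F) v⁻¹) • σ v x) hg
    simp only [map_sum, map_smul, hev, map_zero, smul_zero, Finset.sum_const_zero, Finset.smul_sum, smul_smul] at h1
    rw [Finset.sum_comm] at h1
    simp only [← Finset.sum_smul] at h1
    rw [Finset.sum_eq_single a] at h1
    · have hs : ∑ v : Multiplicative (Fin m → F), ψ (a : Fin m → F) v⁻¹ * (g a * ψ (a : Fin m → F) v)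
          = g a * (q ^ m : ℕ) := by
        rw [← hcardV, Nat.card_eq_fintype_card]
        simp only [mul_left_comm _ (g a), ← map_mul, inv_mul_cancel, map_one, mul_one, Finset.sum_const, Finset.card_univ, nsmul_eq_mul]
        exact mul_comm _ _
      rw [hs, smul_eq_zero] at h1
      refine (mul_eq_zero.mp (h1.resolve_right (hwv0 a))).resolve_right ?_
      rw [← hq, FiniteField.card F p |>.choose_spec.2]
      push_cast
      exact pow_ne_zero _ (pow_ne_zero _ hpL)
    · intro b _ hb
      have hne : (ψ (a : Fin m → F)).comp (MonoidHom.id _) ≠ ψ (b : Fin m → F) := fun h => hb (Subtype.ext (hψinj h.symm))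
      have hz : ∑ v : Multiplicative (Fin m → F), ψ (a : Fin m → F) v⁻¹ * ψ (b : Fin m → F) v = 0 := by
        let θ : Multiplicative (Fin m → F) →* L :=
          { toFun := fun v => ψ (a : Fin m → F) v⁻¹ * ψ (b : Fin m → F) v
            map_one' := by simp
            map_mul' := fun x y => by rw [mul_inv, map_mul, map_mul]; ring }
        refine sum_hom_units_eq_zero θ fun h => hne (MonoidHom.ext fun v => ?_)
        have h2 := DFunLike.congr_fun h v
        simp only [θ, MonoidHom.coe_mk, OneHom.coe_mk, MonoidHom.one_apply] at h2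
        calc ψ (a : Fin m → F) v = ψ (a : Fin m → F) v * (ψ (a : Fin m → F) v⁻¹ * ψ (b : Fin m → F) v) := by rw [h2, mul_one]
          _ = ψ (b : Fin m → F) v := by rw [← mul_assoc, ← map_mul, mul_inv_cancel, map_one, one_mul]
      simp only [mul_left_comm _ (g b), ← Finset.mul_sum, hz, mul_zero, zero_smul]
    · simp
  have h := hli.fintype_card_le_finrank
  rw [Fintype.card_subtype_compl, Fintype.card_subtype_eq, Fintype.card_fun, Fintype.card_fin, hq, Module.finrank_fin_fun] at h
  exact h

end Cfsg.Agent.S2392
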