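import Cfsg.Statements.S2393
import Mathlib
import Cfsg.Agent.S2392

set_option autoImplicit false
open Cfsg

namespace Cfsg.Agent.S2393

open Matrix

set_option maxHeartbeats 1600000

/-- A lower bound for representations in cross characteristic: for `n ≥ 2` and a field `F` with `q` elements, `q` odd, every homomorphism from the symplectic group `Sp_{2n}(F)` to `GL_d(K)`, `K` a field of characteristic different from that of `F`, whose kernel is central has `d ≥ q^(n-1)(q-1)/2`. -/
theorem result {F : Type*} [Field F] [Fintype F] {q : ℕ} (hq : Fintype.card F = q) (hodd : Odd q) (n : ℕ) (hn : 2 ≤ n)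
    {K : Type*} [Field K] (hK : ringChar K ≠ ringChar F) {d : ℕ}
    (ρ : ↥(Matrix.symplecticGroup (Fin n) F) →* GL (Fin d) K) (hker : ρ.ker ≤ Subgroup.center ↥(Matrix.symplecticGroup (Fin n) F)) :
    q ^ (n - 1) * (q - 1) / 2 ≤ d := by
  classical
  haveI : Nontrivial (Fin n) := Fin.nontrivial_iff_two_le.mpr hn
  obtain ⟨p, hp⟩ := CharP.exists F
  haveI := Fact.mk (CharP.char_is_prime F p)
  have h2F : (2 : F) ≠ 0 := by
    refine Ring.two_ne_zero fun h => ?_
    rw [← hq] at hodd
    exact (Nat.not_even_iff_odd.mpr hodd) (Nat.even_iff.mpr (FiniteField.even_card_of_char_two h))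
  let L := AlgebraicClosure K
  have hpL : (p : L) ≠ 0 := fun h => by
    have h1 : (p : K) = 0 := (algebraMap K L).injective (by rw [map_natCast, map_zero]; exact h)
    rw [ringChar.spec] at h1
    apply hK
    rw [ringChar.eq F p]
    rcases (Nat.dvd_prime Fact.out).mp h1 with h2 | h2
    · exfalso
      haveI : CharP K 1 := h2 ▸ (ringChar.charP K)
      have h3 := CharP.cast_eq_zero K 1
      rw [Nat.cast_one] at h3
      exact one_ne_zero h3
    · exact h2
  -- the Siegel parabolic
  let uM : (Matrix (Fin n) (Fin n) F) → Matrix (Fin n ⊕ Fin n) (Fin n ⊕ Fin n) F := fun M => fromBlocks 1 (M + Mᵀ) 0 1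
  have huM : ∀ M, uM M ∈ Matrix.symplecticGroup (Fin n) F := fun M => by
    rw [SymplecticGroup.mem_iff]
    simp [uM, Matrix.J, fromBlocks_transpose, fromBlocks_multiply, add_comm Mᵀ M]
  let U : Multiplicative (Matrix (Fin n) (Fin n) F) →* ↥(Matrix.symplecticGroup (Fin n) F) :=
    { toFun := fun M => ⟨uM M.toAdd, huM _⟩
      map_one' := Subtype.ext (by
        show uM 0 = 1
        simp [uM, fromBlocks_one])
      map_mul' := fun a b => Subtype.ext (by
        show uM (a.toAdd + b.toAdd) = uM a.toAdd * uM b.toAdd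
        simp [uM, fromBlocks_multiply, transpose_add]
        abel) }
  let hM : GL (Fin n) F → Matrix (Fin n ⊕ Fin n) (Fin n ⊕ Fin n) F := fun A =>
    fromBlocks (A : Matrix _ _ F) 0 0 ((A⁻¹ : GL (Fin n) F) : Matrix (Fin n) (Fin n) F)ᵀ
  have hhM : ∀ A, hM A ∈ Matrix.symplecticGroup (Fin n) F := fun A => by
    rw [SymplecticGroup.mem_iff]
    simp only [hM, Matrix.J, fromBlocks_transpose, fromBlocks_multiply, transpose_transpose, mul_zero, zero_mul,
      add_zero, zero_add, transpose_zero, mul_one, neg_mul, mul_neg]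
    congr 1
    all_goals first
      | (simp; done)
      | rw [← Units.val_mul, mul_inv_cancel, Units.val_one]
      | rw [← transpose_mul, ← Units.val_mul, mul_inv_cancel, Units.val_one, transpose_one]
      | rw [← transpose_mul, Matrix.mul_nonsing_inv _ ((Matrix.isUnit_iff_isUnit_det _).mp A.isUnit), transpose_one]
  let hh : GL (Fin n) F → ↥(Matrix.symplecticGroup (Fin n) F) := fun A => ⟨hM A, hhM A⟩
  have huh : ∀ (A : GL (Fin n) F) (M : (Matrix (Fin n) (Fin n) F)),
      U (Multiplicative.ofAdd ((A : Matrix _ _ F) * M * (A : Matrix _ _ F)ᵀ)) * hh A =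
        hh A * U (Multiplicative.ofAdd M) := by
    intro A M
    apply Subtype.ext
    show uM ((A : Matrix _ _ F) * M * (A : Matrix _ _ F)ᵀ) * hM A = hM A * uM M
    have hi : (A : Matrix (Fin n) (Fin n) F)ᵀ * ((A⁻¹ : GL (Fin n) F) : Matrix (Fin n) (Fin n) F)ᵀ = 1 := by
      rw [← transpose_mul, ← Units.val_mul, inv_mul_cancel, Units.val_one, transpose_one]
    simp only [uM, hM, fromBlocks_multiply, mul_zero, zero_mul, add_zero, zero_add, one_mul, mul_one]
    congr 1
    rw [transpose_mul, transpose_mul, transpose_transpose, ← Matrix.mul_assoc, ← Matrix.add_mul, ← Matrix.mul_add,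
      Matrix.mul_assoc, hi, mul_one]
  let ρL : ↥(Matrix.symplecticGroup (Fin n) F) →* ((Fin d → L) →ₗ[L] (Fin d → L)) :=
    (Matrix.toLinAlgEquiv' (R := L) (n := Fin d)).toMonoidHom.comp
      ((Units.coeHom _).comp ((Matrix.GeneralLinearGroup.map (algebraMap K L)).comp ρ))
  have hρL : ∀ g, ρL g = 1 → ρ g = 1 := fun g hg => by
    apply Units.ext
    apply Matrix.map_injective (algebraMap K L).injective
    apply (Matrix.toLinAlgEquiv' (R := L) (n := Fin d)).injective
    simp only [Units.val_one, Matrix.map_one, map_zero, map_one]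
    exact hg
  let σ : Multiplicative (Matrix (Fin n) (Fin n) F) →* ((Fin d → L) →ₗ[L] (Fin d → L)) := ρL.comp U
  have hexp : ∀ v : Multiplicative (Matrix (Fin n) (Fin n) F), v ^ p = 1 := fun v => by
    apply Multiplicative.toAdd.injective
    ext i j
    simp [CharP.cast_eq_zero]
  let i0 : Fin n := Classical.arbitrary _
  let M0 : (Matrix (Fin n) (Fin n) F) := Matrix.single i0 i0 1
  have hv0 : σ (Multiplicative.ofAdd M0) ≠ 1 := by
    intro h
    have h1 := hker (MonoidHom.mem_ker.mpr (hρL _ h))
    let l : ↥(Matrix.symplecticGroup (Fin n) F) := ⟨fromBlocks 1 0 1 1, by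
      rw [SymplecticGroup.mem_iff]; simp [Matrix.J, fromBlocks_transpose, fromBlocks_multiply]⟩
    have h2 : fromBlocks 1 0 1 1 * uM M0 = uM M0 * fromBlocks 1 0 1 1 :=
      congrArg Subtype.val (Subgroup.mem_center_iff.mp h1 l)
    simp only [uM, fromBlocks_multiply, mul_zero, zero_mul, add_zero, one_mul, mul_one, fromBlocks_inj] at h2
    have h3 := congrFun (congrFun h2.1 i0) i0
    simp [M0] at h3
    exact h2F (by linear_combination h3)
  obtain ⟨χ, w, hw0, hwχ, hχ0⟩ := Cfsg.Agent.S2392.exists_char hpL hexp σ _ hv0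
  let pr : (Matrix (Fin n) (Fin n) F) → (Matrix (Fin n) (Fin n) F) → F := fun M B => ∑ i, ∑ j, M i j * B i j
  have hpr : ∀ M B : (Matrix (Fin n) (Fin n) F), pr M B = Matrix.trace ((M : Matrix _ _ F) * (B : Matrix _ _ F)ᵀ) := fun M B => by
    simp [pr, Matrix.trace, Matrix.mul_apply]
  set ψ : (Matrix (Fin n) (Fin n) F) → Multiplicative (Matrix (Fin n) (Fin n) F) →* L := fun B =>
    χ.comp (AddMonoidHom.toMultiplicative
      { toFun := fun M => (pr M B) • M0
        map_zero' := by simp [pr]
        map_add' := fun x y => by simp [pr, add_mul, Finset.sum_add_distrib, add_smul] }) with hψdef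
  have hψapp : ∀ B M, ψ B M = χ (Multiplicative.ofAdd ((pr M.toAdd B) • M0)) := fun B M => rfl
  have hsingle : ∀ (i j : Fin n) (c : F) (B : (Matrix (Fin n) (Fin n) F)), pr (Matrix.single i j c) B = c * B i j := fun i j c B => by
    simp [pr, Matrix.single_apply, Finset.sum_ite_eq', ite_and]
  have hψinj : Function.Injective ψ := by
    intro a b hab
    by_contra hne
    obtain ⟨i, j, hi⟩ : ∃ i j, a i j ≠ b i j := by
      by_contra h
      push Not at h
      exact hne (Matrix.ext h)
    have hd0 : a i j - b i j ≠ 0 := sub_ne_zero.mpr hi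
    have h1 := DFunLike.congr_fun hab (Multiplicative.ofAdd (Matrix.single i j (a i j - b i j)⁻¹))
    rw [hψapp, hψapp, toAdd_ofAdd, hsingle, hsingle] at h1
    apply hχ0
    have h2 : ((a i j - b i j)⁻¹ * a i j) • M0 = ((a i j - b i j)⁻¹ * b i j) • M0 + M0 := by
      rw [show ((a i j - b i j)⁻¹ * b i j) • M0 + M0 = ((a i j - b i j)⁻¹ * b i j + 1) • M0 by rw [add_smul, one_smul]]
      congr 1
      field_simp
      ring
    rw [h2, ofAdd_add, map_mul] at h1
    have h3 : χ (Multiplicative.ofAdd (((a i j - b i j)⁻¹ * b i j) • M0)) ≠ 0 := by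
      intro h0
      have h4 := map_pow χ (Multiplicative.ofAdd (((a i j - b i j)⁻¹ * b i j) • M0)) p
      rw [hexp, map_one, h0, zero_pow (Fact.out : p.Prime).ne_zero] at h4
      exact one_ne_zero h4
    exact mul_right_eq_self₀.mp h1 |>.resolve_right h3
  haveI : Fintype (Multiplicative (Matrix (Fin n) (Fin n) F)) := Fintype.ofFinite _
  haveI : Fintype (Matrix (Fin n) (Fin n) F) := Fintype.ofFinite _
  obtain ⟨B, hB⟩ : ∃ a, ψ a = χ := by
    by_contra hno
    push Not at hno
    let f : Option (Matrix (Fin n) (Fin n) F) → (Multiplicative (Matrix (Fin n) (Fin n) F) →* L) := fun o => o.elim χ ψ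
    have hf : Function.Injective f := by
      rintro (_ | a) (_ | b) h
      · rfl
      · exact absurd h.symm (hno b)
      · exact absurd h (hno a)
      · exact congrArg some (hψinj h)
    have hli := (linearIndependent_monoidHom (Multiplicative (Matrix (Fin n) (Fin n) F)) L).comp f hf
    have := hli.fintype_card_le_finrank
    rw [Module.finrank_fintype_fun_eq_card, Fintype.card_option] at this
    rw [show Fintype.card (Multiplicative (Matrix (Fin n) (Fin n) F)) = Fintype.card (Matrix (Fin n) (Fin n) F) from Fintype.card_congr Multiplicative.toAdd] at this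
    omega
  -- the form B is symmetric and nonzero
  have hBs : Bᵀ = B := by
    apply hψinj
    refine MonoidHom.ext fun M => ?_
    have h1 : σ M = σ (Multiplicative.ofAdd M.toAddᵀ) := congrArg ρL (Subtype.ext (by
      show uM M.toAdd = uM M.toAddᵀ
      simp [uM, add_comm]))
    have h2 : χ M = χ (Multiplicative.ofAdd M.toAddᵀ) := smul_left_injective L hw0 (show χ M • w = _ • w by rw [← hwχ, ← hwχ, h1])
    calc ψ Bᵀ M = ψ B (Multiplicative.ofAdd M.toAddᵀ) := by
          rw [hψapp, hψapp, toAdd_ofAdd]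
          congr 3
          simp only [pr, Matrix.transpose_apply]
          exact Finset.sum_comm
      _ = ψ B M := by rw [hB, h2]
  have hB0 : B ≠ 0 := by
    rintro rfl
    apply hχ0
    rw [← hB, hψapp]
    simp [pr]
  obtain ⟨x, hx0, hxB⟩ : ∃ x : Fin n → F, x ≠ 0 ∧ x ⬝ᵥ (B *ᵥ x) ≠ 0 := by
    by_cases hd : ∃ i, B i i ≠ 0
    · obtain ⟨i, hi⟩ := hd
      exact ⟨Pi.single i 1, by simp, by simpa [mulVec_single] using hi⟩
    · push Not at hd
      obtain ⟨i, j, hij⟩ : ∃ i j, B i j ≠ 0 := by
        by_contra h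
        push Not at h
        exact hB0 (Matrix.ext h)
      have hne : i ≠ j := fun h => hij (h ▸ hd i)
      have hs : B j i = B i j := congrFun (congrFun hBs i) j
      refine ⟨Pi.single i 1 + Pi.single j 1, fun h => ?_, ?_⟩
      · have := congrFun h i
        simp [hne] at this
      · simp [mulVec_add, dotProduct_add, add_dotProduct, mulVec_single, hd, hs]
        intro h
        exact hij ((mul_eq_zero.mp (show (2 : F) * B i j = 0 by linear_combination h)).resolve_left h2F)
  obtain ⟨A0, hA0⟩ := Cfsg.Agent.S2392.transitive (u := (Pi.single i0 1 : Fin n → F)) (by simp) hx0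
  -- the orbit
  let C : ((Set.range (fun s : Fˣ => s ^ 2)) × ({j : Fin n // j ≠ i0} → F)) → Matrix (Fin n) (Fin n) F := fun k =>
    Matrix.of fun a b => if b = i0 then (if a = i0 then ((k.1.2.choose : Fˣ) : F) else 0)
      else (if a = b then 1 else 0) + (if a = i0 then (if h : b = i0 then 0 else k.2 ⟨b, h⟩) else 0)
  have hC : ∀ k, IsUnit (C k).det := by
    intro k
    rw [← Matrix.mulVec_injective_iff_isUnit.trans (Matrix.isUnit_iff_isUnit_det _)]
    intro u v huv
    have hcol : ∀ a (u : Fin n → F), a ≠ i0 → (C k *ᵥ u) a = u a := by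
      intro a u ha
      simp only [Matrix.mulVec, dotProduct]
      rw [Finset.sum_eq_single a]
      · simp [C, ha]
      · intro b _ hb
        simp [C, ha, Ne.symm hb]
      · simp
    have hne : ∀ a, a ≠ i0 → u a = v a := fun a ha => by rw [← hcol a u ha, huv, hcol a v ha]
    funext a
    by_cases ha : a = i0
    · subst ha
      have h := congrFun huv i0
      simp only [Matrix.mulVec, dotProduct] at h
      rw [← Finset.add_sum_erase _ _ (Finset.mem_univ i0), ← Finset.add_sum_erase _ _ (Finset.mem_univ i0),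
        Finset.sum_congr rfl (fun b hb => by rw [hne b (Finset.ne_of_mem_erase hb)]), add_left_inj] at h
      exact mul_left_cancel₀ (by simp [C]) h
    · exact hne a ha
  let Ak : ((Set.range (fun s : Fˣ => s ^ 2)) × ({j : Fin n // j ≠ i0} → F)) → GL (Fin n) F := fun k => Matrix.SpecialLinearGroup.toGL (⟨A0.1, A0.2⟩ : Matrix.SpecialLinearGroup (Fin n) F) * Matrix.GeneralLinearGroup.mk'' (C k) (hC k)
  let Bk : ((Set.range (fun s : Fˣ => s ^ 2)) × ({j : Fin n // j ≠ i0} → F)) → (Matrix (Fin n) (Fin n) F) := fun k => (Ak k : Matrix _ _ F)ᵀ * (B : Matrix _ _ F) * (Ak k : Matrix _ _ F)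
  have hBk : Function.Injective Bk := by
    intro k k' h
    set D : Matrix (Fin n) (Fin n) F := (A0 : Matrix _ _ F)ᵀ * (B : Matrix _ _ F) * (A0 : Matrix _ _ F) with hD
    have hc : D i0 i0 ≠ 0 := by
      have : D i0 i0 = x ⬝ᵥ ((B : Matrix _ _ F) *ᵥ x) := by
        rw [← hA0, hD, Matrix.mul_assoc]
        simp [Matrix.mul_apply, Matrix.mulVec, dotProduct, Pi.single_apply]
      rw [this]; exact hxB
    have he : ∀ k b, Bk k i0 b = ((k.1.2.choose : Fˣ) : F) * (if hb : b = i0 then ((k.1.2.choose : Fˣ) : F) * D i0 i0 else D i0 b + k.2 ⟨b, hb⟩ * D i0 i0) := by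
      intro k b
      have h1 : Bk k = (C k)ᵀ * D * C k := by
        simp [Bk, Ak, D, Matrix.transpose_mul, Matrix.mul_assoc]
        rfl
      rw [h1, Matrix.mul_assoc, Matrix.mul_apply, Finset.sum_eq_single i0]
      · rw [Matrix.mul_apply]
        by_cases hb : b = i0
        · subst hb
          rw [Finset.sum_eq_single i0] <;> simp +contextual [C]
          ring
        · simp only [dif_neg hb]
          have : ∀ a, D i0 a * C k a b = (if a = b then D i0 a else 0) + (if a = i0 then D i0 a * k.2 ⟨b, hb⟩ else 0) := fun a => by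
            simp [C, hb, mul_add]
          simp only [this, Finset.sum_add_distrib, Finset.sum_ite_eq', Finset.mem_univ, if_true]
          simp [C]
          ring
      · intro a _ ha
        simp [C, ha]
      · simp
    have h00 := congrFun (congrFun h i0) i0
    rw [he, he, dif_pos rfl, dif_pos rfl, ← mul_assoc, ← mul_assoc] at h00
    have hsq := mul_right_cancel₀ hc h00
    have h1 : k.1 = k'.1 := Subtype.ext (by
      rw [← k.1.2.choose_spec, ← k'.1.2.choose_spec]
      apply Units.ext
      simpa [pow_two] using hsq)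
    refine Prod.ext h1 (funext fun b => ?_)
    have hb := congrFun (congrFun h i0) (b : Fin n)
    rw [he, he, dif_neg b.2, dif_neg b.2, h1] at hb
    exact mul_right_cancel₀ hc (add_left_cancel (mul_left_cancel₀ (Units.ne_zero _) hb))
  let wv : ((Set.range (fun s : Fˣ => s ^ 2)) × ({j : Fin n // j ≠ i0} → F)) → (Fin d → L) := fun k => ρL (hh (Ak k)⁻¹) w
  have hev : ∀ k v, σ v (wv k) = ψ (Bk k) v • wv k := by
    intro k v
    set A := (Ak k)⁻¹ with hA
    have hinv : (A : Matrix _ _ F) * ((A⁻¹ : GL (Fin n) F) : Matrix (Fin n) (Fin n) F) = 1 := by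
      rw [← Units.val_mul, mul_inv_cancel, Units.val_one]
    let N : (Matrix (Fin n) (Fin n) F) := ((A⁻¹ : GL (Fin n) F) : Matrix (Fin n) (Fin n) F) * v.toAdd * ((A⁻¹ : GL (Fin n) F) : Matrix (Fin n) (Fin n) F)ᵀ
    have hN : (A : Matrix _ _ F) * N * (A : Matrix _ _ F)ᵀ = v.toAdd := by
      simp only [N, Matrix.mul_assoc]
      rw [← transpose_mul, hinv, transpose_one, mul_one, ← Matrix.mul_assoc, hinv, one_mul]
    have hc := huh A N
    rw [hN, ofAdd_toAdd] at hc
    show ρL (U v) (ρL (hh A) w) = _
    rw [← Module.End.mul_apply, ← map_mul, hc, map_mul, Module.End.mul_apply]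
    show ρL (hh A) (σ (Multiplicative.ofAdd N) w) = _
    rw [hwχ, map_smul]
    congr 1
    rw [← hB, hψapp, hψapp, toAdd_ofAdd, hpr, hpr]
    congr 3
    clear_value N
    rw [← hN]
    have hAk : Ak k = A⁻¹ := (inv_inv _).symm
    simp only [Bk, hAk]
    rw [transpose_mul, transpose_mul, transpose_transpose]
    have hi' : (A : Matrix (Fin n) (Fin n) F)ᵀ * ((A⁻¹ : GL (Fin n) F) : Matrix (Fin n) (Fin n) F)ᵀ = 1 := by
      rw [← transpose_mul, ← Units.val_mul, inv_mul_cancel, Units.val_one, transpose_one]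
    calc Matrix.trace (N * (B : Matrix (Fin n) (Fin n) F)ᵀ)
        = Matrix.trace (((A⁻¹ : GL (Fin n) F) : Matrix (Fin n) (Fin n) F) * (A : Matrix (Fin n) (Fin n) F) * (N * (B : Matrix (Fin n) (Fin n) F)ᵀ)) := by
          rw [← Units.val_mul, inv_mul_cancel, Units.val_one, one_mul]
      _ = Matrix.trace ((A : Matrix (Fin n) (Fin n) F) * (N * (B : Matrix (Fin n) (Fin n) F)ᵀ) * ((A⁻¹ : GL (Fin n) F) : Matrix (Fin n) (Fin n) F)) := by
          rw [Matrix.mul_assoc ((A⁻¹ : GL (Fin n) F) : Matrix (Fin n) (Fin n) F), Matrix.trace_mul_comm]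
      _ = _ := by
          congr 1
          simp only [Matrix.mul_assoc]
          rw [← Matrix.mul_assoc (A : Matrix (Fin n) (Fin n) F)ᵀ, hi', one_mul]
  have hwv0 : ∀ k, wv k ≠ 0 := fun k h => hw0 (by
    have h' := congrArg (ρL ((hh (Ak k)⁻¹)⁻¹)) h
    rw [map_zero, ← Module.End.mul_apply, ← map_mul, inv_mul_cancel, map_one, Module.End.one_apply] at h'
    exact h')
  have hcard0 : ((Fintype.card (Multiplicative (Matrix (Fin n) (Fin n) F)) : ℕ) : L) ≠ 0 := by
    rw [show Fintype.card (Multiplicative (Matrix (Fin n) (Fin n) F)) = q ^ (n * n) by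
      rw [← Nat.card_eq_fintype_card, Nat.card_congr Multiplicative.toAdd]
      simp [Matrix, Nat.card_eq_fintype_card, hq, ← pow_mul]]
    rw [← hq, FiniteField.card F p |>.choose_spec.2]
    push_cast
    exact pow_ne_zero _ (pow_ne_zero _ hpL)
  have hli : LinearIndependent L wv := by
    rw [Fintype.linearIndependent_iff]
    intro g hg a
    have h1 := congrArg (fun x => ∑ v : Multiplicative (Matrix (Fin n) (Fin n) F), (ψ (Bk a) v⁻¹) • σ v x) hg
    simp only [map_sum, map_smul, hev, map_zero, smul_zero, Finset.sum_const_zero, Finset.smul_sum, smul_smul] at h1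
    rw [Finset.sum_comm] at h1
    simp only [← Finset.sum_smul] at h1
    rw [Finset.sum_eq_single a] at h1
    · have hs : ∑ v : Multiplicative (Matrix (Fin n) (Fin n) F), ψ (Bk a) v⁻¹ * (g a * ψ (Bk a) v)
          = g a * (Fintype.card (Multiplicative (Matrix (Fin n) (Fin n) F)) : L) := by
        simp only [mul_left_comm _ (g a), ← map_mul, inv_mul_cancel, map_one, mul_one, Finset.sum_const, Finset.card_univ, nsmul_eq_mul]
        exact mul_comm _ _
      rw [hs, smul_eq_zero] at h1
      exact (mul_eq_zero.mp (h1.resolve_right (hwv0 a))).resolve_right hcard0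
    · intro b _ hb
      have hne : ψ (Bk a) ≠ ψ (Bk b) := fun h => hb (hBk (hψinj h.symm))
      have hz : ∑ v : Multiplicative (Matrix (Fin n) (Fin n) F), ψ (Bk a) v⁻¹ * ψ (Bk b) v = 0 := by
        let θ : Multiplicative (Matrix (Fin n) (Fin n) F) →* L :=
          { toFun := fun v => ψ (Bk a) v⁻¹ * ψ (Bk b) v
            map_one' := by simp
            map_mul' := fun x y => by rw [mul_inv, map_mul, map_mul]; ring }
        refine sum_hom_units_eq_zero θ fun h => hne (MonoidHom.ext fun v => ?_)
        have h2 := DFunLike.congr_fun h v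
        simp only [θ, MonoidHom.coe_mk, OneHom.coe_mk, MonoidHom.one_apply] at h2
        calc ψ (Bk a) v = ψ (Bk a) v * (ψ (Bk a) v⁻¹ * ψ (Bk b) v) := by rw [h2, mul_one]
          _ = ψ (Bk b) v := by rw [← mul_assoc, ← map_mul, mul_inv_cancel, map_one, one_mul]
      simp only [mul_left_comm _ (g b), ← Finset.mul_sum, hz, mul_zero, zero_smul]
    · simp
  have h := hli.fintype_card_le_finrank
  rw [Fintype.card_prod, Fintype.card_fun, Fintype.card_subtype_compl, Fintype.card_subtype_eq, Fintype.card_fin, hq,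
    Module.finrank_fin_fun] at h
  refine le_trans ?_ h
  have hr : q - 1 ≤ 2 * Fintype.card (Set.range (fun s : Fˣ => s ^ 2)) := by
    have hk : Nat.card (powMonoidHom 2 : Fˣ →* Fˣ).ker ≤ 2 := by
      rw [Nat.card_eq_fintype_card]
      refine (Fintype.card_le_of_injective (fun u : (powMonoidHom 2 : Fˣ →* Fˣ).ker =>
        if ((u : Fˣ) : F) = 1 then (0 : Fin 2) else 1) ?_).trans (by simp)
      intro u v huv
      have key : ∀ u : (powMonoidHom 2 : Fˣ →* Fˣ).ker, ((u : Fˣ) : F) = 1 ∨ ((u : Fˣ) : F) = -1 := fun u =>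
        sq_eq_one_iff.mp (by rw [← Units.val_pow_eq_pow_val]; exact congrArg Units.val u.2)
      rcases key u with h1 | h1 <;> rcases key v with h2 | h2
      · exact Subtype.ext (Units.ext (h1.trans h2.symm))
      · simp only [h1, h2, if_true] at huv
        split_ifs at huv with h3
        · exact Subtype.ext (Units.ext (by rw [h1, h2, h3]))
        · simp at huv
      · simp only [h1, h2, if_true] at huv
        split_ifs at huv with h3
        · exact Subtype.ext (Units.ext (by rw [h1, h2, h3]))
        · simp at huv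
      · exact Subtype.ext (Units.ext (h1.trans h2.symm))
    have hm := Subgroup.card_mul_index (powMonoidHom 2 : Fˣ →* Fˣ).ker
    rw [Subgroup.index_ker, Nat.card_units, Nat.card_eq_fintype_card (α := F), hq] at hm
    rw [← hm, ← Nat.card_eq_fintype_card (α := Set.range _)]
    exact Nat.mul_le_mul_right _ hk
  rw [mul_comm (q ^ (n - 1))]
  apply Nat.div_le_of_le_mul
  rw [← mul_assoc]
  exact Nat.mul_le_mul_right _ hr

end Cfsg.Agent.S2393
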