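import Cfsg.Statements.S2394
import Mathlib

set_option autoImplicit false
open Cfsg

namespace Cfsg.Agent.S2394

open Matrix

/-- A central elementary abelian `r`-subgroup of rank `n`, killed by every linear character,
needs dimension at least `2 n`. -/
theorem bound {F : Type*} [Field F] [Finite F] {H : Type*} [Group H] (A : Subgroup H) (hAc : A ≤ Subgroup.center H)
    {r : ℕ} (hr : r.Prime) (hrF : (r : F) ≠ 0) (hχ : ∀ χ : H →* Fˣ, ∀ a ∈ A, χ a = 1) :
    ∀ (d n : ℕ) (B : Subgroup H), B ≤ A → (∀ a ∈ B, a ^ r = 1) → Nat.card B = r ^ n →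
      ∀ (V : Type _) [AddCommGroup V] [Module F V] [FiniteDimensional F V] (ρ : H →* (V →ₗ[F] V)),
        Module.finrank F V = d → (∀ a ∈ B, ρ a = 1 → a = 1) → 2 * n ≤ d := by
  intro d
  induction d using Nat.strong_induction_on with
  | _ d ih =>
    intro n B hBA hexp hcard V _ _ _ ρ hd hfaith
    by_cases hn : n = 0
    · omega
    -- an irreducible invariant subspace
    have hnt : Nontrivial V := by
      by_contra h
      rw [not_nontrivial_iff_subsingleton] at h
      have : B = ⊥ := (Subgroup.eq_bot_iff_forall _).mpr fun a ha => hfaith a ha (LinearMap.ext fun v => Subsingleton.elim _ _)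
      rw [this, Subgroup.card_bot] at hcard
      exact absurd hcard.symm (Nat.one_lt_pow hn hr.one_lt).ne'
    obtain ⟨W, ⟨hW0, hWinv⟩, hWmin⟩ := exists_minimalFor_of_wellFoundedLT
      (fun W : Submodule F V => W ≠ ⊥ ∧ ∀ h, ∀ w ∈ W, ρ h w ∈ W) (fun W => W) ⟨⊤, top_ne_bot, fun _ _ _ => trivial⟩
    let ρW : H →* (W →ₗ[F] W) :=
      { toFun := fun h => (ρ h).restrict (fun w hw => hWinv h w hw)
        map_one' := by ext w; simp
        map_mul' := fun a b => by ext w; simp }
    have hρW : ∀ h (w : W), ((ρW h w : W) : V) = ρ h w := fun h w => rfl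
    let ρQ : H →* ((V ⧸ W) →ₗ[F] (V ⧸ W)) :=
      { toFun := fun h => W.mapQ W (ρ h) (fun w hw => hWinv h w hw)
        map_one' := by ext v; simp
        map_mul' := fun a b => by ext v; simp }
    -- the commutant of the irreducible action is a field
    let D := Subalgebra.centralizer F (Set.range ρW)
    haveI : Finite V := Module.finite_of_finite F
    haveI : Finite (W →ₗ[F] W) := Finite.of_injective (fun f => (f : W → W)) DFunLike.coe_injective
    haveI : Finite D := Finite.of_injective (fun f : D => (f : W →ₗ[F] W)) Subtype.val_injective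
    haveI : Nontrivial W := Submodule.nontrivial_iff_ne_bot.mpr hW0
    haveI : Nontrivial D := inferInstance
    have hinj : ∀ f : D, f ≠ 0 → Function.Injective (f : W →ₗ[F] W) := by
      intro f hf
      rw [← LinearMap.ker_eq_bot]
      by_contra hk
      let U : Submodule F V := (LinearMap.ker (f : W →ₗ[F] W)).map W.subtype
      have hU0 : U ≠ ⊥ := by
        simp only [U, ne_eq, Submodule.map_eq_bot_iff, Submodule.ker_subtype]
        intro h
        exact hk (Submodule.map_injective_of_injective (f := W.subtype) W.injective_subtype (h.trans (Submodule.map_bot _).symm))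
      have hUinv : ∀ h, ∀ u ∈ U, ρ h u ∈ U := by
        rintro h _ ⟨w, hw, rfl⟩
        refine ⟨ρW h w, ?_, rfl⟩
        have := LinearMap.congr_fun ((Subalgebra.mem_centralizer_iff F).mp f.2 (ρW h) ⟨h, rfl⟩) w
        simp only [Module.End.mul_apply, SetLike.mem_coe, LinearMap.mem_ker] at hw this ⊢
        rw [← this, hw, map_zero]
      have hWU : W ≤ U := hWmin ⟨hU0, hUinv⟩ (Submodule.map_subtype_le _ _)
      exact hf (Subtype.ext (LinearMap.ext fun w => by
        obtain ⟨w', hw', he⟩ := hWU w.2
        rw [show w = w' from Subtype.ext he.symm]; exact hw'))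
    haveI : NoZeroDivisors D := ⟨fun {f g} hfg => by
      by_contra h
      push Not at h
      refine h.2 (Subtype.ext (LinearMap.ext fun w => hinj f h.1 ?_))
      have := LinearMap.congr_fun (congrArg Subtype.val hfg) w
      simpa using this⟩
    haveI : IsDomain D := NoZeroDivisors.to_isDomain D
    have hcomm : ∀ x y : D, x * y = y * x := (Finite.isDomain_to_isField D).mul_comm
    letI : CommRing D := { (inferInstance : Ring D) with mul_comm := hcomm }
    let φ : B →* D :=
      { toFun := fun a => ⟨ρW a, (Subalgebra.mem_centralizer_iff F).mpr fun g hg => by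
          obtain ⟨h, rfl⟩ := hg
          rw [← map_mul, ← map_mul, Subgroup.mem_center_iff.mp (hAc (hBA a.2)) h]⟩
        map_one' := Subtype.ext (map_one ρW)
        map_mul' := fun a b => Subtype.ext (map_mul ρW (a : H) (b : H)) }
    let ψ : B →* Dˣ := φ.toHomUnits
    haveI : Finite B := Nat.finite_of_card_ne_zero (by rw [hcard]; exact pow_ne_zero _ hr.ne_zero)
    have hrange : Nat.card ψ.range ≤ r := by
      classical
      have hmem : ∀ u : ψ.range, ((u : Dˣ) : D) ∈ (Polynomial.nthRoots r (1 : D)).toFinset := by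
        rintro ⟨_, a, rfl⟩
        rw [Multiset.mem_toFinset, Polynomial.mem_nthRoots hr.pos]
        show ((ψ a : Dˣ) : D) ^ r = 1
        rw [← Units.val_pow_eq_pow_val, ← map_pow, show a ^ r = 1 from Subtype.ext (hexp a a.2), map_one, Units.val_one]
      refine (Nat.card_le_card_of_injective (fun u : ψ.range =>
        (⟨((u : Dˣ) : D), hmem u⟩ : (Polynomial.nthRoots r (1 : D)).toFinset))
        fun u v h => Subtype.ext (Units.ext (congrArg Subtype.val h))).trans ?_
      rw [Nat.card_eq_fintype_card, Fintype.card_coe]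
      exact (Multiset.toFinset_card_le _).trans (Polynomial.card_nthRoots r 1)
    -- the kernel acts faithfully on the quotient
    let B' : Subgroup H := ψ.ker.map B.subtype
    have hB'B : B' ≤ B := Subgroup.map_subtype_le _
    have hq : ∀ a ∈ B', ρQ a = 1 → a = 1 := by
      rintro _ ⟨a, ha, rfl⟩ h1
      have hW1 : ∀ w : V, w ∈ W → ρ (a : H) w = w := fun w hw => by
        have := congrArg (fun u : Dˣ => (((u : D) : W →ₗ[F] W) ⟨w, hw⟩ : V)) (MonoidHom.mem_ker.mp ha)
        simpa [ψ, φ, MonoidHom.coe_toHomUnits, hρW] using this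
      have hV : ∀ v : V, ρ (a : H) v - v ∈ W := fun v => by
        have := LinearMap.congr_fun h1 (Submodule.Quotient.mk v)
        exact (Submodule.Quotient.eq W).mp this
      have hpow : ∀ (i : ℕ) (v : V), (ρ (a : H) ^ i) v = v + (i : F) • (ρ (a : H) v - v) := by
        intro i
        induction i with
        | zero => intro v; simp
        | succ i ihi =>
          intro v
          rw [pow_succ', Module.End.mul_apply, ihi, map_add, map_smul, hW1 _ (hV v), Nat.cast_succ, add_smul, one_smul]
          abel
      refine hfaith a a.2 (LinearMap.ext fun v => ?_)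
      have h := hpow r v
      rw [← map_pow, hexp a a.2, map_one, Module.End.one_apply] at h
      rw [Module.End.one_apply]
      have h0 : (r : F) • (ρ (a : H) v - v) = 0 := by
        have := congrArg (fun x => x - v) h.symm
        simpa using this
      exact sub_eq_zero.mp ((smul_eq_zero.mp h0).resolve_left hrF)
    have hdim := Submodule.finrank_quotient_add_finrank W
    have hWpos : 0 < Module.finrank F W := Module.finrank_pos
    have hkc : Nat.card B' = Nat.card ψ.ker := (Nat.card_congr (ψ.ker.equivMapOfInjective _ B.subtype_injective).toEquiv).symm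
    obtain ⟨m, hmn, hm⟩ := (Nat.dvd_prime_pow hr).mp (hcard ▸ Subgroup.card_subgroup_dvd_card ψ.ker)
    have hidx : Nat.card ψ.ker * Nat.card ψ.range = r ^ n := by
      rw [← hcard, ← Subgroup.card_mul_index ψ.ker, Subgroup.index_ker]
    have key := ih (Module.finrank F (V ⧸ W)) (by omega) m B' (hB'B.trans hBA)
      (fun a ha => hexp a (hB'B ha)) (hkc.trans hm) (V ⧸ W) ρQ rfl hq
    by_cases hmeq : m = n
    · omega
    · have hm1 : n ≤ m + 1 := by
        by_contra h
        have h1 : r ^ (m + 2) ≤ r ^ n := Nat.pow_le_pow_right hr.pos (by omega)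
        rw [← hidx, hm, pow_add] at h1
        have h2 : r ^ 2 ≤ Nat.card ψ.range := Nat.le_of_mul_le_mul_left h1 (pow_pos hr.pos _)
        nlinarith [hr.two_le]
      have h2 : 2 ≤ Module.finrank F W := by
        by_contra h
        have h1 : Module.finrank F W = 1 := by omega
        have hker : ψ.ker = ⊤ := by
          refine eq_top_iff.mpr fun a _ => Units.ext (Subtype.ext ?_)
          show ρW a = 1
          let χ : H →* Fˣ := ((LinearMap.det : (W →ₗ[F] W) →* F).comp ρW).toHomUnits
          have h0 : LinearMap.det (ρW a) = 1 := congrArg Units.val (hχ χ a (hBA a.2))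
          obtain ⟨w, -, hw⟩ := (finrank_eq_one_iff' (K := F) (V := W)).mp h1
          obtain ⟨c, hc⟩ := hw (ρW a w)
          have hsc : ρW a = c • (1 : W →ₗ[F] W) := LinearMap.ext fun x => by
            obtain ⟨e, rfl⟩ := hw x
            simp [← hc, smul_comm e c]
          rw [hsc, LinearMap.det_smul, h1, pow_one, map_one, mul_one] at h0
          rw [hsc, h0, one_smul]
        rw [hker, Subgroup.card_top, hcard] at hm
        exact hmeq (Nat.pow_right_injective hr.two_le hm).symm
      omega

theorem neg_one_ne {F : Type*} [Field F] (h : ringChar F ≠ 2) : (-1 : Matrix.SpecialLinearGroup (Fin 2) F) ≠ 1 := fun e => by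
  have h' : ((-1 : Matrix.SpecialLinearGroup (Fin 2) F) : Matrix (Fin 2) (Fin 2) F) 0 0 = 1 := by rw [e]; simp
  simp at h'
  exact Ring.neg_one_ne_one_of_char_ne_two h h'

/-- `n` copies of `SL₂` inside the symplectic group. -/
theorem exists_embed {F : Type*} [Field F] (n : ℕ) :
    ∃ e : (Fin n → Matrix.SpecialLinearGroup (Fin 2) F) →* ↥(Matrix.symplecticGroup (Fin n) F), Function.Injective e := by
  let M : (Fin n → Matrix.SpecialLinearGroup (Fin 2) F) → Matrix (Fin n ⊕ Fin n) (Fin n ⊕ Fin n) F := fun f =>
    fromBlocks (diagonal fun i => (f i : Matrix (Fin 2) (Fin 2) F) 0 0) (diagonal fun i => (f i : Matrix (Fin 2) (Fin 2) F) 0 1)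
      (diagonal fun i => (f i : Matrix (Fin 2) (Fin 2) F) 1 0) (diagonal fun i => (f i : Matrix (Fin 2) (Fin 2) F) 1 1)
  let φ : (Fin n → Matrix.SpecialLinearGroup (Fin 2) F) →* Matrix (Fin n ⊕ Fin n) (Fin n ⊕ Fin n) F :=
    { toFun := M
      map_one' := by simp [M, fromBlocks_one]
      map_mul' := fun f g => by simp [M, fromBlocks_multiply, Matrix.mul_apply, Fin.sum_univ_two] }
  refine ⟨φ.codRestrict _ fun f => ?_, fun f g h => funext fun i => Subtype.ext ?_⟩
  · have hd : ∀ i, (f i : Matrix (Fin 2) (Fin 2) F) 0 0 * (f i : Matrix (Fin 2) (Fin 2) F) 1 1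
        - (f i : Matrix (Fin 2) (Fin 2) F) 0 1 * (f i : Matrix (Fin 2) (Fin 2) F) 1 0 = 1 := fun i => by
      rw [← Matrix.det_fin_two]; exact (f i).2
    rw [SymplecticGroup.mem_iff]
    show M f * Matrix.J (Fin n) F * (M f)ᵀ = Matrix.J (Fin n) F
    simp only [M, Matrix.J, fromBlocks_transpose, diagonal_transpose, fromBlocks_multiply, mul_zero, zero_mul, add_zero,
      zero_add, mul_one, neg_mul, mul_neg, diagonal_mul_diagonal, ← diagonal_one, diagonal_neg, diagonal_add,
      ← diagonal_zero]
    congr 1 <;> congr 1 <;> funext i <;> linear_combination (norm := ring_nf) (0 : F)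
    all_goals first | linear_combination hd i | linear_combination -hd i | ring
  · have h' : M f = M g := congrArg Subtype.val h
    ext a b
    fin_cases a <;> fin_cases b
    · simpa [M] using congrFun (congrFun h' (Sum.inl i)) (Sum.inl i)
    · simpa [M] using congrFun (congrFun h' (Sum.inl i)) (Sum.inr i)
    · simpa [M] using congrFun (congrFun h' (Sum.inr i)) (Sum.inl i)
    · simpa [M] using congrFun (congrFun h' (Sum.inr i)) (Sum.inr i)

/-- The smallest degree of a faithful representation of the symplectic group `Sp_{2n}(q)` over its own field `F_q` is `2n`: every injective homomorphism from `Sp_{2n}(F)` to `GL_d(F)`, `F` the field with `q` elements, has `d ≥ 2n`. -/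
theorem result {F : Type*} [Field F] [Fintype F] (n : ℕ) {d : ℕ}
    (ρ : ↥(Matrix.symplecticGroup (Fin n) F) →* GL (Fin d) F) (hρ : Function.Injective ρ) : 2 * n ≤ d := by
  classical
  rcases Nat.eq_zero_or_pos n with rfl | hn
  · omega
  obtain ⟨e, he⟩ := exists_embed (F := F) n
  let R : (Fin n → Matrix.SpecialLinearGroup (Fin 2) F) →* ((Fin d → F) →ₗ[F] (Fin d → F)) :=
    (Matrix.toLinAlgEquiv' (R := F) (n := Fin d)).toMonoidHom.comp ((Units.coeHom _).comp (ρ.comp e))
  have hR : ∀ f, R f = 1 → f = 1 := fun f hf => he (hρ (by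
    rw [map_one, map_one]
    apply Units.ext
    apply (Matrix.toLinAlgEquiv' (R := F) (n := Fin d)).injective
    rw [Units.val_one, map_one]
    exact hf))
  have hd : Module.finrank F (Fin d → F) = d := Module.finrank_fin_fun F
  by_cases h2 : ringChar F = 2
  · -- even characteristic: a prime divisor of q + 1
    have hq2 : 2 ≤ Fintype.card F := Fintype.one_lt_card
    have heven : Even (Fintype.card F) := by
      rw [Nat.even_iff]; exact FiniteField.even_card_of_char_two h2
    obtain ⟨r, hr, hrd⟩ := Nat.exists_prime_and_dvd (show Fintype.card F + 1 ≠ 1 by omega)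
    haveI := Fact.mk hr
    have hr2 : r ≠ 2 := fun h => by
      obtain ⟨k, hk⟩ := heven
      obtain ⟨j, hj⟩ := h ▸ hrd
      omega
    have hnot : ¬ r ∣ Fintype.card F - 1 := fun h => by
      have h' : r ∣ 2 := by
        have := Nat.dvd_sub hrd h
        rwa [show Fintype.card F + 1 - (Fintype.card F - 1) = 2 by omega] at this
      exact hr2 ((Nat.prime_dvd_prime_iff_eq hr Nat.prime_two).mp h')
    have hrF : (r : F) ≠ 0 := fun h => by
      rw [ringChar.spec, h2] at h
      exact hr2 ((Nat.prime_dvd_prime_iff_eq Nat.prime_two hr).mp h).symm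
    have hGL : r ∣ Nat.card (GL (Fin 2) F) := by
      rw [Matrix.card_GL_field, Fin.prod_univ_two]
      simp only [Fin.val_zero, pow_zero, Fin.val_one, pow_one]
      refine Dvd.dvd.mul_right ?_ _
      rw [show Fintype.card F ^ 2 - 1 = (Fintype.card F + 1) * (Fintype.card F - 1) from by
        rw [← Nat.sq_sub_sq, one_pow]]
      exact hrd.mul_right _
    obtain ⟨g, hg⟩ := exists_prime_orderOf_dvd_card' r hGL
    have hdet : Matrix.det (g : Matrix (Fin 2) (Fin 2) F) = 1 := by
      let u := Matrix.GeneralLinearGroup.det g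
      have h1 : orderOf u ∣ r := hg ▸ orderOf_map_dvd _ g
      have h2' : orderOf u ∣ Fintype.card F - 1 := by
        rw [← Fintype.card_units]; exact orderOf_dvd_card
      rcases (Nat.dvd_prime hr).mp h1 with h | h
      · exact congrArg Units.val (orderOf_eq_one_iff.mp h)
      · exact absurd (h ▸ h2') hnot
    let c : Matrix.SpecialLinearGroup (Fin 2) F := ⟨(g : Matrix (Fin 2) (Fin 2) F), hdet⟩
    have hc : orderOf c = r := by
      refine orderOf_eq_prime ?_ fun h => ?_
      · apply Subtype.ext
        rw [Matrix.SpecialLinearGroup.coe_pow, Matrix.SpecialLinearGroup.coe_one]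
        show (g : Matrix (Fin 2) (Fin 2) F) ^ r = 1
        rw [← Units.val_pow_eq_pow_val, ← hg, pow_orderOf_eq_one, Units.val_one]
      · have : g = 1 := Units.ext (congrArg Subtype.val h)
        rw [this, orderOf_one] at hg
        exact hr.one_lt.ne hg
    let H := Fin n → ↥(Subgroup.zpowers c)
    let ι : H →* (Fin n → Matrix.SpecialLinearGroup (Fin 2) F) :=
      Pi.monoidHom fun i => (Subgroup.zpowers c).subtype.comp (Pi.evalMonoidHom _ i)
    have hexp : ∀ f : H, f ^ r = 1 := fun f => funext fun i => by
      rw [Pi.pow_apply, ← hc, ← Nat.card_zpowers]; exact pow_card_eq_one'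
    refine bound (⊤ : Subgroup H) ?_ hr hrF (fun χ f _ => ?_) d n ⊤ le_rfl (fun f _ => hexp f) ?_
      (Fin d → F) (R.comp ι) hd (fun f _ hf => funext fun i => Subtype.ext (congrFun (hR _ hf) i))
    · intro f _
      rw [Subgroup.mem_center_iff]
      intro g'
      funext i
      exact Std.Commutative.comm (op := (· * ·)) (g' i) (f i)
    · have h1 : orderOf (χ f) ∣ r := orderOf_dvd_of_pow_eq_one (by rw [← map_pow, hexp, map_one])
      rcases (Nat.dvd_prime hr).mp h1 with h | h
      · exact orderOf_eq_one_iff.mp h
      · exfalso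
        apply hnot
        rw [← h, ← Fintype.card_units]
        exact orderOf_dvd_card
    · rw [Subgroup.card_top, Nat.card_pi, Finset.prod_const, Finset.card_univ, Fintype.card_fin, Nat.card_zpowers, hc]
  · -- odd characteristic: the central involutions are commutators
    have hne := neg_one_ne h2
    obtain ⟨x, y, hxy⟩ : ∃ x y : F, x ^ 2 + y ^ 2 = -1 := by
      obtain ⟨x, y, h⟩ := FiniteField.exists_root_sum_quadratic (f := (Polynomial.X : Polynomial F) ^ 2) (g := Polynomial.X ^ 2 + Polynomial.C 1)
        (by simp) (by rw [Polynomial.degree_X_pow_add_C (by norm_num)]; rfl) (FiniteField.odd_card_of_char_ne_two h2)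
      refine ⟨x, y, ?_⟩
      simp at h
      linear_combination h
    let a : Matrix.SpecialLinearGroup (Fin 2) F := ⟨!![0, 1; -1, 0], by simp [Matrix.det_fin_two]⟩
    let b : Matrix.SpecialLinearGroup (Fin 2) F := ⟨!![x, y; y, -x], by
      simp [Matrix.det_fin_two]; linear_combination -hxy⟩
    have hab : a * b = -1 * (b * a) := by
      apply Subtype.ext
      show !![(0 : F), 1; -1, 0] * !![x, y; y, -x] = (-1 : Matrix (Fin 2) (Fin 2) F) * (!![x, y; y, -x] * !![(0 : F), 1; -1, 0])
      ext i j
      fin_cases i <;> fin_cases j <;> simp [Matrix.mul_apply, Fin.sum_univ_two]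
    let A : Subgroup (Fin n → Matrix.SpecialLinearGroup (Fin 2) F) :=
      Subgroup.pi Set.univ fun _ => Subgroup.zpowers (-1)
    have hm : ∀ f ∈ A, ∀ i, f i = 1 ∨ f i = -1 := by
      intro f hf i
      obtain ⟨k, hk⟩ := Subgroup.mem_zpowers_iff.mp (hf i trivial)
      rcases Int.even_or_odd k with hk' | hk'
      · exact Or.inl (by rw [← hk, hk'.neg_one_zpow])
      · exact Or.inr (by rw [← hk, hk'.neg_one_zpow])
    have ho : orderOf (-1 : Matrix.SpecialLinearGroup (Fin 2) F) = 2 :=
      orderOf_eq_prime (by rw [neg_one_sq]) hne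
    refine bound A ?_ Nat.prime_two (by exact_mod_cast Ring.two_ne_zero h2) (fun χ f hf => ?_) d n A le_rfl ?_ ?_
      (Fin d → F) R hd (fun f _ hf => hR f hf)
    · intro f hf
      rw [Subgroup.mem_center_iff]
      intro g'
      funext i
      rcases hm f hf i with h | h <;> simp [h]
    · let g1 : Fin n → Matrix.SpecialLinearGroup (Fin 2) F := fun i => if f i = 1 then 1 else a
      let g2 : Fin n → Matrix.SpecialLinearGroup (Fin 2) F := fun i => if f i = 1 then 1 else b
      have hf' : g1 * g2 = f * (g2 * g1) := funext fun i => by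
        rcases hm f hf i with h | h
        · simp [g1, g2, h]
        · simp only [g1, g2, Pi.mul_apply, h, hne, if_false]; exact hab
      have := congrArg χ hf'
      rw [map_mul, map_mul, map_mul, mul_comm (χ g2) (χ g1)] at this
      exact mul_eq_right.mp this.symm
    · intro f hf
      funext i
      rcases hm f hf i with h | h <;> simp [h]
    · rw [show Nat.card A = Nat.card (Set.univ.pi fun _ : Fin n => ((Subgroup.zpowers (-1 : Matrix.SpecialLinearGroup (Fin 2) F)) : Set (Matrix.SpecialLinearGroup (Fin 2) F))) from rfl, Nat.card_congr (Equiv.Set.univPi _), Nat.card_pi, Finset.prod_const, Finset.card_univ, Fintype.card_fin]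
      show Nat.card (Subgroup.zpowers (-1 : Matrix.SpecialLinearGroup (Fin 2) F)) ^ n = 2 ^ n
      rw [Nat.card_zpowers, ho]

end Cfsg.Agent.S2394
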