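import Cfsg.Statements.S2397
import Cfsg.Agent.Lib.Chev.CoverMap
-- import your own Cfsg.Agent.* helpers here

set_option autoImplicit false
open Cfsg

namespace Cfsg.Agent.S2397

private lemma rank_one_torus_mul {K : Type*} [Field K] [Finite K] {G : Type*} [Group G] (x y : K → G)
    (hx : ∀ t u, x t * x u = x (t + u)) (hy : ∀ t u, y t * y u = y (t + u))
    (rel : ∀ t u : K, t ≠ 0 → (x t * y (-t⁻¹) * x t) * x u * (x t * y (-t⁻¹) * x t)⁻¹ = y (-(t⁻¹ ^ 2 * u)))
    (comm : ∀ t u : K, t ≠ 0 → u ≠ 0 → Commute (x t * y (-t⁻¹) * x t * (x 1 * y (-(1 : K)⁻¹) * x 1)⁻¹)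
      (x u * y (-u⁻¹) * x u * (x 1 * y (-(1 : K)⁻¹) * x 1)⁻¹)) :
    ∀ t u : K, t ≠ 0 → u ≠ 0 → x (t * u) * y (-(t * u)⁻¹) * x (t * u) * (x 1 * y (-(1 : K)⁻¹) * x 1)⁻¹ =
      x t * y (-t⁻¹) * x t * (x 1 * y (-(1 : K)⁻¹) * x 1)⁻¹ * (x u * y (-u⁻¹) * x u * (x 1 * y (-(1 : K)⁻¹) * x 1)⁻¹) := by
  classical
  have := Fintype.ofFinite K
  have x0 : x 0 = 1 := by simpa using hx 0 0
  have y0 : y 0 = 1 := by simpa using hy 0 0
  have xn : ∀ t, (x t)⁻¹ = x (-t) := fun t => inv_eq_of_mul_eq_one_right (by rw [hx, add_neg_cancel, x0])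
  have yn : ∀ t, (y t)⁻¹ = y (-t) := fun t => inv_eq_of_mul_eq_one_right (by rw [hy, add_neg_cancel, y0])
  let w : K → G := fun t => x t * y (-t⁻¹) * x t
  have wdef : ∀ t, w t = x t * y (-t⁻¹) * x t := fun t => rfl
  have wx : ∀ t u, t ≠ 0 → w t * x u * (w t)⁻¹ = y (-(t⁻¹ ^ 2 * u)) := fun t u ht => rel t u ht
  have wneg : ∀ t, w (-t) = (w t)⁻¹ := fun t => by simp only [wdef, mul_inv_rev, xn, yn, inv_neg, neg_neg, mul_assoc]
  have wy : ∀ t v, t ≠ 0 → w t * y v * (w t)⁻¹ = x (-(t ^ 2 * v)) := fun t v ht => by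
    have h := wx (-t) (-(t ^ 2 * v)) (neg_ne_zero.2 ht)
    rw [wneg, inv_inv, show -((-t)⁻¹ ^ 2 * -(t ^ 2 * v)) = v by field_simp] at h
    rw [← h]; group
  have w' : ∀ t, t ≠ 0 → w t = y (-t⁻¹) * x t * y (-t⁻¹) := fun t ht => by
    have a := wx t t ht
    have b := wy t (-t⁻¹) ht
    rw [show -(t⁻¹ ^ 2 * t) = -t⁻¹ by field_simp] at a
    rw [show -(t ^ 2 * -t⁻¹) = t by field_simp] at b
    calc w t = (w t * x t * (w t)⁻¹) * (w t * y (-t⁻¹) * (w t)⁻¹) * (w t * x t * (w t)⁻¹) := by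
          conv_lhs => rw [← mul_inv_cancel_right (w t) (w t)]
          rw [wdef]; group
      _ = y (-t⁻¹) * x t * y (-t⁻¹) := by rw [a, b]
  have xsplit : ∀ t, t ≠ 0 → x t = y t⁻¹ * w t * y t⁻¹ := fun t ht => by
    rw [w' t ht, ← mul_assoc, ← mul_assoc, hy, add_neg_cancel, y0, one_mul, mul_assoc, hy, neg_add_cancel, y0, mul_one]
  let W := w 1
  let h : K → G := fun t => w t * (w 1)⁻¹
  have hdef : ∀ t, h t = w t * (w 1)⁻¹ := fun t => rfl
  have h1 : h 1 = 1 := mul_inv_cancel _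
  have wh : ∀ t, w t = h t * w 1 := fun t => by rw [hdef, inv_mul_cancel_right]
  have hxc : ∀ t u, t ≠ 0 → h t * x u * (h t)⁻¹ = x (t ^ 2 * u) := fun t u ht => by
    have a := wx (-1) u (neg_ne_zero.2 one_ne_zero)
    rw [wneg, inv_inv, show -((-1 : K)⁻¹ ^ 2 * u) = -u by norm_num] at a
    calc h t * x u * (h t)⁻¹ = w t * ((w 1)⁻¹ * x u * w 1) * (w t)⁻¹ := by rw [hdef]; group
      _ = x (t ^ 2 * u) := by rw [a, wy t _ ht]; congr 1; ring
  have hyc : ∀ t v, t ≠ 0 → h t * y v * (h t)⁻¹ = y (t⁻¹ ^ 2 * v) := fun t v ht => by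
    have a := wy (-1) v (neg_ne_zero.2 one_ne_zero)
    rw [wneg, inv_inv, show -((-1 : K) ^ 2 * v) = -v by norm_num] at a
    calc h t * y v * (h t)⁻¹ = w t * ((w 1)⁻¹ * y v * w 1) * (w t)⁻¹ := by rw [hdef]; group
      _ = y (t⁻¹ ^ 2 * v) := by rw [a, wx t _ ht]; congr 1; ring
  have hcomm : ∀ t u, t ≠ 0 → u ≠ 0 → h t * h u = h u * h t := comm
  have hsqmul : ∀ t u, t ≠ 0 → u ≠ 0 → h (t ^ 2 * u) = h (t ^ 2) * h u := by
    intro t u ht hu
    have conjw : ∀ v, v ≠ 0 → h t * w v * (h t)⁻¹ = w (t ^ 2 * v) := fun v hv => by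
      calc h t * w v * (h t)⁻¹ = (h t * x v * (h t)⁻¹) * (h t * y (-v⁻¹) * (h t)⁻¹) * (h t * x v * (h t)⁻¹) := by
            rw [wdef]; group
        _ = w (t ^ 2 * v) := by
          rw [hxc t v ht, hyc t _ ht, wdef]
          congr 2; congr 1
          rw [mul_inv]; ring
    have e : h t * h u * (h t)⁻¹ = h (t ^ 2 * u) * (h (t ^ 2))⁻¹ := by
      calc h t * h u * (h t)⁻¹ = (h t * w u * (h t)⁻¹) * (h t * w 1 * (h t)⁻¹)⁻¹ := by rw [hdef u]; group
        _ = w (t ^ 2 * u) * (w (t ^ 2))⁻¹ := by rw [conjw u hu, conjw 1 one_ne_zero, mul_one]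
        _ = h (t ^ 2 * u) * (h (t ^ 2))⁻¹ := by rw [hdef, hdef]; group
    rw [hcomm t u ht hu, mul_inv_cancel_right] at e
    rw [hcomm _ u (pow_ne_zero 2 ht) hu, e, inv_mul_cancel_right]
  have conjW : ∀ t, t ≠ 0 → w 1 * h t * (w 1)⁻¹ = h t⁻¹ := fun t ht => by
    have e : w 1 * w t * (w 1)⁻¹ = w t⁻¹ := by
      calc w 1 * w t * (w 1)⁻¹ = (w 1 * x t * (w 1)⁻¹) * (w 1 * y (-t⁻¹) * (w 1)⁻¹) * (w 1 * x t * (w 1)⁻¹) := by
            rw [wdef t]; group
        _ = y (-t) * x t⁻¹ * y (-t) := by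
          rw [wx 1 t one_ne_zero, wy 1 _ one_ne_zero]
          simp
        _ = w t⁻¹ := by rw [w' _ (inv_ne_zero ht), inv_inv]
    rw [hdef, hdef, show w 1 * (w t * (w 1)⁻¹) * (w 1)⁻¹ = (w 1 * w t * (w 1)⁻¹) * (w 1)⁻¹ by group, e]
  have hmul : ∀ t u, t ≠ 0 → u ≠ 0 → h (t * u) = h t * h u := by
    have hsq : ∀ s u, IsSquare s → s ≠ 0 → u ≠ 0 → h (s * u) = h s * h u := by
      rintro s u ⟨r, rfl⟩ hs hu
      rw [← sq]; exact hsqmul r u (left_ne_zero_of_mul hs) hu
    intro t u ht hu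
    by_cases h1' : IsSquare t
    · exact hsq t u h1' ht hu
    by_cases h2' : IsSquare u
    · rw [mul_comm, hsq u t h2' hu ht]; exact hcomm u t hu ht
    have hchar : ringChar K ≠ 2 := fun hc => h1' (FiniteField.isSquare_of_char_two hc t)
    obtain ⟨g, hg, hg'⟩ : ∃ g : K, ¬ IsSquare g ∧ ¬ IsSquare (1 - g) := by
      by_contra hcon
      push Not at hcon
      set A := Finset.univ.filter fun a : K => ¬ IsSquare a with hA
      set B := Finset.univ.filter fun a : K => IsSquare a ∧ a ≠ 0 with hB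
      have hsub : A.image (fun a => 1 - a) ⊆ B.erase 1 := by
        intro b hb
        simp only [hA, Finset.mem_image, Finset.mem_filter, Finset.mem_univ, true_and] at hb
        obtain ⟨a, ha, rfl⟩ := hb
        simp only [hB, Finset.mem_erase, Finset.mem_filter, Finset.mem_univ, true_and]
        exact ⟨fun e => ha (by rw [show a = 0 by linear_combination -e]; exact IsSquare.zero),
          hcon a ha, fun e => ha (by rw [show a = 1 by linear_combination -e]; exact IsSquare.one)⟩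
      have hc := Finset.card_le_card hsub
      rw [Finset.card_image_of_injective _ sub_right_injective, Finset.card_erase_of_mem (by simp [hB])] at hc
      obtain ⟨n, hn⟩ := FiniteField.exists_nonsquare hchar
      have hn0 : n ≠ 0 := fun e => hn (e ▸ IsSquare.zero)
      have hle : B.card ≤ A.card := by
        refine Finset.card_le_card_of_injOn (fun b => n * b) (fun b hb => ?_) (fun a _ b _ e => mul_left_cancel₀ hn0 e)
        simp only [hB, hA, Finset.mem_coe, Finset.mem_filter, Finset.mem_univ, true_and] at hb ⊢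
        obtain ⟨⟨r, rfl⟩, hb0⟩ := hb
        rintro ⟨s, hs⟩
        exact hn ⟨s / r, by rw [div_mul_div_comm, ← hs, mul_div_cancel_right₀ _ hb0]⟩
      have hpos : 0 < B.card := Finset.card_pos.2 ⟨1, by simp [hB]⟩
      omega
    set k := 1 - g with hk
    have hg0 : g ≠ 0 := fun e => hg (e ▸ IsSquare.zero)
    have hk0 : k ≠ 0 := fun e => hg' (e ▸ IsSquare.zero)
    have key : h (g * k⁻¹) = h g * h k⁻¹ := by
      have hsum : g + k = 1 := by rw [hk]; ring
      have c1 : -1 + g⁻¹ = k / g := by field_simp; linear_combination -hsum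
      have c2 : k⁻¹ + -1 = g / k := by field_simp; linear_combination -hsum
      have c3 : g⁻¹ + k⁻¹ = (g * k)⁻¹ := by field_simp; linear_combination hsum
      have e : w 1 = (w (g / k))⁻¹ * (w g * w k) := by
        calc w 1 = y (-1) * (x g * x k) * y (-1) := by rw [hx, hsum, w' 1 one_ne_zero, inv_one]
          _ = y (-1) * (y g⁻¹ * w g * y g⁻¹ * (y k⁻¹ * w k * y k⁻¹)) * y (-1) := by rw [← xsplit g hg0, ← xsplit k hk0]
          _ = (y (-1) * y g⁻¹) * w g * (y g⁻¹ * y k⁻¹) * w k * (y k⁻¹ * y (-1)) := by group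
          _ = y (k / g) * w g * y ((g * k)⁻¹) * w k * y (g / k) := by rw [hy, hy, hy, c1, c2, c3]
          _ = y (k / g) * (w g * y ((g * k)⁻¹) * (w g)⁻¹) * (w g * (w k * y (g / k) * (w k)⁻¹) * (w g)⁻¹) * (w g * w k) := by group
          _ = y (k / g) * x (-(g / k)) * y (k / g) * (w g * w k) := by
            rw [wy g _ hg0, wy k _ hk0, wx g _ hg0]
            congr 2
            · congr 1; field_simp
            · congr 1; field_simp
          _ = (w (g / k))⁻¹ * (w g * w k) := by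
            rw [← wneg, w' (-(g / k)) (neg_ne_zero.2 (div_ne_zero hg0 hk0)), inv_neg, neg_neg, inv_div]
      have e' : w (g / k) * w 1 = w g * w k := by rw [e]; group
      rw [wh (g / k), wh g, wh k, show h g * w 1 * (h k * w 1) = h g * (w 1 * h k * (w 1)⁻¹) * (w 1 * w 1) by group,
        conjW k hk0, mul_assoc] at e'
      exact (mul_right_cancel e').trans rfl |> fun z => by rwa [div_eq_mul_inv] at z
    have hk'' : ¬ IsSquare k⁻¹ := fun hs => hg' (isSquare_inv.1 hs)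
    -- reduce to the fixed nonsquares
    have quot : ∀ a b : K, ¬ IsSquare a → ¬ IsSquare b → IsSquare (a / b) := by
      intro a b ha hb
      have ha0 : a ≠ 0 := fun e => ha (e ▸ IsSquare.zero)
      have hb0 : b ≠ 0 := fun e => hb (e ▸ IsSquare.zero)
      rw [← quadraticChar_one_iff_isSquare (div_ne_zero ha0 hb0), div_eq_mul_inv, map_mul,
        quadraticChar_neg_one_iff_not_isSquare.2 ha, quadraticChar_neg_one_iff_not_isSquare.2 (fun hs => hb (isSquare_inv.1 hs))]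
      norm_num
    have s1 := quot t g h1' hg
    have s2 := quot u k⁻¹ h2' hk''
    have n1 : t / g ≠ 0 := div_ne_zero ht hg0
    have n2 : u / k⁻¹ ≠ 0 := div_ne_zero hu (inv_ne_zero hk0)
    have et : h t = h (t / g) * h g := by rw [← hsq _ _ s1 n1 hg0, div_mul_cancel₀ _ hg0]
    have eu : h u = h (u / k⁻¹) * h k⁻¹ := by rw [← hsq _ _ s2 n2 (inv_ne_zero hk0), div_mul_cancel₀ _ (inv_ne_zero hk0)]
    rw [show t * u = (t / g * (u / k⁻¹)) * (g * k⁻¹) by field_simp, hsq _ _ (s1.mul s2) (mul_ne_zero n1 n2)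
      (mul_ne_zero hg0 (inv_ne_zero hk0)), key, hsq _ _ s1 n1 n2, et, eu]
    calc _ = h (t / g) * (h (u / k⁻¹) * h g) * h k⁻¹ := by group
      _ = h (t / g) * (h g * h (u / k⁻¹)) * h k⁻¹ := by rw [hcomm _ g n2 hg0]
      _ = _ := by group
  exact hmul


/-- Over a finite field the relators (R3) h̄_r(t₁) h̄_r(t₂) = h̄_r(t₁ t₂) are consequences of (R1) and (R2): for each of the types G₂, B₂, D₄, F₄, E₆, E₇, E₈ (for types B₂ and G₂ the field must have more than two elements — the cases where the Chevalley group is not simple are set aside) the group presented by (R1), (R2) is canonically isomorphic to the one presented by (R1)–(R3), by an isomorphism matching the generators x̄_r(t). -/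
theorem result {K : Type*} [Field K] [Finite K] (D : Cfsg.Lie.ChevalleyDatum) (hD : D ∈ [Cfsg.Lie.chevG2, Cfsg.Lie.chevB2, Cfsg.Lie.chevD4, Cfsg.Lie.chevF4, Cfsg.Lie.chevE6, Cfsg.Lie.chevE7, Cfsg.Lie.chevE8]) (hK : D ∈ [Cfsg.Lie.chevB2, Cfsg.Lie.chevG2] → ∃ x : K, x ≠ 0 ∧ x ≠ 1) :
    ∃ e : D.SteinbergCover K ≃* D.SteinbergGroup K, ∀ (r : ℕ) (t : K), e (D.scGen K r t) = D.stGen K r t := by
  classical
  have := Fintype.ofFinite K
  obtain ⟨A, hc, hl⟩ := Lib.Chev.CoverStruct.linked_of_mem hD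
  obtain ⟨g0, hg0⟩ := IsCyclic.exists_generator (α := Kˣ)
  let h : ℕ → Kˣ → D.SteinbergCover K := fun i t =>
    Lib.Chev.CoverStruct.N D i (t : K) * (Lib.Chev.CoverStruct.N D i (1 : K))⁻¹
  have hθ : ∀ (i : ℕ), i < D.rank → ∀ t : Kˣ, Lib.Chev.CoverStruct.theta hc (h i t) = Lib.Chev.hg D A i t := fun i hi t => by
    simp only [h, map_mul, map_inv, Lib.Chev.CoverStruct.theta_N hc hi]
    rw [← Lib.Chev.ngen_neg hc (Lib.Chev.simple_lt hc hi), Lib.Chev.ngen_mul_ngen hc hi]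
  have hpw : ∀ (i : ℕ) (n : ℕ) (t : Kˣ), Lib.Chev.hg D A i (t ^ n) = Lib.Chev.hg D A i t ^ n := fun i n t => by
    induction n with
    | zero => simpa [Lib.Chev.hg, ← Lib.Chev.dg_one] using Lib.Chev.dg_eq_iff.2 fun s _ => by simp
    | succ n ih => rw [pow_succ, pow_succ, ← Lib.Chev.hg_mul, ih]
  have hcyc : ∀ (i : ℕ), i < D.rank → ∀ t : Kˣ, ∃ (n : ℕ), ∃ z ∈ Subgroup.center (D.SteinbergCover K), h i t = h i g0 ^ n * z := by
    intro i hi t
    obtain ⟨n, hn⟩ : ∃ n : ℕ, g0 ^ n = t := by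
      have := hg0 t
      rw [← mem_powers_iff_mem_zpowers] at this
      exact this
    refine ⟨n, (h i g0 ^ n)⁻¹ * h i t, Lib.Chev.CoverStruct.ker_le_center hc hl ?_, by group⟩
    rw [map_mul, map_inv, map_pow, hθ i hi, hθ i hi, ← hpw, hn, inv_mul_cancel]
  have hcomm : ∀ (i : ℕ), i < D.rank → ∀ t u : Kˣ, Commute (h i t) (h i u) := by
    intro i hi t u
    obtain ⟨n, z, hz, e⟩ := hcyc i hi t
    obtain ⟨m, z', hz', e'⟩ := hcyc i hi u
    have c1 : ∀ w, Commute z w := fun w => (Subgroup.mem_center_iff.1 hz w).symm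
    have c2 : ∀ w, Commute z' w := fun w => (Subgroup.mem_center_iff.1 hz' w).symm
    rw [e, e']
    exact ((Commute.pow_pow_self _ n m).mul_right (c2 _).symm).mul_left (c1 _)
  have hmul : ∀ (i : ℕ), i < D.rank → ∀ t u : Kˣ, h i (t * u) = h i t * h i u := by
    intro i hi t u
    have hs := Lib.Chev.simple_lt hc hi
    have hN : ∀ a : K, Lib.Chev.CoverStruct.X D (D.simple i) a * Lib.Chev.CoverStruct.X D (Lib.Chev.negI D (D.simple i)) (-a⁻¹) *
        Lib.Chev.CoverStruct.X D (D.simple i) a = Lib.Chev.CoverStruct.N D i a := fun a => by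
      simp only [Lib.Chev.CoverStruct.N, mul_assoc]
    have key := rank_one_torus_mul (K := K) (Lib.Chev.CoverStruct.X D (D.simple i)) (Lib.Chev.CoverStruct.X D (Lib.Chev.negI D (D.simple i)))
      (Lib.Chev.CoverStruct.X_add hs) (Lib.Chev.CoverStruct.X_add (Lib.Chev.negI_lt hs))
      (fun a b ha => by
        have e := Lib.Chev.CoverStruct.N_conj hc hl hi hs (Units.mk0 a ha) b
        rw [Lib.Chev.w_simple hc hi, Lib.Chev.cA_neg hc hi hs, Lib.Chev.cA_simple_self hc hi, Lib.Chev.eta_simple hc hi,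
          Units.val_mk0] at e
        rw [hN, e]
        congr 1
        simp [zpow_neg]
        try ring)
      (fun a b ha hb => by
        rw [hN, hN, hN]
        exact hcomm i hi (Units.mk0 a ha) (Units.mk0 b hb))
      (t : K) (u : K) t.ne_zero u.ne_zero
    simp only [hN] at key
    simpa only [h, Units.val_mul] using key
  have hrel : ∀ g ∈ D.steinbergRels K, FreeGroup.lift (fun p => PresentedGroup.of (rels := D.steinbergRelsAB K) p) g = 1 := by
    intro g hg
    have e : ∀ w, FreeGroup.lift (fun p => PresentedGroup.of (rels := D.steinbergRelsAB K) p) w =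
        PresentedGroup.mk (D.steinbergRelsAB K) w :=
      DFunLike.congr_fun (FreeGroup.ext_hom _ _ fun x => by rw [FreeGroup.lift_apply_of]; rfl)
    rw [e]
    rcases hg with hg | ⟨r, t₁, t₂, hr, h1, h2, rfl⟩
    · exact PresentedGroup.one_of_mem hg
    · obtain ⟨L, i, hL⟩ := Lib.Chev.exists_word_to hc ⟨r, hr⟩
      obtain ⟨c, hcn, hcx⟩ := Lib.Chev.CoverStruct.nw_conj_exact (K := K) hc hl L
      have hH : ∀ t : Kˣ, PresentedGroup.mk (D.steinbergRelsAB K) (D.stH r (t : K)) =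
          Lib.Chev.CoverStruct.nw D K L * h i t * (Lib.Chev.CoverStruct.nw D K L)⁻¹ := by
        intro t
        set k := c (Lib.Chev.sR hc i) with hk
        have a : ∀ v, Lib.Chev.CoverStruct.nw D K L * Lib.Chev.CoverStruct.X D (D.simple i) v * (Lib.Chev.CoverStruct.nw D K L)⁻¹ =
            Lib.Chev.CoverStruct.X D r ((k : K) * v) := fun v => by
          have := hcx (Lib.Chev.sR hc i) v
          rw [hL] at this
          exact this
        have b : ∀ v : K, Lib.Chev.CoverStruct.nw D K L * Lib.Chev.CoverStruct.X D (Lib.Chev.negI D (D.simple i)) v * (Lib.Chev.CoverStruct.nw D K L)⁻¹ =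
            Lib.Chev.CoverStruct.X D (Lib.Chev.negI D r) (((k⁻¹ : Kˣ) : K) * v) := fun v => by
          have := hcx (Lib.Chev.nR (Lib.Chev.sR hc i)) v
          rw [(Lib.Chev.isRootAut_wp hc L).neg, hL, hcn] at this
          exact this
        have eN : ∀ v : K, Lib.Chev.CoverStruct.nw D K L * Lib.Chev.CoverStruct.N D i v * (Lib.Chev.CoverStruct.nw D K L)⁻¹ =
            Lib.Chev.CoverStruct.X D r ((k : K) * v) * (Lib.Chev.CoverStruct.X D (Lib.Chev.negI D r) (-((k : K) * v)⁻¹) *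
              Lib.Chev.CoverStruct.X D r ((k : K) * v)) := fun v => by
          have q := b (-v⁻¹)
          rw [show ((k⁻¹ : Kˣ) : K) * -v⁻¹ = -((k : K) * v)⁻¹ by rw [Units.val_inv_eq_inv_val, mul_inv]; ring] at q
          rw [← a, ← q, Lib.Chev.CoverStruct.N]; group
        have e2 : h i t = h i (k⁻¹ * t) * (h i k⁻¹)⁻¹ := by
          rw [hmul i i.2 k⁻¹ t, (hcomm i i.2 _ _).eq, mul_inv_cancel_right]
        have e3 : h i (k⁻¹ * t) * (h i k⁻¹)⁻¹ =
            Lib.Chev.CoverStruct.N D i ((k⁻¹ * t : Kˣ) : K) * Lib.Chev.CoverStruct.N D i (-((k⁻¹ : Kˣ) : K)) := by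
          simp only [h, Lib.Chev.CoverStruct.N_neg hc i.2]; group
        have e4 := eN ((k⁻¹ * t : Kˣ) : K)
        have e5 := eN (-((k⁻¹ : Kˣ) : K))
        rw [← Units.val_mul, mul_inv_cancel_left] at e4
        rw [mul_neg, ← Units.val_mul, mul_inv_cancel, Units.val_one] at e5
        rw [e2, e3, show ∀ g a b : D.SteinbergCover K, g * (a * b) * g⁻¹ = g * a * g⁻¹ * (g * b * g⁻¹) from
          fun g a b => by group, e4, e5, Cfsg.Lie.ChevalleyDatum.stH, Lib.Chev.CoverStruct.mk_stWord]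
        simp [Lib.Chev.CoverStruct.ev, Cfsg.Lie.ChevalleyDatum.hWord, Cfsg.Lie.ChevalleyDatum.nWord, Lib.Chev.neg_eq hc hr, mul_assoc]
      rw [map_mul, map_mul, map_inv, ← Units.val_mk0 h1, ← Units.val_mk0 h2, ← Units.val_mul, hH, hH, hH, hmul i i.2,
        mul_inv_eq_one]
      group
  let back := PresentedGroup.toGroup hrel
  have hb : ∀ r t, r < D.nroots → back (D.stGen K r t) = Lib.Chev.CoverStruct.X D r t := fun r t hr => by
    rw [Lib.Chev.CoverStruct.X_eq hr]
    simp only [Cfsg.Lie.ChevalleyDatum.stGen, Cfsg.Lie.ChevalleyDatum.stX, dif_pos hr]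
    exact PresentedGroup.toGroup.of hrel
  have e1 : back.comp (Lib.Chev.CoverStruct.toSt D K) = MonoidHom.id _ := Lib.Chev.CoverStruct.hom_ext fun r hr t => by
    rw [MonoidHom.comp_apply, Lib.Chev.CoverStruct.toSt_X, hb r t hr, MonoidHom.id_apply]
  have hinj : Function.Injective (Lib.Chev.CoverStruct.toSt D K) :=
    Function.LeftInverse.injective (g := back) (DFunLike.congr_fun e1)
  exact ⟨MulEquiv.ofBijective _ ⟨hinj, Lib.Chev.CoverStruct.toSt_surjective⟩, fun r t => Lib.Chev.CoverStruct.toSt_X r t⟩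

end Cfsg.Agent.S2397
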