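import Cfsg.Statements.S2402
import Cfsg.Agent.Lib.Classical.CyclicGen

set_option autoImplicit false
open Cfsg

namespace Cfsg.Agent.S2402

/-- Explicit two-element generation of `PSL_{n+1}(K)` for a finite field `K` with more than three elements: let `k` generate the multiplicative group of `K`, `h = diag(k, k⁻¹, 1, …, 1)`, `x = 1 + E₁₂` (the elementary transvection) and `w` the monomial matrix with entries `1` in positions `(i, i+1)` and `(−1)^n` in position `(n+1, 1)`. Then `h` and `x·w` generate `SL_{n+1}(K)` modulo its centre: the subgroup they generate together with the centre is everything. -/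
theorem result {K : Type*} [Field K] [Fintype K] (hK : 3 < Fintype.card K) (n : ℕ) (hn : 1 ≤ n)
    (k : Kˣ) (hk : ∀ u : Kˣ, u ∈ Subgroup.zpowers k)
    (h x w : Matrix.SpecialLinearGroup (Fin (n + 1)) K)
    (hh : (h : Matrix (Fin (n + 1)) (Fin (n + 1)) K) =
      Matrix.diagonal (fun i => if i.val = 0 then (k : K) else if i.val = 1 then ((k⁻¹ : Kˣ) : K) else 1))
    (hx : (x : Matrix (Fin (n + 1)) (Fin (n + 1)) K) = Matrix.transvection (0 : Fin (n + 1)) (1 : Fin (n + 1)) 1)
    (hw : (w : Matrix (Fin (n + 1)) (Fin (n + 1)) K) =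
      Matrix.of (fun i j => if j.val = i.val + 1 then 1 else if i.val = n ∧ j.val = 0 then (-1) ^ n else 0)) :
    Subgroup.closure ({h, x * w} : Set (Matrix.SpecialLinearGroup (Fin (n + 1)) K)) ⊔
      Subgroup.center (Matrix.SpecialLinearGroup (Fin (n + 1)) K) = ⊤ := by
  classical
  set H := Subgroup.closure ({h, x * w} : Set (Matrix.SpecialLinearGroup (Fin (n + 1)) K)) with hH
  suffices H = ⊤ by rw [this, top_sup_eq]
  have h01 : (0 : Fin (n + 1)) ≠ 1 := by
    intro e
    have := congrArg Fin.val e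
    rw [Fin.val_zero, Fin.val_one', Nat.mod_eq_of_lt (by omega)] at this
    omega
  let X : K → Matrix.SpecialLinearGroup (Fin (n + 1)) K := fun c => Matrix.SpecialLinearGroup.transvection h01 c
  have hadd : ∀ a b : K, X (a + b) = X a * X b :=
    fun a b => Subtype.ext (Matrix.transvection_mul_transvection_same _ _ h01 a b).symm
  have h0 : X 0 = 1 := Subtype.ext (Matrix.transvection_zero 0 1)
  have hneg : ∀ a : K, (X a)⁻¹ = X (-a) := fun a =>
    (eq_inv_of_mul_eq_one_right (by rw [← hadd, add_neg_cancel, h0])).symm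
  have hxX : x = X 1 := Subtype.ext hx
  have diag : ∀ (D : Matrix.SpecialLinearGroup (Fin (n + 1)) K) (d : Fin (n + 1) → K),
      (D : Matrix (Fin (n + 1)) (Fin (n + 1)) K) = Matrix.diagonal d → ∀ c : K, d 1 ≠ 0 →
      D * X c = X (d 0 * c / d 1) * D := by
    intro D d hD c hd
    refine Subtype.ext ?_
    rw [Matrix.SpecialLinearGroup.coe_mul, Matrix.SpecialLinearGroup.coe_mul, hD]
    show Matrix.diagonal d * Matrix.transvection 0 1 c = Matrix.transvection 0 1 (d 0 * c / d 1) * Matrix.diagonal d
    ext i j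
    rw [Matrix.diagonal_mul, Matrix.mul_diagonal]
    simp only [Matrix.transvection, Matrix.add_apply, Matrix.one_apply, Matrix.single_apply]
    by_cases hij : i = j
    · subst hij
      have : ¬ ((0 : Fin (n + 1)) = i ∧ (1 : Fin (n + 1)) = i) := fun e => h01 (e.1.trans e.2.symm)
      simp [this]
    · by_cases hc : (0 : Fin (n + 1)) = i ∧ (1 : Fin (n + 1)) = j
      · obtain ⟨rfl, rfl⟩ := hc
        simp [h01]
        field_simp
      · simp [hij, hc]
  set q : K := (k : K) * (k : K) with hq
  have hkH : h ∈ H := Subgroup.subset_closure (by simp)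
  have hyH : x * w ∈ H := Subgroup.subset_closure (by simp)
  have v1 : ((1 : Fin (n + 1)) : ℕ) = 1 := by rw [Fin.val_one', Nat.mod_eq_of_lt (by omega)]
  have hhX : ∀ c : K, h * X c * h⁻¹ = X (q * c) := by
    intro c
    rw [mul_inv_eq_iff_eq_mul, diag h _ hh c (by simp [v1, show n ≠ 0 by omega, show 0 < n by omega])]
    congr 2
    simp [v1, hq, show n ≠ 0 by omega, show 0 < n by omega]
    ring
  -- the shifted diagonal element
  let dh : Fin (n + 1) → K := fun i => if i.val = 0 then (k : K) else if i.val = 1 then ((k⁻¹ : Kˣ) : K) else 1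
  obtain ⟨h1, hh1⟩ : ∃ h1, h1 = w * h * w⁻¹ := ⟨_, rfl⟩
  have hh1' : (h1 : Matrix (Fin (n + 1)) (Fin (n + 1)) K) = Matrix.diagonal (fun i => dh (i + 1)) := by
    have key : (w : Matrix (Fin (n + 1)) (Fin (n + 1)) K) * (h : Matrix (Fin (n + 1)) (Fin (n + 1)) K) =
        Matrix.diagonal (fun i => dh (i + 1)) * (w : Matrix (Fin (n + 1)) (Fin (n + 1)) K) := by
      rw [hh, hw]
      ext i j
      rw [Matrix.mul_diagonal, Matrix.diagonal_mul]
      simp only [Matrix.of_apply, Cfsg.Lib.Classical.CyclicGen.monomial_apply]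
      split_ifs with e <;> simp_all [dh, mul_comm]
    rw [hh1, Matrix.SpecialLinearGroup.coe_mul, Matrix.SpecialLinearGroup.coe_mul, key, mul_assoc,
      ← Matrix.SpecialLinearGroup.coe_mul, mul_inv_cancel, Matrix.SpecialLinearGroup.coe_one, mul_one]
  have hdne : ∀ i, dh i ≠ 0 := fun i => by simp only [dh]; split_ifs <;> simp
  set μ := dh (0 + 1) / dh (1 + 1) with hμ
  have hh1X : ∀ c : K, h1 * X c = X (μ * c) * h1 := fun c => by
    rw [diag h1 _ hh1' c (hdne _)]
    congr 2
    rw [hμ]; ring
  have hcomm : h * h1 = h1 * h := by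
    refine Subtype.ext ?_
    rw [Matrix.SpecialLinearGroup.coe_mul, Matrix.SpecialLinearGroup.coe_mul, hh, hh1', Matrix.diagonal_mul_diagonal,
      Matrix.diagonal_mul_diagonal]
    simp_rw [mul_comm]
  have hg : (x * w) * h * (x * w)⁻¹ = X (1 - μ) * h1 := by
    calc (x * w) * h * (x * w)⁻¹ = X 1 * (h1 * X (-1)) := by rw [hxX, ← hneg, hh1]; group
      _ = _ := by rw [hh1X, ← mul_assoc, ← hadd, sub_eq_add_neg, mul_neg_one]
  have hgH : X (1 - μ) * h1 ∈ H := hg ▸ mul_mem (mul_mem hyH hkH) (inv_mem hyH)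
  have hkk : (k : K) * k ≠ 1 := by
    intro e
    have hk2 : k ^ 2 = 1 := Units.ext (by push_cast; rw [pow_two]; exact e)
    have ho : orderOf k = Nat.card Kˣ := orderOf_eq_card_of_forall_mem_zpowers hk
    have := Nat.le_of_dvd two_pos (orderOf_dvd_of_pow_eq_one hk2)
    rw [ho, Nat.card_units, Nat.card_eq_fintype_card] at this
    omega
  have he : X ((q - 1) * (1 - μ)) ∈ H := by
    have := mul_mem (mul_mem (mul_mem hkH hgH) (inv_mem hkH)) (inv_mem hgH)
    have e : h * (X (1 - μ) * h1) * h⁻¹ * (X (1 - μ) * h1)⁻¹ = X ((q - 1) * (1 - μ)) := by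
      calc h * (X (1 - μ) * h1) * h⁻¹ * (X (1 - μ) * h1)⁻¹
          = (h * X (1 - μ) * h⁻¹) * (h * h1) * h⁻¹ * (h1⁻¹ * (X (1 - μ))⁻¹) := by group
        _ = (h * X (1 - μ) * h⁻¹) * (X (1 - μ))⁻¹ := by rw [hcomm]; group
        _ = _ := by rw [hhX, hneg, ← hadd]; congr 1; ring
    rwa [e] at this
  have hμ1 : μ ≠ 1 := by
    intro e
    rw [hμ, div_eq_one_iff_eq (hdne _)] at e
    simp only [zero_add, dh, v1, one_ne_zero, if_false, if_true] at e
    have hv : ((1 + 1 : Fin (n + 1)) : ℕ) = if n = 1 then 0 else 2 := by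
      rw [Cfsg.Lib.Classical.CyclicGen.val_succ, v1]
      split_ifs <;> omega
    rw [hv] at e
    by_cases hn1 : n = 1
    · simp [hn1] at e
      apply hkk
      have := congrArg (fun t => (k : K) * t) e
      simpa [← mul_assoc] using this.symm
    · simp [hn1] at e
      apply hkk
      simp [e]
  set E0 := (q - 1) * (1 - μ) with hE0
  have hE0ne : E0 ≠ 0 := mul_ne_zero (sub_ne_zero.2 hkk) (sub_ne_zero.2 (Ne.symm hμ1))
  -- the set of parameters
  let S : AddSubgroup K :=
    { carrier := {c | X (E0 * c) ∈ H}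
      zero_mem' := by simp [h0]
      add_mem' := fun {a b} ha hb => by
        show X (E0 * (a + b)) ∈ H
        rw [mul_add, hadd]; exact mul_mem ha hb
      neg_mem' := fun {a} ha => by
        show X (E0 * -a) ∈ H
        rw [mul_neg, ← hneg]; exact inv_mem ha }
  have hsq : ∀ c : K, c * c ∈ S := by
    have hpow : ∀ m : ℕ, X (E0 * q ^ m) ∈ H := by
      intro m
      induction m with
      | zero => simpa using he
      | succ m ih =>
        have := mul_mem (mul_mem hkH ih) (inv_mem hkH)
        rw [hhX] at this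
        rwa [show E0 * q ^ (m + 1) = q * (E0 * q ^ m) by ring]
    intro c
    by_cases hc : c = 0
    · subst hc; simp
    obtain ⟨m, hm⟩ := (mem_powers_iff_mem_zpowers (x := k) (y := Units.mk0 c hc)).2 (hk _)
    show X (E0 * (c * c)) ∈ H
    have : c = (k : K) ^ m := by
      have := congrArg Units.val hm
      simpa using this.symm
    rw [this, ← mul_pow, ← hq]
    exact hpow m
  have hmulS : ∀ a ∈ AddSubgroup.closure (Set.range fun c : K => c * c),
      ∀ b ∈ AddSubgroup.closure (Set.range fun c : K => c * c),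
      a * b ∈ AddSubgroup.closure (Set.range fun c : K => c * c) := by
    intro a ha b hb
    induction ha using AddSubgroup.closure_induction with
    | mem a ha =>
      induction hb using AddSubgroup.closure_induction with
      | mem b hb =>
        obtain ⟨c, rfl⟩ := ha
        obtain ⟨d, rfl⟩ := hb
        exact AddSubgroup.subset_closure ⟨c * d, by ring⟩
      | zero => simp
      | add b b' _ _ h1 h2 => rw [mul_add]; exact add_mem h1 h2
      | neg b _ h1 => rw [mul_neg]; exact neg_mem h1
    | zero => simp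
    | add a a' _ _ h1 h2 => rw [add_mul]; exact add_mem h1 h2
    | neg a _ h1 => rw [neg_mul]; exact neg_mem h1
  have hStop : ∀ c : K, c ∈ S := by
    set Q := AddSubgroup.closure (Set.range fun c : K => c * c) with hQ
    have hQS : Q ≤ S := (AddSubgroup.closure_le _).2 (by rintro _ ⟨c, rfl⟩; exact hsq c)
    intro c
    apply hQS
    by_cases h2 : (2 : K) = 0
    · have : Function.Surjective (fun c : K => c * c) := Finite.surjective_of_injective fun a b hab => by
        have : (a - b) * (a - b) = 0 := by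
          linear_combination hab + (b * b - a * b) * h2
        exact sub_eq_zero.1 (mul_self_eq_zero.1 this)
      obtain ⟨d, hd⟩ := this c
      exact AddSubgroup.subset_closure ⟨d, hd⟩
    · have h4 : c * (4 : K) ∈ Q := by
        rw [show c * (4 : K) = (c + 1) * (c + 1) - (c - 1) * (c - 1) by ring]
        exact sub_mem (AddSubgroup.subset_closure ⟨_, rfl⟩) (AddSubgroup.subset_closure ⟨_, rfl⟩)
      have h4i : (2⁻¹ * 2⁻¹ : K) ∈ Q := AddSubgroup.subset_closure ⟨_, rfl⟩
      have := hmulS _ h4 _ h4i
      rwa [show c * (4 : K) * (2⁻¹ * 2⁻¹) = c by field_simp; ring] at this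
  have hX : ∀ c : K, X c ∈ H := fun c => by
    have := hStop (c / E0)
    have e : E0 * (c / E0) = c := by field_simp
    change X (E0 * (c / E0)) ∈ H at this
    rwa [e] at this
  have hwH : w ∈ H := by
    have := mul_mem (inv_mem (hxX ▸ hX 1 : x ∈ H)) hyH
    rwa [inv_mul_cancel_left] at this
  exact Cfsg.Lib.Classical.CyclicGen.eq_top hn hw H hwH fun _ c => hX c

end Cfsg.Agent.S2402
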