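import Cfsg.Statements.S2403
import Cfsg.Agent.Lib.Classical.CyclicGen

set_option autoImplicit false
open Cfsg

namespace Cfsg.Agent.S2403

/-- Explicit two-element generation of `PSL_{n+1}(K)` over the fields with two or three elements: with `x = 1 + E₁₂` and `w` the monomial matrix with entries `1` in positions `(i, i+1)` and `(−1)^n` in position `(n+1, 1)`, the elements `x` and `w` generate `SL_{n+1}(K)` modulo its centre. -/
theorem result {K : Type*} [Field K] [Fintype K] (hK : Fintype.card K ≤ 3) (n : ℕ) (hn : 1 ≤ n)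
    (x w : Matrix.SpecialLinearGroup (Fin (n + 1)) K)
    (hx : (x : Matrix (Fin (n + 1)) (Fin (n + 1)) K) = Matrix.transvection (0 : Fin (n + 1)) (1 : Fin (n + 1)) 1)
    (hw : (w : Matrix (Fin (n + 1)) (Fin (n + 1)) K) =
      Matrix.of (fun i j => if j.val = i.val + 1 then 1 else if i.val = n ∧ j.val = 0 then (-1) ^ n else 0)) :
    Subgroup.closure ({x, w} : Set (Matrix.SpecialLinearGroup (Fin (n + 1)) K)) ⊔
      Subgroup.center (Matrix.SpecialLinearGroup (Fin (n + 1)) K) = ⊤ := by
  suffices Subgroup.closure ({x, w} : Set (Matrix.SpecialLinearGroup (Fin (n + 1)) K)) = ⊤ by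
    rw [this, top_sup_eq]
  refine Cfsg.Lib.Classical.CyclicGen.eq_top hn hw _ (Subgroup.subset_closure (by simp)) fun h01 c => ?_
  classical
  have hx' : x = Matrix.SpecialLinearGroup.transvection h01 1 := Subtype.ext hx
  have h0 : Matrix.SpecialLinearGroup.transvection h01 (0 : K) = 1 := Subtype.ext (Matrix.transvection_zero 0 1)
  have hadd : ∀ a b : K, Matrix.SpecialLinearGroup.transvection h01 (a + b) =
      Matrix.SpecialLinearGroup.transvection h01 a * Matrix.SpecialLinearGroup.transvection h01 b :=
    fun a b => Subtype.ext (Matrix.transvection_mul_transvection_same _ _ h01 a b).symm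
  have hmem : x ∈ Subgroup.closure ({x, w} : Set (Matrix.SpecialLinearGroup (Fin (n + 1)) K)) :=
    Subgroup.subset_closure (by simp)
  have hnat : ∀ m : ℕ, Matrix.SpecialLinearGroup.transvection h01 (m : K) ∈
      Subgroup.closure ({x, w} : Set (Matrix.SpecialLinearGroup (Fin (n + 1)) K)) := by
    intro m
    induction m with
    | zero => rw [Nat.cast_zero, h0]; exact one_mem _
    | succ m ih => rw [Nat.cast_succ, hadd, ← hx']; exact mul_mem ih hmem
  have h3 : ∀ c : K, c = 0 ∨ c = 1 ∨ c = -1 := by
    intro c
    by_contra! h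
    by_cases h1 : (1 : K) = -1
    · have h2 : c + 1 ≠ 0 := fun e => h.2.2 (eq_neg_of_add_eq_zero_left e)
      have hs : ({0, 1, c, c + 1} : Finset K).card = 4 := by
        rw [Finset.card_insert_of_notMem, Finset.card_insert_of_notMem, Finset.card_insert_of_notMem,
          Finset.card_singleton] <;> simp [h.1, h.2.1, h2, Ne.symm h.1, Ne.symm h.2.1, Ne.symm h2]
      have := Finset.card_le_univ ({0, 1, c, c + 1} : Finset K)
      omega
    · have hs : ({0, 1, -1, c} : Finset K).card = 4 := by
        rw [Finset.card_insert_of_notMem, Finset.card_insert_of_notMem, Finset.card_insert_of_notMem,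
          Finset.card_singleton] <;> simp [h.1, h.2.1, h.2.2, h1, Ne.symm h.1, Ne.symm h.2.1, Ne.symm h.2.2]
      have := Finset.card_le_univ ({0, 1, -1, c} : Finset K)
      omega
  rcases h3 c with rfl | rfl | rfl
  · rw [h0]; exact one_mem _
  · rw [← hx']; exact hmem
  · have : Matrix.SpecialLinearGroup.transvection h01 (-1 : K) = x⁻¹ := by
      rw [eq_inv_iff_mul_eq_one, hx', ← hadd, neg_add_cancel, h0]
    rw [this]; exact inv_mem hmem

end Cfsg.Agent.S2403
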