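import Cfsg.Statements.S2409
import Cfsg.Agent.Lib.Tw.G2
-- import your own Cfsg.Agent.* helpers here

set_option autoImplicit false
open Cfsg

namespace Cfsg.Agent.S2409

section helper

open Cfsg.Lie Cfsg.Lib.Tw Cfsg.Lib.Tw.G2 Cfsg.Lib.Chev

set_option maxHeartbeats 1000000 in
theorem closure_pair {K : Type*} [Field K] [Fintype K] {m : ℕ} (hm : 1 ≤ m)
    (hK : Fintype.card K = 3 ^ (2 * m + 1)) :
    ∃ a b : GL chevG2.Idx K, a ∈ twistedG2 K (3 ^ m) ∧ b ∈ twistedG2 K (3 ^ m) ∧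
      twistedG2 K (3 ^ m) ≤ Subgroup.closure {a, b} := by
  classical
  obtain ⟨T⟩ := exists_setup hK
  set P := (T.full hK).toParts with hP
  set n := P.nJ T.J0 with hn
  have hfix : ∀ x, x ∈ T.S.fix → x ∈ twistedG2 K (3 ^ m) := fun x hx => by
    rw [P.fix_eq] at hx; exact hx
  have hinj := T.W_inj hK
  set G := T.g2 hK true with hG
  have hmul : ∀ t u v t' u' v' : K, G.word t u v * G.word t' u' v' = G.word (t + t') (u + u' - T.f t' * t)
      (v + v' - T.f t' * t ^ 2 - t' * (u - T.f t' * t)) := fun t u v t' u' v' =>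
    G.word_mul hinj t u v t' u' v'
  have hwinj : ∀ {t u v t' u' v' : K}, G.word t u v = G.word t' u' v' → t = t' ∧ u = u' ∧ v = v' := by
    intro t u v t' u' v' e
    obtain ⟨-, et, -, -, eu, ev⟩ := hinj _ _ _ _ _ _ _ _ _ _ _ _ e
    exact ⟨et, eu, ev⟩
  have hw0 : G.word (0 : K) 0 0 = 1 := by
    simp [G2Data.word, G2Data.W, G2Data.Q, hG, Setup.g2, X_zero]
  have hwmem : ∀ x : GL chevG2.Idx K, x ∈ fixU T.S (T.O.piJ T.J0) ↔ ∃ t u v, x = G.word t u v :=
    fun x => T.fixU_eq hK x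
  obtain ⟨y, hy⟩ := IsCyclic.exists_generator (α := Kˣ)
  have hyo : 2 < orderOf y := by
    rw [orderOf_eq_card_of_forall_mem_zpowers hy, Nat.card_units, Nat.card_eq_fintype_card, hK]
    have : 3 ^ 3 ≤ 3 ^ (2 * m + 1) := Nat.pow_le_pow_right (by norm_num) (by omega)
    omega
  let cc : Kˣ →* (Fin chevG2.rank → Kˣ) :=
    { toFun := fun x i => if i = n1 then x else Units.map T.g.toRingHom.toMonoidHom x
      map_one' := funext fun i => by simp
      map_mul' := fun x z => funext fun i => by simp; split_ifs <;> simp }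
  have hcc : ∀ x, cc x ∈ T.S.fixT := fun x => (T.mem_fixT hK).2 (by simp [cc, n0, n1])
  have hc0 : ∀ x, (cc x n0 : K) = T.g (x : K) ∧ cc x n1 = x := fun x => by simp [cc, n0, n1]
  -- the characters
  have hA : auxG2.cA n0 6 = -3 ∧ auxG2.cA n1 6 = 2 ∧ auxG2.cA n0 10 = 3 ∧ auxG2.cA n1 10 = -1 ∧
      auxG2.cA n0 11 = 0 ∧ auxG2.cA n1 11 = 1 := by decide +kernel
  have htc : ∀ x r, (tchar auxG2 (cc x) r : K) =
      T.g (x : K) ^ auxG2.cA n0 r * (x : K) ^ auxG2.cA n1 r := by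
    intro x r
    rw [tchar, show (∏ k : Fin chevG2.rank, cc x k ^ auxG2.cA k r) = cc x n0 ^ auxG2.cA n0 r * cc x n1 ^ auxG2.cA n1 r
      from Fin.prod_univ_two fun k : Fin 2 => cc x k ^ auxG2.cA k r]
    simp [(hc0 x).1, (hc0 x).2]
  have h6 : ∀ x : Kˣ, (tchar auxG2 (cc x) 6 : K) = (T.f (x : K))⁻¹ * (x : K) ^ 2 := fun x => by
    rw [htc, hA.1, hA.2.1, zpow_neg, show (3 : ℤ) = ((3 : ℕ) : ℤ) from rfl, zpow_natCast, T.gcube,
      show (2 : ℤ) = ((2 : ℕ) : ℤ) from rfl, zpow_natCast]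
  have h10 : ∀ x : Kˣ, (tchar auxG2 (cc x) 10 : K) = T.f (x : K) * (x : K)⁻¹ := fun x => by
    rw [htc, hA.2.2.1, hA.2.2.2.1, zpow_neg_one, show (3 : ℤ) = ((3 : ℕ) : ℤ) from rfl, zpow_natCast, T.gcube]
  have h11 : ∀ x : Kˣ, (tchar auxG2 (cc x) 11 : K) = (x : K) := fun x => by
    rw [htc, hA.2.2.2.2.1, hA.2.2.2.2.2, zpow_zero, zpow_one, one_mul]
  have hff : ∀ z : K, T.f (T.f z) = z ^ 3 := by
    intro z
    have h9 := FiniteField.pow_card (z ^ 3)
    rw [hK] at h9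
    rw [T.fval, T.fval, ← pow_mul]
    conv_rhs => rw [← h9]
    rw [← pow_mul]
    congr 1
    ring
  have hker6 : ∀ x : Kˣ, (tchar auxG2 (cc x) 6 : K) = 1 → x = 1 := by
    intro x e
    rw [h6] at e
    have hf : T.f (x : K) = (x : K) ^ 2 := (inv_mul_eq_one₀ ((map_ne_zero T.f).2 x.ne_zero)).1 e
    have := hff x
    rw [hf, map_pow, hf, ← pow_mul] at this
    exact Units.ext (mul_left_cancel₀ (pow_ne_zero 3 x.ne_zero) (by rw [Units.val_one]; linear_combination this))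
  have hker10 : ∀ x : Kˣ, (T.f (x : K) = (x : K) ∨ T.f (x : K) = -(x : K)) → (x : K) = 1 ∨ (x : K) = -1 := by
    intro x e
    have h2 : T.f (T.f (x : K)) = (x : K) := by rcases e with e | e <;> simp [e]
    rw [hff] at h2
    refine sq_eq_one_iff.1 (mul_left_cancel₀ x.ne_zero ?_)
    linear_combination h2
  -- the generators
  set h := torusFin chevG2 auxG2 K (cc y) with hh
  set b := G.word 1 0 0 * n with hb
  have hwG : ∀ t u v, G.word t u v ∈ twistedG2 K (3 ^ m) := fun t u v => T.word_mem hK _ t u v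
  have hTG : ∀ x, torusFin chevG2 auxG2 K (cc x) ∈ twistedG2 K (3 ^ m) := fun x => by
    apply T.H_le hK
    rw [T.S.H_fix_eq T.obs]
    exact ⟨cc x, hcc x, rfl⟩
  refine ⟨h, b, hTG y, mul_mem (hwG 1 0 0) (P.nJ_mem T.J0), ?_⟩
  set M := Subgroup.closure ({h, b} : Set (GL chevG2.Idx K)) with hM
  have hhM : h ∈ M := Subgroup.subset_closure (by simp)
  have hbM : b ∈ M := Subgroup.subset_closure (by simp)
  have hTM : ∀ x, torusFin chevG2 auxG2 K (cc x) ∈ M := by
    intro x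
    obtain ⟨k, rfl⟩ := Subgroup.mem_zpowers_iff.1 (hy x)
    rw [map_zpow, map_zpow]
    exact zpow_mem hhM k
  have hscale : ∀ (x : Kˣ) (t u v : K), G.word t u v ∈ M → G.word ((tchar auxG2 (cc x) 6 : K) * t)
      ((tchar auxG2 (cc x) 10 : K) * u) ((tchar auxG2 (cc x) 11 : K) * v) ∈ M := by
    intro x t u v hx
    have e : _ = G.word ((tchar auxG2 (cc x) 6 : K) * t) ((tchar auxG2 (cc x) 10 : K) * u)
        ((tchar auxG2 (cc x) 11 : K) * v) := T.conj_word hK (hcc x) true t u v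
    rw [← e]
    exact mul_mem (mul_mem (hTM x) hx) (inv_mem (hTM x))
  have hconj : n * h * n⁻¹ = h⁻¹ := by
    rw [hn, hh, show P.nJ T.J0 = wg chevG2 K (T.O.wJ T.J0) from rfl, T.wJ0]
    refine wg_conj_torus (hc := certG2) _ (cc y) (Equiv.ext fun s => Fin.ext ?_) fun k s => Or.inr ?_
    · rw [← wp_append, wp_val]
      revert s
      decide +kernel
    · rw [wp_val]
      exact inv_w0 s k
  -- all first coordinates
  obtain ⟨t0, u0, v0, ht0, hx0⟩ : ∃ t0 u0 v0, t0 ≠ 0 ∧ G.word t0 u0 v0 ∈ M := by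
    have hx : G.word 1 0 0 * (h * (G.word 1 0 0)⁻¹ * h⁻¹) ∈ M := by
      have h1 : b * h⁻¹ * b⁻¹ * h⁻¹ ∈ M := mul_mem (mul_mem (mul_mem hbM (inv_mem hhM)) (inv_mem hbM)) (inv_mem hhM)
      have e : n * h⁻¹ * n⁻¹ = h := by
        rw [show n * h⁻¹ * n⁻¹ = (n * h * n⁻¹)⁻¹ by group, hconj, inv_inv]
      rw [show b * h⁻¹ * b⁻¹ * h⁻¹ = G.word 1 0 0 * (n * h⁻¹ * n⁻¹) * (G.word 1 0 0)⁻¹ * h⁻¹ by rw [hb]; group, e] at h1
      simpa [mul_assoc] using h1
    have e : h * G.word 1 0 0 * h⁻¹ = G.word ((tchar auxG2 (cc y) 6 : K) * 1)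
        ((tchar auxG2 (cc y) 10 : K) * 0) ((tchar auxG2 (cc y) 11 : K) * 0) := T.conj_word hK (hcc y) true 1 0 0
    rw [show h * (G.word 1 0 0)⁻¹ * h⁻¹ = (h * G.word 1 0 0 * h⁻¹)⁻¹ by group, e, mul_one, mul_zero, mul_zero] at hx
    obtain ⟨t0, u0, v0, e0⟩ := (hwmem (G.word 1 0 0 * (G.word (tchar auxG2 (cc y) 6 : K) 0 0)⁻¹)).1
      (mul_mem ((hwmem _).2 ⟨_, _, _, rfl⟩) (inv_mem ((hwmem _).2 ⟨_, _, _, rfl⟩)))
    refine ⟨t0, u0, v0, ?_, e0 ▸ hx⟩
    intro e1
    rw [mul_inv_eq_iff_eq_mul, hmul, e1, zero_add] at e0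
    have := hker6 y (hwinj e0).1.symm
    rw [this, orderOf_one] at hyo
    omega
  have hA1 : ∀ t, ∃ u v, G.word t u v ∈ M := by
    intro t
    rcases eq_or_ne t 0 with rfl | ht
    · exact ⟨0, 0, hw0 ▸ M.one_mem⟩
    let φ : Kˣ →* Kˣ := MonoidHom.mk' (fun x => tchar auxG2 (cc x) 6) fun x z => Units.ext (by
      simp only [Units.val_mul, h6]; simp only [Units.val_mul, map_mul, mul_inv, mul_pow]; ring)
    have hφ : Function.Injective φ := (injective_iff_map_eq_one φ).2 fun x e =>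
      hker6 x (by simpa [φ] using congrArg Units.val e)
    obtain ⟨x, hx⟩ := (Finite.injective_iff_surjective.1 hφ) (Units.mk0 (t / t0) (div_ne_zero ht ht0))
    have hx' : (tchar auxG2 (cc x) 6 : K) = t / t0 := congrArg Units.val hx
    have := hscale x _ _ _ hx0
    rw [hx', div_mul_cancel₀ t ht0] at this
    exact ⟨_, _, this⟩
  -- all third coordinates
  have hA3 : ∀ v, G.word 0 0 v ∈ M := by
    intro v
    rcases eq_or_ne v 0 with rfl | hv
    · rw [hw0]; exact M.one_mem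
    obtain ⟨u1, v1, h1⟩ := hA1 1
    have h3 : G.word 1 u1 v1 * G.word 1 u1 v1 * G.word 1 u1 v1 = G.word 0 0 (-1) := by
      rw [hmul, hmul, map_one]
      have := T.three
      congr 1
      · linear_combination this
      · linear_combination (u1 - 1) * this
      · linear_combination (v1 - u1) * this
    have := hscale (Units.mk0 (-v) (neg_ne_zero.2 hv)) 0 0 (-1) (h3 ▸ mul_mem (mul_mem h1 h1) h1)
    rw [mul_zero, mul_zero, h11, Units.val_mk0, neg_mul_neg, mul_one] at this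
    exact this
  -- all second coordinates
  have hA2 : ∀ u, ∃ v, G.word 0 u v ∈ M := by
    obtain ⟨u1, v1, h1⟩ := hA1 1
    obtain ⟨u2, v2, h2⟩ := hA1 (y : K)
    obtain ⟨t3, u3, v3, e3⟩ := (hwmem (G.word 1 u1 v1 * G.word (y : K) u2 v2 * (G.word (y : K) u2 v2 * G.word 1 u1 v1)⁻¹)).1
      (mul_mem (mul_mem ((hwmem _).2 ⟨_, _, _, rfl⟩) ((hwmem _).2 ⟨_, _, _, rfl⟩))
        (inv_mem (mul_mem ((hwmem _).2 ⟨_, _, _, rfl⟩) ((hwmem _).2 ⟨_, _, _, rfl⟩))))
    have h3 : G.word t3 u3 v3 ∈ M := e3 ▸ mul_mem (mul_mem h1 h2) (inv_mem (mul_mem h2 h1))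
    rw [mul_inv_eq_iff_eq_mul, hmul, hmul, hmul] at e3
    obtain ⟨et, eu, -⟩ := hwinj e3
    have ht3 : t3 = 0 := by linear_combination -et
    subst ht3
    have hu3 : u3 ≠ 0 := by
      intro e
      rw [e, map_one, mul_zero, sub_zero] at eu
      rcases hker10 y (Or.inl (by linear_combination -eu)) with e' | e'
      · have : y = 1 := Units.ext e'
        rw [this, orderOf_one] at hyo; omega
      · have : y ^ 2 = 1 := Units.ext (by rw [Units.val_pow_eq_pow_val, e']; simp)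
        have := Nat.le_of_dvd two_pos (orderOf_dvd_of_pow_eq_one this)
        omega
    have hneg : ∀ u v, G.word 0 u v ∈ M → ∃ v', G.word 0 (-u) v' ∈ M := fun u v hu => by
      refine ⟨-v, ?_⟩
      have e : G.word 0 u v * G.word 0 (-u) (-v) = 1 := by
        rw [hmul, ← hw0, map_zero]; congr 1 <;> ring
      rw [eq_inv_of_mul_eq_one_right e]
      exact inv_mem hu
    intro u
    rcases eq_or_ne u 0 with rfl | hu
    · exact ⟨0, hw0 ▸ M.one_mem⟩
    obtain ⟨N, hN, hNodd⟩ : ∃ N, Fintype.card K - 1 = 2 * N ∧ Odd N := by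
      refine ⟨(3 ^ (2 * m + 1) - 1) / 2, ?_, Nat.odd_iff.2 ?_⟩ <;> rw [← hK]
      · have : Fintype.card K % 2 = 1 := by rw [hK]; simp [Nat.pow_mod]
        omega
      · have h4 : Fintype.card K % 4 = 3 := by
          rw [hK, pow_succ, pow_mul, Nat.mul_mod, Nat.pow_mod]; norm_num
        omega
    let φ : Kˣ →* Kˣ := MonoidHom.mk' (fun x => tchar auxG2 (cc x) 10 * x ^ N) fun x z => Units.ext (by
      simp only [Units.val_mul, Units.val_pow_eq_pow_val, h10]; simp only [Units.val_mul, map_mul, mul_inv, mul_pow]; ring)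
    have hsign : ∀ x : Kˣ, (x : K) ^ N = 1 ∨ (x : K) ^ N = -1 := fun x => sq_eq_one_iff.1 (by
      rw [← pow_mul, mul_comm, ← hN]; exact FiniteField.pow_card_sub_one_eq_one _ x.ne_zero)
    have hφ : Function.Injective φ := (injective_iff_map_eq_one φ).2 fun x e => by
      have e' : T.f (x : K) * (x : K)⁻¹ * (x : K) ^ N = 1 := by
        have := congrArg Units.val e
        simpa [φ, h10] using this
      have hcase : T.f (x : K) = (x : K) ∨ T.f (x : K) = -(x : K) := by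
        rcases hsign x with s | s <;> rw [s] at e'
        · exact Or.inl ((mul_inv_eq_one₀ x.ne_zero).1 (by linear_combination e'))
        · refine Or.inr ?_
          have : T.f (x : K) * (x : K)⁻¹ = -1 := by linear_combination -e'
          rw [mul_inv_eq_iff_eq_mul₀ x.ne_zero] at this
          rw [this]; ring
      rcases hker10 x hcase with e1 | e1
      · exact Units.ext e1
      · exfalso
        rw [e1, map_neg, map_one, Odd.neg_one_pow hNodd] at e'
        simp at e'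
        exact two_ne_zero' hK (by linear_combination -e')
    obtain ⟨x, hx⟩ := (Finite.injective_iff_surjective.1 hφ) (Units.mk0 (u / u3) (div_ne_zero hu hu3))
    have hx' : (tchar auxG2 (cc x) 10 : K) * (x : K) ^ N = u / u3 := by
      have := congrArg Units.val hx
      simpa [φ] using this
    have h4 := hscale x _ _ _ h3
    rw [mul_zero] at h4
    rcases hsign x with s | s <;> rw [s] at hx'
    · refine ⟨(tchar auxG2 (cc x) 11 : K) * v3, ?_⟩
      rw [mul_one] at hx'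
      rwa [hx', div_mul_cancel₀ u hu3] at h4
    · obtain ⟨v', hv'⟩ := hneg _ _ h4
      refine ⟨v', ?_⟩
      rw [show -((tchar auxG2 (cc x) 10 : K) * u3) = u by
        rw [show (tchar auxG2 (cc x) 10 : K) = -(u / u3) by linear_combination -hx']
        field_simp] at hv'
      exact hv'
  have hU : ∀ t u v, G.word t u v ∈ M := by
    intro t u v
    obtain ⟨a, c, h1⟩ := hA1 t
    obtain ⟨d, h2⟩ := hA2 (u - a)
    have e : G.word t u v = G.word t a c * G.word 0 (u - a) d * G.word 0 0 (v - (c + d)) := by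
      rw [hmul, hmul, map_zero]; congr 1 <;> ring
    rw [e]
    exact mul_mem (mul_mem h1 h2) (hA3 _)
  have hnM : n ∈ M := by
    have : n = (G.word 1 0 0)⁻¹ * b := by rw [hb]; group
    rw [this]; exact mul_mem (inv_mem (hU 1 0 0)) hbM
  have hUM : ∀ x ∈ chevG2.posUnipotent K ⊓ T.S.fix, x ∈ M := by
    intro x hx
    have : x ∈ chevG2.posUnipotent K ⊓ twistedG2 K (3 ^ m) := ⟨hx.1, hfix x hx.2⟩
    rw [T.U_eq hK] at this
    obtain ⟨t, u, v, rfl⟩ := (hwmem x).1 this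
    exact hU t u v
  have hHM : ∀ x ∈ chevG2.diagonalSubgroup K ⊓ T.S.fix, x ∈ M := by
    intro x hx
    rw [T.S.H_fix_eq T.obs] at hx
    obtain ⟨c, hc, rfl⟩ := hx
    have : c = cc (c n1) := by
      have a := (T.mem_fixT hK).1 hc
      refine funext fun i => Units.ext ?_
      rcases node_cases i with rfl | rfl
      · rw [(hc0 _).1, a]
      · rw [(hc0 _).2]
    rw [this]; exact hTM _
  intro g hg
  obtain ⟨π, hπ, hform⟩ := P.fixed_form (P.le_fix hg)
  have hBM : ∀ x ∈ chevG2.borelSubgroup K ⊓ T.S.fix, x ∈ M := by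
    intro x hx
    obtain ⟨v, hv, t, ht, rfl⟩ := fixed_B_split hx.1 hx.2
    exact mul_mem (hUM v hv) (hHM t ht)
  have hcase : π = 1 ∨ π = T.O.piJ T.J0 := by
    refine T.O.induction_W1 (P := fun π => π = 1 ∨ π = T.O.piJ T.J0) (Or.inl rfl) ?_ π hπ
    intro π _ J _ _ ih
    rw [T.J_eq J] at ih
    rcases ih with ih | ih
    · exact Or.inr (mul_inv_eq_one.1 ih)
    · refine Or.inl ?_
      rw [mul_inv_eq_iff_eq_mul.1 ih, (T.full hK).sq_piJ]
  rcases hcase with rfl | rfl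
  · obtain ⟨b', hb', u, hu, rfl⟩ := hform 1 (one_mem _) (one_mem _) (acts_one certG2)
    rw [mul_one]
    exact mul_mem (hBM b' hb') (hUM u ⟨Uw_le_U certG2 hu.1, hu.2⟩)
  · obtain ⟨b', hb', u, hu, rfl⟩ := hform n (P.nJ_mem T.J0) (P.nJ_mon T.J0) (P.nJ_acts T.J0)
    exact mul_mem (mul_mem (hBM b' hb') hnM) (hUM u ⟨Uw_le_U certG2 hu.1, hu.2⟩)

theorem two_generated {K : Type*} [Field K] [Fintype K] {m : ℕ} (hm : 1 ≤ m)
    (hK : Fintype.card K = 3 ^ (2 * m + 1)) :
    ∃ a b : ↥(twistedG2 K (3 ^ m)), Subgroup.closure ({a, b} : Set ↥(twistedG2 K (3 ^ m))) = ⊤ := by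
  obtain ⟨a, b, ha, hb, h⟩ := closure_pair hm hK
  refine ⟨⟨a, ha⟩, ⟨b, hb⟩, ?_⟩
  refine Subgroup.map_injective (twistedG2 K (3 ^ m)).subtype_injective ?_
  rw [MonoidHom.map_closure, Set.image_pair, ← MonoidHom.range_eq_map, Subgroup.range_subtype]
  exact le_antisymm ((Subgroup.closure_le _).2 (Set.pair_subset ha hb)) h

end helper


/-- The small Ree group ²G₂(3^(2m+1)) with `m ≥ 1` is generated by two of its elements. -/
theorem result {K : Type*} [Field K] [Fintype K] {m : ℕ} (hm : 1 ≤ m) (hK : Fintype.card K = 3 ^ (2 * m + 1)) :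
    ∃ a b : ↥(Cfsg.Lie.twistedG2 K (3 ^ m)), Subgroup.closure ({a, b} : Set ↥(Cfsg.Lie.twistedG2 K (3 ^ m))) = ⊤ := by
  exact two_generated hm hK

end Cfsg.Agent.S2409
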