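import Cfsg.Statements.S2426
import Cfsg.Agent.Lib.Classical.SLGroup
-- import your own Cfsg.Agent.* helpers here

set_option autoImplicit false
open Cfsg

namespace Cfsg.Agent.S2426

private lemma sl2_presented_inj {K : Type*} [Field K] [Finite K] {G : Type*} [Group G] (x y : K → G)
    (hx : ∀ t u, x t * x u = x (t + u)) (hy : ∀ t u, y t * y u = y (t + u))
    (rel : ∀ t u : K, t ≠ 0 → (x t * y (-t⁻¹) * x t) * x u * (x t * y (-t⁻¹) * x t)⁻¹ = y (-(t⁻¹ ^ 2 * u)))
    (hgen : Subgroup.closure (Set.range x ∪ Set.range y) = ⊤)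
    (φ : G →* Matrix.SpecialLinearGroup (Fin 2) K)
    (fx : ∀ t, (φ (x t) : Matrix (Fin 2) (Fin 2) K) = !![1, t; 0, 1])
    (fy : ∀ t, (φ (y t) : Matrix (Fin 2) (Fin 2) K) = !![1, 0; t, 1]) : Function.Injective φ := by
  classical
  have := Fintype.ofFinite K
  have x0 : x 0 = 1 := by simpa using hx 0 0
  have y0 : y 0 = 1 := by simpa using hy 0 0
  have xn : ∀ t, (x t)⁻¹ = x (-t) := fun t => inv_eq_of_mul_eq_one_right (by rw [hx, add_neg_cancel, x0])
  have yn : ∀ t, (y t)⁻¹ = y (-t) := fun t => inv_eq_of_mul_eq_one_right (by rw [hy, add_neg_cancel, y0])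
  let w : K → G := fun t => x t * y (-t⁻¹) * x t
  have wdef : ∀ t, w t = x t * y (-t⁻¹) * x t := fun t => rfl
  have wx : ∀ t u, t ≠ 0 → w t * x u * (w t)⁻¹ = y (-(t⁻¹ ^ 2 * u)) := fun t u ht => rel t u ht
  have wneg : ∀ t, w (-t) = (w t)⁻¹ := fun t => by simp only [wdef, mul_inv_rev, xn, yn, inv_neg, neg_neg, mul_assoc]
  have wy : ∀ t v, t ≠ 0 → w t * y v * (w t)⁻¹ = x (-(t ^ 2 * v)) := fun t v ht => by
    have h := wx (-t) (-(t ^ 2 * v)) (neg_ne_zero.2 ht)
    rw [wneg, inv_inv, show -((-t)⁻¹ ^ 2 * -(t ^ 2 * v)) = v by field_simp] at h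
    rw [← h]; group
  have w' : ∀ t, t ≠ 0 → w t = y (-t⁻¹) * x t * y (-t⁻¹) := fun t ht => by
    have a := wx t t ht
    have b := wy t (-t⁻¹) ht
    rw [show -(t⁻¹ ^ 2 * t) = -t⁻¹ by field_simp] at a
    rw [show -(t ^ 2 * -t⁻¹) = t by field_simp] at b
    calc w t = (w t * x t * (w t)⁻¹) * (w t * y (-t⁻¹) * (w t)⁻¹) * (w t * x t * (w t)⁻¹) := by
          conv_lhs => rw [← mul_inv_cancel_right (w t) (w t)]
          rw [wdef]; group
      _ = y (-t⁻¹) * x t * y (-t⁻¹) := by rw [a, b]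
  have xsplit : ∀ t, t ≠ 0 → x t = y t⁻¹ * w t * y t⁻¹ := fun t ht => by
    rw [w' t ht, ← mul_assoc, ← mul_assoc, hy, add_neg_cancel, y0, one_mul, mul_assoc, hy, neg_add_cancel, y0, mul_one]
  let W := w 1
  let h : K → G := fun t => w t * (w 1)⁻¹
  have hdef : ∀ t, h t = w t * (w 1)⁻¹ := fun t => rfl
  have h1 : h 1 = 1 := mul_inv_cancel _
  have wh : ∀ t, w t = h t * w 1 := fun t => by rw [hdef, inv_mul_cancel_right]
  clear_value h w
  have hxc : ∀ t u, t ≠ 0 → h t * x u * (h t)⁻¹ = x (t ^ 2 * u) := fun t u ht => by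
    have a := wx (-1) u (neg_ne_zero.2 one_ne_zero)
    rw [wneg, inv_inv, show -((-1 : K)⁻¹ ^ 2 * u) = -u by norm_num] at a
    calc h t * x u * (h t)⁻¹ = w t * ((w 1)⁻¹ * x u * w 1) * (w t)⁻¹ := by rw [hdef]; group
      _ = x (t ^ 2 * u) := by rw [a, wy t _ ht]; congr 1; ring
  have hyc : ∀ t v, t ≠ 0 → h t * y v * (h t)⁻¹ = y (t⁻¹ ^ 2 * v) := fun t v ht => by
    have a := wy (-1) v (neg_ne_zero.2 one_ne_zero)
    rw [wneg, inv_inv, show -((-1 : K) ^ 2 * v) = -v by norm_num] at a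
    calc h t * y v * (h t)⁻¹ = w t * ((w 1)⁻¹ * y v * w 1) * (w t)⁻¹ := by rw [hdef]; group
      _ = y (t⁻¹ ^ 2 * v) := by rw [a, wx t _ ht]; congr 1; ring
  have fw : ∀ t, t ≠ 0 → (φ (w t) : Matrix (Fin 2) (Fin 2) K) = !![0, t; -t⁻¹, 0] := fun t ht => by
    rw [wdef, map_mul, map_mul, Matrix.SpecialLinearGroup.coe_mul, Matrix.SpecialLinearGroup.coe_mul, fx, fy]
    ext i j; fin_cases i <;> fin_cases j <;> simp [Matrix.mul_apply, Fin.sum_univ_two, ht]
  have fh : ∀ t, t ≠ 0 → (φ (h t) : Matrix (Fin 2) (Fin 2) K) = !![t, 0; 0, t⁻¹] := fun t ht => by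
    rw [hdef, ← wneg, map_mul, Matrix.SpecialLinearGroup.coe_mul, fw t ht, fw (-1) (neg_ne_zero.2 one_ne_zero)]
    ext i j; fin_cases i <;> fin_cases j <;> simp [Matrix.mul_apply, Fin.sum_univ_two]
  set H := Subgroup.closure {g : G | ∃ t, t ≠ 0 ∧ g = h t} with hH
  have hmem : ∀ t, t ≠ 0 → h t ∈ H := fun t ht => Subgroup.subset_closure ⟨t, ht, rfl⟩
  have hact : ∀ a ∈ H, ∃ α : K, α ≠ 0 ∧ (φ a : Matrix (Fin 2) (Fin 2) K) = !![α, 0; 0, α⁻¹] ∧
      (∀ u, a * x u * a⁻¹ = x (α ^ 2 * u)) ∧ ∀ v, a * y v * a⁻¹ = y (α⁻¹ ^ 2 * v) := by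
    intro a ha
    induction ha using Subgroup.closure_induction with
    | mem a ha =>
      obtain ⟨t, ht, rfl⟩ := ha
      exact ⟨t, ht, fh t ht, fun u => hxc t u ht, fun v => hyc t v ht⟩
    | one => exact ⟨1, one_ne_zero, by rw [map_one, inv_one]; ext i j; fin_cases i <;> fin_cases j <;> simp, by simp, by simp⟩
    | mul a b _ _ iha ihb =>
      obtain ⟨α, hα, f, p, q⟩ := iha
      obtain ⟨β, hβ, f', p', q'⟩ := ihb
      refine ⟨α * β, mul_ne_zero hα hβ, ?_, fun u => ?_, fun v => ?_⟩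
      · rw [map_mul, Matrix.SpecialLinearGroup.coe_mul, f, f']
        ext i j; fin_cases i <;> fin_cases j <;> simp [Matrix.mul_apply, Fin.sum_univ_two, mul_comm]
      · rw [show a * b * x u * (a * b)⁻¹ = a * (b * x u * b⁻¹) * a⁻¹ by group, p', p]; congr 1; ring
      · rw [show a * b * y v * (a * b)⁻¹ = a * (b * y v * b⁻¹) * a⁻¹ by group, q', q]; congr 1; rw [mul_inv]; ring
    | inv a _ iha =>
      obtain ⟨α, hα, f, p, q⟩ := iha
      refine ⟨α⁻¹, inv_ne_zero hα, ?_, fun u => ?_, fun v => ?_⟩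
      · rw [map_inv, Matrix.SpecialLinearGroup.coe_inv, f, inv_inv, Matrix.adjugate_fin_two]
        ext i j; fin_cases i <;> fin_cases j <;> simp
      · have := p (α⁻¹ ^ 2 * u)
        rw [← mul_assoc, ← mul_pow, mul_inv_cancel₀ hα, one_pow, one_mul] at this
        rw [← this, inv_inv]; group
      · have := q (α⁻¹⁻¹ ^ 2 * v)
        rw [← mul_assoc, ← mul_pow, inv_inv, inv_mul_cancel₀ hα, one_pow, one_mul] at this
        rw [← this, inv_inv]; group
  have hzero : ∀ a ∈ H, (φ a : Matrix (Fin 2) (Fin 2) K) 0 0 ≠ 0 := fun a ha => by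
    obtain ⟨α, hα, f, -, -⟩ := hact a ha
    simpa [f] using hα
  let F0 : H →* Kˣ :=
    { toFun := fun a => Units.mk0 _ (hzero a.1 a.2)
      map_one' := Units.ext (by simp)
      map_mul' := fun a b => Units.ext (by
        obtain ⟨α, -, f, -, -⟩ := hact a.1 a.2
        obtain ⟨β, -, f', -, -⟩ := hact b.1 b.2
        simp [Matrix.mul_apply, Fin.sum_univ_two, f, f']) }
  have hker : F0.ker ≤ Subgroup.center H := by
    intro a ha
    have h0 : (φ a.1 : Matrix (Fin 2) (Fin 2) K) 0 0 = 1 := congrArg Units.val (MonoidHom.mem_ker.1 ha)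
    obtain ⟨α, -, f, p, q⟩ := hact a.1 a.2
    simp [f] at h0
    subst h0
    have hc : (⊤ : Subgroup G) ≤ Subgroup.centralizer {(a : G)} := by
      rw [← hgen, Subgroup.closure_le]
      rintro _ (⟨u, rfl⟩ | ⟨u, rfl⟩) <;> rw [SetLike.mem_coe, Subgroup.mem_centralizer_singleton_iff]
      · exact (mul_inv_eq_iff_eq_mul.1 (by rw [p]; simp)).symm
      · exact (mul_inv_eq_iff_eq_mul.1 (by rw [q]; simp)).symm
    exact Subgroup.mem_center_iff.2 fun b => Subtype.ext (Subgroup.mem_centralizer_singleton_iff.1 (hc (Subgroup.mem_top (b : G))))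
  have hcomm : ∀ a ∈ H, ∀ b ∈ H, a * b = b * a := fun a ha b hb =>
    congrArg Subtype.val (commutative_of_cyclic_center_quotient F0 hker ⟨a, ha⟩ ⟨b, hb⟩)
  have hsqmul : ∀ t u, t ≠ 0 → u ≠ 0 → h (t ^ 2 * u) = h (t ^ 2) * h u := by
    intro t u ht hu
    have conjw : ∀ v, v ≠ 0 → h t * w v * (h t)⁻¹ = w (t ^ 2 * v) := fun v hv => by
      calc h t * w v * (h t)⁻¹ = (h t * x v * (h t)⁻¹) * (h t * y (-v⁻¹) * (h t)⁻¹) * (h t * x v * (h t)⁻¹) := by
            rw [wdef]; group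
        _ = w (t ^ 2 * v) := by
          rw [hxc t v ht, hyc t _ ht, wdef]
          congr 2; congr 1
          rw [mul_inv]; ring
    have e : h t * h u * (h t)⁻¹ = h (t ^ 2 * u) * (h (t ^ 2))⁻¹ := by
      calc h t * h u * (h t)⁻¹ = (h t * w u * (h t)⁻¹) * (h t * w 1 * (h t)⁻¹)⁻¹ := by rw [hdef u]; group
        _ = w (t ^ 2 * u) * (w (t ^ 2))⁻¹ := by rw [conjw u hu, conjw 1 one_ne_zero, mul_one]
        _ = h (t ^ 2 * u) * (h (t ^ 2))⁻¹ := by rw [hdef, hdef]; group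
    rw [hcomm _ (hmem t ht) _ (hmem u hu), mul_inv_cancel_right] at e
    rw [hcomm _ (hmem _ (pow_ne_zero 2 ht)) _ (hmem u hu), e, inv_mul_cancel_right]
  have conjW : ∀ t, t ≠ 0 → w 1 * h t * (w 1)⁻¹ = h t⁻¹ := fun t ht => by
    have e : w 1 * w t * (w 1)⁻¹ = w t⁻¹ := by
      calc w 1 * w t * (w 1)⁻¹ = (w 1 * x t * (w 1)⁻¹) * (w 1 * y (-t⁻¹) * (w 1)⁻¹) * (w 1 * x t * (w 1)⁻¹) := by
            rw [wdef t]; group
        _ = y (-t) * x t⁻¹ * y (-t) := by
          rw [wx 1 t one_ne_zero, wy 1 _ one_ne_zero]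
          simp
        _ = w t⁻¹ := by rw [w' _ (inv_ne_zero ht), inv_inv]
    rw [hdef, hdef, show w 1 * (w t * (w 1)⁻¹) * (w 1)⁻¹ = (w 1 * w t * (w 1)⁻¹) * (w 1)⁻¹ by group, e]
  have hmul : ∀ t u, t ≠ 0 → u ≠ 0 → h (t * u) = h t * h u := by
    have hsq : ∀ s u, IsSquare s → s ≠ 0 → u ≠ 0 → h (s * u) = h s * h u := by
      rintro s u ⟨r, rfl⟩ hs hu
      rw [← sq]; exact hsqmul r u (left_ne_zero_of_mul hs) hu
    intro t u ht hu
    by_cases h1' : IsSquare t
    · exact hsq t u h1' ht hu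
    by_cases h2' : IsSquare u
    · rw [mul_comm, hsq u t h2' hu ht]; exact hcomm _ (hmem u hu) _ (hmem t ht)
    have hchar : ringChar K ≠ 2 := fun hc => h1' (FiniteField.isSquare_of_char_two hc t)
    obtain ⟨g, hg, hg'⟩ : ∃ g : K, ¬ IsSquare g ∧ ¬ IsSquare (1 - g) := by
      by_contra hcon
      push Not at hcon
      set A := Finset.univ.filter fun a : K => ¬ IsSquare a with hA
      set B := Finset.univ.filter fun a : K => IsSquare a ∧ a ≠ 0 with hB
      have hsub : A.image (fun a => 1 - a) ⊆ B.erase 1 := by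
        intro b hb
        simp only [hA, Finset.mem_image, Finset.mem_filter, Finset.mem_univ, true_and] at hb
        obtain ⟨a, ha, rfl⟩ := hb
        simp only [hB, Finset.mem_erase, Finset.mem_filter, Finset.mem_univ, true_and]
        exact ⟨fun e => ha (by rw [show a = 0 by linear_combination -e]; exact IsSquare.zero),
          hcon a ha, fun e => ha (by rw [show a = 1 by linear_combination -e]; exact IsSquare.one)⟩
      have hc := Finset.card_le_card hsub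
      rw [Finset.card_image_of_injective _ sub_right_injective, Finset.card_erase_of_mem (by simp [hB])] at hc
      obtain ⟨n, hn⟩ := FiniteField.exists_nonsquare hchar
      have hn0 : n ≠ 0 := fun e => hn (e ▸ IsSquare.zero)
      have hle : B.card ≤ A.card := by
        refine Finset.card_le_card_of_injOn (fun b => n * b) (fun b hb => ?_) (fun a _ b _ e => mul_left_cancel₀ hn0 e)
        simp only [hB, hA, Finset.mem_coe, Finset.mem_filter, Finset.mem_univ, true_and] at hb ⊢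
        obtain ⟨⟨r, rfl⟩, hb0⟩ := hb
        rintro ⟨s, hs⟩
        exact hn ⟨s / r, by rw [div_mul_div_comm, ← hs, mul_div_cancel_right₀ _ hb0]⟩
      have hpos : 0 < B.card := Finset.card_pos.2 ⟨1, by simp [hB]⟩
      omega
    set k := 1 - g with hk
    have hg0 : g ≠ 0 := fun e => hg (e ▸ IsSquare.zero)
    have hk0 : k ≠ 0 := fun e => hg' (e ▸ IsSquare.zero)
    have key : h (g * k⁻¹) = h g * h k⁻¹ := by
      have hsum : g + k = 1 := by rw [hk]; ring
      have c1 : -1 + g⁻¹ = k / g := by field_simp; linear_combination -hsum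
      have c2 : k⁻¹ + -1 = g / k := by field_simp; linear_combination -hsum
      have c3 : g⁻¹ + k⁻¹ = (g * k)⁻¹ := by field_simp; linear_combination hsum
      have e : w 1 = (w (g / k))⁻¹ * (w g * w k) := by
        calc w 1 = y (-1) * (x g * x k) * y (-1) := by rw [hx, hsum, w' 1 one_ne_zero, inv_one]
          _ = y (-1) * (y g⁻¹ * w g * y g⁻¹ * (y k⁻¹ * w k * y k⁻¹)) * y (-1) := by rw [← xsplit g hg0, ← xsplit k hk0]
          _ = (y (-1) * y g⁻¹) * w g * (y g⁻¹ * y k⁻¹) * w k * (y k⁻¹ * y (-1)) := by group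
          _ = y (k / g) * w g * y ((g * k)⁻¹) * w k * y (g / k) := by rw [hy, hy, hy, c1, c2, c3]
          _ = y (k / g) * (w g * y ((g * k)⁻¹) * (w g)⁻¹) * (w g * (w k * y (g / k) * (w k)⁻¹) * (w g)⁻¹) * (w g * w k) := by group
          _ = y (k / g) * x (-(g / k)) * y (k / g) * (w g * w k) := by
            rw [wy g _ hg0, wy k _ hk0, wx g _ hg0]
            congr 2
            · congr 1; field_simp
            · congr 1; field_simp
          _ = (w (g / k))⁻¹ * (w g * w k) := by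
            rw [← wneg, w' (-(g / k)) (neg_ne_zero.2 (div_ne_zero hg0 hk0)), inv_neg, neg_neg, inv_div]
      have e' : w (g / k) * w 1 = w g * w k := by rw [e]; group
      rw [wh (g / k), wh g, wh k, show h g * w 1 * (h k * w 1) = h g * (w 1 * h k * (w 1)⁻¹) * (w 1 * w 1) by group,
        conjW k hk0, mul_assoc] at e'
      exact (mul_right_cancel e').trans rfl |> fun z => by rwa [div_eq_mul_inv] at z
    have hk'' : ¬ IsSquare k⁻¹ := fun hs => hg' (isSquare_inv.1 hs)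
    -- reduce to the fixed nonsquares
    have quot : ∀ a b : K, ¬ IsSquare a → ¬ IsSquare b → IsSquare (a / b) := by
      intro a b ha hb
      have ha0 : a ≠ 0 := fun e => ha (e ▸ IsSquare.zero)
      have hb0 : b ≠ 0 := fun e => hb (e ▸ IsSquare.zero)
      rw [← quadraticChar_one_iff_isSquare (div_ne_zero ha0 hb0), div_eq_mul_inv, map_mul,
        quadraticChar_neg_one_iff_not_isSquare.2 ha, quadraticChar_neg_one_iff_not_isSquare.2 (fun hs => hb (isSquare_inv.1 hs))]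
      norm_num
    have s1 := quot t g h1' hg
    have s2 := quot u k⁻¹ h2' hk''
    have n1 : t / g ≠ 0 := div_ne_zero ht hg0
    have n2 : u / k⁻¹ ≠ 0 := div_ne_zero hu (inv_ne_zero hk0)
    have et : h t = h (t / g) * h g := by rw [← hsq _ _ s1 n1 hg0, div_mul_cancel₀ _ hg0]
    have eu : h u = h (u / k⁻¹) * h k⁻¹ := by rw [← hsq _ _ s2 n2 (inv_ne_zero hk0), div_mul_cancel₀ _ (inv_ne_zero hk0)]
    rw [show t * u = (t / g * (u / k⁻¹)) * (g * k⁻¹) by field_simp, hsq _ _ (s1.mul s2) (mul_ne_zero n1 n2)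
      (mul_ne_zero hg0 (inv_ne_zero hk0)), key, hsq _ _ s1 n1 n2, et, eu]
    calc _ = h (t / g) * (h (u / k⁻¹) * h g) * h k⁻¹ := by group
      _ = h (t / g) * (h g * h (u / k⁻¹)) * h k⁻¹ := by rw [hcomm _ (hmem _ n2) _ (hmem g hg0)]
      _ = _ := by group
  have hm1 : (-1 : K) ≠ 0 := neg_ne_zero.2 one_ne_zero
  have WW : w 1 * w 1 = h (-1) := by
    have e : w (-1) = h (-1) * w 1 := wh _
    rw [wneg] at e
    have e2 : h (-1) * h (-1) = 1 := by rw [← hmul _ _ hm1 hm1, neg_mul_neg, one_mul, h1]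
    calc w 1 * w 1 = (h (-1))⁻¹ * ((h (-1) * w 1) * w 1) := by group
      _ = (h (-1))⁻¹ := by rw [← e, inv_mul_cancel, mul_one]
      _ = h (-1) := inv_eq_of_mul_eq_one_right e2
  have hxswap : ∀ t u, t ≠ 0 → h t * x u = x (t ^ 2 * u) * h t := fun t u ht => mul_inv_eq_iff_eq_mul.1 (hxc t u ht)
  let Sset : Set G := {g | (∃ a t, t ≠ 0 ∧ g = x a * h t) ∨ ∃ a t b, t ≠ 0 ∧ g = x a * h t * w 1 * x b}
  have stepx : ∀ c, ∀ g ∈ Sset, x c * g ∈ Sset := by
    rintro c g (⟨a, t, ht, rfl⟩ | ⟨a, t, b, ht, rfl⟩)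
    · exact Or.inl ⟨c + a, t, ht, by rw [← mul_assoc, hx]⟩
    · exact Or.inr ⟨c + a, t, b, ht, by simp only [← mul_assoc, hx]⟩
  have hWx : ∀ a t, a ≠ 0 → t ≠ 0 → w 1 * (x a * h t) = x (-a⁻¹) * h (-(t / a)) * y (t ^ 2 / a) := by
    intro a t ha ht
    have hyswap : y a⁻¹ * h t = h t * y (t ^ 2 / a) := by
      have e := hyc t (t ^ 2 / a) ht
      rw [show t⁻¹ ^ 2 * (t ^ 2 / a) = a⁻¹ by field_simp, mul_inv_eq_iff_eq_mul] at e
      exact e.symm
    have ec : w 1 * h a * w 1 = h (-a⁻¹) := by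
      rw [show w 1 * h a * w 1 = (w 1 * h a * (w 1)⁻¹) * (w 1 * w 1) by group, conjW a ha, WW, ← hmul _ _ (inv_ne_zero ha) hm1, mul_neg_one]
    calc w 1 * (x a * h t) = (w 1 * y a⁻¹ * (w 1)⁻¹) * (w 1 * h a * w 1) * (y a⁻¹ * h t) := by
          rw [xsplit a ha, wh a]; group
      _ = x (-a⁻¹) * (h (-a⁻¹) * h t) * y (t ^ 2 / a) := by
          rw [wy 1 _ one_ne_zero, ec, hyswap, one_pow, one_mul]; group
      _ = _ := by rw [← hmul _ _ (neg_ne_zero.2 (inv_ne_zero ha)) ht]; congr 3; field_simp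
  have hW0 : ∀ t, t ≠ 0 → w 1 * h t = h t⁻¹ * w 1 := fun t ht => mul_inv_eq_iff_eq_mul.1 (conjW t ht)
  have stepw : ∀ g ∈ Sset, w 1 * g ∈ Sset := by
    rintro g (⟨a, t, ht, rfl⟩ | ⟨a, t, b, ht, rfl⟩)
    · by_cases ha : a = 0
      · subst ha
        exact Or.inr ⟨0, t⁻¹, 0, inv_ne_zero ht, by rw [x0, one_mul, one_mul, mul_one, hW0 t ht]⟩
      · set v := t ^ 2 / a with hv
        have hv0 : v ≠ 0 := div_ne_zero (pow_ne_zero 2 ht) ha
        have hp : -(t / a) ≠ 0 := neg_ne_zero.2 (div_ne_zero ht ha)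
        have ey : y v = x v⁻¹ * h (-v⁻¹) * w 1 * x v⁻¹ := by
          rw [mul_assoc (x v⁻¹), ← wh, wdef, inv_neg, neg_neg, inv_inv]
          rw [show x v⁻¹ * (x (-v⁻¹) * y v * x (-v⁻¹)) * x v⁻¹ = (x v⁻¹ * x (-v⁻¹)) * y v * (x (-v⁻¹) * x v⁻¹) by group,
            hx, hx, add_neg_cancel, neg_add_cancel, x0, one_mul, mul_one]
        refine Or.inr ⟨-a⁻¹ + (-(t / a)) ^ 2 * v⁻¹, -(t / a) * -v⁻¹, v⁻¹, mul_ne_zero hp (neg_ne_zero.2 (inv_ne_zero hv0)), ?_⟩
        rw [hWx a t ha ht, ey, ← hx, hmul _ _ hp (neg_ne_zero.2 (inv_ne_zero hv0))]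
        calc _ = x (-a⁻¹) * (h (-(t / a)) * x v⁻¹) * h (-v⁻¹) * w 1 * x v⁻¹ := by group
          _ = _ := by rw [hxswap _ _ hp]; group
    · by_cases ha : a = 0
      · subst ha
        refine Or.inl ⟨(-t⁻¹) ^ 2 * b, -t⁻¹, neg_ne_zero.2 (inv_ne_zero ht), ?_⟩
        rw [x0, one_mul, ← hxswap _ _ (neg_ne_zero.2 (inv_ne_zero ht)),
          show w 1 * (h t * w 1 * x b) = (w 1 * h t) * w 1 * x b by group, hW0 t ht, mul_assoc (h t⁻¹), WW,
          ← hmul _ _ (inv_ne_zero ht) hm1, mul_neg_one]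
      · refine Or.inr ⟨-a⁻¹, -(t / a), -(t ^ 2 / a) + b, neg_ne_zero.2 (div_ne_zero ht ha), ?_⟩
        have e : y (t ^ 2 / a) * w 1 = w 1 * x (-(t ^ 2 / a)) := by
          have := wx 1 (-(t ^ 2 / a)) one_ne_zero
          rw [show -((1 : K)⁻¹ ^ 2 * -(t ^ 2 / a)) = t ^ 2 / a by simp, mul_inv_eq_iff_eq_mul] at this
          exact this.symm
        rw [show w 1 * (x a * h t * w 1 * x b) = (w 1 * (x a * h t)) * w 1 * x b by group, hWx a t ha ht,
          mul_assoc _ (y (t ^ 2 / a)) (w 1), e, ← hx]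
        group
  have stepwi : ∀ g ∈ Sset, (w 1)⁻¹ * g ∈ Sset := by
    intro g hg
    have e : (w 1)⁻¹ = w 1 * w 1 * w 1 := by
      refine inv_eq_of_mul_eq_one_left ?_
      rw [show w 1 * w 1 * w 1 * w 1 = (w 1 * w 1) * (w 1 * w 1) by group, WW, ← hmul _ _ hm1 hm1, neg_mul_neg, one_mul, h1]
    rw [e, mul_assoc, mul_assoc]
    exact stepw _ (stepw _ (stepw _ hg))
  have hall : ∀ g, g ∈ Sset := by
    intro g
    have hg : g ∈ Subgroup.closure (Set.range x ∪ Set.range y) := by rw [hgen]; trivial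
    have h1S : (1 : G) ∈ Sset := Or.inl ⟨0, 1, one_ne_zero, by rw [x0, h1, one_mul]⟩
    suffices ∀ z ∈ Sset, g * z ∈ Sset by simpa using this 1 h1S
    induction hg using Subgroup.closure_induction'' with
    | one => intro z hz; simpa using hz
    | mem g hg =>
      intro z hz
      rcases hg with ⟨c, rfl⟩ | ⟨c, rfl⟩
      · exact stepx c z hz
      · have e : y c = w 1 * x (-c) * (w 1)⁻¹ := by rw [wx 1 _ one_ne_zero]; simp
        rw [e, mul_assoc, mul_assoc]
        exact stepw _ (stepx _ _ (stepwi _ hz))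
    | inv_mem g hg =>
      intro z hz
      rcases hg with ⟨c, rfl⟩ | ⟨c, rfl⟩
      · rw [xn]; exact stepx _ z hz
      · have e : (y c)⁻¹ = w 1 * x c * (w 1)⁻¹ := by rw [yn, wx 1 _ one_ne_zero]; simp
        rw [e, mul_assoc, mul_assoc]
        exact stepw _ (stepx _ _ (stepwi _ hz))
    | mul a b _ _ iha ihb =>
      intro z hz
      rw [mul_assoc]
      exact iha _ (ihb z hz)
  refine (injective_iff_map_eq_one φ).2 fun g hg => ?_
  have hgm : (φ g : Matrix (Fin 2) (Fin 2) K) = 1 := by rw [hg]; rfl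
  rcases hall g with ⟨a, t, ht, rfl⟩ | ⟨a, t, b, ht, rfl⟩
  · rw [map_mul, Matrix.SpecialLinearGroup.coe_mul, fx, fh t ht] at hgm
    have e00 := congrFun (congrFun hgm 0) 0
    have e01 := congrFun (congrFun hgm 0) 1
    simp [Matrix.mul_apply, Fin.sum_univ_two] at e00 e01
    subst e00
    simp at e01
    rw [e01, x0, h1, one_mul]
  · exfalso
    rw [map_mul, map_mul, map_mul, Matrix.SpecialLinearGroup.coe_mul, Matrix.SpecialLinearGroup.coe_mul,
      Matrix.SpecialLinearGroup.coe_mul, fx, fh t ht, fw 1 one_ne_zero, fx] at hgm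
    have e10 := congrFun (congrFun hgm 1) 0
    simp [Matrix.mul_apply, Fin.sum_univ_two, ht] at e10



/-- The rank-one Steinberg presentation of `SL₂` over a finite field `K`: generators `x(t)`, `y(t)` (`t ∈ K`; the two opposite root subgroups) subject to additivity `x(t)x(u) = x(t+u)`, `y(t)y(u) = y(t+u)` and, with `w(t) = x(t) y(−t⁻¹) x(t)` and `w'(t) = y(t) x(−t⁻¹) y(t)` for `t ≠ 0`, the relations `w(t) x(u) w(t)⁻¹ = y(−t⁻² u)` and `w'(t) y(u) w'(t)⁻¹ = x(−t⁻² u)`, present `SL₂(K)`, with `x(t) ↦ (1 t; 0 1)` and `y(t) ↦ (1 0; t 1)`. -/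
theorem result {K : Type*} [Field K] [Finite K] :
    ∃ e : PresentedGroup
        ({g : FreeGroup (Bool × K) | ∃ (b : Bool) (t u : K), g = FreeGroup.of (b, t) * FreeGroup.of (b, u) * (FreeGroup.of (b, t + u))⁻¹} ∪
          {g | ∃ (b : Bool) (t u : K), t ≠ 0 ∧
            g = (FreeGroup.of (b, t) * FreeGroup.of (!b, -t⁻¹) * FreeGroup.of (b, t)) * FreeGroup.of (b, u) *
                  (FreeGroup.of (b, t) * FreeGroup.of (!b, -t⁻¹) * FreeGroup.of (b, t))⁻¹ * (FreeGroup.of (!b, -(t⁻¹ ^ 2 * u)))⁻¹})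
        ≃* Matrix.SpecialLinearGroup (Fin 2) K,
      (∀ t : K, ((e (PresentedGroup.of (true, t)) : Matrix (Fin 2) (Fin 2) K)) = !![1, t; 0, 1]) ∧
      (∀ t : K, ((e (PresentedGroup.of (false, t)) : Matrix (Fin 2) (Fin 2) K)) = !![1, 0; t, 1]) := by
  classical
  let X : K → Matrix.SpecialLinearGroup (Fin 2) K := fun t => ⟨!![1, t; 0, 1], by simp [Matrix.det_fin_two]⟩
  let Y : K → Matrix.SpecialLinearGroup (Fin 2) K := fun t => ⟨!![1, 0; t, 1], by simp [Matrix.det_fin_two]⟩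
  let f : Bool × K → Matrix.SpecialLinearGroup (Fin 2) K := fun p => if p.1 then X p.2 else Y p.2
  set R := ({g : FreeGroup (Bool × K) | ∃ (b : Bool) (t u : K), g = FreeGroup.of (b, t) * FreeGroup.of (b, u) * (FreeGroup.of (b, t + u))⁻¹} ∪
          {g | ∃ (b : Bool) (t u : K), t ≠ 0 ∧
            g = (FreeGroup.of (b, t) * FreeGroup.of (!b, -t⁻¹) * FreeGroup.of (b, t)) * FreeGroup.of (b, u) *
                  (FreeGroup.of (b, t) * FreeGroup.of (!b, -t⁻¹) * FreeGroup.of (b, t))⁻¹ * (FreeGroup.of (!b, -(t⁻¹ ^ 2 * u)))⁻¹}) with hR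
  have hrel : ∀ r ∈ R, FreeGroup.lift f r = 1 := by
    rintro r (⟨b, t, u, rfl⟩ | ⟨b, t, u, ht, rfl⟩) <;>
      simp only [map_mul, map_inv, FreeGroup.lift_apply_of, mul_inv_eq_one] <;> cases b <;>
      simp only [f, X, Y, Bool.not_true, Bool.not_false, if_true, if_false, Bool.false_eq_true, mul_inv_eq_iff_eq_mul] <;>
      apply Subtype.ext <;> simp only [Matrix.SpecialLinearGroup.coe_mul] <;>
      ext i j <;> fin_cases i <;> fin_cases j <;>
      simp [Matrix.mul_apply, Fin.sum_univ_two, *] <;> first | ring1 | (field_simp; done) | (field_simp; ring1)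
  let φ := PresentedGroup.toGroup hrel
  let x : K → PresentedGroup R := fun t => PresentedGroup.of (true, t)
  let y : K → PresentedGroup R := fun t => PresentedGroup.of (false, t)
  have hadd : ∀ b t u, (PresentedGroup.of (b, t) : PresentedGroup R) * PresentedGroup.of (b, u) = PresentedGroup.of (b, t + u) := fun b t u => by
    rw [← mul_inv_eq_one]
    exact PresentedGroup.one_of_mem (Or.inl ⟨b, t, u, rfl⟩)
  have hrel' : ∀ t u : K, t ≠ 0 → (x t * y (-t⁻¹) * x t) * x u * (x t * y (-t⁻¹) * x t)⁻¹ = y (-(t⁻¹ ^ 2 * u)) := fun t u ht => by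
    rw [← mul_inv_eq_one]
    exact PresentedGroup.one_of_mem (Or.inr ⟨true, t, u, ht, rfl⟩)
  have hgen : Subgroup.closure (Set.range x ∪ Set.range y) = ⊤ := by
    rw [← PresentedGroup.closure_range_of R]
    congr 1
    ext g
    constructor
    · rintro (⟨t, rfl⟩ | ⟨t, rfl⟩) <;> exact ⟨_, rfl⟩
    · rintro ⟨⟨_ | _, t⟩, rfl⟩
      · exact Or.inr ⟨t, rfl⟩
      · exact Or.inl ⟨t, rfl⟩
  have fx : ∀ t, (φ (x t) : Matrix (Fin 2) (Fin 2) K) = !![1, t; 0, 1] := fun t => by simp [φ, x, f, X]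
  have fy : ∀ t, (φ (y t) : Matrix (Fin 2) (Fin 2) K) = !![1, 0; t, 1] := fun t => by simp [φ, y, f, Y]
  have hinj := sl2_presented_inj x y (hadd true) (hadd false) hrel' hgen φ fx fy
  have hsurj : Function.Surjective φ := by
    rw [← MonoidHom.range_eq_top]
    refine Cfsg.Lib.Classical.SLGroup.eq_top_of_transvection _ fun i j hij c => ?_
    fin_cases i <;> fin_cases j
    · exact absurd rfl hij
    · exact ⟨x c, Subtype.ext (by rw [fx]; ext a b; fin_cases a <;> fin_cases b <;> simp [Matrix.SpecialLinearGroup.transvection_coe])⟩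
    · exact ⟨y c, Subtype.ext (by rw [fy]; ext a b; fin_cases a <;> fin_cases b <;> simp [Matrix.SpecialLinearGroup.transvection_coe])⟩
    · exact absurd rfl hij
  exact ⟨MulEquiv.ofBijective φ ⟨hinj, hsurj⟩, fx, fy⟩

end Cfsg.Agent.S2426
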