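import Cfsg.Statements.S2427
import Mathlib

set_option autoImplicit false
open Cfsg
open scoped Pointwise commutatorElement

namespace Cfsg.Agent.S2427

structure T where
  a : ZMod 3
  b : ZMod 3
  c : ZMod 3
  d : ZMod 3
  h : a * d - b * c = 1
deriving DecidableEq

namespace T

def toSub : T ≃ {v : ZMod 3 × ZMod 3 × ZMod 3 × ZMod 3 // v.1 * v.2.2.2 - v.2.1 * v.2.2.1 = 1} where
  toFun x := ⟨(x.a, x.b, x.c, x.d), x.h⟩
  invFun v := ⟨v.1.1, v.1.2.1, v.1.2.2.1, v.1.2.2.2, v.2⟩
  left_inv _ := rfl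
  right_inv _ := rfl

instance : Fintype T := Fintype.ofEquiv _ toSub.symm

@[ext] theorem ext' {x y : T} (h1 : x.a = y.a) (h2 : x.b = y.b) (h3 : x.c = y.c) (h4 : x.d = y.d) : x = y := by
  cases x; cases y; simp_all

instance : Mul T := ⟨fun x y => ⟨x.a * y.a + x.b * y.c, x.a * y.b + x.b * y.d, x.c * y.a + x.d * y.c, x.c * y.b + x.d * y.d, by
  have h1 := x.h; have h2 := y.h; linear_combination (y.a * y.d - y.b * y.c) * h1 + h2⟩⟩
instance : One T := ⟨⟨1, 0, 0, 1, by ring⟩⟩
instance : Inv T := ⟨fun x => ⟨x.d, -x.b, -x.c, x.a, by linear_combination x.h⟩⟩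

theorem mul_def (x y : T) : (x * y).a = x.a * y.a + x.b * y.c ∧ (x * y).b = x.a * y.b + x.b * y.d ∧
    (x * y).c = x.c * y.a + x.d * y.c ∧ (x * y).d = x.c * y.b + x.d * y.d := ⟨rfl, rfl, rfl, rfl⟩

instance : Group T where
  mul_assoc x y z := by
    ext <;> simp only [(mul_def _ _).1, (mul_def _ _).2.1, (mul_def _ _).2.2.1, (mul_def _ _).2.2.2] <;> ring
  one_mul x := by
    ext
    · show (1 : ZMod 3) * x.a + 0 * x.c = x.a; ring
    · show (1 : ZMod 3) * x.b + 0 * x.d = x.b; ring
    · show (0 : ZMod 3) * x.a + 1 * x.c = x.c; ring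
    · show (0 : ZMod 3) * x.b + 1 * x.d = x.d; ring
  mul_one x := by
    ext
    · show x.a * 1 + x.b * 0 = x.a; ring
    · show x.a * 0 + x.b * 1 = x.b; ring
    · show x.c * 1 + x.d * 0 = x.c; ring
    · show x.c * 0 + x.d * 1 = x.d; ring
  inv_mul_cancel x := by
    ext
    · show x.d * x.a + -x.b * x.c = 1; linear_combination x.h
    · show x.d * x.b + -x.b * x.d = 0; ring
    · show -x.c * x.a + x.a * x.c = 0; ring
    · show -x.c * x.b + x.a * x.d = 1; linear_combination x.h

def iso : T ≃* Matrix.SpecialLinearGroup (Fin 2) (ZMod 3) where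
  toFun x := ⟨!![x.a, x.b; x.c, x.d], by rw [Matrix.det_fin_two_of]; exact x.h⟩
  invFun A := ⟨A.1 0 0, A.1 0 1, A.1 1 0, A.1 1 1, by rw [← Matrix.det_fin_two]; exact A.2⟩
  left_inv x := by ext <;> rfl
  right_inv A := by
    apply Subtype.ext
    exact (Matrix.eta_fin_two A.1).symm
  map_mul' x y := by
    apply Subtype.ext
    show !![(x * y).a, (x * y).b; (x * y).c, (x * y).d] = !![x.a, x.b; x.c, x.d] * !![y.a, y.b; y.c, y.d]
    rw [Matrix.mul_fin_two]
    rfl

set_option maxRecDepth 20000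

theorem card : Nat.card T = 24 := by rw [Nat.card_eq_fintype_card]; decide
theorem p4_mul : ∀ x y : T, x ^ 4 = 1 → y ^ 4 = 1 → (x * y) ^ 4 = 1 := by decide
theorem comm_p4 : ∀ x y : T, (x * y * x⁻¹ * y⁻¹) ^ 4 = 1 := by decide
theorem p4_comm : ∀ q : T, q ^ 4 = 1 → ∃ x y : T, x * y * x⁻¹ * y⁻¹ = q := by decide
theorem center_iff : ∀ x : T, (∀ g, g * x = x * g) ↔ x ^ 2 = 1 := by decide
theorem gen4 : ∀ x q : T, x ^ 4 = 1 → x ^ 2 ≠ 1 → q ^ 4 = 1 → ∃ g k, g * x * g⁻¹ * (k * x * k⁻¹) = q := by decide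
theorem gen6 : ∀ x : T, x ^ 4 ≠ 1 → ∃ g, (x * (g * x⁻¹ * g⁻¹)) ^ 4 = 1 ∧ (x * (g * x⁻¹ * g⁻¹)) ^ 2 ≠ 1 := by decide
theorem cosets : ∀ x y : T, x ^ 4 ≠ 1 → ∃ k : Fin 3, (y * (x ^ (k : ℕ))⁻¹) ^ 4 = 1 := by decide

def Q : Subgroup T where
  carrier := {x | x ^ 4 = 1}
  one_mem' := one_pow 4
  mul_mem' := fun hx hy => p4_mul _ _ hx hy
  inv_mem' := fun {x} hx => by show x⁻¹ ^ 4 = 1; rw [inv_pow, hx, inv_one]

theorem commutator_eq : commutator T = Q := by
  apply le_antisymm
  · rw [commutator_def, Subgroup.commutator_le]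
    exact fun x _ y _ => comm_p4 x y
  · intro q hq
    obtain ⟨x, y, rfl⟩ := p4_comm q hq
    exact Subgroup.commutator_mem_commutator (Subgroup.mem_top x) (Subgroup.mem_top y)

theorem card_Q : Nat.card Q = 8 := by
  have : Nat.card Q = Nat.card {x : T // x ^ 4 = 1} := rfl
  rw [this, Nat.card_eq_fintype_card]; decide

theorem card_center : Nat.card (Subgroup.center T) = 2 := by
  have : Nat.card (Subgroup.center T) = Nat.card {x : T // x ^ 2 = 1} :=
    Nat.card_congr (Equiv.subtypeEquivRight fun x => Subgroup.mem_center_iff.trans (center_iff x))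
  rw [this, Nat.card_eq_fintype_card]; decide

def qi : T := ⟨0, 2, 1, 0, by decide⟩
def qj : T := ⟨1, 1, 1, 2, by decide⟩
def qmap : QuaternionGroup 2 → T
  | QuaternionGroup.a i => qi ^ i.val
  | QuaternionGroup.xa i => qj * qi ^ i.val
theorem qmap_mul : ∀ x y : QuaternionGroup 2, qmap (x * y) = qmap x * qmap y := by decide
theorem qmap_inj : ∀ x y : QuaternionGroup 2, qmap x = qmap y → x = y := by decide
theorem qmap_mem : ∀ x : QuaternionGroup 2, qmap x ^ 4 = 1 := by decide

noncomputable def qiso : QuaternionGroup 2 ≃* Q :=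
  MulEquiv.ofBijective (MonoidHom.mk' (fun x => (⟨qmap x, qmap_mem x⟩ : Q)) (fun x y => Subtype.ext (qmap_mul x y)))
    ((Nat.bijective_iff_injective_and_card _).2 ⟨fun x y h => qmap_inj x y (congrArg Subtype.val h :),
      by rw [card_Q, Nat.card_eq_fintype_card, QuaternionGroup.card]⟩)

theorem normal_cases (N : Subgroup T) (hN : N.Normal) : N = ⊥ ∨ N = ⊤ ∨ N = Subgroup.center T ∨ N = Q := by
  have hQ : ∀ x ∈ N, x ^ 4 = 1 → x ^ 2 ≠ 1 → Q ≤ N := fun x hx h4 h2 q hq => by
    obtain ⟨g, k, rfl⟩ := gen4 x q h4 h2 hq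
    exact mul_mem (hN.conj_mem x hx g) (hN.conj_mem x hx k)
  by_cases h6 : ∃ x ∈ N, x ^ 4 ≠ 1
  · obtain ⟨x, hx, h6⟩ := h6
    obtain ⟨g, hg4, hg2⟩ := gen6 x h6
    have hQN := hQ _ (mul_mem hx (hN.conj_mem _ (inv_mem hx) g)) hg4 hg2
    refine Or.inr (Or.inl (top_le_iff.1 fun y _ => ?_))
    obtain ⟨k, hk⟩ := cosets x y h6
    have := mul_mem (hQN hk) (pow_mem hx (k : ℕ))
    rwa [inv_mul_cancel_right] at this
  push Not at h6
  by_cases h2 : ∃ x ∈ N, x ^ 2 ≠ 1
  · obtain ⟨x, hx, h2⟩ := h2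
    exact Or.inr (Or.inr (Or.inr (le_antisymm h6 (hQ x hx (h6 x hx) h2))))
  push Not at h2
  by_cases h1 : N = ⊥
  · exact Or.inl h1
  refine Or.inr (Or.inr (Or.inl (Subgroup.eq_of_le_of_card_ge
    (fun x hx => Subgroup.mem_center_iff.2 ((center_iff x).2 (h2 x hx))) ?_)))
  rw [card_center]
  exact (Subgroup.one_lt_card_iff_ne_bot N).2 h1

end T


/-- The group SL₂ over the field with 3 elements has order 24 and centre of order 2; its commutator subgroup has order 8, is isomorphic to the quaternion group of order 8 and is complemented by every Sylow 3-subgroup (so the group is a semidirect product of a quaternion group of order 8 by a cyclic group of order 3); and its only normal subgroups besides the trivial subgroup and the whole group are the centre and the commutator subgroup. -/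
theorem result :
    Nat.card (Matrix.SpecialLinearGroup (Fin 2) (ZMod 3)) = 24 ∧
    Nat.card (Subgroup.center (Matrix.SpecialLinearGroup (Fin 2) (ZMod 3))) = 2 ∧
    Nat.card (commutator (Matrix.SpecialLinearGroup (Fin 2) (ZMod 3))) = 8 ∧
    Nonempty (commutator (Matrix.SpecialLinearGroup (Fin 2) (ZMod 3)) ≃* QuaternionGroup 2) ∧
    (∀ P : Sylow 3 (Matrix.SpecialLinearGroup (Fin 2) (ZMod 3)),
      Subgroup.IsComplement' (commutator (Matrix.SpecialLinearGroup (Fin 2) (ZMod 3)))
        (P : Subgroup (Matrix.SpecialLinearGroup (Fin 2) (ZMod 3)))) ∧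
    ∀ N : Subgroup (Matrix.SpecialLinearGroup (Fin 2) (ZMod 3)), N.Normal →
      N = ⊥ ∨ N = ⊤ ∨ N = Subgroup.center (Matrix.SpecialLinearGroup (Fin 2) (ZMod 3)) ∨
        N = commutator (Matrix.SpecialLinearGroup (Fin 2) (ZMod 3)) := by
  let e := T.iso
  have hc : commutator (Matrix.SpecialLinearGroup (Fin 2) (ZMod 3)) = T.Q.map e.toMonoidHom := by
    rw [← T.commutator_eq, commutator_def, commutator_def, Subgroup.map_commutator, Subgroup.map_top_of_surjective e.toMonoidHom e.surjective]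
  have hz : Subgroup.center (Matrix.SpecialLinearGroup (Fin 2) (ZMod 3)) = (Subgroup.center T).map e.toMonoidHom := by
    ext x
    simp only [Subgroup.mem_map, MulEquiv.coe_toMonoidHom, Subgroup.mem_center_iff]
    constructor
    · exact fun h => ⟨e.symm x, fun g => e.injective (by rw [map_mul, map_mul, e.apply_symm_apply]; exact h (e g)), e.apply_symm_apply x⟩
    · rintro ⟨y, hy, rfl⟩ g
      rw [← e.apply_symm_apply g, ← map_mul, ← map_mul, hy]
  have h24 : Nat.card (Matrix.SpecialLinearGroup (Fin 2) (ZMod 3)) = 24 := (Nat.card_congr e.toEquiv).symm.trans T.card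
  have h8 : Nat.card (commutator (Matrix.SpecialLinearGroup (Fin 2) (ZMod 3))) = 8 := by
    rw [hc]; exact (Subgroup.card_map_of_injective (f := e.toMonoidHom) e.injective).trans T.card_Q
  refine ⟨h24, ?_, h8, ⟨?_⟩, fun P => ?_, fun N hN => ?_⟩
  · rw [hz]; exact (Subgroup.card_map_of_injective (f := e.toMonoidHom) e.injective).trans T.card_center
  · exact (MulEquiv.subgroupCongr hc).trans ((T.Q.equivMapOfInjective e.toMonoidHom e.injective).symm.trans T.qiso.symm)
  · have h3 : Nat.card (P : Subgroup (Matrix.SpecialLinearGroup (Fin 2) (ZMod 3))) = 3 := by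
      rw [P.card_eq_multiplicity, h24]
      rw [show (24 : ℕ) = 2 ^ 3 * 3 from rfl, Nat.factorization_mul (by norm_num) (by norm_num), Nat.factorization_pow,
        Nat.prime_two.factorization, Nat.prime_three.factorization]
      simp
    exact Subgroup.isComplement'_of_coprime (by rw [h8, h3, h24]) (by rw [h8, h3]; norm_num)
  · have hM : N = (N.comap e.toMonoidHom).map e.toMonoidHom := (Subgroup.map_comap_eq_self_of_surjective (f := e.toMonoidHom) e.surjective N).symm
    rcases T.normal_cases (N.comap e.toMonoidHom) (hN.comap _) with h | h | h | h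
    · left; rw [hM, h, Subgroup.map_bot]
    · right; left; rw [hM, h, Subgroup.map_top_of_surjective e.toMonoidHom e.surjective]
    · right; right; left; rw [hM, h, hz]
    · right; right; right; rw [hM, h, hc]

end Cfsg.Agent.S2427
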