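import Cfsg.Statements.S2428
import Cfsg.Agent.Lib.Classical.TwoDimTorusSylow
-- import your own Cfsg.Agent.* helpers here

set_option autoImplicit false
open Cfsg

namespace Cfsg.Agent.S2428

/-- Let F be a finite field with q elements, q odd, and let d be a diagonal element of SL₂ over F whose diagonal entry a has a² ≠ 1 (such d exist exactly when q > 3). Then the centraliser of d is precisely the diagonal subgroup T; the normaliser of T has order 2(q − 1) and exactly (q + 5)/2 conjugacy classes; and every element of that normaliser outside T has square equal to −1. -/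
theorem result {F : Type*} [Field F] [Fintype F] (hodd : Odd (Fintype.card F))
    (d : Matrix.SpecialLinearGroup (Fin 2) F) (hd01 : (d : Matrix (Fin 2) (Fin 2) F) 0 1 = 0) (hd10 : (d : Matrix (Fin 2) (Fin 2) F) 1 0 = 0) (hda : (d : Matrix (Fin 2) (Fin 2) F) 0 0 ^ 2 ≠ 1) :
    (∀ g : Matrix.SpecialLinearGroup (Fin 2) F, g ∈ Subgroup.centralizer ({d} : Set (Matrix.SpecialLinearGroup (Fin 2) F)) ↔ ((g : Matrix (Fin 2) (Fin 2) F) 0 1 = 0 ∧ (g : Matrix (Fin 2) (Fin 2) F) 1 0 = 0)) ∧
    Nat.card (Subgroup.normalizer ((Subgroup.centralizer ({d} : Set (Matrix.SpecialLinearGroup (Fin 2) F))) : Set (Matrix.SpecialLinearGroup (Fin 2) F))) = 2 * (Fintype.card F - 1) ∧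
    Nat.card (ConjClasses (Subgroup.normalizer ((Subgroup.centralizer ({d} : Set (Matrix.SpecialLinearGroup (Fin 2) F))) : Set (Matrix.SpecialLinearGroup (Fin 2) F)))) = (Fintype.card F + 5) / 2 ∧
    ∀ g : Matrix.SpecialLinearGroup (Fin 2) F, g ∈ Subgroup.normalizer ((Subgroup.centralizer ({d} : Set (Matrix.SpecialLinearGroup (Fin 2) F))) : Set (Matrix.SpecialLinearGroup (Fin 2) F)) →
      g ∉ Subgroup.centralizer ({d} : Set (Matrix.SpecialLinearGroup (Fin 2) F)) → ((g * g) : Matrix (Fin 2) (Fin 2) F) = -1 := by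
  classical
  have h2 := Cfsg.Lib.Classical.TwoDim.two_ne_zero_of_odd hodd
  have D := Cfsg.Lib.Classical.TwoDim.diag_data (F := F) h2
  have hd : d ∈ Cfsg.Lib.Classical.TwoDim.diagTorus := ⟨hd01, hd10⟩
  have h1 : d ≠ 1 := by rintro rfl; simp at hda
  have hn : d ≠ -1 := by rintro rfl; simp at hda
  have hC := D.centralizer_elem h2 hd h1 hn
  rw [hC]
  obtain ⟨f1, f2, f3⟩ := D.normalizer_facts h2 hd h1 hn
  rw [Cfsg.Lib.Classical.TwoDim.card_diagTorus] at f1 f2
  obtain ⟨r, hr⟩ := hodd
  refine ⟨fun g => Iff.rfl, f1, by omega, fun g hg hgT => ?_⟩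
  exact congrArg Subtype.val (f3 g hg hgT)

end Cfsg.Agent.S2428
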