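import Cfsg.Statements.S2429
import Cfsg.Agent.Lib.Classical.TwoDimTorusSylow
-- import your own Cfsg.Agent.* helpers here

set_option autoImplicit false
open Cfsg

namespace Cfsg.Agent.S2429

/-- Let F be a finite field with q elements, q odd. Then SL₂ over F contains a cyclic subgroup T′ of order q + 1 (a non-split torus) with the following properties: T′ is its own centraliser, and indeed the centraliser of each element of T′ other than 1 and −1 is exactly T′; every element of SL₂ having no eigenvector in F² is conjugate to an element of T′; the normaliser of T′ has order 2(q + 1) and exactly (q + 7)/2 conjugacy classes; and every element of that normaliser outside T′ has square −1. -/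
theorem result {F : Type*} [Field F] [Fintype F] (hodd : Odd (Fintype.card F)) :
    ∃ T' : Subgroup (Matrix.SpecialLinearGroup (Fin 2) F), IsCyclic T' ∧ Nat.card T' = Fintype.card F + 1 ∧
      Subgroup.centralizer ((T' : Set (Matrix.SpecialLinearGroup (Fin 2) F))) = T' ∧
      (∀ g : Matrix.SpecialLinearGroup (Fin 2) F, g ∈ T' → (g : Matrix (Fin 2) (Fin 2) F) ≠ 1 → (g : Matrix (Fin 2) (Fin 2) F) ≠ -1 → Subgroup.centralizer ({g} : Set (Matrix.SpecialLinearGroup (Fin 2) F)) = T') ∧
      (∀ g : Matrix.SpecialLinearGroup (Fin 2) F, (∀ (c : F) (v : Fin 2 → F), v ≠ 0 → (g : Matrix (Fin 2) (Fin 2) F).mulVec v ≠ c • v) → ∃ h : Matrix.SpecialLinearGroup (Fin 2) F, h * g * h⁻¹ ∈ T') ∧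
      Nat.card (Subgroup.normalizer (T' : Set (Matrix.SpecialLinearGroup (Fin 2) F))) = 2 * (Fintype.card F + 1) ∧
      Nat.card (ConjClasses (Subgroup.normalizer (T' : Set (Matrix.SpecialLinearGroup (Fin 2) F)))) = (Fintype.card F + 7) / 2 ∧
      ∀ g : Matrix.SpecialLinearGroup (Fin 2) F, g ∈ Subgroup.normalizer (T' : Set (Matrix.SpecialLinearGroup (Fin 2) F)) → g ∉ T' → ((g * g) : Matrix (Fin 2) (Fin 2) F) = -1 := by
  classical
  have h2 := Cfsg.Lib.Classical.TwoDim.two_ne_zero_of_odd hodd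
  obtain ⟨ε, hε⟩ := FiniteField.exists_nonsquare (F := F) (fun h => Nat.not_even_iff_odd.2 hodd (Nat.even_iff.2 (FiniteField.even_card_of_char_two h)))
  have D := Cfsg.Lib.Classical.TwoDim.ns_data h2 hε
  have hcard := Cfsg.Lib.Classical.TwoDim.card_nsTorus h2 hε
  obtain ⟨X, hX, hX1, hXn⟩ := Cfsg.Lib.Classical.TwoDim.exists_noncentral (T := Cfsg.Lib.Classical.TwoDim.nsTorus ε) (by
    rw [hcard]; have := Fintype.one_lt_card (α := F); omega)
  obtain ⟨f1, f2, f3⟩ := D.normalizer_facts h2 hX hX1 hXn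
  rw [hcard] at f1 f2
  refine ⟨_, Cfsg.Lib.Classical.TwoDim.isCyclic_nsTorus hε, hcard, ?_, fun g hg h1 hn => ?_, fun g hg => ?_, f1, ?_,
    fun g hg hgT => congrArg Subtype.val (f3 g hg hgT)⟩
  · refine le_antisymm ?_ fun t ht => Subgroup.mem_centralizer_iff.2 fun y hy => D.comm y hy t ht
    refine le_of_le_of_eq ?_ (D.centralizer_elem h2 hX hX1 hXn)
    exact Subgroup.centralizer_le (Set.singleton_subset_iff.2 hX)
  · exact D.centralizer_elem h2 hg (fun e => h1 (by rw [e]; simp)) (fun e => hn (by rw [e]; simp))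
  · obtain ⟨h, hh, -⟩ := Cfsg.Lib.Classical.TwoDim.exists_conj_nsTorus h2 hε hg
    exact ⟨h, hh⟩
  · obtain ⟨r, hr⟩ := hodd
    omega

end Cfsg.Agent.S2429
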