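import Cfsg.Statements.S2430
import Cfsg.Agent.Lib.Classical.TwoDimTorusSylow
-- import your own Cfsg.Agent.* helpers here

set_option autoImplicit false
open Cfsg

namespace Cfsg.Agent.S2430

/-- Let F be a finite field with q elements, q odd, ℓ an odd prime, and P a Sylow ℓ-subgroup of SL₂ over F. If ℓ divides q − 1, the centraliser of P is cyclic of order q − 1 (a split torus) and the normaliser of P has order 2(q − 1); if ℓ divides q + 1, the centraliser of P is cyclic of order q + 1 (a non-split torus) and the normaliser of P has order 2(q + 1). -/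
theorem result {F : Type*} [Field F] [Fintype F] (hodd : Odd (Fintype.card F)) (ℓ : ℕ) [Fact ℓ.Prime] (hℓ : ℓ ≠ 2)
    (P : Sylow ℓ (Matrix.SpecialLinearGroup (Fin 2) F)) :
    (ℓ ∣ Fintype.card F - 1 →
      Nat.card (Subgroup.centralizer ((P : Subgroup (Matrix.SpecialLinearGroup (Fin 2) F)) : Set (Matrix.SpecialLinearGroup (Fin 2) F))) = Fintype.card F - 1 ∧
      IsCyclic (Subgroup.centralizer ((P : Subgroup (Matrix.SpecialLinearGroup (Fin 2) F)) : Set (Matrix.SpecialLinearGroup (Fin 2) F))) ∧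
      Nat.card (Subgroup.normalizer ((P : Subgroup (Matrix.SpecialLinearGroup (Fin 2) F)) : Set (Matrix.SpecialLinearGroup (Fin 2) F))) = 2 * (Fintype.card F - 1)) ∧
    (ℓ ∣ Fintype.card F + 1 →
      Nat.card (Subgroup.centralizer ((P : Subgroup (Matrix.SpecialLinearGroup (Fin 2) F)) : Set (Matrix.SpecialLinearGroup (Fin 2) F))) = Fintype.card F + 1 ∧
      IsCyclic (Subgroup.centralizer ((P : Subgroup (Matrix.SpecialLinearGroup (Fin 2) F)) : Set (Matrix.SpecialLinearGroup (Fin 2) F))) ∧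
      Nat.card (Subgroup.normalizer ((P : Subgroup (Matrix.SpecialLinearGroup (Fin 2) F)) : Set (Matrix.SpecialLinearGroup (Fin 2) F))) = 2 * (Fintype.card F + 1)) := by
  classical
  have h2 := Cfsg.Lib.Classical.TwoDim.two_ne_zero_of_odd hodd
  obtain ⟨ε, hε⟩ := FiniteField.exists_nonsquare (F := F) (fun h => Nat.not_even_iff_odd.2 hodd (Nat.even_iff.2 (FiniteField.even_card_of_char_two h)))
  have hp := Fact.out (p := ℓ.Prime)
  have hq := Fintype.one_lt_card (α := F)
  have nd : ∀ a b : ℕ, ℓ ∣ a → (ℓ ∣ b → ℓ ∣ 2) → ¬ ℓ ∣ b := fun a b _ h hb =>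
    hℓ ((Nat.prime_dvd_prime_iff_eq hp Nat.prime_two).1 (h hb))
  refine ⟨fun hdvd => ?_, fun hdvd => ?_⟩
  · have h := (Cfsg.Lib.Classical.TwoDim.diag_data (F := F) h2).sylow h2 Cfsg.Lib.Classical.TwoDim.isCyclic_diagTorus
      (k := Fintype.card F * (Fintype.card F + 1))
      (by rw [Cfsg.Lib.Classical.TwoDim.card_SL, Cfsg.Lib.Classical.TwoDim.card_diagTorus]; ring) hℓ
      (by rw [Cfsg.Lib.Classical.TwoDim.card_diagTorus]; exact hdvd) ?_ P
    · rwa [Cfsg.Lib.Classical.TwoDim.card_diagTorus] at h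
    · rw [hp.dvd_mul]
      rintro (h | h)
      · have h1 : ℓ ∣ Fintype.card F - (Fintype.card F - 1) := Nat.dvd_sub h hdvd
        rw [show Fintype.card F - (Fintype.card F - 1) = 1 by omega] at h1
        exact hp.one_lt.ne' (Nat.dvd_one.1 h1)
      · refine nd _ _ hdvd (fun h => ?_) h
        have h1 := Nat.dvd_sub h hdvd
        rwa [show Fintype.card F + 1 - (Fintype.card F - 1) = 2 by omega] at h1
  · have h := (Cfsg.Lib.Classical.TwoDim.ns_data h2 hε).sylow h2 (Cfsg.Lib.Classical.TwoDim.isCyclic_nsTorus hε)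
      (k := Fintype.card F * (Fintype.card F - 1))
      (by rw [Cfsg.Lib.Classical.TwoDim.card_SL, Cfsg.Lib.Classical.TwoDim.card_nsTorus h2 hε]; ring) hℓ
      (by rw [Cfsg.Lib.Classical.TwoDim.card_nsTorus h2 hε]; exact hdvd) ?_ P
    · rwa [Cfsg.Lib.Classical.TwoDim.card_nsTorus h2 hε] at h
    · rw [hp.dvd_mul]
      rintro (h | h)
      · have h1 : ℓ ∣ Fintype.card F + 1 - Fintype.card F := Nat.dvd_sub hdvd h
        rw [show Fintype.card F + 1 - Fintype.card F = 1 by omega] at h1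
        exact hp.one_lt.ne' (Nat.dvd_one.1 h1)
      · refine nd _ _ hdvd (fun h => ?_) h
        have h1 := Nat.dvd_sub hdvd h
        rwa [show Fintype.card F + 1 - (Fintype.card F - 1) = 2 by omega] at h1

end Cfsg.Agent.S2430
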