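import Cfsg.Statements.S2431
import Cfsg.Agent.Lib.Classical.TwoDimSylowTwo
-- import your own Cfsg.Agent.* helpers here

set_option autoImplicit false
open Cfsg

namespace Cfsg.Agent.S2431

/-- Let F be a finite field with q elements, q odd, and S a Sylow 2-subgroup of SL₂ over F. The centraliser of S is the centre of SL₂ (of order 2); S is its own normaliser when q ≡ ±1 mod 8, and has index 3 in its normaliser when q ≡ ±3 mod 8. -/
theorem result {F : Type*} [Field F] [Fintype F] (hodd : Odd (Fintype.card F)) (S : Sylow 2 (Matrix.SpecialLinearGroup (Fin 2) F)) :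
    Subgroup.centralizer ((S : Subgroup (Matrix.SpecialLinearGroup (Fin 2) F)) : Set (Matrix.SpecialLinearGroup (Fin 2) F)) = Subgroup.center (Matrix.SpecialLinearGroup (Fin 2) F) ∧
    ((Fintype.card F % 8 = 1 ∨ Fintype.card F % 8 = 7) →
      Subgroup.normalizer ((S : Subgroup (Matrix.SpecialLinearGroup (Fin 2) F)) : Set (Matrix.SpecialLinearGroup (Fin 2) F)) = (S : Subgroup (Matrix.SpecialLinearGroup (Fin 2) F))) ∧
    ((Fintype.card F % 8 = 3 ∨ Fintype.card F % 8 = 5) →
      Nat.card (Subgroup.normalizer ((S : Subgroup (Matrix.SpecialLinearGroup (Fin 2) F)) : Set (Matrix.SpecialLinearGroup (Fin 2) F))) = 3 * Nat.card S) := by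
  classical
  have h2 := Cfsg.Lib.Classical.TwoDim.two_ne_zero_of_odd hodd
  obtain ⟨ε, hε⟩ := FiniteField.exists_nonsquare (F := F) (fun h => Nat.not_even_iff_odd.2 hodd (Nat.even_iff.2 (FiniteField.even_card_of_char_two h)))
  have hq := Fintype.one_lt_card (α := F)
  obtain ⟨r, hr⟩ := hodd
  rcases Nat.even_or_odd r with ⟨s, hs⟩ | ⟨s, hs⟩
  · obtain ⟨h1, h8, h24, -⟩ := (Cfsg.Lib.Classical.TwoDim.diag_data (F := F) h2).sylowTwo h2 Cfsg.Lib.Classical.TwoDim.isCyclic_diagTorus
      (k := Fintype.card F * (r + 1))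
      (by rw [Cfsg.Lib.Classical.TwoDim.card_SL, Cfsg.Lib.Classical.TwoDim.card_diagTorus, hr, Nat.add_sub_cancel]; ring)
      (by rw [Nat.prime_two.dvd_mul]; omega)
      (by rw [Cfsg.Lib.Classical.TwoDim.card_diagTorus]; omega) S
    rw [Cfsg.Lib.Classical.TwoDim.card_diagTorus] at h8 h24
    exact ⟨h1, fun h => h8 (by omega), fun h => h24 (by omega)⟩
  · obtain ⟨h1, h8, h24, -⟩ := (Cfsg.Lib.Classical.TwoDim.ns_data (F := F) h2 hε).sylowTwo h2 (Cfsg.Lib.Classical.TwoDim.isCyclic_nsTorus hε)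
      (k := Fintype.card F * r)
      (by rw [Cfsg.Lib.Classical.TwoDim.card_SL, Cfsg.Lib.Classical.TwoDim.card_nsTorus h2 hε, hr, Nat.add_sub_cancel]; ring)
      (by rw [Nat.prime_two.dvd_mul]; omega)
      (by rw [Cfsg.Lib.Classical.TwoDim.card_nsTorus h2 hε]; omega) S
    rw [Cfsg.Lib.Classical.TwoDim.card_nsTorus h2 hε] at h8 h24
    exact ⟨h1, fun h => h8 (by omega), fun h => h24 (by omega)⟩

end Cfsg.Agent.S2431
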