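import Cfsg.Statements.S2434
import Cfsg.Agent.Lib.Classical.TwoDimDiscreteTable
-- import your own Cfsg.Agent.* helpers here

set_option autoImplicit false
open Cfsg

namespace Cfsg.Agent.S2434

/-- Let F be a finite field with q elements, q odd, and C a cyclic subgroup of order q + 1 of SL₂ over F (a non-split torus; it contains the centre). For every homomorphism θ from C to the non-zero complex numbers with θ² ≠ 1 there is an irreducible complex character χ of degree q − 1 such that χ(c) = −θ(c) − θ(c)⁻¹ for every non-central c in C, χ(zg) = θ(z)χ(g) for central z in C, χ vanishes at diagonal elements with entry a, a² ≠ 1, and χ takes the value −1 at every upper unitriangular element other than 1. Conversely every irreducible character of degree q − 1 has, for some such θ, the values −θ(c) − θ(c)⁻¹ at the non-central elements c of C (for q ≥ 5 these are exactly the cuspidal characters of degree q − 1). -/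
theorem result {F : Type*} [Field F] [Fintype F] (hodd : Odd (Fintype.card F))
    (C : Subgroup (Matrix.SpecialLinearGroup (Fin 2) F)) (hC : IsCyclic C) (hcard : Nat.card C = Fintype.card F + 1) :
    (∀ θ : C →* ℂˣ, (∃ c : C, θ c ^ 2 ≠ 1) →
      ∃ χ : Matrix.SpecialLinearGroup (Fin 2) F → ℂ, Cfsg.IsIrrCharacter (Matrix.SpecialLinearGroup (Fin 2) F) χ ∧ χ 1 = (Fintype.card F : ℂ) - 1 ∧
        (∀ c : C, (c : Matrix.SpecialLinearGroup (Fin 2) F) ∉ Subgroup.center (Matrix.SpecialLinearGroup (Fin 2) F) → χ c = -((θ c).val + (θ c)⁻¹.val)) ∧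
        (∀ c : C, (c : Matrix.SpecialLinearGroup (Fin 2) F) ∈ Subgroup.center (Matrix.SpecialLinearGroup (Fin 2) F) → ∀ g : Matrix.SpecialLinearGroup (Fin 2) F, χ ((c : Matrix.SpecialLinearGroup (Fin 2) F) * g) = (θ c).val * χ g) ∧
        (∀ g : Matrix.SpecialLinearGroup (Fin 2) F, (g : Matrix (Fin 2) (Fin 2) F) 0 1 = 0 → (g : Matrix (Fin 2) (Fin 2) F) 1 0 = 0 → (g : Matrix (Fin 2) (Fin 2) F) 0 0 ^ 2 ≠ 1 → χ g = 0) ∧
        (∀ g : Matrix.SpecialLinearGroup (Fin 2) F, (g : Matrix (Fin 2) (Fin 2) F) 1 0 = 0 → (g : Matrix (Fin 2) (Fin 2) F) 0 0 = 1 → (g : Matrix (Fin 2) (Fin 2) F) 1 1 = 1 → (g : Matrix (Fin 2) (Fin 2) F) 0 1 ≠ 0 → χ g = -1)) ∧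
    (∀ χ : Matrix.SpecialLinearGroup (Fin 2) F → ℂ, Cfsg.IsIrrCharacter (Matrix.SpecialLinearGroup (Fin 2) F) χ → χ 1 = (Fintype.card F : ℂ) - 1 →
      ∃ θ : C →* ℂˣ, (∃ c : C, θ c ^ 2 ≠ 1) ∧
        ∀ c : C, (c : Matrix.SpecialLinearGroup (Fin 2) F) ∉ Subgroup.center (Matrix.SpecialLinearGroup (Fin 2) F) → χ c = -((θ c).val + (θ c)⁻¹.val)) := by
  classical
  obtain ⟨r, hr⟩ := id hodd
  have h2 := Cfsg.Lib.Classical.TwoDim.two_ne_zero_of_odd hodd
  obtain ⟨ε, hε⟩ := FiniteField.exists_nonsquare (Cfsg.Lib.Classical.TwoDim.ringChar_ne_two hodd)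
  obtain ⟨h, hmap⟩ := Cfsg.Lib.Classical.TwoDim.exists_map_eq h2 hε hC hcard
  have D := Cfsg.Lib.Classical.TwoDim.ns_data h2 hε
  let e : C ≃* Cfsg.Lib.Classical.TwoDim.nsTorus ε :=
    (C.equivMapOfInjective (MulAut.conj h).toMonoidHom (MulAut.conj h).injective).trans (MulEquiv.subgroupCongr hmap)
  have he : ∀ c : C, (e c : Matrix.SpecialLinearGroup (Fin 2) F) = h * c * h⁻¹ := fun c => rfl
  have hq := Cfsg.Lib.Classical.TwoDim.qsub_ne (F := F)
  have hconj : ∀ c : Matrix.SpecialLinearGroup (Fin 2) F, (h * c * h⁻¹ = 1 ↔ c = 1) ∧ (h * c * h⁻¹ = -1 ↔ c = -1) := fun c => by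
    refine ⟨conj_eq_one_iff, ⟨fun e => ?_, fun e => by rw [e]; simp⟩⟩
    have := congrArg (fun y => h⁻¹ * y * h) e
    simpa [mul_assoc] using this
  have hnegc : (-1 : Matrix.SpecialLinearGroup (Fin 2) F) ∈ Subgroup.center (Matrix.SpecialLinearGroup (Fin 2) F) :=
    Subgroup.mem_center_iff.2 fun x => Subtype.ext (by simp)
  have hnc : ∀ c : C, (c : Matrix.SpecialLinearGroup (Fin 2) F) ∉ Subgroup.center (Matrix.SpecialLinearGroup (Fin 2) F) →
      (e c : Matrix.SpecialLinearGroup (Fin 2) F) ≠ 1 ∧ (e c : Matrix.SpecialLinearGroup (Fin 2) F) ≠ -1 := by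
    intro c hc
    rw [he]
    exact ⟨fun k => hc ((hconj c).1.1 k ▸ one_mem _), fun k => hc ((hconj c).2.1 k ▸ hnegc)⟩
  refine ⟨fun θ hθ => ?_, fun χ hχ hd => ?_⟩
  · let θ' := θ.comp e.symm.toMonoidHom
    have hθ' : ∃ c, θ' c ^ 2 ≠ 1 := by
      obtain ⟨c, hc⟩ := hθ
      exact ⟨e c, by simpa [θ'] using hc⟩
    obtain ⟨α, hα⟩ := Cfsg.Lib.Classical.TwoDim.exists_alpha h2 hε θ'
    set χ := Cfsg.Lib.Classical.TwoDim.disc α θ'
    have hirr : Cfsg.IsIrrCharacter (Matrix.SpecialLinearGroup (Fin 2) F) χ := Cfsg.Lib.Classical.TwoDim.disc_irr h2 hε α θ' hα hθ'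
    have hcl := Cfsg.Lib.Classical.TwoDim.disc_cuspLike h2 hε α θ' hα
    have h1 : χ 1 = (Fintype.card F : ℂ) - 1 := by
      simp only [χ, Cfsg.Lib.Classical.TwoDim.disc_central h2 hε α θ' hα (Or.inl rfl) (one_mem _)]
      rw [show (⟨1, one_mem _⟩ : Cfsg.Lib.Classical.TwoDim.nsTorus ε) = 1 from rfl]
      simp
    have hnon : ∀ c : C, (c : Matrix.SpecialLinearGroup (Fin 2) F) ∉ Subgroup.center (Matrix.SpecialLinearGroup (Fin 2) F) →
        χ c = -((θ c).val + (θ c)⁻¹.val) := by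
      intro c hc
      show Cfsg.Lib.Classical.TwoDim.disc α θ' _ = _
      rw [← hcl.cls c h, ← he]
      rw [Cfsg.Lib.Classical.TwoDim.disc_torus h2 hε α θ' hα (e c).2 (hnc c hc).1 (hnc c hc).2]
      simp [θ']
    refine ⟨χ, hirr, h1, hnon, fun c hc g => ?_, fun g h01 h10 ha => ?_, fun g h10 h00 h11 h01 => ?_⟩
    · have hzc : ∀ x, (c : Matrix.SpecialLinearGroup (Fin 2) F) * x = x * c := fun x => (Subgroup.mem_center_iff.1 hc x).symm
      have hcz : (e c : Matrix.SpecialLinearGroup (Fin 2) F) = c := by rw [he, ← hzc, mul_inv_cancel_right]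
      have hpm : (e c : Matrix.SpecialLinearGroup (Fin 2) F) = 1 ∨ (e c : Matrix.SpecialLinearGroup (Fin 2) F) = -1 := by
        by_contra hcon
        simp only [not_or] at hcon
        have hC := D.centralizer_elem h2 (e c).2 hcon.1 hcon.2
        have hu : Cfsg.Lib.Classical.TwoDim.uS (1 : F) ∈ Cfsg.Lib.Classical.TwoDim.nsTorus ε := by
          rw [← hC, Subgroup.mem_centralizer_singleton_iff, hcz, hzc]
        have := hu.2
        simp at this
      have hval : χ c = ((Fintype.card F : ℂ) - 1) * (θ c).val := by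
        rw [← hcz]
        simp only [χ]
        rw [Cfsg.Lib.Classical.TwoDim.disc_central h2 hε α θ' hα hpm (e c).2]
        simp [θ']
      have hm := Cfsg.Lib.Classical.TwoDim.central_mul hirr hzc g
      rw [hval, h1] at hm
      exact mul_right_cancel₀ hq (hm.trans (by ring))
    · have hdet := g.2
      rw [Matrix.det_fin_two, h01, zero_mul, sub_zero] at hdet
      refine hcl.zero g (fun hell => ?_) fun h4 => ha ?_
      · exact hell ((g : Matrix (Fin 2) (Fin 2) F) 0 0) ![1, 0] (fun k => one_ne_zero (congrFun k 0))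
          (by ext i; fin_cases i <;> simp [Matrix.mulVec, dotProduct, Fin.sum_univ_two, h10])
      · simp only [Cfsg.Lib.Classical.TwoDim.tr] at h4
        have : ((g : Matrix (Fin 2) (Fin 2) F) 0 0 - (g : Matrix (Fin 2) (Fin 2) F) 1 1) ^ 2 = 0 := by
          linear_combination h4 - 4 * hdet
        rw [sq_eq_zero_iff, sub_eq_zero] at this
        rw [sq]
        nth_rewrite 2 [this]
        exact hdet
    · show Cfsg.Lib.Classical.TwoDim.disc α θ' g = -1
      rw [hcl.unip 1 (Or.inl rfl) g (fun k => h01 (by rw [k]; simp)) (by simp [Cfsg.Lib.Classical.TwoDim.tr, h00, h11]), show Cfsg.Lib.Classical.TwoDim.disc α θ' 1 = (Fintype.card F : ℂ) - 1 from h1,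
        neg_div, div_self hq]
  · obtain ⟨k, hk⟩ : ∃ k, r = k + 1 := ⟨r - 1, by have := Fintype.one_lt_card (α := F); omega⟩
    have hqC : (Fintype.card F : ℂ) = 2 * k + 3 := by rw [hr, hk]; push_cast; ring
    have hn : ∀ a b : ℕ, a ≠ b → (a : ℂ) ≠ b := fun a b h e => h (Nat.cast_injective e)
    have h1 : χ 1 ≠ 1 := fun e => hn (2 * k + 1) 0 (by omega) (by rw [hqC] at hd; push_cast; linear_combination e - hd)
    obtain ⟨π, hπ, hπ1, hdeg, hcase⟩ := Cfsg.Lib.Classical.TwoDim.sl_cases hχ h1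
    rcases hcase with ⟨hπd, hres⟩ | ⟨hπd, x, χ', hχ', hne, hx, hsum⟩
    · have DC : Cfsg.Lib.Classical.TwoDim.CuspLike χ := by
        have := Cfsg.Lib.Classical.TwoDim.cusp_of_gl h2 hπ (hπd.trans hd) hπ1
        rwa [show (fun A : Matrix.SpecialLinearGroup (Fin 2) F => π (Matrix.SpecialLinearGroup.toGL A)) = χ from funext hres] at this
      by_cases hperp : ∀ (α : MulChar F ℂ) (θ : Cfsg.Lib.Classical.TwoDim.nsTorus ε →* ℂˣ),
          α (-1) = (θ ⟨-1, D.neg_mem⟩ : ℂ) → (∃ c, θ c ^ 2 ≠ 1) → Cfsg.classInner χ (Cfsg.Lib.Classical.TwoDim.disc α θ) = 0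
      · exfalso
        have h0 : ∑ A, χ A = 0 := by
          have h := Cfsg.Lib.Characters.classInner_irr_ne hχ (Cfsg.Lib.Characters.isIrrCharacter_one (G := Matrix.SpecialLinearGroup (Fin 2) F))
            (fun e => h1 (by rw [e]))
          simpa [Cfsg.classInner] using h
        have key := Cfsg.Lib.Classical.TwoDim.hat_eq_quad h2 hε hr DC h0 hperp
        rw [hd, mul_div_cancel_right₀ _ hq] at key
        have hn2 := DC.inner_eq h2 hε DC
        rw [Cfsg.Lib.Characters.classInner_irr_self hχ] at hn2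
        simp only [Cfsg.classInner, key] at hn2
        have hterm : ∀ c : Cfsg.Lib.Classical.TwoDim.nsTorus ε, ((-2 : ℂ) * if c ^ (r + 1) = 1 then 1 else -1) *
            (starRingEnd ℂ) ((-2 : ℂ) * if c ^ (r + 1) = 1 then 1 else -1) = 4 := fun c => by
          split <;> simp [map_ofNat] <;> norm_num
        rw [Finset.sum_congr rfl fun c _ => hterm c, Finset.sum_const, Finset.card_univ, nsmul_eq_mul,
          ← Nat.card_eq_fintype_card, inv_mul_cancel_left₀ (Nat.cast_ne_zero.2 Nat.card_pos.ne')] at hn2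
        norm_num at hn2
      · simp only [not_forall] at hperp
        obtain ⟨α, θ, hα, hθ, hne⟩ := hperp
        have hirr := Cfsg.Lib.Classical.TwoDim.disc_irr h2 hε α θ hα hθ
        have heq : χ = Cfsg.Lib.Classical.TwoDim.disc α θ := by
          by_contra hc
          exact hne (Cfsg.Lib.Characters.classInner_irr_ne hχ hirr hc)
        refine ⟨θ.comp e.toMonoidHom, ?_, fun c hc => ?_⟩
        · obtain ⟨t, ht⟩ := hθ
          exact ⟨e.symm t, by simpa using ht⟩
        · rw [heq, ← (Cfsg.Lib.Classical.TwoDim.disc_cuspLike h2 hε α θ hα).cls c h, ← he,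
            Cfsg.Lib.Classical.TwoDim.disc_torus h2 hε α θ hα (e c).2 (hnc c hc).1 (hnc c hc).2]
          simp
    · have hk0 : k = 0 := by
        rw [hπd, hd, hqC] at hdeg
        rcases hdeg with h' | h' | h'
        · exact absurd (show ((k + 1 : ℕ) : ℂ) = ((0 : ℕ) : ℂ) by push_cast; linear_combination h' / 2) (hn _ _ (by omega))
        · exact absurd (show ((2 * k + 1 : ℕ) : ℂ) = ((0 : ℕ) : ℂ) by push_cast; linear_combination h') (hn _ _ (by omega))
        · exact Nat.cast_injective (R := ℂ) (by push_cast; linear_combination h' / 2)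
      subst hk0
      have hT4 : Nat.card (Cfsg.Lib.Classical.TwoDim.nsTorus ε) = 4 := by
        rw [Cfsg.Lib.Classical.TwoDim.card_nsTorus h2 hε, hr, hk]; norm_num
      haveI : IsMulCommutative (Cfsg.Lib.Classical.TwoDim.nsTorus ε) := ⟨⟨fun a b => Subtype.ext (D.comm _ a.2 _ b.2)⟩⟩
      letI : CommGroup (Cfsg.Lib.Classical.TwoDim.nsTorus ε) := { (inferInstance : Group _) with mul_comm := IsMulCommutative.is_comm.comm }
      obtain ⟨θ, hθ⟩ := CommGroup.exists_apply_ne_one_of_hasEnoughRootsOfUnity (Cfsg.Lib.Classical.TwoDim.nsTorus ε) ℂ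
        (a := ⟨-1, D.neg_mem⟩) (fun k => Cfsg.Lib.Classical.TwoDim.neg_one_ne' h2 (congrArg Subtype.val k))
      have hz : θ ⟨-1, D.neg_mem⟩ = -1 := by
        have h' : (θ ⟨-1, D.neg_mem⟩ : ℂ) * θ ⟨-1, D.neg_mem⟩ = 1 := by
          rw [← Units.val_mul, ← map_mul, show (⟨-1, D.neg_mem⟩ : Cfsg.Lib.Classical.TwoDim.nsTorus ε) * ⟨-1, D.neg_mem⟩ = 1 from Subtype.ext (by simp),
            map_one, Units.val_one]
        refine Units.ext ?_
        rw [Units.val_neg, Units.val_one]
        exact (mul_self_eq_one_iff.1 h').resolve_left fun e => hθ (Units.ext e)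
      have hsq : ∀ t : Cfsg.Lib.Classical.TwoDim.nsTorus ε, (t : Matrix.SpecialLinearGroup (Fin 2) F) ≠ 1 →
          (t : Matrix.SpecialLinearGroup (Fin 2) F) ≠ -1 → θ t ^ 2 = -1 := by
        intro t ht1 htn
        rw [← map_pow, ← hz]
        congr 1
        refine Subtype.ext ?_
        have h4 : t ^ 4 = 1 := by rw [← hT4, pow_card_eq_one']
        rcases Cfsg.Lib.Classical.TwoDim.eq_one_or_neg_one_of_inv_eq h2
          (A := ((t ^ 2 : Cfsg.Lib.Classical.TwoDim.nsTorus ε) : Matrix.SpecialLinearGroup (Fin 2) F))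
          (by rw [← Subgroup.coe_mul, ← pow_add, h4, Subgroup.coe_one]) with k | k
        · exfalso
          rcases Cfsg.Lib.Classical.TwoDim.eq_one_or_neg_one_of_inv_eq h2
            (A := (t : Matrix.SpecialLinearGroup (Fin 2) F)) (by rw [← sq, ← Subgroup.coe_pow, k]) with k' | k'
          · exact ht1 k'
          · exact htn k'
        · exact k
      obtain ⟨t, ht, ht1, htn⟩ := Cfsg.Lib.Classical.TwoDim.exists_noncentral (T := Cfsg.Lib.Classical.TwoDim.nsTorus ε) (by rw [hT4]; norm_num)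
      refine ⟨θ.comp e.toMonoidHom, ⟨e.symm ⟨t, ht⟩, ?_⟩, fun c hc => ?_⟩
      · simp [hsq ⟨t, ht⟩ ht1 htn]
      · have hev : Cfsg.Lib.Classical.TwoDim.Elliptic ((c : Matrix.SpecialLinearGroup (Fin 2) F) : Matrix (Fin 2) (Fin 2) F) := by
          have h' := Cfsg.Lib.Classical.TwoDim.nsTorus_facts h2 hε (e c).2 (hnc c hc).1 (hnc c hc).2
          rwa [he, Cfsg.Lib.Classical.TwoDim.elliptic_conj h2] at h'
        have h0 : π (Matrix.SpecialLinearGroup.toGL (c : Matrix.SpecialLinearGroup (Fin 2) F)) = 0 := by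
          have hd4 : π 1 = (Fintype.card F : ℂ) + 1 := by rw [hπd, hd, hqC]; norm_num
          rcases Cfsg.Lib.Classical.TwoDim.gl_cases hπ hπ1 with ⟨k, -⟩ | ⟨α, rfl⟩ | ⟨α, β, -, rfl⟩
          · exact absurd (show (2 : ℂ) = 0 by linear_combination k - hd4) two_ne_zero
          · simp [Cfsg.Lib.Classical.TwoDim.st_one] at hd4
          · exact Cfsg.Lib.Classical.TwoDim.indFun_elliptic α β hev
        have hs := hsum (c : Matrix.SpecialLinearGroup (Fin 2) F)
        rw [h0, Cfsg.Lib.Classical.TwoDim.half_eq_elliptic h2 hχ.isClassFunction hx hev] at hs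
        have hsc := hsq (e c) (hnc c hc).1 (hnc c hc).2
        have hinv : (((θ (e c))⁻¹ : ℂˣ) : ℂ) = -(θ (e c) : ℂ) := by
          rw [← Units.val_neg]
          congr 1
          rw [inv_eq_iff_mul_eq_one, mul_neg, ← sq, hsc, neg_neg]
        simp only [MonoidHom.comp_apply, MulEquiv.coe_toMonoidHom, hinv]
        linear_combination -hs / 2

end Cfsg.Agent.S2434
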