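import Cfsg.Statements.S2435
import Cfsg.Agent.Lib.Classical.TwoDimDiscreteTable
import Cfsg.Agent.S2433
-- import your own Cfsg.Agent.* helpers here

set_option autoImplicit false
open Cfsg

namespace Cfsg.Agent.S2435

/-- Let F be a finite field with q elements, q odd and q ≥ 5, and χ an irreducible complex character of SL₂ over F. If χ has degree (q + 1)/2, then at a diagonal element with entry a, a² ≠ 1, χ takes the value 1 when a is a square in F and −1 otherwise. If χ has degree (q − 1)/2, then at an element g with no eigenvector in F² (so g has order dividing q + 1), χ takes the value −1 when g raised to the power (q + 1)/2 is the identity and the value 1 otherwise. -/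
theorem result {F : Type*} [Field F] [Fintype F] (hodd : Odd (Fintype.card F)) (hq : 5 ≤ Fintype.card F)
    (χ : Matrix.SpecialLinearGroup (Fin 2) F → ℂ) (hχ : Cfsg.IsIrrCharacter (Matrix.SpecialLinearGroup (Fin 2) F) χ) (g : Matrix.SpecialLinearGroup (Fin 2) F) :
    (χ 1 = (((Fintype.card F + 1) / 2 : ℕ) : ℂ) → (g : Matrix (Fin 2) (Fin 2) F) 0 1 = 0 → (g : Matrix (Fin 2) (Fin 2) F) 1 0 = 0 → (g : Matrix (Fin 2) (Fin 2) F) 0 0 ^ 2 ≠ 1 →
      (IsSquare ((g : Matrix (Fin 2) (Fin 2) F) 0 0) → χ g = 1) ∧ (¬ IsSquare ((g : Matrix (Fin 2) (Fin 2) F) 0 0) → χ g = -1)) ∧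
    (χ 1 = (((Fintype.card F - 1) / 2 : ℕ) : ℂ) → (∀ (c : F) (v : Fin 2 → F), v ≠ 0 → (g : Matrix (Fin 2) (Fin 2) F).mulVec v ≠ c • v) →
      (((g ^ ((Fintype.card F + 1) / 2)) : Matrix (Fin 2) (Fin 2) F) = 1 → χ g = -1) ∧ (((g ^ ((Fintype.card F + 1) / 2)) : Matrix (Fin 2) (Fin 2) F) ≠ 1 → χ g = 1)) := by
  classical
  obtain ⟨r, hr⟩ := id hodd
  have hr2 : 2 ≤ r := by omega
  have hp : (((Fintype.card F + 1) / 2 : ℕ) : ℂ) = r + 1 := by
    rw [show (Fintype.card F + 1) / 2 = r + 1 by omega]; push_cast; ring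
  have hm : (((Fintype.card F - 1) / 2 : ℕ) : ℂ) = r := by rw [show (Fintype.card F - 1) / 2 = r by omega]
  have hr' : (Fintype.card F + 1) / 2 = r + 1 := by omega
  have hqC : (Fintype.card F : ℂ) = 2 * r + 1 := by rw [hr]; push_cast; ring
  rw [hp, hm, hr']
  refine ⟨fun hd h01 h10 ha => ?_, fun hd hev => ?_⟩
  · obtain ⟨π, x, χ', hπ, hπ1, hdeg, hχ', hne, hx, hsum⟩ := Cfsg.Lib.Classical.TwoDim.half_cases hr hr2 hχ (Or.inr hd)
    have he := Cfsg.Lib.Classical.TwoDim.plus_res hr hπ (by rw [hdeg, hd]) hχ hχ' hne hsum g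
    have hv := (Cfsg.Agent.S2433.result hodd (Cfsg.Lib.Classical.TwoDim.quadC : MulChar F ℂ) g).1 h01 h10 ha
    rw [Cfsg.Lib.Classical.TwoDim.half_eq_diag hχ.isClassFunction hx h01 h10] at he
    unfold Cfsg.Lib.Classical.ProjLine.thSL at he
    rw [hv] at he
    have hdet := g.2
    rw [Matrix.det_fin_two, h01, zero_mul, sub_zero] at hdet
    have ha0 := left_ne_zero_of_mul_eq_one hdet
    have hd0 := right_ne_zero_of_mul_eq_one hdet
    have hiff : IsSquare ((g : Matrix (Fin 2) (Fin 2) F) 1 1) ↔ IsSquare ((g : Matrix (Fin 2) (Fin 2) F) 0 0) := by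
      rw [eq_inv_of_mul_eq_one_right hdet, isSquare_inv]
    refine ⟨fun hs => ?_, fun hs => ?_⟩
    · rw [Cfsg.Lib.Classical.TwoDim.quadC_square ha0 hs, Cfsg.Lib.Classical.TwoDim.quadC_square hd0 (hiff.2 hs)] at he
      linear_combination he / 2
    · rw [Cfsg.Lib.Classical.TwoDim.quadC_nonsquare hs, Cfsg.Lib.Classical.TwoDim.quadC_nonsquare (fun h => hs (hiff.1 h))] at he
      linear_combination he / 2
  · have h2 := Cfsg.Lib.Classical.TwoDim.two_ne_zero_of_odd hodd
    obtain ⟨ε, hε⟩ := FiniteField.exists_nonsquare (Cfsg.Lib.Classical.TwoDim.ringChar_ne_two hodd)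
    obtain ⟨π, x, χ', hπ, hπ1, hdeg, hχ', hne, hx, hsum⟩ := Cfsg.Lib.Classical.TwoDim.half_cases hr hr2 hχ (Or.inl hd)
    have hπd : π 1 = (Fintype.card F : ℂ) - 1 := by rw [hdeg, hd, hqC]; ring
    have D : Cfsg.Lib.Classical.TwoDim.CuspLike fun A : Matrix.SpecialLinearGroup (Fin 2) F => π (Matrix.SpecialLinearGroup.toGL A) :=
      Cfsg.Lib.Classical.TwoDim.cusp_of_gl h2 hπ hπd hπ1
    have hfun : (fun A : Matrix.SpecialLinearGroup (Fin 2) F => π (Matrix.SpecialLinearGroup.toGL A)) = χ + χ' := funext hsum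
    have hrne : (r : ℂ) ≠ 1 := fun h => by
      have : r = 1 := Nat.cast_injective (h.trans Nat.cast_one.symm)
      omega
    have hd' : χ' 1 = r := by rw [hx, map_one, hd]
    have hone : ∀ f : Matrix.SpecialLinearGroup (Fin 2) F → ℂ, Cfsg.IsIrrCharacter _ f → f 1 = (r : ℂ) → ∑ A, f A = 0 := by
      intro f hf hfd
      have h := Cfsg.Lib.Characters.classInner_irr_ne hf (Cfsg.Lib.Characters.isIrrCharacter_one (G := Matrix.SpecialLinearGroup (Fin 2) F))
        (fun e => hrne (by rw [← hfd, e]))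
      simpa [Cfsg.classInner] using h
    have h0 : ∑ A : Matrix.SpecialLinearGroup (Fin 2) F, π (Matrix.SpecialLinearGroup.toGL A) = 0 := by
      simp only [hsum, Finset.sum_add_distrib, hone χ hχ hd, hone χ' hχ' hd', add_zero]
    obtain ⟨h, hh, hc0⟩ := Cfsg.Lib.Classical.TwoDim.exists_conj_nsTorus h2 hε hev
    have hperp : ∀ (α : MulChar F ℂ) (θ : Cfsg.Lib.Classical.TwoDim.nsTorus ε →* ℂˣ),
        α (-1) = (θ ⟨-1, (Cfsg.Lib.Classical.TwoDim.ns_data h2 hε).neg_mem⟩ : ℂ) → (∃ c, θ c ^ 2 ≠ 1) →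
        Cfsg.classInner (fun A : Matrix.SpecialLinearGroup (Fin 2) F => π (Matrix.SpecialLinearGroup.toGL A)) (Cfsg.Lib.Classical.TwoDim.disc α θ) = 0 := by
      intro α θ hα hθ
      have hirr := Cfsg.Lib.Classical.TwoDim.disc_irr h2 hε α θ hα hθ
      have hdd : Cfsg.Lib.Classical.TwoDim.disc α θ 1 = (Fintype.card F : ℂ) - 1 := by
        rw [Cfsg.Lib.Classical.TwoDim.disc_central h2 hε α θ hα (Or.inl rfl) (one_mem _),
          show (⟨1, one_mem _⟩ : Cfsg.Lib.Classical.TwoDim.nsTorus ε) = 1 from rfl]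
        simp
      have hdiff : ∀ f : Matrix.SpecialLinearGroup (Fin 2) F → ℂ, f 1 = (r : ℂ) → f ≠ Cfsg.Lib.Classical.TwoDim.disc α θ := by
        intro f hf e
        rw [e, hdd, hqC] at hf
        have : r = 0 := Nat.cast_injective (R := ℂ) (by push_cast; linear_combination hf)
        omega
      rw [hfun, Cfsg.Lib.Characters.classInner_add_left, Cfsg.Lib.Characters.classInner_irr_ne hχ hirr (hdiff χ hd),
        Cfsg.Lib.Characters.classInner_irr_ne hχ' hirr (hdiff χ' hd'), add_zero]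
    have key := Cfsg.Lib.Classical.TwoDim.hat_eq_quad h2 hε hr D h0 hperp ⟨_, hh⟩
    have hnc : ¬(h * g * h⁻¹ = 1 ∨ h * g * h⁻¹ = -1) := by
      rintro (e | e) <;> rw [e] at hc0 <;> simp at hc0
    simp only [Cfsg.Lib.Classical.TwoDim.hat, if_neg hnc, map_one, hπd, hsum,
      Cfsg.Lib.Classical.TwoDim.half_eq_elliptic h2 hχ.isClassFunction hx
        ((Cfsg.Lib.Classical.TwoDim.elliptic_conj h2 h).2 hev), hχ.isClassFunction g h] at key
    rw [mul_div_cancel_right₀ _ (Cfsg.Lib.Classical.TwoDim.qsub_ne (F := F))] at key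
    have hiff : ((⟨_, hh⟩ : Cfsg.Lib.Classical.TwoDim.nsTorus ε) ^ (r + 1) = 1) ↔
        ((g ^ (r + 1) : Matrix.SpecialLinearGroup (Fin 2) F) = 1) := by
      rw [← OneMemClass.coe_eq_one (x := (⟨_, hh⟩ : Cfsg.Lib.Classical.TwoDim.nsTorus ε) ^ (r + 1)), Subgroup.coe_pow]
      show (h * g * h⁻¹) ^ (r + 1) = 1 ↔ _
      rw [conj_pow, conj_eq_one_iff]
    have hiff2 : ((g ^ (r + 1) : Matrix.SpecialLinearGroup (Fin 2) F) = 1) ↔
        (g : Matrix (Fin 2) (Fin 2) F) ^ (r + 1) = 1 := by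
      exact ⟨fun e => by simpa using congrArg Subtype.val e, fun e => Subtype.ext (by simpa using e)⟩
    refine ⟨fun hs => ?_, fun hs => ?_⟩
    · rw [if_pos (hiff.2 (hiff2.2 hs))] at key
      linear_combination key / 2
    · rw [if_neg (fun e => hs (hiff2.1 (hiff.1 e)))] at key
      linear_combination key / 2

end Cfsg.Agent.S2435
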