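import Cfsg.Statements.S2438
import Cfsg.Agent.Lib.Classical.TwoDimSLFacts
-- import your own Cfsg.Agent.* helpers here

set_option autoImplicit false
open Cfsg

namespace Cfsg.Agent.S2438

/-- Let F be a finite field with q elements, q odd, q ≥ 5, U the upper unitriangular subgroup of SL₂ over F, and χ an irreducible complex character. The sum of the values of χ over U equals 2q, q, 0, q, 0 according as the degree of χ is q + 1, q, q − 1, (q + 1)/2, (q − 1)/2; so among these five degrees the sum vanishes exactly for the degrees q − 1 and (q − 1)/2, i.e. the irreducible characters of those two degrees are the ones whose restriction to U does not contain the trivial character (the cuspidal characters), while those of degree q + 1, q and (q + 1)/2 are not cuspidal. -/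
theorem result {F : Type*} [Field F] [Fintype F] [DecidableEq F] (hodd : Odd (Fintype.card F)) (hq : 5 ≤ Fintype.card F)
    (χ : Matrix.SpecialLinearGroup (Fin 2) F → ℂ) (hχ : Cfsg.IsIrrCharacter (Matrix.SpecialLinearGroup (Fin 2) F) χ) :
    (χ 1 = (Fintype.card F : ℂ) + 1 →
      (∑ g : Matrix.SpecialLinearGroup (Fin 2) F, if (g : Matrix (Fin 2) (Fin 2) F) 1 0 = 0 ∧ (g : Matrix (Fin 2) (Fin 2) F) 0 0 = 1 ∧ (g : Matrix (Fin 2) (Fin 2) F) 1 1 = 1 then χ g else 0) = 2 * (Fintype.card F : ℂ)) ∧
    (χ 1 = (Fintype.card F : ℂ) →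
      (∑ g : Matrix.SpecialLinearGroup (Fin 2) F, if (g : Matrix (Fin 2) (Fin 2) F) 1 0 = 0 ∧ (g : Matrix (Fin 2) (Fin 2) F) 0 0 = 1 ∧ (g : Matrix (Fin 2) (Fin 2) F) 1 1 = 1 then χ g else 0) = (Fintype.card F : ℂ)) ∧
    (χ 1 = (Fintype.card F : ℂ) - 1 →
      (∑ g : Matrix.SpecialLinearGroup (Fin 2) F, if (g : Matrix (Fin 2) (Fin 2) F) 1 0 = 0 ∧ (g : Matrix (Fin 2) (Fin 2) F) 0 0 = 1 ∧ (g : Matrix (Fin 2) (Fin 2) F) 1 1 = 1 then χ g else 0) = 0) ∧
    (χ 1 = (((Fintype.card F + 1) / 2 : ℕ) : ℂ) →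
      (∑ g : Matrix.SpecialLinearGroup (Fin 2) F, if (g : Matrix (Fin 2) (Fin 2) F) 1 0 = 0 ∧ (g : Matrix (Fin 2) (Fin 2) F) 0 0 = 1 ∧ (g : Matrix (Fin 2) (Fin 2) F) 1 1 = 1 then χ g else 0) = (Fintype.card F : ℂ)) ∧
    (χ 1 = (((Fintype.card F - 1) / 2 : ℕ) : ℂ) →
      (∑ g : Matrix.SpecialLinearGroup (Fin 2) F, if (g : Matrix (Fin 2) (Fin 2) F) 1 0 = 0 ∧ (g : Matrix (Fin 2) (Fin 2) F) 0 0 = 1 ∧ (g : Matrix (Fin 2) (Fin 2) F) 1 1 = 1 then χ g else 0) = 0) := by
  classical
  obtain ⟨r, hr⟩ := hodd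
  have hr2 : 2 ≤ r := by omega
  have hp : (((Fintype.card F + 1) / 2 : ℕ) : ℂ) = r + 1 := by
    rw [show (Fintype.card F + 1) / 2 = r + 1 by omega]; push_cast; ring
  have hm : (((Fintype.card F - 1) / 2 : ℕ) : ℂ) = r := by rw [show (Fintype.card F - 1) / 2 = r by omega]
  have hqC : (Fintype.card F : ℂ) = 2 * r + 1 := by rw [hr]; push_cast; ring
  have hsum : (∑ g : Matrix.SpecialLinearGroup (Fin 2) F, if (g : Matrix (Fin 2) (Fin 2) F) 1 0 = 0 ∧ (g : Matrix (Fin 2) (Fin 2) F) 0 0 = 1 ∧ (g : Matrix (Fin 2) (Fin 2) F) 1 1 = 1 then χ g else 0) =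
      ∑ a : F, χ (Cfsg.Lib.Classical.TwoDim.uS a) := by
    rw [← Finset.sum_filter]
    refine Finset.sum_nbij' (fun g => (g : Matrix (Fin 2) (Fin 2) F) 0 1) Cfsg.Lib.Classical.TwoDim.uS ?_ ?_ ?_ ?_ ?_
    · simp
    · simp
    · intro g hg
      simp only [Finset.mem_filter, Finset.mem_univ, true_and, Finset.mem_coe] at hg
      refine Subtype.ext ?_
      ext i j
      fin_cases i <;> fin_cases j <;> simp [hg]
    · intro a _; simp
    · intro g hg
      simp only [Finset.mem_filter, Finset.mem_univ, true_and] at hg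
      refine congrArg χ (Subtype.ext ?_)
      ext i j
      fin_cases i <;> fin_cases j <;> simp [hg]
  rw [hsum, hp, hm]
  have hn : ∀ n : ℕ, n < 2 → (r : ℂ) ≠ n := fun n hn h => by have := Nat.cast_injective h; omega
  have hk : ∀ n : ℕ, (r : ℂ) + n + 1 ≠ 0 := fun n => by exact_mod_cast Nat.succ_ne_zero (r + n)
  have key : χ 1 ≠ 1 →
      ∀ d : ℂ, χ 1 = d → (d = (Fintype.card F : ℂ) + 1 ∨ d = Fintype.card F ∨ d = (Fintype.card F : ℂ) - 1 →
        ∑ a : F, χ (Cfsg.Lib.Classical.TwoDim.uS a) = (Fintype.card F : ℂ) * (d - Fintype.card F + 1)) ∧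
      (d = (r : ℂ) + 1 ∨ d = r →
        2 * ∑ a : F, χ (Cfsg.Lib.Classical.TwoDim.uS a) = (Fintype.card F : ℂ) * (2 * d - Fintype.card F + 1)) := by
    intro h1 d hd
    obtain ⟨π, hπ, hπ1, hdeg, ⟨he, hres⟩ | ⟨he, x, χ', -, -, hx, hsum'⟩⟩ := Cfsg.Lib.Classical.TwoDim.sl_cases hχ h1
    · rw [hd] at he
      refine ⟨fun _ => ?_, fun h => ?_⟩
      · simp only [← hres, Cfsg.Lib.Classical.TwoDim.toGL_uS, Cfsg.Lib.Classical.TwoDim.sum_res hπ hπ1, ← he]
        linear_combination -(Fintype.card F : ℂ) * (Cfsg.Lib.Classical.TwoDim.sub_u_eq hπ hπ1)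
      · exfalso
        rw [hqC] at hdeg
        rw [he] at hdeg
        rcases h with rfl | rfl <;> rcases hdeg with h' | h' | h'
        · exact hn 1 (by norm_num) (by push_cast; linear_combination -h')
        · exact hn 0 (by norm_num) (by push_cast; linear_combination -h')
        · exact hk 0 (by push_cast; linear_combination -h')
        · exact hn 0 (by norm_num) (by push_cast; linear_combination -h')
        · exact hk 0 (by push_cast; linear_combination -h')
        · exact hk 1 (by push_cast; linear_combination -h')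
    · rw [hd] at he
      refine ⟨fun h => ?_, fun _ => ?_⟩
      · exfalso
        rw [hqC] at hdeg h
        rw [he] at hdeg
        rcases h with rfl | rfl | rfl <;> rcases hdeg with h' | h' | h'
        · exact hk 1 (by push_cast; linear_combination h' / 2)
        · exact hn 0 (by norm_num) (absurd (show ((2 * r + 3 : ℕ) : ℂ) = 0 by push_cast; linear_combination h') (Nat.cast_ne_zero.2 (by omega)))
        · exact hk 0 (by push_cast; linear_combination h' / 2)
        · exact hk 0 (by push_cast; linear_combination h' / 2)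
        · exact absurd (show ((2 * r + 1 : ℕ) : ℂ) = 0 by push_cast; linear_combination h') (Nat.cast_ne_zero.2 (by omega))
        · exact hn 0 (by norm_num) (by push_cast; linear_combination h' / 2)
        · exact hn 0 (by norm_num) (by push_cast; linear_combination h' / 2)
        · exact absurd (show ((2 * r : ℕ) : ℂ) = ((1 : ℕ) : ℂ) by push_cast; linear_combination h') (fun e => by have := Nat.cast_injective e; omega)
        · exact hn 1 (by norm_num) (by push_cast; linear_combination h' / 2)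
      · rw [Cfsg.Lib.Classical.TwoDim.half_sum_res hπ hπ1 hχ.isClassFunction hx hsum', ← he]
        linear_combination -(Fintype.card F : ℂ) * (Cfsg.Lib.Classical.TwoDim.sub_u_eq hπ hπ1)
  refine ⟨fun h => ?_, fun h => ?_, fun h => ?_, fun h => ?_, fun h => ?_⟩
  all_goals
    have h1 : χ 1 ≠ 1 := by
      rw [h]
      intro e
      first
        | exact hn 1 (by norm_num) (by push_cast; linear_combination e)
        | exact hn 0 (by norm_num) (by push_cast; linear_combination e)
        | exact absurd (show ((2 * r : ℕ) : ℂ) = ((1 : ℕ) : ℂ) by rw [hqC] at e; push_cast; linear_combination e) (fun k => by have := Nat.cast_injective k; omega)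
        | exact hn 0 (by norm_num) (by rw [hqC] at e; push_cast; linear_combination e / 2)
        | exact absurd (show ((2 * r + 1 : ℕ) : ℂ) = 0 by rw [hqC] at e; push_cast; linear_combination e) (Nat.cast_ne_zero.2 (by omega))
  · rw [(key h1 _ h).1 (Or.inl rfl)]; ring
  · rw [(key h1 _ h).1 (Or.inr (Or.inl rfl))]; ring
  · rw [(key h1 _ h).1 (Or.inr (Or.inr rfl))]; ring
  · have := (key h1 _ h).2 (Or.inl rfl)
    rw [hqC] at this ⊢
    linear_combination this / 2
  · have := (key h1 _ h).2 (Or.inr rfl)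
    rw [hqC] at this
    linear_combination this / 2

end Cfsg.Agent.S2438
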