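import Cfsg.Statements.S2439
import Cfsg.Agent.Lib.Classical.TwoDimBlocks
-- import your own Cfsg.Agent.* helpers here

set_option autoImplicit false
open Cfsg

namespace Cfsg.Agent.S2439

/-- Let F be a finite field with q elements of odd characteristic p, and M a maximal ideal of the algebraic integers containing p. Then SL₂ over F has exactly three p-blocks relative to M: the irreducible character of degree q (the Steinberg character) alone; the other irreducible characters taking the same value at −1 as at 1 (the principal block); and the irreducible characters χ with χ(−1) = −χ(1). Every Sylow p-subgroup is a defect group of each of the last two blocks. -/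
theorem result {F : Type*} [Field F] [Fintype F] (p : ℕ) [Fact p.Prime] [CharP F p] (hp : p ≠ 2)
    (M : Ideal Cfsg.AlgInt) (hM : Cfsg.IsPModular p M) :
    (∀ B : Set (Cfsg.IrrCharacter (Matrix.SpecialLinearGroup (Fin 2) F)), Cfsg.IsPBlock M B ↔
      (B = {χ : Cfsg.IrrCharacter (Matrix.SpecialLinearGroup (Fin 2) F) | (χ : Matrix.SpecialLinearGroup (Fin 2) F → ℂ) 1 = (Fintype.card F : ℂ)} ∨
       B = {χ : Cfsg.IrrCharacter (Matrix.SpecialLinearGroup (Fin 2) F) | (χ : Matrix.SpecialLinearGroup (Fin 2) F → ℂ) (-1) = (χ : Matrix.SpecialLinearGroup (Fin 2) F → ℂ) 1 ∧ (χ : Matrix.SpecialLinearGroup (Fin 2) F → ℂ) 1 ≠ (Fintype.card F : ℂ)} ∨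
       B = {χ : Cfsg.IrrCharacter (Matrix.SpecialLinearGroup (Fin 2) F) | (χ : Matrix.SpecialLinearGroup (Fin 2) F → ℂ) (-1) = -(χ : Matrix.SpecialLinearGroup (Fin 2) F → ℂ) 1})) ∧
    Nat.card {B : Set (Cfsg.IrrCharacter (Matrix.SpecialLinearGroup (Fin 2) F)) // Cfsg.IsPBlock M B} = 3 ∧
    ∀ P : Sylow p (Matrix.SpecialLinearGroup (Fin 2) F),
      Cfsg.IsDefectGroup p M {χ : Cfsg.IrrCharacter (Matrix.SpecialLinearGroup (Fin 2) F) | (χ : Matrix.SpecialLinearGroup (Fin 2) F → ℂ) (-1) = (χ : Matrix.SpecialLinearGroup (Fin 2) F → ℂ) 1 ∧ (χ : Matrix.SpecialLinearGroup (Fin 2) F → ℂ) 1 ≠ (Fintype.card F : ℂ)} (P : Subgroup (Matrix.SpecialLinearGroup (Fin 2) F)) ∧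
      Cfsg.IsDefectGroup p M {χ : Cfsg.IrrCharacter (Matrix.SpecialLinearGroup (Fin 2) F) | (χ : Matrix.SpecialLinearGroup (Fin 2) F → ℂ) (-1) = -(χ : Matrix.SpecialLinearGroup (Fin 2) F → ℂ) 1} (P : Subgroup (Matrix.SpecialLinearGroup (Fin 2) F)) := by
  classical
  open Cfsg.Lib.Classical.TwoDim Cfsg.Lib.Blocks Matrix in
  obtain ⟨hMp, h2, hodd⟩ : M.IsPrime ∧ (2 : F) ≠ 0 ∧ Odd (Fintype.card F) := by
    have h : ringChar F ≠ 2 := by rw [ringChar.eq F p]; exact hp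
    exact ⟨hM.2.1.isPrime, Ring.two_ne_zero h, Nat.odd_iff.2 (FiniteField.odd_card_of_char_ne_two h)⟩
  open Cfsg.Lib.Classical.TwoDim Cfsg.Lib.Blocks Matrix in
  have := charP_resF hM
  open Cfsg.Lib.Classical.TwoDim Cfsg.Lib.Blocks Matrix in
  let G := SpecialLinearGroup (Fin 2) F
  open Cfsg.Lib.Classical.TwoDim Cfsg.Lib.Blocks Matrix in
  let B1 : Set (IrrCharacter G) := {χ | (χ : G → ℂ) 1 = (Fintype.card F : ℂ)}
  open Cfsg.Lib.Classical.TwoDim Cfsg.Lib.Blocks Matrix in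
  let B2 : Set (IrrCharacter G) := {χ | (χ : G → ℂ) (-1) = (χ : G → ℂ) 1 ∧ (χ : G → ℂ) 1 ≠ (Fintype.card F : ℂ)}
  open Cfsg.Lib.Classical.TwoDim Cfsg.Lib.Blocks Matrix in
  let B3 : Set (IrrCharacter G) := {χ | (χ : G → ℂ) (-1) = -(χ : G → ℂ) 1}
  open Cfsg.Lib.Classical.TwoDim Cfsg.Lib.Blocks Matrix in
  obtain ⟨χ1, hχ1⟩ := exists_steinberg (F := F) hodd
  open Cfsg.Lib.Classical.TwoDim Cfsg.Lib.Blocks Matrix in
  obtain ⟨χ3, hχ3⟩ := exists_faithful (F := F) h2
  open Cfsg.Lib.Classical.TwoDim Cfsg.Lib.Blocks Matrix in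
  let χ2 : IrrCharacter G := ⟨_, Cfsg.Lib.Characters.isIrrCharacter_linear (1 : G →* ℂˣ)⟩
  open Cfsg.Lib.Classical.TwoDim Cfsg.Lib.Blocks Matrix in
  have hq : (Fintype.card F : ℂ) ≠ 0 := Nat.cast_ne_zero.2 Fintype.card_ne_zero
  open Cfsg.Lib.Classical.TwoDim Cfsg.Lib.Blocks Matrix in
  have hχ1z : ∀ χ : IrrCharacter G, (χ : G → ℂ) 1 = (Fintype.card F : ℂ) → (χ : G → ℂ) (-1) = (χ : G → ℂ) 1 := fun χ h => by
    rw [steinberg_eq hodd χ.2 h, st_central (Or.inr rfl), h]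
  open Cfsg.Lib.Classical.TwoDim Cfsg.Lib.Blocks Matrix in
  have hneg : ∀ χ : IrrCharacter G, (χ : G → ℂ) (-1) = (χ : G → ℂ) 1 → (χ : G → ℂ) (-1) ≠ -(χ : G → ℂ) 1 := fun χ h h' =>
    χ.2.one_ne_zero (by linear_combination (h' - h) / 2)
  open Cfsg.Lib.Classical.TwoDim Cfsg.Lib.Blocks Matrix in
  have h3q : ∀ χ : IrrCharacter G, (χ : G → ℂ) (-1) = -(χ : G → ℂ) 1 → (χ : G → ℂ) 1 ≠ (Fintype.card F : ℂ) := fun χ h e =>
    hneg χ (hχ1z χ e) h
  open Cfsg.Lib.Classical.TwoDim Cfsg.Lib.Blocks Matrix in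
  have hz0 : (1 : G) ≠ -1 := fun e => h2 (by
    have h1 := congrArg (fun A : G => (A : Matrix (Fin 2) (Fin 2) F) 0 0) e
    simp [G] at h1; linear_combination h1)
  open Cfsg.Lib.Classical.TwoDim Cfsg.Lib.Blocks Matrix in
  have hu : (uS (1 : F)) ≠ 1 ∧ tr (uS (1 : F)) = tr 1 := ⟨fun e => by
    simpa using congrArg (fun A : G => (A : Matrix (Fin 2) (Fin 2) F) 0 1) e, by simp [tr]⟩
  open Cfsg.Lib.Classical.TwoDim Cfsg.Lib.Blocks Matrix in
  have htr : tr (1 : G) ≠ tr (-1 : G) := fun e => h2 (mul_self_eq_zero.1 (show (2 : F) * 2 = 0 by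
    simp [tr, G] at e; linear_combination e))
  open Cfsg.Lib.Classical.TwoDim Cfsg.Lib.Blocks Matrix in
  have hsame : ∀ χ ψ : IrrCharacter G, SameBlock M (χ : G → ℂ) (ψ : G → ℂ) ↔
      (((χ : G → ℂ) 1 = (Fintype.card F : ℂ) ↔ (ψ : G → ℂ) 1 = (Fintype.card F : ℂ)) ∧
        ((χ : G → ℂ) (-1) = (χ : G → ℂ) 1 ↔ (ψ : G → ℂ) (-1) = (ψ : G → ℂ) 1)) := by
    intro χ ψ
    rw [sameBlock_iff]
    have hi := unip_index hp hM (Or.inl rfl) hu.1 hu.2
    have hus : ∀ φ : IrrCharacter G, ((φ : G → ℂ) 1 = (Fintype.card F : ℂ) ↔ red M (centralChar (φ : G → ℂ) (uS 1)) = 0) := by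
      intro φ
      constructor
      · intro h
        have h0 : (φ : G → ℂ) (uS 1) = 0 := by rw [steinberg_eq hodd φ.2 h, toGL_uS, st_u]
        rw [centralChar, h0, mul_zero, zero_div, red_zero]
      · intro h
        by_contra hne
        rw [red_sign hp hM φ hne, if_pos (by rw [hu.2]; exact tr_central (Or.inl rfl)), if_pos hu.2, one_mul] at h
        rw [h, mul_zero] at hi
        exact one_ne_zero (α := ResF M) (by linear_combination hi)
    constructor
    · intro h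
      have e1 : (χ : G → ℂ) 1 = (Fintype.card F : ℂ) ↔ (ψ : G → ℂ) 1 = (Fintype.card F : ℂ) := by rw [hus, hus, h]
      refine ⟨e1, ?_⟩
      by_cases hc : (χ : G → ℂ) 1 = (Fintype.card F : ℂ)
      · exact iff_of_true (hχ1z χ hc) (hχ1z ψ (e1.1 hc))
      · have h' := h (-1)
        rw [red_sign hp hM χ hc, red_sign hp hM ψ (fun k => hc (e1.2 k))] at h'
        have hidx : (Subgroup.centralizer ({(-1 : G)} : Set G)).index = 1 := by
          rw [Subgroup.index_eq_one, eq_top_iff]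
          exact fun y _ => Subgroup.mem_centralizer_singleton_iff.2 (by simp [G])
        rw [if_pos (tr_central (Or.inr rfl)), if_pos (tr_central (Or.inr rfl)), if_neg htr.symm, if_neg htr.symm, hidx,
          Nat.cast_one, mul_one, mul_one] at h'
        have h2r : (1 : ResF M) ≠ -1 := fun e => by
          have : ((2 : ℕ) : ResF M) = 0 := by push_cast; linear_combination e
          exact hp ((Nat.prime_dvd_prime_iff_eq Fact.out Nat.prime_two).1 ((CharP.cast_eq_zero_iff (ResF M) p 2).1 this))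
        split_ifs at h' with a b b <;>
          first | exact iff_of_true a b | exact iff_of_false a b | exact absurd h' h2r | exact absurd h'.symm h2r
    · rintro ⟨e1, e2⟩ g
      by_cases hc : (χ : G → ℂ) 1 = (Fintype.card F : ℂ)
      · rw [steinberg_unique hodd hc (e1.1 hc)]
      · rw [red_sign hp hM χ hc, red_sign hp hM ψ (fun k => hc (e1.2 k))]
        simp only [e2]
  open Cfsg.Lib.Classical.TwoDim Cfsg.Lib.Blocks Matrix in
  have hb : ∀ χ : IrrCharacter G,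
      ((χ : G → ℂ) 1 = (Fintype.card F : ℂ) → blockOf M (χ : G → ℂ) = B1) ∧
      (χ ∈ B2 → blockOf M (χ : G → ℂ) = B2) ∧ (χ ∈ B3 → blockOf M (χ : G → ℂ) = B3) := by
    intro χ
    refine ⟨fun h => Set.ext fun ψ => ?_, fun h => Set.ext fun ψ => ?_, fun h => Set.ext fun ψ => ?_⟩ <;>
      rw [show ψ ∈ blockOf M (χ : G → ℂ) ↔ SameBlock M (χ : G → ℂ) (ψ : G → ℂ) from Iff.rfl, hsame]
    · exact ⟨fun e => e.1.1 h, fun e => ⟨iff_of_true h e, iff_of_true (hχ1z χ h) (hχ1z ψ e)⟩⟩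
    · exact ⟨fun e => ⟨e.2.1 h.1, fun k => h.2 (e.1.2 k)⟩, fun e => ⟨iff_of_false h.2 e.2, iff_of_true h.1 e.1⟩⟩
    · exact ⟨fun e => (sign_cases ψ).resolve_left fun k => hneg χ (e.2.2 k) h,
        fun e => ⟨iff_of_false (h3q χ h) (h3q ψ e), iff_of_false (fun k => hneg χ k h) (fun k => hneg ψ k e)⟩⟩
  open Cfsg.Lib.Classical.TwoDim Cfsg.Lib.Blocks Matrix in
  have hc2 : χ2 ∈ B2 := ⟨by simp [χ2], fun e => by
    have e' : (Fintype.card F : ℂ) = 1 := by simpa [χ2] using e.symm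
    exact (Fintype.one_lt_card (α := F)).ne' (card_inj (n := 1) (by simpa using e'))⟩
  open Cfsg.Lib.Classical.TwoDim Cfsg.Lib.Blocks Matrix in
  have hblocks : ∀ B : Set (IrrCharacter G), IsPBlock M B ↔ B = B1 ∨ B = B2 ∨ B = B3 := by
    intro B
    constructor
    · rintro ⟨χ, rfl⟩
      by_cases h : (χ : G → ℂ) 1 = (Fintype.card F : ℂ)
      · exact Or.inl ((hb χ).1 h)
      · rcases sign_cases χ with hs | hs
        · exact Or.inr (Or.inl ((hb χ).2.1 ⟨hs, h⟩))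
        · exact Or.inr (Or.inr ((hb χ).2.2 hs))
    · rintro (rfl | rfl | rfl)
      exacts [⟨χ1, ((hb χ1).1 hχ1).symm⟩, ⟨χ2, ((hb χ2).2.1 hc2).symm⟩, ⟨χ3, ((hb χ3).2.2 hχ3).symm⟩]
  open Cfsg.Lib.Classical.TwoDim Cfsg.Lib.Blocks Matrix in
  refine ⟨hblocks, ?_, fun P => ?_⟩
  · have hset : {B : Set (IrrCharacter G) | IsPBlock M B} = {B1, B2, B3} := by
      ext B; simp [hblocks B]
    have hcard : ({B1, B2, B3} : Set (Set (IrrCharacter G))).ncard = 3 := Set.ncard_eq_three.2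
      ⟨B1, B2, B3, fun e => hc2.2 (e ▸ hc2 : χ2 ∈ B1), fun e => h3q χ3 hχ3 (e ▸ hχ3 : χ3 ∈ B1),
        fun e => hneg χ3 (e ▸ hχ3 : χ3 ∈ B2).1 hχ3, rfl⟩
    rw [← hset, ← Nat.card_coe_set_eq] at hcard
    exact hcard
  · have key : ∀ B : Set (IrrCharacter G), IsPBlock M B → (∀ χ ∈ B, (χ : G → ℂ) 1 ≠ (Fintype.card F : ℂ)) →
        IsDefectGroup p M B (P : Subgroup G) := by
      intro B hB hBq
      obtain ⟨D, hD⟩ := exists_defectGroup hM hB
      obtain ⟨g, hg, hs⟩ := isDefectGroup_iff.1 hD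
      obtain ⟨-, -, hcc⟩ := exists_defectClass_data hg
      obtain ⟨χ, hχ⟩ := IsPBlock.nonempty hB
      have h := hcc χ hχ
      rw [red_sign hp hM χ (hBq χ hχ)] at h
      have h4 : tr g ^ 2 = 4 := by by_contra k; rw [if_neg k] at h; exact h rfl
      obtain ⟨z, hz, ht⟩ := tr_four h4
      have hdvd : ¬ p ∣ (Subgroup.centralizer ({g} : Set G)).index := by
        intro k
        rw [if_pos h4, (natCast_resF_eq_zero hM _).2 k, mul_zero] at h
        exact h rfl
      have hfac : (Nat.card (Subgroup.centralizer ({g} : Set G))).factorization p = (Nat.card G).factorization p := by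
        rw [← Subgroup.index_mul_card (Subgroup.centralizer ({g} : Set G)),
          Nat.factorization_mul Subgroup.index_ne_zero_of_finite Nat.card_pos.ne', Finsupp.add_apply,
          Nat.factorization_eq_zero_of_not_dvd hdvd, zero_add]
      have hcardD := hs.card_eq
      rw [hfac] at hcardD
      let Q : Sylow p G := Sylow.ofCard D hcardD
      obtain ⟨x, hx⟩ := MulAction.exists_smul_eq G Q P
      rw [← hx]
      have := IsDefectGroup.conjSub hB hD x
      exact this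
    exact ⟨key B2 ((hblocks _).2 (Or.inr (Or.inl rfl))) fun χ h => h.2,
      key B3 ((hblocks _).2 (Or.inr (Or.inr rfl))) fun χ h => h3q χ h⟩

end Cfsg.Agent.S2439
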