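import Cfsg.Statements.S2531

-- import your own Cfsg.Agent.* helpers here

set_option autoImplicit false
open Cfsg

namespace Cfsg.Agent.S2531

section helper

open Projectivization Finset

variable {F : Type*} [Field F] [Finite F]

omit [Finite F] in
theorem rep_zero_iff {n : ℕ} (w : Fin n → F) (hw : w ≠ 0) (i : Fin n) :
    (Projectivization.mk F w hw).rep i = 0 ↔ w i = 0 := by
  obtain ⟨a, ha⟩ := exists_smul_eq_mk_rep F w hw
  rw [← ha, Pi.smul_apply, Units.smul_def, smul_eq_mul, mul_eq_zero]
  simp

/-- No sharply 2-transitive set in the semilinear group, by counting modulo the characteristic. -/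
theorem no_sharp (m : ℕ) (S : Set (Equiv.Perm (Projectivization F (Fin (m + 3) → F))))
    (hS : ∀ s ∈ S, ∃ (σ : F ≃+* F) (f : (Fin (m + 3) → F) →ₛₗ[(σ : F →+* F)] (Fin (m + 3) → F))
      (hf : Function.Injective f), ∀ x, s x = Projectivization.map f hf x)
    (hT : ∀ a b c d : Projectivization F (Fin (m + 3) → F), a ≠ b → c ≠ d →
        ∃! s, s ∈ S ∧ s a = c ∧ s b = d) : False := by
  classical
  have := Fintype.ofFinite F
  have := Fintype.ofFinite (Projectivization F (Fin (m + 3) → F))
  obtain ⟨p, hp⟩ := CharP.exists F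
  obtain ⟨k, hpp, hcard⟩ := FiniteField.card F p
  have : Fact p.Prime := ⟨hpp⟩
  have hq : (Fintype.card F : ZMod p) = 0 := by
    rw [hcard, Nat.cast_pow, ZMod.natCast_self, zero_pow k.ne_zero]
  let vec : F × F → (Fin (m + 3) → F) := fun u =>
    (Pi.single 0 1) + (u.1 • Pi.single 1 1 + u.2 • Pi.single 2 1)
  have h10 : (1 : Fin (m + 3)) ≠ 0 := by simp
  have h20 : (2 : Fin (m + 3)) ≠ 0 := by simp [Fin.ext_iff, Nat.mod_eq_of_lt]
  have h21 : (2 : Fin (m + 3)) ≠ 1 := by simp [Fin.ext_iff, Nat.mod_eq_of_lt]
  have hvec : ∀ u, vec u 0 = 1 ∧ vec u 1 = u.1 ∧ vec u 2 = u.2 := fun u => by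
    simp [vec, h10, h20, h21, h10.symm, h20.symm, h21.symm]
  have hvne : ∀ u, vec u ≠ 0 := fun u h => by simpa [h] using (hvec u).1
  let P : F × F → Projectivization F (Fin (m + 3) → F) := fun u => Projectivization.mk F (vec u) (hvne u)
  have hPinj : Function.Injective P := by
    intro u v h
    obtain ⟨c, hc⟩ := (mk_eq_mk_iff' F _ _ _ _).1 h
    have hc1 : c = 1 := by simpa [(hvec u).1, (hvec v).1] using congrFun hc 0
    rw [hc1, one_smul] at hc
    exact Prod.ext (by rw [← (hvec u).2.1, ← (hvec v).2.1, hc]) (by rw [← (hvec u).2.2, ← (hvec v).2.2, hc])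
  let a := P 0
  let H : Finset (Projectivization F (Fin (m + 3) → F)) := univ.filter fun x => x.rep 0 = 0
  let U : Finset (F × F) := univ.erase 0
  let T : Finset (Equiv.Perm (Projectivization F (Fin (m + 3) → F))) :=
    (univ : Finset (Equiv.Perm _)).filter fun s => s ∈ S ∧ s a = a
  have haH : ∀ b ∈ H, a ≠ b := by
    rintro b hb rfl
    have := (rep_zero_iff (vec 0) (hvne 0) 0).1 (Finset.mem_filter.1 hb).2
    rw [(hvec 0).1] at this
    exact one_ne_zero this
  have haP : ∀ u ∈ U, a ≠ P u := fun u hu h => (Finset.mem_erase.1 hu).1 (hPinj h).symm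
  -- each member of `T` meets the configuration in a multiple of `p`
  have hdiv : ∀ s ∈ T, (((U.filter fun u => s.symm (P u) ∈ H).card : ℕ) : ZMod p) = 0 := by
    intro s hs
    obtain ⟨hsS, hsa⟩ := (Finset.mem_filter.1 hs).2
    obtain ⟨σ, f, hf, hsf⟩ := hS s hsS
    let g := Equiv.ofBijective f (Finite.injective_iff_bijective.1 hf)
    have hg : ∀ x, f (g.symm x) = x := g.apply_symm_apply
    let ψ : (Fin (m + 3) → F) →ₗ[F] F :=
      { toFun := fun w => σ ((g.symm w) 0)
        map_add' := fun x y => by
          have : g.symm (x + y) = g.symm x + g.symm y := hf (by rw [hg, map_add f, hg, hg])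
          rw [this, Pi.add_apply, map_add]
        map_smul' := fun c x => by
          have : g.symm (c • x) = σ.symm c • g.symm x := hf (by
            rw [hg, LinearMap.map_smulₛₗ, hg]
            simp)
          rw [this, Pi.smul_apply, smul_eq_mul, map_mul, RingEquiv.apply_symm_apply, RingHom.id_apply,
            smul_eq_mul] }
    have hiff : ∀ u, s.symm (P u) ∈ H ↔ ψ (vec u) = 0 := by
      intro u
      have hw : g.symm (vec u) ≠ 0 := fun h => hvne u (by
        have := g.apply_symm_apply (vec u)
        rw [h] at this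
        exact this.symm.trans (map_zero f))
      have hsx : s (Projectivization.mk F (g.symm (vec u)) hw) = P u := by
        rw [hsf, Projectivization.map_mk]
        exact (mk_eq_mk_iff' F _ _ _ _).2 ⟨1, by rw [one_smul]; exact (g.apply_symm_apply _).symm⟩
      rw [← hsx, Equiv.symm_apply_apply]
      simp [H, ψ, rep_zero_iff]
    have h0 : ψ (vec 0) ≠ 0 := by
      rw [Ne, ← hiff]
      intro h
      have h' := haH _ h
      exact h' (by rw [eq_comm, Equiv.symm_apply_eq]; exact hsa.symm)
    have hlin : ∀ u, ψ (vec u) = ψ (vec 0) + (u.1 * ψ (Pi.single 1 1) + u.2 * ψ (Pi.single 2 1)) := by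
      intro u
      simp only [vec, Prod.fst_zero, Prod.snd_zero, zero_smul, add_zero, map_add, map_smul, smul_eq_mul]
    have hU : (U.filter fun u => s.symm (P u) ∈ H) = univ.filter fun u : F × F => ψ (vec u) = 0 := by
      ext u
      simp only [U, Finset.mem_filter, Finset.mem_erase, Finset.mem_univ, and_true, true_and, hiff]
      exact ⟨fun h => h.2, fun h => ⟨fun e => h0 (e ▸ h), h⟩⟩
    rw [hU]
    generalize ψ (vec 0) = c₀ at h0 hlin
    generalize ψ (Pi.single 1 1) = c₁ at hlin
    generalize ψ (Pi.single 2 1) = c₂ at hlin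
    simp only [hlin]
    by_cases h2 : c₂ = 0
    · by_cases h1 : c₁ = 0
      · simp [h1, h2, h0]
      · rw [← hq]
        congr 1
        rw [← Finset.card_univ (α := F)]
        refine Finset.card_bij' (fun u _ => u.2) (fun t _ => (-c₀ / c₁, t)) (by simp) ?_ ?_ (by simp)
        · intro t _
          simp only [Finset.mem_filter, Finset.mem_univ, true_and, h2, mul_zero, add_zero]
          field_simp
          ring
        · intro u hu
          simp only [Finset.mem_filter, Finset.mem_univ, true_and, h2, mul_zero, add_zero] at hu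
          refine Prod.ext ?_ rfl
          show -c₀ / c₁ = u.1
          field_simp
          linear_combination -hu
    · rw [← hq]
      congr 1
      rw [← Finset.card_univ (α := F)]
      refine Finset.card_bij' (fun u _ => u.1) (fun t _ => (t, (-c₀ - t * c₁) / c₂)) (by simp) ?_ ?_ (by simp)
      · intro t _
        simp only [Finset.mem_filter, Finset.mem_univ, true_and]
        field_simp
        ring
      · intro u hu
        simp only [Finset.mem_filter, Finset.mem_univ, true_and] at hu
        refine Prod.ext rfl ?_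
        show (-c₀ - u.1 * c₁) / c₂ = u.2
        field_simp
        linear_combination -hu
  -- double counting
  have hcount : ∑ s ∈ T, (U.filter fun u => s.symm (P u) ∈ H).card = H.card * U.card := by
    rw [← Finset.card_sigma, ← Finset.card_product]
    refine Finset.card_bij (fun x _ => (x.1.symm (P x.2), x.2)) ?_ ?_ ?_
    · rintro ⟨s, u⟩ hx
      simp only [Finset.mem_sigma, Finset.mem_filter] at hx
      exact Finset.mem_product.2 ⟨hx.2.2, hx.2.1⟩
    · rintro ⟨s, u⟩ hx ⟨t, v⟩ hy e
      simp only [Finset.mem_sigma, Finset.mem_filter, T] at hx hy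
      simp only [Prod.mk.injEq] at e
      obtain ⟨e1, rfl⟩ := e
      obtain ⟨r, -, hr⟩ := hT a (s.symm (P u)) a (P u) (haH _ hx.2.2) (haP u hx.2.1)
      have h1 := hr s ⟨hx.1.2.1, hx.1.2.2, Equiv.apply_symm_apply _ _⟩
      have h2 := hr t ⟨hy.1.2.1, hy.1.2.2, by rw [e1, Equiv.apply_symm_apply]⟩
      rw [h1, h2]
    · rintro ⟨b, u⟩ hb
      obtain ⟨hb, hu⟩ := Finset.mem_product.1 hb
      obtain ⟨s, ⟨hsS, hsa, hsb⟩, -⟩ := hT a b a (P u) (haH b hb) (haP u hu)
      have hsym : s.symm (P u) = b := by rw [← hsb, Equiv.symm_apply_apply]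
      refine ⟨⟨s, u⟩, ?_, by simp [hsym]⟩
      simp only [Finset.mem_sigma, Finset.mem_filter, T, Finset.mem_univ, true_and, hsym]
      exact ⟨⟨hsS, hsa⟩, hu, hb⟩
  have hzero : ((H.card * U.card : ℕ) : ZMod p) = 0 := by
    rw [← hcount, Nat.cast_sum]
    exact Finset.sum_eq_zero hdiv
  have hUc : (U.card : ZMod p) = -1 := by
    have h : U.card + 1 = Fintype.card F * Fintype.card F := by
      rw [← Fintype.card_prod, ← Finset.card_univ]
      exact Finset.card_erase_add_one (Finset.mem_univ _)
    have := congrArg (fun x : ℕ => (x : ZMod p)) h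
    simp only [Nat.cast_add, Nat.cast_mul, Nat.cast_one, hq, mul_zero] at this
    linear_combination this
  have hHc : (H.card : ZMod p) = 1 := by
    have hΩ : (Fintype.card (Projectivization F (Fin (m + 3) → F)) : ZMod p) = 1 := by
      have h := Projectivization.card' (k := F) (V := Fin (m + 3) → F)
      simp only [Nat.card_eq_fintype_card, Fintype.card_fun, Fintype.card_fin] at h
      have h' := congrArg (fun x : ℕ => (x : ZMod p)) h
      simp only [Nat.cast_pow, hq, Nat.cast_add, Nat.cast_mul, Nat.cast_one,
        Nat.cast_sub (Fintype.card_pos : 0 < Fintype.card F), zero_pow (Nat.succ_ne_zero _)] at h'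
      linear_combination h'
    have hcompl : (univ.filter fun x : Projectivization F (Fin (m + 3) → F) => ¬ x.rep 0 = 0).card =
        Fintype.card F ^ (m + 2) := by
      rw [show Fintype.card F ^ (m + 2) = (univ : Finset (Fin (m + 2) → F)).card by simp]
      symm
      refine Finset.card_bij (fun w _ => Projectivization.mk F (Fin.cons 1 w : Fin (m + 3) → F)
        (fun h => by simpa using congrFun h 0)) ?_ ?_ ?_
      · intro w _
        simp [rep_zero_iff]
      · intro w _ w' _ h
        obtain ⟨c, hc⟩ := (mk_eq_mk_iff' F _ _ _ _).1 h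
        have hc1 : c = 1 := by simpa using congrFun hc 0
        rw [hc1, one_smul] at hc
        exact funext fun i => by simpa using (congrFun hc i.succ).symm
      · intro x hx
        have hx0 : x.rep 0 ≠ 0 := (Finset.mem_filter.1 hx).2
        refine ⟨fun i => (x.rep 0)⁻¹ * x.rep i.succ, Finset.mem_univ _, ?_⟩
        conv_rhs => rw [← mk_rep x]
        refine (mk_eq_mk_iff' F _ _ _ _).2 ⟨(x.rep 0)⁻¹, funext fun i => ?_⟩
        refine Fin.cases ?_ (fun j => ?_) i <;> simp [hx0]
    have h := Finset.card_filter_add_card_filter_not (s := (univ : Finset (Projectivization F (Fin (m + 3) → F))))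
      (fun x => x.rep 0 = 0)
    rw [hcompl, Finset.card_univ] at h
    have h' := congrArg (fun x : ℕ => (x : ZMod p)) h
    simp only [Nat.cast_pow, hq, Nat.cast_add, zero_pow (Nat.succ_ne_zero _), add_zero] at h'
    exact h'.trans hΩ
  rw [Nat.cast_mul, hHc, hUc, one_mul, neg_eq_zero] at hzero
  exact one_ne_zero hzero

end helper


/-- Let `F` be a finite field and `n ≥ 3`. No set of permutations of the points of the projective space of `Fⁿ`, each induced by an invertible semilinear transformation of `Fⁿ` (so a subset of the full projective semilinear group), is sharply 2-transitive on the points: it is impossible that for all pairs of distinct points `(a, b)` and `(c, d)` exactly one member of the set sends `a` to `c` and `b` to `d`. -/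
theorem result {F : Type*} [Field F] [Finite F]
    (n : ℕ) (hn : 3 ≤ n) (S : Set (Equiv.Perm (Projectivization F (Fin n → F))))
    (hS : ∀ s ∈ S, ∃ (σ : F ≃+* F) (f : (Fin n → F) →ₛₗ[(σ : F →+* F)] (Fin n → F)) (hf : Function.Injective f),
      ∀ x, s x = Projectivization.map f hf x) :
    ¬ (∀ a b c d : Projectivization F (Fin n → F), a ≠ b → c ≠ d →
        ∃! s, s ∈ S ∧ s a = c ∧ s b = d) := by
  intro hT
  obtain ⟨m, rfl⟩ : ∃ m, n = m + 3 := ⟨n - 3, by omega⟩
  exact no_sharp m S hS hT

end Cfsg.Agent.S2531
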