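import Cfsg.Statements.S2532

-- import your own Cfsg.Agent.* helpers here

set_option autoImplicit false
open Cfsg

namespace Cfsg.Agent.S2532

/-- There is a function `f` of two natural-number arguments such that, whenever `m ≥ f(n, r)`, every subgroup of order `n` of the alternating group of degree `m` centralizes some subgroup of that alternating group isomorphic to the alternating group of degree `r`. -/
theorem result :
    ∃ f : ℕ → ℕ → ℕ, ∀ (m r : ℕ) (H : Subgroup ↥(alternatingGroup (Fin m))), f (Nat.card H) r ≤ m →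
      ∃ K : Subgroup ↥(alternatingGroup (Fin m)), Nonempty (↥K ≃* ↥(alternatingGroup (Fin r))) ∧
        K ≤ Subgroup.centralizer (H : Set ↥(alternatingGroup (Fin m))) := by
  classical
  refine ⟨fun n r => n * (2 ^ n * r) + 1, fun m r H hm => ?_⟩
  let Ω := MulAction.orbitRel.Quotient ↥H (Fin m)
  have hΩ : m ≤ Nat.card Ω * Nat.card H := by
    have hs : Function.Surjective (fun p : Ω × ↥H => p.2 • (p.1.out : Fin m)) := by
      intro x
      have h : (Quotient.mk'' x : Ω).out ∈ MulAction.orbit ↥H x :=
        MulAction.orbitRel_apply.1 (Quotient.exact (Quotient.out_eq (Quotient.mk'' x : Ω)))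
      rw [← MulAction.orbit_eq_iff] at h
      have hx : x ∈ MulAction.orbit ↥H (Quotient.mk'' x : Ω).out := by
        rw [h]; exact MulAction.mem_orbit_self x
      obtain ⟨g, hg⟩ := hx
      exact ⟨(Quotient.mk'' x, g), hg⟩
    have := Nat.card_le_card_of_surjective _ hs
    rwa [Nat.card_prod, Nat.card_fin] at this
  have hsub : Nat.card (Subgroup ↥H) ≤ 2 ^ Nat.card H := by
    refine (Nat.card_le_card_of_injective (fun K : Subgroup ↥H => (K : Set ↥H)) SetLike.coe_injective).trans ?_
    rw [Nat.card_eq_fintype_card, Fintype.card_set, Nat.card_eq_fintype_card]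
  have hlt : Fintype.card (Subgroup ↥H) * r < Fintype.card Ω := by
    rw [← Nat.card_eq_fintype_card, ← Nat.card_eq_fintype_card]
    have hpos : 0 < Nat.card H := Nat.card_pos
    by_contra hcon
    push Not at hcon
    have h2 : Nat.card Ω * Nat.card H ≤ (2 ^ Nat.card H * r) * Nat.card H :=
      Nat.mul_le_mul_right _ (hcon.trans (Nat.mul_le_mul_right r hsub))
    have : m ≤ Nat.card H * (2 ^ Nat.card H * r) := by
      rw [mul_comm]; exact hΩ.trans h2
    dsimp only at hm
    omega
  obtain ⟨L, hL⟩ := Fintype.exists_lt_card_fiber_of_mul_lt_card (fun ω : Ω => MulAction.stabilizer ↥H ω.out) hlt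
  obtain ⟨s, hs, hscard⟩ := Finset.exists_subset_card_eq hL.le
  let x : Fin r → Fin m := fun i => ((s.equivFinOfCardEq hscard).symm i : Ω).out
  have hx : ∀ i, MulAction.stabilizer ↥H (x i) = L := fun i =>
    (Finset.mem_filter.1 (hs ((s.equivFinOfCardEq hscard).symm i).2)).2
  have hxinj : ∀ i j (g g' : ↥H), g • x i = g' • x j → i = j := by
    intro i j g g' h
    apply (s.equivFinOfCardEq hscard).symm.injective
    apply Subtype.ext
    rw [← Quotient.out_eq ((s.equivFinOfCardEq hscard).symm i : Ω),
      ← Quotient.out_eq ((s.equivFinOfCardEq hscard).symm j : Ω)]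
    refine Quotient.sound (MulAction.orbitRel_apply.2 ⟨g⁻¹ * g', ?_⟩)
    show (g⁻¹ * g') • x j = x i
    rw [mul_smul, ← h, inv_smul_smul]
  let e0 : Fin r × (↥H ⧸ L) → Fin m := fun p => Quotient.liftOn' p.2 (fun g => g • x p.1) (fun g g' hgg' => by
    rw [QuotientGroup.leftRel_apply, ← hx p.1, MulAction.mem_stabilizer_iff, mul_smul, inv_smul_eq_iff] at hgg'
    exact hgg'.symm)
  have he0 : Function.Injective e0 := by
    rintro ⟨i, a⟩ ⟨j, b⟩ h
    induction a using QuotientGroup.induction_on with
    | H g =>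
      induction b using QuotientGroup.induction_on with
      | H g' =>
        change g • x i = g' • x j at h
        obtain rfl := hxinj _ _ _ _ h
        refine Prod.ext rfl (QuotientGroup.eq.2 ?_)
        rw [← hx i, MulAction.mem_stabilizer_iff, mul_smul, ← h, inv_smul_smul]
  let e : Fin r × (↥H ⧸ L) ↪ Fin m := ⟨e0, he0⟩
  let P : Equiv.Perm (Fin r) →* Equiv.Perm (Fin r × (↥H ⧸ L)) :=
    { toFun := fun π => π.prodCongr (Equiv.refl _)
      map_one' := by ext p <;> simp
      map_mul' := fun π τ => by ext p <;> simp }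
  let ψ : Equiv.Perm (Fin r) →* Equiv.Perm (Fin m) := (Equiv.Perm.viaEmbeddingHom e).comp P
  have hψinj : Function.Injective ψ := (Equiv.Perm.viaEmbeddingHom_injective e).comp fun π τ h => by
    ext i
    have := congrArg (fun σ : Equiv.Perm (Fin r × (↥H ⧸ L)) => (σ (i, (QuotientGroup.mk 1 : ↥H ⧸ L))).1) h
    exact congrArg Fin.val (by simpa [P] using this)
  have hcomm : ∀ (g : ↥H) (π : Equiv.Perm (Fin r)) (y : Fin m), g • ψ π y = ψ π (g • y) := by
    intro g π y
    have key : ∀ p : Fin r × (↥H ⧸ L), g • e p = e (p.1, g • p.2) := by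
      rintro ⟨i, a⟩
      induction a using QuotientGroup.induction_on with
      | H g' => exact (mul_smul g g' (x i)).symm
    by_cases hy : y ∈ Set.range e
    · obtain ⟨p, rfl⟩ := hy
      simp only [ψ, MonoidHom.comp_apply, Equiv.Perm.viaEmbeddingHom_apply, key, Equiv.Perm.viaEmbedding_apply]
      rfl
    · have hy' : g • y ∉ Set.range e := by
        rintro ⟨p, hp⟩
        exact hy ⟨(p.1, g⁻¹ • p.2), MulAction.injective g (by
          show g • e _ = g • y
          rw [key, smul_inv_smul, hp])⟩
      simp only [ψ, MonoidHom.comp_apply, Equiv.Perm.viaEmbeddingHom_apply,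
        Equiv.Perm.viaEmbedding_apply_of_notMem _ _ _ hy, Equiv.Perm.viaEmbedding_apply_of_notMem _ _ _ hy']
  have heven : ∀ π ∈ alternatingGroup (Fin r), ψ π ∈ alternatingGroup (Fin m) := by
    intro π hπ
    have hle : alternatingGroup (Fin r) ≤ (alternatingGroup (Fin m)).comap ψ := by
      rw [← Equiv.Perm.closure_three_cycles_eq_alternating, Subgroup.closure_le]
      intro c hc
      show ψ c ∈ alternatingGroup (Fin m)
      rw [Equiv.Perm.mem_alternatingGroup]
      have h3 : c ^ 3 = 1 := by rw [← hc.orderOf, pow_orderOf_eq_one]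
      have : Equiv.Perm.sign (ψ c) ^ 3 = 1 := by rw [← map_pow, ← map_pow, h3, map_one, map_one]
      rcases Int.units_eq_one_or (Equiv.Perm.sign (ψ c)) with h | h
      · exact h
      · rw [h] at this; exact absurd this (by decide)
    exact hle hπ
  let Φ : ↥(alternatingGroup (Fin r)) →* ↥(alternatingGroup (Fin m)) :=
    (ψ.comp (alternatingGroup (Fin r)).subtype).codRestrict _ (fun π => heven _ π.2)
  have hΦ : Function.Injective Φ := fun a b h => Subtype.ext (hψinj (congrArg Subtype.val h))
  refine ⟨Φ.range, ⟨(MonoidHom.ofInjective hΦ).symm⟩, ?_⟩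
  rintro _ ⟨π, rfl⟩
  rw [Subgroup.mem_centralizer_iff]
  intro g hg
  apply Subtype.ext
  apply Equiv.ext
  intro y
  exact hcomm ⟨g, hg⟩ π y

end Cfsg.Agent.S2532
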