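import Cfsg.Statements.S2533
import Mathlib

set_option autoImplicit false
set_option maxHeartbeats 1600000
open Cfsg

namespace Cfsg.Agent.S2533

open Matrix

variable {R : Type*} [CommRing R] {a : ℕ}

/-- The shift. -/
def sh (R : Type*) [CommRing R] (a : ℕ) : Matrix (Fin a) (Fin a) R := Matrix.of fun i j => if j.val = i.val + 1 then 1 else 0

theorem sh_mul (P : Matrix (Fin a) (Fin a) R) (i j : Fin a) :
    (sh R a * P) i j = if h : i.val + 1 < a then P ⟨i.val + 1, h⟩ j else 0 := by
  rw [Matrix.mul_apply]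
  split_ifs with h
  · rw [Finset.sum_eq_single ⟨i.val + 1, h⟩]
    · simp [sh]
    · intro b _ hb
      simp [sh, show b.val ≠ i.val + 1 from fun e => hb (Fin.ext e)]
    · simp
  · refine Finset.sum_eq_zero fun b _ => ?_
    simp [sh, show b.val ≠ i.val + 1 from fun e => h (e ▸ b.2)]

theorem mul_sh (P : Matrix (Fin a) (Fin a) R) (i j : Fin a) :
    (P * sh R a) i j = if h : 0 < j.val then P i ⟨j.val - 1, by omega⟩ else 0 := by
  rw [Matrix.mul_apply]
  split_ifs with h
  · rw [Finset.sum_eq_single ⟨j.val - 1, by omega⟩]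
    · rw [show sh R a ⟨j.val - 1, by omega⟩ j = 1 from if_pos (by simp; omega), mul_one]
    · intro b _ hb
      simp [sh, show j.val ≠ b.val + 1 from fun e => hb (Fin.ext (by simp; omega))]
    · simp
  · refine Finset.sum_eq_zero fun b _ => ?_
    simp [sh, show j.val ≠ b.val + 1 by omega]

theorem commutant (ha : 0 < a) {P : Matrix (Fin a) (Fin a) R} (h1 : sh R a * P = P * sh R a)
    (h2 : (sh R a)ᵀ * P = P * (sh R a)ᵀ) : P = P ⟨0, ha⟩ ⟨0, ha⟩ • (1 : Matrix (Fin a) (Fin a) R) := by
  have h2' : sh R a * Pᵀ = Pᵀ * sh R a := by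
    have := congrArg Matrix.transpose h2
    rw [transpose_mul, transpose_mul, transpose_transpose] at this
    exact this.symm
  have key : ∀ (k : ℕ) (i j : Fin a), i.val = k → P i j = if i = j then P ⟨0, ha⟩ ⟨0, ha⟩ else 0 := by
    intro k
    induction k with
    | zero =>
      intro i j hi
      obtain rfl : i = ⟨0, ha⟩ := Fin.ext hi
      split_ifs with h
      · rw [← h]
      · have hj : 0 < j.val := Nat.pos_of_ne_zero fun h' => h (Fin.ext h'.symm)
        have hh := congrFun (congrFun h2' ⟨j.val - 1, by omega⟩) ⟨0, ha⟩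
        rw [sh_mul, mul_sh, dif_neg (by simp : ¬ (0 < ((⟨0, ha⟩ : Fin a) : ℕ))), dif_pos (by simp; omega)] at hh
        simpa [show j.val - 1 + 1 = j.val by omega] using hh
    | succ k ih =>
      intro i j hi
      have hk : k + 1 < a := hi ▸ i.2
      have hh := congrFun (congrFun h1 ⟨k, by omega⟩) j
      rw [sh_mul, mul_sh, dif_pos hk] at hh
      rw [show i = ⟨k + 1, hk⟩ from Fin.ext hi, hh]
      split_ifs with hj hij hij
      · rw [ih _ _ rfl, if_pos]
        ext; simp [← hij]
      · rw [ih _ _ rfl, if_neg]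
        intro e
        exact hij (Fin.ext (by have := congrArg Fin.val e; simp at this; simp; omega))
      · exact absurd hj (by simp [← hij])
      · rfl
  ext i j
  rw [key i.val i j rfl]
  simp [Matrix.one_apply]

/-- For every odd prime `p` there is a finite group `H` of order `2p³` which, for infinitely many `n`, embeds in the projective special linear group `PSL(n, p)` as a subgroup with trivial centralizer. -/
theorem result
    (p : ℕ) [Fact p.Prime] (hp : p ≠ 2) :
    ∃ (H : Type) (_ : Group H) (_ : Finite H), Nat.card H = 2 * p ^ 3 ∧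
      ∀ N : ℕ, ∃ n, N ≤ n ∧ ∃ φ : H →* Matrix.ProjectiveSpecialLinearGroup (Fin n) (ZMod p),
        Function.Injective φ ∧ Subgroup.centralizer (φ.range : Set (Matrix.ProjectiveSpecialLinearGroup (Fin n) (ZMod p))) = ⊥ := by
  classical
  let V := Multiplicative (Fin 3 → ZMod p)
  let φ : ℤˣ →* MulAut V :=
    { toFun := fun u => if u = 1 then 1 else MulEquiv.inv V
      map_one' := if_pos rfl
      map_mul' := fun u v => by
        rcases Int.units_eq_one_or u with rfl | rfl <;> rcases Int.units_eq_one_or v with rfl | rfl <;>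
          simp <;> exact MulEquiv.ext fun x => (inv_inv x).symm }
  refine ⟨V ⋊[φ] ℤˣ, inferInstance, Finite.of_equiv _ SemidirectProduct.equivProd.symm, ?_, fun N => ?_⟩
  · rw [Nat.card_congr SemidirectProduct.equivProd, Nat.card_prod, Nat.card_congr Multiplicative.toAdd,
      Nat.card_eq_fintype_card, Nat.card_eq_fintype_card, Fintype.card_fun, Fintype.card_fin, ZMod.card,
      Fintype.card_units_int, mul_comm]
  set a := 2 * N + 2 with ha
  refine ⟨a + a, by omega, ?_⟩
  let M : (Fin 3 → ZMod p) → Matrix (Fin a) (Fin a) (ZMod p) := fun v => v 0 • 1 + v 1 • sh (ZMod p) a + v 2 • (sh (ZMod p) a)ᵀ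
  let fn : V →* Matrix.SpecialLinearGroup (Fin a ⊕ Fin a) (ZMod p) :=
    { toFun := fun v => ⟨fromBlocks 1 (M v.toAdd) 0 1, by rw [det_fromBlocks_zero₂₁, det_one, one_mul]⟩
      map_one' := Subtype.ext (by simp [M, fromBlocks_one])
      map_mul' := fun v w => Subtype.ext (by
        show fromBlocks 1 (M (v.toAdd + w.toAdd)) 0 1 = fromBlocks 1 (M v.toAdd) 0 1 * fromBlocks 1 (M w.toAdd) 0 1
        simp [M, fromBlocks_multiply, add_smul]
        abel) }
  let fg : ℤˣ →* Matrix.SpecialLinearGroup (Fin a ⊕ Fin a) (ZMod p) :=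
    { toFun := fun u => ⟨fromBlocks 1 0 0 (((u : ℤ) : ZMod p) • 1), by
        rw [det_fromBlocks_zero₂₁, det_one, one_mul, det_smul, det_one, mul_one, Fintype.card_fin, ha,
          pow_add, pow_mul]
        rcases Int.units_eq_one_or u with rfl | rfl <;> simp⟩
      map_one' := Subtype.ext (by simp [fromBlocks_one])
      map_mul' := fun u v => Subtype.ext (by
        show fromBlocks 1 0 0 ((((u * v : ℤˣ) : ℤ) : ZMod p) • 1) = fromBlocks 1 0 0 (((u : ℤ) : ZMod p) • 1) * fromBlocks 1 0 0 (((v : ℤ) : ZMod p) • (1 : Matrix (Fin a) (Fin a) (ZMod p)))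
        simp [fromBlocks_multiply, smul_smul, mul_comm]) }
  let e : (Fin a ⊕ Fin a) ≃ Fin (a + a) := finSumFinEquiv
  let T : Matrix.SpecialLinearGroup (Fin a ⊕ Fin a) (ZMod p) →* Matrix.SpecialLinearGroup (Fin (a + a)) (ZMod p) :=
    { toFun := fun g => ⟨Matrix.reindex e e (g : Matrix (Fin a ⊕ Fin a) (Fin a ⊕ Fin a) (ZMod p)), by rw [det_reindex_self]; exact g.2⟩
      map_one' := Subtype.ext (by simp)
      map_mul' := fun x y => Subtype.ext (by
        show Matrix.reindex e e ((x : Matrix (Fin a ⊕ Fin a) (Fin a ⊕ Fin a) (ZMod p)) * (y : Matrix (Fin a ⊕ Fin a) (Fin a ⊕ Fin a) (ZMod p))) = Matrix.reindex e e (x : Matrix (Fin a ⊕ Fin a) (Fin a ⊕ Fin a) (ZMod p)) * Matrix.reindex e e (y : Matrix (Fin a ⊕ Fin a) (Fin a ⊕ Fin a) (ZMod p))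
        simp [submatrix_mul_equiv]) }
  let f : V ⋊[φ] ℤˣ →* Matrix.SpecialLinearGroup (Fin a ⊕ Fin a) (ZMod p) := SemidirectProduct.lift fn fg (fun u => by
    refine MonoidHom.ext fun v => ?_
    rcases Int.units_eq_one_or u with rfl | rfl
    · simp
    · apply Subtype.ext
      simp only [MonoidHom.comp_apply, MulEquiv.coe_toMonoidHom, MulAut.conj_apply]
      rw [← map_inv, show ((-1 : ℤˣ))⁻¹ = -1 from rfl, show φ (-1) v = v⁻¹ from rfl]
      show fromBlocks 1 (M (-v.toAdd)) 0 1 = fromBlocks 1 0 0 ((((-1 : ℤˣ) : ℤ) : ZMod p) • 1) * fromBlocks 1 (M v.toAdd) 0 1 * fromBlocks 1 0 0 ((((-1 : ℤˣ) : ℤ) : ZMod p) • (1 : Matrix (Fin a) (Fin a) (ZMod p)))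
      simp [M, fromBlocks_multiply]
      abel)
  let π : Matrix.SpecialLinearGroup (Fin a ⊕ Fin a) (ZMod p) →* Matrix.ProjectiveSpecialLinearGroup (Fin (a + a)) (ZMod p) :=
    (QuotientGroup.mk' _).comp T
  have hπ : ∀ g, π g = 1 ↔ ∃ r : ZMod p, (g : Matrix (Fin a ⊕ Fin a) (Fin a ⊕ Fin a) (ZMod p)) = r • 1 := by
    intro g
    show (QuotientGroup.mk (T g) : Matrix.ProjectiveSpecialLinearGroup (Fin (a + a)) (ZMod p)) = 1 ↔ _
    rw [QuotientGroup.eq_one_iff, Matrix.SpecialLinearGroup.mem_center_iff]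
    constructor
    · rintro ⟨r, -, hr⟩
      refine ⟨r, (Matrix.reindex e e).injective ?_⟩
      show (T g : Matrix (Fin (a + a)) (Fin (a + a)) (ZMod p)) = _
      rw [← hr]
      simp [Matrix.smul_one_eq_diagonal]
    · rintro ⟨r, hr⟩
      have hT : (T g : Matrix (Fin (a + a)) (Fin (a + a)) (ZMod p)) = Matrix.scalar (Fin (a + a)) r := by
        show Matrix.reindex e e (g : Matrix (Fin a ⊕ Fin a) (Fin a ⊕ Fin a) (ZMod p)) = _
        rw [hr]
        simp [Matrix.smul_one_eq_diagonal]
      refine ⟨r, ?_, hT.symm⟩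
      have := (T g).2
      rw [hT] at this
      simpa using this
  have hinl : ∀ v, (f (SemidirectProduct.inl v) : Matrix (Fin a ⊕ Fin a) (Fin a ⊕ Fin a) (ZMod p)) = fromBlocks 1 (M v.toAdd) 0 1 := fun v => by
    simp only [f, SemidirectProduct.lift_inl]; rfl
  have hinr : ∀ u : ℤˣ, (f (SemidirectProduct.inr u) : Matrix (Fin a ⊕ Fin a) (Fin a ⊕ Fin a) (ZMod p)) = fromBlocks 1 0 0 (((u : ℤ) : ZMod p) • 1) := fun u => by
    simp only [f, SemidirectProduct.lift_inr]; rfl
  have hneg : (-1 : ZMod p) ≠ 1 := by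
    intro h
    haveI : Fact (2 < p) := ⟨lt_of_le_of_ne (Fact.out : p.Prime).two_le (Ne.symm hp)⟩
    exact ZMod.neg_one_ne_one h
  have z0 : Fin a := ⟨0, by omega⟩
  refine ⟨π.comp f, (injective_iff_map_eq_one _).mpr fun x hx => ?_, ?_⟩
  · obtain ⟨r, hr⟩ := (hπ _).mp hx
    rw [← SemidirectProduct.inl_left_mul_inr_right x, map_mul, Matrix.SpecialLinearGroup.coe_mul, hinl, hinr,
      fromBlocks_multiply, ← fromBlocks_one, fromBlocks_smul, fromBlocks_inj] at hr
    obtain ⟨h11, h12, -, h22⟩ := hr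
    simp at h11 h12 h22
    have hr1 : r = 1 := by
      have := congrFun (congrFun h11 z0) z0
      simpa using this.symm
    have hu : x.right = 1 := by
      rcases Int.units_eq_one_or x.right with h | h
      · exact h
      · exfalso
        rw [h, hr1] at h22
        simp at h22
        exact hneg h22
    have hv : x.left.toAdd = 0 := by
      rw [hu] at h12
      simp [M] at h12
      funext i
      have e00 := congrFun (congrFun h12 ⟨0, by omega⟩) ⟨0, by omega⟩
      have e01 := congrFun (congrFun h12 ⟨0, by omega⟩) ⟨1, by omega⟩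
      have e10 := congrFun (congrFun h12 ⟨1, by omega⟩) ⟨0, by omega⟩
      simp [sh, Matrix.one_apply] at e00 e01 e10
      have h1a : 1 % a = 1 := Nat.one_mod_eq_one.mpr (by omega)
      fin_cases i
      · exact e00
      · exact e01 h1a
      · exact e10 h1a
    exact SemidirectProduct.ext (Multiplicative.toAdd.injective hv) hu
  · rw [Subgroup.eq_bot_iff_forall]
    intro y hy
    obtain ⟨g', rfl⟩ := QuotientGroup.mk'_surjective _ y
    obtain ⟨g, rfl⟩ : ∃ g, T g = g' := ⟨⟨Matrix.reindex e.symm e.symm (g' : Matrix (Fin (a + a)) (Fin (a + a)) (ZMod p)), by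
      rw [det_reindex_self]; exact g'.2⟩, Subtype.ext (by
      show Matrix.reindex e e (Matrix.reindex e.symm e.symm (g' : Matrix (Fin (a + a)) (Fin (a + a)) (ZMod p))) = _
      simp)⟩
    apply (hπ g).mpr
    have hcom : ∀ x, ∃ r : ZMod p, (g : Matrix (Fin a ⊕ Fin a) (Fin a ⊕ Fin a) (ZMod p)) * (f x : Matrix (Fin a ⊕ Fin a) (Fin a ⊕ Fin a) (ZMod p)) =
        r • ((f x : Matrix (Fin a ⊕ Fin a) (Fin a ⊕ Fin a) (ZMod p)) * (g : Matrix (Fin a ⊕ Fin a) (Fin a ⊕ Fin a) (ZMod p))) := by
      intro x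
      have h1 : π (f x) * π g = π g * π (f x) := Subgroup.mem_centralizer_iff.mp hy _ ⟨x, rfl⟩
      have h2 : π (g * f x * (f x * g)⁻¹) = 1 := by rw [map_mul, map_inv, map_mul, map_mul, h1, mul_inv_cancel]
      obtain ⟨r, hr⟩ := (hπ _).mp h2
      refine ⟨r, ?_⟩
      have h3 : g * f x = g * f x * (f x * g)⁻¹ * (f x * g) := by rw [inv_mul_cancel_right]
      rw [← Matrix.SpecialLinearGroup.coe_mul, ← Matrix.SpecialLinearGroup.coe_mul, h3, Matrix.SpecialLinearGroup.coe_mul, hr,
        smul_mul_assoc, one_mul]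
    set G := (g : Matrix (Fin a ⊕ Fin a) (Fin a ⊕ Fin a) (ZMod p)) with hG
    set A := G.toBlocks₁₁
    set B := G.toBlocks₁₂
    set C := G.toBlocks₂₁
    set D := G.toBlocks₂₂
    have hGb : G = fromBlocks A B C D := (fromBlocks_toBlocks G).symm
    have hdet : G.det = 1 := g.2
    -- the unipotent part
    have hu : ∀ v : Fin 3 → ZMod p, ∃ r : ZMod p, A = r • (A + M v * C) ∧ A * M v + B = r • (B + M v * D) ∧ C = r • C ∧ C * M v + D = r • D := by
      intro v
      obtain ⟨r, hr⟩ := hcom (SemidirectProduct.inl (Multiplicative.ofAdd v))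
      rw [hinl, hGb, fromBlocks_multiply, fromBlocks_multiply, fromBlocks_smul, fromBlocks_inj] at hr
      exact ⟨r, by simpa using hr⟩
    obtain ⟨s, hs1, hs2, hs3, hs4⟩ : ∃ s : ZMod p, A = s • A ∧ -B = s • B ∧ C = s • (-C) ∧ -D = s • (-D) := by
      obtain ⟨r, hr⟩ := hcom (SemidirectProduct.inr (-1))
      rw [hinr, hGb, fromBlocks_multiply, fromBlocks_multiply, fromBlocks_smul, fromBlocks_inj] at hr
      exact ⟨r, by simpa using hr⟩
    by_cases hs : s = 1
    · have hB : B = 0 := by
        rw [hs, one_smul] at hs2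
        ext i j
        have := congrFun (congrFun hs2 i) j
        simp at this
        by_contra h
        exact hneg (mul_right_cancel₀ h (by rw [neg_one_mul, one_mul]; exact this))
      have hC : C = 0 := by
        rw [hs, one_smul] at hs3
        ext i j
        have := congrFun (congrFun hs3 i) j
        simp at this
        by_contra h
        exact hneg (mul_right_cancel₀ h (by rw [neg_one_mul, one_mul]; exact this.symm))
      have hr1 : ∀ v, A * M v = M v * D := by
        intro v
        obtain ⟨r, h1, h2, -, -⟩ := hu v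
        rw [hC, mul_zero, add_zero] at h1
        rw [hB, add_zero, zero_add] at h2
        have hA : A ≠ 0 := fun h => by
          rw [hGb, hB, h, det_fromBlocks_zero₁₂, det_zero, zero_mul] at hdet
          exact zero_ne_one hdet
        obtain ⟨i, j, hij⟩ : ∃ i j, A i j ≠ 0 := by
          by_contra h
          push Not at h
          exact hA (Matrix.ext h)
        have : r = 1 := by
          have := congrFun (congrFun h1 i) j
          rw [Matrix.smul_apply, smul_eq_mul] at this
          exact (mul_eq_right₀ hij).mp this.symm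
        rw [this, one_smul] at h2
        exact h2
      have hAD : A = D := by simpa [M] using hr1 ![1, 0, 0]
      have c1 : sh (ZMod p) a * A = A * sh (ZMod p) a := by
        have := hr1 ![0, 1, 0]
        simp [M, ← hAD] at this
        exact this.symm
      have c2 : (sh (ZMod p) a)ᵀ * A = A * (sh (ZMod p) a)ᵀ := by
        have := hr1 ![0, 0, 1]
        simp [M, ← hAD] at this
        exact this.symm
      refine ⟨A ⟨0, by omega⟩ ⟨0, by omega⟩, ?_⟩
      rw [hGb, hB, hC, ← hAD, commutant (by omega) c1 c2, ← fromBlocks_one, fromBlocks_smul, smul_zero]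
      simp
    · exfalso
      have hA : A = 0 := by
        ext i j
        have := congrFun (congrFun hs1 i) j
        rw [Matrix.smul_apply, smul_eq_mul] at this
        by_contra h
        exact hs ((mul_eq_right₀ h).mp this.symm)
      obtain ⟨r, h1, -, h3, -⟩ := hu ![1, 0, 0]
      have hC : C = 0 := by
        refine h3.trans ?_
        simpa [M, hA] using h1.symm
      rw [hGb, hA, hC, det_fromBlocks_zero₂₁, det_zero, zero_mul] at hdet
      exact zero_ne_one hdet

end Cfsg.Agent.S2533
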