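import Cfsg.Statements.S2537
import Mathlib
import Cfsg.Agent.Lib.Classical.PrimeToCharSL2
import Cfsg.Agent.Lib.Classical.NonsplitDihedralMax
import Cfsg.Agent.Lib.Classical.TwoDimTorusSylow
import Cfsg.Agent.Lib.Classical.PSLTwoOdd
import Cfsg.Agent.S0802
import Cfsg.Agent.S0803
import Cfsg.Agent.S0811
import Cfsg.Agent.S0812
-- import your own Cfsg.Agent.* helpers here

set_option autoImplicit false
open Cfsg

namespace Cfsg.Agent.S2537

open Matrix Cfsg.Lib.PStable Cfsg.Lib.Classical.NsDih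

theorem exists_dihedral_sub {k m : ℕ} (hk : k ≠ 0) (hm : m ∣ k) : ∃ H : Subgroup (DihedralGroup k), Nat.card H = 2 * m := by
  haveI : NeZero k := ⟨hk⟩
  obtain ⟨d, rfl⟩ := hm
  have hm0 : 0 < m := Nat.pos_of_ne_zero fun h => hk (by rw [h, zero_mul])
  have hd0 : 0 < d := Nat.pos_of_ne_zero fun h => hk (by rw [h, mul_zero])
  let A := AddSubgroup.zmultiples ((d : ℕ) : ZMod (m * d))
  have hA : Nat.card A = m := by
    rw [Nat.card_zmultiples, ZMod.addOrderOf_coe _ (by positivity), Nat.gcd_mul_left_left, Nat.mul_div_cancel _ hd0]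
  let idx : DihedralGroup (m * d) → ZMod (m * d) := fun g => match g with
    | .r i => i
    | .sr i => i
  let H : Subgroup (DihedralGroup (m * d)) :=
    { carrier := {g | idx g ∈ A}
      one_mem' := A.zero_mem
      mul_mem' := by
        rintro (i | i) (j | j) hi hj
        exacts [A.add_mem hi hj, A.sub_mem hj hi, A.add_mem hi hj, A.sub_mem hj hi]
      inv_mem' := by
        rintro (i | i) hi
        exacts [A.neg_mem hi, hi] }
  refine ⟨H, ?_⟩
  let f : A ⊕ A → H := Sum.elim (fun i => ⟨.r i.1, i.2⟩) (fun i => ⟨.sr i.1, i.2⟩)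
  have hf : Function.Bijective f := by
    constructor
    · rintro (i | i) (j | j) e <;> have e' := congrArg Subtype.val e <;>
        simp only [f, Sum.elim_inl, Sum.elim_inr, DihedralGroup.r.injEq, DihedralGroup.sr.injEq, reduceCtorEq] at e'
      exacts [congrArg Sum.inl (Subtype.ext e'), congrArg Sum.inr (Subtype.ext e')]
    · rintro ⟨i | i, hi⟩
      · exact ⟨.inl ⟨i, hi⟩, rfl⟩
      · exact ⟨.inr ⟨i, hi⟩, rfl⟩
  rw [← Nat.card_eq_of_bijective f hf, Nat.card_sum, hA, two_mul]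

variable {F : Type*} [Field F] [Fintype F]

local notation "SL2" => Matrix.SpecialLinearGroup (Fin 2) F

/-- An abelian subgroup with an element of order three. -/
theorem card_dvd_of_comm (h3 : (3 : F) ≠ 0) (C : Subgroup (Matrix.SpecialLinearGroup (Fin 2) F))
    (hC : ∀ x ∈ C, ∀ y ∈ C, x * y = y * x) (w : Matrix.SpecialLinearGroup (Fin 2) F) (hw : w ∈ C) (hw3 : w ^ 3 = 1) (hw1 : w ≠ 1) :
    Nat.card C ∣ Nat.card (tor (-1 : F)) := by
  classical
  have hsc : ¬ IsScalar2 w := fun h => by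
    rcases (isScalar2_iff w).1 h with rfl | rfl
    · exact hw1 rfl
    · exact hw1 (by simpa [pow_succ] using hw3)
  have hd := det_eq (g := w)
  set t := w 0 0 + w 1 1 with ht
  have e3 := congrArg (fun g : SL2 => ((g 0 0, g 0 1), (g 1 0, g 1 1))) hw3
  simp only [Prod.mk.injEq] at e3
  obtain ⟨⟨e00, e01⟩, e10, e11⟩ := e3
  simp [pow_succ, mul_entry] at e00 e01 e10 e11
  have ht1 : t * t = 1 := by
    by_contra hne
    have hne' : t * t - 1 ≠ 0 := sub_ne_zero.2 hne
    refine hsc ⟨?_, ?_, ?_⟩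
    · exact (mul_eq_zero.1 (show (t * t - 1) * w 0 1 = 0 by rw [ht]; linear_combination e01 + (w 0 1) * hd)).resolve_left hne'
    · exact (mul_eq_zero.1 (show (t * t - 1) * w 1 0 = 0 by rw [ht]; linear_combination e10 + (w 1 0) * hd)).resolve_left hne'
    · exact sub_eq_zero.1 ((mul_eq_zero.1 (show (t * t - 1) * (w 0 0 - w 1 1) = 0 by rw [ht]; linear_combination e00 - e11 + (w 0 0 - w 1 1) * hd)).resolve_left hne')
  have htm : t = -1 := by
    have : (t * t - 1) * w 0 0 - t = 1 := by rw [ht]; linear_combination e00 + (2 * w 0 0 + w 1 1) * hd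
    rw [ht1] at this
    linear_combination -this
  rw [ht] at htm
  have hlin : ∀ g : C, ∃ u v : F, g.1 0 0 = v - u * w 0 0 ∧ g.1 0 1 = -(u * w 0 1) ∧ g.1 1 0 = -(u * w 1 0) ∧ g.1 1 1 = v - u * w 1 1 := fun g => by
    obtain ⟨u, v, a1, a2, a3, a4⟩ := exists_linear_of_commute hsc (hC _ g.2 _ hw)
    exact ⟨-u, v, by rw [a1]; ring, by rw [a2]; ring, by rw [a3]; ring, by rw [a4]; ring⟩
  have huniq : ∀ u v u' v' : F, v - u * w 0 0 = v' - u' * w 0 0 → u * w 0 1 = u' * w 0 1 → u * w 1 0 = u' * w 1 0 →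
      v - u * w 1 1 = v' - u' * w 1 1 → u = u' ∧ v = v' := by
    intro u v u' v' b1 b2 b3 b4
    have hu : u = u' := by
      by_contra hne
      have hne' := sub_ne_zero.2 hne
      exact hsc ⟨(mul_eq_zero.1 (show (u - u') * w 0 1 = 0 by linear_combination b2)).resolve_left hne',
        (mul_eq_zero.1 (show (u - u') * w 1 0 = 0 by linear_combination b3)).resolve_left hne',
        sub_eq_zero.1 ((mul_eq_zero.1 (show (u - u') * (w 0 0 - w 1 1) = 0 by linear_combination b4 - b1)).resolve_left hne')⟩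
    subst hu
    exact ⟨rfl, by linear_combination b1⟩
  choose u v a1 a2 a3 a4 using hlin
  have hdet : ∀ g : C, v g * (u g + v g) - (-1) * u g * u g = 1 := fun g => by
    have h := det_eq (g := g.1)
    rw [a1, a2, a3, a4] at h
    linear_combination h + (v g * u g) * htm - (u g * u g) * hd
  let φ : C → tor (-1 : F) := fun g => ⟨⟨!![v g, -(u g); u g, v g + u g], by simp [det_fin_two]; linear_combination hdet g⟩,
    ⟨by simp, by simp⟩⟩
  let f : C →* tor (-1 : F) := MonoidHom.mk' φ fun g h => by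
    have m1 : (g * h).1 0 0 = g.1 0 0 * h.1 0 0 + g.1 0 1 * h.1 1 0 := mul_entry g.1 h.1 0 0
    have m2 : (g * h).1 0 1 = g.1 0 0 * h.1 0 1 + g.1 0 1 * h.1 1 1 := mul_entry g.1 h.1 0 1
    have m3 : (g * h).1 1 0 = g.1 1 0 * h.1 0 0 + g.1 1 1 * h.1 1 0 := mul_entry g.1 h.1 1 0
    have m4 : (g * h).1 1 1 = g.1 1 0 * h.1 0 1 + g.1 1 1 * h.1 1 1 := mul_entry g.1 h.1 1 1
    simp only [a1, a2, a3, a4] at m1 m2 m3 m4
    obtain ⟨hu, hv⟩ := huniq (u (g * h)) (v (g * h)) (u g * v h + v g * u h + u g * u h) (v g * v h - u g * u h)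
      (by linear_combination m1 + (u g * u h * w 0 0) * htm - (u g * u h) * hd)
      (by linear_combination -m2 - (u g * u h * w 0 1) * htm)
      (by linear_combination -m3 - (u g * u h * w 1 0) * htm)
      (by linear_combination m4 + (u g * u h * w 1 1) * htm - (u g * u h) * hd)
    refine Subtype.ext (Subtype.ext ?_)
    show !![v (g * h), -(u (g * h)); u (g * h), v (g * h) + u (g * h)] = !![v g, -(u g); u g, v g + u g] * !![v h, -(u h); u h, v h + u h]
    rw [hu, hv]
    ext i j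
    fin_cases i <;> fin_cases j <;> simp <;> ring
  have hf : Function.Injective f := fun g h e => by
    have e1 : v g = v h := congrArg (fun z : tor (-1 : F) => z.1 0 0) e
    have e2 : u g = u h := congrArg (fun z : tor (-1 : F) => z.1 1 0) e
    refine Subtype.ext (Matrix.SpecialLinearGroup.ext _ _ fun i j => ?_)
    fin_cases i <;> fin_cases j <;> simp [a1, a2, a3, a4, e1, e2]
  exact Subgroup.card_dvd_of_injective f hf

theorem irr_of_not_dvd (h3 : (3 : F) ≠ 0) (h : ¬ 3 ∣ Fintype.card F - 1) : Irr (-1 : F) := fun x e => h (by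
  have hx0 : x ≠ 0 := fun e' => by rw [e'] at e; simp at e
  have ho : orderOf (Units.mk0 (-x) (neg_ne_zero.2 hx0)) = 3 := by
    refine orderOf_eq_prime (Units.ext ?_) fun e' => ?_
    · push_cast [Units.val_mk0]; linear_combination -(x + 1) * e
    · have := congrArg Units.val e'
      simp at this
      exact h3 (by linear_combination e + (x + -1 - 1) * this)
  have hd := orderOf_dvd_natCard (Units.mk0 (-x) (neg_ne_zero.2 hx0))
  rwa [ho, Nat.card_units, Nat.card_eq_fintype_card] at hd)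

theorem tor_dvd_split (h3 : (3 : F) ≠ 0) (h : 3 ∣ Fintype.card F - 1) : Nat.card (tor (-1 : F)) ∣ Fintype.card F - 1 := by
  classical
  have hc : Nat.card Fˣ = Fintype.card F - 1 := by rw [Nat.card_units, Nat.card_eq_fintype_card]
  haveI : Fact (Nat.Prime 3) := ⟨Nat.prime_three⟩
  obtain ⟨ζ, hζ⟩ := exists_prime_orderOf_dvd_card' 3 (hc.symm ▸ h)
  have hz : (ζ : F) * ζ + ζ + 1 = 0 := by
    have h1 : (ζ : F) ^ 3 = 1 := by rw [← Units.val_pow_eq_pow_val, ← hζ, pow_orderOf_eq_one]; rfl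
    have h2 : (ζ : F) - 1 ≠ 0 := fun e => by
      rw [show ζ = 1 from Units.ext (sub_eq_zero.1 e), orderOf_one] at hζ
      omega
    exact (mul_eq_zero.1 (show ((ζ : F) - 1) * ((ζ : F) * ζ + ζ + 1) = 0 by linear_combination h1)).resolve_left h2
  let ρ : tor (-1 : F) →* F :=
    { toFun := fun g => g.1 0 0 - ζ * g.1 1 0
      map_one' := by simp
      map_mul' := fun a b => by
        simp [mul_entry, a.2.1, a.2.2]
        linear_combination -(a.1 1 0 * b.1 1 0) * hz }
  have hinj : Function.Injective ρ.toHomUnits := by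
    rw [← MonoidHom.ker_eq_bot_iff, Subgroup.eq_bot_iff_forall]
    intro g hg
    have e : g.1 0 0 - ζ * g.1 1 0 = 1 := congrArg Units.val (MonoidHom.mem_ker.1 hg)
    have hd := tor_det g.2
    have hb : g.1 1 0 = 0 := by
      by_contra hb
      have hb' : g.1 1 0 * (2 * (ζ : F) + 1) = 0 := by
        linear_combination hd - (g.1 0 0 + g.1 1 0 + 1 + (ζ : F) * g.1 1 0) * e - (g.1 1 0 * g.1 1 0) * hz
      have h21 := (mul_eq_zero.1 hb').resolve_left hb
      exact h3 (by linear_combination 4 * hz - (2 * (ζ : F) + 1) * h21)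
    rw [hb, mul_zero, sub_zero] at e
    refine Subtype.ext (Matrix.SpecialLinearGroup.ext _ _ fun i j => ?_)
    fin_cases i <;> fin_cases j <;> simp [g.2.1, g.2.2, e, hb]
  exact hc ▸ Subgroup.card_dvd_of_injective _ hinj


/-- Let `F` be a finite field with `q` elements of characteristic `p ≥ 5`, and `ε = 1` if `q ≡ 1 (mod 4)`, `ε = -1` otherwise. Then `PSL(2, F)` has a Hall `{2, 3}`-subgroup if and only if `3` divides `q − ε`, or the `{2,3}`-part of `q² − 1` is 24, or the `{2,3}`-part of `q² − 1` is 48 (the `{2,3}`-part of `m` being the largest divisor of `m` with no prime factor other than 2 and 3). -/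
theorem result {F : Type*} [Field F] [Fintype F] {p : ℕ} [Fact p.Prime] [CharP F p]
    (hp : 5 ≤ p) (q : ℕ) (hq : Fintype.card F = q) :
    (∃ H : Subgroup (Matrix.ProjectiveSpecialLinearGroup (Fin 2) F), Cfsg.IsPiHall ({2, 3} : Set ℕ) H) ↔
      (3 ∣ q - 1 ∧ q % 4 = 1) ∨ (3 ∣ q + 1 ∧ q % 4 = 3) ∨
        2 ^ (q ^ 2 - 1).factorization 2 * 3 ^ (q ^ 2 - 1).factorization 3 = 24 ∨
        2 ^ (q ^ 2 - 1).factorization 2 * 3 ^ (q ^ 2 - 1).factorization 3 = 48 := by
  classical
  have hpp : p.Prime := Fact.out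
  obtain ⟨e, -, hpe⟩ := FiniteField.card F p
  rw [hq] at hpe
  have h2 : (2 : F) ≠ 0 := Ring.two_ne_zero (by rw [ringChar.eq F p]; omega)
  haveI : NeZero (2 : F) := ⟨h2⟩
  have h3 : (3 : F) ≠ 0 := fun h => by
    have := (CharP.cast_eq_zero_iff F p 3).1 (by exact_mod_cast h)
    have := Nat.le_of_dvd (by norm_num) this
    omega
  have hq2 : ¬ 2 ∣ q := fun h => by
    rw [hpe] at h
    have := (Nat.prime_dvd_prime_iff_eq Nat.prime_two hpp).1 (Nat.prime_two.dvd_of_dvd_pow h)
    omega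
  have hq3 : ¬ 3 ∣ q := fun h => by
    rw [hpe] at h
    have := (Nat.prime_dvd_prime_iff_eq Nat.prime_three hpp).1 (Nat.prime_three.dvd_of_dvd_pow h)
    omega
  have hq5 : 5 ≤ q := hpe ▸ hp.trans (Nat.le_self_pow e.pos.ne' p)
  obtain ⟨n, hnd⟩ : ∃ n, n = q ^ 2 - 1 := ⟨_, rfl⟩
  rw [← hnd]
  obtain ⟨T, hTd⟩ : ∃ T, T = 2 ^ n.factorization 2 * 3 ^ n.factorization 3 := ⟨_, rfl⟩
  rw [← hTd]
  have hn : n = (q + 1) * (q - 1) := by rw [hnd, ← Nat.sq_sub_sq, one_pow]
  have hn0 : n ≠ 0 := by rw [hn]; exact Nat.mul_ne_zero (by omega) (by omega)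
  have hTn : T ∣ n := hTd ▸ Nat.Coprime.mul_dvd_of_dvd_of_dvd (Nat.Coprime.pow _ _ (by norm_num)) (Nat.ordProj_dvd n 2) (Nat.ordProj_dvd n 3)
  obtain ⟨R, hR⟩ := hTn
  have hR2 : ¬ 2 ∣ R := fun h => Nat.pow_succ_factorization_not_dvd hn0 Nat.prime_two (by
    conv_rhs => rw [hR, hTd]
    rw [pow_succ]; exact Nat.mul_dvd_mul (dvd_mul_right _ _) h)
  have hR3 : ¬ 3 ∣ R := fun h => Nat.pow_succ_factorization_not_dvd hn0 Nat.prime_three (by
    conv_rhs => rw [hR, hTd]
    rw [pow_succ]; exact Nat.mul_dvd_mul (dvd_mul_left _ _) h)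
  have h8 : 8 ∣ T := by
    obtain ⟨j, hj⟩ : ∃ j, q = 2 * j + 1 := ⟨q / 2, by omega⟩
    obtain ⟨i, hi⟩ := Nat.even_mul_succ_self j
    have h8n : 2 ^ 3 ∣ n := ⟨i, by rw [hn, hj, Nat.add_sub_cancel]; nlinarith⟩
    exact hTd ▸ (Nat.pow_dvd_pow 2 ((Nat.prime_two.pow_dvd_iff_le_factorization hn0).1 h8n)).trans (dvd_mul_right _ _)
  have h3T : 3 ∣ T := by
    have h3n : 3 ^ 1 ∣ n := by
      rw [hn, pow_one]
      rcases (show q % 3 = 1 ∨ q % 3 = 2 by omega) with h | h
      · exact Dvd.dvd.mul_left (Nat.dvd_of_mod_eq_zero (by omega)) _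
      · exact Dvd.dvd.mul_right (Nat.dvd_of_mod_eq_zero (by omega)) _
    have := Nat.pow_dvd_pow 3 ((Nat.prime_three.pow_dvd_iff_le_factorization hn0).1 h3n)
    rw [pow_one] at this
    exact hTd ▸ this.trans (dvd_mul_left _ _)
  have hTprimes : ∀ r : ℕ, r.Prime → r ∣ T → r = 2 ∨ r = 3 := fun r hr h =>
    (hr.dvd_mul.1 (hTd ▸ h)).imp (fun h => (Nat.prime_dvd_prime_iff_eq hr Nat.prime_two).1 (hr.dvd_of_dvd_pow h))
      (fun h => (Nat.prime_dvd_prime_iff_eq hr Nat.prime_three).1 (hr.dvd_of_dvd_pow h))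
  let π := QuotientGroup.mk' (Subgroup.center (Matrix.SpecialLinearGroup (Fin 2) F))
  have hker : ∀ g, π g = 1 ↔ g ∈ Subgroup.center (Matrix.SpecialLinearGroup (Fin 2) F) := fun g => QuotientGroup.eq_one_iff g
  have hcard : ∀ H : Subgroup (Matrix.ProjectiveSpecialLinearGroup (Fin 2) F),
      Nat.card (H.comap π) = 2 * Nat.card H ∧ 2 * Nat.card H * H.index = q * (T * R) := fun H => by
    have h1 : Nat.card (H.comap π) = 2 * Nat.card H := Cfsg.Lib.PSLTwoOdd.card_preimage (H : Set (Matrix.ProjectiveSpecialLinearGroup (Fin 2) F))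
    refine ⟨h1, ?_⟩
    rw [← h1, ← H.index_comap_of_surjective (f := π) (QuotientGroup.mk'_surjective _), Subgroup.card_mul_index,
      Cfsg.Lib.Classical.TwoDim.card_SL, hq, ← hn, hR]
  have mk : ∀ H : Subgroup (Matrix.ProjectiveSpecialLinearGroup (Fin 2) F), 2 * Nat.card H = T → Cfsg.IsPiHall ({2, 3} : Set ℕ) H := fun H hH => by
    refine ⟨fun r hr h => by rcases hTprimes r hr (hH ▸ h.mul_left 2) with rfl | rfl <;> simp, fun r hr hrπ h => ?_⟩
    have hi : H.index = q * R := Nat.eq_of_mul_eq_mul_left (show 0 < T from Nat.pos_of_ne_zero fun h0 => by simp [h0] at h8 hR; omega)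
      (by rw [← hH, (hcard H).2, hH]; ring)
    rw [hi] at h
    rcases (Nat.Prime.dvd_mul hr).1 h with h | h <;> rcases hrπ with rfl | rfl
    exacts [hq2 h, hq3 h, hR2 h, hR3 h]
  constructor
  · rintro ⟨H, hπ1, hπ2⟩
    set M := H.comap π with hMd
    obtain ⟨hM2, hMi⟩ := hcard H
    rw [← hMd] at hM2
    rw [← hM2] at hMi
    have hMT : Nat.card M = T := by
      refine Nat.dvd_antisymm ?_ ?_
      · refine Nat.Coprime.dvd_of_dvd_mul_right (Nat.coprime_of_dvd fun r hr h1 h2 => ?_) (show Nat.card M ∣ T * (q * R) from ⟨H.index, by rw [hMi]; ring⟩)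
        have hr23 : r = 2 ∨ r = 3 := by
          rw [hM2] at h1
          rcases (Nat.Prime.dvd_mul hr).1 h1 with h | h
          · exact Or.inl ((Nat.prime_dvd_prime_iff_eq hr Nat.prime_two).1 h)
          · exact hπ1 r hr h
        rcases (Nat.Prime.dvd_mul hr).1 h2 with h | h <;> rcases hr23 with rfl | rfl
        exacts [hq2 h, hq3 h, hR2 h, hR3 h]
      · refine Nat.Coprime.dvd_of_dvd_mul_right (Nat.coprime_of_dvd fun r hr h1 h2 => ?_) (show T ∣ Nat.card M * H.index from ⟨q * R, by rw [hMi]; ring⟩)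
        exact hπ2 r hr (by rcases hTprimes r hr h1 with rfl | rfl <;> simp) h2
    have hneg : (-1 : Matrix.SpecialLinearGroup (Fin 2) F) ∈ M := by
      show π (-1) ∈ H
      rw [(hker _).2 (Subgroup.mem_center_iff.2 fun g => Subtype.ext (by simp))]
      exact one_mem _
    have hpM : ¬ p ∣ Nat.card M := fun h => by
      rw [hMT] at h
      rcases hTprimes p hpp h with h | h <;> omega
    have hss : ∀ z : M, z ∉ scSet M → trc (z : Matrix.SpecialLinearGroup (Fin 2) F) ^ 2 ≠ 4 := fun z hz ht => by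
      have key : ∀ v : M, trc (v : Matrix.SpecialLinearGroup (Fin 2) F) = 2 → v = 1 := fun v hv => by
        have hvp : v ^ p = 1 := Subtype.ext (by rw [SubmonoidClass.coe_pow, pow_char_of_trc_two hv]; rfl)
        rcases (Nat.dvd_prime hpp).1 (orderOf_dvd_of_pow_eq_one hvp) with e | e
        · exact orderOf_eq_one_iff.1 e
        · exact absurd ((dvd_of_eq e.symm).trans (orderOf_dvd_natCard v)) hpM
      have hsc : ∀ v : M, (v : Matrix.SpecialLinearGroup (Fin 2) F) = 1 ∨ (v : Matrix.SpecialLinearGroup (Fin 2) F) = -1 → v ∈ scSet M :=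
        fun v hv => (isScalar2_iff _).2 hv
      rcases eq_or_eq_neg_of_sq_eq_sq (trc (z : Matrix.SpecialLinearGroup (Fin 2) F)) 2 (by rw [ht]; norm_num) with h | h
      · exact hz (hsc z (Or.inl (by rw [key z h]; rfl)))
      · have := key (⟨-1, hneg⟩ * z) (by
          show trc ((-1 : Matrix.SpecialLinearGroup (Fin 2) F) * (z : Matrix.SpecialLinearGroup (Fin 2) F)) = 2
          rw [neg_one_mul]
          simp only [trc, neg_entry] at h ⊢
          linear_combination -h)
        have h' : -(z : Matrix.SpecialLinearGroup (Fin 2) F) = 1 := by simpa using congrArg Subtype.val this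
        exact hz (hsc z (Or.inr (by rw [← h', neg_neg])))
    rcases Cfsg.Lib.Classical.PrimeToChar.small_types hneg h2 hss with ⟨C, hC, hsq, hC2, -⟩ | h | h | h
    rotate_left
    · exact Or.inr (Or.inr (Or.inl (hMT ▸ h)))
    · exact Or.inr (Or.inr (Or.inr (hMT ▸ h)))
    · exfalso
      rw [hMT] at h
      rcases hTprimes 5 Nat.prime_five (h ▸ by norm_num) with h | h <;> omega
    have hTC : T ∣ 2 * Nat.card C := by
      have h := C.card_mul_index
      have hi : C.index ≤ 2 := by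
        by_contra hi
        have := Nat.mul_le_mul_left (Nat.card C) (show 3 ≤ C.index by omega)
        have := Nat.card_pos (α := C)
        omega
      have hi0 : C.index ≠ 0 := Subgroup.index_ne_zero_of_finite
      rw [← hMT, ← h]
      rcases (show C.index = 1 ∨ C.index = 2 by omega) with h | h <;> rw [h]
      · exact ⟨2, by ring⟩
      · exact ⟨1, by ring⟩
    haveI : Fact (Nat.Prime 3) := ⟨Nat.prime_three⟩
    obtain ⟨w, hw⟩ := exists_prime_orderOf_dvd_card' 3 ((Nat.Coprime.dvd_of_dvd_mul_left (by norm_num) (h3T.trans hTC)) : 3 ∣ Nat.card C)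
    let C' : Subgroup (Matrix.SpecialLinearGroup (Fin 2) F) := C.map M.subtype
    have hC' : Nat.card C' = Nat.card C := (Nat.card_congr (C.equivMapOfInjective M.subtype M.subtype_injective).toEquiv).symm
    have hdvd := card_dvd_of_comm h3 C' (fun x ⟨x', hx', hx⟩ y ⟨y', hy', hy⟩ => by
      rw [← hx, ← hy, ← map_mul, ← map_mul, hC x' hx' y' hy'])
      (M.subtype w.1) ⟨w.1, w.2, rfl⟩ (by
        rw [← map_pow, ← SubmonoidClass.coe_pow, orderOf_dvd_iff_pow_eq_one.1 (dvd_of_eq hw)]; rfl)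
      (fun e => by
        rw [show w = 1 from Subtype.ext (Subtype.ext e), orderOf_one] at hw
        omega)
    rw [hC'] at hdvd
    by_cases h31 : 3 ∣ q - 1
    · left
      refine ⟨h31, ?_⟩
      have h' := (h8.trans hTC).trans (Nat.mul_dvd_mul_left 2 (hdvd.trans ((tor_dvd_split h3 (by rwa [hq])).trans (dvd_of_eq (by rw [hq])))))
      obtain ⟨j, hj⟩ := h'
      omega
    · right; left
      refine ⟨(show ∀ m : ℕ, ¬ 3 ∣ m → ¬ 3 ∣ m - 1 → 3 ∣ m + 1 by intro m _ _; omega) q hq3 h31, ?_⟩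
      rw [card_tor (irr_of_not_dvd h3 (by rwa [hq])), hq] at hdvd
      obtain ⟨j, hj⟩ := (h8.trans hTC).trans (Nat.mul_dvd_mul_left 2 hdvd)
      omega
  · intro hcases
    have dih : ∀ k, k ≠ 0 → (∃ D : Subgroup (Matrix.ProjectiveSpecialLinearGroup (Fin 2) F), Nonempty (D ≃* DihedralGroup k)) → T ∣ 4 * k →
        ∃ H : Subgroup (Matrix.ProjectiveSpecialLinearGroup (Fin 2) F), Cfsg.IsPiHall ({2, 3} : Set ℕ) H := by
      rintro k hk ⟨D, ⟨i⟩⟩ hdvd
      obtain ⟨m, hm⟩ : 4 ∣ T := (show 4 ∣ 8 by norm_num).trans h8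
      obtain ⟨S, hS⟩ := exists_dihedral_sub hk (Nat.dvd_of_mul_dvd_mul_left (by norm_num) (hm ▸ hdvd) : m ∣ k)
      let f : S →* Matrix.ProjectiveSpecialLinearGroup (Fin 2) F := (D.subtype.comp i.symm.toMonoidHom).comp S.subtype
      have hf : Function.Injective f := (Subtype.val_injective.comp i.symm.injective).comp Subtype.val_injective
      refine ⟨f.range, mk _ ?_⟩
      rw [← Nat.card_congr (MonoidHom.ofInjective hf).toEquiv, hS, hm]; ring
    have hg : Nat.gcd 2 (q - 1) = 2 := Nat.gcd_eq_left (by omega)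
    rcases hcases with ⟨h31, h4⟩ | ⟨h31, h4⟩ | h | h
    · obtain ⟨D, -, hD⟩ := Cfsg.Agent.S0812.result (F := F) hq (by simp only [Finset.mem_insert, Finset.mem_singleton]; omega)
      rw [hg] at hD
      refine dih _ (by omega) ⟨D, hD⟩ ?_
      have hco : Nat.Coprime T ((q + 1) / 2) := Nat.coprime_of_dvd fun r hr h1 h2' => by
        rcases hTprimes r hr h1 with rfl | rfl <;> omega
      refine hco.dvd_of_dvd_mul_left ?_
      refine (Dvd.intro R hR.symm).trans (dvd_of_eq ?_)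
      rw [hn]
      obtain ⟨j, hj⟩ : ∃ j, q = 4 * j + 1 := ⟨q / 4, by omega⟩
      rw [hj, show (4 * j + 1 + 1) / 2 = 2 * j + 1 by omega, show (4 * j + 1 - 1) / 2 = 2 * j by omega, Nat.add_sub_cancel]
      ring
    · obtain ⟨D, -, hD⟩ := Cfsg.Agent.S0811.result (F := F) hq (by simp only [Finset.mem_insert, Finset.mem_singleton]; omega)
      rw [hg] at hD
      refine dih _ (by omega) ⟨D, hD⟩ ?_
      have hco : Nat.Coprime T ((q - 1) / 2) := Nat.coprime_of_dvd fun r hr h1 h2' => by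
        rcases hTprimes r hr h1 with rfl | rfl <;> omega
      refine hco.dvd_of_dvd_mul_left ?_
      refine (Dvd.intro R hR.symm).trans (dvd_of_eq ?_)
      rw [hn]
      obtain ⟨j, hj⟩ : ∃ j, q = 4 * j + 3 := ⟨q / 4, by omega⟩
      rw [hj, show (4 * j + 3 + 1) / 2 = 2 * j + 2 by omega, show (4 * j + 3 - 1) / 2 = 2 * j + 1 by omega,
        show 4 * j + 3 - 1 = 4 * j + 2 by omega]
      ring
    · obtain ⟨H, ⟨i⟩⟩ := (Cfsg.Agent.S0802.result (F := F) p e (hq.trans hpe)).2 (fun h => by omega)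
      refine ⟨H, mk H ?_⟩
      rw [Nat.card_congr i.toEquiv, nat_card_alternatingGroup, Nat.card_fin, h]; rfl
    · have h16 : 16 ∣ n := (show 16 ∣ T from h ▸ by norm_num).trans (Dvd.intro R hR.symm)
      have h1 : 1 ≤ q ^ 2 := Nat.one_le_pow 2 q (by omega)
      rw [hnd] at h16
      obtain ⟨H, ⟨i⟩⟩ := (Cfsg.Agent.S0803.result (F := F) hq).2 (by omega)
      refine ⟨H, mk H ?_⟩
      rw [Nat.card_congr i.toEquiv, Nat.card_perm, Nat.card_fin, h]; rfl

end Cfsg.Agent.S2537
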