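import Cfsg.Statements.S2540
import Cfsg.Agent.Lib.Classical.SLGroup

set_option autoImplicit false
open Cfsg

namespace Cfsg.Agent.S2540

/-- Let F be a finite field and n ≥ 1, excluding the case n = 2 with #F ≤ 3. A subgroup of GL_n(F) that is normalized by every element of SL_n(F) either consists of scalar matrices or contains SL_n(F). -/
theorem result {F : Type*} [Field F] [Fintype F] (n : ℕ) (hn : 1 ≤ n) (hex : ¬ (n = 2 ∧ Fintype.card F ≤ 3)) (G : Subgroup (Matrix.GeneralLinearGroup (Fin n) F)) (hG : ∀ s : Matrix.SpecialLinearGroup (Fin n) F, ∀ g ∈ G, (Matrix.SpecialLinearGroup.toGL s) * g * (Matrix.SpecialLinearGroup.toGL s)⁻¹ ∈ G) : (∀ g ∈ G, ∃ c : F, (g : Matrix (Fin n) (Fin n) F) = c • (1 : Matrix (Fin n) (Fin n) F)) ∨ (Matrix.SpecialLinearGroup.toGL : Matrix.SpecialLinearGroup (Fin n) F →* _).range ≤ G := by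
  classical
  rcases Nat.lt_or_ge n 2 with h1 | h2
  · left
    intro g _
    obtain rfl : n = 1 := by omega
    exact ⟨(g : Matrix (Fin 1) (Fin 1) F) 0 0, by ext i j; fin_cases i; fin_cases j; simp⟩
  haveI : Nontrivial (Fin n) := Fin.nontrivial_iff_two_le.mpr h2
  have hperf' : 3 ≤ Fintype.card (Fin n) ∨ ∃ a : F, a ≠ 0 ∧ a ^ 2 ≠ 1 := by
    rw [Fintype.card_fin]
    by_cases h3 : 3 ≤ n
    · exact Or.inl h3
    · right
      have hq : 3 < Fintype.card F := by
        by_contra hle
        exact hex ⟨by omega, by omega⟩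
      by_contra hno
      push Not at hno
      have hsub : (Finset.univ : Finset F) ⊆ {0, 1, -1} := by
        intro a _
        simp only [Finset.mem_insert, Finset.mem_singleton]
        by_cases ha : a = 0
        · exact Or.inl ha
        · exact Or.inr ((sq_eq_one_iff).mp (hno a ha))
      have := Finset.card_le_card hsub
      have h4 := Finset.card_le_three (a := (0 : F)) (b := 1) (c := -1)
      rw [Finset.card_univ] at this
      omega
  let ι : (Matrix.SpecialLinearGroup (Fin n) F) →* Matrix.GeneralLinearGroup (Fin n) F := Matrix.SpecialLinearGroup.toGL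
  let N : Subgroup (Matrix.SpecialLinearGroup (Fin n) F) := G.comap ι
  haveI hN : N.Normal := ⟨fun x hx s => by
    show ι (s * x * s⁻¹) ∈ G
    rw [map_mul, map_mul, map_inv]; exact hG s _ hx⟩
  have hperf : commutator (Matrix.SpecialLinearGroup (Fin n) F) = ⊤ := Cfsg.Lib.Classical.SLGroup.commutator_sl_eq_top hperf'
  haveI := Cfsg.Lib.Classical.SLGroup.isSimpleGroup_psl (ι := Fin n) (F := F) hperf'
  let q := QuotientGroup.mk' (Subgroup.center (Matrix.SpecialLinearGroup (Fin n) F))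
  haveI : (N.map q).Normal := hN.map q (QuotientGroup.mk'_surjective _)
  rcases Subgroup.Normal.eq_bot_or_eq_top (inferInstance : (N.map q).Normal) with hbot | htop
  · left
    have hNZ : N ≤ Subgroup.center (Matrix.SpecialLinearGroup (Fin n) F) := fun x hx =>
      (QuotientGroup.eq_one_iff x).mp (Subgroup.mem_bot.mp (hbot ▸ ⟨x, hx, rfl⟩ : q x ∈ (⊥ : Subgroup _)))
    intro g hg
    have hex : ∀ s : (Matrix.SpecialLinearGroup (Fin n) F), ∃ z : Subgroup.center (Matrix.SpecialLinearGroup (Fin n) F), ι z = ι s * g * (ι s)⁻¹ * g⁻¹ := by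
      intro s
      have hmem : ι s * g * (ι s)⁻¹ * g⁻¹ ∈ G := mul_mem (hG s g hg) (inv_mem hg)
      have hd : ((ι s * g * (ι s)⁻¹ * g⁻¹ : Matrix.GeneralLinearGroup (Fin n) F) : Matrix (Fin n) (Fin n) F).det = 1 := by
        have : Matrix.GeneralLinearGroup.det (ι s * g * (ι s)⁻¹ * g⁻¹) = 1 := by
          rw [map_mul, map_mul, map_mul, map_inv, map_inv, mul_comm (Matrix.GeneralLinearGroup.det (ι s)),
            mul_inv_cancel_right, mul_inv_cancel]
        exact congrArg Units.val this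
      have heq : ι (⟨_, hd⟩ : (Matrix.SpecialLinearGroup (Fin n) F)) = ι s * g * (ι s)⁻¹ * g⁻¹ := Units.ext rfl
      exact ⟨⟨⟨_, hd⟩, hNZ (show ι (⟨_, hd⟩ : (Matrix.SpecialLinearGroup (Fin n) F)) ∈ G by rw [heq]; exact hmem)⟩, heq⟩
    choose φ hφ using hex
    have hιinj : Function.Injective ι := fun a b h => Subtype.ext (congrArg Units.val h)
    have hcz : ∀ (z : Subgroup.center (Matrix.SpecialLinearGroup (Fin n) F)) (s : (Matrix.SpecialLinearGroup (Fin n) F)), ι s * ι z = ι z * ι s := fun z s => by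
      rw [← map_mul, ← map_mul, Subgroup.mem_center_iff.mp z.2 s]
    letI : CommGroup (Subgroup.center (Matrix.SpecialLinearGroup (Fin n) F)) := { (inferInstance : Group (Subgroup.center (Matrix.SpecialLinearGroup (Fin n) F))) with
      mul_comm := fun a b => Subtype.ext (Subgroup.mem_center_iff.mp b.2 a) }
    let f : (Matrix.SpecialLinearGroup (Fin n) F) →* Subgroup.center (Matrix.SpecialLinearGroup (Fin n) F) := MonoidHom.mk' φ fun a b => by
      refine Subtype.ext (hιinj ?_)
      show ι (φ (a * b) : (Matrix.SpecialLinearGroup (Fin n) F)) = ι ((φ a : (Matrix.SpecialLinearGroup (Fin n) F)) * (φ b : (Matrix.SpecialLinearGroup (Fin n) F)))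
      rw [hφ, map_mul, map_mul, hcz (φ b) (φ a : (Matrix.SpecialLinearGroup (Fin n) F))]
      calc ι a * ι b * g * (ι a * ι b)⁻¹ * g⁻¹
          = ι a * (ι b * g * (ι b)⁻¹ * g⁻¹) * (g * (ι a)⁻¹ * g⁻¹) := by group
        _ = ι (φ b : (Matrix.SpecialLinearGroup (Fin n) F)) * (ι a * g * (ι a)⁻¹ * g⁻¹) := by rw [← hφ b, hcz (φ b) a]; group
        _ = _ := by rw [hφ a]
    have hf1 : ∀ s, φ s = 1 := fun s =>
      MonoidHom.mem_ker.mp (Abelianization.commutator_subset_ker f (hperf ▸ Subgroup.mem_top s))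
    have hcomm : ∀ s : (Matrix.SpecialLinearGroup (Fin n) F), ι s * g = g * ι s := fun s => by
      have h := hφ s
      rw [hf1, show ((1 : Subgroup.center (Matrix.SpecialLinearGroup (Fin n) F)) : (Matrix.SpecialLinearGroup (Fin n) F)) = 1 from rfl, map_one] at h
      rw [← mul_inv_eq_iff_eq_mul, ← mul_inv_eq_one]
      exact h.symm
    obtain ⟨c, hc⟩ : (g : Matrix (Fin n) (Fin n) F) ∈ Set.range (Matrix.scalar (Fin n)) := by
      refine Matrix.mem_range_scalar_of_commute_transvectionStruct fun t => ?_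
      exact congrArg Units.val (hcomm ⟨t.toMatrix, t.det⟩)
    refine ⟨c, ?_⟩
    rw [← hc, Matrix.scalar_apply, Matrix.smul_one_eq_diagonal]
  · right
    rintro _ ⟨s, rfl⟩
    suffices commutator (Matrix.SpecialLinearGroup (Fin n) F) ≤ N from this (hperf ▸ Subgroup.mem_top s)
    rw [commutator_def, Subgroup.commutator_le]
    intro a _ b _
    have hdec : ∀ x : (Matrix.SpecialLinearGroup (Fin n) F), ∃ m ∈ N, m⁻¹ * x ∈ Subgroup.center (Matrix.SpecialLinearGroup (Fin n) F) := fun x => by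
      obtain ⟨m, hm, hmx⟩ : q x ∈ N.map q := htop ▸ Subgroup.mem_top _
      exact ⟨m, hm, (QuotientGroup.eq).mp hmx⟩
    obtain ⟨m, hm, hz⟩ := hdec a
    obtain ⟨k, hk, hw⟩ := hdec b
    have c₁ := Subgroup.mem_center_iff.mp hz
    have c₂ := Subgroup.mem_center_iff.mp hw
    have e : a * b * a⁻¹ * b⁻¹ = m * k * m⁻¹ * k⁻¹ := by
      rw [show a = m * (m⁻¹ * a) by group, show b = k * (k⁻¹ * b) by group]
      generalize m⁻¹ * a = z₁ at *
      generalize k⁻¹ * b = z₂ at *
      calc m * z₁ * (k * z₂) * (m * z₁)⁻¹ * (k * z₂)⁻¹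
          = m * (z₁ * (k * z₂)) * z₁⁻¹ * m⁻¹ * z₂⁻¹ * k⁻¹ := by group
        _ = m * k * (z₂ * m⁻¹) * z₂⁻¹ * k⁻¹ := by rw [← c₁]; group
        _ = m * k * m⁻¹ * k⁻¹ := by rw [← c₂]; group
    rw [commutatorElement_def, e]
    exact mul_mem (mul_mem (mul_mem hm hk) (inv_mem hm)) (inv_mem hk)

end Cfsg.Agent.S2540
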