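import Cfsg.Statements.S2541

-- import your own Cfsg.Agent.* helpers here

set_option autoImplicit false
open Cfsg

namespace Cfsg.Agent.S2541

/-- Let F be a field with 9 elements. The symmetric group S_6 is not isomorphic to PGL_2(F) (although both have index-2 subgroups isomorphic to A_6). -/
theorem result {F : Type*} [Field F] [Fintype F] (hF : Fintype.card F = 9) : ¬ Nonempty (Equiv.Perm (Fin 6) ≃* Matrix.ProjGenLinGroup (Fin 2) F) := by
  classical
  rintro ⟨e⟩
  obtain ⟨ω, hω⟩ := IsCyclic.exists_ofOrder_eq_natCard (α := Fˣ)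
  rw [Nat.card_units, Nat.card_eq_fintype_card, hF] at hω
  let d : GL (Fin 2) F :=
    { val := Matrix.diagonal ![(ω : F), 1]
      inv := Matrix.diagonal ![((ω⁻¹ : Fˣ) : F), 1]
      val_inv := by rw [Matrix.diagonal_mul_diagonal, ← Matrix.diagonal_one]; congr 1; funext i; fin_cases i <;> simp
      inv_val := by rw [Matrix.diagonal_mul_diagonal, ← Matrix.diagonal_one]; congr 1; funext i; fin_cases i <;> simp }
  let x := e.symm (Matrix.ProjGenLinGroup.mk d)
  have h8 : x ^ 8 = 1 := by
    have hd : d ^ 8 = 1 := by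
      refine Units.ext ?_
      rw [Units.val_pow_eq_pow_val, Matrix.diagonal_pow, Units.val_one, ← Matrix.diagonal_one]
      congr 1
      funext i
      fin_cases i
      · show (ω : F) ^ 8 = 1
        rw [← Units.val_pow_eq_pow_val, show (8 : ℕ) = 9 - 1 from rfl, ← hω, pow_orderOf_eq_one, Units.val_one]
      · simp
    show (e.symm (Matrix.ProjGenLinGroup.mk d)) ^ 8 = 1
    rw [← map_pow, ← map_pow, hd, map_one, map_one]
  have h4 : (e.symm (Matrix.ProjGenLinGroup.mk d)) ^ 4 = 1 := by
    refine orderOf_dvd_iff_pow_eq_one.1 (?_ : orderOf x ∣ 4)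
    rw [← Equiv.Perm.lcm_cycleType, Multiset.lcm_dvd]
    intro n hn
    have h1 : n ∣ 8 := (Equiv.Perm.dvd_of_mem_cycleType hn).trans (orderOf_dvd_of_pow_eq_one h8)
    have h2 : n ≤ 6 := (Equiv.Perm.le_card_support_of_mem_cycleType hn).trans (by simpa using x.support.card_le_univ)
    interval_cases n <;> omega
  rw [← map_pow, ← map_pow, EmbeddingLike.map_eq_one_iff, Matrix.ProjGenLinGroup.mk_eq_one] at h4
  rw [Matrix.GeneralLinearGroup.center_eq_range_scalar] at h4
  obtain ⟨c, hc⟩ := h4
  have e := congrArg (fun g : GL (Fin 2) F => (g : Matrix (Fin 2) (Fin 2) F)) hc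
  simp [d, Matrix.diagonal_pow] at e
  have : ω ^ 4 = 1 := Units.ext (by rw [Units.val_pow_eq_pow_val, ← e.1, e.2])
  have := orderOf_dvd_of_pow_eq_one this
  rw [hω] at this
  norm_num at this

end Cfsg.Agent.S2541
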