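import Cfsg.Statements.S2550
import Cfsg.Agent.Lib.Classical.LinearOrders
import Cfsg.Agent.Lib.Classical.Reflections
import Cfsg.Agent.Lib.Classical.OrthMatrix
import Cfsg.Agent.S0256
-- import your own Cfsg.Agent.* helpers here

set_option autoImplicit false
open Cfsg
open scoped Matrix
set_option maxRecDepth 4000
set_option maxHeartbeats 1000000

namespace Cfsg.Agent.S2550

/-- Let F be a field with 2 elements and K a field with 4 elements. PSL_4(F) and PSL_3(K) have the same order (20160) but are not isomorphic. -/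
theorem result {F K : Type*} [Field F] [Fintype F] [Field K] [Fintype K] (hF : Fintype.card F = 2) (hK : Fintype.card K = 4) : Nat.card (Matrix.ProjectiveSpecialLinearGroup (Fin 4) F) = Nat.card (Matrix.ProjectiveSpecialLinearGroup (Fin 3) K) ∧ ¬ Nonempty (Matrix.ProjectiveSpecialLinearGroup (Fin 4) F ≃* Matrix.ProjectiveSpecialLinearGroup (Fin 3) K) := by
  classical
  haveI : CharP K 2 := by
    haveI := ringChar.charP K
    have h : ringChar K = 2 := FiniteField.even_card_iff_char_two.2 (by omega)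
    exact h ▸ inferInstance
  have h2 : (2 : K) = 0 := CharTwo.two_eq_zero
  have hcard : Nat.card (Matrix.ProjectiveSpecialLinearGroup (Fin 4) F) = Nat.card (Matrix.ProjectiveSpecialLinearGroup (Fin 3) K) := by
    have a1 := Cfsg.Lib.Classical.LinearOrders.card_psl_mul (F := F) (n := 4) (by norm_num)
    have a2 := Cfsg.Lib.Classical.LinearOrders.card_sl_mul (F := F) (n := 4) (by norm_num)
    have b1 := Cfsg.Lib.Classical.LinearOrders.card_psl_mul (F := K) (n := 3) (by norm_num)
    have b2 := Cfsg.Lib.Classical.LinearOrders.card_sl_mul (F := K) (n := 3) (by norm_num)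
    rw [hF] at a1 a2
    rw [hK] at b1 b2
    norm_num [Fin.prod_univ_three, Fin.prod_univ_four] at a1 a2 b1 b2
    rw [Nat.card_eq_fintype_card, Nat.card_eq_fintype_card]
    omega
  refine ⟨hcard, fun ⟨e⟩ => ?_⟩
  obtain ⟨e8⟩ := Cfsg.Agent.S0256.result hF
  let σ : Equiv.Perm (Fin 8) := Equiv.swap 0 1 * Equiv.swap 1 2 * Equiv.swap 3 4 * Equiv.swap 5 6
  let s : alternatingGroup (Fin 8) := ⟨σ, by rw [Equiv.Perm.mem_alternatingGroup]; simp [σ]⟩
  let x : Matrix.ProjectiveSpecialLinearGroup (Fin 3) K := e (e8.symm s)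
  have hpow : ∀ k : ℕ, x ^ k = 1 ↔ σ ^ k = 1 := fun k => by
    rw [← map_pow, EmbeddingLike.map_eq_one_iff, ← map_pow, EmbeddingLike.map_eq_one_iff, Subtype.ext_iff]
    rfl
  obtain ⟨g, hg⟩ := QuotientGroup.mk_surjective x
  let M : Matrix (Fin 3) (Fin 3) K := g
  have hmem : ∀ k : ℕ, x ^ k = 1 ↔ ∃ c : K, M ^ k = c • (1 : Matrix (Fin 3) (Fin 3) K) := by
    intro k
    rw [← hg, ← QuotientGroup.mk_pow, QuotientGroup.eq_one_iff, Matrix.SpecialLinearGroup.mem_center_iff]
    constructor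
    · rintro ⟨c, -, hc⟩
      exact ⟨c, by simpa [M, Matrix.smul_one_eq_diagonal] using hc.symm⟩
    · rintro ⟨c, hc⟩
      have hd : ((g ^ k : Matrix.SpecialLinearGroup (Fin 3) K) : Matrix (Fin 3) (Fin 3) K) = c • 1 := by
        rw [Matrix.SpecialLinearGroup.coe_pow]; exact hc
      refine ⟨c, ?_, by simpa [Matrix.smul_one_eq_diagonal] using hd.symm⟩
      have := congrArg Matrix.det hd
      rw [Matrix.SpecialLinearGroup.det_coe, Matrix.det_smul, Matrix.det_one, mul_one] at this
      simpa using this.symm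
  have hu : ∀ c : K, c ≠ 0 → c ^ 3 = 1 := fun c hc => by
    have := FiniteField.pow_card_sub_one_eq_one c hc
    rwa [hK] at this
  obtain ⟨l, hl⟩ := (hmem 6).1 ((hpow 6).2 (by decide))
  have hn2 : ¬ ∃ c : K, M ^ 2 = c • (1 : Matrix (Fin 3) (Fin 3) K) := fun h => absurd ((hpow 2).1 ((hmem 2).2 h)) (by decide)
  have hn3 : ¬ ∃ c : K, M ^ 3 = c • (1 : Matrix (Fin 3) (Fin 3) K) := fun h => absurd ((hpow 3).1 ((hmem 3).2 h)) (by decide)
  have hMdet : M.det = 1 := g.2
  have hl0 : l ≠ 0 := by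
    intro h
    have := congrArg Matrix.det hl
    rw [Matrix.det_pow, hMdet, h, zero_smul, one_pow, Matrix.det_zero] at this
    exact one_ne_zero this
  set ν := l ^ 2
  have hν0 : ν ≠ 0 := pow_ne_zero _ hl0
  have hν : ν * ν = l := by linear_combination l * hu l hl0
  set N := ν⁻¹ • M ^ 3 + 1 with hNdef
  have hNN : N * N = 0 := by
    have : (ν⁻¹ • M ^ 3) * (ν⁻¹ • M ^ 3) = 1 := by
      rw [Matrix.smul_mul, Matrix.mul_smul, smul_smul, ← pow_add, hl, smul_smul, ← hν]
      field_simp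
      simp
    rw [hNdef, add_mul, mul_add, mul_one, one_mul, this]
    ext i j
    simp only [Matrix.add_apply, Matrix.smul_apply, Matrix.zero_apply, smul_eq_mul]
    linear_combination ((1 : Matrix (Fin 3) (Fin 3) K) i j + ν⁻¹ * (M ^ 3) i j) * h2
  have hN0 : N ≠ 0 := by
    intro h
    refine hn3 ⟨ν, ?_⟩
    ext i j
    have := congrFun (congrFun h i) j
    simp only [hNdef, Matrix.add_apply, Matrix.smul_apply, Matrix.zero_apply, smul_eq_mul] at this ⊢
    field_simp at this
    linear_combination this - ν * (1 : Matrix (Fin 3) (Fin 3) K) i j * h2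
  obtain ⟨w, hw⟩ : ∃ w, N *ᵥ w ≠ 0 := by
    by_contra! h
    exact hN0 (Matrix.ext_iff_mulVec.2 fun x => by rw [h x, Matrix.zero_mulVec])
  set v := N *ᵥ w
  have hv : N *ᵥ v = 0 := by rw [Matrix.mulVec_mulVec, hNN, Matrix.zero_mulVec]
  obtain ⟨z, hz, hzv⟩ : ∃ z, N *ᵥ z = 0 ∧ z ∉ Submodule.span K {v} := by
    by_contra! h
    have h1 : Module.finrank K (LinearMap.ker (Matrix.mulVecLin N)) ≤ 1 :=
      (Submodule.finrank_mono (t := Submodule.span K {v}) fun x hx => h x hx).trans (finrank_span_singleton hw).le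
    have h3 : LinearMap.range (Matrix.mulVecLin N) ≤ LinearMap.ker (Matrix.mulVecLin N) := by
      rintro _ ⟨y, rfl⟩
      show N *ᵥ (N *ᵥ y) = 0
      rw [Matrix.mulVec_mulVec, hNN, Matrix.zero_mulVec]
    have h4 := Submodule.finrank_mono h3
    have h5 := (Matrix.mulVecLin N).finrank_range_add_finrank_ker
    rw [Module.finrank_fin_fun] at h5
    omega
  let P : Matrix (Fin 3) (Fin 3) K := (Matrix.of ![v, z, w])ᵀ
  have hPv : ∀ t : Fin 3 → K, P *ᵥ t = t 0 • v + t 1 • z + t 2 • w := fun t => by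
    ext i
    simp [P, Matrix.mulVec, dotProduct, Fin.sum_univ_three]
    ring
  have hP : IsUnit P := by
    rw [← Matrix.mulVec_injective_iff_isUnit]
    refine (injective_iff_map_eq_zero (Matrix.mulVecLin P)).2 fun t ht => ?_
    rw [Matrix.mulVecLin_apply, hPv] at ht
    have e := congrArg (N *ᵥ ·) ht
    simp [Matrix.mulVec_add, Matrix.mulVec_smul, hv, hz] at e
    have t2 : t 2 = 0 := e.resolve_right hw
    rw [t2, zero_smul, add_zero] at ht
    have t1 : t 1 = 0 := by
      by_contra hne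
      refine hzv (Submodule.mem_span_singleton.2 ⟨-(t 0 / t 1), ?_⟩)
      rw [(eq_inv_smul_iff₀ hne).2 (eq_neg_of_add_eq_zero_right ht), smul_neg, smul_smul, neg_smul, div_eq_inv_mul]
    rw [t1, zero_smul, add_zero] at ht
    have t0 : t 0 = 0 := (smul_eq_zero.1 ht).resolve_right hw
    funext i
    fin_cases i <;> assumption
  have hNP : N * P = P * !![0, 0, 1; 0, 0, 0; 0, 0, 0] := by
    refine Cfsg.Lib.Classical.ext_mulVec fun t => ?_
    rw [← Matrix.mulVec_mulVec, ← Matrix.mulVec_mulVec, hPv, hPv]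
    simp [Matrix.mulVec_add, Matrix.mulVec_smul, hv, hz, dotProduct, Fin.sum_univ_three, v]
  obtain ⟨U, hU⟩ := hP
  set R := ((U⁻¹ : (Matrix (Fin 3) (Fin 3) K)ˣ) : Matrix (Fin 3) (Fin 3) K)
  have hRP : R * P = 1 := by rw [← hU]; exact U.inv_mul
  have hPR : P * R = 1 := by rw [← hU]; exact U.mul_inv
  set B := R * M ^ 2 * P
  have hBE : B * !![0, 0, 1; 0, 0, 0; 0, 0, 0] = !![0, 0, 1; 0, 0, 0; 0, 0, 0] * B := by
    have hc : M ^ 2 * N = N * M ^ 2 := by
      rw [hNdef, mul_add, add_mul, mul_one, one_mul, Matrix.mul_smul, Matrix.smul_mul, ← pow_add, ← pow_add]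
    have hE : !![(0 : K), 0, 1; 0, 0, 0; 0, 0, 0] = R * N * P := by rw [mul_assoc, hNP, ← mul_assoc, hRP, one_mul]
    simp only [B, hE]
    calc R * M ^ 2 * P * (R * N * P) = R * M ^ 2 * (P * R) * N * P := by simp only [mul_assoc]
      _ = R * (N * M ^ 2) * P := by rw [hPR, mul_one, mul_assoc R, hc]
      _ = R * N * (P * R) * M ^ 2 * P := by rw [hPR, mul_one, ← mul_assoc R]
      _ = R * N * P * (R * M ^ 2 * P) := by simp only [mul_assoc]
  have hB3 : B * B * B = l • (1 : Matrix (Fin 3) (Fin 3) K) := by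
    calc B * B * B = R * (M ^ 2 * (P * R) * M ^ 2 * (P * R) * M ^ 2) * P := by simp only [B, mul_assoc]
      _ = _ := by rw [hPR, mul_one, mul_one, ← pow_add, ← pow_add, hl, Matrix.mul_smul, mul_one, Matrix.smul_mul, hRP]
  have hBdet : B.det = 1 := by
    have e := congrArg Matrix.det hRP
    rw [Matrix.det_mul, Matrix.det_one] at e
    simp only [B, Matrix.det_mul, Matrix.det_pow, hMdet, one_pow, mul_one, e]
  have e00 := congrFun (congrFun hBE 0) 0
  have e01 := congrFun (congrFun hBE 0) 1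
  have e02 := congrFun (congrFun hBE 0) 2
  have e12 := congrFun (congrFun hBE 1) 2
  simp [Matrix.mul_apply, Fin.sum_univ_three] at e00 e01 e02 e12
  rw [Matrix.det_fin_three] at hBdet
  have c00 := congrFun (congrFun hB3 0) 0
  have c11 := congrFun (congrFun hB3 1) 1
  have c01 := congrFun (congrFun hB3 0) 1
  have c02 := congrFun (congrFun hB3 0) 2
  have c12 := congrFun (congrFun hB3 1) 2
  simp [Matrix.mul_apply, Fin.sum_univ_three, ← e00, ← e01, ← e02, e12] at c00 c11 c01 c02 c12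
  simp [← e00, ← e01, ← e02, e12] at hBdet
  have hc0 : B 0 0 ≠ 0 := fun h => by simp [h] at hBdet
  have hd : B 1 1 = B 0 0 := by linear_combination B 0 0 * hBdet - B 1 1 * hu _ hc0
  rw [hd] at c01 c12
  have h3 : ∀ y : K, B 0 0 ^ 2 * y * 3 = 0 → y = 0 := fun y hy => by
    have : B 0 0 ^ 2 * y = 0 := by linear_combination hy - B 0 0 ^ 2 * y * h2
    exact (mul_eq_zero.1 this).resolve_left (pow_ne_zero _ hc0)
  have x01 : B 0 1 = 0 := h3 _ (by linear_combination c01)
  have x12 : B 1 2 = 0 := h3 _ (by linear_combination c12)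
  rw [x01, x12, hd] at c02
  have x02 : B 0 2 = 0 := h3 _ (by linear_combination c02)
  have hBc : B = B 0 0 • (1 : Matrix (Fin 3) (Fin 3) K) := by
    ext i j
    fin_cases i <;> fin_cases j <;> simp [← e00, ← e01, ← e02, e12, hd, x01, x12, x02]
  refine hn2 ⟨B 0 0, ?_⟩
  calc M ^ 2 = P * R * M ^ 2 * (P * R) := by rw [hPR, one_mul, mul_one]
    _ = P * B * R := by simp only [B, mul_assoc]
    _ = _ := by rw [hBc, Matrix.mul_smul, mul_one, Matrix.smul_mul, hPR]; simp

end Cfsg.Agent.S2550
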