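import Cfsg.Statements.S2551
import Cfsg.Agent.S0256
import Cfsg.Agent.Lib.Classical.LinearOrders
-- import your own Cfsg.Agent.* helpers here

set_option autoImplicit false
open Cfsg

namespace Cfsg.Agent.S2551

section helper

open Matrix MulAction

variable {F : Type*} [Field F] [Fintype F]

local notation "GL4" => Matrix.GeneralLinearGroup (Fin 4) F

theorem exists_embedding (hF : Fintype.card F = 2) :
    ∃ H : Subgroup GL4, Nonempty (H ≃* alternatingGroup (Fin 7)) := by
  classical
  obtain ⟨e⟩ := Cfsg.Agent.S0256.result hF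
  have hc : Subgroup.center (Matrix.SpecialLinearGroup (Fin 4) F) = ⊥ := by
    rw [← Subgroup.card_eq_one, Cfsg.Lib.Classical.LinearOrders.card_center_sl (by norm_num), hF]
    rfl
  let e' : Matrix.ProjectiveSpecialLinearGroup (Fin 4) F ≃* Matrix.SpecialLinearGroup (Fin 4) F :=
    (QuotientGroup.quotientMulEquivOfEq hc).trans QuotientGroup.quotientBot
  let f : alternatingGroup (Fin 7) →* alternatingGroup (Fin 8) :=
    ((Equiv.Perm.viaEmbeddingHom (Fin.castSuccEmb : Fin 7 ↪ Fin 8)).comp
      (alternatingGroup (Fin 7)).subtype).codRestrict _ fun s => by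
        rw [Equiv.Perm.mem_alternatingGroup, MonoidHom.comp_apply, Equiv.Perm.viaEmbeddingHom_apply]
        simp only [Equiv.Perm.viaEmbedding, Equiv.Perm.sign_extendDomain]
        exact Equiv.Perm.mem_alternatingGroup.1 s.2
  have hf : Function.Injective f := fun s t h =>
    Subtype.ext (Equiv.Perm.viaEmbeddingHom_injective _ (congrArg Subtype.val h))
  let j : alternatingGroup (Fin 7) →* GL4 :=
    Matrix.SpecialLinearGroup.toGL.comp (e'.toMonoidHom.comp (e.symm.toMonoidHom.comp f))
  have hj : Function.Injective j := by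
    intro s t h
    refine hf (e.symm.injective (e'.injective (Subtype.ext ?_)))
    exact congrArg Units.val h
  exact ⟨j.range, ⟨(MonoidHom.ofInjective hj).symm⟩⟩

theorem two_cases (hF : Fintype.card F = 2) (x : F) : x = 0 ∨ x = 1 := by
  classical
  by_contra h
  push Not at h
  have : ({0, 1, x} : Finset F).card ≤ 2 := hF ▸ Finset.card_le_univ _
  simp [h.1.symm, h.2.symm] at this

/-- a functional equal to one on two given non-zero vectors -/
theorem exists_functional (hF : Fintype.card F = 2) {v w : Fin 4 → F} (hv : v ≠ 0) (hw : w ≠ 0) :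
    ∃ φ : (Fin 4 → F) →ₗ[F] F, φ v = 1 ∧ φ w = 1 := by
  obtain ⟨i, hi⟩ := Function.ne_iff.1 hv
  obtain ⟨j, hj⟩ := Function.ne_iff.1 hw
  have hi' : v i = 1 := (two_cases hF _).resolve_left hi
  have hj' : w j = 1 := (two_cases hF _).resolve_left hj
  rcases two_cases hF (w i) with h | h
  · rcases two_cases hF (v j) with h' | h'
    · exact ⟨{ toFun := fun x => x i + x j, map_add' := fun x y => by simp only [Pi.add_apply]; ring, map_smul' := fun c x => by simp only [Pi.smul_apply, smul_eq_mul, RingHom.id_apply]; ring }, (show v i + v j = 1 by rw [hi', h', add_zero]), (show w i + w j = 1 by rw [hj', h, zero_add])⟩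
    · exact ⟨LinearMap.proj j, by simp [h'], by simp [hj']⟩
  · exact ⟨LinearMap.proj i, by simp [hi'], by simp [h]⟩

theorem exists_transvection (hF : Fintype.card F = 2) {φ : (Fin 4 → F) →ₗ[F] F} {d : Fin 4 → F}
    (hd : φ d = 0) : ∃ g : GL4, ∀ x, (g : Matrix (Fin 4) (Fin 4) F) *ᵥ x = x + φ x • d := by
  classical
  have h2 : (1 : F) + 1 = 0 := by
    rcases two_cases hF (1 + 1) with h | h
    · exact h
    · exact absurd (add_eq_left.1 h) one_ne_zero
  let L : (Fin 4 → F) →ₗ[F] (Fin 4 → F) := LinearMap.id + φ.smulRight d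
  have hLL : L.comp L = LinearMap.id := by
    refine LinearMap.ext fun x => ?_
    simp only [L, LinearMap.comp_apply, LinearMap.add_apply, LinearMap.id_apply, LinearMap.smulRight_apply, map_add,
      map_smul, hd, smul_zero, zero_smul, add_zero]
    rw [add_assoc, ← add_smul, show φ x + φ x = φ x * (1 + 1) by ring, h2, mul_zero, zero_smul, add_zero]
  have hMM : LinearMap.toMatrix' L * LinearMap.toMatrix' L = 1 := by
    rw [← LinearMap.toMatrix'_comp, hLL, LinearMap.toMatrix'_id]
  exact ⟨⟨_, _, hMM, hMM⟩, fun x => by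
    show LinearMap.toMatrix' L *ᵥ x = _
    rw [← Matrix.toLin'_apply, Matrix.toLin'_toMatrix']
    rfl⟩

theorem main (hF : Fintype.card F = 2) :
    (∃ H : Subgroup GL4, Nonempty (H ≃* alternatingGroup (Fin 7))) ∧
    ∀ H : Subgroup GL4, Nonempty (H ≃* alternatingGroup (Fin 7)) →
      ∀ v w v' w' : Fin 4 → F, v ≠ 0 → w ≠ 0 → v ≠ w → v' ≠ 0 → w' ≠ 0 → v' ≠ w' →
        ∃ g ∈ H, (g : Matrix (Fin 4) (Fin 4) F).mulVec v = v' ∧ (g : Matrix (Fin 4) (Fin 4) F).mulVec w = w' := by
  classical
  refine ⟨exists_embedding hF, ?_⟩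
  rintro H ⟨e⟩
  let _ : MulAction GL4 (Fin 4 → F) :=
    { smul := fun g x => (g : Matrix (Fin 4) (Fin 4) F) *ᵥ x
      one_smul := fun x => Matrix.one_mulVec x
      mul_smul := fun g h x => (Matrix.mulVec_mulVec x (g : Matrix (Fin 4) (Fin 4) F) (h : Matrix (Fin 4) (Fin 4) F)).symm }
  have hs0 : ∀ g : GL4, g • (0 : Fin 4 → F) = 0 := fun g => Matrix.mulVec_zero _
  have hsne : ∀ (g : GL4) {x : Fin 4 → F}, x ≠ 0 → g • x ≠ 0 := fun g x hx e => hx (by
    rw [← inv_smul_smul g x, e, hs0])
  have hsadd : ∀ (g : GL4) (x y : Fin 4 → F), g • (x + y) = g • x + g • y := fun g x y => Matrix.mulVec_add _ _ _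
  have hxx : ∀ x : Fin 4 → F, x + x = 0 := fun x => funext fun i => by
    rcases two_cases hF (x i) with h | h
    · simp [h]
    · rcases two_cases hF (1 + 1 : F) with h' | h'
      · simpa [h] using h'
      · exact absurd (add_eq_left.1 h') one_ne_zero
  have h15 : Nat.card (Fin 4 → F) = 16 := by simp [Nat.card_eq_fintype_card, hF]
  have h20160 : Nat.card GL4 = 20160 := by
    rw [Matrix.card_GL_field, Fin.prod_univ_four, hF]; rfl
  -- transitivity of the whole group
  have hT1 : ∀ v : Fin 4 → F, v ≠ 0 → orbit GL4 v = ({0} : Set (Fin 4 → F))ᶜ := by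
    intro v hv
    refine Set.ext fun w => ⟨?_, fun hw => ?_⟩
    · rintro ⟨g, rfl⟩; exact hsne g hv
    · obtain ⟨φ, h1, h2⟩ := exists_functional hF hv hw
      obtain ⟨g, hg⟩ := exists_transvection hF (φ := φ) (d := v + w) (by
        rw [map_add, h1, h2]
        rcases two_cases hF (1 + 1 : F) with h' | h'
        · exact h'
        · exact absurd (add_eq_left.1 h') one_ne_zero)
      refine ⟨g, ?_⟩
      show (g : Matrix (Fin 4) (Fin 4) F) *ᵥ v = w
      rw [hg, h1, one_smul, ← add_assoc, hxx, zero_add]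
  have hT2 : ∀ v w : Fin 4 → F, v ≠ 0 → w ≠ 0 → w ≠ v →
      orbit (stabilizer GL4 v) w = ({0, v} : Set (Fin 4 → F))ᶜ := by
    intro v w hv hw hwv
    refine Set.ext fun u => ⟨?_, fun hu => ?_⟩
    · rintro ⟨g, rfl⟩
      rintro (e0 | e0)
      · exact hsne (g : GL4) hw e0
      · exact hwv (smul_left_cancel (g : GL4) ((e0 : (g : GL4) • w = v).trans (g.2 : (g : GL4) • v = v).symm))
    · obtain ⟨i, hi⟩ := Function.ne_iff.1 hv
      have hi' : v i = 1 := (two_cases hF _).resolve_left hi
      let π : (Fin 4 → F) →ₗ[F] (Fin 4 → F) := LinearMap.id + (LinearMap.proj i).smulRight v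
      have hπv : π v = 0 := by simp [π, hi', hxx]
      have hπ : ∀ x, x ≠ 0 → x ≠ v → π x ≠ 0 := by
        intro x hx hxv e0
        have e1 : x + x i • v = 0 := e0
        rcases two_cases hF (x i) with h | h <;> rw [h] at e1
        · exact hx (by simpa using e1)
        · rw [one_smul] at e1
          exact hxv (by rw [← add_zero x, ← hxx v, ← add_assoc, e1, zero_add])
      obtain ⟨φ, h1, h2⟩ := exists_functional hF (hπ w hw hwv)
        (hπ u (fun e0 => hu (Or.inl e0)) (fun e0 => hu (Or.inr e0)))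
      obtain ⟨g, hg⟩ := exists_transvection hF (φ := φ.comp π) (d := w + u) (by
        show φ (π (w + u)) = 0
        rw [map_add, map_add, h1, h2]
        rcases two_cases hF (1 + 1 : F) with h' | h'
        · exact h'
        · exact absurd (add_eq_left.1 h') one_ne_zero)
      refine ⟨⟨g, ?_⟩, ?_⟩
      · show (g : Matrix (Fin 4) (Fin 4) F) *ᵥ v = v
        rw [hg]; simp [hπv]
      · show (g : Matrix (Fin 4) (Fin 4) F) *ᵥ w = u
        rw [hg, LinearMap.comp_apply, h1, one_smul, ← add_assoc, hxx, zero_add]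
  have hcardH : Nat.card H = 2520 := by
    rw [Nat.card_congr e.toEquiv]
    have := two_mul_nat_card_alternatingGroup (α := Fin 7)
    rw [Nat.card_eq_fintype_card (α := Equiv.Perm (Fin 7)), Fintype.card_perm, Fintype.card_fin,
      show Nat.factorial 7 = 5040 from rfl] at this
    omega
  have hstab : ∀ v : Fin 4 → F, v ≠ 0 → Nat.card (stabilizer GL4 v) = 1344 := by
    intro v hv
    have h := (stabilizer GL4 v).card_mul_index
    rw [index_stabilizer, hT1 v hv, Set.ncard_compl, Set.ncard_singleton, h15, h20160] at h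
    omega
  have hstab2 : ∀ v w : Fin 4 → F, v ≠ 0 → w ≠ 0 → w ≠ v →
      Nat.card (stabilizer (stabilizer GL4 v) w) = 96 := by
    intro v w hv hw hwv
    have h := (stabilizer (stabilizer GL4 v) w).card_mul_index
    rw [index_stabilizer, hT2 v w hv hw hwv, Set.ncard_compl, Set.ncard_pair hv.symm, h15, hstab v hv] at h
    omega
  -- transitivity of H
  have hH1 : ∀ v : Fin 4 → F, v ≠ 0 → orbit H v = ({0} : Set (Fin 4 → F))ᶜ ∧ Nat.card (stabilizer H v) = 168 := by
    intro v hv
    have hsub : orbit H v ⊆ ({0} : Set (Fin 4 → F))ᶜ := by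
      rintro _ ⟨g, rfl⟩; exact hsne (g : GL4) hv
    have hle : (orbit H v).ncard ≤ 15 := by
      refine (Set.ncard_le_ncard hsub).trans ?_
      rw [Set.ncard_compl, Set.ncard_singleton, h15]
    have h := (stabilizer H v).card_mul_index
    rw [index_stabilizer, hcardH] at h
    have hd : Nat.card (stabilizer H v) ∣ 1344 := by
      rw [← hstab v hv]
      exact Subgroup.card_dvd_of_injective
        ((H.subtype.comp (stabilizer H v).subtype).codRestrict (stabilizer GL4 v) fun g => g.2)
        fun a b e' => Subtype.ext (Subtype.ext (congrArg Subtype.val e' :))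
    have h168 : Nat.card (stabilizer H v) ∣ 168 := by
      have := Nat.dvd_gcd hd (Dvd.intro _ h)
      exact this.trans (by decide)
    have hle' := Nat.le_of_dvd (by norm_num) h168
    have hn : (orbit H v).ncard = 15 ∧ Nat.card (stabilizer H v) = 168 := by
      constructor <;> nlinarith
    refine ⟨Set.eq_of_subset_of_ncard_le hsub ?_, hn.2⟩
    rw [Set.ncard_compl, Set.ncard_singleton, h15, hn.1]
  -- an involution moves some vector by a given one
  have hspecial : ∀ v : Fin 4 → F, v ≠ 0 → ∃ k : stabilizer H v, ∃ w : Fin 4 → F,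
      w ≠ 0 ∧ w ≠ v ∧ (k : H) • w = w + v := by
    intro v hv
    have : Fact (Nat.Prime 2) := ⟨Nat.prime_two⟩
    obtain ⟨g, hg⟩ := exists_prime_orderOf_dvd_card' (G := H) 2 (by rw [hcardH]; norm_num)
    have hg2 : g * g = 1 := by rw [← pow_two, ← hg, pow_orderOf_eq_one]
    obtain ⟨x, hx⟩ : ∃ x : Fin 4 → F, (g : GL4) • x ≠ x := by
      by_contra hcon
      push Not at hcon
      have hg1 : g = 1 := Subtype.ext (Units.ext (Matrix.ext_of_mulVec_single fun i =>
        (hcon (Pi.single i 1)).trans (Matrix.one_mulVec _).symm))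
      rw [hg1, orderOf_one] at hg
      exact absurd hg (by norm_num)
    set u := (g : GL4) • x + x
    have hu : u ≠ 0 := fun e0 => hx (by rw [← add_zero ((g : GL4) • x), ← hxx x, ← add_assoc]; simp [u] at e0; rw [e0, zero_add])
    have hgu : (g : GL4) • u = u := by
      rw [hsadd, smul_smul, show (g : GL4) * g = 1 from congrArg Subtype.val hg2, one_smul, add_comm]
    have hgx : (g : GL4) • x = x + u := by
      show _ = x + ((g : GL4) • x + x)
      rw [add_comm ((g : GL4) • x) x, ← add_assoc, hxx, zero_add]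
    obtain ⟨h, hh⟩ : v ∈ orbit H u := by rw [(hH1 u hu).1]; exact hv
    have hh' : (h : GL4) • u = v := hh
    refine ⟨⟨h * g * h⁻¹, ?_⟩, (h : GL4) • x, ?_, ?_, ?_⟩
    · show ((h * g * h⁻¹ : H) : GL4) • v = v
      rw [← hh', smul_smul]
      simp only [Subgroup.coe_mul, InvMemClass.coe_inv, mul_assoc, inv_mul_cancel, mul_one, mul_smul, hgu]
    · intro e0
      apply hx
      have hx0 : x = 0 := by rw [← inv_smul_smul (h : GL4) x, e0, hs0]
      rw [hx0, hs0]
    · intro e0
      apply hx
      rw [smul_left_cancel (h : GL4) (e0.trans hh'.symm), hgu]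
    · show ((h * g * h⁻¹ : H) : GL4) • ((h : GL4) • x) = (h : GL4) • x + v
      simp only [Subgroup.coe_mul, InvMemClass.coe_inv, mul_smul, inv_smul_smul, hgx, hsadd, hh']
  have hH2 : ∀ v w : Fin 4 → F, v ≠ 0 → w ≠ 0 → w ≠ v → orbit (stabilizer H v) w = ({0, v} : Set (Fin 4 → F))ᶜ := by
    intro v w hv hw hwv
    have hsub : ∀ z : Fin 4 → F, z ≠ 0 → z ≠ v → orbit (stabilizer H v) z ⊆ ({0, v} : Set (Fin 4 → F))ᶜ := by
      rintro z hz hzv _ ⟨g, rfl⟩ (e0 | e0)
      · exact hsne ((g : H) : GL4) hz e0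
      · exact hzv (smul_left_cancel (g : H) ((e0 : (g : H) • z = v).trans (g.2 : (g : H) • v = v).symm))
    have h14 : ({0, v} : Set (Fin 4 → F))ᶜ.ncard = 14 := by
      rw [Set.ncard_compl, Set.ncard_pair hv.symm, h15]
    obtain ⟨k, w0, hw0, hw0v, hk⟩ := hspecial v hv
    have hsz : 7 ∣ (orbit (stabilizer H v) w0).ncard := by
      have h := (stabilizer (stabilizer H v) w0).card_mul_index
      rw [index_stabilizer, (hH1 v hv).2] at h
      have hd : Nat.card (stabilizer (stabilizer H v) w0) ∣ 96 := by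
        rw [← hstab2 v w0 hv hw0 hw0v]
        let i1 : stabilizer (stabilizer H v) w0 →* stabilizer GL4 v :=
          (H.subtype.comp ((stabilizer H v).subtype.comp (stabilizer (stabilizer H v) w0).subtype)).codRestrict _
            fun g => g.1.2
        exact Subgroup.card_dvd_of_injective (i1.codRestrict (stabilizer (stabilizer GL4 v) w0) fun g => g.2)
          fun a b e' => Subtype.ext (Subtype.ext (Subtype.ext (congrArg (fun z => ((Subtype.val z).val : GL4)) e' :)))
      have h7 : Nat.Coprime 7 (Nat.card (stabilizer (stabilizer H v) w0)) :=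
        Nat.Coprime.coprime_dvd_right hd (by decide)
      exact h7.dvd_of_dvd_mul_left (by rw [h]; norm_num)
    have hle : (orbit (stabilizer H v) w0).ncard ≤ 14 := h14 ▸ Set.ncard_le_ncard (hsub w0 hw0 hw0v)
    have hpos : 0 < (orbit (stabilizer H v) w0).ncard := (Set.ncard_pos (Set.toFinite _)).2 ⟨w0, mem_orbit_self w0⟩
    have hne7 : (orbit (stabilizer H v) w0).ncard ≠ 7 := by
      intro h7
      set O := (orbit (stabilizer H v) w0).toFinset
      have hOc : O.card = 7 := by rw [← h7, Set.ncard_eq_toFinset_card']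
      have hOv : ∀ z ∈ O, z + v ∈ O := by
        intro z hz
        rw [Set.mem_toFinset] at hz ⊢
        obtain ⟨g, rfl⟩ := hz
        refine ⟨g * k, ?_⟩
        show (g * k) • w0 = g • w0 + v
        rw [mul_smul]
        show ((g : H) : GL4) • ((k : H) : GL4) • w0 = ((g : H) : GL4) • w0 + v
        rw [show ((k : H) : GL4) • w0 = w0 + v from hk, hsadd]
        exact congrArg _ g.2
      obtain ⟨i, hi⟩ := Function.ne_iff.1 hv
      have hflip : ∀ z : Fin 4 → F, (z + v) i = 0 ↔ z i ≠ 0 := by
        intro z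
        rw [Pi.add_apply, (two_cases hF (v i)).resolve_left hi]
        rcases two_cases hF (z i) with h | h
        · simp [h]
        · have := congrFun (hxx (fun _ => (1 : F))) i
          simp only [Pi.add_apply, Pi.zero_apply] at this
          simp [h, this]
      have hcard := Finset.card_filter_add_card_filter_not (s := O) (fun z => z i = 0)
      have heq : (O.filter fun z => z i = 0).card = (O.filter fun z => ¬ z i = 0).card := by
        refine Finset.card_bij' (fun z _ => z + v) (fun z _ => z + v) ?_ ?_ ?_ ?_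
        · intro z hz
          rw [Finset.mem_filter] at hz ⊢
          exact ⟨hOv z hz.1, fun e0 => (hflip z).1 e0 hz.2⟩
        · intro z hz
          rw [Finset.mem_filter] at hz ⊢
          exact ⟨hOv z hz.1, (hflip z).2 hz.2⟩
        · intro z _; rw [add_assoc, hxx, add_zero]
        · intro z _; rw [add_assoc, hxx, add_zero]
      omega
    have h14' : (orbit (stabilizer H v) w0).ncard = 14 := by
      obtain ⟨c, hc⟩ := hsz
      omega
    have hfull : orbit (stabilizer H v) w0 = ({0, v} : Set (Fin 4 → F))ᶜ :=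
      Set.eq_of_subset_of_ncard_le (hsub w0 hw0 hw0v) (by rw [h14, h14'])
    rw [← hfull, orbit_eq_iff, hfull]
    rintro (e0 | e0)
    · exact hw e0
    · exact hwv e0
  intro v w v' w' hv hw hvw hv' hw' hvw'
  obtain ⟨g1, hg1⟩ : v' ∈ orbit H v := by rw [(hH1 v hv).1]; exact hv'
  have hg1' : (g1 : GL4) • v = v' := hg1
  have hne : (g1 : GL4) • w ≠ v' := fun e0 => hvw (smul_left_cancel (g1 : GL4) (hg1'.trans e0.symm))
  obtain ⟨g2, hg2⟩ : w' ∈ orbit (stabilizer H v') ((g1 : GL4) • w) := by
    rw [hH2 v' _ hv' (hsne _ hw) hne]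
    rintro (e0 | e0)
    · exact hw' e0
    · exact hvw' e0.symm
  refine ⟨((g2 : H) * g1 : H), ((g2 : H) * g1 : H).2, ?_, ?_⟩
  · show (((g2 : H) * g1 : H) : GL4) • v = v'
    rw [Subgroup.coe_mul, mul_smul, hg1']
    exact g2.2
  · show (((g2 : H) * g1 : H) : GL4) • w = w'
    rw [Subgroup.coe_mul, mul_smul]
    exact hg2

end helper


/-- Let F be the field with 2 elements. GL_4(F) (≅ A_8) has a subgroup isomorphic to the alternating group A_7, and every such subgroup acts 2-transitively on the 15 non-zero vectors of F⁴: any ordered pair of distinct non-zero vectors is carried to any other by some element of the subgroup. -/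
theorem result {F : Type*} [Field F] [Fintype F] (hF : Fintype.card F = 2) : (∃ H : Subgroup (Matrix.GeneralLinearGroup (Fin 4) F), Nonempty (H ≃* alternatingGroup (Fin 7))) ∧ ∀ H : Subgroup (Matrix.GeneralLinearGroup (Fin 4) F), Nonempty (H ≃* alternatingGroup (Fin 7)) → ∀ v w v' w' : Fin 4 → F, v ≠ 0 → w ≠ 0 → v ≠ w → v' ≠ 0 → w' ≠ 0 → v' ≠ w' → ∃ g ∈ H, (g : Matrix (Fin 4) (Fin 4) F).mulVec v = v' ∧ (g : Matrix (Fin 4) (Fin 4) F).mulVec w = w' := by
  exact main hF

end Cfsg.Agent.S2551
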