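import Cfsg.Statements.S2552
import Mathlib
-- import your own Cfsg.Agent.* helpers here

set_option autoImplicit false
open Cfsg

namespace Cfsg.Agent.S2552

/-- Let F be a finite field and n ≥ 1. For every k, the special linear group SL_n(F) acts transitively on the set of k-dimensional subspaces of F^n: any two subspaces of the same dimension are carried onto each other by some matrix of determinant 1. -/
theorem result {F : Type*} [Field F] [Fintype F] (n : ℕ) (hn : 1 ≤ n) (U₁ U₂ : Submodule F (Fin n → F)) (h : Module.finrank F U₁ = Module.finrank F U₂) : ∃ g : Matrix.SpecialLinearGroup (Fin n) F, U₁.map ((Matrix.SpecialLinearGroup.toLin' g : (Fin n → F) ≃ₗ[F] (Fin n → F)) : (Fin n → F) →ₗ[F] (Fin n → F)) = U₂ := by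
  classical
  obtain ⟨C₁, hC₁⟩ := U₁.exists_isCompl
  obtain ⟨C₂, hC₂⟩ := U₂.exists_isCompl
  have hC : Module.finrank F C₁ = Module.finrank F C₂ := by
    have e1 := Submodule.finrank_add_eq_of_isCompl hC₁
    have e2 := Submodule.finrank_add_eq_of_isCompl hC₂
    omega
  let g₀ : (Fin n → F) ≃ₗ[F] (Fin n → F) := (Submodule.prodEquivOfIsCompl U₁ C₁ hC₁).symm.trans
    (((LinearEquiv.ofFinrankEq U₁ U₂ h).prodCongr (LinearEquiv.ofFinrankEq C₁ C₂ hC)).trans (Submodule.prodEquivOfIsCompl U₂ C₂ hC₂))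
  have hg₀ : U₁.map (g₀ : (Fin n → F) →ₗ[F] (Fin n → F)) = U₂ := by
    refine Submodule.eq_of_le_of_finrank_eq ?_ ((Submodule.equivMapOfInjective _ g₀.injective U₁).finrank_eq.symm.trans h)
    rintro _ ⟨x, hx, rfl⟩
    simp only [g₀, LinearEquiv.coe_coe, LinearEquiv.trans_apply, Submodule.prodEquivOfIsCompl_symm_apply_left U₁ C₁ hC₁ ⟨x, hx⟩]
    simp
  let b := ((Module.finBasis F U₁).prod (Module.finBasis F C₁)).map (Submodule.prodEquivOfIsCompl U₁ C₁ hC₁)
  set d := LinearMap.det (g₀ : (Fin n → F) →ₗ[F] (Fin n → F))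
  have hd : d ≠ 0 := (LinearEquiv.isUnit_det' g₀).ne_zero
  haveI : Nontrivial (Fin n → F) := Module.nontrivial_of_finrank_pos (R := F) (by simp; omega)
  obtain ⟨i0⟩ : Nonempty (Fin (Module.finrank F U₁) ⊕ Fin (Module.finrank F C₁)) := b.index_nonempty
  let D : (Fin n → F) →ₗ[F] (Fin n → F) := Matrix.toLin b b (Matrix.diagonal fun i => if i = i0 then d⁻¹ else 1)
  have hDdet : LinearMap.det D = d⁻¹ := by
    rw [LinearMap.det_toLin, Matrix.det_diagonal, Finset.prod_ite_eq']
    simp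
  have hDU : ∀ x ∈ U₁, D x ∈ U₁ := by
    intro x hx
    have hle : U₁ ≤ Submodule.span F (Set.range fun i : Fin (Module.finrank F U₁) => b (Sum.inl i)) := by
      intro y hy
      have := (Module.finBasis F U₁).mem_span (⟨y, hy⟩ : U₁)
      have h2 := Submodule.apply_mem_span_image_of_mem_span U₁.subtype this
      rw [← Set.range_comp] at h2
      convert h2 using 2
      · congr 1
        funext i
        simp [b]
      · rfl
    refine (Submodule.span_le (p := U₁.comap D)).2 ?_ (hle hx)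
    rintro _ ⟨i, rfl⟩
    show D (b (Sum.inl i)) ∈ U₁
    rw [Matrix.toLin_self]
    refine U₁.sum_mem fun j _ => ?_
    rcases eq_or_ne j (Sum.inl i) with rfl | hj
    · refine U₁.smul_mem _ ?_
      simp [b]
    · rw [Matrix.diagonal_apply_ne _ hj, zero_smul]; exact U₁.zero_mem
  let G : (Fin n → F) →ₗ[F] (Fin n → F) := (g₀ : (Fin n → F) →ₗ[F] (Fin n → F)) ∘ₗ D
  have hG : LinearMap.det G = 1 := by rw [LinearMap.det_comp, hDdet]; exact mul_inv_cancel₀ hd
  refine ⟨⟨LinearMap.toMatrix' G, by rw [LinearMap.det_toMatrix', hG]⟩, ?_⟩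
  have e : ((Matrix.SpecialLinearGroup.toLin' (⟨LinearMap.toMatrix' G, by rw [LinearMap.det_toMatrix', hG]⟩ : Matrix.SpecialLinearGroup (Fin n) F) : (Fin n → F) ≃ₗ[F] (Fin n → F)) : (Fin n → F) →ₗ[F] (Fin n → F)) = G := by
    refine LinearMap.ext fun x => ?_
    show (Matrix.toLin' (LinearMap.toMatrix' G)) x = G x
    rw [Matrix.toLin'_toMatrix']
  rw [e]
  refine Submodule.eq_of_le_of_finrank_eq ?_ ?_
  · rintro _ ⟨x, hx, rfl⟩
    rw [← hg₀]
    exact ⟨D x, hDU x hx, rfl⟩
  · have hinj : Function.Injective G := ((Module.End.isUnit_iff G).1 ((LinearMap.isUnit_iff_isUnit_det G).2 (by rw [hG]; exact isUnit_one))).1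
    exact (Submodule.equivMapOfInjective _ hinj U₁).finrank_eq.symm.trans h

end Cfsg.Agent.S2552
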