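import Cfsg.Statements.S2561
import Cfsg.Agent.Lib.Classical.ClassicalOrders

set_option autoImplicit false
open Cfsg

namespace Cfsg.Agent.S2561

variable {m : ℕ}

local notation "𝕍" => Fin m ⊕ Fin m → ZMod 2
local notation "𝐐" => Cfsg.quadFormPlus m (ZMod 2)

theorem zsq (x : ZMod 2) : x * x = x := by revert x; decide

/-- the polar form -/
def pol (u v : 𝕍) : ZMod 2 := ∑ i, (u (.inl i) * v (.inr i) + u (.inr i) * v (.inl i))

theorem pol_eq (u v : 𝕍) : 𝐐 (u + v) = 𝐐 u + 𝐐 v + pol u v := by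
  simp only [Cfsg.quadFormPlus, pol, ← Finset.sum_add_distrib, Pi.add_apply]
  exact Finset.sum_congr rfl fun i _ => by ring

theorem pol_comm (u v : 𝕍) : pol u v = pol v u := Finset.sum_congr rfl fun i _ => by ring

theorem pol_self (u : 𝕍) : pol u u = 0 :=
  Finset.sum_eq_zero fun i _ => by rw [mul_comm (u (.inr i))]; exact CharTwo.add_self_eq_zero _

theorem pol_add (u v w : 𝕍) : pol u (v + w) = pol u v + pol u w := by
  simp only [pol, ← Finset.sum_add_distrib, Pi.add_apply]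
  exact Finset.sum_congr rfl fun i _ => by ring

theorem pol_smul (t : ZMod 2) (u v : 𝕍) : pol u (t • v) = t * pol u v := by
  simp only [pol, Finset.mul_sum, Pi.smul_apply, smul_eq_mul]
  exact Finset.sum_congr rfl fun i _ => by ring

theorem q_smul (t : ZMod 2) (v : 𝕍) : 𝐐 (t • v) = t * 𝐐 v := by
  simp only [Cfsg.quadFormPlus, Finset.mul_sum, Pi.smul_apply, smul_eq_mul]
  exact Finset.sum_congr rfl fun i _ => by linear_combination v (.inl i) * v (.inr i) * zsq t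

/-- the form attached to a vector -/
def qa (a v : 𝕍) : ZMod 2 := 𝐐 v + pol a v

theorem qa_add (a u v : 𝕍) : qa a (u + v) = qa a u + qa a v + pol u v := by
  rw [qa, qa, qa, pol_eq, pol_add]; ring

theorem qa_smul (t : ZMod 2) (a v : 𝕍) : qa a (t • v) = t * qa a v := by
  rw [qa, qa, q_smul, pol_smul]; ring

theorem qa_zero (v : 𝕍) : qa 0 v = 𝐐 v := by simp [qa, pol]

theorem qa_polarizes (a u v : 𝕍) : qa a (u + v) = qa a u + qa a v + (𝐐 (u + v) - 𝐐 u - 𝐐 v) := by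
  rw [qa_add, pol_eq]; ring

/-- transvection -/
def tr (c : 𝕍) : 𝕍 →ₗ[ZMod 2] 𝕍 where
  toFun v := v + pol c v • c
  map_add' u v := by rw [pol_add, add_smul]; abel
  map_smul' t v := by simp [pol_smul, smul_add, smul_smul]

theorem tr_tr (c : 𝕍) : Function.Involutive (tr c) := fun v => by
  show v + pol c v • c + pol c (v + pol c v • c) • c = v
  rw [pol_add, pol_smul, pol_self, mul_zero, add_zero, add_assoc, ← add_smul, CharTwo.add_self_eq_zero, zero_smul,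
    add_zero]

theorem qa_tr {a c : 𝕍} (h : qa a c = 0) (v : 𝕍) : qa a (tr c v) = qa (a + c) v := by
  show qa a (v + pol c v • c) = _
  rw [qa_add, qa_smul, h, mul_zero, add_zero, pol_smul, pol_comm v c, zsq, qa, qa,
    pol_comm (a + c), pol_add, pol_comm v a, pol_comm v c]
  ring

theorem equiv_zero {a : 𝕍} (h : 𝐐 a = 0) : ∃ g : 𝕍 ≃ₗ[ZMod 2] 𝕍, ∀ v, qa a v = 𝐐 (g v) :=
  ⟨LinearEquiv.ofInvolutive (tr a) (tr_tr a), fun v => by
    have : qa (0 : 𝕍) a = 0 := by rw [qa_zero, h]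
    have := qa_tr this v
    rw [zero_add, qa_zero] at this
    exact this.symm⟩

theorem equiv_same {a b : 𝕍} (ha : 𝐐 a = 1) (hb : 𝐐 b = 1) : ∃ g : 𝕍 ≃ₗ[ZMod 2] 𝕍, ∀ v, qa b v = qa a (g v) := by
  have h : qa a (a + b) = 0 := by
    rw [qa, pol_eq, pol_add, pol_self, ha, hb]
    simp [CharTwo.add_self_eq_zero]
  refine ⟨LinearEquiv.ofInvolutive (tr (a + b)) (tr_tr _), fun v => ?_⟩
  have h3 := qa_tr h v
  rw [show a + (a + b) = b from funext fun i => by simp [← add_assoc, CharTwo.add_self_eq_zero]] at h3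
  exact h3.symm

/-- the special vector of value one -/
def a0 (k : ℕ) : Fin (k + 1) ⊕ Fin (k + 1) → ZMod 2 :=
  Sum.elim (fun i => if i = Fin.last k then 1 else 0) (fun i => if i = Fin.last k then 1 else 0)

theorem q_a0 (k : ℕ) : Cfsg.quadFormPlus (k + 1) (ZMod 2) (a0 k) = 1 := by
  simp [Cfsg.quadFormPlus, a0, Fin.sum_univ_castSucc, Fin.castSucc_ne_last]

theorem equiv_minus (k : ℕ) :
    ∃ g : (Fin (k + 1) ⊕ Fin (k + 1) → ZMod 2) ≃ₗ[ZMod 2] ((Fin k ⊕ Fin k) ⊕ Fin 2 → ZMod 2),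
      ∀ v, qa (a0 k) v = Cfsg.quadFormMinus k (ZMod 2) 1 1 (g v) := by
  let f : (Fin k ⊕ Fin k) ⊕ Fin 2 → Fin (k + 1) ⊕ Fin (k + 1) :=
    Sum.elim (Sum.map Fin.castSucc Fin.castSucc) ![.inl (Fin.last k), .inr (Fin.last k)]
  have hsurj : Function.Surjective f := by
    rintro (i | i) <;> refine Fin.lastCases ?_ (fun j => ?_) i
    · exact ⟨.inr 0, rfl⟩
    · exact ⟨.inl (.inl j), rfl⟩
    · exact ⟨.inr 1, rfl⟩
    · exact ⟨.inl (.inr j), rfl⟩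
  have hf : Function.Bijective f :=
    (Fintype.bijective_iff_surjective_and_card f).mpr ⟨hsurj, by simp; omega⟩
  refine ⟨LinearEquiv.funCongrLeft (ZMod 2) (ZMod 2) (Equiv.ofBijective f hf), fun v => ?_⟩
  have hx : ∀ i, LinearEquiv.funCongrLeft (ZMod 2) (ZMod 2) (Equiv.ofBijective f hf) v i = v (f i) := fun i => rfl
  simp only [Cfsg.quadFormMinus, hx, qa, Cfsg.quadFormPlus, pol, Fin.sum_univ_castSucc, a0, f, Sum.elim_inl,
    Sum.elim_inr, Sum.map_inl, Sum.map_inr, Fin.castSucc_ne_last, if_false, if_true, zero_mul, add_zero,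
    Finset.sum_const_zero, zero_add, one_mul, Matrix.cons_val_zero, Matrix.cons_val_one]
  rw [pow_two, pow_two, zsq, zsq]
  ring

theorem zeros_ne (k : ℕ) {q : (Fin (k + 1) ⊕ Fin (k + 1) → ZMod 2) → ZMod 2}
    (g : (Fin (k + 1) ⊕ Fin (k + 1) → ZMod 2) ≃ₗ[ZMod 2] (Fin (k + 1) ⊕ Fin (k + 1) → ZMod 2))
    (hg : ∀ v, q v = Cfsg.quadFormPlus (k + 1) (ZMod 2) (g v))
    (g' : (Fin (k + 1) ⊕ Fin (k + 1) → ZMod 2) ≃ₗ[ZMod 2] ((Fin k ⊕ Fin k) ⊕ Fin 2 → ZMod 2))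
    (hg' : ∀ v, q v = Cfsg.quadFormMinus k (ZMod 2) 1 1 (g' v)) : False := by
  have h1 := Cfsg.Lib.Classical.ClassicalOrders.zeros_plus (ZMod.card 2) (k + 1) (by omega)
  have h2 : Nat.card {v : (Fin k ⊕ Fin k) ⊕ Fin 2 → ZMod 2 // Cfsg.quadFormMinus k (ZMod 2) 1 1 v = 0} =
      2 ^ (2 * (k + 1) - 1) + 2 ^ k - 2 ^ (k + 1) :=
    Cfsg.Lib.Classical.ClassicalOrders.zeros_minus (ZMod.card 2) (k + 1) (by omega) 1 1 (by decide)
  have e1 := Nat.card_congr (g.toEquiv.subtypeEquiv (p := fun v => q v = 0)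
    (q := fun v => Cfsg.quadFormPlus (k + 1) (ZMod 2) v = 0) fun v => by rw [hg]; rfl)
  have e2 := Nat.card_congr (g'.toEquiv.subtypeEquiv (p := fun v => q v = 0)
    (q := fun v => Cfsg.quadFormMinus k (ZMod 2) 1 1 v = 0) fun v => by rw [hg']; rfl)
  simp only [Nat.add_sub_cancel] at h1
  rw [h1] at e1
  rw [h2] at e2
  have h3 : 0 < 2 ^ k := Nat.two_pow_pos k
  have h4 : 2 ^ (2 * (k + 1) - 1) = 2 * (2 ^ k * 2 ^ k) := by
    rw [show 2 * (k + 1) - 1 = k + k + 1 by omega, pow_succ, pow_add]; ring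
  have h5 : 2 ^ k ≤ 2 ^ k * 2 ^ k := Nat.le_mul_of_pos_left _ h3
  rw [pow_succ] at e1 e2
  omega

theorem classify (hm : 1 ≤ m) (a : 𝕍) :
    (𝐐 a = 0 → ∃ g : 𝕍 ≃ₗ[ZMod 2] 𝕍, ∀ v, qa a v = 𝐐 (g v)) ∧
    (𝐐 a ≠ 0 → ∃ g : 𝕍 ≃ₗ[ZMod 2] ((Fin (m - 1) ⊕ Fin (m - 1)) ⊕ Fin 2 → ZMod 2),
      ∀ v, qa a v = Cfsg.quadFormMinus (m - 1) (ZMod 2) 1 1 (g v)) ∧
    (∀ (g : 𝕍 ≃ₗ[ZMod 2] 𝕍) (g' : 𝕍 ≃ₗ[ZMod 2] ((Fin (m - 1) ⊕ Fin (m - 1)) ⊕ Fin 2 → ZMod 2)),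
      ¬ ((∀ v, qa a v = 𝐐 (g v)) ∧ ∀ v, qa a v = Cfsg.quadFormMinus (m - 1) (ZMod 2) 1 1 (g' v))) := by
  obtain ⟨k, rfl⟩ : ∃ k, m = k + 1 := ⟨m - 1, by omega⟩
  refine ⟨equiv_zero, fun h => ?_, fun g g' ⟨h, h'⟩ => zeros_ne k g h g' h'⟩
  have h1 : ∀ x : ZMod 2, x ≠ 0 → x = 1 := by decide
  obtain ⟨g, hg⟩ := equiv_same (q_a0 k) (h1 _ h)
  obtain ⟨g', hg'⟩ := equiv_minus k
  exact ⟨g.trans g', fun v => by rw [hg, hg']; rfl⟩

theorem qa_bijective : Function.Bijective (fun a : 𝕍 =>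
    (⟨qa a, qa_polarizes a⟩ : {q : 𝕍 → ZMod 2 // ∀ u v, q (u + v) = q u + q v + (𝐐 (u + v) - 𝐐 u - 𝐐 v)})) := by
  classical
  constructor
  · intro a b h
    funext i
    have := congrFun (congrArg Subtype.val h) (Pi.single (Sum.swap i) 1)
    simp only [qa, add_right_inj] at this
    rcases i with i | i <;> simpa [pol, Pi.single_apply] using this
  · rintro ⟨q, hq⟩
    let φ : 𝕍 →+ ZMod 2 := AddMonoidHom.mk' (fun v => q v + 𝐐 v) fun u v => by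
      rw [hq]; linear_combination (CharTwo.add_self_eq_zero (𝐐 (u + v))) - CharTwo.add_self_eq_zero (𝐐 u) - CharTwo.add_self_eq_zero (𝐐 v)
    let L := φ.toZModLinearMap 2
    refine ⟨fun i => L (Pi.single (Sum.swap i) 1), Subtype.ext (funext fun v => ?_)⟩
    have hL : L v = ∑ i, v i * L (Pi.single i 1) := by
      conv_lhs => rw [pi_eq_sum_univ' v, map_sum]
      exact Finset.sum_congr rfl fun i _ => by rw [map_smul, smul_eq_mul]
    show 𝐐 v + pol _ v = q v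
    have hp : pol (fun i => L (Pi.single (Sum.swap i) 1)) v = L v := by
      rw [hL, Fintype.sum_sum_type, ← Finset.sum_add_distrib]
      exact Finset.sum_congr rfl fun i _ => by simp [Sum.swap]; ring
    rw [hp]
    show 𝐐 v + (q v + 𝐐 v) = q v
    linear_combination CharTwo.add_self_eq_zero (𝐐 v)

/-- Fix the non-singular alternating form on the 2m-dimensional space over the field of two elements obtained by polarizing the plus-type form Σ xᵢyᵢ (m ≥ 1). The functions q on the space with q(u + v) = q(u) + q(v) + f(u, v) (the quadratic forms polarizing to f) number 2^(2m); each is equivalent under an invertible linear map either to the plus-type form or to the minus-type form Σ xᵢyᵢ + (z₁² + z₁z₂ + z₂²); and those of plus type number 2^(2m−1) + 2^(m−1), those of minus type 2^(2m−1) − 2^(m−1). -/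
theorem result (m : ℕ) (hm : 1 ≤ m) :
    Nat.card {q : (Fin m ⊕ Fin m → ZMod 2) → ZMod 2 // (∀ u v : (Fin m ⊕ Fin m → ZMod 2), q (u + v) = q u + q v + (Cfsg.quadFormPlus m (ZMod 2) (u + v) - Cfsg.quadFormPlus m (ZMod 2) u - Cfsg.quadFormPlus m (ZMod 2) v))} = 2 ^ (2 * m) ∧
    (∀ q : (Fin m ⊕ Fin m → ZMod 2) → ZMod 2, (∀ u v : (Fin m ⊕ Fin m → ZMod 2), q (u + v) = q u + q v + (Cfsg.quadFormPlus m (ZMod 2) (u + v) - Cfsg.quadFormPlus m (ZMod 2) u - Cfsg.quadFormPlus m (ZMod 2) v)) →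
      (∃ g : (Fin m ⊕ Fin m → ZMod 2) ≃ₗ[ZMod 2] (Fin m ⊕ Fin m → ZMod 2), ∀ v, q v = Cfsg.quadFormPlus m (ZMod 2) (g v)) ∨
      (∃ g : (Fin m ⊕ Fin m → ZMod 2) ≃ₗ[ZMod 2] ((Fin (m - 1) ⊕ Fin (m - 1)) ⊕ Fin 2 → ZMod 2), ∀ v, q v = Cfsg.quadFormMinus (m - 1) (ZMod 2) 1 1 (g v))) ∧
    Nat.card {q : (Fin m ⊕ Fin m → ZMod 2) → ZMod 2 // (∀ u v : (Fin m ⊕ Fin m → ZMod 2), q (u + v) = q u + q v + (Cfsg.quadFormPlus m (ZMod 2) (u + v) - Cfsg.quadFormPlus m (ZMod 2) u - Cfsg.quadFormPlus m (ZMod 2) v)) ∧ ∃ g : (Fin m ⊕ Fin m → ZMod 2) ≃ₗ[ZMod 2] (Fin m ⊕ Fin m → ZMod 2), ∀ v, q v = Cfsg.quadFormPlus m (ZMod 2) (g v)} = 2 ^ (2 * m - 1) + 2 ^ (m - 1) ∧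
    Nat.card {q : (Fin m ⊕ Fin m → ZMod 2) → ZMod 2 // (∀ u v : (Fin m ⊕ Fin m → ZMod 2), q (u + v) = q u + q v + (Cfsg.quadFormPlus m (ZMod 2) (u + v) - Cfsg.quadFormPlus m (ZMod 2) u - Cfsg.quadFormPlus m (ZMod 2) v)) ∧ ∃ g : (Fin m ⊕ Fin m → ZMod 2) ≃ₗ[ZMod 2] ((Fin (m - 1) ⊕ Fin (m - 1)) ⊕ Fin 2 → ZMod 2), ∀ v, q v = Cfsg.quadFormMinus (m - 1) (ZMod 2) 1 1 (g v)} = 2 ^ (2 * m - 1) - 2 ^ (m - 1) := by
  classical
  let e := Equiv.ofBijective _ (qa_bijective (m := m))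
  have hV : Fintype.card (Fin m ⊕ Fin m → ZMod 2) = 2 ^ (2 * m) := by simp [two_mul]
  have hz : Nat.card {a : Fin m ⊕ Fin m → ZMod 2 // Cfsg.quadFormPlus m (ZMod 2) a = 0} =
      2 ^ (2 * m - 1) + 2 ^ (m - 1) := by
    rw [Cfsg.Lib.Classical.ClassicalOrders.zeros_plus (ZMod.card 2) m hm]
    have : 2 ^ m = 2 * 2 ^ (m - 1) := by rw [← pow_succ', Nat.sub_add_cancel hm]
    have := Nat.two_pow_pos (2 * m - 1); omega
  refine ⟨?_, fun q hq => ?_, ?_, ?_⟩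
  · rw [← Nat.card_congr e, Nat.card_eq_fintype_card, hV]
  · obtain ⟨a, ha⟩ := e.surjective ⟨q, hq⟩
    obtain rfl : qa a = q := congrArg Subtype.val ha
    by_cases h : Cfsg.quadFormPlus m (ZMod 2) a = 0
    · exact Or.inl ((classify hm a).1 h)
    · exact Or.inr ((classify hm a).2.1 h)
  · rw [← hz]
    refine (Nat.card_congr ((e.subtypeEquiv fun a => ?_).trans (Equiv.subtypeSubtypeEquivSubtypeInter _
      (fun q : (Fin m ⊕ Fin m → ZMod 2) → ZMod 2 => ∃ g : (Fin m ⊕ Fin m → ZMod 2) ≃ₗ[ZMod 2]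
        (Fin m ⊕ Fin m → ZMod 2), ∀ v, q v = Cfsg.quadFormPlus m (ZMod 2) (g v))))).symm
    refine ⟨(classify hm a).1, fun ⟨g, hg⟩ => ?_⟩
    by_contra h
    obtain ⟨g', hg'⟩ := (classify hm a).2.1 h
    exact (classify hm a).2.2 g g' ⟨hg, hg'⟩
  · have hc : Nat.card {a : Fin m ⊕ Fin m → ZMod 2 // ¬ Cfsg.quadFormPlus m (ZMod 2) a = 0} =
        2 ^ (2 * m - 1) - 2 ^ (m - 1) := by
      rw [Nat.card_eq_fintype_card] at hz ⊢
      rw [Fintype.card_subtype_compl, hz, hV]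
      have : 2 ^ (2 * m) = 2 * 2 ^ (2 * m - 1) := by rw [← pow_succ', Nat.sub_add_cancel (by omega)]
      have := Nat.pow_le_pow_right (show 1 ≤ 2 by omega) (show m - 1 ≤ 2 * m - 1 by omega)
      omega
    rw [← hc]
    refine (Nat.card_congr ((e.subtypeEquiv fun a => ?_).trans (Equiv.subtypeSubtypeEquivSubtypeInter _
      (fun q : (Fin m ⊕ Fin m → ZMod 2) → ZMod 2 => ∃ g : (Fin m ⊕ Fin m → ZMod 2) ≃ₗ[ZMod 2]
        ((Fin (m - 1) ⊕ Fin (m - 1)) ⊕ Fin 2 → ZMod 2), ∀ v, q v = Cfsg.quadFormMinus (m - 1) (ZMod 2) 1 1 (g v))))).symm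
    exact ⟨(classify hm a).2.1, fun ⟨g', hg'⟩ h => by
      obtain ⟨g, hg⟩ := (classify hm a).1 h
      exact (classify hm a).2.2 g g' ⟨hg, hg'⟩⟩

end Cfsg.Agent.S2561
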