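import Cfsg.Statements.S2562
import Cfsg.Agent.Lib.Classical.SingularDim
-- import your own Cfsg.Agent.* helpers here

set_option autoImplicit false
open Cfsg

namespace Cfsg.Agent.S2562

/-- Witt indices over the field of two elements, m ≥ 1: for the plus-type form Σ xᵢyᵢ in dimension 2m some m-dimensional subspace is totally singular and no totally singular subspace has larger dimension; for the minus-type form Σ xᵢyᵢ + (z₁² + z₁z₂ + z₂²) in dimension 2m the maximal dimension of a totally singular subspace is m − 1. -/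
theorem result (m : ℕ) (hm : 1 ≤ m) :
    (∃ U : Submodule (ZMod 2) (Fin m ⊕ Fin m → ZMod 2), (∀ u ∈ U, Cfsg.quadFormPlus m (ZMod 2) u = 0) ∧ Module.finrank (ZMod 2) ↥U = m) ∧
    (∀ U : Submodule (ZMod 2) (Fin m ⊕ Fin m → ZMod 2), (∀ u ∈ U, Cfsg.quadFormPlus m (ZMod 2) u = 0) → Module.finrank (ZMod 2) ↥U ≤ m) ∧
    (∃ U : Submodule (ZMod 2) ((Fin (m - 1) ⊕ Fin (m - 1)) ⊕ Fin 2 → ZMod 2), (∀ u ∈ U, Cfsg.quadFormMinus (m - 1) (ZMod 2) 1 1 u = 0) ∧ Module.finrank (ZMod 2) ↥U = m - 1) ∧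
    (∀ U : Submodule (ZMod 2) ((Fin (m - 1) ⊕ Fin (m - 1)) ⊕ Fin 2 → ZMod 2), (∀ u ∈ U, Cfsg.quadFormMinus (m - 1) (ZMod 2) 1 1 u = 0) → Module.finrank (ZMod 2) ↥U ≤ m - 1) := by
  have hab : ∀ z₁ z₂ : ZMod 2, z₁ ^ 2 + 1 * z₁ * z₂ + 1 * z₂ ^ 2 = 0 → z₁ = 0 ∧ z₂ = 0 := by decide
  refine ⟨⟨Submodule.span (ZMod 2) (Set.range fun i : Fin m => Pi.single (Sum.inl i) 1), ?_,
      (SingularDim.exists_subspace _ _ _ Sum.inl_injective).trans (Fintype.card_fin m)⟩,
    fun U hU => SingularDim.finrank_le_plus hab U hU,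
    ⟨Submodule.span (ZMod 2) (Set.range fun i : Fin (m - 1) => Pi.single (Sum.inl (Sum.inl i)) 1), ?_,
      (SingularDim.exists_subspace _ _ _ (Sum.inl_injective.comp Sum.inl_injective)).trans (Fintype.card_fin (m - 1))⟩,
    fun U hU => SingularDim.finrank_le_minus hab U hU⟩
  · intro u hu
    have h0 : ∀ i, u (Sum.inr i) = 0 := by
      induction hu using Submodule.span_induction with
      | mem p hp => obtain ⟨i, rfl⟩ := hp; simp
      | zero => simp
      | add a b _ _ ha hb => simp [ha, hb]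
      | smul c a _ ha => simp [ha]
    simp [Cfsg.quadFormPlus, h0]
  · intro u hu
    have h0 : (∀ i, u (Sum.inl (Sum.inr i)) = 0) ∧ ∀ k, u (Sum.inr k) = 0 := by
      induction hu using Submodule.span_induction with
      | mem p hp => obtain ⟨i, rfl⟩ := hp; simp
      | zero => simp
      | add a b _ _ ha hb => simp [ha.1, ha.2, hb.1, hb.2]
      | smul c a _ ha => simp [ha.1, ha.2]
    simp [Cfsg.quadFormMinus, h0.1, h0.2]

end Cfsg.Agent.S2562
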