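import Cfsg.Statements.S2563
-- import your own Cfsg.Agent.* helpers here

set_option autoImplicit false
open Cfsg

namespace Cfsg.Agent.S2563

open Matrix

theorem zsq : ∀ a : ZMod 2, a * a = a := by decide
theorem zdbl : ∀ a : ZMod 2, a + a = 0 := by decide
theorem zcases : ∀ a : ZMod 2, a = 0 ∨ a = 1 := by decide

/-- The weight. -/
noncomputable def wt {P : Type*} [Fintype P] (x : P → ZMod 2) : ℕ := ∑ p, (x p).val

/-- Half the weight. -/
noncomputable def R {P : Type*} [Fintype P] (x : P → ZMod 2) : ZMod 2 := ((wt x).choose 2 : ℕ)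

theorem wt_cast {P : Type*} [Fintype P] (x : P → ZMod 2) : (wt x : ZMod 2) = ∑ p, x p := by
  rw [wt, Nat.cast_sum]
  exact Finset.sum_congr rfl fun p _ => ZMod.natCast_zmod_val (x p)

theorem choose_two_add (a : ℕ) : ∀ b : ℕ, ((a + b).choose 2 : ℕ) = a.choose 2 + b.choose 2 + a * b
  | 0 => by simp
  | b + 1 => by
    rw [← add_assoc, Nat.choose_succ_succ, Nat.choose_one_right, choose_two_add a b,
      Nat.choose_succ_succ, Nat.choose_one_right]
    ring

/-- Sum over ordered pairs. -/
def pairs {k : ℕ} (f : Fin k → ZMod 2) : ZMod 2 := ∑ T, ∑ S, if S < T then f T * f S else 0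

theorem pairs_succ {k : ℕ} (f : Fin (k + 1) → ZMod 2) :
    pairs f = pairs (fun T : Fin k => f T.castSucc) + f (Fin.last k) * ∑ S : Fin k, f S.castSucc := by
  simp only [pairs, Fin.sum_univ_castSucc, Fin.castSucc_lt_last, if_true, lt_irrefl, if_false, add_zero,
    Fin.castSucc_lt_castSucc_iff, Finset.mul_sum]
  congr 1
  refine Finset.sum_congr rfl fun T _ => ?_
  rw [if_neg (not_lt.2 (Fin.le_last _)), add_zero]

theorem choose_two_sum : ∀ (k : ℕ) (w : Fin k → ℕ),
    (((∑ T, w T).choose 2 : ℕ) : ZMod 2) = (∑ T, (((w T).choose 2 : ℕ) : ZMod 2)) + pairs fun T => (w T : ZMod 2)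
  | 0, w => by simp [pairs]
  | k + 1, w => by
    rw [Fin.sum_univ_castSucc w, choose_two_add]
    push_cast
    rw [choose_two_sum k (fun T => w T.castSucc), pairs_succ,
      Fin.sum_univ_castSucc (f := fun T => (((w T).choose 2 : ℕ) : ZMod 2))]
    ring

theorem block_form : ∀ d a b e : ZMod 2,
    ((((d + a).val + (d + a + b).val + (d + b).val + (d + e).val).choose 2 : ℕ) : ZMod 2) =
      a + b + a * b + d * e := by decide

theorem block_par : ∀ d a b e : ZMod 2,
    (((d + a).val + (d + a + b).val + (d + b).val + (d + e).val : ℕ) : ZMod 2) = e := by decide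

section Model

variable {k : ℕ}

/-- The tail flag of a block. -/
def ev (y : Fin k → ZMod 2) : Fin (k + 1) → ZMod 2 := Fin.snoc y (∑ t, y t)

/-- The all-one flag of a block. -/
def dv (x y : Fin k → ZMod 2) : Fin (k + 1) → ZMod 2 :=
  Fin.snoc (fun T => x T + ∑ t, if T ≤ t then y t else 0) 0

/-- Coordinates in the even subsets of `k + 1` blocks of four points. -/
def emb (x y : Fin k → ZMod 2) (a b : Fin (k + 1) → ZMod 2) : Fin (k + 1) × Fin 4 → ZMod 2 := fun p =>
  dv x y p.1 + ![a p.1, a p.1 + b p.1, b p.1, ev y p.1] p.2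

theorem sum_ev (y : Fin k → ZMod 2) : ∑ T, ev y T = 0 := by
  simp [ev, Fin.sum_univ_castSucc, zdbl]

theorem emb_even (x y : Fin k → ZMod 2) (a b : Fin (k + 1) → ZMod 2) : ∑ p, emb x y a b p = 0 := by
  rw [Fintype.sum_prod_type]
  refine Eq.trans (Finset.sum_congr rfl fun T _ => ?_) (sum_ev y)
  simp only [emb, Fin.sum_univ_four]
  show dv x y T + a T + (dv x y T + (a T + b T)) + (dv x y T + b T) + (dv x y T + ev y T) = ev y T
  linear_combination 2 * zdbl (dv x y T) + zdbl (a T) + zdbl (b T)

theorem emb_form (x y : Fin k → ZMod 2) (a b : Fin (k + 1) → ZMod 2) :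
    R (emb x y a b) = (∑ t, x t * y t) + ∑ T, (a T + b T + a T * b T) := by
  have hw : wt (emb x y a b) = ∑ T, ((dv x y T + a T).val + (dv x y T + a T + b T).val +
      (dv x y T + b T).val + (dv x y T + ev y T).val) := by
    rw [wt, Fintype.sum_prod_type]
    refine Finset.sum_congr rfl fun T _ => ?_
    simp only [emb, Fin.sum_univ_four]
    show _ = _
    simp [add_assoc]
  rw [R, hw, choose_two_sum]
  simp only [block_form, block_par]
  rw [Finset.sum_add_distrib, pairs_succ, Fin.sum_univ_castSucc (f := fun T => dv x y T * ev y T)]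
  simp only [dv, ev, Fin.snoc_castSucc, Fin.snoc_last, zero_mul, add_zero]
  have h1 : ∑ T : Fin k, (x T + ∑ t, if T ≤ t then y t else 0) * y T =
      (∑ t, x t * y t) + (∑ t, y t + pairs y) := by
    simp only [add_mul, Finset.sum_add_distrib, Finset.sum_mul, pairs]
    congr 1
    rw [Finset.sum_comm, ← Finset.sum_add_distrib]
    refine Finset.sum_congr rfl fun t _ => ?_
    have e : ∀ T, (if T ≤ t then y t else 0) * y T = (if T < t then y t * y T else 0) + (if T = t then y t else 0) := by
      intro T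
      rcases lt_trichotomy T t with h | h | h
      · simp [h.le, h, h.ne]
      · subst h; simp [zsq]
      · simp [not_le.2 h, not_lt.2 h.le, h.ne']
    simp only [e, Finset.sum_add_distrib, Finset.sum_ite_eq', Finset.mem_univ, if_true]
    ring
  rw [h1, zsq]
  linear_combination zdbl (∑ t, y t) + zdbl (pairs y)

end Model

section Action

variable {κ : Type} [Fintype κ] [DecidableEq κ] {P : Type} [Fintype P] [DecidableEq P]

theorem wt_add_one (x : P → ZMod 2) : wt (x + fun _ => 1) + wt x = Fintype.card P := by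
  rw [wt, wt, ← Finset.sum_add_distrib, Fintype.card, Finset.card_eq_sum_ones]
  refine Finset.sum_congr rfl fun p _ => ?_
  simp only [Pi.add_apply]
  rcases zcases (x p) with h | h <;> rw [h] <;> rfl

theorem R_shift (h4 : Fintype.card P % 4 = 0) (x : P → ZMod 2) (hx : ∑ p, x p = 0) (c : ZMod 2) :
    R (x + fun _ => c) = R x := by
  rcases zcases c with rfl | rfl
  · exact congrArg R (funext fun p => add_zero (x p))
  · have he : (wt x : ZMod 2) = 0 := (wt_cast x).trans hx
    have hs := wt_add_one x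
    have hc := choose_two_add (wt (x + fun _ => 1)) (wt x)
    obtain ⟨N, hN⟩ : 4 ∣ Fintype.card P := Nat.dvd_of_mod_eq_zero h4
    have hNN : ((Fintype.card P).choose 2 : ℕ) = 2 * (N * (4 * N - 1)) := by
      rw [Nat.choose_two_right, hN]
      rw [show 4 * N * (4 * N - 1) = 2 * (2 * (N * (4 * N - 1))) by ring, Nat.mul_div_cancel_left _ (by norm_num)]
    rw [hs, hNN] at hc
    have h2 : (((wt (x + fun _ => 1)).choose 2 + (wt x).choose 2 : ℕ) : ZMod 2) = 0 := by
      have : ((2 * (N * (4 * N - 1)) : ℕ) : ZMod 2) = 0 := by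
        rw [Nat.cast_mul, show ((2 : ℕ) : ZMod 2) = 0 from rfl, zero_mul]
      rw [hc, Nat.cast_add, Nat.cast_mul, he, mul_zero, add_zero] at this
      exact this
    rw [Nat.cast_add] at h2
    show R _ = R x
    rw [R, R]
    linear_combination h2 - zdbl (((wt x).choose 2 : ℕ) : ZMod 2)

theorem main (h4 : Fintype.card P % 4 = 0) (h5 : 5 ≤ Fintype.card P)
    (hcard : Fintype.card P = Fintype.card κ + 2) (Q : (κ → ZMod 2) → ZMod 2)
    (hrad : ∀ v, (∀ u, Q (v + u) = Q u) → v = 0)
    (Φ : (κ → ZMod 2) →ₗ[ZMod 2] (P → ZMod 2)) (heven : ∀ v, ∑ p, Φ v p = 0) (hQ : ∀ v, R (Φ v) = Q v) :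
    ∃ φ : Equiv.Perm P →* ↥(Cfsg.isometryGroup (ZMod 2) Q), Function.Injective φ := by
  classical
  have hcoe : (Fintype.card P : ZMod 2) = 0 := by
    rw [CharP.cast_eq_zero_iff (ZMod 2) 2]; omega
  have hinj : ∀ v (c : ZMod 2), Φ v = (fun _ => c) → v = 0 ∧ c = 0 := by
    intro v c hv
    have h0 : v = 0 := hrad v fun u => by
      rw [← hQ, ← hQ, map_add, hv, add_comm, R_shift h4 _ (heven u)]
    refine ⟨h0, ?_⟩
    obtain ⟨p⟩ : Nonempty P := Fintype.card_pos_iff.1 (by omega)
    have := congrFun hv p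
    rw [h0, map_zero] at this
    exact this.symm
  obtain ⟨p0⟩ : Nonempty P := Fintype.card_pos_iff.1 (by omega)
  let Ψ : (κ → ZMod 2) × ZMod 2 × ZMod 2 → (P → ZMod 2) := fun z => Φ z.1 + (fun _ => z.2.1) + Pi.single p0 z.2.2
  have hsum : ∀ z, ∑ p, Ψ z p = z.2.2 := fun z => by
    simp only [Ψ, Pi.add_apply, Finset.sum_add_distrib, heven, Finset.sum_const, Finset.card_univ,
      nsmul_eq_mul, hcoe, zero_mul, zero_add, Finset.sum_pi_single', Finset.mem_univ, if_true]
  have hΨ : Function.Bijective Ψ := by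
    refine (Fintype.bijective_iff_injective_and_card _).2 ⟨?_, ?_⟩
    · rintro ⟨v, c, d⟩ ⟨v', c', d'⟩ h
      have hd : d = d' := by
        have h1 := hsum (v, c, d)
        rw [h, hsum] at h1
        exact h1.symm
      subst hd
      simp only [Ψ, add_left_inj] at h
      obtain ⟨h1, h2⟩ := hinj (v - v') (c' - c) (funext fun p => by
        have := congrFun h p
        simp only [Pi.add_apply] at this
        rw [map_sub, Pi.sub_apply]
        linear_combination this)
      rw [sub_eq_zero.1 h1, sub_eq_zero.1 h2]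
    · simp only [Fintype.card_prod, Fintype.card_fun, ZMod.card, hcard, pow_succ]
      ring
  have hex : ∀ x : P → ZMod 2, ∑ p, x p = 0 → ∃ v c, Φ v = x + fun _ => c := by
    intro x hx
    obtain ⟨⟨v, c, d⟩, rfl⟩ := hΨ.2 x
    rw [hsum] at hx
    simp only at hx
    subst hx
    refine ⟨v, c, funext fun p => ?_⟩
    simp only [Ψ, Pi.add_apply, Pi.single_zero, Pi.zero_apply]
    linear_combination -(zdbl c)
  have huniq : ∀ v v' c c' (x : P → ZMod 2), Φ v = x + (fun _ => c) → Φ v' = x + (fun _ => c') → v = v' := by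
    intro v v' c c' x h h'
    exact sub_eq_zero.1 (hinj (v - v') (c - c') (funext fun p => by simp [h, h'])).1
  have hperm : ∀ (σ : Equiv.Perm P) v, ∑ p, Φ v (σ.symm p) = 0 := fun σ v => by
    rw [Equiv.sum_comp σ.symm (Φ v), heven]
  choose act cst hact using fun (σ : Equiv.Perm P) (v : κ → ZMod 2) => hex (fun p => Φ v (σ.symm p)) (hperm σ v)
  let L : Equiv.Perm P → Module.End (ZMod 2) (κ → ZMod 2) := fun σ =>
    { toFun := act σ
      map_add' := fun v w => huniq _ _ (cst σ (v + w)) (cst σ v + cst σ w) _ (hact σ (v + w)) (by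
        funext p; simp only [map_add, hact, Pi.add_apply]; ring)
      map_smul' := fun r v => huniq _ _ (cst σ (r • v)) (r * cst σ v) _ (hact σ (r • v)) (by
        funext p; simp only [map_smul, hact, Pi.add_apply, Pi.smul_apply, smul_eq_mul, RingHom.id_apply]; ring) }
  have L1 : L 1 = 1 := LinearMap.ext fun v => huniq _ _ (cst 1 v) 0 _ (hact 1 v) (by funext p; show Φ v p = Φ v p + 0; rw [add_zero])
  have Lmul : ∀ σ τ, L (σ * τ) = L σ * L τ := fun σ τ => LinearMap.ext fun v =>
    huniq _ _ (cst (σ * τ) v) (cst σ (act τ v) + cst τ v) _ (hact (σ * τ) v) (by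
      funext p
      show Φ (act σ (act τ v)) p = _
      simp only [hact, Pi.add_apply]
      rw [show (σ * τ).symm p = τ.symm (σ.symm p) from rfl]
      ring)
  let M : Equiv.Perm P →* Matrix κ κ (ZMod 2) :=
    { toFun := fun σ => LinearMap.toMatrix' (L σ)
      map_one' := by rw [L1]; exact LinearMap.toMatrix'_id
      map_mul' := fun σ τ => by rw [Lmul]; exact LinearMap.toMatrix'_comp _ _ }
  have hM : ∀ σ v, M σ *ᵥ v = act σ v := fun σ v => LinearMap.toMatrix'_mulVec (L σ) v
  let g : Equiv.Perm P →* Matrix.GeneralLinearGroup κ (ZMod 2) := M.toHomUnits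
  have hmem : ∀ σ, g σ ∈ Cfsg.isometryGroup (ZMod 2) Q := by
    intro σ u _
    show Q (M σ *ᵥ u) = Q u
    rw [hM, ← hQ, ← hQ, hact, R_shift h4 _ (hperm σ u)]
    show R _ = R _
    rw [R, R, wt, wt, Equiv.sum_comp σ.symm fun p => (Φ u p).val]
  refine ⟨g.codRestrict _ hmem, (injective_iff_map_eq_one _).2 fun σ hσ => ?_⟩
  have hfix : ∀ v, act σ v = v := fun v => by
    rw [← hM, show M σ = 1 from congrArg Units.val (congrArg Subtype.val hσ), Matrix.one_mulVec]
  by_contra hne
  obtain ⟨a, ha⟩ : ∃ a, σ a ≠ a := by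
    by_contra h
    push Not at h
    exact hne (Equiv.ext h)
  obtain ⟨b, hb⟩ : ∃ b, b ∉ ({a, σ a, σ.symm a} : Finset P) := by
    by_contra h
    push Not at h
    have := Finset.card_le_card (fun x _ => h x : (Finset.univ : Finset P) ⊆ {a, σ a, σ.symm a})
    rw [Finset.card_univ] at this
    have := this.trans Finset.card_le_three
    omega
  simp only [Finset.mem_insert, Finset.mem_singleton, not_or] at hb
  let x : P → ZMod 2 := Pi.single a 1 + Pi.single b 1
  have hx : ∑ p, x p = 0 := by
    simp only [x, Pi.add_apply, Finset.sum_add_distrib, Finset.sum_pi_single', Finset.mem_univ, if_true]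
    rfl
  obtain ⟨v, c, hv⟩ := hex x hx
  have h := hact σ v
  rw [hfix] at h
  have key : ∀ p, x p = x (σ.symm p) + cst σ v := fun p => by
    have h1 := congrFun h p
    simp only [hv, Pi.add_apply] at h1
    linear_combination h1
  have hc : cst σ v = 0 := by
    obtain ⟨e, he⟩ : ∃ e, e ∉ ({a, b, σ a, σ b} : Finset P) := by
      by_contra h
      push Not at h
      have := Finset.card_le_card (fun x _ => h x : (Finset.univ : Finset P) ⊆ {a, b, σ a, σ b})
      rw [Finset.card_univ] at this
      have := this.trans Finset.card_le_four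
      omega
    simp only [Finset.mem_insert, Finset.mem_singleton, not_or] at he
    have := key e
    simp only [x, Pi.add_apply, Pi.single_apply, he.1, he.2.1, if_false,
      show σ.symm e ≠ a from fun h => he.2.2.1 (by rw [← h]; simp),
      show σ.symm e ≠ b from fun h => he.2.2.2 (by rw [← h]; simp)] at this
    simpa using this.symm
  have := key (σ a)
  rw [hc, add_zero, Equiv.symm_apply_apply] at this
  simp only [x, Pi.add_apply, Pi.single_apply, ha, if_false, if_true, Ne.symm hb.1,
    show σ a ≠ b from fun h => hb.2.1 h.symm] at this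
  exact absurd this (by decide)

end Action

theorem elliptic_pair : ∀ c1 d1 c2 d2 : ZMod 2,
    ((c1 + c2 + d2) + (d1 + c2 + d2) + (c1 + c2 + d2) * (d1 + c2 + d2)) +
      ((c1 + d1 + d2) + (c2 + d2) + (c1 + d1 + d2) * (c2 + d2)) = c1 * d1 + c2 * d2 := by decide

/-- For k ≥ 1 the symmetric group of degree 4k + 4 embeds in a full orthogonal group in dimension 4k + 2 over the field of two elements: in the isometry group of the plus-type form Σ xᵢyᵢ when k is odd, and in that of the minus-type form Σ xᵢyᵢ + (z₁² + z₁z₂ + z₂²) when k is even (through its action on even partitions of a (4k+4)-set, with the form 'half the size of a part, modulo 2'). -/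
theorem result (k : ℕ) (hk : 1 ≤ k) :
    (Odd k → ∃ φ : Equiv.Perm (Fin (4 * k + 4)) →* ↥(Cfsg.isometryGroup (ZMod 2) (Cfsg.quadFormPlus (2 * k + 1) (ZMod 2))), Function.Injective φ) ∧
    (Even k → ∃ φ : Equiv.Perm (Fin (4 * k + 4)) →* ↥(Cfsg.isometryGroup (ZMod 2) (Cfsg.quadFormMinus (2 * k) (ZMod 2) 1 1)), Function.Injective φ) := by
  classical
  have transfer : ∀ {κ : Type} [Fintype κ] [DecidableEq κ] (Q : (κ → ZMod 2) → ZMod 2)
      (Φ : (κ → ZMod 2) →ₗ[ZMod 2] (Fin (k + 1) × Fin 4 → ZMod 2)),
      Fintype.card κ = 4 * k + 2 → (∀ v, (∀ u, Q (v + u) = Q u) → v = 0) → (∀ v, ∑ p, Φ v p = 0) →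
      (∀ v, R (Φ v) = Q v) →
      ∃ φ : Equiv.Perm (Fin (4 * k + 4)) →* ↥(Cfsg.isometryGroup (ZMod 2) Q), Function.Injective φ := by
    intro κ _ _ Q Φ hκ hrad he hQ
    have hP : Fintype.card (Fin (k + 1) × Fin 4) = 4 * k + 4 := by simp; ring
    obtain ⟨φ, hφ⟩ := main (κ := κ) (by rw [hP]; omega) (by rw [hP]; omega) (by rw [hP, hκ]) Q hrad Φ he hQ
    let e : Fin (4 * k + 4) ≃ Fin (k + 1) × Fin 4 := (Fintype.equivFinOfCardEq hP).symm
    exact ⟨φ.comp e.permCongrHom.toMonoidHom, hφ.comp e.permCongrHom.injective⟩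
  refine ⟨fun hodd => ?_, fun heven => ?_⟩
  · obtain ⟨u, rfl⟩ := hodd
    let ι := Fin (2 * u + 1) ⊕ (Fin (u + 1) ⊕ Fin (u + 1))
    let σ : ι ≃ Fin (2 * (2 * u + 1) + 1) := Fintype.equivOfCardEq (by simp [ι]; omega)
    let τ : Fin (2 * u + 1 + 1) ≃ Fin (u + 1) ⊕ Fin (u + 1) := Fintype.equivOfCardEq (by simp; omega)
    let X : (Fin (2 * (2 * u + 1) + 1) ⊕ Fin (2 * (2 * u + 1) + 1) → ZMod 2) → ι → ZMod 2 := fun v i => v (.inl (σ i))
    let Y : (Fin (2 * (2 * u + 1) + 1) ⊕ Fin (2 * (2 * u + 1) + 1) → ZMod 2) → ι → ZMod 2 := fun v i => v (.inr (σ i))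
    let A := fun v (T : Fin (2 * u + 1 + 1)) => Sum.elim
      (fun s => X v (.inr (.inl s)) + X v (.inr (.inr s)) + Y v (.inr (.inr s)))
      (fun s => X v (.inr (.inl s)) + Y v (.inr (.inl s)) + Y v (.inr (.inr s))) (τ T)
    let Bf := fun v (T : Fin (2 * u + 1 + 1)) => Sum.elim
      (fun s => Y v (.inr (.inl s)) + X v (.inr (.inr s)) + Y v (.inr (.inr s)))
      (fun s => X v (.inr (.inr s)) + Y v (.inr (.inr s))) (τ T)
    let f := fun v => emb (fun t => X v (.inl t)) (fun t => Y v (.inl t)) (A v) (Bf v)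
    have hlin : ∀ (r : ZMod 2) v w, f (r • v + w) = r • f v + f w := by
      intro r v w
      funext ⟨T, j⟩
      rcases zcases r with rfl | rfl
      · simp
      · simp only [one_smul]
        show emb _ _ _ _ (T, j) = emb _ _ _ _ (T, j) + emb _ _ _ _ (T, j)
        have hA : A (v + w) T = A v T + A w T := by
          simp only [A]; rcases τ T with s | s <;> simp only [Sum.elim_inl, Sum.elim_inr, X, Y, Pi.add_apply] <;> ring
        have hB : Bf (v + w) T = Bf v T + Bf w T := by
          simp only [Bf]; rcases τ T with s | s <;> simp only [Sum.elim_inl, Sum.elim_inr, X, Y, Pi.add_apply] <;> ring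
        simp only [emb, hA, hB]
        induction T using Fin.lastCases with
        | last =>
          simp only [dv, ev, Fin.snoc_last, X, Y, Pi.add_apply, Finset.sum_add_distrib]
          fin_cases j <;> simp <;> ring
        | cast T =>
          have e : ∀ (t : Fin (2 * u + 1)) (p q : ZMod 2), (if T ≤ t then p + q else 0) =
              (if T ≤ t then p else 0) + if T ≤ t then q else 0 := fun t p q => by split_ifs <;> simp
          simp only [dv, ev, Fin.snoc_castSucc, X, Y, Pi.add_apply, e, Finset.sum_add_distrib]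
          fin_cases j <;> simp <;> ring
    have f0 : f 0 = 0 := by
      have h := hlin 1 0 0
      simpa using h
    let Φ : (Fin (2 * (2 * u + 1) + 1) ⊕ Fin (2 * (2 * u + 1) + 1) → ZMod 2) →ₗ[ZMod 2]
        (Fin (2 * u + 1 + 1) × Fin 4 → ZMod 2) :=
      { toFun := f
        map_add' := fun v w => by simpa using hlin 1 v w
        map_smul' := fun r v => by simpa [f0] using hlin r v 0 }
    refine transfer _ Φ (by simp; omega) ?_ (fun v => emb_even _ _ _ _) (fun v => ?_)
    · intro v hv
      have h0 := hv 0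
      funext z
      rcases z with i | i
      · have h := hv (Pi.single (.inr i) 1)
        simp only [Cfsg.quadFormPlus, Pi.add_apply, Pi.single_apply, Sum.inr.injEq, Pi.zero_apply, reduceCtorEq,
          if_false, add_zero, mul_add, add_mul, mul_ite, mul_one, mul_zero, zero_mul, Finset.sum_add_distrib,
          Finset.sum_ite_eq', Finset.mem_univ, if_true, Finset.sum_const_zero, zero_add] at h h0
        simpa [h0] using h
      · have h := hv (Pi.single (.inl i) 1)
        simp only [Cfsg.quadFormPlus, Pi.add_apply, Pi.single_apply, Sum.inl.injEq, Pi.zero_apply, reduceCtorEq,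
          if_false, add_zero, mul_add, add_mul, ite_mul, one_mul, mul_zero, zero_mul, Finset.sum_add_distrib,
          Finset.sum_ite_eq', Finset.mem_univ, if_true, Finset.sum_const_zero, zero_add] at h h0
        simpa [h0] using h
    · show R (emb _ _ _ _) = _
      rw [emb_form, Cfsg.quadFormPlus, ← Equiv.sum_comp σ (fun i => v (.inl i) * v (.inr i)), Fintype.sum_sum_type]
      congr 1
      rw [← Equiv.sum_comp τ.symm (fun T => A v T + Bf v T + A v T * Bf v T), Fintype.sum_sum_type,
        Fintype.sum_sum_type, ← Finset.sum_add_distrib, ← Finset.sum_add_distrib]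
      refine Finset.sum_congr rfl fun s _ => ?_
      simp only [A, Bf, Equiv.apply_symm_apply, Sum.elim_inl, Sum.elim_inr]
      exact elliptic_pair _ _ _ _
  · obtain ⟨u, rfl⟩ := heven
    let ι := Fin (u + u) ⊕ (Fin u ⊕ Fin u)
    let σ : ι ≃ Fin (2 * (u + u)) := Fintype.equivOfCardEq (by simp [ι]; omega)
    let τ : Fin (u + u + 1) ≃ (Fin u ⊕ Fin u) ⊕ Unit := Fintype.equivOfCardEq (by simp)
    let X : ((Fin (2 * (u + u)) ⊕ Fin (2 * (u + u))) ⊕ Fin 2 → ZMod 2) → ι → ZMod 2 := fun v i => v (.inl (.inl (σ i)))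
    let Y : ((Fin (2 * (u + u)) ⊕ Fin (2 * (u + u))) ⊕ Fin 2 → ZMod 2) → ι → ZMod 2 := fun v i => v (.inl (.inr (σ i)))
    let A := fun v (T : Fin (u + u + 1)) => Sum.elim (Sum.elim
      (fun s => X v (.inr (.inl s)) + X v (.inr (.inr s)) + Y v (.inr (.inr s)))
      (fun s => X v (.inr (.inl s)) + Y v (.inr (.inl s)) + Y v (.inr (.inr s)))) (fun _ => v (.inr 0)) (τ T)
    let Bf := fun v (T : Fin (u + u + 1)) => Sum.elim (Sum.elim
      (fun s => Y v (.inr (.inl s)) + X v (.inr (.inr s)) + Y v (.inr (.inr s)))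
      (fun s => X v (.inr (.inr s)) + Y v (.inr (.inr s)))) (fun _ => v (.inr 1)) (τ T)
    let f := fun v => emb (fun t => X v (.inl t)) (fun t => Y v (.inl t)) (A v) (Bf v)
    have hlin : ∀ (r : ZMod 2) v w, f (r • v + w) = r • f v + f w := by
      intro r v w
      funext ⟨T, j⟩
      rcases zcases r with rfl | rfl
      · simp
      · simp only [one_smul]
        show emb _ _ _ _ (T, j) = emb _ _ _ _ (T, j) + emb _ _ _ _ (T, j)
        have hA : A (v + w) T = A v T + A w T := by
          simp only [A]; rcases τ T with (s | s) | s <;> simp only [Sum.elim_inl, Sum.elim_inr, X, Y, Pi.add_apply] <;> ring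
        have hB : Bf (v + w) T = Bf v T + Bf w T := by
          simp only [Bf]; rcases τ T with (s | s) | s <;> simp only [Sum.elim_inl, Sum.elim_inr, X, Y, Pi.add_apply] <;> ring
        simp only [emb, hA, hB]
        induction T using Fin.lastCases with
        | last =>
          simp only [dv, ev, Fin.snoc_last, X, Y, Pi.add_apply, Finset.sum_add_distrib]
          fin_cases j <;> simp <;> ring
        | cast T =>
          have e : ∀ (t : Fin (u + u)) (p q : ZMod 2), (if T ≤ t then p + q else 0) =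
              (if T ≤ t then p else 0) + if T ≤ t then q else 0 := fun t p q => by split_ifs <;> simp
          simp only [dv, ev, Fin.snoc_castSucc, X, Y, Pi.add_apply, e, Finset.sum_add_distrib]
          fin_cases j <;> simp <;> ring
    have f0 : f 0 = 0 := by
      have h := hlin 1 0 0
      simpa using h
    let Φ : ((Fin (2 * (u + u)) ⊕ Fin (2 * (u + u))) ⊕ Fin 2 → ZMod 2) →ₗ[ZMod 2]
        (Fin (u + u + 1) × Fin 4 → ZMod 2) :=
      { toFun := f
        map_add' := fun v w => by simpa using hlin 1 v w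
        map_smul' := fun r v => by simpa [f0] using hlin r v 0 }
    refine transfer _ Φ (by simp; omega) ?_ (fun v => emb_even _ _ _ _) (fun v => ?_)
    · intro v hv
      have h0 := hv 0
      have e2 : ∀ a b : ZMod 2, (a + 1) * (a + 1) + (a + 1) * b + b * b = 1 + (a * a + a * b + b * b) + b := by decide
      funext z
      rcases z with (i | i) | i
      · have h := hv (Pi.single (.inl (.inr i)) 1)
        simp only [Cfsg.quadFormMinus, Pi.add_apply, Pi.single_apply, Sum.inl.injEq, Sum.inr.injEq, Pi.zero_apply, reduceCtorEq,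
          if_false, add_zero, mul_add, add_mul, mul_ite, mul_one, one_mul, mul_zero, zero_mul, Finset.sum_add_distrib,
          Finset.sum_ite_eq', Finset.mem_univ, if_true, Finset.sum_const_zero, zero_add, ne_eq, OfNat.ofNat_ne_zero,
          not_false_eq_true, zero_pow] at h h0
        show v _ = 0
        linear_combination h - h0
      · have h := hv (Pi.single (.inl (.inl i)) 1)
        simp only [Cfsg.quadFormMinus, Pi.add_apply, Pi.single_apply, Sum.inl.injEq, Sum.inr.injEq, Pi.zero_apply, reduceCtorEq,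
          if_false, add_zero, mul_add, add_mul, ite_mul, mul_one, one_mul, mul_zero, zero_mul, Finset.sum_add_distrib,
          Finset.sum_ite_eq', Finset.mem_univ, if_true, Finset.sum_const_zero, zero_add, ne_eq, OfNat.ofNat_ne_zero,
          not_false_eq_true, zero_pow] at h h0
        show v _ = 0
        linear_combination h - h0
      · have key : ∀ (a b : ZMod 2) (p : ZMod 2),
            p + ((a + 1) ^ 2 + 1 * (a + 1) * b + 1 * b ^ 2) = 0 + ((0 + 1) ^ 2 + 1 * (0 + 1) * 0 + 1 * 0 ^ 2) →
            p + (a ^ 2 + 1 * a * b + 1 * b ^ 2) = 0 + (0 ^ 2 + 1 * 0 * 0 + 1 * 0 ^ 2) → b = 0 := by decide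
        have key' : ∀ (a b : ZMod 2) (p : ZMod 2),
            p + (a ^ 2 + 1 * a * (b + 1) + 1 * (b + 1) ^ 2) = 0 + (0 ^ 2 + 1 * 0 * (0 + 1) + 1 * (0 + 1) ^ 2) →
            p + (a ^ 2 + 1 * a * b + 1 * b ^ 2) = 0 + (0 ^ 2 + 1 * 0 * 0 + 1 * 0 ^ 2) → a = 0 := by decide
        have h2 := hv (Pi.single (.inr 0) 1)
        have h3 := hv (Pi.single (.inr 1) 1)
        simp only [Cfsg.quadFormMinus, Pi.add_apply, Pi.single_apply, Sum.inr.injEq, Pi.zero_apply, reduceCtorEq,
          if_false, if_true, add_zero, zero_mul, mul_zero, Finset.sum_const_zero, one_ne_zero, zero_ne_one] at h0 h2 h3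
        fin_cases i
        · show v (.inr 0) = 0
          refine key' _ (v (.inr 1)) (∑ t, v (.inl (.inl t)) * v (.inl (.inr t))) ?_ ?_
          · simpa using h3
          · simpa using h0
        · show v (.inr 1) = 0
          refine key (v (.inr 0)) _ (∑ t, v (.inl (.inl t)) * v (.inl (.inr t))) ?_ ?_
          · simpa using h2
          · simpa using h0
    · show R (emb _ _ _ _) = _
      have e3 : ∀ a b : ZMod 2, a + b + a * b = a ^ 2 + 1 * a * b + 1 * b ^ 2 := by decide
      rw [emb_form, Cfsg.quadFormMinus, ← Equiv.sum_comp σ (fun i => v (.inl (.inl i)) * v (.inl (.inr i))),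
        Fintype.sum_sum_type, add_assoc (∑ _, _) (∑ _, _) _]
      congr 1
      rw [← Equiv.sum_comp τ.symm (fun T => A v T + Bf v T + A v T * Bf v T), Fintype.sum_sum_type]
      congr 1
      · rw [Fintype.sum_sum_type, Fintype.sum_sum_type, ← Finset.sum_add_distrib, ← Finset.sum_add_distrib]
        refine Finset.sum_congr rfl fun s _ => ?_
        simp only [A, Bf, Equiv.apply_symm_apply, Sum.elim_inl, Sum.elim_inr]
        exact elliptic_pair _ _ _ _
      · simp only [A, Bf, Equiv.apply_symm_apply, Sum.elim_inr, Fintype.sum_unique]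
        exact e3 _ _

end Cfsg.Agent.S2563
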