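import Cfsg.Statements.S2564

-- import your own Cfsg.Agent.* helpers here

set_option autoImplicit false
open Cfsg

namespace Cfsg.Agent.S2564

/-- On the 2m-dimensional space over the field of two elements (m ≥ 1) let f be the alternating form obtained by polarizing the plus-type form Σ xᵢyᵢ, and let q be any quadratic form polarizing to f. For a vector w, the function q + f(·, w) again polarizes to f, and it is equivalent to q under an invertible linear map (that is, has the same type) if and only if q(w) = 0. -/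
theorem result (m : ℕ) (hm : 1 ≤ m) (q : (Fin m ⊕ Fin m → ZMod 2) → ZMod 2) (hq : (∀ u v : (Fin m ⊕ Fin m → ZMod 2), q (u + v) = q u + q v + (Cfsg.quadFormPlus m (ZMod 2) (u + v) - Cfsg.quadFormPlus m (ZMod 2) u - Cfsg.quadFormPlus m (ZMod 2) v))) (w : (Fin m ⊕ Fin m → ZMod 2)) :
    (∀ u v : (Fin m ⊕ Fin m → ZMod 2), (q (u + v) + (Cfsg.quadFormPlus m (ZMod 2) (u + v + w) - Cfsg.quadFormPlus m (ZMod 2) (u + v) - Cfsg.quadFormPlus m (ZMod 2) w)) =
        (q u + (Cfsg.quadFormPlus m (ZMod 2) (u + w) - Cfsg.quadFormPlus m (ZMod 2) u - Cfsg.quadFormPlus m (ZMod 2) w)) + (q v + (Cfsg.quadFormPlus m (ZMod 2) (v + w) - Cfsg.quadFormPlus m (ZMod 2) v - Cfsg.quadFormPlus m (ZMod 2) w)) +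
        (Cfsg.quadFormPlus m (ZMod 2) (u + v) - Cfsg.quadFormPlus m (ZMod 2) u - Cfsg.quadFormPlus m (ZMod 2) v)) ∧
    ((∃ g : (Fin m ⊕ Fin m → ZMod 2) ≃ₗ[ZMod 2] (Fin m ⊕ Fin m → ZMod 2), ∀ v, q v + (Cfsg.quadFormPlus m (ZMod 2) (v + w) - Cfsg.quadFormPlus m (ZMod 2) v - Cfsg.quadFormPlus m (ZMod 2) w) = q (g v)) ↔ q w = 0) := by
  classical
  set f : (Fin m ⊕ Fin m → ZMod 2) → (Fin m ⊕ Fin m → ZMod 2) → ZMod 2 := fun u v =>
    Cfsg.quadFormPlus m (ZMod 2) (u + v) - Cfsg.quadFormPlus m (ZMod 2) u - Cfsg.quadFormPlus m (ZMod 2) v with hfdef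
  have hf : ∀ u v, f u v = ∑ i : Fin m, (u (.inl i) * v (.inr i) + v (.inl i) * u (.inr i)) := by
    intro u v
    simp only [f, Cfsg.quadFormPlus, Pi.add_apply, ← Finset.sum_sub_distrib]
    exact Finset.sum_congr rfl fun i _ => by ring
  have hadd : ∀ u v w, f (u + v) w = f u w + f v w := by
    intro u v w
    simp only [hf, Pi.add_apply, ← Finset.sum_add_distrib]
    exact Finset.sum_congr rfl fun i _ => by ring
  have hsymm : ∀ u v, f u v = f v u := fun u v => by
    simp only [hf]; exact Finset.sum_congr rfl fun i _ => by ring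
  have h01 : ∀ c : ZMod 2, c = 0 ∨ c = 1 := by decide
  have hcc : ∀ c : ZMod 2, c + c = 0 := by decide
  have hself : ∀ u, f u u = 0 := fun u => by
    simp only [hf, hcc, Finset.sum_const_zero]
  have hsmul : ∀ (c : ZMod 2) (u v), f (c • u) v = c * f u v := by
    intro c u v
    simp only [hf, Pi.smul_apply, smul_eq_mul, Finset.mul_sum]
    exact Finset.sum_congr rfl fun i _ => by ring
  change (∀ u v, q (u + v) = q u + q v + f u v) at hq
  refine ⟨fun u v => ?_, ?_, fun hw => ?_⟩
  · show q (u + v) + f (u + v) w = (q u + f u w) + (q v + f v w) + f u v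
    rw [hq, hadd]; ring
  · rintro ⟨g, hg⟩
    by_contra hw
    have hw1 : q w = 1 := (h01 _).resolve_left hw
    let χ : ZMod 2 → ℤ := fun c => if c = 0 then 1 else -1
    have hχ1 : ∀ c, χ (c + 1) = -χ c := by decide
    have hχm : ∀ c d, χ c * χ d = χ (c + d) := by decide
    set S : ℤ := ∑ x : (Fin m ⊕ Fin m → ZMod 2), χ (q x) with hS
    have hS0 : S = -S := by
      calc S = ∑ x, χ (q (g x)) := (Equiv.sum_comp g.toEquiv (fun x => χ (q x))).symm
        _ = ∑ x, -χ (q (x + w)) := Finset.sum_congr rfl fun x _ => by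
            have e : q x + f x w = q (g x) := hg x
            rw [← e, ← hχ1, hq x w, hw1]
            congr 1
            linear_combination -(hcc 1)
        _ = -S := by
            rw [Finset.sum_neg_distrib]
            exact congrArg Neg.neg (Equiv.sum_comp (Equiv.addRight w) (fun x => χ (q x)))
    have hsum : ∀ z, z ≠ 0 → ∑ x, χ (f x z) = 0 := by
      intro z hz
      obtain ⟨y, hy⟩ : ∃ y, f y z = 1 := by
        obtain ⟨k, hk⟩ : ∃ k, z k ≠ 0 := by
          by_contra h
          push Not at h
          exact hz (funext h)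
        have hk1 : z k = 1 := (h01 _).resolve_left hk
        refine ⟨Pi.single k.swap 1, ?_⟩
        rw [hf]
        rcases k with i | i
        · simp [Pi.single_apply, hk1]
        · simp [Pi.single_apply, hk1]
      have h1 : ∑ x, χ (f x z) = -∑ x, χ (f x z) := by
        rw [← Finset.sum_neg_distrib]
        refine ((Equiv.sum_comp (Equiv.addRight y) (fun x => χ (f x z))).symm).trans
          (Finset.sum_congr rfl fun x _ => ?_)
        show χ (f (x + y) z) = -χ (f x z)
        rw [hadd, hy, hχ1]
      omega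
    have hq0 : q 0 = 0 := by
      have h := hq 0 0
      rw [add_zero, hself, hcc, zero_add] at h
      exact h
    have hS2 : S * S = (Fintype.card (Fin m ⊕ Fin m → ZMod 2) : ℤ) := by
      calc S * S = ∑ x, ∑ y, χ (q x + q y) := by simp only [hS, Finset.sum_mul_sum, hχm]
        _ = ∑ x, ∑ z, χ (q z + f x z) := Finset.sum_congr rfl fun x _ =>
            ((Equiv.sum_comp (Equiv.addLeft x) (fun y => χ (q x + q y))).symm).trans
              (Finset.sum_congr rfl fun z _ => by
                show χ (q x + q (x + z)) = _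
                rw [hq x z]
                congr 1
                linear_combination hcc (q x))
        _ = ∑ z, χ (q z) * ∑ x, χ (f x z) := by
            rw [Finset.sum_comm]
            simp only [Finset.mul_sum, hχm]
        _ = _ := by
            rw [Finset.sum_eq_single 0 (fun z _ hz => by rw [hsum z hz, mul_zero]) (by simp)]
            have : ∀ x, f x 0 = 0 := fun x => by simp [hf]
            simp [hq0, this, χ]
    have : 0 < Fintype.card (Fin m ⊕ Fin m → ZMod 2) := Fintype.card_pos
    have hz : S = 0 := by omega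
    rw [hz, mul_zero] at hS2
    omega
  · let g : (Fin m ⊕ Fin m → ZMod 2) →ₗ[ZMod 2] (Fin m ⊕ Fin m → ZMod 2) :=
      { toFun := fun x => x + f x w • w
        map_add' := fun x y => by rw [hadd, add_smul]; abel
        map_smul' := fun c x => by rw [RingHom.id_apply, hsmul, smul_add, mul_smul] }
    have hinv : Function.Involutive g := fun x => by
      show (x + f x w • w) + f (x + f x w • w) w • w = x
      rw [hadd, hsmul, hself, mul_zero, add_zero, add_assoc, ← add_smul, hcc, zero_smul, add_zero]
    refine ⟨LinearEquiv.ofInvolutive g hinv, fun x => ?_⟩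
    show q x + f x w = q (x + f x w • w)
    rw [hq x (f x w • w), hsymm x (f x w • w), hsmul, hsymm w x]
    rcases h01 (f x w) with h | h <;> rw [h]
    · have h0 := hq 0 0
      rw [add_zero, hself, hcc, zero_add] at h0
      simp [h0]
    · simp [hw]

end Cfsg.Agent.S2564
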