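import Cfsg.Statements.S2567
import Mathlib
-- import your own Cfsg.Agent.* helpers here

set_option autoImplicit false
open Cfsg

namespace Cfsg.Agent.S2567

/-- Lifting elements of prime order from PGL to GL: let F be a finite field with q elements, r a prime not dividing q − 1, and x an element of order r in GL_n(F) modulo its centre (the scalar matrices). Then x has exactly one preimage in GL_n(F) of order r. -/
theorem result {F : Type*} [Field F] [Fintype F] {q n r : ℕ} (hF : Fintype.card F = q) (hr : r.Prime) (hdiv : ¬ r ∣ q - 1) (x : GL (Fin n) F ⧸ Subgroup.center (GL (Fin n) F)) (hx : orderOf x = r) : ∃! g : GL (Fin n) F, (QuotientGroup.mk g : GL (Fin n) F ⧸ Subgroup.center (GL (Fin n) F)) = x ∧ orderOf g = r := by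
  classical
  haveI : Fact r.Prime := ⟨hr⟩
  have hc : ∀ z ∈ Subgroup.center (GL (Fin n) F), z ^ (q - 1) = 1 := by
    intro z hz
    rw [Matrix.GeneralLinearGroup.center_eq_range_scalar] at hz
    obtain ⟨u, rfl⟩ := hz
    rw [← map_pow, show u ^ (q - 1) = 1 by rw [← hF, ← Fintype.card_units]; exact pow_card_eq_one, map_one]
  have hcop : ∀ z ∈ Subgroup.center (GL (Fin n) F), r.Coprime (orderOf z) := fun z hz =>
    ((hr.coprime_iff_not_dvd).2 hdiv).coprime_dvd_right (orderOf_dvd_of_pow_eq_one (hc z hz))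
  obtain ⟨g0, rfl⟩ := QuotientGroup.mk_surjective x
  have hg0 : g0 ^ r ∈ Subgroup.center (GL (Fin n) F) := by
    rw [← QuotientGroup.eq_one_iff, QuotientGroup.mk_pow, ← hx, pow_orderOf_eq_one]
  obtain ⟨k, hk⟩ := exists_pow_eq_self_of_coprime (hcop _ hg0)
  set d := ((g0 ^ r) ^ k)⁻¹ with hd
  have hdm : d ∈ Subgroup.center (GL (Fin n) F) := inv_mem (pow_mem hg0 _)
  have hdr : d ^ r = (g0 ^ r)⁻¹ := by rw [hd, inv_pow, ← pow_mul, mul_comm k r, pow_mul, hk]
  have hcomm : Commute g0 d := Subgroup.mem_center_iff.1 hdm g0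
  have hne : ∀ g : GL (Fin n) F, (QuotientGroup.mk g : GL (Fin n) F ⧸ Subgroup.center (GL (Fin n) F)) = QuotientGroup.mk g0 → g ≠ 1 := by
    rintro g hg rfl
    rw [← hg, QuotientGroup.mk_one, orderOf_one] at hx
    exact hr.one_lt.ne hx
  have hmk : (QuotientGroup.mk (g0 * d) : GL (Fin n) F ⧸ Subgroup.center (GL (Fin n) F)) = QuotientGroup.mk g0 := by
    rw [QuotientGroup.mk_mul, (QuotientGroup.eq_one_iff d).2 hdm, mul_one]
  refine ⟨g0 * d, ⟨hmk, orderOf_eq_prime ?_ (hne _ hmk)⟩, ?_⟩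
  · rw [hcomm.mul_pow, hdr, mul_inv_cancel]
  · rintro g ⟨hg, hgr⟩
    have hz : (g0 * d)⁻¹ * g ∈ Subgroup.center (GL (Fin n) F) := QuotientGroup.eq.1 (hmk.trans hg.symm)
    set z := (g0 * d)⁻¹ * g with hzd
    have hgz : g = g0 * d * z := by rw [hzd]; group
    have h1 : z ^ r = 1 := by
      have e : g ^ r = 1 := hgr ▸ pow_orderOf_eq_one g
      rwa [hgz, Commute.mul_pow (Subgroup.mem_center_iff.1 hz _), hcomm.mul_pow, hdr, mul_inv_cancel, one_mul] at e
    have hz1 : z = 1 := orderOf_eq_one_iff.1 (Nat.eq_one_of_dvd_coprimes ((hcop z hz).symm) dvd_rfl (orderOf_dvd_of_pow_eq_one h1))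
    rw [hgz, hz1, mul_one]

end Cfsg.Agent.S2567
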