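import Cfsg.Statements.S2568
import Cfsg.Agent.Lib.LinAlg.SemisimpleCount

set_option autoImplicit false
set_option maxHeartbeats 800000
open Cfsg

namespace Cfsg.Agent.S2568

open Polynomial in
/-- the nontrivial irreducible factors of `X ^ r - 1` over a field with `q` elements have degree the order of `q`
modulo `r` -/
theorem factor_natDegree {F : Type*} [Field F] [Fintype F] {q r : ℕ} (hF : Fintype.card F = q) (hr : r.Prime)
    {g : F[X]} (hgm : g.Monic) (hgi : Irreducible g) (hgd : g ∣ X ^ r - 1) (hg1 : g ≠ X - 1) :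
    g.natDegree = orderOf (q : ZMod r) := by
  classical
  have : Fact (Irreducible g) := ⟨hgi⟩
  let pb := AdjoinRoot.powerBasis hgm.ne_zero
  have : Module.Finite F (AdjoinRoot g) := pb.finite
  have : Finite (AdjoinRoot g) := Module.finite_of_finite F
  have : Fintype (AdjoinRoot g) := Fintype.ofFinite _
  have hd : Module.finrank F (AdjoinRoot g) = g.natDegree := by rw [pb.finrank]; rfl
  have hcard : Fintype.card (AdjoinRoot g) = q ^ g.natDegree := by
    rw [Module.card_eq_pow_finrank (K := F), hF, hd]
  set α := AdjoinRoot.root g with hα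
  have hroot : α ^ r = 1 := by
    obtain ⟨h, hh⟩ := hgd
    have := congrArg (AdjoinRoot.mk g) hh
    rw [map_sub, map_pow, map_one, map_mul, AdjoinRoot.mk_X, AdjoinRoot.mk_self, zero_mul, sub_eq_zero] at this
    exact this
  have hroot1 : α ≠ 1 := fun e => by
    rw [hα, ← AdjoinRoot.mk_X, ← map_one (AdjoinRoot.mk g), AdjoinRoot.mk_eq_mk] at e
    exact hg1 ((eq_of_monic_of_associated hgm (monic_X_sub_C 1)
      (hgi.associated_of_dvd (irreducible_X_sub_C 1) (by simpa using e))).trans (by simp))
  have hor : orderOf α = r := haveI := Fact.mk hr; orderOf_eq_prime hroot hroot1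
  have hα0 : α ≠ 0 := fun e => by rw [e, zero_pow hr.ne_zero] at hroot; exact zero_ne_one hroot
  have hq1 : 1 < q := hF ▸ Fintype.one_lt_card
  set i := orderOf (q : ZMod r) with hi
  have hqr : ∀ d, (q : ZMod r) ^ d = 1 ↔ r ∣ q ^ d - 1 := fun d => by
    rw [← ZMod.natCast_eq_zero_iff, Nat.cast_sub (Nat.one_le_pow _ _ (by omega)), Nat.cast_pow, Nat.cast_one,
      sub_eq_zero]
  have hid : i ∣ g.natDegree := orderOf_dvd_of_pow_eq_one ((hqr _).mpr (by
    rw [← hcard, ← hor]
    exact orderOf_dvd_of_pow_eq_one (FiniteField.pow_card_sub_one_eq_one _ hα0)))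
  have hfix : α ^ q ^ i = α := by
    obtain ⟨c, hc⟩ := (hqr i).mp (pow_orderOf_eq_one _)
    have h1 : q ^ i = r * c + 1 := by have := Nat.one_le_pow i q (by omega); omega
    rw [h1, pow_succ, pow_mul, hroot, one_pow, one_mul]
  have hall : ∀ y : AdjoinRoot g, y ^ q ^ i = y := fun y => by
    have h1 : ∀ (j : ℕ) (z : AdjoinRoot g), ((FiniteField.frobeniusAlgHom F (AdjoinRoot g)) ^ j) z = z ^ q ^ j := by
      intro j
      induction j with
      | zero => intro z; simp
      | succ j ih =>
        intro z
        rw [pow_succ, AlgHom.mul_apply, ih, FiniteField.coe_frobeniusAlgHom, hF, ← pow_mul, ← pow_succ']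
    rw [← h1, show (FiniteField.frobeniusAlgHom F (AdjoinRoot g)) ^ i = AlgHom.id F (AdjoinRoot g) from
      AdjoinRoot.algHom_ext (by rw [h1]; exact hfix), AlgHom.id_apply]
  obtain ⟨u, hu⟩ := IsCyclic.exists_generator (α := (AdjoinRoot g)ˣ)
  have hou : orderOf u = q ^ g.natDegree - 1 := by
    rw [orderOf_eq_card_of_forall_mem_zpowers hu, Nat.card_eq_fintype_card, Fintype.card_units, hcard]
  have hi0 : 0 < i := by
    rcases Nat.eq_zero_or_pos i with e | e
    · exact absurd (Nat.eq_zero_of_zero_dvd (e ▸ hid)) hgi.natDegree_pos.ne'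
    · exact e
  have hdvd : q ^ g.natDegree - 1 ∣ q ^ i - 1 := by
    rw [← hou]
    refine orderOf_dvd_of_pow_eq_one (Units.ext ?_)
    have h2 := hall (u : AdjoinRoot g)
    rw [← Nat.sub_add_cancel (Nat.one_le_pow i q (by omega)), pow_succ] at h2
    rw [Units.val_pow_eq_pow_val, Units.val_one]
    exact mul_right_cancel₀ u.ne_zero (h2.trans (one_mul _).symm)
  refine le_antisymm ?_ (Nat.le_of_dvd hgi.natDegree_pos hid)
  by_contra hlt
  have h3 : q ^ i < q ^ g.natDegree := Nat.pow_lt_pow_right hq1 (by omega)
  have h4 : 1 < q ^ i := Nat.one_lt_pow hi0.ne' hq1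
  have := Nat.le_of_dvd (by omega) hdvd
  omega

/-- Number of conjugacy classes of elements of a given prime order r, coprime to the characteristic, in GL_n(q): if i is the multiplicative order of q modulo r and t = (r − 1)/i, the classes correspond to the non-zero t-tuples of natural numbers (a_1, …, a_t) with i(a_1 + ⋯ + a_t) ≤ n (a_j is the multiplicity of the j-th Frobenius orbit of nontrivial r-th roots of unity among the eigenvalues), so there are exactly C(⌊n/i⌋ + t, t) − 1 of them. -/
theorem result {F : Type*} [Field F] [Fintype F] {p q : ℕ} [Fact p.Prime] [CharP F p] (hF : Fintype.card F = q) (n r i t : ℕ) (hr : r.Prime) (hrp : r ≠ p) (hi : i = orderOf (q : ZMod r)) (ht : t * i = r - 1) : Nat.card {C : ConjClasses (GL (Fin n) F) // ∃ g : GL (Fin n) F, ConjClasses.mk g = C ∧ orderOf g = r} = Nat.choose (n / i + t) t - 1 := by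
  classical
  set f : Polynomial F := Polynomial.X ^ r - 1 with hf
  have hr0 : (r : F) ≠ 0 := by
    rw [Ne, CharP.cast_eq_zero_iff F p]
    exact fun hd => hrp ((Nat.prime_dvd_prime_iff_eq (Fact.out : p.Prime) hr).mp hd).symm
  have hf0 : f.Monic := by simpa [hf] using Polynomial.monic_X_pow_sub_C (1 : F) hr.ne_zero
  have hfsq : Squarefree f := (Polynomial.X_pow_sub_one_separable_iff.mpr hr0).squarefree
  have hrcop : r.Coprime p := (Nat.coprime_primes hr (Fact.out : p.Prime)).mpr hrp
  set one' : Polynomial F := Polynomial.X - 1 with hone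
  have hone_m : one'.Monic := by simpa [hone] using Polynomial.monic_X_sub_C (1 : F)
  have hone_i : Irreducible one' := by simpa [hone] using Polynomial.irreducible_X_sub_C (1 : F)
  have hone_d : one' ∣ f := by simpa [hone, hf] using sub_dvd_pow_sub_pow Polynomial.X (1 : Polynomial F) r
  let nf := UniqueFactorizationMonoid.normalizedFactors f
  obtain ⟨hprod, hnf⟩ := LinAlg.SSClass.prod_factors (F := F) hf0
  have hmem : ∀ g : Polynomial F, g.Monic → Irreducible g → g ∣ f → g ∈ nf := fun g hgm hgi hgd => by
    obtain ⟨g', hg', hass⟩ := UniqueFactorizationMonoid.exists_mem_normalizedFactors_of_dvd hf0.ne_zero hgi hgd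
    rwa [Polynomial.eq_of_monic_of_associated hgm (hnf g' hg').1 hass]
  have hnd : nf.Nodup :=
    (UniqueFactorizationMonoid.squarefree_iff_nodup_normalizedFactors hf0.ne_zero).mp hfsq
  let S := {g : Polynomial F // g ∈ nf.toFinset.erase one'}
  have hS : ∀ g : S, g.1.Monic ∧ Irreducible g.1 ∧ g.1 ∣ f ∧ g.1.natDegree = i ∧ g.1 ≠ one' := fun g => by
    obtain ⟨h1, h2⟩ := Finset.mem_erase.mp g.2
    obtain ⟨a, b, c⟩ := hnf g.1 (Multiset.mem_toFinset.mp h2)
    exact ⟨a, b, c, hi ▸ factor_natDegree hF hr a b c h1, h1⟩
  have hqr0 : (q : ZMod r) ≠ 0 := by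
    rw [Ne, ZMod.natCast_eq_zero_iff]
    obtain ⟨k, -, hk⟩ := FiniteField.card F p
    intro hd
    rw [← hF, hk] at hd
    exact hrp ((Nat.prime_dvd_prime_iff_eq hr (Fact.out : p.Prime)).mp (hr.dvd_of_dvd_pow hd))
  have hi0 : 0 < i := by
    have : Fact r.Prime := ⟨hr⟩
    rw [hi]
    exact orderOf_pos_iff.mpr (isOfFinOrder_iff_pow_eq_one.mpr ⟨r - 1, by have := hr.two_le; omega,
      ZMod.pow_card_sub_one_eq_one hqr0⟩)
  have hcS : Fintype.card S = t := by
    have h1 : f.natDegree = r := by simpa [hf] using Polynomial.natDegree_X_pow_sub_C (n := r) (r := (1 : F))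
    have h2 : f.natDegree = (nf.map Polynomial.natDegree).sum := by
      conv_lhs => rw [← hprod]
      exact (LinAlg.SSClass.natDegree_multiset_prod fun g hg => (hnf g hg).1).2
    have h3 : (nf.map Polynomial.natDegree).sum = ∑ g ∈ nf.toFinset, g.natDegree := by
      rw [Finset.sum_eq_multiset_sum, Multiset.toFinset_val, hnd.dedup]
    rw [h2, h3, ← Finset.add_sum_erase _ _ (Multiset.mem_toFinset.mpr (hmem _ hone_m hone_i hone_d)),
      show one'.natDegree = 1 from by simpa [hone] using Polynomial.natDegree_X_sub_C (1 : F),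
      Finset.sum_congr rfl (fun g hg => (hS ⟨g, hg⟩).2.2.2.1), Finset.sum_const, smul_eq_mul] at h1
    rw [Fintype.card_coe]
    exact Nat.eq_of_mul_eq_mul_right hi0 (by omega)
  set N := n / i with hN
  have hNn : i * N ≤ n := Nat.mul_div_le n i
  let val : Option S → Polynomial F := fun o => o.elim one' Subtype.val
  have hval : ∀ o, (val o).Monic ∧ Irreducible (val o) ∧ val o ∣ f := fun o => by
    cases o with
    | none => exact ⟨hone_m, hone_i, hone_d⟩
    | some g => exact ⟨(hS g).1, (hS g).2.1, (hS g).2.2.1⟩
  have hvinj : Function.Injective val := fun o o' h => by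
    cases o with
    | none =>
      cases o' with
      | none => rfl
      | some g => exact absurd h.symm (hS g).2.2.2.2
    | some g =>
      cases o' with
      | none => exact absurd h (hS g).2.2.2.2
      | some g' => exact congrArg some (Subtype.ext h)
  let deg : Option S → ℕ := fun o => o.elim 1 fun _ => i
  have hdeg : ∀ o, (val o).natDegree = deg o := fun o => by
    cases o with
    | none => simpa [val, deg, hone] using Polynomial.natDegree_X_sub_C (1 : F)
    | some g => exact (hS g).2.2.2.1
  -- multisets of factors of total degree `n`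
  let M := {m : Multiset (Option S) // (m.map deg).sum = n}
  have hsum : ∀ m : Multiset (Option S), (m.map deg).sum = m.count none + i * (m.card - m.count none) := by
    intro m
    induction m using Multiset.induction with
    | empty => simp
    | cons o m ih =>
      have := Multiset.count_le_card none m
      rw [Multiset.map_cons, Multiset.sum_cons, ih, Multiset.card_cons]
      cases o with
      | none =>
        rw [Multiset.count_cons_self, Nat.add_sub_add_right]
        show 1 + _ = _
        omega
      | some g =>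
        rw [Multiset.count_cons_of_ne (by simp), show m.card + 1 - m.count none = m.card - m.count none + 1 by omega,
          mul_add, mul_one]
        show i + _ = _
        omega
  have hpart : ∀ A : Multiset (Option S),
      A.filter (· ≠ none) + Multiset.replicate (A.count none) none = A ∧
        (A.filter (· ≠ none)).card + A.count none = A.card := fun A => by
    have h : A.filter (· ≠ none) + Multiset.replicate (A.count none) none = A := Multiset.ext.mpr fun a => by
      rcases eq_or_ne a none with rfl | ha
      · simp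
      · simp [ha, Multiset.count_replicate, Ne.symm ha]
    refine ⟨h, ?_⟩
    have h' := congrArg Multiset.card h
    rwa [Multiset.card_add, Multiset.card_replicate] at h'
  have hfilt : ∀ (A : Multiset (Option S)) (k : ℕ),
      (A.filter (· ≠ none) + Multiset.replicate k none).filter (· ≠ none) = A.filter (· ≠ none) := fun A k => by
    refine Multiset.ext.mpr fun a => ?_
    rcases eq_or_ne a none with rfl | ha
    · simp
    · simp [ha, Multiset.count_replicate, Ne.symm ha]
  have eM : M ≃ Sym (Option S) N := by
    refine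
      { toFun := fun m => ⟨m.1.filter (· ≠ none) +
          Multiset.replicate (N - (m.1.filter (· ≠ none)).card) none, ?_⟩
        invFun := fun s => ⟨s.1.filter (· ≠ none) +
          Multiset.replicate (n - i * (s.1.filter (· ≠ none)).card) none, ?_⟩
        left_inv := ?_
        right_inv := ?_ }
    · rw [Multiset.card_add, Multiset.card_replicate]
      have h1 := hsum m.1
      have h2 := (hpart m.1).2
      rw [m.2, show m.1.card - m.1.count none = (m.1.filter (· ≠ none)).card by omega] at h1
      have : (m.1.filter (· ≠ none)).card ≤ N := by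
        rw [hN, Nat.le_div_iff_mul_le hi0, mul_comm]
        omega
      omega
    · have h1 : (s.1.filter (· ≠ none)).card ≤ N := (Multiset.card_le_card (Multiset.filter_le _ _)).trans_eq s.2
      have h2 : i * (s.1.filter (· ≠ none)).card ≤ n := (Nat.mul_le_mul_left i h1).trans hNn
      rw [hsum, Multiset.count_add, Multiset.count_replicate_self, Multiset.card_add, Multiset.card_replicate,
        Multiset.count_eq_zero.mpr (by simp), zero_add, Nat.add_sub_cancel]
      omega
    · intro m
      refine Subtype.ext ?_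
      show (m.1.filter (· ≠ none) + Multiset.replicate _ none).filter (· ≠ none) + Multiset.replicate _ none = m.1
      rw [hfilt]
      have h1 := hsum m.1
      have h2 := (hpart m.1).2
      rw [m.2, show m.1.card - m.1.count none = (m.1.filter (· ≠ none)).card by omega] at h1
      rw [show n - i * (m.1.filter (· ≠ none)).card = m.1.count none by omega]
      exact (hpart m.1).1
    · intro s
      refine Subtype.ext ?_
      show (s.1.filter (· ≠ none) + Multiset.replicate _ none).filter (· ≠ none) + Multiset.replicate _ none = s.1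
      rw [hfilt]
      have h2 := (hpart s.1).2
      have h3 : s.1.card = N := s.2
      rw [show N - (s.1.filter (· ≠ none)).card = s.1.count none by omega]
      exact (hpart s.1).1
  -- classes of solutions of `x ^ r = 1`
  let P : ConjClasses (GL (Fin n) F) → Prop := fun C => ∃ g : GL (Fin n) F, ConjClasses.mk g = C ∧ g ^ r = 1
  have hpoly : ∀ m : M, ((m.1.map val).prod).Monic ∧ ((m.1.map val).prod).natDegree = n ∧
      ((m.1.map val).prod).coeff 0 ≠ 0 := fun m => by
    obtain ⟨h1, h2⟩ := LinAlg.SSClass.natDegree_multiset_prod (s := m.1.map val) (fun g hg => by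
      obtain ⟨o, -, rfl⟩ := Multiset.mem_map.mp hg; exact (hval o).1)
    refine ⟨h1, ?_, LinAlg.SSClass.coeff_zero_prod_ne fun g hg => ?_⟩
    · rw [h2, Multiset.map_map]
      exact (congrArg Multiset.sum (Multiset.map_congr rfl fun o _ => hdeg o)).trans m.2
    · obtain ⟨o, -, rfl⟩ := Multiset.mem_map.mp hg
      obtain ⟨c, hc⟩ := (hval o).2.2
      intro h0
      have := congrArg (fun z : Polynomial F => z.coeff 0) hc
      simp [hf, Polynomial.mul_coeff_zero, h0, Polynomial.coeff_X_pow, hr.ne_zero.symm] at this
  have hpow : ∀ x : GL (Fin n) F, x ^ r = 1 ↔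
      Polynomial.aeval (x : Matrix (Fin n) (Fin n) F) f = 0 := fun x => by
    rw [hf, map_sub, map_pow, Polynomial.aeval_X, map_one, sub_eq_zero, Units.ext_iff, Units.val_pow_eq_pow_val,
      Units.val_one]
  have hex : ∀ m : M, ∃ x : GL (Fin n) F, x ^ r = 1 ∧
      (x : Matrix (Fin n) (Fin n) F).charpoly = (m.1.map val).prod := fun m => by
    obtain ⟨x, hx, hxc⟩ := LinAlg.SSClass.exists_gl p (hpoly m).1 (hpoly m).2.1 (hpoly m).2.2
    refine ⟨x, (hpow x).mpr (LinAlg.SSClass.aeval_eq_zero_of_factors p hx fun g hgm hgi hgd => ?_), hxc⟩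
    rw [hxc] at hgd
    obtain ⟨g', hg', hass⟩ := hgi.prime.exists_mem_multiset_dvd hgd
    obtain ⟨o, -, rfl⟩ := Multiset.mem_map.mp hg'
    rw [Polynomial.eq_of_monic_of_associated hgm (hval o).1 (hgi.associated_of_dvd (hval o).2.1 hass)]
    exact (hval o).2.2
  choose x hx hxc using hex
  have hcop : ∀ y : GL (Fin n) F, y ^ r = 1 → (orderOf y).Coprime p := fun y hy =>
    Nat.Coprime.coprime_dvd_left (orderOf_dvd_of_pow_eq_one hy) hrcop
  let θ : M → {C // P C} := fun m => ⟨ConjClasses.mk (x m), x m, rfl, hx m⟩
  have hθ : Function.Bijective θ := by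
    refine ⟨fun m m' h => ?_, ?_⟩
    · obtain ⟨c, hc⟩ := isConj_iff.mp (ConjClasses.mk_eq_mk_iff_isConj.mp (congrArg Subtype.val h))
      have h1 : (m.1.map val).prod = (m'.1.map val).prod := by
        rw [← hxc, ← hxc, ← hc, Units.val_mul, Units.val_mul, Matrix.coe_units_inv, Matrix.charpoly_units_conj]
      have h2 := congrArg UniqueFactorizationMonoid.normalizedFactors h1
      rw [LinAlg.SSClass.factors_prod (fun g hg => by
          obtain ⟨o, -, rfl⟩ := Multiset.mem_map.mp hg; exact ⟨(hval o).1, (hval o).2.1⟩),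
        LinAlg.SSClass.factors_prod (fun g hg => by
          obtain ⟨o, -, rfl⟩ := Multiset.mem_map.mp hg; exact ⟨(hval o).1, (hval o).2.1⟩)] at h2
      exact Subtype.ext (Multiset.map_injective hvinj h2)
    · rintro ⟨C, y, rfl, hy⟩
      obtain ⟨hp1, hp2⟩ := LinAlg.SSClass.prod_factors (F := F)
        (Matrix.charpoly_monic (y : Matrix (Fin n) (Fin n) F))
      have hin : ∀ g ∈ UniqueFactorizationMonoid.normalizedFactors (y : Matrix (Fin n) (Fin n) F).charpoly,
          ∃ o, val o = g := fun g hg => by
        obtain ⟨hgm, hgi, hgd⟩ := hp2 g hg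
        have hgf : g ∣ f := LinAlg.SSClass.factor_dvd_killer
          (x := Matrix.toLinAlgEquiv' (y : Matrix (Fin n) (Fin n) F))
          (by rw [Polynomial.aeval_algHom_apply, (hpow y).mp hy, map_zero]) hgi
          (by rw [← Matrix.charpoly_toLin'] at hgd; exact hgd)
        rcases eq_or_ne g one' with rfl | hne
        · exact ⟨none, rfl⟩
        · exact ⟨some ⟨g, Finset.mem_erase.mpr ⟨hne, Multiset.mem_toFinset.mpr (hmem g hgm hgi hgf)⟩⟩, rfl⟩
      choose o ho using hin
      set m := (UniqueFactorizationMonoid.normalizedFactors (y : Matrix (Fin n) (Fin n) F).charpoly).attach.map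
        (fun g => o g.1 g.2) with hm
      have hmv : (m.map val).prod = (y : Matrix (Fin n) (Fin n) F).charpoly := by
        rw [hm, Multiset.map_map]
        conv_rhs => rw [← hp1, ← Multiset.attach_map_val (UniqueFactorizationMonoid.normalizedFactors _)]
        exact congrArg Multiset.prod (Multiset.map_congr rfl fun g _ => ho _ _)
      have hmM : (m.map deg).sum = n := by
        have h1 := congrArg Polynomial.natDegree hmv
        rw [(LinAlg.SSClass.natDegree_multiset_prod (s := m.map val) (fun g hg => by
            obtain ⟨a, -, rfl⟩ := Multiset.mem_map.mp hg; exact (hval a).1)).2,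
          Matrix.charpoly_natDegree_eq_dim, Fintype.card_fin, Multiset.map_map] at h1
        exact (congrArg Multiset.sum (Multiset.map_congr rfl fun a _ => (hdeg a).symm)).trans h1
      exact ⟨⟨m, hmM⟩, Subtype.ext (ConjClasses.mk_eq_mk_iff_isConj.mpr
        (LinAlg.SSClass.isConj_of_charpoly_eq p (hcop _ (hx _)) (hcop _ hy) ((hxc _).trans hmv)))⟩
  have hall : Nat.card {C // P C} = Nat.choose (N + t) t := by
    rw [← Nat.card_eq_of_bijective θ hθ, Nat.card_congr eM, Nat.card_eq_fintype_card, Sym.card_sym_eq_choose,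
      Fintype.card_option, hcS, Nat.add_right_comm t 1 N, Nat.add_sub_cancel, Nat.add_comm t N, Nat.choose_symm_add]
  have hP1 : P (ConjClasses.mk 1) := ⟨1, rfl, one_pow r⟩
  let e : {C : ConjClasses (GL (Fin n) F) // ∃ g : GL (Fin n) F, ConjClasses.mk g = C ∧ orderOf g = r} ≃
      {C : {C // P C} // ¬ C = ⟨ConjClasses.mk 1, hP1⟩} :=
    { toFun := fun C => ⟨⟨C.1, by obtain ⟨g, hg, hgo⟩ := C.2; exact ⟨g, hg, hgo ▸ pow_orderOf_eq_one g⟩⟩,
        fun h => by
          obtain ⟨g, hg, hgo⟩ := C.2
          have h1 : ConjClasses.mk g = ConjClasses.mk 1 := hg.trans (congrArg Subtype.val h)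
          rw [ConjClasses.mk_eq_mk_iff_isConj, isConj_one_left] at h1
          rw [h1, orderOf_one] at hgo
          exact hr.ne_one hgo.symm⟩
      invFun := fun C => ⟨C.1.1, by
        obtain ⟨g, hg, hgp⟩ := C.1.2
        refine ⟨g, hg, ?_⟩
        have : Fact r.Prime := ⟨hr⟩
        refine orderOf_eq_prime hgp fun h1 => C.2 (Subtype.ext ?_)
        show C.1.1 = ConjClasses.mk 1
        rw [← hg, h1]⟩
      left_inv := fun C => rfl
      right_inv := fun C => rfl }
  have : Fintype {C // P C} := Fintype.ofFinite _
  rw [Nat.card_congr e, Nat.card_eq_fintype_card, Fintype.card_subtype_compl, Fintype.card_subtype_eq,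
    ← Nat.card_eq_fintype_card, hall]

end Cfsg.Agent.S2568
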