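import Cfsg.Statements.S2570
import Cfsg.Agent.Lib.LinAlg.UnipotentClasses
-- import your own Cfsg.Agent.* helpers here

set_option autoImplicit false
open Cfsg

namespace Cfsg.Agent.S2570

/-- Number of conjugacy classes of elements of order p in GL_n over a finite field of characteristic p: they correspond to the Jordan types, that is, to the partitions of n with all parts at most p other than the partition into ones, so there are (number of partitions of n with parts ≤ p) − 1 of them. -/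
theorem result {F : Type*} [Field F] [Fintype F] {p : ℕ} [Fact p.Prime] [CharP F p] (n : ℕ) : Nat.card {C : ConjClasses (GL (Fin n) F) // ∃ g : GL (Fin n) F, ConjClasses.mk g = C ∧ orderOf g = p} = (Finset.univ.filter (fun μ : Nat.Partition n => ∀ a ∈ μ.parts, a ≤ p)).card - 1 := by
  classical
  rcases Nat.eq_zero_or_pos n with rfl | hn
  · haveI : Subsingleton (GL (Fin 0) F) := Units.val_injective.subsingleton
    have h1 : IsEmpty {C : ConjClasses (GL (Fin 0) F) // ∃ g : GL (Fin 0) F, ConjClasses.mk g = C ∧ orderOf g = p} :=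
      ⟨fun ⟨_, g, _, hg⟩ => (Fact.out : p.Prime).ne_one (by rw [← hg, Subsingleton.elim g 1, orderOf_one])⟩
    rw [Nat.card_of_isEmpty]
    symm
    rw [Nat.sub_eq_zero_iff_le]
    exact Finset.card_le_one_of_subsingleton _
  haveI : Nonempty (Fin n) := ⟨⟨0, hn⟩⟩
  have key : ∀ μ : Nat.Partition n, Cfsg.Lib.Jordan.unip F μ = 1 ↔ μ = Nat.Partition.ofSums n (Multiset.replicate n 1) (by simp) := by
    intro μ
    have h1 : Cfsg.Lib.Jordan.unip F μ = 1 ↔ ∀ a ∈ μ.parts, a ≤ 1 := by
      rw [← Cfsg.Lib.Jordan.nilMat_pow_eq_zero (F := F), pow_one, ← Cfsg.Lib.Jordan.unip_sub_one, sub_eq_zero,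
        Units.val_eq_one]
    rw [h1]
    constructor
    · intro h
      refine Nat.Partition.ext ?_
      have he : μ.parts = Multiset.replicate n 1 := Multiset.eq_replicate.2 ⟨?_, fun a ha => le_antisymm (h a ha) (μ.parts_pos ha)⟩
      · rw [he]
        show _ = (Multiset.replicate n 1).filter (· ≠ 0)
        rw [Multiset.filter_eq_self.2 fun a ha => by rw [Multiset.eq_of_mem_replicate ha]; exact one_ne_zero]
      · have hr : μ.parts = Multiset.replicate (Multiset.card μ.parts) 1 :=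
          Multiset.eq_replicate_card.2 fun a ha => le_antisymm (h a ha) (μ.parts_pos ha)
        have := μ.parts_sum
        rw [hr, Multiset.sum_replicate] at this
        simpa using this
    · rintro rfl a ha
      exact (Multiset.eq_of_mem_replicate (Multiset.mem_of_mem_filter ha)).le
  rw [← Finset.card_erase_of_mem (a := Nat.Partition.ofSums n (Multiset.replicate n 1) (by simp))
    (Finset.mem_filter.2 ⟨Finset.mem_univ _, fun a ha => by
      rw [Multiset.eq_of_mem_replicate (Multiset.mem_of_mem_filter ha)]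
      exact (Fact.out : p.Prime).one_lt.le⟩), ← Nat.card_eq_finsetCard]
  symm
  have ord : ∀ g : GL (Fin n) F, orderOf g = p ↔ g ≠ 1 ∧ ((g : Matrix (Fin n) (Fin n) F) - 1) ^ p = 0 := by
    intro g
    have h := Cfsg.Lib.Jordan.order_pow_iff p g 1
    rw [pow_one] at h
    rw [← h]
    exact ⟨fun h => ⟨fun e => (Fact.out : p.Prime).ne_one (by rw [← h, e, orderOf_one]), h ▸ pow_orderOf_eq_one g⟩,
      fun ⟨h1, h2⟩ => orderOf_eq_prime h2 h1⟩
  refine Nat.card_eq_of_bijective (fun μ => (⟨ConjClasses.mk (Cfsg.Lib.Jordan.unip F μ.1), Cfsg.Lib.Jordan.unip F μ.1, rfl, by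
      obtain ⟨h1, h2⟩ := Finset.mem_erase.1 μ.2
      rw [ord, Cfsg.Lib.Jordan.unip_sub_one, Cfsg.Lib.Jordan.nilMat_pow_eq_zero, Ne, key]
      exact ⟨h1, (Finset.mem_filter.1 h2).2⟩⟩ :
        {C : ConjClasses (GL (Fin n) F) // ∃ g : GL (Fin n) F, ConjClasses.mk g = C ∧ orderOf g = p})) ⟨fun μ ν h => ?_, ?_⟩
  · exact Subtype.ext (Cfsg.Lib.Jordan.unip_injective (ConjClasses.mk_eq_mk_iff_isConj.1 (congrArg Subtype.val h)))
  · rintro ⟨_, g, rfl, hg⟩
    obtain ⟨h1, h2⟩ := (ord g).1 hg
    obtain ⟨μ, hμ⟩ := Cfsg.Lib.Jordan.exists_unip g h2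
    have hg' : orderOf (Cfsg.Lib.Jordan.unip F μ) = p := by
      obtain ⟨c, hc⟩ := isConj_iff.1 hμ
      rw [← hc, ← hg]
      exact orderOf_injective (MulAut.conj c).toMonoidHom (MulAut.conj c).injective g
    obtain ⟨h3, h4⟩ := (ord _).1 hg'
    rw [Cfsg.Lib.Jordan.unip_sub_one, Cfsg.Lib.Jordan.nilMat_pow_eq_zero] at h4
    exact ⟨⟨μ, Finset.mem_erase.2 ⟨fun e => h3 ((key μ).2 e), Finset.mem_filter.2 ⟨Finset.mem_univ _, h4⟩⟩⟩,
      Subtype.ext (ConjClasses.mk_eq_mk_iff_isConj.2 hμ.symm)⟩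

end Cfsg.Agent.S2570
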