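import Cfsg.Statements.S2571
import Cfsg.Agent.Lib.LinAlg.RegNilpotent

set_option autoImplicit false
open Cfsg

namespace Cfsg.Agent.S2571

/-- Centraliser of a regular unipotent element in GL_n(q): if u is an invertible n × n matrix over the field with q elements, n ≥ 1, with (u − 1)^n = 0 and rank(u − 1) = n − 1 (a single unipotent Jordan block), then its centraliser in GL_n(q) has order (q − 1) q^(n−1). -/
theorem result {F : Type*} [Field F] [Fintype F] {q n : ℕ} (hF : Fintype.card F = q) (hn : 1 ≤ n) (u : GL (Fin n) F) (hnil : ((u : Matrix (Fin n) (Fin n) F) - 1) ^ n = 0) (hreg : ((u : Matrix (Fin n) (Fin n) F) - 1).rank = n - 1) : Nat.card ↥(Subgroup.centralizer ({u} : Set (GL (Fin n) F))) = (q - 1) * q ^ (n - 1) := by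
  obtain ⟨m, rfl⟩ : ∃ m, n = m + 1 := ⟨n - 1, by omega⟩
  simp only [Nat.add_sub_cancel] at hreg ⊢
  set N := (u : Matrix (Fin (m + 1)) (Fin (m + 1)) F) - 1 with hN
  have h : LinAlg.RegNil.IsRegNil N := ⟨hnil, hreg⟩
  have hunit : ∀ c : Fin (m + 1) → F, c 0 ≠ 0 → IsUnit (LinAlg.RegNil.polN N c) := fun c hc => by
    rw [Matrix.isUnit_iff_isUnit_det, LinAlg.RegNil.det_polN h]
    exact (isUnit_iff_ne_zero.mpr hc).pow _
  let f : {c : Fin (m + 1) → F // c 0 ≠ 0} → ↥(Subgroup.centralizer ({u} : Set (GL (Fin (m + 1)) F))) :=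
    fun c => ⟨(hunit c.1 c.2).unit, Subgroup.mem_centralizer_singleton_iff.mpr (Units.ext
      (LinAlg.RegNil.commute_sub_one_iff.mp (LinAlg.RegNil.commute_polN N c.1)).eq.symm)⟩
  have hf : Function.Bijective f := by
    refine ⟨fun c d hcd => Subtype.ext (LinAlg.RegNil.polN_injective h
      (congrArg (fun z : ↥(Subgroup.centralizer ({u} : Set (GL (Fin (m + 1)) F))) =>
        (z.1 : Matrix (Fin (m + 1)) (Fin (m + 1)) F)) hcd)), fun z => ?_⟩
    have hz : Commute N (z.1 : Matrix (Fin (m + 1)) (Fin (m + 1)) F) :=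
      LinAlg.RegNil.commute_sub_one_iff.mpr
        (congrArg Units.val (Subgroup.mem_centralizer_singleton_iff.mp z.2)).symm
    obtain ⟨c, hc⟩ := LinAlg.RegNil.exists_polN_eq h hz
    have hc0 : c 0 ≠ 0 := fun e => by
      have h1 := ((Matrix.isUnit_iff_isUnit_det _).mp (z.1).isUnit)
      rw [← hc, LinAlg.RegNil.det_polN h, e, zero_pow (Nat.succ_ne_zero m), isUnit_iff_ne_zero] at h1
      exact h1 rfl
    exact ⟨⟨c, hc0⟩, Subtype.ext (Units.ext hc)⟩
  rw [← Nat.card_eq_of_bijective f hf]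
  let e : {c : Fin (m + 1) → F // c 0 ≠ 0} ≃ {a : F // a ≠ 0} × (Fin m → F) :=
    { toFun := fun c => (⟨c.1 0, c.2⟩, Fin.tail c.1)
      invFun := fun x => ⟨Fin.cons x.1.1 x.2, by simpa using x.1.2⟩
      left_inv := fun c => Subtype.ext (Fin.cons_self_tail c.1)
      right_inv := fun x => by simp [Fin.tail_cons] }
  classical
  rw [Nat.card_congr e, Nat.card_prod, Nat.card_eq_fintype_card, Nat.card_eq_fintype_card,
    Fintype.card_subtype_compl, Fintype.card_subtype_eq, Fintype.card_fun, Fintype.card_fin, hF]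

end Cfsg.Agent.S2571
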