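import Cfsg.Statements.S2572
import Cfsg.Agent.Lib.LinAlg.TransvCent

set_option autoImplicit false
open Cfsg

namespace Cfsg.Agent.S2572

/-- Centraliser of a transvection in GL_n(q), n ≥ 2: if t − 1 has rank one and square zero, the centraliser of t in GL_n(q) has order q^(2n−3) (q − 1) |GL_(n−2)(q)| (a group of order q^(2n−3) extended by GL_1(q) × GL_(n−2)(q)). -/
theorem result {F : Type*} [Field F] [Fintype F] {q n : ℕ} (hF : Fintype.card F = q) (hn : 2 ≤ n) (t : GL (Fin n) F) (ht : Cfsg.IsTransvection (t : Matrix (Fin n) (Fin n) F)) : Nat.card ↥(Subgroup.centralizer ({t} : Set (GL (Fin n) F))) = q ^ (2 * n - 3) * (q - 1) * ∏ i : Fin (n - 2), (q ^ (n - 2) - q ^ (i : ℕ)) := by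
  obtain ⟨k, rfl⟩ : ∃ k, n = k + 2 := ⟨n - 2, by omega⟩
  classical
  let e : LinAlg.Transv.Idx k ≃ Fin (k + 2) := Fintype.equivFinOfCardEq (by
    simp only [Fintype.card_sum, Fintype.card_unique, Fintype.card_fin]; omega)
  let R := Matrix.reindexAlgEquiv F F e
  let φ : GL (LinAlg.Transv.Idx k) F ≃* GL (Fin (k + 2)) F := Units.mapEquiv R.toMulEquiv
  set N := R.symm ((t : Matrix (Fin (k + 2)) (Fin (k + 2)) F) - 1) with hN
  have hr : N.rank = 1 := by
    rw [hN, show R.symm ((t : Matrix (Fin (k + 2)) (Fin (k + 2)) F) - 1) =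
      ((t : Matrix (Fin (k + 2)) (Fin (k + 2)) F) - 1).submatrix e e from rfl, Matrix.rank_submatrix]
    exact ht.1
  have h2 : N * N = 0 := by rw [hN, ← map_mul, ht.2, map_zero]
  obtain ⟨P, hP⟩ := LinAlg.Transv.exists_conj_std hr h2
  let ψ : GL (LinAlg.Transv.Idx k) F ≃* GL (Fin (k + 2)) F := (MulAut.conj P).trans φ
  have hu : ((ψ.symm t : GL (LinAlg.Transv.Idx k) F) :
      Matrix (LinAlg.Transv.Idx k) (LinAlg.Transv.Idx k) F) = 1 + LinAlg.Transv.std F k := by
    have h0 : R.symm (t : Matrix (Fin (k + 2)) (Fin (k + 2)) F) = 1 + N := by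
      rw [hN, map_sub, map_one, add_sub_cancel]
    show ((P⁻¹ : GL (LinAlg.Transv.Idx k) F) : Matrix (LinAlg.Transv.Idx k) (LinAlg.Transv.Idx k) F) *
      R.symm (t : Matrix (Fin (k + 2)) (Fin (k + 2)) F) *
      (P : Matrix (LinAlg.Transv.Idx k) (LinAlg.Transv.Idx k) F) = _
    rw [h0, mul_add, mul_one, add_mul, Units.inv_mul, mul_assoc, hP, Units.inv_mul_cancel_left]
  let E : {g : GL (LinAlg.Transv.Idx k) F //
      Commute (LinAlg.Transv.std F k) (g : Matrix (LinAlg.Transv.Idx k) (LinAlg.Transv.Idx k) F)} ≃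
      ↥(Subgroup.centralizer ({t} : Set (GL (Fin (k + 2)) F))) :=
    ψ.toEquiv.subtypeEquiv fun g => by
      rw [Subgroup.mem_centralizer_singleton_iff]
      show _ ↔ ψ g * t = t * ψ g
      rw [← ψ.apply_symm_apply t, ← map_mul, ← map_mul, ψ.injective.eq_iff, Units.ext_iff, Units.val_mul,
        Units.val_mul, hu, mul_add, add_mul, mul_one, one_mul, add_left_cancel_iff]
      exact ⟨fun h => h.eq.symm, fun h => h.symm⟩
  rw [← Nat.card_congr E, LinAlg.Transv.card_commute_std, hF, show k + 2 - 2 = k by omega,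
    show 2 * (k + 2) - 3 = k + k + 1 by omega, pow_succ, pow_add]
  ring

end Cfsg.Agent.S2572
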