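import Cfsg.Statements.S2573

-- import your own Cfsg.Agent.* helpers here

set_option autoImplicit false
open Cfsg

namespace Cfsg.Agent.S2573

/-- The invariant subspaces of a regular unipotent matrix form a chain: over a finite field, if u is an n × n matrix with (u − 1)^n = 0 and rank(u − 1) = n − 1, then every subspace W of F^n with u W ⊆ W is the kernel of (u − 1)^(dim W); so u has at most one invariant subspace of each dimension. -/
theorem result {F : Type*} [Field F] [Finite F] {n : ℕ} (u : Matrix (Fin n) (Fin n) F) (hnil : (u - 1) ^ n = 0) (hreg : (u - 1).rank = n - 1) (W : Submodule F (Fin n → F)) (hW : ∀ v ∈ W, u.mulVec v ∈ W) : W = LinearMap.ker (Matrix.mulVecLin ((u - 1) ^ Module.finrank F W)) := by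
  classical
  set N := (u - 1).mulVecLin with hN
  have hpow : ∀ k : ℕ, ((u - 1) ^ k).mulVecLin = N ^ k := by
    intro k; induction k with
    | zero => simp; rfl
    | succ k ih => rw [pow_succ, pow_succ, Matrix.mulVecLin_mul, ih]; rfl
  rw [hpow]
  have hk1 : Module.finrank F (LinearMap.ker N) ≤ 1 := by
    have := LinearMap.finrank_range_add_finrank_ker N
    have hr : Module.finrank F (LinearMap.range N) = n - 1 := hreg
    rw [Module.finrank_fin_fun, hr] at this
    omega
  have hdim : ∀ k : ℕ, Module.finrank F (LinearMap.ker (N ^ k)) ≤ k := by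
    intro k; induction k with
    | zero => simp [Module.End.one_eq_id]
    | succ k ih =>
      set r : ↥(LinearMap.ker (N ^ (k + 1))) →ₗ[F] (Fin n → F) := (N ^ k).domRestrict _ with hr
      have h1 := LinearMap.finrank_range_add_finrank_ker r
      have h2 : Module.finrank F (LinearMap.range r) ≤ 1 := by
        refine le_trans (Submodule.finrank_mono ?_) hk1
        rintro _ ⟨⟨x, hx⟩, rfl⟩
        rw [LinearMap.mem_ker]
        show N ((N ^ k) x) = 0
        rw [LinearMap.mem_ker, pow_succ'] at hx
        exact hx
      have h3 : Module.finrank F (LinearMap.ker r) ≤ k := by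
        refine le_trans ?_ ih
        refine le_trans (le_of_eq ((LinearMap.ker r).equivMapOfInjective (LinearMap.ker (N ^ (k + 1))).subtype
          (Submodule.injective_subtype _)).finrank_eq) (Submodule.finrank_mono ?_)
        rintro _ ⟨x, hx, rfl⟩
        exact hx
      omega
  have hWN : ∀ x ∈ W, N x ∈ W := by
    intro x hx
    have : N x = u.mulVec x - x := by simp [hN, Matrix.sub_mulVec]
    rw [this]; exact W.sub_mem (hW x hx) hx
  have hres : ∀ (k : ℕ) (x : W), (((N.restrict hWN) ^ k) x : Fin n → F) = (N ^ k) (x : Fin n → F) := by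
    intro k; induction k with
    | zero => intro x; rfl
    | succ k ih => intro x; rw [pow_succ, pow_succ, Module.End.mul_apply, Module.End.mul_apply, ih]; rfl
  have hle : W ≤ LinearMap.ker (N ^ Module.finrank F W) := by
    intro x hx
    rw [LinearMap.mem_ker]
    have hm : (⟨x, hx⟩ : W) ∈ LinearMap.ker ((N.restrict hWN) ^ n) := by
      rw [LinearMap.mem_ker]; apply Subtype.ext; rw [hres]
      have : (N ^ n) = 0 := by rw [← hpow, hnil]; simp
      rw [this]; rfl
    have h := Module.End.ker_pow_le_ker_pow_finrank (N.restrict hWN) n hm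
    rw [LinearMap.mem_ker] at h
    rw [← hres _ ⟨x, hx⟩, h]; rfl
  exact Submodule.eq_of_le_of_finrank_le hle (hdim _)

end Cfsg.Agent.S2573
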