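import Cfsg.Statements.S2574
import Cfsg.Agent.Lib.LinAlg.RegNilpotent

set_option autoImplicit false
open Cfsg

namespace Cfsg.Agent.S2574

/-- invariant subspaces of at most half the dimension are isotropic, in adapted coordinates -/
theorem isotropic_aux {F : Type*} [Field F] {M : ℕ} (N : Matrix (Fin (M + 1)) (Fin (M + 1)) F)
    (h : LinAlg.RegNil.IsRegNil N) (B : (Fin (M + 1) → F) → (Fin (M + 1) → F) → F)
    (hadd : ∀ a a' b, B (a + a') b = B a b + B a' b) (hadd' : ∀ a b b', B a (b + b') = B a b + B a b')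
    (hU : ∀ a b, B ((1 + N).mulVec a) ((1 + N).mulVec b) = B a b)
    (W : Submodule F (Fin (M + 1) → F)) (hW : ∀ v ∈ W, (1 + N).mulVec v ∈ W)
    (hdim : 2 * Module.finrank F W ≤ M + 1) : ∀ v ∈ W, ∀ w ∈ W, B v w = 0 := by
  set f := N.mulVecLin with hf
  set k := Module.finrank F W with hk
  have hfp : ∀ j, f ^ j = (N ^ j).mulVecLin := fun j => by
    induction j with
    | zero => simp [Module.End.one_eq_id]
    | succ j ih => rw [pow_succ, ih, hf, pow_succ, Matrix.mulVecLin_mul]; rfl
  have hfW : ∀ v ∈ W, f v ∈ W := fun v hv => by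
    have := W.sub_mem (hW v hv) hv
    rwa [Matrix.add_mulVec, Matrix.one_mulVec, add_sub_cancel_left] at this
  have hnil : IsNilpotent (f.restrict hfW) := by
    refine ⟨M + 1, LinearMap.ext fun v => Subtype.ext ?_⟩
    have hj : ∀ j, (((f.restrict hfW) ^ j) v : Fin (M + 1) → F) = (f ^ j) (v : Fin (M + 1) → F) := fun j => by
      induction j with
      | zero => simp
      | succ j ih =>
        rw [pow_succ', pow_succ', Module.End.mul_apply, Module.End.mul_apply, ← ih]
        rfl
    rw [hj, hfp, h.pow_eq]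
    simp
  have hkill : ∀ v ∈ W, (f ^ k) v = 0 := by
    intro v hv
    have h0 := LinearMap.aeval_self_charpoly (f.restrict hfW)
    rw [hnil.charpoly_eq_X_pow_finrank, map_pow, Polynomial.aeval_X] at h0
    have hj : ∀ j, (((f.restrict hfW) ^ j) ⟨v, hv⟩ : Fin (M + 1) → F) = (f ^ j) v := fun j => by
      induction j with
      | zero => simp
      | succ j ih =>
        rw [pow_succ', pow_succ', Module.End.mul_apply, Module.End.mul_apply, ← ih]
        rfl
    rw [← hj, h0]
    simp
  have hkM : k ≤ M + 1 := by omega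
  have hrange : LinearMap.ker (f ^ k) = LinearMap.range (f ^ (M + 1 - k)) := by
    refine (Submodule.eq_of_le_of_finrank_le ?_ ?_).symm
    · rintro _ ⟨y, rfl⟩
      rw [LinearMap.mem_ker, ← Module.End.mul_apply, ← pow_add, Nat.add_sub_cancel' hkM, hfp, h.pow_eq]
      simp
    · have h1 := (f ^ (M + 1 - k)).finrank_range_add_finrank_ker
      rw [Module.finrank_fintype_fun_eq_card, Fintype.card_fin] at h1
      have h2 := LinAlg.RegNil.finrank_ker_pow_le h (M + 1 - k)
      have h3 := LinAlg.RegNil.finrank_ker_pow_le h k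
      rw [← hf] at h2 h3
      omega
  have hB0 : ∀ a, B a 0 = 0 := fun a => by
    have := hadd' a 0 0
    rw [add_zero] at this
    exact left_eq_add.mp this
  have hstep : ∀ a b, B (N.mulVec a) b + B ((1 + N).mulVec a) (N.mulVec b) = 0 := fun a b => by
    have h1 := hU a b
    have hb : (1 + N).mulVec b = b + N.mulVec b := by rw [Matrix.add_mulVec, Matrix.one_mulVec]
    have ha : (1 + N).mulVec a = a + N.mulVec a := by rw [Matrix.add_mulVec, Matrix.one_mulVec]
    rw [hb, hadd', ha, hadd] at h1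
    rw [ha]
    linear_combination h1
  have hmain : ∀ j a b, (f ^ j) b = 0 → B ((f ^ j) a) b = 0 := by
    intro j
    induction j with
    | zero =>
      intro a b hb
      simp only [pow_zero, Module.End.one_apply] at hb
      rw [hb, hB0]
    | succ j ih =>
      intro a b hb
      rw [pow_succ', Module.End.mul_apply]
      have h1 := hstep ((f ^ j) a) b
      have hc : (1 + N).mulVec ((f ^ j) a) = (f ^ j) ((1 + N).mulVec a) := by
        rw [hfp, Matrix.mulVecLin_apply, Matrix.mulVecLin_apply, Matrix.mulVec_mulVec, Matrix.mulVec_mulVec,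
          ((Commute.one_right (N ^ j)).add_right (Commute.pow_self N j)).eq]
      rw [hc, ih _ (N.mulVec b) (by rw [pow_succ, Module.End.mul_apply] at hb; exact hb), add_zero] at h1
      exact h1
  intro v hv w hw
  obtain ⟨a, rfl⟩ : v ∈ LinearMap.range (f ^ (M + 1 - k)) := hrange ▸ LinearMap.mem_ker.mpr (hkill v hv)
  refine hmain _ _ _ ?_
  rw [show M + 1 - k = M + 1 - k - k + k by omega, pow_add, Module.End.mul_apply, hkill w hw, map_zero]

/-- A regular unipotent element of the symplectic group has totally isotropic small invariant subspaces: over a finite field, if u ∈ Sp_2m(F) satisfies (u − 1)^(2m) = 0 and rank(u − 1) = 2m − 1, and W is a u-invariant subspace with 2 dim W ≤ 2m, then the alternating form vanishes identically on W. -/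
theorem result {F : Type*} [Field F] [Finite F] {m : ℕ} (u : Matrix.symplecticGroup (Fin m) F) (hnil : ((u : Matrix (Fin m ⊕ Fin m) (Fin m ⊕ Fin m) F) - 1) ^ (2 * m) = 0) (hreg : ((u : Matrix (Fin m ⊕ Fin m) (Fin m ⊕ Fin m) F) - 1).rank = 2 * m - 1) (W : Submodule F (Fin m ⊕ Fin m → F)) (hW : ∀ v ∈ W, (u : Matrix (Fin m ⊕ Fin m) (Fin m ⊕ Fin m) F).mulVec v ∈ W) (hdim : 2 * Module.finrank F W ≤ 2 * m) : ∀ v ∈ W, ∀ w ∈ W, Cfsg.sympForm m F v w = 0 := by
  rcases Nat.eq_zero_or_pos m with rfl | hm
  · intro v _ w _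
    simp [Cfsg.sympForm, dotProduct]
  obtain ⟨M, hM⟩ : ∃ M, 2 * m = M + 1 := ⟨2 * m - 1, by omega⟩
  let e : Fin (M + 1) ≃ Fin m ⊕ Fin m := (finCongr (by omega)).trans finSumFinEquiv.symm
  let R := Matrix.reindexAlgEquiv F F e.symm
  set U := (u : Matrix (Fin m ⊕ Fin m) (Fin m ⊕ Fin m) F) with hU
  set N := R (U - 1) with hN
  have hreg' : LinAlg.RegNil.IsRegNil N := by
    refine ⟨?_, ?_⟩
    · rw [hN, ← map_pow, show (U - 1) ^ (M + 1) = 0 from (congrArg ((U - 1) ^ ·) hM.symm).trans hnil, map_zero]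
    · rw [hN, show R (U - 1) = (U - 1).submatrix e e from rfl, Matrix.rank_submatrix, hreg]
      omega
  have h1N : 1 + N = R U := by rw [hN, map_sub, map_one, add_sub_cancel]
  let L : (Fin (M + 1) → F) ≃ₗ[F] (Fin m ⊕ Fin m → F) := LinearEquiv.funCongrLeft F F e.symm
  have hLU : ∀ a, L ((R U).mulVec a) = U.mulVec (L a) := fun a => by
    funext i
    show (U.submatrix e e).mulVec a (e.symm i) = U.mulVec (a ∘ e.symm) i
    rw [Matrix.submatrix_mulVec_equiv, Function.comp_apply, Equiv.apply_symm_apply]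
  have hinv : ∀ a b, Cfsg.sympForm m F (U.mulVec a) (U.mulVec b) = Cfsg.sympForm m F a b := fun a b => by
    simp only [Cfsg.sympForm]
    rw [Matrix.mulVec_mulVec, Matrix.dotProduct_mulVec, ← Matrix.vecMul_transpose, Matrix.vecMul_vecMul,
      ← Matrix.mul_assoc, SymplecticGroup.mem_iff'.mp u.2, ← Matrix.dotProduct_mulVec]
  have hmemW : ∀ a, a ∈ W.comap (L : (Fin (M + 1) → F) →ₗ[F] (Fin m ⊕ Fin m → F)) ↔ L a ∈ W := fun a => Iff.rfl
  intro v hv w hw
  have h := isotropic_aux N hreg' (fun a b => Cfsg.sympForm m F (L a) (L b))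
    (fun a a' b => by simp [Cfsg.sympForm, add_dotProduct])
    (fun a b b' => by simp [Cfsg.sympForm, Matrix.mulVec_add, dotProduct_add])
    (fun a b => by rw [h1N, hLU, hLU, hinv])
    (W.comap (L : (Fin (M + 1) → F) →ₗ[F] (Fin m ⊕ Fin m → F)))
    (fun a ha => by rw [hmemW, h1N, hLU]; exact hW _ ha)
    (by
      rw [← (L.finrank_map_eq _), Submodule.map_comap_eq_of_surjective L.surjective]
      omega)
    (L.symm v) (by rw [hmemW, L.apply_symm_apply]; exact hv) (L.symm w)
    (by rw [hmemW, L.apply_symm_apply]; exact hw)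
  simpa using h

end Cfsg.Agent.S2574
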