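import Cfsg.Statements.S2575
import Cfsg.Agent.Lib.Classical.TwoParts
-- import your own Cfsg.Agent.* helpers here

set_option autoImplicit false
open Cfsg

namespace Cfsg.Agent.S2575

/-- Which diagonal involutions of PGL_n(q) lie in PSL_n(q), q odd: for the diagonal matrix t with i entries −1 and n − i entries 1, some non-zero scalar multiple of t has determinant one if and only if i is even or the 2-part of q − 1 exceeds the 2-part of n (that is, −1 is an n-th power in the field exactly in the latter case). -/
theorem result {F : Type*} [Field F] [Fintype F] {q : ℕ} (hF : Fintype.card F = q) (hq : Odd q) {n : ℕ} (hn : 1 ≤ n) (i : ℕ) (hi : i ≤ n) : (∃ c : F, c ≠ 0 ∧ (c • Matrix.diagonal (fun j : Fin n => if (j : ℕ) < i then (-1 : F) else 1)).det = 1) ↔ (Even i ∨ padicValNat 2 n < padicValNat 2 (q - 1)) := by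
  classical
  have hdet : ∀ c : F, (c • Matrix.diagonal (fun j : Fin n => if (j : ℕ) < i then (-1 : F) else 1)).det = c ^ n * (-1) ^ i := fun c => by
    rw [Matrix.det_smul, Fintype.card_fin, Matrix.det_diagonal, Finset.prod_ite, Finset.prod_const_one, mul_one, Finset.prod_const]
    congr 2
    simp [Fin.card_filter_val_lt, min_eq_right hi]
  simp only [hdet]
  rcases Nat.even_or_odd i with he | ho
  · exact iff_of_true ⟨1, one_ne_zero, by rw [he.neg_one_pow]; simp⟩ (Or.inl he)
  · rw [or_iff_right (Nat.not_even_iff_odd.2 ho)]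
    constructor
    · rintro ⟨c, hc, e⟩
      by_contra h
      refine Cfsg.Lib.Classical.TwoParts.not_neg_one hF hq hc (not_lt.1 h) ?_
      rw [ho.neg_one_pow] at e
      linear_combination -e
    · intro h
      obtain ⟨x, hx, e⟩ := Cfsg.Lib.Classical.TwoParts.exists_neg_one hF hq (n := n) (by omega) h
      exact ⟨x, hx, by rw [e, ho.neg_one_pow]; norm_num⟩

end Cfsg.Agent.S2575
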