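import Cfsg.Statements.S2576
import Cfsg.Agent.Lib.Classical.TwoParts
-- import your own Cfsg.Agent.* helpers here

set_option autoImplicit false
open Cfsg

namespace Cfsg.Agent.S2576

/-- Which involutions of PGL_2m(q) coming from a scalar of the quadratic extension field lie in PSL_2m(q), q odd: let μ generate the Sylow 2-subgroup of the multiplicative group of the field with q elements (μ has order the 2-part of q − 1) and let t be the block-diagonal matrix with m diagonal blocks [[0, 1], [μ, 0]] (so t² is the scalar μ and t is an involution modulo scalars). Then some non-zero scalar multiple of t has determinant one if and only if q ≡ 3 (mod 4) or the 2-part of q − 1 is less than the 2-part of 2m. -/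
theorem result {F : Type*} [Field F] [Fintype F] {q : ℕ} (hF : Fintype.card F = q) (hq : Odd q) {m : ℕ} (hm : 1 ≤ m) (μ : F) (hμ : orderOf μ = 2 ^ padicValNat 2 (q - 1)) : (∃ c : F, c ≠ 0 ∧ (c • Matrix.blockDiagonal (fun _ : Fin m => !![(0 : F), 1; μ, 0])).det = 1) ↔ (q % 4 = 3 ∨ padicValNat 2 (q - 1) < padicValNat 2 (2 * m)) := by
  classical
  haveI : Fact (Nat.Prime 2) := ⟨Nat.prime_two⟩
  have hq2 : 2 ≤ q := hF ▸ Fintype.one_lt_card
  obtain ⟨k, hk⟩ := hq
  set s := padicValNat 2 (q - 1) with hs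
  have hs1 : 1 ≤ s := one_le_padicValNat_of_dvd (by omega) (by omega)
  have h2m : padicValNat 2 (2 * m) = padicValNat 2 m + 1 := by
    rw [padicValNat.mul (by norm_num) (by omega), padicValNat_self]; omega
  have hμ0 : μ ≠ 0 := by
    intro e
    have := orderOf_pos_iff.1 (show 0 < orderOf μ by rw [hμ]; positivity)
    rw [e] at this
    obtain ⟨N, hN, e'⟩ := isOfFinOrder_iff_pow_eq_one.1 this
    rw [zero_pow hN.ne'] at e'
    exact zero_ne_one e'
  have hneg : (-1 : F) ≠ 1 := fun e => Cfsg.Lib.Classical.TwoParts.not_neg_one hF ⟨k, hk⟩ (n := 2 ^ s) one_ne_zero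
    (by rw [padicValNat.prime_pow]) (by rw [one_pow, e])
  have hhalf : μ ^ 2 ^ (s - 1) = -1 := by
    have h1 : μ ^ 2 ^ (s - 1) * μ ^ 2 ^ (s - 1) = 1 := by
      rw [← pow_add, ← two_mul, ← pow_succ', show s - 1 + 1 = s by omega, ← hμ, pow_orderOf_eq_one]
    refine (mul_self_eq_one_iff.1 h1).resolve_left fun e => ?_
    have := (Nat.pow_dvd_pow_iff_le_right (by norm_num)).1 (hμ ▸ orderOf_dvd_of_pow_eq_one e)
    omega
  have hdet : ∀ c : F, (c • Matrix.blockDiagonal (fun _ : Fin m => !![(0 : F), 1; μ, 0])).det = c ^ (2 * m) * (-μ) ^ m := fun c => by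
    rw [Matrix.det_smul, Matrix.det_blockDiagonal]
    simp [Matrix.det_fin_two_of]
  simp only [hdet]
  have h34 : q % 4 = 3 ↔ s = 1 := by
    constructor
    · intro h
      by_contra h'
      have : (2 : ℕ) ^ 2 ∣ q - 1 := (pow_dvd_pow 2 (show 2 ≤ s by omega)).trans pow_padicValNat_dvd
      omega
    · intro h
      by_contra h'
      have : (2 : ℕ) ^ 2 ∣ q - 1 := by omega
      have := (padicValNat_dvd_iff_le (p := 2) (a := q - 1) (by omega)).1 this
      omega
  rw [h34, h2m]
  constructor
  · rintro ⟨c, hc, e⟩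
    by_contra hcon
    push Not at hcon
    obtain ⟨hs', ha⟩ := hcon
    obtain ⟨b, hb, hmb⟩ := Cfsg.Lib.Classical.TwoParts.split (n := m) (by omega)
    set a := padicValNat 2 m
    have hev : Even (2 ^ (s - 1) : ℕ) := (Nat.even_pow' (by omega)).2 even_two
    have e1 : (-μ) ^ (m * 2 ^ (s - 1 - a)) = -1 := by
      rw [show m * 2 ^ (s - 1 - a) = 2 ^ (s - 1) * b by
        rw [hmb, mul_right_comm, ← pow_add, show a + (s - 1 - a) = s - 1 by omega], pow_mul, hev.neg_pow, hhalf, hb.neg_one_pow]
    have e2 := congrArg (· ^ 2 ^ (s - 1 - a)) e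
    simp only [mul_pow, one_pow, ← pow_mul] at e2
    rw [e1] at e2
    refine Cfsg.Lib.Classical.TwoParts.not_neg_one hF ⟨k, hk⟩ (n := 2 * m * 2 ^ (s - 1 - a)) hc ?_ (by linear_combination -e2)
    rw [padicValNat.mul (by omega) (by positivity), h2m, padicValNat.prime_pow]
    omega
  · intro h
    refine ⟨1, one_ne_zero, ?_⟩
    rw [one_pow, one_mul]
    rcases h with h | h
    · rw [h] at hhalf
      rw [show μ = -1 by simpa using hhalf, neg_neg, one_pow]
    · obtain ⟨b, hb, hmb⟩ := Cfsg.Lib.Classical.TwoParts.split (n := m) (by omega)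
      have hdvd : 2 ^ s ∣ m := (pow_dvd_pow 2 (by omega)).trans pow_padicValNat_dvd
      have hev : Even m := even_iff_two_dvd.2 ((dvd_pow_self 2 (by omega)).trans hdvd)
      rw [hev.neg_pow]
      exact orderOf_dvd_iff_pow_eq_one.1 (hμ ▸ hdvd)

end Cfsg.Agent.S2576
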