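import Cfsg.Statements.S2577
import Cfsg.Agent.Lib.LinAlg.SemisimpleCount

set_option autoImplicit false
set_option maxHeartbeats 800000
open Cfsg

namespace Cfsg.Agent.S2577

/-- Number of conjugacy classes of involutions in PGL_n(q) for q odd and n ≥ 2: there are ⌊n/2⌋ classes represented by diagonal matrices with i entries −1 (1 ≤ i ≤ n/2) and, when n is even, one more class represented by a block-diagonal matrix of 2 × 2 blocks [[0, 1], [μ, 0]] with μ a non-square (a matrix squaring to a scalar but having no eigenvalue in the field); in all ⌊n/2⌋ + 1 classes if n is even and ⌊n/2⌋ if n is odd. -/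
theorem result {F : Type*} [Field F] [Fintype F] {q : ℕ} (hF : Fintype.card F = q) (hq : Odd q) {n : ℕ} (hn : 2 ≤ n) : Nat.card {C : ConjClasses (GL (Fin n) F ⧸ Subgroup.center (GL (Fin n) F)) // ∃ g : GL (Fin n) F ⧸ Subgroup.center (GL (Fin n) F), ConjClasses.mk g = C ∧ orderOf g = 2} = n / 2 + (if Even n then 1 else 0) := by
  classical
  obtain ⟨p, hpc⟩ := CharP.exists F
  have hp : Fact p.Prime := ⟨CharP.char_is_prime F p⟩
  have hp2 : p ≠ 2 := by
    rintro rfl
    obtain ⟨k, -, hk⟩ := FiniteField.card F 2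
    rw [hF] at hk
    exact (Nat.not_odd_iff_even.mpr (hk ▸ (Nat.even_pow.mpr ⟨even_two, k.ne_zero⟩))) hq
  have h2 : (2 : F) ≠ 0 := fun h => hp2 (by
    have h' : ((2 : ℕ) : F) = 0 := by exact_mod_cast h
    exact (Nat.prime_dvd_prime_iff_eq hp.out Nat.prime_two).mp ((CharP.cast_eq_zero_iff F p 2).mp h'))
  have hchar : ringChar F ≠ 2 := by rw [ringChar.eq F p]; exact hp2
  obtain ⟨c₀, hc₀⟩ := FiniteField.exists_nonsquare hchar
  have hc00 : c₀ ≠ 0 := fun h => hc₀ (h ▸ ⟨0, by simp⟩)
  have hcopA : ∀ (g : GL (Fin n) F) (c : F), c ≠ 0 →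
      (g : Matrix (Fin n) (Fin n) F) ^ 2 = c • 1 → (orderOf g).Coprime p := by
    intro g c hc hg
    refine Nat.Coprime.coprime_dvd_left (orderOf_dvd_of_pow_eq_one (n := 2 * (Fintype.card F - 1)) (Units.ext ?_))
      (Nat.Coprime.mul_left ((Nat.coprime_primes Nat.prime_two hp.out).mpr hp2.symm) ?_)
    · rw [Units.val_pow_eq_pow_val, pow_mul, hg, smul_pow, one_pow, FiniteField.pow_card_sub_one_eq_one _ hc,
        one_smul, Units.val_one]
    · obtain ⟨k, -, hk⟩ := FiniteField.card F p
      refine ((Nat.Prime.coprime_iff_not_dvd hp.out).mpr fun hd => ?_).symm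
      have h3 := Nat.dvd_sub (hk ▸ dvd_pow_self p k.ne_zero : p ∣ Fintype.card F) hd
      rw [Nat.sub_sub_self Fintype.card_pos] at h3
      exact hp.out.not_dvd_one h3
  -- diagonal representatives
  let dvec : ℕ → Fin n → F := fun i j => if (j : ℕ) < i then -1 else 1
  let D : ℕ → GL (Fin n) F := fun i =>
    Matrix.GeneralLinearGroup.mkOfDetNeZero (Matrix.diagonal (dvec i)) (by
      rw [Matrix.det_diagonal, Finset.prod_ne_zero_iff]
      intro j _
      simp only [dvec]
      split_ifs <;> simp)
  have hDsq : ∀ i, (D i : Matrix (Fin n) (Fin n) F) ^ 2 = (1 : F) • 1 := fun i => by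
    show Matrix.diagonal (dvec i) ^ 2 = _
    rw [Matrix.diagonal_pow, one_smul, ← Matrix.diagonal_one]
    congr 1
    funext j
    simp only [dvec, Pi.pow_apply]
    split_ifs <;> simp
  let mset : ℕ → Multiset (Polynomial F) := fun i =>
    Multiset.replicate (n - i) (Polynomial.X - 1) + Multiset.replicate i (Polynomial.X + 1)
  have hm1 : (Polynomial.X - 1 : Polynomial F).Monic ∧ Irreducible (Polynomial.X - 1 : Polynomial F) := by
    simpa using And.intro (Polynomial.monic_X_sub_C (1 : F)) (Polynomial.irreducible_X_sub_C (1 : F))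
  have hm2 : (Polynomial.X + 1 : Polynomial F).Monic ∧ Irreducible (Polynomial.X + 1 : Polynomial F) := by
    simpa using And.intro (Polynomial.monic_X_sub_C (-1 : F)) (Polynomial.irreducible_X_sub_C (-1 : F))
  have hne12 : (Polynomial.X + 1 : Polynomial F) ≠ Polynomial.X - 1 := fun h => by
    have := congrArg (Polynomial.eval (1 : F)) h
    norm_num at this
    exact h2 this
  have hmset : ∀ i, ∀ g ∈ mset i, g.Monic ∧ Irreducible g := fun i g hg => by
    rcases Multiset.mem_add.mp hg with h | h <;> rw [Multiset.eq_of_mem_replicate h]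
    exacts [hm1, hm2]
  have hDcp : ∀ i, i ≤ n → (D i : Matrix (Fin n) (Fin n) F).charpoly = (mset i).prod := fun i hi => by
    show (Matrix.diagonal (dvec i)).charpoly = _
    rw [Matrix.charpoly_diagonal, Multiset.prod_add, Multiset.prod_replicate, Multiset.prod_replicate]
    rw [← Finset.prod_filter_mul_prod_filter_not Finset.univ (fun j : Fin n => (j : ℕ) < i)]
    have hcard : (Finset.univ.filter fun j : Fin n => (j : ℕ) < i).card = i := by
      rw [show (Finset.univ.filter fun j : Fin n => (j : ℕ) < i) = Finset.univ.map (Fin.castLEEmb hi) by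
        ext j; simp only [Finset.mem_filter, Finset.mem_univ, true_and, Finset.mem_map, Fin.castLEEmb_apply]
        exact ⟨fun h => ⟨⟨j, h⟩, rfl⟩, fun ⟨a, ha⟩ => ha ▸ a.2⟩, Finset.card_map, Finset.card_univ, Fintype.card_fin]
    have hcard' : (Finset.univ.filter fun j : Fin n => ¬ (j : ℕ) < i).card = n - i := by
      have := Finset.card_filter_add_card_filter_not (s := (Finset.univ : Finset (Fin n))) (fun j => (j : ℕ) < i)
      rw [hcard, Finset.card_univ, Fintype.card_fin] at this
      omega
    rw [Finset.prod_congr rfl (g := fun _ => Polynomial.X + 1) (fun j hj => by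
        simp only [Finset.mem_filter] at hj; simp [dvec, hj.2]), Finset.prod_const, hcard,
      Finset.prod_congr rfl (g := fun _ => Polynomial.X - 1) (fun j hj => by
        simp only [Finset.mem_filter] at hj; simp [dvec, hj.2]), Finset.prod_const, hcard', mul_comm]
  -- every square root of one is conjugate to a representative
  have hone : ∀ g : GL (Fin n) F, (g : Matrix (Fin n) (Fin n) F) ^ 2 = (1 : F) • 1 → ∃ i ≤ n, IsConj (D i) g := by
    intro g hg
    have hcg := hcopA g 1 one_ne_zero hg
    obtain ⟨hp1, hp2'⟩ := LinAlg.SSClass.prod_factors (F := F)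
      (Matrix.charpoly_monic (g : Matrix (Fin n) (Fin n) F))
    set m := UniqueFactorizationMonoid.normalizedFactors (g : Matrix (Fin n) (Fin n) F).charpoly with hm
    have hmem : ∀ f ∈ m, f = Polynomial.X - 1 ∨ f = Polynomial.X + 1 := fun f hf => by
      obtain ⟨hfm, hfi, hfd⟩ := hp2' f hf
      have hd : f ∣ (Polynomial.X - 1) * (Polynomial.X + 1) := LinAlg.SSClass.factor_dvd_killer
        (x := Matrix.toLinAlgEquiv' (g : Matrix (Fin n) (Fin n) F))
        (by
          rw [Polynomial.aeval_algHom_apply, map_mul, map_sub, map_add, Polynomial.aeval_X, map_one,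
            ← (Commute.one_right _).mul_self_sub_mul_self_eq' (a := (g : Matrix (Fin n) (Fin n) F)), ← sq, hg,
            one_smul, mul_one, sub_self, map_zero]) hfi
        (by rw [← Matrix.charpoly_toLin'] at hfd; exact hfd)
      rcases hfi.prime.dvd_or_dvd hd with h | h
      · exact Or.inl (Polynomial.eq_of_monic_of_associated hfm hm1.1 (hfi.associated_of_dvd hm1.2 h))
      · exact Or.inr (Polynomial.eq_of_monic_of_associated hfm hm2.1 (hfi.associated_of_dvd hm2.2 h))
    have hcardm : m.card = n := by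
      have h1 := congrArg Polynomial.natDegree hp1
      rw [(LinAlg.SSClass.natDegree_multiset_prod fun f hf => (hp2' f hf).1).2,
        Matrix.charpoly_natDegree_eq_dim, Fintype.card_fin] at h1
      rw [← h1, Multiset.map_congr rfl (g := fun _ => 1) (fun f hf => ?_), Multiset.map_const', Multiset.sum_replicate,
        smul_eq_mul, mul_one]
      rcases hmem f hf with rfl | rfl
      · simpa using Polynomial.natDegree_X_sub_C (1 : F)
      · simpa using Polynomial.natDegree_X_sub_C (-1 : F)
    refine ⟨m.count (Polynomial.X + 1), (Multiset.count_le_card _ _).trans_eq hcardm,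
      LinAlg.SSClass.isConj_of_charpoly_eq p (hcopA _ 1 one_ne_zero (hDsq _)) hcg ?_⟩
    rw [hDcp _ ((Multiset.count_le_card _ _).trans_eq hcardm), ← hp1]
    congr 1
    refine Multiset.ext.mpr fun f => ?_
    have hsplit : m.count (Polynomial.X - 1) + m.count (Polynomial.X + 1) = n := by
      rw [← hcardm, ← Multiset.toFinset_sum_count_eq m, ← Finset.sum_pair hne12.symm (f := fun f => m.count f)]
      exact (Finset.sum_subset (fun f hf => by
        rcases hmem f (Multiset.mem_toFinset.mp hf) with rfl | rfl <;> simp)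
        (fun f _ hf => Multiset.count_eq_zero.mpr fun h => hf (Multiset.mem_toFinset.mpr h))).symm
    simp only [mset, Multiset.count_add, Multiset.count_replicate]
    by_cases hf1 : f = Polynomial.X - 1
    · subst hf1; rw [if_neg hne12, if_pos rfl]; omega
    by_cases hf2 : f = Polynomial.X + 1
    · subst hf2; rw [if_pos rfl, if_neg (Ne.symm hf1)]; omega
    · rw [if_neg (Ne.symm hf1), if_neg (Ne.symm hf2), add_zero, Multiset.count_eq_zero.mpr]
      exact fun h => (hmem f h).elim hf1 hf2
  have huniq : ∀ i j, i ≤ n → j ≤ n → IsConj (D i) (D j) → i = j := by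
    intro i j hi hj h
    obtain ⟨c, hc⟩ := isConj_iff.mp h
    have h1 : (mset i).prod = (mset j).prod := by
      rw [← hDcp i hi, ← hDcp j hj, ← hc, Units.val_mul, Units.val_mul, Matrix.coe_units_inv,
        Matrix.charpoly_units_conj]
    have h3 := congrArg UniqueFactorizationMonoid.normalizedFactors h1
    rw [LinAlg.SSClass.factors_prod (hmset i), LinAlg.SSClass.factors_prod (hmset j)] at h3
    have h4 := congrArg (Multiset.count (Polynomial.X + 1)) h3
    simpa [mset, Multiset.count_replicate, hne12, Ne.symm hne12] using h4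
  -- the negative of a representative
  have hneg : ∀ i, i ≤ n → ∀ g : GL (Fin n) F,
      (g : Matrix (Fin n) (Fin n) F) = -(D i : Matrix (Fin n) (Fin n) F) → IsConj (D (n - i)) g := by
    intro i hi g hg
    refine LinAlg.SSClass.isConj_of_charpoly_eq p (hcopA _ 1 one_ne_zero (hDsq _))
      (hcopA g 1 one_ne_zero (by rw [hg, neg_sq, hDsq])) ?_
    rw [hg, show -(D i : Matrix (Fin n) (Fin n) F) = Matrix.diagonal (fun j => -(dvec i j)) from
      (Matrix.diagonal_neg (dvec i)), show (D (n - i) : Matrix (Fin n) (Fin n) F) = Matrix.diagonal (dvec (n - i))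
      from rfl, Matrix.charpoly_diagonal, Matrix.charpoly_diagonal]
    rw [← Equiv.prod_comp Fin.revPerm (fun j => Polynomial.X - Polynomial.C (-(dvec i j)))]
    refine Finset.prod_congr rfl fun j _ => ?_
    simp only [dvec, Fin.revPerm_apply, Fin.val_rev]
    have := j.2
    by_cases h : (j : ℕ) < n - i
    · rw [if_pos h, if_neg (show ¬ n - (j + 1) < i by omega)]
    · rw [if_neg h, if_pos (show n - (j + 1) < i by omega), neg_neg]
  -- scalars
  have hcent : ∀ z : GL (Fin n) F, z ∈ Subgroup.center (GL (Fin n) F) ↔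
      ∃ a : F, (z : Matrix (Fin n) (Fin n) F) = a • 1 := fun z => by
    rw [Matrix.GeneralLinearGroup.mem_center_iff_val_mem_range_scalar]
    simp only [Set.mem_range, Matrix.scalar_apply, ← Matrix.smul_one_eq_diagonal, eq_comm]
  have hsmul : ∀ (g : GL (Fin n) F) (a : F), a ≠ 0 → ∃ g' : GL (Fin n) F,
      (g' : Matrix (Fin n) (Fin n) F) = a • (g : Matrix (Fin n) (Fin n) F) ∧
      (QuotientGroup.mk g' : GL (Fin n) F ⧸ Subgroup.center (GL (Fin n) F)) = QuotientGroup.mk g := by
    intro g a ha
    have hd : (a • (1 : Matrix (Fin n) (Fin n) F)).det ≠ 0 := by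
      rw [Matrix.det_smul, Matrix.det_one, mul_one]; exact pow_ne_zero _ ha
    refine ⟨Matrix.GeneralLinearGroup.mkOfDetNeZero _ hd * g, ?_, ?_⟩
    · rw [Units.val_mul]
      show (a • (1 : Matrix (Fin n) (Fin n) F)) * _ = _
      rw [Matrix.smul_mul, one_mul]
    · rw [QuotientGroup.mk_mul, (QuotientGroup.eq_one_iff _).mpr ((hcent _).mpr ⟨a, rfl⟩), one_mul]
  have hn0 : 0 < n := by omega
  have hne : Nonempty (Fin n) := ⟨⟨0, hn0⟩⟩
  have hscalar : ∀ a b : F, a • (1 : Matrix (Fin n) (Fin n) F) = b • 1 → a = b := fun a b h => by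
    simpa using congrFun (congrFun h ⟨0, hn0⟩) ⟨0, hn0⟩
  -- a representative squaring to the non-square
  have hS : Even n → ∃ x : GL (Fin n) F, (x : Matrix (Fin n) (Fin n) F) ^ 2 = c₀ • 1 := by
    rintro ⟨m, hm⟩
    have hgi : Irreducible (Polynomial.X ^ 2 - Polynomial.C c₀) :=
      X_pow_sub_C_irreducible_of_prime Nat.prime_two fun b hb => hc₀ ⟨b, by rw [← hb, sq]⟩
    have hgm := Polynomial.monic_X_pow_sub_C c₀ two_ne_zero
    obtain ⟨x, hx, hxc⟩ := LinAlg.SSClass.exists_gl p (n := n) (hgm.pow m)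
      (by rw [Polynomial.natDegree_pow, Polynomial.natDegree_X_pow_sub_C]; omega)
      (by rw [Polynomial.coeff_zero_eq_eval_zero, Polynomial.eval_pow]; simp [hc00])
    refine ⟨x, ?_⟩
    have h := LinAlg.SSClass.aeval_eq_zero_of_factors p hx (f := Polynomial.X ^ 2 - Polynomial.C c₀)
      fun g _ hgi' hgd => hgi'.prime.dvd_of_dvd_pow (hxc ▸ hgd)
    rwa [map_sub, map_pow, Polynomial.aeval_X, Polynomial.aeval_C, sub_eq_zero, Algebra.algebraMap_eq_smul_one] at h
  have hSuniq : ∀ x y : GL (Fin n) F, (x : Matrix (Fin n) (Fin n) F) ^ 2 = c₀ • 1 →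
      (y : Matrix (Fin n) (Fin n) F) ^ 2 = c₀ • 1 → IsConj x y ∧ Even n := by
    have hgi : Irreducible (Polynomial.X ^ 2 - Polynomial.C c₀) :=
      X_pow_sub_C_irreducible_of_prime Nat.prime_two fun b hb => hc₀ ⟨b, by rw [← hb, sq]⟩
    have hgm := Polynomial.monic_X_pow_sub_C c₀ two_ne_zero
    have key : ∀ x : GL (Fin n) F, (x : Matrix (Fin n) (Fin n) F) ^ 2 = c₀ • 1 →
        ∃ k : ℕ, 2 * k = n ∧ (x : Matrix (Fin n) (Fin n) F).charpoly = (Polynomial.X ^ 2 - Polynomial.C c₀) ^ k := by
      intro x hx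
      obtain ⟨hp1, hp2'⟩ := LinAlg.SSClass.prod_factors (F := F)
        (Matrix.charpoly_monic (x : Matrix (Fin n) (Fin n) F))
      have hall : ∀ f ∈ UniqueFactorizationMonoid.normalizedFactors (x : Matrix (Fin n) (Fin n) F).charpoly,
          f = Polynomial.X ^ 2 - Polynomial.C c₀ := fun f hf => by
        obtain ⟨hfm, hfi, hfd⟩ := hp2' f hf
        refine Polynomial.eq_of_monic_of_associated hfm hgm (hfi.associated_of_dvd hgi ?_)
        exact LinAlg.SSClass.factor_dvd_killer (x := Matrix.toLinAlgEquiv' (x : Matrix (Fin n) (Fin n) F))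
          (by rw [Polynomial.aeval_algHom_apply, map_sub, map_pow, Polynomial.aeval_X, Polynomial.aeval_C, hx,
            Algebra.algebraMap_eq_smul_one, sub_self, map_zero]) hfi
          (by rw [← Matrix.charpoly_toLin'] at hfd; exact hfd)
      rw [Multiset.eq_replicate_card.mpr hall, Multiset.prod_replicate] at hp1
      refine ⟨_, ?_, hp1.symm⟩
      have h1 := congrArg Polynomial.natDegree hp1
      rw [Polynomial.natDegree_pow, Polynomial.natDegree_X_pow_sub_C, Matrix.charpoly_natDegree_eq_dim,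
        Fintype.card_fin] at h1
      omega
    intro x y hx hy
    obtain ⟨k, hk, hkx⟩ := key x hx
    obtain ⟨k', hk', hky⟩ := key y hy
    exact ⟨LinAlg.SSClass.isConj_of_charpoly_eq p (hcopA x c₀ hc00 hx) (hcopA y c₀ hc00 hy)
      (by rw [hkx, hky, show k = k' by omega]), ⟨k, by omega⟩⟩
  -- the classes
  let Q := GL (Fin n) F ⧸ Subgroup.center (GL (Fin n) F)
  have hord : ∀ (g : GL (Fin n) F) (c : F), (g : Matrix (Fin n) (Fin n) F) ^ 2 = c • 1 →
      (∀ a : F, (g : Matrix (Fin n) (Fin n) F) ≠ a • 1) → orderOf (QuotientGroup.mk g : Q) = 2 := by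
    intro g c hg hns
    refine orderOf_eq_prime ?_ ?_
    · rw [← QuotientGroup.mk_pow, QuotientGroup.eq_one_iff, hcent]
      exact ⟨c, by rw [Units.val_pow_eq_pow_val, hg]⟩
    · rw [Ne, QuotientGroup.eq_one_iff, hcent]
      rintro ⟨a, ha⟩
      exact hns a ha
  have hDns : ∀ i, 1 ≤ i → i < n → ∀ a : F, (D i : Matrix (Fin n) (Fin n) F) ≠ a • 1 := fun i h1 h2' a h => by
    have ha := congrFun (congrFun h ⟨0, hn0⟩) ⟨0, hn0⟩
    have hb := congrFun (congrFun h ⟨n - 1, by omega⟩) ⟨n - 1, by omega⟩
    rw [show (D i : Matrix (Fin n) (Fin n) F) = Matrix.diagonal (dvec i) from rfl, Matrix.diagonal_apply_eq,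
      Matrix.smul_apply, Matrix.one_apply_eq, smul_eq_mul, mul_one] at ha hb
    simp only [dvec, if_pos (show 0 < i by omega), if_neg (show ¬ n - 1 < i by omega)] at ha hb
    exact h2 (by linear_combination hb - ha)
  let T := {C : ConjClasses Q // ∃ g : Q, ConjClasses.mk g = C ∧ orderOf g = 2}
  let θ : Fin (n / 2) ⊕ {u : Unit // Even n} → T := Sum.elim
    (fun i => ⟨ConjClasses.mk (QuotientGroup.mk (D (i + 1))), _, rfl,
      hord _ 1 (hDsq _) (hDns _ (by omega) (by omega))⟩)
    (fun h => ⟨ConjClasses.mk (QuotientGroup.mk (hS h.2).choose), _, rfl,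
      hord _ c₀ (hS h.2).choose_spec fun a ha => hc₀ ⟨a, hscalar c₀ (a * a) (by
        rw [← (hS h.2).choose_spec, ha, sq, smul_mul_smul_comm, one_mul])⟩⟩)
  have hlift : ∀ x y : GL (Fin n) F,
      ConjClasses.mk (QuotientGroup.mk x : Q) = ConjClasses.mk (QuotientGroup.mk y) →
      ∃ (a : F) (x' : GL (Fin n) F), IsConj x x' ∧
        (y : Matrix (Fin n) (Fin n) F) = a • (x' : Matrix (Fin n) (Fin n) F) := by
    intro x y h
    obtain ⟨c, hc⟩ := isConj_iff.mp (ConjClasses.mk_eq_mk_iff_isConj.mp h)
    obtain ⟨c, rfl⟩ := QuotientGroup.mk_surjective c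
    rw [← QuotientGroup.mk_inv, ← QuotientGroup.mk_mul, ← QuotientGroup.mk_mul, QuotientGroup.eq, hcent] at hc
    obtain ⟨a, ha⟩ := hc
    refine ⟨a, c * x * c⁻¹, isConj_iff.mpr ⟨c, rfl⟩, ?_⟩
    rw [Units.val_mul] at ha
    have h1 := congrArg (((c * x * c⁻¹ : GL (Fin n) F) : Matrix (Fin n) (Fin n) F) * ·) ha
    simp only [← mul_assoc, Units.mul_inv, one_mul, Matrix.mul_smul, mul_one] at h1
    exact h1
  have hsq : ∀ (x x' y : GL (Fin n) F) (a c d : F), IsConj x x' → (x : Matrix (Fin n) (Fin n) F) ^ 2 = c • 1 →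
      (y : Matrix (Fin n) (Fin n) F) = a • (x' : Matrix (Fin n) (Fin n) F) →
      (y : Matrix (Fin n) (Fin n) F) ^ 2 = d • 1 → d = a * a * c := by
    intro x x' y a c d hxx' hx hy hyd
    obtain ⟨u, rfl⟩ := isConj_iff.mp hxx'
    refine hscalar _ _ ?_
    rw [← hyd, hy, smul_pow, ← Units.val_pow_eq_pow_val, conj_pow, Units.val_mul, Units.val_mul,
      Units.val_pow_eq_pow_val, hx, Matrix.mul_smul, mul_one, Matrix.smul_mul, Units.mul_inv, smul_smul, ← sq]
  have hθ : Function.Bijective θ := by
    refine ⟨?_, ?_⟩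
    · rintro (i | u) (j | v) h
      · obtain ⟨a, x', hxx', hy⟩ := hlift _ _ (congrArg Subtype.val h)
        have h1 := hsq _ _ _ a 1 1 hxx' (hDsq _) hy (hDsq _)
        rw [mul_one, eq_comm, mul_self_eq_one_iff] at h1
        rcases h1 with rfl | rfl
        · rw [one_smul] at hy
          have := huniq (i + 1) (j + 1) (by omega) (by omega) (Units.ext hy ▸ hxx')
          exact congrArg Sum.inl (Fin.ext (by omega))
        · obtain ⟨u, hu⟩ := isConj_iff.mp hxx'
          rw [neg_one_smul] at hy
          let w : GL (Fin n) F := u⁻¹ * D (j + 1) * u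
          have hw : (w : Matrix (Fin n) (Fin n) F) = -(D (i + 1) : Matrix (Fin n) (Fin n) F) := by
            rw [Units.val_mul, Units.val_mul, hy, ← hu, Units.val_mul, Units.val_mul]
            simp [mul_assoc]
          have h5 := huniq (n - (i + 1)) (j + 1) (by omega) (by omega)
            ((hneg (i + 1) (by omega) w hw).trans (isConj_iff.mpr ⟨u, by simp [w, mul_assoc]⟩))
          exact congrArg Sum.inl (Fin.ext (by omega))
      · exfalso
        obtain ⟨a, x', hxx', hy⟩ := hlift _ _ (congrArg Subtype.val h)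
        have h1 := hsq _ _ _ a 1 c₀ hxx' (hDsq _) hy (hS v.2).choose_spec
        exact hc₀ ⟨a, by rw [h1, mul_one]⟩
      · exfalso
        obtain ⟨a, x', hxx', hy⟩ := hlift _ _ (congrArg Subtype.val h)
        have h1 := hsq _ _ _ a c₀ 1 hxx' (hS u.2).choose_spec hy (hDsq _)
        have ha : a ≠ 0 := fun e => by rw [e, zero_mul, zero_mul] at h1; exact one_ne_zero h1
        refine hc₀ ⟨a⁻¹, ?_⟩
        field_simp
        linear_combination -h1
      · exact congrArg Sum.inr (Subsingleton.elim _ _)
    · rintro ⟨C, g, rfl, hg⟩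
      obtain ⟨g, rfl⟩ := QuotientGroup.mk_surjective g
      have h1 : (QuotientGroup.mk g : Q) ^ 2 = 1 := hg ▸ pow_orderOf_eq_one _
      rw [← QuotientGroup.mk_pow, QuotientGroup.eq_one_iff, hcent] at h1
      obtain ⟨c, hc⟩ := h1
      rw [Units.val_pow_eq_pow_val] at hc
      have hc0 : c ≠ 0 := fun e => by
        rw [e, zero_smul] at hc
        exact (g ^ 2).ne_zero (by rw [Units.val_pow_eq_pow_val, hc])
      by_cases hcs : IsSquare c
      · obtain ⟨d, hd⟩ := hcs
        have hd0 : d ≠ 0 := fun e => hc0 (by rw [hd, e, zero_mul])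
        obtain ⟨g', hg', hgg'⟩ := hsmul g d⁻¹ (inv_ne_zero hd0)
        have hg'2 : (g' : Matrix (Fin n) (Fin n) F) ^ 2 = (1 : F) • 1 := by
          rw [hg', smul_pow, hc, smul_smul, hd]
          congr 1
          field_simp
        obtain ⟨i, hi, hiconj⟩ := hone g' hg'2
        have hgns : ∀ a : F, (g' : Matrix (Fin n) (Fin n) F) ≠ a • 1 := fun a ha => by
          rw [← hgg', (QuotientGroup.eq_one_iff g').mpr ((hcent g').mpr ⟨a, ha⟩), orderOf_one] at hg
          omega
        obtain ⟨u, hu⟩ := isConj_iff.mp hiconj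
        have hi0 : i ≠ 0 := fun e => hgns 1 (by
          subst e
          rw [← hu, Units.val_mul, Units.val_mul,
            show (D 0 : Matrix (Fin n) (Fin n) F) = 1 by
              show Matrix.diagonal (dvec 0) = 1
              rw [← Matrix.diagonal_one]; congr 1]
          simp)
        have hin : i ≠ n := fun e => hgns (-1) (by
          subst e
          rw [← hu, Units.val_mul, Units.val_mul,
            show (D i : Matrix (Fin i) (Fin i) F) = -1 by
              show Matrix.diagonal (dvec i) = -1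
              rw [← Matrix.diagonal_one, Matrix.diagonal_neg]; congr 1; funext j; simp [dvec, j.2]]
          simp)
        rcases le_or_gt i (n / 2) with hle | hgt
        · refine ⟨Sum.inl ⟨i - 1, by omega⟩, Subtype.ext (ConjClasses.mk_eq_mk_iff_isConj.mpr ?_)⟩
          show IsConj (QuotientGroup.mk (D (i - 1 + 1)) : Q) (QuotientGroup.mk g)
          rw [Nat.sub_add_cancel (Nat.pos_of_ne_zero hi0), ← hgg']
          exact (QuotientGroup.mk' (Subgroup.center (GL (Fin n) F))).map_isConj hiconj
        · refine ⟨Sum.inl ⟨n - i - 1, by omega⟩, Subtype.ext (ConjClasses.mk_eq_mk_iff_isConj.mpr ?_)⟩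
          show IsConj (QuotientGroup.mk (D (n - i - 1 + 1)) : Q) (QuotientGroup.mk g)
          rw [Nat.sub_add_cancel (by omega : 1 ≤ n - i), ← hgg']
          obtain ⟨g'', hg'', hgg''⟩ := hsmul (D i) (-1) (by simp)
          rw [neg_one_smul] at hg''
          have h3 := (QuotientGroup.mk' (Subgroup.center (GL (Fin n) F))).map_isConj (hneg i hi g'' hg'')
          have h4 := (QuotientGroup.mk' (Subgroup.center (GL (Fin n) F))).map_isConj hiconj
          simp only [QuotientGroup.mk'_apply] at h3 h4
          rw [hgg''] at h3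
          exact h3.trans h4
      · obtain ⟨d, hd⟩ : IsSquare (c * c₀⁻¹) := by
          rw [← quadraticChar_one_iff_isSquare (mul_ne_zero hc0 (inv_ne_zero hc00)), map_mul,
            quadraticChar_neg_one_iff_not_isSquare.mpr hcs,
            quadraticChar_neg_one_iff_not_isSquare.mpr fun hs => hc₀ (by simpa using hs.inv)]
          norm_num
        have hd0 : d ≠ 0 := fun e => mul_ne_zero hc0 (inv_ne_zero hc00) (by rw [hd, e, zero_mul])
        obtain ⟨g', hg', hgg'⟩ := hsmul g d⁻¹ (inv_ne_zero hd0)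
        have hg'2 : (g' : Matrix (Fin n) (Fin n) F) ^ 2 = c₀ • 1 := by
          rw [hg', smul_pow, hc, smul_smul]
          congr 1
          field_simp at hd ⊢
          linear_combination hd
        have hev : Even n := (hSuniq g' g' hg'2 hg'2).2
        refine ⟨Sum.inr ⟨(), hev⟩, Subtype.ext (ConjClasses.mk_eq_mk_iff_isConj.mpr ?_)⟩
        show IsConj (QuotientGroup.mk (hS hev).choose : Q) (QuotientGroup.mk g)
        rw [← hgg']
        exact (QuotientGroup.mk' (Subgroup.center (GL (Fin n) F))).map_isConj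
          (hSuniq _ g' (hS hev).choose_spec hg'2).1
  show Nat.card T = _
  rw [← Nat.card_eq_of_bijective θ hθ, Nat.card_sum, Nat.card_eq_fintype_card, Fintype.card_fin]
  congr 1
  by_cases hev : Even n
  · rw [if_pos hev, Nat.card_congr (Equiv.subtypeUnivEquiv fun _ => hev), Nat.card_unique]
  · rw [if_neg hev]
    have : IsEmpty {u : Unit // Even n} := ⟨fun u => hev u.2⟩
    exact Nat.card_of_isEmpty

end Cfsg.Agent.S2577
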