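import Cfsg.Statements.S2578
import Cfsg.Agent.Lib.LinAlg.RegNilpotent

set_option autoImplicit false
open Cfsg

namespace Cfsg.Agent.S2578

/-- Regular unipotent classes of SL_n(q): for n ≥ 2 over the field with q elements, the matrices u of determinant one with (u − 1)^n = 0 and rank(u − 1) = n − 1 form a single GL_n(q)-class which splits into exactly gcd(n, q − 1) conjugacy classes of SL_n(q). -/
theorem result {F : Type*} [Field F] [Fintype F] {q : ℕ} (hF : Fintype.card F = q) {n : ℕ} (hn : 2 ≤ n) : Nat.card {C : ConjClasses (Matrix.SpecialLinearGroup (Fin n) F) // ∃ u : Matrix.SpecialLinearGroup (Fin n) F, ConjClasses.mk u = C ∧ ((u : Matrix (Fin n) (Fin n) F) - 1) ^ n = 0 ∧ ((u : Matrix (Fin n) (Fin n) F) - 1).rank = n - 1} = Nat.gcd n (q - 1) := by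
  obtain ⟨m, rfl⟩ : ∃ m, n = m + 1 := ⟨n - 1, by omega⟩
  classical
  set S := LinAlg.RegNil.shift F m with hS
  have hreg : LinAlg.RegNil.IsRegNil S := LinAlg.RegNil.isRegNil_shift
  have hJdet : (1 + S : Matrix (Fin (m + 1)) (Fin (m + 1)) F).det = 1 := by
    simpa using LinAlg.RegNil.det_scalar_add_nilpotent (F := F) 1 (M := S) ⟨m + 1, hreg.pow_eq⟩
  let J : GL (Fin (m + 1)) F :=
    Matrix.GeneralLinearGroup.mkOfDetNeZero (1 + S) (by rw [hJdet]; exact one_ne_zero)
  have hJ : (J : Matrix (Fin (m + 1)) (Fin (m + 1)) F) = 1 + S := rfl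
  -- a diagonal element of given determinant
  let dg : Fˣ → GL (Fin (m + 1)) F := fun a => Matrix.GeneralLinearGroup.mkOfDetNeZero
    (Matrix.diagonal fun i : Fin (m + 1) => if i = 0 then (a : F) else 1) (by
      rw [Matrix.det_diagonal]; simp)
  have hdg : ∀ a, Matrix.GeneralLinearGroup.det (dg a) = a := fun a => Units.ext (by
    show (Matrix.diagonal _).det = _
    rw [Matrix.det_diagonal]; simp)
  have hdetJ : Matrix.GeneralLinearGroup.det J = 1 := Units.ext hJdet
  have hdconj : ∀ g : GL (Fin (m + 1)) F,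
      ((g * J * g⁻¹ : GL (Fin (m + 1)) F) : Matrix (Fin (m + 1)) (Fin (m + 1)) F).det = 1 := fun g => by
    rw [← Matrix.GeneralLinearGroup.val_det_apply]
    simp [hdetJ, mul_comm]
  let el : GL (Fin (m + 1)) F → Matrix.SpecialLinearGroup (Fin (m + 1)) F := fun g => ⟨_, hdconj g⟩
  have hel : ∀ g, ((el g : Matrix.SpecialLinearGroup (Fin (m + 1)) F) : GL (Fin (m + 1)) F) = g * J * g⁻¹ :=
    fun g => Units.ext rfl
  have hel_reg : ∀ g, ((el g : Matrix (Fin (m + 1)) (Fin (m + 1)) F) - 1) ^ (m + 1) = 0 ∧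
      ((el g : Matrix (Fin (m + 1)) (Fin (m + 1)) F) - 1).rank = m + 1 - 1 := fun g => by
    have : (el g : Matrix (Fin (m + 1)) (Fin (m + 1)) F) - 1 = (g : Matrix (Fin (m + 1)) (Fin (m + 1)) F) * S *
        ((g⁻¹ : GL (Fin (m + 1)) F) : Matrix (Fin (m + 1)) (Fin (m + 1)) F) := by
      show (g : Matrix (Fin (m + 1)) (Fin (m + 1)) F) * (1 + S) *
        ((g⁻¹ : GL (Fin (m + 1)) F) : Matrix (Fin (m + 1)) (Fin (m + 1)) F) - 1 = _
      rw [mul_add, mul_one, add_mul, Units.mul_inv, add_sub_cancel_left]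
    rw [this, Nat.add_sub_cancel]
    exact ⟨(LinAlg.RegNil.conj hreg g).pow_eq, (LinAlg.RegNil.conj hreg g).rank_eq⟩
  let θ : Fˣ → {C : ConjClasses (Matrix.SpecialLinearGroup (Fin (m + 1)) F) //
      ∃ u : Matrix.SpecialLinearGroup (Fin (m + 1)) F, ConjClasses.mk u = C ∧
        ((u : Matrix (Fin (m + 1)) (Fin (m + 1)) F) - 1) ^ (m + 1) = 0 ∧
        ((u : Matrix (Fin (m + 1)) (Fin (m + 1)) F) - 1).rank = m + 1 - 1} :=
    fun a => ⟨ConjClasses.mk (el (dg a)), el (dg a), rfl, (hel_reg _).1, (hel_reg _).2⟩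
  have hslG : ∀ g, Matrix.GeneralLinearGroup.det
      ((g : Matrix.SpecialLinearGroup (Fin (m + 1)) F) : GL (Fin (m + 1)) F) = 1 :=
    fun g => Units.ext g.2
  have hinj : Function.Injective
      (fun g : Matrix.SpecialLinearGroup (Fin (m + 1)) F => (g : GL (Fin (m + 1)) F)) :=
    fun a b e => Subtype.ext (congrArg (fun z : GL (Fin (m + 1)) F =>
      (z : Matrix (Fin (m + 1)) (Fin (m + 1)) F)) e)
  have hconj : ∀ c w : Matrix.SpecialLinearGroup (Fin (m + 1)) F, ((c * w * c⁻¹ :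
      Matrix.SpecialLinearGroup (Fin (m + 1)) F) : GL (Fin (m + 1)) F) =
      (c : GL (Fin (m + 1)) F) * (w : GL (Fin (m + 1)) F) * (c : GL (Fin (m + 1)) F)⁻¹ := fun c w => by
    rw [map_mul, map_mul, map_inv]
  set K := (powMonoidHom (m + 1) : Fˣ →* Fˣ).range
  have hθ : ∀ a b, θ a = θ b ↔ a⁻¹ * b ∈ K := by
    intro a b
    rw [Subtype.ext_iff, ConjClasses.mk_eq_mk_iff_isConj, isConj_iff]
    constructor
    · rintro ⟨c, hc⟩
      have hc' := congrArg (fun g : Matrix.SpecialLinearGroup (Fin (m + 1)) F => (g : GL (Fin (m + 1)) F)) hc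
      simp only [map_mul, map_inv, hel] at hc'
      set z : GL (Fin (m + 1)) F := (dg b)⁻¹ * (c : GL (Fin (m + 1)) F) * dg a with hz
      have hzJ : z * J = J * z := by
        have h2 : z * J * z⁻¹ = J := by
          rw [hz]
          calc _ = (dg b)⁻¹ * ((c : GL (Fin (m + 1)) F) * (dg a * J * (dg a)⁻¹) * (c : GL (Fin (m + 1)) F)⁻¹) *
              dg b := by group
            _ = _ := by rw [hc']; group
        calc z * J = z * J * z⁻¹ * z := by group
          _ = J * z := by rw [h2]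
      have hcomm : Commute S (z : Matrix (Fin (m + 1)) (Fin (m + 1)) F) := by
        have h3 : Commute (1 + S) (z : Matrix (Fin (m + 1)) (Fin (m + 1)) F) :=
          (congrArg Units.val hzJ).symm
        simpa using LinAlg.RegNil.commute_sub_one_iff.mpr h3
      obtain ⟨v, hv⟩ := LinAlg.RegNil.exists_polN_eq hreg hcomm
      have hd : (Matrix.GeneralLinearGroup.det z : F) = v 0 ^ (m + 1) := by
        rw [Matrix.GeneralLinearGroup.val_det_apply, ← hv, LinAlg.RegNil.det_polN hreg]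
      have hv0 : v 0 ≠ 0 := fun e => (Matrix.GeneralLinearGroup.det z).ne_zero
        (by rw [hd, e, zero_pow (Nat.succ_ne_zero m)])
      refine ⟨(Units.mk0 _ hv0)⁻¹, ?_⟩
      have : Matrix.GeneralLinearGroup.det z = (Units.mk0 _ hv0) ^ (m + 1) := Units.ext (by simpa using hd)
      rw [hz, map_mul, map_mul, map_inv, hdg, hdg, hslG, mul_one] at this
      rw [powMonoidHom_apply, inv_pow, ← this, mul_inv, inv_inv, mul_comm]
    · rintro ⟨v, hv⟩
      rw [powMonoidHom_apply] at hv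
      let sc : GL (Fin (m + 1)) F := Matrix.GeneralLinearGroup.mkOfDetNeZero
        ((v⁻¹ : Fˣ).1 • (1 : Matrix (Fin (m + 1)) (Fin (m + 1)) F)) (by simp)
      have hsc : Matrix.GeneralLinearGroup.det sc = v⁻¹ ^ (m + 1) := Units.ext (by
        show ((v⁻¹ : Fˣ).1 • (1 : Matrix (Fin (m + 1)) (Fin (m + 1)) F)).det = _
        simp)
      have hd : ((dg b * sc * (dg a)⁻¹ : GL (Fin (m + 1)) F) :
          Matrix (Fin (m + 1)) (Fin (m + 1)) F).det = 1 := by
        rw [← Matrix.GeneralLinearGroup.val_det_apply, map_mul, map_mul, map_inv, hdg, hdg, hsc, inv_pow, hv]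
        simp [mul_comm]
      refine ⟨⟨_, hd⟩, hinj ?_⟩
      have hcomm : sc * J = J * sc := Units.ext (by
        show ((v⁻¹ : Fˣ).1 • (1 : Matrix (Fin (m + 1)) (Fin (m + 1)) F)) * (1 + S) =
          (1 + S) * ((v⁻¹ : Fˣ).1 • (1 : Matrix (Fin (m + 1)) (Fin (m + 1)) F))
        simp)
      have hc : (Matrix.SpecialLinearGroup.toGL (⟨_, hd⟩ : Matrix.SpecialLinearGroup (Fin (m + 1)) F)) =
          dg b * sc * (dg a)⁻¹ := Units.ext rfl
      show Matrix.SpecialLinearGroup.toGL _ = Matrix.SpecialLinearGroup.toGL _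
      erw [hconj, hc, hel, hel]
      calc _ = dg b * (sc * J) * sc⁻¹ * (dg b)⁻¹ := by group
        _ = _ := by rw [hcomm]; group
  have hsurj : Function.Surjective θ := by
    rintro ⟨C, u, rfl, hu1, hu2⟩
    obtain ⟨P, hP⟩ := LinAlg.RegNil.exists_conj_shift (⟨hu1, by simpa using hu2⟩ :
      LinAlg.RegNil.IsRegNil ((u : Matrix (Fin (m + 1)) (Fin (m + 1)) F) - 1))
    refine ⟨Matrix.GeneralLinearGroup.det P, Subtype.ext (ConjClasses.mk_eq_mk_iff_isConj.mpr (isConj_iff.mpr ?_))⟩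
    have hd : ((P * (dg (Matrix.GeneralLinearGroup.det P))⁻¹ : GL (Fin (m + 1)) F) :
        Matrix (Fin (m + 1)) (Fin (m + 1)) F).det = 1 := by
      rw [← Matrix.GeneralLinearGroup.val_det_apply, map_mul, map_inv, hdg, mul_inv_cancel, Units.val_one]
    refine ⟨⟨_, hd⟩, hinj ?_⟩
    have hc : (Matrix.SpecialLinearGroup.toGL (⟨_, hd⟩ : Matrix.SpecialLinearGroup (Fin (m + 1)) F)) =
        P * (dg (Matrix.GeneralLinearGroup.det P))⁻¹ := Units.ext rfl
    show Matrix.SpecialLinearGroup.toGL _ = Matrix.SpecialLinearGroup.toGL _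
    erw [hconj, hc, hel]
    have huP : (u : GL (Fin (m + 1)) F) * P = P * J := Units.ext (by
      show (u : Matrix (Fin (m + 1)) (Fin (m + 1)) F) * P =
        (P : Matrix (Fin (m + 1)) (Fin (m + 1)) F) * (1 + S)
      rw [mul_add, mul_one, ← hP, sub_mul, one_mul, add_sub_cancel])
    calc _ = P * J * P⁻¹ := by group
      _ = _ := by rw [← huP]; group
  let e : Fˣ ⧸ K ≃ _ := Equiv.ofBijective
    (Quotient.lift θ fun a b hab => (hθ a b).mpr (QuotientGroup.leftRel_apply.mp hab))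
    ⟨fun x y hxy => Quotient.inductionOn₂ x y
      (fun a b h => Quotient.sound (QuotientGroup.leftRel_apply.mpr ((hθ a b).mp h))) hxy,
     fun C => (hsurj C).elim fun a ha => ⟨Quotient.mk _ a, ha⟩⟩
  rw [← Nat.card_congr e, ← Subgroup.index, IsCyclic.index_powMonoidHom_range, Nat.card_units,
    Nat.card_eq_fintype_card, hF, Nat.gcd_comm]

end Cfsg.Agent.S2578
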