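import Cfsg.Statements.S2585

-- import your own Cfsg.Agent.* helpers here

set_option autoImplicit false
open Cfsg

namespace Cfsg.Agent.S2585

/-- Over a finite field of characteristic two every element of the symplectic group is orthogonal for a suitable quadratic form: for each A in Sp_2m(F) there is a quadratic form Q on F^(2m) whose polar form is the alternating form defining Sp_2m(F) (so Q is non-degenerate) and which A preserves. Equivalently, for m ≥ 1, Sp_2m(F) is the union of the conjugates of its two orthogonal subgroups O⁺_2m(F) and O⁻_2m(F). -/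
theorem result {F : Type*} [Field F] [Fintype F] [CharP F 2] {m : ℕ} (A : Matrix.symplecticGroup (Fin m) F) : ∃ Q : QuadraticForm F (Fin m ⊕ Fin m → F), (∀ u v : Fin m ⊕ Fin m → F, QuadraticMap.polar ⇑Q u v = Cfsg.sympForm m F u v) ∧ ∀ v : Fin m ⊕ Fin m → F, Q ((A : Matrix (Fin m ⊕ Fin m) (Fin m ⊕ Fin m) F).mulVec v) = Q v := by
  classical
  have : ExpChar F 2 := ExpChar.prime Nat.prime_two
  let B₀ : LinearMap.BilinForm F (Fin m ⊕ Fin m → F) :=
    LinearMap.mk₂ F (fun u v => ∑ i, u (Sum.inl i) * v (Sum.inr i))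
      (fun u u' v => by simp [add_mul, Finset.sum_add_distrib])
      (fun c u v => by simp [Finset.mul_sum, mul_assoc])
      (fun u v v' => by simp [mul_add, Finset.sum_add_distrib])
      (fun c u v => by simp [Finset.mul_sum, mul_left_comm])
  let Q₀ : QuadraticForm F (Fin m ⊕ Fin m → F) := LinearMap.BilinMap.toQuadraticMap B₀
  have hpol : ∀ u v, QuadraticMap.polar ⇑Q₀ u v = Cfsg.sympForm m F u v := by
    intro u v
    show QuadraticMap.polar (fun x => B₀ x x) u v = _
    simp only [B₀, LinearMap.mk₂_apply, QuadraticMap.polar, Cfsg.sympForm, Matrix.J, dotProduct, Fintype.sum_sum_type,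
      Pi.add_apply, Matrix.fromBlocks_mulVec, Matrix.zero_mulVec, Matrix.one_mulVec, Matrix.neg_mulVec, Sum.elim_inl, Sum.elim_inr,
      zero_add, add_zero, Pi.neg_apply, CharTwo.neg_eq, Function.comp_apply]
    rw [← Finset.sum_sub_distrib, ← Finset.sum_sub_distrib, ← Finset.sum_add_distrib]
    exact Finset.sum_congr rfl fun i _ => by ring
  let T : (Fin m ⊕ Fin m → F) →ₗ[F] (Fin m ⊕ Fin m → F) :=
    Matrix.mulVecLin (A : Matrix (Fin m ⊕ Fin m) (Fin m ⊕ Fin m) F)
  have hA : ∀ u v, Cfsg.sympForm m F (T u) (T v) = Cfsg.sympForm m F u v := by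
    intro u v
    have h := SymplecticGroup.mem_iff'.1 A.2
    simp only [Cfsg.sympForm, T, Matrix.mulVecLin_apply]
    rw [← Matrix.vecMul_transpose, ← Matrix.dotProduct_mulVec, Matrix.mulVec_mulVec, Matrix.mulVec_mulVec,
      h]
  have hfr : ∀ x : F, ∃ y : F, y ^ 2 = x :=
    (Finite.injective_iff_surjective.1 fun a b h => CharTwo.sq_inj.1 h)
  choose sq hsq using hfr
  let β : (Fin m ⊕ Fin m → F) → F := fun v => Q₀ (T v) + Q₀ v
  let l : (Fin m ⊕ Fin m → F) →ₗ[F] F :=
    { toFun := fun v => sq (β v)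
      map_add' := fun u v => by
        apply CharTwo.sq_inj.1
        rw [CharTwo.add_sq, hsq, hsq, hsq]
        simp only [β, map_add, QuadraticMap.map_add ⇑Q₀, hpol, hA]
        rw [add_add_add_comm, add_add_add_comm (Q₀ (T u)), CharTwo.add_self_eq_zero, add_zero]
      map_smul' := fun c v => by
        apply CharTwo.sq_inj.1
        rw [hsq, RingHom.id_apply, smul_eq_mul, mul_pow, hsq]
        simp only [β, map_smul, QuadraticMap.map_smul, smul_eq_mul]
        ring }
  have hl : l ∈ LinearMap.range (T - LinearMap.id).dualMap := by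
    rw [LinearMap.range_dualMap_eq_dualAnnihilator_ker, Submodule.mem_dualAnnihilator]
    intro v hv
    rw [LinearMap.mem_ker, LinearMap.sub_apply, LinearMap.id_apply, sub_eq_zero] at hv
    apply CharTwo.sq_inj.1
    show sq (β v) ^ 2 = 0 ^ 2
    rw [hsq, zero_pow two_ne_zero]
    simp only [β, hv, CharTwo.add_self_eq_zero]
  obtain ⟨μ, hμ⟩ := hl
  refine ⟨Q₀ + QuadraticMap.linMulLin μ μ, fun u v => ?_, fun v => ?_⟩
  · rw [QuadraticMap.polar, ← hpol u v, QuadraticMap.polar]
    simp only [add_apply, QuadraticMap.linMulLin_apply, map_add]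
    linear_combination (norm := ring_nf) (CharTwo.two_eq_zero (R := F)) * (μ u * μ v)
  · have h := LinearMap.congr_fun hμ v
    rw [LinearMap.dualMap_apply, LinearMap.sub_apply, LinearMap.id_apply, map_sub] at h
    show Q₀ (T v) + μ (T v) * μ (T v) = Q₀ v + μ v * μ v
    have h2 : (μ (T v) - μ v) ^ 2 = Q₀ (T v) + Q₀ v := by rw [h]; exact hsq _
    have e : (2 : F) = 0 := CharTwo.two_eq_zero
    linear_combination h2 + (μ (T v) * μ v - μ v * μ v + Q₀ (T v)) * e

end Cfsg.Agent.S2585
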