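import Cfsg.Statements.S2591
import Cfsg.Agent.Lib.LinAlg.RegNilpotent

set_option autoImplicit false
open Cfsg

namespace Cfsg.Agent.S2591

variable {F : Type*} [Field F] {m : ℕ}

local notation "𝕄" => Matrix (Fin m ⊕ Fin m) (Fin m ⊕ Fin m) F
local notation "𝕁" => Matrix.J (Fin m) F

theorem J_cancel {A B : 𝕄} (h : 𝕁 * A = 𝕁 * B) : A = B := by
  have := congrArg (fun X : 𝕄 => 𝕁 * X) h
  simpa [← mul_assoc, Matrix.J_squared] using this

theorem J_adjoint (A : 𝕄) : 𝕁 * (-(𝕁 * A.transpose * 𝕁)) = A.transpose * 𝕁 := by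
  rw [mul_neg, ← mul_assoc, ← mul_assoc, Matrix.J_squared]
  simp

/-- the commutant of a regular unipotent element consists of scalars plus nilpotents -/
theorem commutant (hm : 1 ≤ m) {U A : 𝕄} (hnil : (U - 1) ^ (2 * m) = 0) (hreg : (U - 1).rank = 2 * m - 1)
    (hA : Commute U A) : ∃ c : F, IsNilpotent (A - c • 1) := by
  obtain ⟨M, hM⟩ : ∃ M, 2 * m = M + 1 := ⟨2 * m - 1, by omega⟩
  let e : Fin (M + 1) ≃ Fin m ⊕ Fin m := (finCongr (by omega)).trans finSumFinEquiv.symm
  let R := Matrix.reindexAlgEquiv F F e.symm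
  set D := R (U - 1) with hD
  have hD' : LinAlg.RegNil.IsRegNil D := by
    refine ⟨?_, ?_⟩
    · rw [hD, ← map_pow, show (U - 1) ^ (M + 1) = 0 by rw [← hM, hnil], map_zero]
    · rw [hD, show R (U - 1) = (U - 1).submatrix e e from rfl, Matrix.rank_submatrix, hreg]
      omega
  obtain ⟨c, hc⟩ := LinAlg.RegNil.exists_polN_eq hD'
    (A := R A) (by rw [hD]; exact (hA.sub_left (Commute.one_left A)).map R)
  refine ⟨c 0, ?_⟩
  have h1 : IsNilpotent (R (A - c 0 • 1)) := by
    rw [map_sub, map_smul, map_one, ← hc, LinAlg.RegNil.polN_split, add_sub_cancel_left]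
    exact Commute.isNilpotent_mul_right (Commute.sum_right _ _ _ fun i _ => (Commute.self_pow D i).smul_right _)
      ⟨M + 1, hD'.pow_eq⟩
  simpa using h1.map R.symm

/-- two regular unipotent elements are conjugate by a matrix in the linear group -/
theorem exists_gl_conj (hm : 1 ≤ m) {U U' : 𝕄} (hnil : (U - 1) ^ (2 * m) = 0)
    (hreg : (U - 1).rank = 2 * m - 1) (hnil' : (U' - 1) ^ (2 * m) = 0) (hreg' : (U' - 1).rank = 2 * m - 1) :
    ∃ g : 𝕄, IsUnit g ∧ g * U = U' * g := by
  obtain ⟨M, hM⟩ : ∃ M, 2 * m = M + 1 := ⟨2 * m - 1, by omega⟩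
  let e : Fin (M + 1) ≃ Fin m ⊕ Fin m := (finCongr (by omega)).trans finSumFinEquiv.symm
  let R := Matrix.reindexAlgEquiv F F e.symm
  have key : ∀ W : 𝕄, (W - 1) ^ (2 * m) = 0 → (W - 1).rank = 2 * m - 1 →
      ∃ P : GL (Fin (M + 1)) F, R (W - 1) * P = P * LinAlg.RegNil.shift F M := by
    intro W h1 h2
    refine LinAlg.RegNil.exists_conj_shift ⟨?_, ?_⟩
    · rw [← map_pow, show (W - 1) ^ (M + 1) = 0 by rw [← hM, h1], map_zero]
    · rw [show R (W - 1) = (W - 1).submatrix e e from rfl, Matrix.rank_submatrix, h2]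
      omega
  obtain ⟨P, hP⟩ := key U hnil hreg
  obtain ⟨P', hP'⟩ := key U' hnil' hreg'
  refine ⟨R.symm ((P' * P⁻¹ : GL (Fin (M + 1)) F) : Matrix (Fin (M + 1)) (Fin (M + 1)) F),
    (P' * P⁻¹).isUnit.map R.symm, ?_⟩
  have h0 : ((P' * P⁻¹ : GL (Fin (M + 1)) F) : Matrix (Fin (M + 1)) (Fin (M + 1)) F) * R (U - 1) =
      R (U' - 1) * ((P' * P⁻¹ : GL (Fin (M + 1)) F) : Matrix (Fin (M + 1)) (Fin (M + 1)) F) := by
    simp only [Units.val_mul]
    calc _ = (P' : Matrix _ _ F) * (((P⁻¹ : GL _ F) : Matrix _ _ F) * (R (U - 1) * ((P : Matrix _ _ F) * ((P⁻¹ : GL _ F) : Matrix _ _ F)))) := by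
          rw [Units.mul_inv, mul_one, mul_assoc]
      _ = (P' : Matrix _ _ F) * ((((P⁻¹ : GL _ F) : Matrix _ _ F) * (P : Matrix _ _ F)) * LinAlg.RegNil.shift F M) * ((P⁻¹ : GL _ F) : Matrix _ _ F) := by
          rw [← mul_assoc (R (U - 1)), hP]; simp only [mul_assoc]
      _ = _ := by rw [Units.inv_mul, one_mul, ← hP']; simp only [mul_assoc]
  have := congrArg R.symm h0
  simp only [map_mul, AlgEquiv.symm_apply_apply, mul_sub, sub_mul, mul_one, one_mul] at this
  simpa only [map_mul] using sub_left_inj.mp this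

/-- regular unipotent symplectic elements are conjugate by similitudes with prescribed multiplier classes -/
theorem exists_similitude [Fintype F] (hm : 1 ≤ m) (h2 : (2 : F) ≠ 0) {e : F} (he : ¬ IsSquare e) {U U' : 𝕄}
    (hU : U ∈ Matrix.symplecticGroup (Fin m) F) (hU' : U' ∈ Matrix.symplecticGroup (Fin m) F)
    (hnil : (U - 1) ^ (2 * m) = 0)
    (hreg : (U - 1).rank = 2 * m - 1) (hnil' : (U' - 1) ^ (2 * m) = 0) (hreg' : (U' - 1).rank = 2 * m - 1) :
    ∃ h : 𝕄, (h.transpose * 𝕁 * h = 𝕁 ∨ h.transpose * 𝕁 * h = e • 𝕁) ∧ h * U = U' * h := by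
  classical
  have : Nonempty (Fin m ⊕ Fin m) := ⟨Sum.inl ⟨0, hm⟩⟩
  obtain ⟨g, hg, hgU⟩ := exists_gl_conj hm hnil hreg hnil' hreg'
  set A : 𝕄 := -(𝕁 * g.transpose * 𝕁) * g with hAdef
  have hJA : 𝕁 * A = g.transpose * 𝕁 * g := by rw [hAdef, ← mul_assoc, J_adjoint]
  have hUJ : U.transpose * 𝕁 * U = 𝕁 := SymplecticGroup.mem_iff'.mp hU
  have hUJ' : U'.transpose * 𝕁 * U' = 𝕁 := SymplecticGroup.mem_iff'.mp hU'
  have h1 : U.transpose * (𝕁 * A) * U = 𝕁 * A := by
    rw [hJA, show U.transpose * (g.transpose * 𝕁 * g) * U = (g * U).transpose * 𝕁 * (g * U) by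
      rw [Matrix.transpose_mul]; simp only [mul_assoc], hgU, Matrix.transpose_mul]
    calc _ = g.transpose * (U'.transpose * 𝕁 * U') * g := by simp only [mul_assoc]
      _ = _ := by rw [hUJ']
  have hunit : IsUnit U := by
    rw [Matrix.isUnit_iff_isUnit_det]
    exact SymplecticGroup.symplectic_det hU
  have hcom : Commute U A := by
    obtain ⟨w, hw⟩ := hunit
    have hwT : U.transpose * 𝕁 = 𝕁 * ((w⁻¹ : 𝕄ˣ) : 𝕄) := by
      calc U.transpose * 𝕁 = U.transpose * 𝕁 * ((w : 𝕄) * ((w⁻¹ : 𝕄ˣ) : 𝕄)) := by rw [Units.mul_inv, mul_one]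
        _ = _ := by rw [← mul_assoc, hw, hUJ]
    have h3 : ((w⁻¹ : 𝕄ˣ) : 𝕄) * A * U = A := J_cancel (by
      rw [← mul_assoc, ← mul_assoc, ← hwT]; simpa only [mul_assoc] using h1)
    show U * A = A * U
    conv_lhs => rw [← h3, ← hw]
    rw [← mul_assoc, ← mul_assoc, Units.mul_inv, one_mul, hw]
  have hAT : A.transpose * 𝕁 = 𝕁 * A := by
    have h4 : (𝕁 * A).transpose = -(𝕁 * A) := by
      rw [hJA, Matrix.transpose_mul, Matrix.transpose_mul, Matrix.transpose_transpose, Matrix.J_transpose]
      simp [mul_assoc]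
    rw [Matrix.transpose_mul, Matrix.J_transpose, mul_neg] at h4
    exact neg_inj.mp h4
  have hAu : IsUnit A := by
    have hJu : IsUnit 𝕁 := (Matrix.isUnit_iff_isUnit_det _).mpr (Matrix.isUnit_det_J _ _)
    have : IsUnit g.transpose := by
      rw [Matrix.isUnit_iff_isUnit_det, Matrix.det_transpose, ← Matrix.isUnit_iff_isUnit_det]; exact hg
    exact (((hJu.mul this).mul hJu).neg).mul hg
  obtain ⟨c, hc⟩ := commutant hm hnil hreg hcom
  have hc0 : c ≠ 0 := fun e => by
    rw [e, zero_smul, sub_zero] at hc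
    exact hc.not_isUnit hAu
  obtain ⟨ν, hν, t, ht⟩ : ∃ ν : F, (ν = 1 ∨ ν = e) ∧ ∃ t : F, c = ν * (t * t) := by
    by_cases hsq : IsSquare c
    · obtain ⟨t, ht⟩ := hsq; exact ⟨1, Or.inl rfl, t, by rw [one_mul, ht]⟩
    · have he0 : e ≠ 0 := fun h => he (h ▸ IsSquare.zero)
      have : IsSquare (c / e) := by
        rw [← quadraticChar_one_iff_isSquare (div_ne_zero hc0 he0)]
        have h5 := quadraticChar_neg_one_iff_not_isSquare.mpr hsq
        have h6 := quadraticChar_neg_one_iff_not_isSquare.mpr he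
        have h7 : quadraticChar F (c / e) * quadraticChar F e = quadraticChar F c := by
          rw [← map_mul, div_mul_cancel₀ _ he0]
        rw [h5, h6] at h7
        omega
      obtain ⟨t, ht⟩ := this
      exact ⟨e, Or.inr rfl, t, by rw [← ht, mul_div_cancel₀ _ he0]⟩
  have ht0 : t ≠ 0 := fun h => hc0 (by rw [ht, h, mul_zero, mul_zero])
  set A1 : 𝕄 := c⁻¹ • A with hA1
  have hn1 : IsNilpotent (A1 - 1) := by
    have : A1 - 1 = c⁻¹ • (A - c • 1) := by rw [hA1, smul_sub, smul_smul, inv_mul_cancel₀ hc0, one_smul]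
    exact this ▸ hc.smul _
  obtain ⟨p, hpc⟩ := CharP.exists F
  have hp : Fact p.Prime := ⟨CharP.char_is_prime F p⟩
  have hpodd : Odd p := hp.out.odd_of_ne_two fun h => h2 (by
    subst h; exact_mod_cast CharP.cast_eq_zero F 2)
  obtain ⟨N, hN⟩ := hn1
  have hpow : A1 ^ p ^ N = 1 := by
    have h8 : (A1 - 1) ^ p ^ N = A1 ^ p ^ N - 1 := by
      rw [sub_pow_char_pow_of_commute p N (Commute.one_right A1), one_pow]
    exact sub_eq_zero.mp (h8 ▸ pow_eq_zero_of_le (Nat.lt_pow_self hp.out.one_lt).le hN)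
  obtain ⟨j, hj⟩ := hpodd.pow (n := N)
  have hA1T : ∀ k, (A1 ^ k).transpose * 𝕁 = 𝕁 * A1 ^ k := fun k => by
    induction k with
    | zero => simp
    | succ k ih =>
      rw [pow_succ', Matrix.transpose_mul, mul_assoc, hA1, Matrix.transpose_smul, Matrix.smul_mul, hAT, ← hA1,
        ← Matrix.mul_smul, ← hA1, ← mul_assoc, ih, mul_assoc, ← pow_succ]
      rw [← pow_succ']
  refine ⟨g * (t⁻¹ • A1 ^ j), ?_, ?_⟩
  · have key : (g * (t⁻¹ • A1 ^ j)).transpose * 𝕁 * (g * (t⁻¹ • A1 ^ j)) = ν • 𝕁 := by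
      have hA' : A = c • A1 := by rw [hA1, smul_smul, mul_inv_cancel₀ hc0, one_smul]
      calc _ = (t⁻¹ * t⁻¹) • ((A1 ^ j).transpose * (g.transpose * 𝕁 * g) * A1 ^ j) := by
            rw [Matrix.transpose_mul, Matrix.transpose_smul]
            simp only [Matrix.smul_mul, Matrix.mul_smul, smul_smul, mul_assoc]
        _ = (t⁻¹ * t⁻¹ * c) • (𝕁 * A1 ^ (j + 1 + j)) := by
            rw [← hJA, ← mul_assoc, hA1T, hA', pow_add, pow_add, pow_one]
            simp only [Matrix.smul_mul, Matrix.mul_smul, smul_smul, mul_assoc]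
        _ = _ := by
            rw [show j + 1 + j = p ^ N by omega, hpow, mul_one, ht]
            congr 1
            field_simp
    rcases hν with rfl | rfl
    · left; rwa [one_smul] at key
    · right; exact key
  · have : Commute U (t⁻¹ • A1 ^ j) := ((hcom.smul_right _).pow_right j).smul_right _
    rw [mul_assoc, ← this.eq, ← mul_assoc, hgU, mul_assoc]

/-- standard unipotent block of the Levi factor -/
def lev (F : Type*) [Field F] (m : ℕ) : Matrix (Fin m) (Fin m) F :=
  1 + (Matrix.of fun j i => if (j : ℕ) = i + 1 then 1 else 0 : Matrix (Fin m) (Fin m) F)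

theorem lev_isUnit_det : IsUnit (lev F m).det := by
  have : (lev F m).det = 1 := by
    rw [Matrix.det_of_isLowerTriangular]
    · exact Finset.prod_eq_one fun i _ => by simp [lev]
    · intro i j hij
      have : (i : ℕ) < j := hij
      simp [lev, Matrix.one_apply, show i ≠ j from fun h => by rw [h] at this; omega,
        show ¬ (i : ℕ) = j + 1 by omega]
  rw [this]; exact isUnit_one

/-- regular unipotent candidates -/
noncomputable def ru (e : F) : 𝕄 :=
  Matrix.fromBlocks (lev F m) (e • (lev F m * (Matrix.of fun j i => if (j : ℕ) = 0 ∧ (i : ℕ) = 0 then 1 else 0 : Matrix (Fin m) (Fin m) F))) 0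
    (lev F m).transpose⁻¹

theorem ru_mem (e : F) : ru (m := m) e ∈ Matrix.symplecticGroup (Fin m) F := by
  rw [SymplecticGroup.mem_iff', ru]
  set A := lev F m
  set S : Matrix (Fin m) (Fin m) F := Matrix.of fun j i => if (j : ℕ) = 0 ∧ (i : ℕ) = 0 then 1 else 0
  have hS : S.transpose = S := by
    ext i j; simp only [S, Matrix.transpose_apply, Matrix.of_apply, and_comm]
  have hA : IsUnit A.det := lev_isUnit_det
  have hAT : IsUnit A.transpose.det := by rwa [Matrix.det_transpose]
  simp only [Matrix.J, Matrix.fromBlocks_transpose, Matrix.fromBlocks_multiply, Matrix.transpose_zero,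
    Matrix.transpose_smul, Matrix.transpose_mul, Matrix.transpose_nonsing_inv, Matrix.transpose_transpose, hS,
    Matrix.mul_zero, Matrix.zero_mul, add_zero, zero_add, Matrix.mul_neg, Matrix.mul_one, Matrix.neg_mul,
    Matrix.mul_nonsing_inv _ hAT, Matrix.nonsing_inv_mul _ hA, neg_zero, Matrix.smul_mul, Matrix.mul_smul]
  rw [mul_assoc S, Matrix.mul_nonsing_inv _ hAT, ← mul_assoc A⁻¹, Matrix.nonsing_inv_mul _ hA]
  simp

theorem ru_regular (hm : 1 ≤ m) {e : F} (he : e ≠ 0) :
    ((ru (m := m) e) - 1) ^ (2 * m) = 0 ∧ (ru (m := m) e - 1).rank = 2 * m - 1 := by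
  classical
  set A := lev F m with hA
  set S : Matrix (Fin m) (Fin m) F := Matrix.of fun j i => if (j : ℕ) = 0 ∧ (i : ℕ) = 0 then 1 else 0
  set N : Matrix (Fin m) (Fin m) F := Matrix.of fun j i => if (j : ℕ) = i + 1 then 1 else 0 with hN
  have hAu : IsUnit A.transpose.det := by rw [Matrix.det_transpose]; exact lev_isUnit_det
  have hsub : ru (m := m) e - 1 = Matrix.fromBlocks N (e • (A * S)) 0 (A.transpose⁻¹ - 1) := by
    rw [← Matrix.fromBlocks_one, ru, ← hA, sub_eq_add_neg, Matrix.fromBlocks_neg, Matrix.fromBlocks_add]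
    simp [hA, lev, N, ← sub_eq_add_neg, S]
  have hNk : ∀ (k : ℕ) (i j : Fin m), (N ^ k) i j ≠ 0 → (i : ℕ) = j + k := by
    intro k
    induction k with
    | zero => intro i j h; by_contra hne; exact h (by simp [Matrix.one_apply, show i ≠ j from fun e => hne (by simp [e])])
    | succ k ih =>
      intro i j h
      rw [pow_succ, Matrix.mul_apply] at h
      obtain ⟨l, -, hl⟩ := Finset.exists_ne_zero_of_sum_ne_zero h
      have h1 := ih i l (left_ne_zero_of_mul hl)
      have h2 := right_ne_zero_of_mul hl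
      simp [N] at h2
      omega
  have hNm : N ^ m = 0 := by
    ext i j
    by_contra h
    have := hNk m i j h
    omega
  have hMm : (A.transpose⁻¹ - 1) ^ m = 0 := by
    have h1 : A.transpose⁻¹ - 1 = A.transpose⁻¹ * -N.transpose := by
      calc A.transpose⁻¹ - 1 = A.transpose⁻¹ * 1 - A.transpose⁻¹ * A.transpose := by
            rw [mul_one, Matrix.nonsing_inv_mul _ hAu]
        _ = _ := by rw [← mul_sub, hA, lev, ← hN]; simp
    have h2 : Commute A.transpose⁻¹ (-N.transpose) := by
      have h3 : Commute A.transpose N.transpose := by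
        rw [hA, lev, ← hN, Matrix.transpose_add, Matrix.transpose_one]
        exact (Commute.one_left _).add_left (Commute.refl _)
      refine Commute.neg_right ?_
      show _ = _
      calc A.transpose⁻¹ * N.transpose = A.transpose⁻¹ * (N.transpose * (A.transpose * A.transpose⁻¹)) := by
            rw [Matrix.mul_nonsing_inv _ hAu, mul_one]
        _ = A.transpose⁻¹ * (A.transpose * N.transpose) * A.transpose⁻¹ := by rw [h3.eq]; simp only [mul_assoc]
        _ = _ := by rw [← mul_assoc, Matrix.nonsing_inv_mul _ hAu, one_mul]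
    rw [h1, h2.mul_pow, neg_pow, ← Matrix.transpose_pow, hNm]
    simp
  have hpow : ∀ k : ℕ, ∃ B, (ru (m := m) e - 1) ^ k = Matrix.fromBlocks (N ^ k) B 0 ((A.transpose⁻¹ - 1) ^ k) := by
    intro k
    induction k with
    | zero => exact ⟨0, by simp [Matrix.fromBlocks_one]⟩
    | succ k ih =>
      obtain ⟨B, hB⟩ := ih
      exact ⟨N ^ k * (e • (A * S)) + B * (A.transpose⁻¹ - 1),
        by rw [pow_succ, hB, hsub, Matrix.fromBlocks_multiply]; simp [pow_succ]⟩
  refine ⟨?_, ?_⟩
  · obtain ⟨B, hB⟩ := hpow m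
    rw [two_mul, pow_add, hB, hNm, hMm, Matrix.fromBlocks_multiply]
    simp
  · let last : Fin m := ⟨m - 1, by omega⟩
    let w : Fin m ⊕ Fin m → F := Sum.elim (Pi.single last 1) 0
    have hw : w ≠ 0 := fun h => by simpa [w] using congrFun h (Sum.inl last)
    have hker : LinearMap.ker (ru (m := m) e - 1).mulVecLin = F ∙ w := by
      apply le_antisymm
      · intro v hv
        rw [LinearMap.mem_ker, Matrix.mulVecLin_apply, hsub, Matrix.fromBlocks_mulVec] at hv
        set x : Fin m → F := v ∘ Sum.inl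
        set y : Fin m → F := v ∘ Sum.inr
        have h1 : ∀ i, (N.mulVec x) i + e * ((A * S).mulVec y) i = 0 := fun i => by
          simpa [Matrix.smul_mulVec] using congrFun hv (Sum.inl i)
        have h2 : (A.transpose⁻¹ - 1).mulVec y = 0 := by
          funext i; simpa using congrFun hv (Sum.inr i)
        have h3 : N.transpose.mulVec y = 0 := by
          have h4 : A.transpose⁻¹.mulVec y = y := by rwa [Matrix.sub_mulVec, Matrix.one_mulVec, sub_eq_zero] at h2
          have h5 := congrArg A.transpose.mulVec h4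
          rw [Matrix.mulVec_mulVec, Matrix.mul_nonsing_inv _ hAu, Matrix.one_mulVec, hA, lev, ← hN,
            Matrix.transpose_add, Matrix.transpose_one, Matrix.add_mulVec, Matrix.one_mulVec] at h5
          simpa using h5.symm
        have hy : ∀ j : Fin m, (j : ℕ) ≠ 0 → y j = 0 := fun j hj => by
          have := congrFun h3 ⟨j - 1, by omega⟩
          simp only [Matrix.mulVec, dotProduct, Matrix.transpose_apply, N, Matrix.of_apply, Pi.zero_apply] at this
          rw [Finset.sum_eq_single j] at this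
          · rwa [if_pos (by omega), one_mul] at this
          · intro b _ hb
            rw [if_neg, zero_mul]
            intro h; exact hb (Fin.ext (by omega))
          · simp
        have hy0 : y = 0 := by
          let z : Fin m := ⟨0, hm⟩
          have h6 := h1 z
          have hN0 : (N.mulVec x) z = 0 := by simp [Matrix.mulVec, dotProduct, N, z]
          have hAS : ((A * S).mulVec y) z = y z := by
            simp only [Matrix.mulVec, dotProduct]
            rw [Finset.sum_eq_single z]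
            · rw [Matrix.mul_apply, Finset.sum_eq_single z]
              · simp [hA, lev, S, z]
              · intro b _ hb; simp [S, show (b : ℕ) ≠ 0 from fun h => hb (Fin.ext h)]
              · simp
            · intro b _ hb; rw [hy b (fun h => hb (Fin.ext h)), mul_zero]
            · simp
          rw [hN0, hAS, zero_add] at h6
          funext j
          by_cases hj : (j : ℕ) = 0
          · rw [show j = z from Fin.ext hj]; exact (mul_eq_zero.mp h6).resolve_left he
          · exact hy j hj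
        have hx : ∀ j : Fin m, j ≠ last → x j = 0 := fun j hj => by
          have hjl : (j : ℕ) + 1 < m := by
            have : (j : ℕ) ≠ m - 1 := fun h => hj (Fin.ext h)
            omega
          have := h1 ⟨j + 1, hjl⟩
          rw [hy0, Matrix.mulVec_zero] at this
          simp only [Matrix.mulVec, dotProduct, N, Matrix.of_apply, Pi.zero_apply, mul_zero, add_zero] at this
          rw [Finset.sum_eq_single j] at this
          · simpa using this
          · intro b _ hb
            rw [if_neg, zero_mul]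
            intro h; exact hb (Fin.ext (by omega))
          · simp
        refine Submodule.mem_span_singleton.mpr ⟨x last, funext fun i => ?_⟩
        rcases i with i | i
        · by_cases hi : i = last
          · subst hi; simp [w, x]
          · simpa [w, x, hi] using (hx i hi).symm
        · simpa [w, y] using (congrFun hy0 i).symm
      · rw [Submodule.span_singleton_le_iff_mem, LinearMap.mem_ker, Matrix.mulVecLin_apply, hsub,
          Matrix.fromBlocks_mulVec]
        have h7 : (w ∘ Sum.inr) = 0 := rfl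
        have h8 : N.mulVec (w ∘ Sum.inl) = 0 := by
          funext i
          rw [show w ∘ Sum.inl = Pi.single last 1 from rfl, Matrix.mulVec_single_one]
          simp [N, last]
          omega
        rw [h7, h8]
        simp
    have := (ru (m := m) e - 1).mulVecLin.finrank_range_add_finrank_ker
    rw [hker, finrank_span_singleton hw, Module.finrank_fintype_fun_eq_card, Fintype.card_sum, Fintype.card_fin]
      at this
    show Module.finrank F (LinearMap.range (ru (m := m) e - 1).mulVecLin) = _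
    omega

/-- diagonal similitude -/
def sim (e : F) : 𝕄 := Matrix.fromBlocks (e • 1) 0 0 1

theorem sim_form (e : F) : (sim (m := m) e).transpose * 𝕁 * sim e = e • 𝕁 := by
  simp [sim, Matrix.J, Matrix.fromBlocks_transpose, Matrix.fromBlocks_multiply, Matrix.fromBlocks_smul]

theorem sim_ru (e : F) : sim e * ru 1 = ru (m := m) e * sim e := by
  simp [sim, ru, Matrix.fromBlocks_multiply]

theorem sim_mul_inv {e : F} (he : e ≠ 0) : sim (m := m) e * sim e⁻¹ = 1 := by
  simp [sim, Matrix.fromBlocks_multiply, smul_smul, he, Matrix.fromBlocks_one]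

/-- Over a finite field of odd order and for m ≥ 1, the regular unipotent elements of Sp_2m(F) (u − 1 nilpotent of rank 2m − 1, a single Jordan block) form exactly two conjugacy classes of Sp_2m(F) (one class under the similarity group, which splits in two). -/
theorem result {F : Type*} [Field F] [Fintype F] {q : ℕ} (hF : Fintype.card F = q) (hq : Odd q) {m : ℕ} (hm : 1 ≤ m) : Nat.card {C : ConjClasses ↥(Matrix.symplecticGroup (Fin m) F) // ∃ u : Matrix.symplecticGroup (Fin m) F, ConjClasses.mk u = C ∧ ((u : Matrix (Fin m ⊕ Fin m) (Fin m ⊕ Fin m) F) - 1) ^ (2 * m) = 0 ∧ ((u : Matrix (Fin m ⊕ Fin m) (Fin m ⊕ Fin m) F) - 1).rank = 2 * m - 1} = 2 := by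
  classical
  have h2 : (2 : F) ≠ 0 := by
    obtain ⟨p, hpc⟩ := CharP.exists F
    have hp : Fact p.Prime := ⟨CharP.char_is_prime F p⟩
    intro h
    have h' : ((2 : ℕ) : F) = 0 := by exact_mod_cast h
    have := (Nat.prime_dvd_prime_iff_eq hp.out Nat.prime_two).mp ((CharP.cast_eq_zero_iff F p 2).mp h')
    subst this
    obtain ⟨k, -, hk⟩ := FiniteField.card F 2
    rw [hF] at hk
    exact (Nat.not_odd_iff_even.mpr (hk ▸ (Nat.even_pow.mpr ⟨even_two, k.ne_zero⟩))) hq
  obtain ⟨e, he⟩ := FiniteField.exists_nonsquare (F := F) (fun h => h2 (by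
    have : CharP F 2 := h ▸ ringChar.charP F
    exact_mod_cast CharP.cast_eq_zero F 2))
  have he0 : e ≠ 0 := fun h => he (h ▸ IsSquare.zero)
  let a : Matrix.symplecticGroup (Fin m) F := ⟨ru 1, ru_mem 1⟩
  let b : Matrix.symplecticGroup (Fin m) F := ⟨ru e, ru_mem e⟩
  obtain ⟨ha1, ha2⟩ := ru_regular (F := F) hm one_ne_zero
  obtain ⟨hb1, hb2⟩ := ru_regular (F := F) hm he0
  rw [Nat.card_eq_two_iff]
  refine ⟨⟨ConjClasses.mk a, a, rfl, ha1, ha2⟩, ⟨ConjClasses.mk b, b, rfl, hb1, hb2⟩, ?_, ?_⟩
  · intro h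
    obtain ⟨g, hg⟩ := isConj_iff.mp (ConjClasses.mk_eq_mk_iff_isConj.mp (congrArg Subtype.val h))
    set G := (g : Matrix (Fin m ⊕ Fin m) (Fin m ⊕ Fin m) F) with hG
    have h1 : G * ru 1 = ru e * G :=
      congrArg Subtype.val (show g * a = b * g by rw [← hg, inv_mul_cancel_right])
    set k := sim e⁻¹ * G with hk
    have hinv : sim e⁻¹ * sim e = (1 : Matrix (Fin m ⊕ Fin m) (Fin m ⊕ Fin m) F) :=
      mul_eq_one_comm.mp (sim_mul_inv he0)
    have hkc : Commute (ru 1) k := by
      show ru 1 * k = k * ru 1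
      calc ru 1 * k = sim e⁻¹ * (sim e * ru 1) * (sim e⁻¹ * G) := by
            rw [← mul_assoc (sim e⁻¹) (sim e), hinv, one_mul]
        _ = sim e⁻¹ * ru e * (sim e * sim e⁻¹) * G := by rw [sim_ru]; simp only [mul_assoc]
        _ = sim e⁻¹ * (ru e * G) := by rw [sim_mul_inv he0, mul_one, mul_assoc]
        _ = _ := by rw [← h1, hk, mul_assoc]
    have hform : k.transpose * Matrix.J (Fin m) F * k = e⁻¹ • Matrix.J (Fin m) F := by
      calc k.transpose * Matrix.J (Fin m) F * k
          = G.transpose * ((sim e⁻¹).transpose * Matrix.J (Fin m) F * sim e⁻¹) * G := by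
            rw [hk, Matrix.transpose_mul]; simp only [mul_assoc]
        _ = _ := by rw [sim_form, Matrix.mul_smul, Matrix.smul_mul, SymplecticGroup.mem_iff'.mp g.2]
    set k' := -(Matrix.J (Fin m) F * k.transpose * Matrix.J (Fin m) F) with hk'
    have hk'k : k' * k = e⁻¹ • 1 := J_cancel (by rw [← mul_assoc, hk', J_adjoint, hform, Matrix.mul_smul, mul_one])
    have hkk' : k * k' = e⁻¹ • 1 := by
      have h3 : (e • k') * k = 1 := by rw [Matrix.smul_mul, hk'k, smul_smul, mul_inv_cancel₀ he0, one_smul]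
      have h4 := mul_eq_one_comm.mp h3
      rw [Matrix.mul_smul] at h4
      rw [← one_smul F (k * k'), ← inv_mul_cancel₀ he0, ← smul_smul, h4]
    obtain ⟨c, hc⟩ := commutant hm ha1 ha2 hkc
    have hc' : IsNilpotent (k' - c • 1) := by
      obtain ⟨n, hn⟩ := hc
      refine ⟨n, ?_⟩
      have h4 : Matrix.J (Fin m) F * (k' - c • 1) = (k - c • 1).transpose * Matrix.J (Fin m) F := by
        rw [mul_sub, hk', J_adjoint, Matrix.mul_smul, mul_one]
        simp [Matrix.transpose_sub, sub_mul]
      have h5 : ∀ j : ℕ, Matrix.J (Fin m) F * (k' - c • 1) ^ j = ((k - c • 1) ^ j).transpose * Matrix.J (Fin m) F := by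
        intro j
        induction j with
        | zero => simp
        | succ j ih => rw [pow_succ, ← mul_assoc, ih, mul_assoc, h4, ← mul_assoc, ← Matrix.transpose_mul, ← pow_succ']
      exact J_cancel (by rw [h5, hn, Matrix.transpose_zero, zero_mul, mul_zero])
    have hcomm : Commute k k' := hkk'.trans hk'k.symm
    have h8 : Commute (k - c • 1) k' := hcomm.sub_left ((Commute.one_left k').smul_left c)
    have h9 : Commute k' (k' - c • 1) := (Commute.refl k').sub_right ((Commute.one_right k').smul_right c)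
    have h10 : Commute (k - c • 1) (k' - c • 1) := h8.sub_right ((Commute.one_right _).smul_right c)
    have hs : IsNilpotent ((k - c • 1) * k' + c • (k' - c • 1)) :=
      ((h10.smul_right c).mul_left (h9.smul_right c)).isNilpotent_add
        (h8.isNilpotent_mul_right hc) (hc'.smul c)
    have h6 : (k - c • 1) * k' + c • (k' - c • 1) = (e⁻¹ - c * c) • (1 : Matrix (Fin m ⊕ Fin m) (Fin m ⊕ Fin m) F) := by
      rw [sub_mul, Matrix.smul_mul, one_mul, hkk', smul_sub, smul_smul, sub_smul]
      abel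
    rw [h6] at hs
    obtain ⟨n, hn⟩ := hs
    have h7 : (e⁻¹ - c * c) ^ n = 0 := by
      rw [smul_pow, one_pow] at hn
      simpa using congrFun (congrFun hn (Sum.inl ⟨0, hm⟩)) (Sum.inl ⟨0, hm⟩)
    exact he ⟨c⁻¹, by rw [← mul_inv, ← sub_eq_zero.mp (pow_eq_zero_iff'.mp h7).1, inv_inv]⟩
  · refine Set.eq_univ_of_forall fun ⟨C, u, hC, h1, h3⟩ => ?_
    simp only [Set.mem_insert_iff, Set.mem_singleton_iff, Subtype.mk.injEq]
    subst hC
    obtain ⟨h, hh, hhu⟩ := exists_similitude hm h2 he (ru_mem 1) u.2 ha1 ha2 h1 h3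
    rcases hh with hh | hh
    · left
      let g : Matrix.symplecticGroup (Fin m) F := ⟨h, SymplecticGroup.mem_iff'.mpr hh⟩
      have : g * a = u * g := Subtype.ext hhu
      exact (ConjClasses.mk_eq_mk_iff_isConj.mpr (isConj_iff.mpr ⟨g, by rw [this, mul_inv_cancel_right]⟩)).symm
    · right
      have hh' : (h * sim e⁻¹).transpose * Matrix.J (Fin m) F * (h * sim e⁻¹) = Matrix.J (Fin m) F := by
        calc _ = (sim e⁻¹).transpose * (h.transpose * Matrix.J (Fin m) F * h) * sim e⁻¹ := by
              rw [Matrix.transpose_mul]; simp only [mul_assoc]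
          _ = _ := by rw [hh, Matrix.mul_smul, Matrix.smul_mul, sim_form, smul_smul, mul_inv_cancel₀ he0, one_smul]
      let g : Matrix.symplecticGroup (Fin m) F := ⟨h * sim e⁻¹, SymplecticGroup.mem_iff'.mpr hh'⟩
      have hinv : sim e⁻¹ * sim e = (1 : Matrix (Fin m ⊕ Fin m) (Fin m ⊕ Fin m) F) :=
        mul_eq_one_comm.mp (sim_mul_inv he0)
      have : g * b = u * g := Subtype.ext (show h * sim e⁻¹ * ru e = u.1 * (h * sim e⁻¹) by
        calc h * sim e⁻¹ * ru e = h * (sim e⁻¹ * (ru e * (sim e * sim e⁻¹))) := by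
              rw [sim_mul_inv he0, mul_one, mul_assoc]
          _ = h * (sim e⁻¹ * sim e) * ru 1 * sim e⁻¹ := by rw [← mul_assoc (ru e), ← sim_ru]; simp only [mul_assoc]
          _ = _ := by rw [hinv, mul_one, hhu, mul_assoc])
      exact (ConjClasses.mk_eq_mk_iff_isConj.mpr (isConj_iff.mpr ⟨g, by rw [this, mul_inv_cancel_right]⟩)).symm

end Cfsg.Agent.S2591
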