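import Cfsg.Statements.S2592
import Cfsg.Agent.Lib.LinAlg.RegNilpotent

set_option autoImplicit false
open Cfsg

namespace Cfsg.Agent.S2592

open Polynomial in
/-- the even part equation -/
noncomputable def eqn {F : Type*} [Field F] (c : ℕ → F) (l : ℕ) : F :=
  ∑ i ∈ Finset.range (l + 1), (-1) ^ i * c i * c (l - i)

theorem eqn_odd {F : Type*} [Field F] (h2 : (2 : F) ≠ 0) (c : ℕ → F) {l : ℕ} (hl : Odd l) : eqn c l = 0 := by
  have h : eqn c l = -eqn c l := by
    conv_lhs => rw [eqn, ← Finset.sum_range_reflect]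
    rw [eqn, ← Finset.sum_neg_distrib]
    refine Finset.sum_congr rfl fun i hi => ?_
    rw [Finset.mem_range] at hi
    rw [show l + 1 - 1 - i = l - i by omega, show l - (l - i) = i by omega]
    have hs : (-1 : F) ^ (l - i) = -(-1) ^ i := by
      have h1 : (-1 : F) ^ (l - i) * (-1) ^ i = -1 := by rw [← pow_add, Nat.sub_add_cancel (by omega), hl.neg_one_pow]
      have h3 : ((-1 : F) ^ i) * (-1) ^ i = 1 := by rw [← mul_pow]; simp
      linear_combination (-1 : F) ^ i * h1 - (-1 : F) ^ (l - i) * h3
    rw [hs]; ring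
  rcases mul_eq_zero.mp (show (2 : F) * eqn c l = 0 by linear_combination h) with h' | h'
  · exact absurd h' h2
  · exact h'

theorem eqn_split {F : Type*} [Field F] (c : ℕ → F) (j : ℕ) :
    eqn c (2 * (j + 1)) = 2 * c 0 * c (2 * (j + 1)) +
      ∑ i ∈ Finset.range (2 * j + 1), (-1) ^ (i + 1) * c (i + 1) * c (2 * j + 1 - i) := by
  rw [eqn, Finset.sum_range_succ', show 2 * (j + 1) = (2 * j + 1) + 1 by ring, Finset.sum_range_succ]
  simp only [Nat.sub_zero, pow_zero, one_mul, Nat.sub_self]
  have h : ((-1 : F)) ^ (2 * j + 1 + 1) = 1 := Even.neg_one_pow ⟨j + 1, by ring⟩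
  rw [h, Finset.sum_congr rfl (g := fun i => (-1) ^ (i + 1) * c (i + 1) * c (2 * j + 1 - i)) (fun i _ => by
    rw [show 2 * j + 1 + 1 - (i + 1) = 2 * j + 1 - i by omega])]
  ring

theorem eqn_congr {F : Type*} [Field F] {c c' : ℕ → F} {l : ℕ} (h : ∀ i ≤ l, c i = c' i) : eqn c l = eqn c' l :=
  Finset.sum_congr rfl fun i hi => by
    rw [Finset.mem_range] at hi
    rw [h i (by omega), h (l - i) (by omega)]

/-- solutions are parametrised by a sign and the odd coefficients -/
theorem card_solutions {F : Type*} [Field F] [Fintype F] (h2 : (2 : F) ≠ 0) (m : ℕ) (hm : 1 ≤ m) :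
    Nat.card {c : Fin (2 * m) → F // ∀ l < 2 * m,
      eqn (fun i => if h : i < 2 * m then c ⟨i, h⟩ else 0) l = if l = 0 then 1 else 0} =
    2 * Fintype.card F ^ m := by
  classical
  let ext : (Fin (2 * m) → F) → ℕ → F := fun c i => if h : i < 2 * m then c ⟨i, h⟩ else 0
  let T := {c : Fin (2 * m) → F // ∀ l < 2 * m, eqn (ext c) l = if l = 0 then 1 else 0}
  let π : T → {s : F // s * s = 1} × (Fin m → F) := fun c =>
    (⟨ext c.1 0, by simpa [eqn] using c.2 0 (by omega)⟩, fun j => ext c.1 (2 * j + 1))
  have hπ : Function.Bijective π := by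
    refine ⟨fun c d h => ?_, ?_⟩
    · have h0 : ext c.1 0 = ext d.1 0 := congrArg (fun z => z.1.1) h
      have hodd : ∀ j < m, ext c.1 (2 * j + 1) = ext d.1 (2 * j + 1) := fun j hj =>
        congrFun (congrArg Prod.snd h) ⟨j, hj⟩
      have key : ∀ i < 2 * m, ext c.1 i = ext d.1 i := by
        intro i
        induction i using Nat.strong_induction_on with
        | _ i ih =>
          intro hi
          rcases Nat.even_or_odd' i with ⟨j, rfl | rfl⟩
          · rcases Nat.eq_zero_or_pos j with rfl | hj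
            · exact h0
            · obtain ⟨j', rfl⟩ : ∃ j', j = j' + 1 := ⟨j - 1, by omega⟩
              have h1 := c.2 (2 * (j' + 1)) hi
              have h3 := d.2 (2 * (j' + 1)) hi
              rw [if_neg (by omega), eqn_split] at h1 h3
              rw [Finset.sum_congr rfl (g := fun i => (-1) ^ (i + 1) * ext d.1 (i + 1) * ext d.1 (2 * j' + 1 - i))
                (fun i hi => by
                  rw [Finset.mem_range] at hi
                  rw [ih (i + 1) (by omega) (by omega), ih (2 * j' + 1 - i) (by omega) (by omega)]), h0] at h1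
              have hd0 : ext d.1 0 ≠ 0 := fun e => by
                have := d.2 0 (by omega)
                simp [eqn, e] at this
              refine mul_left_cancel₀ (mul_ne_zero h2 hd0) ?_
              linear_combination h1 - h3
          · exact hodd j (by omega)
      refine Subtype.ext (funext fun i => ?_)
      simpa [ext] using key i i.2
    · rintro ⟨⟨s, hs⟩, o⟩
      have hs0 : s ≠ 0 := fun e => by rw [e, zero_mul] at hs; exact zero_ne_one hs
      have key : ∀ j, ∃ c : ℕ → F, c 0 = s ∧ (∀ i, (h : i < m) → c (2 * i + 1) = o ⟨i, h⟩) ∧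
          ∀ l, l < j → eqn c (2 * (l + 1)) = 0 := by
        intro j
        induction j with
        | zero =>
          refine ⟨fun i => if i = 0 then s else if h : i / 2 < m then o ⟨i / 2, h⟩ else 0, if_pos rfl,
            fun i h => ?_, fun l hl => absurd hl (by omega)⟩
          have h1 : (2 * i + 1) / 2 = i := by omega
          simp only [if_neg (show 2 * i + 1 ≠ 0 by omega), h1, dif_pos h]
        | succ j ih =>
          obtain ⟨c, hc0, hco, hce⟩ := ih
          let v := -(∑ i ∈ Finset.range (2 * j + 1), (-1) ^ (i + 1) * c (i + 1) * c (2 * j + 1 - i)) / (2 * s)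
          refine ⟨Function.update c (2 * (j + 1)) v, ?_, fun i h => ?_, fun l hl => ?_⟩
          · rw [Function.update_of_ne (by omega), hc0]
          · rw [Function.update_of_ne (by omega), hco i h]
          · rcases Nat.lt_or_ge l j with hlj | hlj
            · rw [eqn_congr (c' := c) fun i hi => Function.update_of_ne (by omega) _ _, hce l hlj]
            · obtain rfl : l = j := by omega
              rw [eqn_split, Function.update_of_ne (by omega), Function.update_self, hc0,
                Finset.sum_congr rfl (g := fun i => (-1) ^ (i + 1) * c (i + 1) * c (2 * l + 1 - i)) (fun i hi => by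
                  rw [Finset.mem_range] at hi
                  rw [Function.update_of_ne (by omega), Function.update_of_ne (by omega)])]
              simp only [v]
              field_simp
              ring
      obtain ⟨c, hc0, hco, hce⟩ := key m
      refine ⟨⟨fun i => c i, fun l hl => ?_⟩, ?_⟩
      · rw [eqn_congr (c' := c) fun i hi => by simp [ext, show i < 2 * m by omega]]
        rcases Nat.even_or_odd' l with ⟨j, rfl | rfl⟩
        · rcases Nat.eq_zero_or_pos j with rfl | hj
          · simp [eqn, hc0, hs]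
          · rw [if_neg (by omega), show j = j - 1 + 1 by omega]
            exact hce _ (by omega)
        · rw [if_neg (by omega)]
          exact eqn_odd h2 c ⟨j, rfl⟩
      · refine Prod.ext (Subtype.ext ?_) (funext fun j => ?_)
        · simp [π, ext, show 0 < 2 * m by omega, hc0]
        · have := j.2
          simp [π, ext, show 2 * (j : ℕ) + 1 < 2 * m by omega, hco j j.2]
  have hcs : Nat.card {s : F // s * s = 1} = 2 := by
    rw [Nat.card_eq_fintype_card, Fintype.card_subtype]
    have hne : (1 : F) ≠ -1 := fun h => h2 (by linear_combination h)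
    rw [show (Finset.univ.filter fun s : F => s * s = 1) = {1, -1} by
      ext s; simp [mul_self_eq_one_iff], Finset.card_pair hne]
  show Nat.card T = _
  rw [Nat.card_eq_of_bijective π hπ, Nat.card_prod, hcs, Nat.card_eq_fintype_card, Fintype.card_fun, Fintype.card_fin]

/-- Over a finite field with q elements, q odd, the centraliser in Sp_2m(F) (m ≥ 1) of a regular unipotent element (u − 1 nilpotent of rank 2m − 1) has order 2 q^m. -/
theorem result {F : Type*} [Field F] [Fintype F] {q : ℕ} (hF : Fintype.card F = q) (hq : Odd q) {m : ℕ} (hm : 1 ≤ m) (u : Matrix.symplecticGroup (Fin m) F) (hnil : ((u : Matrix (Fin m ⊕ Fin m) (Fin m ⊕ Fin m) F) - 1) ^ (2 * m) = 0) (hreg : ((u : Matrix (Fin m ⊕ Fin m) (Fin m ⊕ Fin m) F) - 1).rank = 2 * m - 1) : Nat.card ↥(Subgroup.centralizer ({u} : Set ↥(Matrix.symplecticGroup (Fin m) F))) = 2 * q ^ m := by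
  classical
  have h2 : (2 : F) ≠ 0 := by
    obtain ⟨p, hpc⟩ := CharP.exists F
    have hp : Fact p.Prime := ⟨CharP.char_is_prime F p⟩
    intro h
    have h' : ((2 : ℕ) : F) = 0 := by exact_mod_cast h
    have := (Nat.prime_dvd_prime_iff_eq hp.out Nat.prime_two).mp ((CharP.cast_eq_zero_iff F p 2).mp h')
    subst this
    obtain ⟨k, -, hk⟩ := FiniteField.card F 2
    rw [hF] at hk
    exact (Nat.not_odd_iff_even.mpr (hk ▸ (Nat.even_pow.mpr ⟨even_two, k.ne_zero⟩))) hq
  obtain ⟨M, hM⟩ : ∃ M, 2 * m = M + 1 := ⟨2 * m - 1, by omega⟩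
  let e : Fin (M + 1) ≃ Fin m ⊕ Fin m := (finCongr (by omega)).trans finSumFinEquiv.symm
  let R := Matrix.reindexAlgEquiv F F e.symm
  set U := (u : Matrix (Fin m ⊕ Fin m) (Fin m ⊕ Fin m) F) with hU
  set V := ((u⁻¹ : Matrix.symplecticGroup (Fin m) F) : Matrix (Fin m ⊕ Fin m) (Fin m ⊕ Fin m) F) with hV
  set J := Matrix.J (Fin m) F with hJ
  have hUV : U * V = 1 := congrArg Subtype.val (mul_inv_cancel u)
  have hVU : V * U = 1 := congrArg Subtype.val (inv_mul_cancel u)
  have hUJ : U.transpose * J * U = J := SymplecticGroup.mem_iff'.mp u.2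
  have hVJ : V.transpose * J * V = J := SymplecticGroup.mem_iff'.mp (u⁻¹).2
  have hUT : U.transpose * J = J * V := by
    calc U.transpose * J = U.transpose * J * (U * V) := by rw [hUV, mul_one]
      _ = _ := by rw [← mul_assoc, hUJ]
  have hVT : V.transpose * J = J * U := by
    calc V.transpose * J = V.transpose * J * (V * U) := by rw [hVU, mul_one]
      _ = _ := by rw [← mul_assoc, hVJ]
  set D := R (U - V) with hD
  have hskew : (U - V).transpose * J = J * -(U - V) := by
    rw [Matrix.transpose_sub, sub_mul, hUT, hVT, neg_sub, mul_sub]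
  have hnilU : IsNilpotent (U - 1) := ⟨_, hnil⟩
  have hfac : U - V = (U - 1) * ((2 : F) • (1 : Matrix _ _ F) + (U - 1)) * V := by
    have h3 : (2 : F) • (1 : Matrix (Fin m ⊕ Fin m) (Fin m ⊕ Fin m) F) + (U - 1) = U + 1 := by
      rw [two_smul]; abel
    rw [h3, show (U - 1) * (U + 1) = U * U - 1 by noncomm_ring, sub_mul, one_mul, mul_assoc, hUV, mul_one]
  have hUcV : Commute U V := hUV.trans hVU.symm
  have hreg' : LinAlg.RegNil.IsRegNil D := by
    have hu : IsUnit (((2 : F) • (1 : Matrix _ _ F) + (U - 1)) * V).det := by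
      rw [Matrix.det_mul, LinAlg.RegNil.det_scalar_add_nilpotent 2 hnilU]
      exact ((isUnit_iff_ne_zero.mpr h2).pow _).mul (Matrix.isUnit_det_of_left_inverse hUV)
    refine ⟨?_, ?_⟩
    · rw [hD, ← map_pow, hfac, mul_assoc, (show Commute (U - 1) (((2 : F) • (1 : Matrix _ _ F) + (U - 1)) * V) from
        ((((Commute.one_right _).smul_right _).add_right (Commute.refl _))).mul_right
          (hUcV.sub_left (Commute.one_left V))).mul_pow,
        show (U - 1) ^ (M + 1) = 0 from (congrArg ((U - 1) ^ ·) hM.symm).trans hnil, zero_mul, map_zero]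
    · rw [hD, show R (U - V) = (U - V).submatrix e e from rfl, Matrix.rank_submatrix, hfac, mul_assoc,
        Matrix.rank_mul_eq_left_of_isUnit_det _ _ hu, hreg]
      omega
  let Df : (Fin (M + 1) → F) → Matrix (Fin m ⊕ Fin m) (Fin m ⊕ Fin m) F := fun c =>
    R.symm (LinAlg.RegNil.polN D c)
  have hDf : ∀ c, Df c = ∑ i : Fin (M + 1), c i • (U - V) ^ (i : ℕ) := fun c => by
    show R.symm (LinAlg.RegNil.polN D c) = _
    rw [LinAlg.RegNil.polN, map_sum]
    refine Finset.sum_congr rfl fun i _ => ?_
    rw [map_smul, map_pow, hD, AlgEquiv.symm_apply_apply]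
  have hDfinj : Function.Injective Df := R.symm.injective.comp (LinAlg.RegNil.polN_injective hreg')
  have hpowT : ∀ i : ℕ, ((U - V) ^ i).transpose * J = (-1 : F) ^ i • (J * (U - V) ^ i) := fun i => by
    induction i with
    | zero => simp
    | succ i ih =>
      have hstep : J * (U - V) ^ (i + 1) = J * (U - V) * (U - V) ^ i := by rw [pow_succ', mul_assoc]
      rw [pow_succ, Matrix.transpose_mul, mul_assoc, ih, Matrix.mul_smul, ← mul_assoc, hskew, ← pow_succ, hstep,
        mul_neg, neg_mul, pow_succ, mul_smul, neg_one_smul]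
  -- the quadratic equation
  have hprod : ∀ c : Fin (M + 1) → F, (Df c).transpose * J * Df c =
      J * ∑ l ∈ Finset.range (2 * m), eqn (fun i => if h : i < M + 1 then c ⟨i, h⟩ else 0) l • (U - V) ^ l := by
    intro c
    set c' : ℕ → F := fun i => if h : i < M + 1 then c ⟨i, h⟩ else 0 with hc'
    have hc : Df c = ∑ i ∈ Finset.range (M + 1), c' i • (U - V) ^ i := by
      rw [hDf, ← Fin.sum_univ_eq_sum_range (fun i => c' i • (U - V) ^ i)]
      exact Finset.sum_congr rfl fun i _ => by rw [hc']; simp [i.2, Fin.eta]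
    have hT : (Df c).transpose * J = J * ∑ i ∈ Finset.range (M + 1), ((-1) ^ i * c' i) • (U - V) ^ i := by
      rw [hc, Matrix.transpose_sum, Finset.sum_mul, Finset.mul_sum]
      refine Finset.sum_congr rfl fun i _ => ?_
      rw [Matrix.transpose_smul, Matrix.smul_mul, hpowT, Matrix.mul_smul, smul_smul, mul_comm]
    rw [hT, hc, mul_assoc]
    congr 1
    rw [Finset.sum_mul_sum, hM]
    simp only [eqn, Finset.sum_smul]
    rw [← Finset.sum_product', Finset.sum_sigma']
    have hhigh : ∀ z : ℕ × ℕ, M + 1 ≤ z.1 + z.2 →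
        ((-1) ^ z.1 * c' z.1) • (U - V) ^ z.1 * c' z.2 • (U - V) ^ z.2 = 0 := fun z hz => by
      rw [smul_mul_smul_comm, ← pow_add]
      have : (U - V) ^ (M + 1) = 0 := R.injective (by rw [map_pow, map_zero, ← hD, hreg'.pow_eq])
      rw [pow_eq_zero_of_le hz this, smul_zero]
    rw [← Finset.sum_filter_of_ne (p := fun z : ℕ × ℕ => z.1 + z.2 < M + 1)]
    · refine Finset.sum_nbij' (fun z => (⟨z.1 + z.2, z.1⟩ : (_ : ℕ) × ℕ)) (fun s => (s.2, s.1 - s.2)) ?_ ?_ ?_ ?_ ?_
      · intro z hz; simp at hz ⊢; omega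
      · intro s hs; simp at hs ⊢; omega
      · intro z hz; simp
      · intro s hs; simp at hs ⊢; ext <;> simp; omega
      · intro z hz
        simp only [smul_mul_smul_comm, ← pow_add, Nat.add_sub_cancel_left]
    · intro z _ hz
      by_contra hlt
      exact hz (hhigh z (by omega))
  have hchar : ∀ c : Fin (M + 1) → F, Df c ∈ Matrix.symplecticGroup (Fin m) F ↔
      ∀ l < 2 * m, eqn (fun i => if h : i < M + 1 then c ⟨i, h⟩ else 0) l = if l = 0 then 1 else 0 := by
    intro c
    rw [SymplecticGroup.mem_iff', hprod]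
    set e' := eqn (fun i => if h : i < M + 1 then c ⟨i, h⟩ else 0)
    have hJu : IsUnit (Matrix.J (Fin m) F) := (Matrix.isUnit_iff_isUnit_det _).mpr (Matrix.isUnit_det_J _ _)
    have hsum : (∑ l ∈ Finset.range (2 * m), e' l • (U - V) ^ l) = Df (fun i => e' i) := by
      rw [hDf, hM, ← Fin.sum_univ_eq_sum_range (fun i => e' i • (U - V) ^ i)]
    have hone : (1 : Matrix (Fin m ⊕ Fin m) (Fin m ⊕ Fin m) F) =
        Df (fun i => if (i : ℕ) = 0 then 1 else 0) := by
      rw [hDf, Fin.sum_univ_succ]
      simp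
    rw [hsum, hJ]
    conv_lhs => rhs; rw [← mul_one (Matrix.J (Fin m) F), hone]
    rw [hJu.mul_right_inj, hDfinj.eq_iff, funext_iff, hM]
    exact ⟨fun h l hl => h ⟨l, hl⟩, fun h i => h i i.2⟩
  have hcomm : ∀ c, Commute U (Df c) := fun c => by
    rw [hDf]
    exact Commute.sum_right _ _ _ fun i _ => (((Commute.refl U).sub_right hUcV).pow_right _).smul_right _
  let f : {c : Fin (M + 1) → F // Df c ∈ Matrix.symplecticGroup (Fin m) F} →
      ↥(Subgroup.centralizer ({u} : Set (Matrix.symplecticGroup (Fin m) F))) := fun c =>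
    ⟨⟨Df c.1, c.2⟩, Subgroup.mem_centralizer_singleton_iff.mpr (Subtype.ext (hcomm c.1).eq.symm)⟩
  have hf : Function.Bijective f := by
    refine ⟨fun c d h => Subtype.ext (hDfinj (congrArg (fun z : ↥(Subgroup.centralizer
      ({u} : Set (Matrix.symplecticGroup (Fin m) F))) => ((z.1 : Matrix.symplecticGroup (Fin m) F) :
      Matrix (Fin m ⊕ Fin m) (Fin m ⊕ Fin m) F)) h)), fun z => ?_⟩
    set A := ((z.1 : Matrix.symplecticGroup (Fin m) F) : Matrix (Fin m ⊕ Fin m) (Fin m ⊕ Fin m) F) with hA
    have h1 : A * U = U * A := congrArg Subtype.val (Subgroup.mem_centralizer_singleton_iff.mp z.2)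
    have h3 : A * V = V * A := by
      calc A * V = V * U * (A * V) := by rw [hVU, one_mul]
        _ = V * (A * U) * V := by rw [h1]; noncomm_ring
        _ = V * A * (U * V) := by noncomm_ring
        _ = V * A := by rw [hUV, mul_one]
    obtain ⟨c, hc⟩ := LinAlg.RegNil.exists_polN_eq hreg' (A := R A) (by
      rw [hD]; exact (((show Commute U A from h1.symm).sub_left (show Commute V A from h3.symm)).map R))
    have hcA : Df c = A := by rw [show Df c = R.symm (LinAlg.RegNil.polN D c) from rfl, hc, AlgEquiv.symm_apply_apply]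
    exact ⟨⟨c, hcA ▸ (z.1).2⟩, Subtype.ext (Subtype.ext hcA)⟩
  let E : {c : Fin (M + 1) → F // Df c ∈ Matrix.symplecticGroup (Fin m) F} ≃
      {c : Fin (2 * m) → F // ∀ l < 2 * m,
        eqn (fun i => if h : i < 2 * m then c ⟨i, h⟩ else 0) l = if l = 0 then 1 else 0} :=
    (Equiv.arrowCongr (finCongr hM.symm) (Equiv.refl F)).subtypeEquiv fun c => by
      rw [hchar]
      refine forall_congr' fun l => imp_congr_right fun _ => ?_
      rw [eqn_congr (c' := fun i => if h : i < 2 * m then
        (Equiv.arrowCongr (finCongr hM.symm) (Equiv.refl F) c) ⟨i, h⟩ else 0) fun i _ => ?_]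
      by_cases h : i < M + 1
      · rw [dif_pos h, dif_pos (show i < 2 * m by omega)]; rfl
      · rw [dif_neg h, dif_neg (show ¬ i < 2 * m by omega)]
  rw [← Nat.card_eq_of_bijective f hf, Nat.card_congr E, card_solutions h2 m hm, hF]

end Cfsg.Agent.S2592
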