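import Cfsg.Statements.S2594
import Cfsg.Agent.Lib.Classical.SymplecticMatrix
import Cfsg.Agent.Lib.Classical.ClassicalOrders
import Cfsg.Agent.Lib.Solv.FrobeniusDivisibility

set_option autoImplicit false
open Cfsg

namespace Cfsg.Agent.S2594

open Matrix Cfsg.Lib.Classical

variable {F : Type*} [Field F] {m : ℕ}

local notation "𝕍" => Fin m ⊕ Fin m → F

/-- the transvection in the symplectic group -/
noncomputable def T (v : Fin m ⊕ Fin m → F) : Matrix.symplecticGroup (Fin m) F :=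
  spEquiv.symm ⟨sTGL (sympBilin F m) (sympBilin_isAlt F m) v 1, sTGL_mem_spGL v 1⟩

theorem toGL_T (v : 𝕍) : spToGL (T v) = sTGL (sympBilin F m) (sympBilin_isAlt F m) v 1 :=
  Units.ext (by rw [coe_spToGL, T, ← coe_spEquiv, MulEquiv.apply_symm_apply])

theorem T_mulVec (v x : 𝕍) :
    (T v : Matrix (Fin m ⊕ Fin m) (Fin m ⊕ Fin m) F) *ᵥ x = x + sympBilin F m x v • v := by
  rw [← coe_spToGL, toGL_T, sTGL_mulVec, one_mul]

theorem T_injective [CharP F 2] {v w : 𝕍} (hv : v ≠ 0) (h : T v = T w) : v = w := by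
  obtain ⟨x, hx⟩ : ∃ x, sympBilin F m x v ≠ 0 := by
    by_contra hc
    push Not at hc
    exact hv ((sympBilin_nondegenerate F m).2 v hc)
  have key : ∀ y, sympBilin F m y v • v = sympBilin F m y w • w := fun y => by
    have := congrArg (fun g : Matrix.symplecticGroup (Fin m) F => (g : Matrix (Fin m ⊕ Fin m) (Fin m ⊕ Fin m) F) *ᵥ y) h
    simpa [T_mulVec] using this
  obtain ⟨k, hk⟩ : ∃ k : F, v = k • w := ⟨(sympBilin F m x v)⁻¹ * sympBilin F m x w, by
    rw [← smul_smul, ← key x, smul_smul, inv_mul_cancel₀ hx, one_smul]⟩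
  have hk2 : k * k = 1 := by
    have h1 := key x
    have hw : w ≠ 0 := fun h0 => hv (by rw [hk, h0, smul_zero])
    rw [hk, map_smul, smul_eq_mul, smul_smul] at h1
    have h2 := smul_left_injective F hw h1
    have hxw : sympBilin F m x w ≠ 0 := fun h0 => hx (by rw [hk, map_smul, h0, smul_zero])
    exact mul_right_cancel₀ hxw (by linear_combination h2)
  have h3 : (k - 1) * (k - 1) = 0 := by linear_combination hk2 - (k - 1) * CharTwo.two_eq_zero (R := F)
  rw [hk, sub_eq_zero.1 (mul_self_eq_zero.1 h3), one_smul]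

theorem exists_T [Fintype F] [CharP F 2] {g : Matrix.symplecticGroup (Fin m) F}
    (hr : ((g : Matrix (Fin m ⊕ Fin m) (Fin m ⊕ Fin m) F) - 1).rank = 1) : ∃ v, v ≠ 0 ∧ g = T v := by
  set M := ((g : Matrix (Fin m ⊕ Fin m) (Fin m ⊕ Fin m) F) - 1) with hM
  have hg : ∀ x y, sympBilin F m ((g : Matrix (Fin m ⊕ Fin m) (Fin m ⊕ Fin m) F) *ᵥ x)
      ((g : Matrix (Fin m ⊕ Fin m) (Fin m ⊕ Fin m) F) *ᵥ y) = sympBilin F m x y := fun x y => by
    have h1 : spToGL g ∈ Cfsg.spGL m F := by rw [← spToGL_range]; exact ⟨g, rfl⟩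
    have h2 := mem_spGL_iff.1 h1 x y
    rwa [coe_spToGL] at h2
  obtain ⟨⟨v, hvmem⟩, hv0, hspan⟩ := finrank_eq_one_iff'.mp
    (show Module.finrank F (LinearMap.range M.mulVecLin) = 1 from hr)
  have hv : v ≠ 0 := fun h => hv0 (Subtype.ext h)
  have hx : ∀ x, ∃ c : F, (g : Matrix (Fin m ⊕ Fin m) (Fin m ⊕ Fin m) F) *ᵥ x = x + c • v := fun x => by
    obtain ⟨c, hc⟩ := hspan ⟨M.mulVecLin x, ⟨x, rfl⟩⟩
    refine ⟨c, ?_⟩
    have : c • v = M *ᵥ x := congrArg Subtype.val hc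
    rw [this, hM, Matrix.sub_mulVec, Matrix.one_mulVec, add_sub_cancel]
  choose φ hφ using hx
  obtain ⟨y, hy⟩ : ∃ y, sympBilin F m v y ≠ 0 := by
    by_contra hc
    push Not at hc
    exact hv ((sympBilin_nondegenerate F m).1 v hc)
  have key : ∀ x, φ x = φ y / sympBilin F m v y * sympBilin F m x v := fun x => by
    have h := hg x y
    rw [hφ, hφ] at h
    simp only [map_add, map_smul, LinearMap.add_apply, LinearMap.smul_apply, smul_eq_mul,
      alt_self (sympBilin_isAlt F m), mul_zero, add_zero] at h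
    field_simp
    linear_combination h - (φ y * sympBilin F m x v) * CharTwo.two_eq_zero (R := F)
  set k := φ y / sympBilin F m v y
  obtain ⟨t, ht⟩ : ∃ t : F, t * t = k := by
    obtain ⟨t, ht⟩ := FiniteField.isSquare_of_char_two (ringChar.eq F 2) k
    exact ⟨t, ht.symm⟩
  have hk0 : k ≠ 0 := fun h0 => by
    have hM0 : M = 0 := Matrix.ext_iff_mulVec.mpr fun z => by
      rw [hM, Matrix.sub_mulVec, Matrix.one_mulVec, hφ, key, h0, zero_mul, zero_smul, add_zero, sub_self,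
        Matrix.zero_mulVec]
    rw [hM0, Matrix.rank_zero] at hr
    exact zero_ne_one hr
  have ht0 : t ≠ 0 := fun h0 => hk0 (by rw [← ht, h0, zero_mul])
  refine ⟨t • v, smul_ne_zero ht0 hv, Subtype.ext (Matrix.ext_iff_mulVec.mpr fun x => ?_)⟩
  rw [hφ, T_mulVec, key, map_smul, smul_eq_mul, smul_smul, ← ht]
  congr 2
  ring

/-- Over a finite field with q elements, q even, an element t of Sp_2m(F) with rank(t − 1) = 1 (a symplectic transvection) has centraliser in Sp_2m(F) of order q^(2m−1) · |Sp_(2m−2)(q)| = q^(2m−1) · q^((m−1)²) · Π_(i=1)^(m−1) (q^(2i) − 1). -/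
theorem result {F : Type*} [Field F] [Fintype F] [CharP F 2] {q : ℕ} (hF : Fintype.card F = q) {m : ℕ} (hm : 1 ≤ m) (t : Matrix.symplecticGroup (Fin m) F) (ht : ((t : Matrix (Fin m ⊕ Fin m) (Fin m ⊕ Fin m) F) - 1).rank = 1) : Nat.card ↥(Subgroup.centralizer ({t} : Set ↥(Matrix.symplecticGroup (Fin m) F))) = q ^ (2 * m - 1) * (q ^ ((m - 1) ^ 2) * ∏ i : Fin (m - 1), (q ^ (2 * ((i : ℕ) + 1)) - 1)) := by
  classical
  obtain ⟨v0, hv0, rfl⟩ := exists_T ht
  have hA := sympBilin_isAlt F m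
  have hconj : ∀ (k : Matrix.symplecticGroup (Fin m) F) (v : Fin m ⊕ Fin m → F),
      k * T v * k⁻¹ = T ((k : Matrix (Fin m ⊕ Fin m) (Fin m ⊕ Fin m) F) *ᵥ v) := fun k v => spToGL_injective (by
    rw [map_mul, map_mul, map_inv, toGL_T, toGL_T, conj_sTGL_iso _ hA _ (mem_spGL_iff.1 (by rw [← spToGL_range]; exact ⟨k, rfl⟩)),
      coe_spToGL])
  have hne : ∀ (k : Matrix.symplecticGroup (Fin m) F) (v : Fin m ⊕ Fin m → F), v ≠ 0 →
      (k : Matrix (Fin m ⊕ Fin m) (Fin m ⊕ Fin m) F) *ᵥ v ≠ 0 := fun k v hv h => hv (by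
    have := congrArg (fun w => ((k⁻¹ : Matrix.symplecticGroup (Fin m) F) : Matrix (Fin m ⊕ Fin m) (Fin m ⊕ Fin m) F) *ᵥ w) h
    have hk : ((k⁻¹ : Matrix.symplecticGroup (Fin m) F) : Matrix (Fin m ⊕ Fin m) (Fin m ⊕ Fin m) F) *
        (k : Matrix (Fin m ⊕ Fin m) (Fin m ⊕ Fin m) F) = 1 := congrArg Subtype.val (inv_mul_cancel k)
    rw [Matrix.mulVec_mulVec, hk, Matrix.one_mulVec, Matrix.mulVec_zero] at this
    exact this)
  have hclass : Nat.card {y : Matrix.symplecticGroup (Fin m) F // IsConj (T v0) y} = q ^ (2 * m) - 1 := by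
    have hb : Nat.card {v : Fin m ⊕ Fin m → F // v ≠ 0} = Nat.card {y : Matrix.symplecticGroup (Fin m) F // IsConj (T v0) y} := by
      refine Nat.card_congr (Equiv.ofBijective (fun v => ⟨T v.1, ?_⟩) ⟨fun v w h => ?_, fun y => ?_⟩)
      · obtain ⟨h, hh, hhv⟩ := exists_move_vec (sympBilin F m) hA ⊤ (nondegOn_top (sympBilin_nondegenerate F m))
          (u := v0) (v := v.1) trivial trivial hv0 v.2
        have hiso := tvClosure_le_isoGroup (sympBilin F m) hA ⊤ hh
        set g := (glEquiv (Fin m ⊕ Fin m) F).symm h with hg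
        have hgm : g ∈ Cfsg.spGL m F := mem_spGL_iff.2 fun x y => by
          rw [hg, glEquiv_symm_mulVec, glEquiv_symm_mulVec]; exact hiso x y
        obtain ⟨k, hk⟩ : ∃ k, spToGL k = g := by
          rw [← spToGL_range] at hgm; exact hgm
        refine isConj_iff.mpr ⟨k, ?_⟩
        rw [hconj, ← coe_spToGL, hk, hg, glEquiv_symm_mulVec, hhv]
      · exact Subtype.ext (T_injective v.2 (congrArg Subtype.val h))
      · obtain ⟨k, hk⟩ := isConj_iff.mp y.2
        exact ⟨⟨_, hne k v0 hv0⟩, Subtype.ext (by rw [← hk, hconj])⟩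
    rw [← hb, Nat.card_eq_fintype_card, Fintype.card_subtype_compl, Fintype.card_subtype_eq, Fintype.card_fun,
      Fintype.card_sum, Fintype.card_fin, hF, two_mul]
  have hC := Subgroup.index_mul_card (Subgroup.centralizer ({T v0} : Set (Matrix.symplecticGroup (Fin m) F)))
  rw [← Cfsg.Lib.Solv.FrobDiv.card_conj_fibre, hclass, ClassicalOrders.card_sp hF m] at hC
  obtain ⟨k, rfl⟩ : ∃ k, m = k + 1 := ⟨m - 1, by omega⟩
  rw [Finset.prod_range_succ, ← Fin.prod_univ_eq_prod_range (fun i => q ^ (2 * (i + 1)) - 1)] at hC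
  have hq1 : 1 < q := hF ▸ Fintype.one_lt_card
  have hpos : 0 < q ^ (2 * (k + 1)) - 1 := Nat.sub_pos_of_lt (Nat.one_lt_pow (by omega) hq1)
  refine Nat.eq_of_mul_eq_mul_left hpos ?_
  rw [hC, Nat.add_sub_cancel, ← mul_assoc (q ^ (2 * (k + 1) - 1)), ← pow_add,
    show 2 * (k + 1) - 1 + k ^ 2 = (k + 1) ^ 2 by rw [show (k + 1) ^ 2 = k ^ 2 + 2 * k + 1 by ring]; omega]
  ring

end Cfsg.Agent.S2594
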