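import Cfsg.Statements.S2599
import Mathlib.Algebra.CharP.Two
-- import your own Cfsg.Agent.* helpers here

set_option autoImplicit false
open Cfsg

namespace Cfsg.Agent.S2599

/-- An irreducible invariant subspace of a semisimple isometry is non-degenerate or totally singular: let Q be a quadratic form on F^n (F finite of characteristic p) with non-degenerate polar form f, x an isometry of Q of order prime to p, and U a non-zero x-invariant subspace containing no x-invariant subspace other than 0 and U. Then U meets its f-orthogonal trivially, or Q vanishes on U, or p = 2, U is a line spanned by a non-singular vector and x fixes U pointwise. -/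
theorem result {F : Type*} [Field F] [Fintype F] {p : ℕ} [Fact p.Prime] [CharP F p] {n : ℕ} (Q : QuadraticForm F (Fin n → F)) (hQ : (QuadraticMap.polarBilin Q).Nondegenerate) (x : ↥(Cfsg.isometryGroup F ⇑Q)) (hx : (orderOf x).Coprime p) (U : Submodule F (Fin n → F)) (hU0 : U ≠ ⊥) (hUx : ∀ u ∈ U, ((x : Matrix.GeneralLinearGroup (Fin n) F) : Matrix (Fin n) (Fin n) F).mulVec u ∈ U) (hirr : ∀ W : Submodule F (Fin n → F), W ≤ U → (∀ w ∈ W, ((x : Matrix.GeneralLinearGroup (Fin n) F) : Matrix (Fin n) (Fin n) F).mulVec w ∈ W) → W = ⊥ ∨ W = U) : U ⊓ LinearMap.BilinForm.orthogonal (QuadraticMap.polarBilin Q) U = ⊥ ∨ (∀ u ∈ U, Q u = 0) ∨ (p = 2 ∧ Module.finrank F U = 1 ∧ (∃ u ∈ U, Q u ≠ 0) ∧ ∀ u ∈ U, ((x : Matrix.GeneralLinearGroup (Fin n) F) : Matrix (Fin n) (Fin n) F).mulVec u = u) := by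
  set M : Matrix (Fin n) (Fin n) F := ((x : Matrix.GeneralLinearGroup (Fin n) F) : Matrix (Fin n) (Fin n) F) with hM
  have hpres : ∀ v, Q (M.mulVec v) = Q v := fun v => x.2 v v
  set B := QuadraticMap.polarBilin Q with hB
  have hBpres : ∀ u v, B (M.mulVec u) (M.mulVec v) = B u v := by
    intro u v
    simp [hB, QuadraticMap.polar, ← Matrix.mulVec_add, hpres]
  have hinj : Function.Injective M.mulVec := Matrix.mulVec_injective_of_isUnit (Units.isUnit _)
  -- U is mapped onto itself
  have hsurj : ∀ u ∈ U, ∃ u' ∈ U, M.mulVec u' = u := by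
    intro u hu
    let e : U →ₗ[F] U := (Matrix.mulVecLin M).restrict (fun v hv => hUx v hv)
    have he : Function.Surjective e := LinearMap.surjective_of_injective (fun a b hab => Subtype.ext (hinj (Subtype.ext_iff.1 hab)))
    obtain ⟨u', hu'⟩ := he ⟨u, hu⟩
    exact ⟨u', u'.2, Subtype.ext_iff.1 hu'⟩
  rcases hirr (U ⊓ LinearMap.BilinForm.orthogonal B U) inf_le_left (by
    rintro w ⟨hwU, hwO⟩
    refine ⟨hUx w hwU, fun u hu => ?_⟩
    obtain ⟨u', hu', rfl⟩ := hsurj u hu
    show B (M.mulVec u') (M.mulVec w) = 0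
    rw [hBpres]
    exact hwO u' hu') with h | h
  · exact Or.inl h
  right
  have hiso : ∀ u ∈ U, ∀ v ∈ U, QuadraticMap.polar Q u v = 0 := fun u hu v hv =>
    ((le_inf_iff.1 h.ge).2 hv) u hu
  by_cases h2 : (2 : F) = 0
  swap
  · left
    intro u hu
    have h0 := hiso u hu u hu
    rw [QuadraticMap.polar_self, two_nsmul, ← two_mul] at h0
    exact (mul_eq_zero.1 h0).resolve_left h2
  have hp2 : p = 2 := by
    have h3 : p ∣ 2 := (CharP.cast_eq_zero_iff F p 2).1 (by exact_mod_cast h2)
    exact (Nat.prime_dvd_prime_iff_eq Fact.out Nat.prime_two).1 h3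
  subst hp2
  have hadd : ∀ u ∈ U, ∀ v ∈ U, Q (u + v) = Q u + Q v := by
    intro u hu v hv
    have h0 := hiso u hu v hv
    rw [QuadraticMap.polar] at h0
    linear_combination h0
  let W : Submodule F (Fin n → F) :=
    { carrier := {u | u ∈ U ∧ Q u = 0}
      add_mem' := fun {u v} hu hv => ⟨U.add_mem hu.1 hv.1, by rw [hadd u hu.1 v hv.1, hu.2, hv.2, add_zero]⟩
      zero_mem' := ⟨U.zero_mem, QuadraticMap.map_zero Q⟩
      smul_mem' := fun c u hu => ⟨U.smul_mem c hu.1, by rw [QuadraticMap.map_smul, hu.2, smul_zero]⟩ }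
  rcases hirr W (fun u hu => hu.1) (fun w hw => ⟨hUx w hw.1, by rw [hpres]; exact hw.2⟩) with hW | hW
  swap
  · left
    intro u hu
    exact (hW.ge hu).2
  right
  have hfix : ∀ u ∈ U, M.mulVec u = u := by
    intro u hu
    have h1 : M.mulVec u - u ∈ W := by
      refine ⟨U.sub_mem (hUx u hu) hu, ?_⟩
      have hs : M.mulVec u - u = M.mulVec u + u := funext fun i => CharTwo.sub_eq_add _ _
      rw [hs, hadd _ (hUx u hu) _ hu, hpres, CharTwo.add_self_eq_zero]
    rw [hW, Submodule.mem_bot, sub_eq_zero] at h1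
    exact h1
  obtain ⟨u, hu, hu0⟩ := (Submodule.ne_bot_iff _).1 hU0
  have hspan : F ∙ u = U := by
    refine (hirr (F ∙ u) (by rwa [Submodule.span_singleton_le_iff_mem]) ?_).resolve_left (by simpa using hu0)
    intro w hw
    obtain ⟨c, rfl⟩ := Submodule.mem_span_singleton.1 hw
    rw [Matrix.mulVec_smul, hfix u hu]
    exact hw
  refine ⟨rfl, ?_, ⟨u, hu, fun hq => hu0 ?_⟩, hfix⟩
  · rw [← hspan]
    exact finrank_span_singleton hu0
  · have h1 : u ∈ W := ⟨hu, hq⟩
    rwa [hW, Submodule.mem_bot] at h1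

end Cfsg.Agent.S2599
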