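import Cfsg.Statements.S2600
import Cfsg.Agent.Lib.Classical.OutAut.Symp
-- import your own Cfsg.Agent.* helpers here

set_option autoImplicit false
open Cfsg

namespace Cfsg.Agent.S2600

/-- Outer automorphism group of PSp_4(q) for q = 2^f even: it is cyclic of order 2f, generated by the class of the exceptional (graph-field) automorphism whose square is the Frobenius field automorphism. -/
theorem result {F : Type*} [Field F] [Fintype F] {f : ℕ} (hf : 1 ≤ f) (hF : Fintype.card F = 2 ^ f) : IsCyclic (Cfsg.Out (Cfsg.PSp 2 F)) ∧ Nat.card (Cfsg.Out (Cfsg.PSp 2 F)) = 2 * f := by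
  haveI : Fact (Nat.Prime 2) := ⟨Nat.prime_two⟩
  haveI : CharP F 2 := by
    obtain ⟨r, hr⟩ := CharP.exists F
    have hrp : r.Prime := CharP.char_is_prime F r
    have : Fact r.Prime := ⟨hrp⟩
    obtain ⟨j, -, hj⟩ := FiniteField.card F r
    have : r ∣ 2 ^ f := hF ▸ hj ▸ dvd_pow_self r j.ne_zero
    rwa [← (Nat.prime_dvd_prime_iff_eq hrp Nat.prime_two).1 (hrp.dvd_of_dvd_pow this)]
  exact Cfsg.Lib.Classical.OutAut.psp_four_out hF

end Cfsg.Agent.S2600
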