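import Cfsg.Statements.S2610
import Cfsg.Agent.Lib.Classical.OmegaCrit
-- import your own Cfsg.Agent.* helpers here

set_option autoImplicit false
open Cfsg

namespace Cfsg.Agent.S2610

/-- For a quadratic form Q on F^n with non-degenerate polar form, F finite of odd order and n ≥ 2 even, the isometry −1 lies in Ω (the commutator subgroup of the orthogonal group) if and only if the discriminant of Q (the determinant of the Gram matrix of its polar form) is a square. -/
theorem result {F : Type*} [Field F] [Fintype F] (h2 : (2 : F) ≠ 0) {n : ℕ} (hn : 2 ≤ n) (he : Even n) (Q : QuadraticForm F (Fin n → F)) (hQ : (QuadraticMap.polarBilin Q).Nondegenerate) : (∃ g : ↥(Cfsg.isometryGroup F ⇑Q), g ∈ Cfsg.Omega F ⇑Q ∧ ((g : Matrix.GeneralLinearGroup (Fin n) F) : Matrix (Fin n) (Fin n) F) = -1) ↔ IsSquare (Matrix.of (fun i j : Fin n => QuadraticMap.polar ⇑Q (Pi.single i 1) (Pi.single j 1))).det := by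
  open Cfsg.Lib.Classical OrthMatrix Reflections in
  classical
  haveI : Invertible (2 : F) := invertibleOfNonzero h2
  set f : (Fin n → F) → F := ⇑Q
  have hf : ∀ v, Q v = f v := fun _ => rfl
  let B : LinearMap.BilinForm F (Fin n → F) := QuadraticMap.polarBilin Q
  obtain ⟨b₀, hb₀⟩ := LinearMap.BilinForm.exists_orthogonal_basis (B := B) ⟨fun x y => Witt.polar_symm' Q x y⟩
  let b := b₀.reindex (finCongr (Module.finrank_fin_fun F))
  have hb : ∀ i j, i ≠ j → B (b i) (b j) = 0 := fun i j hij => by
    simp only [b, Module.Basis.reindex_apply]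
    exact hb₀ ((Equiv.injective _).ne hij)
  have hb0 : ∀ i, Q (b i) ≠ 0 := by
    intro i hi
    refine b.ne_zero i (hQ.1 _ fun y => ?_)
    rw [← b.sum_repr y, map_sum]
    refine Finset.sum_eq_zero fun j _ => ?_
    rw [map_smul]
    rcases eq_or_ne i j with rfl | hij
    · rw [Witt.polar_self', hi, mul_zero, smul_zero]
    · rw [show (QuadraticMap.polarBilin Q) (b i) (b j) = 0 from hb i j hij, smul_zero]
  let L := (List.finRange n).map b
  have hprod : ∀ l : List (Fin n), l.Nodup → ∀ j, ((l.map fun i => refl Q (b i)).prod).1 (b j) =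
      if j ∈ l then -b j else b j := by
    intro l
    induction l with
    | nil => simp
    | cons i l ih =>
      intro hl j
      obtain ⟨hi, hl'⟩ := List.nodup_cons.1 hl
      show (refl Q (b i)).1 (((l.map fun i => refl Q (b i)).prod).1 (b j)) = _
      rw [ih hl' j]
      have hii : (refl Q (b i)).1 (b i) = -b i := by
        rw [refl_apply, Witt.polar_self']
        rw [show (Q (b i))⁻¹ * (2 * Q (b i)) = 2 by field_simp [hb0 i], two_smul]
        abel
      have hij : i ≠ j → (refl Q (b i)).1 (b j) = b j := fun hne => refl_fix Q (hb i j hne)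
      rcases eq_or_ne i j with rfl | hne
      · simp [hi, hii]
      · split_ifs with h1 h3 h3
        · rw [map_neg, hij hne]
        · exact absurd (List.mem_cons_of_mem _ h1) h3
        · exact absurd ((List.mem_cons.1 h3).resolve_left fun e => hne e.symm) h1
        · exact hij hne
  have hneg : ∀ g : ↥(Cfsg.isometryGroup F f),
      ((g : Matrix.GeneralLinearGroup (Fin n) F) : Matrix (Fin n) (Fin n) F) = -1 ↔ eI hf g = (L.map (refl Q)).prod := by
    have hx : ∀ x, ((L.map (refl Q)).prod).1 x = -x := by
      have : ((L.map (refl Q)).prod).1.toLinearMap = -LinearMap.id := b.ext fun j => by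
        show ((L.map (refl Q)).prod).1 (b j) = -b j
        rw [show L.map (refl Q) = (List.finRange n).map fun i => refl Q (b i) from List.map_map, hprod _ (List.nodup_finRange n) j,
          if_pos (List.mem_finRange j)]
      exact fun x => LinearMap.congr_fun this x
    intro g
    constructor
    · intro e
      refine Subtype.ext (LinearEquiv.ext fun x => ?_)
      rw [eI_apply, e, hx, Matrix.neg_mulVec, Matrix.one_mulVec]
    · intro e
      refine Cfsg.Lib.Classical.ext_mulVec fun x => ?_
      rw [← eI_apply hf, e, hx, Matrix.neg_mulVec, Matrix.one_mulVec]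
  have hL : ∀ v ∈ L, Q v ≠ 0 := by simp [L, hb0]
  have hcrit := fun g e => OmegaCrit.mem_omega_list hf hQ h2 (by simpa using hn) g L hL ((hneg g).1 e)
  have hlen : L.length = n := by simp [L]
  have hP : (L.map fun v => Q v).prod = ∏ i, Q (b i) := by
    rw [Fin.prod_univ_def, List.map_map]; rfl
  have hgram : IsSquare (Matrix.of (fun i j : Fin n => QuadraticMap.polar ⇑Q (Pi.single i 1) (Pi.single j 1))).det ↔
      IsSquare (∏ i, Q (b i)) := by
    have e1 : Matrix.of (fun i j : Fin n => QuadraticMap.polar ⇑Q (Pi.single i 1) (Pi.single j 1)) =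
        LinearMap.BilinForm.toMatrix (Pi.basisFun F (Fin n)) B := by
      ext i j; simp [LinearMap.BilinForm.toMatrix_apply, B]
    have e2 : LinearMap.BilinForm.toMatrix b B = Matrix.diagonal fun i => 2 * Q (b i) := by
      ext i j
      rw [LinearMap.BilinForm.toMatrix_apply]
      rcases eq_or_ne i j with rfl | hij
      · rw [Matrix.diagonal_apply_eq]; exact Witt.polar_self' Q _
      · rw [Matrix.diagonal_apply_ne _ hij]; exact hb i j hij
    have e3 := congrArg Matrix.det (LinearMap.BilinForm.toMatrix_mul_basis_toMatrix (b := Pi.basisFun F (Fin n)) b B)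
    rw [e2, ← e1, Matrix.det_mul, Matrix.det_mul, Matrix.det_transpose, Matrix.det_diagonal, Finset.prod_mul_distrib,
      Finset.prod_const, Finset.card_univ, Fintype.card_fin] at e3
    set d := ((Pi.basisFun F (Fin n)).toMatrix ⇑b).det
    have hd : d ≠ 0 := by
      intro h0
      rw [h0, zero_mul, zero_mul] at e3
      exact mul_ne_zero (pow_ne_zero _ h2) (Finset.prod_ne_zero_iff.2 fun i _ => hb0 i) e3.symm
    obtain ⟨k, rfl⟩ := he
    constructor
    · rintro ⟨s, hs⟩
      refine ⟨d * s / 2 ^ k, ?_⟩
      rw [hs, pow_add] at e3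
      field_simp
      linear_combination -e3
    · rintro ⟨s, hs⟩
      refine ⟨2 ^ k * s / d, ?_⟩
      rw [hs, pow_add] at e3
      field_simp
      linear_combination e3
  constructor
  · rintro ⟨g, hg, e⟩
    rw [hgram, ← hP]
    exact ((hcrit g e).1 hg).2
  · intro hs
    refine ⟨(eI hf).symm (L.map (refl Q)).prod, ?_, (hneg _).2 (MulEquiv.apply_symm_apply _ _)⟩
    exact (hcrit _ ((hneg _).2 (MulEquiv.apply_symm_apply _ _))).2 ⟨hlen.symm ▸ he, hP ▸ hgram.1 hs⟩

end Cfsg.Agent.S2610
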