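import Cfsg.Statements.S2612
import Cfsg.Agent.Lib.Classical.LeviOmega
-- import your own Cfsg.Agent.* helpers here

set_option autoImplicit false
open Cfsg

namespace Cfsg.Agent.S2612

/-- For the hyperbolic quadratic form Σ x_i y_i on F^(2m) (F finite, m ≥ 1, excluding m = 2 over the field of two elements), Ω⁺_2m(F) (the commutator subgroup of the orthogonal group) contains an element interchanging the two complementary maximal totally singular subspaces {y = 0} and {x = 0} if and only if m is even (dimension divisible by 4). -/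
theorem result {F : Type*} [Field F] [Fintype F] {m : ℕ} (hm : 1 ≤ m) (h : Fintype.card F ≠ 2 ∨ m ≠ 2) : (∃ g : ↥(Cfsg.isometryGroup F (Cfsg.quadFormPlus m F)), g ∈ Cfsg.Omega F (Cfsg.quadFormPlus m F) ∧ (∀ v : Fin m ⊕ Fin m → F, (∀ i, v (Sum.inr i) = 0) → ∀ i, (((g : Matrix.GeneralLinearGroup (Fin m ⊕ Fin m) F) : Matrix (Fin m ⊕ Fin m) (Fin m ⊕ Fin m) F).mulVec v) (Sum.inl i) = 0) ∧ (∀ v : Fin m ⊕ Fin m → F, (∀ i, v (Sum.inl i) = 0) → ∀ i, (((g : Matrix.GeneralLinearGroup (Fin m ⊕ Fin m) F) : Matrix (Fin m ⊕ Fin m) (Fin m ⊕ Fin m) F).mulVec v) (Sum.inr i) = 0)) ↔ Even m := by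
  open Cfsg.Lib.Classical OrthMatrix Reflections Spinor LeviOmega in
  classical
  have hf : ∀ v, Qp F m v = Cfsg.quadFormPlus m F v := Qp_apply
  have hB : (QuadraticMap.polarBilin (Qp F m)).Nondegenerate := Qp_nondeg
  have hex := hex_plus h
  let w : Fin m → (Fin m ⊕ Fin m → F) := fun j => Sum.elim (Pi.single j 1) (Pi.single j (-1))
  have hQw : ∀ j, Qp F m (w j) = -1 := fun j => by simp [hf, w, Cfsg.quadFormPlus, Pi.single_apply]
  have hβ : ∀ (j : Fin m) (y : Fin m ⊕ Fin m → F),
      QuadraticMap.polarBilin (Qp F m) (w j) y = y (Sum.inr j) - y (Sum.inl j) := by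
    intro j y
    simp only [QuadraticMap.polarBilin_apply_apply, QuadraticMap.polar, hf, Cfsg.quadFormPlus, w, Pi.add_apply,
      Sum.elim_inl, Sum.elim_inr, ← Finset.sum_sub_distrib]
    rw [Finset.sum_eq_single j]
    · simp; ring
    · intro k _ hk; simp [hk]
    · simp
  have hprod : ∀ l : List (Fin m), l.Nodup → ∀ x k, ((l.map fun j => refl (Qp F m) (w j)).prod).1 x k =
      if Sum.elim id id k ∈ l then x (Sum.swap k) else x k := by
    intro l
    induction l with
    | nil => simp
    | cons j l ih =>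
      intro hl x k
      obtain ⟨hj, hl'⟩ := List.nodup_cons.1 hl
      show (refl (Qp F m) (w j)).1 (((l.map fun j => refl (Qp F m) (w j)).prod).1 x) k = _
      rw [refl_apply, hQw, hβ]
      simp only [Pi.sub_apply, Pi.smul_apply, ih hl', Sum.elim_inl, Sum.elim_inr, id, hj, if_false, smul_eq_mul, List.mem_cons]
      rcases k with k | k <;> by_cases hk : k = j <;> simp [hk, hj, w, Sum.swap]
      all_goals exact if_congr Iff.rfl rfl rfl
  let L := (List.finRange m).map w
  have hL : ∀ v ∈ L, Qp F m v ≠ 0 := by simp [L, hQw]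
  have hS : ∀ x, ((L.map (refl (Qp F m))).prod).1 x = fun k => x (Sum.swap k) := fun x => funext fun k => by
    rw [show L.map (refl (Qp F m)) = (List.finRange m).map fun j => refl (Qp F m) (w j) from List.map_map,
      hprod _ (List.nodup_finRange m), if_pos (List.mem_finRange _)]
  set S := (eI hf).symm (L.map (refl (Qp F m))).prod with hSdef
  have hSmat : ∀ x, ((S : Matrix.GeneralLinearGroup (Fin m ⊕ Fin m) F) : Matrix (Fin m ⊕ Fin m) (Fin m ⊕ Fin m) F).mulVec x =
      fun k => x (Sum.swap k) := fun x => by rw [← eI_apply hf, MulEquiv.apply_symm_apply, hS]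
  have hSδ : delta hB hex (eI hf S) = (-1) ^ m := by
    rw [hSdef, MulEquiv.apply_symm_apply, map_list_prod, List.map_map, List.map_map]
    rw [show ((List.finRange m).map ((⇑(delta hB hex) ∘ refl (Qp F m)) ∘ w)) = List.replicate m (-1) from
      List.eq_replicate_iff.2 ⟨by simp, fun x hx => by
        obtain ⟨j, -, rfl⟩ := List.mem_map.1 hx
        exact delta_refl hB hex (by rw [hQw]; exact neg_ne_zero.2 one_ne_zero)⟩, List.prod_replicate]
  constructor
  · rintro ⟨g, hg, h1, h2⟩
    by_contra hodd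
    set M := (((g * S : Cfsg.isometryGroup F (Cfsg.quadFormPlus m F)) : Matrix.GeneralLinearGroup (Fin m ⊕ Fin m) F) :
      Matrix (Fin m ⊕ Fin m) (Fin m ⊕ Fin m) F) with hM
    have hMx : ∀ x, M.mulVec x = ((g : Matrix.GeneralLinearGroup (Fin m ⊕ Fin m) F) : Matrix (Fin m ⊕ Fin m) (Fin m ⊕ Fin m) F).mulVec
        (fun k => x (Sum.swap k)) := fun x => by
      rw [← hSmat, Matrix.mulVec_mulVec]; rfl
    have hz1 : M.toBlocks₁₂ = 0 := Matrix.ext fun a b => by
      have := congrFun (hMx (Pi.single (Sum.inr b) 1)) (Sum.inl a)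
      rw [Matrix.mulVec_single_one, h1 (fun k => (Pi.single (Sum.inr b) 1 : Fin m ⊕ Fin m → F) (Sum.swap k))
        (fun k => by simp [Sum.swap])] at this
      exact this
    have hz2 : M.toBlocks₂₁ = 0 := Matrix.ext fun a b => by
      have := congrFun (hMx (Pi.single (Sum.inl b) 1)) (Sum.inr a)
      rw [Matrix.mulVec_single_one, h2 (fun k => (Pi.single (Sum.inl b) 1 : Fin m ⊕ Fin m → F) (Sum.swap k))
        (fun k => by simp [Sum.swap])] at this
      exact this
    have hMeq : M = Matrix.fromBlocks M.toBlocks₁₁ 0 0 M.toBlocks₂₂ :=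
      (Matrix.fromBlocks_toBlocks M).symm.trans (by rw [hz1, hz2])
    have hAD : M.toBlocks₁₁.transpose * M.toBlocks₂₂ = 1 := by
      refine Matrix.ext fun a b => ?_
      have e0 : Cfsg.quadFormPlus m F (M.mulVec (Sum.elim (Pi.single a 1) (Pi.single b 1))) =
          Cfsg.quadFormPlus m F (Sum.elim (Pi.single a 1) (Pi.single b 1)) :=
        (g * S).2 (Sum.elim (Pi.single a 1) (Pi.single b 1)) 0
      rw [hMeq, Matrix.fromBlocks_mulVec] at e0
      simp only [Cfsg.quadFormPlus, Sum.elim_inl, Sum.elim_inr, Sum.elim_comp_inl, Sum.elim_comp_inr, Matrix.zero_mulVec,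
        add_zero, zero_add, Matrix.mulVec_single_one] at e0
      rw [Matrix.mul_apply, Matrix.one_apply]
      simpa [Pi.single_apply, Matrix.col, mul_ite, eq_comm] using e0
    have hdet : M.toBlocks₁₁.det ≠ 0 := fun h0 => by
      have := congrArg Matrix.det hAD
      rw [Matrix.det_mul, Matrix.det_transpose, h0, zero_mul, Matrix.det_one] at this
      exact zero_ne_one this
    let A := Matrix.GeneralLinearGroup.mkOfDetNeZero M.toBlocks₁₁ hdet
    have hgS : g * S = lev A := by
      refine Subtype.ext (Units.ext ?_)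
      rw [coe_lev]
      refine hMeq.trans ?_
      show Matrix.fromBlocks M.toBlocks₁₁ 0 0 M.toBlocks₂₂ = _
      congr 1
      show M.toBlocks₂₂ = (M.toBlocks₁₁⁻¹).transpose
      rw [Matrix.transpose_nonsing_inv, Matrix.inv_eq_right_inv hAD]
    have hAδ : delta hB hex (eI hf (lev A)) = 1 := by
      by_cases hc : (2 : F) = 0
      · haveI : CharP F 2 := CharTwo.of_one_ne_zero_of_two_eq_zero one_ne_zero hc
        have hmem := (lev_mem_iff hm h A).2 (FiniteField.isSquare_of_char_two (ringChar.eq F 2) _)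
        rw [omega_eq hf, commutator_eq_even hB hex hc] at hmem
        exact hmem
      · rw [← mem_special_iff_odd hf hB hex hc]
        show Matrix.GeneralLinearGroup.det _ = 1
        refine Units.ext ?_
        show (((lev A : Matrix.GeneralLinearGroup (Fin m ⊕ Fin m) F) : Matrix (Fin m ⊕ Fin m) (Fin m ⊕ Fin m) F)).det = 1
        rw [coe_lev, Matrix.det_fromBlocks_zero₂₁, Matrix.det_transpose, Matrix.det_nonsing_inv, Ring.mul_inverse_cancel]
        exact (Matrix.GeneralLinearGroup.det_ne_zero A).isUnit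
    have hgδ : delta hB hex (eI hf g) = 1 :=
      Abelianization.commutator_subset_ker ((delta hB hex).comp (eI hf).toMonoidHom) hg
    rw [← hgS, map_mul, map_mul, hgδ, hSδ, one_mul, (Nat.not_even_iff_odd.1 hodd).neg_one_pow] at hAδ
    exact absurd hAδ (by decide)
  · intro he
    refine ⟨S, ?_, fun v hv i => by rw [hSmat]; exact hv i, fun v hv i => by rw [hSmat]; exact hv i⟩
    by_cases hc : (2 : F) = 0
    · rw [omega_eq hf, commutator_eq_even hB hex hc]
      show delta hB hex (eI hf S) = 1
      rw [hSδ, he.neg_one_pow]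
    · rw [OmegaCrit.mem_omega_list hf hB hc (by simp; omega) S L hL (MulEquiv.apply_symm_apply _ _)]
      refine ⟨by simpa [L] using he, ?_⟩
      rw [show L.map (fun v => Qp F m v) = List.replicate m (-1) from List.eq_replicate_iff.2 ⟨by simp [L], fun x hx => by
        simp only [L, List.map_map, List.mem_map] at hx
        obtain ⟨j, -, rfl⟩ := hx
        exact hQw j⟩, List.prod_replicate, he.neg_one_pow]
      exact IsSquare.one

end Cfsg.Agent.S2612
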