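import Cfsg.Statements.S2613
import Cfsg.Agent.Lib.Classical.LeviOmega
-- import your own Cfsg.Agent.* helpers here

set_option autoImplicit false
open Cfsg

namespace Cfsg.Agent.S2613

/-- For the hyperbolic form Σ x_j y_j on F^(2m), F finite with q elements, q odd, and 1 ≤ i ≤ m: the involution negating the first i hyperbolic pairs (x_j, y_j ↦ −x_j, −y_j for j < i) and fixing the rest lies in Ω⁺_2m(q) (commutator subgroup of the orthogonal group) if and only if q^i ≡ 1 (mod 4); its (−1)-eigenspace is a hyperbolic 2i-space. -/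
theorem result {F : Type*} [Field F] [Fintype F] {q : ℕ} (hF : Fintype.card F = q) (hq : Odd q) {m : ℕ} (i : ℕ) (hi : 1 ≤ i) (him : i ≤ m) : (∃ g : ↥(Cfsg.isometryGroup F (Cfsg.quadFormPlus m F)), g ∈ Cfsg.Omega F (Cfsg.quadFormPlus m F) ∧ ((g : Matrix.GeneralLinearGroup (Fin m ⊕ Fin m) F) : Matrix (Fin m ⊕ Fin m) (Fin m ⊕ Fin m) F) = Matrix.diagonal (fun k : Fin m ⊕ Fin m => if (Sum.elim (fun j : Fin m => (j : ℕ)) (fun j : Fin m => (j : ℕ)) k) < i then (-1 : F) else 1)) ↔ q ^ i % 4 = 1 := by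
  classical
  have hq2 : Fintype.card F ≠ 2 := fun e => by rw [hF] at e; subst e; exact absurd hq (by decide)
  let d : Fin m → F := fun j => if (j : ℕ) < i then -1 else 1
  have hd : ∀ j, d j * d j = 1 := fun j => by by_cases h : (j : ℕ) < i <;> simp [d, h]
  let A : GL (Fin m) F := ⟨Matrix.diagonal d, Matrix.diagonal d,
    by rw [Matrix.diagonal_mul_diagonal]; simp [hd], by rw [Matrix.diagonal_mul_diagonal]; simp [hd]⟩
  have hA : ((A : Matrix (Fin m) (Fin m) F)⁻¹) = Matrix.diagonal d := Matrix.inv_eq_right_inv A.val_inv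
  have hdet : (A : Matrix (Fin m) (Fin m) F).det = (-1 : F) ^ i := by
    show (Matrix.diagonal d).det = _
    rw [Matrix.det_diagonal, Finset.prod_ite, Finset.prod_const_one, mul_one, Finset.prod_const]
    congr 1
    simp [Fin.card_filter_val_lt, min_eq_right him]
  have hblock : Matrix.fromBlocks (A : Matrix (Fin m) (Fin m) F) 0 0 ((A : Matrix (Fin m) (Fin m) F)⁻¹).transpose =
      Matrix.diagonal (fun k : Fin m ⊕ Fin m => if (Sum.elim (fun j : Fin m => (j : ℕ)) (fun j : Fin m => (j : ℕ)) k) < i then (-1 : F) else 1) := by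
    rw [hA, Matrix.diagonal_transpose]
    show Matrix.fromBlocks (Matrix.diagonal d) 0 0 (Matrix.diagonal d) = _
    rw [Matrix.fromBlocks_diagonal]
    congr 1
    funext k
    rcases k with k | k <;> rfl
  rw [← hblock, Cfsg.Lib.Classical.LeviOmega.exists_iff (hi.trans him) (Or.inl hq2) A, hdet]
  rcases Nat.even_or_odd i with he | ho
  · rw [he.neg_one_pow]
    obtain ⟨k, rfl⟩ := he
    simp only [IsSquare.one, true_iff]
    obtain ⟨t, rfl⟩ := hq
    have : (2 * t + 1) % 4 = 1 ∨ (2 * t + 1) % 4 = 3 := by omega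
    rw [← two_mul, pow_mul, Nat.pow_mod, Nat.pow_mod (2 * t + 1)]
    rcases this with e | e <;> simp [e]
  · rw [ho.neg_one_pow, FiniteField.isSquare_neg_one_iff, hF]
    obtain ⟨k, rfl⟩ := ho
    obtain ⟨t, rfl⟩ := hq
    have : (2 * t + 1) % 4 = 1 ∨ (2 * t + 1) % 4 = 3 := by omega
    rw [pow_succ, pow_mul, Nat.mul_mod, Nat.pow_mod, Nat.pow_mod (2 * t + 1)]
    rcases this with e | e <;> simp [e]

end Cfsg.Agent.S2613
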