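import Cfsg.Statements.S2614
import Cfsg.Agent.Lib.Classical.OmegaCrit
import Cfsg.Agent.Lib.Classical.SphereMod
-- import your own Cfsg.Agent.* helpers here

set_option autoImplicit false
open Cfsg

namespace Cfsg.Agent.S2614

/-- For the form x_0² + Σ x_j y_j on F^(2m+1), F finite with q elements, q odd, and 1 ≤ i ≤ m: the involution of determinant one negating the first i hyperbolic pairs (and fixing x_0 and the other pairs) lies in Ω_(2m+1)(q) (commutator subgroup of the orthogonal group) if and only if q^i ≡ 1 (mod 4); its (−1)-eigenspace is a hyperbolic 2i-space. -/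
theorem result {F : Type*} [Field F] [Fintype F] {q : ℕ} (hF : Fintype.card F = q) (hq : Odd q) {m : ℕ} (i : ℕ) (hi : 1 ≤ i) (him : i ≤ m) : (∃ g : ↥(Cfsg.isometryGroup F (Cfsg.quadFormOdd m F)), g ∈ Cfsg.Omega F (Cfsg.quadFormOdd m F) ∧ ((g : Matrix.GeneralLinearGroup (Unit ⊕ (Fin m ⊕ Fin m)) F) : Matrix (Unit ⊕ (Fin m ⊕ Fin m)) (Unit ⊕ (Fin m ⊕ Fin m)) F) = Matrix.diagonal (fun k : Unit ⊕ (Fin m ⊕ Fin m) => if (Sum.elim (fun _ : Unit => i) (Sum.elim (fun j : Fin m => (j : ℕ)) (fun j : Fin m => (j : ℕ))) k) < i then (-1 : F) else 1)) ↔ q ^ i % 4 = 1 := by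
  open Cfsg.Lib.Classical OrthMatrix Reflections in
  classical
  have h2 : (2 : F) ≠ 0 := by
    intro e
    haveI : CharP F 2 := CharTwo.of_one_ne_zero_of_two_eq_zero one_ne_zero e
    have := FiniteField.even_card_of_char_two (F := F) (ringChar.eq F 2)
    rw [hF] at this
    exact absurd (Nat.odd_iff.1 hq) (by omega)
  let Q : QuadraticForm F (Unit ⊕ (Fin m ⊕ Fin m) → F) := (QuadOrders.Qs m (QuadOrders.Q1 (F := F))).comp (QuadOrders.eOdd F m).toLinearMap
  have hf : ∀ v, Q v = Cfsg.quadFormOdd m F v := fun v => QuadOrders.eOdd_form m v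
  have hB : (QuadraticMap.polarBilin Q).Nondegenerate :=
    QuadOrders.nondeg_comp _ (QuadOrders.nondeg_std (QuadOrders.Q1_nondeg h2))
  let w : F → Fin m → (Unit ⊕ (Fin m ⊕ Fin m) → F) := fun c j => Sum.elim 0 (Sum.elim (Pi.single j 1) (Pi.single j c))
  have hQw : ∀ c j, Q (w c j) = c := fun c j => by simp [hf, w, Cfsg.quadFormOdd, Pi.single_apply]
  have hβ : ∀ (c : F) (j : Fin m) (y : Unit ⊕ (Fin m ⊕ Fin m) → F),
      QuadraticMap.polarBilin Q (w c j) y = y (Sum.inr (Sum.inr j)) + c * y (Sum.inr (Sum.inl j)) := by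
    intro c j y
    simp [QuadraticMap.polar, hf, Cfsg.quadFormOdd, w, add_mul, mul_add, Finset.sum_add_distrib, Pi.single_apply, Finset.sum_ite_eq', ite_mul, mul_ite]
    ring
  let D : ℕ → Matrix (Unit ⊕ (Fin m ⊕ Fin m)) (Unit ⊕ (Fin m ⊕ Fin m)) F := fun t => Matrix.diagonal
    (fun k => if (Sum.elim (fun _ : Unit => t) (Sum.elim (fun j : Fin m => (j : ℕ)) (fun j : Fin m => (j : ℕ))) k) < t then (-1 : F) else 1)
  have key : ∀ t ≤ m, ∃ L : List (Unit ⊕ (Fin m ⊕ Fin m) → F), (∀ v ∈ L, Q v ≠ 0) ∧ L.length = 2 * t ∧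
      (L.map fun v => Q v).prod = (-1) ^ t ∧ (L.map (Cfsg.reflectionMatrix (Cfsg.quadFormOdd m F))).prod = D t := by
    intro t
    induction t with
    | zero =>
      intro _
      refine ⟨[], by simp, rfl, by simp, ?_⟩
      simp only [List.map_nil, List.prod_nil, D, Nat.not_lt_zero, if_false]
      exact Matrix.diagonal_one.symm
    | succ t ih =>
      intro ht
      obtain ⟨L, hL, hlen, hprod, hmat⟩ := ih (by omega)
      let j : Fin m := ⟨t, ht⟩
      refine ⟨w 1 j :: w (-1) j :: L, ?_, by simp [hlen]; omega, ?_, ?_⟩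
      · simpa [hQw] using hL
      · simp [hQw, hprod, pow_succ]
      rw [List.map_cons, List.map_cons, List.prod_cons, List.prod_cons, hmat]
      refine Cfsg.Lib.Classical.ext_mulVec fun x => ?_
      rw [← Matrix.mulVec_mulVec, ← Matrix.mulVec_mulVec, mulVec_reflectionMatrix hf, mulVec_reflectionMatrix hf,
        refl_apply, refl_apply, hβ, hβ, hQw, hQw]
      funext k
      rcases k with u | k | k
      · simp [D, w, Matrix.mulVec_diagonal]
      all_goals
        rcases lt_trichotomy (k : ℕ) t with hk | hk | hk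
        · have : k ≠ j := fun e => by simp [e, j] at hk
          simp [D, w, Matrix.mulVec_diagonal, hk, show (k : ℕ) ≤ t by omega, this]
        · obtain rfl : k = j := Fin.ext hk
          simp [D, w, Matrix.mulVec_diagonal, j]
        · have : k ≠ j := fun e => by simp [e, j] at hk
          simp [D, w, Matrix.mulVec_diagonal, show ¬ (k : ℕ) < t by omega, show ¬ (k : ℕ) ≤ t by omega, this]
  obtain ⟨L, hL, hlen, hprod, hmat⟩ := key i him
  have hn : 2 ≤ Module.finrank F (Unit ⊕ (Fin m ⊕ Fin m) → F) := by simp; omega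
  have hiff : IsSquare ((-1 : F) ^ i) ↔ q ^ i % 4 = 1 := by
    rcases Nat.even_or_odd i with he | ho
    · rw [he.neg_one_pow]
      obtain ⟨k, rfl⟩ := he
      simp only [IsSquare.one, true_iff]
      obtain ⟨t, rfl⟩ := hq
      have : (2 * t + 1) % 4 = 1 ∨ (2 * t + 1) % 4 = 3 := by omega
      rw [← two_mul, pow_mul, Nat.pow_mod, Nat.pow_mod (2 * t + 1)]
      rcases this with e | e <;> simp [e]
    · rw [ho.neg_one_pow, FiniteField.isSquare_neg_one_iff, hF]
      obtain ⟨k, rfl⟩ := ho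
      obtain ⟨t, rfl⟩ := hq
      have : (2 * t + 1) % 4 = 1 ∨ (2 * t + 1) % 4 = 3 := by omega
      rw [pow_succ, pow_mul, Nat.mul_mod, Nat.pow_mod, Nat.pow_mod (2 * t + 1)]
      rcases this with e | e <;> simp [e]
  rw [← hiff, ← hprod]
  constructor
  · rintro ⟨g, hg, e⟩
    exact ((OmegaCrit.mem_omega_list hf hB h2 hn g L hL (OmegaCrit.eI_list hf g L (e.trans hmat.symm))).1 hg).2
  · intro hs
    have e : ((((eI hf).symm (L.map (refl Q)).prod : Cfsg.isometryGroup F (Cfsg.quadFormOdd m F)) : Matrix.GeneralLinearGroup (Unit ⊕ (Fin m ⊕ Fin m)) F) : Matrix (Unit ⊕ (Fin m ⊕ Fin m)) (Unit ⊕ (Fin m ⊕ Fin m)) F) = D i := by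
      refine Cfsg.Lib.Classical.ext_mulVec fun x => ?_
      rw [← eI_apply hf, MulEquiv.apply_symm_apply, OmegaCrit.prod_apply hf, hmat]
    exact ⟨_, (OmegaCrit.mem_omega_list hf hB h2 hn _ L hL (MulEquiv.apply_symm_apply _ _)).2 ⟨⟨i, by omega⟩, hs⟩, e⟩

end Cfsg.Agent.S2614
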