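import Cfsg.Statements.S2615
import Cfsg.Agent.Lib.Classical.LeviOmega
import Cfsg.Agent.Lib.Classical.OmegaSum
-- import your own Cfsg.Agent.* helpers here

set_option autoImplicit false
open Cfsg

namespace Cfsg.Agent.S2615

/-- For an elliptic form Σ_(j<m−1) x_j y_j + (z₁² + a z₁z₂ + b z₂²) (anisotropic binary part) on F^(2m), F finite with q elements, q odd, and 1 ≤ i ≤ m − 1: the involution negating the first i hyperbolic pairs and fixing the rest lies in Ω⁻_2m(q) (commutator subgroup of the orthogonal group) if and only if q^i ≡ 1 (mod 4). -/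
theorem result {F : Type*} [Field F] [Fintype F] {q : ℕ} (hF : Fintype.card F = q) (hq : Odd q) {m : ℕ} (a b : F) (hab : ∀ z₁ z₂ : F, z₁ ^ 2 + a * z₁ * z₂ + b * z₂ ^ 2 = 0 → z₁ = 0 ∧ z₂ = 0) (i : ℕ) (hi : 1 ≤ i) (him : i + 1 ≤ m) : (∃ g : ↥(Cfsg.isometryGroup F (Cfsg.quadFormMinus (m - 1) F a b)), g ∈ Cfsg.Omega F (Cfsg.quadFormMinus (m - 1) F a b) ∧ ((g : Matrix.GeneralLinearGroup ((Fin (m - 1) ⊕ Fin (m - 1)) ⊕ Fin 2) F) : Matrix ((Fin (m - 1) ⊕ Fin (m - 1)) ⊕ Fin 2) ((Fin (m - 1) ⊕ Fin (m - 1)) ⊕ Fin 2) F) = Matrix.diagonal (fun k : (Fin (m - 1) ⊕ Fin (m - 1)) ⊕ Fin 2 => if (Sum.elim (Sum.elim (fun j : Fin (m - 1) => (j : ℕ)) (fun j : Fin (m - 1) => (j : ℕ))) (fun _ : Fin 2 => i) k) < i then (-1 : F) else 1)) ↔ q ^ i % 4 = 1 := by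
  open Cfsg.Lib.Classical OrthMatrix Reflections in
  classical
  have h2 : (2 : F) ≠ 0 := by
    intro e
    haveI : CharP F 2 := CharTwo.of_one_ne_zero_of_two_eq_zero one_ne_zero e
    have := FiniteField.even_card_of_char_two (F := F) (ringChar.eq F 2)
    rw [hF] at this
    exact absurd (Nat.odd_iff.1 hq) (by omega)
  let Q2 : QuadraticForm F (Fin 2 → F) := QuadraticMap.proj 0 0 + a • QuadraticMap.proj 0 1 + b • QuadraticMap.proj 1 1
  let Q := OmegaSum.Qsum (LeviOmega.Qp F (m - 1)) Q2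
  have hf : ∀ v, Q v = Cfsg.quadFormMinus (m - 1) F a b v := fun v => by
    simp [Q, OmegaSum.Qsum_apply, OmegaSum.sumFn, LeviOmega.Qp_apply, Cfsg.quadFormMinus, Cfsg.quadFormPlus, Q2]
    ring
  have h₂ : (QuadraticMap.polarBilin Q2).Nondegenerate := by
    refine QuadOrders.nondeg_of_left (fun x y => Witt.polar_symm' _ x y) fun x hx => ?_
    have e0 := hx (Pi.single 0 1)
    have e1 := hx (Pi.single 1 1)
    simp [Q2, QuadraticMap.polarBilin_apply_apply, QuadraticMap.polar] at e0 e1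
    have h4 : (4 : F) ≠ 0 := by rw [show (4 : F) = 2 * 2 by norm_num]; exact mul_ne_zero h2 h2
    have hD : a ^ 2 - 4 * b ≠ 0 := by
      intro e
      refine one_ne_zero (hab (-a / 2) 1 ?_).2
      field_simp
      linear_combination -e
    funext i
    fin_cases i
    · exact (mul_eq_zero.1 (show (a ^ 2 - 4 * b) * x 0 = 0 by linear_combination a * e1 - 2 * b * e0)).resolve_left hD
    · exact (mul_eq_zero.1 (show (a ^ 2 - 4 * b) * x 1 = 0 by linear_combination a * e0 - 2 * e1)).resolve_left hD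
  have hB : (QuadraticMap.polarBilin Q).Nondegenerate := OmegaSum.Qsum_nondeg _ _ LeviOmega.Qp_nondeg h₂
  let w : F → Fin (m - 1) → ((Fin (m - 1) ⊕ Fin (m - 1)) ⊕ Fin 2 → F) := fun c j => Sum.elim (Sum.elim (Pi.single j 1) (Pi.single j c)) 0
  have hQw : ∀ c j, Q (w c j) = c := fun c j => by simp [hf, w, Cfsg.quadFormMinus, Pi.single_apply]
  have hβ : ∀ (c : F) (j : Fin (m - 1)) (y : (Fin (m - 1) ⊕ Fin (m - 1)) ⊕ Fin 2 → F),
      QuadraticMap.polarBilin Q (w c j) y = y (Sum.inl (Sum.inr j)) + c * y (Sum.inl (Sum.inl j)) := by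
    intro c j y
    simp [QuadraticMap.polar, hf, Cfsg.quadFormMinus, w, add_mul, mul_add, Finset.sum_add_distrib, Pi.single_apply, Finset.sum_ite_eq', ite_mul, mul_ite]
    ring
  let D : ℕ → Matrix ((Fin (m - 1) ⊕ Fin (m - 1)) ⊕ Fin 2) ((Fin (m - 1) ⊕ Fin (m - 1)) ⊕ Fin 2) F := fun t => Matrix.diagonal
    (fun k => if (Sum.elim (Sum.elim (fun j : Fin (m - 1) => (j : ℕ)) (fun j : Fin (m - 1) => (j : ℕ))) (fun _ : Fin 2 => t) k) < t then (-1 : F) else 1)
  have key : ∀ t ≤ m - 1, ∃ L : List ((Fin (m - 1) ⊕ Fin (m - 1)) ⊕ Fin 2 → F), (∀ v ∈ L, Q v ≠ 0) ∧ L.length = 2 * t ∧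
      (L.map fun v => Q v).prod = (-1) ^ t ∧ (L.map (Cfsg.reflectionMatrix (Cfsg.quadFormMinus (m - 1) F a b))).prod = D t := by
    intro t
    induction t with
    | zero =>
      intro _
      refine ⟨[], by simp, rfl, by simp, ?_⟩
      simp only [List.map_nil, List.prod_nil, D, Nat.not_lt_zero, if_false]
      exact Matrix.diagonal_one.symm
    | succ t ih =>
      intro ht
      obtain ⟨L, hL, hlen, hprod, hmat⟩ := ih (by omega)
      let j : Fin (m - 1) := ⟨t, ht⟩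
      refine ⟨w 1 j :: w (-1) j :: L, ?_, by simp [hlen]; omega, ?_, ?_⟩
      · simpa [hQw] using hL
      · simp [hQw, hprod, pow_succ]
      rw [List.map_cons, List.map_cons, List.prod_cons, List.prod_cons, hmat]
      refine Cfsg.Lib.Classical.ext_mulVec fun x => ?_
      rw [← Matrix.mulVec_mulVec, ← Matrix.mulVec_mulVec, mulVec_reflectionMatrix hf, mulVec_reflectionMatrix hf,
        refl_apply, refl_apply, hβ, hβ, hQw, hQw]
      funext k
      rcases k with (k | k) | u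
      iterate 2
        rcases lt_trichotomy (k : ℕ) t with hk | hk | hk
        · have : k ≠ j := fun e => by simp [e, j] at hk
          simp [D, w, Matrix.mulVec_diagonal, hk, show (k : ℕ) ≤ t by omega, this]
        · obtain rfl : k = j := Fin.ext hk
          simp [D, w, Matrix.mulVec_diagonal, j]
        · have : k ≠ j := fun e => by simp [e, j] at hk
          simp [D, w, Matrix.mulVec_diagonal, show ¬ (k : ℕ) < t by omega, show ¬ (k : ℕ) ≤ t by omega, this]
      simp [D, w, Matrix.mulVec_diagonal]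
  obtain ⟨L, hL, hlen, hprod, hmat⟩ := key i (by omega)
  have hn : 2 ≤ Module.finrank F ((Fin (m - 1) ⊕ Fin (m - 1)) ⊕ Fin 2 → F) := by simp
  have hiff : IsSquare ((-1 : F) ^ i) ↔ q ^ i % 4 = 1 := by
    rcases Nat.even_or_odd i with he | ho
    · rw [he.neg_one_pow]
      obtain ⟨k, rfl⟩ := he
      simp only [IsSquare.one, true_iff]
      obtain ⟨t, rfl⟩ := hq
      have : (2 * t + 1) % 4 = 1 ∨ (2 * t + 1) % 4 = 3 := by omega
      rw [← two_mul, pow_mul, Nat.pow_mod, Nat.pow_mod (2 * t + 1)]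
      rcases this with e | e <;> simp [e]
    · rw [ho.neg_one_pow, FiniteField.isSquare_neg_one_iff, hF]
      obtain ⟨k, rfl⟩ := ho
      obtain ⟨t, rfl⟩ := hq
      have : (2 * t + 1) % 4 = 1 ∨ (2 * t + 1) % 4 = 3 := by omega
      rw [pow_succ, pow_mul, Nat.mul_mod, Nat.pow_mod, Nat.pow_mod (2 * t + 1)]
      rcases this with e | e <;> simp [e]
  rw [← hiff, ← hprod]
  constructor
  · rintro ⟨g, hg, e⟩
    exact ((OmegaCrit.mem_omega_list hf hB h2 hn g L hL (OmegaCrit.eI_list hf g L (e.trans hmat.symm))).1 hg).2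
  · intro hs
    have e : ((((eI hf).symm (L.map (refl Q)).prod : Cfsg.isometryGroup F (Cfsg.quadFormMinus (m - 1) F a b)) : Matrix.GeneralLinearGroup ((Fin (m - 1) ⊕ Fin (m - 1)) ⊕ Fin 2) F) : Matrix ((Fin (m - 1) ⊕ Fin (m - 1)) ⊕ Fin 2) ((Fin (m - 1) ⊕ Fin (m - 1)) ⊕ Fin 2) F) = D i := by
      refine Cfsg.Lib.Classical.ext_mulVec fun x => ?_
      rw [← eI_apply hf, MulEquiv.apply_symm_apply, OmegaCrit.prod_apply hf, hmat]
    exact ⟨_, (OmegaCrit.mem_omega_list hf hB h2 hn _ L hL (MulEquiv.apply_symm_apply _ _)).2 ⟨⟨i, by omega⟩, hs⟩, e⟩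

end Cfsg.Agent.S2615
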