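import Cfsg.Statements.S2617
import Cfsg.Agent.Lib.Classical.SingularDim
-- import your own Cfsg.Agent.* helpers here

set_option autoImplicit false
open Cfsg

namespace Cfsg.Agent.S2617

/-- The two standard quadratic forms of even dimension 2m over a finite field are not isometric: there is no linear isomorphism carrying the elliptic form Σ_(i<m−1) x_i y_i + z₁² + z₁z₂ + ζ z₂² (t² + t + ζ without roots) to the hyperbolic form Σ_(i<m) x_i y_i (they have different Witt index). -/
theorem result {F : Type*} [Field F] [Finite F] {m : ℕ} (hm : 1 ≤ m) (ζ : F) (hζ : ∀ t : F, t ^ 2 + t + ζ ≠ 0) (g : (Fin m ⊕ Fin m → F) ≃ₗ[F] ((Fin (m - 1) ⊕ Fin (m - 1)) ⊕ Fin 2 → F)) : ¬ (∀ v : Fin m ⊕ Fin m → F, Cfsg.quadFormMinus (m - 1) F 1 ζ (g v) = Cfsg.quadFormPlus m F v) := by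
  classical
  intro h
  have hab : ∀ z₁ z₂ : F, z₁ ^ 2 + 1 * z₁ * z₂ + ζ * z₂ ^ 2 = 0 → z₁ = 0 ∧ z₂ = 0 := by
    intro z₁ z₂ hz
    by_cases hz2 : z₂ = 0
    · subst hz2
      exact ⟨by simpa using hz, rfl⟩
    · refine absurd ?_ (hζ (z₁ / z₂))
      field_simp
      linear_combination hz
  let U := (Submodule.span F (Set.range fun i : Fin m => (Pi.single (Sum.inl i) 1 : Fin m ⊕ Fin m → F))).map g.toLinearMap
  have hU : ∀ u ∈ U, Cfsg.quadFormMinus (m - 1) F 1 ζ u = 0 := by
    rintro _ ⟨v, hv, rfl⟩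
    refine (h v).trans ?_
    have h0 : ∀ i, v (Sum.inr i) = 0 := by
      induction hv using Submodule.span_induction with
      | mem p hp => obtain ⟨i, rfl⟩ := hp; simp
      | zero => simp
      | add a b _ _ ha hb => simp [ha, hb]
      | smul c a _ ha => simp [ha]
    simp [Cfsg.quadFormPlus, h0]
  have h1 := SingularDim.finrank_le_minus hab U hU
  have h2 : Module.finrank F U = m := by
    rw [LinearEquiv.finrank_map_eq]
    exact (SingularDim.exists_subspace _ _ _ Sum.inl_injective).trans (Fintype.card_fin m)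
  omega

end Cfsg.Agent.S2617
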