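import Cfsg.Statements.S2619
import Mathlib
-- import your own Cfsg.Agent.* helpers here

set_option autoImplicit false
open Cfsg

namespace Cfsg.Agent.S2619

/-- Over a finite field of characteristic two, given an alternating bilinear form B on a finite-dimensional space, a basis (v_i) and scalars (λ_i), there is exactly one quadratic form whose polar form is B and whose value at each v_i is λ_i. -/
theorem result {F V ι : Type*} [Field F] [Finite F] [CharP F 2] [AddCommGroup V] [Module F V] [Fintype ι] (b : Module.Basis ι F V) (B : LinearMap.BilinForm F V) (hB : B.IsAlt) (c : ι → F) : ∃! Q : QuadraticForm F V, QuadraticMap.polarBilin Q = B ∧ ∀ i, Q (b i) = c i := by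
  classical
  letI : LinearOrder ι := LinearOrder.lift' (Fintype.equivFin ι) (Fintype.equivFin ι).injective
  let B0 : LinearMap.BilinForm F V := LinearMap.BilinForm.toMatrix b |>.symm
    (Matrix.of fun i j => if i < j then B (b i) (b j) else if i = j then c i else 0)
  have hB0 : ∀ i j, B0 (b i) (b j) = if i < j then B (b i) (b j) else if i = j then c i else 0 := fun i j => by
    have := LinearMap.BilinForm.toMatrix_apply b B0 i j
    simp only [B0, LinearEquiv.apply_symm_apply, Matrix.of_apply] at this
    exact this.symm
  let Q : QuadraticForm F V := LinearMap.BilinMap.toQuadraticMap B0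
  have hpol : QuadraticMap.polarBilin Q = B := by
    refine LinearMap.BilinForm.ext_basis b fun i j => ?_
    simp only [Q, QuadraticMap.polarBilin_apply_apply, LinearMap.BilinMap.polar_toQuadraticMap]
    rw [hB0, hB0]
    rcases lt_trichotomy i j with h | h | h
    · simp [h, h.not_gt, h.ne']
    · subst h
      simp [hB (b i), CharTwo.add_self_eq_zero]
    · simp [h, h.not_gt, h.ne']
      rw [← LinearMap.IsAlt.neg hB (b i) (b j), CharTwo.neg_eq]
  have hval : ∀ i, Q (b i) = c i := fun i => by simp [Q, hB0]
  refine ⟨Q, ⟨hpol, hval⟩, ?_⟩
  rintro Q' ⟨hp, hv⟩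
  refine QuadraticMap.ext fun x => ?_
  have hadd : ∀ y z, (Q' y = Q y) → (Q' z = Q z) → Q' (y + z) = Q (y + z) := fun y z hy hz => by
    have e1 : QuadraticMap.polar Q' y z = QuadraticMap.polar Q y z := by
      rw [← QuadraticMap.polarBilin_apply_apply, hp, ← hpol, QuadraticMap.polarBilin_apply_apply]
    simp only [QuadraticMap.polar, hy, hz] at e1
    linear_combination e1
  induction (b.mem_span x) using Submodule.span_induction with
  | mem y hy => obtain ⟨i, rfl⟩ := hy; rw [hv, hval]
  | zero => simp
  | add y z _ _ hy hz => exact hadd y z hy hz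
  | smul a y _ hy => rw [QuadraticMap.map_smul, QuadraticMap.map_smul, hy]

end Cfsg.Agent.S2619
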