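import Cfsg.Statements.S2620
import Cfsg.Agent.Lib.Classical.Discriminant
import Cfsg.Agent.Lib.Classical.LeviOmega
-- import your own Cfsg.Agent.* helpers here

set_option autoImplicit false
open Cfsg

namespace Cfsg.Agent.S2620

/-- Discriminant of the hyperbolic quadratic form Σ_(i<m) x_i y_i over a field with q elements, q odd, m ≥ 1: the determinant of the Gram matrix of its polar form in any basis is a square if and only if m(q − 1)/2 is even (equivalently q^m ≡ 1 (mod 4)). -/
theorem result {F : Type*} [Field F] [Fintype F] {q : ℕ} (hF : Fintype.card F = q) (hq : Odd q) {m : ℕ} (hm : 1 ≤ m) {ι : Type*} [Fintype ι] [DecidableEq ι] (b : Module.Basis ι F (Fin m ⊕ Fin m → F)) : IsSquare (Matrix.of (fun i j : ι => QuadraticMap.polar (Cfsg.quadFormPlus m F) (b i) (b j))).det ↔ Even (m * (q - 1) / 2) := by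
  open Cfsg.Lib.Classical in
  classical
  let B : LinearMap.BilinForm F (Fin m ⊕ Fin m → F) := QuadraticMap.polarBilin (LeviOmega.Qp F m)
  have hB : ∀ x y, B x y = QuadraticMap.polar (Cfsg.quadFormPlus m F) x y := fun x y => by
    simp [B, QuadraticMap.polar, LeviOmega.Qp_apply]
  rw [show Matrix.of (fun i j : ι => QuadraticMap.polar (Cfsg.quadFormPlus m F) (b i) (b j)) = LinearMap.BilinForm.toMatrix b B from
      Matrix.ext fun i j => by rw [LinearMap.BilinForm.toMatrix_apply, hB]; rfl,
    Discriminant.isSquare_basis B b,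
    show LinearMap.BilinForm.toMatrix (Pi.basisFun F (Fin m ⊕ Fin m)) B = Matrix.fromBlocks 0 1 1 0 from
      Matrix.ext fun i j => by rw [LinearMap.BilinForm.toMatrix_apply, hB, Pi.basisFun_apply, Pi.basisFun_apply, Discriminant.gram_plus],
    Discriminant.det_hyp, Discriminant.isSquare_neg_one_pow hF hq]

end Cfsg.Agent.S2620
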