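import Cfsg.Statements.S2621
import Cfsg.Agent.Lib.Classical.Discriminant
import Cfsg.Agent.Lib.Classical.LeviOmega
import Cfsg.Agent.Lib.Classical.OmegaSum
-- import your own Cfsg.Agent.* helpers here

set_option autoImplicit false
open Cfsg

namespace Cfsg.Agent.S2621

/-- Discriminant of an elliptic quadratic form Σ_(i<m−1) x_i y_i + z₁² + a z₁z₂ + c z₂² (binary part anisotropic) in dimension 2m over a field with q elements, q odd, m ≥ 1: the determinant of the Gram matrix of its polar form in any basis is a square if and only if m(q − 1)/2 is odd (equivalently q^m ≡ 3 (mod 4)). -/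
theorem result {F : Type*} [Field F] [Fintype F] {q : ℕ} (hF : Fintype.card F = q) (hq : Odd q) {m : ℕ} (hm : 1 ≤ m) (a c : F) (hac : ∀ z₁ z₂ : F, z₁ ^ 2 + a * z₁ * z₂ + c * z₂ ^ 2 = 0 → z₁ = 0 ∧ z₂ = 0) {ι : Type*} [Fintype ι] [DecidableEq ι] (b : Module.Basis ι F ((Fin (m - 1) ⊕ Fin (m - 1)) ⊕ Fin 2 → F)) : IsSquare (Matrix.of (fun i j : ι => QuadraticMap.polar (Cfsg.quadFormMinus (m - 1) F a c) (b i) (b j))).det ↔ ¬ Even (m * (q - 1) / 2) := by
  open Cfsg.Lib.Classical in
  classical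
  have h2 : (2 : F) ≠ 0 := by
    intro e
    haveI : CharP F 2 := CharTwo.of_one_ne_zero_of_two_eq_zero one_ne_zero e
    have := FiniteField.even_card_of_char_two (F := F) (ringChar.eq F 2)
    rw [hF] at this
    exact absurd (Nat.odd_iff.1 hq) (by omega)
  let Q2 : QuadraticForm F (Fin 2 → F) := QuadraticMap.proj 0 0 + a • QuadraticMap.proj 0 1 + c • QuadraticMap.proj 1 1
  let Q := OmegaSum.Qsum (LeviOmega.Qp F (m - 1)) Q2
  have hQ : ∀ v, Q v = Cfsg.quadFormMinus (m - 1) F a c v := fun v => by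
    simp [Q, OmegaSum.Qsum_apply, OmegaSum.sumFn, LeviOmega.Qp_apply, Cfsg.quadFormMinus, Cfsg.quadFormPlus, Q2]
    ring
  let B : LinearMap.BilinForm F ((Fin (m - 1) ⊕ Fin (m - 1)) ⊕ Fin 2 → F) := QuadraticMap.polarBilin Q
  have hB : ∀ x y, B x y = QuadraticMap.polar (Cfsg.quadFormMinus (m - 1) F a c) x y := fun x y => by
    simp [B, QuadraticMap.polar, hQ]
  rw [show Matrix.of (fun i j : ι => QuadraticMap.polar (Cfsg.quadFormMinus (m - 1) F a c) (b i) (b j)) = LinearMap.BilinForm.toMatrix b B from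
      Matrix.ext fun i j => by rw [LinearMap.BilinForm.toMatrix_apply, hB]; rfl,
    Discriminant.isSquare_basis B b,
    show LinearMap.BilinForm.toMatrix (Pi.basisFun F ((Fin (m - 1) ⊕ Fin (m - 1)) ⊕ Fin 2)) B =
        Matrix.fromBlocks (Matrix.fromBlocks 0 1 1 0) 0 0 !![2, a; a, 2 * c] from ?_,
    Matrix.det_fromBlocks_zero₂₁, Discriminant.det_hyp, Matrix.det_fin_two_of, ← Discriminant.isSquare_neg_one_pow hF hq]
  · have hD : ¬ IsSquare (a ^ 2 - 4 * c) := by
      rintro ⟨s, hs⟩
      refine one_ne_zero (hac ((s - a) / 2) 1 ?_).2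
      field_simp
      linear_combination -hs
    have hD0 : a ^ 2 - 4 * c ≠ 0 := fun h => hD (h ▸ IsSquare.zero)
    rw [show (-1 : F) ^ (m - 1) * (2 * (2 * c) - a * a) = (-1) ^ m * (a ^ 2 - 4 * c) by
      conv_rhs => rw [show m = (m - 1) + 1 by omega, pow_succ]
      ring]
    have hu : ((-1 : F) ^ m) ≠ 0 := pow_ne_zero _ (neg_ne_zero.2 one_ne_zero)
    rw [← quadraticChar_one_iff_isSquare (mul_ne_zero hu hD0), ← quadraticChar_one_iff_isSquare hu, map_mul,
      quadraticChar_neg_one_iff_not_isSquare.2 hD]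
    rcases quadraticChar_dichotomy hu with e | e <;> rw [e] <;> norm_num
  · refine Matrix.ext fun i j => ?_
    rw [LinearMap.BilinForm.toMatrix_apply, Pi.basisFun_apply, Pi.basisFun_apply, hB]
    rcases i with (i | i) | i <;> rcases j with (j | j) | j <;> try fin_cases i <;> try fin_cases j
    all_goals
      simp [QuadraticMap.polar, Cfsg.quadFormMinus, Pi.single_apply, add_mul, mul_add, Finset.sum_add_distrib,
        Finset.sum_ite_eq', ite_mul, mul_ite, Matrix.one_apply, eq_comm]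
    all_goals ring

end Cfsg.Agent.S2621
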