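import Cfsg.Statements.S2622

-- import your own Cfsg.Agent.* helpers here

set_option autoImplicit false
open Cfsg

namespace Cfsg.Agent.S2622

/-- Over a finite field of characteristic two, a non-degenerate symmetric bilinear form that is not alternating (some vector v has B(v, v) ≠ 0) admits an orthonormal basis. -/
theorem result {F V : Type*} [Field F] [Finite F] [CharP F 2] [AddCommGroup V] [Module F V] [FiniteDimensional F V] {n : ℕ} (hV : Module.finrank F V = n) (B : LinearMap.BilinForm F V) (hS : B.IsSymm) (hB : B.Nondegenerate) (hna : ∃ v : V, B v v ≠ 0) : ∃ b : Module.Basis (Fin n) F V, ∀ i j, B (b i) (b j) = if i = j then 1 else 0 := by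
  classical
  have := Fintype.ofFinite F
  have hchar : ringChar F = 2 := ringChar.eq F 2
  have hsymm : ∀ x y, B x y = B y x := fun x y => hS.eq x y
  have h2 : ∀ c : F, c + c = 0 := CharTwo.add_self_eq_zero
  have key : ∀ (k : ℕ) (W : Submodule F V), Module.finrank F W = k →
      (∀ w ∈ W, (∀ z ∈ W, B w z = 0) → w = 0) → (k = 0 ∨ ∃ v ∈ W, B v v ≠ 0) →
      ∃ f : Fin k → V, (∀ i, f i ∈ W) ∧ ∀ i j, B (f i) (f j) = if i = j then 1 else 0 := by
    intro k
    induction k with
    | zero => exact fun W _ _ _ => ⟨Fin.elim0, fun i => i.elim0, fun i => i.elim0⟩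
    | succ k ih =>
      intro W hW hnd hna'
      obtain ⟨v, hv, hvv⟩ := hna'.resolve_left (by omega)
      obtain ⟨s, hs⟩ := FiniteField.isSquare_of_char_two hchar (B v v)⁻¹
      obtain ⟨x₀, hx₀W, hx₀⟩ : ∃ x ∈ W, B x x = 1 :=
        ⟨s • v, W.smul_mem _ hv, by
          rw [map_smul, map_smul, LinearMap.smul_apply, smul_eq_mul, smul_eq_mul, ← mul_assoc, ← hs,
            inv_mul_cancel₀ hvv]⟩
      have split : ∀ x ∈ W, B x x = 1 → ∀ W', W' = W ⊓ LinearMap.ker (B x) → Module.finrank F W' = k ∧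
          ∀ w ∈ W', (∀ z ∈ W', B w z = 0) → w = 0 := by
        rintro x hxW hx W' rfl
        constructor
        · let f : W →ₗ[F] F := (B x).comp W.subtype
          have hf : Function.Surjective f := fun c => ⟨c • ⟨x, hxW⟩, by simp [f, hx]⟩
          have h1 := LinearMap.finrank_range_add_finrank_ker f
          rw [LinearMap.range_eq_top.2 hf, finrank_top, Module.finrank_self, hW] at h1
          have h3 : (LinearMap.ker f).map W.subtype = W ⊓ LinearMap.ker (B x) := by
            ext w
            constructor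
            · rintro ⟨⟨w, hw⟩, hk, rfl⟩; exact ⟨hw, hk⟩
            · rintro ⟨hw, hk⟩; exact ⟨⟨w, hw⟩, hk, rfl⟩
          rw [← h3, ← (Submodule.equivMapOfInjective _ W.injective_subtype _).finrank_eq]
          omega
        · rintro w ⟨hw, hwx⟩ h
          refine hnd w hw fun z hz => ?_
          have hwx' : B w x = 0 := by rw [hsymm]; exact hwx
          have hmem : z - B x z • x ∈ W ⊓ LinearMap.ker (B x) :=
            ⟨W.sub_mem hz (W.smul_mem _ hxW), by simp [hx]⟩
          simpa [hwx'] using h _ hmem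
      obtain ⟨x, hxW, hx, hx'⟩ : ∃ x ∈ W, B x x = 1 ∧
          (k = 0 ∨ ∃ v ∈ W ⊓ LinearMap.ker (B x), B v v ≠ 0) := by
        obtain ⟨hd, hnd'⟩ := split x₀ hx₀W hx₀ _ rfl
        by_cases halt : k = 0 ∨ ∃ v ∈ W ⊓ LinearMap.ker (B x₀), B v v ≠ 0
        · exact ⟨x₀, hx₀W, hx₀, halt⟩
        · push Not at halt
          obtain ⟨e, he, he0⟩ := (W ⊓ LinearMap.ker (B x₀)).exists_mem_ne_zero_of_ne_bot (fun h => halt.1 (by
            rw [h, finrank_bot] at hd; omega))
          obtain ⟨z, hz, hez⟩ : ∃ z ∈ W ⊓ LinearMap.ker (B x₀), B e z ≠ 0 := by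
            by_contra! hcon
            exact he0 (hnd' e he hcon)
          have hxe : B x₀ e = 0 := he.2
          have hxz : B x₀ z = 0 := hz.2
          have hee := halt.2 e he
          have hzz := halt.2 z hz
          refine ⟨x₀ + e, W.add_mem hx₀W he.1, by simp [hx₀, hxe, hsymm e x₀, hee],
            Or.inr ⟨x₀ + (B e z)⁻¹ • z, ⟨W.add_mem hx₀W (W.smul_mem _ hz.1), ?_⟩, ?_⟩⟩
          · show B (x₀ + e) (x₀ + (B e z)⁻¹ • z) = 0
            simp [hx₀, hxe, hsymm e x₀, hxz, inv_mul_cancel₀ hez, h2]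
          · simp [hx₀, hxz, hsymm z x₀, hzz]
      obtain ⟨hd, hnd'⟩ := split x hxW hx _ rfl
      obtain ⟨f, hfW, hf⟩ := ih _ hd hnd' hx'
      refine ⟨Fin.cons x f, fun i => Fin.cases hxW (fun i => (hfW i).1) i, ?_⟩
      have hxf : ∀ i, B x (f i) = 0 := fun i => (hfW i).2
      intro i j
      induction i using Fin.cases <;> induction j using Fin.cases <;>
        simp [hx, hxf, hsymm _ x, hf, Fin.succ_ne_zero, (Fin.succ_ne_zero _).symm]
  obtain ⟨f, -, hf⟩ := key n ⊤ (by rw [finrank_top, hV]) (fun w _ h => hB.1 w fun z => h z trivial)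
    (Or.inr (by obtain ⟨v, hv⟩ := hna; exact ⟨v, trivial, hv⟩))
  have hLI : LinearIndependent F f := by
    rw [Fintype.linearIndependent_iff]
    intro c hc i
    have := congrArg (B (f i)) hc
    simpa [hf] using this
  refine ⟨basisOfLinearIndependentOfCardEqFinrank' f hLI (by rw [hV, Fintype.card_fin]), fun i j => ?_⟩
  rw [coe_basisOfLinearIndependentOfCardEqFinrank']
  exact hf i j

end Cfsg.Agent.S2622
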