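import Cfsg.Statements.S2623
import Cfsg.Agent.Lib.Classical.DiagForm
-- import your own Cfsg.Agent.* helpers here

set_option autoImplicit false
open Cfsg

namespace Cfsg.Agent.S2623

/-- Over a finite field of odd order, two quadratic forms on F^n with non-degenerate polar forms are isometric (related by an invertible linear change of variables) if and only if their discriminants (determinants of the Gram matrices of their polar forms) lie in the same square class. -/
theorem result {F : Type*} [Field F] [Fintype F] (h2 : (2 : F) ≠ 0) {n : ℕ} (Q₁ Q₂ : QuadraticForm F (Fin n → F)) (h₁ : (QuadraticMap.polarBilin Q₁).Nondegenerate) (h₂ : (QuadraticMap.polarBilin Q₂).Nondegenerate) : (∃ g : (Fin n → F) ≃ₗ[F] (Fin n → F), ∀ v, Q₂ (g v) = Q₁ v) ↔ IsSquare ((Matrix.of (fun i j : Fin n => QuadraticMap.polar ⇑Q₁ (Pi.single i 1) (Pi.single j 1))).det * (Matrix.of (fun i j : Fin n => QuadraticMap.polar ⇑Q₂ (Pi.single i 1) (Pi.single j 1))).det) := by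
  classical
  have : Invertible (2 : F) := invertibleOfNonzero h2
  -- diagonal shape
  have hdiag : ∀ Q : QuadraticForm F (Fin n → F), (QuadraticMap.polarBilin Q).Nondegenerate →
      ∃ (w : Fin n → F) (e : (Fin n → F) ≃ₗ[F] (Fin n → F)), (∀ i, w i ≠ 0) ∧ ∀ v, DiagForm.ws w (e v) = Q v := by
    intro Q hQ
    have hsep : (QuadraticMap.associated (R := F) Q).SeparatingLeft := by
      intro x hx
      refine hQ.1 x fun y => ?_
      rw [← QuadraticMap.two_nsmul_associated (S := F) Q]
      show (2 • QuadraticMap.associated (R := F) Q) x y = 0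
      rw [LinearMap.smul_apply, LinearMap.smul_apply, hx y, smul_zero]
    obtain ⟨w, ⟨e⟩⟩ := QuadraticForm.equivalent_weightedSumSquares_units_of_nondegenerate' Q hsep
    have hd : Module.finrank F (Fin n → F) = n := by simp
    refine ⟨fun i => (w (finCongr hd.symm i) : F), e.toLinearEquiv.trans (LinearEquiv.funCongrLeft F F (finCongr hd.symm)),
      fun i => Units.ne_zero _, fun v => ?_⟩
    rw [← e.map_app v]
    show ∑ i, (w (finCongr hd.symm i) : F) * (e v (finCongr hd.symm i)) ^ 2 = QuadraticMap.weightedSumSquares F w (e v)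
    rw [QuadraticMap.weightedSumSquares_apply, Equiv.sum_comp (finCongr hd.symm) (fun k => (w k : F) * (e v k) ^ 2)]
    exact Finset.sum_congr rfl fun k _ => by rw [pow_two, Units.smul_def, smul_eq_mul]
  have hdisc : ∀ (Q : QuadraticForm F (Fin n → F)) (w : Fin n → F) (e : (Fin n → F) ≃ₗ[F] (Fin n → F)),
      (∀ v, DiagForm.ws w (e v) = Q v) →
      (Matrix.of (fun i j : Fin n => QuadraticMap.polar ⇑Q (Pi.single i 1) (Pi.single j 1))).det =
        LinearMap.det (e : (Fin n → F) →ₗ[F] (Fin n → F)) ^ 2 * (2 ^ n * ∏ i, w i) := by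
    intro Q w e he
    have hpol : ∀ x y : Fin n → F, QuadraticMap.polar (DiagForm.ws w) x y = ∑ k, 2 * w k * x k * y k := fun x y => by
      simp only [DiagForm.ws, QuadraticMap.polar, Pi.add_apply, ← Finset.sum_sub_distrib]
      exact Finset.sum_congr rfl fun k _ => by ring
    rw [DiagForm.gram_det (⇑Q) (DiagForm.ws w) (QuadraticMap.polarBilin Q)
      (Matrix.toBilin' (Matrix.diagonal fun k => 2 * w k)) (fun x y => rfl) (fun x y => by
        rw [hpol, Matrix.toBilin'_apply', dotProduct]
        exact Finset.sum_congr rfl fun k _ => by rw [Matrix.mulVec_diagonal]; ring) e he]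
    congr 1
    have hG : Matrix.of (fun i j : Fin n => QuadraticMap.polar (DiagForm.ws w) (Pi.single i 1) (Pi.single j 1)) =
        Matrix.diagonal fun k => 2 * w k := by
      ext i j
      rw [Matrix.of_apply, hpol]
      simp [Matrix.diagonal_apply, Pi.single_apply]
      split_ifs <;> simp_all
    rw [hG, Matrix.det_diagonal, Finset.prod_mul_distrib, Finset.prod_const, Finset.card_univ, Fintype.card_fin]
  constructor
  · rintro ⟨g, hg⟩
    rw [DiagForm.gram_det (⇑Q₁) (⇑Q₂) (QuadraticMap.polarBilin Q₁) (QuadraticMap.polarBilin Q₂) (fun _ _ => rfl)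
      (fun _ _ => rfl) g hg]
    exact ⟨LinearMap.det (g : (Fin n → F) →ₗ[F] (Fin n → F)) *
      (Matrix.of (fun i j : Fin n => QuadraticMap.polar ⇑Q₂ (Pi.single i 1) (Pi.single j 1))).det, by ring⟩
  · intro hsq
    obtain ⟨w₁, e₁, hw₁, he₁⟩ := hdiag Q₁ h₁
    obtain ⟨w₂, e₂, hw₂, he₂⟩ := hdiag Q₂ h₂
    rw [hdisc Q₁ w₁ e₁ he₁, hdisc Q₂ w₂ e₂ he₂] at hsq
    obtain ⟨s, hs⟩ := hsq
    obtain ⟨g, hg⟩ := DiagForm.equiv_of_square h2 w₁ w₂ hw₁ hw₂
      ⟨s / (LinearMap.det (e₁ : (Fin n → F) →ₗ[F] (Fin n → F)) * LinearMap.det (e₂ : (Fin n → F) →ₗ[F] (Fin n → F)) * 2 ^ n), by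
        have := (LinearEquiv.isUnit_det' e₁).ne_zero
        have := (LinearEquiv.isUnit_det' e₂).ne_zero
        have : (2 : F) ^ n ≠ 0 := pow_ne_zero n h2
        field_simp
        linear_combination hs⟩
    refine ⟨e₁.trans (g.trans e₂.symm), fun v => ?_⟩
    rw [← he₂, ← he₁]
    simp [hg]

end Cfsg.Agent.S2623
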