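import Cfsg.Statements.S2625
import Cfsg.Agent.Lib.Classical.DiagForm
-- import your own Cfsg.Agent.* helpers here

set_option autoImplicit false
open Cfsg

namespace Cfsg.Agent.S2625

/-- For a quadratic form Q on F^n with non-degenerate polar form, F finite and n odd (so |F| is odd), the multiplier of any similarity is a square: if g is an invertible linear map with Q(g v) = c·Q(v) for all v then c is a square. -/
theorem result {F : Type*} [Field F] [Fintype F] {n : ℕ} (hn : Odd n) (Q : QuadraticForm F (Fin n → F)) (hQ : (QuadraticMap.polarBilin Q).Nondegenerate) (g : (Fin n → F) ≃ₗ[F] (Fin n → F)) (c : F) (hg : ∀ v, Q (g v) = c * Q v) : IsSquare c := by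
  classical
  rcases eq_or_ne c 0 with rfl | hc
  · exact IsSquare.zero
  have hdet0 : (Matrix.of (fun i j : Fin n => QuadraticMap.polar ⇑Q (Pi.single i 1) (Pi.single j 1))).det ≠ 0 := by
    rw [show Matrix.of (fun i j : Fin n => QuadraticMap.polar ⇑Q (Pi.single i 1) (Pi.single j 1)) =
      LinearMap.BilinForm.toMatrix' (QuadraticMap.polarBilin Q) from by ext i j; simp [LinearMap.BilinForm.toMatrix'_apply]]
    exact Matrix.nondegenerate_iff_det_ne_zero.1 (LinearMap.BilinForm.nondegenerate_toMatrix'_iff.2 hQ)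
  have e := Cfsg.Agent.DiagForm.gram_det ⇑(c • Q) ⇑Q (QuadraticMap.polarBilin (c • Q)) (QuadraticMap.polarBilin Q)
    (fun x y => rfl) (fun x y => rfl) g (fun v => by rw [hg]; rfl)
  rw [show Matrix.of (fun i j : Fin n => QuadraticMap.polar ⇑(c • Q) (Pi.single i 1) (Pi.single j 1)) =
    c • Matrix.of (fun i j : Fin n => QuadraticMap.polar ⇑Q (Pi.single i 1) (Pi.single j 1)) from by
      ext i j; simp [QuadraticMap.polar_smul], Matrix.det_smul, Fintype.card_fin] at e
  have e' := mul_right_cancel₀ hdet0 e
  obtain ⟨k, rfl⟩ := hn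
  refine ⟨LinearMap.det (g : (Fin (2 * k + 1) → F) →ₗ[F] _) / c ^ k, ?_⟩
  field_simp
  linear_combination e'

end Cfsg.Agent.S2625
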