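import Cfsg.Statements.S2629
import Cfsg.Agent.Lib.Classical.OmegaMove
import Cfsg.Agent.Lib.Classical.LeviOmega
-- import your own Cfsg.Agent.* helpers here

set_option autoImplicit false
open Cfsg

namespace Cfsg.Agent.S2629

/-- For the hyperbolic form Σ x_i y_i on F^(2m) over a finite field of odd order (m ≥ 1), an isometry g preserves the class of the maximal totally singular subspace U₀ = {y = 0} (that is, m − dim(U₀ ∩ gU₀) is even) if and only if det g = 1: the stabiliser of each of the two classes of maximal totally singular subspaces is SO. -/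
theorem result {F : Type*} [Field F] [Fintype F] (h2 : (2 : F) ≠ 0) {m : ℕ} (hm : 1 ≤ m) (g : ↥(Cfsg.isometryGroup F (Cfsg.quadFormPlus m F))) : Even (m - Module.finrank F ↥(LinearMap.ker (LinearMap.funLeft F F (Sum.inr : Fin m → Fin m ⊕ Fin m)) ⊓ (LinearMap.ker (LinearMap.funLeft F F (Sum.inr : Fin m → Fin m ⊕ Fin m))).map (Matrix.mulVecLin ((g : Matrix.GeneralLinearGroup (Fin m ⊕ Fin m) F) : Matrix (Fin m ⊕ Fin m) (Fin m ⊕ Fin m) F)))) ↔ ((g : Matrix.GeneralLinearGroup (Fin m ⊕ Fin m) F) : Matrix (Fin m ⊕ Fin m) (Fin m ⊕ Fin m) F).det = 1 := by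
  open Cfsg.Lib.Classical OrthMatrix Spinor OmegaMove LeviOmega in
  classical
  have hf : ∀ v, Qp F m v = Cfsg.quadFormPlus m F v := Qp_apply
  have hB : (QuadraticMap.polarBilin (Qp F m)).Nondegenerate := Qp_nondeg
  have hex := hex_of_two_ne (V := Fin m ⊕ Fin m → F) h2
  have hU0 : PlusFamilies.TS (Qp F m) (LinearMap.ker (LinearMap.funLeft F F (Sum.inr : Fin m → Fin m ⊕ Fin m))) := fun v hv => by
    rw [hf]
    exact Finset.sum_eq_zero fun i _ => by rw [show v (Sum.inr i) = 0 from congrFun hv i, mul_zero]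
  have hU0d : Module.finrank F (LinearMap.ker (LinearMap.funLeft F F (Sum.inr : Fin m → Fin m ⊕ Fin m))) = m := by
    have h1 := (LinearMap.funLeft F F (Sum.inr : Fin m → Fin m ⊕ Fin m)).finrank_range_add_finrank_ker
    rw [LinearMap.range_eq_top.2 (LinearMap.funLeft_surjective_of_injective F F _ Sum.inr_injective), finrank_top] at h1
    simp at h1
    omega
  have hmap : Matrix.mulVecLin ((g : Matrix.GeneralLinearGroup (Fin m ⊕ Fin m) F) : Matrix (Fin m ⊕ Fin m) (Fin m ⊕ Fin m) F) =
      (eI hf g).1.toLinearMap := LinearMap.ext fun x => (eI_apply hf g x).symm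
  rw [hmap, even_iff_delta hB hex (by simp; omega) hU0 hU0d]
  rw [← mem_special_iff_odd hf hB hex h2]
  exact Units.ext_iff.trans Iff.rfl

end Cfsg.Agent.S2629
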