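import Cfsg.Statements.S2631
import Cfsg.Agent.Lib.Classical.OmegaMove
import Cfsg.Agent.Lib.Classical.LeviOmega
-- import your own Cfsg.Agent.* helpers here

set_option autoImplicit false
open Cfsg

namespace Cfsg.Agent.S2631

/-- For the hyperbolic form Σ x_i y_i on F^(2m) over a finite field (m ≥ 1, excluding m = 2 over the field of two elements), Ω (the commutator subgroup of the orthogonal group) acts transitively on each of the two classes of maximal totally singular subspaces: if U and W are m-dimensional totally singular subspaces with m − dim(U ∩ W) even, some element of Ω carries U to W. -/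
theorem result {F : Type*} [Field F] [Fintype F] {m : ℕ} (hm : 1 ≤ m) (h : Fintype.card F ≠ 2 ∨ m ≠ 2) (U W : Submodule F (Fin m ⊕ Fin m → F)) (hU : Module.finrank F U = m) (hW : Module.finrank F W = m) (hU0 : ∀ u ∈ U, Cfsg.quadFormPlus m F u = 0) (hW0 : ∀ w ∈ W, Cfsg.quadFormPlus m F w = 0) (he : Even (m - Module.finrank F ↥(U ⊓ W))) : ∃ g : ↥(Cfsg.isometryGroup F (Cfsg.quadFormPlus m F)), g ∈ Cfsg.Omega F (Cfsg.quadFormPlus m F) ∧ U.map (Matrix.mulVecLin ((g : Matrix.GeneralLinearGroup (Fin m ⊕ Fin m) F) : Matrix (Fin m ⊕ Fin m) (Fin m ⊕ Fin m) F)) = W := by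
  open Cfsg.Lib.Classical OrthMatrix Spinor OmegaMove LeviOmega in
  classical
  have hf : ∀ v, Qp F m v = Cfsg.quadFormPlus m F v := Qp_apply
  have hB : (QuadraticMap.polarBilin (Qp F m)).Nondegenerate := Qp_nondeg
  have hex := hex_plus h
  refine to_matrix hf ?_
  obtain ⟨g, hg⟩ := exists_map hB (LinearEquiv.ofFinrankEq U W (hU.trans hW.symm))
    (fun u => by rw [hf, hf]; exact (hW0 _ (Subtype.mem _)).trans (hU0 _ u.2).symm)
  have hd : delta hB hex g = 1 := by
    rw [← even_iff_delta hB hex (by simp; omega) (fun u hu => (hf u).trans (hU0 u hu)) hU g, hg]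
    exact he
  by_cases h2 : (2 : F) = 0
  · exact adjust_even hB hex h2 hg (Or.inl hd)
  · refine adjust_odd hB hex h2 (by simp; omega) hg (Or.inl hd) (exists_theta_ts hB hex h2 (fun w hw => (hf w).trans (hW0 w hw)) ?_)
    intro e
    rw [e, finrank_bot] at hW
    omega

end Cfsg.Agent.S2631
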