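import Cfsg.Statements.S2632
import Cfsg.Agent.Lib.Classical.OmegaMove
-- import your own Cfsg.Agent.* helpers here

set_option autoImplicit false
open Cfsg

namespace Cfsg.Agent.S2632

/-- Ω is transitive on non-degenerate subspaces of each isometry type: for a quadratic form Q on F^n, n ≥ 3, with non-degenerate polar form (F finite; excluding dimension 4 over the field of two elements), if U and W are subspaces on which the polar form is non-degenerate and there is a Q-preserving linear isomorphism U → W, then some element of Ω (the commutator subgroup of the orthogonal group) carries U to W. (In dimension 2 this fails: Ω can be {±1}, which fixes every line.) -/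
theorem result {F : Type*} [Field F] [Fintype F] {n : ℕ} (hn : 3 ≤ n) (h : Fintype.card F ≠ 2 ∨ n ≠ 4) (Q : QuadraticForm F (Fin n → F)) (hQ : (QuadraticMap.polarBilin Q).Nondegenerate) (U W : Submodule F (Fin n → F)) (hU : U ⊓ LinearMap.BilinForm.orthogonal (QuadraticMap.polarBilin Q) U = ⊥) (hW : W ⊓ LinearMap.BilinForm.orthogonal (QuadraticMap.polarBilin Q) W = ⊥) (e : U ≃ₗ[F] W) (he : ∀ u : U, Q (e u : Fin n → F) = Q (u : Fin n → F)) : ∃ g : ↥(Cfsg.isometryGroup F ⇑Q), g ∈ Cfsg.Omega F ⇑Q ∧ U.map (Matrix.mulVecLin ((g : Matrix.GeneralLinearGroup (Fin n) F) : Matrix (Fin n) (Fin n) F)) = W := by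
  open Cfsg.Lib.Classical OrthMatrix Spinor OmegaMove in
  classical
  refine to_matrix (fun _ => rfl) ?_
  have hex := hex_of_card h
  obtain ⟨g, hg⟩ := exists_map hQ e he
  let S := LinearMap.BilinForm.orthogonal (QuadraticMap.polarBilin Q) W
  have hS : S ⊓ LinearMap.BilinForm.orthogonal (QuadraticMap.polarBilin Q) S = ⊥ := by
    rw [LinearMap.BilinForm.orthogonal_orthogonal hQ
      (LinearMap.BilinForm.IsSymm.isRefl ⟨fun x y => Witt.polar_symm' Q x y⟩), inf_comm]
    exact hW
  have hdim : Module.finrank F S = n - Module.finrank F W := by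
    rw [LinearMap.BilinForm.finrank_orthogonal hQ, Module.finrank_fin_fun]
  have hd : ∃ x : Witt.quadIso Q, W.map x.1.toLinearMap = W ∧ delta hQ hex x = -1 := by
    obtain ⟨v, hv, hv0⟩ : ∃ v, (v ∈ W ∨ ∀ w ∈ W, QuadraticMap.polarBilin Q v w = 0) ∧ Q v ≠ 0 := by
      rcases eq_or_ne W ⊥ with h0 | h0
      · obtain ⟨v, hv, hv0⟩ := exists_ne_zero_of_nondeg hS (fun e0 => by
          rw [e0, finrank_bot, h0, finrank_bot] at hdim; omega)
        exact ⟨v, mem_or_perp (Or.inr rfl) hv, hv0⟩
      · obtain ⟨v, hv, hv0⟩ := exists_ne_zero_of_nondeg hW h0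
        exact ⟨v, Or.inl hv, hv0⟩
    exact ⟨Reflections.refl Q v, refl_map_eq hv, delta_refl hQ hex hv0⟩
  by_cases h2 : (2 : F) = 0
  · exact adjust_even hQ hex h2 hg (Or.inr hd)
  · refine adjust_odd hQ hex h2 (by rw [Module.finrank_fin_fun]; omega) hg (Or.inr hd) ?_
    by_cases hk : 2 ≤ Module.finrank F W
    · exact exists_theta_nondeg hQ hex h2 (Or.inl rfl) hW hk
    · exact exists_theta_nondeg hQ hex h2 (Or.inr rfl) hS (hdim.symm ▸ (by omega : 2 ≤ n - Module.finrank F W))

end Cfsg.Agent.S2632
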