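import Cfsg.Statements.S2633
import Cfsg.Agent.Lib.Classical.OmegaMove
-- import your own Cfsg.Agent.* helpers here

set_option autoImplicit false
open Cfsg

namespace Cfsg.Agent.S2633

/-- Ω is transitive on totally singular subspaces of each dimension less than half the dimension: for a quadratic form Q on F^n with non-degenerate polar form (F finite; excluding dimension 4 over the field of two elements), if U and W are subspaces of the same dimension k with 2k < n on which Q vanishes, then some element of Ω (the commutator subgroup of the orthogonal group) carries U to W. -/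
theorem result {F : Type*} [Field F] [Fintype F] {n : ℕ} (h : Fintype.card F ≠ 2 ∨ n ≠ 4) (Q : QuadraticForm F (Fin n → F)) (hQ : (QuadraticMap.polarBilin Q).Nondegenerate) (U W : Submodule F (Fin n → F)) {k : ℕ} (hk : 2 * k < n) (hU : Module.finrank F U = k) (hW : Module.finrank F W = k) (hU0 : ∀ u ∈ U, Q u = 0) (hW0 : ∀ w ∈ W, Q w = 0) : ∃ g : ↥(Cfsg.isometryGroup F ⇑Q), g ∈ Cfsg.Omega F ⇑Q ∧ U.map (Matrix.mulVecLin ((g : Matrix.GeneralLinearGroup (Fin n) F) : Matrix (Fin n) (Fin n) F)) = W := by
  open Cfsg.Lib.Classical OrthMatrix Spinor OmegaMove PlusFamilies in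
  classical
  refine to_matrix (fun _ => rfl) ?_
  rcases Nat.eq_zero_or_pos k with rfl | hk0
  · rw [Submodule.finrank_eq_zero] at hU hW
    exact ⟨1, one_mem _, by rw [hU, hW, Submodule.map_bot]⟩
  have hex := hex_of_card h
  obtain ⟨g, hg⟩ := exists_map hQ (LinearEquiv.ofFinrankEq U W (hU.trans hW.symm))
    (fun u => (hW0 _ (Subtype.mem _)).trans (hU0 _ u.2).symm)
  have hd : ∃ x : Witt.quadIso Q, W.map x.1.toLinearMap = W ∧ delta hQ hex x = -1 := by
    obtain ⟨v, hv, hv0⟩ : ∃ v ∈ LinearMap.BilinForm.orthogonal (QuadraticMap.polarBilin Q) W, Q v ≠ 0 := by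
      by_contra! hc
      have h1 := Submodule.finrank_mono (TS.le_perp (Q := Q) hc)
      have h2 := LinearMap.BilinForm.finrank_orthogonal hQ W
      have h3 := LinearMap.BilinForm.finrank_orthogonal hQ (LinearMap.BilinForm.orthogonal (QuadraticMap.polarBilin Q) W)
      rw [Module.finrank_fin_fun] at h2 h3
      omega
    exact ⟨Reflections.refl Q v, refl_map_eq (mem_or_perp (Or.inr rfl) hv), delta_refl hQ hex hv0⟩
  by_cases h2 : (2 : F) = 0
  · exact adjust_even hQ hex h2 hg (Or.inr hd)
  · refine adjust_odd hQ hex h2 (by rw [Module.finrank_fin_fun]; omega) hg (Or.inr hd) (exists_theta_ts hQ hex h2 hW0 ?_)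
    intro e
    rw [e, finrank_bot] at hW
    omega

end Cfsg.Agent.S2633
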