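import Cfsg.Statements.S2634
import Cfsg.Agent.Lib.Classical.OmegaCrit
-- import your own Cfsg.Agent.* helpers here

set_option autoImplicit false
open Cfsg

namespace Cfsg.Agent.S2634

/-- Over a finite field of characteristic two, Ω (the commutator subgroup of the orthogonal group of a quadratic form Q on F^n with non-degenerate polar form; excluding dimension 4 over the field of two elements) acts transitively on the non-singular 1-spaces: for u, v with Q(u) ≠ 0 and Q(v) ≠ 0 some element of Ω carries the line through u to the line through v. -/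
theorem result {F : Type*} [Field F] [Fintype F] [CharP F 2] {n : ℕ} (h : Fintype.card F ≠ 2 ∨ n ≠ 4) (Q : QuadraticForm F (Fin n → F)) (hQ : (QuadraticMap.polarBilin Q).Nondegenerate) (u v : Fin n → F) (hu : Q u ≠ 0) (hv : Q v ≠ 0) : ∃ g : ↥(Cfsg.isometryGroup F ⇑Q), g ∈ Cfsg.Omega F ⇑Q ∧ (F ∙ ((g : Matrix.GeneralLinearGroup (Fin n) F) : Matrix (Fin n) (Fin n) F).mulVec u) = F ∙ v := by
  open Cfsg.Lib.Classical OrthMatrix Reflections Spinor in
  classical
  have h2 : (2 : F) = 0 := CharTwo.two_eq_zero
  have hex := hex_of_card h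
  let f : (Fin n → F) → F := ⇑Q
  have hf : ∀ v, Q v = f v := fun _ => rfl
  obtain ⟨t, ht, huv⟩ := exists_mul_sq hu hv (iff_of_true
    (FiniteField.isSquare_of_char_two (ringChar.eq F 2) _) (FiniteField.isSquare_of_char_two (ringChar.eq F 2) _))
  have hQ' : Q (t • u) = Q v := by rw [Witt.quad_smul, huv]
  obtain ⟨g, hg, hge⟩ := Witt.quad_witt hQ ![t • u] ![v]
    (LinearIndependent.of_subsingleton 0 (smul_ne_zero ht fun h0 => hu (by rw [h0, map_zero])))
    (LinearIndependent.of_subsingleton 0 fun h0 => hv (by rw [show v = 0 from h0, map_zero]))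
    (fun i => by fin_cases i; simpa using hQ')
    (fun i j => by
      fin_cases i; fin_cases j
      show QuadraticMap.polarBilin Q (t • u) (t • u) = QuadraticMap.polarBilin Q v v
      rw [Witt.polar_self', Witt.polar_self', hQ'])
  let g' : Witt.quadIso Q := ⟨g, hg⟩
  have hgv : g'.1 (t • u) = v := hge 0
  have hfix : (refl Q v).1 v = v := refl_fix Q (by rw [Witt.polar_self', h2, zero_mul])
  obtain ⟨x, hx, hxv⟩ : ∃ x : Witt.quadIso Q, delta hQ hex x = 1 ∧ x.1 (t • u) = v := by
    rcases Int.units_eq_one_or (delta hQ hex g') with e | e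
    · exact ⟨g', e, hgv⟩
    · exact ⟨refl Q v * g', by rw [map_mul, delta_refl hQ hex hv, e]; rfl, by
        show (refl Q v).1 (g'.1 (t • u)) = v
        rw [hgv, hfix]⟩
  refine ⟨(eI hf).symm x, ?_, ?_⟩
  · rw [omega_eq hf, commutator_eq_even hQ hex h2]
    show delta hQ hex (eI hf ((eI hf).symm x)) = 1
    rw [MulEquiv.apply_symm_apply, hx]
  · show (F ∙ (((eI hf).symm x : Cfsg.isometryGroup F f) : Matrix.GeneralLinearGroup (Fin n) F).1.mulVec u) = F ∙ v
    rw [← eI_apply hf, MulEquiv.apply_symm_apply, ← hxv, map_smul, Submodule.span_singleton_smul_eq (isUnit_iff_ne_zero.2 ht)]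

end Cfsg.Agent.S2634
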