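import Cfsg.Statements.S2635
import Cfsg.Agent.Lib.Classical.OmegaCrit
-- import your own Cfsg.Agent.* helpers here

set_option autoImplicit false
open Cfsg

namespace Cfsg.Agent.S2635

/-- Over a finite field of characteristic two, for a quadratic form Q on F^n with non-degenerate polar form, n ≥ 2, other than dimension 4 over the field of two elements, Ω (the commutator subgroup of the orthogonal group) is exactly the subgroup generated by the products of two reflections (orthogonal transvections) x ↦ x − Q(v)⁻¹ f(x, v) v, Q(v) ≠ 0: the products of an even number of reflections. -/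
theorem result {F : Type*} [Field F] [Fintype F] [CharP F 2] {n : ℕ} (hn : 2 ≤ n) (h : Fintype.card F ≠ 2 ∨ n ≠ 4) (Q : QuadraticForm F (Fin n → F)) (hQ : (QuadraticMap.polarBilin Q).Nondegenerate) : Cfsg.Omega F ⇑Q = Subgroup.closure {g : ↥(Cfsg.isometryGroup F ⇑Q) | ∃ u v : Fin n → F, Q u ≠ 0 ∧ Q v ≠ 0 ∧ ((g : Matrix.GeneralLinearGroup (Fin n) F) : Matrix (Fin n) (Fin n) F) = Cfsg.reflectionMatrix ⇑Q u * Cfsg.reflectionMatrix ⇑Q v} := by
  open Cfsg.Lib.Classical OrthMatrix Reflections Spinor in
  classical
  have h2 : (2 : F) = 0 := CharTwo.two_eq_zero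
  have hex := hex_of_card h
  let f : (Fin n → F) → F := ⇑Q
  have hf : ∀ v, Q v = f v := fun _ => rfl
  have hmem : ∀ g, g ∈ Cfsg.Omega F f ↔ delta hQ hex (eI hf g) = 1 := fun g => by
    rw [omega_eq hf, commutator_eq_even hQ hex h2]; rfl
  refine le_antisymm (fun g hg => ?_) ((Subgroup.closure_le _).2 ?_)
  · obtain ⟨L, hL, e⟩ := OmegaCrit.exists_list hf hQ hex g
    have hd : delta hQ hex (eI hf g) = 1 := (hmem g).1 hg
    suffices hs : ∀ (k : ℕ) (L : List (Fin n → F)), L.length = 2 * k → (∀ v ∈ L, Q v ≠ 0) →
        (eI hf).symm (L.map (refl Q)).prod ∈ Subgroup.closure {g : ↥(Cfsg.isometryGroup F f) | ∃ u v : Fin n → F, Q u ≠ 0 ∧ Q v ≠ 0 ∧ ((g : Matrix.GeneralLinearGroup (Fin n) F) : Matrix (Fin n) (Fin n) F) = Cfsg.reflectionMatrix f u * Cfsg.reflectionMatrix f v} by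
      have hl : delta hQ hex (L.map (refl Q)).prod = (-1) ^ L.length := by
        clear e
        induction L with
        | nil => simp
        | cons v L ih =>
          rw [List.map_cons, List.prod_cons, map_mul, delta_refl hQ hex (hL v List.mem_cons_self),
            ih (fun w hw => hL w (List.mem_cons_of_mem _ hw)), List.length_cons, pow_succ']
      rw [e, hl, neg_one_pow_eq_one_iff_even (by decide), even_iff_two_dvd] at hd
      obtain ⟨k, hk⟩ := hd
      have := hs k L hk hL
      rwa [← e, MulEquiv.symm_apply_apply] at this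
    intro k
    induction k with
    | zero =>
      intro L hk _
      rw [List.length_eq_zero_iff.1 (by omega : L.length = 0), List.map_nil, List.prod_nil, map_one]
      exact one_mem _
    | succ k ih =>
      intro L hk hL
      match L, hk, hL with
      | a :: b :: L, hk, hL =>
        rw [List.map_cons, List.map_cons, List.prod_cons, List.prod_cons, ← mul_assoc, map_mul]
        refine mul_mem (Subgroup.subset_closure ⟨a, b, hL a (by simp), hL b (by simp), ?_⟩)
          (ih L (by simpa [Nat.mul_succ] using hk) fun w hw => hL w (by simp [hw]))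
        refine Cfsg.Lib.Classical.ext_mulVec fun x => ?_
        rw [← eI_apply hf, MulEquiv.apply_symm_apply, ← Matrix.mulVec_mulVec, mulVec_reflectionMatrix hf, mulVec_reflectionMatrix hf]
        rfl
      | [a], hk, _ => simp only [List.length_singleton] at hk; omega
      | [], hk, _ => simp only [List.length_nil] at hk; omega
  · rintro g ⟨u, v, hu, hv, e⟩
    refine (hmem g).2 ?_
    rw [OmegaCrit.eI_list hf g [u, v] (by simpa using e)]
    simp [delta_refl hQ hex hu, delta_refl hQ hex hv]

end Cfsg.Agent.S2635
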