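import Cfsg.Statements.S2636
-- import your own Cfsg.Agent.* helpers here

set_option autoImplicit false
open Cfsg

namespace Cfsg.Agent.S2636

/-- Centraliser of a field automorphism in PGL_n: let F be the field with q = q₀^r elements, σ a field automorphism of F of prime order r (so its fixed field has q₀ elements) and n ≥ 1. The invertible matrices g whose entrywise image under σ is a scalar multiple of g — those whose coset modulo scalars is fixed by σ — number (q − 1)/(q₀ − 1) · |GL_n(q₀)|; equivalently the centraliser in PGL_n(q) of the induced automorphism has the order of PGL_n(q₀). -/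
theorem result {F : Type*} [Field F] [Fintype F] {q₀ r n : ℕ} (hr : r.Prime) (hn : 1 ≤ n) (hF : Fintype.card F = q₀ ^ r) (σ : F ≃+* F) (hσ : orderOf σ = r) : Nat.card {g : GL (Fin n) F // ∃ c : F, c ≠ 0 ∧ (g : Matrix (Fin n) (Fin n) F).map σ = c • (g : Matrix (Fin n) (Fin n) F)} = (q₀ ^ r - 1) / (q₀ - 1) * ∏ i : Fin n, (q₀ ^ n - q₀ ^ (i : ℕ)) := by
  classical
  set E := FixedPoints.subfield (Subgroup.zpowers σ) F with hE
  have hmem : ∀ z : F, z ∈ E ↔ σ z = z := fun z =>
    ⟨fun h => h ⟨σ, Subgroup.mem_zpowers σ⟩,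
      fun h g => (Subgroup.zpowers_le.mpr (show σ ∈ MulAction.stabilizer (F ≃+* F) z from h) g.2 :)⟩
  have : Fintype E := Fintype.ofFinite E
  have : Finite (F ≃+* F) := Finite.of_injective (fun g => (g : F → F)) DFunLike.coe_injective
  have : Finite (Subgroup.zpowers σ) := Subtype.finite
  have : Fintype (Subgroup.zpowers σ) := Fintype.ofFinite _
  have hcE : Fintype.card E = q₀ := by
    have h1 := Module.card_eq_pow_finrank (K := E) (V := F)
    have h2 : Module.finrank E F = Fintype.card (Subgroup.zpowers σ) := FixedPoints.finrank_eq_card _ _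
    rw [h2, ← Nat.card_eq_fintype_card (α := Subgroup.zpowers σ), Nat.card_zpowers, hσ, hF] at h1
    exact (Nat.pow_left_injective hr.ne_zero h1).symm
  have hq₀ : 2 ≤ q₀ := hcE ▸ Fintype.one_lt_card
  let ψ : GL (Fin n) E →* GL (Fin n) F := Units.map (E.subtype.mapMatrix (m := Fin n)).toMonoidHom
  let sc : Fˣ → GL (Fin n) F := fun d => Units.map (algebraMap F (Matrix (Fin n) (Fin n) F) : F →* _) d
  let S := {g : GL (Fin n) F //
    ∃ c : F, c ≠ 0 ∧ (g : Matrix (Fin n) (Fin n) F).map σ = c • (g : Matrix (Fin n) (Fin n) F)}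
  have hval : ∀ (d : Fˣ) (h : GL (Fin n) E) i j,
      ((sc d * ψ h : GL (Fin n) F) : Matrix (Fin n) (Fin n) F) i j =
        (d : F) * ((h : Matrix (Fin n) (Fin n) E) i j : F) := fun d h i j => by
    rw [Units.val_mul]
    show (algebraMap F (Matrix (Fin n) (Fin n) F) (d : F) * (h : Matrix (Fin n) (Fin n) E).map E.subtype) i j = _
    rw [← Algebra.smul_def]
    rfl
  have hS : ∀ (d : Fˣ) (h : GL (Fin n) E), ∃ c : F, c ≠ 0 ∧
      ((sc d * ψ h : GL (Fin n) F) : Matrix (Fin n) (Fin n) F).map σ =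
        c • ((sc d * ψ h : GL (Fin n) F) : Matrix (Fin n) (Fin n) F) := fun d h =>
    ⟨σ d / d, div_ne_zero (by simp) d.ne_zero, Matrix.ext fun i j => by
      rw [Matrix.map_apply, Matrix.smul_apply, smul_eq_mul, hval, map_mul,
        (hmem _).mp ((h : Matrix (Fin n) (Fin n) E) i j).2, ← mul_assoc, div_mul_cancel₀ _ d.ne_zero]⟩
  have hnz : ∀ g : GL (Fin n) F, ∃ i j, (g : Matrix (Fin n) (Fin n) F) i j ≠ 0 := fun g => by
    by_contra hall
    push Not at hall
    have : Nonempty (Fin n) := ⟨⟨0, hn⟩⟩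
    exact g.ne_zero (Matrix.ext hall)
  have hdec : ∀ g : S, ∃ (d : Fˣ) (h : GL (Fin n) E), sc d * ψ h = g.1 := fun g => by
    obtain ⟨c, hc0, hc⟩ := g.2
    obtain ⟨i, j, hij⟩ := hnz g.1
    set d := (g.1 : Matrix (Fin n) (Fin n) F) i j with hd
    have hfix : ∀ k l, (g.1 : Matrix (Fin n) (Fin n) F) k l / d ∈ E := fun k l => by
      have h1 := congrFun (congrFun hc k) l
      have h2 := congrFun (congrFun hc i) j
      rw [Matrix.map_apply, Matrix.smul_apply, smul_eq_mul] at h1 h2
      rw [hmem, map_div₀, h1, h2, ← hd, mul_div_mul_left _ _ hc0]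
    let H : Matrix (Fin n) (Fin n) E := Matrix.of fun k l => ⟨_, hfix k l⟩
    have hH : H.map E.subtype = d⁻¹ • (g.1 : Matrix (Fin n) (Fin n) F) := Matrix.ext fun k l => by
      show (g.1 : Matrix (Fin n) (Fin n) F) k l / d = d⁻¹ * _
      rw [div_eq_inv_mul]
    have hHd : H.det ≠ 0 := fun e => by
      have h1 := (RingHom.map_det E.subtype H).symm
      rw [e, map_zero, RingHom.mapMatrix_apply, hH, Matrix.det_smul] at h1
      exact mul_ne_zero (pow_ne_zero _ (inv_ne_zero hij))
        ((Matrix.isUnit_iff_isUnit_det _).mp g.1.isUnit).ne_zero h1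
    refine ⟨Units.mk0 d hij, Matrix.GeneralLinearGroup.mkOfDetNeZero H hHd, Units.ext (Matrix.ext fun k l => ?_)⟩
    rw [hval]
    show d * ((g.1 : Matrix (Fin n) (Fin n) F) k l / d) = _
    rw [mul_div_cancel₀ _ hij]
  choose dd hh hdh using hdec
  let es : Eˣ → Fˣ := fun e => Units.map (E.subtype : E →* F) e
  let scE : Eˣ → GL (Fin n) E := fun e => Units.map (algebraMap E (Matrix (Fin n) (Fin n) E) : E →* _) e
  let f : S × Eˣ → Fˣ × GL (Fin n) E := fun z => (dd z.1 * es z.2, scE z.2⁻¹ * hh z.1)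
  have hfval : ∀ z : S × Eˣ, sc (f z).1 * ψ (f z).2 = z.1.1 := fun z => by
    rw [← hdh z.1]
    refine Units.ext (Matrix.ext fun i j => ?_)
    rw [hval, hval]
    show ((dd z.1 : F) * ((z.2 : E) : F)) *
      (((algebraMap E (Matrix (Fin n) (Fin n) E) ((z.2⁻¹ : Eˣ) : E)) * (hh z.1 : Matrix (Fin n) (Fin n) E)) i j : F) = _
    rw [← Algebra.smul_def, Matrix.smul_apply, smul_eq_mul, MulMemClass.coe_mul, mul_assoc, ← mul_assoc ((z.2 : E) : F),
      ← MulMemClass.coe_mul, Units.mul_inv, OneMemClass.coe_one, one_mul]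
  have hf : Function.Bijective f := by
    refine ⟨fun z w hzw => ?_, fun y => ?_⟩
    · have h1 : z.1 = w.1 := Subtype.ext (by rw [← hfval z, ← hfval w, hzw])
      refine Prod.ext h1 (Units.ext (Subtype.ext ?_))
      have h2 : dd z.1 * es z.2 = dd w.1 * es w.2 := congrArg Prod.fst hzw
      rw [h1] at h2
      exact congrArg Units.val (mul_left_cancel h2)
    · set g : S := ⟨sc y.1 * ψ y.2, hS y.1 y.2⟩ with hg
      obtain ⟨i, j, hij⟩ := hnz g.1
      have h1 := congrArg (fun z : GL (Fin n) F => (z : Matrix (Fin n) (Fin n) F) i j) (hdh g)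
      simp only [hg, hval] at h1 hij
      rw [← hg] at h1
      have hy0 : ((y.2 : Matrix (Fin n) (Fin n) E) i j : F) ≠ 0 := right_ne_zero_of_mul hij
      have hq : (y.1 : F) / (dd g : F) ∈ E := by
        have he : (y.1 : F) / (dd g : F) =
            ((hh g : Matrix (Fin n) (Fin n) E) i j : F) / ((y.2 : Matrix (Fin n) (Fin n) E) i j : F) := by
          rw [div_eq_div_iff (dd g).ne_zero hy0]
          linear_combination -h1
        rw [he]
        exact E.div_mem (Subtype.prop _) (Subtype.prop _)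
      have hne : (⟨_, hq⟩ : E) ≠ 0 := fun e0 =>
        div_ne_zero y.1.ne_zero (dd g).ne_zero (congrArg Subtype.val e0)
      refine ⟨(g, Units.mk0 _ hne), ?_⟩
      have hd : (f (g, Units.mk0 _ hne)).1 = y.1 := Units.ext (by
        show (dd g : F) * ((y.1 : F) / (dd g : F)) = y.1
        rw [mul_div_cancel₀ _ (dd g).ne_zero])
      refine Prod.ext hd (Units.ext (Matrix.ext fun k l => Subtype.ext ?_))
      have h3 := congrArg (fun z : GL (Fin n) F => (z : Matrix (Fin n) (Fin n) F) k l) (hfval (g, Units.mk0 _ hne))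
      rw [hval] at h3
      rw [hd] at h3
      have h4 : (g.1 : Matrix (Fin n) (Fin n) F) k l = (y.1 : F) * ((y.2 : Matrix (Fin n) (Fin n) E) k l : F) :=
        hval _ _ _ _
      rw [h4] at h3
      exact mul_left_cancel₀ y.1.ne_zero h3
  have hc := Nat.card_eq_of_bijective f hf
  rw [Nat.card_prod, Nat.card_prod, Nat.card_units, Nat.card_units, Nat.card_eq_fintype_card (α := E),
    Nat.card_eq_fintype_card (α := F), hcE, hF] at hc
  have hGL : Nat.card (GL (Fin n) E) = ∏ i : Fin n, (q₀ ^ n - q₀ ^ (i : ℕ)) := by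
    rw [Matrix.card_GL_field, hcE]
  rw [hGL] at hc
  have hdvd : q₀ - 1 ∣ q₀ ^ r - 1 := by simpa using Nat.sub_dvd_pow_sub_pow q₀ 1 r
  obtain ⟨t, ht⟩ := hdvd
  rw [ht, Nat.mul_div_cancel_left _ (by omega)]
  refine Nat.eq_of_mul_eq_mul_left (show 0 < q₀ - 1 by omega) ?_
  rw [← mul_assoc, ← ht, ← hc, mul_comm]

end Cfsg.Agent.S2636
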