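import Cfsg.Statements.S2637
import Cfsg.Agent.Lib.LinAlg.SympSemisimple
import Cfsg.Agent.Lib.LinAlg.HermitianGU
import Cfsg.Agent.Lib.LinAlg.SemisimpleClasses
import Cfsg.Agent.Lib.Classical.UnitaryOrders

set_option autoImplicit false
open Cfsg

namespace Cfsg.Agent.S2637

open Matrix Polynomial

theorem prod_cast (q₀ n : ℕ) (h0 : 1 ≤ q₀) :
    ((∏ i ∈ Finset.range n, (if Even i then q₀ ^ (i + 1) + 1 else q₀ ^ (i + 1) - 1) : ℕ) : ℤ) =
      ∏ i : Fin n, ((q₀ : ℤ) ^ ((i : ℕ) + 1) - (-1) ^ ((i : ℕ) + 1)) := by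
  rw [Finset.prod_range, Nat.cast_prod]
  refine Finset.prod_congr rfl fun i _ => ?_
  rcases Nat.even_or_odd (i : ℕ) with h | h
  · rw [if_pos h, h.add_one.neg_one_pow]; push_cast; ring
  · rw [if_neg (Nat.not_even_iff_odd.2 h), h.add_one.neg_one_pow, Nat.cast_sub (Nat.one_le_pow _ _ h0)]
    push_cast; ring

theorem charpoly_eq {F ι : Type*} [Field F] [Fintype ι] [DecidableEq ι] {m : ℕ} (hι : Fintype.card ι = 2 * m)
    (f : F[X]) (hf : Irreducible f) (hfm : f.Monic) (hfd : f.natDegree = 2) (M : Matrix ι ι F)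
    (hM : aeval (Matrix.toLinAlgEquiv' M) f = 0) : M.charpoly = f ^ m := by
  classical
  have hall : ∀ g ∈ UniqueFactorizationMonoid.normalizedFactors M.charpoly, g = f := by
    intro g hg
    have hgi := UniqueFactorizationMonoid.irreducible_of_normalized_factor g hg
    have hgd := UniqueFactorizationMonoid.dvd_of_mem_normalizedFactors hg
    have hgn := UniqueFactorizationMonoid.normalize_normalized_factor g hg
    obtain ⟨v, hv0, hv⟩ := Cfsg.Agent.LinAlg.SSClass.exists_vec_of_dvd_charpoly (x := Matrix.toLinAlgEquiv' M) hgi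
      (by rw [show (Matrix.toLinAlgEquiv' M : Module.End F (ι → F)) = Matrix.toLin' M from rfl, Matrix.charpoly_toLin']; exact hgd)
    by_contra hne
    have hcop : IsCoprime g f := (hgi.coprime_iff_not_dvd).2 fun hd => hne (by
      have := hgi.associated_of_dvd hf hd
      rw [← hgn, normalize_eq_normalize_iff_associated.2 this, hfm.normalize_eq_self])
    obtain ⟨a, b, hab⟩ := hcop
    have h := congrArg (fun p => aeval (Matrix.toLinAlgEquiv' M : Module.End F (ι → F)) p v) hab
    simp [map_add, map_mul, hM, hv] at h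
    exact hv0 h.symm
  have h1 := UniqueFactorizationMonoid.prod_normalizedFactors_eq (M.charpoly_monic).ne_zero
  rw [(M.charpoly_monic).normalize_eq_self, Multiset.eq_replicate_card.2 hall, Multiset.prod_replicate] at h1
  have h2 := congrArg natDegree h1
  rw [hfm.natDegree_pow, hfd, M.charpoly_natDegree_eq_dim, hι] at h2
  rw [← h1, show m = Multiset.card (UniqueFactorizationMonoid.normalizedFactors M.charpoly) by omega]


/-- Centraliser of a fixed-point-free element of order three in Sp_2m(q) when q ≡ 2 (mod 3): if x ∈ Sp_2m(F) (|F| = q, m ≥ 1) satisfies x³ = 1 and x − 1 is invertible, then its centraliser in Sp_2m(F) has the order of the unitary group GU_m(q), namely q^(m(m−1)/2) Π_(i=1)^m (q^i − (−1)^i) (x lies in the centre of a subgroup GU_m(q) of Sp_2m(q)). -/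
theorem result {F : Type*} [Field F] [Fintype F] {q : ℕ} (hF : Fintype.card F = q) (hq : q % 3 = 2) {m : ℕ} (hm : 1 ≤ m) (x : Matrix.symplecticGroup (Fin m) F) (hx3 : x ^ 3 = 1) (hfpf : IsUnit ((x : Matrix (Fin m ⊕ Fin m) (Fin m ⊕ Fin m) F) - 1)) : (Nat.card ↥(Subgroup.centralizer ({x} : Set ↥(Matrix.symplecticGroup (Fin m) F))) : ℤ) = (q : ℤ) ^ (m * (m - 1) / 2) * ∏ i : Fin m, ((q : ℤ) ^ ((i : ℕ) + 1) - (-1) ^ ((i : ℕ) + 1)) := by
  classical
  obtain ⟨p, hp⟩ := CharP.exists F
  haveI := Fact.mk (CharP.char_is_prime F p)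
  obtain ⟨e, -, he⟩ := FiniteField.card F p
  have hp3 : ¬ p ∣ 3 := fun hd => by
    have : p = 3 := (Nat.prime_dvd_prime_iff_eq (Fact.out) Nat.prime_three).1 hd
    subst this
    rw [← hF, he, Nat.pow_mod, Nat.mod_self, zero_pow e.ne_zero] at hq
    simp at hq
  have h3 : ((3 : ℕ) : F) ≠ 0 := by rwa [Ne, CharP.cast_eq_zero_iff F p]
  -- the polynomial
  set f : F[X] := X ^ 2 + X + 1 with hf
  have hfm : f.Monic := by rw [hf]; monicity!
  have hfd : f.natDegree = 2 := by rw [hf]; compute_degree!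
  have hroot : ∀ a : F, a ^ 2 + a + 1 ≠ 0 := by
    intro a ha
    have h1 : a ^ 3 = 1 := by linear_combination (a - 1) * ha
    have ha0 : a ≠ 0 := by rintro rfl; simp at ha
    have h2 : a ^ (Fintype.card F - 1) = 1 := FiniteField.pow_card_sub_one_eq_one a ha0
    have hd1 := orderOf_dvd_of_pow_eq_one h1
    have hd2 := orderOf_dvd_of_pow_eq_one h2
    have : orderOf a = 1 := by
      rcases (Nat.dvd_prime Nat.prime_three).1 hd1 with h | h
      · exact h
      · rw [h, hF] at hd2; omega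
    rw [orderOf_eq_one_iff] at this
    subst this
    apply h3
    push_cast
    linear_combination ha
  have hfi : Irreducible f := by
    rw [Polynomial.irreducible_iff_roots_eq_zero_of_degree_le_three (by omega) (by omega)]
    refine Multiset.eq_zero_of_forall_notMem fun a ha => hroot a ?_
    have := (mem_roots hfm.ne_zero).1 ha
    simpa [hf, IsRoot] using this
  haveI : Fact (Irreducible f) := ⟨hfi⟩
  let K := AdjoinRoot f
  let pb := AdjoinRoot.powerBasis hfm.ne_zero
  haveI : Module.Finite F K := pb.finite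
  haveI : Finite K := Module.finite_of_finite F
  letI : Fintype K := Fintype.ofFinite K
  have hK : Fintype.card K = q ^ 2 := by
    rw [Module.card_eq_pow_finrank (K := F) (V := K), hF, pb.finrank, AdjoinRoot.powerBasis_dim, hfd]
  obtain ⟨σ, -, hσ, -⟩ := Cfsg.Lib.Classical.exists_frobSq hK
  set ω : K := AdjoinRoot.root f
  have hω : ω ^ 2 + ω + 1 = 0 := by
    have h : AdjoinRoot.mk f (X ^ 2 + X + 1) = 0 := AdjoinRoot.mk_self (f := f)
    rw [map_add, map_add, map_pow, map_one, AdjoinRoot.mk_X] at h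
    exact h
  let ι : F →+* K := AdjoinRoot.of f
  have hinj : Function.Injective fun ab : F × F => ι ab.1 + ι ab.2 * ω := by
    rintro ⟨a, b⟩ ⟨a', b'⟩ h
    simp only at h
    by_cases hb : b = b'
    · subst hb
      simp only [add_left_inj] at h
      rw [ι.injective h]
    · exfalso
      set c := (a' - a) / (b - b')
      have hc : ι c = ω := by
        rw [map_div₀, div_eq_iff ((map_ne_zero ι).2 (sub_ne_zero.2 hb)), map_sub, map_sub]
        linear_combination -h
      apply hroot c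
      apply ι.injective
      rw [map_add, map_add, map_pow, map_one, map_zero, hc, hω]
  have hbij : Function.Bijective fun ab : F × F => ι ab.1 + ι ab.2 * ω :=
    (Fintype.bijective_iff_injective_and_card _).2 ⟨hinj, by rw [Fintype.card_prod, hK, hF, sq]⟩
  let co : F × F ≃ K := Equiv.ofBijective _ hbij
  have hco : ∀ a b, co.symm (ι a + ι b * ω) = (a, b) := fun a b => co.symm_apply_apply (a, b)
  have hcos : ∀ z, ι (co.symm z).1 + ι (co.symm z).2 * ω = z := fun z => co.apply_symm_apply z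
  let re : K →+ F := AddMonoidHom.mk' (fun z => (co.symm z).1) fun z w => by
    conv_lhs => rw [← hcos z, ← hcos w, show ∀ a b c d : F, ι a + ι b * ω + (ι c + ι d * ω) = ι (a + c) + ι (b + d) * ω from
      fun a b c d => by rw [map_add, map_add]; ring, hco]
  let im : K →+ F := AddMonoidHom.mk' (fun z => (co.symm z).2) fun z w => by
    conv_lhs => rw [← hcos z, ← hcos w, show ∀ a b c d : F, ι a + ι b * ω + (ι c + ι d * ω) = ι (a + c) + ι (b + d) * ω from
      fun a b c d => by rw [map_add, map_add]; ring, hco]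
  have hmul : ∀ z w : K, re (z * w) = re z * re w - im z * im w ∧
      im (z * w) = re z * im w + im z * re w - im z * im w := by
    intro z w
    have e : co.symm (z * w) = (re z * re w - im z * im w, re z * im w + im z * re w - im z * im w) := by
      rw [← hco (re z * re w - im z * im w)]
      congr 1
      conv_lhs => rw [← hcos z, ← hcos w]
      show (ι (re z) + ι (im z) * ω) * (ι (re w) + ι (im w) * ω) = _
      simp only [map_sub, map_add, map_mul]
      linear_combination (ι (im z) * ι (im w)) * hω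
    exact ⟨congrArg Prod.fst e, congrArg Prod.snd e⟩
  have hωq : σ ω = -1 - ω := by
    have h1 : ω ^ 3 = 1 := by linear_combination (ω - 1) * hω
    rw [hσ, ← Nat.div_add_mod q 3, hq, pow_add, pow_mul, h1, one_pow, one_mul]
    linear_combination hω
  have hσι : ∀ a, σ (ι a) = ι a := fun a => by rw [hσ, ← map_pow, ← hF, FiniteField.pow_card]
  have hσc : ∀ z, re (σ z) = re z - im z ∧ im (σ z) = -im z := by
    intro z
    have e : co.symm (σ z) = (re z - im z, -im z) := by
      rw [← hco (re z - im z) (-im z)]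
      congr 1
      conv_lhs => rw [← hcos z]
      show σ (ι (re z) + ι (im z) * ω) = _
      rw [map_add, map_mul, hσι, hσι, hωq, map_sub, map_neg]
      ring
    exact ⟨congrArg Prod.fst e, congrArg Prod.snd e⟩
  have hre1 : re 1 = 1 ∧ im 1 = 0 := by
    have e : co.symm (1 : K) = (1, 0) := by
      rw [← hco 1 0]
      congr 1
      simp
    exact ⟨congrArg Prod.fst e, congrArg Prod.snd e⟩
  let Φ : Matrix (Fin m) (Fin m) K → Matrix (Fin m ⊕ Fin m) (Fin m ⊕ Fin m) F := fun Z =>
    fromBlocks (Z.map re) (-(Z.map im)) (Z.map im) (Z.map re - Z.map im)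
  have hΦmul : ∀ Z W, Φ (Z * W) = Φ Z * Φ W := by
    intro Z W
    have hr : (Z * W).map re = Z.map re * W.map re - Z.map im * W.map im := by
      ext i j
      simp [Matrix.mul_apply, map_sum, (hmul _ _).1, Finset.sum_sub_distrib]
    have hi : (Z * W).map im = Z.map re * W.map im + Z.map im * W.map re - Z.map im * W.map im := by
      ext i j
      simp [Matrix.mul_apply, map_sum, (hmul _ _).2, Finset.sum_sub_distrib, Finset.sum_add_distrib]
    show fromBlocks _ _ _ _ = fromBlocks _ _ _ _ * fromBlocks _ _ _ _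
    rw [fromBlocks_multiply, hr, hi]
    congr 1 <;> noncomm_ring
  have hΦ1 : Φ 1 = 1 := by
    show fromBlocks _ _ _ _ = _
    rw [Matrix.map_one re (map_zero re) hre1.1,
      show (1 : Matrix (Fin m) (Fin m) K).map im = 0 by ext i j; by_cases h : i = j <;> simp [h, hre1.2, Matrix.one_apply],
      neg_zero, sub_zero, fromBlocks_one]
  have hΦinj : Function.Injective Φ := by
    intro Z W h
    obtain ⟨h1, -, h2, -⟩ := fromBlocks_inj.1 h
    ext i j
    rw [← hcos (Z i j), ← hcos (W i j)]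
    show ι (re (Z i j)) + ι (im (Z i j)) * ω = ι (re (W i j)) + ι (im (W i j)) * ω
    rw [show re (Z i j) = re (W i j) from congrFun (congrFun h1 i) j,
      show im (Z i j) = im (W i j) from congrFun (congrFun h2 i) j]
  have hΦad : ∀ Z, Cfsg.Lib.SympSS.ad (Φ Z) = Φ (Cfsg.Lib.HermNorm.st σ.toRingHom Z) := by
    intro Z
    have hr : (Cfsg.Lib.HermNorm.st σ.toRingHom Z).map re = (Z.map re - Z.map im).transpose := by
      ext i j; exact (hσc _).1
    have hi : (Cfsg.Lib.HermNorm.st σ.toRingHom Z).map im = -(Z.map im).transpose := by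
      ext i j; exact (hσc _).2
    show Cfsg.Lib.SympSS.ad (fromBlocks _ _ _ _) = fromBlocks _ _ _ _
    rw [hr, hi, Cfsg.Lib.SympSS.ad, fromBlocks_transpose, Matrix.J, fromBlocks_multiply, fromBlocks_multiply,
      fromBlocks_neg]
    simp [transpose_sub, sub_eq_add_neg]
  have hJ : IsUnit (Matrix.J (Fin m) F) :=
    IsUnit.of_mul_eq_one (-Matrix.J (Fin m) F) (by rw [mul_neg, Cfsg.Lib.SympSS.J_sq, neg_neg])
  have hmem : ∀ Z, Φ Z ∈ Matrix.symplecticGroup (Fin m) F ↔ Cfsg.Lib.HermNorm.st σ.toRingHom Z * Z = 1 := by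
    intro Z
    rw [SymplecticGroup.mem_iff', mul_assoc, Cfsg.Lib.SympSS.form_mul, hΦad, ← hΦmul]
    constructor
    · intro h
      apply hΦinj
      apply hJ.mul_left_cancel
      rw [h, hΦ1, mul_one]
    · intro h
      rw [h, hΦ1, mul_one]
  -- the standard element
  let x0m : Matrix (Fin m ⊕ Fin m) (Fin m ⊕ Fin m) F := fromBlocks 0 (-1) 1 (-1)
  have hx0 : x0m = Φ (ω • 1) := by
    have e : co.symm ω = (0, 1) := by rw [← hco 0 1, map_zero, map_one, one_mul, zero_add]
    have h1 : re ω = 0 := congrArg Prod.fst e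
    have h2 : im ω = 1 := congrArg Prod.snd e
    have a : (ω • (1 : Matrix (Fin m) (Fin m) K)).map re = 0 := by
      ext i j; by_cases h : i = j <;> simp [h, h1, Matrix.one_apply]
    have b : (ω • (1 : Matrix (Fin m) (Fin m) K)).map im = 1 := by
      ext i j; by_cases h : i = j <;> simp [h, h2, Matrix.one_apply]
    show _ = fromBlocks _ _ _ _
    rw [a, b, zero_sub]
  have hx0m : x0m ∈ Matrix.symplecticGroup (Fin m) F := by
    rw [hx0, hmem, Cfsg.Lib.HermNorm.st_smul, Cfsg.Lib.HermNorm.st_one, smul_mul_smul_comm, one_mul]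
    show (σ ω * ω) • (1 : Matrix (Fin m) (Fin m) K) = 1
    rw [show σ ω * ω = 1 by rw [hωq]; linear_combination -hω, one_smul]
  let x0 : Matrix.symplecticGroup (Fin m) F := ⟨x0m, hx0m⟩
  -- conjugacy with the standard element
  have hkill : ∀ M : Matrix (Fin m ⊕ Fin m) (Fin m ⊕ Fin m) F, M * M + M + 1 = 0 →
      aeval (Matrix.toLinAlgEquiv' M) f = 0 := fun M hM => by
    rw [aeval_algHom_apply Matrix.toLinAlgEquiv' M f, show aeval M f = M * M + M + 1 by simp [hf, pow_two], hM, map_zero]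
  have hx : (x : Matrix (Fin m ⊕ Fin m) (Fin m ⊕ Fin m) F) * x + x + 1 = 0 := by
    apply hfpf.mul_left_cancel
    have h : (x : Matrix (Fin m ⊕ Fin m) (Fin m ⊕ Fin m) F) ^ 3 = 1 := congrArg Subtype.val hx3
    rw [mul_zero]
    calc _ = (x : Matrix (Fin m ⊕ Fin m) (Fin m ⊕ Fin m) F) ^ 3 - 1 := by noncomm_ring
      _ = 0 := by rw [h, sub_self]
  have hx0k : x0m * x0m + x0m + 1 = 0 := by
    show fromBlocks (0 : Matrix (Fin m) (Fin m) F) (-1) 1 (-1) * fromBlocks 0 (-1) 1 (-1) + fromBlocks 0 (-1) 1 (-1) + 1 = 0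
    rw [fromBlocks_multiply, fromBlocks_add, ← fromBlocks_one, fromBlocks_add]
    simp
  have hcard : Fintype.card (Fin m ⊕ Fin m) = 2 * m := by rw [Fintype.card_sum, Fintype.card_fin, two_mul]
  have hconj : IsConj x x0 := by
    refine Cfsg.Lib.SympSS.exists_conj x x0 (N := 3) h3 (congrArg Subtype.val hx3) ?_
    have hfs : Squarefree f := hfi.squarefree
    obtain ⟨e, he⟩ := Cfsg.Agent.LinAlg.SSClass.exists_conj_of_charpoly_eq (F := F) _
      (V := Fin m ⊕ Fin m → F) (W := Fin m ⊕ Fin m → F) rfl _ _ hfs (hkill _ hx) hfs (hkill _ hx0k) (by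
        rw [show ∀ M : Matrix (Fin m ⊕ Fin m) (Fin m ⊕ Fin m) F, (Matrix.toLinAlgEquiv' M : Module.End F _) = Matrix.toLin' M from fun _ => rfl,
          show ∀ M : Matrix (Fin m ⊕ Fin m) (Fin m ⊕ Fin m) F, (Matrix.toLinAlgEquiv' M : Module.End F _) = Matrix.toLin' M from fun _ => rfl,
          Matrix.charpoly_toLin', Matrix.charpoly_toLin', charpoly_eq hcard f hfi hfm hfd _ (hkill _ hx),
          charpoly_eq hcard f hfi hfm hfd _ (hkill _ hx0k)])
    set C := LinearMap.toMatrix' (e : (Fin m ⊕ Fin m → F) →ₗ[F] (Fin m ⊕ Fin m → F)) with hC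
    set D := LinearMap.toMatrix' (e.symm : (Fin m ⊕ Fin m → F) →ₗ[F] (Fin m ⊕ Fin m → F)) with hD
    have h1 : C * D = 1 := by rw [hC, hD, ← LinearMap.toMatrix'_comp]; simp
    have h2 : D * C = 1 := by rw [hC, hD, ← LinearMap.toMatrix'_comp]; simp
    refine ⟨⟨C, D, h1, h2⟩, Matrix.toLinAlgEquiv'.injective ?_⟩
    have hCe : Matrix.toLinAlgEquiv' C = (e : (Fin m ⊕ Fin m → F) →ₗ[F] (Fin m ⊕ Fin m → F)) := Matrix.toLin'_toMatrix' _
    show Matrix.toLinAlgEquiv' (C * _) = Matrix.toLinAlgEquiv' (x0m * C)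
    rw [map_mul, map_mul, hCe, he]
    refine LinearMap.ext fun w => ?_
    simp [LinearEquiv.conj_apply]
  obtain ⟨g, hg⟩ := isConj_iff.1 hconj
  have e1 : ((Subgroup.centralizer ({x} : Set ↥(Matrix.symplecticGroup (Fin m) F))).map (MulAut.conj g).toMonoidHom) =
      Subgroup.centralizer ({x0} : Set ↥(Matrix.symplecticGroup (Fin m) F)) := by
    ext y
    rw [Subgroup.mem_map_equiv, Subgroup.mem_centralizer_singleton_iff, Subgroup.mem_centralizer_singleton_iff,
      MulAut.conj_symm_apply, ← hg]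
    constructor
    · intro h
      calc y * (g * x * g⁻¹) = g * ((g⁻¹ * y * g) * x) * g⁻¹ := by group
        _ = g * x * g⁻¹ * y := by rw [h]; group
    · intro h
      calc g⁻¹ * y * g * x = g⁻¹ * (y * (g * x * g⁻¹)) * g := by group
        _ = x * (g⁻¹ * y * g) := by rw [h]; group
  have hcentcard : Nat.card ↥(Cfsg.GU m K q) = Nat.card ↥(Subgroup.centralizer ({x0} : Set ↥(Matrix.symplecticGroup (Fin m) F))) := by
    refine Nat.card_eq_of_bijective (fun g => ⟨⟨Φ (g : GL (Fin m) K), (hmem _).2 ((Cfsg.Lib.HermNorm.gu_iff hσ).1 g.2)⟩,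
      Subgroup.mem_centralizer_singleton_iff.2 (Subtype.ext ?_)⟩) ⟨fun g h e => ?_, ?_⟩
    · show Φ _ * x0m = x0m * Φ _
      rw [hx0, ← hΦmul, ← hΦmul, mul_smul_comm, mul_one, smul_mul_assoc, one_mul]
    · exact Subtype.ext (Units.ext (hΦinj (congrArg (fun z : ↥(Subgroup.centralizer ({x0} : Set ↥(Matrix.symplecticGroup (Fin m) F))) =>
        ((z : ↥(Matrix.symplecticGroup (Fin m) F)) : Matrix (Fin m ⊕ Fin m) (Fin m ⊕ Fin m) F)) e)))
    · rintro ⟨⟨y, hy⟩, hc⟩
      have hc' : y * x0m = x0m * y := congrArg Subtype.val (Subgroup.mem_centralizer_singleton_iff.1 hc)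
      rw [← fromBlocks_toBlocks y, show x0m = fromBlocks (0 : Matrix (Fin m) (Fin m) F) (-1) 1 (-1) from rfl,
        fromBlocks_multiply, fromBlocks_multiply] at hc'
      simp only [mul_zero, zero_mul, mul_one, one_mul, mul_neg, neg_mul, zero_add, add_zero] at hc'
      obtain ⟨c1, c2, c3, c4⟩ := fromBlocks_inj.1 hc'
      let Z : Matrix (Fin m) (Fin m) K := Matrix.of fun i j => ι (y.toBlocks₁₁ i j) + ι (y.toBlocks₂₁ i j) * ω
      have hZ : Φ Z = y := by
        have a : Z.map re = y.toBlocks₁₁ := by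
          ext i j; exact congrArg Prod.fst (hco _ _)
        have b : Z.map im = y.toBlocks₂₁ := by
          ext i j; exact congrArg Prod.snd (hco _ _)
        show fromBlocks _ _ _ _ = y
        conv_rhs => rw [← fromBlocks_toBlocks y]
        rw [a, b, c1]
        congr 1
        rw [← neg_add_eq_sub]
        have : y.toBlocks₂₂ = y.toBlocks₁₁ - y.toBlocks₂₁ := by rw [sub_eq_add_neg]; exact c3
        rw [this]; abel
      have hZu : Cfsg.Lib.HermNorm.st σ.toRingHom Z * Z = 1 := (hmem Z).1 (hZ.symm ▸ hy)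
      exact ⟨⟨⟨Z, _, mul_eq_one_comm.1 hZu, hZu⟩, (Cfsg.Lib.HermNorm.gu_iff hσ).2 hZu⟩, Subtype.ext (Subtype.ext hZ)⟩
  rw [← Subgroup.card_map_of_injective (f := (MulAut.conj g).toMonoidHom) (MulAut.conj g).injective, e1, ← hcentcard,
    Cfsg.Lib.Classical.UnitaryOrders.card_GU hK, ← prod_cast q m (by rw [← hF]; exact Fintype.card_pos)]
  push_cast
  rfl

end Cfsg.Agent.S2637
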