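import Cfsg.Statements.S2639
import Cfsg.Agent.Lib.Classical.SympEmbed
-- import your own Cfsg.Agent.* helpers here

set_option autoImplicit false
open Cfsg

namespace Cfsg.Agent.S2639

/-- The unitary group embeds in the symplectic group of twice the dimension over the subfield: for a field K with q² elements and a field F with q elements (isomorphic to the subfield of K of order q), there is an injective homomorphism GU_m(q) → Sp_2m(F). -/
theorem result {K F : Type*} [Field K] [Fintype K] [Field F] [Fintype F] {q : ℕ} (hK : Fintype.card K = q ^ 2) (hF : Fintype.card F = q) (m : ℕ) : ∃ φ : ↥(Cfsg.GU m K q) →* ↥(Matrix.symplecticGroup (Fin m) F), Function.Injective φ := by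
  classical
  obtain ⟨ι⟩ := SympEmbed.exists_field_embedding (F := F) hK hF
  let _ : Algebra F K := ι.toAlgebra
  have hrk := SympEmbed.finrank_two (F := F) hK hF
  -- a nonzero element of trace zero
  obtain ⟨ε, hε, hε0⟩ : ∃ ε : K, Algebra.trace F K ε = 0 ∧ ε ≠ 0 := by
    by_contra h
    push Not at h
    have hinj : Function.Injective (Algebra.trace F K) := (injective_iff_map_eq_zero _).2 h
    have := LinearMap.finrank_le_finrank_of_injective hinj
    rw [hrk, Module.finrank_self] at this
    omega
  let B : LinearMap.BilinForm F (Fin m → K) := LinearMap.mk₂ F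
    (fun u v => Algebra.trace F K (ε * Cfsg.hermForm m K q u v))
    (fun u u' v => by simp [Cfsg.hermForm, add_mul, Finset.sum_add_distrib, mul_add, map_add])
    (fun c u v => by
      rw [← map_smul]
      congr 1
      simp only [Cfsg.hermForm, Finset.mul_sum, Pi.smul_apply, Finset.smul_sum]
      exact Finset.sum_congr rfl fun i _ => by rw [Algebra.smul_def, Algebra.smul_def]; ring)
    (fun u v v' => by
      have hadd : ∀ i, (v i + v' i) ^ q = v i ^ q + v' i ^ q := fun i => by
        have := map_add (FiniteField.frobeniusAlgHom F K) (v i) (v' i)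
        simpa [FiniteField.coe_frobeniusAlgHom, hF] using this
      simp [Cfsg.hermForm, hadd, mul_add, Finset.sum_add_distrib, map_add])
    (fun c u v => by
      rw [← map_smul]
      congr 1
      simp only [Cfsg.hermForm, Finset.mul_sum, Pi.smul_apply, Finset.smul_sum]
      refine Finset.sum_congr rfl fun i _ => ?_
      rw [Algebra.smul_def, Algebra.smul_def, mul_pow, ← map_pow, ← hF, FiniteField.pow_card]
      ring)
  have hA : B.IsAlt := by
    intro u
    show Algebra.trace F K (ε * Cfsg.hermForm m K q u u) = 0
    have hfix : Cfsg.hermForm m K q u u ^ q = Cfsg.hermForm m K q u u := by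
      have hs := map_sum (FiniteField.frobeniusAlgHom F K) (fun i => u i * u i ^ q) Finset.univ
      simp only [FiniteField.coe_frobeniusAlgHom, hF] at hs
      rw [Cfsg.hermForm, hs]
      refine Finset.sum_congr rfl fun i _ => ?_
      rw [mul_pow, ← pow_mul, ← pow_two, ← hK, FiniteField.pow_card, mul_comm]
    obtain ⟨c, hc⟩ := SympEmbed.mem_range_of_pow_eq (F := F) hF hfix
    rw [← hc, mul_comm, ← Algebra.smul_def, map_smul, hε, smul_zero]
  have hB : ∀ u : Fin m → K, u ≠ 0 → ∃ v, B u v ≠ 0 := by
    intro u hu
    obtain ⟨i, hi⟩ : ∃ i, u i ≠ 0 := by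
      by_contra h
      push Not at h
      exact hu (funext h)
    obtain ⟨y, hy⟩ := Algebra.trace_surjective F K 1
    -- a q-th root
    have hsurj : Function.Surjective (FiniteField.frobeniusAlgHom F K) :=
      Finite.injective_iff_surjective.1 (FiniteField.frobeniusAlgHom F K).injective
    obtain ⟨z, hz⟩ := hsurj (y / (ε * u i))
    refine ⟨Pi.single i z, ?_⟩
    show Algebra.trace F K (ε * Cfsg.hermForm m K q u (Pi.single i z)) ≠ 0
    have hh : Cfsg.hermForm m K q u (Pi.single i z) = u i * z ^ q := by
      rw [Cfsg.hermForm, Finset.sum_eq_single i]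
      · simp
      · intro j _ hj
        simp [hj, zero_pow (by rw [← hF]; exact Fintype.card_ne_zero : q ≠ 0)]
      · simp
    have hz' : z ^ q = y / (ε * u i) := by simpa [FiniteField.coe_frobeniusAlgHom, hF] using hz
    rw [hh, hz', show ε * (u i * (y / (ε * u i))) = y by field_simp, hy]
    exact one_ne_zero
  let ρ : ↥(Cfsg.GU m K q) →* ((Fin m → K) →ₗ[F] (Fin m → K)) :=
    { toFun := fun g => (Matrix.mulVecLin ((g : GL (Fin m) K) : Matrix (Fin m) (Fin m) K)).restrictScalars F
      map_one' := LinearMap.ext fun v => by simp
      map_mul' := fun g h => LinearMap.ext fun v => by simp [Matrix.mulVec_mulVec] }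
  refine SympEmbed.exists_embed m ?_ B hA hB ρ (fun g h e => ?_) (fun g u v => ?_)
  · rw [Module.finrank_pi_fintype]; simp [hrk, mul_comm]
  · apply Subtype.ext
    apply Units.ext
    exact Matrix.mulVec_injective (funext fun v => LinearMap.congr_fun e v)
  · show Algebra.trace F K _ = Algebra.trace F K _
    congr 2
    exact g.2 u v

end Cfsg.Agent.S2639
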