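import Cfsg.Statements.S2642
import Cfsg.Agent.S2570
import Cfsg.Agent.S2587
import Cfsg.Agent.S2588
import Cfsg.Agent.Lib.LinAlg.UnipotentClasses

set_option autoImplicit false
open Cfsg

namespace Cfsg.Agent.S2642

open Matrix Cfsg.Lib.Jordan

theorem nil_map {K : Type*} [Field K] {n : ℕ} (σ : K →+* K) (μ : Nat.Partition n) :
    (nilMat K μ).map σ = nilMat K μ := by
  ext i j
  simp only [nilMat, Matrix.map_apply, LinearMap.toMatrix'_apply, LinearEquiv.conj_apply_apply, shift,
    LinearMap.coe_mk, AddHom.coe_mk, LinearEquiv.funCongrLeft_symm, LinearEquiv.funCongrLeft_apply,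
    LinearMap.funLeft_apply, Equiv.symm_symm]
  split_ifs with h h' <;> simp [LinearMap.funLeft, Pi.single_apply] <;> split_ifs <;> simp_all

theorem kerDim_rank {K : Type*} [Field K] {n : ℕ} (N : Matrix (Fin n) (Fin n) K) (r : ℕ) :
    kerDim N r + (N ^ r).rank = n := by
  rw [kerDim, ← Matrix.toLin'_pow, Matrix.rank, ← Matrix.toLin'_apply', add_comm,
    LinearMap.finrank_range_add_finrank_ker, Module.finrank_fin_fun]

theorem unip_sim {K : Type*} [Field K] {n : ℕ} (σ : K →+* K) (μ : Nat.Partition n) (h : GL (Fin n) K)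
    (hh : (h : Matrix (Fin n) (Fin n) K) * (((unip K μ : GL (Fin n) K) : Matrix (Fin n) (Fin n) K).map σ).transpose = 1) :
    IsConj (unip K μ) h := by
  have hu : ((unip K μ : GL (Fin n) K) : Matrix (Fin n) (Fin n) K) = 1 + nilMat K μ := by
    rw [← unip_sub_one]; abel
  rw [hu, Matrix.map_add _ (map_add σ), Matrix.map_one σ (map_zero σ) (map_one σ), nil_map, Matrix.transpose_add,
    Matrix.transpose_one] at hh
  have hh' := mul_eq_one_comm.1 hh
  set H : Matrix (Fin n) (Fin n) K := (h : Matrix (Fin n) (Fin n) K) with hH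
  set T : Matrix (Fin n) (Fin n) K := (nilMat K μ).transpose with hT
  rw [mul_add, mul_one] at hh
  rw [add_mul, one_mul] at hh'
  have hc : H * T = T * H := add_left_cancel (hh.trans hh'.symm)
  have h1 : H - 1 = -H * T := by rw [← hh]; noncomm_ring
  have hpow : ∀ r, ((H - 1) ^ r).rank = (nilMat K μ ^ r).rank := fun r => by
    rw [h1, (show Commute (-H) T from Commute.neg_left hc).mul_pow,
      Matrix.rank_mul_eq_right_of_isUnit_det _ _ ((Matrix.isUnit_iff_isUnit_det _).1 ((h.isUnit.neg).pow r)),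
      hT, ← Matrix.transpose_pow, Matrix.rank_transpose]
  have hk : ∀ r, kerDim (H - 1) r = kerDim (nilMat K μ) r := fun r => by
    have := kerDim_rank (H - 1) r
    have := kerDim_rank (nilMat K μ) r
    have := hpow r
    omega
  obtain ⟨ν, hν⟩ := exists_unip h (N := n) ((pow_eq_zero_iff_kerDim _ _).2 (by
    rw [hk, ← pow_eq_zero_iff_kerDim]; exact nilMat_nilpotent μ))
  obtain ⟨E, hE⟩ := (isConj_iff_intertwine _ _).1 hν
  rw [unip_sub_one] at hE
  obtain rfl : μ = ν := partition_eq_of_kerDim fun r => by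
    rw [← kerDim_nilMat (F := K), ← kerDim_nilMat (F := K), ← hk]
    exact finrank_ker_congr E hE r
  exact hν.symm


/-- Number of conjugacy classes of elements of order p in the general unitary group GU_n(q), q a power of p: every unipotent Jordan type occurs and the classes correspond to the partitions of n with all parts at most p other than the all-ones partition, exactly as in GL_n; so there are (number of partitions of n with parts ≤ p) − 1 classes. -/
theorem result {K : Type*} [Field K] [Fintype K] {p q n : ℕ} [Fact p.Prime] [CharP K p] (hK : Fintype.card K = q ^ 2) : Nat.card {C : ConjClasses ↥(Cfsg.GU n K q) // ∃ g : ↥(Cfsg.GU n K q), ConjClasses.mk g = C ∧ orderOf g = p} = (Finset.univ.filter (fun μ : Nat.Partition n => ∀ a ∈ μ.parts, a ≤ p)).card - 1 := by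
  classical
  rw [← Cfsg.Agent.S2570.result (F := K) n]
  refine Nat.card_eq_of_bijective (fun C => (⟨ConjClasses.map (Cfsg.GU n K q).subtype C.1, by
    obtain ⟨g, hg, hgp⟩ := C.2
    exact ⟨g.1, by rw [← hg]; rfl, by rw [Subgroup.orderOf_coe]; exact hgp⟩⟩ :
      {C : ConjClasses (GL (Fin n) K) // ∃ g : GL (Fin n) K, ConjClasses.mk g = C ∧ orderOf g = p})) ⟨?_, ?_⟩
  · rintro ⟨C, g, rfl, hg⟩ ⟨D, g', rfl, hg'⟩ h
    exact Subtype.ext (ConjClasses.mk_eq_mk_iff_isConj.2
      ((Cfsg.Agent.S2587.result hK g g').2 (ConjClasses.mk_eq_mk_iff_isConj.1 (congrArg Subtype.val h))))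
  · rintro ⟨_, g, rfl, hg⟩
    rcases Nat.eq_zero_or_pos n with rfl | hn
    · haveI : Subsingleton (GL (Fin 0) K) := Units.val_injective.subsingleton
      exact absurd hg (by rw [Subsingleton.elim g 1, orderOf_one]; exact (Fact.out : p.Prime).ne_one.symm)
    haveI : Nonempty (Fin n) := ⟨⟨0, hn⟩⟩
    obtain ⟨μ, hμ⟩ := Cfsg.Lib.Jordan.exists_unip g (N := p ^ 1)
      ((Cfsg.Lib.Jordan.order_pow_iff p g 1).1 (by rw [pow_one, ← hg]; exact pow_orderOf_eq_one g))
    obtain ⟨σ, -, hσ, -⟩ := Cfsg.Lib.Classical.exists_frobSq hK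
    have hfun : (fun x : K => x ^ q) = ⇑σ.toRingHom := funext fun x => (hσ x).symm
    set u := Cfsg.Lib.Jordan.unip K μ
    have hd : IsUnit (((u : Matrix (Fin n) (Fin n) K).map σ.toRingHom).transpose).det :=
      (Matrix.isUnit_iff_isUnit_det _).1 (Cfsg.Lib.HermNorm.st_inv (σ := σ) (X := u))
    have hs : IsConj (u : Matrix (Fin n) (Fin n) K) (((u : Matrix (Fin n) (Fin n) K).map (fun x : K => x ^ q)).transpose)⁻¹ := by
      rw [hfun]
      have hI : IsUnit (((u : Matrix (Fin n) (Fin n) K).map σ.toRingHom).transpose)⁻¹ :=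
        Matrix.isUnit_nonsing_inv_iff.2 ((Matrix.isUnit_iff_isUnit_det _).2 hd)
      exact (Units.coeHom (Matrix (Fin n) (Fin n) K)).map_isConj (unip_sim σ.toRingHom μ hI.unit (Matrix.nonsing_inv_mul _ hd))
    obtain ⟨B, hB⟩ := (Cfsg.Agent.S2588.result hK u).2 hs
    have hgB : IsConj g (B : GL (Fin n) K) := hμ.trans hB
    obtain ⟨c, hc⟩ := isConj_iff.1 hgB
    refine ⟨⟨ConjClasses.mk B, B, rfl, ?_⟩, Subtype.ext (ConjClasses.mk_eq_mk_iff_isConj.2 hgB.symm)⟩
    rw [← Subgroup.orderOf_coe, ← hc, ← hg]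
    exact orderOf_injective (MulAut.conj c).toMonoidHom (MulAut.conj c).injective g

end Cfsg.Agent.S2642
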