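import Cfsg.Statements.S2643
import Cfsg.Agent.Lib.LinAlg.HermitianGU
import Cfsg.Agent.Lib.LinAlg.RegNilpotent
import Cfsg.Agent.S2587
import Cfsg.Agent.S2588

set_option autoImplicit false
open Cfsg

namespace Cfsg.Agent.S2643

open Matrix Cfsg.Agent.LinAlg.RegNil

variable {K : Type*} [Field K] [Fintype K] {q m : ℕ}

abbrev toG (u : ↥(Cfsg.SU (m + 1) K q)) : GL (Fin (m + 1)) K :=
  Matrix.SpecialLinearGroup.toGL (u : Matrix.SpecialLinearGroup (Fin (m + 1)) K)

theorem toG_mem (u : ↥(Cfsg.SU (m + 1) K q)) : toG u ∈ Cfsg.GU (m + 1) K q := u.2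

theorem toG_inj {u v : ↥(Cfsg.SU (m + 1) K q)} (h : toG u = toG v) : u = v :=
  Subtype.ext (Subtype.ext (congrArg Units.val h))

theorem toG_mul (u v : ↥(Cfsg.SU (m + 1) K q)) : toG (u * v) = toG u * toG v := Units.ext rfl

theorem mkSU {g : GL (Fin (m + 1)) K} (hg : g ∈ Cfsg.GU (m + 1) K q)
    (hd : (g : Matrix (Fin (m + 1)) (Fin (m + 1)) K).det = 1) : ∃ u : ↥(Cfsg.SU (m + 1) K q), toG u = g :=
  ⟨⟨⟨_, hd⟩, hg⟩, Units.ext rfl⟩

theorem conj_of_det {x y : ↥(Cfsg.SU (m + 1) K q)} {U : GL (Fin (m + 1)) K} (hU : U ∈ Cfsg.GU (m + 1) K q)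
    (hd : (U : Matrix (Fin (m + 1)) (Fin (m + 1)) K).det = 1) (h : U * toG x * U⁻¹ = toG y) : IsConj x y := by
  obtain ⟨u, hu⟩ := mkSU hU hd
  refine isConj_iff.2 ⟨u, mul_inv_eq_iff_eq_mul.2 (toG_inj ?_)⟩
  rw [toG_mul, toG_mul, hu, ← h, inv_mul_cancel_right]

theorem exists_det {σ : K ≃+* K} (hσ : ∀ a, σ a = a ^ q) (a : K) (ha : σ a * a = 1) :
    ∃ U ∈ Cfsg.GU (m + 1) K q, (U : Matrix (Fin (m + 1)) (Fin (m + 1)) K).det = a := by
  have hd : (diagonal (Function.update (fun _ : Fin (m + 1) => (1 : K)) 0 a)).det = a := by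
    rw [det_diagonal, Finset.prod_update_of_mem (Finset.mem_univ _)]
    simp
  refine ⟨GeneralLinearGroup.mkOfDetNeZero _ (hd.symm ▸ right_ne_zero_of_mul_eq_one ha), (Cfsg.Lib.HermNorm.gu_iff hσ).2 ?_, hd⟩
  show Cfsg.Lib.HermNorm.st σ.toRingHom (diagonal _) * diagonal _ = 1
  rw [Cfsg.Lib.HermNorm.st, diagonal_map (map_zero _), diagonal_transpose, diagonal_mul_diagonal, ← diagonal_one]
  congr 1
  funext i
  rcases eq_or_ne i 0 with rfl | hi
  · simpa using ha
  · simp [hi]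

theorem smul_mem {σ : K ≃+* K} (hσ : ∀ a, σ a = a ^ q) (c : K) (hc : σ c * c = 1) :
    ∃ Z ∈ Cfsg.GU (m + 1) K q, (Z : Matrix (Fin (m + 1)) (Fin (m + 1)) K) = c • 1 := by
  have h : (c • (1 : Matrix (Fin (m + 1)) (Fin (m + 1)) K)).det ≠ 0 := by
    rw [det_smul, det_one, mul_one]
    exact pow_ne_zero _ (right_ne_zero_of_mul_eq_one hc)
  refine ⟨GeneralLinearGroup.mkOfDetNeZero _ h, (Cfsg.Lib.HermNorm.gu_iff hσ).2 ?_, rfl⟩
  show Cfsg.Lib.HermNorm.st σ.toRingHom (c • (1 : Matrix (Fin (m + 1)) (Fin (m + 1)) K)) * (c • 1) = 1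
  rw [Cfsg.Lib.HermNorm.st_smul, Cfsg.Lib.HermNorm.st_one, smul_mul_smul_comm, one_mul]
  show (σ c * c) • (1 : Matrix (Fin (m + 1)) (Fin (m + 1)) K) = 1
  rw [hc, one_smul]

theorem det_conj (U g : GL (Fin (m + 1)) K) :
    ((U * g * U⁻¹ : GL (Fin (m + 1)) K) : Matrix (Fin (m + 1)) (Fin (m + 1)) K).det =
      (g : Matrix (Fin (m + 1)) (Fin (m + 1)) K).det := by
  simp only [Units.val_mul]
  exact det_units_conj U _

theorem reg_conj {g h : GL (Fin (m + 1)) K} (hg : IsRegNil ((g : Matrix (Fin (m + 1)) (Fin (m + 1)) K) - 1))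
    (hh : IsRegNil ((h : Matrix (Fin (m + 1)) (Fin (m + 1)) K) - 1)) : IsConj g h := by
  obtain ⟨P, hP⟩ := exists_conj_shift hg
  obtain ⟨Q, hQ⟩ := exists_conj_shift hh
  have hP' : P⁻¹ * g * P = Q⁻¹ * h * Q := Units.ext (by
    simp only [Units.val_mul, mul_assoc]
    rw [show (g : Matrix (Fin (m + 1)) (Fin (m + 1)) K) * P = P * (shift K m + 1) by
        rw [mul_add, mul_one, ← hP, sub_mul, one_mul, sub_add_cancel],
      show (h : Matrix (Fin (m + 1)) (Fin (m + 1)) K) * Q = Q * (shift K m + 1) by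
        rw [mul_add, mul_one, ← hQ, sub_mul, one_mul, sub_add_cancel],
      Units.inv_mul_cancel_left, Units.inv_mul_cancel_left])
  refine isConj_iff.2 ⟨Q * P⁻¹, ?_⟩
  calc Q * P⁻¹ * g * (Q * P⁻¹)⁻¹ = Q * (P⁻¹ * g * P) * Q⁻¹ := by group
    _ = h := by rw [hP']; group

theorem exists_reg (hK : Fintype.card K = q ^ 2) : ∃ g ∈ Cfsg.GU (m + 1) K q,
    IsRegNil ((g : Matrix (Fin (m + 1)) (Fin (m + 1)) K) - 1) := by
  obtain ⟨σ, -, hσ, -⟩ := Cfsg.Lib.Classical.exists_frobSq hK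
  have hu : IsUnit (shift K m + 1) := IsNilpotent.isUnit_add_one ⟨m + 1, isRegNil_shift.pow_eq⟩
  let J : GL (Fin (m + 1)) K := hu.unit
  have hJ : IsRegNil ((J : Matrix (Fin (m + 1)) (Fin (m + 1)) K) - 1) := by
    show IsRegNil (shift K m + 1 - 1)
    rw [add_sub_cancel_right]
    exact isRegNil_shift
  have hmap : (J : Matrix (Fin (m + 1)) (Fin (m + 1)) K).map (fun x : K => x ^ q) = shift K m + 1 := by
    ext i j
    show ((shift K m + 1) i j) ^ q = _
    rw [← hσ, Matrix.add_apply, shift_apply, Matrix.one_apply]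
    split_ifs <;> simp
  have hd : IsUnit (shift K m + 1).transpose.det := by
    rw [det_transpose]; exact (Matrix.isUnit_iff_isUnit_det _).1 hu
  let J' : GL (Fin (m + 1)) K := (Matrix.isUnit_nonsing_inv_iff.2 ((Matrix.isUnit_iff_isUnit_det _).2 hd)).unit
  have hJ' : IsRegNil ((J' : Matrix (Fin (m + 1)) (Fin (m + 1)) K) - 1) := by
    have e : (shift K m + 1).transpose⁻¹ - 1 = -((shift K m + 1).transpose⁻¹ * (shift K m).transpose) := by
      have h := Matrix.nonsing_inv_mul _ hd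
      rw [transpose_add, transpose_one, mul_add, mul_one] at h
      rw [transpose_add, transpose_one]
      linear_combination (norm := noncomm_ring) h
    have hc : Commute ((shift K m + 1).transpose⁻¹) (shift K m).transpose := by
      have h : Commute ((shift K m + 1).transpose⁻¹) (shift K m + 1).transpose := by
        show _ = _
        rw [Matrix.nonsing_inv_mul _ hd, Matrix.mul_nonsing_inv _ hd]
      rw [transpose_add, transpose_one] at h ⊢
      simpa using h.sub_right (Commute.one_right _)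
    show IsRegNil ((shift K m + 1).transpose⁻¹ - 1)
    rw [e]
    refine ⟨?_, ?_⟩
    · rw [← neg_mul, (Commute.neg_left hc).mul_pow, ← transpose_pow, isRegNil_shift.pow_eq, transpose_zero, mul_zero]
    · rw [← neg_mul, rank_mul_eq_right_of_isUnit_det _ _ ((Matrix.isUnit_iff_isUnit_det _).1
        (Matrix.isUnit_nonsing_inv_iff.2 ((Matrix.isUnit_iff_isUnit_det _).2 hd)).neg), rank_transpose, isRegNil_shift.rank_eq]
  obtain ⟨B, hB⟩ := (Cfsg.Agent.S2588.result hK J).2 (by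
    rw [hmap]
    exact (Units.coeHom (Matrix (Fin (m + 1)) (Fin (m + 1)) K)).map_isConj (reg_conj hJ hJ'))
  obtain ⟨c, hc⟩ := isConj_iff.1 hB
  refine ⟨B, B.2, ?_⟩
  have := LinAlg.RegNil.conj hJ c
  rw [mul_sub, sub_mul, mul_one, Units.mul_inv, ← Units.val_mul, ← Units.val_mul, hc] at this
  exact this


/-- Regular unipotent classes of SU_n(q), n ≥ 2: the elements u of the special unitary group (isometries of Σ u_i v_i^q of determinant one over the field with q² elements) with (u − 1)^n = 0 and rank(u − 1) = n − 1 form exactly gcd(n, q + 1) conjugacy classes of SU_n(q). -/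
theorem result {K : Type*} [Field K] [Fintype K] {q n : ℕ} (hK : Fintype.card K = q ^ 2) (hn : 2 ≤ n) : Nat.card {C : ConjClasses ↥(Cfsg.SU n K q) // ∃ u : ↥(Cfsg.SU n K q), ConjClasses.mk u = C ∧ (((u : GL (Fin n) K) : Matrix (Fin n) (Fin n) K) - 1) ^ n = 0 ∧ (((u : GL (Fin n) K) : Matrix (Fin n) (Fin n) K) - 1).rank = n - 1} = Nat.gcd n (q + 1) := by
  classical
  obtain ⟨m, rfl⟩ : ∃ m, n = m + 1 := ⟨n - 1, by omega⟩
  obtain ⟨σ, hne, hσ, hinv⟩ := Cfsg.Lib.Classical.exists_frobSq hK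
  obtain ⟨g0, hg0, hreg⟩ := exists_reg (m := m) hK
  have hdet0 : (g0 : Matrix (Fin (m + 1)) (Fin (m + 1)) K).det = 1 := by
    have := LinAlg.RegNil.det_scalar_add_nilpotent (1 : K) (M := (g0 : Matrix (Fin (m + 1)) (Fin (m + 1)) K) - 1) ⟨m + 1, hreg.pow_eq⟩
    rw [one_smul, add_sub_cancel, one_pow] at this
    exact this
  let T : Subgroup Kˣ := (powMonoidHom (q + 1) : Kˣ →* Kˣ).ker
  have hT : ∀ a : T, σ ((a : Kˣ) : K) * ((a : Kˣ) : K) = 1 := fun a => by
    have h : (a : Kˣ) ^ (q + 1) = 1 := a.2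
    rw [hσ, ← pow_succ, ← Units.val_pow_eq_pow_val, h, Units.val_one]
  choose U hUm hUd using fun a : T => exists_det (m := m) hσ _ (hT a)
  choose S hS using fun a : T => mkSU (mul_mem (mul_mem (hUm a) hg0) (inv_mem (hUm a)))
    ((det_conj (U a) g0).trans hdet0)
  let H : Subgroup T := (powMonoidHom (m + 1) : T →* T).range
  have hclass : ∀ a : T, ∃ u : ↥(Cfsg.SU (m + 1) K q), ConjClasses.mk u = ConjClasses.mk (S a) ∧
      (((u : GL (Fin (m + 1)) K) : Matrix (Fin (m + 1)) (Fin (m + 1)) K) - 1) ^ (m + 1) = 0 ∧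
      (((u : GL (Fin (m + 1)) K) : Matrix (Fin (m + 1)) (Fin (m + 1)) K) - 1).rank = m + 1 - 1 := fun a => by
    have h := LinAlg.RegNil.conj hreg (U a)
    rw [mul_sub, sub_mul, mul_one, Units.mul_inv, ← Units.val_mul, ← Units.val_mul, ← hS a] at h
    exact ⟨S a, rfl, h.pow_eq, h.rank_eq⟩
  have key : ∀ a b : T, IsConj (S a) (S b) ↔ a⁻¹ * b ∈ H := by
    intro a b
    constructor
    · intro h
      obtain ⟨s, hs⟩ := isConj_iff.1 h
      have hs' : toG s * toG (S a) = toG (S b) * toG s := by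
        rw [← toG_mul, ← toG_mul, ← hs, inv_mul_cancel_right]
      rw [hS, hS] at hs'
      set W := (U b)⁻¹ * toG s * U a with hW
      have hWg : W * g0 = g0 * W := by
        calc W * g0 = (U b)⁻¹ * (toG s * (U a * g0 * (U a)⁻¹)) * U a := by rw [hW]; group
          _ = g0 * W := by rw [hs', hW]; group
      have hWm : W ∈ Cfsg.GU (m + 1) K q := mul_mem (mul_mem (inv_mem (hUm b)) (toG_mem s)) (hUm a)
      have hWc : Commute ((g0 : Matrix (Fin (m + 1)) (Fin (m + 1)) K) - 1) W :=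
        LinAlg.RegNil.commute_sub_one_iff.2 (congrArg Units.val hWg).symm
      obtain ⟨c, hc⟩ := LinAlg.RegNil.exists_polN_eq hreg hWc
      have hdetW : (W : Matrix (Fin (m + 1)) (Fin (m + 1)) K).det = c 0 ^ (m + 1) := by
        rw [← hc, LinAlg.RegNil.det_polN hreg]
      have hnil : IsNilpotent ((W : Matrix (Fin (m + 1)) (Fin (m + 1)) K) - c 0 • 1) := by
        rw [← hc, LinAlg.RegNil.polN_split, add_sub_cancel_left]
        exact Commute.isNilpotent_mul_right (Commute.sum_right _ _ _ fun i _ => (Commute.self_pow _ i).smul_right _)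
          ⟨m + 1, hreg.pow_eq⟩
      have hWu := (Cfsg.Lib.HermNorm.gu_iff hσ).1 hWm
      set st := Cfsg.Lib.HermNorm.st (n := m + 1) σ.toRingHom
      have hW' : (W : Matrix (Fin (m + 1)) (Fin (m + 1)) K) * st W = 1 := mul_eq_one_comm.1 hWu
      have hnil' : IsNilpotent (st (W : Matrix (Fin (m + 1)) (Fin (m + 1)) K) - σ (c 0) • 1) := by
        obtain ⟨k, hk⟩ := hnil
        have e : ∀ (X : Matrix (Fin (m + 1)) (Fin (m + 1)) K) (j : ℕ), st (X ^ j) = st X ^ j := fun X j => by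
          induction j with
          | zero => rw [pow_zero, pow_zero]; exact Cfsg.Lib.HermNorm.st_one _
          | succ j ih => rw [pow_succ, pow_succ']; exact (Cfsg.Lib.HermNorm.st_mul _ _ _).trans (congrArg (fun z => st X * z) ih)
        have e2 : st ((W : Matrix (Fin (m + 1)) (Fin (m + 1)) K) - c 0 • 1) = st W - σ (c 0) • 1 := by
          show Cfsg.Lib.HermNorm.st _ _ = _
          rw [sub_eq_add_neg, Cfsg.Lib.HermNorm.st_add, Cfsg.Lib.HermNorm.st_neg, Cfsg.Lib.HermNorm.st_smul,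
            Cfsg.Lib.HermNorm.st_one, ← sub_eq_add_neg]
          rfl
        refine ⟨k, ?_⟩
        rw [← e2, ← e, hk]
        show Cfsg.Lib.HermNorm.st _ 0 = 0
        ext i j; simp [Cfsg.Lib.HermNorm.st]
      have hcc : Commute (W : Matrix (Fin (m + 1)) (Fin (m + 1)) K) (st W) := hW'.trans hWu.symm
      have hscal : IsNilpotent ((1 - σ (c 0) * c 0) • (1 : Matrix (Fin (m + 1)) (Fin (m + 1)) K)) := by
        have e : (1 - σ (c 0) * c 0) • (1 : Matrix (Fin (m + 1)) (Fin (m + 1)) K) =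
            (W : Matrix (Fin (m + 1)) (Fin (m + 1)) K) * (st W - σ (c 0) • 1)
              + σ (c 0) • ((W : Matrix (Fin (m + 1)) (Fin (m + 1)) K) - c 0 • 1) := by
          rw [mul_sub, hW', mul_smul_comm, mul_one, smul_sub, smul_smul, sub_smul, one_smul]
          abel
        rw [e]
        refine Commute.isNilpotent_add ?_ ((hcc.sub_right ((Commute.one_right _).smul_right _)).isNilpotent_mul_left hnil') (hnil.smul _)
        refine Commute.smul_right ?_ _
        exact Commute.mul_left ((Commute.refl _).sub_right ((Commute.one_right _).smul_right _))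
          ((hcc.symm.sub_right ((Commute.one_right _).smul_right _)).sub_left ((Commute.one_left _).smul_left _))
      have hnorm : σ (c 0) * c 0 = 1 := by
        obtain ⟨k, hk⟩ := hscal
        rw [smul_pow, one_pow] at hk
        have := congrFun (congrFun hk 0) 0
        simp only [Matrix.smul_apply, Matrix.one_apply_eq, smul_eq_mul, mul_one, Matrix.zero_apply] at this
        exact (sub_eq_zero.1 (pow_eq_zero_iff'.1 this).1).symm
      refine ⟨⟨(Units.mk0 (c 0) (right_ne_zero_of_mul_eq_one hnorm))⁻¹, ?_⟩, ?_⟩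
      · refine inv_mem (Units.ext ?_)
        show (c 0) ^ (q + 1) = 1
        rw [pow_succ, ← hσ, hnorm]
      · apply Subtype.ext
        apply Units.ext
        have hdw : (W : Matrix (Fin (m + 1)) (Fin (m + 1)) K).det = ((a : Kˣ) : K) * (((b : Kˣ) : K))⁻¹ := by
          rw [hW, Units.val_mul, Units.val_mul, det_mul, det_mul, hUd,
            show ((toG s : GL (Fin (m + 1)) K) : Matrix (Fin (m + 1)) (Fin (m + 1)) K).det = 1 from s.1.2,
            Matrix.coe_units_inv, Matrix.det_nonsing_inv, hUd, Ring.inverse_eq_inv']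
          ring
        show ((c 0)⁻¹) ^ (m + 1) = (((a : Kˣ)⁻¹ * (b : Kˣ) : Kˣ) : K)
        rw [inv_pow, ← hdetW, hdw, Units.val_mul, Units.val_inv_eq_inv_val, mul_inv, inv_inv]
    · rintro ⟨c, hc⟩
      have hc' : ((b : Kˣ) : K) = ((a : Kˣ) : K) * ((c : Kˣ) : K) ^ (m + 1) := by
        have h : b = a * c ^ (m + 1) := by rw [show c ^ (m + 1) = a⁻¹ * b from hc, mul_inv_cancel_left]
        rw [h]; rfl
      obtain ⟨Z, hZ, hZc⟩ := smul_mem (m := m) hσ _ (hT c)
      have hZcomm : ∀ X : GL (Fin (m + 1)) K, Z * X = X * Z := fun X => Units.ext (by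
        rw [Units.val_mul, Units.val_mul, hZc]; simp)
      refine conj_of_det (U := U b * (U a * Z)⁻¹) (mul_mem (hUm b) (inv_mem (mul_mem (hUm a) hZ))) ?_ ?_
      · rw [Units.val_mul, det_mul, Matrix.coe_units_inv, Matrix.det_nonsing_inv, hUd, Units.val_mul, det_mul, hUd,
          hZc, det_smul, det_one, Fintype.card_fin, Ring.inverse_eq_inv', mul_one, ← hc', mul_inv_cancel₀ (Units.ne_zero _)]
      · rw [hS, hS]
        calc U b * (U a * Z)⁻¹ * (U a * g0 * (U a)⁻¹) * (U b * (U a * Z)⁻¹)⁻¹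
            = U b * (Z⁻¹ * g0 * Z) * (U b)⁻¹ := by group
          _ = U b * g0 * (U b)⁻¹ := by rw [mul_assoc Z⁻¹, ← hZcomm, inv_mul_cancel_left]
  let ψ : T ⧸ H → {C : ConjClasses ↥(Cfsg.SU (m + 1) K q) // ∃ u : ↥(Cfsg.SU (m + 1) K q), ConjClasses.mk u = C ∧
      (((u : GL (Fin (m + 1)) K) : Matrix (Fin (m + 1)) (Fin (m + 1)) K) - 1) ^ (m + 1) = 0 ∧
      (((u : GL (Fin (m + 1)) K) : Matrix (Fin (m + 1)) (Fin (m + 1)) K) - 1).rank = m + 1 - 1} :=
    fun x => Quotient.liftOn' x (fun a => ⟨ConjClasses.mk (S a), hclass a⟩)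
      fun a b h => Subtype.ext (ConjClasses.mk_eq_mk_iff_isConj.2 ((key a b).2 (QuotientGroup.leftRel_apply.1 h)))
  have hψ : Function.Bijective ψ := by
    refine ⟨fun x y h => ?_, ?_⟩
    · induction x using QuotientGroup.induction_on with
      | H a =>
        induction y using QuotientGroup.induction_on with
        | H b => exact QuotientGroup.eq.2 ((key a b).1 (ConjClasses.mk_eq_mk_iff_isConj.1 (congrArg Subtype.val h)))
    · rintro ⟨_, u, rfl, hu1, hu2⟩
      have hur : LinAlg.RegNil.IsRegNil (((toG u : GL (Fin (m + 1)) K) : Matrix (Fin (m + 1)) (Fin (m + 1)) K) - 1) :=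
        ⟨hu1, hu2⟩
      obtain ⟨V, hV⟩ := isConj_iff.1 ((Cfsg.Agent.S2587.result hK ⟨g0, hg0⟩ ⟨toG u, toG_mem u⟩).2 (reg_conj hreg hur))
      have hV' : (V : GL (Fin (m + 1)) K) * g0 * (V : GL (Fin (m + 1)) K)⁻¹ = toG u := congrArg Subtype.val hV
      have hVn : σ ((V : GL (Fin (m + 1)) K) : Matrix (Fin (m + 1)) (Fin (m + 1)) K).det *
          ((V : GL (Fin (m + 1)) K) : Matrix (Fin (m + 1)) (Fin (m + 1)) K).det = 1 := by
        have h := congrArg Matrix.det ((Cfsg.Lib.HermNorm.gu_iff hσ).1 V.2)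
        rw [det_mul, det_one, Cfsg.Lib.HermNorm.st, det_transpose, ← RingHom.mapMatrix_apply, ← RingHom.map_det] at h
        exact h
      let a : T := ⟨Units.mk0 _ (right_ne_zero_of_mul_eq_one hVn), Units.ext (by
        show _ ^ (q + 1) = 1
        rw [Units.val_mk0, pow_succ, ← hσ, hVn])⟩
      refine ⟨QuotientGroup.mk a, Subtype.ext (ConjClasses.mk_eq_mk_iff_isConj.2
        (conj_of_det (U := (V : GL (Fin (m + 1)) K) * (U a)⁻¹) (mul_mem V.2 (inv_mem (hUm a))) ?_ ?_))⟩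
      · rw [Units.val_mul, det_mul, Matrix.coe_units_inv, Matrix.det_nonsing_inv, hUd, Ring.inverse_eq_inv']
        exact mul_inv_cancel₀ (right_ne_zero_of_mul_eq_one hVn)
      · rw [hS, ← hV']; group
  rw [← Nat.card_eq_of_bijective ψ hψ]
  show H.index = _
  rw [IsCyclic.index_powMonoidHom_range, IsCyclic.card_powMonoidHom_ker, Nat.card_units, Nat.card_eq_fintype_card, hK]
  have : Nat.gcd (q ^ 2 - 1) (q + 1) = q + 1 := Nat.gcd_eq_right ⟨q - 1, by rw [← Nat.sq_sub_sq, one_pow]⟩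
  rw [this, Nat.gcd_comm]

end Cfsg.Agent.S2643
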