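import Cfsg.Statements.S2666
import Cfsg.Agent.Lib.Classical.Shintani
-- import your own Cfsg.Agent.* helpers here

set_option autoImplicit false
open Cfsg

namespace Cfsg.Agent.S2666

/-- Shintani descent, in an abstract form. Let `σ` be an automorphism of a group `X` such that the maps `a ↦ a·σ(a)⁻¹` and `a ↦ a·σᵉ(a)⁻¹` are surjective on `X` (the Lang–Steinberg property, which holds when `X` is a connected algebraic group and `σ` a Steinberg endomorphism), where `e ≥ 1`. Write `G` for the subgroup of fixed points of `σᵉ` and `H` for the subgroup of fixed points of `σ`. The `G`-conjugacy classes in the coset `G σ` of the semidirect product of `G` by `σ` correspond to the orbits of `G` on itself under twisted conjugation `g ↦ k g σ(k)⁻¹`, and the `e`-th power of `g σ` has `G`-part the norm `g σ(g) ⋯ σ^(e-1)(g)`. For `g` in `G` and any `a` with `g = a σ(a)⁻¹`, put `x = σᵉ(a)⁻¹ a`. Then: (1) `x` lies in `H`, and `a⁻¹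 · (g σ(g) ⋯ σ^(e-1)(g)) · a = x`; (2) for `g, g'` in `G` with such elements `a, b` and `x, x'`, the elements `g, g'` are twisted-conjugate under `G` if and only if `x, x'` are conjugate in `H`; (3) every element of `H` arises as such an `x`. So `g ↦ x` induces a well-defined bijection from the twisted `G`-classes of `G` onto the conjugacy classes of `H` (the Shintani map). -/
theorem result {X : Type*} [Group X] (σ : MulAut X) (e : ℕ) (he : 1 ≤ e)
    (hL : ∀ g : X, ∃ a : X, g = a * (σ a)⁻¹) (hLe : ∀ g : X, ∃ a : X, g = a * ((σ ^ e) a)⁻¹) :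
    (∀ g ∈ (MulEquiv.toMonoidHom (σ ^ e)).eqLocus (MonoidHom.id X), ∀ a : X, g = a * (σ a)⁻¹ →
        ((σ ^ e) a)⁻¹ * a ∈ (MulEquiv.toMonoidHom σ).eqLocus (MonoidHom.id X) ∧
          a⁻¹ * ((List.range e).map (fun i => (σ ^ i) g)).prod * a = ((σ ^ e) a)⁻¹ * a) ∧
    (∀ g ∈ (MulEquiv.toMonoidHom (σ ^ e)).eqLocus (MonoidHom.id X), ∀ g' ∈ (MulEquiv.toMonoidHom (σ ^ e)).eqLocus (MonoidHom.id X), ∀ a b : X,
        g = a * (σ a)⁻¹ → g' = b * (σ b)⁻¹ →
          ((∃ k ∈ (MulEquiv.toMonoidHom (σ ^ e)).eqLocus (MonoidHom.id X), g' = k * g * (σ k)⁻¹) ↔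
            (∃ h ∈ (MulEquiv.toMonoidHom σ).eqLocus (MonoidHom.id X), ((σ ^ e) b)⁻¹ * b = h * (((σ ^ e) a)⁻¹ * a) * h⁻¹))) ∧
    (∀ x ∈ (MulEquiv.toMonoidHom σ).eqLocus (MonoidHom.id X), ∃ g ∈ (MulEquiv.toMonoidHom (σ ^ e)).eqLocus (MonoidHom.id X), ∃ a : X,
        g = a * (σ a)⁻¹ ∧ ((σ ^ e) a)⁻¹ * a = x) := by
  open Cfsg.Lib.Classical.Shintani in
  refine ⟨fun g hg a ha => ⟨norm_fixed σ hg ha, ?_⟩, fun g hg g' hg' a b ha hb => ⟨?_, ?_⟩, fun x hx => ?_⟩
  · rw [prod_eq σ ha]; group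
  · rintro ⟨k, hk, hkg⟩
    have hk' : (σ ^ e) k = k := hk
    have hh : σ ((k * a)⁻¹ * b) = (k * a)⁻¹ * b := fixed_of_eq σ (by
      rw [← hb, hkg, ha, map_mul]; group)
    refine ⟨((k * a)⁻¹ * b)⁻¹, by show σ _ = _; rw [map_inv, hh]; rfl, ?_⟩
    conv_lhs => rw [show b = k * a * ((k * a)⁻¹ * b) by group, map_mul, map_mul, hk', pow_apply_fixed σ hh]
    group
  · rintro ⟨h, hh, hy⟩
    have hh' : σ h = h := hh
    have hb' : (σ ^ e) b = b * (((σ ^ e) b)⁻¹ * b)⁻¹ := by group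
    refine ⟨b * h * a⁻¹, ?_, ?_⟩
    · show (σ ^ e) (b * h * a⁻¹) = b * h * a⁻¹
      rw [map_mul, map_mul, map_inv, pow_apply_fixed σ hh', hb', hy]
      group
    · rw [map_mul, map_mul, map_inv, hh', hb, ha]; group
  · have hx' : σ x = x := hx
    obtain ⟨c, hc⟩ := hLe x⁻¹
    refine ⟨c⁻¹ * (σ c⁻¹)⁻¹, ?_, c⁻¹, rfl, ?_⟩
    · show (σ ^ e) (c⁻¹ * (σ c⁻¹)⁻¹) = c⁻¹ * (σ c⁻¹)⁻¹
      have he1 : (σ ^ e) c = x * c := by
        rw [← inv_inv x, hc]; group
      rw [map_inv σ, inv_inv, map_mul, map_inv, ← MulAut.mul_apply, ← pow_succ, pow_succ', MulAut.mul_apply, he1, map_mul, hx']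
      group
    · rw [map_inv, inv_inv, ← inv_inv x, hc]; group

end Cfsg.Agent.S2666
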