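import Cfsg.Statements.S2667
import Cfsg.Agent.Lib.Classical.Shintani
-- import your own Cfsg.Agent.* helpers here

set_option autoImplicit false
open Cfsg

namespace Cfsg.Agent.S2667

/-- Shintani descent, in an abstract form. Let `σ` be an automorphism of a group `X` and `e ≥ 1` (no surjectivity of the Lang maps is needed for this part; in the classical setting `X` is a connected algebraic group and `σ` a Steinberg endomorphism). Write `G` for the subgroup of fixed points of `σᵉ` and `H` for the subgroup of fixed points of `σ`. The `G`-conjugacy classes in the coset `G σ` of the semidirect product of `G` by `σ` correspond to the orbits of `G` on itself under twisted conjugation `g ↦ k g σ(k)⁻¹`, and the `e`-th power of `g σ` has `G`-part the norm `g σ(g) ⋯ σ^(e-1)(g)`. For `g` in `G` and any `a` with `g = a σ(a)⁻¹`, put `x = σᵉ(a)⁻¹ a`. Then conjugation by `a⁻¹` carries the twisted centralizer `{k ∈ G : k g σ(k)⁻¹ = g}` (the centralizer of `g σ` in `G`) exactly onto the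 centralizer of `x` in `H`: an element `k` of `X` lies in `G` and satisfies `k g σ(k)⁻¹ = g` if and only if `a⁻¹ k a` lies in `H` and commutes with `x`. In particular the two centralizers are conjugate in `X` and have the same order. -/
theorem result {X : Type*} [Group X] (σ : MulAut X) (e : ℕ) (he : 1 ≤ e)
    (g : X) (hg : g ∈ (MulEquiv.toMonoidHom (σ ^ e)).eqLocus (MonoidHom.id X)) (a : X) (ha : g = a * (σ a)⁻¹) (k : X) :
    (k ∈ (MulEquiv.toMonoidHom (σ ^ e)).eqLocus (MonoidHom.id X) ∧ k * g * (σ k)⁻¹ = g) ↔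
      (a⁻¹ * k * a ∈ (MulEquiv.toMonoidHom σ).eqLocus (MonoidHom.id X) ∧
        (a⁻¹ * k * a) * (((σ ^ e) a)⁻¹ * a) = (((σ ^ e) a)⁻¹ * a) * (a⁻¹ * k * a)) := by
  open Cfsg.Lib.Classical.Shintani in
  have hx := norm_fixed σ (hg : (σ ^ e) g = g) ha
  constructor
  · rintro ⟨hk, hkg⟩
    have hk' : (σ ^ e) k = k := hk
    have hh : σ (a⁻¹ * (k * a)) = a⁻¹ * (k * a) := fixed_of_eq σ (by
      rw [← ha, ← hkg, ha, map_mul]; group)
    refine ⟨by show σ _ = _; rw [mul_assoc]; exact hh, ?_⟩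
    have h1 := pow_apply_fixed σ hh e
    rw [map_mul, map_inv, map_mul, hk'] at h1
    rw [mul_assoc a⁻¹ k a]
    conv_rhs => rw [← h1]
    conv_lhs => rw [← h1]
    have h2 : ((σ ^ e) a)⁻¹ * (k * (σ ^ e) a) = a⁻¹ * (k * a) := h1
    calc _ = ((σ ^ e) a)⁻¹ * k * a := by group
      _ = (((σ ^ e) a)⁻¹ * a) * (a⁻¹ * (k * a)) := by group
      _ = _ := by rw [h2]
  · rintro ⟨hh, hc⟩
    have hh' : σ (a⁻¹ * k * a) = a⁻¹ * k * a := hh
    have hk : k = a * (a⁻¹ * k * a) * a⁻¹ := by group
    have ha' : (σ ^ e) a = a * (((σ ^ e) a)⁻¹ * a)⁻¹ := by group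
    refine ⟨?_, ?_⟩
    · show (σ ^ e) k = k
      conv_rhs => rw [hk]
      conv_lhs => rw [hk]
      rw [map_mul, map_mul, map_inv, pow_apply_fixed σ hh', ha']
      calc _ = a * (((σ ^ e) a)⁻¹ * a)⁻¹ * ((a⁻¹ * k * a) * (((σ ^ e) a)⁻¹ * a)) * a⁻¹ := by group
        _ = _ := by rw [hc]; group
    · rw [show σ k = σ a * (a⁻¹ * k * a) * (σ a)⁻¹ by conv_lhs => rw [hk, map_mul, map_mul, map_inv, hh'], ha]
      group

end Cfsg.Agent.S2667
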