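import Cfsg.Statements.S2669
-- import your own Cfsg.Agent.* helpers here

set_option autoImplicit false
open Cfsg

namespace Cfsg.Agent.S2669

/-- Shintani descent preserves numbers of fixed points on coset spaces (abstract form). Let `σ` be an automorphism of a group `X` and `e ≥ 1`; write `G` for the fixed points of `σᵉ` and `H` for the fixed points of `σ`, and assume `G` is finite. Let `Y` be a `σ`-stable subgroup of `X` on which the maps `a ↦ a σ(a)⁻¹` and `a ↦ a σᵉ(a)⁻¹` are surjective (as for a closed connected `σ`-stable subgroup of an algebraic group). Let `g ∈ G`, let `a ∈ X` satisfy `g = a σ(a)⁻¹` and put `x = σᵉ(a)⁻¹ a` (the Shintani image, an element of `H`). The element `g σ` of the semidirect product acts on the cosets of `Y ∩ G` in `G` by `k (Y ∩ G) ↦ g σ(k) (Y ∩ G)`, fixing that coset exactly when `k⁻¹ g σ(k) ∈ Y`; and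 `x` fixes the coset `h (Y ∩ H)` of `H` exactly when `h⁻¹ x h ∈ Y`. Then the two numbers of fixed cosets agree; in cross-multiplied form, `#{k ∈ G : k⁻¹ g σ(k) ∈ Y} · |Y ∩ H| = #{h ∈ H : h⁻¹ x h ∈ Y} · |Y ∩ G|`. -/
theorem result {X : Type*} [Group X] (σ : MulAut X) (e : ℕ) (he : 1 ≤ e)
    [Finite ↥((MulEquiv.toMonoidHom (σ ^ e)).eqLocus (MonoidHom.id X))]
    (Y : Subgroup X) (hY : ∀ y : X, y ∈ Y ↔ σ y ∈ Y)
    (hYL : ∀ y ∈ Y, ∃ a ∈ Y, y = a * (σ a)⁻¹) (hYLe : ∀ y ∈ Y, ∃ a ∈ Y, y = a * ((σ ^ e) a)⁻¹)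
    (g : X) (hg : g ∈ (MulEquiv.toMonoidHom (σ ^ e)).eqLocus (MonoidHom.id X)) (a : X) (ha : g = a * (σ a)⁻¹) :
    Nat.card {k : ↥((MulEquiv.toMonoidHom (σ ^ e)).eqLocus (MonoidHom.id X)) // (k : X)⁻¹ * g * σ k ∈ Y} *
        Nat.card ↥(Y ⊓ (MulEquiv.toMonoidHom σ).eqLocus (MonoidHom.id X)) =
      Nat.card {h : ↥((MulEquiv.toMonoidHom σ).eqLocus (MonoidHom.id X)) // (h : X)⁻¹ * (((σ ^ e) a)⁻¹ * a) * h ∈ Y} *
        Nat.card ↥(Y ⊓ (MulEquiv.toMonoidHom (σ ^ e)).eqLocus (MonoidHom.id X)) := by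
  classical
  have hmemG : ∀ z : X, z ∈ (MulEquiv.toMonoidHom (σ ^ e)).eqLocus (MonoidHom.id X) ↔ (σ ^ e) z = z :=
    fun z => Iff.rfl
  have hmemH : ∀ z : X, z ∈ (MulEquiv.toMonoidHom σ).eqLocus (MonoidHom.id X) ↔ σ z = z :=
    fun z => Iff.rfl
  set GG := (MulEquiv.toMonoidHom (σ ^ e)).eqLocus (MonoidHom.id X) with hGG
  set HH := (MulEquiv.toMonoidHom σ).eqLocus (MonoidHom.id X) with hHH
  let L := {z : ↥GG × ↥Y // (z.1 : X)⁻¹ * g * σ z.1 = (z.2 : X) * (σ z.2)⁻¹}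
  let R := {z : ↥HH × ↥Y // (z.1 : X)⁻¹ * (((σ ^ e) a)⁻¹ * a) * z.1 = ((σ ^ e) z.2)⁻¹ * (z.2 : X)}
  have hL : Nat.card L = Nat.card {k : ↥GG // (k : X)⁻¹ * g * σ k ∈ Y} * Nat.card ↥(Y ⊓ HH) := by
    rw [← Nat.card_prod]
    have hb : ∀ k : {k : ↥GG // (k : X)⁻¹ * g * σ k ∈ Y}, ∃ b : ↥Y,
        (k.1 : X)⁻¹ * g * σ k.1 = (b : X) * (σ b)⁻¹ :=
      fun k => let ⟨b, hb, he'⟩ := hYL _ k.2; ⟨⟨b, hb⟩, he'⟩
    choose b hb using hb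
    refine (Nat.card_eq_of_bijective
      (fun z : {k : ↥GG // (k : X)⁻¹ * g * σ k ∈ Y} × ↥(Y ⊓ HH) =>
        (⟨(z.1.1, ⟨(b z.1 : X) * z.2, Y.mul_mem (b z.1).2 z.2.2.1⟩), by
          show (z.1.1 : X)⁻¹ * g * σ z.1.1 = (b z.1 : X) * (z.2 : X) * (σ ((b z.1 : X) * z.2))⁻¹
          rw [hb, map_mul, (hmemH _).mp z.2.2.2]; group⟩ : L)) ⟨fun z w h => ?_, fun z => ?_⟩).symm
    · have h1 : z.1 = w.1 := Subtype.ext (congrArg (fun v : L => v.1.1) h)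
      have h2 : (b z.1 : X) * z.2 = (b w.1 : X) * w.2 := congrArg (fun v : L => (v.1.2 : X)) h
      rw [h1] at h2
      exact Prod.ext h1 (Subtype.ext (mul_left_cancel h2))
    · obtain ⟨⟨k, c⟩, hz⟩ := z
      have hkY : (k : X)⁻¹ * g * σ k ∈ Y := by
        rw [hz]; exact Y.mul_mem c.2 (Y.inv_mem ((hY _).mp c.2))
      have h1 : (b ⟨k, hkY⟩ : X) * (σ (b ⟨k, hkY⟩ : X))⁻¹ = (c : X) * (σ c)⁻¹ :=
        (hb ⟨k, hkY⟩).symm.trans hz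
      refine ⟨(⟨k, hkY⟩, ⟨(b ⟨k, hkY⟩ : X)⁻¹ * c, Y.mul_mem (Y.inv_mem (b _).2) c.2, (hmemH _).mpr ?_⟩),
        Subtype.ext (Prod.ext rfl (Subtype.ext (by simp)))⟩
      rw [map_mul, map_inv]
      calc (σ (b ⟨k, hkY⟩ : X))⁻¹ * σ c
          = (b ⟨k, hkY⟩ : X)⁻¹ * ((b ⟨k, hkY⟩ : X) * (σ (b ⟨k, hkY⟩ : X))⁻¹) * σ c := by group
        _ = (b ⟨k, hkY⟩ : X)⁻¹ * c := by rw [h1]; group
  have hR : Nat.card R = Nat.card {h : ↥HH // (h : X)⁻¹ * (((σ ^ e) a)⁻¹ * a) * h ∈ Y} * Nat.card ↥(Y ⊓ GG) := by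
    rw [← Nat.card_prod]
    have hb : ∀ h : {h : ↥HH // (h : X)⁻¹ * (((σ ^ e) a)⁻¹ * a) * h ∈ Y}, ∃ b : ↥Y,
        (h.1 : X)⁻¹ * (((σ ^ e) a)⁻¹ * a) * h.1 = ((σ ^ e) b)⁻¹ * (b : X) :=
      fun h => let ⟨c, hc, he'⟩ := hYLe _ (Y.inv_mem h.2); ⟨⟨c⁻¹, Y.inv_mem hc⟩, by
        rw [← inv_inv ((h.1 : X)⁻¹ * _ * _), he']
        simp [mul_inv_rev]⟩
    choose b hb using hb
    refine (Nat.card_eq_of_bijective
      (fun z : {h : ↥HH // (h : X)⁻¹ * (((σ ^ e) a)⁻¹ * a) * h ∈ Y} × ↥(Y ⊓ GG) =>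
        (⟨(z.1.1, ⟨(z.2 : X) * b z.1, Y.mul_mem z.2.2.1 (b z.1).2⟩), by
          show (z.1.1 : X)⁻¹ * (((σ ^ e) a)⁻¹ * a) * z.1.1 = ((σ ^ e) ((z.2 : X) * b z.1))⁻¹ * ((z.2 : X) * b z.1)
          rw [hb, map_mul, (hmemG _).mp z.2.2.2]; group⟩ : R)) ⟨fun z w h => ?_, fun z => ?_⟩).symm
    · have h1 : z.1 = w.1 := Subtype.ext (congrArg (fun v : R => v.1.1) h)
      have h2 : (z.2 : X) * b z.1 = (w.2 : X) * b w.1 := congrArg (fun v : R => (v.1.2 : X)) h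
      rw [h1] at h2
      exact Prod.ext h1 (Subtype.ext (mul_right_cancel h2))
    · obtain ⟨⟨k, c⟩, hz⟩ := z
      have hkY : (k : X)⁻¹ * (((σ ^ e) a)⁻¹ * a) * k ∈ Y := by
        rw [hz]
        refine Y.mul_mem (Y.inv_mem ?_) c.2
        have : ∀ (n : ℕ) (y : X), y ∈ Y → (σ ^ n) y ∈ Y := fun n => by
          induction n with
          | zero => intro y hy; simpa using hy
          | succ n ih => intro y hy; rw [pow_succ, MulAut.mul_apply]; exact ih _ ((hY y).mp hy)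
        exact this e _ c.2
      have h1 : ((σ ^ e) (b ⟨k, hkY⟩ : X))⁻¹ * (b ⟨k, hkY⟩ : X) = ((σ ^ e) c)⁻¹ * (c : X) :=
        (hb ⟨k, hkY⟩).symm.trans hz
      refine ⟨(⟨k, hkY⟩, ⟨(c : X) * (b ⟨k, hkY⟩ : X)⁻¹, Y.mul_mem c.2 (Y.inv_mem (b _).2), (hmemG _).mpr ?_⟩),
        Subtype.ext (Prod.ext rfl (Subtype.ext (by simp)))⟩
      rw [map_mul, map_inv]
      calc (σ ^ e) c * ((σ ^ e) (b ⟨k, hkY⟩ : X))⁻¹
          = (σ ^ e) c * (((σ ^ e) (b ⟨k, hkY⟩ : X))⁻¹ * (b ⟨k, hkY⟩ : X)) * (b ⟨k, hkY⟩ : X)⁻¹ := by group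
        _ = (c : X) * (b ⟨k, hkY⟩ : X)⁻¹ := by rw [h1]; group
  rw [← hL, ← hR]
  have hfix : ∀ (z : ↥GG × ↥Y), (z.1 : X)⁻¹ * g * σ z.1 = (z.2 : X) * (σ z.2)⁻¹ →
      a⁻¹ * (z.1 : X) * (z.2 : X) ∈ HH := fun z hz => by
    rw [hmemH, map_mul, map_mul, map_inv]
    rw [ha] at hz
    calc (σ a)⁻¹ * σ z.1 * σ z.2 = a⁻¹ * (z.1 : X) * ((z.1 : X)⁻¹ * (a * (σ a)⁻¹) * σ z.1) * σ z.2 := by group
      _ = _ := by rw [hz]; group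
  have hfixR : ∀ (z : ↥HH × ↥Y), (z.1 : X)⁻¹ * (((σ ^ e) a)⁻¹ * a) * z.1 = ((σ ^ e) z.2)⁻¹ * (z.2 : X) →
      a * (z.1 : X) * (z.2 : X)⁻¹ ∈ GG := fun z hz => by
    have hσk : (σ ^ e) (z.1 : X) = z.1 := by
      have : ∀ n : ℕ, (σ ^ n) (z.1 : X) = z.1 := fun n => by
        induction n with
        | zero => simp
        | succ n ih => rw [pow_succ, MulAut.mul_apply, (hmemH _).mp z.1.2, ih]
      exact this e
    rw [hmemG, map_mul, map_mul, map_inv, hσk]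
    calc (σ ^ e) a * (z.1 : X) * ((σ ^ e) z.2)⁻¹
        = (σ ^ e) a * (z.1 : X) * (((σ ^ e) z.2)⁻¹ * (z.2 : X)) * (z.2 : X)⁻¹ := by group
      _ = _ := by rw [← hz]; group
  refine Nat.card_congr
    { toFun := fun z => ⟨(⟨a⁻¹ * (z.1.1 : X) * (z.1.2 : X), hfix _ z.2⟩, z.1.2), ?_⟩
      invFun := fun z => ⟨(⟨a * (z.1.1 : X) * (z.1.2 : X)⁻¹, hfixR _ z.2⟩, z.1.2), ?_⟩
      left_inv := fun z => Subtype.ext (Prod.ext (Subtype.ext (by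
        show a * (a⁻¹ * (z.1.1 : X) * (z.1.2 : X)) * (z.1.2 : X)⁻¹ = (z.1.1 : X)
        group)) rfl)
      right_inv := fun z => Subtype.ext (Prod.ext (Subtype.ext (by
        show a⁻¹ * (a * (z.1.1 : X) * (z.1.2 : X)⁻¹) * (z.1.2 : X) = (z.1.1 : X)
        group)) rfl) }
  · show (a⁻¹ * (z.1.1 : X) * (z.1.2 : X))⁻¹ * (((σ ^ e) a)⁻¹ * a) * (a⁻¹ * (z.1.1 : X) * (z.1.2 : X)) = _
    have hk : (σ ^ e) (z.1.1 : X) = z.1.1 := (hmemG _).mp z.1.1.2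
    have hh : (σ ^ e) (a⁻¹ * (z.1.1 : X) * (z.1.2 : X)) = a⁻¹ * (z.1.1 : X) * (z.1.2 : X) := by
      have : ∀ n : ℕ, (σ ^ n) (a⁻¹ * (z.1.1 : X) * (z.1.2 : X)) = a⁻¹ * (z.1.1 : X) * (z.1.2 : X) := fun n => by
        induction n with
        | zero => simp
        | succ n ih => rw [pow_succ, MulAut.mul_apply, (hmemH _).mp (hfix _ z.2), ih]
      exact this e
    rw [map_mul, map_mul, map_inv, hk] at hh
    calc _ = ((z.1.2 : X))⁻¹ * (z.1.1 : X)⁻¹ * a * (((σ ^ e) a)⁻¹ * (z.1.1 : X) * (σ ^ e) z.1.2) *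
          ((σ ^ e) z.1.2)⁻¹ * (z.1.2 : X) := by group
      _ = _ := by rw [hh]; group
  · show (a * (z.1.1 : X) * (z.1.2 : X)⁻¹)⁻¹ * g * σ (a * (z.1.1 : X) * (z.1.2 : X)⁻¹) = _
    rw [map_mul, map_mul, map_inv, (hmemH _).mp z.1.1.2, ha]
    group

end Cfsg.Agent.S2669
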