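import Cfsg.Statements.S2677
import Cfsg.Agent.Lib.LinAlg.HermitianGU
import Cfsg.Agent.Lib.Classical.UnitaryOrders

set_option autoImplicit false
open Cfsg

namespace Cfsg.Agent.S2677

open Matrix

theorem prod_cast (q₀ n : ℕ) (h0 : 1 ≤ q₀) :
    ((∏ i ∈ Finset.range n, (if Even i then q₀ ^ (i + 1) + 1 else q₀ ^ (i + 1) - 1) : ℕ) : ℤ) =
      ∏ i : Fin n, ((q₀ : ℤ) ^ ((i : ℕ) + 1) - (-1) ^ ((i : ℕ) + 1)) := by
  rw [Finset.prod_range, Nat.cast_prod]
  refine Finset.prod_congr rfl fun i _ => ?_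
  rcases Nat.even_or_odd (i : ℕ) with h | h
  · rw [if_pos h, h.add_one.neg_one_pow]; push_cast; ring
  · rw [if_neg (Nat.not_even_iff_odd.2 h), h.add_one.neg_one_pow, Nat.cast_sub (Nat.one_le_pow _ _ h0)]
    push_cast; ring


/-- Centraliser of a field automorphism of odd prime order in PGU_n(q): let q = q₀^r with r an odd prime, K the field with q² elements and σ a field automorphism of K of order r (fixed field of order q₀²). The elements g of GU_n(q) whose entrywise image under σ is a scalar multiple of g — those whose coset modulo the q + 1 unitary scalars is fixed by σ — number (q + 1)/(q₀ + 1) · |GU_n(q₀)|; equivalently the centraliser in PGU_n(q) of the induced automorphism has the order of PGU_n(q₀). -/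
theorem result {K : Type*} [Field K] [Fintype K] {q₀ q r n : ℕ} (hr : r.Prime) (hr2 : r ≠ 2) (hn : 1 ≤ n) (hq : q = q₀ ^ r) (hK : Fintype.card K = q ^ 2) (σ : K ≃+* K) (hσ : orderOf σ = r) : (Nat.card {g : ↥(Cfsg.GU n K q) // ∃ c : K, c ≠ 0 ∧ ((g : GL (Fin n) K) : Matrix (Fin n) (Fin n) K).map σ = c • ((g : GL (Fin n) K) : Matrix (Fin n) (Fin n) K)} : ℤ) = ((q + 1) / (q₀ + 1) : ℕ) * ((q₀ : ℤ) ^ (n * (n - 1) / 2) * ∏ i : Fin n, ((q₀ : ℤ) ^ ((i : ℕ) + 1) - (-1) ^ ((i : ℕ) + 1))) := by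
  classical
  haveI : Fact r.Prime := ⟨hr⟩
  let G : Subgroup (RingAut K) := Subgroup.zpowers σ
  let K0 : Subfield K := FixedPoints.subfield ↥G K
  letI : Fintype K0 := Fintype.ofFinite K0
  have hmem : ∀ x : K, x ∈ K0 ↔ σ x = x := by
    intro x
    refine ⟨fun h => h ⟨σ, Subgroup.mem_zpowers σ⟩, fun h g => ?_⟩
    have hg : (g : RingAut K) ∈ MulAction.stabilizer (RingAut K) x :=
      (Subgroup.zpowers_le.2 (show σ ∈ MulAction.stabilizer (RingAut K) x from h)) g.2
    exact hg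
  have hfr : Module.finrank K0 K = r := by
    haveI : Finite (RingAut K) := Finite.of_injective (fun e : RingAut K => (⇑e : K → K)) DFunLike.coe_injective
    haveI : Fintype ↥G := Fintype.ofFinite _
    rw [FixedPoints.finrank_eq_card, ← Nat.card_eq_fintype_card, Nat.card_zpowers, hσ]
  have hK0 : Fintype.card K0 = q₀ ^ 2 := by
    have h := Module.card_eq_pow_finrank (K := K0) (V := K)
    rw [hfr, hK, hq, ← pow_mul, mul_comm, pow_mul] at h
    exact (Nat.pow_left_injective hr.ne_zero h).symm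
  have h0 : 1 ≤ q₀ := by
    rcases Nat.eq_zero_or_pos q₀ with rfl | h
    · simp at hK0
    · exact h
  obtain ⟨s, hs⟩ := hr.odd_of_ne_two hr2
  have hq0 : ∀ x : K0, x ^ q = x ^ q₀ := by
    intro x
    have h2 : ∀ j, x ^ (q₀ ^ (2 * j + 1)) = x ^ q₀ := by
      intro j
      induction j with
      | zero => simp
      | succ j ih =>
        rw [show 2 * (j + 1) + 1 = 2 + (2 * j + 1) by ring, pow_add, pow_mul, ← hK0, FiniteField.pow_card, ih]
    rw [hq, hs, h2]
  obtain ⟨τ, -, hτ, -⟩ := Cfsg.Lib.Classical.exists_frobSq hK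
  obtain ⟨τ0, -, hτ0, -⟩ := Cfsg.Lib.Classical.exists_frobSq hK0
  let ι : K0 →+* K := K0.subtype
  have hcomp : ∀ x : K0, τ (ι x) = ι (τ0 x) := fun x => by
    rw [hτ, hτ0, ← hq0, map_pow]
  have hst : ∀ M : Matrix (Fin n) (Fin n) K0, Cfsg.Lib.HermNorm.st τ.toRingHom (M.map ι) * M.map ι =
      (Cfsg.Lib.HermNorm.st τ0.toRingHom M * M).map ι := fun M => by
    rw [Matrix.map_mul]
    congr 1
    ext i j
    simp only [Cfsg.Lib.HermNorm.st, Matrix.transpose_apply, Matrix.map_apply]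
    exact hcomp _
  let T : Subgroup Kˣ := (powMonoidHom (q + 1) : Kˣ →* Kˣ).ker
  have hT : ∀ a : T, τ ((a : Kˣ) : K) * ((a : Kˣ) : K) = 1 := fun a => by
    have h : (a : Kˣ) ^ (q + 1) = 1 := a.2
    rw [hτ, ← pow_succ, ← Units.val_pow_eq_pow_val, h, Units.val_one]
  have hTmat : ∀ a : T, (((a : Kˣ) : K) • (1 : Matrix (Fin n) (Fin n) K)).det ≠ 0 := fun a => by
    rw [det_smul, det_one, mul_one]; exact pow_ne_zero _ (Units.ne_zero _)
  let f1 : T →* GL (Fin n) K := (Units.map (algebraMap K (Matrix (Fin n) (Fin n) K)).toMonoidHom).comp T.subtype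
  let f2 : ↥(Cfsg.GU n K0 q₀) →* GL (Fin n) K := (Matrix.GeneralLinearGroup.map ι).comp (Cfsg.GU n K0 q₀).subtype
  let Φ : T × ↥(Cfsg.GU n K0 q₀) →* GL (Fin n) K :=
    MonoidHom.noncommCoprod f1 f2 fun a h => Units.ext (Algebra.commutes _ _)
  have hΦ : ∀ a h, (Φ (a, h) : Matrix (Fin n) (Fin n) K) =
      ((a : Kˣ) : K) • ((h : GL (Fin n) K0) : Matrix (Fin n) (Fin n) K0).map ι := fun a h => by
    show algebraMap K (Matrix (Fin n) (Fin n) K) ((a : Kˣ) : K) * _ = _
    rw [← Algebra.smul_def]; rfl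
  have hmap1 : ∀ M : Matrix (Fin n) (Fin n) K0, ((M.map ι).map σ) = M.map ι := fun M => by
    ext i j; exact (hmem _).1 (M i j).2
  have himg : ∀ g : GL (Fin n) K, g ∈ Φ.range ↔ g ∈ Cfsg.GU n K q ∧
      ∃ c : K, c ≠ 0 ∧ (g : Matrix (Fin n) (Fin n) K).map σ = c • (g : Matrix (Fin n) (Fin n) K) := by
    intro g
    constructor
    · rintro ⟨⟨a, h⟩, rfl⟩
      refine ⟨(Cfsg.Lib.HermNorm.gu_iff hτ).2 ?_, σ ((a : Kˣ) : K) / ((a : Kˣ) : K),
        div_ne_zero ((map_ne_zero σ).2 (Units.ne_zero _)) (Units.ne_zero _), ?_⟩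
      · rw [hΦ, Cfsg.Lib.HermNorm.st_smul, smul_mul_smul_comm, hst, (Cfsg.Lib.HermNorm.gu_iff hτ0).1 h.2]
        show (τ ((a : Kˣ) : K) * ((a : Kˣ) : K)) • (1 : Matrix (Fin n) (Fin n) K0).map ι = 1
        rw [hT, one_smul, Matrix.map_one ι (map_zero ι) (map_one ι)]
      · rw [hΦ]
        ext i j
        simp only [Matrix.map_apply, Matrix.smul_apply, smul_eq_mul, map_mul]
        rw [show σ (ι (((h : GL (Fin n) K0) : Matrix (Fin n) (Fin n) K0) i j)) = _ from
          (hmem _).1 (((h : GL (Fin n) K0) : Matrix (Fin n) (Fin n) K0) i j).2]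
        field_simp
    · rintro ⟨hg, c, hc0, hc⟩
      have hne : (g : Matrix (Fin n) (Fin n) K) ≠ 0 := by
        haveI : Nonempty (Fin n) := ⟨⟨0, hn⟩⟩
        exact g.isUnit.ne_zero
      obtain ⟨i, j, ha⟩ : ∃ i j, (g : Matrix (Fin n) (Fin n) K) i j ≠ 0 := by
        by_contra! h; exact hne (by ext i j; exact h i j)
      set a := (g : Matrix (Fin n) (Fin n) K) i j with hadef
      have hσa : σ a = c * a := congrFun (congrFun hc i) j
      have hgu := (Cfsg.Lib.HermNorm.gu_iff hτ).1 hg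
      have hcn : τ c * c = 1 := by
        have h := congrArg (fun M : Matrix (Fin n) (Fin n) K => M.map σ) hgu
        have e : ∀ x, σ (τ x) = τ (σ x) := fun x => by rw [hτ, hτ, map_pow]
        have e2 : (Cfsg.Lib.HermNorm.st τ.toRingHom (g : Matrix (Fin n) (Fin n) K)).map σ =
            Cfsg.Lib.HermNorm.st τ.toRingHom ((g : Matrix (Fin n) (Fin n) K).map σ) := by
          ext i j; exact e _
        have h' : ((Cfsg.Lib.HermNorm.st τ.toRingHom (g : Matrix (Fin n) (Fin n) K)).map σ) *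
            ((g : Matrix (Fin n) (Fin n) K).map σ) = 1 := by
          rw [← Matrix.map_mul, hgu, Matrix.map_one σ (map_zero σ) (map_one σ)]
        rw [e2, hc, Cfsg.Lib.HermNorm.st_smul, smul_mul_smul_comm, hgu] at h'
        have := congrFun (congrFun h' ⟨0, hn⟩) ⟨0, hn⟩
        simpa using this
      have hwσ : σ (a ^ (q + 1)) = a ^ (q + 1) := by
        rw [map_pow, hσa, mul_pow, pow_succ c, ← hτ, hcn, one_mul]
      let w : K0 := ⟨a ^ (q + 1), (hmem _).2 hwσ⟩
      have hw0 : w ≠ 0 := fun h => pow_ne_zero _ ha (congrArg Subtype.val h)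
      have hwq : w ^ q₀ = w := by
        rw [← hq0]
        apply Subtype.ext
        show (a ^ (q + 1)) ^ q = a ^ (q + 1)
        rw [← pow_mul, show (q + 1) * q = q ^ 2 + q by ring, pow_add, ← hK, FiniteField.pow_card, pow_succ a q]
        ring
      obtain ⟨b, hb⟩ : ∃ b : K0, b ^ (q₀ + 1) = w := by
        obtain ⟨z, hz⟩ := IsCyclic.exists_monoid_generator (α := K0ˣ)
        obtain ⟨m, hm⟩ := hz (Units.mk0 w hw0)
        have hord : orderOf z = q₀ ^ 2 - 1 := by
          rw [← hK0, ← Fintype.card_units, ← Nat.card_eq_fintype_card]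
          exact orderOf_eq_card_of_forall_mem_powers hz
        have h1 : (z ^ m) ^ (q₀ - 1) = 1 := by
          apply Units.ext
          rw [show z ^ m = Units.mk0 w hw0 from hm, Units.val_pow_eq_pow_val, Units.val_mk0, Units.val_one]
          apply mul_right_cancel₀ hw0
          rw [← pow_succ, Nat.sub_add_cancel h0, hwq, one_mul]
        rw [← pow_mul, ← orderOf_dvd_iff_pow_eq_one, hord] at h1
        rw [show q₀ ^ 2 - 1 = (q₀ + 1) * (q₀ - 1) by simpa using Nat.sq_sub_sq q₀ 1] at h1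
        have hq1 : 0 < q₀ - 1 := by
          have := Fintype.one_lt_card (α := K0)
          rw [hK0] at this
          by_contra hh
          obtain rfl : q₀ = 1 := by omega
          simp at this
        obtain ⟨k, rfl⟩ := Nat.dvd_of_mul_dvd_mul_right hq1 h1
        refine ⟨(z : K0) ^ k, ?_⟩
        rw [← pow_mul, mul_comm]
        exact congrArg Units.val hm
      have hb0 : b ≠ 0 := fun h => hw0 (by rw [← hb, h, zero_pow (by omega)])
      have hbq : (ι b) ^ (q + 1) = a ^ (q + 1) := by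
        rw [← map_pow, pow_succ, hq0, ← pow_succ, hb]; rfl
      have hib : ι b ≠ 0 := (map_ne_zero ι).2 hb0
      set l := a / ι b with hl
      have hl0 : l ≠ 0 := div_ne_zero ha hib
      have hlT : l ^ (q + 1) = 1 := by
        rw [hl, div_pow, hbq, div_self (pow_ne_zero _ ha)]
      have hlσ : σ l = c * l := by
        rw [hl, map_div₀, hσa, show σ (ι b) = ι b from (hmem _).1 b.2, mul_div_assoc]
      let M : Matrix (Fin n) (Fin n) K0 := Matrix.of fun i j =>
        ⟨l⁻¹ * (g : Matrix (Fin n) (Fin n) K) i j, (hmem _).2 (by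
          rw [map_mul, map_inv₀, hlσ, show σ ((g : Matrix (Fin n) (Fin n) K) i j) = c * (g : Matrix (Fin n) (Fin n) K) i j from
            congrFun (congrFun hc i) j]
          field_simp)⟩
      have hM : M.map ι = l⁻¹ • (g : Matrix (Fin n) (Fin n) K) := by ext i j; rfl
      have hMu : Cfsg.Lib.HermNorm.st τ0.toRingHom M * M = 1 := by
        apply Matrix.map_injective (f := ι) ι.injective
        show (Cfsg.Lib.HermNorm.st τ0.toRingHom M * M).map ι = (1 : Matrix (Fin n) (Fin n) K0).map ι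
        rw [← hst, hM, Cfsg.Lib.HermNorm.st_smul, smul_mul_smul_comm, hgu,
          Matrix.map_one ι (map_zero ι) (map_one ι)]
        show (τ l⁻¹ * l⁻¹) • (1 : Matrix (Fin n) (Fin n) K) = 1
        rw [hτ, ← pow_succ, inv_pow, hlT, inv_one, one_smul]
      refine ⟨(⟨Units.mk0 l hl0, Units.ext hlT⟩,
        ⟨⟨M, Cfsg.Lib.HermNorm.st τ0.toRingHom M, mul_eq_one_comm.1 hMu, hMu⟩, (Cfsg.Lib.HermNorm.gu_iff hτ0).2 hMu⟩), Units.ext ?_⟩
      rw [hΦ]
      show l • M.map ι = _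
      rw [hM, smul_smul, mul_inv_cancel₀ hl0, one_smul]
  let T0 : Subgroup K0ˣ := (powMonoidHom (q₀ + 1) : K0ˣ →* K0ˣ).ker
  have hcardT : ∀ (L : Type _) [Field L] [Fintype L] (Q : ℕ), Fintype.card L = Q ^ 2 →
      Nat.card ↥((powMonoidHom (Q + 1) : Lˣ →* Lˣ).ker) = Q + 1 := by
    intro L _ _ Q hL
    rw [IsCyclic.card_powMonoidHom_ker, Nat.card_units, Nat.card_eq_fintype_card, hL]
    exact Nat.gcd_eq_right ⟨Q - 1, by simpa using Nat.sq_sub_sq Q 1⟩
  have hker : Nat.card Φ.ker = Nat.card T0 := by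
    refine (Nat.card_eq_of_bijective (fun a : T0 => (⟨(⟨Units.map ι.toMonoidHom a.1, ?_⟩,
      ⟨Units.map (algebraMap K0 (Matrix (Fin n) (Fin n) K0)).toMonoidHom a.1⁻¹, ?_⟩), ?_⟩ : Φ.ker)) ⟨?_, ?_⟩).symm
    · refine Units.ext ?_
      show (ι (a.1 : K0)) ^ (q + 1) = 1
      rw [← map_pow, pow_succ, hq0, ← pow_succ, ← Units.val_pow_eq_pow_val, show a.1 ^ (q₀ + 1) = 1 from a.2]
      exact map_one ι
    · refine (Cfsg.Lib.HermNorm.gu_iff hτ0).2 ?_
      show Cfsg.Lib.HermNorm.st τ0.toRingHom (algebraMap K0 _ ((a.1⁻¹ : K0ˣ) : K0)) * algebraMap K0 _ _ = 1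
      rw [Algebra.algebraMap_eq_smul_one, Cfsg.Lib.HermNorm.st_smul, Cfsg.Lib.HermNorm.st_one, smul_mul_smul_comm, one_mul]
      show (τ0 ((a.1⁻¹ : K0ˣ) : K0) * _) • (1 : Matrix (Fin n) (Fin n) K0) = 1
      rw [hτ0, ← pow_succ, ← Units.val_pow_eq_pow_val, inv_pow, show a.1 ^ (q₀ + 1) = 1 from a.2, inv_one, Units.val_one, one_smul]
    · refine MonoidHom.mem_ker.2 (Units.ext ?_)
      rw [hΦ]
      show ι (a.1 : K0) • (algebraMap K0 (Matrix (Fin n) (Fin n) K0) ((a.1⁻¹ : K0ˣ) : K0)).map ι = 1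
      ext i j
      simp [Matrix.algebraMap_matrix_apply, Matrix.one_apply]
      split_ifs <;> simp
    · intro a b h
      have h1 := congrArg (fun z : Φ.ker => ((z.1.1 : Kˣ) : K)) h
      exact Subtype.ext (Units.ext (ι.injective h1))
    · rintro ⟨⟨a, h⟩, hk⟩
      have e : ((a : Kˣ) : K) • ((h : GL (Fin n) K0) : Matrix (Fin n) (Fin n) K0).map ι = 1 := by
        rw [← hΦ, MonoidHom.mem_ker.1 hk]; rfl
      set x := ((h : GL (Fin n) K0) : Matrix (Fin n) (Fin n) K0) ⟨0, hn⟩ ⟨0, hn⟩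
      have hx : ((a : Kˣ) : K) * ι x = 1 := by simpa using congrFun (congrFun e ⟨0, hn⟩) ⟨0, hn⟩
      have hx0 : x ≠ 0 := fun h0 => by simp [h0] at hx
      have ha : ((a : Kˣ) : K) = ι x⁻¹ := by rw [map_inv₀]; exact eq_inv_of_mul_eq_one_left hx
      refine ⟨⟨(Units.mk0 x hx0)⁻¹, Units.ext ?_⟩, Subtype.ext (Prod.ext (Subtype.ext (Units.ext ?_)) (Subtype.ext (Units.ext ?_)))⟩
      · show x⁻¹ ^ (q₀ + 1) = 1
        apply ι.injective
        rw [pow_succ, ← hq0, ← pow_succ, map_pow, ← ha, map_one, ← Units.val_pow_eq_pow_val, show (a : Kˣ) ^ (q + 1) = 1 from a.2]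
        rfl
      · show ι ((Units.mk0 x hx0)⁻¹ : K0ˣ) = _
        rw [ha, Units.val_inv_eq_inv_val, Units.val_mk0]
      · show algebraMap K0 _ (((Units.mk0 x hx0)⁻¹⁻¹ : K0ˣ) : K0) = _
        rw [inv_inv, Units.val_mk0]
        apply Matrix.map_injective (f := ι) ι.injective
        show (algebraMap K0 (Matrix (Fin n) (Fin n) K0) x).map ι = ((h : GL (Fin n) K0) : Matrix (Fin n) (Fin n) K0).map ι
        have e2 : ((h : GL (Fin n) K0) : Matrix (Fin n) (Fin n) K0).map ι = ι x • 1 := by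
          have := congrArg (fun M : Matrix (Fin n) (Fin n) K => ι x • M) e
          simpa [smul_smul, mul_comm (ι x), hx] using this
        rw [e2]
        ext i j
        simp [Matrix.algebraMap_matrix_apply, Matrix.one_apply]
        split_ifs <;> simp
  have hS : Nat.card {g : ↥(Cfsg.GU n K q) // ∃ c : K, c ≠ 0 ∧ ((g : GL (Fin n) K) : Matrix (Fin n) (Fin n) K).map σ = c • ((g : GL (Fin n) K) : Matrix (Fin n) (Fin n) K)} = Nat.card Φ.range :=
    Nat.card_congr ((Equiv.subtypeSubtypeEquivSubtypeInter (fun g => g ∈ Cfsg.GU n K q) _).trans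
      (Equiv.subtypeEquivRight fun g => (himg g).symm))
  have hmul := Φ.ker.card_mul_index
  rw [Subgroup.index_ker, hker, Nat.card_prod, hcardT K q hK, hcardT K0 q₀ hK0,
    Cfsg.Lib.Classical.UnitaryOrders.card_GU hK0] at hmul
  have hdvd : q₀ + 1 ∣ q + 1 := by
    rw [hq]; simpa using Odd.nat_add_dvd_pow_add_pow q₀ 1 (hr.odd_of_ne_two hr2)
  obtain ⟨d, hd⟩ := hdvd
  rw [hS, hd, Nat.mul_div_cancel_left _ (by omega : 0 < q₀ + 1), ← prod_cast q₀ n h0]
  rw [hd, mul_assoc] at hmul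
  exact_mod_cast Nat.eq_of_mul_eq_mul_left (by omega : 0 < q₀ + 1) hmul

end Cfsg.Agent.S2677
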