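import Cfsg.Statements.S2678
import Cfsg.Agent.Lib.Classical.SympEmbed
-- import your own Cfsg.Agent.* helpers here

set_option autoImplicit false
open Cfsg

namespace Cfsg.Agent.S2678

/-- Field-extension embedding of symplectic groups: for a field K with q² elements and a field F with q elements there is an injective homomorphism Sp_2a(K) → Sp_4a(F). -/
theorem result {K F : Type*} [Field K] [Fintype K] [Field F] [Fintype F] {q : ℕ} (hK : Fintype.card K = q ^ 2) (hF : Fintype.card F = q) (a : ℕ) : ∃ φ : ↥(Matrix.symplecticGroup (Fin a) K) →* ↥(Matrix.symplecticGroup (Fin (2 * a)) F), Function.Injective φ := by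
  classical
  obtain ⟨ι⟩ := SympEmbed.exists_field_embedding (F := F) hK hF
  let _ : Algebra F K := ι.toAlgebra
  have hrk := SympEmbed.finrank_two (F := F) hK hF
  let ω := Cfsg.Lib.Classical.sympBilin K a
  let B : LinearMap.BilinForm F (Fin a ⊕ Fin a → K) := LinearMap.mk₂ F
    (fun u v => Algebra.trace F K (ω u v))
    (fun u u' v => by simp [map_add])
    (fun c u v => by
      rw [← map_smul, ← algebraMap_smul K c u, map_smul, LinearMap.smul_apply, algebraMap_smul])
    (fun u v v' => by simp [map_add])
    (fun c u v => by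
      rw [← map_smul, ← algebraMap_smul K c v, map_smul, algebraMap_smul])
  have hA : B.IsAlt := fun u => by
    show Algebra.trace F K (ω u u) = 0
    rw [Cfsg.Lib.Classical.sympBilin_isAlt K a u, map_zero]
  have hB : ∀ u, u ≠ 0 → ∃ v, B u v ≠ 0 := by
    intro u hu
    obtain ⟨v, hv⟩ : ∃ v, ω u v ≠ 0 := by
      by_contra h
      push Not at h
      exact hu ((Cfsg.Lib.Classical.sympBilin_nondegenerate K a).1 u h)
    obtain ⟨y, hy⟩ := Algebra.trace_surjective F K 1
    refine ⟨(y / ω u v) • v, ?_⟩
    show Algebra.trace F K (ω u ((y / ω u v) • v)) ≠ 0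
    rw [map_smul, smul_eq_mul, div_mul_cancel₀ _ hv, hy]
    exact one_ne_zero
  let ρ : ↥(Matrix.symplecticGroup (Fin a) K) →* ((Fin a ⊕ Fin a → K) →ₗ[F] (Fin a ⊕ Fin a → K)) :=
    { toFun := fun g => (Matrix.mulVecLin (g : Matrix (Fin a ⊕ Fin a) (Fin a ⊕ Fin a) K)).restrictScalars F
      map_one' := LinearMap.ext fun v => by simp
      map_mul' := fun g h => LinearMap.ext fun v => by simp [Matrix.mulVec_mulVec] }
  refine SympEmbed.exists_embed (2 * a) ?_ B hA hB ρ (fun g h e => ?_) (fun g u v => ?_)
  · rw [Module.finrank_pi_fintype]; simp [hrk]; ring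
  · exact Subtype.ext (Matrix.mulVec_injective (funext fun v => LinearMap.congr_fun e v))
  · show Algebra.trace F K _ = Algebra.trace F K _
    congr 1
    show ω _ _ = ω _ _
    have hg := Cfsg.Lib.Classical.mem_spGL_iff.1 (Cfsg.Lib.Classical.spEquiv g).2 u v
    rw [Cfsg.Lib.Classical.coe_spEquiv] at hg
    exact hg

end Cfsg.Agent.S2678
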