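import Cfsg.Statements.S2679
import Cfsg.Agent.Lib.Classical.GUOrth
-- import your own Cfsg.Agent.* helpers here

set_option autoImplicit false
open Cfsg

namespace Cfsg.Agent.S2679

/-- An elliptic orthogonal group embeds in the hyperbolic orthogonal group of the same dimension over the quadratic extension: for a field F with q elements and a field K with q² elements there is an injective homomorphism from O⁻_2m(F) (isometries of Σ_(j<m−1) x_j y_j + z₁² + a z₁z₂ + c z₂², binary part anisotropic) to O⁺_2m(K) (isometries of Σ_(j<m) x_j y_j over K). -/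
theorem result {F K : Type*} [Field F] [Fintype F] [Field K] [Fintype K] {q : ℕ} (hF : Fintype.card F = q) (hK : Fintype.card K = q ^ 2) {m : ℕ} (hm : 1 ≤ m) (a c : F) (hac : ∀ z₁ z₂ : F, z₁ ^ 2 + a * z₁ * z₂ + c * z₂ ^ 2 = 0 → z₁ = 0 ∧ z₂ = 0) : ∃ φ : ↥(Cfsg.isometryGroup F (Cfsg.quadFormMinus (m - 1) F a c)) →* ↥(Cfsg.isometryGroup K (Cfsg.quadFormPlus m K)), Function.Injective φ := by
  classical
  obtain ⟨k, rfl⟩ : ∃ k, m = k + 1 := ⟨m - 1, by omega⟩
  show ∃ φ : ↥(Cfsg.isometryGroup F (Cfsg.quadFormMinus k F a c)) →* ↥(Cfsg.isometryGroup K (Cfsg.quadFormPlus (k + 1) K)),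
    Function.Injective φ
  obtain ⟨ι⟩ := SympEmbed.exists_field_embedding (F := F) hK hF
  let _ : Algebra F K := ι.toAlgebra
  have hrk := SympEmbed.finrank_two (F := F) hK hF
  -- a root of `X² - a X + c`
  obtain ⟨Ψ, hΨ⟩ := GUOrth.coords_minus (F := F) (q := q) hK hF 0 (Even.zero) a c hac
  let e1 : (Fin 0 ⊕ Fin 0) ⊕ Fin 2 → F := Pi.single (Sum.inr 0) 1
  let e2 : (Fin 0 ⊕ Fin 0) ⊕ Fin 2 → F := Pi.single (Sum.inr 1) 1
  have hsum : ∀ s t : F, Cfsg.hermForm 1 K q (Ψ (s • e1 + t • e2)) (Ψ (s • e1 + t • e2)) =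
      algebraMap F K (s ^ 2 + a * s * t + c * t ^ 2) := fun s t => by
    rw [hΨ]; simp [Cfsg.quadFormMinus, e1, e2]
  set z₁ := Ψ e1 0 with hz₁
  set z₂ := Ψ e2 0 with hz₂
  have hz : ∀ s t : F, (algebraMap F K s * z₁ + algebraMap F K t * z₂) * (algebraMap F K s * z₁ ^ q + algebraMap F K t * z₂ ^ q) =
      algebraMap F K (s ^ 2 + a * s * t + c * t ^ 2) := fun s t => by
    rw [← hsum s t, map_add, map_smul, map_smul]
    have hpow : ∀ x : F, algebraMap F K x ^ q = algebraMap F K x := fun x => by rw [← map_pow, ← hF, FiniteField.pow_card]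
    simp [Cfsg.hermForm, Algebra.smul_def, GUOrth.pow_add_q hK hF, mul_pow, hpow, z₁, z₂]
  have h11 : z₁ * z₁ ^ q = 1 := by simpa using hz 1 0
  have h22 : z₂ * z₂ ^ q = algebraMap F K c := by simpa using hz 0 1
  have h12 : z₁ * z₂ ^ q + z₂ * z₁ ^ q = algebraMap F K a := by
    have h := hz 1 1
    simp only [map_add, map_one, one_mul, mul_one, one_pow] at h
    linear_combination h - h11 - h22
  have hz1 : z₁ ≠ 0 := fun h => by simp [h] at h11
  set ρ := z₂ * z₁ ^ q with hρdef
  have hρq : ρ ^ q = z₁ * z₂ ^ q := by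
    rw [mul_pow, ← pow_mul, ← pow_two, ← hK, FiniteField.pow_card, mul_comm]
  have hconj : ρ + ρ ^ q = algebraMap F K a ∧ ρ * ρ ^ q = algebraMap F K c :=
    ⟨by rw [hρq]; linear_combination h12, by rw [hρq]; linear_combination (z₂ * z₂ ^ q) * h11 + h22⟩
  have hρF : ∀ s : F, algebraMap F K s ≠ ρ := fun s h => by
    have hs : s * s - a * s + c = 0 := by
      apply (algebraMap F K).injective
      rw [map_add, map_sub, map_mul, map_mul, map_zero, h]
      linear_combination ρ * hconj.1 - hconj.2
    exact one_ne_zero (hac (-s) 1 (by linear_combination hs)).2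
  -- coordinates over `F`
  let X : F × F → K := fun p => algebraMap F K p.1 + algebraMap F K p.2 * ρ
  have hXinj : Function.Injective X := by
    rintro ⟨s, t⟩ ⟨s', t'⟩ h
    simp only [X] at h
    by_cases ht : t = t'
    · subst ht
      rw [add_left_inj] at h
      exact Prod.ext ((algebraMap F K).injective h) rfl
    · refine absurd ?_ (hρF ((s' - s) / (t - t')))
      have : algebraMap F K t - algebraMap F K t' ≠ 0 := sub_ne_zero.2 fun h' => ht ((algebraMap F K).injective h')
      rw [map_div₀, map_sub, map_sub, div_eq_iff this]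
      linear_combination -h
  have hXsur : Function.Surjective X :=
    ((Fintype.bijective_iff_injective_and_card X).2 ⟨hXinj, by rw [Fintype.card_prod, hK, hF, pow_two]⟩).surjective
  let I := (Fin k ⊕ Fin k) ⊕ Fin 2
  have hext : ∀ u w : I → F, Cfsg.quadFormMinus k K (algebraMap F K a) (algebraMap F K c)
      (fun i => algebraMap F K (u i) + algebraMap F K (w i) * ρ) =
      algebraMap F K (Cfsg.quadFormMinus k F a c u) +
        algebraMap F K (Cfsg.quadFormMinus k F a c (u + w) - Cfsg.quadFormMinus k F a c u - Cfsg.quadFormMinus k F a c w) * ρ +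
        algebraMap F K (Cfsg.quadFormMinus k F a c w) * ρ ^ 2 := by
    intro u w
    have h1 : ∀ (A B : I → K), ∑ i : Fin k, (A (.inl (.inl i)) + B (.inl (.inl i)) * ρ) * (A (.inl (.inr i)) + B (.inl (.inr i)) * ρ) =
        (∑ i : Fin k, A (.inl (.inl i)) * A (.inl (.inr i))) +
          ((∑ i : Fin k, A (.inl (.inl i)) * B (.inl (.inr i))) + ∑ i : Fin k, B (.inl (.inl i)) * A (.inl (.inr i))) * ρ +
          (∑ i : Fin k, B (.inl (.inl i)) * B (.inl (.inr i))) * ρ ^ 2 := fun A B => by
      rw [← Finset.sum_add_distrib, Finset.sum_mul, Finset.sum_mul, ← Finset.sum_add_distrib, ← Finset.sum_add_distrib]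
      exact Finset.sum_congr rfl fun i _ => by ring
    have h2 : ∑ i : Fin k, (u (.inl (.inl i)) + w (.inl (.inl i))) * (u (.inl (.inr i)) + w (.inl (.inr i))) =
        (∑ i : Fin k, u (.inl (.inl i)) * u (.inl (.inr i))) + (∑ i : Fin k, u (.inl (.inl i)) * w (.inl (.inr i))) +
          ((∑ i : Fin k, w (.inl (.inl i)) * u (.inl (.inr i))) + ∑ i : Fin k, w (.inl (.inl i)) * w (.inl (.inr i))) := by
      rw [← Finset.sum_add_distrib, ← Finset.sum_add_distrib, ← Finset.sum_add_distrib]
      exact Finset.sum_congr rfl fun i _ => by ring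
    simp only [Cfsg.quadFormMinus, Pi.add_apply, h2]
    rw [h1 (fun i => algebraMap F K (u i)) (fun i => algebraMap F K (w i))]
    simp only [map_add, map_sub, map_mul, map_pow, map_sum]
    ring
  have hiso : ∀ g : ↥(Cfsg.isometryGroup F (Cfsg.quadFormMinus k F a c)), ∀ v : I → K,
      Cfsg.quadFormMinus k K (algebraMap F K a) (algebraMap F K c)
        (Matrix.mulVec ((((g : GL I F) : Matrix I I F)).map (algebraMap F K)) v) =
      Cfsg.quadFormMinus k K (algebraMap F K a) (algebraMap F K c) v := by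
    intro g v
    choose p hp using fun i => hXsur (v i)
    have hv : v = fun i => algebraMap F K ((fun i => (p i).1) i) + algebraMap F K ((fun i => (p i).2) i) * ρ :=
      funext fun i => (hp i).symm
    have hM : Matrix.mulVec ((((g : GL I F) : Matrix I I F)).map (algebraMap F K)) v =
        fun i => algebraMap F K (Matrix.mulVec ((g : GL I F) : Matrix I I F) (fun i => (p i).1) i) +
          algebraMap F K (Matrix.mulVec ((g : GL I F) : Matrix I I F) (fun i => (p i).2) i) * ρ := by
      funext i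
      conv_lhs => rw [hv]
      simp only [Matrix.mulVec, dotProduct, Matrix.map_apply, map_sum, map_mul, mul_add, Finset.sum_add_distrib,
        Finset.sum_mul, mul_assoc]
    have hQ : ∀ u, Cfsg.quadFormMinus k F a c (Matrix.mulVec ((g : GL I F) : Matrix I I F) u) =
        Cfsg.quadFormMinus k F a c u := fun u => g.2 u u
    rw [hM, hext, hv, hext, ← Matrix.mulVec_add, hQ, hQ, hQ]
  -- the change of coordinates over `K`
  let χ : (I → K) →ₗ[K] (Fin (k + 1) ⊕ Fin (k + 1) → K) :=
    { toFun := fun v => Sum.elim (Fin.snoc (fun i => v (.inl (.inl i))) (v (.inr 0) + v (.inr 1) * ρ))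
        (Fin.snoc (fun i => v (.inl (.inr i))) (v (.inr 0) + v (.inr 1) * ρ ^ q))
      map_add' := fun v w => by
        funext x
        rcases x with x | x <;> induction x using Fin.lastCases <;> simp <;> ring
      map_smul' := fun s v => by
        funext x
        rcases x with x | x <;> induction x using Fin.lastCases <;> simp <;> ring }
  have hχinj : Function.Injective χ := by
    rw [injective_iff_map_eq_zero]
    intro v hv
    have hl : v (.inr 0) + v (.inr 1) * ρ = 0 := by simpa [χ] using congrFun hv (.inl (Fin.last k))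
    have hr : v (.inr 0) + v (.inr 1) * ρ ^ q = 0 := by simpa [χ] using congrFun hv (.inr (Fin.last k))
    have hne : ρ - ρ ^ q ≠ 0 := fun h => by
      obtain ⟨s, hs⟩ := SympEmbed.mem_range_of_pow_eq (F := F) hF (sub_eq_zero.1 h).symm
      exact hρF s hs
    have h1 : v (.inr 1) = 0 := (mul_eq_zero.1
      (show v (.inr 1) * (ρ - ρ ^ q) = 0 by linear_combination hl - hr)).resolve_right hne
    have h0 : v (.inr 0) = 0 := by simpa [h1] using hl
    funext x
    rcases x with (i | i) | x
    · simpa [χ] using congrFun hv (.inl i.castSucc)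
    · simpa [χ] using congrFun hv (.inr i.castSucc)
    · fin_cases x
      exacts [h0, h1]
  let E := χ.linearEquivOfInjective hχinj (by simp [I, Module.finrank_pi]; omega)
  have hE : ∀ v, Cfsg.quadFormPlus (k + 1) K (E v) =
      Cfsg.quadFormMinus k K (algebraMap F K a) (algebraMap F K c) v := by
    intro v
    show Cfsg.quadFormPlus (k + 1) K (χ v) = _
    simp only [Cfsg.quadFormPlus, Cfsg.quadFormMinus, χ, LinearMap.coe_mk, AddHom.coe_mk, Fin.sum_univ_castSucc,
      Sum.elim_inl, Sum.elim_inr, Fin.snoc_castSucc, Fin.snoc_last]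
    linear_combination (v (.inr 0) * v (.inr 1)) * hconj.1 + v (.inr 1) ^ 2 * hconj.2
  let T : Matrix I I F → ((Fin (k + 1) ⊕ Fin (k + 1) → K) →ₗ[K] (Fin (k + 1) ⊕ Fin (k + 1) → K)) := fun A =>
    E.toLinearMap ∘ₗ Matrix.mulVecLin (A.map (algebraMap F K)) ∘ₗ E.symm.toLinearMap
  let M : ↥(Cfsg.isometryGroup F (Cfsg.quadFormMinus k F a c)) →* Matrix (Fin (k + 1) ⊕ Fin (k + 1)) (Fin (k + 1) ⊕ Fin (k + 1)) K :=
    { toFun := fun g => LinearMap.toMatrix' (T ((g : GL I F) : Matrix I I F))
      map_one' := by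
        have : T 1 = LinearMap.id := LinearMap.ext fun v => by simp [T]
        show LinearMap.toMatrix' (T 1) = 1
        rw [this, LinearMap.toMatrix'_id]
      map_mul' := fun g h => by
        rw [← LinearMap.toMatrix'_comp]
        congr 1
        exact LinearMap.ext fun v => by simp [T, Matrix.mulVec_mulVec, Matrix.map_mul] }
  refine ⟨MonoidHom.codRestrict M.toHomUnits _ fun g u _ => ?_, fun g h e => ?_⟩
  · show Cfsg.quadFormPlus (k + 1) K (Matrix.mulVec (M g) u) = Cfsg.quadFormPlus (k + 1) K u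
    have : Matrix.mulVec (M g) u = E (Matrix.mulVec ((((g : GL I F) : Matrix I I F)).map (algebraMap F K)) (E.symm u)) := by
      show Matrix.mulVec (LinearMap.toMatrix' (T _)) u = _
      rw [LinearMap.toMatrix'_mulVec]
      rfl
    rw [this, hE, hiso, ← hE, E.apply_symm_apply]
  · have e' : T ((g : GL I F) : Matrix I I F) = T ((h : GL I F) : Matrix I I F) :=
      LinearMap.toMatrix'.injective (congrArg (fun z : ↥(Cfsg.isometryGroup K (Cfsg.quadFormPlus (k + 1) K)) =>
        ((z : GL (Fin (k + 1) ⊕ Fin (k + 1)) K) : Matrix (Fin (k + 1) ⊕ Fin (k + 1)) (Fin (k + 1) ⊕ Fin (k + 1)) K)) e)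
    apply Subtype.ext
    apply Units.ext
    apply Matrix.map_injective (algebraMap F K).injective
    refine Matrix.mulVec_injective (funext fun w => ?_)
    have := congrArg E.symm (LinearMap.congr_fun e' (E w))
    simpa [T] using this

end Cfsg.Agent.S2679
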