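import Cfsg.Statements.S2711
import Cfsg.Agent.Lib.Classical.PSUAut.Field
-- import your own Cfsg.Agent.* helpers here

set_option autoImplicit false
open Cfsg

namespace Cfsg.Agent.S2711

/-- Let T = PSU_n(q) be simple (n ≥ 3, (n,q) ≠ (3,2)), realised over the field F with q² elements, and let x be a field automorphism of T (conjugate to a standard field automorphism of odd order) of prime order r. Then an element y of the coset Inndiag(T)·x (y = δ x with δ in the image of PGU_n(q)) has order r if and only if y is conjugate to x by an element of Inndiag(T). (T has no graph-field automorphisms.) -/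
theorem result {F : Type*} [Field F] [Fintype F] {p f q : ℕ} [Fact p.Prime] (hq : q = p ^ f) (hf : 1 ≤ f) (hF : Fintype.card F = q ^ 2) {n : ℕ} (hn : 3 ≤ n) (hs : ¬ (n = 3 ∧ q = 2)) (x δ : MulAut (Cfsg.PSU n F q)) (hx : Cfsg.IsFieldAutClassPSU x) {r : ℕ} (hr : r.Prime) (hxr : orderOf x = r) (hδ : δ ∈ Cfsg.inndiagPSU n F q) :
    orderOf (δ * x) = r ↔ Cfsg.IsConjUnder (Cfsg.inndiagPSU n F q) x (δ * x) := by
  obtain ⟨σ, hc⟩ := Cfsg.Lib.Classical.PSUAut.exists_ctx n hF
  haveI : CharP F p := Cfsg.Lib.Classical.PSUAut.charP_of_card (k := 2 * f) (by rw [hF, hq, ← pow_mul, mul_comm])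
  have hq3 : n = 3 → q ≠ 2 := fun h3 h2 => hs ⟨h3, h2⟩
  exact Cfsg.Lib.Classical.PSUAut.order_iff_conj (p := p) hc hq hn hq3 hx hxr hδ

end Cfsg.Agent.S2711
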