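import Cfsg.Statements.S2725
import Cfsg.Agent.Lib.Classical.OrthAut.Inndiag
import Cfsg.Agent.S0790
-- import your own Cfsg.Agent.* helpers here

set_option autoImplicit false
open Cfsg

namespace Cfsg.Agent.S2725

/-- Let T = PΩ⁺_{2m}(F) with m ≥ 4 and |F| = q odd. The inner-diagonal group G = Inndiag(T) (image of the class-preserving similarities) taken modulo the inner automorphism group T is cyclic of order 2 when m is odd and q ≡ 3 (mod 4), cyclic of order 4 when m is odd and q ≡ 1 (mod 4), and elementary abelian of order 4 when m is even. -/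
theorem result {F : Type*} [Field F] [Fintype F] (hodd : Odd (Fintype.card F)) {m : ℕ} (hm : 4 ≤ m) :
    ((Odd m ∧ Fintype.card F % 4 = 3) → (∃ φ : ↥(Cfsg.inndiagPOmegaPlus m F) →* Multiplicative (ZMod 2), Function.Surjective φ ∧ φ.ker = (Cfsg.Inn (Cfsg.POmega F (Cfsg.quadFormPlus m F))).subgroupOf (Cfsg.inndiagPOmegaPlus m F))) ∧ ((Odd m ∧ Fintype.card F % 4 = 1) → (∃ φ : ↥(Cfsg.inndiagPOmegaPlus m F) →* Multiplicative (ZMod 4), Function.Surjective φ ∧ φ.ker = (Cfsg.Inn (Cfsg.POmega F (Cfsg.quadFormPlus m F))).subgroupOf (Cfsg.inndiagPOmegaPlus m F))) ∧ (Even m → (∃ φ : ↥(Cfsg.inndiagPOmegaPlus m F) →* Multiplicative (ZMod 2 × ZMod 2), Function.Surjective φ ∧ φ.ker = (Cfsg.Inn (Cfsg.POmega F (Cfsg.quadFormPlus m F))).subgroupOf (Cfsg.inndiagPOmegaPlus m F))) := by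
  obtain ⟨D, hdet⟩ := Cfsg.Lib.Classical.OrthAut.plusData (m := m) hodd (by omega)
  rw [Cfsg.Lib.Classical.OrthAut.plus_inndiag D]
  have hiff := Cfsg.Agent.S0790.result (F := F) rfl hodd m (by omega)
  rw [(Cfsg.Lib.Classical.OrthAut.pow_mod_four (k := m) hodd).1] at hiff
  refine ⟨fun h => D.inndiag_no fun e => hiff.1 e h, fun h => (D.inndiag_yes (hiff.2 ?_) hdet).1 h.1,
    fun h => (D.inndiag_yes (hiff.2 fun h' => Nat.not_even_iff_odd.2 h'.1 h) hdet).2 h⟩
  exact fun h' => by have := h.2; have := h'.2; omega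

end Cfsg.Agent.S2725
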