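import Cfsg.Statements.S2727
import Cfsg.Agent.Lib.Classical.OrthAut.Forms
import Cfsg.Agent.S0791
-- import your own Cfsg.Agent.* helpers here

set_option autoImplicit false
open Cfsg

namespace Cfsg.Agent.S2727

/-- Let T = PΩ⁻_{2m+2}(F) with m ≥ 3 and |F| = q odd (form with anisotropic binary part). The image of the special orthogonal group in Aut(T) contains the inner automorphism group T with index 2 when m is even and q ≡ 3 (mod 4), and coincides with it otherwise (the index is 2 exactly when the discriminant of the form is a square). -/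
theorem result {F : Type*} [Field F] [Fintype F] (hodd : Odd (Fintype.card F)) {m : ℕ} (hm : 3 ≤ m) (a b : F) (hab : (∀ z₁ z₂ : F, z₁ ^ 2 + a * z₁ * z₂ + b * z₂ ^ 2 = 0 → z₁ = 0 ∧ z₂ = 0)) :
    ((Even m ∧ Fintype.card F % 4 = 3) → (Cfsg.Inn (Cfsg.POmega F (Cfsg.quadFormMinus m F a b))).relIndex (Cfsg.psoAut F (Cfsg.quadFormMinus m F a b)) = 2) ∧ (¬ (Even m ∧ Fintype.card F % 4 = 3) → (Cfsg.Inn (Cfsg.POmega F (Cfsg.quadFormMinus m F a b))).relIndex (Cfsg.psoAut F (Cfsg.quadFormMinus m F a b)) = 1) := by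
  obtain ⟨D, -⟩ := Cfsg.Lib.Classical.OrthAut.minusData (m := m) hodd hm hab
  have hiff : (∃ g : ↥(Cfsg.isometryGroup F (Cfsg.quadFormMinus m F a b)), g ∈ Cfsg.Omega F (Cfsg.quadFormMinus m F a b) ∧
      ((g : Matrix.GeneralLinearGroup ((Fin m ⊕ Fin m) ⊕ Fin 2) F) : Matrix ((Fin m ⊕ Fin m) ⊕ Fin 2) ((Fin m ⊕ Fin m) ⊕ Fin 2) F) = -1) ↔
        Even m ∧ Fintype.card F % 4 = 3 := by
    have h := Cfsg.Agent.S0791.result (F := F) rfl hodd (m + 1) (by omega) a b hab
    rw [(Cfsg.Lib.Classical.OrthAut.pow_mod_four (k := m + 1) hodd).2, Nat.odd_add_one, Nat.not_odd_iff_even] at h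
    exact h
  exact ⟨fun h => D.relIndex_two (hiff.2 h), fun h => D.relIndex_one fun e => h (hiff.1 e)⟩

end Cfsg.Agent.S2727
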