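import Cfsg.Statements.S2728
import Cfsg.Agent.Lib.Classical.OrthAut.Forms
import Cfsg.Agent.S0791
-- import your own Cfsg.Agent.* helpers here

set_option autoImplicit false
open Cfsg

namespace Cfsg.Agent.S2728

/-- Let T = PΩ⁻_{2m+2}(F) with m ≥ 3 and |F| = q odd (form with anisotropic binary part). The image G̃ of the conformal orthogonal group in Aut(T), taken modulo the inner automorphism group T, is dihedral of order 8 when m is even and q ≡ 3 (mod 4), and elementary abelian of order 4 otherwise. -/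
theorem result {F : Type*} [Field F] [Fintype F] (hodd : Odd (Fintype.card F)) {m : ℕ} (hm : 3 ≤ m) (a b : F) (hab : (∀ z₁ z₂ : F, z₁ ^ 2 + a * z₁ * z₂ + b * z₂ ^ 2 = 0 → z₁ = 0 ∧ z₂ = 0)) :
    ((Even m ∧ Fintype.card F % 4 = 3) → (∃ φ : ↥(Cfsg.pgoAut F (Cfsg.quadFormMinus m F a b)) →* DihedralGroup 4, Function.Surjective φ ∧ φ.ker = (Cfsg.Inn (Cfsg.POmega F (Cfsg.quadFormMinus m F a b))).subgroupOf (Cfsg.pgoAut F (Cfsg.quadFormMinus m F a b)))) ∧ (¬ (Even m ∧ Fintype.card F % 4 = 3) → (∃ φ : ↥(Cfsg.pgoAut F (Cfsg.quadFormMinus m F a b)) →* Multiplicative (ZMod 2 × ZMod 2), Function.Surjective φ ∧ φ.ker = (Cfsg.Inn (Cfsg.POmega F (Cfsg.quadFormMinus m F a b))).subgroupOf (Cfsg.pgoAut F (Cfsg.quadFormMinus m F a b)))) := by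
  obtain ⟨D, -⟩ := Cfsg.Lib.Classical.OrthAut.minusData (m := m) hodd hm hab
  have hiff : (∃ g : ↥(Cfsg.isometryGroup F (Cfsg.quadFormMinus m F a b)), g ∈ Cfsg.Omega F (Cfsg.quadFormMinus m F a b) ∧
      ((g : Matrix.GeneralLinearGroup ((Fin m ⊕ Fin m) ⊕ Fin 2) F) : Matrix ((Fin m ⊕ Fin m) ⊕ Fin 2) ((Fin m ⊕ Fin m) ⊕ Fin 2) F) = -1) ↔
        Even m ∧ Fintype.card F % 4 = 3 := by
    have h := Cfsg.Agent.S0791.result (F := F) rfl hodd (m + 1) (by omega) a b hab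
    rw [(Cfsg.Lib.Classical.OrthAut.pow_mod_four (k := m + 1) hodd).2, Nat.odd_add_one, Nat.not_odd_iff_even] at h
    exact h
  exact ⟨fun h => D.dihedral (hiff.2 h), fun h => D.vierer_inn fun e => h (hiff.1 e)⟩

end Cfsg.Agent.S2728
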