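import Cfsg.Statements.S2738
import Cfsg.Agent.Lib.Classical.SLGroup
import Cfsg.Agent.Lib.Classical.LinearOrders
-- import your own Cfsg.Agent.* helpers here

set_option autoImplicit false
open Cfsg
open scoped commutatorElement

namespace Cfsg.Agent.S2738

/-- The special linear group SL(3, 4) has centre of order 3 and does not split over it: no subgroup is a complement to the centre (so SL(3, 4) is a non-split central extension of PSL(3, 4) by a group of order 3). -/
theorem result (F : Type*) [Field F] [Fintype F] (hF : Fintype.card F = 4) : Nat.card ↥(Subgroup.center (Matrix.SpecialLinearGroup (Fin 3) F)) = 3 ∧ ¬ ∃ K : Subgroup (Matrix.SpecialLinearGroup (Fin 3) F), Subgroup.IsComplement' (Subgroup.center (Matrix.SpecialLinearGroup (Fin 3) F)) K := by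
  classical
  have hc : Nat.card ↥(Subgroup.center (Matrix.SpecialLinearGroup (Fin 3) F)) = 3 := by
    rw [Cfsg.Lib.Classical.LinearOrders.card_center_sl (by norm_num), hF]; rfl
  refine ⟨hc, fun ⟨K, hK⟩ => ?_⟩
  have hperf := Cfsg.Lib.Classical.SLGroup.commutator_sl_eq_top (ι := Fin 3) (F := F) (Or.inl (by simp))
  set Z := Subgroup.center (Matrix.SpecialLinearGroup (Fin 3) F)
  have hle : commutator (Matrix.SpecialLinearGroup (Fin 3) F) ≤ K := by
    rw [commutator_def, Subgroup.commutator_le]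
    rintro g - h -
    obtain ⟨⟨a, k⟩, rfl⟩ := hK.2 g
    obtain ⟨⟨b, l⟩, rfl⟩ := hK.2 h
    have ha : ∀ x, a.1 * x = x * a.1 := fun x => (Subgroup.mem_center_iff.1 a.2 x).symm
    have hb : ∀ x, b.1 * x = x * b.1 := fun x => (Subgroup.mem_center_iff.1 b.2 x).symm
    have e : ⁅a.1 * k.1, b.1 * l.1⁆ = ⁅k.1, l.1⁆ := by
      simp only [commutatorElement_def, mul_inv_rev]
      calc a.1 * k.1 * (b.1 * l.1) * (k.1⁻¹ * a.1⁻¹) * (l.1⁻¹ * b.1⁻¹)
          = a.1 * (k.1 * b.1) * l.1 * k.1⁻¹ * a.1⁻¹ * l.1⁻¹ * b.1⁻¹ := by group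
        _ = a.1 * (b.1 * (k.1 * l.1 * k.1⁻¹)) * a.1⁻¹ * l.1⁻¹ * b.1⁻¹ := by rw [← hb]; group
        _ = b.1 * (k.1 * l.1 * k.1⁻¹) * l.1⁻¹ * b.1⁻¹ := by rw [ha]; group
        _ = b.1 * (k.1 * l.1 * k.1⁻¹ * l.1⁻¹) * b.1⁻¹ := by group
        _ = _ := by rw [hb]; group
    rw [e, commutatorElement_def]
    exact mul_mem (mul_mem (mul_mem k.2 l.2) (inv_mem k.2)) (inv_mem l.2)
  rw [hperf, top_le_iff] at hle
  have hd := hK.disjoint
  rw [hle, disjoint_top] at hd
  rw [hd, Subgroup.card_bot] at hc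
  omega

end Cfsg.Agent.S2738
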