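import Cfsg.Statements.S2739
import Cfsg.Agent.Lib.Classical.Thompson.PSL3
import Cfsg.Agent.Lib.Classical.Thompson.ThreeEigen
-- import your own Cfsg.Agent.* helpers here

set_option autoImplicit false
open scoped Pointwise
open Cfsg

namespace Cfsg.Agent.S2739

/-- In the projective special linear group PSL(3, 4) all subgroups of order 3 are conjugate. -/
theorem result (F : Type*) [Field F] [Fintype F] (hF : Fintype.card F = 4) (X Y : Subgroup (Matrix.ProjectiveSpecialLinearGroup (Fin 3) F)) (hX : Nat.card ↥X = 3) (hY : Nat.card ↥Y = 3) : ∃ g : Matrix.ProjectiveSpecialLinearGroup (Fin 3) F, MulAut.conj g • X = Y := by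
  classical
  set π : Matrix.SpecialLinearGroup (Fin 3) F →* Matrix.ProjectiveSpecialLinearGroup (Fin 3) F :=
    QuotientGroup.mk' (Subgroup.center (Matrix.SpecialLinearGroup (Fin 3) F)) with hπ
  obtain ⟨ζ, hζ⟩ := IsCyclic.exists_ofOrder_eq_natCard (α := Fˣ)
  rw [Nat.card_eq_fintype_card, Fintype.card_units, hF] at hζ
  have hω3 : (ζ : F) ^ 3 = 1 := by
    have : ζ ^ 3 = 1 := by have := pow_orderOf_eq_one ζ; rwa [hζ] at this
    simpa using congrArg Units.val this
  have hω1 : (ζ : F) ≠ 1 := by
    intro h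
    have : ζ = 1 := Units.ext h
    rw [this, orderOf_one] at hζ; omega
  have hω0 := ζ.ne_zero
  have hsum : (ζ : F) ^ 2 + ζ + 1 = 0 := by
    have : ((ζ : F) - 1) * ((ζ : F) ^ 2 + ζ + 1) = 0 := by linear_combination hω3
    exact (mul_eq_zero.1 this).resolve_left (sub_ne_zero.2 hω1)
  set w : F := (ζ : F)
  have h12 : (1 : F) ≠ w := Ne.symm hω1
  have h13 : (1 : F) ≠ w ^ 2 := fun h => hω1 (by linear_combination hω3 + w * h)
  have h23 : w ≠ w ^ 2 := fun h => hω1 (by
    have := mul_left_cancel₀ hω0 (show w * 1 = w * w by linear_combination h)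
    exact this.symm)
  let D : Matrix.SpecialLinearGroup (Fin 3) F :=
    ⟨Matrix.diagonal ![1, w, w ^ 2], by
      rw [Matrix.det_diagonal]; simp [Fin.prod_univ_three]; linear_combination hω3⟩
  have key : ∀ z : Matrix.ProjectiveSpecialLinearGroup (Fin 3) F, z ^ 3 = 1 → z ≠ 1 →
      ∃ u, z = u * π D * u⁻¹ := by
    intro z hz hz1
    obtain ⟨g, rfl⟩ := QuotientGroup.mk'_surjective (Subgroup.center (Matrix.SpecialLinearGroup (Fin 3) F)) z
    set M := (g : Matrix (Fin 3) (Fin 3) F) with hM
    have hns : ∀ c : F, M ≠ Matrix.diagonal fun _ => c := by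
      intro c hc
      apply hz1
      rw [← MonoidHom.mem_ker, QuotientGroup.ker_mk', Matrix.SpecialLinearGroup.mem_center_iff]
      refine ⟨c, ?_, hc.symm⟩
      have h := g.2
      rw [← hM, hc, Matrix.det_diagonal] at h
      simpa using h
    have hcen : g ^ 3 ∈ Subgroup.center (Matrix.SpecialLinearGroup (Fin 3) F) := by
      rw [← QuotientGroup.ker_mk' (Subgroup.center _), MonoidHom.mem_ker, map_pow]; exact hz
    obtain ⟨r, hr, hrg⟩ := Matrix.SpecialLinearGroup.mem_center_iff.1 hcen
    rw [Matrix.SpecialLinearGroup.coe_pow, ← hM, Matrix.scalar_apply] at hrg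
    obtain ⟨P, N, hP, hMP, hN⟩ := Thompson.exists_entry M hns
    have hPu : IsUnit P.det := isUnit_iff_ne_zero.2 hP
    have hdM : M.det = 1 := g.2
    have hdN : N.det = 1 := by
      have := congrArg Matrix.det hMP; rw [Matrix.det_mul, Matrix.det_mul, hdM, one_mul] at this
      exact mul_left_cancel₀ hP (by rw [mul_one]; exact this.symm)
    have hN3 : N * (N * N) = Matrix.diagonal fun _ => r := by
      have e : M * (M * M) * P = P * (N * (N * N)) := by
        calc M * (M * M) * P = M * (M * (M * P)) := by simp [Matrix.mul_assoc]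
          _ = M * (M * (P * N)) := by rw [hMP]
          _ = M * ((M * P) * N) := by simp [Matrix.mul_assoc]
          _ = M * ((P * N) * N) := by rw [hMP]
          _ = (M * P) * (N * N) := by simp [Matrix.mul_assoc]
          _ = P * (N * (N * N)) := by rw [hMP]; simp [Matrix.mul_assoc]
      rw [show M * (M * M) = M ^ 3 by rw [pow_succ', pow_two], ← hrg] at e
      rw [← Matrix.smul_one_eq_diagonal, Matrix.smul_mul, Matrix.one_mul] at e
      calc N * (N * N) = P⁻¹ * (P * (N * (N * N))) := by
            rw [← Matrix.mul_assoc P⁻¹, Matrix.nonsing_inv_mul P hPu, Matrix.one_mul]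
        _ = _ := by rw [← e, Matrix.mul_smul, Matrix.nonsing_inv_mul P hPu, Matrix.smul_one_eq_diagonal]
    have heig : ∀ k : Fin 3, ∃ v : Fin 3 → F, v ≠ 0 ∧ N.mulVec v = ![1, w, w ^ 2] k • v := by
      intro k
      exact ThreeEigen.exists_eigen N hdN (by
        intro c hc
        exact hN (by rw [hc]; simp)) r hN3 w hω3 hω1 hF k
    choose v hv0 hv using heig
    have hli : LinearIndependent F v :=
      Module.End.eigenvectors_linearIndependent' (Matrix.mulVecLin N) ![1, w, w ^ 2]
        (by
          intro i j hij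
          fin_cases i <;> fin_cases j <;> simp [h12, h13, h23, h12.symm, h13.symm, h23.symm] at hij ⊢)
        v (fun k => Module.End.hasEigenvector_iff.2 ⟨by
          rw [Module.End.mem_eigenspace_iff]; exact hv k, hv0 k⟩)
    set Q : Matrix (Fin 3) (Fin 3) F := (Matrix.of v).transpose with hQ
    have hQd : Q.det ≠ 0 := by
      rw [hQ, Matrix.det_transpose]
      exact isUnit_iff_ne_zero.1 ((Matrix.isUnit_iff_isUnit_det _).1
        (Matrix.linearIndependent_rows_iff_isUnit.1 hli))
    have hNQ : N * Q = Q * (D : Matrix (Fin 3) (Fin 3) F) := by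
      ext i j
      have := congrFun (hv j) i
      show _ = (Q * Matrix.diagonal ![1, w, w ^ 2]) i j
      rw [Matrix.mul_diagonal]
      simp only [Matrix.mulVec, dotProduct, Pi.smul_apply, smul_eq_mul] at this
      simp only [hQ, Matrix.mul_apply, Matrix.transpose_apply, Matrix.of_apply]
      rw [this, mul_comm]
    obtain ⟨u, hu⟩ := Thompson.closed_diag D _ rfl (P * Q) g (by rw [Matrix.det_mul]; exact mul_ne_zero hP hQd)
      (by rw [← hM, ← Matrix.mul_assoc, hMP, Matrix.mul_assoc, hNQ, Matrix.mul_assoc])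
    exact ⟨π u, by rw [hu]; simp [hπ]⟩
  have hgen : ∀ Z : Subgroup (Matrix.ProjectiveSpecialLinearGroup (Fin 3) F), Nat.card ↥Z = 3 →
      ∃ u : Matrix.ProjectiveSpecialLinearGroup (Fin 3) F,
        MulAut.conj u • Subgroup.zpowers (π D : Matrix.ProjectiveSpecialLinearGroup (Fin 3) F) = Z := by
    intro Z hZ
    have hZb : Z ≠ ⊥ := fun h => by rw [h, Subgroup.card_bot] at hZ; omega
    obtain ⟨z, hz, hz1⟩ := (Subgroup.bot_or_exists_ne_one Z).resolve_left hZb
    have hord : orderOf z = 3 := by
      have hd : orderOf z ∣ 3 := by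
        have h := orderOf_dvd_natCard (⟨z, hz⟩ : Z)
        rwa [hZ, ← Subgroup.orderOf_coe] at h
      rcases (Nat.dvd_prime Nat.prime_three).1 hd with h | h
      · exact absurd (orderOf_eq_one_iff.1 h) hz1
      · exact h
    obtain ⟨u, hu⟩ := key z (orderOf_dvd_iff_pow_eq_one.1 (by rw [hord])) hz1
    refine ⟨u, Subgroup.eq_of_le_of_card_ge ?_ ?_⟩
    · show (Subgroup.zpowers (π D)).map (MulAut.conj u).toMonoidHom ≤ Z
      rw [MonoidHom.map_zpowers, Subgroup.zpowers_le]
      show u * π D * u⁻¹ ∈ Z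
      rw [← hu]; exact hz
    · have e : MulAut.conj u • Subgroup.zpowers (π D) = Subgroup.zpowers z := by
        show (Subgroup.zpowers (π D)).map (MulAut.conj u).toMonoidHom = _
        rw [MonoidHom.map_zpowers, hu]; rfl
      rw [e, Nat.card_zpowers, hord, hZ]
  obtain ⟨u, hu⟩ := hgen X hX
  obtain ⟨v, hv⟩ := hgen Y hY
  exact ⟨v * u⁻¹, by rw [← hu, ← hv, map_mul, smul_smul, mul_assoc, ← map_mul, inv_mul_cancel, map_one, mul_one]⟩

end Cfsg.Agent.S2739
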