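import Cfsg.Statements.S2788
import Cfsg.Agent.Lib.PLocal.SL2FixedIndex

set_option autoImplicit false
open Cfsg

namespace Cfsg.Agent.S2788

/-- S2788 -/
theorem result {G : Type*} [Group G] [Finite G] {p : ℕ} [Fact p.Prime] (V H : Subgroup G) (hV : Cfsg.IsElementaryAbelian p V) (hHV : H ≤ Subgroup.normalizer (V : Set G)) (hf : H ⊓ Subgroup.centralizer (V : Set G) = ⊥) {F : Type*} [Field F] [Fintype F] (n : ℕ) (hF : Fintype.card F = p ^ n) (hiso : Nonempty (↥H ≃* Matrix.SpecialLinearGroup (Fin 2) F)) (S : Sylow p ↥H) (T : Subgroup G) (hT : T = ((S : Subgroup ↥H).map H.subtype)) (A : Subgroup G) (hA : A ≤ T) (hA3 : 3 ≤ Nat.card A) (hquad : ⁅⁅V, A⁆, A⁆ = ⊥) : ∀ a ∈ A, a ≠ 1 → p ^ n ≤ ((V ⊓ Subgroup.centralizer ({a} : Set G))).relIndex V := by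
  obtain ⟨e⟩ := hiso
  intro a ha ha1
  subst hT
  obtain ⟨x, hx, rfl⟩ := hA ha
  obtain ⟨k, hk⟩ := S.isPGroup' ⟨x, hx⟩
  exact Cfsg.Lib.PLocal.SL2FixedIndex.index_bound V H hV hHV hf n hF e x.2
    (show ((x : ↥H) : G) ^ p ^ k = 1 by simpa using congrArg (fun y : (S : Subgroup ↥H) => ((y : ↥H) : G)) hk) ha1

end Cfsg.Agent.S2788
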