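import Cfsg.Statements.S2807
import Cfsg.Agent.Lib.Transfer.GroupHyperfocal

set_option autoImplicit false
open Cfsg

namespace Cfsg.Agent.S2807

open scoped commutatorElement
open Subgroup Cfsg.FusionSystem Cfsg.Lib.Fusion

/-- Let S be a Sylow p-subgroup of the finite group G. If S ∩ G' ≠ S ∩ (N_G(S))' (derived subgroups), then the wreath product Z_p ≀ Z_p — realised as a Sylow p-subgroup of the symmetric group of degree p² — is a homomorphic image of S. -/
theorem result {G : Type*} [Group G] [Finite G] {p : ℕ} [Fact p.Prime] (S : Sylow p G) (h : (S : Subgroup G) ⊓ commutator G ≠ (S : Subgroup G) ⊓ ⁅Subgroup.normalizer ((S : Subgroup G) : Set G), Subgroup.normalizer ((S : Subgroup G) : Set G)⁆) : ∃ (P : Sylow p (Equiv.Perm (Fin (p ^ 2)))) (f : ↥(S : Subgroup G) →* ↥(P : Subgroup (Equiv.Perm (Fin (p ^ 2))))), Function.Surjective f := by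
  by_contra hno
  refine h ?_
  set F := groupFusionSystem (S : Subgroup G)
  have hsat : F.IsSaturated p := saturated_group _
  set M := normalizer ((S : Subgroup G) : Set G)
  set E := normalizerExt F S (normalizerIn S S) le_rfl le_rfl
  have hE : F.IsNormalizerSystem S E := isNormalizerSystem_normalizerExt le_rfl
  have hfoc : E.focalSubgroup = F.focalSubgroup := by
    by_contra hne
    obtain ⟨W, f, hf⟩ := exists_wreath_of_focal_ne S.isPGroup' hsat E hE hne
    exact hno ⟨W, f, hf⟩
  refine le_antisymm (le_inf inf_le_left ?_) (inf_le_inf_left _ (Subgroup.commutator_mono le_top le_top))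
  rw [inf_comm, Subgroup.commutator_inf_eq_focalSubgroup]
  have h1 : (S : Subgroup G).focalSubgroup ≤ F.focalSubgroup := by
    rw [Subgroup.focalSubgroup_def, Subgroup.closure_le]
    rintro g ⟨hg, x, hx, v, rfl⟩
    have hconj : v * x⁻¹ * v⁻¹ ∈ (S : Subgroup G) := by
      have h1 := mul_mem (inv_mem hx) hg
      rwa [commutatorElement_def, mul_assoc, mul_assoc, inv_mul_cancel_left, ← mul_assoc] at h1
    have h2 := mem_focal (F := F) (mor_group_conj (P := zpowers x⁻¹) (c := v)
      (zpowers_le.2 (inv_mem hx)) (fun y hy => by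
        obtain ⟨n, rfl⟩ := mem_zpowers_iff.1 hy
        rw [← conj_zpow]
        exact zpow_mem hconj n)) (mem_zpowers x⁻¹)
    simpa [commutatorElement_def, mul_assoc] using h2
  refine h1.trans (hfoc ▸ focal_le_iff.2 fun P f hf x hx => ?_)
  obtain ⟨hPle, -, k, hk, hke, hkS⟩ := mor_normalizerExt_iff.1 hf
  obtain ⟨-, c, hc⟩ := mor_group_iff.1 hk
  have hcM : c ∈ M := by
    refine mem_normalizer_fintype fun y hy => ?_
    have hm := mem_img_of_mem (f := k) hy
    rw [hkS] at hm
    rwa [(hc y (mem_sup_right hy)).1] at hm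
  rw [← hke x hx, (hc x (mem_sup_left hx)).1]
  have hxS : x ∈ (S : Subgroup G) := (hPle hx).1
  have hxM : x ∈ M := le_normalizer hxS
  have := Subgroup.commutator_mem_commutator (H₁ := M) (H₂ := M) (inv_mem hxM) hcM
  simpa [commutatorElement_def, mul_assoc] using this

end Cfsg.Agent.S2807
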