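import Cfsg.Statements.S3085
-- import your own Cfsg.Agent.* helpers here

set_option autoImplicit false
open Cfsg

namespace Cfsg.Agent.S3085

section

variable {Q : Type*} [Group Q] [Finite Q]

omit [Finite Q] in
theorem exists_z (hQ : Cfsg.IsExtraspecial 2 Q) :
    ∃ z : Q, z ≠ 1 ∧ z * z = 1 ∧ (∀ x, Commute z x) ∧
      (∀ x, x ∈ Subgroup.center Q ↔ x = 1 ∨ x = z) ∧
      (∀ x y : Q, Commute x y ∨ x * y = y * x * z) ∧ ∀ x : Q, x * x = 1 ∨ x * x = z := by
  obtain ⟨⟨_, _, hcomm⟩, hc⟩ := hQ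
  obtain ⟨a, b, hab, huniv⟩ := Nat.card_eq_two_iff.1 hc
  obtain ⟨z, hz, hz1⟩ : ∃ z : Subgroup.center Q, (∀ c, c = 1 ∨ c = z) ∧ z ≠ 1 := by
    have hall : ∀ c, c = a ∨ c = b := fun c => by
      have := Set.mem_univ c
      rw [← huniv] at this
      simpa using this
    rcases hall 1 with h | h
    · exact ⟨b, fun c => by rw [h]; exact hall c, fun e => hab (by rw [← h, e])⟩
    · exact ⟨a, fun c => by rw [h]; exact (hall c).symm, fun e => hab (by rw [← h, e])⟩
  have hzc : ∀ x : Q, Commute (z : Q) x := fun x => (Subgroup.mem_center_iff.1 z.2 x).symm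
  have hmem : ∀ x : Q, x ∈ Subgroup.center Q ↔ x = 1 ∨ x = (z : Q) := fun x => by
    constructor
    · intro hx
      rcases hz ⟨x, hx⟩ with h | h
      · exact Or.inl (congrArg Subtype.val h)
      · exact Or.inr (congrArg Subtype.val h)
    · rintro (rfl | rfl)
      · exact one_mem _
      · exact z.2
  have hzz : (z : Q) * z = 1 := by
    rcases (hmem _).1 (mul_mem z.2 z.2) with h | h
    · exact h
    · exact absurd (Subtype.ext (mul_eq_left.1 h) : z = 1) hz1
  have hcom : ∀ x y : Q, Commute x y ∨ x * y = y * x * z := fun x y => by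
    have hm : x⁻¹ * y⁻¹ * x * y ∈ Subgroup.center Q := by
      rw [← hcomm, commutator_def]
      have := Subgroup.commutator_mem_commutator (Subgroup.mem_top x⁻¹) (Subgroup.mem_top y⁻¹)
      simpa [commutatorElement_def, mul_assoc] using this
    rcases (hmem _).1 hm with h | h
    · left
      calc x * y = y * x * (x⁻¹ * y⁻¹ * x * y) := by group
        _ = y * x := by rw [h, mul_one]
    · right
      calc x * y = y * x * (x⁻¹ * y⁻¹ * x * y) := by group
        _ = y * x * z := by rw [h]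
  refine ⟨z, fun h => hz1 (Subtype.ext h), hzz, hzc, hmem, hcom, fun x => (hmem _).1 ?_⟩
  rw [Subgroup.mem_center_iff]
  intro y
  rcases hcom y x with h | h
  · exact (h.mul_right h)
  · calc y * (x * x) = y * x * x := (mul_assoc _ _ _).symm
      _ = x * y * z * x := by rw [h]
      _ = x * (y * x) * z := by rw [mul_assoc (x * y), (hzc x).eq]; group
      _ = x * (x * y * z) * z := by rw [h]
      _ = x * x * y * (z * z) := by group
      _ = x * x * y := by rw [hzz, mul_one]

end

/-- The data extracted from an extraspecial group. -/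
structure Extra (Q : Type*) [Group Q] where
  z : Q
  ne_one : z ≠ 1
  sq : z * z = 1
  central : ∀ x, Commute z x
  mem : ∀ x, x ∈ Subgroup.center Q ↔ x = 1 ∨ x = z
  comm : ∀ x y : Q, Commute x y ∨ x * y = y * x * z
  square : ∀ x : Q, x * x = 1 ∨ x * x = z

namespace Extra

variable {Q : Type*} [Group Q] [Finite Q] (D : Extra Q)

omit [Finite Q] in
theorem ncomm {x y : Q} (h : ¬ Commute x y) : x * y = y * x * D.z := (D.comm x y).resolve_left h

omit [Finite Q] in
theorem commute_z {x : Q} (u : Q) (h : x = 1 ∨ x = D.z) : Commute x u := by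
  rcases h with rfl | rfl
  · exact Commute.one_left u
  · exact D.central u

omit [Finite Q] in
include D in
theorem commute_mul (x y u : Q) : Commute (x * y) u ↔ (Commute x u ↔ Commute y u) := by
  by_cases hx : Commute x u <;> by_cases hy : Commute y u
  · exact iff_of_true (hx.mul_left hy) (iff_of_true hx hy)
  · refine iff_of_false (fun h => hy ?_) (fun h => hy (h.1 hx))
    have := hx.inv_left.mul_left h
    rwa [inv_mul_cancel_left] at this
  · refine iff_of_false (fun h => hx ?_) (fun h => hx (h.2 hy))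
    have := h.mul_left hy.inv_left
    rwa [mul_inv_cancel_right] at this
  · refine iff_of_true ?_ (iff_of_false hx hy)
    show x * y * u = u * (x * y)
    rw [mul_assoc, D.ncomm hy, ← mul_assoc, ← mul_assoc, D.ncomm hx,
      mul_assoc (u * x) D.z y, (D.central y).eq, ← mul_assoc, mul_assoc (u * x * y), D.sq,
      mul_one, mul_assoc]

include D in
theorem exists_inter (E : Subgroup Q) (f : Q) :
    Nat.card E ≤ 2 * Nat.card {e : Q // e ∈ E ∧ Commute e f} := by
  classical
  have := Fintype.ofFinite Q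
  rw [Nat.card_eq_fintype_card, Nat.card_eq_fintype_card, Fintype.card_subtype,
    Fintype.card_subtype, two_mul,
    ← Finset.card_filter_add_card_filter_not (s := Finset.univ.filter (· ∈ E)) (Commute · f),
    Finset.filter_filter, Finset.filter_filter]
  refine Nat.add_le_add_left ?_ _
  by_cases hne : ∃ a, a ∈ E ∧ ¬ Commute a f
  · obtain ⟨a, ha, hna⟩ := hne
    refine Finset.card_le_card_of_injOn (a * ·) (fun b hb => ?_) fun b _ c _ h => mul_left_cancel h
    simp only [Finset.coe_filter, Finset.mem_univ, true_and, Set.mem_ofPred_eq] at hb ⊢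
    exact ⟨mul_mem ha hb.1, (D.commute_mul a b f).2 (iff_of_false hna hb.2)⟩
  · push Not at hne
    rw [Finset.filter_false_of_mem fun b _ h => h.2 (hne b h.1)]
    simp

omit [Finite Q] in
theorem ne_central {x : Q} (h : x ∉ Subgroup.center Q) : ∃ u, ¬ Commute x u := by
  by_contra hc
  push Not at hc
  exact h (Subgroup.mem_center_iff.2 fun u => (hc u).symm)

include D in
theorem exists_outside {E : Subgroup Q} {fs : List Q} (h : 2 ^ fs.length * 2 < Nat.card E) :
    ∃ e ∈ E, (∀ f ∈ fs, Commute e f) ∧ ∃ u, ¬ Commute e u := by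
  classical
  induction fs generalizing E with
  | nil =>
    obtain ⟨e, he⟩ : ∃ e : E, (e : Q) ≠ 1 ∧ (e : Q) ≠ D.z := by
      by_contra hc
      push Not at hc
      have : Nat.card E ≤ Nat.card ({1, D.z} : Set Q) := Nat.card_le_card_of_injective
        (fun e : E => (⟨e, by
          by_cases h1 : (e : Q) = 1
          · exact Or.inl h1
          · exact Or.inr (hc e h1)⟩ : ({1, D.z} : Set Q)))
        fun a b hab => Subtype.ext (congrArg (fun w : ({1, D.z} : Set Q) => (w : Q)) hab)
      rw [Nat.card_coe_set_eq, Set.ncard_pair D.ne_one.symm] at this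
      simp at h
      omega
    exact ⟨e, e.2, by simp, ne_central fun hm => by rcases (D.mem _).1 hm with h1 | h1
                                                    exacts [he.1 h1, he.2 h1]⟩
  | cons f fs ih =>
    have hc : Nat.card {e : Q // e ∈ E ∧ Commute e f} =
        Nat.card ↥(E ⊓ Subgroup.centralizer {f}) := by
      refine Nat.card_congr (Equiv.subtypeEquivRight fun e => ?_)
      rw [Subgroup.mem_inf, Subgroup.mem_centralizer_singleton_iff]
      rfl
    have := D.exists_inter E f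
    rw [hc] at this
    rw [List.length_cons, pow_succ] at h
    obtain ⟨e, he, hfs, hu⟩ := ih (E := E ⊓ Subgroup.centralizer {f}) (by omega)
    refine ⟨e, he.1, fun g hg => ?_, hu⟩
    rcases List.mem_cons.1 hg with rfl | hg
    · exact Subgroup.mem_centralizer_singleton_iff.1 he.2
    · exact hfs g hg

/-- A transvection. -/
noncomputable def transvection {v : Q} (hv : v * v = D.z) : MulAut Q := by
  classical
  let φ : Q →* Q := MonoidHom.mk' (fun x => if Commute x v then x else x * v) fun x y => by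
    by_cases hx : Commute x v <;> by_cases hy : Commute y v
    · rw [if_pos ((D.commute_mul x y v).2 (iff_of_true hx hy)), if_pos hx, if_pos hy]
    · rw [if_neg (mt (D.commute_mul x y v).1 fun h => hy (h.1 hx)), if_pos hx, if_neg hy, mul_assoc]
    · rw [if_neg (mt (D.commute_mul x y v).1 fun h => hx (h.2 hy)), if_neg hx, if_pos hy,
        mul_assoc, mul_assoc, hy.eq]
    · rw [if_pos ((D.commute_mul x y v).2 (iff_of_false hx hy)), if_neg hx, if_neg hy]
      symm
      calc x * v * (y * v) = x * (v * y) * v := by group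
        _ = x * (y * v * D.z) * v := by rw [D.ncomm fun h => hy h.symm]
        _ = x * y * (v * (D.z * v)) := by group
        _ = x * y := by rw [(D.central v).eq, ← mul_assoc v, hv, D.sq, mul_one]
  refine MulEquiv.ofBijective φ (Finite.injective_iff_bijective.1 ?_)
  rw [injective_iff_map_eq_one]
  intro x hx
  simp only [φ, MonoidHom.mk'_apply] at hx
  by_cases h : Commute x v
  · rwa [if_pos h] at hx
  · rw [if_neg h] at hx
    exact absurd ((eq_inv_of_mul_eq_one_left hx) ▸ (Commute.refl v).inv_left) h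

theorem transvection_apply {v : Q} (hv : v * v = D.z) (x : Q) [Decidable (Commute x v)] :
    D.transvection hv x = if Commute x v then x else x * v := by
  simp only [transvection, MulEquiv.ofBijective_apply, MonoidHom.mk'_apply]
  by_cases h : Commute x v <;> simp [h]

theorem transvection_pos {v : Q} (hv : v * v = D.z) {x : Q} (h : Commute x v) :
    D.transvection hv x = x := by
  classical
  rw [transvection_apply, if_pos h]

theorem transvection_neg {v : Q} (hv : v * v = D.z) {x : Q} (h : ¬ Commute x v) :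
    D.transvection hv x = x * v := by
  classical
  rw [transvection_apply, if_neg h]

theorem transvection_sq {v : Q} (hv : v * v = D.z) :
    D.transvection hv * D.transvection hv = MulAut.conj v := by
  refine MulEquiv.ext fun x => ?_
  rw [MulAut.mul_apply, MulAut.conj_apply]
  by_cases h : Commute x v
  · rw [D.transvection_pos hv h, D.transvection_pos hv h, h.symm.eq, mul_inv_cancel_right]
  · have h2 : ¬ Commute (x * v) v := fun h' => h (((D.commute_mul x v v).1 h').2 (Commute.refl v))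
    rw [D.transvection_neg hv h, D.transvection_neg hv h2, D.ncomm fun h' => h h'.symm, mul_assoc x,
      hv, mul_assoc (x * v), (D.central v⁻¹).eq, ← mul_assoc, mul_inv_cancel_right]

theorem transvection_comm {v w : Q} (hv : v * v = D.z) (hw : w * w = D.z) (h : Commute v w) :
    D.transvection hv * D.transvection hw = D.transvection hw * D.transvection hv := by
  refine MulEquiv.ext fun x => ?_
  have key : ∀ {a b : Q}, Commute a b → (Commute (x * a) b ↔ Commute x b) := fun {a b} hab => by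
    rw [D.commute_mul x a b]
    exact ⟨fun i => i.2 hab, fun i => iff_of_true i hab⟩
  rw [MulAut.mul_apply, MulAut.mul_apply]
  by_cases hxv : Commute x v <;> by_cases hxw : Commute x w
  · simp only [D.transvection_pos hw hxw, D.transvection_pos hv hxv]
  · rw [D.transvection_neg hw hxw, D.transvection_pos hv hxv,
      D.transvection_pos hv ((key h.symm).2 hxv), D.transvection_neg hw hxw]
  · rw [D.transvection_pos hw hxw, D.transvection_neg hv hxv,
      D.transvection_pos hw ((key h).2 hxw)]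
  · rw [D.transvection_neg hw hxw, D.transvection_neg hv hxv,
      D.transvection_neg hv (mt (key h.symm).1 hxv), D.transvection_neg hw (mt (key h).1 hxw),
      mul_assoc, mul_assoc, h.eq]

omit [Finite Q] in
theorem conj_eq_iff {a b : Q} (h : MulAut.conj a = MulAut.conj b) (u : Q) :
    Commute a u ↔ Commute b u := by
  have := DFunLike.congr_fun h u
  simp only [MulAut.conj_apply] at this
  simp only [Commute, SemiconjBy]
  rw [← mul_inv_eq_iff_eq_mul, ← mul_inv_eq_iff_eq_mul, this]

omit [Finite Q] in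
theorem mul_conj (φ : MulAut Q) (w : Q) : φ * MulAut.conj w = MulAut.conj (φ w) * φ :=
  MulEquiv.ext fun x => by simp [MulAut.mul_apply, map_mul, map_inv]

/-- Lifts of commuting involutions. -/
theorem lift_comm {L : Subgroup (MulAut Q)} (hdis : ∀ l ∈ L, ∀ g : Q, l = MulAut.conj g → l = 1)
    {v w a b : Q} (hv : v * v = D.z) (hw : w * w = D.z) (hvw : Commute v w)
    (ha : MulAut.conj a * D.transvection hv ∈ L) (hb : MulAut.conj b * D.transvection hw ∈ L)
    (hsep : ∃ u, ¬ (Commute v u ↔ Commute w u)) : Commute a w := by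
  set α := D.transvection hv
  set β := D.transvection hw
  have e1 : MulAut.conj a * α * (MulAut.conj b * β) = MulAut.conj (a * α b) * (α * β) := by
    rw [map_mul]; simp only [mul_assoc]; rw [← mul_assoc α, mul_conj]; simp only [mul_assoc]
  have e2 : MulAut.conj b * β * (MulAut.conj a * α) = MulAut.conj (b * β a) * (α * β) := by
    rw [map_mul, D.transvection_comm hv hw hvw]; simp only [mul_assoc]
    rw [← mul_assoc β, mul_conj]; simp only [mul_assoc]; rfl
  have hmem := L.mul_mem (L.mul_mem ha hb) (L.inv_mem (L.mul_mem hb ha))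
  have hone := hdis _ hmem ((a * α b) * (b * β a)⁻¹) (by
    rw [e1, e2, map_mul MulAut.conj (a * α b) (b * β a)⁻¹, map_inv]; group)
  rw [e1, e2, mul_inv_eq_one] at hone
  have hconj := mul_right_cancel hone
  obtain ⟨u, hu⟩ := hsep
  by_contra hcon
  have h1 := conj_eq_iff hconj
  rw [show β a = a * w from D.transvection_neg hw hcon] at h1
  by_cases hbv : Commute b v
  · rw [show α b = b from D.transvection_pos hv hbv] at h1
    obtain ⟨u', hu'⟩ : ∃ u', ¬ Commute w u' := by
      refine ne_central fun hm => ?_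
      rcases (D.mem w).1 hm with e | e
      · rw [e, mul_one] at hw; exact D.ne_one hw.symm
      · rw [e, D.sq] at hw; exact D.ne_one hw.symm
    have := h1 u'
    rw [D.commute_mul, D.commute_mul, D.commute_mul a w] at this
    tauto
  · rw [show α b = b * v from D.transvection_neg hv hbv] at h1
    have := h1 u
    rw [D.commute_mul, D.commute_mul, D.commute_mul, D.commute_mul a w] at this
    tauto

theorem lift_sq {L : Subgroup (MulAut Q)} (hdis : ∀ l ∈ L, ∀ g : Q, l = MulAut.conj g → l = 1)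
    {v a : Q} (hv : v * v = D.z) (ha : MulAut.conj a * D.transvection hv ∈ L) :
    ¬ Commute a v := by
  intro hav
  set α := D.transvection hv
  have e : MulAut.conj a * α * (MulAut.conj a * α) = MulAut.conj (a * α a * v) := by
    rw [map_mul, map_mul, ← D.transvection_sq hv]; simp only [mul_assoc]
    rw [← mul_assoc α, mul_conj]; simp only [mul_assoc]; rfl
  have h1 := hdis _ (L.mul_mem ha ha) _ e
  rw [e, show α a = a from D.transvection_pos hv hav] at h1
  obtain ⟨u', hu'⟩ : ∃ u', ¬ Commute v u' := by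
    refine ne_central fun hm => ?_
    rcases (D.mem v).1 hm with e | e
    · rw [e, mul_one] at hv; exact D.ne_one hv.symm
    · rw [e, D.sq] at hv; exact D.ne_one hv.symm
  have := conj_eq_iff (h1.trans (map_one MulAut.conj).symm) u'
  rw [D.commute_mul, D.commute_mul a a] at this
  simp [hu', Commute.one_left] at this

omit [Finite Q] in
include D in
theorem adjust {x f e : Q} (hef : ¬ Commute e f) :
    ∃ y, (y = x ∨ y = x * e) ∧ Commute y f := by
  by_cases h : Commute x f
  · exact ⟨x, Or.inl rfl, h⟩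
  · exact ⟨x * e, Or.inr rfl, (D.commute_mul x e f).2 (iff_of_false h hef)⟩

omit [Finite Q] in
include D in
theorem commute_adjust {x y e u : Q} (h : y = x ∨ y = x * e) (heu : Commute e u) :
    Commute y u ↔ Commute x u := by
  rcases h with rfl | rfl
  · rfl
  · rw [D.commute_mul x e u]
    exact ⟨fun i => i.2 heu, fun i => iff_of_true i heu⟩

omit [Finite Q] in
theorem exists_order_four {e f : Q} (he : e * e = 1) (hef : ¬ Commute f e) :
    ∃ v, (v = f ∨ v = f * e) ∧ v * v = D.z := by
  rcases D.square f with h | h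
  · refine ⟨f * e, Or.inr rfl, ?_⟩
    calc f * e * (f * e) = f * (e * f) * e := by group
      _ = f * (f * e * D.z) * e := by rw [D.ncomm fun h' => hef h'.symm]
      _ = f * f * e * (D.z * e) := by group
      _ = D.z := by rw [h, one_mul, (D.central e).eq, ← mul_assoc, he, one_mul]
  · exact ⟨f, Or.inl rfl, h⟩

end Extra

set_option maxHeartbeats 800000 in
/-- Let Q be an extraspecial 2-group of order 2^(2n+1) with n ≥ 3 that is of plus type (it contains an elementary abelian subgroup of order 2^(n+1)). Then the group of inner automorphisms of Q has no complement in the full automorphism group of Q: the extension of the inner automorphism group (elementary abelian of order 2^(2n)) by the outer automorphism group (the orthogonal group of plus type) does not split. -/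
theorem result {Q : Type*} [Group Q] [Finite Q] (n : ℕ) (hn : 3 ≤ n) (hQ : Cfsg.IsExtraspecial 2 Q) (hcard : Nat.card Q = 2 ^ (2 * n + 1)) (hplus : ∃ E : Subgroup Q, Cfsg.IsElementaryAbelian 2 E ∧ Nat.card ↥E = 2 ^ (n + 1)) (L : Subgroup (MulAut Q)) : ¬ (Cfsg.Inn Q).IsComplement' L := by
  intro hL
  obtain ⟨z, h1, h2, h3, h4, h5, h6⟩ := exists_z hQ
  let D : Extra Q := ⟨z, h1, h2, h3, h4, h5, h6⟩
  obtain ⟨E, ⟨hEab, hEsq⟩, hEc⟩ := hplus
  have hEcomm : ∀ a ∈ E, ∀ b ∈ E, Commute a b := fun a ha b hb =>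
    congrArg Subtype.val (hEab.is_comm.comm (⟨a, ha⟩ : E) ⟨b, hb⟩)
  have hEsq' : ∀ a ∈ E, a * a = 1 := fun a ha => by rw [← sq, hEsq a ha]
  have hbig : ∀ k, k ≤ 2 → 2 ^ k * 2 < Nat.card E := fun k hk => by
    rw [hEc, ← pow_succ]
    exact Nat.pow_lt_pow_right (by norm_num) (by omega)
  obtain ⟨e₁, he₁, -, f₁, hf₁'⟩ := D.exists_outside (fs := []) (hbig 0 (by omega))
  have hf₁ : ¬ Commute f₁ e₁ := fun h => hf₁' h.symm
  obtain ⟨e₂, he₂, hc₂, g₂, hg₂⟩ := D.exists_outside (fs := [f₁]) (hbig 1 (by omega))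
  have h21 : Commute e₂ f₁ := hc₂ f₁ (by simp)
  -- f₂ commutes with e₁ and f₁
  obtain ⟨a₂, ha₂, ha₂e⟩ := D.adjust (x := g₂) hf₁
  obtain ⟨f₂, hf₂a, hf₂f⟩ := D.adjust (x := a₂) hf₁'
  have hf₂e₁ : Commute f₂ e₁ := (D.commute_adjust hf₂a (Commute.refl e₁)).2 ha₂e
  have hf₂e₂ : ¬ Commute f₂ e₂ := fun h => hg₂ ((D.commute_adjust ha₂ h21.symm).1
    ((D.commute_adjust hf₂a (hEcomm _ he₁ _ he₂)).1 h)).symm
  obtain ⟨e₃, he₃, hc₃, g₃, hg₃⟩ := D.exists_outside (fs := [f₁, f₂]) (hbig 2 le_rfl)
  have h31 : Commute e₃ f₁ := hc₃ f₁ (by simp)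
  have h32 : Commute e₃ f₂ := hc₃ f₂ (by simp)
  obtain ⟨a₃, ha₃, ha₃e⟩ := D.adjust (x := g₃) hf₁
  obtain ⟨b₃, hb₃, hb₃e⟩ := D.adjust (x := a₃) hf₂e₂
  obtain ⟨c₃, hc₃', hc₃f⟩ := D.adjust (x := b₃) hf₁'
  obtain ⟨f₃, hf₃c, hf₃f₂⟩ := D.adjust (x := c₃) (fun h : Commute e₂ f₂ => hf₂e₂ h.symm)
  have hf₃f₁ : Commute f₃ f₁ := (D.commute_adjust hf₃c h21).2 hc₃f
  have hf₃e : ∀ e ∈ E, (Commute f₃ e ↔ Commute b₃ e) := fun e he =>
    (D.commute_adjust hf₃c (hEcomm _ he₂ _ he)).trans (D.commute_adjust hc₃' (hEcomm _ he₁ _ he))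
  have hf₃e₁ : Commute f₃ e₁ := (hf₃e e₁ he₁).2 ((D.commute_adjust hb₃ hf₂e₁).2 ha₃e)
  have hf₃e₂ : Commute f₃ e₂ := (hf₃e e₂ he₂).2 hb₃e
  have hf₃e₃ : ¬ Commute f₃ e₃ := fun h => hg₃ ((D.commute_adjust ha₃ h31.symm).1
    ((D.commute_adjust hb₃ h32.symm).1 ((hf₃e e₃ he₃).1 h))).symm
  -- elements of order four
  obtain ⟨v₁, hv₁, hv₁q⟩ := D.exists_order_four (hEsq' e₁ he₁) hf₁
  obtain ⟨v₂, hv₂, hv₂q⟩ := D.exists_order_four (hEsq' e₂ he₂) hf₂e₂
  obtain ⟨v₃, hv₃, hv₃q⟩ := D.exists_order_four (hEsq' e₃ he₃) hf₃e₃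
  have c₁ : ∀ e ∈ E, (Commute v₁ e ↔ Commute f₁ e) := fun e he =>
    D.commute_adjust hv₁ (hEcomm _ he₁ _ he)
  have c₂ : ∀ e ∈ E, (Commute v₂ e ↔ Commute f₂ e) := fun e he =>
    D.commute_adjust hv₂ (hEcomm _ he₂ _ he)
  have c₃ : ∀ e ∈ E, (Commute v₃ e ↔ Commute f₃ e) := fun e he =>
    D.commute_adjust hv₃ (hEcomm _ he₃ _ he)
  have orth : ∀ {f f' e e' v v' : Q}, (v = f ∨ v = f * e) → (v' = f' ∨ v' = f' * e') →
      Commute f f' → Commute f e' → Commute e f' → Commute e e' → Commute v v' := by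
    intro f f' e e' v v' h h' i1 i2 i3 i4
    rcases h with rfl | rfl <;> rcases h' with rfl | rfl
    · exact i1
    · exact i1.mul_right i2
    · exact i1.mul_left i3
    · exact (i1.mul_right i2).mul_left (i3.mul_right i4)
  have v12 : Commute v₁ v₂ := orth hv₁ hv₂ hf₂f.symm h21.symm hf₂e₁.symm (hEcomm _ he₁ _ he₂)
  have v13 : Commute v₁ v₃ := orth hv₁ hv₃ hf₃f₁.symm h31.symm hf₃e₁.symm (hEcomm _ he₁ _ he₃)
  have v23 : Commute v₂ v₃ := orth hv₂ hv₃ hf₃f₂.symm h32.symm hf₃e₂.symm (hEcomm _ he₂ _ he₃)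
  set v₄ := v₁ * v₂ * v₃ with hv₄
  have hv₄q : v₄ * v₄ = D.z := by
    rw [hv₄, (Commute.mul_left v13 v23).symm.mul_mul_mul_comm, v12.symm.mul_mul_mul_comm,
      hv₁q, hv₂q, hv₃q, D.sq, one_mul]
  have v14 : Commute v₁ v₄ := ((Commute.refl v₁).mul_right v12).mul_right v13
  have sep12 : ∃ u, ¬ (Commute v₁ u ↔ Commute v₂ u) :=
    ⟨e₁, fun h => hf₁ ((c₁ e₁ he₁).1 (h.2 ((c₂ e₁ he₁).2 hf₂e₁)))⟩
  have sep13 : ∃ u, ¬ (Commute v₁ u ↔ Commute v₃ u) :=
    ⟨e₁, fun h => hf₁ ((c₁ e₁ he₁).1 (h.2 ((c₃ e₁ he₁).2 hf₃e₁)))⟩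
  have sep14 : ∃ u, ¬ (Commute v₁ u ↔ Commute v₄ u) := ⟨e₂, by
    rw [hv₄, D.commute_mul (v₁ * v₂) v₃, D.commute_mul v₁ v₂, c₁ e₂ he₂, c₂ e₂ he₂, c₃ e₂ he₂]
    simp [h21.symm, hf₂e₂, hf₃e₂]⟩
  -- lifts in the complement
  have hlift : ∀ φ : MulAut Q, ∃ a : Q, MulAut.conj a * φ ∈ L := fun φ => by
    have : φ ∈ Cfsg.Inn Q ⊔ L := by rw [hL.sup_eq_top]; trivial
    obtain ⟨i, ⟨g, rfl⟩, l, hl, rfl⟩ := Subgroup.mem_sup_of_normal_left.1 this
    exact ⟨g⁻¹, by rw [map_inv, inv_mul_cancel_left]; exact hl⟩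
  have hdis : ∀ l ∈ L, ∀ g : Q, l = MulAut.conj g → l = 1 := fun l hl g hg =>
    Subgroup.disjoint_def.1 hL.disjoint ⟨g, hg.symm⟩ hl
  obtain ⟨a₁, ha₁⟩ := hlift (D.transvection hv₁q)
  obtain ⟨b₂, hb₂⟩ := hlift (D.transvection hv₂q)
  obtain ⟨b₃', hb₃'⟩ := hlift (D.transvection hv₃q)
  obtain ⟨b₄, hb₄⟩ := hlift (D.transvection hv₄q)
  have r2 := D.lift_comm hdis hv₁q hv₂q v12 ha₁ hb₂ sep12
  have r3 := D.lift_comm hdis hv₁q hv₃q v13 ha₁ hb₃' sep13
  have r4 := D.lift_comm hdis hv₁q hv₄q v14 ha₁ hb₄ sep14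
  apply D.lift_sq hdis hv₁q ha₁
  rw [hv₄] at r4
  have := (r4.mul_right r3.inv_right).mul_right r2.inv_right
  rwa [mul_inv_cancel_right, mul_inv_cancel_right] at this

end Cfsg.Agent.S3085
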