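import Cfsg.Statements.S3103
import Mathlib
import Cfsg.Agent.S0256
import Cfsg.Agent.Lib.PLocal.Constraint
import Cfsg.Agent.Lib.Solv.Coprime2
import Cfsg.Agent.Lib.Transfer.PGroupFrattini
-- import your own Cfsg.Agent.* helpers here

set_option autoImplicit false
open Cfsg

namespace Cfsg.Agent.S3103

theorem zmod_two_ne : ∀ x : ZMod 2, x ≠ 0 → x = 1 := by decide +kernel

theorem zmod_two_pow : ∀ x : ZMod 2, x ^ 4 = 1 → x = 1 := by decide +kernel

/-- Automorphisms of an elementary abelian group of order at most `16` embed in `A₈`. -/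
theorem mulAut_embeds {V : Type*} [CommGroup V] [Finite V] (h2 : ∀ v : V, v ^ 2 = 1) (hcard : Nat.card V ≤ 16) :
    ∃ f : MulAut V →* ↥(alternatingGroup (Fin 8)), Function.Injective f := by
  classical
  haveI : Fact (Nat.Prime 2) := ⟨Nat.prime_two⟩
  let _ : Module (ZMod 2) (Additive V) := AddCommGroup.zmodModule fun v => by
    show Additive.ofMul (v.toMul ^ 2) = 0
    rw [h2]; rfl
  haveI : Module.Finite (ZMod 2) (Additive V) := Module.Finite.of_finite
  set d := Module.finrank (ZMod 2) (Additive V) with hd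
  have hd4 : d ≤ 4 := by
    have h : Nat.card (Additive V) = 2 ^ d := by
      rw [Module.natCard_eq_pow_finrank (K := ZMod 2), Nat.card_zmod]
    rw [Nat.card_congr Additive.toMul] at h
    by_contra hlt
    have h32 : 2 ^ 5 ≤ 2 ^ d := Nat.pow_le_pow_right two_pos (by omega)
    rw [h] at hcard
    norm_num at h32
    omega
  let L : (Additive V × (Fin (4 - d) → ZMod 2)) ≃ₗ[ZMod 2] (Fin 4 → ZMod 2) :=
    LinearEquiv.ofFinrankEq _ _ (by rw [Module.finrank_prod, Module.finrank_fin_fun, Module.finrank_fin_fun, ← hd]; omega)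
  let toLin : MulAut V → (Fin 4 → ZMod 2) →ₗ[ZMod 2] (Fin 4 → ZMod 2) := fun φ =>
    L.toLinearMap ∘ₗ (LinearMap.prodMap ((φ.toAdditive.toAddMonoidHom).toZModLinearMap 2) LinearMap.id) ∘ₗ L.symm.toLinearMap
  have happ : ∀ φ v, toLin φ v = L (Additive.ofMul (φ (L.symm v).1.toMul), (L.symm v).2) := fun φ v => rfl
  let g : MulAut V →* Matrix (Fin 4) (Fin 4) (ZMod 2) :=
    { toFun := fun φ => LinearMap.toMatrix' (toLin φ)
      map_one' := by
        rw [← LinearMap.toMatrix'_id]
        congr 1
        refine LinearMap.ext fun v => ?_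
        rw [happ]
        simp
      map_mul' := fun φ ψ => by
        rw [← LinearMap.toMatrix'_comp]
        congr 1
        refine LinearMap.ext fun v => ?_
        show toLin (φ * ψ) v = toLin φ (toLin ψ v)
        rw [happ, happ, happ]
        simp }
  have hginj : Function.Injective g := by
    intro φ ψ h
    have h' : toLin φ = toLin ψ := LinearMap.toMatrix'.injective h
    refine MulEquiv.ext fun v => ?_
    have h'' := LinearMap.congr_fun h' (L (Additive.ofMul v, 0))
    rw [happ, happ, L.symm_apply_apply] at h''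
    exact congrArg (fun z => z.1.toMul) (L.injective h'')
  let gu : MulAut V →* GL (Fin 4) (ZMod 2) := g.toHomUnits
  have hdet : ∀ A : GL (Fin 4) (ZMod 2), A.1.det = 1 := fun A => by
    have hall := zmod_two_ne
    exact hall _ A.det_ne_zero
  let s : GL (Fin 4) (ZMod 2) →* Matrix.ProjectiveSpecialLinearGroup (Fin 4) (ZMod 2) :=
    (QuotientGroup.mk' _).comp
      { toFun := fun A => (⟨A.1, hdet A⟩ : Matrix.SpecialLinearGroup (Fin 4) (ZMod 2))
        map_one' := Subtype.ext rfl
        map_mul' := fun A B => Subtype.ext rfl }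
  have hsinj : Function.Injective s := by
    rw [← MonoidHom.ker_eq_bot_iff, eq_bot_iff]
    intro A hA
    obtain ⟨r, hr, hrA⟩ := Matrix.SpecialLinearGroup.mem_center_iff.1 ((QuotientGroup.eq_one_iff _).1 hA)
    have hall := zmod_two_pow
    rw [Fintype.card_fin] at hr
    rw [Subgroup.mem_bot]
    refine Units.ext ?_
    have hrA' : Matrix.scalar (Fin 4) r = A.1 := hrA
    rw [← hrA', hall r hr, map_one, Units.val_one]
  obtain ⟨e⟩ := Cfsg.Agent.S0256.result (F := ZMod 2) (ZMod.card 2)
  refine ⟨e.toMonoidHom.comp (s.comp gu), e.injective.comp (hsinj.comp fun a b h => hginj ?_)⟩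
  exact congrArg Units.val h

/-- Let X be a finite 2-constrained group with no nontrivial normal subgroup of odd order such that O₂(X) has sectional 2-rank at most 4. Then X/O₂(X) is isomorphic to a subgroup of the alternating group of degree 8. -/
theorem result {X : Type*} [Group X] [Finite X] (hc : Cfsg.IsPConstrained 2 X) (hO : Cfsg.oddCore X = ⊥)
    (h4 : Cfsg.SectionalPRankLE 2 4 ↥(Cfsg.pCore 2 X)) :
    ∃ f : X ⧸ Cfsg.pCore 2 X →* ↥(alternatingGroup (Fin 8)), Function.Injective f := by
  classical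
  haveI : Fact (Nat.Prime 2) := ⟨Nat.prime_two⟩
  set P := Cfsg.pCore 2 X with hPdef
  have hPp : IsPGroup 2 P := Cfsg.Lib.Solv.isPGroup_pCore 2
  have hC : Subgroup.centralizer (P : Set X) ≤ P := by
    have h := Cfsg.Lib.PLocal.isPConstrained_iff_quotient.1 hc
    exact Cfsg.Lib.PLocal.selfCentralizingCore_congr
      ((QuotientGroup.quotientMulEquivOfEq (show Cfsg.pPrimeCore 2 X = ⊥ from hO)).trans QuotientGroup.quotientBot) h
  have hcomm : commutator P ≤ frattini P := Cfsg.Lib.Transfer.commutator_le_frattini hPp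
  let _ : CommGroup (P ⧸ frattini P) := { (inferInstance : Group (P ⧸ frattini P)) with
    mul_comm := (Subgroup.Normal.quotient_commutative_iff_commutator_le.2 hcomm).is_comm.comm }
  have h2 : ∀ v : P ⧸ frattini P, v ^ 2 = 1 := by
    intro v
    obtain ⟨y, rfl⟩ := QuotientGroup.mk_surjective v
    rw [← QuotientGroup.mk_pow, QuotientGroup.eq_one_iff]
    exact Cfsg.Lib.Transfer.pow_mem_frattini hPp y
  have hcard : Nat.card (P ⧸ frattini P) ≤ 16 := by
    let N : Subgroup (⊤ : Subgroup P) := (frattini P).comap (⊤ : Subgroup P).subtype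
    let e : (⊤ : Subgroup P) ⧸ N ≃* P ⧸ frattini P :=
      QuotientGroup.congr N (frattini P) Subgroup.topEquiv (by
        ext x
        constructor
        · rintro ⟨y, hy, rfl⟩
          exact hy
        · exact fun hx => ⟨⟨x, Subgroup.mem_top x⟩, hx, rfl⟩)
    have h := h4 ⊤ N ⊤ ⟨⟨fun a b => Subtype.ext (e.injective (by rw [Subgroup.coe_mul, Subgroup.coe_mul, map_mul, map_mul, mul_comm]))⟩⟩
      fun a _ => e.injective (by rw [map_pow, h2, map_one])
    rw [Subgroup.card_top, Nat.card_congr e.toEquiv] at h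
    simpa using h
  let q : X → P ⧸ frattini P →* P ⧸ frattini P := fun x =>
    QuotientGroup.map (frattini P) (frattini P) ((MulAut.conjNormal x : MulAut P).toMonoidHom)
      (Subgroup.characteristic_iff_le_comap.1 inferInstance _)
  have hq : ∀ x y, q x ((y : P) : P ⧸ frattini P) = ((MulAut.conjNormal x y : P) : P ⧸ frattini P) := fun x y => rfl
  let ρ : X →* MulAut (P ⧸ frattini P) :=
    { toFun := fun x =>
        { toFun := q x
          invFun := q x⁻¹
          left_inv := fun v => by
            obtain ⟨y, rfl⟩ := QuotientGroup.mk_surjective v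
            rw [hq, hq, ← MulAut.mul_apply, ← map_mul, inv_mul_cancel, map_one, MulAut.one_apply]
          right_inv := fun v => by
            obtain ⟨y, rfl⟩ := QuotientGroup.mk_surjective v
            rw [hq, hq, ← MulAut.mul_apply, ← map_mul, mul_inv_cancel, map_one, MulAut.one_apply]
          map_mul' := map_mul (q x) }
      map_one' := MulEquiv.ext fun v => by
        obtain ⟨y, rfl⟩ := QuotientGroup.mk_surjective v
        show q 1 ((y : P) : P ⧸ frattini P) = _
        rw [hq, map_one, MulAut.one_apply, MulAut.one_apply]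
      map_mul' := fun a b => MulEquiv.ext fun v => by
        obtain ⟨y, rfl⟩ := QuotientGroup.mk_surjective v
        show q (a * b) ((y : P) : P ⧸ frattini P) = q a (q b ((y : P) : P ⧸ frattini P))
        rw [hq, hq, hq, map_mul, MulAut.mul_apply] }
  have hker : ρ.ker = P := by
    refine le_antisymm ?_ fun x hx => ?_
    · refine Cfsg.Lib.Solv.le_pCore (MonoidHom.normal_ker ρ) ?_
      intro k
      set m := orderOf k with hm
      obtain ⟨j, o, ho, hjo⟩ := Nat.exists_eq_pow_mul_and_not_dvd (n := m)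
        (isOfFinOrder_of_finite k).orderOf_pos.ne' 2 (by norm_num)
      refine ⟨j, ?_⟩
      set a : X := (k : X) ^ 2 ^ j with ha
      have hao : a ^ o = 1 := by
        rw [ha, ← pow_mul, ← hjo, hm, ← Subgroup.orderOf_coe, pow_orderOf_eq_one]
      have hodd : (Nat.card (Subgroup.zpowers a)).Coprime 2 := by
        rw [Nat.card_zpowers]
        exact Nat.Coprime.coprime_dvd_left (orderOf_dvd_of_pow_eq_one hao)
          ((Nat.prime_two.coprime_iff_not_dvd.2 ho).symm)
      obtain ⟨i, hi⟩ := IsPGroup.iff_card.1 (hPp.to_subgroup (frattini P))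
      have hcent := Cfsg.Lib.Solv.centralizes_of_frattini (Subgroup.zpowers a) P
        Subgroup.le_normalizer_of_normal (hi ▸ hodd.pow_right i) fun b hb y hy => by
          have hbk : b ∈ ρ.ker := Subgroup.zpowers_le.2 (pow_mem k.2 (2 ^ j)) hb
          have hv : q b ((⟨y, hy⟩ : P) : P ⧸ frattini P) = ((⟨y, hy⟩ : P) : P ⧸ frattini P) :=
            congrArg (fun f : MulAut (P ⧸ frattini P) => f ((⟨y, hy⟩ : P) : P ⧸ frattini P)) (MonoidHom.mem_ker.1 hbk)
          rw [hq, QuotientGroup.eq] at hv
          have hmem : (⟨y, hy⟩ : P) * (MulAut.conjNormal b (⟨y, hy⟩ : P))⁻¹ ∈ frattini P := by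
            have h' := (inferInstance : (frattini P).Normal).conj_mem _ hv (MulAut.conjNormal b (⟨y, hy⟩ : P))
            rwa [← mul_assoc, mul_inv_cancel, one_mul] at h'
          refine ⟨_, inv_mem hmem, ?_⟩
          simp [MulAut.conjNormal_apply, mul_assoc]
      have haP : a ∈ P := hC (hcent (Subgroup.mem_zpowers a))
      obtain ⟨i', hi'⟩ := IsPGroup.iff_orderOf.1 hPp ⟨a, haP⟩
      rw [Subgroup.orderOf_mk] at hi'
      have ha1 : a = 1 := orderOf_eq_one_iff.1 (Nat.eq_one_of_dvd_coprimes
        (hodd.pow_right i') (by rw [Nat.card_zpowers]) (dvd_of_eq hi'))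
      exact Subtype.ext (by rw [Subgroup.coe_pow, ← ha, ha1]; rfl)
    · refine MonoidHom.mem_ker.2 (MulEquiv.ext fun v => ?_)
      obtain ⟨y, rfl⟩ := QuotientGroup.mk_surjective v
      show q x ((y : P) : P ⧸ frattini P) = _
      rw [hq, MulAut.one_apply]
      have hcy : (MulAut.conjNormal x y : P) = ⟨x, hx⟩ * y * (⟨x, hx⟩ : P)⁻¹ :=
        Subtype.ext (MulAut.conjNormal_apply x y)
      rw [hcy, QuotientGroup.mk_mul, QuotientGroup.mk_mul, QuotientGroup.mk_inv, mul_comm ((⟨x, hx⟩ : P) : P ⧸ frattini P),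
        mul_inv_cancel_right]
  obtain ⟨f, hf⟩ := mulAut_embeds h2 hcard
  exact ⟨f.comp (QuotientGroup.lift P ρ hker.ge), hf.comp (by
    rw [← MonoidHom.ker_eq_bot_iff, QuotientGroup.ker_lift, hker, QuotientGroup.map_mk'_self])⟩

end Cfsg.Agent.S3103
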