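import Cfsg.Statements.S3356


set_option autoImplicit false
open Cfsg

namespace Cfsg.Agent.S3356

/-- All orbits having stabilizers of order `s`, the order of the group divides `s` times the size of an
invariant set. -/
theorem orbit_dvd {H α : Type*} [Group H] [Finite H] [MulAction H α] (Q : Set α) (hQ : Q.Finite) (s : ℕ)
    (hinv : ∀ h : H, ∀ x ∈ Q, h • x ∈ Q) (hs : ∀ x ∈ Q, Nat.card (MulAction.stabilizer H x) = s) :
    Nat.card H ∣ Nat.card Q * s := by
  classical
  haveI := Fintype.ofFinite H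
  rw [Nat.card_coe_set_eq, Set.ncard_eq_toFinset_card _ hQ]
  set t := hQ.toFinset
  let orb : α → Finset α := fun x => Finset.univ.image fun h : H => h • x
  rw [Finset.card_eq_sum_card_fiberwise (f := orb) (t := t.image orb) (fun x hx => Finset.mem_image_of_mem _ hx),
    Finset.sum_mul]
  refine Finset.dvd_sum fun o ho => ?_
  obtain ⟨x, hx, rfl⟩ := Finset.mem_image.1 ho
  have hxQ : x ∈ Q := hQ.mem_toFinset.1 hx
  have : (t.filter fun y => orb y = orb x) = orb x := by
    ext y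
    rw [Finset.mem_filter]
    constructor
    · rintro ⟨-, e⟩
      rw [← e]
      exact Finset.mem_image.2 ⟨1, Finset.mem_univ _, one_smul _ _⟩
    · intro hy
      obtain ⟨h, -, rfl⟩ := Finset.mem_image.1 hy
      refine ⟨hQ.mem_toFinset.2 (hinv h x hxQ), ?_⟩
      ext z
      simp only [orb, Finset.mem_image, Finset.mem_univ, true_and]
      constructor
      · rintro ⟨k, rfl⟩; exact ⟨k * h, mul_smul k h x⟩
      · rintro ⟨k, rfl⟩; exact ⟨k * h⁻¹, by rw [mul_smul, inv_smul_smul]⟩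
  have hc : (orb x).card = Nat.card (MulAction.orbit H x) := by
    rw [Nat.card_coe_set_eq, ← Set.ncard_coe_finset]
    congr 1
    ext z
    simp [orb, MulAction.orbit]
  rw [this, hc, ← hs x hxQ, ← Nat.card_prod,
    Nat.card_congr (MulAction.orbitProdStabilizerEquivGroup H x)]

/-- Let G be a finite 3/2-transitive permutation group: G acts faithfully and transitively on a finite set, the point stabilizers are non-trivial, and for each point a all orbits of G_a on the remaining points have the same size. Suppose G has a regular normal subgroup N and G is not a Frobenius group (some two-point stabilizer is non-trivial). Then N is an elementary abelian p-group for some prime p, and every non-trivial normal subgroup of G contains N (so N is the unique minimal normal subgroup). -/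
theorem result {G Ω : Type*} [Group G] [Finite G]
    [MulAction G Ω] [FaithfulSMul G Ω] [Finite Ω] (htrans : MulAction.IsPretransitive G Ω)
    (hne : ∀ a : Ω, MulAction.stabilizer G a ≠ ⊥)
    (hhalf : ∀ a b c : Ω, b ≠ a → c ≠ a →
      Nat.card (MulAction.orbit (MulAction.stabilizer G a) b) = Nat.card (MulAction.orbit (MulAction.stabilizer G a) c))
    (N : Subgroup G) [hN : N.Normal] (hNt : MulAction.IsPretransitive N Ω) (hNr : ∀ a : Ω, MulAction.stabilizer N a = ⊥)
    (hnotF : ∃ a b : Ω, a ≠ b ∧ MulAction.stabilizer G a ⊓ MulAction.stabilizer G b ≠ ⊥) :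
    (∃ p : ℕ, p.Prime ∧ IsMulCommutative N ∧ ∀ x ∈ N, x ^ p = 1) ∧
    (∀ M : Subgroup G, M.Normal → M ≠ ⊥ → N ≤ M) := by
  classical
  obtain ⟨a', b', hab', hnt⟩ := hnotF
  set Ga := MulAction.stabilizer G a' with hGadef
  have hbij : Function.Bijective fun u : N => (u : G) • a' := by
    refine ⟨fun u v e => ?_, fun y => ?_⟩
    · have : v⁻¹ * u ∈ MulAction.stabilizer N a' := by
        show (v⁻¹ * u) • a' = a'
        rw [mul_smul, inv_smul_eq_iff]; exact e
      rw [hNr a', Subgroup.mem_bot] at this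
      exact (inv_mul_eq_one.1 this).symm
    · obtain ⟨u, hu⟩ := MulAction.exists_smul_eq N a' y
      exact ⟨u, hu⟩
  have hsm : ∀ h ∈ Ga, ∀ u : G, (h * u * h⁻¹) • a' = h • (u • a') := by
    intro h hh u
    have e : h⁻¹ • a' = a' := inv_smul_eq_iff.2 (MulAction.mem_stabilizer_iff.1 hh).symm
    rw [mul_smul, mul_smul, e]
  have hnorm : ∀ h u : G, u ∈ N → h * u * h⁻¹ ∈ N := fun h u hu => hN.conj_mem u hu h
  let S : G → Subgroup G := fun u => Ga ⊓ Subgroup.centralizer ({u} : Set G)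
  have hSst : ∀ u ∈ N, S u = Ga ⊓ MulAction.stabilizer G (u • a') := by
    intro u hu
    ext h
    simp only [S, Subgroup.mem_inf, Subgroup.mem_centralizer_singleton_iff]
    refine and_congr_right fun hh => ?_
    rw [MulAction.mem_stabilizer_iff, ← hsm h hh u]
    constructor
    · intro e; rw [e, mul_inv_cancel_right]
    · intro e
      exact mul_inv_eq_iff_eq_mul.1 (congrArg Subtype.val
        (hbij.1 (a₁ := (⟨_, hnorm h u hu⟩ : N)) (a₂ := ⟨u, hu⟩) e))
  have hScard : ∀ u v : G, u ∈ N → v ∈ N → u ≠ 1 → v ≠ 1 → Nat.card (S u) = Nat.card (S v) := by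
    have key : ∀ u ∈ N, u ≠ 1 → u • a' ≠ a' := fun u hu hu1 e => hu1 (congrArg Subtype.val
      (hbij.1 (a₁ := (⟨u, hu⟩ : N)) (a₂ := 1) (by show u • a' = (1 : G) • a'; rw [e, one_smul])))
    have conv : ∀ u ∈ N, Nat.card (MulAction.orbit Ga (u • a')) * Nat.card (S u) = Nat.card Ga := by
      intro u hu
      have e : Nat.card (S u) = Nat.card (MulAction.stabilizer Ga (u • a')) := by
        rw [hSst u hu]
        exact Nat.card_congr
          { toFun := fun h => ⟨⟨h.1, h.2.1⟩, h.2.2⟩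
            invFun := fun h => ⟨h.1.1, h.1.2, h.2⟩
            left_inv := fun _ => rfl
            right_inv := fun _ => rfl }
      rw [e, ← Nat.card_prod, Nat.card_congr (MulAction.orbitProdStabilizerEquivGroup Ga (u • a'))]
    intro u v hu hv hu1 hv1
    have h1 := conv u hu
    have h2 := conv v hv
    rw [hhalf a' (u • a') (v • a') (key u hu hu1) (key v hv hv1)] at h1
    have hpos : 0 < Nat.card (MulAction.orbit Ga (v • a')) := by
      rcases Nat.eq_zero_or_pos (Nat.card (MulAction.orbit Ga (v • a'))) with h0 | h0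
      · rw [h0, zero_mul] at h2; exact absurd h2.symm (Nat.card_pos).ne'
      · exact h0
    exact Nat.eq_of_mul_eq_mul_left hpos (h1.trans h2.symm)
  letI : MulAction Ga G := MulAction.compHom G (ConjAct.toConjAct.toMonoidHom.comp Ga.subtype)
  have hstab : ∀ (W : Subgroup Ga) (u : G), S u ≤ W.map Ga.subtype →
      Nat.card (MulAction.stabilizer W u) = Nat.card (S u) := fun W u hW =>
    Nat.card_congr
      { toFun := fun h => ⟨((h.1 : Ga) : G), ⟨(h.1 : Ga).2, Subgroup.mem_centralizer_singleton_iff.2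
          (mul_inv_eq_iff_eq_mul.1 (h.2 : (((h.1 : Ga) : G) * u * ((h.1 : Ga) : G)⁻¹) = u))⟩⟩
        invFun := fun h => ⟨⟨⟨h.1, h.2.1⟩, by
          obtain ⟨w, hw, e⟩ := hW h.2
          rwa [show (⟨h.1, h.2.1⟩ : Ga) = w from Subtype.ext e.symm]⟩,
          show (h.1 : G) * u * (h.1 : G)⁻¹ = u from
            mul_inv_eq_iff_eq_mul.2 (Subgroup.mem_centralizer_singleton_iff.1 h.2.2)⟩
        left_inv := fun _ => rfl
        right_inv := fun _ => rfl }
  -- a subgroup preserving a set whose size is coprime to `|N| - 1` stabilizes it pointwise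
  have key : ∀ (u : G), u ∈ N → u ≠ 1 → ∀ Q : Set G, u ∈ Q → Q ⊆ (N : Set G) \ {1} → Nat.Coprime (Nat.card Q) (Nat.card N - 1) →
      (∀ v ∈ Q, ∀ g ∈ S v, ∀ w ∈ Q, g * w * g⁻¹ ∈ Q) →
      ∀ v ∈ Q, ∀ g ∈ Ga, (∀ w ∈ Q, g * w * g⁻¹ ∈ Q) → g * v * g⁻¹ = v := by
    intro u hu hu1 Q huQ hQN hcop hpres v hv g hg hgQ
    let W : Subgroup Ga :=
      { carrier := {x | ∀ w, (w ∈ Q ↔ (x : G) * w * (x : G)⁻¹ ∈ Q)}
        one_mem' := fun w => by simp
        mul_mem' := fun {x y} hx hy w => by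
          rw [hy w, hx ((y : G) * w * (y : G)⁻¹)]
          simp [mul_assoc]
        inv_mem' := fun {x} hx w => by
          rw [hx (((x⁻¹ : Ga) : G) * w * ((x⁻¹ : Ga) : G)⁻¹)]
          simp [mul_assoc] }
    have hmemW : ∀ x : Ga, (∀ w ∈ Q, (x : G) * w * (x : G)⁻¹ ∈ Q) → x ∈ W := by
      intro x hx w
      refine ⟨hx w, fun hw => ?_⟩
      obtain ⟨w', hw', e⟩ : ∃ w' ∈ Q, (x : G) * w' * (x : G)⁻¹ = (x : G) * w * (x : G)⁻¹ :=
        (by
          have hb : Function.Surjective fun w : Q => (⟨(x : G) * w * (x : G)⁻¹, hx w w.2⟩ : Q) :=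
            Finite.injective_iff_surjective.1 fun a b e =>
              Subtype.ext (mul_left_cancel (mul_right_cancel (congrArg Subtype.val e)))
          obtain ⟨w', e⟩ := hb ⟨_, hw⟩
          exact ⟨w', w'.2, congrArg Subtype.val e⟩)
      rwa [← mul_left_cancel (mul_right_cancel e)]
    have hSW : ∀ w ∈ Q, S w ≤ W.map Ga.subtype := fun w hw y hy =>
      ⟨⟨y, hy.1⟩, hmemW _ (hpres w hw y hy), rfl⟩
    have d1 : Nat.card W ∣ Nat.card Q * Nat.card (S v) := by
      refine orbit_dvd (H := W) Q (Set.toFinite _) _ (fun x w hw => (x.2 w).1 hw) fun w hw => ?_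
      rw [hstab W w (hSW w hw)]
      exact hScard w v (hQN hw).1 (hQN hv).1 (hQN hw).2 (hQN hv).2
    have d2 : Nat.card Ga ∣ (Nat.card N - 1) * Nat.card (S v) := by
      have := orbit_dvd (H := Ga) ((N : Set G) \ {1}) (Set.toFinite _) (Nat.card (S v))
        (fun x w hw => ⟨hnorm x w hw.1, fun e => hw.2 (conj_eq_one_iff.1 e)⟩) fun w hw => by
          have e : Nat.card (MulAction.stabilizer Ga w) = Nat.card (S w) := Nat.card_congr
            { toFun := fun h => ⟨(h.1 : G), h.1.2, Subgroup.mem_centralizer_singleton_iff.2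
                (mul_inv_eq_iff_eq_mul.1 (h.2 : (h.1 : G) * w * (h.1 : G)⁻¹ = w))⟩
              invFun := fun h => ⟨⟨h.1, h.2.1⟩, show (h.1 : G) * w * (h.1 : G)⁻¹ = w from
                mul_inv_eq_iff_eq_mul.2 (Subgroup.mem_centralizer_singleton_iff.1 h.2.2)⟩
              left_inv := fun _ => rfl
              right_inv := fun _ => rfl }
          rw [e]
          exact hScard w v hw.1 (hQN hv).1 hw.2 (hQN hv).2
      rwa [Nat.card_coe_set_eq, Set.ncard_diff_singleton_of_mem N.one_mem, ← Nat.card_coe_set_eq] at this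
    have d3 := (Subgroup.card_subgroup_dvd_card W).trans d2
    have d4 : Nat.card W ∣ Nat.card (S v) := by
      have := Nat.dvd_gcd d1 d3
      rwa [Nat.gcd_mul_right, hcop.gcd_eq_one, one_mul] at this
    have heq : W.map Ga.subtype = S v := by
      refine (Subgroup.eq_of_le_of_card_ge (hSW v hv) ?_).symm
      rw [Nat.card_congr (Subgroup.equivMapOfInjective W _ Ga.subtype_injective).symm.toEquiv]
      exact Nat.le_of_dvd Nat.card_pos d4
    have hgS : g ∈ S v := heq ▸ ⟨⟨g, hg⟩, hmemW _ hgQ, rfl⟩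
    exact mul_inv_eq_iff_eq_mul.2 (Subgroup.mem_centralizer_singleton_iff.1 hgS.2)
  have hSeq : ∀ {u v : G}, u ∈ N → v ∈ N → u ≠ 1 → v ≠ 1 → S u ≤ S v → S u = S v :=
    fun hu hv hu1 hv1 hle => Subgroup.eq_of_le_of_card_ge hle (hScard _ _ hv hu hv1 hu1).le
  have hn2 : 1 ≤ Nat.card N := Nat.card_pos
  have hcopn : ∀ m, m ∣ Nat.card N → Nat.Coprime m (Nat.card N - 1) := fun m hm =>
    Nat.Coprime.coprime_dvd_left hm (Nat.coprime_self_sub_right hn2 |>.2 (Nat.coprime_one_right _))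
  -- stabilizers are not all equal
  have hnotall : ¬ ∀ u v : G, u ∈ N → v ∈ N → u ≠ 1 → v ≠ 1 → S u = S v := by
    intro hall
    obtain ⟨⟨g, hg⟩, hg1⟩ := Subgroup.ne_bot_iff_exists_ne_one.1 hnt
    obtain ⟨u, hu⟩ := hbij.2 b'
    have hu1 : (u : G) ≠ 1 := fun e => hab' (by rw [← hu]; show a' = (u : G) • a'; rw [e, one_smul])
    have hgu : g ∈ S u := by
      rw [hSst u u.2]
      exact ⟨hg.1, by rw [show (u : G) • a' = b' from hu]; exact hg.2⟩
    refine hg1 (Subtype.ext ((inferInstance : FaithfulSMul G Ω).eq_of_smul_eq_smul fun y => ?_))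
    obtain ⟨v, rfl⟩ := hbij.2 y
    show g • ((v : G) • a') = (1 : G) • ((v : G) • a')
    rw [one_smul]
    by_cases hv1 : (v : G) = 1
    · rw [hv1, one_smul]; exact hg.1
    · rw [hall u v u.2 v.2 hu1 hv1, hSst v v.2] at hgu
      exact hgu.2
  -- no proper invariant subgroup
  have hsub : ∀ M : Subgroup G, M ≤ N → (∀ h ∈ Ga, ∀ y ∈ M, h * y * h⁻¹ ∈ M) → M ≠ ⊥ → M = N := by
    intro M hMN hMi hM1
    by_contra hne
    refine hnotall ?_
    obtain ⟨x₀, hx₀, hx₀M⟩ := SetLike.exists_of_lt (lt_of_le_of_ne hMN hne)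
    obtain ⟨⟨y₀, hy₀⟩, hy₀1⟩ := Subgroup.ne_bot_iff_exists_ne_one.1 hM1
    have hy₀' : y₀ ≠ 1 := fun e => hy₀1 (Subtype.ext e)
    have one : ∀ x ∈ N, x ∉ M → ∀ y ∈ M, y ≠ 1 → S x = S y := by
      intro x hx hxM y hy hy1
      have hx1 : x ≠ 1 := fun e => hxM (e ▸ M.one_mem)
      refine hSeq hx (hMN hy) hx1 hy1 fun g hg => ?_
      let Q : Set G := (fun m => x * m) '' (M : Set G)
      have hQcard : Nat.card Q = Nat.card M := Nat.card_image_of_injective (mul_right_injective x) _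
      have hfix : g * (x * y) * g⁻¹ = x * y := by
        refine key x hx hx1 Q ⟨1, M.one_mem, mul_one x⟩ ?_ (hQcard ▸ hcopn _ (Subgroup.card_dvd_of_le hMN)) ?_
          (x * y) ⟨y, hy, rfl⟩ g hg.1 ?_
        · rintro _ ⟨m, hm, rfl⟩
          exact ⟨N.mul_mem hx (hMN hm), fun e => hxM (by
            rw [eq_inv_of_mul_eq_one_left (e : x * m = 1)]; exact M.inv_mem hm)⟩
        · rintro _ ⟨m, hm, rfl⟩ k hk _ ⟨m', hm', rfl⟩
          refine ⟨m * (k * (m⁻¹ * m') * k⁻¹), M.mul_mem hm (hMi k hk.1 _ (M.mul_mem (M.inv_mem hm) hm')), ?_⟩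
          have e : k * (x * m) * k⁻¹ = x * m :=
            mul_inv_eq_iff_eq_mul.2 (Subgroup.mem_centralizer_singleton_iff.1 hk.2)
          show x * (m * (k * (m⁻¹ * m') * k⁻¹)) = k * (x * m') * k⁻¹
          rw [show k * (x * m') * k⁻¹ = (k * (x * m) * k⁻¹) * (k * (m⁻¹ * m') * k⁻¹) by group, e]
          group
        · rintro _ ⟨m, hm, rfl⟩
          refine ⟨g * m * g⁻¹, hMi g hg.1 m hm, ?_⟩
          have e : g * x * g⁻¹ = x := mul_inv_eq_iff_eq_mul.2 (Subgroup.mem_centralizer_singleton_iff.1 hg.2)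
          show x * (g * m * g⁻¹) = g * (x * m) * g⁻¹
          nth_rw 1 [← e]; group
      have hgx : g * x * g⁻¹ = x := mul_inv_eq_iff_eq_mul.2 (Subgroup.mem_centralizer_singleton_iff.1 hg.2)
      refine ⟨hg.1, Subgroup.mem_centralizer_singleton_iff.2 (mul_inv_eq_iff_eq_mul.1 ?_)⟩
      rw [show g * (x * y) * g⁻¹ = (g * x * g⁻¹) * (g * y * g⁻¹) by group, hgx] at hfix
      exact mul_left_cancel hfix
    intro u v hu hv hu1 hv1
    have all : ∀ w ∈ N, w ≠ 1 → S w = S y₀ := by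
      intro w hw hw1
      by_cases hwM : w ∈ M
      · rw [← one x₀ hx₀ hx₀M w hwM hw1, one x₀ hx₀ hx₀M y₀ hy₀ hy₀']
      · exact one w hw hwM y₀ hy₀ hy₀'
    rw [all u hu hu1, all v hv hv1]
  -- `N` is abelian
  have hab : ∀ x ∈ N, ∀ y ∈ N, x * y = y * x := by
    by_contra hna
    push Not at hna
    obtain ⟨x₀, hx₀, y₀, hy₀, hne0⟩ := hna
    let Z : Subgroup G := N ⊓ Subgroup.centralizer (N : Set G)
    have hZ : Z = ⊥ := by
      by_contra hZ1
      have := hsub Z inf_le_left (fun h _ z hz => ⟨hnorm h z hz.1, Subgroup.mem_centralizer_iff.2 fun n hn => by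
        have hc := (Subgroup.mem_centralizer_iff.1 hz.2) (h⁻¹ * n * h) (by
          have := hnorm h⁻¹ n hn; rwa [inv_inv] at this)
        have := congrArg (fun t => h * t * h⁻¹) hc
        simpa [mul_assoc] using this⟩) hZ1
      exact hne0 ((Subgroup.mem_centralizer_iff.1 (this.ge hy₀).2) x₀ hx₀)
    have pair : ∀ x y, x ∈ N → y ∈ N → x * y ≠ y * x → S x = S y := by
      have half : ∀ x y, x ∈ N → y ∈ N → x * y ≠ y * x → ∀ g ∈ S x,
          g * (x * y * x⁻¹ * y⁻¹) * g⁻¹ = x * y * x⁻¹ * y⁻¹ := by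
        intro x y hx hy hxy g hg
        have hx1 : x ≠ 1 := fun e => hxy (by rw [e]; simp)
        let Q : Set G := {w | ∃ n ∈ N, n * x * n⁻¹ = w}
        have hQcard : Nat.card Q ∣ Nat.card N := by
          letI : MulAction N G := MulAction.compHom G (ConjAct.toConjAct.toMonoidHom.comp N.subtype)
          have e : Q = MulAction.orbit N x := by
            ext w
            constructor
            · rintro ⟨n, hn, rfl⟩; exact ⟨⟨n, hn⟩, rfl⟩
            · rintro ⟨n, rfl⟩; exact ⟨n, n.2, rfl⟩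
          rw [e, ← Nat.card_congr (MulAction.orbitProdStabilizerEquivGroup N x), Nat.card_prod]
          exact dvd_mul_right _ _
        have hgx : g * x * g⁻¹ = x := mul_inv_eq_iff_eq_mul.2 (Subgroup.mem_centralizer_singleton_iff.1 hg.2)
        have hQc : ∀ k, k ∈ Ga → (∃ n ∈ N, k * x * k⁻¹ = n * x * n⁻¹) → ∀ w ∈ Q, k * w * k⁻¹ ∈ Q := by
          rintro k - ⟨n, hn, e⟩ _ ⟨m, hm, rfl⟩
          refine ⟨(k * m * k⁻¹) * n, N.mul_mem (hnorm k m hm) hn, ?_⟩
          rw [show k * m * k⁻¹ * n * x * (k * m * k⁻¹ * n)⁻¹ = (k * m * k⁻¹) * (n * x * n⁻¹) * (k * m * k⁻¹)⁻¹ by group, ← e]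
          group
        have hfix : ∀ n ∈ N, g * (n * x * n⁻¹) * g⁻¹ = n * x * n⁻¹ := fun n hn =>
          key x hx hx1 Q ⟨1, N.one_mem, by simp⟩ (by
            rintro _ ⟨m, hm, rfl⟩
            exact ⟨N.mul_mem (N.mul_mem hm hx) (N.inv_mem hm), fun e => hx1 (conj_eq_one_iff.1 e)⟩)
            (hcopn _ hQcard) (by
            rintro _ ⟨m, hm, rfl⟩ k hk w hw
            refine hQc k hk.1 ⟨(k * m * k⁻¹)⁻¹ * m, N.mul_mem (N.inv_mem (hnorm k m hm)) hm, ?_⟩ w hw
            have e : k * (m * x * m⁻¹) * k⁻¹ = m * x * m⁻¹ :=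
              mul_inv_eq_iff_eq_mul.2 (Subgroup.mem_centralizer_singleton_iff.1 hk.2)
            calc k * x * k⁻¹ = (k * m * k⁻¹)⁻¹ * (k * (m * x * m⁻¹) * k⁻¹) * (k * m * k⁻¹) := by group
              _ = _ := by rw [e]; group)
            (n * x * n⁻¹) ⟨n, hn, rfl⟩ g hg.1 (hQc g hg.1 ⟨1, N.one_mem, by simp [hgx]⟩)
        have e2 : g * x⁻¹ * g⁻¹ = x⁻¹ := by
          rw [show g * x⁻¹ * g⁻¹ = (g * x * g⁻¹)⁻¹ by group, hgx]
        have e3 : g * (y * x * y⁻¹) * g⁻¹ = y * x * y⁻¹ := hfix y hy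
        calc g * (x * y * x⁻¹ * y⁻¹) * g⁻¹ = (g * x * g⁻¹) * (g * (y * x * y⁻¹) * g⁻¹)⁻¹ := by group
          _ = _ := by rw [hgx, e3]; group
      intro x y hx hy hxy
      set c := x * y * x⁻¹ * y⁻¹ with hc
      have hcN : c ∈ N := N.mul_mem (N.mul_mem (N.mul_mem hx hy) (N.inv_mem hx)) (N.inv_mem hy)
      have hc1 : c ≠ 1 := fun e => hxy (mul_inv_eq_iff_eq_mul.1 (mul_inv_eq_one.1 (hc ▸ e)))
      have hx1 : x ≠ 1 := fun e => hxy (by rw [e]; simp)
      have hy1 : y ≠ 1 := fun e => hxy (by rw [e]; simp)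
      have a1 : S x = S c := hSeq hx hcN hx1 hc1 fun g hg => ⟨hg.1, Subgroup.mem_centralizer_singleton_iff.2
        (mul_inv_eq_iff_eq_mul.1 (half x y hx hy hxy g hg))⟩
      have a2 : S y = S c := hSeq hy hcN hy1 hc1 fun g hg => ⟨hg.1, Subgroup.mem_centralizer_singleton_iff.2 (by
        have e := congrArg (fun t => t⁻¹) (half y x hy hx (Ne.symm hxy) g hg)
        refine mul_inv_eq_iff_eq_mul.1 ?_
        simpa [hc, mul_assoc] using e)⟩
      rw [a1, a2]
    refine hnotall fun u v hu hv hu1 hv1 => ?_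
    have hnc : ∀ w ∈ N, w ≠ 1 → ∃ n ∈ N, w * n ≠ n * w := by
      intro w hw hw1
      by_contra hcon
      push Not at hcon
      have : w ∈ Z := ⟨hw, Subgroup.mem_centralizer_iff.2 fun n hn => (hcon n hn).symm⟩
      rw [hZ, Subgroup.mem_bot] at this
      exact hw1 this
    obtain ⟨n₁, hn₁, e₁⟩ := hnc u hu hu1
    obtain ⟨n₂, hn₂, e₂⟩ := hnc v hv hv1
    by_cases c1 : v * n₁ = n₁ * v
    · by_cases c2 : u * n₂ = n₂ * u
      · have e3 : u * (n₁ * n₂) ≠ n₁ * n₂ * u := fun e => e₁ (by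
          rw [mul_assoc, ← c2, ← mul_assoc, ← mul_assoc] at e; exact mul_right_cancel e)
        have e4 : v * (n₁ * n₂) ≠ n₁ * n₂ * v := fun e => e₂ (by
          rw [← mul_assoc, c1, mul_assoc, mul_assoc] at e; exact mul_left_cancel e)
        rw [pair u _ hu (N.mul_mem hn₁ hn₂) e3, pair v _ hv (N.mul_mem hn₁ hn₂) e4]
      · rw [pair u _ hu hn₂ c2, pair v _ hv hn₂ e₂]
    · rw [pair u _ hu hn₁ e₁, pair v _ hv hn₁ c1]
  have hN1 : 2 ≤ Nat.card N := by
    haveI : Nontrivial N := by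
      obtain ⟨u, hu⟩ := hbij.2 b'
      refine ⟨⟨u, 1, fun e => hab' ?_⟩⟩
      rw [← hu, e]; exact (one_smul G a').symm
    exact Finite.one_lt_card
  obtain ⟨p, hp, hpn⟩ := Nat.exists_prime_and_dvd (show Nat.card N ≠ 1 by omega)
  haveI := Fact.mk hp
  constructor
  · refine ⟨p, hp, ⟨⟨fun u v => Subtype.ext (hab u u.2 v v.2)⟩⟩, ?_⟩
    let M : Subgroup G :=
      { carrier := {u | u ∈ N ∧ u ^ p = 1}
        one_mem' := ⟨N.one_mem, one_pow p⟩
        mul_mem' := fun {u v} hu hv => ⟨N.mul_mem hu.1 hv.1, by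
          rw [(show Commute u v from hab u hu.1 v hv.1).mul_pow, hu.2, hv.2, one_mul]⟩
        inv_mem' := fun {u} hu => ⟨N.inv_mem hu.1, by rw [inv_pow, hu.2, inv_one]⟩ }
    have hM : M = N := by
      refine hsub M (fun u hu => hu.1) (fun h _ u hu => ⟨hnorm h u hu.1, ?_⟩) ?_
      · rw [conj_pow, hu.2, mul_one, mul_inv_cancel]
      · intro e'
        obtain ⟨x, hx⟩ := exists_prime_orderOf_dvd_card' p hpn
        have : (x : G) ∈ M := ⟨x.2, by rw [← hx, ← Subgroup.orderOf_coe, pow_orderOf_eq_one]⟩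
        rw [e', Subgroup.mem_bot] at this
        rw [← Subgroup.orderOf_coe, this, orderOf_one] at hx
        exact hp.one_lt.ne hx
    intro u hu
    exact (hM.ge hu).2
  · intro M hM hM1
    by_cases hinf : M ⊓ N = ⊥
    · exfalso
      refine hM1 ?_
      have hMN : M ≤ N := by
        intro m hm
        obtain ⟨u, hu⟩ := hbij.2 (m • a')
        have hcomm : ∀ n ∈ N, m * n = n * m := by
          intro n hn
          have h1 : m * n * m⁻¹ * n⁻¹ ∈ M ⊓ N :=
            ⟨by rw [show m * n * m⁻¹ * n⁻¹ = m * (n * m⁻¹ * n⁻¹) by group]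
                exact M.mul_mem hm (hM.conj_mem _ (M.inv_mem hm) n),
              N.mul_mem (hnorm m n hn) (N.inv_mem hn)⟩
          rw [hinf, Subgroup.mem_bot] at h1
          exact mul_inv_eq_iff_eq_mul.1 (mul_inv_eq_one.1 h1)
        suffices h : m = (u : G) from h ▸ u.2
        refine (inferInstance : FaithfulSMul G Ω).eq_of_smul_eq_smul fun y => ?_
        obtain ⟨v, rfl⟩ := hbij.2 y
        show m • ((v : G) • a') = (u : G) • ((v : G) • a')
        rw [← mul_smul, hcomm v v.2, mul_smul, ← mul_smul (u : G) (v : G), hab u u.2 v v.2, mul_smul]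
        exact congrArg ((v : G) • ·) hu.symm
      exact le_bot_iff.1 ((le_inf le_rfl hMN).trans hinf.le)
    · exact (hsub (M ⊓ N) inf_le_right (fun h _ y hy => ⟨hM.conj_mem y hy.1 h, hnorm h y hy.2⟩) hinf).ge.trans inf_le_left

end Cfsg.Agent.S3356
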