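import Cfsg.Statements.S3357
import Cfsg.Agent.Lib.Solv.FrobeniusRepresentation
-- import your own Cfsg.Agent.* helpers here

set_option autoImplicit false
open Cfsg

namespace Cfsg.Agent.S3357

open Matrix

theorem fixed_zero {G : Type*} [Group G] [Finite G] {K : Type*} [Field K] [CharZero K] {W : Type*} [AddCommGroup W] [Module K W]
    (f : G →* Module.End K W) (hf : ∀ a : G, (orderOf a).Prime → ∑ i ∈ Finset.range (orderOf a), f (a ^ i) = 0)
    (g : G) (hg : g ≠ 1) (v : W) (hv : f g v = v) : v = 0 := by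
  have hpow : ∀ (a : G), f a v = v → ∀ i : ℕ, f (a ^ i) v = v := by
    intro a ha i
    induction i with
    | zero => simp
    | succ i ih => rw [pow_succ, map_mul, Module.End.mul_apply, ha, ih]
  obtain ⟨r, hr, hrd⟩ := Nat.exists_prime_and_dvd (show orderOf g ≠ 1 from fun h => hg (orderOf_eq_one_iff.1 h))
  have hord : orderOf (g ^ (orderOf g / r)) = r := orderOf_pow_orderOf_div (orderOf_pos g).ne' hrd
  have h := LinearMap.congr_fun (hf (g ^ (orderOf g / r)) (hord.symm ▸ hr)) v
  rw [LinearMap.sum_apply, Finset.sum_congr rfl (fun i _ => hpow _ (hpow g hv _) i), Finset.sum_const,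
    Finset.card_range, hord, LinearMap.zero_apply, ← Nat.cast_smul_eq_nsmul K] at h
  exact (smul_eq_zero.1 h).resolve_left (Nat.cast_ne_zero.2 hr.ne_zero)

/-- Let G be a finite group that occurs as a Frobenius complement. Then G has a faithful irreducible representation over an algebraic closure of the rationals in which no non-identity element of G has 1 as an eigenvalue: there are n ≥ 1 and an injective homomorphism ρ from G to GL(n) over that field, with no invariant subspace other than 0 and the whole space, such that for g ≠ 1 the only vector fixed by ρ(g) is 0. -/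
theorem result {G : Type*} [Group G] [Finite G]
    (hFC : ∃ (L : Type) (_ : Group L) (_ : Finite L) (H : Subgroup L), Cfsg.IsFrobeniusComplement H ∧ Nonempty (G ≃* H)) :
    ∃ (n : ℕ) (ρ : G →* GL (Fin n) (AlgebraicClosure ℚ)), 0 < n ∧ Function.Injective ρ ∧
      (∀ W : Submodule (AlgebraicClosure ℚ) (Fin n → AlgebraicClosure ℚ),
        (∀ g : G, ∀ w ∈ W, ((ρ g : GL (Fin n) (AlgebraicClosure ℚ)) : Matrix (Fin n) (Fin n) (AlgebraicClosure ℚ)).mulVec w ∈ W) → W = ⊥ ∨ W = ⊤) ∧
      ∀ g : G, g ≠ 1 → ∀ v : Fin n → AlgebraicClosure ℚ,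
        ((ρ g : GL (Fin n) (AlgebraicClosure ℚ)) : Matrix (Fin n) (Fin n) (AlgebraicClosure ℚ)).mulVec v = v → v = 0 := by
  classical
  obtain ⟨L, _, _, H, hH, ⟨e⟩⟩ := hFC
  obtain ⟨n, ρ, hn, hρ⟩ := Cfsg.Lib.Solv.FrobRep.intFpf_of_complement hH e.toMonoidHom e.injective
  let K := AlgebraicClosure ℚ
  let F : G →* Module.End K (Fin n → K) :=
    ((Matrix.toLinAlgEquiv' (R := K)).toMonoidHom.comp ((Int.castRingHom K).mapMatrix.toMonoidHom.comp ρ))
  have hF : ∀ a : G, (orderOf a).Prime → ∑ i ∈ Finset.range (orderOf a), F (a ^ i) = 0 := fun a ha => by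
    show ∑ i ∈ Finset.range (orderOf a), Matrix.toLinAlgEquiv' ((Int.castRingHom K).mapMatrix (ρ (a ^ i))) = 0
    rw [← map_sum, ← map_sum, hρ a ha, map_zero, map_zero]
  obtain ⟨W, ⟨hW0, hWinv⟩, hWmin⟩ := exists_minimal_of_wellFoundedLT
    (fun W : Submodule K (Fin n → K) => W ≠ ⊥ ∧ ∀ g, ∀ w ∈ W, F g w ∈ W)
    ⟨⊤, by
      intro h
      have h1 : (Pi.single (⟨0, hn⟩ : Fin n) 1 : Fin n → K) ∈ (⊥ : Submodule K (Fin n → K)) := h ▸ trivial
      rw [Submodule.mem_bot] at h1
      simpa using congrFun h1 ⟨0, hn⟩, fun _ _ _ => trivial⟩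
  let f : G →* Module.End K W :=
    { toFun := fun g => (F g).restrict (hWinv g)
      map_one' := by ext w; simp
      map_mul' := fun a b => by ext w; simp }
  have hf : ∀ a : G, (orderOf a).Prime → ∑ i ∈ Finset.range (orderOf a), f (a ^ i) = 0 := fun a ha => by
    ext w k
    have := LinearMap.congr_fun (hF a ha) (w : Fin n → K)
    simp only [LinearMap.sum_apply, LinearMap.zero_apply] at this
    simpa [f] using congrFun this k
  let b := Module.finBasis K W
  let A : G →* Matrix (Fin (Module.finrank K W)) (Fin (Module.finrank K W)) K :=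
    (LinearMap.toMatrixAlgEquiv b).toMonoidHom.comp f
  have hA : ∀ g v, A g *ᵥ v = b.equivFun (f g (b.equivFun.symm v)) := fun g v => by
    have h := LinearMap.toMatrix_mulVec_repr b b (f g) (b.equivFun.symm v)
    have h2 : (b.repr (b.equivFun.symm v) : _ → K) = v := b.equivFun.apply_symm_apply v
    rw [h2] at h
    exact h
  have hd : 0 < Module.finrank K W := Nat.pos_of_ne_zero fun h => hW0 (Submodule.finrank_eq_zero.1 h)
  have hfix : ∀ g : G, g ≠ 1 → ∀ v, A g *ᵥ v = v → v = 0 := fun g hg v hv => by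
    rw [hA, ← LinearEquiv.eq_symm_apply] at hv
    exact b.equivFun.symm.map_eq_zero_iff.1 (fixed_zero f hf g hg _ hv)
  refine ⟨_, A.toHomUnits, hd, ?_, ?_, hfix⟩
  · refine (injective_iff_map_eq_one _).2 fun g hg => by_contra fun hne => ?_
    have hg' : A g = 1 := congrArg Units.val hg
    have := hfix g hne (Pi.single ⟨0, hd⟩ 1) (by rw [hg', one_mulVec])
    simpa using congrFun this ⟨0, hd⟩
  · intro U hU
    let U' : Submodule K (Fin n → K) := (U.comap b.equivFun.toLinearMap).map W.subtype
    have hle : U' ≤ W := Submodule.map_subtype_le _ _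
    have hinv : ∀ g, ∀ w ∈ U', F g w ∈ U' := by
      rintro g _ ⟨w, hw, rfl⟩
      refine ⟨f g w, ?_, rfl⟩
      show b.equivFun (f g w) ∈ U
      have h := hU g _ hw
      show b.equivFun (f g w) ∈ U
      have h' : A g *ᵥ b.equivFun w ∈ U := h
      rwa [hA, LinearEquiv.symm_apply_apply] at h'
    by_cases h0 : U' = ⊥
    · left
      rw [eq_bot_iff]
      intro u hu
      have : ((b.equivFun.symm u : W) : Fin n → K) ∈ U' := ⟨b.equivFun.symm u, by show b.equivFun _ ∈ U; rw [LinearEquiv.apply_symm_apply]; exact hu, rfl⟩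
      rw [h0, Submodule.mem_bot, ZeroMemClass.coe_eq_zero] at this
      exact (Submodule.mem_bot K).2 (b.equivFun.symm.map_eq_zero_iff.1 this)
    · right
      have := hWmin ⟨h0, hinv⟩ hle
      rw [eq_top_iff]
      intro u _
      obtain ⟨w, hw, he⟩ := this (b.equivFun.symm u).2
      have : w = b.equivFun.symm u := Subtype.ext he
      subst this
      have h' : b.equivFun (b.equivFun.symm u) ∈ U := hw
      rwa [LinearEquiv.apply_symm_apply] at h'

end Cfsg.Agent.S3357
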