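import Cfsg.Statements.S3358
import Cfsg.Agent.Lib.Recog.SolvableComplement
import Cfsg.Agent.Lib.Recog.ZGroupPresentation
-- import your own Cfsg.Agent.* helpers here

set_option autoImplicit false
open Cfsg
open scoped Pointwise

namespace Cfsg.Agent.S3358

open Cfsg.Lib.Recog

/-- The image of a map on the quaternion group given by two values. -/
def word (x y : QuaternionGroup 2) : QuaternionGroup 2 → QuaternionGroup 2
  | .a k => x ^ k.val
  | .xa k => y * x ^ k.val

/-- The four pairs of opposite orientations. -/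
def orient : Fin 4 → Finset (Finset (QuaternionGroup 2)) :=
  let i : QuaternionGroup 2 := .a 1
  let j : QuaternionGroup 2 := .xa 0
  let pair : QuaternionGroup 2 → QuaternionGroup 2 → Finset (Finset (QuaternionGroup 2)) :=
    fun x y => {{x, y, x * y}, {x⁻¹, y⁻¹, (x * y)⁻¹}}
  ![pair i j, pair i j⁻¹, pair i⁻¹ j, pair i⁻¹ j⁻¹]

theorem orient_injective : Function.Injective orient := by decide +kernel

theorem orient_permuted : ∀ x y : QuaternionGroup 2, x * y ≠ y * x →
    ∀ k, ∃ l, (orient k).image (Finset.image (word x y)) = orient l := by decide +kernel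

theorem orient_faithful : ∀ x y : QuaternionGroup 2, x * y ≠ y * x →
    (∀ k, (orient k).image (Finset.image (word x y)) = orient k) → x = .a 1 ∧ y = .xa 0 := by decide +kernel

theorem word_eq (φ : MulAut (QuaternionGroup 2)) : (φ : QuaternionGroup 2 → QuaternionGroup 2) =
    word (φ (.a 1)) (φ (.xa 0)) := by
  have h0 : ∀ z : QuaternionGroup 2, z = word (.a 1) (.xa 0) z := by decide +kernel
  funext z
  conv_lhs => rw [h0 z]
  cases z with
  | a k => exact map_pow φ _ _
  | xa k => exact (map_mul φ _ _).trans (by rw [map_pow]; rfl)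

theorem exists_faithful : ∃ f : MulAut (QuaternionGroup 2) →* Equiv.Perm (Fin 4), Function.Injective f := by
  classical
  have hne : ∀ φ : MulAut (QuaternionGroup 2), φ (.a 1) * φ (.xa 0) ≠ φ (.xa 0) * φ (.a 1) := by
    intro φ h
    rw [← map_mul, ← map_mul] at h
    exact absurd (φ.injective h) (by decide +kernel)
  have hex : ∀ (φ : MulAut (QuaternionGroup 2)) (k : Fin 4), ∃ l, (orient k).image (Finset.image φ) = orient l :=
    fun φ k => by rw [word_eq φ]; exact orient_permuted _ _ (hne φ) k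
  choose π hπ using hex
  have hone : ∀ k, π 1 k = k := fun k => orient_injective (by
    rw [← hπ]; ext z; simp [MulAut.coe_one])
  have hmul : ∀ φ ψ k, π (φ * ψ) k = π φ (π ψ k) := fun φ ψ k => orient_injective (by
    rw [← hπ, ← hπ, ← hπ, Finset.image_image]
    exact Finset.image_congr fun w _ => by simp [Function.comp_def, Finset.image_image])
  let f : MulAut (QuaternionGroup 2) →* Equiv.Perm (Fin 4) :=
    { toFun := fun φ =>
        { toFun := π φ
          invFun := π φ⁻¹
          left_inv := fun k => by rw [← hmul, inv_mul_cancel, hone]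
          right_inv := fun k => by rw [← hmul, mul_inv_cancel, hone] }
      map_one' := Equiv.ext hone
      map_mul' := fun φ ψ => Equiv.ext (hmul φ ψ) }
  refine ⟨f, (injective_iff_map_eq_one f).2 fun φ hφ => ?_⟩
  obtain ⟨hx, hy⟩ := orient_faithful _ _ (hne φ) (fun k => by
    rw [← word_eq φ, hπ]
    exact congrArg orient (congrFun (congrArg DFunLike.coe hφ) k))
  refine MulEquiv.ext fun z => ?_
  rw [word_eq φ, hx, hy]
  have h0 : ∀ z : QuaternionGroup 2, word (.a 1) (.xa 0) z = z := by decide +kernel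
  exact h0 z

theorem exists_kernel {G : Type*} [Group G] [Finite G] [Group.IsSolvable G] (hU : SolvCompl.Uniq G) :
    ∃ G₀ : Subgroup G, G₀.Normal ∧ (∃ f : G →* Equiv.Perm (Fin 4), f.ker = G₀) ∧
      ∀ P : Subgroup G, P ≤ G₀ → IsPGroup 2 P → IsCyclic P := by
  classical
  haveI : Fact (Nat.Prime 2) := ⟨Nat.prime_two⟩
  by_cases hQ : Nonempty (Cfsg.pCore 2 G ≃* QuaternionGroup 2)
  · obtain ⟨e⟩ := hQ
    obtain ⟨σ, hσ⟩ := exists_faithful
    let c : G →* MulAut (Cfsg.pCore 2 G) := MulAut.conjNormal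
    let f : G →* Equiv.Perm (Fin 4) := σ.comp ((MulAut.congr e).toMonoidHom.comp c)
    refine ⟨f.ker, inferInstance, ⟨f, rfl⟩, fun P hP hP2 => ?_⟩
    have hnc : ¬ IsCyclic (Cfsg.pCore 2 G) := by
      intro h
      have := IsCyclic.isMulCommutative (α := Cfsg.pCore 2 G)
      have h' := this.is_comm.comm (e.symm (.a 1)) (e.symm (.xa 0))
      rw [← map_mul, ← map_mul] at h'
      exact absurd (e.symm.injective h') (by decide +kernel)
    have hinv : ∀ τ : G, τ ∈ P → τ ^ 2 = 1 := by
      intro τ hτ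
      obtain ⟨k, hk⟩ := hP2.exists_orderOf_eq_pow ⟨τ, hτ⟩
      rw [Subgroup.orderOf_mk] at hk
      refine SolvCompl.sq_eq_one hU _ (Cfsg.Lib.Solv.isPGroup_pCore 2) hnc hk fun x hx => ?_
      have h1 : c τ = 1 := (MulAut.congr e).injective (hσ (show σ _ = σ _ by
        rw [map_one (MulAut.congr e), map_one σ]; exact hP hτ))
      have h2 := congrArg (fun ψ : MulAut (Cfsg.pCore 2 G) => ((ψ ⟨x, hx⟩ : Cfsg.pCore 2 G) : G)) h1
      simp only [c, MulAut.conjNormal_apply, MulAut.one_apply] at h2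
      exact mul_inv_eq_iff_eq_mul.1 h2
    by_cases hbot : P = ⊥
    · subst hbot; infer_instance
    obtain ⟨x, hx, hx1⟩ := P.bot_or_exists_ne_one.resolve_left hbot
    have ox : ∀ y : P, y ≠ 1 → orderOf y = 2 := fun y hy =>
      orderOf_eq_prime (Subtype.ext (hinv y y.2)) hy
    refine ⟨⟨x, hx⟩, fun y => ?_⟩
    by_cases hy : y = 1
    · rw [hy]; exact ⟨0, zpow_zero _⟩
    · exact hU 2 Nat.prime_two P hP2 ⟨x, hx⟩ y (ox _ fun h => hx1 (congrArg Subtype.val h)) (ox y hy)
  · have hD := SolvCompl.commutator_cyclic hU hQ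
    obtain ⟨S⟩ : Nonempty (Sylow 2 G) := inferInstance
    by_cases hS : IsCyclic (S : Subgroup G)
    · refine ⟨⊤, inferInstance, ⟨1, MonoidHom.ker_one⟩, fun P _ hP => ?_⟩
      obtain ⟨Q, hQ⟩ := hP.exists_le_sylow
      obtain ⟨g, hg⟩ := MulAction.exists_smul_eq G S Q
      haveI : IsCyclic (Q : Subgroup G) := by
        rw [← hg, Sylow.coe_subgroup_smul]
        exact isCyclic_of_surjective (Subgroup.equivSMul (MulAut.conj g) (S : Subgroup G)).toMonoidHom
          (Subgroup.equivSMul (MulAut.conj g) (S : Subgroup G)).surjective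
      exact isCyclic_of_injective (Subgroup.inclusion hQ) (Subgroup.inclusion_injective hQ)
    obtain ⟨G₀, hidx, hcyc⟩ := SolvCompl.exists_index_two hU hD S hS
    refine ⟨G₀, Subgroup.normal_of_index_eq_two hidx, ?_, hcyc⟩
    let τ : Equiv.Perm (Fin 4) := Equiv.swap 0 1
    let f : G →* Equiv.Perm (Fin 4) :=
      { toFun := fun x => if x ∈ G₀ then 1 else τ
        map_one' := if_pos (one_mem _)
        map_mul' := fun x y => by
          have h := Subgroup.mul_mem_iff_of_index_two hidx (a := x) (b := y)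
          by_cases hx : x ∈ G₀ <;> by_cases hy : y ∈ G₀ <;> simp [h, hx, hy, τ] }
    refine ⟨f, ?_⟩
    ext x
    rw [MonoidHom.mem_ker]
    show (if x ∈ G₀ then (1 : Equiv.Perm (Fin 4)) else τ) = 1 ↔ x ∈ G₀
    by_cases hx : x ∈ G₀
    · simp [hx]
    · simp [hx, τ]

/-- Structure of solvable Frobenius complements. Let G be a finite solvable group that occurs as a Frobenius complement. Then G has a normal subgroup G₀ such that G/G₀ is isomorphic to a subgroup of Sym(4) (G₀ is the kernel of a homomorphism to Sym(4)), all Sylow subgroups of G₀ are cyclic, and G₀ has a presentation ⟨x, y | x^n = 1, y^m = 1, x⁻¹ y x = y^r⟩ with n, m ≥ 1, gcd(r − 1, m) = gcd(n, m) = 1 and r^(n/n′) ≡ 1 (mod m), where n′ is the product of the distinct primes dividing n. -/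
theorem result {G : Type*} [Group G] [Finite G] (hsol : Group.IsSolvable G)
    (hFC : ∃ (L : Type) (_ : Group L) (_ : Finite L) (H : Subgroup L), Cfsg.IsFrobeniusComplement H ∧ Nonempty (G ≃* H)) :
    ∃ G₀ : Subgroup G, G₀.Normal ∧
      (∃ f : G →* Equiv.Perm (Fin 4), f.ker = G₀) ∧
      (∀ (p : ℕ) [Fact p.Prime] (P : Sylow p G₀), IsCyclic P) ∧
      ∃ n m r : ℕ, 0 < n ∧ 0 < m ∧ Nat.Coprime (r - 1) m ∧ Nat.Coprime n m ∧ 1 ≤ r ∧
        r ^ (n / ∏ p ∈ n.primeFactors, p) % m = 1 % m ∧
        Nonempty (G₀ ≃* PresentedGroup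
          ({FreeGroup.of (0 : Fin 2) ^ n, FreeGroup.of (1 : Fin 2) ^ m,
            (FreeGroup.of (0 : Fin 2))⁻¹ * FreeGroup.of 1 * FreeGroup.of 0 * (FreeGroup.of (1 : Fin 2) ^ r)⁻¹} :
            Set (FreeGroup (Fin 2)))) := by
  classical
  haveI := hsol
  obtain ⟨L, _, _, H, hH, ⟨e⟩⟩ := hFC
  obtain ⟨Kn, hKn, -, hc⟩ := Cfsg.Lib.Solv.exists_frobeniusKernel hH
  haveI := hKn
  obtain ⟨V, hVK, hV, hVc, hHV⟩ := Cfsg.Lib.Solv.exists_invariant_abelian hH hc
  haveI := hVc
  have hfpf : ∀ h ∈ H, h ≠ 1 → V ⊓ Subgroup.centralizer ({h} : Set L) = ⊥ := by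
    intro h hh h1
    rw [eq_bot_iff]
    intro v hv
    obtain ⟨hvV, hvc⟩ := Subgroup.mem_inf.1 hv
    rw [Subgroup.mem_bot]
    by_contra hv1
    have hvH : v ∉ H := fun hvH => hv1 (by
      have : v ∈ Kn ⊓ H := ⟨hVK hvV, hvH⟩
      rwa [hc.disjoint.eq_bot, Subgroup.mem_bot] at this)
    have hmem : h ∈ H ⊓ (MulAut.conj v • H) := by
      refine ⟨hh, h, hh, ?_⟩
      show v * h * v⁻¹ = h
      rw [Subgroup.mem_centralizer_singleton_iff.1 hvc, mul_inv_cancel_right]
    rw [hH.2.2 v hvH, Subgroup.mem_bot] at hmem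
    exact h1 hmem
  let ι : G →* L := H.subtype.comp e.toMonoidHom
  have hι : Function.Injective ι := H.subtype_injective.comp e.injective
  have hιH : ∀ x, ι x ∈ H := fun x => (e x).2
  have hord : ∀ x, orderOf (ι x) = orderOf x := fun x => orderOf_injective ι hι x
  have hU : SolvCompl.Uniq G := by
    intro p hp P hP x y ox oy
    haveI := Fact.mk hp
    have hpe : ∀ z : P, orderOf (⟨e z, Subgroup.mem_map_of_mem _ z.2⟩ : P.map e.toMonoidHom) = orderOf z :=
      fun z => by
        exact ((Subgroup.orderOf_mk _ _).trans (orderOf_injective e.toMonoidHom e.injective (z : G))).trans (Subgroup.orderOf_coe z)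
    have h := Cfsg.Lib.Solv.FrobCompl.mem_zpowers_of_pgroup hV hHV hfpf (P.map e.toMonoidHom)
      (hP.map _) (x := ⟨e x, Subgroup.mem_map_of_mem _ x.2⟩) (y := ⟨e y, Subgroup.mem_map_of_mem _ y.2⟩)
      ((hpe x).trans ox) ((hpe y).trans oy)
    obtain ⟨i, hi⟩ := Subgroup.mem_zpowers_iff.1 h
    refine ⟨i, Subtype.ext (e.injective ?_)⟩
    have h' := congrArg Subtype.val hi
    show e ((x ^ i : P) : G) = e (y : G)
    rw [Subgroup.coe_zpow, map_zpow]
    exact (Subgroup.coe_zpow _ _ i).symm.trans h'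
  obtain ⟨G₀, hn, hf, hcyc⟩ := exists_kernel hU
  have hsylow : ∀ (p : ℕ) [Fact p.Prime] (P : Sylow p G₀), IsCyclic P := by
    intro p hp P
    have hiso := ((P : Subgroup G₀).equivMapOfInjective G₀.subtype G₀.subtype_injective).symm
    rcases SolvCompl.cyclic_or_inverted hU ((P : Subgroup G₀).map G₀.subtype) (P.2.map _) with h | ⟨h2, -⟩
    · exact isCyclic_of_surjective hiso.toMonoidHom hiso.surjective
    · subst h2
      haveI := hcyc _ (Subgroup.map_subtype_le _) (P.2.map G₀.subtype)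
      exact isCyclic_of_surjective hiso.toMonoidHom hiso.surjective
  haveI : IsZGroup G₀ := (isZGroup_iff G₀).2 fun p hp P => by haveI := Fact.mk hp; exact hsylow p P
  have hN : ZPres.Norm G₀ := by
    intro z h oz oh hne hnorm
    have hio : ∀ x : G₀, orderOf (ι x) = orderOf x := fun x => (hord x).trans (Subgroup.orderOf_coe x)
    have hz : ι (h : G) ∈ Subgroup.normalizer ((Subgroup.zpowers (ι (z : G)) : Subgroup L) : Set L) := by
      have h1 : Subgroup.map (ι.comp G₀.subtype) (Subgroup.zpowers z) = Subgroup.zpowers (ι (z : G)) :=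
        MonoidHom.map_zpowers _ _
      rw [← h1]
      exact Subgroup.le_normalizer_map _ ⟨h, hnorm, rfl⟩
    have hcm := Cfsg.Lib.Solv.FrobCompl.commute_of_normalizes hV hHV hfpf oz oh hne (hιH _) (hιH _)
      (hio z) (hio h) hz
    exact Subtype.ext (hι (by rw [Subgroup.coe_mul, Subgroup.coe_mul, map_mul, map_mul]; exact hcm.eq))
  exact ⟨G₀, hn, hf, hsylow, ZPres.presentation hN⟩

end Cfsg.Agent.S3358
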