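import Cfsg.Statements.S3360
import Cfsg.Agent.Lib.Recog.TransLinearSpan
import Cfsg.Agent.Lib.Recog.TransLinearLayer
import Cfsg.Agent.Lib.NumTheory.Zsigmondy
-- import your own Cfsg.Agent.* helpers here

set_option autoImplicit false
set_option linter.style.haveILetI false
open Cfsg

namespace Cfsg.Agent.S3360

open Cfsg.Lib.Recog Subgroup
open scoped commutatorElement

theorem four_lt {m : ℕ} (h : 4 ≤ m) : 4 * m + 2 < 3 ^ m := by
  induction m, h using Nat.le_induction with
  | base => norm_num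
  | succ n hn ih => rw [pow_succ]; omega

theorem mul_mem_layer {G : Type*} [Group G] [Finite G] {A : Subgroup G} {e : ℕ} (S : TransLin.Setting A e)
    {M : Subgroup G} (L : RegLin.Layer A M 2) (hM : Nat.card M = 4 * Nat.card A) {x y k : G} (hx : x ∈ M) (hy : y ∈ M)
    (hxy : ¬ Commute x y) (hkA : ∀ a ∈ A, Commute k a) (hkx : Commute k x) (hky : Commute k y) :
    ∀ w ∈ M, Commute k w := by
  set H1 := A ⊔ zpowers x with hH1
  set H := M ⊓ centralizer ({k} : Set G) with hH
  have hmem : ∀ w : G, Commute k w → w ∈ centralizer ({k} : Set G) := fun w h =>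
    mem_centralizer_singleton_iff.2 h.symm.eq
  have h1 : H1 ≤ H := sup_le (le_inf L.le fun a ha => hmem a (hkA a ha)) (zpowers_le.2 ⟨hx, hmem x hkx⟩)
  have h1x : H1 ≤ centralizer ({x} : Set G) := sup_le (fun a ha => mem_centralizer_singleton_iff.2 (L.cen x hx a ha).symm.eq)
    (zpowers_le.2 (mem_centralizer_singleton_iff.2 rfl))
  have hA1 : A ≠ H1 := fun e' => hxy (L.cen y hy x (e' ▸ (le_sup_right : zpowers x ≤ H1) (mem_zpowers x))).symm
  have h12 : H1 ≠ H := fun e' => hxy (by
    have := h1x (e'.symm ▸ (show y ∈ H from ⟨hy, hmem y hky⟩))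
    exact ((mem_centralizer_singleton_iff.1 this).symm))
  have hA0 : 0 < Nat.card A := Nat.card_pos
  have c1 : 2 * Nat.card A ≤ Nat.card H1 := by
    obtain ⟨t, ht⟩ := Subgroup.card_dvd_of_le (le_sup_left : A ≤ H1)
    rw [ht, mul_comm 2]
    refine Nat.mul_le_mul_left _ ?_
    rcases t with _ | _ | t
    · exact absurd ht (by rw [mul_zero]; exact Nat.card_pos.ne')
    · exact absurd (Subgroup.eq_of_le_of_card_ge le_sup_left (by simp [ht])) hA1
    · omega
  have c2 : 2 * Nat.card H1 ≤ Nat.card H := by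
    obtain ⟨t, ht⟩ := Subgroup.card_dvd_of_le h1
    rw [ht, mul_comm 2]
    refine Nat.mul_le_mul_left _ ?_
    rcases t with _ | _ | t
    · exact absurd ht (by rw [mul_zero]; exact Nat.card_pos.ne')
    · exact absurd (Subgroup.eq_of_le_of_card_ge h1 (by simp [ht])) h12
    · omega
  have hHM : H = M := Subgroup.eq_of_le_of_card_ge inf_le_left (by omega)
  intro w hw
  rw [← hHM] at hw
  exact (mem_centralizer_singleton_iff.1 hw.2).symm

theorem two_cases (q : ℕ) (hq : q.Prime) (hq2 : q ≠ 2) (h : q + 1 ∣ 24) :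
    q ^ 2 ∈ ({9, 25, 49, 121, 529, 81} : Set ℕ) := by
  have : q ≤ 23 := by have := Nat.le_of_dvd (by norm_num) h; omega
  interval_cases q <;> revert h hq hq2 <;> norm_num

/-- In degree two the index of `A` divides `24`. -/
theorem index_dvd {G : Type*} [Group G] [Finite G] {A : Subgroup G} [A.Normal] (S : TransLin.Setting A 2)
    {M : Subgroup G} (L : RegLin.Layer A M 2) (hM : Nat.card M = 4 * Nat.card A)
    (hC : ∀ g : G, g ∈ centralizer (A : Set G)) : Nat.card G ∣ Nat.card A * 24 := by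
  classical
  haveI := L.normal
  obtain ⟨z, hzA, hz2, hz1, hzc, -, -⟩ := S.layer L
  have hcA : ∀ g : G, ∀ a ∈ A, Commute g a := fun g a ha => (mem_centralizer_iff.1 (hC g) a ha).symm
  obtain ⟨x, hx, y, hy, hxy⟩ := L.big
  let π := QuotientGroup.mk' A
  haveI : (M.map π).Normal := L.normal.map π (QuotientGroup.mk'_surjective A)
  have hM4 : Nat.card (M.map π) = 4 := by
    have e := (π.comp M.subtype).ker.card_mul_index
    rw [Subgroup.index_ker, MonoidHom.range_comp, range_subtype, ← MonoidHom.comap_ker, hM] at e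
    have hk : (MonoidHom.ker π).comap M.subtype = A.subgroupOf M := by rw [QuotientGroup.ker_mk']; rfl
    rw [(Nat.card_congr (MulEquiv.subgroupCongr hk).toEquiv).trans
      (Nat.card_congr (Subgroup.subgroupOfEquivOfLe L.le).toEquiv), mul_comm 4] at e
    exact Nat.eq_of_mul_eq_mul_left Nat.card_pos e
  let T := {r : M.map π // r ≠ 1}
  have hT : Nat.card T = 3 := by
    haveI := Fintype.ofFinite (M.map π)
    rw [Nat.card_eq_fintype_card, Fintype.card_subtype_compl, Fintype.card_subtype_eq, ← Nat.card_eq_fintype_card,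
      hM4]
  let c : G →* MulAut (M.map π) := MulAut.conjNormal.comp π
  let t : MulAut (M.map π) →* Equiv.Perm T :=
    { toFun := fun σ => σ.toEquiv.subtypeEquiv fun r => (σ.map_ne_one_iff).symm
      map_one' := rfl
      map_mul' := fun _ _ => rfl }
  set f := t.comp c with hf
  have hfix : ∀ k ∈ f.ker, ∀ w ∈ M, ⁅k, w⁆ ∈ zpowers z := by
    intro k hk w hw
    have hmemA : ⁅k, w⁆ ∈ A := by
      rw [← QuotientGroup.eq_one_iff, ← QuotientGroup.mk'_apply, map_commutatorElement,
        commutatorElement_eq_one_iff_commute]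
      by_cases hwA : (⟨π w, mem_map_of_mem π hw⟩ : M.map π) = 1
      · rw [show π w = 1 from congrArg Subtype.val hwA]; exact Commute.one_right _
      have h1 := congrArg (fun σ : Equiv.Perm T => ((σ ⟨_, hwA⟩).1 : G ⧸ A)) (show f k = 1 from hk)
      exact mul_inv_eq_iff_eq_mul.1 (show π k * π w * (π k)⁻¹ = π w from h1)
    by_cases h1 : ⁅k, w⁆ = 1
    · rw [h1]; exact one_mem _
    have hsq : ⁅k, w⁆ ^ 2 = 1 := by
      have e2 : ⁅k, w⁆ * w = k * w * k⁻¹ := by rw [commutatorElement_def]; group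
      have h3 := congrArg (· ^ 2) e2
      simp only [conj_pow] at h3
      rw [(L.cen w hw _ hmemA).symm.mul_pow, (hcA k _ (L.pow w hw)).eq, mul_inv_cancel_right] at h3
      exact mul_eq_right.1 h3
    haveI := S.cyclic
    haveI : Fact (Nat.Prime 2) := ⟨Nat.prime_two⟩
    have he : zpowers (⟨⁅k, w⁆, hmemA⟩ : A) = zpowers ⟨z, hzA⟩ := by
      refine Cfsg.Lib.TwoFus.eq_of_card_eq_cyclic ?_
      rw [Nat.card_zpowers, Nat.card_zpowers, Subgroup.orderOf_mk, Subgroup.orderOf_mk,
        orderOf_eq_prime hsq h1, orderOf_eq_prime hz2 hz1]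
    have h2 := congrArg (Subgroup.map A.subtype) he
    rw [MonoidHom.map_zpowers, MonoidHom.map_zpowers] at h2
    exact h2 ▸ mem_zpowers ⁅k, w⁆
  have hzcen : ∀ s ∈ zpowers z, ∀ g : G, Commute g s := fun s hs g => hcA g s ((zpowers_le.2 hzA) hs)
  have hadd : ∀ a b w : G, ⁅b, w⁆ ∈ zpowers z → ⁅a * b, w⁆ = ⁅a, w⁆ * ⁅b, w⁆ := fun a b w hb => by
    have e : ⁅a * b, w⁆ = a * ⁅b, w⁆ * a⁻¹ * ⁅a, w⁆ := by simp only [commutatorElement_def]; group
    rw [e, (hzcen _ hb a).eq, mul_inv_cancel_right, (hzcen _ hb ⁅a, w⁆).eq]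
  let ψ : f.ker →* zpowers z × zpowers z :=
    MonoidHom.mk' (fun k => (⟨⁅(k : G), x⁆, hfix k k.2 x hx⟩, ⟨⁅(k : G), y⁆, hfix k k.2 y hy⟩)) fun a b =>
      Prod.ext (Subtype.ext (hadd a b x (hfix b b.2 x hx))) (Subtype.ext (hadd a b y (hfix b b.2 y hy)))
  have hkerψ : ψ.ker.map f.ker.subtype ≤ A := by
    rintro _ ⟨k, hk, rfl⟩
    refine S.full L (by rw [hM]) hC (mul_mem_layer S L hM hx hy hxy (hcA _) ?_ ?_)
    · exact commutatorElement_eq_one_iff_commute.1 (congrArg Subtype.val (congrArg Prod.fst hk))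
    · exact commutatorElement_eq_one_iff_commute.1 (congrArg Subtype.val (congrArg Prod.snd hk))
  haveI : Fact (Nat.Prime 2) := ⟨Nat.prime_two⟩
  have hK : Nat.card f.ker ∣ Nat.card A * 4 := by
    rw [← ψ.ker.card_mul_index, Subgroup.index_ker]
    refine mul_dvd_mul ?_ ?_
    · rw [Nat.card_congr (Subgroup.equivMapOfInjective ψ.ker f.ker.subtype f.ker.subtype_injective).toEquiv]
      exact Subgroup.card_dvd_of_le hkerψ
    · have := Subgroup.card_subgroup_dvd_card ψ.range
      rwa [Nat.card_prod, Nat.card_zpowers, orderOf_eq_prime hz2 hz1] at this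
  have hR : f.ker.index ∣ 6 := by
    rw [Subgroup.index_ker]
    have := Subgroup.card_subgroup_dvd_card f.range
    rwa [Nat.card_perm, hT] at this
  rw [← f.ker.card_mul_index, show Nat.card A * 24 = Nat.card A * 4 * 6 by ring]
  exact mul_dvd_mul hK hR

/-- Let q be a prime and V a non-trivial finite vector space over the field with q elements, and let G be a finite solvable group acting faithfully and linearly on V and transitively on the non-zero vectors. Then either V can be identified with the additive group of a finite field F in such a way that every element of G acts as x ↦ a·σ(x) for some a ∈ F and some field automorphism σ, or the number of elements of V is one of 3^2, 5^2, 7^2, 11^2, 23^2, 3^4. -/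
theorem result
    (q : ℕ) [Fact q.Prime] {V : Type*} [AddCommGroup V] [Module (ZMod q) V] [Finite V] [Nontrivial V]
    {G : Type*} [Group G] [Finite G] (hsol : Group.IsSolvable G)
    (ρ : G →* (V ≃ₗ[ZMod q] V)) (hρ : Function.Injective ρ)
    (htrans : ∀ v w : V, v ≠ 0 → w ≠ 0 → ∃ g : G, ρ g v = w) :
    (∃ (F : Type) (_ : Field F) (_ : Fintype F) (e : V ≃+ F),
        ∀ g : G, ∃ (a : F) (σ : F ≃+* F), ∀ v : V, e (ρ g v) = a * σ (e v)) ∨
    Nat.card V ∈ ({9, 25, 49, 121, 529, 81} : Set ℕ) := by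
  classical
  haveI := hsol
  have hqp : q.Prime := Fact.out
  obtain ⟨A, ⟨hAn, hA⟩, hAmax⟩ := (Set.toFinite
    {A : Subgroup G | A.Normal ∧ ∀ a ∈ A, ∀ b ∈ A, Commute a b}).exists_maximal
    ⟨⊥, inferInstance, fun a ha b hb => by rw [mem_bot.1 ha]; exact Commute.one_left b⟩
  haveI := hAn
  have hmax : ∀ B : Subgroup G, B.Normal → (∀ a ∈ B, ∀ b ∈ B, Commute a b) → A ≤ B → B = A :=
    fun B hB hBc hle => le_antisymm (hAmax ⟨hB, hBc⟩ hle) hle
  by_cases hsl : ∃ (F : Type) (_ : Field F) (_ : Fintype F) (e : V ≃+ F),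
      ∀ g : G, ∃ (a : F) (σ : F ≃+* F), ∀ v : V, e (ρ g v) = a * σ (e v)
  · exact Or.inl hsl
  right
  obtain ⟨d, e, hd, he, hV, hAc, hAd, hid, -, hind, hsemi⟩ := TransLin.span_props hρ htrans A hA
  have he1 : e ≠ 1 := fun h => hsl (hsemi h).1
  have he2 : 2 ≤ e := by omega
  have S : TransLin.Setting A e := ⟨hAn, hAc, hA, hmax, hind⟩
  set n := Module.finrank (ZMod q) V with hn
  have hVn : Nat.card V = q ^ n := by
    have := Module.natCard_eq_pow_finrank (K := ZMod q) (V := V)
    rwa [Nat.card_zmod] at this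
  have hde : n = d * e := Nat.pow_right_injective hqp.two_le (show q ^ n = q ^ (d * e) by rw [← hVn, hV, pow_mul])
  have hn2 : 2 ≤ n := by rw [hde]; exact he2.trans (Nat.le_mul_of_pos_left e hd)
  have hdn : d < n := by rw [hde]; exact (Nat.lt_mul_iff_one_lt_right hd).2 he2
  have hG : q ^ n - 1 ∣ Nat.card G := hVn ▸ TransLin.card_dvd htrans
  have hqd : 2 ≤ q ^ d := hqp.two_le.trans (Nat.le_self_pow hd.ne' q)
  set C := centralizer (A : Set G) with hCdef
  have hAC : A ≤ C := fun a ha => mem_centralizer_iff.2 fun b hb => hA b hb a ha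
  have hCne : C ≠ A := by
    intro hCA
    have h1 : Nat.card G ≤ (q ^ d - 1) * d := by
      rw [← A.card_mul_index]
      refine Nat.mul_le_mul (Nat.le_of_dvd (by omega) hAd) (Nat.le_of_dvd hd ?_)
      rw [← hCA]
      exact hid
    have h2 : (q ^ d) ^ 2 ≤ q ^ n := by
      rw [← pow_mul]; exact Nat.pow_le_pow_right hqp.pos (by rw [hde]; exact Nat.mul_le_mul_left d he2)
    have h3 : d < q ^ d := Nat.lt_pow_self hqp.one_lt
    have h4 := Nat.le_of_dvd Nat.card_pos hG
    obtain ⟨R, hR⟩ : ∃ R, q ^ d = R + 1 := ⟨q ^ d - 1, by omega⟩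
    rw [hR, Nat.add_sub_cancel] at h1
    rw [hR] at h2
    have h5 : (R + 1) ^ 2 = R * (R + 2) + 1 := by ring
    have h6 : R * d < R * (R + 2) := Nat.mul_lt_mul_of_pos_left (by omega) (by omega)
    omega
  obtain ⟨M, p, L, hMC⟩ := RegLin.exists_layer A C hA hmax hAC hCne
    (fun x hx a ha => (mem_centralizer_iff.1 hx a ha).symm)
  obtain ⟨z, hzA, hzp, hz1, hzc, hpA, i, hi, hMcard, hpe⟩ := S.layer L
  have hpi : p ≤ p ^ i := Nat.le_self_pow hi.ne' p
  have hp2 := L.prime.two_le
  -- consequences of a primitive prime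
  by_cases hn2' : n = 2
  · -- degree two
    have hd1 : d = 1 := by omega
    have he' : e = 2 := by rw [hd1, one_mul] at hde; omega
    subst he'
    obtain rfl : p = 2 := by omega
    have hi1 : i = 1 := by
      by_contra hne
      have : 2 ^ 2 ≤ 2 ^ i := Nat.pow_le_pow_right two_pos (by omega)
      omega
    subst hi1
    subst hd1
    have hCtop : C = ⊤ := Subgroup.index_eq_one.1 (Nat.dvd_one.1 hid)
    have h24 := index_dvd S L (by rw [hMcard]; norm_num) (fun g => by
      show g ∈ C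
      rw [hCtop]; exact mem_top g)
    rw [pow_one] at hAd
    have hd2 : q ^ 2 - 1 ∣ (q - 1) * 24 := (hn2' ▸ hG).trans (h24.trans (mul_dvd_mul_right hAd 24))
    rw [show q ^ 2 - 1 = (q - 1) * (q + 1) by rw [mul_comm, ← Nat.sq_sub_sq, one_pow]] at hd2
    have hd3 : q + 1 ∣ 24 := Nat.dvd_of_mul_dvd_mul_left (by have := hqp.two_le; omega) hd2
    have hq3 : q ≠ 2 := by
      rintro rfl
      have := Nat.le_of_dvd (by norm_num) (hpA.trans hAd)
      omega
    rw [hVn, hn2']
    exact two_cases q hqp hq3 hd3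
  have hn0 : 0 < n := by omega
  by_cases h26 : q = 2 ∧ n = 6
  · -- no primitive prime
    exfalso
    obtain ⟨hq, hn6⟩ := h26
    have hp2' : p ≠ 2 := by
      rintro rfl
      have h2 : 2 ∣ q ^ d - 1 := hpA.trans hAd
      have h3 : 2 ∣ q ^ d := by rw [hq]; exact dvd_pow_self 2 hd.ne'
      omega
    rw [hn6] at hde
    have hd3 : d ≤ 3 := by
      by_contra hlt
      have : 4 * 2 ≤ d * e := Nat.mul_le_mul (by omega) he2
      omega
    have hpdvd : p ∣ 2 ^ d - 1 := hq ▸ hpA.trans hAd
    interval_cases d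
    · exact L.prime.ne_one (Nat.dvd_one.1 (by simpa using hpdvd))
    · -- `d = 2`, `e = 3`
      have he3 : e = 3 := by omega
      subst he3
      obtain rfl : p = 3 := by
        have := Nat.le_of_dvd (by norm_num) hpdvd
        omega
      have hi1 : i = 1 := by
        by_contra hne
        have : 3 ^ 2 ≤ 3 ^ i := Nat.pow_le_pow_right (by norm_num) (by omega)
        omega
      subst hi1
      haveI : Fact (Nat.Prime 7) := ⟨by norm_num⟩
      have hA7 : ¬ 7 ∣ Nat.card A := fun h => by
        have := Nat.le_of_dvd (by rw [hq]; norm_num) (h.trans hAd)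
        subst hq
        norm_num at this
      have h7 : 7 ∣ Nat.card G := (Dvd.intro 9 (by rw [hq, hn6]; norm_num)).trans hG
      have h7C : 7 ∣ Nat.card C := by
        rw [← C.card_mul_index] at h7
        refine ((Nat.Prime.dvd_mul (by norm_num)).1 h7).resolve_right fun h => ?_
        have := Nat.le_of_dvd (by norm_num) (h.trans hid)
        omega
      obtain ⟨⟨c, hcC⟩, hc7⟩ := exists_prime_orderOf_dvd_card' 7 h7C
      rw [Subgroup.orderOf_mk] at hc7
      have hcp : c ^ 7 = 1 := hc7 ▸ pow_orderOf_eq_one c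
      haveI := L.normal
      let π := QuotientGroup.mk' A
      haveI : (M.map π).Normal := L.normal.map π (QuotientGroup.mk'_surjective A)
      have hM9 : Nat.card (M.map π) = 9 := by
        have e' := (π.comp M.subtype).ker.card_mul_index
        rw [Subgroup.index_ker, MonoidHom.range_comp, range_subtype, ← MonoidHom.comap_ker, hMcard] at e'
        have hk : (MonoidHom.ker π).comap M.subtype = A.subgroupOf M := by rw [QuotientGroup.ker_mk']; rfl
        rw [(Nat.card_congr (MulEquiv.subgroupCongr hk).toEquiv).trans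
          (Nat.card_congr (Subgroup.subgroupOfEquivOfLe L.le).toEquiv), mul_comm (3 ^ (2 * 1))] at e'
        exact Nat.eq_of_mul_eq_mul_left Nat.card_pos e'
      let σ : MulAut (M.map π) := MulAut.conjNormal (π c)
      let τ : Equiv.Perm (M.map π) := MulAut.toPerm _ σ
      let F : Subgroup (M.map π) := σ.toMonoidHom.eqLocus (MonoidHom.id _)
      have hσ7 : τ ^ 7 = 1 := by
        have h1 : σ ^ 7 = 1 := by
          rw [← map_pow, ← map_pow, hcp, map_one, map_one]
        rw [show τ = MulAut.toPerm _ σ from rfl, ← map_pow, h1, map_one]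
      have hF : F = ⊤ := by
        haveI := Fintype.ofFinite (M.map π)
        have h1 := Equiv.Perm.card_compl_support_modEq (p := 7) (n := 1) (σ := τ) (by rw [pow_one]; exact hσ7)
        have h2 : τ.supportᶜ.card = Nat.card F := by
          rw [← Fintype.card_coe, ← Nat.card_eq_fintype_card]
          refine Nat.card_congr (Equiv.subtypeEquivRight fun r => ?_)
          rw [Finset.mem_compl, Equiv.Perm.notMem_support]
          rfl
        rw [h2, ← Nat.card_eq_fintype_card, hM9] at h1
        have h3 : Nat.card F ∣ 3 ^ 2 := by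
          have := Subgroup.card_subgroup_dvd_card F
          rwa [hM9] at this
        obtain ⟨j, hj, hj'⟩ := (Nat.dvd_prime_pow Nat.prime_three).1 h3
        refine eq_top_of_card_eq F ?_
        rw [hM9, hj']
        rw [hj'] at h1
        interval_cases j <;> revert h1 <;> decide
      have hcfix : ∀ x ∈ M, Commute c x := by
        intro x hx
        have h1 : (⟨π x, mem_map_of_mem π hx⟩ : M.map π) ∈ F := hF ▸ mem_top _
        have h2 : π c * π x * (π c)⁻¹ = π x := congrArg Subtype.val h1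
        set δ := c * x * c⁻¹ * x⁻¹ with hδ
        have hδA : δ ∈ A := by
          rw [← QuotientGroup.eq_one_iff, ← QuotientGroup.mk'_apply, hδ, map_mul, map_mul, map_mul, map_inv, map_inv]
          exact mul_inv_eq_one.2 h2
        have hcd : Commute c δ := (mem_centralizer_iff.1 hcC δ hδA).symm
        have hit : ∀ k : ℕ, c ^ k * x * (c ^ k)⁻¹ = δ ^ k * x := by
          intro k
          induction k with
          | zero => simp
          | succ k ih =>
            calc c ^ (k + 1) * x * (c ^ (k + 1))⁻¹ = c * (c ^ k * x * (c ^ k)⁻¹) * c⁻¹ := by rw [pow_succ']; group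
              _ = (c * δ ^ k) * (x * c⁻¹) := by rw [ih]; group
              _ = δ ^ k * (c * x * c⁻¹) := by rw [(hcd.pow_right k).eq]; group
              _ = δ ^ (k + 1) * x := by rw [pow_succ, mul_assoc (δ ^ k), hδ]; group
        have h3 := hit 7
        rw [hcp, one_mul, inv_one, mul_one, right_eq_mul] at h3
        have h4 : δ = 1 := by
          by_contra hne
          exact hA7 ((orderOf_eq_prime h3 hne) ▸ Subgroup.orderOf_dvd_natCard A hδA)
        exact mul_inv_eq_iff_eq_mul.1 (mul_inv_eq_one.1 h4)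
      have hcent := (S.bound (fun w hw => mem_centralizer_iff.2 fun a ha => (L.cen w hw a ha).symm) L.comm).2
        (by rw [S.center_layer L, hMcard]; norm_num) c hcC hcfix
      -- the centre of the centralizer is `A`
      let N : Subgroup G :=
        { carrier := {k | k ∈ C ∧ ∀ l ∈ C, Commute k l}
          one_mem' := ⟨one_mem C, fun l _ => Commute.one_left l⟩
          mul_mem' := fun ha hb => ⟨mul_mem ha.1 hb.1, fun l hl => (ha.2 l hl).mul_left (hb.2 l hl)⟩
          inv_mem' := fun ha => ⟨inv_mem ha.1, fun l hl => (ha.2 l hl).inv_left⟩ }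
      haveI : N.Normal := ⟨fun k hk s => ⟨(inferInstance : C.Normal).conj_mem k hk.1 s, fun l hl => by
        have h1 := hk.2 _ ((inferInstance : C.Normal).conj_mem l hl s⁻¹)
        have h2 := h1.map (MulAut.conj s).toMonoidHom
        simpa [MulAut.conj_apply, mul_assoc] using h2⟩⟩
      have hNA := hmax N inferInstance (fun a ha b hb => ha.2 b hb.1)
        (fun a ha => ⟨hAC ha, fun l hl => mem_centralizer_iff.1 hl a ha⟩)
      have hcA : c ∈ A := hNA ▸ (show c ∈ N from ⟨hcC, hcent⟩)
      exact hA7 (hc7 ▸ Subgroup.orderOf_dvd_natCard A hcA)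
    · have := Nat.le_of_dvd (by norm_num) hpdvd
      norm_num at hpdvd
      have := (Nat.prime_dvd_prime_iff_eq L.prime (by norm_num : Nat.Prime 7)).1 hpdvd
      omega
  -- the primitive prime
  have step : ∀ r : ℕ, TransLin.Prim q n r → ¬ r ∣ Nat.card A ∧ r ∣ Nat.card G ∧ r ∣ Nat.card C := by
    intro r P
    have hrA : ¬ r ∣ Nat.card A := fun h => P.prim d hd hdn (h.trans hAd)
    have hrG : r ∣ Nat.card G := P.dvd.trans hG
    refine ⟨hrA, hrG, ?_⟩
    have h := hrG
    rw [← C.card_mul_index] at h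
    refine (P.prime.dvd_mul.1 h).resolve_right fun h' => ?_
    have := Nat.le_of_dvd hd (h'.trans hid)
    have := P.lt hn0
    omega
  have main : ∀ r : ℕ, TransLin.Prim q n r →
      ∃ j : ℕ, d = 1 ∧ 0 < j ∧ e = 2 ^ j ∧ r = e + 1 ∧ ¬ r * r ∣ Nat.card G ∧ 2 ∣ Nat.card A := by
    intro r P
    obtain ⟨hrA, hrG, hrC⟩ := step r P
    haveI := Fact.mk P.prime
    obtain ⟨⟨g, hgC⟩, hog⟩ := exists_prime_orderOf_dvd_card' r hrC
    rw [Subgroup.orderOf_mk] at hog
    have hg : g ^ r = 1 := hog ▸ pow_orderOf_eq_one g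
    have hg1 : g ≠ 1 := fun h => by rw [h, orderOf_one] at hog; exact P.prime.ne_one hog.symm
    obtain ⟨M', j, L', hd1, hj, hej, hre, hMc, hfix⟩ := S.prim_step hρ hd he2 hn.symm hde P hrA hgC hg hg1
    refine ⟨j, hd1, hj, hej, hre, fun hsq => ?_, (S.layer L').choose_spec.2.2.2.2.1⟩
    subst hd1
    have hCtop : ∀ u : G, u ∈ C := fun u => by
      rw [Subgroup.index_eq_one.1 (Nat.dvd_one.1 hid)]; exact mem_top u
    -- a Sylow subgroup is cyclic
    obtain ⟨R⟩ : Nonempty (Sylow r G) := inferInstance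
    have huniq : ∀ u w : R, orderOf u = r → orderOf w = r → w ∈ zpowers u := by
      intro u w hu hw
      haveI : IsCyclic R ∨ True := Or.inr trivial
      have hmem : ∀ a b : G, a ^ r = 1 → b ^ r = 1 → a ≠ 1 → Commute a b → b ∈ zpowers a := fun a b ha hb ha1 hab =>
        TransLin.prime_unique (P.ne hn0) (fun x hx hx1 => TransLin.fix_zero hρ hn0 hn.symm P hx hx1) ha hb ha1 hab
      -- compare through a central element
      haveI : Nontrivial R := ⟨u, 1, fun h => by rw [h, orderOf_one] at hu; exact P.prime.ne_one hu.symm⟩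
      haveI := R.isPGroup'.center_nontrivial
      obtain ⟨cc, hcc⟩ := exists_prime_orderOf_dvd_card' (G := center R) r (by
        obtain ⟨k, hk⟩ := IsPGroup.iff_card.1 (R.isPGroup'.to_subgroup (center R))
        rw [hk]
        refine dvd_pow_self r fun h0 => ?_
        rw [h0, pow_zero] at hk
        exact absurd hk Finite.one_lt_card.ne')
      rw [← Subgroup.orderOf_coe] at hcc
      have hcom : ∀ t : R, Commute ((cc : R) : G) (t : G) := fun t =>
        congrArg Subtype.val ((Subgroup.mem_center_iff.1 cc.2 t).symm)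
      have hor : ∀ t : R, orderOf t = r → (t : G) ^ r = 1 ∧ (t : G) ≠ 1 := fun t ht =>
        ⟨orderOf_dvd_iff_pow_eq_one.1 (by rw [Subgroup.orderOf_coe, ht]),
          fun h => by rw [show t = 1 from Subtype.ext h, orderOf_one] at ht; exact P.prime.ne_one ht.symm⟩
      obtain ⟨hc', hc1'⟩ := hor _ hcc
      obtain ⟨hu', hu1'⟩ := hor u hu
      obtain ⟨hw', -⟩ := hor w hw
      have e1 := hmem _ _ hu' hc' hu1' (hcom u).symm
      have e2 := hmem _ _ hc' hw' hc1' (hcom w)
      have e3 : (w : G) ∈ zpowers (u : G) := (zpowers_le.2 e1) e2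
      obtain ⟨k, hk⟩ := mem_zpowers_iff.1 e3
      exact mem_zpowers_iff.2 ⟨k, Subtype.ext (by simpa using hk)⟩
    have hR : IsCyclic R := (Cfsg.Lib.ZStar.isCyclic_or_inverted R.isPGroup' huniq).resolve_right fun h => by
      have h1 := h.1
      have h2 : 2 ≤ 2 ^ j := Nat.le_self_pow hj.ne' 2
      omega
    obtain ⟨gen, hgen⟩ := hR.exists_generator
    obtain ⟨k, hk⟩ := IsPGroup.iff_card.1 R.isPGroup'
    have hk2 : 2 ≤ k := by
      have h1 : r ^ 2 ∣ Nat.card R := R.pow_dvd_card_of_pow_dvd_card (by rw [pow_two]; exact hsq)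
      rw [hk] at h1
      exact (Nat.pow_dvd_pow_iff_le_right P.prime.one_lt).1 h1
    have hgo : orderOf (gen : G) = r ^ k := by
      rw [Subgroup.orderOf_coe, orderOf_eq_card_of_forall_mem_zpowers hgen, hk]
    set h := (gen : G) ^ (r ^ (k - 2)) with hh
    have hoh : orderOf h = r * r := by
      rw [hh, orderOf_pow_of_dvd (pow_ne_zero _ P.prime.ne_zero) (hgo ▸ pow_dvd_pow r (by omega)), hgo,
        Nat.pow_div (by omega) P.prime.pos, show k - (k - 2) = 2 by omega, pow_two]
    have hgr : (h ^ r) ^ r = 1 := by rw [← pow_mul, ← hoh, pow_orderOf_eq_one]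
    have hgr1 : h ^ r ≠ 1 := pow_ne_one_of_lt_orderOf P.prime.ne_zero (by
      rw [hoh]; exact (Nat.lt_mul_iff_one_lt_left P.prime.pos).2 P.prime.one_lt)
    obtain ⟨M'', j'', L'', -, -, hej'', -, hMc'', hfix''⟩ :=
      S.prim_step hρ hd he2 hn.symm hde P hrA (hCtop _) hgr hgr1
    haveI := L''.normal
    let π := QuotientGroup.mk' A
    haveI : (M''.map π).Normal := L''.normal.map π (QuotientGroup.mk'_surjective A)
    have hQ : Nat.card (M''.map π) = e * e := by
      have e' := (π.comp M''.subtype).ker.card_mul_index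
      rw [Subgroup.index_ker, MonoidHom.range_comp, range_subtype, ← MonoidHom.comap_ker, hMc''] at e'
      have hk' : (MonoidHom.ker π).comap M''.subtype = A.subgroupOf M'' := by rw [QuotientGroup.ker_mk']; rfl
      rw [(Nat.card_congr (MulEquiv.subgroupCongr hk').toEquiv).trans
        (Nat.card_congr (Subgroup.subgroupOfEquivOfLe L''.le).toEquiv), mul_comm (e * e)] at e'
      exact Nat.eq_of_mul_eq_mul_left Nat.card_pos e'
    let Φ : G →* Equiv.Perm (M''.map π) := (MulAut.toPerm _).comp (MulAut.conjNormal.comp π)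
    have hfixr : ∀ x, (Φ h ^ r) x = x → x = 1 := by
      intro x hx
      rw [← map_pow] at hx
      obtain ⟨w, hw, hwx⟩ := x.2
      have h1 : π (h ^ r) * (x : G ⧸ A) * (π (h ^ r))⁻¹ = (x : G ⧸ A) := congrArg Subtype.val hx
      rw [← hwx] at h1
      refine Subtype.ext ?_
      rw [← hwx]
      show π w = 1
      rw [QuotientGroup.mk'_apply, QuotientGroup.eq_one_iff]
      refine hfix'' w hw ?_
      rw [← QuotientGroup.eq_one_iff, ← QuotientGroup.mk'_apply, map_mul, map_mul, map_mul, map_inv, map_inv]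
      exact mul_inv_eq_one.2 h1
    have hoΦ : orderOf (Φ h) = r * r := by
      rw [← pow_two]
      refine orderOf_eq_prime_pow (n := 1) ?_ ?_
      · rw [pow_one]
        intro h1
        have hall : ∀ x : M''.map π, x = 1 := fun x => hfixr x (by rw [h1]; rfl)
        haveI : Subsingleton (M''.map π) := ⟨fun a b => (hall a).trans (hall b).symm⟩
        have := Nat.card_of_subsingleton (1 : M''.map π)
        rw [hQ] at this
        have : 2 * 2 ≤ e * e := Nat.mul_le_mul he2 he2
        omega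
      · rw [← map_pow, show r ^ (1 + 1) = r * r by ring, ← hoh, pow_orderOf_eq_one, map_one]
    have hdiv := TransLin.sq_dvd (Φ h) hoΦ 1 (map_one (MulAut.conjNormal (π h) : MulAut (M''.map π))) hfixr
    rw [hQ, hre] at hdiv
    have h5 := Nat.le_of_dvd (by have : 2 * 2 ≤ e * e := Nat.mul_le_mul he2 he2; omega) hdiv
    have h6 : (e + 1) * (e + 1) = e * e + 2 * e + 1 := by ring
    omega
  obtain ⟨r, hr, hrd, hrp⟩ := Cfsg.Agent.NumTheory.zsigmondy q n hqp.one_lt (by omega) h26 (fun h => hn2' h.1)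
  obtain ⟨j, rfl, hj, hej, hre, -, hA2⟩ := main r ⟨hr, hrd, hrp⟩
  rw [one_mul] at hde
  rw [pow_one] at hAd hqd
  obtain ⟨t, ht⟩ : ∃ t, j = t + 1 := ⟨j - 1, by omega⟩
  have ht1 : 1 ≤ t := by
    by_contra h0
    obtain rfl : t = 0 := by omega
    subst ht
    norm_num at hej
    omega
  set m := 2 ^ t with hm
  have hnm : n = 2 * m := by rw [hde, hej, ht, pow_succ, mul_comm]
  have hqodd : Odd q := hqp.odd_of_ne_two fun h2 => by
    have := hA2.trans hAd
    rw [h2] at this
    omega
  have hm2 : 2 ≤ m := Nat.le_self_pow (by omega) 2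
  have hprim : ∀ s : ℕ, s.Prime → s ≠ 2 → s ∣ q ^ m + 1 → TransLin.Prim q n s := by
    intro s hs hs2 hsd
    haveI := Fact.mk hs
    have h1 : (q : ZMod s) ^ m = -1 := by
      rw [eq_neg_iff_add_eq_zero]
      exact_mod_cast (ZMod.natCast_eq_zero_iff (q ^ m + 1) s).2 hsd
    have hneg : (-1 : ZMod s) ≠ 1 := fun h => hs2 (by
      have h2 : ((2 : ℕ) : ZMod s) = 0 := by push_cast; linear_combination -h
      exact (Nat.prime_dvd_prime_iff_eq hs Nat.prime_two).1 ((ZMod.natCast_eq_zero_iff 2 s).1 h2))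
    haveI : Fact (Nat.Prime 2) := ⟨Nat.prime_two⟩
    have ho : orderOf (q : ZMod s) = n := by
      rw [hnm, hm, ← pow_succ']
      refine orderOf_eq_prime_pow ?_ ?_
      · rw [← hm, h1]; exact hneg
      · rw [pow_succ, pow_mul, ← hm, h1]; norm_num
    have hq1 : ∀ k, (q : ZMod s) ^ k = 1 ↔ s ∣ q ^ k - 1 := fun k => by
      rw [← ZMod.natCast_eq_zero_iff, Nat.cast_sub (Nat.one_le_pow _ _ hqp.pos), Nat.cast_pow, Nat.cast_one,
        sub_eq_zero]
    exact ⟨hs, (hq1 n).1 (ho ▸ pow_orderOf_eq_one _), fun k hk hkn h => by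
      have := Nat.le_of_dvd hk (ho ▸ orderOf_dvd_of_pow_eq_one ((hq1 k).2 h))
      omega⟩
  obtain ⟨Q, hQ, hQodd⟩ : ∃ Q, q ^ m + 1 = 2 * Q ∧ Odd Q := by
    obtain ⟨c, hc⟩ := hqodd.pow (n := 2 ^ (t - 1))
    refine ⟨2 * (c * c + c) + 1, ?_, odd_two_mul_add_one _⟩
    rw [hm, show 2 ^ t = 2 ^ (t - 1) * 2 by rw [← pow_succ, Nat.sub_add_cancel ht1], pow_mul, hc]
    ring
  have hQr : ∀ s : ℕ, s.Prime → s ∣ Q → s = e + 1 ∧ ¬ s * s ∣ Nat.card G := by
    intro s hs hsQ
    have hs2 : s ≠ 2 := fun h => by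
      have := hQodd.of_dvd_nat hsQ
      rw [h] at this
      exact absurd this (by decide)
    obtain ⟨_, -, -, -, hse, hss, -⟩ := main s (hprim s hs hs2 (hQ ▸ Dvd.dvd.mul_left hsQ 2))
    exact ⟨hse, hss⟩
  have hQ0 : Q ≠ 0 := fun h => by rw [h] at hQodd; exact absurd hQodd (by decide)
  have hQeq := Nat.eq_prime_pow_of_unique_prime_dvd hQ0 (p := e + 1) (fun {s} hs hsQ => (hQr s hs hsQ).1)
  set b := Q.primeFactorsList.length
  have hb : b ≤ 1 := by
    by_contra hlt
    have h2 : (e + 1) * (e + 1) ∣ Q := by rw [hQeq, ← pow_two]; exact pow_dvd_pow _ (by omega)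
    have hep : (e + 1).Prime := hre ▸ hr
    refine (hQr (e + 1) hep ((dvd_mul_left _ _).trans h2)).2 ((h2.trans ?_).trans hG)
    refine (Dvd.intro_left 2 hQ.symm).trans ?_
    rw [hnm, mul_comm 2 m, pow_mul]
    exact Dvd.intro _ (by rw [← Nat.sq_sub_sq, one_pow])
  have hqm : q ^ m + 1 ≤ 2 * (e + 1) := by
    rw [hQ, hQeq]
    refine Nat.mul_le_mul_left 2 ?_
    calc (e + 1) ^ b ≤ (e + 1) ^ 1 := Nat.pow_le_pow_right (by omega) hb
      _ = e + 1 := pow_one _
  have hq3 : 3 ≤ q := by
    have := hqp.two_le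
    rcases hqodd with ⟨c, hc⟩
    omega
  have h3m : 3 ^ m ≤ q ^ m := Nat.pow_le_pow_left hq3 m
  have hm4 : m = 2 := by
    by_contra hne
    have : 4 ≤ m := by
      have ht2 : 2 ≤ t := by
        by_contra h
        obtain rfl : t = 1 := by omega
        exact hne (by rw [hm]; norm_num)
      calc 4 = 2 ^ 2 := rfl
        _ ≤ m := Nat.pow_le_pow_right two_pos ht2
    have := four_lt this
    omega
  have hq : q = 3 := by
    by_contra hne
    have : 5 ^ 2 ≤ q ^ 2 := Nat.pow_le_pow_left (by rcases hqodd with ⟨c, hc⟩; omega) 2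
    rw [hm4] at hqm
    omega
  rw [hVn, hnm, hm4, hq]
  norm_num

end Cfsg.Agent.S3360
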