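import Cfsg.Statements.S3361
import Cfsg.Agent.Lib.Recog.RegularLinearSpan
import Cfsg.Agent.Lib.Recog.RegularLinearQuat
import Cfsg.Agent.Lib.TwoFus.CyclicSylow
import Cfsg.Agent.Lib.TwoFus.SLTwoThree
-- import your own Cfsg.Agent.* helpers here

set_option autoImplicit false
set_option linter.style.haveILetI false
open Cfsg

namespace Cfsg.Agent.S3361

open Cfsg.Lib.Recog
open Subgroup

theorem index_two_of_cyclic {G Γ : Type*} [Group G] [Finite G] [Group Γ] [IsCyclic Γ] (φ : G →* Γ)
    (heven : Even φ.ker.index) : ∃ N : Subgroup G, N.index = 2 := by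
  haveI : Finite φ.range := Finite.of_surjective φ.rangeRestrict φ.rangeRestrict_surjective
  have hc : Even (Nat.card φ.range) := by rwa [← Subgroup.index_ker]
  haveI : Fact (Nat.Prime 2) := ⟨Nat.prime_two⟩
  obtain ⟨T⟩ : Nonempty (Sylow 2 φ.range) := inferInstance
  obtain ⟨H, hH⟩ := Cfsg.Lib.TwoFus.exists_index_two_of_cyclic hc T inferInstance
  exact ⟨H.comap φ.rangeRestrict, by rw [index_comap_of_surjective _ φ.rangeRestrict_surjective, hH]⟩

theorem sign_of_invol : ∀ σ : Equiv.Perm (Fin 3), σ ^ 2 = 1 → σ ≠ 1 → Equiv.Perm.sign σ = -1 := by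
  decide +kernel

theorem linear_lt_pow {d : ℕ} (h : 5 ≤ d) : 24 * d < 3 ^ d := by
  induction d, h using Nat.le_induction with
  | base => norm_num
  | succ n hn ih => rw [pow_succ]; omega

/-- The possible orders. -/
theorem arith {q d e k c : ℕ} (hq : q.Prime) (hq3 : 3 ≤ q) (hd : 0 < d) (he : 2 ≤ e)
    (hk : k ∣ 24 * d) (hcd : c ∣ q ^ d - 1) (hc2 : ∃ m, Odd m ∧ c = 2 * m) (heq : k * c + 1 = (q ^ d) ^ e) :
    d = 1 ∧ e = 2 ∧ (q = 3 ∨ q = 5 ∨ q = 7 ∨ q = 11 ∨ q = 23) := by
  obtain ⟨m, hm, rfl⟩ := hc2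
  have hQ3 : 3 ^ d ≤ q ^ d := Nat.pow_le_pow_left hq3 d
  have hdlin : 3 * d ≤ 3 ^ d := by
    clear hk hcd heq hQ3
    induction d, hd using Nat.le_induction with
    | base => norm_num
    | succ n hn ih => rw [pow_succ]; omega
  set Q := q ^ d with hQ
  have hkle : k ≤ 24 * d := Nat.le_of_dvd (by omega) hk
  have hcle : 2 * m ≤ Q - 1 := Nat.le_of_dvd (by omega) hcd
  obtain ⟨R, hR⟩ : ∃ R, Q = R + 1 := ⟨Q - 1, by omega⟩
  have hkc : k * (2 * m) ≤ 24 * d * R := Nat.mul_le_mul hkle (by omega)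
  have hsmall : R + 2 ≤ 24 * d := by
    have h2 : Q ^ 2 ≤ Q ^ e := Nat.pow_le_pow_right (by omega) he
    have e2 : Q ^ 2 = R * (R + 2) + 1 := by rw [hR]; ring
    refine (Nat.mul_le_mul_left_iff (show 0 < R by omega)).1 ?_
    have : 24 * d * R = R * (24 * d) := mul_comm _ _
    omega
  have hbig : 3 ≤ e → R * R + 3 * R + 3 ≤ 24 * d := fun he3 => by
    have h2 : Q ^ 3 ≤ Q ^ e := Nat.pow_le_pow_right (by omega) he3
    have e2 : Q ^ 3 = R * (R * R + 3 * R + 3) + 1 := by rw [hR]; ring
    refine (Nat.mul_le_mul_left_iff (show 0 < R by omega)).1 ?_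
    have : 24 * d * R = R * (24 * d) := mul_comm _ _
    omega
  have hd' : d ≤ 4 := by
    by_contra hlt
    have h5 := linear_lt_pow (show 5 ≤ d by omega)
    omega
  obtain rfl : d = 1 := by
    by_contra hd1
    -- the few remaining values
    have hQle : Q + 1 ≤ 24 * d := by omega
    have h9 : 3 ^ 2 ≤ q ^ d := (Nat.pow_le_pow_left hq3 2).trans (Nat.pow_le_pow_right (by omega) (by omega))
    have hq9 : q ≤ 9 := by
      by_contra hq10
      have h1 : 10 ^ 2 ≤ q ^ d := (Nat.pow_le_pow_left (by omega) 2).trans (Nat.pow_le_pow_right (by omega) (by omega))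
      omega
    have he2 : e = 2 := by
      by_contra hne
      have h3 := hbig (by omega)
      have : 8 * R ≤ R * R := Nat.mul_le_mul_right R (by omega)
      omega
    subst he2
    obtain ⟨t, ht⟩ := hcd
    have hkeq : k = (Q + 1) * t := by
      refine Nat.eq_of_mul_eq_mul_right (show 0 < 2 * m by have := hm.pos; omega) ?_
      rw [mul_assoc (Q + 1), mul_comm t, ← ht, hR, Nat.add_sub_cancel]
      rw [hR] at heq
      nlinarith
    have hdiv : Q + 1 ∣ 24 * d := (Dvd.intro t hkeq.symm).trans hk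
    rw [hQ] at hdiv
    interval_cases d <;> interval_cases q <;> first | omega | (revert hdiv hq; norm_num)
  simp only [pow_one] at hQ hcd hcle
  clear_value Q
  subst hQ
  have he2 : e = 2 := by
    by_contra hne
    have hq3' : Q = 3 := by
      by_contra hne3
      have h3 := hbig (by omega)
      have hQ5 : 5 ≤ Q := by
        rcases Nat.lt_or_ge Q 5 with hlt | hge
        · interval_cases Q
          · exact absurd rfl hne3
          · exact absurd hq (by norm_num)
        · exact hge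
      have : 4 * R ≤ R * R := Nat.mul_le_mul_right R (by omega)
      omega
    subst hq3'
    obtain rfl : m = 1 := by have := hm.pos; omega
    have he4 : e ≤ 3 := by
      by_contra hlt
      have : 3 ^ 4 ≤ 3 ^ e := Nat.pow_le_pow_right (by norm_num) (by omega)
      omega
    obtain rfl : e = 3 := by omega
    obtain rfl : k = 13 := by norm_num at heq; omega
    norm_num at hk
  subst he2
  obtain ⟨t, ht⟩ := hcd
  have hkeq : k = (Q + 1) * t := by
    refine Nat.eq_of_mul_eq_mul_right (show 0 < 2 * m by have := hm.pos; omega) ?_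
    rw [mul_assoc (Q + 1), mul_comm t, ← ht, hR, Nat.add_sub_cancel]
    rw [hR] at heq
    nlinarith
  have hdiv : Q + 1 ∣ 24 := (Dvd.intro t hkeq.symm).trans hk
  refine ⟨rfl, rfl, ?_⟩
  have : Q ≤ 23 := by have := Nat.le_of_dvd (by norm_num) hdiv; omega
  interval_cases Q <;> revert hdiv hq <;> norm_num

section
variable {q : ℕ} [Fact q.Prime] {V : Type*} [AddCommGroup V] [Module (ZMod q) V] [Finite V] [Nontrivial V]
  {G : Type*} [Group G] [Finite G] {ρ : G →* (V ≃ₗ[ZMod q] V)}

theorem sl_two_three_part (h : RegLin.Hyp ρ) {A M : Subgroup G} [A.Normal] (L : RegLin.Layer A M 2)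
    (hcen : ∀ a ∈ A, ∀ g : G, Commute a g) (hCM : ∀ g : G, (∀ w ∈ M, Commute g w) → g ∈ A)
    (hQA : ∀ w ∈ M, ∃ b ∈ A, (w * b) ^ 4 = 1) (h3M : ¬ 3 ∣ Nat.card M) (h3 : 3 ∣ Nat.card G) :
    ∃ S : Subgroup G, Nat.card S = 24 ∧
      Nonempty (S ≃* Matrix.SpecialLinearGroup (Fin 2) (ZMod 3)) := by
  classical
  haveI := L.normal
  haveI : Fact (Nat.Prime 3) := ⟨Nat.prime_three⟩
  haveI : Fact (Nat.Prime 2) := ⟨Nat.prime_two⟩
  obtain ⟨t, ht⟩ := exists_prime_orderOf_dvd_card' (G := G) 3 h3
  have htM : t ∉ M := fun e => h3M (ht ▸ Subgroup.orderOf_dvd_natCard M e)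
  let Q : Subgroup G :=
    { carrier := {w | w ∈ M ∧ w ^ 4 = 1}
      one_mem' := ⟨one_mem M, one_pow 4⟩
      inv_mem' := fun {w} hw => ⟨inv_mem hw.1, by rw [inv_pow, hw.2, inv_one]⟩
      mul_mem' := fun {v w} hv hw => ⟨mul_mem hv.1 hw.1, by
        set z := (v * w)⁻¹ * (w * v) with hz
        have hzA : z ∈ A := by
          have := L.comm w⁻¹ (inv_mem hw.1) v⁻¹ (inv_mem hv.1)
          rwa [commutatorElement_def, inv_inv, inv_inv, show w⁻¹ * v⁻¹ * w * v = (v * w)⁻¹ * (w * v) by group] at this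
        have hwv : w * v = v * w * z := (mul_inv_cancel_left _ _).symm
        have hz2 : z ^ 2 = 1 := by
          have e1 : w ^ 2 * v = v * w ^ 2 * z ^ 2 := by
            calc w ^ 2 * v = w * (w * v) := by rw [pow_two, mul_assoc]
              _ = (w * v) * (w * z) := by nth_rw 1 [hwv]; simp only [mul_assoc]
              _ = v * w * (z * w) * z := by rw [hwv]; simp only [mul_assoc]
              _ = v * w * (w * z) * z := by rw [(hcen z hzA w).eq]
              _ = _ := by rw [pow_two, pow_two]; simp only [mul_assoc]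
          rw [(hcen _ (L.pow w hw.1) v).eq] at e1
          exact mul_eq_left.1 e1.symm
        rw [RegLin.mul_pow_class_two hwv (hcen z hzA v).symm (hcen z hzA w).symm, hv.2, hw.2,
          show Nat.choose 4 2 = 2 * 3 from rfl, pow_mul, hz2, one_pow, one_mul, one_mul]⟩ }
  haveI : Q.Normal := ⟨fun w hw g => ⟨L.normal.conj_mem w hw.1 g, by rw [conj_pow, hw.2, mul_one, mul_inv_cancel]⟩⟩
  have hQ2 : IsPGroup 2 Q := fun w => ⟨2, Subtype.ext (by simpa using w.2.2)⟩
  have huniq : ∀ v w : Q, orderOf v = 2 → orderOf w = 2 → w ∈ zpowers v := by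
    intro v w hv hw
    rw [← orderOf_coe] at hv hw
    have e := h.invol_unique (x := (v : G)) (y := (w : G)) (hv ▸ pow_orderOf_eq_one _)
      (fun e => by rw [e, orderOf_one] at hv; omega) (hw ▸ pow_orderOf_eq_one _)
      (fun e => by rw [e, orderOf_one] at hw; omega)
    rw [Subtype.ext e]
    exact mem_zpowers w
  let c : G →* MulAut Q := MulAut.conjNormal
  have hc3 : ∀ v, (c t)^[3] v = v := fun v => by
    have e : (c t) ^ 3 = 1 := by rw [← map_pow, ← ht, pow_orderOf_eq_one, map_one]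
    show c t (c t (c t v)) = v
    exact congrArg (fun σ : MulAut Q => σ v) e
  have hmove : ∃ v, c t v ≠ v := by
    by_contra hc
    push Not at hc
    refine htM (L.le (hCM t fun w hw => ?_))
    obtain ⟨b, hb, hwb⟩ := hQA w hw
    have h1 := congrArg Subtype.val (hc ⟨w * b, mul_mem hw (L.le hb), hwb⟩)
    have h2 : Commute t (w * b) := mul_inv_eq_iff_eq_mul.1 (by simpa [c, MulAut.conjNormal_apply] using h1)
    simpa using h2.mul_right (hcen _ (inv_mem hb) t).symm
  obtain ⟨i, j, hi, hsq, hinv, hij, hji, -⟩ := Cfsg.Lib.TwoFus.SLTwoThree.exists_rels hQ2 huniq (c t)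
    (show Odd 3 by decide) hc3 hmove
  have hR : Cfsg.Lib.TwoFus.SLTwoThree.Rels (i : G) (j : G) t := by
    refine ⟨i.2.2, by exact_mod_cast congrArg Subtype.val hsq, ?_, ?_, ?_, ?_⟩
    · simpa using congrArg Subtype.val hinv
    · simpa [c, MulAut.conjNormal_apply] using congrArg Subtype.val hij
    · simpa [c, MulAut.conjNormal_apply] using congrArg Subtype.val hji
    · rw [← ht, pow_orderOf_eq_one]
  have hio : orderOf (i : G) = 4 := by rw [orderOf_coe, hi]
  have ht1 : t ≠ 1 := fun e => by rw [e, orderOf_one] at ht; omega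
  set S := Subgroup.closure ({(i : G), (j : G), t} : Set G) with hS
  have hiS : (i : G) ∈ S := subset_closure (Or.inl rfl)
  have hjS : (j : G) ∈ S := subset_closure (Or.inr (Or.inl rfl))
  have htS : t ∈ S := subset_closure (Or.inr (Or.inr rfl))
  refine ⟨S, Cfsg.Lib.TwoFus.SLTwoThree.closure_card hR hio ht1,
    Cfsg.Lib.TwoFus.SLTwoThree.nonempty_mulEquiv (i := (⟨i, hiS⟩ : S)) (j := (⟨j, hjS⟩ : S)) (a := (⟨t, htS⟩ : S))
      ⟨Subtype.ext hR.i4, Subtype.ext hR.sq, Subtype.ext hR.inv, Subtype.ext hR.ai, Subtype.ext hR.aj,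
        Subtype.ext hR.a3⟩ (by rw [Subgroup.orderOf_mk, hio]) (fun e => ht1 (congrArg Subtype.val e)) ?_⟩
  refine map_injective S.subtype_injective ?_
  rw [MonoidHom.map_closure, ← MonoidHom.range_eq_map, range_subtype, Set.image_insert_eq, Set.image_insert_eq,
    Set.image_singleton]
  rfl

end

/-- Let q be a prime and V a non-trivial finite vector space over the field with q elements, and let G be a finite solvable group acting faithfully and linearly on V and regularly on the non-zero vectors (transitively, with only the identity fixing a non-zero vector). Then either V can be identified with the additive group of a finite field F so that every element of G acts as x ↦ a·σ(x) (a ∈ F, σ a field automorphism), or V has 5^2, 7^2, 11^2 or 23^2 elements. Moreover, if q ≠ 2 then G has a normal subgroup of index 2, except that when V has 25 elements G may be isomorphic to SL(2,3) and when V has 121 elements G may be isomorphic to SL(2,3) × C₅. -/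
theorem result
    (q : ℕ) [Fact q.Prime] {V : Type*} [AddCommGroup V] [Module (ZMod q) V] [Finite V] [Nontrivial V]
    {G : Type*} [Group G] [Finite G] (hsol : Group.IsSolvable G)
    (ρ : G →* (V ≃ₗ[ZMod q] V)) (hρ : Function.Injective ρ)
    (htrans : ∀ v w : V, v ≠ 0 → w ≠ 0 → ∃ g : G, ρ g v = w)
    (hreg : ∀ v : V, v ≠ 0 → ∀ g : G, ρ g v = v → g = 1) :
    ((∃ (F : Type) (_ : Field F) (_ : Fintype F) (e : V ≃+ F),
        ∀ g : G, ∃ (a : F) (σ : F ≃+* F), ∀ v : V, e (ρ g v) = a * σ (e v)) ∨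
      Nat.card V ∈ ({25, 49, 121, 529} : Set ℕ)) ∧
    (q ≠ 2 → (∃ N : Subgroup G, N.Normal ∧ N.index = 2) ∨
      (Nat.card V = 25 ∧ Nonempty (G ≃* Matrix.SpecialLinearGroup (Fin 2) (ZMod 3))) ∨
      (Nat.card V = 121 ∧ Nonempty (G ≃* Matrix.SpecialLinearGroup (Fin 2) (ZMod 3) × Multiplicative (ZMod 5)))) := by
  classical
  haveI := hsol
  have h : RegLin.Hyp ρ := ⟨hρ, htrans, hreg⟩
  have hqp : q.Prime := Fact.out
  haveI : Fact (Nat.Prime 2) := ⟨Nat.prime_two⟩
  -- a maximal abelian normal subgroup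
  obtain ⟨A, ⟨hAn, hA⟩, hAmax⟩ := (Set.toFinite
    {A : Subgroup G | A.Normal ∧ ∀ a ∈ A, ∀ b ∈ A, Commute a b}).exists_maximal
    ⟨⊥, inferInstance, fun a ha b hb => by rw [mem_bot.1 ha]; exact Commute.one_left b⟩
  haveI := hAn
  have hmax : ∀ B : Subgroup G, B.Normal → (∀ a ∈ B, ∀ b ∈ B, Commute a b) → A ≤ B → B = A :=
    fun B hB hBc hle => le_antisymm (hAmax ⟨hB, hBc⟩ hle) hle
  obtain ⟨d, e, hd, he, hV, hAc, hAd, hid, ⟨Γ, _, _, φ, hφ⟩, hsemi⟩ := h.span_props A hA
  have hG : Nat.card G + 1 = (q ^ d) ^ e := h.card_eq.trans hV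
  set C := centralizer (A : Set G) with hCdef
  have hAC : A ≤ C := fun a ha => mem_centralizer_iff.2 fun b hb => hA b hb a ha
  have hqd : 2 ≤ q ^ d := hqp.two_le.trans (Nat.le_self_pow hd.ne' q)
  by_cases he1 : e = 1
  · obtain ⟨hsl, hCc⟩ := hsemi he1
    refine ⟨Or.inl hsl, fun hq2 => Or.inl ?_⟩
    have heven : Even (Nat.card G) := by
      have ho : Odd ((q ^ d) ^ e) := ((hqp.odd_of_ne_two hq2).pow).pow
      rw [← hG, Nat.odd_add_one] at ho
      simpa using ho
    obtain ⟨N, hN⟩ : ∃ N : Subgroup G, N.index = 2 := by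
      by_cases hev : Even φ.ker.index
      · exact index_two_of_cyclic φ hev
      obtain ⟨T⟩ : Nonempty (Sylow 2 G) := inferInstance
      have hTC : (T : Subgroup G) ≤ C := by
        intro t ht
        rw [← hφ, MonoidHom.mem_ker]
        obtain ⟨k, hk⟩ := T.isPGroup'.exists_orderOf_eq_pow ⟨t, ht⟩
        rw [Subgroup.orderOf_mk] at hk
        have h1 : orderOf (φ t) ∣ 2 ^ k := hk ▸ orderOf_map_dvd φ t
        have h2 : orderOf (φ t) ∣ φ.ker.index := by
          rw [Subgroup.index_ker]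
          exact Subgroup.orderOf_dvd_natCard _ (MonoidHom.mem_range.2 ⟨t, rfl⟩)
        have hco : Nat.Coprime (2 ^ k) φ.ker.index :=
          (Nat.coprime_two_left.2 (Nat.not_even_iff_odd.1 hev)).pow_left k
        exact orderOf_eq_one_iff.1 (Nat.eq_one_of_dvd_coprimes hco h1 h2)
      obtain ⟨_, _, -, -, -, hCcyc, -⟩ := h.span_props C hCc
      have := hCcyc
      exact Cfsg.Lib.TwoFus.exists_index_two_of_cyclic heven T
        (isCyclic_of_injective (Subgroup.inclusion hTC) (Subgroup.inclusion_injective hTC))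
    exact ⟨N, normal_of_index_eq_two hN, hN⟩
  have he2 : 2 ≤ e := by omega
  have hCne : C ≠ A := by
    intro hCA
    have h1 : Nat.card G ≤ (q ^ d - 1) * d := by
      rw [← A.card_mul_index]
      refine Nat.mul_le_mul (Nat.le_of_dvd (by omega) hAd) (Nat.le_of_dvd hd ?_)
      rw [← hCA]
      exact hid
    have h2 : (q ^ d) ^ 2 ≤ (q ^ d) ^ e := Nat.pow_le_pow_right (by omega) he2
    have h3 : d < q ^ d := Nat.lt_pow_self hqp.one_lt
    obtain ⟨R, hR⟩ : ∃ R, q ^ d = R + 1 := ⟨q ^ d - 1, by omega⟩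
    rw [← hG, hR] at h2
    rw [hR, Nat.add_sub_cancel] at h1
    nlinarith
  obtain ⟨M, m, f, L, hmo, hAm, hMA, hMC, hfM, hCM, hQA⟩ := h.over_max A hAc hmax hCne
  have hq2 : q ≠ 2 := by
    intro e2
    have h2 : 2 ∣ q ^ d - 1 := (Dvd.intro m hAm.symm).trans hAd
    have h3 : 2 ∣ q ^ d := by rw [e2]; exact dvd_pow_self 2 hd.ne'
    omega
  -- the index of `A`
  set k' := (f.comp C.subtype).ker.index with hk'
  have hk6 : k' ∣ 6 := by
    rw [hk', Subgroup.index_ker]
    have := Subgroup.card_subgroup_dvd_card (f.comp C.subtype).range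
    rwa [Nat.card_perm, Nat.card_fin] at this
  have hker : (f.comp C.subtype).ker = M.subgroupOf C := by
    ext ⟨g, hg⟩
    rw [MonoidHom.mem_ker, mem_subgroupOf, ← hfM, Subgroup.mem_inf, MonoidHom.mem_ker]
    exact ⟨fun e => ⟨e, hg⟩, fun e => e.1⟩
  have hCcard : Nat.card C = k' * (4 * Nat.card A) := by
    rw [← (f.comp C.subtype).ker.card_mul_index, ← hk', hker, mul_comm,
      Nat.card_congr (Subgroup.subgroupOfEquivOfLe hMC).toEquiv, hMA]
  have hGcard : Nat.card G = (C.index * (k' * 4)) * Nat.card A := by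
    rw [← C.card_mul_index, hCcard]; ring
  obtain ⟨rfl, rfl, hqv⟩ := arith (k := C.index * (k' * 4)) (c := Nat.card A) hqp
    (by have := hqp.two_le; omega) hd he2
    (by
      rw [mul_comm 24 d]
      exact mul_dvd_mul hid (Nat.mul_dvd_mul hk6 (dvd_refl 4)))
    hAd ⟨m, hmo, hAm⟩ (by rw [← hGcard, hG])
  rw [pow_one] at hG hAd hV
  have hCtop : C = ⊤ := by
    rw [← Subgroup.index_eq_one]
    exact Nat.dvd_one.1 hid
  have hcen : ∀ a ∈ A, ∀ g : G, Commute a g := fun a ha g =>
    mem_centralizer_iff.1 (show g ∈ C by rw [hCtop]; exact mem_top g) a ha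
  have hCi : C.index = 1 := Nat.dvd_one.1 hid
  rw [hCi, one_mul] at hGcard
  have hm_pos := hmo.pos
  have hq3 : q ≠ 3 := by
    intro e3
    subst e3
    have hA2 : Nat.card A = 2 := by
      have := Nat.le_of_dvd (by norm_num) hAd
      omega
    have hG8 : Nat.card G = 8 := by norm_num at hG; omega
    obtain ⟨x, hx, y, hy, hnc⟩ := L.big
    have hxA : x ∉ A := fun e => hnc (L.cen y hy x e).symm
    have hA_eq : ∀ u ∈ A, u ^ 2 = 1 := fun u hu => by
      have h1 : (⟨u, hu⟩ : A) ^ Nat.card A = 1 := pow_card_eq_one'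
      rw [hA2] at h1
      simpa using congrArg Subtype.val h1
    haveI : Nontrivial A := Finite.one_lt_card_iff_nontrivial.1 (by omega)
    obtain ⟨⟨z, hzA⟩, hz⟩ := exists_ne (1 : A)
    have hz1 : z ≠ 1 := fun e => hz (Subtype.ext e)
    have hx2 : x ^ 2 = z := by
      refine h.invol_unique (hA_eq _ (L.pow x hx)) (fun e => hxA ?_) (hA_eq z hzA) hz1
      have hx1 : x ≠ 1 := fun e' => hxA (e' ▸ one_mem A)
      rw [h.invol_unique e hx1 (hA_eq z hzA) hz1]
      exact hzA
    have ox : orderOf x = 2 ^ (1 + 1) := orderOf_eq_prime_pow (by rw [pow_one, hx2]; exact hz1)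
      (by rw [pow_succ, pow_one, pow_mul, hx2, hA_eq z hzA])
    have hidx : (zpowers x).index = 2 := by
      have := (zpowers x).card_mul_index
      rw [Nat.card_zpowers, ox, hG8] at this
      omega
    have hle : A ≤ zpowers x := fun u hu => by
      by_cases hu1 : u = 1
      · rw [hu1]; exact one_mem _
      rw [h.invol_unique (hA_eq u hu) hu1 (hA_eq z hzA) hz1, ← hx2]
      exact pow_mem (mem_zpowers x) 2
    have e := hmax (zpowers x) (normal_of_index_eq_two hidx) (fun a ha b hb => by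
      obtain ⟨i, rfl⟩ := mem_zpowers_iff.1 ha
      obtain ⟨j, rfl⟩ := mem_zpowers_iff.1 hb
      exact Commute.zpow_zpow_self x i j) hle
    exact hxA (e ▸ mem_zpowers x)
  refine ⟨Or.inr ?_, fun _ => ?_⟩
  · rw [hV]
    rcases hqv with rfl | rfl | rfl | rfl | rfl
    · exact absurd rfl hq3
    all_goals simp
  have hfker : f.ker = M := by rw [← hfM, show centralizer (A : Set G) = ⊤ from hCtop, inf_top_eq]
  have hfidx : f.ker.index = k' := by
    have e1 := M.card_mul_index
    rw [hMA, hGcard] at e1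
    rw [hfker]
    exact Nat.eq_of_mul_eq_mul_left (show 0 < 4 * Nat.card A by omega) (by rw [e1]; ring)
  have hmk : ∀ N : Subgroup G, N.index = 2 → ∃ N : Subgroup G, N.Normal ∧ N.index = 2 :=
    fun N hN => ⟨N, normal_of_index_eq_two hN, hN⟩
  rcases (show k' = 1 ∨ k' = 2 ∨ k' = 3 ∨ k' = 6 by
    have h6 := Nat.le_of_dvd (by norm_num) hk6
    have h0 : k' ≠ 0 := fun e => by rw [e] at hk6; omega
    interval_cases k' <;> omega) with hk | hk | hk | hk
  · -- `G = M`
    left
    have hc4 : Nat.card (G ⧸ A) = 2 ^ 2 := by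
      have e1 := A.card_mul_index
      rw [hGcard, hk, one_mul, mul_comm 4] at e1
      exact Nat.eq_of_mul_eq_mul_left (show 0 < Nat.card A by omega) e1
    obtain ⟨H, hH⟩ := Sylow.exists_subgroup_card_pow_prime (G := G ⧸ A) 2 (n := 1) (by rw [hc4]; norm_num)
    refine hmk (H.comap (QuotientGroup.mk' A)) ?_
    rw [index_comap_of_surjective _ (QuotientGroup.mk'_surjective A)]
    have := H.card_mul_index
    rw [hH, hc4] at this
    omega
  rotate_left
  · -- order `12|A|`
    right
    have h12 : Nat.card G = 12 * Nat.card A := by rw [hGcard, hk]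
    have h3M : ¬ 3 ∣ Nat.card M → ∃ S : Subgroup G, Nat.card S = 24 ∧
        Nonempty (S ≃* Matrix.SpecialLinearGroup (Fin 2) (ZMod 3)) := fun h3 =>
      sl_two_three_part h L hcen hCM hQA h3 (h12 ▸ Dvd.intro (4 * Nat.card A) (by ring))
    rw [hMA] at h3M
    rcases hqv with rfl | rfl | rfl | rfl | rfl
    · exact absurd rfl hq3
    · left
      have hA2 : Nat.card A = 2 := by omega
      obtain ⟨S, hS, ⟨ι⟩⟩ := h3M (by omega)
      have hT : S = ⊤ := eq_top_of_card_eq S (by omega)
      exact ⟨by rw [hV]; norm_num, ⟨(Subgroup.topEquiv.symm.trans (MulEquiv.subgroupCongr hT.symm)).trans ι⟩⟩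
    · exfalso
      have : Nat.card A = 4 := by omega
      obtain ⟨c, rfl⟩ := hmo
      omega
    · right
      have hA10 : Nat.card A = 10 := by omega
      haveI : Fact (Nat.Prime 5) := ⟨by norm_num⟩
      obtain ⟨S, hS, ⟨ι⟩⟩ := h3M (by omega)
      obtain ⟨c, hc⟩ := exists_prime_orderOf_dvd_card' (G := A) 5 (by omega)
      have hcc : orderOf (c : G) = 5 := by rw [orderOf_coe, hc]
      let g : S × zpowers (c : G) →* G := MonoidHom.noncommCoprod S.subtype (zpowers (c : G)).subtype fun s u =>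
        (hcen u.1 ((zpowers_le.2 c.2) u.2) s.1).symm
      have hg : Function.Bijective g := by
        refine (Nat.bijective_iff_injective_and_card g).2 ⟨(injective_iff_map_eq_one g).2 ?_, ?_⟩
        · rintro ⟨s, u⟩ hsu
          have e : (s : G) * (u : G) = 1 := hsu
          have hu : (u : G) = 1 := by
            have h1 : orderOf (u : G) ∣ 5 := by
              rw [← hcc, ← Nat.card_zpowers (c : G)]; exact Subgroup.orderOf_dvd_natCard _ u.2
            have h2 : orderOf (u : G) ∣ 24 := by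
              rw [← orderOf_inv, ← eq_inv_of_mul_eq_one_left e, ← hS]
              exact Subgroup.orderOf_dvd_natCard _ s.2
            exact orderOf_eq_one_iff.1 (Nat.dvd_one.1 (show orderOf (u : G) ∣ Nat.gcd 5 24 from Nat.dvd_gcd h1 h2))
          rw [hu, mul_one] at e
          exact Prod.ext (Subtype.ext e) (Subtype.ext hu)
        · rw [Nat.card_prod, hS, Nat.card_zpowers, hcc]
          omega
      refine ⟨by rw [hV]; norm_num, ⟨(MulEquiv.ofBijective g hg).symm.trans (MulEquiv.prodCongr ι ?_)⟩⟩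
      exact mulEquivOfCyclicCardEq (by rw [Nat.card_zpowers, hcc]; simp)
    · exfalso
      have : Nat.card A = 44 := by omega
      have := Nat.le_of_dvd (by norm_num) hAd
      omega
  all_goals
    -- an element of `G` acting as a transposition
    left
    obtain ⟨⟨σ, hσ⟩, hσ2⟩ := exists_prime_orderOf_dvd_card' (G := f.range) 2
      (by rw [← Subgroup.index_ker, hfidx, hk] <;> norm_num)
    rw [Subgroup.orderOf_mk] at hσ2
    obtain ⟨g, hg⟩ := MonoidHom.mem_range.1 hσ
    refine hmk (Equiv.Perm.sign.comp f).ker ?_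
    rw [Subgroup.index_ker, show (Equiv.Perm.sign.comp f).range = ⊤ by
      refine eq_top_iff.2 fun u _ => ?_
      rcases Int.units_eq_one_or u with rfl | rfl
      · exact one_mem _
      · refine ⟨g, ?_⟩
        rw [MonoidHom.comp_apply, hg]
        exact sign_of_invol σ (hσ2 ▸ pow_orderOf_eq_one σ) (fun e => by rw [e, orderOf_one] at hσ2; omega)]
    simp

end Cfsg.Agent.S3361
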