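import Cfsg.Statements.S3362
import Mathlib
import Cfsg.Prelude
-- import your own Cfsg.Agent.* helpers here

set_option autoImplicit false
set_option maxHeartbeats 2000000
open Cfsg

namespace Cfsg.Agent.S3362

open Equiv

/-- Tables of values. -/
def tab (σ : Perm (Fin 12)) : List ℕ := List.ofFn fun i => (σ i).val

def comp' (a b : List ℕ) : List ℕ := b.map fun i => a.getD i 0

def inv' (a : List ℕ) : List ℕ := (List.range 12).map fun i => a.idxOf i

def id' : List ℕ := List.range 12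

theorem tab_getD (σ : Perm (Fin 12)) (i : Fin 12) : (tab σ).getD i 0 = (σ i).val := by
  rw [List.getD_eq_getElem _ _ (by simp only [tab, List.length_ofFn]; exact i.isLt)]
  simp only [tab, List.getElem_ofFn, Fin.eta]

theorem tab_injective : Function.Injective tab := fun σ τ h => Equiv.ext fun i => Fin.ext (by rw [← tab_getD, h, tab_getD])

theorem tab_mul (σ τ : Perm (Fin 12)) : tab (σ * τ) = comp' (tab σ) (tab τ) := by
  apply List.ext_getElem
  · simp [tab, comp']
  · intro i h1 h2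
    have hi : i < 12 := by simpa only [tab, List.length_ofFn] using h1
    have e : (tab (σ * τ))[i] = (σ (τ ⟨i, hi⟩)).val := by simp only [tab, List.getElem_ofFn, Perm.mul_apply]
    have e2 : (comp' (tab σ) (tab τ))[i] = (tab σ).getD (τ ⟨i, hi⟩).val 0 := by
      simp only [comp', List.getElem_map]
      simp only [tab, List.getElem_ofFn]
    exact e.trans (e2.trans (tab_getD σ _)).symm

theorem tab_one : tab 1 = id' := by decide

theorem tab_inv (σ : Perm (Fin 12)) : inv' (tab σ) = tab σ⁻¹ := by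
  apply List.ext_getElem
  · simp [tab, inv']
  · intro i h1 h2
    have hi : i < 12 := by simpa [inv'] using h1
    have hn : (tab σ).Nodup := List.nodup_ofFn_ofInjective fun a b h => σ.injective (Fin.ext h)
    have hlen : (tab σ).length = 12 := by simp [tab]
    have he : (tab σ)[(σ⁻¹ ⟨i, hi⟩).val]'(by omega) = i := by
      simp only [tab, List.getElem_ofFn, Fin.eta]
      rw [show σ (σ⁻¹ ⟨i, hi⟩) = ⟨i, hi⟩ from Equiv.apply_symm_apply σ _]
    have e2 : (tab σ⁻¹)[i] = (σ⁻¹ ⟨i, hi⟩).val := by simp only [tab, List.getElem_ofFn]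
    have e1 : (inv' (tab σ))[i] = (tab σ).idxOf i := by simp only [inv', List.getElem_map, List.getElem_range]
    have h3 := hn.idxOf_getElem (σ⁻¹ ⟨i, hi⟩).val (by omega)
    rw [he] at h3
    exact e1.trans (h3.trans e2.symm)

/-- The generator tables. -/
def gt (k : ℕ) : List ℕ := [
[0, 1, 2, 4, 5, 3, 7, 8, 6, 10, 11, 9], [0, 1, 2, 6, 7, 8, 9, 10, 11, 3, 4, 5], [0, 1, 2, 3, 6, 9, 5, 8, 11, 4, 7, 10], [0, 1, 2, 3, 7, 11, 10, 5, 6, 8, 9, 4], [0, 1, 2, 3, 10, 8, 11, 6, 4, 7, 5, 9], [3, 1, 2, 0, 4, 5, 7, 6, 10, 11, 8, 9], [1, 0, 2, 3, 4, 5, 9, 10, 11, 6, 7, 8], [0, 2, 1, 3, 4, 5, 11, 9, 10, 7, 8, 6]].getD k id'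

def T (w : List ℕ) : List ℕ := w.foldr (fun k x => comp' (gt k) x) id'

def sift : List (ℕ × List (List ℕ)) → List ℕ → Bool
  | [], x => x == id'
  | (b, ws) :: rest, x => ws.any fun w => (T w).getD b 0 == x.getD b 0 && sift rest (comp' (inv' (T w)) x)

def allWords : List (ℕ × List (List ℕ)) → List (List ℕ)
  | [] => []
  | (_, ws) :: rest => ws ++ allWords rest

/-- The Schreier condition at one level. -/
def lvlOk : List (ℕ × List (List ℕ)) → Bool
  | [] => true
  | (b, ws) :: rest => sift ((b, ws) :: rest) id' &&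
      (allWords ((b, ws) :: rest)).all (fun s => ws.all fun r => sift ((b, ws) :: rest) (comp' (T s) (T r))) && lvlOk rest

def levels : List (ℕ × List (List ℕ)) := [
  (2, [[6, 7], [7], [], [5, 6, 7], [0, 5, 6, 7], [0, 0, 5, 6, 7], [1, 5, 6, 7], [1, 0, 5, 6, 7], [1, 0, 0, 5, 6, 7], [1, 1, 5, 6, 7], [4, 0, 5, 6, 7], [4, 1, 5, 6, 7]]),
  (1, [[6], [], [5, 6], [0, 5, 6], [0, 0, 5, 6], [1, 5, 6], [1, 0, 5, 6], [1, 0, 0, 5, 6], [1, 1, 5, 6], [4, 0, 5, 6], [4, 1, 5, 6]]),
  (0, [[], [5], [0, 5], [0, 0, 5], [1, 5], [1, 0, 5], [1, 0, 0, 5], [1, 1, 5], [4, 0, 5], [4, 1, 5]]),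
  (3, [[], [0], [0, 0], [1], [1, 0], [1, 0, 0], [1, 1], [4, 0], [4, 1]]),
  (4, [[], [2, 2], [2], [3], [2, 3], [3, 4], [4], [4, 2]])]

section sound
variable (gen : ℕ → Perm (Fin 12))

def El (w : List ℕ) : Perm (Fin 12) := (w.map gen).prod

def Hs : List (ℕ × List (List ℕ)) → Set (Perm (Fin 12))
  | [] => {1}
  | (_, ws) :: rest => {σ | ∃ w ∈ ws, ∃ h ∈ Hs rest, σ = El gen w * h}

variable {gen}

theorem tab_El (hg : ∀ k, tab (gen k) = gt k) (w : List ℕ) : tab (El gen w) = T w := by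
  induction w with
  | nil => exact tab_one
  | cons k w ih => rw [El, List.map_cons, List.prod_cons, tab_mul, hg]; show comp' _ (tab (El gen w)) = _; rw [ih]; rfl

theorem sift_sound (hg : ∀ k, tab (gen k) = gt k) : ∀ Ls σ, sift Ls (tab σ) = true → σ ∈ Hs gen Ls := by
  intro Ls
  induction Ls with
  | nil => intro σ h; exact tab_injective (by rw [tab_one]; simpa [sift] using h)
  | cons l rest ih =>
    obtain ⟨b, ws⟩ := l
    intro σ h
    simp only [sift, List.any_eq_true, Bool.and_eq_true] at h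
    obtain ⟨w, hw, -, h⟩ := h
    rw [← tab_El hg, tab_inv, ← tab_mul] at h
    exact ⟨w, hw, _, ih _ h, (mul_inv_cancel_left _ _).symm⟩

theorem lvl_sound (hg : ∀ k, tab (gen k) = gt k) : ∀ Ls, lvlOk Ls = true →
    (1 : Perm (Fin 12)) ∈ Hs gen Ls ∧ (∀ a ∈ Hs gen Ls, ∀ b ∈ Hs gen Ls, a * b ∈ Hs gen Ls) := by
  intro Ls
  induction Ls with
  | nil => intro _; exact ⟨rfl, fun a ha b hb => by rw [Set.mem_singleton_iff.1 ha, Set.mem_singleton_iff.1 hb, one_mul]; rfl⟩
  | cons l rest ih =>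
    obtain ⟨b, ws⟩ := l
    intro h
    simp only [lvlOk, Bool.and_eq_true, List.all_eq_true] at h
    obtain ⟨⟨h1, h2⟩, h3⟩ := h
    obtain ⟨-, hm⟩ := ih h3
    have hs : ∀ s ∈ allWords ((b, ws) :: rest), ∀ a ∈ Hs gen ((b, ws) :: rest), El gen s * a ∈ Hs gen ((b, ws) :: rest) := by
      rintro s hs a ⟨r, hr, k, hk, rfl⟩
      have := h2 s hs r hr
      rw [← tab_El hg, ← tab_El hg, ← tab_mul] at this
      obtain ⟨w, hw, k', hk', e⟩ := sift_sound hg _ _ this
      exact ⟨w, hw, k' * k, hm _ hk' _ hk, by rw [← mul_assoc, e, mul_assoc]⟩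
    have hmul : ∀ (Ls' : List (ℕ × List (List ℕ))), (∀ s ∈ allWords Ls', s ∈ allWords ((b, ws) :: rest)) →
        ∀ a ∈ Hs gen Ls', ∀ c ∈ Hs gen ((b, ws) :: rest), a * c ∈ Hs gen ((b, ws) :: rest) := by
      intro Ls'
      induction Ls' with
      | nil => intro _ a ha c hc; rw [Set.mem_singleton_iff.1 ha, one_mul]; exact hc
      | cons l' rest' ih' =>
        obtain ⟨b', ws'⟩ := l'
        rintro hsub a ⟨w, hw, k, hk, rfl⟩ c hc
        rw [mul_assoc]
        exact hs w (hsub w (List.mem_append_left _ hw)) _ (ih' (fun s hs => hsub s (List.mem_append_right _ hs)) k hk c hc)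
    rw [← tab_one] at h1
    exact ⟨sift_sound hg _ _ h1, hmul _ fun s hs => hs⟩

theorem El_mem (S : Subgroup (Perm (Fin 12))) {w : List ℕ} (h : ∀ k ∈ w, gen k ∈ S) : El gen w ∈ S :=
  list_prod_mem fun x hx => by
    obtain ⟨k, hk, rfl⟩ := List.mem_map.1 hx
    exact h k hk

theorem Hs_le (S : Subgroup (Perm (Fin 12))) : ∀ Ls, (∀ w ∈ allWords Ls, ∀ k ∈ w, gen k ∈ S) → ∀ σ ∈ Hs gen Ls, σ ∈ S := by
  intro Ls
  induction Ls with
  | nil => intro _ σ h; rw [Set.mem_singleton_iff.1 h]; exact S.one_mem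
  | cons l rest ih =>
    obtain ⟨b, ws⟩ := l
    rintro h σ ⟨w, hw, k, hk, rfl⟩
    exact S.mul_mem (El_mem S (h w (List.mem_append_left _ hw))) (ih (fun w hw => h w (List.mem_append_right _ hw)) k hk)

def size : List (ℕ × List (List ℕ)) → ℕ
  | [] => 1
  | (_, ws) :: rest => ws.length * size rest

theorem Hs_card : ∀ Ls, ∃ s : Finset (Perm (Fin 12)), Hs gen Ls ⊆ s ∧ s.card ≤ size Ls := by
  classical
  intro Ls
  induction Ls with
  | nil => exact ⟨{1}, by simp [Hs], by simp [size]⟩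
  | cons l rest ih =>
    obtain ⟨b, ws⟩ := l
    obtain ⟨s, hs, hc⟩ := ih
    refine ⟨Finset.image₂ (fun w h => El gen w * h) ws.toFinset s, ?_, ?_⟩
    · rintro σ ⟨w, hw, h, hh, rfl⟩
      exact Finset.mem_coe.2 (Finset.mem_image₂_of_mem (List.mem_toFinset.2 hw) (hs hh))
    · exact (Finset.card_image₂_le _ _ _).trans (Nat.mul_le_mul (List.toFinset_card_le ws) hc)

/-- Every representative fixes the earlier base points. -/
def fixOk : List ℕ → List (ℕ × List (List ℕ)) → Bool
  | _, [] => true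
  | done, (b, ws) :: rest => (ws.all fun w => done.all fun d => (T w).getD d 0 == d) &&
      ((List.range 12).all fun p => done.contains p || ws.any fun w => (T w).getD b 0 == p) && fixOk (b :: done) rest

def bases (Ls : List (ℕ × List (List ℕ))) : List ℕ := Ls.map Prod.fst

theorem fix_Hs (hg : ∀ k, tab (gen k) = gt k) : ∀ Ls done, fixOk done Ls = true → ∀ σ ∈ Hs gen Ls,
    ∀ d : Fin 12, d.val ∈ done → σ d = d := by
  intro Ls
  induction Ls with
  | nil => intro done _ σ h d _; rw [Set.mem_singleton_iff.1 h]; rfl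
  | cons l rest ih =>
    obtain ⟨b, ws⟩ := l
    rintro done h σ ⟨w, hw, k, hk, rfl⟩ d hd
    simp only [fixOk, Bool.and_eq_true, List.all_eq_true] at h
    rw [Perm.mul_apply, ih _ h.2 k hk d (List.mem_cons_of_mem _ hd)]
    have := h.1.1 w hw d hd
    rw [← tab_El hg, tab_getD] at this
    exact Fin.ext (beq_iff_eq.1 this)

theorem reach (hg : ∀ k, tab (gen k) = gt k) : ∀ Ls done, fixOk done Ls = true →
    ∀ (xs ys : List (Fin 12)), xs.map Fin.val = bases Ls → ys.length = xs.length → ys.Nodup →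
      (∀ y ∈ ys, y.val ∉ done) → ∃ σ ∈ Hs gen Ls, xs.map σ = ys := by
  intro Ls
  induction Ls with
  | nil =>
    intro done _ xs ys hx hl _ _
    rw [bases, List.map_nil, List.map_eq_nil_iff] at hx
    subst hx
    exact ⟨1, rfl, (List.eq_nil_of_length_eq_zero hl).symm⟩
  | cons l rest ih =>
    obtain ⟨b, ws⟩ := l
    intro done h xs ys hx hl hn hd
    obtain ⟨x, xs', rfl⟩ : ∃ x xs', xs = x :: xs' := by
      cases xs with
      | nil => simp [bases] at hx
      | cons x xs' => exact ⟨x, xs', rfl⟩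
    obtain ⟨y, ys', rfl⟩ : ∃ y ys', ys = y :: ys' := by
      cases ys with
      | nil => simp at hl
      | cons y ys' => exact ⟨y, ys', rfl⟩
    simp only [bases, List.map_cons, List.cons.injEq] at hx
    simp only [fixOk, Bool.and_eq_true, List.all_eq_true, List.any_eq_true, Bool.or_eq_true] at h
    obtain ⟨⟨hfix, hany⟩, hrest⟩ := h
    have hy := hd y (List.mem_cons_self ..)
    obtain ⟨w, hw, hwy⟩ := (hany y.val (List.mem_range.2 y.isLt)).resolve_left (fun e => hy (List.contains_iff_mem.1 e))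
    have hwx : El gen w x = y := by
      rw [← tab_El hg, ← hx.1, tab_getD] at hwy
      exact Fin.ext (beq_iff_eq.1 hwy)
    have hwd : ∀ d : Fin 12, d.val ∈ done → El gen w d = d := fun d hd => by
      have := hfix w hw d hd
      rw [← tab_El hg, tab_getD] at this
      exact Fin.ext (beq_iff_eq.1 this)
    rw [List.nodup_cons] at hn
    obtain ⟨σ, hσ, he⟩ := ih (b :: done) hrest xs' (ys'.map ⇑(El gen w)⁻¹) hx.2 (by simpa using hl)
      (hn.2.map (El gen w)⁻¹.injective) (by
        intro z hz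
        obtain ⟨y', hy', rfl⟩ := List.mem_map.1 hz
        intro hmem
        rcases List.mem_cons.1 hmem with e | e
        · have : (El gen w)⁻¹ y' = x := Fin.ext (by rw [e, hx.1])
          rw [Perm.inv_eq_iff_eq, hwx] at this
          exact hn.1 (this ▸ hy')
        · have h2 := hwd _ e
          rw [show El gen w ((El gen w)⁻¹ y') = y' from Equiv.apply_symm_apply _ _] at h2
          exact hd y' (List.mem_cons_of_mem _ hy') (h2 ▸ e))
    refine ⟨El gen w * σ, ⟨w, hw, σ, hσ, rfl⟩, ?_⟩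
    have hσx : σ x = x := fix_Hs hg rest (b :: done) hrest σ hσ x (by rw [hx.1]; exact List.mem_cons_self ..)
    rw [List.map_cons, Perm.mul_apply, hσx, hwx]
    congr 1
    have he' := congrArg (List.map ⇑(El gen w)) he
    simp only [List.map_map] at he'
    rw [show (⇑(El gen w * σ)) = ⇑(El gen w) ∘ ⇑σ from rfl, he',
      show (⇑(El gen w) ∘ ⇑(El gen w)⁻¹) = id from funext fun z => by simp, List.map_id]

end sound

theorem levels_ok : lvlOk levels = true := by decide +kernel
theorem levels_fix : fixOk [] levels = true := by decide +kernel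
theorem levels_tail : (allWords levels.tail).all (fun w => w.all fun k => decide (k < 7)) = true := by decide +kernel
theorem levels_all : (allWords levels).all (fun w => w.all fun k => decide (k < 8)) = true := by decide +kernel
theorem gens_sift : ((List.range 8).all fun k => sift levels (gt k)) = true := by decide +kernel
theorem gens_sift' : ((List.range 7).all fun k => sift levels.tail (gt k)) = true := by decide +kernel
theorem levels_head : ((levels.headD (0, [])).2.all fun w => (T w).getD 2 0 != 2 || T w == id') = true := by decide +kernel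

/-- An explicit construction of the Mathieu groups of degrees 11 and 12. On the points 0, …, 11 let s = (3 4 5)(6 7 8)(9 10 11), t = (3 6 9)(4 7 10)(5 8 11), u = (4 6 5 9)(7 8 11 10), v = (4 7 5 11)(6 10 9 8), w = (4 10 5 8)(6 11 9 7), x₁ = (0 3)(6 7)(8 10)(9 11), x₂ = (0 1)(6 9)(7 10)(8 11), x₃ = (1 2)(6 11)(7 9)(8 10) (each written as a product of transpositions). Then the group M₁₂ generated by all eight permutations is sharply 5-transitive on the 12 points and has order 95040, and the group M₁₁ generated by the first seven has order 7920 and is the stabilizer of the point 2 in M₁₂. -/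
theorem result
    (s t u v w x₁ x₂ x₃ : Equiv.Perm (Fin 12))
    (hs : s = Equiv.swap (3 : Fin 12) 5 * Equiv.swap (3 : Fin 12) 4 * Equiv.swap (6 : Fin 12) 8 * Equiv.swap (6 : Fin 12) 7 * Equiv.swap (9 : Fin 12) 11 * Equiv.swap (9 : Fin 12) 10) (ht : t = Equiv.swap (3 : Fin 12) 9 * Equiv.swap (3 : Fin 12) 6 * Equiv.swap (4 : Fin 12) 10 * Equiv.swap (4 : Fin 12) 7 * Equiv.swap (5 : Fin 12) 11 * Equiv.swap (5 : Fin 12) 8)
    (hu : u = Equiv.swap (4 : Fin 12) 9 * Equiv.swap (4 : Fin 12) 5 * Equiv.swap (4 : Fin 12) 6 * Equiv.swap (7 : Fin 12) 10 * Equiv.swap (7 : Fin 12) 11 * Equiv.swap (7 : Fin 12) 8) (hv : v = Equiv.swap (4 : Fin 12) 11 * Equiv.swap (4 : Fin 12) 5 * Equiv.swap (4 : Fin 12) 7 * Equiv.swap (6 : Fin 12) 8 * Equiv.swap (6 : Fin 12) 9 * Equiv.swap (6 : Fin 12) 10) (hw : w = Equiv.swap (4 : Fin 12) 8 * Equiv.swap (4 : Fin 12) 5 * Equiv.swap (4 : Fin 12) 10 * Equiv.swap (6 : Fin 12) 7 * Equiv.swap (6 : Fin 12) 9 * Equiv.swap (6 : Fin 12) 11)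
    (hx₁ : x₁ = Equiv.swap (0 : Fin 12) 3 * Equiv.swap (6 : Fin 12) 7 * Equiv.swap (8 : Fin 12) 10 * Equiv.swap (9 : Fin 12) 11) (hx₂ : x₂ = Equiv.swap (0 : Fin 12) 1 * Equiv.swap (6 : Fin 12) 9 * Equiv.swap (7 : Fin 12) 10 * Equiv.swap (8 : Fin 12) 11)
    (hx₃ : x₃ = Equiv.swap (1 : Fin 12) 2 * Equiv.swap (6 : Fin 12) 11 * Equiv.swap (7 : Fin 12) 9 * Equiv.swap (8 : Fin 12) 10)
    (M₁₂ M₁₁ : Subgroup (Equiv.Perm (Fin 12))) (hM₁₂ : M₁₂ = Subgroup.closure {s, t, u, v, w, x₁, x₂, x₃})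
    (hM₁₁ : M₁₁ = Subgroup.closure {s, t, u, v, w, x₁, x₂}) :
    MulAction.IsMultiplyPretransitive M₁₂ (Fin 12) 5 ∧ (∀ y : Fin 5 ↪ Fin 12, MulAction.stabilizer M₁₂ y = ⊥) ∧
    Nat.card M₁₂ = 95040 ∧ Nat.card M₁₁ = 7920 ∧
    M₁₁ = M₁₂ ⊓ MulAction.stabilizer (Equiv.Perm (Fin 12)) (2 : Fin 12) := by
  classical
  let gl : List (Equiv.Perm (Fin 12)) := [s, t, u, v, w, x₁, x₂, x₃]
  let gen : ℕ → Equiv.Perm (Fin 12) := fun k => gl.getD k 1
  have hg : ∀ k, tab (gen k) = gt k := by
    intro k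
    subst hs ht hu hv hw hx₁ hx₂ hx₃
    rcases Nat.lt_or_ge k 8 with h | h
    · interval_cases k <;> decide +kernel
    · have e1 : gen k = 1 := List.getD_eq_default _ _ (by simpa [gl] using h)
      rw [e1, tab_one]
      exact (List.getD_eq_default _ _ (by simpa using h)).symm
  have hmem8 : ∀ k, k < 8 → gen k ∈ M₁₂ := fun k hk => by
    rw [hM₁₂]; apply Subgroup.subset_closure
    interval_cases k <;> simp [gen, gl]
  have hmem7 : ∀ k, k < 7 → gen k ∈ M₁₁ := fun k hk => by
    rw [hM₁₁]; apply Subgroup.subset_closure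
    interval_cases k <;> simp [gen, gl]
  have hclosed : ∀ (Ls : List (ℕ × List (List ℕ))), lvlOk Ls = true → ∀ (S : Set (Equiv.Perm (Fin 12))), S ⊆ Hs gen Ls →
      ∀ σ ∈ Subgroup.closure S, σ ∈ Hs gen Ls := by
    intro Ls hok S hS σ hσ
    obtain ⟨h1, hm⟩ := lvl_sound hg Ls hok
    induction hσ using Subgroup.closure_induction with
    | mem x hx => exact hS hx
    | one => exact h1
    | mul a b _ _ ha hb => exact hm a ha b hb
    | inv a _ ha =>
      have hp : ∀ i : ℕ, a ^ i ∈ Hs gen Ls := fun i => by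
        induction i with
        | zero => simpa using h1
        | succ i ih => rw [pow_succ]; exact hm _ ih _ ha
      rw [show a⁻¹ = a ^ (orderOf a - 1) from inv_eq_of_mul_eq_one_right (by
        rw [← pow_succ', Nat.sub_add_cancel (orderOf_pos a), pow_orderOf_eq_one])]
      exact hp _
  have hok' : lvlOk levels.tail = true := by
    have h := levels_ok
    rw [levels, lvlOk, Bool.and_eq_true] at h
    exact h.2
  have hsift : ∀ k, k < 8 → gen k ∈ Hs gen levels := fun k hk => sift_sound hg _ _ (by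
    rw [hg]; exact List.all_eq_true.1 gens_sift k (List.mem_range.2 hk))
  have hsift' : ∀ k, k < 7 → gen k ∈ Hs gen levels.tail := fun k hk => sift_sound hg _ _ (by
    rw [hg]; exact List.all_eq_true.1 gens_sift' k (List.mem_range.2 hk))
  have h12 : (M₁₂ : Set (Equiv.Perm (Fin 12))) = Hs gen levels := by
    refine Set.Subset.antisymm (fun σ hσ => hclosed _ levels_ok _ ?_ σ (hM₁₂ ▸ hσ)) (fun σ hσ => Hs_le M₁₂ _ (fun w hw k hk => hmem8 k ?_) σ hσ)
    · intro x hx
      simp only [Set.mem_insert_iff, Set.mem_singleton_iff] at hx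
      rcases hx with rfl | rfl | rfl | rfl | rfl | rfl | rfl | rfl
      · exact hsift 0 (by norm_num)
      · exact hsift 1 (by norm_num)
      · exact hsift 2 (by norm_num)
      · exact hsift 3 (by norm_num)
      · exact hsift 4 (by norm_num)
      · exact hsift 5 (by norm_num)
      · exact hsift 6 (by norm_num)
      · exact hsift 7 (by norm_num)
    · exact of_decide_eq_true (List.all_eq_true.1 (List.all_eq_true.1 levels_all w hw) k hk)
  have h11 : (M₁₁ : Set (Equiv.Perm (Fin 12))) = Hs gen levels.tail := by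
    refine Set.Subset.antisymm (fun σ hσ => hclosed _ hok' _ ?_ σ (hM₁₁ ▸ hσ)) (fun σ hσ => Hs_le M₁₁ _ (fun w hw k hk => hmem7 k ?_) σ hσ)
    · intro x hx
      simp only [Set.mem_insert_iff, Set.mem_singleton_iff] at hx
      rcases hx with rfl | rfl | rfl | rfl | rfl | rfl | rfl
      · exact hsift' 0 (by norm_num)
      · exact hsift' 1 (by norm_num)
      · exact hsift' 2 (by norm_num)
      · exact hsift' 3 (by norm_num)
      · exact hsift' 4 (by norm_num)
      · exact hsift' 5 (by norm_num)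
      · exact hsift' 6 (by norm_num)
    · exact of_decide_eq_true (List.all_eq_true.1 (List.all_eq_true.1 levels_tail w hw) k hk)
  let b : Fin 5 ↪ Fin 12 := ⟨![2, 1, 0, 3, 4], by decide⟩
  have hreach : ∀ y : Fin 5 ↪ Fin 12, ∃ g : M₁₂, g • b = y := by
    intro y
    obtain ⟨σ, hσ, he⟩ := reach hg levels [] levels_fix [2, 1, 0, 3, 4] (List.ofFn y) (by rfl) (by simp)
      (List.nodup_ofFn_ofInjective y.injective) (by simp)
    refine ⟨⟨σ, by rw [← SetLike.mem_coe, h12]; exact hσ⟩, Function.Embedding.ext fun i => ?_⟩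
    have hi := congrArg (fun l => l.getD i.val 0) he
    show σ (b i) = y i
    fin_cases i <;> simpa [b] using hi
  haveI htr : MulAction.IsPretransitive M₁₂ (Fin 5 ↪ Fin 12) := ⟨fun x y => by
    obtain ⟨g, hg'⟩ := hreach x
    obtain ⟨h, hh⟩ := hreach y
    refine ⟨h * g⁻¹, ?_⟩
    subst hg' hh
    refine Function.Embedding.ext fun i => ?_
    show (h : Equiv.Perm (Fin 12)) (((g : Equiv.Perm (Fin 12)))⁻¹ ((g : Equiv.Perm (Fin 12)) (b i))) = (h : Equiv.Perm (Fin 12)) (b i)
    rw [Equiv.Perm.inv_def, Equiv.symm_apply_apply]⟩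
  have hle : Nat.card M₁₂ ≤ 95040 := by
    obtain ⟨S, hS, hc⟩ := Hs_card (gen := gen) levels
    have h1 := Set.ncard_le_ncard hS (Finset.finite_toSet S)
    rw [← h12, Set.ncard_coe_finset] at h1
    refine le_trans (le_of_eq ?_) (h1.trans (hc.trans (by decide)))
    exact Nat.card_coe_set_eq _
  have hemb : Nat.card (Fin 5 ↪ Fin 12) = 95040 := by
    rw [Nat.card_eq_fintype_card, Fintype.card_embedding_eq, Fintype.card_fin, Fintype.card_fin]
    decide
  have hidx : ∀ y : Fin 5 ↪ Fin 12, (MulAction.stabilizer M₁₂ y).index = 95040 := fun y => by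
    exact (@MulAction.index_stabilizer_of_transitive M₁₂ _ _ _ y htr).trans hemb
  have hcard : Nat.card M₁₂ = 95040 :=
    le_antisymm hle (Nat.le_of_dvd Nat.card_pos (hidx b ▸ Subgroup.index_dvd_card _))
  have hstab : ∀ y : Fin 5 ↪ Fin 12, MulAction.stabilizer M₁₂ y = ⊥ := fun y => by
    have h := Subgroup.card_mul_index (MulAction.stabilizer M₁₂ y)
    rw [hidx, hcard] at h
    exact Subgroup.eq_bot_of_card_eq _ (by omega)
  have hinter : M₁₁ = M₁₂ ⊓ MulAction.stabilizer (Equiv.Perm (Fin 12)) (2 : Fin 12) := by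
    apply le_antisymm
    · refine le_inf (hM₁₁ ▸ hM₁₂ ▸ Subgroup.closure_mono (by intro x; simp; tauto)) fun σ hσ => ?_
      rw [← SetLike.mem_coe, h11] at hσ
      have hfix := levels_fix
      rw [levels, fixOk, Bool.and_eq_true] at hfix
      exact fix_Hs hg levels.tail [2] hfix.2 σ hσ 2 (List.mem_cons_self ..)
    · rintro σ ⟨hσ, h2⟩
      replace hσ : σ ∈ (M₁₂ : Set (Equiv.Perm (Fin 12))) := hσ
      rw [h12] at hσ
      obtain ⟨w, hw, k, hk, rfl⟩ : ∃ w ∈ (levels.headD (0, [])).2, ∃ k ∈ Hs gen levels.tail, σ = El gen w * k := hσ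
      have hfix := levels_fix
      rw [levels, fixOk, Bool.and_eq_true] at hfix
      have hk2 : k 2 = 2 := fix_Hs hg levels.tail [2] hfix.2 k hk 2 (List.mem_cons_self ..)
      have hw2 : El gen w 2 = 2 := by
        have : (El gen w * k) 2 = 2 := h2
        rwa [Equiv.Perm.mul_apply, hk2] at this
      have hh := List.all_eq_true.1 levels_head w hw
      rw [← tab_El hg, ← tab_one] at hh
      rcases Bool.or_eq_true _ _ ▸ hh with e | e
      · exfalso
        rw [show (tab (El gen w)).getD 2 0 = 2 from by rw [show (2 : ℕ) = ((2 : Fin 12) : ℕ) from rfl, tab_getD, hw2]] at e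
        exact absurd e (by decide)
      · rw [tab_injective (beq_iff_eq.1 e), one_mul, ← SetLike.mem_coe, h11]
        exact hk
  refine ⟨htr, hstab, hcard, ?_, hinter⟩
  have h12tr : MulAction.IsPretransitive M₁₂ (Fin 12) := ⟨fun a c => by
    obtain ⟨g, hg'⟩ := MulAction.exists_smul_eq M₁₂ (⟨fun i => Equiv.swap 0 a (i.castLE (show 5 ≤ 12 by norm_num)),
      (Equiv.swap 0 a).injective.comp (Fin.castLE_injective (show 5 ≤ 12 by norm_num))⟩ : Fin 5 ↪ Fin 12)
      ⟨fun i => Equiv.swap 0 c (i.castLE (show 5 ≤ 12 by norm_num)), (Equiv.swap 0 c).injective.comp (Fin.castLE_injective (show 5 ≤ 12 by norm_num))⟩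
    refine ⟨g, ?_⟩
    have := congrArg (fun f : Fin 5 ↪ Fin 12 => f 0) hg'
    simpa using this⟩
  haveI := h12tr
  have h := Subgroup.card_mul_index (MulAction.stabilizer M₁₂ (2 : Fin 12))
  rw [MulAction.index_stabilizer_of_transitive, Nat.card_fin, hcard] at h
  have e : Nat.card (MulAction.stabilizer M₁₂ (2 : Fin 12)) = Nat.card M₁₁ := Nat.card_congr
    { toFun := fun g => ⟨((g : M₁₂) : Equiv.Perm (Fin 12)), by rw [hinter]; exact ⟨g.1.2, g.2⟩⟩
      invFun := fun g => ⟨⟨g, ((le_of_eq hinter) g.2).1⟩, ((le_of_eq hinter) g.2).2⟩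
      left_inv := fun g => rfl
      right_inv := fun g => rfl }
  omega

end Cfsg.Agent.S3362
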