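import Cfsg.Statements.S3374
import Cfsg.Agent.Lib.Recog.BinaryIcosahedral
-- import your own Cfsg.Agent.* helpers here

set_option autoImplicit false
open Cfsg

namespace Cfsg.Agent.S3374

open Cfsg.Lib.Recog.BinaryIcosahedral
open scoped Pointwise


/-- SL(2,5) occurs as a Frobenius complement: there is a finite group L with a subgroup H isomorphic to SL(2,5) which is a non-trivial proper subgroup meeting each conjugate gHg⁻¹ with g outside H trivially. -/
theorem result :
    ∃ (L : Type) (_ : Group L) (_ : Finite L) (H : Subgroup L),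
      Cfsg.IsFrobeniusComplement H ∧ Nonempty (H ≃* Matrix.SpecialLinearGroup (Fin 2) (ZMod 5)) := by
  classical
  let L := Multiplicative (Fin 2 → ZMod 11) ⋊[act] B
  have : Finite L := Finite.of_equiv _ SemidirectProduct.equivProd.symm
  let ι : B →* L := SemidirectProduct.inr
  have hι : Function.Injective ι := SemidirectProduct.inr_injective
  refine ⟨L, inferInstance, inferInstance, ι.range, ⟨?_, ?_, ?_⟩, ⟨(MonoidHom.ofInjective hι).symm⟩⟩
  · intro h
    let A : B := ⟨!![1, 1; 0, 1], by simp [Matrix.det_fin_two_of]⟩
    have h1 : ι A ∈ ι.range := ⟨A, rfl⟩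
    rw [h, Subgroup.mem_bot] at h1
    have h2 := hι (h1.trans (map_one ι).symm)
    have := congrArg (fun M : B => M 0 1) h2
    simp [A] at this; exact absurd this (by decide)
  · intro h
    have h1 : (SemidirectProduct.inl (φ := act) (Multiplicative.ofAdd (fun _ => (1 : ZMod 11))) : L) ∈ ι.range :=
      h ▸ Subgroup.mem_top _
    obtain ⟨A, hA⟩ := h1
    have := congrFun (congrArg Multiplicative.toAdd (congrArg SemidirectProduct.left hA)) 0
    change (0 : ZMod 11) = 1 at this
    exact absurd this (by decide)
  · intro g hg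
    rw [Subgroup.eq_bot_iff_forall]
    rintro x ⟨hx1, hx2⟩
    obtain ⟨A, rfl⟩ := hx1
    obtain ⟨y, ⟨C, rfl⟩, hy⟩ := hx2
    have hy' : g * ι C = ι A * g := by
      have hy2 : g * ι C * g⁻¹ = ι A := hy
      rw [← hy2, inv_mul_cancel_right]
    have hl : act A g.left = g.left := by
      have h := congrArg SemidirectProduct.left hy'
      rw [SemidirectProduct.mul_left, SemidirectProduct.mul_left] at h
      have e1 : (ι C).left = 1 := rfl
      have e2 : (ι A).left = 1 := rfl
      rw [e1, e2, map_one, mul_one, one_mul] at h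
      exact h.symm
    have hne : g.left ≠ 1 := by
      intro h1
      exact hg ⟨g.right, SemidirectProduct.ext (h1.symm ▸ rfl) rfl⟩
    by_contra hA
    have hA' : A ≠ 1 := fun h => hA (by rw [h, map_one])
    exact hne (act_fpf hA' hl)

end Cfsg.Agent.S3374
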