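import Cfsg.Statements.S3375
import Mathlib

set_option autoImplicit false
open Cfsg

namespace Cfsg.Agent.S3375

/-- Let γ be an automorphism of order 2 of a finite group H. (i) If γ fixes only the identity, then H is abelian and γ inverts every element. (ii) If γ has exactly two fixed points and H has a subgroup of index 2, then H has a γ-invariant abelian subgroup of index 2 on which γ acts by inversion. -/
theorem result {H : Type*} [Group H] [Finite H] (γ : MulAut H) (hγ : orderOf γ = 2) :
    ((∀ h : H, γ h = h → h = 1) → (∀ a b : H, a * b = b * a) ∧ ∀ h : H, γ h = h⁻¹) ∧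
    ((Nat.card {h : H // γ h = h} = 2 ∧ ∃ M : Subgroup H, M.index = 2) →
      ∃ A : Subgroup H, A.index = 2 ∧ IsMulCommutative A ∧ (∀ a ∈ A, γ a ∈ A) ∧ ∀ a ∈ A, γ a = a⁻¹) := by
  classical
  have hinv : ∀ h, γ (γ h) = h := fun h => by
    have h1 : γ ^ 2 = 1 := hγ ▸ pow_orderOf_eq_one γ
    have := congrArg (fun e : MulAut H => e h) h1
    simpa [pow_two] using this
  refine ⟨fun hfix => ?_, fun ⟨hcard, M, hM⟩ => ?_⟩
  · have hf : MonoidHom.FixedPointFree γ := hfix
    exact ⟨hf.commute_all_of_involutive hinv, fun h => congrFun (hf.coe_eq_inv_of_involutive hinv) h⟩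
  obtain ⟨A, hA, hAi⟩ : ∃ A : Subgroup H, A.index = 2 ∧ ∀ h, γ h ∈ A ↔ h ∈ A := by
    by_cases hinvM : ∀ h, γ h ∈ M ↔ h ∈ M
    · exact ⟨M, hM, hinvM⟩
    obtain ⟨a, ha⟩ := not_forall.mp hinvM
    refine ⟨{ carrier := {h | h ∈ M ↔ γ h ∈ M}
              mul_mem' := fun {x y} hx hy => by
                simp only [Set.mem_ofPred_eq, map_mul, Subgroup.mul_mem_iff_of_index_two hM] at hx hy ⊢
                tauto
              one_mem' := by simp
              inv_mem' := fun {x} hx => by simpa using hx }, ?_, fun h => ?_⟩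
    · rw [Subgroup.index_eq_two_iff]
      refine ⟨a, fun b => ?_⟩
      simp only [Subgroup.mem_mk, Submonoid.mem_mk, Subsemigroup.mem_mk, Set.mem_ofPred_eq, map_mul,
        Subgroup.mul_mem_iff_of_index_two hM, Xor']
      tauto
    · show (γ h ∈ M ↔ γ (γ h) ∈ M) ↔ (h ∈ M ↔ γ h ∈ M)
      rw [hinv]
      tauto
  have : Fintype H := Fintype.ofFinite H
  set δ : H → H := fun h => h⁻¹ * γ h with hδ
  have hδA : ∀ h, δ h ∈ A := fun h => by
    rw [Subgroup.mul_mem_iff_of_index_two hA, hAi h, Subgroup.inv_mem_iff]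
  have hfib : ∀ y ∈ Finset.univ.image δ, (Finset.univ.filter fun h => δ h = y).card = 2 := by
    intro y hy
    obtain ⟨h₀, -, rfl⟩ := Finset.mem_image.mp hy
    rw [← Fintype.card_subtype, ← Nat.card_eq_fintype_card, ← hcard]
    refine Nat.card_congr ⟨fun h => ⟨(h : H) * h₀⁻¹, ?_⟩, fun w => ⟨(w : H) * h₀, ?_⟩,
      fun h => Subtype.ext (by simp), fun w => Subtype.ext (by simp)⟩
    · have e := h.2
      simp only [hδ] at e
      have e' : γ (h : H) = (h : H) * (h₀⁻¹ * γ h₀) := by rw [← e]; group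
      rw [map_mul, map_inv, e']
      group
    · simp only [hδ, map_mul, w.2]
      group
  have hcardim : (Finset.univ.image δ).card * 2 = Nat.card H := by
    have h1 := Finset.card_eq_sum_card_image δ (Finset.univ : Finset H)
    rw [Finset.sum_congr rfl hfib, Finset.sum_const, smul_eq_mul, Finset.card_univ] at h1
    rw [Nat.card_eq_fintype_card, h1]
  have hall : ∀ a ∈ A, γ a = a⁻¹ := by
    intro a ha
    have heq : Finset.univ.image δ = Finset.univ.filter (· ∈ A) := by
      refine Finset.eq_of_subset_of_card_le (fun y hy => ?_) ?_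
      · obtain ⟨h, -, rfl⟩ := Finset.mem_image.mp hy
        exact Finset.mem_filter.mpr ⟨Finset.mem_univ _, hδA h⟩
      · rw [← Fintype.card_subtype, ← Nat.card_eq_fintype_card]
        have := A.card_mul_index
        rw [hA] at this
        show Nat.card A ≤ _
        omega
    have ha' : a ∈ Finset.univ.image δ := heq ▸ Finset.mem_filter.mpr ⟨Finset.mem_univ _, ha⟩
    obtain ⟨h, -, rfl⟩ := Finset.mem_image.mp ha'
    simp only [hδ, map_mul, map_inv, hinv, mul_inv_rev, inv_inv]
  refine ⟨A, hA, ⟨⟨fun x y => Subtype.ext ?_⟩⟩, fun a ha => (hAi a).mpr ha, hall⟩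
  have h1 := hall _ (A.mul_mem x.2 y.2)
  rw [map_mul, hall _ x.2, hall _ y.2, ← mul_inv_rev, inv_inj] at h1
  exact h1.symm

end Cfsg.Agent.S3375
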