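import Cfsg.Statements.S3379
import Mathlib

set_option autoImplicit false
open Cfsg

namespace Cfsg.Agent.S3379

/-- Let G be a finite group all of whose Sylow subgroups are cyclic. Then G is generated by two elements x and y of coprime orders n and m with x⁻¹yx = y^r, where gcd(r − 1, m) = 1 and r^n ≡ 1 (mod m). -/
theorem result {G : Type*} [Group G] [Finite G]
    (hZ : ∀ (p : ℕ) [Fact p.Prime] (P : Sylow p G), IsCyclic (P : Subgroup G)) :
    ∃ (x y : G) (n m r : ℕ), Subgroup.closure {x, y} = ⊤ ∧ orderOf x = n ∧ orderOf y = m ∧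
      x⁻¹ * y * x = y ^ r ∧ Nat.Coprime (r - 1) m ∧ Nat.Coprime n m ∧ 1 ≤ r ∧ r ^ n % m = 1 % m := by
  classical
  have : IsZGroup G := ⟨fun p hp P => @hZ p ⟨hp⟩ P⟩
  obtain ⟨H, hH⟩ := Subgroup.exists_right_complement'_of_coprime (IsZGroup.coprime_commutator_index G)
  have : IsCyclic (G ⧸ commutator G) := IsZGroup.isCyclic_abelianization
  have hHc : IsCyclic H := isCyclic_of_surjective _ (hH.symm.QuotientMulEquiv (G := G)).surjective
  have hNc : IsCyclic (commutator G) := IsZGroup.isCyclic_commutator G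
  obtain ⟨x, hx⟩ := IsCyclic.exists_generator (α := H)
  obtain ⟨y, hy⟩ := IsCyclic.exists_generator (α := commutator G)
  have hxH : Subgroup.zpowers (x : G) = H := by
    refine le_antisymm (Subgroup.zpowers_le.mpr x.2) fun g hg => ?_
    obtain ⟨i, hi⟩ := Subgroup.mem_zpowers_iff.mp (hx ⟨g, hg⟩)
    exact ⟨i, congrArg Subtype.val hi⟩
  have hyN : Subgroup.zpowers (y : G) = commutator G := by
    refine le_antisymm (Subgroup.zpowers_le.mpr y.2) fun g hg => ?_
    obtain ⟨i, hi⟩ := Subgroup.mem_zpowers_iff.mp (hy ⟨g, hg⟩)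
    exact ⟨i, congrArg Subtype.val hi⟩
  set m := orderOf (y : G) with hm
  have hm0 : 0 < m := orderOf_pos _
  obtain ⟨a, ha⟩ : (x : G)⁻¹ * y * x ∈ Subgroup.zpowers (y : G) := by
    rw [hyN]
    simpa using (inferInstance : (commutator G).Normal).conj_mem _ y.2 (x : G)⁻¹
  set r := (a % (m : ℤ)).toNat + m with hr
  have hrw : (x : G)⁻¹ * y * x = (y : G) ^ r := by
    rw [hr, pow_add, hm, pow_orderOf_eq_one, mul_one, ← zpow_natCast, Int.toNat_of_nonneg
      (Int.emod_nonneg _ (by rw [← hm]; omega)), zpow_mod_orderOf]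
    exact ha.symm
  have hgen : Subgroup.closure ({(x : G), (y : G)} : Set G) = ⊤ := by
    rw [← top_le_iff, ← hH.symm.sup_eq_top]
    exact sup_le (hxH.symm.trans_le (Subgroup.zpowers_le.mpr (Subgroup.subset_closure (by simp))))
      (hyN.symm.trans_le (Subgroup.zpowers_le.mpr (Subgroup.subset_closure (by simp))))
  have hmN : m = Nat.card (commutator G) := by rw [← hyN, Nat.card_zpowers]
  refine ⟨x, y, orderOf (x : G), m, r, hgen, rfl, rfl, hrw, ?_, ?_, by omega, ?_⟩
  · -- the quotient by the powers of the commutator is abelian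
    set z := (y : G) ^ (r - 1) with hz
    set M := Subgroup.zpowers z with hM
    have hMn : M.Normal := by
      have hzy : M ≤ Subgroup.zpowers (y : G) :=
        Subgroup.zpowers_le.mpr (pow_mem (Subgroup.mem_zpowers _) _)
      refine ⟨fun w hw g => ?_⟩
      obtain ⟨j, rfl⟩ := hw
      obtain ⟨i, hi⟩ : g * (y : G) * g⁻¹ ∈ Subgroup.zpowers (y : G) := by
        rw [hyN]
        exact (inferInstance : (commutator G).Normal).conj_mem _ y.2 g
      simp only at hi ⊢
      rw [hz, ← zpow_natCast (y : G), ← zpow_mul, ← conj_zpow, ← hi, ← zpow_mul, mul_comm, zpow_mul,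
        zpow_mul, zpow_natCast]
      exact zpow_mem (zpow_mem (Subgroup.mem_zpowers _) _) _
    have hcom : Commute ((x : G) : G ⧸ M) ((y : G) : G ⧸ M) := by
      show ((x : G) : G ⧸ M) * ((y : G) : G ⧸ M) = _
      rw [← QuotientGroup.mk_mul, ← QuotientGroup.mk_mul, eq_comm, QuotientGroup.eq]
      have e : (y : G) ^ r = (y : G) ^ (r - 1) * y := by rw [← pow_succ, Nat.sub_add_cancel (by omega)]
      have h2 : ((y : G) * x)⁻¹ * ((x : G) * y) = ((y : G) ^ r)⁻¹ * y := by rw [← hrw]; group
      rw [h2, e, mul_inv_rev, mul_assoc]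
      have h3 : (y : G)⁻¹ * (((y : G) ^ (r - 1))⁻¹ * y) = z⁻¹ := by
        rw [hz, ← (Commute.pow_self (y : G) (r - 1)).inv_left.symm.eq, inv_mul_cancel_left]
      rw [h3]
      exact M.inv_mem (Subgroup.mem_zpowers _)
    have hcl : ∀ g ∈ Subgroup.closure ({(x : G), (y : G)} : Set G), Commute ((g : G) : G ⧸ M) ((x : G) : G ⧸ M) ∧
        Commute ((g : G) : G ⧸ M) ((y : G) : G ⧸ M) := by
      intro g hg
      induction hg using Subgroup.closure_induction with
      | mem w hw =>
        rcases hw with rfl | rfl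
        · exact ⟨Commute.refl _, hcom⟩
        · exact ⟨hcom.symm, Commute.refl _⟩
      | one => exact ⟨Commute.one_left _, Commute.one_left _⟩
      | mul u v _ _ iu iv => exact ⟨iu.1.mul_left iv.1, iu.2.mul_left iv.2⟩
      | inv u _ iu => exact ⟨iu.1.inv_left, iu.2.inv_left⟩
    have hab : ∀ g ∈ Subgroup.closure ({(x : G), (y : G)} : Set G), ∀ g' : G, Commute ((g' : G) : G ⧸ M) ((g : G) : G ⧸ M) := by
      intro g hg g'
      induction hg using Subgroup.closure_induction with
      | mem w hw =>
        rcases hw with rfl | rfl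
        · exact (hcl g' (hgen ▸ Subgroup.mem_top g')).1
        · exact (hcl g' (hgen ▸ Subgroup.mem_top g')).2
      | one => exact Commute.one_right _
      | mul u v _ _ iu iv => exact iu.mul_right iv
      | inv u _ iu => exact iu.inv_right
    have hle : commutator G ≤ M := by
      rw [commutator_def, Subgroup.commutator_le]
      intro u _ v _
      rw [← QuotientGroup.eq_one_iff, ← QuotientGroup.mk'_apply, map_commutatorElement,
        commutatorElement_eq_one_iff_mul_comm]
      exact hab v (hgen ▸ Subgroup.mem_top v) u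
    have hcard := Subgroup.card_le_of_le hle
    rw [← hmN, Nat.card_zpowers, hz, orderOf_pow, ← hm] at hcard
    have hg1 : Nat.gcd m (r - 1) = 1 := by
      by_contra hne
      have hpos := Nat.gcd_pos_of_pos_left (r - 1) hm0
      have := Nat.div_lt_self hm0 (show 1 < Nat.gcd m (r - 1) by omega)
      omega
    exact Nat.Coprime.symm hg1
  · have e : (commutator G).index = Nat.card H := by
      first
        | exact hH.index_eq_card
        | exact hH.symm.index_eq_card
    rw [hmN, ← Nat.card_zpowers, hxH, ← e]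
    exact (IsZGroup.coprime_commutator_index G).symm
  · have key : ∀ j : ℕ, ((x : G) ^ j)⁻¹ * y * (x : G) ^ j = (y : G) ^ (r ^ j) := by
      intro j
      induction j with
      | zero => simp
      | succ j ih =>
        rw [pow_succ (x : G), mul_inv_rev, show (x : G)⁻¹ * ((x : G) ^ j)⁻¹ * y * ((x : G) ^ j * x) =
          (x : G)⁻¹ * (((x : G) ^ j)⁻¹ * y * (x : G) ^ j) * x by group, ih, pow_succ' r, pow_mul, ← hrw]
        have := conj_pow (a := (x : G)⁻¹) (b := (y : G)) (i := r ^ j)
        simp only [inv_inv] at this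
        exact this.symm
    have h := key (orderOf (x : G))
    simp only [pow_orderOf_eq_one, inv_one, one_mul, mul_one] at h
    have h' : (y : G) ^ 1 = (y : G) ^ (r ^ orderOf (x : G)) := by rw [pow_one]; exact h
    rw [pow_eq_pow_iff_modEq, ← hm] at h'
    exact h'.symm

end Cfsg.Agent.S3379
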