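import Cfsg.Statements.S3380
import Cfsg.Agent.S0016
import Cfsg.Agent.S0519
-- import your own Cfsg.Agent.* helpers here

set_option autoImplicit false
open Cfsg

namespace Cfsg.Agent.S3380

/-- A non-trivial normal subgroup of a finite p-group has a central element of order p. -/
theorem exists_central {G : Type*} [Group G] [Finite G] {p : ℕ} [Fact p.Prime] (hG : IsPGroup p G) (N : Subgroup G)
    (hN : N.Normal) (hne : N ≠ ⊥) : ∃ z ∈ N, orderOf z = p ∧ ∀ g : G, g * z = z * g := by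
  let _ : MulAction G N := MulAction.compHom _ (MulAut.conjNormal : G →* MulAut N)
  have hdvd : p ∣ Nat.card N := (hG.to_subgroup N).card_eq_or_dvd.resolve_left fun h => hne (Subgroup.card_eq_one.mp h)
  obtain ⟨y, hy, hy1⟩ := hG.exists_fixed_point_of_prime_dvd_card_of_fixed_point (α := N) hdvd (a := 1)
    (fun g => map_one (MulAut.conjNormal g : MulAut N))
  have hyc : ∀ g : G, g * (y : G) = y * g := fun g => by
    have h : (MulAut.conjNormal g : MulAut N) y = y := hy g
    have h2 := congrArg Subtype.val h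
    rw [MulAut.conjNormal_apply] at h2
    exact mul_inv_eq_iff_eq_mul.mp h2
  have hy1' : (y : G) ≠ 1 := fun e => hy1 (Subtype.ext e.symm)
  obtain ⟨k, hk⟩ := hG.exists_orderOf_eq_pow (y : G)
  rcases k with _ | k
  · exact absurd (orderOf_eq_one_iff.mp (by simpa using hk)) hy1'
  refine ⟨(y : G) ^ (p ^ k), N.pow_mem y.2 _, ?_, fun g => ((show Commute g y from hyc g).pow_right _).eq⟩
  have hp := (Fact.out : p.Prime)
  rw [orderOf_pow' _ (pow_ne_zero _ hp.ne_zero), hk, Nat.gcd_eq_right (pow_dvd_pow p k.le_succ), pow_succ',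
    Nat.mul_div_cancel _ (pow_pos hp.pos k)]

theorem two_subgroups_not_cyclic {G : Type*} [Group G] [Finite G] {p : ℕ} [Fact p.Prime] (B : Subgroup G) (x y : G)
    (hx : x ∈ B) (hy : y ∈ B) (hxp : orderOf x = p) (hyp : y ^ p = 1) (hxy : y ∉ Subgroup.zpowers x) : ¬ IsCyclic B := by
  classical
  intro hc
  have : Fintype B := Fintype.ofFinite B
  have hle := IsCyclic.card_pow_eq_one_le (α := B) (Fact.out : p.Prime).pos
  let f : Fin p → B := fun j => (⟨x, hx⟩ : B) ^ (j : ℕ)
  have hf : Function.Injective f := fun i j h => Fin.ext (pow_injOn_Iio_orderOf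
    (show (i : ℕ) ∈ Set.Iio (orderOf (⟨x, hx⟩ : B)) by rw [← Subgroup.orderOf_coe, hxp]; exact i.2)
    (show (j : ℕ) ∈ Set.Iio (orderOf (⟨x, hx⟩ : B)) by rw [← Subgroup.orderOf_coe, hxp]; exact j.2) h)
  have hsub : insert (⟨y, hy⟩ : B) (Finset.univ.image f) ⊆ Finset.univ.filter fun a => a ^ p = 1 := by
    intro a ha
    rcases Finset.mem_insert.mp ha with rfl | ha
    · simp only [Finset.mem_filter, Finset.mem_univ, true_and]
      exact Subtype.ext (by simpa using hyp)
    · obtain ⟨j, -, rfl⟩ := Finset.mem_image.mp ha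
      simp only [f, Finset.mem_filter, Finset.mem_univ, true_and]
      refine Subtype.ext ?_
      push_cast
      rw [← pow_mul, mul_comm, pow_mul, orderOf_dvd_iff_pow_eq_one.mp hxp.dvd, one_pow]
  have hnm : (⟨y, hy⟩ : B) ∉ Finset.univ.image f := fun h => by
    obtain ⟨j, -, hj⟩ := Finset.mem_image.mp h
    refine hxy ?_
    rw [show y = x ^ (j : ℕ) from (congrArg Subtype.val hj).symm]
    exact Subgroup.pow_mem _ (Subgroup.mem_zpowers x) _
  have := Finset.card_le_card hsub
  rw [Finset.card_insert_of_notMem hnm, Finset.card_image_of_injective _ hf, Finset.card_univ, Fintype.card_fin] at this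
  omega

/-- A normal elementary abelian subgroup of order p². -/
theorem exists_normal_pair {G : Type*} [Group G] [Finite G] {p : ℕ} [Fact p.Prime] (hG : IsPGroup p G)
    (hnc : ¬ IsCyclic G) (hnq : ∀ n : ℕ, ¬ Nonempty (G ≃* QuaternionGroup n))
    (hnd : ∀ n : ℕ, ¬ Nonempty (G ≃* DihedralGroup n)) (hnsd : ¬ Cfsg.IsQuasiDihedral G) :
    ∃ a z : G, orderOf z = p ∧ a ^ p = 1 ∧ a ∉ Subgroup.zpowers z ∧ (∀ g, g * z = z * g) ∧
      ∀ g : G, a⁻¹ * (g * a * g⁻¹) ∈ Subgroup.zpowers z := by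
  classical
  have hp := (Fact.out : p.Prime)
  obtain ⟨A, hAn, hAc, hAnc⟩ : ∃ A : Subgroup G, A.Normal ∧ IsMulCommutative A ∧ ¬ IsCyclic A := by
    by_contra hno
    push Not at hno
    have hm : ∃ B : Subgroup G, IsMulCommutative B ∧ ¬ IsCyclic B := by
      by_contra hnoB
      push Not at hnoB
      refine absurd (Cfsg.Agent.S0016.result p hG fun H K hH hK => ?_) (fun h => h.elim hnc fun h' => h'.2.elim fun n hn => hnq _ hn)
      by_contra hHK
      obtain ⟨z, -, hz, hzc⟩ := exists_central hG ⊤ inferInstance (fun h => by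
        have hle : Nat.card H ≤ Nat.card (⊤ : Subgroup G) := Subgroup.card_le_of_le le_top
        rw [h, hH, Subgroup.card_bot] at hle
        exact absurd hp.two_le (by omega))
      obtain ⟨L, hL, hLz⟩ : ∃ L : Subgroup G, Nat.card L = p ∧ L ≠ Subgroup.zpowers z := by
        by_cases h : H = Subgroup.zpowers z
        · exact ⟨K, hK, fun e => hHK (h.trans e.symm)⟩
        · exact ⟨H, hH, h⟩
      obtain ⟨y, hy, hyz⟩ : ∃ y ∈ L, y ∉ Subgroup.zpowers z := by
        by_contra hcon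
        push Not at hcon
        exact hLz (Subgroup.eq_of_le_of_card_ge hcon (by rw [Nat.card_zpowers, hz, hL]))
      have hyp : y ^ p = 1 := by
        rw [← hL]
        exact congrArg Subtype.val (pow_card_eq_one' (x := (⟨y, hy⟩ : L)))
      have hcl : IsMulCommutative (Subgroup.closure ({z, y} : Set G)) := by
        refine Subgroup.isMulCommutative_closure ?_
        intro u hu v hv
        simp only [Set.mem_insert_iff, Set.mem_singleton_iff] at hu hv
        rcases hu with rfl | rfl <;> rcases hv with rfl | rfl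
        exacts [rfl, (hzc v).symm, hzc u, rfl]
      exact two_subgroups_not_cyclic _ z y (Subgroup.subset_closure (by simp)) (Subgroup.subset_closure (by simp)) hz hyp hyz
        (hnoB _ hcl)
    rcases Cfsg.Agent.S0519.result p hG hno hm with ⟨-, ⟨n, h⟩ | ⟨n, -, h⟩ | h⟩
    exacts [hnq n h, hnd n h, hnsd h]
  have hcm : ∀ u ∈ A, ∀ v ∈ A, u * v = v * u := fun u hu v hv =>
    congrArg Subtype.val (hAc.is_comm.comm ⟨u, hu⟩ ⟨v, hv⟩)
  let Ω1 : Subgroup G :=
    { carrier := {x | x ∈ A ∧ x ^ p = 1}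
      one_mem' := ⟨A.one_mem, one_pow p⟩
      mul_mem' := fun {x y} hx hy => ⟨A.mul_mem hx.1 hy.1, by
        rw [(show Commute x y from hcm x hx.1 y hy.1).mul_pow, hx.2, hy.2, one_mul]⟩
      inv_mem' := fun {x} hx => ⟨A.inv_mem hx.1, by rw [inv_pow, hx.2, inv_one]⟩ }
  have hΩn : Ω1.Normal := ⟨fun n hn g => ⟨hAn.conj_mem n hn.1 g, by rw [conj_pow, hn.2, mul_one, mul_inv_cancel]⟩⟩
  obtain ⟨u, v, hu, hv, huv⟩ : ∃ u v : A, orderOf u = p ∧ orderOf v = p ∧ v ∉ Subgroup.zpowers u := by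
    by_contra hno
    push Not at hno
    obtain ⟨a, ha⟩ := Cfsg.Lib.ZStar.exists_generator_of_unique (hG.to_subgroup A) (fun x y hx hy => hno x y hx hy) ⊤
      ⟨⟨fun s t => Subtype.ext (hAc.is_comm.comm (s : A) (t : A))⟩⟩
    exact hAnc ⟨⟨a, fun x => Subgroup.mem_zpowers_iff.mp (ha ▸ Subgroup.mem_top x)⟩⟩
  have huΩ : (u : G) ∈ Ω1 := ⟨u.2, by rw [← Subgroup.coe_pow, ← hu, pow_orderOf_eq_one]; rfl⟩
  have hvΩ : (v : G) ∈ Ω1 := ⟨v.2, by rw [← Subgroup.coe_pow, ← hv, pow_orderOf_eq_one]; rfl⟩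
  have hu1 : (u : G) ≠ 1 := fun e => by
    rw [← Subgroup.orderOf_coe, e, orderOf_one] at hu
    exact hp.one_lt.ne hu
  obtain ⟨z, hzΩ, hz, hzc⟩ := exists_central hG Ω1 hΩn (fun h => hu1 (Subgroup.mem_bot.mp (h ▸ huΩ)))
  have hzn : (Subgroup.zpowers z).Normal := ⟨fun n hn g => by
    obtain ⟨i, rfl⟩ := Subgroup.mem_zpowers_iff.mp hn
    rw [((show Commute g z from hzc g).zpow_right i).eq, mul_inv_cancel_right]
    exact ⟨i, rfl⟩⟩
  let π := QuotientGroup.mk' (Subgroup.zpowers z)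
  have hπ : Function.Surjective π := QuotientGroup.mk'_surjective _
  have hne : Ω1.map π ≠ ⊥ := by
    intro h
    rw [Subgroup.map_eq_bot_iff, QuotientGroup.ker_mk'] at h
    have h1 : Subgroup.zpowers (u : G) = Subgroup.zpowers z := Subgroup.eq_of_le_of_card_ge
      (Subgroup.zpowers_le.mpr (h huΩ)) (by rw [Nat.card_zpowers, Nat.card_zpowers, hz, Subgroup.orderOf_coe, hu])
    refine huv ?_
    have h2 : (v : G) ∈ Subgroup.zpowers (u : G) := h1 ▸ h hvΩ
    obtain ⟨i, hi⟩ := Subgroup.mem_zpowers_iff.mp h2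
    exact ⟨i, Subtype.ext hi⟩
  obtain ⟨b, hb, hbo, hbc⟩ := exists_central (hG.to_quotient _) (Ω1.map π) (hΩn.map π hπ) hne
  obtain ⟨a, ha, rfl⟩ := hb
  refine ⟨a, z, hz, ha.2, fun h => ?_, hzc, fun g => ?_⟩
  · rw [show π a = 1 from (QuotientGroup.eq_one_iff a).mpr h, orderOf_one] at hbo
    exact hp.one_lt.ne hbo
  · rw [← QuotientGroup.eq_one_iff]
    show π (a⁻¹ * (g * a * g⁻¹)) = 1
    rw [map_mul, map_inv, map_mul, map_mul, map_inv, hbc (π g), mul_inv_cancel_right, inv_mul_cancel]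

/-- Let a finite p-group G act faithfully and irreducibly on a non-trivial finite vector space V over the field with q elements (q prime), and suppose G is not cyclic, generalized quaternion, dihedral or semidihedral. Then G has a subgroup H of index p and V is the direct sum of p subspaces, each invariant under H, on none of which H acts faithfully, and which every element of G outside H permutes in a single p-cycle. -/
theorem result
    (q : ℕ) [Fact q.Prime] {V : Type*} [AddCommGroup V] [Module (ZMod q) V] [Finite V] [Nontrivial V]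
    {G : Type*} [Group G] [Finite G] (p : ℕ) [Fact p.Prime] (hG : IsPGroup p G)
    (ρ : G →* (V ≃ₗ[ZMod q] V)) (hρ : Function.Injective ρ)
    (hirr : ∀ W : Submodule (ZMod q) V, (∀ g : G, ∀ w ∈ W, ρ g w ∈ W) → W = ⊥ ∨ W = ⊤)
    (hnc : ¬ IsCyclic G) (hnq : ∀ n : ℕ, ¬ Nonempty (G ≃* QuaternionGroup n))
    (hnd : ∀ n : ℕ, ¬ Nonempty (G ≃* DihedralGroup n)) (hnsd : ¬ Cfsg.IsQuasiDihedral G) :
    ∃ (H : Subgroup G) (W : Fin p → Submodule (ZMod q) V), H.index = p ∧
      iSup W = ⊤ ∧ iSupIndep W ∧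
      (∀ h ∈ H, ∀ i, ∀ w ∈ W i, ρ h w ∈ W i) ∧
      (∀ i, ∃ h ∈ H, h ≠ 1 ∧ ∀ w ∈ W i, ρ h w = w) ∧
      ∀ g : G, g ∉ H → ∃ σ : Equiv.Perm (Fin p), orderOf σ = p ∧ ∀ i, (W i).map (ρ g : V →ₗ[ZMod q] V) = W (σ i) := by
  classical
  have hp := (Fact.out : p.Prime)
  have : NeZero p := ⟨hp.ne_zero⟩
  obtain ⟨a, z, hz, hap, haz, hzc, hconj⟩ := exists_normal_pair hG hnc hnq hnd hnsd
  have hzp : z ^ p = 1 := hz ▸ pow_orderOf_eq_one z
  have hz1 : z ≠ 1 := fun e => by rw [e, orderOf_one] at hz; exact hp.one_lt.ne hz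
  have hmul : ∀ (g h : G) (v : V), ρ g (ρ h v) = ρ (g * h) v := fun g h v => by rw [map_mul]; rfl
  have hone : ∀ v : V, ρ 1 v = v := fun v => by rw [map_one]; rfl
  have htriv : ∀ g : G, (∀ v, ρ g v = v) → g = 1 := fun g hg => hρ (by rw [map_one]; exact LinearEquiv.ext hg)
  let fix' : G → Submodule (ZMod q) V := fun g =>
    { carrier := {v | ρ g v = v}
      add_mem' := fun {x y} hx hy => by
        show ρ g (x + y) = x + y
        rw [map_add, show ρ g x = x from hx, show ρ g y = y from hy]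
      zero_mem' := map_zero _
      smul_mem' := fun c x hx => by
        show ρ g (c • x) = c • x
        rw [map_smul, show ρ g x = x from hx] }
  have hmapfix : ∀ (g k : G) (w : V), w ∈ fix' k → ρ g w ∈ fix' (g * k * g⁻¹) := by
    intro g k w hw
    show ρ (g * k * g⁻¹) (ρ g w) = ρ g w
    rw [hmul, inv_mul_cancel_right, ← hmul, show ρ k w = w from hw]
  have hzbot : fix' z = ⊥ := by
    refine (hirr _ fun g w hw => ?_).resolve_right fun h => hz1 (htriv z fun v => (h ▸ Submodule.mem_top : v ∈ fix' z))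
    have := hmapfix g z w hw
    rwa [hzc g, mul_inv_cancel_right] at this
  have hqp : ((p : ℕ) : ZMod q) ≠ 0 := by
    intro h
    rw [ZMod.natCast_eq_zero_iff] at h
    have hqp : q = p := (Nat.prime_dvd_prime_iff_eq Fact.out hp).mp h
    subst hqp
    let _ : MulAction G V :=
      { smul := fun g v => ρ g v
        one_smul := hone
        mul_smul := fun g k v => (hmul g k v).symm }
    have hVq : q ∣ Nat.card V := by
      have : Module.Finite (ZMod q) V := Module.Finite.of_finite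
      rw [Module.natCard_eq_pow_finrank (K := ZMod q) (V := V), Nat.card_zmod]
      exact dvd_pow_self q Module.finrank_pos.ne'
    obtain ⟨v, hv, hv0⟩ := hG.exists_fixed_point_of_prime_dvd_card_of_fixed_point (α := V) hVq (a := 0)
      (fun g => map_zero (ρ g))
    have hfixv : ∀ g, ρ g v = v := fun g => hv g
    let S : Submodule (ZMod q) V := ⨅ g : G, fix' g
    have hS : ∀ g : G, ∀ w ∈ S, ρ g w ∈ S := fun g w hw => by
      rw [show ρ g w = w from (Submodule.mem_iInf _).mp hw g]; exact hw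
    rcases hirr S hS with h | h
    · have : v ∈ S := (Submodule.mem_iInf _).mpr hfixv
      rw [h, Submodule.mem_bot] at this
      exact hv0 this.symm
    · exact hz1 (htriv z fun w => (Submodule.mem_iInf _).mp (h ▸ Submodule.mem_top : w ∈ S) z)
  -- the translation of a
  have hc : ∀ g : G, ∃ c : Fin p, g * a * g⁻¹ = a * z ^ (c : ℕ) := by
    intro g
    obtain ⟨i, hi⟩ := (isOfFinOrder_of_finite z).mem_zpowers_iff_mem_range_orderOf.mp (hconj g) |> Finset.mem_image.mp
    exact ⟨⟨i, by rw [Finset.mem_range, hz] at hi; exact hi.1⟩, by rw [show z ^ i = _ from hi.2, mul_inv_cancel_left]⟩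
  have hza : Commute a z := hzc a
  have hak : ∀ j : ℕ, (a * z ^ j) ^ p = 1 := fun j => by
    rw [(hza.pow_right j).mul_pow, hap, one_mul, ← pow_mul, mul_comm, pow_mul, hzp, one_pow]
  let W : Fin p → Submodule (ZMod q) V := fun i => fix' (a * z ^ (i : ℕ))
  let E : G → Module.End (ZMod q) V := fun g => (ρ g).toLinearMap
  let P : Fin p → Module.End (ZMod q) V := fun i => ∑ j : Fin p, E ((a * z ^ (i : ℕ)) ^ (j : ℕ))
  have hsumfix : ∀ (k : G), k ^ p = 1 → ∀ v : V, ρ k (∑ j : Fin p, ρ (k ^ (j : ℕ)) v) = ∑ j : Fin p, ρ (k ^ (j : ℕ)) v := by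
    intro k hk v
    rw [map_sum, ← Equiv.sum_comp (Equiv.addRight (1 : Fin p)) (fun j : Fin p => ρ (k ^ (j : ℕ)) v)]
    refine Finset.sum_congr rfl fun j _ => ?_
    rw [hmul, ← pow_succ', Equiv.coe_addRight]
    congr 2
    rw [Fin.val_add, ← pow_mod_orderOf k ((j : ℕ) + 1), ← pow_mod_orderOf k (((j : ℕ) + (1 : Fin p).val) % p)]
    congr 1
    rw [Fin.val_one', Nat.mod_mod_of_dvd _ (orderOf_dvd_of_pow_eq_one hk), Nat.add_mod _ (1 % p),
      Nat.mod_mod_of_dvd _ (orderOf_dvd_of_pow_eq_one hk), ← Nat.add_mod]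
  have hPW : ∀ i v, P i v ∈ W i := by
    intro i v
    show ρ _ (P i v) = P i v
    simp only [P, LinearMap.coe_sum, Finset.sum_apply, E, LinearEquiv.coe_coe]
    exact hsumfix _ (hak i) v
  have hZ0 : ∀ v : V, ∑ k : Fin p, ρ (z ^ (k : ℕ)) v = 0 := fun v => by
    have : ∑ k : Fin p, ρ (z ^ (k : ℕ)) v ∈ fix' z := hsumfix z hzp v
    rwa [hzbot, Submodule.mem_bot] at this
  have hfixpow : ∀ (k : G) (v : V), ρ k v = v → ∀ j : ℕ, ρ (k ^ j) v = v := fun k v hv j => by
    induction j with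
    | zero => rw [pow_zero, hone]
    | succ j ih => rw [pow_succ, ← hmul, hv, ih]
  have htotal : ∀ v : V, ∑ i : Fin p, P i v = (p : ZMod q) • v := by
    intro v
    simp only [P, LinearMap.coe_sum, Finset.sum_apply, E, LinearEquiv.coe_coe]
    rw [Finset.sum_comm, Finset.sum_eq_single (0 : Fin p)]
    · simp only [Fin.val_zero, pow_zero, hone, Finset.sum_const, Finset.card_univ, Fintype.card_fin, Nat.cast_smul_eq_nsmul]
    · intro j _ hj
      have hbij : Function.Bijective (fun i : Fin p => i * j) := by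
        refine Finite.injective_iff_bijective.mp fun x y hxy => ?_
        have h1 : ((x : ℕ) * j) % p = ((y : ℕ) * j) % p := by simpa [Fin.val_mul] using congrArg Fin.val hxy
        have hcop : Nat.Coprime p (j : ℕ) := hp.coprime_iff_not_dvd.mpr fun h =>
          hj (Fin.ext (by simpa using Nat.eq_zero_of_dvd_of_lt h j.2))
        have h2 : (x : ℕ) % p = (y : ℕ) % p := Nat.ModEq.cancel_right_of_coprime hcop h1
        rw [Nat.mod_eq_of_lt x.2, Nat.mod_eq_of_lt y.2] at h2
        exact Fin.ext h2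
      have h2 : ∀ i : Fin p, ρ ((a * z ^ (i : ℕ)) ^ (j : ℕ)) v = ρ (a ^ (j : ℕ)) (ρ (z ^ ((i * j : Fin p) : ℕ)) v) := fun i => by
        rw [hmul, (hza.pow_right _).mul_pow, ← pow_mul, Fin.val_mul, ← pow_eq_pow_mod _ hzp]
      simp only [h2]
      rw [← map_sum]
      show ρ _ (∑ x : Fin p, (fun k : Fin p => ρ (z ^ (k : ℕ)) v) (x * j)) = 0
      rw [hbij.sum_comp (fun k : Fin p => ρ (z ^ (k : ℕ)) v), hZ0, map_zero]
    · intro h; exact absurd (Finset.mem_univ _) h
  have hsup : iSup W = ⊤ := by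
    rw [eq_top_iff]
    intro v _
    have h1 : v = ∑ i : Fin p, (p : ZMod q)⁻¹ • P i v := by
      rw [← Finset.smul_sum, htotal, inv_smul_smul₀ hqp]
    rw [h1]
    exact Submodule.sum_mem _ fun i _ => Submodule.smul_mem _ _ (Submodule.mem_iSup_of_mem i (hPW i v))
  have hPone : ∀ i w, w ∈ W i → P i w = (p : ZMod q) • w := by
    intro i w hw
    simp only [P, LinearMap.coe_sum, Finset.sum_apply, E, LinearEquiv.coe_coe, hfixpow _ w hw, Finset.sum_const,
      Finset.card_univ, Fintype.card_fin, Nat.cast_smul_eq_nsmul]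
  have hcommE : ∀ i j : Fin p, Commute (a * z ^ (i : ℕ)) (a * z ^ (j : ℕ)) := fun i j =>
    ((Commute.refl a).mul_right (hza.pow_right _)).mul_left
      ((hza.symm.pow_left _).mul_right ((Commute.refl z).pow_pow _ _))
  have hPzero : ∀ i j, i ≠ j → ∀ w ∈ W j, P i w = 0 := by
    intro i j hij w hw
    have h1 : P i w ∈ W i := hPW i w
    have h2 : P i w ∈ W j := by
      show ρ _ (P i w) = P i w
      simp only [P, LinearMap.coe_sum, Finset.sum_apply, E, LinearEquiv.coe_coe, map_sum]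
      refine Finset.sum_congr rfl fun k _ => ?_
      rw [hmul, ← ((hcommE i j).pow_left _).eq, ← hmul, show ρ _ w = w from hw]
    rcases le_or_gt (i : ℕ) (j : ℕ) with hge | hlt
    · -- the two orders of the indices
      set u := P i w
      have hd : ρ (z ^ ((j : ℕ) - i)) u = u := by
        have hle : (i : ℕ) ≤ j := by omega
        have h3 : a * z ^ (j : ℕ) = z ^ ((j : ℕ) - i) * (a * z ^ (i : ℕ)) := by
          rw [← mul_assoc, ← (hza.pow_right ((j : ℕ) - i)).eq, mul_assoc, ← pow_add, Nat.sub_add_cancel hle]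
        have h4 : ρ (a * z ^ (j : ℕ)) u = u := h2
        rwa [h3, ← hmul, show ρ _ u = u from h1] at h4
      have hne : (i : ℕ) ≠ j := fun e => hij (Fin.ext e)
      have hcop : Nat.Coprime p ((j : ℕ) - i) := hp.coprime_iff_not_dvd.mpr fun hdv =>
        absurd (Nat.le_of_dvd (by omega) hdv) (by have := j.2; omega)
      obtain ⟨k, hk⟩ := exists_pow_eq_self_of_coprime (x := z) (by rw [hz]; exact hcop.symm)
      have h5 := hfixpow _ u hd k
      rw [hk] at h5
      have : u ∈ fix' z := h5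
      rwa [hzbot, Submodule.mem_bot] at this
    · set u := P i w
      have hd : ρ (z ^ ((i : ℕ) - j)) u = u := by
        have h3 : a * z ^ (i : ℕ) = z ^ ((i : ℕ) - j) * (a * z ^ (j : ℕ)) := by
          rw [← mul_assoc, ← (hza.pow_right ((i : ℕ) - j)).eq, mul_assoc, ← pow_add, Nat.sub_add_cancel hlt.le]
        have h4 : ρ (a * z ^ (i : ℕ)) u = u := h1
        rwa [h3, ← hmul, show ρ _ u = u from h2] at h4
      have hcop : Nat.Coprime p ((i : ℕ) - j) := hp.coprime_iff_not_dvd.mpr fun hdv =>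
        absurd (Nat.le_of_dvd (by omega) hdv) (by have := i.2; omega)
      obtain ⟨k, hk⟩ := exists_pow_eq_self_of_coprime (x := z) (by rw [hz]; exact hcop.symm)
      have h5 := hfixpow _ u hd k
      rw [hk] at h5
      have : u ∈ fix' z := h5
      rwa [hzbot, Submodule.mem_bot] at this
  have hind : iSupIndep W := by
    intro i
    rw [Submodule.disjoint_def]
    intro w hw hw'
    have h1 : (⨆ j, ⨆ (_ : j ≠ i), W j) ≤ LinearMap.ker (P i) :=
      iSup_le fun j => iSup_le fun hj => fun x hx => LinearMap.mem_ker.mpr (hPzero i j hj.symm x hx)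
    have h2 := LinearMap.mem_ker.mp (h1 hw')
    rw [hPone i w hw] at h2
    exact (smul_eq_zero.mp h2).resolve_left hqp
  have hzk : ∀ (g : G) (i : ℕ), g * z ^ i = z ^ i * g := fun g i => ((show Commute g z from hzc g).pow_right i).eq
  -- the kernel
  let f : G →* G :=
    { toFun := fun g => a⁻¹ * (g * a * g⁻¹)
      map_one' := by simp
      map_mul' := fun g h => by
        obtain ⟨i, hi⟩ := Subgroup.mem_zpowers_iff.mp (hconj h)
        have hcomm : g * (a⁻¹ * (h * a * h⁻¹)) = (a⁻¹ * (h * a * h⁻¹)) * g := by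
          rw [← hi]
          exact ((show Commute g z from hzc g).zpow_right i).eq
        calc a⁻¹ * (g * h * a * (g * h)⁻¹) = a⁻¹ * (g * a) * (a⁻¹ * (h * a * h⁻¹)) * g⁻¹ := by group
          _ = a⁻¹ * (g * a) * (g⁻¹ * (g * (a⁻¹ * (h * a * h⁻¹)))) * g⁻¹ := by rw [inv_mul_cancel_left]
          _ = a⁻¹ * (g * a) * (g⁻¹ * ((a⁻¹ * (h * a * h⁻¹)) * g)) * g⁻¹ := by rw [hcomm]
          _ = _ := by group }
  have hker : ∀ g, g ∈ f.ker ↔ g * a * g⁻¹ = a := fun g => by
    rw [MonoidHom.mem_ker]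
    show a⁻¹ * (g * a * g⁻¹) = 1 ↔ _
    rw [inv_mul_eq_one]
    exact eq_comm
  have hfix_iter : ∀ g : G, g * a * g⁻¹ = a → ∀ i, ∀ w ∈ W i, ρ g w ∈ W i := by
    intro g hg i w hw
    have h1 := hmapfix g _ w hw
    rwa [show g * (a * z ^ (i : ℕ)) * g⁻¹ = a * z ^ (i : ℕ) by
      calc g * (a * z ^ (i : ℕ)) * g⁻¹ = (g * a * g⁻¹) * (g * z ^ (i : ℕ) * g⁻¹) := by group
        _ = _ := by rw [hg, hzk, mul_inv_cancel_right]] at h1
  have hne1 : ∀ i : Fin p, a * z ^ (i : ℕ) ≠ 1 := fun i e => haz (by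
    rw [mul_eq_one_iff_eq_inv.mp e]
    exact Subgroup.inv_mem _ (Subgroup.pow_mem _ (Subgroup.mem_zpowers z) _))
  have hnotall : ∃ g : G, g ∉ f.ker := by
    by_contra hno
    push Not at hno
    have hall : ∀ i, W i = ⊥ := fun i => (hirr (W i) fun g w hw => hfix_iter g ((hker g).mp (hno g)) i w hw).resolve_right
      fun h => hne1 i (htriv _ fun v => (h ▸ Submodule.mem_top : v ∈ W i))
    rw [show iSup W = ⊥ by simp [hall]] at hsup
    exact bot_ne_top hsup
  have hindex : f.ker.index = p := by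
    rw [Subgroup.index_ker]
    have h1 : f.range ≤ Subgroup.zpowers z := by
      rintro _ ⟨g, rfl⟩
      exact hconj g
    have h2 : Nat.card f.range ∣ p := by
      rw [← hz, ← Nat.card_zpowers]
      exact Subgroup.card_dvd_of_le h1
    refine (hp.eq_one_or_self_of_dvd _ h2).resolve_left fun h => ?_
    obtain ⟨g, hg⟩ := hnotall
    exact hg (MonoidHom.mem_ker.mpr (Subgroup.mem_bot.mp (Subgroup.card_eq_one.mp h ▸ (⟨g, rfl⟩ : f g ∈ f.range))))
  refine ⟨f.ker, W, hindex, hsup, hind, fun h hh i w hw => hfix_iter h ((hker h).mp hh) i w hw, fun i => ?_, fun g hg => ?_⟩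
  · refine ⟨a * z ^ (i : ℕ), (hker _).mpr ?_, hne1 i, fun w hw => hw⟩
    rw [mul_inv_eq_iff_eq_mul, mul_assoc, ← hzk a]
  · obtain ⟨c, hc⟩ := hc g
    have hc0 : c ≠ 0 := fun e => hg ((hker g).mpr (by rw [hc, e, Fin.val_zero, pow_zero, mul_one]))
    refine ⟨Equiv.addRight c, ?_, fun i => ?_⟩
    · have hpow : ∀ (k : ℕ) (x : Fin p), ((Equiv.addRight c) ^ k) x = x + k • c := by
        intro k
        induction k with
        | zero => intro x; simp
        | succ k ih => intro x; rw [pow_succ', Equiv.Perm.mul_apply, ih, Equiv.coe_addRight, succ_nsmul]; exact add_assoc _ _ _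
      refine orderOf_eq_prime (Equiv.ext fun x => ?_) fun e => hc0 ?_
      · rw [hpow, Equiv.Perm.one_apply, show p • c = 0 by
          have := card_nsmul_eq_zero (G := Fin p) (x := c)
          rwa [Fintype.card_fin] at this, add_zero]
      · simpa using Equiv.ext_iff.mp e 0
    · have key : g * (a * z ^ (i : ℕ)) * g⁻¹ = a * z ^ (((i + c : Fin p)) : ℕ) := by
        calc g * (a * z ^ (i : ℕ)) * g⁻¹ = (g * a * g⁻¹) * (g * z ^ (i : ℕ) * g⁻¹) := by group
          _ = a * z ^ ((c : ℕ) + (i : ℕ)) := by rw [hzk g, mul_inv_cancel_right, hc, mul_assoc, ← pow_add]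
          _ = _ := by rw [Fin.val_add, add_comm (c : ℕ), ← pow_eq_pow_mod _ hzp]
      refine le_antisymm ?_ fun w hw => ?_
      · rintro _ ⟨w, hw, rfl⟩
        show ρ g w ∈ fix' (a * z ^ (((Equiv.addRight c) i : Fin p) : ℕ))
        rw [Equiv.coe_addRight, ← key]
        exact hmapfix g _ w hw
      · refine ⟨ρ g⁻¹ w, ?_, by show ρ g (ρ g⁻¹ w) = w; rw [hmul, mul_inv_cancel, hone]⟩
        have h1 := hmapfix g⁻¹ _ w (show w ∈ fix' (a * z ^ ((i + c : Fin p) : ℕ)) from hw)
        rw [← key, inv_inv] at h1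
        rwa [show g⁻¹ * (g * (a * z ^ (i : ℕ)) * g⁻¹) * g = a * z ^ (i : ℕ) by group] at h1

end Cfsg.Agent.S3380
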