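import Cfsg.Statements.S3381
-- import your own Cfsg.Agent.* helpers here

set_option autoImplicit false
open Cfsg

namespace Cfsg.Agent.S3381

open Module

section
variable {q : ℕ} [hq : Fact q.Prime] {V : Type*} [AddCommGroup V] [Module (ZMod q) V] [Finite V]
  {G : Type*} [Group G] [Finite G] (ρ : G →* (V ≃ₗ[ZMod q] V))

/-- The fixed space of one element. -/
def F (t : G) : Submodule (ZMod q) V where
  carrier := {v | ρ t v = v}
  add_mem' := fun {a b} ha hb => by
    show ρ t (a + b) = a + b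
    rw [map_add, ha, hb]
  zero_mem' := map_zero (ρ t)
  smul_mem' := fun c v hv => by
    show ρ t (c • v) = c • v
    rw [map_smul, hv]

theorem mem_F {t : G} {v : V} : v ∈ F ρ t ↔ ρ t v = v := Iff.rfl

theorem ρ_mul (a b : G) (v : V) : ρ (a * b) v = ρ a (ρ b v) := by
  rw [map_mul]; rfl

theorem exists_unique_stab (hstab : ∀ v : V, v ≠ 0 → Nat.card {g : G // ρ g v = v} = 2) {v : V} (hv : v ≠ 0) :
    ∃ t : G, t ≠ 1 ∧ orderOf t = 2 ∧ ρ t v = v ∧ ∀ g : G, ρ g v = v → g ≠ 1 → g = t := by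
  have h1 : ρ 1 v = v := by rw [map_one]; rfl
  obtain ⟨⟨t, ht⟩, hne, hu⟩ := (Nat.card_eq_two_iff' (⟨1, h1⟩ : {g : G // ρ g v = v})).1 (hstab v hv)
  have ht1 : t ≠ 1 := fun h => hne (Subtype.ext h)
  have huniq : ∀ g : G, ρ g v = v → g ≠ 1 → g = t := fun g hg hg1 =>
    congrArg Subtype.val (hu ⟨g, hg⟩ fun h => hg1 (congrArg Subtype.val h))
  refine ⟨t, ht1, orderOf_eq_prime ?_ ht1, ht, huniq⟩
  rw [sq]
  by_contra h
  exact ht1 (mul_eq_left.1 (huniq (t * t) (by rw [ρ_mul, ht, ht]) h))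

theorem central_neg (hρ : Function.Injective ρ)
    (hstab : ∀ v : V, v ≠ 0 → Nat.card {g : G // ρ g v = v} = 2) [Nontrivial V]
    (z : G) (hz : orderOf z = 2) (hzc : z ∈ Subgroup.center G) :
    q ≠ 2 ∧ ∀ v : V, ρ z v = -v := by
  have hz1 : z ≠ 1 := fun h => by simp [h] at hz
  have hzz : ∀ v, ρ z (ρ z v) = v := fun v => by
    rw [← ρ_mul, show z * z = 1 by rw [← sq, ← hz, pow_orderOf_eq_one], map_one]; rfl
  have hcomm : ∀ t v, ρ z (ρ t v) = ρ t (ρ z v) := fun t v => by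
    rw [← ρ_mul, ← ρ_mul, Subgroup.mem_center_iff.1 hzc t]
  have hnt : ∃ v, ρ z v ≠ v := by
    by_contra h
    push Not at h
    exact hz1 (hρ (by rw [map_one]; exact LinearEquiv.ext h))
  obtain ⟨v₀, hv₀⟩ := hnt
  have hv₀0 : v₀ ≠ 0 := fun h => hv₀ (by rw [h, map_zero])
  have hq2 : q ≠ 2 := by
    intro h2
    subst h2
    have h2 : ∀ x : V, x + x = 0 := fun x => by
      rw [← two_smul (ZMod 2) x, show (2 : ZMod 2) = 0 from rfl, zero_smul]
    set w := v₀ + ρ z v₀ with hw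
    have hw0 : w ≠ 0 := fun h => hv₀ (by
      rw [hw, ← h2 v₀, add_right_inj] at h
      exact h)
    have hzw : ρ z w = w := by rw [hw, map_add, hzz, add_comm]
    obtain ⟨t, ht1, hto, htv, -⟩ := exists_unique_stab ρ hstab hv₀0
    have htt : ∀ x, ρ t (ρ t x) = x := fun x => by
      rw [← ρ_mul, show t * t = 1 by rw [← sq, ← hto, pow_orderOf_eq_one], map_one]; rfl
    have htw : ρ t w = w := by rw [hw, map_add, htv, ← hcomm, htv]
    obtain ⟨s, -, -, -, hs⟩ := exists_unique_stab ρ hstab hw0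
    exact hv₀ ((hs t htw ht1).trans (hs z hzw hz1).symm ▸ htv)
  refine ⟨hq2, fun v => ?_⟩
  have h20 : (2 : ZMod q) ≠ 0 := fun h => hq2 ((Nat.prime_dvd_prime_iff_eq hq.out Nat.prime_two).1 ((ZMod.natCast_eq_zero_iff 2 q).1 (by exact_mod_cast h)) )
  have hadd : ∀ x : V, x + x = 0 → x = 0 := fun x hx => by
    rw [← two_smul (ZMod q) x] at hx
    exact (smul_eq_zero.1 hx).resolve_left h20
  by_contra hv
  set w := v + ρ z v with hw
  have hw0 : w ≠ 0 := fun h => hv (eq_neg_of_add_eq_zero_right h)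
  have hzw : ρ z w = w := by rw [hw, map_add, hzz, add_comm]
  set u := v₀ - ρ z v₀ with hu
  have hzu : ρ z u = -u := by rw [hu, map_sub, hzz, neg_sub]
  have hu0 : u ≠ 0 := sub_ne_zero.2 (Ne.symm hv₀)
  have hwu : w + u ≠ 0 := fun h => hu0 (hadd u (by
    have : u = -w := eq_neg_of_add_eq_zero_right h
    have h' : ρ z u = u := by rw [this, map_neg, hzw]
    rw [hzu] at h'
    nth_rewrite 1 [← h']
    exact neg_add_cancel u))
  obtain ⟨t, ht1, -, htv, hu'⟩ := exists_unique_stab ρ hstab hwu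
  set a := ρ t w - w with ha
  set b := ρ t u - u with hb
  have hab : a + b = 0 := by
    rw [ha, hb, ← add_sub_add_comm, ← map_add, htv, sub_self]
  have hza : ρ z a = a := by rw [ha, map_sub, hcomm, hzw]
  have hzb : ρ z b = -b := by rw [hb, map_sub, hcomm, hzu, map_neg]; abel
  have ha0 : a = 0 := hadd a (by
    have e : b = -a := eq_neg_of_add_eq_zero_right hab
    rw [e, map_neg, hza, neg_neg] at hzb
    nth_rewrite 1 [← hzb]
    exact neg_add_cancel a)
  obtain ⟨s, -, -, -, hs⟩ := exists_unique_stab ρ hstab hw0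
  have htz : t = z := (hs t (sub_eq_zero.1 ha0) ht1).trans (hs z hzw hz1).symm
  rw [htz, map_add, hzw, hzu, add_right_inj] at htv
  exact hu0 (hadd u (by nth_rewrite 1 [← htv]; exact neg_add_cancel u))

end

/-- Let G be a finite group acting faithfully and linearly on a non-trivial finite vector space V over the field with q elements (q prime) so that every non-zero vector has a stabilizer of order 2, and suppose G has a central involution. Then V has q^(2r) elements for some r and G contains exactly q^r + 1 non-central involutions. -/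
theorem result
    (q : ℕ) [Fact q.Prime] {V : Type*} [AddCommGroup V] [Module (ZMod q) V] [Finite V] [Nontrivial V]
    {G : Type*} [Group G] [Finite G] (ρ : G →* (V ≃ₗ[ZMod q] V)) (hρ : Function.Injective ρ)
    (hstab : ∀ v : V, v ≠ 0 → Nat.card {g : G // ρ g v = v} = 2)
    (z : G) (hz : orderOf z = 2) (hzc : z ∈ Subgroup.center G) :
    ∃ r : ℕ, Nat.card V = q ^ (2 * r) ∧
      Nat.card {g : G // orderOf g = 2 ∧ g ∉ Subgroup.center G} = q ^ r + 1 := by
  classical
  obtain ⟨hq2, hneg⟩ := central_neg ρ hρ hstab z hz hzc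
  have hqo : ∀ x : V, x = -x → x = 0 := fun x hx => by
    have h : (2 : ZMod q) • x = 0 := by rw [two_smul]; nth_rewrite 1 [hx]; exact neg_add_cancel x
    refine (smul_eq_zero.1 h).resolve_left fun h => hq2 ?_
    exact (Nat.prime_dvd_prime_iff_eq (Fact.out (p := q.Prime)) Nat.prime_two).1 ((ZMod.natCast_eq_zero_iff 2 q).1 (by exact_mod_cast h))
  have hcen : ∀ c : G, orderOf c = 2 → c ∈ Subgroup.center G → c = z := fun c hc hcc =>
    hρ (LinearEquiv.ext fun v => by rw [(central_neg ρ hρ hstab c hc hcc).2 v, hneg v])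
  let I := {g : G // orderOf g = 2 ∧ g ∉ Subgroup.center G}
  have hI1 : ∀ t : I, t.1 ≠ 1 := fun t h => t.2.2 (h ▸ one_mem _)
  have hstabI : ∀ v : V, v ≠ 0 → ∃ t : I, v ∈ F ρ t.1 ∧ ∀ g : G, ρ g v = v → g ≠ 1 → g = t.1 := by
    intro v hv
    obtain ⟨t, ht1, hto, htv, hu⟩ := exists_unique_stab ρ hstab hv
    refine ⟨⟨t, hto, fun h => hv (hqo v ?_)⟩, htv, hu⟩
    rw [← hneg v, ← hcen t hto h, htv]
  have hdisj : ∀ t s : I, t ≠ s → F ρ t.1 ⊓ F ρ s.1 = ⊥ := by
    intro t s hts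
    rw [Submodule.eq_bot_iff]
    rintro v ⟨h1, h2⟩
    by_contra hv
    obtain ⟨x, -, hu⟩ := hstabI v hv
    exact hts (Subtype.ext ((hu _ h1 (hI1 t)).trans (hu _ h2 (hI1 s)).symm))
  have hzc' : ∀ t : G, Commute z t := fun t => (Subgroup.mem_center_iff.1 hzc t).symm
  have hzz : z * z = 1 := by rw [← sq, ← hz, pow_orderOf_eq_one]
  have hsq : ∀ t : I, t.1 ^ 2 = 1 := fun t => by
    have h := pow_orderOf_eq_one t.1
    rwa [t.2.1] at h
  have hpart : ∀ t : I, orderOf (z * t.1) = 2 ∧ z * t.1 ∉ Subgroup.center G := fun t => by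
    have hn : z * t.1 ∉ Subgroup.center G := fun h => t.2.2 ((mul_mem_cancel_left hzc).1 h)
    refine ⟨orderOf_eq_prime ?_ fun h => hn (h ▸ one_mem _), hn⟩
    rw [(hzc' t.1).mul_pow, sq, hzz, one_mul, hsq t]
  let opp : I → I := fun t => ⟨z * t.1, hpart t⟩
  have hmemopp : ∀ (t : I) v, v ∈ F ρ (opp t).1 ↔ ρ t.1 v = -v := fun t v => by
    rw [mem_F, ρ_mul, hneg, neg_eq_iff_eq_neg]
  have hne_opp : ∀ t : I, opp t ≠ t := fun t h => by
    have : z = 1 := mul_eq_right.1 (congrArg Subtype.val h)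
    rw [this, orderOf_one] at hz
    exact absurd hz (by norm_num)
  have hsum : ∀ t : I, Module.finrank (ZMod q) (F ρ t.1) + Module.finrank (ZMod q) (F ρ (opp t).1) = Module.finrank (ZMod q) V := by
    intro t
    refine Submodule.finrank_add_eq_of_isCompl (IsCompl.of_eq (hdisj _ _ (hne_opp t).symm) (eq_top_iff.2 fun v _ => ?_))
    have htt : ∀ x, ρ t.1 (ρ t.1 x) = x := fun x => by
      rw [← ρ_mul, show t.1 * t.1 = 1 by rw [← sq, hsq t], map_one]; rfl
    have h2 : (2 : ZMod q) ≠ 0 := fun h => hq2 ((Nat.prime_dvd_prime_iff_eq (Fact.out (p := q.Prime)) Nat.prime_two).1 ((ZMod.natCast_eq_zero_iff 2 q).1 (by exact_mod_cast h)))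
    have e : v = (2 : ZMod q)⁻¹ • (v + ρ t.1 v) + (2 : ZMod q)⁻¹ • (v - ρ t.1 v) := by
      rw [← smul_add, show (v + ρ t.1 v) + (v - ρ t.1 v) = (2 : ZMod q) • v by rw [two_smul]; abel, inv_smul_smul₀ h2]
    rw [e]
    refine Submodule.add_mem_sup (Submodule.smul_mem _ _ ?_) (Submodule.smul_mem _ _ ?_)
    · rw [mem_F, map_add, htt, add_comm]
    · rw [hmemopp, map_sub, htt, neg_sub]
  have hpos : ∀ t : I, F ρ t.1 ≠ ⊥ := by
    intro t h
    refine t.2.2 ?_
    convert hzc using 1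
    refine hρ (LinearEquiv.ext fun v => ?_)
    have htt : ρ t.1 (ρ t.1 v) = v := by
      rw [← ρ_mul, show t.1 * t.1 = 1 by rw [← sq, hsq t], map_one]; rfl
    have : v + ρ t.1 v ∈ F ρ t.1 := by rw [mem_F, map_add, htt, add_comm]
    rw [h, Submodule.mem_bot] at this
    rw [hneg, eq_neg_of_add_eq_zero_right this]
  have hhalf : ∀ t : I, 2 * Module.finrank (ZMod q) (F ρ t.1) = Module.finrank (ZMod q) V := by
    intro t
    obtain ⟨a, ha, ha0⟩ := (Submodule.ne_bot_iff _).1 (hpos t)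
    obtain ⟨b, hb, hb0⟩ := (Submodule.ne_bot_iff _).1 (hpos (opp t))
    have hab : a + b ≠ 0 := fun h => by
      have hbot := hdisj _ _ (hne_opp t).symm
      have : a ∈ F ρ t.1 ⊓ F ρ (opp t).1 := ⟨ha, by rw [eq_neg_of_add_eq_zero_left h]; exact neg_mem hb⟩
      rw [hbot, Submodule.mem_bot] at this
      exact ha0 this
    obtain ⟨s, hs, -⟩ := hstabI _ hab
    have hb' := (hmemopp t b).1 hb
    have hst : s ≠ t := fun h => hb0 (hqo b (by
      subst h
      rw [mem_F, map_add, ha, hb', add_right_inj] at hs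
      exact hs.symm))
    have hst' : s ≠ opp t := fun h => ha0 (hqo a (by
      subst h
      rw [hmemopp, map_add, ha, hb', neg_add, add_left_inj] at hs
      exact hs))
    have key : ∀ x y : I, x ≠ y → Module.finrank (ZMod q) (F ρ x.1) + Module.finrank (ZMod q) (F ρ y.1) ≤ Module.finrank (ZMod q) V := by
      intro x y hxy
      have h := Submodule.finrank_sup_add_finrank_inf_eq (F ρ x.1) (F ρ y.1)
      rw [hdisj x y hxy, finrank_bot, add_zero] at h
      exact h ▸ Submodule.finrank_le _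
    have hinj : ∀ x : I, opp (opp x) = x := fun x => Subtype.ext (by show z * (z * x.1) = x.1; rw [← mul_assoc, hzz, one_mul])
    have h1 := key s t hst
    have h2 := key s (opp t) hst'
    have h3 := key (opp s) t fun h => hst' (by rw [← hinj s, h])
    have h4 := key (opp s) (opp t) fun h => hst (by rw [← hinj s, h, hinj])
    have h5 := hsum s
    have h6 := hsum t
    omega
  obtain ⟨v₁, hv₁⟩ := exists_ne (0 : V)
  obtain ⟨t₁, -, -⟩ := hstabI v₁ hv₁
  set r := Module.finrank (ZMod q) (F ρ t₁.1) with hr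
  haveI := Fintype.ofFinite V
  have hcardV : Nat.card V = q ^ (2 * r) := by
    rw [Module.natCard_eq_pow_finrank (K := ZMod q), Nat.card_zmod, hhalf t₁]
  have hcardF : ∀ t : I, Nat.card {v : F ρ t.1 // v ≠ 0} = q ^ r - 1 := by
    intro t
    rw [Nat.card_eq_fintype_card, Fintype.card_subtype_compl, Fintype.card_subtype_eq, ← Nat.card_eq_fintype_card,
      Module.natCard_eq_pow_finrank (K := ZMod q), Nat.card_zmod, show Module.finrank (ZMod q) (F ρ t.1) = r by
        have := hhalf t; have := hhalf t₁; omega]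
  let e : (Σ t : I, {v : F ρ t.1 // v ≠ 0}) ≃ {v : V // v ≠ 0} := Equiv.ofBijective
    (fun x => ⟨x.2.1.1, fun h => x.2.2 (Subtype.ext h)⟩)
    ⟨fun ⟨t, ⟨v, hv⟩, hv0⟩ ⟨s, ⟨w, hw⟩, hw0⟩ h => by
      have hvw : v = w := congrArg Subtype.val h
      subst hvw
      obtain rfl : t = s := by
        by_contra hts
        have : v ∈ F ρ t.1 ⊓ F ρ s.1 := ⟨hv, hw⟩
        rw [hdisj t s hts, Submodule.mem_bot] at this
        exact hv0 (Subtype.ext this)
      rfl,
     fun ⟨v, hv⟩ => by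
      obtain ⟨t, ht, -⟩ := hstabI v hv
      exact ⟨⟨t, ⟨v, ht⟩, fun h => hv (congrArg Subtype.val h)⟩, rfl⟩⟩
  haveI := Fintype.ofFinite I
  have hcount := Nat.card_congr e
  rw [Nat.card_sigma, Finset.sum_congr rfl fun t _ => hcardF t, Finset.sum_const, Finset.card_univ, smul_eq_mul,
    ← Nat.card_eq_fintype_card, Nat.card_eq_fintype_card (α := {v : V // v ≠ 0}), Fintype.card_subtype_compl,
    Fintype.card_subtype_eq, ← Nat.card_eq_fintype_card, hcardV] at hcount
  refine ⟨r, hcardV, ?_⟩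
  have hq1 := (Fact.out (p := q.Prime)).one_lt
  have hr0 : r ≠ 0 := fun h => hpos t₁ (Submodule.finrank_eq_zero.1 h)
  have hpos' : 1 < q ^ r := Nat.one_lt_pow hr0 hq1
  rw [show q ^ (2 * r) - 1 = (q ^ r + 1) * (q ^ r - 1) by rw [← Nat.sq_sub_sq, one_pow, ← pow_mul, mul_comm 2 r]] at hcount
  exact Nat.eq_of_mul_eq_mul_right (by omega) hcount

end Cfsg.Agent.S3381
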