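import Cfsg.Statements.S3382
-- import your own Cfsg.Agent.* helpers here

set_option autoImplicit false
open Cfsg

namespace Cfsg.Agent.S3382

theorem two_aut {G : Type*} [Group G] (x y w : G) (n : ℕ) (hn : 2 ≤ n) (hx : orderOf x = 2 ^ n) (hy : y ^ 2 = 1)
    (hxy : Commute x y) (hgen : ∀ g : G, ∃ i j : ℕ, g = x ^ i * y ^ j ∨ g = x ^ i * y ^ j * w)
    (hαx : ∀ α : MulAut G, ∃ i j : ℕ, Odd i ∧ α x = x ^ i * y ^ j)
    (hαy : ∀ α : MulAut G, α y = y ∨ α y = y * x ^ 2 ^ (n - 1))
    (hαw : ∀ α : MulAut G, ∃ i j : ℕ, α w = x ^ i * y ^ j * w) : IsPGroup 2 (MulAut G) := by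
  intro α
  set h := 2 ^ (n - 1) with hh
  have hev : Even h := by rw [hh]; exact (even_two.pow_of_ne_zero (by omega))
  have hyev : ∀ e : ℕ, Even e → y ^ e = 1 := fun e he => by
    obtain ⟨k, rfl⟩ := he; rw [← two_mul, pow_mul, hy, one_pow]
  have hxh2 : x ^ (2 * h) = 1 := by
    rw [hh, ← pow_succ', show n - 1 + 1 = n by omega, ← hx, pow_orderOf_eq_one]
  obtain ⟨u, e, hu, hα1⟩ := hαx α
  obtain ⟨f, hα2⟩ : ∃ f : ℕ, α y = y * x ^ (h * f) := by
    rcases hαy α with h1 | h1
    · exact ⟨0, by rw [h1, mul_zero, pow_zero, mul_one]⟩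
    · exact ⟨1, by rw [h1, mul_one]⟩
  have hsq1 : ∃ u', (α * α) x = x ^ u' ∧ Odd u' := by
    refine ⟨u * u + h * f * e, ?_, (hu.mul hu).add_even ((hev.mul_right f).mul_right e)⟩
    show α (α x) = _
    rw [hα1, map_mul, map_pow, map_pow, hα1, hα2, (hxy.pow_pow u e).mul_pow, (hxy.symm.pow_right (h * f)).mul_pow,
      ← pow_mul, ← pow_mul, ← pow_mul]
    calc x ^ (u * u) * y ^ (e * u) * (y ^ e * x ^ (h * f * e))
        = x ^ (u * u) * (y ^ (e * u) * y ^ e) * x ^ (h * f * e) := by simp only [mul_assoc]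
      _ = x ^ (u * u + h * f * e) := by
        rw [← pow_add y, hyev _ (by rw [← Nat.mul_succ]; exact hu.add_one.mul_left e), mul_one, ← pow_add]
  have hsq2 : (α * α) y = y := by
    show α (α y) = y
    rw [hα2, map_mul, map_pow, hα1, hα2, (hxy.pow_pow u e).mul_pow, ← pow_mul, ← pow_mul,
      hyev _ ((hev.mul_right f).mul_left e), mul_one, mul_assoc, ← pow_add,
      show h * f + u * (h * f) = (1 + u) * (h * f) by ring]
    obtain ⟨k, hk⟩ := hu.add_one
    rw [show (1 + u) * (h * f) = (2 * h) * (k * f) by rw [add_comm 1 u, hk]; ring, pow_mul, hxh2, one_pow, mul_one]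
  obtain ⟨u', hu', hodd⟩ := hsq1
  set γ := α * α with hγ
  have hiter : ∀ k, (γ ^ k) x = x ^ (u' ^ k) ∧ (γ ^ k) y = y := by
    intro k
    induction k with
    | zero => simp
    | succ k ih =>
      rw [pow_succ']
      refine ⟨?_, ?_⟩
      · show γ ((γ ^ k) x) = _
        rw [ih.1, map_pow, hu', ← pow_mul, ← pow_succ']
      · show γ ((γ ^ k) y) = _
        rw [ih.2, hsq2]
  set β := γ ^ 2 ^ n with hβdef
  have hβx : β x = x := by
    rw [hβdef, (hiter _).1]
    nth_rewrite 2 [← pow_one x]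
    rw [pow_eq_pow_iff_modEq, hx]
    have h1 := Nat.ModEq.pow_totient (x := u') (n := 2 ^ n) ((Nat.coprime_pow_right_iff (by omega) u' 2).2 (Nat.coprime_two_right.2 hodd))
    rw [Nat.totient_prime_pow Nat.prime_two (by omega)] at h1
    have h2 := h1.pow 2
    rw [one_pow, ← pow_mul] at h2
    rwa [show 2 ^ (n - 1) * (2 - 1) * 2 = 2 ^ n by rw [Nat.succ_sub_one, mul_one, ← pow_succ, show n - 1 + 1 = n by omega]] at h2
  have hβy : β y = y := (hiter _).2
  obtain ⟨i, j, hβw⟩ := hαw β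
  have hd : β (x ^ i * y ^ j) = x ^ i * y ^ j := by rw [map_mul, map_pow, map_pow, hβx, hβy]
  have hβk : ∀ k, (β ^ k) x = x ∧ (β ^ k) y = y ∧ (β ^ k) w = (x ^ i * y ^ j) ^ k * w := by
    intro k
    induction k with
    | zero => simp
    | succ k ih =>
      rw [pow_succ', MulAut.mul_apply, MulAut.mul_apply, MulAut.mul_apply, ih.1, ih.2.1, ih.2.2, map_mul, map_pow, hd, hβw,
        ← mul_assoc, ← pow_succ]
      exact ⟨hβx, hβy, rfl⟩
  refine ⟨1 + n + n, ?_⟩
  have hβ1 : β ^ 2 ^ n = 1 := by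
    obtain ⟨h1, h2, h3⟩ := hβk (2 ^ n)
    have hdn : (x ^ i * y ^ j) ^ 2 ^ n = 1 := by
      rw [(hxy.pow_pow i j).mul_pow, ← pow_mul, ← pow_mul, mul_comm i, pow_mul, ← hx, pow_orderOf_eq_one, one_pow, one_mul, hx]
      exact hyev _ ((even_two.pow_of_ne_zero (by omega)).mul_left j)
    rw [hdn, one_mul] at h3
    refine MulEquiv.ext fun g => ?_
    obtain ⟨a, b, rfl | rfl⟩ := hgen g <;> simp only [MulAut.one_apply, map_mul, map_pow, h1, h2, h3]
  rw [pow_add, pow_add, pow_mul, pow_mul, pow_one, sq, ← hγ, ← hβdef, hβ1]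

section mono
variable {q : ℕ} [Fact q.Prime]

abbrev V2 (q : ℕ) := Fin 2 → ZMod q

abbrev Aut2 (q : ℕ) [Fact q.Prime] := V2 q ≃ₗ[ZMod q] V2 q

/-- The diagonal shape. -/
def IsD (f : Aut2 q) (a s : ZMod q) : Prop := ∀ v, f v = ![a * v 0, s * a⁻¹ * v 1]

/-- The antidiagonal shape. -/
def IsW (f : Aut2 q) (a s : ZMod q) : Prop := ∀ v, f v = ![s * a⁻¹ * v 1, a * v 0]

theorem isD_unique {f g : Aut2 q} {a s : ZMod q} (hf : IsD f a s) (hg : IsD g a s) : f = g :=
  LinearEquiv.ext fun v => (hf v).trans (hg v).symm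

theorem isW_unique {f g : Aut2 q} {a s : ZMod q} (hf : IsW f a s) (hg : IsW g a s) : f = g :=
  LinearEquiv.ext fun v => (hf v).trans (hg v).symm

theorem isD_one : IsD (1 : Aut2 q) 1 1 := fun v => by
  show v = _
  funext k; fin_cases k <;> simp

theorem isD_mul {f g : Aut2 q} {a s b t : ZMod q} (hf : IsD f a s) (hg : IsD g b t) : IsD (f * g) (a * b) (s * t) := fun v => by
  show f (g v) = _
  rw [hg v, hf]
  funext k; fin_cases k <;> simp [mul_inv] <;> ring

theorem isD_mul_W {f g : Aut2 q} {a s b t : ZMod q} (hf : IsD f a s) (hg : IsW g b t) (hs : s * s = 1) (ha : a ≠ 0) :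
    IsW (f * g) (s * a⁻¹ * b) (s * t) := fun v => by
  show f (g v) = _
  rw [hg v, hf]
  have hs' : s⁻¹ = s := inv_eq_of_mul_eq_one_right hs
  funext k; fin_cases k <;> simp [mul_inv, hs']
  · linear_combination (a * t * b⁻¹ * v 1) * (hs.symm)
  · ring

theorem isW_mul_D {f g : Aut2 q} {a s b t : ZMod q} (hf : IsW f a s) (hg : IsD g b t) : IsW (f * g) (a * b) (s * t) := fun v => by
  show f (g v) = _
  rw [hg v, hf]
  funext k; fin_cases k <;> simp [mul_inv] <;> ring

theorem isW_sq {f : Aut2 q} {a s : ZMod q} (hf : IsW f a s) (ha : a ≠ 0) : ∀ v, (f * f) v = ![s * v 0, s * v 1] := fun v => by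
  show f (f v) = _
  rw [hf v, hf]
  funext k; fin_cases k <;> simp <;> field_simp

theorem isD_pow {f : Aut2 q} {a s : ZMod q} (hf : IsD f a s) : ∀ k : ℕ, IsD (f ^ k) (a ^ k) (s ^ k)
  | 0 => by rw [pow_zero, pow_zero, pow_zero]; exact isD_one
  | k + 1 => by rw [pow_succ, pow_succ, pow_succ]; exact isD_mul (isD_pow hf k) hf

theorem exists_D {a s : ZMod q} (ha : a ≠ 0) (hs : s * s = 1) : ∃ f : Aut2 q, IsD f a s := by
  refine ⟨{ toFun := fun v => ![a * v 0, s * a⁻¹ * v 1]
            invFun := fun v => ![a⁻¹ * v 0, s * a * v 1]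
            map_add' := fun v w => by funext k; fin_cases k <;> simp <;> ring
            map_smul' := fun c v => by funext k; fin_cases k <;> simp <;> ring
            left_inv := fun v => by
              funext k; fin_cases k <;> simp [ha]
              field_simp; linear_combination v 1 * hs
            right_inv := fun v => by
              funext k; fin_cases k <;> simp [ha]
              field_simp; linear_combination v 1 * hs }, fun v => rfl⟩

theorem exists_W {a s : ZMod q} (ha : a ≠ 0) (hs : s * s = 1) : ∃ f : Aut2 q, IsW f a s := by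
  refine ⟨{ toFun := fun v => ![s * a⁻¹ * v 1, a * v 0]
            invFun := fun v => ![a⁻¹ * v 1, s * a * v 0]
            map_add' := fun v w => by funext k; fin_cases k <;> simp <;> ring
            map_smul' := fun c v => by funext k; fin_cases k <;> simp <;> ring
            left_inv := fun v => by
              funext k; fin_cases k <;> simp [ha]
              field_simp; linear_combination v 1 * hs
            right_inv := fun v => by
              funext k; fin_cases k <;> simp [ha]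
              field_simp; linear_combination v 0 * hs }, fun v => rfl⟩

theorem isD_data {f : Aut2 q} {a s b t : ZMod q} (hf : IsD f a s) (hg : IsD f b t) (ha : a ≠ 0) : a = b ∧ s = t := by
  have h0 := congrFun ((hf ![1, 1]).symm.trans (hg ![1, 1])) 0
  have h1 := congrFun ((hf ![1, 1]).symm.trans (hg ![1, 1])) 1
  simp at h0 h1
  subst h0
  exact ⟨rfl, mul_right_cancel₀ (inv_ne_zero ha) h1⟩

theorem not_D_W {f : Aut2 q} {a s b t : ZMod q} (hf : IsD f a s) (hg : IsW f b t) (ha : a ≠ 0) : False := by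
  have h0 := congrFun ((hf ![1, 0]).symm.trans (hg ![1, 0])) 0
  simp at h0
  exact ha h0

end mono
theorem z2_eq_one : ∀ z : ZMod 2, z ≠ 0 → z = 1 := by decide

theorem z2_neg_one : (-1 : ZMod 2) = 1 := by decide

theorem z3_eq_neg_one : ∀ z : ZMod 3, z ≠ 0 → z ≠ 1 → z = -1 := by decide

/-- Let q = 2^m + 1 be a prime other than 5. Then the automorphism group of the group of linear maps of F_q² of the forms (x, y) ↦ (a x, ± a⁻¹ y) and (x, y) ↦ (± a⁻¹ y, a x) with a ≠ 0 is itself a 2-group. -/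
theorem result (q m : ℕ) [Fact q.Prime] (hq : q = 2 ^ m + 1) (hq5 : q ≠ 5)
    (T : Subgroup ((Fin 2 → ZMod q) ≃ₗ[ZMod q] (Fin 2 → ZMod q)))
    (hT : ∀ f, f ∈ T ↔ ∃ a s : ZMod q, a ≠ 0 ∧ (s = 1 ∨ s = -1) ∧
      ((∀ v, f v = ![a * v 0, s * a⁻¹ * v 1]) ∨ (∀ v, f v = ![s * a⁻¹ * v 1, a * v 0]))) :
    IsPGroup 2 (MulAut T) := by
  classical
  have hq' := Fact.out (p := q.Prime)
  rcases Nat.eq_zero_or_pos m with hm0 | hm
  · subst hm0
    norm_num at hq
    subst hq
    have hv := z2_eq_one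
    have two : ∀ f g : T, f ≠ 1 → g ≠ 1 → f = g := by
      have key : ∀ f : T, f ≠ 1 → ∀ v, f.1 v = ![v 1, v 0] := by
        intro f hf v
        obtain ⟨a, s, ha, hs, h | h⟩ := (hT f.1).1 f.2
        · exfalso
          obtain rfl := hv a ha
          have hs1 : s = 1 := hs.elim id (fun e => e.trans z2_neg_one)
          subst hs1
          exact hf (Subtype.ext (isD_unique h isD_one))
        · obtain rfl := hv a ha
          have hs1 : s = 1 := hs.elim id (fun e => e.trans z2_neg_one)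
          subst hs1
          simpa using h v
      exact fun f g hf hg => Subtype.ext (LinearEquiv.ext fun v => (key f hf v).trans (key g hg v).symm)
    intro α
    refine ⟨0, MulEquiv.ext fun f => ?_⟩
    rw [pow_zero, pow_one, MulAut.one_apply]
    by_cases hf : f = 1
    · rw [hf, map_one]
    · exact two _ _ (fun e => hf (α.map_eq_one_iff.1 e)) hf
  haveI : Fact (2 < q) := ⟨by
    have := Nat.pow_le_pow_right (show 0 < 2 by norm_num) (show 1 ≤ m by omega)
    omega⟩
  have hq1 : q - 1 = 2 ^ m := by rw [hq, Nat.add_sub_cancel]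
  have h1 : (1 : ZMod q) * 1 = 1 := one_mul 1
  have hm1 : (-1 : ZMod q) * -1 = 1 := by ring
  obtain ⟨ex, hex⟩ := IsCyclic.exists_ofOrder_eq_natCard (α := (ZMod q)ˣ)
  rw [Nat.card_eq_fintype_card, ZMod.card_units, hq1] at hex
  set g : ZMod q := (ex : ZMod q) with hgdef
  have hg0 : g ≠ 0 := ex.ne_zero
  have hg : orderOf g = 2 ^ m := by rw [hgdef, orderOf_units, hex]
  have hpow : ∀ a : ZMod q, a ≠ 0 → ∃ i : ℕ, a = g ^ i := fun a ha => by
    obtain ⟨i, hi⟩ := mem_powers_iff_mem_zpowers.2 (show Units.mk0 a ha ∈ Subgroup.zpowers ex by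
      have : Subgroup.zpowers ex = ⊤ := Subgroup.eq_top_of_card_eq _ (by
        rw [Nat.card_zpowers, hex, Nat.card_eq_fintype_card, ZMod.card_units, hq1])
      rw [this]; exact Subgroup.mem_top _)
    exact ⟨i, by rw [hgdef, ← Units.val_pow_eq_pow_val, show ex ^ i = Units.mk0 a ha from hi]; rfl⟩
  have hs2 : ∀ s : ZMod q, s = 1 ∨ s = -1 → ∃ j : ℕ, s = (-1) ^ j := fun s hs => by
    rcases hs with rfl | rfl
    · exact ⟨0, (pow_zero _).symm⟩
    · exact ⟨1, (pow_one _).symm⟩
  obtain ⟨X, hX⟩ := exists_D hg0 h1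
  obtain ⟨Y, hY⟩ := exists_D (one_ne_zero (α := ZMod q)) hm1
  obtain ⟨Wl, hW⟩ := exists_W (one_ne_zero (α := ZMod q)) h1
  have hXT : X ∈ T := (hT X).2 ⟨g, 1, hg0, Or.inl rfl, Or.inl hX⟩
  have hYT : Y ∈ T := (hT Y).2 ⟨1, -1, one_ne_zero, Or.inr rfl, Or.inl hY⟩
  have hWT : Wl ∈ T := (hT Wl).2 ⟨1, 1, one_ne_zero, Or.inl rfl, Or.inr hW⟩
  set x : T := ⟨X, hXT⟩
  set y : T := ⟨Y, hYT⟩
  set w : T := ⟨Wl, hWT⟩
  have hD : ∀ (f : T) a s, a ≠ 0 → (s = 1 ∨ s = -1) → IsD f.1 a s → ∃ i j : ℕ, f = x ^ i * y ^ j ∧ a = g ^ i ∧ s = (-1) ^ j := by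
    intro f a s ha hs hf
    obtain ⟨i, rfl⟩ := hpow a ha
    obtain ⟨j, rfl⟩ := hs2 s hs
    refine ⟨i, j, Subtype.ext (isD_unique hf ?_), rfl, rfl⟩
    have := isD_mul (isD_pow hX i) (isD_pow hY j)
    simpa using this
  have hxy : Commute x y := Subtype.ext (isD_unique (isD_mul hX hY) (by
    have := isD_mul hY hX
    rwa [mul_comm 1 g, mul_comm (-1 : ZMod q) 1] at this))
  have hy : y ^ 2 = 1 := Subtype.ext (isD_unique (isD_pow hY 2) (by simpa using isD_one))
  have hgen : ∀ f : T, ∃ i j : ℕ, f = x ^ i * y ^ j ∨ f = x ^ i * y ^ j * w := by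
    intro f
    obtain ⟨a, s, ha, hs, hf | hf⟩ := (hT f.1).1 f.2
    · obtain ⟨i, j, h, -⟩ := hD f a s ha hs hf
      exact ⟨i, j, Or.inl h⟩
    · obtain ⟨i, hi⟩ := hpow (s * a⁻¹) (mul_ne_zero (by rcases hs with rfl | rfl <;> simp) (inv_ne_zero ha))
      obtain ⟨j, hj⟩ := hs2 s hs
      refine ⟨i, j, Or.inr (Subtype.ext (isW_unique hf ?_))⟩
      have hd := isD_mul (isD_pow hX i) (isD_pow hY j)
      simp only [one_pow, mul_one, one_mul, ← hi, ← hj] at hd
      have hss : s * s = 1 := by rcases hs with rfl | rfl <;> ring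
      have := isD_mul_W hd hW hss (mul_ne_zero (by rcases hs with rfl | rfl <;> simp) (inv_ne_zero ha))
      simp [mul_inv, hss, inv_eq_of_mul_eq_one_right hss, ← mul_assoc] at this
      rwa [show s * a * s = a by rw [mul_right_comm, hss, one_mul]] at this
  have hx : orderOf x = 2 ^ m := by
    refine Nat.dvd_antisymm (orderOf_dvd_of_pow_eq_one (Subtype.ext (isD_unique (isD_pow hX _) ?_))) ?_
    · rw [← hg, pow_orderOf_eq_one, one_pow]; exact isD_one
    · rw [← hg]
      refine orderOf_dvd_of_pow_eq_one ?_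
      have := isD_pow hX (orderOf x)
      rw [show X ^ orderOf x = 1 from congrArg Subtype.val (pow_orderOf_eq_one x)] at this
      exact (isD_data this isD_one (pow_ne_zero _ hg0)).1
  have hWsq : ∀ (f : T) a s, a ≠ 0 → (s = 1 ∨ s = -1) → IsW f.1 a s → f ^ 4 = 1 := by
    intro f a s ha hs hf
    refine Subtype.ext (LinearEquiv.ext fun v => ?_)
    have h2 := isW_sq hf ha
    show (f.1 ^ 4) v = v
    rw [show f.1 ^ 4 = f.1 * f.1 * (f.1 * f.1) by simp [pow_succ, mul_assoc]]
    show (f.1 * f.1) ((f.1 * f.1) v) = v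
    rw [h2 v, h2]
    funext k; rcases hs with rfl | rfl <;> fin_cases k <;> simp
  rcases Nat.lt_or_ge m 3 with hm3 | hm3
  · -- three elements
    have hm' : m = 1 := by
      rcases Nat.lt_or_ge m 2 with h | h
      · omega
      · exfalso; have : m = 2 := by omega
        subst this; exact hq5 (by rw [hq]; norm_num)
    subst hm'
    norm_num at hq
    subst hq
    have hg' : g = -1 := by
      refine z3_eq_neg_one g hg0 fun e => ?_
      rw [e, orderOf_one] at hg
      norm_num at hg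
    obtain ⟨R, hR⟩ := exists_W (q := 3) (neg_ne_zero.2 (one_ne_zero (α := ZMod 3))) hm1
    have hRT : R ∈ T := (hT R).2 ⟨-1, -1, neg_ne_zero.2 one_ne_zero, Or.inr rfl, Or.inr hR⟩
    set r : T := ⟨R, hRT⟩
    have hr2 : r ^ 2 = x := by
      refine Subtype.ext (LinearEquiv.ext fun v => ?_)
      show (R ^ 2) v = X v
      rw [sq, isW_sq hR (neg_ne_zero.2 one_ne_zero), hX v, hg']
      funext k; fin_cases k <;> simp
    have hx2 : x ^ 2 = 1 := by
      have h := pow_orderOf_eq_one x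
      rwa [hx, pow_one] at h
    have hxne : x ≠ 1 := fun e => by rw [e, orderOf_one] at hx; norm_num at hx
    have hr : orderOf r = 2 ^ 2 := orderOf_eq_prime_pow (p := 2) (n := 1)
      (by rw [pow_one, hr2]; exact hxne) (by rw [show (2 : ℕ) ^ (1 + 1) = 2 * 2 from rfl, pow_mul, hr2, hx2])
    have hr4 : r ^ 4 = 1 := by rw [show (4 : ℕ) = 2 ^ 2 from rfl, ← hr, pow_orderOf_eq_one]
    have hw2 : w ^ 2 = 1 := Subtype.ext (LinearEquiv.ext fun v => by
      show (Wl ^ 2) v = v
      rw [sq, isW_sq hW one_ne_zero]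
      funext k; fin_cases k <;> simp)
    have hyr : y * w = r := by
      refine Subtype.ext (isW_unique ?_ hR)
      show IsW (Y * Wl) _ _
      simpa using isD_mul_W hY hW hm1 one_ne_zero
    have hyrw : y = r * w := by rw [← hyr, mul_assoc, ← sq, hw2, mul_one]
    have hrw : r * w * (r * w) = 1 := by rw [← hyrw, ← sq, hy]
    have hwr : w * r = r ^ 3 * w := by
      calc w * r = r⁻¹ * (r * w * (r * w)) * w⁻¹ := by group
        _ = r ^ 3 * w := by
          rw [hrw, mul_one, inv_eq_of_mul_eq_one_right (show r * r ^ 3 = 1 by rw [← pow_succ', hr4]),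
            inv_eq_of_mul_eq_one_right (show w * w = 1 by rw [← sq, hw2])]
    have hwp : ∀ k : ℕ, w * r ^ k = r ^ (3 * k) * w := by
      intro k
      induction k with
      | zero => simp
      | succ k ih => rw [pow_succ, ← mul_assoc, ih, mul_assoc, hwr, ← mul_assoc, ← pow_add, mul_add, mul_one]
    have hw4 : ∀ a : ℕ, (r ^ a * w) ^ 2 = 1 := fun a => by
      rw [sq, mul_assoc, ← mul_assoc w, hwp, mul_assoc, ← sq, hw2, mul_one, ← pow_add, show a + 3 * a = 4 * a by ring,
        pow_mul, hr4, one_pow]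
    have hgen' : ∀ f : T, ∃ a : ℕ, f = r ^ a ∨ f = r ^ a * w := by
      intro f
      obtain ⟨i, j, h | h⟩ := hgen f
      · rcases Nat.even_or_odd' j with ⟨c, rfl | rfl⟩
        · exact ⟨2 * i, Or.inl (by rw [h, pow_mul y, hy, one_pow, mul_one, pow_mul, hr2])⟩
        · exact ⟨2 * i + 1, Or.inr (by rw [h, pow_succ, pow_mul y, hy, one_pow, one_mul, hyrw, pow_succ, pow_mul, hr2, mul_assoc])⟩
      · rcases Nat.even_or_odd' j with ⟨c, rfl | rfl⟩
        · exact ⟨2 * i, Or.inr (by rw [h, pow_mul y, hy, one_pow, mul_one, pow_mul, hr2])⟩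
        · exact ⟨2 * i + 1, Or.inl (by rw [h, pow_succ, pow_mul y, hy, one_pow, one_mul, hyrw, mul_assoc, mul_assoc, ← sq w, hw2, mul_one, pow_succ, pow_mul, hr2])⟩
    have hordα : ∀ (α : MulAut T), orderOf (α r) = 2 ^ 2 := fun α => by rw [α.orderOf_eq, hr]
    have hαr : ∀ α : MulAut T, ∃ a : ℕ, Odd a ∧ α r = r ^ a := by
      intro α
      obtain ⟨a, h | h⟩ := hgen' (α r)
      · refine ⟨a, Nat.not_even_iff_odd.1 ?_, h⟩
        rintro ⟨c, rfl⟩
        have h2 : (α r) ^ 2 = 1 := by rw [h, ← pow_mul, show (c + c) * 2 = 4 * c by ring, pow_mul, hr4, one_pow]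
        have := orderOf_dvd_of_pow_eq_one h2
        rw [hordα] at this
        norm_num at this
      · exfalso
        have h2 : (α r) ^ 2 = 1 := by rw [h, hw4]
        have := orderOf_dvd_of_pow_eq_one h2
        rw [hordα] at this
        norm_num at this
    refine two_aut r 1 w 2 le_rfl hr (one_pow _) (Commute.one_right r) (fun f => ?_) (fun α => ?_) (fun α => Or.inl (map_one α)) (fun α => ?_)
    · obtain ⟨a, h⟩ := hgen' f
      exact ⟨a, 0, by simpa using h⟩
    · obtain ⟨a, ha, h⟩ := hαr α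
      exact ⟨a, 0, ha, by simpa using h⟩
    · obtain ⟨a, h | h⟩ := hgen' (α w)
      · exfalso
        obtain ⟨c, -, hc⟩ := hαr α⁻¹
        have : w = r ^ (c * a) := by
          rw [pow_mul, ← hc, ← map_pow, ← h]
          exact (MulEquiv.symm_apply_apply α w).symm
        rcases Nat.even_or_odd' (c * a) with ⟨d, hd | hd⟩ <;> rw [hd] at this
        · rw [pow_mul, hr2] at this
          have hd' := isD_pow hX d
          rw [show X ^ d = Wl from (congrArg Subtype.val this).symm] at hd'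
          exact not_D_W hd' hW (pow_ne_zero _ hg0)
        · rw [pow_succ, pow_mul, hr2, ← hyr, ← mul_assoc] at this
          have h' := mul_right_cancel (this.symm.trans (one_mul w).symm)
          have hd' := isD_mul (isD_pow hX d) hY
          rw [show X ^ d * Y = 1 from congrArg Subtype.val h', one_pow, one_mul, mul_one] at hd'
          exact (ZMod.neg_one_ne_one (n := 3)) (isD_data hd' isD_one (pow_ne_zero _ hg0)).2
      · exact ⟨a, 0, by simpa using h⟩
  · -- large
    have hx8 : 8 ≤ 2 ^ m := le_trans (by norm_num) (Nat.pow_le_pow_right (by norm_num) hm3)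
    have hneW : ∀ i j : ℕ, x ^ i * y ^ j ≠ w := fun i j e => by
      have hd := isD_mul (isD_pow hX i) (isD_pow hY j)
      have e' : X ^ i * Y ^ j = Wl := congrArg Subtype.val e
      rw [e'] at hd
      exact not_D_W hd hW (mul_ne_zero (pow_ne_zero _ hg0) (pow_ne_zero _ one_ne_zero))
    have hh : 2 ^ m = 2 * 2 ^ (m - 1) := by rw [← pow_succ', show m - 1 + 1 = m by omega]
    have hhev : Even (2 ^ (m - 1)) := even_two.pow_of_ne_zero (by omega)
    have hxh : x ^ (2 * 2 ^ (m - 1)) = 1 := by rw [← hh, ← hx, pow_orderOf_eq_one]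
    have hyev : ∀ e : ℕ, Even e → y ^ e = 1 := fun e he => by
      obtain ⟨k, rfl⟩ := he; rw [← two_mul, pow_mul, hy, one_pow]
    have hαx : ∀ α : MulAut T, ∃ i j : ℕ, Odd i ∧ α x = x ^ i * y ^ j := by
      intro α
      have hord : orderOf (α x) = 2 ^ m := by rw [α.orderOf_eq, hx]
      obtain ⟨a, s, ha, hs, hf | hf⟩ := (hT (α x).1).1 (α x).2
      · obtain ⟨i, j, h, -⟩ := hD (α x) a s ha hs hf
        refine ⟨i, j, Nat.not_even_iff_odd.1 ?_, h⟩
        rintro ⟨c, rfl⟩
        have h2 : (α x) ^ 2 ^ (m - 1) = 1 := by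
          rw [h, (hxy.pow_pow _ _).mul_pow, ← pow_mul, ← pow_mul, show (c + c) * 2 ^ (m - 1) = 2 * 2 ^ (m - 1) * c by ring,
            pow_mul, hxh, one_pow, one_mul, hyev _ (hhev.mul_left j)]
        have := Nat.le_of_dvd (by positivity) (orderOf_dvd_of_pow_eq_one h2)
        omega
      · exfalso
        have := Nat.le_of_dvd (by norm_num) (orderOf_dvd_of_pow_eq_one (hWsq (α x) a s ha hs hf))
        omega
    have hαy : ∀ α : MulAut T, α y = y ∨ α y = y * x ^ 2 ^ (m - 1) := by
      intro α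
      obtain ⟨i, j, hi, hxi⟩ := hαx α
      have hcomm : Commute (α x) (α y) := hxy.map (α : T →* T)
      obtain ⟨a, s, ha, hs, hf | hf⟩ := (hT (α y).1).1 (α y).2
      · obtain ⟨i', j', h, -⟩ := hD (α y) a s ha hs hf
        have h2 : x ^ (i' * 2) = 1 := by
          have : (α y) ^ 2 = 1 := by rw [← map_pow, hy, map_one]
          rwa [h, (hxy.pow_pow _ _).mul_pow, ← pow_mul, ← pow_mul, hyev _ (even_two.mul_left j'), mul_one] at this
        have hdv : 2 * 2 ^ (m - 1) ∣ 2 * i' := by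
          rw [← hh, ← hx, mul_comm 2 i']; exact orderOf_dvd_of_pow_eq_one h2
        obtain ⟨c, rfl⟩ := Nat.dvd_of_mul_dvd_mul_left two_pos hdv
        have hxc : x ^ (2 ^ (m - 1) * c) = (α x) ^ (2 ^ (m - 1) * c) := by
          rw [hxi, (hxy.pow_pow _ _).mul_pow, ← pow_mul, ← pow_mul, hyev _ ((hhev.mul_right c).mul_left j), mul_one]
          obtain ⟨d, rfl⟩ := hi
          rw [show (2 * d + 1) * (2 ^ (m - 1) * c) = 2 ^ (m - 1) * c + 2 * 2 ^ (m - 1) * (d * c) by ring, pow_add,
            pow_mul _ (2 * 2 ^ (m - 1)), hxh, one_pow, mul_one]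
        rcases Nat.even_or_odd' j' with ⟨e, rfl | rfl⟩
        · exfalso
          rw [hyev _ ⟨e, by ring⟩, mul_one, hxc, ← map_pow] at h
          have h' := congrArg Subtype.val (α.injective h)
          have hd : IsD Y ((g ^ (2 ^ (m - 1) * c))) (1 ^ (2 ^ (m - 1) * c)) := by
            rw [show Y = X ^ (2 ^ (m - 1) * c) from h']; exact isD_pow hX _
          have := (isD_data hd hY (pow_ne_zero _ hg0)).2
          rw [one_pow] at this
          exact (ZMod.neg_one_ne_one (n := q)) this.symm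
        · rw [show y ^ (2 * e + 1) = y by rw [pow_succ, hyev _ ⟨e, by ring⟩, one_mul]] at h
          rcases Nat.even_or_odd' c with ⟨d, rfl | rfl⟩
          · left
            rw [h, show 2 ^ (m - 1) * (2 * d) = 2 * 2 ^ (m - 1) * d by ring, pow_mul, hxh, one_pow, one_mul]
          · right
            rw [h, (hxy.pow_left _).eq]
            congr 1
            rw [show 2 ^ (m - 1) * (2 * d + 1) = 2 * 2 ^ (m - 1) * d + 2 ^ (m - 1) by ring, pow_add, pow_mul, hxh, one_pow, one_mul]
      · exfalso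
        have hd := isD_mul (isD_pow hX i) (isD_pow hY j)
        have e1 : (α x).1 = X ^ i * Y ^ j := congrArg Subtype.val hxi
        rw [← e1, one_pow, one_pow, mul_one, one_mul] at hd
        set t : ZMod q := (-1) ^ j with ht
        have ht1 : t * t = 1 := by rw [ht, ← mul_pow]; norm_num
        have e : ((α x).1 * (α y).1) ![0, 1] 0 = ((α y).1 * (α x).1) ![0, 1] 0 := congrFun (LinearEquiv.congr_fun (congrArg Subtype.val hcomm.eq) ![0, 1]) 0
        rw [LinearEquiv.mul_apply, LinearEquiv.mul_apply, hd, hf, hf, hd] at e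
        simp at e
        have hs0 : s ≠ 0 := by rcases hs with rfl | rfl <;> simp
        field_simp at e
        have hg4 : g ^ (4 * i) = 1 := by
          rw [mul_comm, pow_mul]
          linear_combination (t + g ^ i * g ^ i) * e + ht1
        have h3 : orderOf g ∣ 4 * i := orderOf_dvd_of_pow_eq_one hg4
        rw [hg] at h3
        have h4 : 2 ^ m ∣ 4 := (Nat.Coprime.dvd_of_dvd_mul_right ((Nat.coprime_pow_left_iff (by omega) 2 i).2 (Nat.coprime_two_left.2 hi)) h3)
        have := Nat.le_of_dvd (by norm_num) h4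
        omega
    refine two_aut x y w m (by omega) hx hy hxy hgen hαx hαy (fun α => ?_)
    obtain ⟨i, j, h | h⟩ := hgen (α w)
    · exfalso
      obtain ⟨u, v, -, hu⟩ := hαx α⁻¹
      have hw : w = (x ^ u * y ^ v) ^ i * (α⁻¹ y) ^ j := by
        rw [← hu, ← map_pow, ← map_pow, ← map_mul, ← h]
        exact (MulEquiv.symm_apply_apply α w).symm
      rcases hαy α⁻¹ with h' | h' <;> rw [h'] at hw
      · apply hneW (u * i) (v * i + j)
        rw [hw, (hxy.pow_pow _ _).mul_pow, ← pow_mul, ← pow_mul, pow_add, mul_assoc]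
      · apply hneW (u * i + 2 ^ (m - 1) * j) (v * i + j)
        rw [hw, (hxy.pow_pow _ _).mul_pow, ← pow_mul, ← pow_mul, (hxy.symm.pow_right _).mul_pow, ← pow_mul, pow_add, pow_add]
        calc x ^ (u * i) * x ^ (2 ^ (m - 1) * j) * (y ^ (v * i) * y ^ j)
            = x ^ (u * i) * (x ^ (2 ^ (m - 1) * j) * y ^ (v * i)) * y ^ j := by simp only [mul_assoc]
          _ = x ^ (u * i) * (y ^ (v * i) * x ^ (2 ^ (m - 1) * j)) * y ^ j := by rw [(hxy.pow_pow (2 ^ (m - 1) * j) (v * i)).eq]
          _ = x ^ (u * i) * y ^ (v * i) * (x ^ (2 ^ (m - 1) * j) * y ^ j) := by simp only [mul_assoc]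
          _ = x ^ (u * i) * y ^ (v * i) * (y ^ j * x ^ (2 ^ (m - 1) * j)) := by rw [(hxy.pow_pow (2 ^ (m - 1) * j) j).eq]
    · exact ⟨i, j, h⟩

end Cfsg.Agent.S3382
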