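import Cfsg.Statements.S3383
import Cfsg.Agent.Lib.Solv.Frobenius

set_option autoImplicit false
open Cfsg

namespace Cfsg.Agent.S3383

/-- Let H be a Frobenius complement in a finite group L and K the Frobenius kernel (as a subgroup). Then K is characteristic in L, and every normal subgroup of L either contains K or is contained in K. -/
theorem result {L : Type*} [Group L] [Finite L]
    (H : Subgroup L) (hH : Cfsg.IsFrobeniusComplement H)
    (K : Subgroup L) (hK : (K : Set L) = Cfsg.frobeniusKernel H) :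
    K.Characteristic ∧ ∀ N : Subgroup L, N.Normal → K ≤ N ∨ N ≤ K := by
  classical
  obtain ⟨K₀, hn, hK₀, hc⟩ := Cfsg.Lib.Solv.exists_frobeniusKernel hH
  have hKK : K = K₀ := SetLike.coe_injective (hK.trans hK₀.symm)
  subst hKK
  refine ⟨?_, fun N hN => ?_⟩
  · rw [Subgroup.characteristic_iff_map_le]
    intro φ
    have hcop : Nat.Coprime (Nat.card (K.map φ.toMonoidHom)) K.index := by
      rw [Subgroup.card_map_of_injective φ.injective, hc.symm.index_eq_card, ← hc.index_eq_card]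
      exact (Cfsg.Lib.Solv.frob_coprime_index hH).symm
    have h1 : K.relIndex (K.map φ.toMonoidHom) = 1 := Nat.eq_one_of_dvd_coprimes hcop
      (Subgroup.relIndex_dvd_card _ _) (Subgroup.relIndex_dvd_index_of_normal _ _)
    exact Subgroup.relIndex_eq_one.mp h1
  · by_cases hNK : N ≤ K
    · exact Or.inr hNK
    refine Or.inl ?_
    obtain ⟨x, hxN, hxK⟩ := SetLike.not_le_iff_exists.mp hNK
    have hx : x ∉ Cfsg.frobeniusKernel H := fun h => hxK (by rwa [← hK] at h)
    rw [Cfsg.Lib.Solv.mem_frobeniusKernel, not_or, not_forall] at hx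
    obtain ⟨hx1, g, hg⟩ := hx
    rw [not_not, Cfsg.Lib.Solv.mem_conj_smul] at hg
    set h := g⁻¹ * x * g with hh
    have hhN : h ∈ N := by simpa using hN.conj_mem x hxN g⁻¹
    have hh1 : h ≠ 1 := fun e => hx1 (by
      calc x = g * h * g⁻¹ := by rw [hh]; group
        _ = 1 := by rw [e]; group)
    have hfix := Cfsg.Lib.Solv.frob_fpf hH hc.disjoint.eq_bot hg hh1
    let f : K → K := fun k => ⟨(k : L) * (h * (k : L)⁻¹ * h⁻¹),
      K.mul_mem k.2 (hn.conj_mem _ (K.inv_mem k.2) h)⟩
    have hinj : Function.Injective f := by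
      intro k k' e
      have e' : (k : L) * (h * (k : L)⁻¹ * h⁻¹) = (k' : L) * (h * (k' : L)⁻¹ * h⁻¹) := congrArg Subtype.val e
      have hcm : (k' : L)⁻¹ * k * h = h * ((k' : L)⁻¹ * k) := by
        calc (k' : L)⁻¹ * k * h = (k' : L)⁻¹ * ((k : L) * (h * (k : L)⁻¹ * h⁻¹)) * h * k := by group
          _ = (k' : L)⁻¹ * ((k' : L) * (h * (k' : L)⁻¹ * h⁻¹)) * h * k := by rw [e']
          _ = h * ((k' : L)⁻¹ * k) := by group
      have hmem : (k' : L)⁻¹ * k ∈ K ⊓ Subgroup.centralizer ({h} : Set L) :=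
        ⟨K.mul_mem (K.inv_mem k'.2) k.2, Subgroup.mem_centralizer_singleton_iff.mpr hcm⟩
      rw [hfix, Subgroup.mem_bot] at hmem
      exact Subtype.ext (inv_mul_eq_one.mp hmem).symm
    intro k hk
    obtain ⟨k', hk'⟩ := (Finite.injective_iff_surjective.mp hinj) ⟨k, hk⟩
    have e : (k' : L) * (h * (k' : L)⁻¹ * h⁻¹) = k := congrArg Subtype.val hk'
    rw [← e, show (k' : L) * (h * (k' : L)⁻¹ * h⁻¹) = ((k' : L) * h * (k' : L)⁻¹) * h⁻¹ by group]
    exact N.mul_mem (hN.conj_mem h hhN _) (N.inv_mem hhN)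

end Cfsg.Agent.S3383
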