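import Cfsg.Statements.S3419
import Cfsg.Agent.Lib.Recog.AltSpectrum
-- import your own Cfsg.Agent.* helpers here

set_option autoImplicit false
open Cfsg

namespace Cfsg.Agent.S3419

open Cfsg.Lib.Recog.AltSpectrum

theorem no_hall_pair {G : Type*} [Group G] [Finite G] (hsol : Group.IsSolvable G) {p q a : ℕ} (hp : p.Prime) (hq : q.Prime)
    (hne : p ≠ q) (hpa : p ∣ Nat.card G) (hqd : q ∣ Nat.card G) (hq2 : ¬ q ^ 2 ∣ Nat.card G) (hpn : ¬ p ^ (a + 1) ∣ Nat.card G)
    (ha : a ≤ 2) (h1 : q % p ≠ 1) (h2 : p % q ≠ 1) (h3 : p ^ 2 % q ≠ 1) : ∃ g : G, orderOf g = p * q := by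
  classical
  haveI := Fact.mk hp
  haveI := Fact.mk hq
  obtain ⟨H, hH⟩ := Cfsg.Lib.Solv.hall_exists (hs := hsol) ({p, q} : Set ℕ)
  have hfull : ∀ r, r.Prime → r ∈ ({p, q} : Set ℕ) → r ∣ Nat.card G → r ∣ Nat.card H := fun r hr hrm hd => by
    rw [← H.card_mul_index] at hd
    exact (hr.dvd_mul.1 hd).resolve_right (hH.2 r hr hrm)
  have hpH := hfull p hp (Or.inl rfl) hpa
  have hqH := hfull q hq (Or.inr rfl) hqd
  obtain ⟨P⟩ : Nonempty (Sylow p H) := inferInstance
  obtain ⟨Q⟩ : Nonempty (Sylow q H) := inferInstance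
  have hsupp : ∀ r, r.Prime → r ∣ Nat.card H → r = p ∨ r = q := fun r hr hd => hH.1 r hr hd
  have hone : ∀ (r s b : ℕ) [Fact r.Prime] (R : Sylow r H), s.Prime → r ≠ s → (∀ t, t.Prime → t ∣ Nat.card H → t = r ∨ t = s) →
      ¬ s ^ (b + 1) ∣ Nat.card G → (∀ i, i ≤ b → s ^ i % r ≠ 1 ∨ s ^ i = 1) → (R : Subgroup H).Normal := by
    intro r s b _ R hs hrs hsu hsb hmod
    have hcard : Nat.card (Sylow r H) = 1 := by
      have hd := R.card_dvd_index
      have hidx : ∀ t : ℕ, t.Prime → t ∣ (R : Subgroup H).index → t = s := fun t ht htd =>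
        (hsu t ht (htd.trans (R : Subgroup H).index_dvd_card)).resolve_left fun e => R.not_dvd_index (e ▸ htd)
      have hn0 : Nat.card (Sylow r H) ≠ 0 := Nat.card_pos.ne'
      obtain hi := Nat.eq_prime_pow_of_unique_prime_dvd hn0 (fun {t} ht htd => hidx t ht (htd.trans hd))
      set i := (Nat.card (Sylow r H)).primeFactorsList.length
      have hib : i ≤ b := by
        by_contra hlt
        exact hsb ((pow_dvd_pow s (show b + 1 ≤ i by omega)).trans (hi ▸ (hd.trans ((R : Subgroup H).index_dvd_card.trans H.card_subgroup_dvd_card))))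
      have hmod1 : Nat.card (Sylow r H) % r = 1 := by
        have := card_sylow_modEq_one r H
        rw [Nat.ModEq, Nat.one_mod_eq_one.2 (Fact.out (p := r.Prime)).ne_one] at this
        exact this
      rw [hi] at hmod1 ⊢
      exact (hmod i hib).resolve_left fun h => h hmod1
    haveI : Subsingleton (Sylow r H) := (Nat.card_eq_one_iff_unique.1 hcard).1
    exact R.normal_of_subsingleton
  have hPn := hone p q 1 P hq hne hsupp hq2 (fun i hi => by
    interval_cases i
    · exact Or.inr rfl
    · exact Or.inl (by rw [pow_one]; exact h1))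
  have hQn := hone q p a Q hp hne.symm (fun t ht hd => (hsupp t ht hd).symm) hpn (fun i hi => by
    have : i ≤ 2 := le_trans hi ha
    interval_cases i
    · exact Or.inr rfl
    · exact Or.inl (by rw [pow_one]; exact h2)
    · exact Or.inl h3)
  obtain ⟨x, hx⟩ := exists_prime_orderOf_dvd_card' (G := (P : Subgroup H)) p (by
    exact P.dvd_card_of_dvd_card hpH)
  obtain ⟨y, hy⟩ := exists_prime_orderOf_dvd_card' (G := (Q : Subgroup H)) q (by
    exact Q.dvd_card_of_dvd_card hqH)
  have hcomm : Commute (x : H) (y : H) := Subgroup.commute_of_normal_of_disjoint _ _ hPn hQn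
    (IsPGroup.disjoint_of_ne p q hne _ _ P.2 Q.2) _ _ x.2 y.2
  refine ⟨(x : H) * (y : H), ?_⟩
  rw [← Subgroup.coe_mul, Subgroup.orderOf_coe]
  exact orderOf_mul_eq hp hq hne (by rw [Subgroup.orderOf_coe, hx]) (by rw [Subgroup.orderOf_coe, hy]) hcomm

/-- Let n ≥ 5 and let G be a finite group with the same order and the same set of element orders as the alternating group of degree n. Then G is not solvable. -/
theorem result {G : Type*} [Group G] [Finite G] (n : ℕ) (hn : 5 ≤ n)
    (hcard : Nat.card G = Nat.card ↥(alternatingGroup (Fin n)))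
    (hspec : Set.range (orderOf : G → ℕ) = Set.range (orderOf : ↥(alternatingGroup (Fin n)) → ℕ)) :
    ¬ Group.IsSolvable G := by
  intro hsol
  have hc : 2 * Nat.card G = n.factorial := by rw [hcard, two_mul_card (by omega)]
  have hs : ∀ p q : ℕ, p.Prime → q.Prime → p ≠ q → n < p + q → ∀ g : G, orderOf g ≠ p * q := fun p q hp hq hne hpq g hg =>
    not_mem_range_alt hp hq hne hpq (hspec ▸ ⟨g, hg⟩)
  rcases Nat.lt_or_ge n 11 with h11 | h11
  · have key : ∀ p q a : ℕ, p.Prime → q.Prime → p ≠ q → n < p + q → a ≤ 2 → q % p ≠ 1 → p % q ≠ 1 → p ^ 2 % q ≠ 1 →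
        p ∣ n.factorial / 2 → q ∣ n.factorial / 2 → ¬ q ^ 2 ∣ n.factorial / 2 → ¬ p ^ (a + 1) ∣ n.factorial / 2 → False := by
      intro p q a hp hq hne hpq ha h1 h2 h3 d1 d2 d3 d4
      have hG : Nat.card G = n.factorial / 2 := by omega
      obtain ⟨g, hg⟩ := no_hall_pair hsol hp hq hne (hG ▸ d1) (hG ▸ d2) (hG ▸ d3) (hG ▸ d4) ha h1 h2 h3
      exact hs p q hp hq hne hpq g hg
    interval_cases n
    · exact key 3 5 1 (by norm_num) (by norm_num) (by norm_num) (by norm_num) (by norm_num) (by norm_num) (by norm_num) (by norm_num)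
        (by decide) (by decide) (by decide) (by decide)
    · exact key 3 5 2 (by norm_num) (by norm_num) (by norm_num) (by norm_num) (by norm_num) (by norm_num) (by norm_num) (by norm_num)
        (by decide) (by decide) (by decide) (by decide)
    · exact key 5 7 1 (by norm_num) (by norm_num) (by norm_num) (by norm_num) (by norm_num) (by norm_num) (by norm_num) (by norm_num)
        (by decide) (by decide) (by decide) (by decide)
    · exact key 5 7 1 (by norm_num) (by norm_num) (by norm_num) (by norm_num) (by norm_num) (by norm_num) (by norm_num) (by norm_num)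
        (by decide) (by decide) (by decide) (by decide)
    · exact key 5 7 1 (by norm_num) (by norm_num) (by norm_num) (by norm_num) (by norm_num) (by norm_num) (by norm_num) (by norm_num)
        (by decide) (by decide) (by decide) (by decide)
    · exact key 5 7 2 (by norm_num) (by norm_num) (by norm_num) (by norm_num) (by norm_num) (by norm_num) (by norm_num) (by norm_num)
        (by decide) (by decide) (by decide) (by decide)
  · obtain ⟨N, H, hN, -, -, hsimp, hna, -⟩ := section_exists h11 hc hs
    haveI := hN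
    haveI := hsimp
    haveI : Group.IsSolvable (↥H ⧸ N.subgroupOf H) := inferInstance
    exact hna ⟨⟨fun a b => IsSimpleGroup.comm_iff_isSolvable.2 this a b⟩⟩

end Cfsg.Agent.S3419
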