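import Cfsg.Statements.S3430
import Cfsg.Agent.Lib.NumTheory.Zsigmondy
-- import your own Cfsg.Agent.* helpers here

set_option autoImplicit false
open Cfsg

namespace Cfsg.Agent.S3430

open Polynomial Finset Cfsg.Agent.NumTheory

theorem cyc_two (a : ℕ) : cyc 2 a = (a : ℤ) + 1 := by simp [cyc, cyclotomic_two]

theorem cyc_split {p m : ℕ} (hp : p.Prime) (hm : ¬ p ∣ m) (k a : ℕ) :
    cyc (p ^ (k + 1) * m) a * cyc m (a ^ p ^ k) = cyc m ((a ^ p ^ k) ^ p) := by
  have h := congrArg (eval ((a ^ p ^ k : ℕ) : ℤ)) (cyclotomic_expand_eq_cyclotomic_mul hp hm ℤ)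
  rw [expand_eval, eval_mul, mul_comm m p] at h
  rw [cyc_mul_prime_pow p m a hp k]
  simp only [cyc]
  push_cast at h ⊢
  exact h.symm

theorem cyc_lower {p m : ℕ} (hp : p.Prime) (hp3 : 3 ≤ p) (hm : ¬ p ∣ m) (hm0 : 0 < m) (k : ℕ) {a : ℕ} (ha : 2 ≤ a) :
    ((a ^ ((p - 2) * p ^ k * m.totient) : ℕ) : ℤ) ≤ cyc (p ^ (k + 1) * m) a := by
  have hs := congrArg (Int.cast : ℤ → ℝ) (cyc_split hp hm k a)
  obtain ⟨b, hb⟩ : ∃ b, b = a ^ p ^ k := ⟨_, rfl⟩
  rw [← hb] at hs
  rw [Int.cast_mul, cast_cyc (R := ℝ) m b, cast_cyc (R := ℝ) m (b ^ p), Nat.cast_pow] at hs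
  have hb2 : (2 : ℝ) ≤ (b : ℝ) := by
    have : 2 ≤ b := hb ▸ le_trans ha (Nat.le_self_pow (pow_ne_zero _ hp.ne_zero) a)
    exact_mod_cast this
  have hbp : (1 : ℝ) < (b : ℝ) ^ p := one_lt_pow₀ (by linarith) hp.ne_zero
  have hlow := sub_one_pow_totient_le_cyclotomic_eval (n := m) hbp
  have hup := cyclotomic_eval_le_add_one_pow_totient (q := (b : ℝ)) (by linarith) m
  have hpos : 0 < (cyclotomic m ℝ).eval (b : ℝ) := cyclotomic_pos' m (by linarith)
  have hkey : (b : ℝ) ^ (p - 2) * ((b : ℝ) + 1) ≤ (b : ℝ) ^ p - 1 := by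
    have h1 : (b : ℝ) ^ p = (b : ℝ) ^ (p - 2) * (b : ℝ) ^ 2 := by rw [← pow_add, Nat.sub_add_cancel (by omega)]
    have h2 : (1 : ℝ) ≤ (b : ℝ) ^ (p - 2) := one_le_pow₀ (by linarith)
    have h4 : (1 : ℝ) ≤ (b : ℝ) ^ 2 - b - 1 := by nlinarith
    nlinarith [mul_le_mul h2 h4 zero_le_one (by linarith)]
  set C : ℝ := ((cyc (p ^ (k + 1) * m) a : ℤ) : ℝ)
  have h3 : ((b : ℝ) ^ (p - 2)) ^ m.totient * ((b : ℝ) + 1) ^ m.totient ≤ C * ((b : ℝ) + 1) ^ m.totient := by
    rw [← mul_pow]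
    have h5 : ((b : ℝ) ^ (p - 2) * ((b : ℝ) + 1)) ^ m.totient ≤ ((b : ℝ) ^ p - 1) ^ m.totient :=
      pow_le_pow_left₀ (by positivity) hkey _
    have hC : 0 ≤ C := nonneg_of_mul_nonneg_left (hs.symm ▸ (cyclotomic_pos' m hbp).le) hpos
    have := mul_le_mul_of_nonneg_left hup hC
    linarith
  have h6 := le_of_mul_le_mul_right h3 (by positivity)
  rw [← pow_mul, hb, Nat.cast_pow, ← pow_mul] at h6
  rw [show (p - 2) * p ^ k * m.totient = p ^ k * ((p - 2) * m.totient) by ring, ← Int.cast_le (R := ℝ), Int.cast_natCast,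
    Nat.cast_pow]
  exact h6

theorem prod_le : ∀ s : Finset ℕ, (∀ p ∈ s, 2 ≤ p) → ∏ p ∈ s, p ≤ (s.card + 1) * ∏ p ∈ s, (p - 1) := by
  intro s
  induction s using Finset.induction_on_max with
  | empty => simp
  | insert a s hlt ih =>
    intro h
    have ha : a ∉ s := fun h' => lt_irrefl a (hlt a h')
    have h2 := h a (Finset.mem_insert_self a s)
    rw [Finset.prod_insert ha, Finset.prod_insert ha, Finset.card_insert_of_notMem ha]
    have hcard : s.card + 1 ≤ a - 1 := by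
      have : s ⊆ Finset.Ico 2 a := fun x hx => Finset.mem_Ico.2 ⟨h x (Finset.mem_insert_of_mem hx), hlt x hx⟩
      have := Finset.card_le_card this
      simp at this
      omega
    have h1 := Nat.mul_le_mul_left a (ih fun p hp => h p (Finset.mem_insert_of_mem hp))
    refine h1.trans ?_
    rw [← mul_assoc, ← mul_assoc]
    refine Nat.mul_le_mul_right _ ?_
    obtain ⟨c, rfl⟩ : ∃ c, a = c + 1 := ⟨a - 1, by omega⟩
    simp only [Nat.add_sub_cancel] at hcard ⊢
    nlinarith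

theorem le_totient_mul {n : ℕ} (hn : n ≠ 0) : n ≤ n.totient * (n.primeFactors.card + 1) ∧ 2 ^ n.primeFactors.card ≤ n := by
  refine ⟨?_, le_trans (Finset.pow_card_le_prod _ _ _ fun p hp => (Nat.prime_of_mem_primeFactors hp).two_le)
    (Nat.le_of_dvd (by omega) (Nat.prod_primeFactors_dvd n))⟩
  have hpos : 0 < ∏ p ∈ n.primeFactors, (p - 1) := Finset.prod_pos fun p hp => by
    have := (Nat.prime_of_mem_primeFactors hp).two_le; omega
  have h := Nat.totient_mul_prod_primeFactors n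
  refine Nat.le_of_mul_le_mul_right ?_ hpos
  rw [← h, mul_assoc]
  exact Nat.mul_le_mul_left _ (prod_le _ fun p hp => (Nat.prime_of_mem_primeFactors hp).two_le)

theorem small_A_aux : ∀ n < 128, n % 2 = 0 → 2 ^ ((n.totient + 1) / 2) ≤ n + 1 → (n + 1).Prime →
    n ∈ ({0, 2, 4, 6, 10, 12, 16, 18, 30} : Finset ℕ) := by decide +kernel

theorem small_A {n : ℕ} (he : n % 2 = 0) (hn0 : n ≠ 0) (hp : (n + 1).Prime) (h : 2 ^ ((n.totient + 1) / 2) ≤ n + 1) :
    n ∈ ({0, 2, 4, 6, 10, 12, 16, 18, 30} : Finset ℕ) := by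
  refine small_A_aux n ?_ he h hp
  obtain ⟨h1, h2⟩ := le_totient_mul hn0
  set M := Nat.log 2 (n + 1)
  have hM : 2 ^ M ≤ n + 1 := Nat.pow_log_le_self 2 (by omega)
  have hE : (n.totient + 1) / 2 ≤ M := Nat.le_log_of_pow_le one_lt_two h
  have hw : n.primeFactors.card ≤ M := Nat.le_log_of_pow_le one_lt_two (by omega)
  have hnM : n ≤ 2 * M * (M + 1) := h1.trans (Nat.mul_le_mul (by omega) (by omega))
  have key : ∀ j, 7 ≤ j → 2 * j * (j + 1) + 1 < 2 ^ j := by
    intro j hj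
    induction j, hj using Nat.le_induction with
    | base => norm_num
    | succ j hj ih => rw [pow_succ]; nlinarith
  by_contra hbig
  rcases Nat.lt_or_ge M 7 with h7 | h7
  · have := Nat.mul_le_mul (show 2 * M ≤ 12 by omega) (show M + 1 ≤ 7 by omega)
    omega
  · have := key M h7
    omega

set_option synthInstance.maxSize 4096 in
set_option synthInstance.maxHeartbeats 400000 in
theorem small_B_k0 : ∀ r < 17, ∀ m < 16, r.Prime → 3 ≤ r → m ∣ r - 1 → (r * m) % 2 = 0 → (r * m + 1).Prime →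
    2 ^ ((r - 2) * m.totient) ≤ r * (r * m + 1) → r * m ∈ ({0, 2, 4, 6, 10, 12, 16, 18, 30} : Finset ℕ) := by decide +kernel

set_option synthInstance.maxSize 4096 in
set_option synthInstance.maxHeartbeats 400000 in
theorem small_B_r3 : ∀ k < 3, 0 < k → ∀ m < 3, (3 ^ (k + 1) * m) % 2 = 0 → (3 ^ (k + 1) * m + 1).Prime →
    2 ^ ((3 - 2) * 3 ^ k * m.totient) ≤ 3 * (3 ^ (k + 1) * m + 1) →
    3 ^ (k + 1) * m ∈ ({0, 2, 4, 6, 10, 12, 16, 18, 30} : Finset ℕ) := by decide +kernel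

theorem small_B {r k m n : ℕ} (hr : r.Prime) (hr3 : 3 ≤ r) (hm : m ∣ r - 1) (he : n % 2 = 0) (hn : n = r ^ (k + 1) * m)
    (hp : (n + 1).Prime) (h : 2 ^ ((r - 2) * r ^ k * m.totient) ≤ r * (n + 1)) :
    n ∈ ({0, 2, 4, 6, 10, 12, 16, 18, 30} : Finset ℕ) := by
  have hm0 : 0 < m := Nat.pos_of_dvd_of_pos hm (by omega)
  have hmr : m ≤ r - 1 := Nat.le_of_dvd (by omega) hm
  have h2 : 2 ^ ((r - 2) * r ^ k) ≤ 2 ^ ((r - 2) * r ^ k * m.totient) :=
    Nat.pow_le_pow_right two_pos (Nat.le_mul_of_pos_right _ (Nat.totient_pos.2 hm0))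
  have hbd : r * (n + 1) ≤ r ^ (k + 3) := by
    rw [show r ^ (k + 3) = r * (r ^ (k + 1) * r) by ring, hn]
    refine Nat.mul_le_mul_left _ ?_
    have h0 : 1 ≤ r ^ (k + 1) := Nat.one_le_pow _ _ hr.pos
    have := Nat.mul_le_mul_left (r ^ (k + 1)) (show m + 1 ≤ r by omega)
    rw [mul_add] at this
    omega
  rcases Nat.eq_zero_or_pos k with rfl | hk
  · simp only [pow_zero, mul_one, zero_add, pow_one] at h h2 hbd hn
    have hr17 : r < 17 := by
      by_contra hge
      have key : ∀ j, 17 ≤ j → j ^ 3 < 2 ^ (j - 2) := by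
        intro j hj
        induction j, hj using Nat.le_induction with
        | base => norm_num
        | succ j hj ih =>
          rw [show j + 1 - 2 = (j - 2) + 1 by omega, pow_succ 2]
          nlinarith [Nat.mul_le_mul hj hj]
      have := key r (by omega)
      omega
    subst hn
    exact small_B_k0 r hr17 m (by omega) hr hr3 hm he hp h
  · rcases Nat.lt_or_ge r 5 with h5 | h5
    · obtain rfl : r = 3 := by
        interval_cases r <;> first | rfl | norm_num at hr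
      have hk3 : k < 3 := by
        by_contra hge
        have key : ∀ j, 3 ≤ j → 2 * (j + 3) < 3 ^ j := by
          intro j hj
          induction j, hj using Nat.le_induction with
          | base => norm_num
          | succ j hj ih => rw [pow_succ]; omega
        have h1 : 3 ^ (k + 3) < 2 ^ (3 ^ k) := by
          calc 3 ^ (k + 3) ≤ (2 ^ 2) ^ (k + 3) := Nat.pow_le_pow_left (by norm_num) _
            _ = 2 ^ (2 * (k + 3)) := by rw [← pow_mul]
            _ < 2 ^ (3 ^ k) := Nat.pow_lt_pow_right one_lt_two (key k (by omega))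
        simp only [show 3 - 2 = 1 from rfl, one_mul] at h h2
        omega
      subst hn
      exact small_B_r3 k hk3 hk m (by omega) he hp h
    · exfalso
      have key : ∀ j, 1 ≤ j → j + 3 < r ^ j := by
        intro j hj
        induction j, hj using Nat.le_induction with
        | base => simp; omega
        | succ j hj ih =>
          rw [pow_succ]
          have := Nat.mul_le_mul_left (r ^ j) h5
          omega
      have h4 : r ≤ 2 ^ (r - 2) := by
        have key2 : ∀ j, 5 ≤ j → j ≤ 2 ^ (j - 2) := by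
          intro j hj
          induction j, hj using Nat.le_induction with
          | base => norm_num
          | succ j hj ih => rw [show j + 1 - 2 = (j - 2) + 1 by omega, pow_succ 2]; omega
        exact key2 r h5
      have h1 : r ^ (k + 3) < 2 ^ ((r - 2) * r ^ k) :=
        calc r ^ (k + 3) ≤ (2 ^ (r - 2)) ^ (k + 3) := Nat.pow_le_pow_left h4 _
          _ = 2 ^ ((r - 2) * (k + 3)) := by rw [← pow_mul]
          _ < 2 ^ ((r - 2) * r ^ k) := Nat.pow_lt_pow_right one_lt_two (Nat.mul_lt_mul_of_pos_left (key k hk) (by omega))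
      omega

theorem sqfree_dvd {C a b : ℕ} (hC : C ≠ 0) (h : ∀ p, p.Prime → p ∣ C → (p = a ∨ p = b) ∧ ¬ p ^ 2 ∣ C)
    (hb : b ∣ a * b) : C ∣ a * b := by
  have hsq : Squarefree C := Nat.squarefree_iff_prime_squarefree.2 fun p hp hd =>
    (h p hp (dvd_trans (dvd_mul_right p p) hd)).2 (by rwa [sq])
  rw [← Nat.prod_primeFactors_of_squarefree hsq]
  refine (Finset.prod_primes_dvd _ (fun p hp => (Nat.prime_of_mem_primeFactors hp).prime) fun p hp => ?_)
  rcases (h p (Nat.prime_of_mem_primeFactors hp) (Nat.dvd_of_mem_primeFactors hp)).1 with rfl | rfl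
  · exact dvd_mul_right _ _
  · exact hb

theorem small_n {n q : ℕ} (hq : 2 ≤ q) (hn : n = 6 ∨ n = 10 ∨ n = 12 ∨ n = 18 ∨ n = 30) (C : ℕ) (hC : (C : ℤ) = cyc n q)
    (hd : C ∣ (n + 1) * n) : (q = 2 ∧ n ≠ 30) ∨ (q = 3 ∧ n = 6) ∨ (q = 5 ∧ n = 6) := by
  have hle : C ≤ (n + 1) * n := Nat.le_of_dvd (by rcases hn with rfl | rfl | rfl | rfl | rfl <;> norm_num) hd
  have hp3 : Nat.Prime 3 := Nat.prime_three
  have hp5 : Nat.Prime 5 := by norm_num
  rcases hn with rfl | rfl | rfl | rfl | rfl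
  · have hs := cyc_split hp3 (m := 2) (by norm_num) 0 q
    have hl := cyc_lower hp3 le_rfl (m := 2) (by norm_num) two_pos 0 hq
    norm_num [← hC, cyc_two, Nat.totient_two] at hs hl hle
    norm_cast at hs hl
    have hq42 : q ≤ 42 := by omega
    interval_cases q <;> norm_num at hs ⊢ <;> revert hd <;> rw [show C = _ from (Nat.eq_div_of_mul_eq_left (by norm_num) hs)] <;> norm_num
  · have hs := cyc_split hp5 (m := 2) (by norm_num) 0 q
    have hl := cyc_lower hp5 (by norm_num) (m := 2) (by norm_num) two_pos 0 hq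
    norm_num [← hC, cyc_two, Nat.totient_two] at hs hl hle
    norm_cast at hs hl
    have hq5 : q ≤ 4 := by
      by_contra hh
      have := Nat.pow_le_pow_left (show 5 ≤ q by omega) 3
      omega
    interval_cases q <;> norm_num at hs ⊢ <;> revert hd <;> rw [show C = _ from (Nat.eq_div_of_mul_eq_left (by norm_num) hs)] <;> norm_num
  · have hs := cyc_split hp3 (m := 4) (by norm_num) 0 q
    have hl := cyc_lower hp3 le_rfl (m := 4) (by norm_num) (by norm_num) 0 hq
    have h4 : ∀ a : ℕ, cyc 4 a = (a : ℤ) ^ 2 + 1 := fun a => by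
      have := cyc_mul_prime_pow 2 1 a Nat.prime_two 1
      norm_num [cyc_two] at this
      exact this
    norm_num [← hC, h4, show Nat.totient 4 = 2 by decide] at hs hl hle
    norm_cast at hs hl
    have hq13 : q ≤ 12 := by
      by_contra hh
      have := Nat.pow_le_pow_left (show 13 ≤ q by omega) 2
      omega
    interval_cases q <;> norm_num at hs ⊢ <;> revert hd <;> rw [show C = _ from (Nat.eq_div_of_mul_eq_left (by norm_num) hs)] <;> norm_num
  · have hs := cyc_split hp3 (m := 2) (by norm_num) 1 q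
    have hl := cyc_lower hp3 le_rfl (m := 2) (by norm_num) two_pos 1 hq
    norm_num [← hC, cyc_two, Nat.totient_two] at hs hl hle
    norm_cast at hs hl
    have hq7 : q ≤ 6 := by
      by_contra hh
      have := Nat.pow_le_pow_left (show 7 ≤ q by omega) 3
      omega
    interval_cases q <;> norm_num at hs ⊢ <;> revert hd <;> rw [show C = _ from (Nat.eq_div_of_mul_eq_left (by norm_num) hs)] <;> norm_num
  · have hs := cyc_split hp5 (m := 6) (by norm_num) 0 q
    have hl := cyc_lower hp5 (by norm_num) (m := 6) (by norm_num) (by norm_num) 0 hq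
    have h6 : ∀ a : ℕ, cyc 6 a * ((a : ℤ) + 1) = (a : ℤ) ^ 3 + 1 := fun a => by
      have := cyc_split hp3 (m := 2) (by norm_num) 0 a
      norm_num [cyc_two] at this
      exact this
    have h61 := h6 q
    have h62 := h6 (q ^ 5)
    norm_num [← hC, show Nat.totient 6 = 2 by decide] at hs hl hle h62
    norm_cast at hl
    have hq4 : q ≤ 3 := by
      by_contra hh
      have := Nat.pow_le_pow_left (show 4 ≤ q by omega) 6
      omega
    interval_cases q
    · norm_num at hs h61 h62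
      have : cyc 6 2 = 3 := by omega
      rw [this] at hs
      have h' : cyc 6 32 = 993 := by omega
      rw [h'] at hs
      have : C = 331 := by omega
      rw [this] at hd
      norm_num at hd
    · norm_num at hs h61 h62
      have : cyc 6 3 = 7 := by omega
      rw [this] at hs
      have h' : cyc 6 243 = 58807 := by omega
      rw [h'] at hs
      omega

theorem pow_two_case {q n t : ℕ} (hq : 2 ≤ q) (hn : 2 < n) (ht : n = 2 ^ t) (hp : (n + 1).Prime) (C : ℕ)
    (hC : (C : ℤ) = cyc n q) (hd : C ∣ (n + 1) * 2)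
    (h2 : ¬ (q = 2 ∧ (n = 4 ∨ n = 6 ∨ n = 10 ∨ n = 12 ∨ n = 18))) (h3 : ¬ (q = 3 ∧ (n = 4 ∨ n = 6))) : False := by
  obtain ⟨k, rfl⟩ : ∃ k, t = k + 1 := ⟨t - 1, by
    rcases Nat.eq_zero_or_pos t with rfl | h
    · simp at ht; omega
    · omega⟩
  have hv : (C : ℤ) = ((q ^ 2 ^ k : ℕ) : ℤ) + 1 := by
    rw [hC, ht]
    have := cyc_mul_prime_pow 2 1 q Nat.prime_two k
    rw [mul_one, mul_one] at this
    rw [this, cyc_two]
  have hv' : C = q ^ 2 ^ k + 1 := by exact_mod_cast hv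
  have hle : C ≤ (n + 1) * 2 := Nat.le_of_dvd (by positivity) hd
  have hk : 1 ≤ k := by
    rcases Nat.eq_zero_or_pos k with rfl | h
    · simp at ht; omega
    · exact h
  rcases Nat.lt_or_ge k 3 with hk3 | hk3
  · interval_cases k
    · norm_num at ht hv'
      subst ht
      have hq3 : q ≤ 3 := by nlinarith
      interval_cases q
      · exact h2 ⟨rfl, Or.inl rfl⟩
      · exact h3 ⟨rfl, Or.inl rfl⟩
    · norm_num at ht
      subst ht
      norm_num at hp
  · have key : ∀ j, 3 ≤ j → 4 * 2 ^ j + 2 < 2 ^ 2 ^ j := by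
      intro j hj
      induction j, hj using Nat.le_induction with
      | base => norm_num
      | succ j hj ih =>
        rw [pow_succ 2 j, pow_mul _ (2 ^ j) 2]
        nlinarith
    have h1 := key k hk3
    have h4 := Nat.pow_le_pow_left hq (2 ^ k)
    rw [ht, pow_succ] at hle
    omega

/-- Let q, n ≥ 2 be integers. Unless (n = 2 and q + 1 = 2^s·3^t for some s ≥ 0 and t ≤ 1), or (q = 2 and n ∈ {4, 6, 10, 12, 18}), or (q = 3 and n ∈ {4, 6}), or (q, n) = (5, 6), there is a prime p dividing q^n − 1 but no q^i − 1 with 1 ≤ i < n (a primitive prime divisor), such that p > n + 1 or p² divides q^n − 1. -/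
theorem result (q n : ℕ) (hq : 2 ≤ q) (hn : 2 ≤ n)
    (h1 : ¬ (n = 2 ∧ ∃ s t : ℕ, t ≤ 1 ∧ q + 1 = 2 ^ s * 3 ^ t))
    (h2 : ¬ (q = 2 ∧ (n = 4 ∨ n = 6 ∨ n = 10 ∨ n = 12 ∨ n = 18)))
    (h3 : ¬ (q = 3 ∧ (n = 4 ∨ n = 6))) (h4 : ¬ (q = 5 ∧ n = 6)) :
    ∃ p : ℕ, p.Prime ∧ p ∣ q ^ n - 1 ∧ (∀ i : ℕ, 1 ≤ i → i < n → ¬ p ∣ q ^ i - 1) ∧ (n + 1 < p ∨ p ^ 2 ∣ q ^ n - 1) := by
  classical
  open Cfsg.Agent.NumTheory in
  have hdvd : ∀ r : ℕ, (r : ℤ) ∣ cyc n q → r ∣ q ^ n - 1 := fun r hr => by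
    rw [← Int.natCast_dvd_natCast, Nat.cast_sub (Nat.one_le_pow _ _ (by omega)), Nat.cast_pow, Nat.cast_one]
    exact hr.trans (cyc_dvd n q)
  have hsq : q ^ 2 - 1 = (q + 1) * (q - 1) := by rw [← Nat.sq_sub_sq q 1, one_pow]
  rcases eq_or_lt_of_le hn with rfl | hn3
  · -- n = 2
    have hsmall : ∀ p, p.Prime → p ≠ 2 → p ∣ q + 1 → ∀ i, 1 ≤ i → i < 2 → ¬ p ∣ q ^ i - 1 := by
      intro p hp hp2 hd i hi hi2 hd'
      obtain rfl : i = 1 := by omega
      rw [pow_one] at hd'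
      have := Nat.le_of_dvd two_pos ((show q + 1 - (q - 1) = 2 by omega) ▸ Nat.dvd_sub hd hd')
      have := hp.two_le
      omega
    by_cases hbig : ∃ p, p.Prime ∧ p ∣ q + 1 ∧ 3 < p
    · obtain ⟨p, hp, hd, h⟩ := hbig
      exact ⟨p, hp, hsq ▸ dvd_mul_of_dvd_left hd _, hsmall p hp (by omega) hd, Or.inl h⟩
    · push Not at hbig
      obtain ⟨s, u, hu, hsu⟩ := Nat.exists_eq_pow_mul_and_not_dvd (show q + 1 ≠ 0 by omega) 2 (by norm_num)
      have hu3 : ∀ {d : ℕ}, d.Prime → d ∣ u → d = 3 := by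
        intro d hd hdu
        have := hbig d hd (hsu ▸ dvd_mul_of_dvd_right hdu _)
        have := hd.two_le
        interval_cases d
        · exact absurd hdu hu
        · rfl
      have hu0 : u ≠ 0 := fun e => hu (e ▸ dvd_zero _)
      have ht := Nat.eq_prime_pow_of_unique_prime_dvd hu0 hu3
      set t := u.primeFactorsList.length
      rcases Nat.lt_or_ge t 2 with h | h
      · exact absurd ⟨rfl, s, t, by omega, by rw [hsu, ht]⟩ h1
      · have h9 : 3 ^ 2 ∣ q + 1 := hsu ▸ ht ▸ dvd_mul_of_dvd_right (pow_dvd_pow 3 h) _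
        refine ⟨3, Nat.prime_three, hsq ▸ dvd_mul_of_dvd_left ((dvd_pow_self 3 two_ne_zero).trans h9) _,
          hsmall 3 Nat.prime_three (by norm_num) ((dvd_pow_self 3 two_ne_zero).trans h9), Or.inr (hsq ▸ dvd_mul_of_dvd_left h9 _)⟩
  by_contra hcon
  push Not at hcon
  have hprimdvd : ∀ p, p.Prime → p ∣ q ^ n - 1 → (∀ i, 0 < i → i < n → ¬ p ∣ q ^ i - 1) → p = n + 1 ∧ ¬ p ^ 2 ∣ q ^ n - 1 := by
    intro p hp hd hprim
    obtain ⟨hle, hns⟩ := hcon p hp hd (fun i hi hin => hprim i hi hin)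
    haveI := Fact.mk hp
    have hq1 : ∀ i, p ∣ q ^ i - 1 ↔ (q : ZMod p) ^ i = 1 := fun i => by
      rw [← ZMod.natCast_eq_zero_iff, Nat.cast_sub (Nat.one_le_pow _ _ (by omega)), Nat.cast_pow, Nat.cast_one, sub_eq_zero]
    have hord : orderOf (q : ZMod p) = n := (orderOf_eq_iff (by omega)).2
      ⟨(hq1 n).1 hd, fun i hi h0 h => hprim i h0 hi ((hq1 i).2 h)⟩
    have hne : (q : ZMod p) ≠ 0 := fun e => by
      have := (hq1 n).1 hd
      rw [e, zero_pow (by omega)] at this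
      exact zero_ne_one this
    have := Nat.le_of_dvd (by have := hp.two_le; omega) (hord ▸ orderOf_dvd_of_pow_eq_one (ZMod.pow_card_sub_one_eq_one hne))
    exact ⟨by omega, hns⟩
  obtain ⟨p₀, hp₀, hd₀, hprim₀⟩ := Cfsg.Agent.NumTheory.zsigmondy q n (by omega) (by omega)
    (fun h => h2 ⟨h.1, Or.inr (Or.inl h.2)⟩) (fun h => by omega)
  have hn1p : (n + 1).Prime := (hprimdvd p₀ hp₀ hd₀ hprim₀).1 ▸ hp₀
  have heven : n % 2 = 0 := by
    rcases Nat.mod_two_eq_zero_or_one n with h | h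
    · exact h
    · exfalso
      have := (Nat.prime_dvd_prime_iff_eq Nat.prime_two hn1p).1 (by omega)
      omega
  open Cfsg.Agent.NumTheory in
  obtain ⟨C, hC⟩ : ∃ C : ℕ, (C : ℤ) = cyc n q := ⟨(cyc n q).natAbs, Int.natAbs_of_nonneg (by have := one_lt_cyc (show 1 < n by omega) (show 1 < q by omega); omega)⟩
  have hC1 : 1 < C := by
    have := Cfsg.Agent.NumTheory.one_lt_cyc (show 1 < n by omega) (show 1 < q by omega)
    omega
  have hfac : ∀ p, p.Prime → p ∣ C → ¬ p ∣ n → p = n + 1 ∧ ¬ p ^ 2 ∣ C := by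
    intro p hp hd hpn
    have hdz : (p : ℤ) ∣ Cfsg.Agent.NumTheory.cyc n q := hC ▸ Int.natCast_dvd_natCast.2 hd
    obtain ⟨h, hns⟩ := hprimdvd p hp (hdvd p hdz) (Cfsg.Agent.NumTheory.primitive_of_not_dvd hp hdz hpn)
    refine ⟨h, fun h2' => hns (hdvd _ ?_)⟩
    exact hC ▸ Int.natCast_dvd_natCast.2 h2'
  have hsqn : ∀ r, r.Prime → r ∣ C → r ∣ n → ¬ r ^ 2 ∣ C := by
    intro r hr hd hrn h2'
    refine Cfsg.Agent.NumTheory.not_sq_dvd hr (show 1 < q by omega) (by omega) (by omega) (hC ▸ Int.natCast_dvd_natCast.2 hd) hrn ?_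
    rw [← hC]; exact_mod_cast h2'
  by_cases hB : ∃ r, r.Prime ∧ r ∣ C ∧ r ∣ n
  rotate_left
  · -- no exceptional divisor
    push Not at hB
    have hdiv : C ∣ (n + 1) * 1 := sqfree_dvd (by omega) (fun p hp hd =>
      ⟨Or.inl (hfac p hp hd (hB p hp hd)).1, (hfac p hp hd (hB p hp hd)).2⟩) (one_dvd _)
    rw [mul_one] at hdiv
    by_cases hodd : ∃ p, p.Prime ∧ p ∣ n ∧ p ≠ 2
    · obtain ⟨p, hp, hpn, hp2⟩ := hodd
      obtain ⟨e, m, hm, he⟩ := Nat.exists_eq_pow_mul_and_not_dvd (show n ≠ 0 by omega) p hp.ne_one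
      obtain ⟨k, rfl⟩ : ∃ k, e = k + 1 := ⟨e - 1, by
        rcases Nat.eq_zero_or_pos e with rfl | h
        · rw [pow_zero, one_mul] at he; exact absurd (he ▸ hpn) hm
        · omega⟩
      have hm0 : 0 < m := Nat.pos_of_ne_zero fun h => hm (h ▸ dvd_zero p)
      have hp3 : 3 ≤ p := by have := hp.two_le; omega
      have hl := cyc_lower hp hp3 hm hm0 k hq
      rw [← he, ← hC] at hl
      have hl' : q ^ ((p - 2) * p ^ k * m.totient) ≤ C := by exact_mod_cast hl
      have hφ : n.totient = p ^ k * (p - 1) * m.totient := by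
        rw [he, Nat.totient_mul (Nat.Coprime.pow_left _ ((Nat.Prime.coprime_iff_not_dvd hp).2 hm)),
          Nat.totient_prime_pow_succ hp]
      have hE : (n.totient + 1) / 2 ≤ (p - 2) * p ^ k * m.totient := by
        have h' := Nat.mul_le_mul_right (p ^ k * m.totient) (show p - 1 ≤ 2 * (p - 2) by omega)
        rw [show (p - 1) * (p ^ k * m.totient) = n.totient by rw [hφ]; ring] at h'
        rw [show 2 * (p - 2) * (p ^ k * m.totient) = 2 * ((p - 2) * p ^ k * m.totient) by ring] at h'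
        omega
      have hsm := small_A heven (by omega) hn1p ((Nat.pow_le_pow_right two_pos hE).trans
        ((Nat.pow_le_pow_left hq _).trans (hl'.trans (Nat.le_of_dvd (by omega) hdiv))))
      simp only [Finset.mem_insert, Finset.mem_singleton] at hsm
      have h5 : n = 6 ∨ n = 10 ∨ n = 12 ∨ n = 18 ∨ n = 30 := by
        rcases hsm with h | h | h | h | h | h | h | h | h <;> try omega
        · exact absurd ((Nat.prime_dvd_prime_iff_eq hp Nat.prime_two).1 (hp.dvd_of_dvd_pow (show p ∣ 2 ^ 2 by rw [h] at hpn; exact hpn))) hp2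
        · exact absurd ((Nat.prime_dvd_prime_iff_eq hp Nat.prime_two).1 (hp.dvd_of_dvd_pow (show p ∣ 2 ^ 4 by rw [h] at hpn; exact hpn))) hp2
      rcases small_n hq h5 C hC (dvd_mul_of_dvd_left hdiv n) with ⟨a, b⟩ | ⟨a, b⟩ | ⟨a, b⟩
      · exact h2 ⟨a, by omega⟩
      · exact h3 ⟨a, Or.inr b⟩
      · exact h4 ⟨a, b⟩
    · push Not at hodd
      have ht := Nat.eq_prime_pow_of_unique_prime_dvd (show n ≠ 0 by omega) (fun {d} hd hdn => hodd d hd hdn)
      exact pow_two_case hq hn3 ht hn1p C hC (dvd_mul_of_dvd_left hdiv 2) h2 h3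
  obtain ⟨r, hr, hrC, hrn⟩ := hB
  have hrC' : (r : ℤ) ∣ Cfsg.Agent.NumTheory.cyc n q := hC ▸ Int.natCast_dvd_natCast.2 hrC
  obtain ⟨k, m, hnm, hmd, hrm, -⟩ := Cfsg.Agent.NumTheory.cofactor_of_dvd hr (show n ≠ 0 by omega) hrC' hrn
  have hdiv : C ∣ (n + 1) * r := sqfree_dvd (by omega) (fun p hp hd => by
    by_cases hpn : p ∣ n
    · exact ⟨Or.inr (Cfsg.Agent.NumTheory.dvd_index_unique hp hr (by omega) (hC ▸ Int.natCast_dvd_natCast.2 hd) hrC' hpn hrn), hsqn p hp hd hpn⟩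
    · exact ⟨Or.inl (hfac p hp hd hpn).1, (hfac p hp hd hpn).2⟩) (dvd_mul_left _ _)
  rcases hr.eq_two_or_odd' with hr2 | hodd
  · subst hr2
    have hm1 : m = 1 := Nat.dvd_one.1 hmd
    subst hm1
    rw [mul_one] at hnm
    exact pow_two_case hq hn3 hnm hn1p C hC hdiv h2 h3
  have hr3 : 3 ≤ r := by obtain ⟨j, hj⟩ := hodd; have := hr.two_le; omega
  have hm0 : 0 < m := Nat.pos_of_ne_zero fun h => hrm (h ▸ dvd_zero r)
  have hl := cyc_lower hr hr3 hrm hm0 k hq
  rw [← hnm, ← hC] at hl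
  have hl' : q ^ ((r - 2) * r ^ k * m.totient) ≤ C := by exact_mod_cast hl
  have hsm := small_B hr hr3 hmd heven hnm hn1p ((Nat.pow_le_pow_left hq _).trans
    (hl'.trans ((Nat.le_of_dvd (by positivity) hdiv).trans_eq (mul_comm _ _))))
  simp only [Finset.mem_insert, Finset.mem_singleton] at hsm
  have h5 : n = 6 ∨ n = 10 ∨ n = 12 ∨ n = 18 ∨ n = 30 := by
    rcases hsm with h | h | h | h | h | h | h | h | h <;> try omega
    · exact absurd ((Nat.prime_dvd_prime_iff_eq hr Nat.prime_two).1 (hr.dvd_of_dvd_pow (show r ∣ 2 ^ 2 by rw [h] at hrn; exact hrn))) (by omega)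
    · exact absurd ((Nat.prime_dvd_prime_iff_eq hr Nat.prime_two).1 (hr.dvd_of_dvd_pow (show r ∣ 2 ^ 4 by rw [h] at hrn; exact hrn))) (by omega)
  rcases small_n hq h5 C hC (hdiv.trans (Nat.mul_dvd_mul_left _ hrn)) with ⟨a, b⟩ | ⟨a, b⟩ | ⟨a, b⟩
  · exact h2 ⟨a, by omega⟩
  · exact h3 ⟨a, Or.inr b⟩
  · exact h4 ⟨a, b⟩

end Cfsg.Agent.S3430
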