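import Cfsg.Statements.S3704
import Mathlib

set_option autoImplicit false
open Cfsg

namespace Cfsg.Agent.S3704

/-- Let G be a finite group acting faithfully and 2-transitively on a finite set Ω of size n, and let H be a subgroup of index n in G which is not transitive on Ω and fixes no point of Ω. Then H has exactly two orbits on Ω. -/
theorem result {G Ω : Type*} [Group G] [Finite G] [MulAction G Ω] [FaithfulSMul G Ω] [Finite Ω] (h2 : MulAction.IsMultiplyPretransitive G Ω 2) (H : Subgroup G) (hidx : H.index = Nat.card Ω) (hnt : ¬ MulAction.IsPretransitive H Ω) (hfix : ∀ a : Ω, ∃ h : H, h • a ≠ a) : Nat.card (MulAction.orbitRel.Quotient H Ω) = 2 := by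
  classical
  have : Fintype G := Fintype.ofFinite G
  have : Fintype Ω := Fintype.ofFinite Ω
  have : Fintype (G ⧸ H) := Fintype.ofFinite _
  have hpre : MulAction.IsPretransitive G Ω := MulAction.isPretransitive_of_is_two_pretransitive
  have h2' : ∀ a b c d : Ω, a ≠ b → c ≠ d → ∃ g : G, g • a = c ∧ g • b = d := fun a b c d h h' =>
    (MulAction.is_two_pretransitive_iff (G := G) (α := Ω)).mp h2 h h'
  set Q := MulAction.orbitRel.Quotient H Ω
  have : Fintype Q := Fintype.ofFinite Q
  obtain ⟨ω₀⟩ : Nonempty Ω := by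
    by_contra he
    rw [not_nonempty_iff] at he
    exact hnt ⟨fun x => isEmptyElim x⟩
  rcases Nat.lt_trichotomy (Nat.card Q) 2 with hlt | heq | hgt
  · exfalso
    refine hnt ⟨fun x y => ?_⟩
    have : Nat.card Q = 1 := by
      have : Nonempty Q := ⟨Quotient.mk'' ω₀⟩
      have := Nat.card_pos (α := Q)
      omega
    have hs := (Nat.card_eq_one_iff_unique.mp this).1
    exact Quotient.exact' (Subsingleton.elim (Quotient.mk'' y : Q) (Quotient.mk'' x))
  · exact heq
  exfalso
  set n := Fintype.card Ω with hn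
  obtain ⟨qi, qj, ql, hij, hil, hjl⟩ : ∃ a b c : Q, a ≠ b ∧ a ≠ c ∧ b ≠ c := by
    rw [Nat.card_eq_fintype_card] at hgt
    exact Fintype.two_lt_card_iff.mp hgt
  -- sizes of orbits
  set I : Q → Ω → ℚ := fun q ω => if (Quotient.mk'' ω : Q) = q then 1 else 0 with hI
  set k : Q → ℚ := fun q => ∑ ω, I q ω with hk
  have hIinv : ∀ (q : Q) (h : G) (ω : Ω), h ∈ H → I q (h • ω) = I q ω := fun q h ω hh => by
    simp only [hI]
    rw [show (Quotient.mk'' (h • ω) : Q) = Quotient.mk'' ω from Quotient.sound' ⟨⟨h, hh⟩, rfl⟩]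
  set N : Q → Q → Ω → Ω → ℚ := fun q q' ω ω' => ∑ g : G, I q (g⁻¹ • ω) * I q' (g⁻¹ • ω') with hN
  have hNinv : ∀ (q q' : Q) (x : G) (ω ω' : Ω), N q q' (x • ω) (x • ω') = N q q' ω ω' := fun q q' x ω ω' => by
    simp only [hN]
    refine Fintype.sum_equiv (Equiv.mulLeft x⁻¹) _ _ fun g => ?_
    simp [mul_smul]
  have hrow : ∀ (q q' : Q) (ω : Ω), ∑ ω', N q q' ω ω' = k q' * ∑ g : G, I q (g⁻¹ • ω) := fun q q' ω => by
    simp only [hN]
    rw [Finset.sum_comm, Finset.mul_sum]
    refine Finset.sum_congr rfl fun g _ => ?_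
    rw [← Finset.mul_sum, mul_comm]
    congr 1
    exact Fintype.sum_equiv (MulAction.toPerm g⁻¹) _ _ fun ω' => rfl
  have hsingle : ∀ (q : Q) (ω : Ω), (n : ℚ) * ∑ g : G, I q (g⁻¹ • ω) = (Fintype.card G : ℚ) * k q := fun q ω => by
    have hc : ∀ ω' : Ω, ∑ g : G, I q (g⁻¹ • ω') = ∑ g : G, I q (g⁻¹ • ω) := fun ω' => by
      obtain ⟨x, rfl⟩ := hpre.exists_smul_eq ω ω'
      refine Fintype.sum_equiv (Equiv.mulLeft x⁻¹) _ _ fun g => ?_
      simp [mul_smul]
    have h1 : ∑ ω' : Ω, ∑ g : G, I q (g⁻¹ • ω') = ∑ g : G, k q := by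
      rw [Finset.sum_comm]
      exact Finset.sum_congr rfl fun g _ => Fintype.sum_equiv (MulAction.toPerm g⁻¹) _ _ fun ω' => rfl
    rw [Finset.sum_congr rfl fun ω' _ => hc ω', Finset.sum_const, Finset.sum_const, Finset.card_univ,
      Finset.card_univ, nsmul_eq_mul, nsmul_eq_mul] at h1
    exact h1
  have hdiag : ∀ (q q' : Q) (ω : Ω), N q q' ω ω = if q = q' then ∑ g : G, I q (g⁻¹ • ω) else 0 := fun q q' ω => by
    simp only [hN, hI]
    split_ifs with h
    · subst h
      refine Finset.sum_congr rfl fun g _ => ?_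
      split_ifs <;> simp
    · refine Finset.sum_eq_zero fun g _ => ?_
      split_ifs with h1 h2 <;> simp
      exact absurd (h1.symm.trans h2) h
  have hn3 : 3 ≤ n := by
    have h' : Nat.card Q ≤ Nat.card Ω :=
      Nat.card_le_card_of_surjective (Quotient.mk'' : Ω → Q) Quotient.mk''_surjective
    rw [Nat.card_eq_fintype_card (α := Ω)] at h'
    omega
  have hn1 : (0 : ℚ) < (n : ℚ) - 1 := by
    have : (3 : ℚ) ≤ (n : ℚ) := by exact_mod_cast hn3
    linarith
  have hn0 : (0 : ℚ) < n := by linarith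
  have hG0 : (0 : ℚ) < Fintype.card G := by exact_mod_cast Fintype.card_pos
  -- the matrix entries
  set γ : ℚ := (Fintype.card G : ℚ) / ((n : ℚ) * ((n : ℚ) - 1)) with hγ
  have hγ0 : 0 < γ := div_pos hG0 (mul_pos hn0 hn1)
  have hoff : ∀ (q q' : Q) (ω ω' : Ω), ω ≠ ω' →
      N q q' ω ω' = γ * (k q * k q' - if q = q' then k q else 0) := by
    intro q q' ω ω' hne
    have hc : ∀ ω'' ∈ Finset.univ.erase ω, N q q' ω ω'' = N q q' ω ω' := fun ω'' h => by
      obtain ⟨x, hx1, hx2⟩ := h2' ω ω' ω ω'' hne (Finset.mem_erase.mp h).1.symm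
      conv_lhs => rw [← hx1, ← hx2, hNinv]
    have h1 := hrow q q' ω
    rw [← Finset.add_sum_erase _ _ (Finset.mem_univ ω), Finset.sum_congr rfl hc, Finset.sum_const,
      Finset.card_erase_of_mem (Finset.mem_univ _), Finset.card_univ, ← hn, nsmul_eq_mul,
      Nat.cast_sub (by omega), Nat.cast_one, hdiag] at h1
    have h2 := hsingle q ω
    rw [hγ]
    field_simp
    split_ifs at h1 ⊢ with h
    · subst h
      linear_combination (n : ℚ) * h1 + (k q - 1) * h2
    · linear_combination (n : ℚ) * h1 + k q' * h2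
  -- the bilinear forms
  set y : Q → (Ω → ℚ) → G → ℚ := fun q f g => ∑ ω, f ω * I q (g⁻¹ • ω) with hy
  have hform : ∀ (q q' : Q) (f f' : Ω → ℚ), ∑ ω, f' ω = 0 →
      ∑ g : G, y q f g * y q' f' g = γ * ((if q = q' then (n : ℚ) * k q else 0) - k q * k q') * ∑ ω, f ω * f' ω := by
    intro q q' f f' hf
    have h1 : ∑ g : G, y q f g * y q' f' g = ∑ ω, ∑ ω', f ω * f' ω' * N q q' ω ω' := by
      simp only [hy, Finset.sum_mul_sum]
      rw [Finset.sum_comm]
      refine Finset.sum_congr rfl fun ω _ => ?_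
      rw [Finset.sum_comm]
      refine Finset.sum_congr rfl fun ω' _ => ?_
      simp only [hN, Finset.mul_sum]
      exact Finset.sum_congr rfl fun g _ => by ring
    set c := γ * (k q * k q' - if q = q' then k q else 0) with hc
    have hN' : ∀ ω ω', N q q' ω ω' = c + if ω = ω' then N q q' ω ω - c else 0 := fun ω ω' => by
      split_ifs with h
      · subst h; ring
      · rw [hoff q q' ω ω' h, add_zero]
    rw [h1, Finset.mul_sum]
    refine Finset.sum_congr rfl fun ω _ => ?_
    rw [Finset.sum_congr rfl fun ω' _ => by rw [hN' ω ω', mul_add], Finset.sum_add_distrib,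
      ← Finset.sum_mul, ← Finset.mul_sum, hf, mul_zero, zero_mul, zero_add,
      Finset.sum_eq_single ω (fun ω' _ h => by rw [if_neg (Ne.symm h), mul_zero])
        (fun h => absurd (Finset.mem_univ ω) h), if_pos rfl, hdiag, hc, hγ]
    have h2 := hsingle q ω
    field_simp
    split_ifs with h
    · subst h
      linear_combination ((n : ℚ) - 1) * f ω * f' ω * h2
    · ring
  have hkpos : ∀ q, 0 < k q := fun q => by
    obtain ⟨ω, rfl⟩ := Quotient.mk''_surjective q
    refine Finset.sum_pos' (fun x _ => ?_) ⟨ω, Finset.mem_univ _, ?_⟩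
    · simp only [hI]; split_ifs <;> norm_num
    · simp [hI]
  have hksum : k qi + k qj + k ql ≤ n := by
    simp only [hk, ← Finset.sum_add_distrib, hn, ← Finset.card_univ]
    rw [Finset.card_eq_sum_ones, Nat.cast_sum, Nat.cast_one]
    refine Finset.sum_le_sum fun ω _ => ?_
    simp only [hI]
    split_ifs with h1 h2 h3 h4 h5 h6 <;> norm_num
    all_goals first
      | exact absurd (h1.symm.trans h2) hij
      | exact absurd (h1.symm.trans h3) hil
      | simp_all
  -- the linear map
  let s : (Ω → ℚ) →ₗ[ℚ] ℚ :=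
    { toFun := fun f => ∑ ω, f ω
      map_add' := fun f g => Finset.sum_add_distrib
      map_smul' := fun c f => by simp [Finset.mul_sum] }
  let Φ : (LinearMap.ker s × LinearMap.ker s) →ₗ[ℚ] (G ⧸ H → ℚ) :=
    { toFun := fun F x => y qi (F.1 : Ω → ℚ) x.out + y qj (F.2 : Ω → ℚ) x.out
      map_add' := fun F F' => by
        funext x
        simp only [hy, Prod.fst_add, Prod.snd_add, Submodule.coe_add, Pi.add_apply, add_mul, Finset.sum_add_distrib]
        ring
      map_smul' := fun c F => by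
        funext x
        simp only [hy, Prod.smul_fst, Prod.smul_snd, Submodule.coe_smul, Pi.smul_apply, smul_eq_mul,
          RingHom.id_apply, mul_add, Finset.mul_sum, mul_assoc] }
  have hΦ : Function.Injective Φ := by
    rw [← LinearMap.ker_eq_bot, Submodule.eq_bot_iff]
    rintro ⟨⟨f, hf⟩, ⟨f', hf'⟩⟩ h
    rw [LinearMap.mem_ker] at h
    have hf0 : ∑ ω, f ω = 0 := LinearMap.mem_ker.mp hf
    have hf0' : ∑ ω, f' ω = 0 := LinearMap.mem_ker.mp hf'
    have hall : ∀ g : G, y qi f g + y qj f' g = 0 := fun g => by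
      obtain ⟨h', hh'⟩ := QuotientGroup.mk_out_eq_mul H g
      have h1 : y qi f (g * h') + y qj f' (g * h') = 0 := hh' ▸ congrFun h (g : G ⧸ H)
      simp only [hy, mul_inv_rev, mul_smul, hIinv _ _ _ (H.inv_mem h'.2)] at h1
      exact h1
    have e : ∑ g : G, (y qi f g * y qi f g + 2 * (y qi f g * y qj f' g) + y qj f' g * y qj f' g) = 0 :=
      Finset.sum_eq_zero fun g _ => by linear_combination (y qi f g + y qj f' g) * hall g
    rw [Finset.sum_add_distrib, Finset.sum_add_distrib, ← Finset.mul_sum, hform _ _ _ _ hf0,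
      hform _ _ _ _ hf0', hform _ _ _ _ hf0', if_pos rfl, if_pos rfl, if_neg hij, zero_sub] at e
    have e' : (n * k qi - k qi * k qi) * ∑ ω, f ω * f ω + 2 * (-(k qi * k qj)) * ∑ ω, f ω * f' ω +
        (n * k qj - k qj * k qj) * ∑ ω, f' ω * f' ω = 0 :=
      (mul_eq_zero.mp (show γ * _ = 0 by rw [← e]; ring)).resolve_left hγ0.ne'
    have hp1 := hkpos qi
    have hp2 := hkpos qj
    have hp3 := hkpos ql
    -- completing the square
    have e2 : (k qi * k qj) * ∑ ω, (f ω - f' ω) * (f ω - f' ω) +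
        k qi * ((n : ℚ) - k qi - k qj) * ∑ ω, f ω * f ω +
        k qj * ((n : ℚ) - k qi - k qj) * ∑ ω, f' ω * f' ω = 0 := by
      have : ∑ ω, (f ω - f' ω) * (f ω - f' ω) =
          ∑ ω, f ω * f ω - 2 * ∑ ω, f ω * f' ω + ∑ ω, f' ω * f' ω := by
        rw [Finset.mul_sum, ← Finset.sum_sub_distrib, ← Finset.sum_add_distrib]
        exact Finset.sum_congr rfl fun ω _ => by ring
      rw [this]
      linear_combination e'
    have nn : ∀ u : Ω → ℚ, 0 ≤ ∑ ω, u ω * u ω := fun u => Finset.sum_nonneg fun ω _ => mul_self_nonneg _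
    have d0 : 0 < (n : ℚ) - k qi - k qj := by linarith
    have t1 := mul_nonneg (mul_pos hp1 hp2).le (nn fun ω => f ω - f' ω)
    have t2 := mul_nonneg (mul_pos hp1 d0).le (nn f)
    have t3 := mul_nonneg (mul_pos hp2 d0).le (nn f')
    have z2 : ∑ ω, f ω * f ω = 0 :=
      (mul_eq_zero.mp (show k qi * ((n : ℚ) - k qi - k qj) * _ = 0 by linarith)).resolve_left (mul_pos hp1 d0).ne'
    have z3 : ∑ ω, f' ω * f' ω = 0 :=
      (mul_eq_zero.mp (show k qj * ((n : ℚ) - k qi - k qj) * _ = 0 by linarith)).resolve_left (mul_pos hp2 d0).ne'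
    have zz : ∀ u : Ω → ℚ, ∑ ω, u ω * u ω = 0 → u = 0 := fun u hu => funext fun ω =>
      mul_self_eq_zero.mp ((Finset.sum_eq_zero_iff_of_nonneg fun ω _ => mul_self_nonneg (u ω)).mp hu ω (Finset.mem_univ _))
    exact Prod.ext (Subtype.ext (zz f z2)) (Subtype.ext (zz f' z3))
  have hdim := LinearMap.finrank_le_finrank_of_injective hΦ
  have hker : Module.finrank ℚ (LinearMap.ker s) + 1 = n := by
    have hrn := s.finrank_range_add_finrank_ker
    rw [LinearMap.range_eq_top.mpr (fun c => ⟨Pi.single ω₀ c, by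
      show ∑ ω, Pi.single ω₀ c ω = c
      rw [Finset.sum_pi_single']; simp⟩), finrank_top, Module.finrank_self, Module.finrank_pi] at hrn
    omega
  rw [Module.finrank_prod, Module.finrank_pi, ← Nat.card_eq_fintype_card] at hdim
  have hiv : Nat.card (G ⧸ H) = n := by
    rw [← Subgroup.index, hidx, Nat.card_eq_fintype_card]
  omega

end Cfsg.Agent.S3704
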