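import Cfsg.Statements.S3707
import Mathlib

set_option autoImplicit false
open Cfsg
open scoped Pointwise

namespace Cfsg.Agent.S3707

/-- Let G be a finite primitive permutation group on Ω of degree n and Γ ⊂ Ω a subset with 1 < #Γ ≤ n/2 such that the pointwise stabilizer of Ω ∖ Γ is transitive on Γ. Then G is 3-transitive on Ω. -/
theorem result {G Ω : Type*} [Group G] [Finite G] [MulAction G Ω] [FaithfulSMul G Ω] [Finite Ω] (hprim : MulAction.IsPreprimitive G Ω) (Γ : Set Ω) (h1 : 1 < Γ.ncard) (h2 : 2 * Γ.ncard ≤ Nat.card Ω) (htr : ∀ x ∈ Γ, ∀ y ∈ Γ, ∃ g : G, (∀ z ∉ Γ, g • z = z) ∧ g • x = y) : MulAction.IsMultiplyPretransitive G Ω 3 := by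
  classical
  have : Fintype G := Fintype.ofFinite G
  have : Fintype Ω := Fintype.ofFinite Ω
  set n := Nat.card Ω with hn
  set k := Γ.ncard with hk
  have hkn : 4 ≤ n := by omega
  -- Jordan sets
  let J : Set Ω → Prop := fun S => ∀ x ∈ S, ∀ y ∈ S, ∃ g : G, (∀ z ∉ S, g • z = z) ∧ g • x = y
  have hJt : ∀ (h : G) (S : Set Ω), J S → J (h • S) := by
    intro h S hS x hx y hy
    rw [Set.mem_smul_set_iff_inv_smul_mem] at hx hy
    obtain ⟨g, hg, hgx⟩ := hS _ hx _ hy
    refine ⟨h * g * h⁻¹, fun z hz => ?_, ?_⟩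
    · rw [mul_smul, mul_smul, hg _ (fun e => hz (Set.mem_smul_set_iff_inv_smul_mem.mpr e)), smul_inv_smul]
    · rw [mul_smul, mul_smul, hgx, smul_inv_smul]
  have hJu : ∀ (S S' : Set Ω) (c : Ω), J S → J S' → c ∈ S → c ∈ S' → J (S ∪ S') := by
    intro S S' c hS hS' hc hc' x hx y hy
    have hto : ∀ w ∈ S ∪ S', ∃ g : G, (∀ z ∉ S ∪ S', g • z = z) ∧ g • w = c := by
      rintro w (hw | hw)
      · obtain ⟨g, hg, hgw⟩ := hS w hw c hc
        exact ⟨g, fun z hz => hg z (fun e => hz (Or.inl e)), hgw⟩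
      · obtain ⟨g, hg, hgw⟩ := hS' w hw c hc'
        exact ⟨g, fun z hz => hg z (fun e => hz (Or.inr e)), hgw⟩
    obtain ⟨g₁, hg₁, e₁⟩ := hto x hx
    obtain ⟨g₂, hg₂, e₂⟩ := hto y hy
    refine ⟨g₂⁻¹ * g₁, fun z hz => ?_, ?_⟩
    · rw [mul_smul, hg₁ z hz, inv_smul_eq_iff, hg₂ z hz]
    · rw [mul_smul, e₁, ← e₂, inv_smul_smul]
  have hΓc : Γᶜ.ncard = n - k := Set.ncard_compl Γ
  have h2t : MulAction.IsMultiplyPretransitive G Ω 2 := by
    refine hprim.is_two_pretransitive (s := Γᶜ) (n := n - k - 1) (by omega) (by omega) ⟨fun x y => ?_⟩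
    obtain ⟨g, hg, hgx⟩ := htr x (not_not.mp x.2) y (not_not.mp y.2)
    exact ⟨⟨g, (mem_fixingSubgroup_iff G).mpr fun z hz => hg z hz⟩, Subtype.ext hgx⟩
  have h2 : ∀ a b c d : Ω, a ≠ b → c ≠ d → ∃ g : G, g • a = c ∧ g • b = d := fun a b c d h h' =>
    MulAction.is_two_pretransitive_iff.mp h2t h h'
  obtain ⟨γ₀, hγ₀, γ₁, hγ₁, hγne⟩ := (Set.one_lt_ncard (Set.toFinite Γ)).mp h1
  obtain ⟨S, ⟨hSJ, hSne, hS2⟩, hmax⟩ := Set.exists_max_image {S : Set Ω | J S ∧ S.Nonempty ∧ 2 ≤ Sᶜ.ncard}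
    Set.ncard (Set.toFinite _) ⟨Γ, htr, ⟨γ₀, hγ₀⟩, by omega⟩
  set O := Sᶜ with hO
  have hO2 : O.ncard = 2 := by
    by_contra hr2
    set r := O.ncard with hr
    have hr3 : 3 ≤ r := by omega
    obtain ⟨d, hd⟩ : O.Nonempty := by
      rw [← Set.ncard_pos (Set.toFinite _)]; omega
    set A := Finset.univ.filter fun g : G => d ∈ g • Γ with hA
    have hc : ∀ e e' : Ω, e ≠ d → e' ≠ d →
        (A.filter fun g => e ∈ g • Γ).card = (A.filter fun g => e' ∈ g • Γ).card := by
      intro e e' he he'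
      obtain ⟨x, hxd, hxe⟩ := h2 d e d e' he.symm he'.symm
      refine Finset.card_equiv (Equiv.mulLeft x) fun g => ?_
      simp only [hA, Finset.mem_filter, Finset.mem_univ, true_and, Equiv.coe_mulLeft, mul_smul]
      conv_rhs => rw [← hxd, ← hxe]
      rw [Set.smul_mem_smul_set_iff, Set.smul_mem_smul_set_iff]
    obtain ⟨e₀, he₀⟩ : ∃ e, e ≠ d := by
      by_cases h : γ₀ = d
      · exact ⟨γ₁, fun h' => hγne (h.trans h'.symm)⟩
      · exact ⟨γ₀, h⟩
    set c := (A.filter fun g => e₀ ∈ g • Γ).card with hcdef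
    have hcpos : 0 < c := by
      obtain ⟨g, hg0, hg1⟩ := h2 γ₀ γ₁ d e₀ hγne he₀.symm
      refine Finset.card_pos.mpr ⟨g, ?_⟩
      simp only [hA, Finset.mem_filter, Finset.mem_univ, true_and]
      exact ⟨hg0 ▸ Set.smul_mem_smul_set hγ₀, hg1 ▸ Set.smul_mem_smul_set hγ₁⟩
    have hcount : ∀ T : Finset Ω, d ∈ T →
        ∑ g ∈ A, ((T.filter fun e => e ∈ g • Γ).card - 1) = (T.card - 1) * c := by
      intro T hT
      have h1 : ∀ g ∈ A, (T.filter fun e => e ∈ g • Γ).card - 1 = ((T.erase d).filter fun e => e ∈ g • Γ).card := by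
        intro g hg
        rw [Finset.filter_erase, Finset.card_erase_of_mem (Finset.mem_filter.mpr ⟨hT, (Finset.mem_filter.mp hg).2⟩)]
      rw [Finset.sum_congr rfl h1]
      have h2' := Finset.sum_card_bipartiteAbove_eq_sum_card_bipartiteBelow (r := fun (g : G) (e : Ω) => e ∈ g • Γ)
        (s := A) (t := T.erase d)
      simp only [Finset.bipartiteAbove, Finset.bipartiteBelow] at h2'
      rw [h2', Finset.sum_congr rfl fun e he => hc e e₀ (Finset.mem_erase.mp he).1 he₀, Finset.sum_const,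
        smul_eq_mul, ← hcdef, Finset.card_erase_of_mem hT]
    have hall := hcount Finset.univ (Finset.mem_univ d)
    have hgk : ∀ g : G, (Finset.univ.filter fun e => e ∈ g • Γ).card = k := fun g => by
      rw [hk, ← Set.ncard_smul_set g Γ, Set.ncard_eq_toFinset_card']
      congr 1
      ext e
      simp only [Finset.mem_filter, Finset.mem_univ, true_and, Set.mem_toFinset]
    simp only [hgk, Finset.sum_const, smul_eq_mul, Finset.card_univ, ← Nat.card_eq_fintype_card] at hall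
    have hpart := hcount O.toFinset (Set.mem_toFinset.mpr hd)
    rw [← Set.ncard_eq_toFinset_card', ← hr] at hpart
    obtain ⟨g, hgA, hgX, hgr⟩ : ∃ g ∈ A, (O.toFinset.filter fun e => e ∈ g • Γ).card - 1 < k - 1 ∧
        (O.toFinset.filter fun e => e ∈ g • Γ).card - 1 < r - 2 := by
      by_contra hnone
      push Not at hnone
      have hle : A.card * min (k - 1) (r - 2) ≤ (r - 1) * c := by
        rw [← hpart, ← smul_eq_mul]
        refine Finset.card_nsmul_le_sum _ _ _ fun g hg => ?_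
        have := hnone g hg
        omega
      rw [← hn] at hall
      have hrn : r < n := by
        have h7 : r = n - S.ncard := Set.ncard_compl S
        have h8 : 0 < S.ncard := (Set.ncard_pos (Set.toFinite S)).mpr hSne
        clear * - h7 h8 hr3
        omega
      rcases le_or_gt (k - 1) (r - 2) with hcase | hcase
      · rw [min_eq_left hcase, hall] at hle
        have := Nat.le_of_mul_le_mul_right hle hcpos
        omega
      · rw [min_eq_right hcase.le] at hle
        have h3 : (n - 1) * (r - 2) ≤ (r - 1) * (k - 1) := by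
          refine Nat.le_of_mul_le_mul_right ?_ hcpos
          calc (n - 1) * (r - 2) * c = (n - 1) * c * (r - 2) := by ring
            _ = A.card * (r - 2) * (k - 1) := by rw [← hall]; ring
            _ ≤ (r - 1) * c * (k - 1) := Nat.mul_le_mul_right _ hle
            _ = _ := by ring
        have h4 : (r - 1) * (k - 1) ≤ (r - 2) * (2 * (k - 1)) := by
          calc (r - 1) * (k - 1) ≤ (2 * (r - 2)) * (k - 1) := Nat.mul_le_mul_right _ (by omega)
            _ = _ := by ring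
        have h5 : (r - 2) * (2 * (k - 1)) < (r - 2) * (n - 1) := Nat.mul_lt_mul_of_pos_left (by omega) (by omega)
        rw [mul_comm (n - 1)] at h3
        omega
    have hdg : d ∈ g • Γ := (Finset.mem_filter.mp hgA).2
    have hXe : (O.toFinset.filter fun e => e ∈ g • Γ).card = (O ∩ g • Γ).ncard := by
      rw [Set.ncard_eq_toFinset_card']
      congr 1
      ext e
      simp only [Finset.mem_filter, Set.mem_toFinset, Set.mem_inter_iff]
    rw [hXe] at hgX hgr
    have hX1 : 1 ≤ (O ∩ g • Γ).ncard := (Set.ncard_pos (Set.toFinite _)).mpr ⟨d, hd, hdg⟩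
    obtain ⟨u, huS, hug⟩ : ∃ u ∈ S, u ∈ g • Γ := by
      by_contra hnone
      push Not at hnone
      have hsub : g • Γ ⊆ O ∩ g • Γ := fun u hu => ⟨fun h => hnone u h hu, hu⟩
      have := Set.ncard_le_ncard hsub (Set.toFinite _)
      rw [Set.ncard_smul_set] at this
      omega
    have hnew : S ∪ g • Γ ∈ {S : Set Ω | J S ∧ S.Nonempty ∧ 2 ≤ Sᶜ.ncard} := by
      refine ⟨hJu S _ u hSJ (hJt g Γ htr) huS hug, ⟨u, Or.inl huS⟩, ?_⟩
      have heq : (S ∪ g • Γ)ᶜ = O \ (O ∩ g • Γ) := by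
        ext z
        simp only [hO, Set.mem_compl_iff, Set.mem_union, Set.mem_diff, Set.mem_inter_iff]
        tauto
      rw [heq, Set.ncard_diff Set.inter_subset_left]
      omega
    have hlt : S.ncard < (S ∪ g • Γ).ncard :=
      Set.ncard_lt_ncard ⟨Set.subset_union_left, fun h => hd (h (Or.inr hdg))⟩ (Set.toFinite _)
    exact absurd (hmax _ hnew) (not_le.mpr hlt)
  obtain ⟨o₁, o₂, ho, hOeq⟩ := Set.ncard_eq_two.mp hO2
  rw [MulAction.isMultiplyPretransitive_iff]
  intro u v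
  obtain ⟨x, hx0, hx1⟩ := h2 (u 0) (u 1) o₁ o₂ (fun h => absurd (u.injective h) (by decide)) ho
  obtain ⟨y, hy0, hy1⟩ := h2 (v 0) (v 1) o₁ o₂ (fun h => absurd (v.injective h) (by decide)) ho
  have hS : ∀ (z : G) (w : Fin 3 ↪ Ω), z • w 0 = o₁ → z • w 1 = o₂ → z • w 2 ∈ S := by
    intro z w h0 h1
    by_contra hzS
    have : z • w 2 ∈ O := hzS
    rw [hOeq] at this
    rcases this with h | h
    · exact absurd (w.injective (smul_left_cancel z (h.trans h0.symm))) (by decide)
    · exact absurd (w.injective (smul_left_cancel z ((Set.mem_singleton_iff.mp h).trans h1.symm))) (by decide)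
  obtain ⟨j, hj, hjx⟩ := hSJ _ (hS x u hx0 hx1) _ (hS y v hy0 hy1)
  have hjo : ∀ o ∈ O, j • o = o := fun o ho => hj o ho
  refine ⟨y⁻¹ * j * x, ?_⟩
  ext i
  show (y⁻¹ * j * x) • u i = v i
  rw [mul_smul, mul_smul, inv_smul_eq_iff]
  fin_cases i
  · exact (congrArg (j • ·) hx0).trans ((hjo _ (by rw [hOeq]; simp)).trans hy0.symm)
  · exact (congrArg (j • ·) hx1).trans ((hjo _ (by rw [hOeq]; simp)).trans hy1.symm)
  · exact hjx

end Cfsg.Agent.S3707
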