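import Cfsg.Statements.S3733
import Mathlib
-- import your own Cfsg.Agent.* helpers here

set_option autoImplicit false
open Cfsg

namespace Cfsg.Agent.S3733

/-- Let A and V be subgroups of a finite group with V abelian and nontrivial and A normalizing V. Suppose a nonempty finite family of proper subgroups of A partitions A: every non-identity element of A lies in exactly one member. If the number of members minus one is coprime to the order of V, then some member B of the family has a non-identity fixed point on V, that is V ∩ C(B) ≠ 1. -/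
theorem result {G : Type*} [Group G] [Finite G] (A V : Subgroup G) (hVab : IsMulCommutative V) (hV : V ≠ ⊥) (hAV : A ≤ Subgroup.normalizer (V : Set G)) (𝒜 : Finset (Subgroup G)) (hne : 𝒜.Nonempty) (hprop : ∀ B ∈ 𝒜, B < A) (hpart : ∀ a ∈ A, a ≠ 1 → ∃! B, B ∈ 𝒜 ∧ a ∈ B) (hk : (𝒜.card - 1).Coprime (Nat.card V)) : ∃ B ∈ 𝒜, V ⊓ Subgroup.centralizer (B : Set G) ≠ ⊥ := by
  classical
  by_contra hcon
  push Not at hcon
  letI : CommGroup V := { (inferInstance : Group V) with mul_comm := fun a b => hVab.is_comm.comm a b }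
  let act : G → V → V := fun g v => if hg : g ∈ Subgroup.normalizer (V : Set G) then
    ⟨g * v * g⁻¹, (Subgroup.mem_normalizer_iff.1 hg v).1 v.2⟩ else 1
  have hact : ∀ g ∈ A, ∀ v : V, ((act g v : V) : G) = g * v * g⁻¹ := fun g hg v => by
    simp only [act, dif_pos (hAV hg)]
  letI : Fintype G := Fintype.ofFinite G
  let S : Subgroup G → Finset G := fun B => Finset.univ.filter (· ∈ B)
  let N : Subgroup G → V → V := fun B v => ∏ b ∈ S B, act b v
  have hfix : ∀ B : Subgroup G, B ≤ A → ∀ v : V, ((N B v : V) : G) ∈ Subgroup.centralizer (B : Set G) := by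
    intro B hBA v
    refine Subgroup.mem_centralizer_iff.2 fun b hb => ?_
    have hmap : ∀ w : V, b * w * b⁻¹ = ((act b w : V) : G) := fun w => (hact b (hBA hb) w).symm
    let ψ : V →* V := { toFun := act b
                        map_one' := Subtype.ext (by rw [hact b (hBA hb)]; simp)
                        map_mul' := fun x y => Subtype.ext (by
                          rw [hact b (hBA hb), Subgroup.coe_mul, Subgroup.coe_mul, hact b (hBA hb),
                            hact b (hBA hb)]
                          group) }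
    have h1 : ψ (N B v) = N B v := by
      rw [map_prod]
      refine Finset.prod_nbij' (fun x => b * x) (fun x => b⁻¹ * x) ?_ ?_ ?_ ?_ ?_
      · intro x hx; simp only [S, Finset.mem_filter, Finset.mem_univ, true_and, Finset.coe_filter, Set.mem_setOf_eq] at hx ⊢; exact B.mul_mem hb hx
      · intro x hx; simp only [S, Finset.mem_filter, Finset.mem_univ, true_and, Finset.coe_filter, Set.mem_setOf_eq] at hx ⊢; exact B.mul_mem (B.inv_mem hb) hx
      · intro x _; group
      · intro x _; group
      · intro x hx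
        simp only [S, Finset.mem_filter, Finset.mem_univ, true_and] at hx
        refine Subtype.ext ?_
        show ((act b (act x v) : V) : G) = _
        rw [hact b (hBA hb), hact x (hBA hx), hact _ (A.mul_mem (hBA hb) (hBA hx))]
        group
    have h2 := congrArg Subtype.val h1
    rw [show ((ψ (N B v) : V) : G) = b * (N B v : V) * b⁻¹ from (hmap _).symm] at h2
    exact mul_inv_eq_iff_eq_mul.1 h2
  have hN1 : ∀ B ∈ 𝒜, ∀ v : V, N B v = 1 := fun B hB v => by
    have h1 : ((N B v : V) : G) ∈ V ⊓ Subgroup.centralizer (B : Set G) :=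
      ⟨(N B v).2, hfix B (hprop B hB).le v⟩
    rw [hcon B hB, Subgroup.mem_bot] at h1
    exact Subtype.ext h1
  have hNA : ∀ v : V, N A v = 1 := fun v => by
    obtain ⟨B, hB⟩ := hne
    have h1 : ((N A v : V) : G) ∈ V ⊓ Subgroup.centralizer (B : Set G) :=
      ⟨(N A v).2, Subgroup.centralizer_le (hprop B hB).le (hfix A le_rfl v)⟩
    rw [hcon B hB, Subgroup.mem_bot] at h1
    exact Subtype.ext h1
  have hact1 : ∀ v : V, act 1 v = v := fun v => Subtype.ext (by rw [hact 1 A.one_mem]; group)
  obtain ⟨v₀, hv₀, hv₁⟩ := V.bot_or_exists_ne_one.resolve_left hV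
  set v : V := ⟨v₀, hv₀⟩ with hv
  have hsplit : ∀ B : Subgroup G, N B v = v * ∏ b ∈ (S B).erase 1, act b v := fun B => by
    show ∏ b ∈ S B, act b v = _
    rw [← Finset.mul_prod_erase (S B) _ (show (1 : G) ∈ S B by simp [S]), hact1]
  have hbU : (S A).erase 1 = 𝒜.biUnion fun B => (S B).erase 1 := by
    ext a
    simp only [Finset.mem_biUnion, Finset.mem_erase, S, Finset.mem_filter, Finset.mem_univ, true_and]
    constructor
    · rintro ⟨ha1, haA⟩
      obtain ⟨B, ⟨hB, haB⟩, -⟩ := hpart a haA ha1
      exact ⟨B, hB, ha1, haB⟩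
    · rintro ⟨B, hB, ha1, haB⟩
      exact ⟨ha1, (hprop B hB).le haB⟩
  have hdisj : (𝒜 : Set (Subgroup G)).PairwiseDisjoint fun B => (S B).erase 1 := by
    intro B hB C hC hne'
    rw [Function.onFun, Finset.disjoint_left]
    intro a ha ha'
    simp only [Finset.mem_erase, S, Finset.mem_filter, Finset.mem_univ, true_and] at ha ha'
    exact hne' ((hpart a ((hprop B hB).le ha.2) ha.1).unique ⟨hB, ha.2⟩ ⟨hC, ha'.2⟩)
  have key : v ^ (𝒜.card - 1) = 1 := by
    have h1 := hsplit A
    rw [hNA, hbU, Finset.prod_biUnion hdisj] at h1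
    have h2 : ∀ B ∈ 𝒜, ∏ b ∈ (S B).erase 1, act b v = v⁻¹ := fun B hB =>
      eq_inv_of_mul_eq_one_right ((hsplit B).symm.trans (hN1 B hB v))
    rw [Finset.prod_congr rfl h2, Finset.prod_const] at h1
    have hc : 1 ≤ 𝒜.card := Finset.card_pos.2 hne
    have h3 : v⁻¹ ^ (𝒜.card - 1) = 1 := by
      rw [h1]
      calc v⁻¹ ^ (𝒜.card - 1) = v * (v⁻¹ * v⁻¹ ^ (𝒜.card - 1)) := by group
        _ = v * v⁻¹ ^ 𝒜.card := by rw [← pow_succ', Nat.sub_add_cancel hc]
    rwa [inv_pow, inv_eq_one] at h3
  refine hv₁ ?_
  have h4 : v = 1 := orderOf_eq_one_iff.1 (Nat.eq_one_of_dvd_coprimes hk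
    (orderOf_dvd_of_pow_eq_one key) (orderOf_dvd_natCard v))
  exact congrArg Subtype.val h4

end Cfsg.Agent.S3733
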