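import Cfsg.Statements.S3734
import Mathlib
import Mathlib
import Cfsg.Agent.Lib.Solv.CyclicQuotientGen
-- import your own Cfsg.Agent.* helpers here

set_option autoImplicit false
open Cfsg
open scoped Pointwise commutatorElement

namespace Cfsg.Agent.S3734

/-- Let A and G be subgroups of a finite group with A abelian, A normalizing G and the orders of A and G coprime. Then G is generated by the fixed-point subgroups C_G(B) of those subgroups B of A for which A/B is cyclic (that is, A = ⟨B, a⟩ for some a), and [G, A] is generated by the commutator subgroups [C_G(B), A] over the same subgroups B. -/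
theorem result {X : Type*} [Group X] [Finite X] (A G : Subgroup X) (hAab : IsMulCommutative A) (hAG : A ≤ Subgroup.normalizer (G : Set X)) (hcop : (Nat.card A).Coprime (Nat.card G)) : (⨆ B ∈ {B : Subgroup X | B ≤ A ∧ ∃ a ∈ A, B ⊔ Subgroup.zpowers a = A}, G ⊓ Subgroup.centralizer (B : Set X)) = G ∧ (⨆ B ∈ {B : Subgroup X | B ≤ A ∧ ∃ a ∈ A, B ⊔ Subgroup.zpowers a = A}, ⁅G ⊓ Subgroup.centralizer (B : Set X), A⁆) = ⁅G, A⁆ := by
  classical
  haveI := hAab
  have hAs : Group.IsSolvable A := Group.isSolvable_of_comm fun x y => IsMulCommutative.is_comm.comm x y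
  set S := {B : Subgroup X | B ≤ A ∧ ∃ a ∈ A, B ⊔ Subgroup.zpowers a = A} with hS
  have h1 : (⨆ B ∈ S, G ⊓ Subgroup.centralizer (B : Set X)) = G :=
    le_antisymm (iSup₂_le fun B _ => inf_le_left) (Cfsg.Lib.Solv.le_iSup_cyclic_quotient A G hAG hcop)
  refine ⟨h1, ?_⟩
  set N := ⨆ B ∈ S, ⁅G ⊓ Subgroup.centralizer (B : Set X), A⁆ with hN
  refine le_antisymm (iSup₂_le fun B _ => Subgroup.commutator_mono inf_le_left le_rfl) ?_
  set C := G ⊓ Subgroup.centralizer (A : Set X) with hC
  have hinv : ∀ B ∈ S, ∀ g ∈ A ⊔ C, g ∈ Subgroup.normalizer ((G ⊓ Subgroup.centralizer (B : Set X) : Subgroup X) : Set X) := by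
    intro B hB g hg
    refine (sup_le ?_ ?_ : A ⊔ C ≤ _) hg
    · intro a ha
      exact Cfsg.Lib.Solv.fixed_inf_normalized (hAG ha) (Subgroup.centralizer_le_normalizer _
        (Subgroup.mem_centralizer_iff.2 fun b hb =>
          congrArg Subtype.val (hAab.is_comm.comm (⟨b, hB.1 hb⟩ : A) ⟨a, ha⟩)))
    · intro c hc
      exact Cfsg.Lib.Solv.fixed_inf_normalized (Subgroup.le_normalizer hc.1) (Subgroup.centralizer_le_normalizer _
        (Subgroup.centralizer_le hB.1 hc.2))
  have hACN : A ⊔ C ≤ Subgroup.normalizer (N : Set X) := by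
    intro g hg
    have hA : MulAut.conj g • A = A := by
      rw [Cfsg.Lib.Solv.conj_smul_eq_self_iff]
      exact (sup_le Subgroup.le_normalizer (inf_le_right.trans (Subgroup.centralizer_le_normalizer _)) : A ⊔ C ≤ _) hg
    rw [← Cfsg.Lib.Solv.conj_smul_eq_self_iff]
    refine Subgroup.eq_of_le_of_card_ge ?_ (Cfsg.Lib.Solv.card_conj_smul _ _).ge
    rw [Subgroup.pointwise_smul_subset_iff]
    refine iSup₂_le fun B hB => ?_
    rw [Subgroup.subset_pointwise_smul_iff, inv_inv, Cfsg.Lib.Solv.conj_smul_commutator,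
      Cfsg.Lib.Solv.conj_smul_eq_self_iff.2 (hinv B hB g hg), hA]
    exact le_iSup₂ (f := fun B (_ : B ∈ S) => ⁅G ⊓ Subgroup.centralizer (B : Set X), A⁆) B hB
  have hCN : C ≤ Subgroup.normalizer (N : Set X) := le_sup_right.trans hACN
  have hG : G ≤ N ⊔ C := by
    conv_lhs => rw [← h1]
    refine iSup₂_le fun B hB => ?_
    have hn : A ≤ Subgroup.normalizer ((G ⊓ Subgroup.centralizer (B : Set X) : Subgroup X) : Set X) :=
      fun a ha => hinv B hB a (Subgroup.mem_sup_left ha)
    conv_lhs => rw [← Cfsg.Lib.Solv.commutator_sup_centralizer A (G ⊓ Subgroup.centralizer (B : Set X)) hn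
      (hcop.coprime_dvd_right (Subgroup.card_dvd_of_le inf_le_left)) (Or.inl hAs)]
    exact sup_le_sup (le_iSup₂ (f := fun B (_ : B ∈ S) => ⁅G ⊓ Subgroup.centralizer (B : Set X), A⁆) B hB)
      (inf_le_inf_right _ inf_le_left)
  rw [Subgroup.commutator_le]
  intro g hg a ha
  have h : g ∈ ((N ⊔ C : Subgroup X) : Set X) := hG hg
  rw [Subgroup.coe_mul_of_right_le_normalizer_left _ _ hCN, Set.mem_mul] at h
  obtain ⟨n, hn, c, hc, rfl⟩ := h
  have hca : c * a = a * c := (Subgroup.mem_centralizer_iff.1 hc.2 a ha).symm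
  have e : ⁅n * c, a⁆ = n * (a * n⁻¹ * a⁻¹) := by
    rw [commutatorElement_def, mul_assoc n c a, hca]; group
  rw [e]
  exact mul_mem hn ((Subgroup.mem_normalizer_iff.1 (hACN (Subgroup.mem_sup_left ha)) _).1 (inv_mem hn))

end Cfsg.Agent.S3734
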