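import Cfsg.Statements.S3735
import Mathlib
import Cfsg.Agent.Lib.Solv.SchurZassenhaus
import Cfsg.Agent.Lib.Solv.Coprime
-- import your own Cfsg.Agent.* helpers here

set_option autoImplicit false
open Cfsg
open scoped Pointwise

namespace Cfsg.Agent.S3735

open Subgroup Cfsg.Lib.Solv

variable {G : Type*} [Group G]

theorem mem_normalizer_of_smul_le [Finite G] {g : G} {S : Subgroup G} (h : MulAut.conj g • S ≤ S) :
    g ∈ normalizer (S : Set G) := by
  rw [← conj_smul_eq_self_iff]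
  refine eq_of_le_of_card_ge h (le_of_eq ?_)
  exact Nat.card_congr (Subgroup.equivSMul (MulAut.conj g) S).toEquiv

theorem mem_normalizer_sup {g : G} {U W : Subgroup G} (hU : g ∈ normalizer (U : Set G))
    (hW : g ∈ normalizer (W : Set G)) : g ∈ normalizer ((U ⊔ W : Subgroup G) : Set G) := by
  rw [← conj_smul_eq_self_iff, Subgroup.smul_sup, conj_smul_eq_self_iff.2 hU, conj_smul_eq_self_iff.2 hW]

theorem mem_normalizer_inf {g : G} {U W : Subgroup G} (hU : g ∈ normalizer (U : Set G))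
    (hW : g ∈ normalizer (W : Set G)) : g ∈ normalizer ((U ⊓ W : Subgroup G) : Set G) := by
  rw [← conj_smul_eq_self_iff, Subgroup.smul_inf, conj_smul_eq_self_iff.2 hU, conj_smul_eq_self_iff.2 hW]

theorem exists_decomp {V U W : Subgroup G} (hV : IsMulCommutative V) (hU : U ≤ V) (hW : W ≤ V) {x : G}
    (hx : x ∈ U ⊔ W) : ∃ u ∈ U, ∃ w ∈ W, u * w = x := by
  have hle : U ≤ normalizer (W : Set G) := fun u hu => by
    refine centralizer_le_normalizer _ (mem_centralizer_iff.2 fun w hw => ?_)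
    exact congrArg Subtype.val (hV.is_comm.comm (⟨w, hW hw⟩ : ↥V) ⟨u, hU hu⟩)
  have h : x ∈ ((U ⊔ W : Subgroup G) : Set G) := hx
  rw [coe_mul_of_left_le_normalizer_right U W hle] at h
  exact h

theorem exists_minimal_invariant [Finite G] {A U : Subgroup G} (hU : U ≠ ⊥) (hAU : A ≤ normalizer (U : Set G)) :
    ∃ M, M ≤ U ∧ M ≠ ⊥ ∧ A ≤ normalizer (M : Set G) ∧
      ∀ N, N ≤ M → A ≤ normalizer (N : Set G) → N = ⊥ ∨ N = M := by
  obtain ⟨M, ⟨hMU, hM, hAM⟩, hmin⟩ :=
    {M : Subgroup G | M ≤ U ∧ M ≠ ⊥ ∧ A ≤ normalizer (M : Set G)}.toFinite.exists_minimal ⟨U, le_rfl, hU, hAU⟩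
  refine ⟨M, hMU, hM, hAM, fun N hN hAN => ?_⟩
  by_cases h : N = ⊥
  · exact Or.inl h
  · exact Or.inr (le_antisymm hN (hmin ⟨hN.trans hMU, h, hAN⟩ hN))


/-- Clifford's Theorem for actions on finite abelian groups, first part. Let H and V be subgroups of a finite group with V abelian and H normalizing V, and let A be a normal subgroup of H. If every H-invariant subgroup of V has an H-invariant complement in V, then every A-invariant subgroup of V has an A-invariant complement in V. -/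
theorem result {G : Type*} [Group G] [Finite G] (H A V : Subgroup G) (hVab : IsMulCommutative V) (hHV : H ≤ Subgroup.normalizer (V : Set G)) (hAH : A ≤ H) (hAn : H ≤ Subgroup.normalizer (A : Set G)) (hss : ∀ U : Subgroup G, U ≤ V → H ≤ Subgroup.normalizer (U : Set G) → ∃ W : Subgroup G, W ≤ V ∧ H ≤ Subgroup.normalizer (W : Set G) ∧ U ⊓ W = ⊥ ∧ U ⊔ W = V) (U : Subgroup G) (hUV : U ≤ V) (hAU : A ≤ Subgroup.normalizer (U : Set G)) : ∃ W : Subgroup G, W ≤ V ∧ A ≤ Subgroup.normalizer (W : Set G) ∧ U ⊓ W = ⊥ ∧ U ⊔ W = V := by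
  classical
  let Min := {M : Subgroup G // M ≤ V ∧ M ≠ ⊥ ∧ A ≤ Subgroup.normalizer (M : Set G) ∧
      ∀ N, N ≤ M → A ≤ Subgroup.normalizer (N : Set G) → N = ⊥ ∨ N = M}
  set S : Subgroup G := ⨆ M : Min, M.1 with hS
  have hSV : S ≤ V := iSup_le fun M => M.2.1
  have hAV : A ≤ Subgroup.normalizer (V : Set G) := hAH.trans hHV
  have hHS : H ≤ Subgroup.normalizer (S : Set G) := by
    intro g hg
    apply mem_normalizer_of_smul_le
    rw [hS]
    show Subgroup.map (MulAut.conj g).toMonoidHom _ ≤ _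
    rw [Subgroup.map_iSup]
    refine iSup_le fun M => ?_
    have hgA := Cfsg.Lib.Solv.conj_smul_eq_self_iff.2 (hAn hg)
    have hnorm : ∀ N : Subgroup G, A ≤ Subgroup.normalizer (N : Set G) →
        A ≤ Subgroup.normalizer ((MulAut.conj g • N : Subgroup G) : Set G) := fun N hN => by
      have := Cfsg.Lib.Solv.mem_normalizer_conj_smul (g := g) hN
      rwa [hgA] at this
    obtain ⟨M, hMV, hM, hAM, hMmin⟩ := M
    have hne : MulAut.conj g • M ≠ ⊥ := fun h => hM (by
      have := congrArg (fun N : Subgroup G => (MulAut.conj g)⁻¹ • N) h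
      simpa using this)
    refine le_iSup_of_le (⟨MulAut.conj g • M, ?_, hne, hnorm M hAM, fun N hN hAN => ?_⟩ : Min) le_rfl
    · rw [← Cfsg.Lib.Solv.conj_smul_eq_self_iff.2 (hHV hg)]
      exact Subgroup.map_mono hMV
    · have h1 : (MulAut.conj g)⁻¹ • N ≤ M := by
        rwa [Subgroup.pointwise_smul_subset_iff, inv_inv]
      have h2 : A ≤ Subgroup.normalizer (((MulAut.conj g)⁻¹ • N : Subgroup G) : Set G) := by
        rw [← map_inv]
        have := Cfsg.Lib.Solv.mem_normalizer_conj_smul (g := g⁻¹) hAN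
        rwa [Cfsg.Lib.Solv.conj_smul_eq_self_iff.2 (inv_mem (hAn hg))] at this
      rcases hMmin _ h1 h2 with h | h
      · left
        have := congrArg (fun K : Subgroup G => MulAut.conj g • K) h
        simpa using this
      · right
        rw [← h, smul_inv_smul]
  have hSeq : S = V := by
    obtain ⟨W, hWV, hHW, hd, hj⟩ := hss S hSV hHS
    by_cases hW : W = ⊥
    · rwa [hW, sup_bot_eq] at hj
    · exfalso
      obtain ⟨M, hMW, hM, hAM, hmin⟩ := exists_minimal_invariant hW (hAH.trans hHW)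
      exact hM (le_bot_iff.1 (hd ▸ le_inf (le_iSup_of_le (⟨M, hMW.trans hWV, hM, hAM, hmin⟩ : Min) le_rfl) hMW))
  obtain ⟨W, ⟨hWV, hAW, hd⟩, hmax⟩ :=
    {W : Subgroup G | W ≤ V ∧ A ≤ Subgroup.normalizer (W : Set G) ∧ U ⊓ W = ⊥}.toFinite.exists_maximal
      ⟨⊥, bot_le, by rw [Subgroup.normalizer_eq_top_iff.2 (inferInstance : (⊥ : Subgroup G).Normal)]; exact le_top,
        inf_bot_eq U⟩
  refine ⟨W, hWV, hAW, hd, le_antisymm (sup_le hUV hWV) ?_⟩
  rw [← hSeq, hS]
  refine iSup_le fun M => ?_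
  obtain ⟨M, hMV, hM, hAM, hMmin⟩ := M
  have hAUW : A ≤ Subgroup.normalizer ((U ⊔ W : Subgroup G) : Set G) := fun g hg => mem_normalizer_sup (hAU hg) (hAW hg)
  rcases hMmin (M ⊓ (U ⊔ W)) inf_le_left (fun g hg => mem_normalizer_inf (hAM hg) (hAUW hg)) with h | h
  · exfalso
    have hd' : U ⊓ (W ⊔ M) = ⊥ := by
      rw [eq_bot_iff]
      rintro x ⟨hxU, hx⟩
      obtain ⟨w, hw, m, hm, rfl⟩ := exists_decomp hVab hWV hMV hx
      have hm' : m ∈ M ⊓ (U ⊔ W) := ⟨hm, by
        have := (U ⊔ W).mul_mem ((U ⊔ W).inv_mem (Subgroup.mem_sup_right hw)) (Subgroup.mem_sup_left hxU)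
        rwa [inv_mul_cancel_left] at this⟩
      rw [h, Subgroup.mem_bot] at hm'
      rw [hm', mul_one] at hxU ⊢
      rw [← hd]; exact ⟨hxU, hw⟩
    have hle : W ⊔ M ≤ W := hmax ⟨sup_le hWV hMV, fun g hg => mem_normalizer_sup (hAW hg) (hAM hg), hd'⟩ le_sup_left
    have hMle : M ≤ M ⊓ (U ⊔ W) := le_inf le_rfl ((le_sup_right.trans hle).trans le_sup_right)
    exact hM (le_bot_iff.1 (h ▸ hMle))
  · exact h.ge.trans inf_le_right

end Cfsg.Agent.S3735
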