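import Cfsg.Statements.S3737
import Mathlib
import Cfsg.Agent.S3736
-- import your own Cfsg.Agent.* helpers here

set_option autoImplicit false
open Cfsg
open scoped commutatorElement

namespace Cfsg.Agent.S3737

open Subgroup

universe u

/-- A halved group of class two, used to linearize a `p`-group. -/
structure Half (U : Type u) (k : ℕ) where
  val : U

namespace Half

variable {U : Type u} [Group U] {k : ℕ}

/-- Class two with commutators killed by `2 * k - 1`. -/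
def Ok (U : Type u) [Group U] (k : ℕ) : Prop :=
  ∀ a b : U, ⁅a, b⁆ ∈ Subgroup.center U ∧ ⁅a, b⁆ ^ k * ⁅a, b⁆ ^ k = ⁅a, b⁆

@[ext] theorem ext' {x y : Half U k} (h : x.val = y.val) : x = y := by
  cases x; cases y; cases h; rfl

instance [Finite U] : Finite (Half U k) := Finite.of_injective (fun x => x.val) fun _ _ h => ext' h

theorem comm_mul (h : Ok U k) (a b c : U) : ⁅a * b, c⁆ = ⁅a, c⁆ * ⁅b, c⁆ ∧ ⁅c, a * b⁆ = ⁅c, a⁆ * ⁅c, b⁆ := by
  have hb : ∀ x y z : U, z * ⁅x, y⁆ = ⁅x, y⁆ * z := fun x y z => Subgroup.mem_center_iff.1 (h x y).1 z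
  constructor
  · rw [show ⁅a * b, c⁆ = a * ⁅b, c⁆ * a⁻¹ * ⁅a, c⁆ by simp only [commutatorElement_def]; group,
      hb b c a, mul_inv_cancel_right, hb a c]
  · rw [show ⁅c, a * b⁆ = ⁅c, a⁆ * (a * ⁅c, b⁆ * a⁻¹) by simp only [commutatorElement_def]; group,
      hb c b a, mul_inv_cancel_right]

theorem comm_central (h : Ok U k) {z : U} (hz : z ∈ Subgroup.center U) (b : U) : ⁅z, b⁆ = 1 ∧ ⁅b, z⁆ = 1 :=
  ⟨commutatorElement_eq_one_iff_mul_comm.2 (Subgroup.mem_center_iff.1 hz b).symm,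
    commutatorElement_eq_one_iff_mul_comm.2 (Subgroup.mem_center_iff.1 hz b)⟩

instance instCommGroup [hf : Fact (Ok U k)] : CommGroup (Half U k) where
  mul x y := ⟨x.val * y.val * ⁅y.val, x.val⁆ ^ k⟩
  one := ⟨1⟩
  inv x := ⟨x.val⁻¹⟩
  one_mul x := ext' (show 1 * x.val * ⁅x.val, (1 : U)⁆ ^ k = x.val by simp)
  mul_one x := ext' (show x.val * 1 * ⁅(1 : U), x.val⁆ ^ k = x.val by simp)
  inv_mul_cancel x := ext' (show x.val⁻¹ * x.val * ⁅x.val, x.val⁻¹⁆ ^ k = 1 by
    rw [show ⁅x.val, x.val⁻¹⁆ = 1 from commutatorElement_eq_one_iff_commute.2 (Commute.refl _).inv_right]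
    simp)
  mul_assoc x y z := ext' (by
    have h := hf.out
    show x.val * y.val * ⁅y.val, x.val⁆ ^ k * z.val * ⁅z.val, x.val * y.val * ⁅y.val, x.val⁆ ^ k⁆ ^ k =
      x.val * (y.val * z.val * ⁅z.val, y.val⁆ ^ k) * ⁅y.val * z.val * ⁅z.val, y.val⁆ ^ k, x.val⁆ ^ k
    set a := x.val
    set b := y.val
    set c := z.val
    have hc1 : ∀ u v w : U, w * ⁅u, v⁆ ^ k = ⁅u, v⁆ ^ k * w := fun u v w =>
      Subgroup.mem_center_iff.1 (pow_mem (h u v).1 k) w
    have e1 : ⁅c, a * b * ⁅b, a⁆ ^ k⁆ = ⁅c, a⁆ * ⁅c, b⁆ := by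
      rw [(comm_mul h (a * b) (⁅b, a⁆ ^ k) c).2, (comm_central h (pow_mem (h b a).1 k) c).2, mul_one,
        (comm_mul h a b c).2]
    have e2 : ⁅b * c * ⁅c, b⁆ ^ k, a⁆ = ⁅b, a⁆ * ⁅c, a⁆ := by
      rw [(comm_mul h (b * c) (⁅c, b⁆ ^ k) a).1, (comm_central h (pow_mem (h c b).1 k) a).1, mul_one,
        (comm_mul h b c a).1]
    rw [e1, e2, (show Commute ⁅c, a⁆ ⁅c, b⁆ from Subgroup.mem_center_iff.1 (h c b).1 _).mul_pow,
      (show Commute ⁅b, a⁆ ⁅c, a⁆ from Subgroup.mem_center_iff.1 (h c a).1 _).mul_pow]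
    calc a * b * ⁅b, a⁆ ^ k * c * (⁅c, a⁆ ^ k * ⁅c, b⁆ ^ k)
        = a * b * (⁅b, a⁆ ^ k * c) * (⁅c, a⁆ ^ k * ⁅c, b⁆ ^ k) := by group
      _ = a * b * c * (⁅b, a⁆ ^ k * (⁅c, a⁆ ^ k * ⁅c, b⁆ ^ k)) := by rw [← hc1 b a c]; group
      _ = a * b * c * ((⁅b, a⁆ ^ k * ⁅c, a⁆ ^ k) * ⁅c, b⁆ ^ k) := by group
      _ = a * b * c * (⁅c, b⁆ ^ k * (⁅b, a⁆ ^ k * ⁅c, a⁆ ^ k)) := by rw [hc1 c b]
      _ = _ := by group)
  mul_comm x y := ext' (by
    have h := hf.out
    show x.val * y.val * ⁅y.val, x.val⁆ ^ k = y.val * x.val * ⁅x.val, y.val⁆ ^ k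
    set a := x.val
    set b := y.val
    have e : a * b = ⁅a, b⁆ * (b * a) := by rw [commutatorElement_def]; group
    rw [e, ← commutatorElement_inv a b, inv_pow, ← Subgroup.mem_center_iff.1 (h a b).1 (b * a), mul_assoc]
    congr 1
    rw [mul_inv_eq_iff_eq_mul]
    exact (h a b).2.symm)

theorem mul_val [Fact (Ok U k)] (x y : Half U k) : (x * y).val = x.val * y.val * ⁅y.val, x.val⁆ ^ k := rfl

theorem pow_val [Fact (Ok U k)] (x : Half U k) (n : ℕ) : (x ^ n).val = x.val ^ n := by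
  induction n with
  | zero => rw [pow_zero, pow_zero]; rfl
  | succ n ih =>
    rw [pow_succ, mul_val, ih, show ⁅x.val, x.val ^ n⁆ = 1 from
      commutatorElement_eq_one_iff_commute.2 (Commute.self_pow _ n), one_pow, mul_one, pow_succ]

/-- Automorphisms act on the halved group. -/
def lift [Fact (Ok U k)] (φ : MulAut U) : Half U k →* Half U k :=
  MonoidHom.mk' (fun x => ⟨φ x.val⟩) (fun x y => ext' (by
    show φ (x * y).val = φ x.val * φ y.val * ⁅φ y.val, φ x.val⁆ ^ k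
    rw [mul_val, map_mul, map_mul, map_pow, map_commutatorElement]))

theorem lift_apply [Fact (Ok U k)] (φ : MulAut U) (x : Half U k) : (lift φ x).val = φ x.val := rfl

end Half


/-- Thompson's strengthening of the P × Q lemma for odd primes. Let p be an odd prime and let P, Q and G be subgroups of a finite group with P a p-group, Q of order prime to p and normalized by P, and G a p-group normalized by both P and Q. If every element of G centralized by P is centralized by Q, then Q centralizes G. -/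
theorem result {X : Type*} [Group X] [Finite X] {p : ℕ} [Fact p.Prime] (hp : p ≠ 2) (P Q G : Subgroup X) (hP : IsPGroup p P) (hQ : (Nat.card Q).Coprime p) (hPQ : P ≤ Subgroup.normalizer (Q : Set X)) (hG : IsPGroup p G) (hPG : P ≤ Subgroup.normalizer (G : Set X)) (hQG : Q ≤ Subgroup.normalizer (G : Set X)) (hC : G ⊓ Subgroup.centralizer (P : Set X) ≤ Subgroup.centralizer (Q : Set X)) : Q ≤ Subgroup.centralizer (G : Set X) := by
  classical
  have hpp := (Fact.out : p.Prime)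
  by_contra hnot
  set B := P ⊔ Q with hB
  have hQB : B ≤ Subgroup.normalizer (Q : Set X) := sup_le hPQ Subgroup.le_normalizer
  have hne : ⁅G, Q⁆ ≠ ⊥ := fun h => hnot (Subgroup.commutator_eq_bot_iff_le_centralizer.1 (by
    rwa [Subgroup.commutator_comm] at h))
  obtain ⟨U, ⟨hUG, hBU, hUne⟩, hUmin⟩ :=
    {U : Subgroup X | U ≤ G ∧ B ≤ Subgroup.normalizer (U : Set X) ∧ ⁅U, Q⁆ ≠ ⊥}.toFinite.exists_minimal
      ⟨G, le_rfl, sup_le hPG hQG, hne⟩
  have hU := hG.to_le hUG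
  obtain ⟨hUQ, hspec, -, hexp⟩ := Cfsg.Agent.S3736.result B Q U hU hBU le_sup_right hQB hQ hUne
    (fun V hV hBV => by
      by_contra hVne
      exact hV.not_ge (hUmin ⟨hV.le.trans hUG, hBV, hVne⟩ hV.le))
  have hexp' : ∀ x : ↥U, x ^ p = 1 := fun x => Subtype.ext (hexp hp x x.2)
  set k := (p + 1) / 2 with hk
  have hk2 : k + k = p + 1 := by
    have := hpp.odd_of_ne_two hp
    obtain ⟨j, hj⟩ := this
    omega
  haveI hok : Fact (Half.Ok (↥U) k) := ⟨fun a b => ⟨by
    rcases hspec with he | hs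
    · haveI := he.1
      rw [commutatorElement_eq_one_iff_mul_comm.2 (mul_comm' a b)]
      exact one_mem _
    · rw [← hs.2.2]
      exact Subgroup.commutator_mem_commutator (Subgroup.mem_top a) (Subgroup.mem_top b),
    by rw [← pow_add, hk2, pow_succ, hexp', one_mul]⟩⟩
  have hUP : P ≤ Subgroup.normalizer (U : Set X) := le_sup_left.trans hBU
  have hUQn : Q ≤ Subgroup.normalizer (U : Set X) := le_sup_right.trans hBU
  haveI := Fintype.ofFinite ↥Q
  let act : ↥(Subgroup.normalizer (U : Set X)) → Half (↥U) k →* Half (↥U) k := fun g => Half.lift (U.normalizerMonoidHom g)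
  have hact : ∀ g x, ((act g x).val : X) = (g : X) * (x.val : X) * (g : X)⁻¹ := fun g x => rfl
  let E : Half (↥U) k →* Half (↥U) k := ∏ c : ↥Q, act ⟨c, hUQn c.2⟩
  have hE : ∀ x, E x = ∏ c : ↥Q, act ⟨c, hUQn c.2⟩ x := fun x => by simp [E, MonoidHom.finsetProd_apply]
  have hQinv : ∀ (d : ↥Q) x, E (act ⟨d, hUQn d.2⟩ x) = E x := fun d x => by
    rw [hE, hE]
    refine Fintype.prod_equiv (Equiv.mulRight d) _ _ fun c => Half.ext' (Subtype.ext ?_)
    simp only [hact, Equiv.coe_mulRight, Subgroup.coe_mul]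
    group
  have hPeq : ∀ g, ∀ hg : g ∈ P, ∀ x, E (act ⟨g, hUP hg⟩ x) = act ⟨g, hUP hg⟩ (E x) := fun g hg x => by
    rw [hE, hE, map_prod]
    have hgQ := Subgroup.mem_normalizer_iff.1 (hPQ hg)
    let e : ↥Q ≃ ↥Q :=
      { toFun := fun c => ⟨g⁻¹ * c * g, (hgQ _).2 (by simp [mul_assoc])⟩
        invFun := fun c => ⟨g * c * g⁻¹, (hgQ _).1 c.2⟩
        left_inv := fun c => Subtype.ext (by simp [mul_assoc])
        right_inv := fun c => Subtype.ext (by simp [mul_assoc]) }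
    refine Fintype.prod_equiv e _ _ fun c => Half.ext' (Subtype.ext ?_)
    simp only [hact, e, Equiv.coe_fn_mk]
    group
  -- fixed points of `P` are fixed by `Q`
  have hinj : Function.Injective E := by
    rw [← MonoidHom.ker_eq_bot_iff]
    by_contra hker
    haveI : Finite ↥(MonoidHom.ker E) := inferInstance
    letI : MulAction ↥P ↥(MonoidHom.ker E) :=
      { smul := fun g x => ⟨act ⟨g, hUP g.2⟩ x, by
          rw [MonoidHom.mem_ker, hPeq _ g.2, MonoidHom.mem_ker.1 x.2, map_one]⟩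
        one_smul := fun x => Subtype.ext (Half.ext' (Subtype.ext (by
          show ((1 : ↥P) : X) * (x.1.val : X) * ((1 : ↥P) : X)⁻¹ = (x.1.val : X)
          simp)))
        mul_smul := fun g h x => Subtype.ext (Half.ext' (Subtype.ext (by
          show ((g * h : ↥P) : X) * (x.1.val : X) * ((g * h : ↥P) : X)⁻¹ =
            (g : X) * ((h : X) * (x.1.val : X) * (h : X)⁻¹) * (g : X)⁻¹
          rw [Subgroup.coe_mul]; group))) }
    have hpg : IsPGroup p (Half (↥U) k) := fun x => ⟨1, Half.ext' (by rw [Half.pow_val, pow_one, hexp']; rfl)⟩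
    have hdvd : p ∣ Nat.card ↥(MonoidHom.ker E) := by
      obtain ⟨n, hn⟩ := IsPGroup.iff_card.1 (hpg.to_subgroup (MonoidHom.ker E))
      rcases n with _ | n
      · exact absurd (Subgroup.eq_bot_of_card_eq _ (by rw [hn, pow_zero])) hker
      · exact hn ▸ dvd_pow_self p (Nat.succ_ne_zero n)
    have hfix1 : (1 : ↥(MonoidHom.ker E)) ∈ MulAction.fixedPoints ↥P ↥(MonoidHom.ker E) := fun g =>
      Subtype.ext (map_one (act ⟨g, hUP g.2⟩))
    obtain ⟨b, hb, hb1⟩ := hP.exists_fixed_point_of_prime_dvd_card_of_fixed_point _ hdvd hfix1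
    have hbC : (b.1.val : X) ∈ Subgroup.centralizer (P : Set X) := by
      rw [Subgroup.mem_centralizer_iff]
      intro g hg
      have h := congrArg (fun y : ↥(MonoidHom.ker E) => (y.1.val : X)) (hb ⟨g, hg⟩)
      exact mul_inv_eq_iff_eq_mul.1 (show g * (b.1.val : X) * g⁻¹ = (b.1.val : X) from h)
    have hbQ := hC ⟨hUG b.1.val.2, hbC⟩
    have h2 : E b.1 = b.1 ^ Fintype.card ↥Q := by
      rw [hE, Finset.prod_congr rfl (fun (c : ↥Q) _ => show act ⟨c, hUQn c.2⟩ b.1 = b.1 from Half.ext' (Subtype.ext (by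
        rw [hact, Subgroup.mem_centralizer_iff.1 hbQ c c.2, mul_inv_cancel_right]))), Finset.prod_const, Finset.card_univ]
    rw [MonoidHom.mem_ker.1 b.2] at h2
    refine hb1 (Subtype.ext (orderOf_eq_one_iff.1 (Nat.eq_one_of_dvd_coprimes hQ ?_ ?_)).symm)
    · rw [← Fintype.card_eq_nat_card]; exact orderOf_dvd_of_pow_eq_one h2.symm
    · exact orderOf_dvd_of_pow_eq_one (Half.ext' (by rw [Half.pow_val, hexp']; rfl))
  apply hUne
  rw [Subgroup.commutator_eq_bot_iff_le_centralizer]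
  intro u hu
  rw [Subgroup.mem_centralizer_iff]
  intro c hc
  have h := hinj (hQinv ⟨c, hc⟩ ⟨⟨u, hu⟩⟩)
  exact mul_inv_eq_iff_eq_mul.1 (congrArg (fun y : Half (↥U) k => (y.val : X)) h : c * u * c⁻¹ = u)

end Cfsg.Agent.S3737
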