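import Cfsg.Statements.S3738
import Cfsg.Agent.Lib.Transfer.Critical
import Cfsg.Agent.Lib.Solv.PGroupBasic
-- import your own Cfsg.Agent.* helpers here

set_option autoImplicit false
open Cfsg
open scoped Pointwise commutatorElement

namespace Cfsg.Agent.S3738

theorem eq_one_of_two_three {C : Type*} [Group C] (hC : IsPGroup 2 C) {t : C} {k : ℕ} (h : t ^ (3 ^ k) = 1) : t = 1 := by
  obtain ⟨j, hj⟩ := hC t
  refine orderOf_eq_one_iff.1 (Nat.eq_one_of_dvd_coprimes ?_ (orderOf_dvd_of_pow_eq_one hj) (orderOf_dvd_of_pow_eq_one h))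
  exact Nat.Coprime.pow _ _ (by norm_num)

theorem translate_pow {C : Type*} [Group C] (g : MulAut C) {x t : C} (hx : g x = x * t) (ht : g t = t) :
    ∀ k : ℕ, (g ^ k) x = x * t ^ k := by
  intro k
  induction k with
  | zero => simp
  | succ k ih => rw [pow_succ' g, MulAut.mul_apply, ih, map_mul, hx, map_pow, ht, mul_assoc, ← pow_succ']

theorem eq_of_translate {C : Type*} [Group C] (hC : IsPGroup 2 C) (g : MulAut C) {m : ℕ} (hg : g ^ (3 ^ m) = 1)
    {x : C} (ht : g (x⁻¹ * g x) = x⁻¹ * g x) : g x = x := by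
  have h := translate_pow g (x := x) (t := x⁻¹ * g x) (by rw [mul_inv_cancel_left]) ht (3 ^ m)
  rw [hg, MulAut.one_apply, left_eq_mul] at h
  exact (inv_mul_eq_one.1 (eq_one_of_two_three hC h)).symm

theorem character_sum_dvd {W : Type*} [Group W] [Fintype W] (hW : 32 ∣ Fintype.card W) (f : W → ℤ)
    (hsq : ∀ w, f w * f w = 1) (hbil : ∀ u v h, f (u * v * h) * f (u * v) * f h = f (u * h) * f u * f h * (f (v * h) * f v * f h)) :
    (8 : ℤ) ∣ ∑ w, f w := by
  classical
  have key : ∀ h, ((32 : ℤ) ∣ ∑ w, f (w * h) * f w * f h) := by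
    intro h
    by_cases h1 : ∀ v, f (v * h) * f v * f h = 1
    · rw [Finset.sum_congr rfl fun w _ => h1 w, Finset.sum_const, Finset.card_univ, nsmul_one]
      exact_mod_cast hW
    · push_neg at h1
      obtain ⟨v, hv⟩ := h1
      have h2 : ∑ w, f (w * h) * f w * f h = (∑ w, f (w * h) * f w * f h) * (f (v * h) * f v * f h) := by
        rw [Finset.sum_mul]
        conv_lhs => rw [← Equiv.sum_comp (Equiv.mulRight v) (fun w => f (w * h) * f w * f h)]
        exact Finset.sum_congr rfl fun w _ => hbil w v h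
      have h3 : (∑ w, f (w * h) * f w * f h) * (1 - f (v * h) * f v * f h) = 0 := by linear_combination h2
      rcases mul_eq_zero.1 h3 with h4 | h4
      · rw [h4]; exact dvd_zero _
      · exact absurd (by linear_combination -h4) hv
  have hsum : (∑ w, f w) * (∑ w, f w) = ∑ h, f h * ∑ w, f (w * h) * f w * f h := by
    rw [Finset.sum_mul_sum]
    simp_rw [Finset.mul_sum]
    conv_rhs => rw [Finset.sum_comm]
    refine Finset.sum_congr rfl fun w _ => ?_
    rw [← Equiv.sum_comp (Equiv.mulLeft w) (fun y => f w * f y)]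
    refine Finset.sum_congr rfl fun h _ => ?_
    show f w * f (w * h) = _
    linear_combination (-(f w * f (w * h))) * hsq h
  have h32 : (32 : ℤ) ∣ (∑ w, f w) * (∑ w, f w) := by
    rw [hsum]; exact Finset.dvd_sum fun h _ => (key h).mul_left _
  generalize (∑ w, f w) = S at h32 ⊢
  obtain ⟨a, rfl⟩ : (2 : ℤ) ∣ S := (Int.prime_two.dvd_or_dvd ((show (2 : ℤ) ∣ 32 by norm_num).trans h32)).elim id id
  have h8 : (8 : ℤ) ∣ a * a := by obtain ⟨k, hk⟩ := h32; exact ⟨k, by linarith⟩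
  obtain ⟨b, rfl⟩ : (2 : ℤ) ∣ a := (Int.prime_two.dvd_or_dvd ((show (2 : ℤ) ∣ 8 by norm_num).trans h8)).elim id id
  have h2 : (2 : ℤ) ∣ b * b := by obtain ⟨k, hk⟩ := h8; exact ⟨k, by linarith⟩
  obtain ⟨c, rfl⟩ : (2 : ℤ) ∣ b := (Int.prime_two.dvd_or_dvd h2).elim id id
  exact ⟨c, by ring⟩

theorem even_zeros {W U : Type*} [Group W] [Fintype W] [CommGroup U] [Fintype U] [DecidableEq U]
    (hW : 32 ∣ Fintype.card W) (hU : Fintype.card U = 4) (hexp : ∀ u : U, u * u = 1)
    (q : W → U) (hq : ∀ u v h, q (u * v * h) * q (u * v) * q h = q (u * h) * q u * q h * (q (v * h) * q v * q h)) :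
    Even (Finset.univ.filter fun w => q w = 1).card := by
  classical
  let χ : U → U → ℤ := fun a u => if u ∈ Subgroup.zpowers a then 1 else -1
  have hind : ∀ u : U, (∑ a ∈ Finset.univ.erase (1 : U), χ a u) + 1 = if u = 1 then 4 else 0 := by
    intro u
    have hmem : ∀ a, u ∈ Subgroup.zpowers a ↔ u = 1 ∨ u = a := by
      intro a
      constructor
      · rintro ⟨k, rfl⟩
        show a ^ k = 1 ∨ a ^ k = a
        rcases Int.even_or_odd' k with ⟨j, rfl | rfl⟩
        · left; rw [zpow_mul, zpow_two, hexp, one_zpow]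
        · right; rw [zpow_add, zpow_mul, zpow_two, hexp, one_zpow, zpow_one, one_mul]
      · rintro (rfl | rfl)
        exacts [Subgroup.one_mem _, Subgroup.mem_zpowers _]
    by_cases hu : u = 1
    · subst hu
      rw [if_pos rfl, Finset.sum_congr rfl (fun a _ => show χ a 1 = 1 from if_pos (Subgroup.one_mem _)),
        Finset.sum_const, Finset.card_erase_of_mem (Finset.mem_univ _), Finset.card_univ, hU]
      norm_num
    · rw [if_neg hu, ← Finset.add_sum_erase _ _ (Finset.mem_erase.2 ⟨hu, Finset.mem_univ u⟩),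
        show χ u u = 1 from if_pos (Subgroup.mem_zpowers u),
        Finset.sum_congr rfl (fun a ha => show χ a u = -1 from if_neg (fun h => by
          rcases (hmem a).1 h with h | h
          · exact hu h
          · exact (Finset.mem_erase.1 ha).1 h.symm)),
        Finset.sum_const, Finset.card_erase_of_mem (Finset.mem_erase.2 ⟨hu, Finset.mem_univ u⟩),
        Finset.card_erase_of_mem (Finset.mem_univ _), Finset.card_univ, hU]
      norm_num
  have hmul : ∀ a ∈ Finset.univ.erase (1 : U), ∀ u v, χ a (u * v) = χ a u * χ a v := by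
    intro a ha u v
    have hidx : (Subgroup.zpowers a).index = 2 := by
      have h1 := (Subgroup.zpowers a).card_mul_index
      rw [Nat.card_zpowers, orderOf_eq_prime (by rw [pow_two]; exact hexp a) (Finset.mem_erase.1 ha).1,
        Nat.card_eq_fintype_card, hU] at h1
      omega
    have := Subgroup.mul_mem_iff_of_index_two hidx (a := u) (b := v)
    by_cases hu : u ∈ Subgroup.zpowers a <;> by_cases hv : v ∈ Subgroup.zpowers a <;> simp [χ, hu, hv, this]
  have hS : ∀ a ∈ Finset.univ.erase (1 : U), (8 : ℤ) ∣ ∑ w, χ a (q w) := fun a ha =>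
    character_sum_dvd hW (fun w => χ a (q w)) (fun w => by simp only [χ]; split <;> norm_num) fun u v h => by
      simp only [← hmul a ha, hq u v h]
  have htot : (∑ w, ((∑ a ∈ Finset.univ.erase (1 : U), χ a (q w)) + 1)) =
      4 * ((Finset.univ.filter fun w => q w = 1).card : ℤ) := by
    rw [Finset.sum_congr rfl fun w _ => hind (q w), ← Finset.sum_filter, Finset.sum_const, nsmul_eq_mul, mul_comm]
  rw [Finset.sum_add_distrib, Finset.sum_comm, Finset.sum_const, Finset.card_univ, nsmul_one] at htot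
  obtain ⟨k, hk⟩ := hW
  obtain ⟨j, hj⟩ := Finset.dvd_sum hS
  rw [hj, hk] at htot
  rw [even_iff_two_dvd]
  have : (2 : ℤ) ∣ ((Finset.univ.filter fun w => q w = 1).card : ℤ) := ⟨j + 4 * k, by push_cast at htot; linarith⟩
  exact_mod_cast this

theorem orbit_bound {W : Type*} [Group W] [Finite W] (g : MulAut W) (hg : g ^ 9 = 1) (w : W) (hw : (g ^ 3) w ≠ w)
    {a : ℕ} (ha : Nat.card W = 2 ^ a) : 32 ∣ Nat.card W := by
  classical
  haveI := Fintype.ofFinite W
  rw [ha]
  by_contra hlt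
  have ha4 : a ≤ 4 := by
    by_contra h
    exact hlt (dvd_trans (by norm_num) (pow_dvd_pow 2 (show 5 ≤ a by omega)))
  let F : Subgroup W := (g ^ 3).toMonoidHom.eqLocus (MonoidHom.id W)
  have hinj : ∀ x, (g ^ 3) x ≠ x → ∀ i < 9, ∀ j < 9, (g ^ i) x = (g ^ j) x → i = j := by
    intro x hx i hi j hj he
    by_contra hne
    wlog hij : i < j generalizing i j
    · exact this j hj i hi he.symm (Ne.symm hne) (by omega)
    have h1 : (g ^ (j - i)) x = x := by
      apply (g ^ i).injective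
      rw [← MulAut.mul_apply, ← pow_add, Nat.add_sub_cancel' hij.le, he]
    have h2 : ∀ m, ((g ^ (j - i)) ^ m) x = x := by
      intro m
      induction m with
      | zero => rfl
      | succ m ih => rw [pow_succ, MulAut.mul_apply, h1, ih]
    refine hx ?_
    obtain ⟨m, hm⟩ : ∃ m, (j - i) * m % 9 = 3 := by
      have : j - i < 9 := by omega
      have : 0 < j - i := by omega
      interval_cases (j - i)
      exacts [⟨3, rfl⟩, ⟨6, rfl⟩, ⟨1, rfl⟩, ⟨3, rfl⟩, ⟨6, rfl⟩, ⟨2, rfl⟩, ⟨3, rfl⟩, ⟨6, rfl⟩]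
    have h3 := h2 m
    rw [← pow_mul, ← Nat.mod_add_div ((j - i) * m) 9, hm, pow_add, pow_mul, hg, one_pow, mul_one] at h3
    exact h3
  let O : W → Finset W := fun x => (Finset.range 9).image fun i => (g ^ i) x
  have hO : ∀ x, (g ^ 3) x ≠ x → (O x).card = 9 ∧ ∀ y ∈ O x, (g ^ 3) y ≠ y := by
    intro x hx
    refine ⟨?_, ?_⟩
    · rw [Finset.card_image_of_injOn, Finset.card_range]
      intro i hi j hj he
      exact hinj x hx i (Finset.mem_range.1 hi) j (Finset.mem_range.1 hj) he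
    · intro y hy
      obtain ⟨i, -, rfl⟩ := Finset.mem_image.1 hy
      intro he
      refine hx ((g ^ i).injective ?_)
      rw [← MulAut.mul_apply, ← pow_add, add_comm, pow_add, MulAut.mul_apply, he]
  have hsub : ∀ x, (g ^ 3) x ≠ x → x ∈ O w := by
    intro x hx
    by_contra hxO
    have hdisj : Disjoint (O w) (O x) := by
      rw [Finset.disjoint_left]
      intro y hy hy'
      obtain ⟨i, hi, rfl⟩ := Finset.mem_image.1 hy
      obtain ⟨j, hj, he⟩ := Finset.mem_image.1 hy'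
      rw [Finset.mem_range] at hi hj
      refine hxO (Finset.mem_image.2 ⟨(i + (9 - j)) % 9, Finset.mem_range.2 (Nat.mod_lt _ (by norm_num)), ?_⟩)
      apply (g ^ j).injective
      show (g ^ j) ((g ^ ((i + (9 - j)) % 9)) w) = (g ^ j) x
      rw [he, ← MulAut.mul_apply, ← pow_add]
      have : g ^ (j + (i + (9 - j)) % 9) = g ^ i := pow_eq_pow_of_modEq (by
        show (j + (i + (9 - j)) % 9) % 9 = i % 9
        omega) hg
      rw [this]
    have h1 := Finset.card_le_univ (O w ∪ O x)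
    rw [Finset.card_union_of_disjoint hdisj, (hO w hw).1, (hO x hx).1, ← Nat.card_eq_fintype_card, ha] at h1
    have : 2 ^ a ≤ 2 ^ 4 := Nat.pow_le_pow_right (by norm_num) ha4
    omega
  have hF : Nat.card F + 9 = 2 ^ a := by
    have h1 : (Finset.univ.filter fun x => x ∈ F) = (O w)ᶜ := by
      ext x
      simp only [Finset.mem_filter, Finset.mem_univ, true_and, Finset.mem_compl]
      exact ⟨fun hx hxO => (hO w hw).2 x hxO hx, fun hx => by_contra fun h => hx (hsub x h)⟩
    have h2 : (O w).card ≤ Fintype.card W := Finset.card_le_univ _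
    rw [Nat.card_eq_fintype_card (α := F), Fintype.card_of_subtype _ (fun x => by simp : ∀ x, x ∈ (Finset.univ.filter fun x => x ∈ F) ↔ x ∈ F),
      h1, Finset.card_compl, ← ha, Nat.card_eq_fintype_card]
    rw [(hO w hw).1] at h2 ⊢
    omega
  have hdvd : Nat.card F ∣ 2 ^ a := ha ▸ F.card_subgroup_dvd_card
  obtain ⟨b, -, hb⟩ := (Nat.dvd_prime_pow Nat.prime_two).1 hdvd
  rw [hb] at hF
  have hb4 : b ≤ 4 := by
    by_contra h
    have : 2 ^ 5 ≤ 2 ^ b := Nat.pow_le_pow_right (by norm_num) (by omega)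
    have : 2 ^ a ≤ 2 ^ 4 := Nat.pow_le_pow_right (by norm_num) ha4
    omega
  interval_cases a <;> interval_cases b <;> omega

theorem no_nine {C : Type*} [Group C] [Finite C] (hC : IsPGroup 2 C) (hsq : ∀ x : C, x ^ 2 ∈ Subgroup.center C)
    (hcomm : ∀ x y : C, ⁅x, y⁆ ∈ Subgroup.center C) (hrank : Cfsg.PRankLE 2 2 C)
    (f : MulAut C) (n : ℕ) (hfn : f ^ (3 ^ (n + 2)) = 1) (hfpf : ∀ x, f x = x → x = 1)
    (hc : ∃ x, (f ^ (3 ^ (n + 1))) x ≠ x) : False := by
  classical
  obtain ⟨x0, hx0⟩ := hc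
  haveI : Fact (Nat.Prime 2) := ⟨Nat.prime_two⟩
  set Z := Subgroup.center C with hZdef
  have hZmap : ∀ (g : MulAut C), ∀ z ∈ Z, g z ∈ Z := by
    intro g z hz
    rw [hZdef, Subgroup.mem_center_iff] at hz ⊢
    intro y
    obtain ⟨y, rfl⟩ := g.surjective y
    rw [← map_mul, ← map_mul, hz y]
  let Ω : Subgroup C :=
    { carrier := {z | z ∈ Z ∧ z ^ 2 = 1}
      one_mem' := ⟨Z.one_mem, one_pow 2⟩
      mul_mem' := fun {a b} ha hb => ⟨Z.mul_mem ha.1 hb.1, by
        rw [Commute.mul_pow (Subgroup.mem_center_iff.1 hb.1 a), ha.2, hb.2, one_mul]⟩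
      inv_mem' := fun {a} ha => ⟨Z.inv_mem ha.1, by rw [inv_pow, ha.2, inv_one]⟩ }
  have hΩZ : Ω ≤ Z := fun z hz => hz.1
  have hΩab : IsMulCommutative Ω := ⟨⟨fun a b => Subtype.ext (Subgroup.mem_center_iff.1 b.2.1 a)⟩⟩
  have hΩle : Nat.card Ω ≤ 2 ^ 2 := hrank Ω hΩab fun a ha => ha.2
  norm_num at hΩle
  haveI : Nontrivial C := ⟨⟨_, _, hx0⟩⟩
  obtain ⟨z0, hz0Z, hz0, hz02⟩ : ∃ z ∈ Z, z ≠ 1 ∧ z ^ 2 = 1 := by
    haveI : Nontrivial ↥Z := hC.center_nontrivial
    obtain ⟨z, hz⟩ := exists_prime_orderOf_dvd_card' (G := ↥Z) 2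
      (((hC.to_subgroup Z).card_eq_or_dvd).resolve_left (Finite.one_lt_card (α := ↥Z)).ne')
    refine ⟨z, z.2, fun h => ?_, ?_⟩
    · rw [← Subgroup.orderOf_coe, h, orderOf_one] at hz; omega
    · rw [← Subgroup.coe_pow, ← hz, pow_orderOf_eq_one, Subgroup.coe_one]
  have hz0Ω : z0 ∈ Ω := ⟨hz0Z, hz02⟩
  have hfΩ : ∀ z ∈ Ω, f z ∈ Ω := fun z hz => ⟨hZmap f z hz.1, by rw [← map_pow, hz.2, map_one]⟩
  have hΩlist : ∀ z ∈ Ω, z ≠ 1 → (∀ y ∈ Ω, y = 1 ∨ y = z ∨ y = f z ∨ y = f (f z)) ∧ f (f (f z)) = z ∧ Nat.card Ω = 4 := by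
    intro z hz hz1
    have h1 : f z ≠ z := fun h => hz1 (hfpf z h)
    have h2 : f (f z) ≠ f z := fun h => h1 (f.injective h)
    have h3 : f (f z) ≠ z := by
      intro h
      have h4 : z * f z = 1 := hfpf _ (by rw [map_mul, h]; exact Subgroup.mem_center_iff.1 hz.1 (f z))
      refine h1 ?_
      rw [eq_inv_of_mul_eq_one_right h4, inv_eq_iff_mul_eq_one, ← pow_two, hz.2]
    have hf1 : ∀ y, y ≠ 1 → f y ≠ 1 := fun y hy h => hy (f.injective (h.trans (map_one f).symm))
    have h5 : f z ≠ 1 := hf1 z hz1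
    have h6 : f (f z) ≠ 1 := hf1 _ h5
    let T : Finset C := {1, z, f z, f (f z)}
    have hT : T.card = 4 := by simp [T, Ne.symm hz1, Ne.symm h5, Ne.symm h6, Ne.symm h1, Ne.symm h2, Ne.symm h3]
    haveI := Fintype.ofFinite C
    have hsub : T ⊆ Finset.univ.filter (fun y => y ∈ Ω) := by
      intro y hy
      rw [Finset.mem_filter]
      refine ⟨Finset.mem_univ _, ?_⟩
      simp only [T, Finset.mem_insert, Finset.mem_singleton] at hy
      rcases hy with rfl | rfl | rfl | rfl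
      exacts [Ω.one_mem, hz, hfΩ _ hz, hfΩ _ (hfΩ _ hz)]
    have hcard : (Finset.univ.filter (fun y => y ∈ Ω)).card = Nat.card Ω := by
      rw [Nat.card_eq_fintype_card, Fintype.card_of_subtype]
      simp
    have heq : T = Finset.univ.filter (fun y => y ∈ Ω) := Finset.eq_of_subset_of_card_le hsub (by omega)
    have hlist : ∀ y ∈ Ω, y = 1 ∨ y = z ∨ y = f z ∨ y = f (f z) := by
      intro y hy
      have : y ∈ T := by rw [heq]; simp [hy]
      simpa [T] using this
    refine ⟨hlist, ?_, by rw [← hcard, ← heq, hT]⟩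
    rcases hlist _ (hfΩ _ (hfΩ _ (hfΩ _ hz))) with h | h | h | h
    · exact absurd h (hf1 _ h6)
    · exact h
    · exact absurd (f.injective h) h3
    · exact absurd (f.injective (f.injective h)) h1
  have hΩ4 : Nat.card Ω = 4 := (hΩlist z0 hz0Ω hz0).2.2
  set e := f ^ 3 with hedef
  have heΩ : ∀ z ∈ Ω, e z = z := by
    intro z hz
    rcases eq_or_ne z 1 with rfl | hz1
    · exact map_one e
    · exact (hΩlist z hz hz1).2.1
  have heord : e ^ (3 ^ (n + 1)) = 1 := by rw [hedef, ← pow_mul, ← pow_succ']; exact hfn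
  have heZ : ∀ (k : ℕ), ∀ z ∈ Z, z ^ (2 ^ k) = 1 → e z = z := by
    intro k
    induction k with
    | zero => intro z _ h; rw [pow_zero, pow_one] at h; rw [h, map_one]
    | succ k ih =>
      intro z hz h
      rw [pow_succ', pow_mul] at h
      have h1 := ih (z ^ 2) (Z.pow_mem hz 2) h
      refine eq_of_translate hC e heord (heΩ _ ⟨Z.mul_mem (Z.inv_mem hz) (hZmap e z hz), ?_⟩)
      rw [Commute.mul_pow (Subgroup.mem_center_iff.1 (hZmap e z hz) _), inv_pow, ← map_pow, h1, inv_mul_cancel]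
  have heZ' : ∀ z ∈ Z, e z = z := fun z hz => by
    obtain ⟨k, hk⟩ := hC z
    exact heZ k z hz hk
  set g := f ^ (3 ^ n) with hgdef
  have hg9 : g ^ 9 = 1 := by
    rw [hgdef, ← pow_mul, show 3 ^ n * 9 = 3 ^ (n + 2) by ring]; exact hfn
  have hg3 : g ^ 3 = f ^ (3 ^ (n + 1)) := by rw [hgdef, ← pow_mul, ← pow_succ]
  have hcZ : ∀ z ∈ Z, (g ^ 3) z = z := by
    intro z hz
    rw [hg3, pow_succ', pow_mul, ← hedef]
    generalize 3 ^ n = m
    induction m with
    | zero => rfl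
    | succ m ih => rw [pow_succ, MulAut.mul_apply, heZ' z hz, ih]
  haveI hZn : Z.Normal := by rw [hZdef]; infer_instance
  have hmap : Z.map (g : C →* C) = Z :=
    Subgroup.eq_of_le_of_card_ge (Subgroup.map_le_iff_le_comap.2 (hZmap g))
      (le_of_eq (Subgroup.card_map_of_injective (K := Z) (f := (g : C →* C)) g.injective).symm)
  let gW : MulAut (C ⧸ Z) := QuotientGroup.congr Z Z g hmap
  have hgW : ∀ (i : ℕ) (x : C), (gW ^ i) (x : C ⧸ Z) = ((g ^ i) x : C) := by
    intro i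
    induction i with
    | zero => intro x; rfl
    | succ i ih => intro x; rw [pow_succ', MulAut.mul_apply, ih, pow_succ' g]; rfl
  have hWord : Nat.card (C ⧸ Z) = 2 ^ ((Nat.card (C ⧸ Z)).factorization 2) := by
    obtain ⟨a, ha⟩ := IsPGroup.iff_card.1 (hC.to_quotient Z)
    rw [ha, Nat.Prime.factorization_pow Nat.prime_two, Finsupp.single_eq_same]
  have h32 : 32 ∣ Nat.card (C ⧸ Z) := by
    refine orbit_bound gW ?_ (x0 : C ⧸ Z) ?_ hWord
    · refine MulEquiv.ext fun w => QuotientGroup.induction_on w fun x => ?_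
      rw [hgW, hg9]; rfl
    · rw [hgW, Ne, eq_comm, QuotientGroup.eq]
      intro h
      refine hx0 ?_
      rw [← hg3]
      exact eq_of_translate hC (g ^ 3) (m := 1) (by rw [← pow_mul]; exact hg9) (hcZ _ h)
  -- the squaring map
  letI : CommGroup ↥Z := { (inferInstance : Group ↥Z) with
    mul_comm := fun a b => Subtype.ext (Subgroup.mem_center_iff.1 b.2 a) }
  let sq : ↥Z →* ↥Z := powMonoidHom 2
  have hU4 : Nat.card (↥Z ⧸ sq.range) = 4 := by
    have h1 : Nat.card sq.ker = 4 := by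
      rw [← hΩ4]
      exact Nat.card_congr ⟨fun z => ⟨z.1.1, z.1.2, congrArg Subtype.val z.2⟩,
        fun z => ⟨⟨z.1, z.2.1⟩, Subtype.ext z.2.2⟩, fun z => rfl, fun z => rfl⟩
    have h2 := sq.range.card_mul_index
    have h3 := sq.ker.card_mul_index
    rw [Subgroup.index_ker, h1] at h3
    rw [← Subgroup.index_eq_card]
    have h4 : 0 < Nat.card sq.range := Nat.card_pos
    nlinarith
  let q0 : C → ↥Z ⧸ sq.range := fun x => ((⟨x ^ 2, hsq x⟩ : ↥Z) : ↥Z ⧸ sq.range)
  have hk : ∀ x y : C, y⁻¹ * x⁻¹ * y * x ∈ Z := fun x y => by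
    have := hcomm y⁻¹ x⁻¹
    rwa [commutatorElement_def, inv_inv, inv_inv] at this
  have hq0mul : ∀ x y, q0 (x * y) = q0 x * q0 y * ((⟨_, hk x y⟩ : ↥Z) : ↥Z ⧸ sq.range) := by
    intro x y
    show ((⟨_, _⟩ : ↥Z) : ↥Z ⧸ sq.range) = _
    rw [← QuotientGroup.mk_mul, ← QuotientGroup.mk_mul]
    refine congrArg _ (Subtype.ext ?_)
    show (x * y) ^ 2 = x ^ 2 * y ^ 2 * (y⁻¹ * x⁻¹ * y * x)
    rw [mul_assoc (x ^ 2), Subgroup.mem_center_iff.1 (hk x y) (y ^ 2)]
    have h1 := Subgroup.mem_center_iff.1 (hk x y) y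
    calc (x * y) ^ 2 = x * x * (y * (y⁻¹ * x⁻¹ * y * x)) * y := by rw [pow_two]; group
      _ = x * x * ((y⁻¹ * x⁻¹ * y * x) * y) * y := by rw [h1]
      _ = x ^ 2 * (y⁻¹ * x⁻¹ * y * x * y ^ 2) := by rw [pow_two, pow_two]; simp only [mul_assoc]
  have hq0Z : ∀ x z, z ∈ Z → q0 (x * z) = q0 x := by
    intro x z hz
    rw [hq0mul, mul_assoc, mul_eq_left, ← QuotientGroup.mk_mul, QuotientGroup.eq_one_iff]
    refine ⟨⟨z, hz⟩, Subtype.ext ?_⟩
    show z ^ 2 = z ^ 2 * (z⁻¹ * x⁻¹ * z * x)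
    rw [left_eq_mul, mul_assoc z⁻¹, Subgroup.mem_center_iff.1 hz x⁻¹, mul_assoc]
    group
  let qW : C ⧸ Z → ↥Z ⧸ sq.range := fun w => Quotient.liftOn' w q0 fun x y hxy => by
    have h1 : x⁻¹ * y ∈ Z := QuotientGroup.leftRel_apply.1 hxy
    rw [← hq0Z x _ h1, mul_inv_cancel_left]
  have hexp : ∀ u : ↥Z ⧸ sq.range, u * u = 1 := by
    intro u
    refine QuotientGroup.induction_on u fun z => ?_
    rw [← QuotientGroup.mk_mul, QuotientGroup.eq_one_iff]
    exact ⟨z, pow_two z⟩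
  have hk3 : ∀ x x' y : C, y⁻¹ * (x * x')⁻¹ * y * (x * x') = (y⁻¹ * x⁻¹ * y * x) * (y⁻¹ * x'⁻¹ * y * x') := by
    intro x x' y
    calc y⁻¹ * (x * x')⁻¹ * y * (x * x') = (y⁻¹ * x'⁻¹ * y) * (y⁻¹ * x⁻¹ * y * x) * x' := by group
      _ = (y⁻¹ * x⁻¹ * y * x) * (y⁻¹ * x'⁻¹ * y) * x' := by rw [Subgroup.mem_center_iff.1 (hk x y)]
      _ = (y⁻¹ * x⁻¹ * y * x) * (y⁻¹ * x'⁻¹ * y * x') := by group
  have hbil : ∀ u v h, qW (u * v * h) * qW (u * v) * qW h = qW (u * h) * qW u * qW h * (qW (v * h) * qW v * qW h) := by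
    intro u v h
    refine QuotientGroup.induction_on u fun x => QuotientGroup.induction_on v fun y => QuotientGroup.induction_on h fun t => ?_
    show q0 (x * y * t) * q0 (x * y) * q0 t = q0 (x * t) * q0 x * q0 t * (q0 (y * t) * q0 y * q0 t)
    rw [hq0mul (x * y) t, hq0mul x t, hq0mul y t,
      show (⟨_, hk (x * y) t⟩ : ↥Z) = ⟨_, hk x t⟩ * ⟨_, hk y t⟩ from Subtype.ext (hk3 x y t), QuotientGroup.mk_mul]
    generalize q0 (x * y) = A, q0 x = B, q0 y = D, q0 t = T
    generalize ((⟨_, hk x t⟩ : ↥Z) : ↥Z ⧸ sq.range) = K₁, ((⟨_, hk y t⟩ : ↥Z) : ↥Z ⧸ sq.range) = K₂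
    rw [show A * T * (K₁ * K₂) * A * T = (A * A) * (T * T) * (K₁ * K₂) by ac_rfl,
      show B * T * K₁ * B * T * (D * T * K₂ * D * T) = (B * B) * (T * T) * ((D * D) * (T * T)) * (K₁ * K₂) by ac_rfl,
      hexp A, hexp B, hexp D, hexp T]; simp only [one_mul]
  haveI := Fintype.ofFinite (C ⧸ Z)
  haveI := Fintype.ofFinite (↥Z ⧸ sq.range)
  have heven := even_zeros (by rwa [← Nat.card_eq_fintype_card]) (by rwa [← Nat.card_eq_fintype_card]) hexp qW hbil
  have h1 : (1 : C ⧸ Z) ∈ Finset.univ.filter (fun w => qW w = 1) := by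
    rw [Finset.mem_filter]
    refine ⟨Finset.mem_univ _, ?_⟩
    show q0 1 = 1
    rw [← QuotientGroup.mk_one]
    exact congrArg _ (Subtype.ext (one_pow 2))
  obtain ⟨w, hw, hw1⟩ := Finset.exists_mem_ne (s := Finset.univ.filter (fun w => qW w = 1))
    (by
      obtain ⟨k, hk⟩ := heven
      have := Finset.card_pos.2 ⟨_, h1⟩
      omega) 1
  obtain ⟨x, rfl⟩ := QuotientGroup.mk_surjective w
  obtain ⟨v, hv⟩ := (QuotientGroup.eq_one_iff _).1 (Finset.mem_filter.1 hw).2
  have hv' : (v : C) ^ 2 = x ^ 2 := congrArg Subtype.val hv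
  set t := x * (v : C)⁻¹ with ht
  have hvx : Commute x (v : C) := Subgroup.mem_center_iff.1 v.2 x
  have ht2 : t ^ 2 = 1 := by rw [ht, hvx.inv_right.mul_pow, inv_pow, hv', mul_inv_cancel]
  have htZ : t ∉ Z := fun h => hw1 ((QuotientGroup.eq_one_iff _).2 (by
    have := Z.mul_mem h v.2
    rwa [ht, inv_mul_cancel_right] at this))
  let A : Subgroup C :=
    { carrier := {a | a ∈ Ω ∨ a * t ∈ Ω}
      one_mem' := Or.inl Ω.one_mem
      mul_mem' := fun {a b} ha hb => by
        rcases ha with ha | ha <;> rcases hb with hb | hb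
        · exact Or.inl (Ω.mul_mem ha hb)
        · exact Or.inr (by rw [mul_assoc]; exact Ω.mul_mem ha hb)
        · refine Or.inr ?_
          rw [mul_assoc, ← Subgroup.mem_center_iff.1 hb.1 t, ← mul_assoc]
          exact Ω.mul_mem ha hb
        · refine Or.inl ?_
          have h := Ω.mul_mem ha hb
          rwa [show a * t * (b * t) = a * (t * (b * t)) from mul_assoc _ _ _, Subgroup.mem_center_iff.1 hb.1 t,
            mul_assoc b, ← pow_two, ht2, mul_one] at h
      inv_mem' := fun {a} ha => by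
        rcases ha with ha | ha
        · exact Or.inl (Ω.inv_mem ha)
        · refine Or.inr ?_
          have h := Ω.inv_mem ha
          rw [mul_inv_rev, inv_eq_of_mul_eq_one_right (by rw [← pow_two]; exact ht2)] at h
          have h2 := Subgroup.mem_center_iff.1 h.1 t
          rw [← mul_assoc, ← pow_two, ht2, one_mul] at h2
          rw [show a⁻¹ * t = t * a⁻¹ by conv_lhs => rw [h2, mul_assoc, ← pow_two, ht2, mul_one]]
          exact h }
  have hAab : IsMulCommutative A := ⟨⟨fun a b => Subtype.ext (by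
    show (a : C) * (b : C) = (b : C) * (a : C)
    rcases a.2 with ha | ha
    · exact (Subgroup.mem_center_iff.1 ha.1 b).symm
    rcases b.2 with hb | hb
    · exact Subgroup.mem_center_iff.1 hb.1 a
    have hti : t⁻¹ = t := inv_eq_of_mul_eq_one_right (by rw [← pow_two]; exact ht2)
    have h1 : (a : C) = (a : C) * t * t := by rw [mul_assoc, ← pow_two, ht2, mul_one]
    have h2 : (b : C) = (b : C) * t * t := by rw [mul_assoc, ← pow_two, ht2, mul_one]
    rw [h1, h2]
    have ca : Commute ((a : C) * t) t := (Subgroup.mem_center_iff.1 ha.1 t).symm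
    have cb : Commute ((b : C) * t) t := (Subgroup.mem_center_iff.1 hb.1 t).symm
    have cab : Commute ((a : C) * t) ((b : C) * t) := Subgroup.mem_center_iff.1 hb.1 _
    exact ((cab.mul_right ca).mul_left (cb.symm.mul_right (Commute.refl t))).eq)⟩⟩
  have hAexp : ∀ a ∈ A, a ^ 2 = 1 := by
    intro a ha
    rcases ha with ha | ha
    · exact ha.2
    · have h := ha.2
      rw [show a = a * t * t by rw [mul_assoc, ← pow_two, ht2, mul_one],
        Commute.mul_pow (Subgroup.mem_center_iff.1 ha.1 t).symm, h, ht2, one_mul]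
  have hAle := hrank A hAab hAexp
  have hlt : Ω < A := by
    refine lt_of_le_of_ne (fun a ha => Or.inl ha) fun h => ?_
    have : t ∈ A := Or.inr (by rw [← pow_two, ht2]; exact Ω.one_mem)
    rw [← h] at this
    exact htZ this.1
  obtain ⟨k, hk2⟩ := Subgroup.card_dvd_of_le hlt.le
  have hk1 : k ≠ 1 := fun h => hlt.ne (Subgroup.eq_of_le_of_card_ge hlt.le (by rw [hk2, h, mul_one]))
  have hk0 : k ≠ 0 := fun h => Nat.card_pos.ne' (by rw [hk2, h, mul_zero])
  have : 2 ≤ k := by omega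
  rw [hk2, hΩ4] at hAle
  omega

/-- Let d be a non-identity 3-element of a finite group and P a 2-subgroup normalized by d on which ⟨d⟩ acts faithfully (no non-identity power of d centralizes P) and without non-identity fixed points (C_P(d) = 1). If every abelian subgroup of P has 2-rank at most 2, then d has order 3. -/
theorem result {X : Type*} [Group X] [Finite X] (d : X) (n : ℕ) (hn : 1 ≤ n) (hd : orderOf d = 3 ^ n) (P : Subgroup X) (hP : IsPGroup 2 P) (hdP : d ∈ Subgroup.normalizer (P : Set X)) (hfaith : Subgroup.zpowers d ⊓ Subgroup.centralizer (P : Set X) = ⊥) (hfpf : P ⊓ Subgroup.centralizer {d} = ⊥) (hrank : ∀ V : Subgroup X, V ≤ P → IsMulCommutative V → Cfsg.PRankLE 2 2 V) : orderOf d = 3 := by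
  classical
  haveI : Fact (Nat.Prime 2) := ⟨Nat.prime_two⟩
  by_contra hne
  obtain ⟨m, rfl⟩ : ∃ m, n = m + 2 := ⟨n - 2, by
    have : n ≠ 1 := fun h => hne (by rw [hd, h, pow_one])
    omega⟩
  let φ : ↥(Subgroup.normalizer (P : Set X)) →* MulAut ↥P := P.normalizerMonoidHom
  let f : MulAut ↥P := φ ⟨d, hdP⟩
  have hpow : ∀ (k : ℕ) (x : ↥P), (((f ^ k) x : ↥P) : X) = d ^ k * (x : X) * (d ^ k)⁻¹ := by
    intro k x
    rw [← map_pow]
    rfl
  have hfn : f ^ (3 ^ (m + 2)) = 1 := by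
    rw [← map_pow, ← map_one φ]
    exact congrArg φ (Subtype.ext (by rw [← hd]; exact pow_orderOf_eq_one d))
  have hffpf : ∀ x, f x = x → x = 1 := by
    intro x hx
    have h1 : d * (x : X) * d⁻¹ = x := congrArg Subtype.val hx
    have h2 : (x : X) ∈ P ⊓ Subgroup.centralizer {d} :=
      ⟨x.2, Subgroup.mem_centralizer_singleton_iff.2 (mul_inv_eq_iff_eq_mul.1 h1).symm⟩
    rw [hfpf, Subgroup.mem_bot] at h2
    exact Subtype.ext h2
  set c := f ^ (3 ^ (m + 1)) with hcdef
  have hc3 : c ^ 3 = 1 := by rw [hcdef, ← pow_mul, ← pow_succ]; exact hfn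
  obtain ⟨x0, hx0⟩ : ∃ x, c x ≠ x := by
    by_contra hall
    push_neg at hall
    have h1 : d ^ 3 ^ (m + 1) ∈ Subgroup.zpowers d ⊓ Subgroup.centralizer (P : Set X) := by
      refine ⟨Subgroup.pow_mem _ (Subgroup.mem_zpowers d) _, Subgroup.mem_centralizer_iff.2 fun x hx => ?_⟩
      have h2 := congrArg Subtype.val (hall ⟨x, hx⟩)
      rw [hcdef, hpow] at h2
      exact (mul_inv_eq_iff_eq_mul.1 h2).symm
    rw [hfaith, Subgroup.mem_bot] at h1
    have h2 := orderOf_dvd_of_pow_eq_one h1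
    rw [hd, Nat.pow_dvd_pow_iff_le_right (by norm_num)] at h2
    omega
  obtain ⟨H, hH, hHfr, hHtop, hHC⟩ := Cfsg.Lib.Transfer.exists_critical hP
  haveI := hH
  obtain ⟨x1, hx1H, hx1⟩ : ∃ x ∈ H, c x ≠ x := by
    by_contra hall
    push_neg at hall
    refine hx0 (Cfsg.Lib.Transfer.fixed_of_fix_selfCentralizing hP (c : ↥P →* ↥P) (n := 3) (by norm_num) (fun x => ?_) H hHC hall x0)
    show c (c (c x)) = x
    rw [← MulAut.mul_apply, ← MulAut.mul_apply, show c * c * c = c ^ 3 by rw [pow_succ, pow_two], hc3]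
    rfl
  have hHmap : H.map (f : ↥P →* ↥P) = H := Subgroup.characteristic_iff_map_eq.1 hH f
  let fH : MulAut ↥H := ((f : ↥P ≃* ↥P).subgroupMap H).trans (MulEquiv.subgroupCongr hHmap)
  have hfH : ∀ (k : ℕ) (x : ↥H), (((fH ^ k) x : ↥H) : ↥P) = (f ^ k) (x : ↥P) := by
    intro k
    induction k with
    | zero => intro x; rfl
    | succ k ih =>
      intro x
      rw [pow_succ', MulAut.mul_apply, pow_succ' f, MulAut.mul_apply, ← ih]
      rfl
  have hcent : ∀ y : ↥H, (y : ↥P) ∈ Subgroup.centralizer (H : Set ↥P) → y ∈ Subgroup.center ↥H := by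
    intro y hy
    rw [Subgroup.mem_center_iff]
    exact fun z => Subtype.ext (Subgroup.mem_centralizer_iff.1 hy z z.2)
  refine no_nine (hP.to_subgroup H) (fun x => hcent _ (hHfr ⟨x ^ 2, Cfsg.Lib.Solv.pow_mem_frattini (hP.to_subgroup H) x, rfl⟩))
    (fun x y => hcent _ (hHtop (Subgroup.commutator_mem_commutator x.2 (Subgroup.mem_top _))).2) ?_ fH m ?_ ?_ ⟨⟨x1, hx1H⟩, fun h => hx1 ?_⟩
  · intro A hA hA2
    let V : Subgroup X := (A.map H.subtype).map P.subtype
    haveI := hA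
    have hVab : IsMulCommutative V := Subgroup.map_isMulCommutative _ _
    have hVP : V ≤ P := Subgroup.map_subtype_le _
    have h1 := hrank V hVP hVab ⊤ ⟨⟨fun a b => Subtype.ext (hVab.is_comm.comm a.1 b.1)⟩⟩ (fun a _ => by
      obtain ⟨b, ⟨a', ha', rfl⟩, hb⟩ := a.2
      refine Subtype.ext ?_
      show (a : X) ^ 2 = 1
      rw [← hb, ← map_pow, ← map_pow, hA2 a' ha', map_one, map_one])
    rw [Subgroup.card_top] at h1
    rwa [Subgroup.card_map_of_injective P.subtype_injective, Subgroup.card_map_of_injective H.subtype_injective] at h1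
  · refine MulEquiv.ext fun x => Subtype.ext ?_
    rw [hfH, hfn]
    rfl
  · intro x hx
    exact Subtype.ext (hffpf _ (by rw [← pow_one f, ← hfH, pow_one, hx]))
  · have h2 := congrArg Subtype.val h
    rw [hfH] at h2
    exact h2


end Cfsg.Agent.S3738
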