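import Cfsg.Statements.S3739
import Cfsg.Agent.S3738
import Cfsg.Agent.Lib.Solv.Coprime2
import Cfsg.Agent.Lib.Solv.Cores
import Cfsg.Agent.Lib.Transfer.PGroupNormal
-- import your own Cfsg.Agent.* helpers here

set_option autoImplicit false
open Cfsg
open scoped Pointwise commutatorElement

namespace Cfsg.Agent.S3739

theorem insert_inv {G : Type*} [Group G] (W : Subgroup G) [IsMulCommutative W] (z : G) (hz : z ^ 2 = 1)
    (hW : ∀ w ∈ W, z * w = w * z) (hWexp : ∀ w ∈ W, w ^ 2 = 1) :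
    ∃ V : Subgroup G, W ≤ V ∧ z ∈ V ∧ IsMulCommutative V ∧ ∀ a ∈ V, a ^ 2 = 1 := by
  have hzz : z * z = 1 := by rw [← pow_two]; exact hz
  have hmem : ∀ a, a * z ∈ W → a = a * z * z := fun a _ => by rw [mul_assoc, hzz, mul_one]
  let V : Subgroup G :=
    { carrier := {a | a ∈ W ∨ a * z ∈ W}
      one_mem' := Or.inl W.one_mem
      mul_mem' := fun {a b} ha hb => by
        rcases ha with ha | ha <;> rcases hb with hb | hb
        · exact Or.inl (W.mul_mem ha hb)
        · exact Or.inr (by rw [mul_assoc]; exact W.mul_mem ha hb)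
        · refine Or.inr ?_
          rw [mul_assoc, ← hW b hb, ← mul_assoc]
          exact W.mul_mem ha hb
        · refine Or.inl ?_
          have h := W.mul_mem ha hb
          rwa [show a * z * (b * z) = a * (z * (b * z)) from mul_assoc _ _ _, hW _ hb, mul_assoc b, hzz, mul_one] at h
      inv_mem' := fun {a} ha => by
        rcases ha with ha | ha
        · exact Or.inl (W.inv_mem ha)
        · refine Or.inr ?_
          have h := W.inv_mem ha
          have h1 : a⁻¹ = (a * z)⁻¹ * z := by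
            rw [← hW _ h, mul_inv_rev, ← mul_assoc, mul_inv_cancel, one_mul]
          rw [h1, mul_assoc, hzz, mul_one]
          exact h }
  refine ⟨V, fun a ha => Or.inl ha, Or.inr (by rw [hzz]; exact W.one_mem), ?_, ?_⟩
  · refine ⟨⟨fun a b => Subtype.ext ?_⟩⟩
    show (a : G) * (b : G) = (b : G) * (a : G)
    have key : ∀ a : G, a ∈ V → Commute a z ∧ ∀ w ∈ W, Commute a w := by
      intro a ha
      rcases ha with ha | ha
      · exact ⟨(hW a ha).symm, fun w hw => setLike_mul_comm ha hw⟩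
      · rw [hmem a ha]
        exact ⟨Commute.mul_left (hW _ ha).symm (Commute.refl z), fun w hw => Commute.mul_left (setLike_mul_comm ha hw) (hW w hw)⟩
    rcases b.2 with hb | hb
    · exact (key a a.2).2 b hb
    · rw [hmem (b : G) hb]
      exact ((key a a.2).2 _ hb).mul_right (key a a.2).1
  · intro a ha
    rcases ha with ha | ha
    · exact hWexp a ha
    · rw [hmem a ha, Commute.mul_pow (hW _ ha).symm, hWexp _ ha, hz, one_mul]

theorem four_list {G : Type*} [Group G] [Finite G] (W : Subgroup G) (hW : Nat.card W = 4) {a b c : G}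
    (ha : a ∈ W) (hb : b ∈ W) (hc : c ∈ W) (ha1 : a ≠ 1) (hb1 : b ≠ 1) (hc1 : c ≠ 1)
    (hab : a ≠ b) (hac : a ≠ c) (hbc : b ≠ c) {y : G} (hy : y ∈ W) : y = 1 ∨ y = a ∨ y = b ∨ y = c := by
  classical
  haveI := Fintype.ofFinite G
  by_contra h
  push_neg at h
  have hsub : ({1, a, b, c, y} : Finset G) ⊆ Finset.univ.filter (fun u => u ∈ W) := by
    intro u hu
    simp only [Finset.mem_insert, Finset.mem_singleton] at hu
    simp only [Finset.mem_filter, Finset.mem_univ, true_and]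
    rcases hu with rfl | rfl | rfl | rfl | rfl
    exacts [W.one_mem, ha, hb, hc, hy]
  have h1 := Finset.card_le_card hsub
  have h2 : (Finset.univ.filter (fun u => u ∈ W)).card = 4 := by
    rw [← hW, Nat.card_eq_fintype_card, Fintype.card_of_subtype]; simp
  have h3 : ({1, a, b, c, y} : Finset G).card = 5 := by
    simp [Ne.symm ha1, Ne.symm hb1, Ne.symm hc1, Ne.symm h.1, hab, hac, hbc, Ne.symm h.2.1, Ne.symm h.2.2.1, Ne.symm h.2.2.2]
  omega

/-- Let G be a finite group with C_G(O₂(G)) ≤ O₂(G) containing an element of order 6, and let d be a non-identity 3-element of G normalizing a nontrivial elementary abelian 2-subgroup W with C_W(d) = 1. Then G has an elementary abelian subgroup of order 8. -/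
theorem result {G : Type*} [Group G] [Finite G] (hchar : Subgroup.centralizer (Cfsg.pCore 2 G : Set G) ≤ Cfsg.pCore 2 G) (hsix : ∃ g : G, orderOf g = 6) (d : G) (hd1 : d ≠ 1) (hd : IsPGroup 3 ↥(Subgroup.zpowers d)) (W : Subgroup G) (hW : Cfsg.IsElementaryAbelian 2 W) (hW1 : W ≠ ⊥) (hdW : d ∈ Subgroup.normalizer (W : Set G)) (hfpf : W ⊓ Subgroup.centralizer {d} = ⊥) : ∃ E : Subgroup G, Cfsg.IsElementaryAbelian 2 E ∧ Nat.card E = 8 := by
  classical
  haveI : Fact (Nat.Prime 2) := ⟨Nat.prime_two⟩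
  haveI : Fact (Nat.Prime 3) := ⟨Nat.prime_three⟩
  haveI := hW.1
  by_contra hno
  have hr : ∀ A : Subgroup G, IsMulCommutative A → (∀ a ∈ A, a ^ 2 = 1) → Nat.card A ≤ 4 := by
    intro A hA hA2
    by_contra hcard
    have hA2' : IsPGroup 2 A := fun a => ⟨1, Subtype.ext (by simpa using hA2 a a.2)⟩
    obtain ⟨j, hj⟩ := IsPGroup.iff_card.1 hA2'
    have hj3 : 2 ^ 3 ∣ Nat.card A := by
      rw [hj]
      refine pow_dvd_pow 2 ?_
      by_contra h
      exact hcard (by rw [hj]; exact (Nat.pow_le_pow_right (by norm_num) (show j ≤ 2 by omega)))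
    obtain ⟨E, hE⟩ := Sylow.exists_subgroup_card_pow_prime 2 hj3
    refine hno ⟨E.map A.subtype, ⟨?_, ?_⟩, by rw [Subgroup.card_map_of_injective A.subtype_injective, hE]; norm_num⟩
    · haveI : IsMulCommutative E := ⟨⟨fun a b => Subtype.ext (hA.is_comm.comm a.1 b.1)⟩⟩
      exact Subgroup.map_isMulCommutative _ _
    · rintro _ ⟨e, -, rfl⟩
      exact hA2 e e.2
  have hconjW : ∀ w ∈ W, d * w * d⁻¹ ∈ W := fun w hw => (Subgroup.mem_normalizer_iff.1 hdW w).1 hw
  have hdfix : ∀ w ∈ W, d * w * d⁻¹ = w → w = 1 := by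
    intro w hw h
    have h2 : w ∈ W ⊓ Subgroup.centralizer {d} :=
      ⟨hw, Subgroup.mem_centralizer_singleton_iff.2 (mul_inv_eq_iff_eq_mul.1 h).symm⟩
    rwa [hfpf, Subgroup.mem_bot] at h2
  have hW2 : ∀ w ∈ W, w ^ 2 = 1 := hW.2
  have htri : ∀ w ∈ W, w ≠ 1 → d * w * d⁻¹ ≠ 1 ∧ d * w * d⁻¹ ≠ w := by
    intro w hw hw1
    exact ⟨fun h => hw1 (by
      have := congrArg (fun u => d⁻¹ * u * d) h
      simpa [mul_assoc] using this), fun h => hw1 (hdfix w hw h)⟩
  have hsub4 : ∀ M : Subgroup G, M ≤ W → M ≠ ⊥ → (∀ m ∈ M, d * m * d⁻¹ ∈ M) → M = W ∧ Nat.card W = 4 := by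
    intro M hMW hM hdM
    obtain ⟨m, hm, hm1⟩ := (Subgroup.bot_or_exists_ne_one M).resolve_left hM
    have hWle := hr W hW.1 hW2
    have h3 : 2 < Nat.card M := by
      haveI := Fintype.ofFinite M
      rw [Nat.card_eq_fintype_card, Fintype.two_lt_card_iff]
      exact ⟨1, ⟨m, hm⟩, ⟨_, hdM m hm⟩, fun h => hm1 (congrArg Subtype.val h).symm,
        fun h => (htri m (hMW hm) hm1).1 (congrArg Subtype.val h).symm,
        fun h => (htri m (hMW hm) hm1).2 (congrArg Subtype.val h).symm⟩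
    have hMW' := Subgroup.card_dvd_of_le hMW
    have hM2 : IsPGroup 2 M := fun a => ⟨1, Subtype.ext (by simpa using hW2 a (hMW a.2))⟩
    obtain ⟨j, hj⟩ := IsPGroup.iff_card.1 hM2
    have hMle := Nat.le_of_dvd Nat.card_pos hMW'
    have hj2 : j = 2 := by
      rw [hj] at h3 hMle
      rcases Nat.lt_trichotomy j 2 with h | h | h
      · have : 2 ^ j ≤ 2 ^ 1 := Nat.pow_le_pow_right (by norm_num) (by omega)
        omega
      · exact h
      · have : 2 ^ 3 ≤ 2 ^ j := Nat.pow_le_pow_right (by norm_num) h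
        omega
    rw [hj2] at hj
    exact ⟨Subgroup.eq_of_le_of_card_ge hMW (by omega), by omega⟩
  have hW4 : Nat.card W = 4 := (hsub4 W le_rfl hW1 hconjW).2
  have hkey : ∀ z : G, z ^ 2 = 1 → (∀ w ∈ W, z * w = w * z) → z ∈ W := by
    intro z hz hzW
    obtain ⟨V, hWV, hzV, hVc, hV2⟩ := insert_inv W z hz hzW hW2
    rw [Subgroup.eq_of_le_of_card_ge hWV (by rw [hW4]; exact hr V hVc hV2)]
    exact hzV
  set Q := Cfsg.pCore 2 G with hQdef
  have hQ2 : IsPGroup 2 Q := Cfsg.Lib.Solv.isPGroup_pCore 2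
  haveI hQn : Q.Normal := by rw [hQdef]; infer_instance
  have hWp : IsPGroup 2 W := fun a => ⟨1, Subtype.ext (by simpa using hW2 a a.2)⟩
  have hP : IsPGroup 2 ↥(Q ⊔ W) := hQ2.to_sup_of_normal_left hWp
  -- `W` is central in `O₂(G)W`
  let M : Subgroup G :=
    { carrier := {z | z ∈ Q ⊔ W ∧ z ^ 2 = 1 ∧ ∀ y ∈ Q ⊔ W, z * y = y * z}
      one_mem' := ⟨one_mem _, one_pow 2, fun y _ => by simp⟩
      mul_mem' := fun {a b} ha hb => ⟨mul_mem ha.1 hb.1, by
        rw [Commute.mul_pow (ha.2.2 b hb.1), ha.2.1, hb.2.1, one_mul],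
        fun y hy => (Commute.mul_left (ha.2.2 y hy) (hb.2.2 y hy)).eq⟩
      inv_mem' := fun {a} ha => ⟨inv_mem ha.1, by rw [inv_pow, ha.2.1, inv_one],
        fun y hy => (Commute.inv_left (ha.2.2 y hy)).eq⟩ }
  have hMW : M ≤ W := fun z hz => hkey z hz.2.1 fun w hw => hz.2.2 w (Subgroup.mem_sup_right hw)
  have hdQW : ∀ y ∈ Q ⊔ W, d * y * d⁻¹ ∈ Q ⊔ W := by
    intro y hy
    rw [← SetLike.mem_coe, Subgroup.normal_mul] at hy ⊢
    obtain ⟨q, hq, w, hw, rfl⟩ := hy
    exact ⟨d * q * d⁻¹, hQn.conj_mem q hq d, d * w * d⁻¹, hconjW w hw, by group⟩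
  have hMne : M ≠ ⊥ := by
    haveI : Nontrivial ↥(Q ⊔ W) := (Subgroup.nontrivial_iff_ne_bot _).2 fun h => hW1 (le_bot_iff.1 (h ▸ le_sup_right))
    haveI : Nontrivial ↥(Subgroup.center ↥(Q ⊔ W)) := hP.center_nontrivial
    obtain ⟨z, hz⟩ := exists_prime_orderOf_dvd_card' (G := ↥(Subgroup.center ↥(Q ⊔ W))) 2
      (((hP.to_subgroup _).card_eq_or_dvd).resolve_left (Finite.one_lt_card (α := ↥(Subgroup.center ↥(Q ⊔ W)))).ne')
    intro h
    have h1 : ((z : ↥(Q ⊔ W)) : G) ∈ M := ⟨z.1.2, by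
      rw [← Subgroup.coe_pow, ← Subgroup.coe_pow, ← hz, pow_orderOf_eq_one]; rfl,
      fun y hy => congrArg Subtype.val (Subgroup.mem_center_iff.1 z.2 ⟨y, hy⟩).symm⟩
    rw [h, Subgroup.mem_bot] at h1
    rw [show z = 1 from Subtype.ext (Subtype.ext h1), orderOf_one] at hz
    omega
  obtain ⟨hMeq, -⟩ := hsub4 M hMW hMne fun m hm => ⟨hdQW m hm.1, by rw [conj_pow, hm.2.1, mul_one, mul_inv_cancel],
    fun y hy => by
      have h0 : d⁻¹ * y * d ∈ Q ⊔ W := by
        rw [← SetLike.mem_coe, Subgroup.normal_mul] at hy ⊢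
        obtain ⟨q, hq, w, hw, rfl⟩ := hy
        exact ⟨d⁻¹ * q * d, by simpa using hQn.conj_mem q hq d⁻¹, d⁻¹ * w * d,
          (Subgroup.mem_normalizer_iff''.1 hdW w).1 hw, by group⟩
      have h1 := hm.2.2 _ h0
      calc d * m * d⁻¹ * y = d * (m * (d⁻¹ * y * d)) * d⁻¹ := by group
        _ = d * ((d⁻¹ * y * d) * m) * d⁻¹ := by rw [h1]
        _ = y * (d * m * d⁻¹) := by group⟩
  have hWc : ∀ w ∈ W, ∀ y ∈ Q ⊔ W, w * y = y * w := fun w hw => (show w ∈ M by rw [hMeq]; exact hw).2.2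
  have hWQ : ∀ w ∈ W, w ∈ Q := fun w hw => hchar (Subgroup.mem_centralizer_iff.2 fun q hq =>
    ((hWc w hw) q (Subgroup.mem_sup_left hq)).symm)
  have hinvQ : ∀ z ∈ Q, z ^ 2 = 1 → z ∈ W := fun z hz hz2 =>
    hkey z hz2 fun w hw => ((hWc w hw) z (Subgroup.mem_sup_left hz)).symm
  have hMn : ∀ (g : G), ∀ w ∈ W, g * w * g⁻¹ ∈ W := fun g w hw =>
    hinvQ _ (hQn.conj_mem w (hWQ w hw) g) (by rw [conj_pow, hW2 w hw, mul_one, mul_inv_cancel])
  haveI hMnormal : W.Normal := ⟨fun w hw g => hMn g w hw⟩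
  have hnontriv : ∀ K : Subgroup G, K ≤ Q → K ≠ ⊥ → ∃ z ∈ K, z ≠ 1 ∧ z ∈ W := by
    intro K hKQ hK
    haveI : Nontrivial ↥K := (Subgroup.nontrivial_iff_ne_bot K).2 hK
    obtain ⟨z, hz⟩ := exists_prime_orderOf_dvd_card' (G := ↥K) 2
      (((hQ2.to_le hKQ).card_eq_or_dvd).resolve_left (Finite.one_lt_card (α := ↥K)).ne')
    refine ⟨z, z.2, fun h => ?_, hinvQ z (hKQ z.2) (by rw [← Subgroup.coe_pow, ← hz, pow_orderOf_eq_one]; rfl)⟩
    rw [← Subgroup.orderOf_coe, h, orderOf_one] at hz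
    omega
  have hQcop : ∀ a : G, a ^ 3 = 1 → a ∈ Q → a = 1 := by
    intro a ha haQ
    obtain ⟨j, hj⟩ := hQ2 ⟨a, haQ⟩
    have hj' : a ^ (2 ^ j) = 1 := congrArg Subtype.val hj
    refine orderOf_eq_one_iff.1 (Nat.eq_one_of_dvd_coprimes ?_ (orderOf_dvd_of_pow_eq_one ha) (orderOf_dvd_of_pow_eq_one hj'))
    exact Nat.Coprime.pow_right _ (by norm_num)
  -- no element of order three centralizes `W`
  have hC3 : ∀ x : G, x ^ 3 = 1 → (∀ w ∈ W, x * w = w * x) → x = 1 := by
    intro x hx3 hxM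
    by_contra hx1
    obtain ⟨k, hk⟩ := IsPGroup.iff_card.1 hd
    rw [Nat.card_zpowers] at hk
    obtain ⟨w0, hw0, hw01⟩ := (Subgroup.bot_or_exists_ne_one W).resolve_left hW1
    have hd3 : orderOf d = 3 := by
      refine Cfsg.Agent.S3738.result d k ?_ hk Q hQ2 ?_ ?_ ?_ ?_
      · by_contra h
        exact hd1 (orderOf_eq_one_iff.1 (by rw [hk, show k = 0 by omega, pow_zero]))
      · rw [Subgroup.mem_normalizer_iff]
        exact fun q => ⟨fun h => hQn.conj_mem q h d, fun h => by simpa [mul_assoc] using hQn.conj_mem _ h d⁻¹⟩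
      · rw [eq_bot_iff]
        intro a ha
        have haQ : a ∈ Q := hchar ha.2
        obtain ⟨i, hi⟩ := hd ⟨a, ha.1⟩
        obtain ⟨j, hj⟩ := hQ2 ⟨a, haQ⟩
        rw [Subgroup.mem_bot]
        refine orderOf_eq_one_iff.1 (Nat.eq_one_of_dvd_coprimes ?_
          (orderOf_dvd_of_pow_eq_one (congrArg Subtype.val hi)) (orderOf_dvd_of_pow_eq_one (congrArg Subtype.val hj)))
        exact Nat.Coprime.pow _ _ (by norm_num)
      · by_contra hne
        obtain ⟨z, hz, hz1, hzM⟩ := hnontriv _ inf_le_left hne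
        exact hz1 (hdfix z hzM (mul_inv_eq_iff_eq_mul.2 (Subgroup.mem_centralizer_singleton_iff.1 hz.2).symm))
      · intro V hVQ hV A hA hA2
        haveI := hA
        rw [← Subgroup.card_map_of_injective V.subtype_injective (K := A)]
        refine hr _ (Subgroup.map_isMulCommutative _ _) ?_
        rintro _ ⟨a, ha, rfl⟩
        rw [← map_pow, hA2 a ha, map_one]
    have hd3' : d ^ 3 = 1 := by rw [← hd3, pow_orderOf_eq_one]
    obtain ⟨S, hS⟩ := hd.exists_le_sylow
    have hxp : IsPGroup 3 ↥(Subgroup.zpowers x) := IsPGroup.of_card (n := 1) (by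
      rw [Nat.card_zpowers, orderOf_eq_prime hx3 hx1, pow_one])
    obtain ⟨S', hS'⟩ := hxp.exists_le_sylow
    obtain ⟨g, hg⟩ := MulAction.exists_smul_eq G S' S
    set N := Subgroup.centralizer (W : Set G) with hN
    have hgx : g * x * g⁻¹ ∈ N ⊓ (S : Subgroup G) := by
      refine ⟨?_, ?_⟩
      · refine (inferInstance : N.Normal).conj_mem x (Subgroup.mem_centralizer_iff.2 fun w hw => (hxM w hw).symm) g
      · rw [← hg]
        exact ⟨x, hS' (Subgroup.mem_zpowers x), rfl⟩
    have hNS : ((N ⊓ (S : Subgroup G)).subgroupOf S) ≠ ⊥ := by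
      intro h
      have h1 : (⟨g * x * g⁻¹, hgx.2⟩ : ↥(S : Subgroup G)) ∈ (N ⊓ (S : Subgroup G)).subgroupOf S := hgx
      rw [h, Subgroup.mem_bot] at h1
      exact hx1 (conj_eq_one_iff.1 (congrArg Subtype.val h1))
    haveI : ((N ⊓ (S : Subgroup G)).subgroupOf S).Normal := ⟨fun n hn s =>
      ⟨(inferInstance : N.Normal).conj_mem _ hn.1 _, (s * n * s⁻¹).2⟩⟩
    obtain ⟨u, hu, hu1⟩ := (Subgroup.bot_or_exists_ne_one _).resolve_left
      (Cfsg.Lib.Transfer.inf_center_ne_bot S.isPGroup' _ hNS)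
    obtain ⟨k', hk'⟩ := IsPGroup.iff_card.1 (S.isPGroup'.to_subgroup (Subgroup.zpowers u))
    have h3u : 3 ∣ orderOf u := by
      rw [← Nat.card_zpowers u, hk']
      refine dvd_pow_self 3 fun h => hu1 (orderOf_eq_one_iff.1 ?_)
      rw [← Nat.card_zpowers, hk', h, pow_zero]
    obtain ⟨c, hcdef⟩ : ∃ c, c = ((u ^ (orderOf u / 3) : ↥(S : Subgroup G)) : G) := ⟨_, rfl⟩
    have hc3 : c ^ 3 = 1 := by
      rw [hcdef, ← Subgroup.coe_pow, ← pow_mul, Nat.div_mul_cancel h3u, pow_orderOf_eq_one]; rfl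
    have hc1 : c ≠ 1 := by
      rw [hcdef, Ne, OneMemClass.coe_eq_one, ← orderOf_dvd_iff_pow_eq_one]
      intro h
      have h0 : 0 < orderOf u := orderOf_pos u
      have := Nat.le_of_dvd (Nat.div_pos (Nat.le_of_dvd h0 h3u) (by norm_num)) h
      have := Nat.div_lt_self h0 (show 1 < 3 by norm_num)
      omega
    have hcN : c ∈ N := by
      rw [hcdef]
      exact (Subgroup.pow_mem _ hu.1 (orderOf u / 3)).1
    have hcd : c * d = d * c := by
      rw [hcdef]
      exact congrArg Subtype.val ((Subgroup.mem_center_iff.1 (Subgroup.pow_mem _ hu.2 (orderOf u / 3))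
        (⟨d, hS (Subgroup.mem_zpowers d)⟩ : ↥(S : Subgroup G))).symm)
    let A : Subgroup G :=
      { carrier := {a | ∃ i j : ℕ, a = d ^ i * c ^ j}
        one_mem' := ⟨0, 0, by simp⟩
        mul_mem' := fun {a b} => by
          rintro ⟨i, j, rfl⟩ ⟨i', j', rfl⟩
          refine ⟨i + i', j + j', ?_⟩
          rw [pow_add, pow_add, mul_assoc, ← mul_assoc (c ^ j), ((show Commute c d from hcd).pow_pow j i').eq]
          simp only [mul_assoc]
        inv_mem' := fun {a} => by
          rintro ⟨i, j, rfl⟩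
          refine ⟨2 * i, 2 * j, inv_eq_of_mul_eq_one_right ?_⟩
          rw [mul_assoc, ← mul_assoc (c ^ j), ((show Commute c d from hcd).pow_pow j (2 * i)).eq, mul_assoc,
            ← mul_assoc, ← pow_add, ← pow_add, show i + 2 * i = 3 * i by ring, show j + 2 * j = 3 * j by ring,
            pow_mul, pow_mul, hd3', hc3, one_pow, one_pow, one_mul] }
    have hdA : d ∈ A := ⟨1, 0, by simp⟩
    have hcA : c ∈ A := ⟨0, 1, by simp⟩
    haveI : IsMulCommutative A := ⟨⟨fun a b => Subtype.ext (by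
      show (a : G) * (b : G) = (b : G) * (a : G)
      obtain ⟨i, j, ha⟩ := a.2
      obtain ⟨i', j', hb⟩ := b.2
      rw [ha, hb]
      have cd : Commute d c := (show Commute c d from hcd).symm
      exact ((((Commute.refl d).pow_pow i i').mul_right (cd.pow_pow i j')).mul_left
        ((cd.symm.pow_pow j i').mul_right ((Commute.refl c).pow_pow j j'))).eq)⟩⟩
    have hA3 : ∀ a ∈ A, a ^ 3 = 1 := by
      rintro _ ⟨i, j, rfl⟩
      rw [Commute.mul_pow ((show Commute c d from hcd).symm.pow_pow i j), ← pow_mul, ← pow_mul, mul_comm i, mul_comm j,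
        pow_mul, pow_mul, hd3', hc3, one_pow, one_pow, one_mul]
    have hAnc : ¬ IsCyclic A := by
      intro hcyc
      have h9 : Nat.card A ∣ 3 := by
        obtain ⟨a, ha⟩ := hcyc.exists_generator
        rw [← orderOf_eq_card_of_forall_mem_zpowers ha]
        exact orderOf_dvd_of_pow_eq_one (Subtype.ext (hA3 a a.2))
      have hzd : Subgroup.zpowers d = A := Subgroup.eq_of_le_of_card_ge (Subgroup.zpowers_le.2 hdA)
        (by rw [Nat.card_zpowers, hd3]; exact Nat.le_of_dvd (by norm_num) h9)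
      have hzc : Subgroup.zpowers c = A := Subgroup.eq_of_le_of_card_ge (Subgroup.zpowers_le.2 hcA)
        (by rw [Nat.card_zpowers, orderOf_eq_prime hc3 hc1]; exact Nat.le_of_dvd (by norm_num) h9)
      have hdN : d ∈ N := Subgroup.zpowers_le.2 hcN (by rw [hzc]; exact hdA)
      exact hw01 (hdfix w0 hw0 (mul_inv_eq_iff_eq_mul.2 (Subgroup.mem_centralizer_iff.1 hdN w0 hw0).symm))
    have hle := Cfsg.Lib.Solv.le_of_fixed_le A Q (Q ⊓ Subgroup.centralizer {c}) hAnc
      (fun a _ => by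
        rw [Subgroup.mem_normalizer_iff]
        exact fun q => ⟨fun h => hQn.conj_mem q h a, fun h => by simpa [mul_assoc] using hQn.conj_mem _ h a⁻¹⟩)
      (by
        have hA3' : IsPGroup 3 A := fun a => ⟨1, Subtype.ext (by simpa using hA3 a a.2)⟩
        exact IsPGroup.coprime_card_of_ne 3 2 (by norm_num) A Q hA3' hQ2)
      (by
        rintro a ⟨i, j, rfl⟩ ha
        refine le_inf inf_le_left ?_
        by_cases hne : Q ⊓ Subgroup.centralizer {d ^ i * c ^ j} = ⊥
        · rw [hne]; exact bot_le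
        obtain ⟨z, hz, hz1, hzM⟩ := hnontriv _ inf_le_left hne
        have hzc : z * c ^ j = c ^ j * z := (Commute.pow_right (Subgroup.mem_centralizer_iff.1 hcN z hzM) j).eq
        have hzd : z * d ^ i = d ^ i * z := by
          have h1 := Subgroup.mem_centralizer_singleton_iff.1 hz.2
          rw [← mul_assoc, mul_assoc (d ^ i), ← hzc, ← mul_assoc] at h1
          exact mul_right_cancel h1
        have hi : d ^ i = 1 := by
          by_contra hi
          rw [pow_eq_pow_mod i hd3'] at hi hzd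
          have hd' : z * d = d * z := by
            have : i % 3 = 1 ∨ i % 3 = 2 := by
              have := Nat.mod_lt i (show 3 > 0 by norm_num)
              rcases (show i % 3 = 0 ∨ i % 3 = 1 ∨ i % 3 = 2 by omega) with h | h | h
              · exact absurd (by rw [h, pow_zero]) hi
              · exact Or.inl h
              · exact Or.inr h
            rcases this with h | h
            · rwa [h, pow_one] at hzd
            · rw [h] at hzd
              have h2 : d = (d ^ 2) ^ 2 := by rw [← pow_mul, pow_succ, hd3', one_mul]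
              rw [h2]
              exact (Commute.pow_right hzd 2).eq
          exact hz1 (hdfix z hzM (mul_inv_eq_iff_eq_mul.2 hd'.symm))
        intro q hq
        rw [hi, one_mul] at hq ha
        rw [pow_eq_pow_mod j hc3] at hq ha
        rw [Subgroup.mem_centralizer_singleton_iff]
        have hq2 := Subgroup.mem_centralizer_singleton_iff.1 hq.2
        rcases (show j % 3 = 0 ∨ j % 3 = 1 ∨ j % 3 = 2 by omega) with h | h | h
        · exact absurd (by rw [h, pow_zero]) ha
        · rwa [h, pow_one] at hq2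
        · rw [h] at hq2
          have h2 : c = (c ^ 2) ^ 2 := by rw [← pow_mul, pow_succ, hc3, one_mul]
          rw [h2]
          exact (Commute.pow_right hq2 2).eq)
    refine hc1 (hQcop c hc3 (hchar (Subgroup.mem_centralizer_iff.2 fun q hq => ?_)))
    exact Subgroup.mem_centralizer_singleton_iff.1 (hle hq).2
  obtain ⟨h, hh⟩ := hsix
  set x := h ^ 2 with hx
  set t := h ^ 3 with ht
  have hx3 : x ^ 3 = 1 := by rw [hx, ← pow_mul, show 2 * 3 = orderOf h by rw [hh], pow_orderOf_eq_one]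
  have ht2 : t ^ 2 = 1 := by rw [ht, ← pow_mul, show 3 * 2 = orderOf h by rw [hh], pow_orderOf_eq_one]
  have hxt : Commute x t := (Commute.refl h).pow_pow 2 3
  have hx1 : x ≠ 1 := fun he => by
    have := orderOf_dvd_of_pow_eq_one (x := h) (n := 2) he
    rw [hh] at this; norm_num at this
  have ht1 : t ≠ 1 := fun he => by
    have := orderOf_dvd_of_pow_eq_one (x := h) (n := 3) he
    rw [hh] at this; norm_num at this
  have hxfix : ∀ w ∈ W, x * w * x⁻¹ = w → w = 1 := by
    intro w hw he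
    by_contra hw1
    refine hx1 (hC3 x hx3 fun u hu => mul_inv_eq_iff_eq_mul.1 ?_)
    by_contra hu'
    have hu1 : u ≠ 1 := fun h => hu' (by rw [h]; group)
    set u1 := x * u * x⁻¹ with hu1def
    have hu11 : u1 ≠ 1 := fun h => hu1 (conj_eq_one_iff.1 h)
    have hwu : w ≠ u := fun h => hu' (by subst h; exact he)
    have hwu1 : w ≠ u1 := fun h => hwu (mul_left_cancel (mul_right_cancel (he.trans h)))
    rcases four_list W hW4 hw hu (hMn x u hu) hw1 hu1 hu11 hwu hwu1 (Ne.symm hu') (hMn x _ (hMn x u hu))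
      with h | h | h | h
    · exact hu11 (conj_eq_one_iff.1 h)
    · exact hwu1 (mul_left_cancel (mul_right_cancel (he.trans h.symm)))
    · have h3 : x * (x * u1 * x⁻¹) * x⁻¹ = u := by
        rw [hu1def]
        calc _ = x ^ 3 * u * (x ^ 3)⁻¹ := by simp only [pow_succ, pow_zero, one_mul, mul_inv_rev, mul_assoc]
          _ = u := by rw [hx3]; group
      rw [h] at h3
      exact hu' h3
    · exact hu' (mul_left_cancel (mul_right_cancel h))
  have htW : t ∉ W := fun h => ht1 (hxfix t h (by rw [hxt.eq, mul_inv_cancel_right]))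
  refine htW (hkey t ht2 fun w hw => mul_inv_eq_iff_eq_mul.1 ?_)
  by_contra hne
  have hw1 : w ≠ 1 := fun h => hne (by rw [h]; group)
  set w1 := x * w * x⁻¹ with hw1def
  set w2 := x * w1 * x⁻¹ with hw2def
  have hw11 : w1 ≠ 1 := fun h => hw1 (conj_eq_one_iff.1 h)
  have hw21 : w2 ≠ 1 := fun h => hw11 (conj_eq_one_iff.1 h)
  have hne1 : w ≠ w1 := fun h => hw1 (hxfix w hw h.symm)
  have hne2 : w1 ≠ w2 := fun h => hne1 (mul_left_cancel (mul_right_cancel h))
  have hx3w : x * w2 * x⁻¹ = w := by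
    rw [hw2def, hw1def]
    calc _ = x ^ 3 * w * (x ^ 3)⁻¹ := by simp only [pow_succ, pow_zero, one_mul, mul_inv_rev, mul_assoc]
      _ = w := by rw [hx3]; group
  have hne3 : w ≠ w2 := fun h => hne1 (by rw [hw1def]; conv_rhs => rw [h, hx3w])
  have htt : ∀ u, t * (t * u * t⁻¹) * t⁻¹ = u := fun u => by
    calc _ = t ^ 2 * u * (t ^ 2)⁻¹ := by simp only [pow_two, mul_inv_rev, mul_assoc]
      _ = u := by rw [ht2]; group
  have hcomm : ∀ u, t * (x * u * x⁻¹) * t⁻¹ = x * (t * u * t⁻¹) * x⁻¹ := fun u => by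
    calc _ = (t * x) * u * (t * x)⁻¹ := by group
      _ = (x * t) * u * (x * t)⁻¹ := by rw [hxt.eq]
      _ = _ := by group
  rcases four_list W hW4 hw (hMn x w hw) (hMn x _ (hMn x w hw)) hw1 hw11 hw21 hne1 hne3 hne2 (hMn t w hw) with h | h | h | h
  · exact hw1 (conj_eq_one_iff.1 h)
  · exact hne h
  · have h1 := htt w
    rw [h] at h1
    rw [hcomm, h] at h1
    exact hne3 h1.symm
  · have h1 := htt w
    rw [h] at h1
    rw [hcomm, hcomm, h] at h1
    exact hne1 (h1.symm.trans (congrArg (fun u => x * u * x⁻¹) hx3w))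


end Cfsg.Agent.S3739
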