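import Cfsg.Statements.S3741
import Mathlib
-- import your own Cfsg.Agent.* helpers here

set_option autoImplicit false
open Cfsg
open scoped commutatorElement

namespace Cfsg.Agent.S3741

/-- Let A and B be subgroups of a finite p-group with [A, B] ≤ A ∩ B and [A, B] of order at most p. Then |A : C_A(B)| = |B : C_B(A)|. -/
theorem result {G : Type*} [Group G] [Finite G] {p : ℕ} [Fact p.Prime] (hG : IsPGroup p G) (A B : Subgroup G) (hAB : ⁅A, B⁆ ≤ A ⊓ B) (hcard : Nat.card ↥⁅A, B⁆ ≤ p) : (A ⊓ Subgroup.centralizer (B : Set G)).relIndex A = (B ⊓ Subgroup.centralizer (A : Set G)).relIndex B := by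
  have key : ∀ A B : Subgroup G, Nat.card ↥⁅A, B⁆ ≤ p →
      (A ⊓ Subgroup.centralizer (B : Set G)).relIndex A ≤
        (B ⊓ Subgroup.centralizer (A : Set G)).relIndex B := by
    intro A B hc
    set C := B ⊓ Subgroup.centralizer (A : Set G) with hC
    let T : Set (Subgroup G) := {S | C ≤ S ∧ S ≤ B ∧
      (A ⊓ Subgroup.centralizer (S : Set G)).relIndex A ≤ C.relIndex S}
    have hT0 : C ∈ T := by
      refine ⟨le_rfl, inf_le_left, ?_⟩
      have : A ≤ Subgroup.centralizer (C : Set G) := Subgroup.le_centralizer_iff.1 inf_le_right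
      rw [inf_eq_left.2 this, Subgroup.relIndex_self, Subgroup.relIndex_self]
    obtain ⟨S, ⟨hCS, hSB, hS⟩, hmax⟩ := T.toFinite.exists_maximal ⟨C, hT0⟩
    rcases eq_or_lt_of_le hSB with rfl | hlt
    · exact hS
    exfalso
    obtain ⟨b, hbB, hbS⟩ := SetLike.exists_of_lt hlt
    set S' := S ⊔ Subgroup.zpowers b with hS'
    have hSS' : S ≤ S' := le_sup_left
    have hbS' : b ∈ S' := Subgroup.mem_sup_right (Subgroup.mem_zpowers b)
    refine hbS (hmax ⟨hCS.trans hSS', sup_le hSB (Subgroup.zpowers_le.2 hbB), ?_⟩ hSS' hbS')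
    have h1 : (Subgroup.centralizer ({b} : Set G)).relIndex A ≤ p := by
      refine le_trans ?_ hc
      let f : A ⧸ (Subgroup.centralizer ({b} : Set G)).subgroupOf A → ↥⁅A, B⁆ :=
        fun q => ⟨⁅(q.out : G), b⁆, Subgroup.commutator_mem_commutator q.out.2 hbB⟩
      refine Nat.card_le_card_of_injective f fun q r h => ?_
      rw [← q.out_eq, ← r.out_eq]
      refine QuotientGroup.eq.2 ?_
      rw [Subgroup.mem_subgroupOf, Subgroup.mem_centralizer_singleton_iff]
      have h' := congrArg Subtype.val h
      simp only [f, commutatorElement_def, mul_left_inj] at h'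
      have h3 := congrArg (fun z => ((q.out : G))⁻¹ * z * (r.out : G)) h'
      simpa [mul_assoc] using h3.symm
    have h2 : A ⊓ Subgroup.centralizer (S' : Set G) =
        (A ⊓ Subgroup.centralizer (S : Set G)) ⊓ Subgroup.centralizer ({b} : Set G) := by
      ext x
      simp only [Subgroup.mem_inf, Subgroup.mem_centralizer_singleton_iff, and_assoc]
      refine and_congr_right fun _ => ⟨fun h => ⟨fun y hy => h y (hSS' hy), (h b hbS').symm⟩,
        fun h y hy => ?_⟩
      have : S' ≤ Subgroup.centralizer ({x} : Set G) := by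
        refine sup_le (fun z hz => ?_) (Subgroup.zpowers_le.2 ?_)
        · rw [Subgroup.mem_centralizer_singleton_iff]; exact (h.1 z hz)
        · rw [Subgroup.mem_centralizer_singleton_iff]; exact h.2.symm
      exact (Subgroup.mem_centralizer_singleton_iff.1 (this hy))
    have h3 : p ≤ S.relIndex S' := by
      obtain ⟨k, hk⟩ := (hG.to_subgroup S').index (S.subgroupOf S')
      change S.relIndex S' = p ^ k at hk
      rw [hk]
      rcases k with _ | k
      · rw [pow_zero, Subgroup.relIndex_eq_one] at hk
        exact absurd (hk hbS') hbS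
      · exact Nat.le_self_pow (Nat.succ_ne_zero k) p
    calc (A ⊓ Subgroup.centralizer (S' : Set G)).relIndex A
        ≤ (A ⊓ Subgroup.centralizer (S : Set G)).relIndex A *
            (Subgroup.centralizer ({b} : Set G)).relIndex A := by
          rw [h2]; exact Subgroup.relIndex_inf_le
      _ ≤ C.relIndex S * S.relIndex S' := Nat.mul_le_mul hS (h1.trans h3)
      _ = C.relIndex S' := Subgroup.relIndex_mul_relIndex _ _ _ hCS hSS'
  exact le_antisymm (key A B hcard) (key B A (by rwa [Subgroup.commutator_comm]))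

end Cfsg.Agent.S3741
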