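import Cfsg.Statements.S3742


set_option autoImplicit false
open Cfsg

namespace Cfsg.Agent.S3742

abbrev Q8 := QuaternionGroup 2

/-- The map determined by the images of the two generators. -/
def ext (u v : Q8) : Q8 → Q8
  | .a i => u ^ i.val
  | .xa i => v * u ^ i.val

/-- Image conditions on the pair of generators. -/
def Good (u v : Q8) : Prop :=
  u ^ 2 ≠ 1 ∧ v ^ 2 = u ^ 2 ∧ v * u = u ^ 3 * v

instance (u v : Q8) : Decidable (Good u v) := by unfold Good; infer_instance

set_option maxRecDepth 10000 in
theorem ext_mul : ∀ u v : Q8, Good u v → ∀ x y : Q8, ext u v (x * y) = ext u v x * ext u v y := by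
  decide +kernel

set_option maxRecDepth 10000 in
theorem ext_inj : ∀ u v : Q8, Good u v → ∀ x y : Q8, ext u v x = ext u v y → x = y := by
  decide +kernel

set_option maxRecDepth 10000 in
theorem card_good : (Finset.univ.filter fun p : Q8 × Q8 => Good p.1 p.2).card = 24 := by
  decide +kernel

theorem good_of_aut (φ : MulAut Q8) : Good (φ (.a 1)) (φ (.xa 0)) := by
  have h : Good (.a 1 : Q8) (.xa 0) := by decide +kernel
  obtain ⟨h1, h2, h3⟩ := h
  refine ⟨fun e => h1 (φ.injective (by rw [map_pow, e, map_one])), ?_, ?_⟩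
  · rw [← map_pow, h2, map_pow]
  · rw [← map_mul, h3, map_mul, map_pow]

theorem apply_eq_ext (φ : MulAut Q8) (x : Q8) : φ x = ext (φ (.a 1)) (φ (.xa 0)) x := by
  have key : ∀ y : Q8, y = ext (.a 1) (.xa 0) y := by decide +kernel
  conv_lhs => rw [key x]
  rcases x with i | i
  · show φ ((QuaternionGroup.a 1 : Q8) ^ i.val) = φ (.a 1) ^ i.val
    rw [map_pow]
  · show φ ((QuaternionGroup.xa 0 : Q8) * (QuaternionGroup.a 1 : Q8) ^ i.val) = φ (.xa 0) * φ (.a 1) ^ i.val
    rw [map_mul, map_pow]

/-- The four diagonals of the cube on the six elements of order four. -/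
def diag (d : Fin 4) : Finset (Finset Q8) :=
  let j : Q8 := if d.val % 2 = 0 then .xa 0 else .xa 2
  let k : Q8 := if d.val / 2 = 0 then .xa 1 else .xa 3
  {{.a 1, j, k}, ({.a 1, j, k} : Finset Q8).image fun x => .a 2 * x}

def T : Finset (Finset (Finset Q8)) := Finset.univ.image diag

set_option maxRecDepth 10000 in
theorem T_card : T.card = 4 := by decide +kernel

set_option maxRecDepth 10000 in
theorem ext_T : ∀ u v : Q8, Good u v → ∀ d : Fin 4,
    (diag d).image (Finset.image (ext u v)) ∈ T := by decide +kernel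

set_option maxRecDepth 10000 in
theorem ext_faithful : ∀ u v : Q8, Good u v →
    (∀ d : Fin 4, (diag d).image (Finset.image (ext u v)) = diag d) → u = .a 1 ∧ v = .xa 0 := by
  decide +kernel

theorem image_mem_T (φ : MulAut Q8) (S : T) : S.1.image (Finset.image φ) ∈ T := by
  obtain ⟨d, -, hd⟩ := Finset.mem_image.1 S.2
  have : (φ : Q8 → Q8) = ext (φ (.a 1)) (φ (.xa 0)) := funext (apply_eq_ext φ)
  rw [← hd, this]
  exact ext_T _ _ (good_of_aut φ) d

theorem iso : Nonempty (MulAut Q8 ≃* Equiv.Perm (Fin 4)) := by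
  classical
  let act : MulAction (MulAut Q8) T :=
    { smul := fun φ S => ⟨S.1.image (Finset.image φ), image_mem_T φ S⟩
      one_smul := fun S => Subtype.ext (by
        show S.1.image (Finset.image ((1 : MulAut Q8) : Q8 → Q8)) = S.1
        have h : Finset.image ((1 : MulAut Q8) : Q8 → Q8) = id := by funext s; simp [MulAut.one_def]
        rw [h, Finset.image_id])
      mul_smul := fun φ ψ S => Subtype.ext (by
        show S.1.image (Finset.image ((φ * ψ : MulAut Q8) : Q8 → Q8)) =
          (S.1.image (Finset.image ψ)).image (Finset.image φ)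
        rw [Finset.image_image]
        congr 1
        funext s
        simp [Finset.image_image, MulAut.mul_def, Function.comp_def]) }
  let e : T ≃ Fin 4 := Fintype.equivFinOfCardEq (by rw [Fintype.card_coe, T_card])
  let f : MulAut Q8 →* Equiv.Perm (Fin 4) :=
    (e.permCongrHom).toMonoidHom.comp (MulAction.toPermHom (MulAut Q8) T)
  have hinj : Function.Injective f := by
    rw [← MonoidHom.ker_eq_bot_iff, eq_bot_iff]
    intro φ hφ
    rw [MonoidHom.mem_ker] at hφ
    have h1 : MulAction.toPermHom (MulAut Q8) T φ = 1 :=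
      (e.permCongrHom).injective (by rw [map_one]; exact hφ)
    have hfix : ∀ d : Fin 4, (diag d).image (Finset.image φ) = diag d := fun d =>
      congrArg Subtype.val (Equiv.ext_iff.1 h1 ⟨diag d, Finset.mem_image_of_mem _ (Finset.mem_univ d)⟩)
    have hfun : (φ : Q8 → Q8) = ext (φ (.a 1)) (φ (.xa 0)) := funext (apply_eq_ext φ)
    obtain ⟨h2, h3⟩ := ext_faithful _ _ (good_of_aut φ) (fun d => by rw [← hfun]; exact hfix d)
    rw [Subgroup.mem_bot]
    refine MulEquiv.ext fun x => ?_
    rw [apply_eq_ext φ x, h2, h3]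
    have key : ∀ y : Q8, ext (.a 1) (.xa 0) y = y := by decide +kernel
    rw [key x]; rfl
  have : Fintype (MulAut Q8) := Fintype.ofInjective f hinj
  have hcard : Fintype.card (MulAut Q8) = 24 := by
    rw [← card_good, ← Fintype.card_coe]
    refine Fintype.card_congr
      { toFun := fun φ => ⟨(φ (.a 1), φ (.xa 0)), by simpa using good_of_aut φ⟩
        invFun := fun p => MulEquiv.ofBijective
          (MonoidHom.mk' (ext p.1.1 p.1.2) (ext_mul _ _ (Finset.mem_filter.1 p.2).2))
          (Finite.injective_iff_bijective.1 (fun x y h => ext_inj _ _ (Finset.mem_filter.1 p.2).2 x y h))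
        left_inv := fun φ => MulEquiv.ext fun x => (apply_eq_ext φ x).symm
        right_inv := fun p => Subtype.ext (Prod.ext ?_ ?_) }
    · show ext p.1.1 p.1.2 (.a 1) = p.1.1
      exact pow_one _
    · show ext p.1.1 p.1.2 (.xa 0) = p.1.2
      exact mul_one _
  refine ⟨MulEquiv.ofBijective f ((Fintype.bijective_iff_injective_and_card f).2 ⟨hinj, ?_⟩)⟩
  rw [hcard, Fintype.card_perm, Fintype.card_fin]
  rfl

/-- The automorphism group of the quaternion group of order 8 is isomorphic to the symmetric group of degree 4. -/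
theorem result : Nonempty (MulAut (QuaternionGroup 2) ≃* Equiv.Perm (Fin 4)) := iso

end Cfsg.Agent.S3742
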