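import Cfsg.Statements.S3746
import Mathlib
import Cfsg.Agent.Lib.Comp.Component
import Cfsg.Agent.Lib.Solv.Coprime
-- import your own Cfsg.Agent.* helpers here

set_option autoImplicit false
open Cfsg
open scoped commutatorElement

namespace Cfsg.Agent.S3746

/-- Let Z ≤ Z(G) be a central subgroup of a finite group G and E a subgroup of G containing Z whose image E/Z is a component of G/Z (subnormal and quasisimple). Then the derived subgroup [E, E] is a component of G. -/
theorem result {G : Type*} [Group G] [Finite G] (Z : Subgroup G) (hZ : Z ≤ Subgroup.center G) [Z.Normal] (E : Subgroup G) (hZE : Z ≤ E) (hE : Cfsg.IsComponent (E.map (QuotientGroup.mk' Z))) : Cfsg.IsComponent ⁅E, E⁆ := by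
  set q := QuotientGroup.mk' Z with hq
  have hker : q.ker = Z := QuotientGroup.ker_mk' Z
  have hcl : ∀ A : Subgroup G, ∀ z ∈ Z, z ∈ Subgroup.centralizer (A : Set G) := fun A z hz =>
    Subgroup.mem_centralizer_iff.2 fun y _ => Subgroup.mem_center_iff.1 (hZ hz) y
  -- commutators do not see `Z`
  have hcom : ∀ A : Subgroup G, ⁅A ⊔ Z, A ⊔ Z⁆ = ⁅A, A⁆ := by
    intro A
    refine le_antisymm (Subgroup.commutator_le.2 fun x hx y hy => ?_) (Subgroup.commutator_mono le_sup_left le_sup_left)
    obtain ⟨a, ha, z, hz, rfl⟩ := Subgroup.mem_sup_of_normal_right.1 hx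
    obtain ⟨b, hb, w, hw, rfl⟩ := Subgroup.mem_sup_of_normal_right.1 hy
    have e1 : ∀ y : G, y * z = z * y := Subgroup.mem_center_iff.1 (hZ hz)
    have e2 : ∀ y : G, y * w = w * y := Subgroup.mem_center_iff.1 (hZ hw)
    have : ⁅a * z, b * w⁆ = ⁅a, b⁆ := by
      simp only [commutatorElement_def, mul_inv_rev]
      calc a * z * (b * w) * (z⁻¹ * a⁻¹) * (w⁻¹ * b⁻¹)
          = a * (z * b) * w * z⁻¹ * a⁻¹ * w⁻¹ * b⁻¹ := by group
        _ = a * b * (z * w) * z⁻¹ * a⁻¹ * w⁻¹ * b⁻¹ := by rw [← e1 b]; group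
        _ = a * b * (w * a⁻¹) * w⁻¹ * b⁻¹ := by rw [← e1 w]; group
        _ = a * b * a⁻¹ * b⁻¹ := by rw [← e2 a⁻¹]; group
    rw [this]
    exact Subgroup.commutator_mem_commutator ha hb
  set D := ⁅E, E⁆ with hD
  have hDE : D ≤ E := Subgroup.commutator_le_self E
  have hqD : D.map q = E.map q := by
    rw [hD, Subgroup.map_commutator]; exact Cfsg.Lib.Comp.component_perfect hE
  have hDZ : D ⊔ Z = E := by
    have := congrArg (Subgroup.comap q) hqD
    rwa [Subgroup.comap_map_eq, Subgroup.comap_map_eq, hker, sup_eq_left.2 hZE] at this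
  have hDD : ⁅D, D⁆ = D := by rw [← hcom, hDZ]
  have hEsn : E.IsSubnormal := by
    have := hE.1.comap q
    rwa [Subgroup.comap_map_eq, hker, sup_eq_left.2 hZE] at this
  have hDn : (D.subgroupOf E).Normal := (Subgroup.normal_subgroupOf_iff_le_normalizer hDE).2
    (by rw [hD]; exact Cfsg.Lib.Solv.le_normalizer_commutator_left E E)
  have hDsn : D.IsSubnormal := .step D E hDE hEsn hDn
  have hne : Nontrivial D := D.nontrivial_iff_ne_bot.2 fun h => by
    refine Cfsg.Lib.Comp.component_ne_bot hE ?_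
    rw [← hqD, h, Subgroup.map_bot]
  have hperf : Group.IsPerfect D := (Subgroup.isPerfect_iff).2 hDD
  refine ⟨hDsn, Cfsg.Lib.Comp.isQuasisimple_of_normal fun N hN => ?_⟩
  set N' := N.map D.subtype with hN'
  have hN'D : N' ≤ D := Subgroup.map_subtype_le N
  have hN'D' : (N'.subgroupOf D).Normal := by
    rwa [hN', Subgroup.subgroupOf, Subgroup.comap_map_eq_self_of_injective D.subtype_injective]
  have hnorm : E ≤ Subgroup.normalizer ((N' ⊔ Z : Subgroup G) : Set G) := by
    rw [← hDZ]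
    refine sup_le (fun d hd => ?_) (fun z hz => Subgroup.le_normalizer (Subgroup.mem_sup_right hz))
    have h1 := (Subgroup.normal_subgroupOf_iff_le_normalizer hN'D).1 hN'D' hd
    rw [Subgroup.mem_normalizer_iff]
    have key : ∀ d : G, d ∈ Subgroup.normalizer (N' : Set G) →
        ∀ x ∈ N' ⊔ Z, d * x * d⁻¹ ∈ N' ⊔ Z := by
      intro d hd x hx
      obtain ⟨a, ha, z, hz, rfl⟩ := Subgroup.mem_sup_of_normal_right.1 hx
      have e : d * (a * z) * d⁻¹ = (d * a * d⁻¹) * z := by
        have := Subgroup.mem_center_iff.1 (hZ hz) d⁻¹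
        calc d * (a * z) * d⁻¹ = d * a * (z * d⁻¹) := by group
          _ = _ := by rw [← this]; group
      rw [e]
      exact mul_mem (Subgroup.mem_sup_left ((Subgroup.mem_normalizer_iff.1 hd a).1 ha)) (Subgroup.mem_sup_right hz)
    intro x
    refine ⟨key d h1 x, fun h => ?_⟩
    have := key d⁻¹ (inv_mem h1) _ h
    simpa [mul_assoc] using this
  have hbarN : ((N'.map q).subgroupOf (E.map q)).Normal := by
    have hle : N' ⊔ Z ≤ E := sup_le (hN'D.trans hDE) hZE
    refine (Subgroup.normal_subgroupOf_iff_le_normalizer (Subgroup.map_mono (hN'D.trans hDE))).2 ?_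
    have h2 : (N' ⊔ Z).map q = N'.map q := by
      rw [Subgroup.map_sup, (Subgroup.map_eq_bot_iff _).2 hker.ge, sup_bot_eq]
    rw [← h2]
    exact (Subgroup.map_mono hnorm).trans (Subgroup.le_normalizer_map q)
  rcases Cfsg.Lib.Comp.isQuasisimple_normal hE.2 ((N'.map q).subgroupOf (E.map q)) with h | h
  · left
    have h1 : E.map q ≤ N'.map q := Subgroup.subgroupOf_eq_top.1 h
    have h2 : E ≤ N' ⊔ Z := by
      rw [Subgroup.map_le_iff_le_comap, Subgroup.comap_map_eq, hker] at h1
      exact h1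
    have h3 : D ≤ N' := by
      calc D = ⁅E, E⁆ := rfl
        _ ≤ ⁅N' ⊔ Z, N' ⊔ Z⁆ := Subgroup.commutator_mono h2 h2
        _ = ⁅N', N'⁆ := hcom N'
        _ ≤ N' := Subgroup.commutator_le_self N'
    rw [eq_top_iff]
    intro d _
    obtain ⟨n, hn, he⟩ := h3 d.2
    rwa [← Subtype.ext he]
  · right
    have h1 : ⁅N', D⁆ ≤ Z := by
      rw [Subgroup.commutator_le]
      intro n hn d hd
      rw [← QuotientGroup.eq_one_iff]
      show q ⁅n, d⁆ = 1
      rw [map_commutatorElement, commutatorElement_eq_one_iff_mul_comm]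
      have := Subgroup.mem_center_iff.1 (h (show (⟨q n, Subgroup.mem_map_of_mem q (hDE (hN'D hn))⟩ : E.map q) ∈
        (N'.map q).subgroupOf (E.map q) from Subgroup.mem_map_of_mem q hn))
        ⟨q d, Subgroup.mem_map_of_mem q (hDE hd)⟩
      exact (congrArg Subtype.val this).symm
    have h2 : ⁅⁅N', D⁆, D⁆ = ⊥ := le_bot_iff.1 ((Subgroup.commutator_mono h1 le_rfl).trans
      (le_of_eq (Subgroup.commutator_eq_bot_iff_le_centralizer.2 fun z hz => hcl D z hz)))
    have h3 := Subgroup.commutator_eq_bot_iff_le_centralizer.1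
      (Cfsg.Lib.Comp.commutator_eq_bot_of_perfect hDD h2)
    intro n hn
    rw [Subgroup.mem_center_iff]
    intro y
    exact Subtype.ext (Subgroup.mem_centralizer_iff.1 (h3 y.2) n (Subgroup.mem_map_of_mem _ hn)).symm

end Cfsg.Agent.S3746
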