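import Cfsg.Statements.S3747
import Mathlib
import Cfsg.Agent.Lib.Comp.Layer
import Cfsg.Agent.Lib.Solv.Subnormal
import Cfsg.Agent.Lib.Solv.MinNormal
-- import your own Cfsg.Agent.* helpers here

set_option autoImplicit false
open Cfsg

namespace Cfsg.Agent.S3747

/-- Let G be a finite group. (a) If K is a component of G with trivial centre, then the normal closure of K in G is a minimal normal subgroup of G. (b) If the Fitting subgroup of G is trivial, then the layer E(G) is generated by the minimal normal subgroups of G. -/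
theorem result {G : Type*} [Group G] [Finite G] : (∀ K : Subgroup G, Cfsg.IsComponent K → Subgroup.center ↥K = ⊥ → (Subgroup.normalClosure (K : Set G) ≠ ⊥ ∧ ∀ N : Subgroup G, N.Normal → N ≤ Subgroup.normalClosure (K : Set G) → N = ⊥ ∨ N = Subgroup.normalClosure (K : Set G))) ∧ (Cfsg.fittingSubgroup G = ⊥ → sSup {N : Subgroup G | N ≠ ⊥ ∧ N.Normal ∧ ∀ N' : Subgroup G, N'.Normal → N' ≤ N → N' = ⊥ ∨ N' = N} = Cfsg.layer G) := by
  classical
  have := Fintype.ofFinite G
  have hA : ∀ K : Subgroup G, Cfsg.IsComponent K → Subgroup.center ↥K = ⊥ →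
      (Subgroup.normalClosure (K : Set G) ≠ ⊥ ∧ ∀ N : Subgroup G, N.Normal → N ≤ Subgroup.normalClosure (K : Set G) → N = ⊥ ∨ N = Subgroup.normalClosure (K : Set G)) := by
    intro K hK hZ
    have hKle : K ≤ Subgroup.normalClosure (K : Set G) := fun x hx => Subgroup.subset_normalClosure hx
    refine ⟨fun h => Cfsg.Lib.Comp.component_ne_bot hK (le_bot_iff.1 (h ▸ hKle)), fun M hM hle => ?_⟩
    let s : Finset (Subgroup G) := Finset.univ.image fun g : G => K.map (MulAut.conj g).toMonoidHom
    have hs : ∀ L ∈ s, Cfsg.IsComponent L := by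
      intro L hL
      obtain ⟨g, -, rfl⟩ := Finset.mem_image.1 hL
      exact Cfsg.Lib.Comp.component_conj g hK
    have hN : Subgroup.normalClosure (K : Set G) = s.sup id := by
      refine le_antisymm ((Subgroup.closure_le _).2 fun x hx => ?_) (Finset.sup_le fun L hL => ?_)
      · obtain ⟨k, hk, hc⟩ := Group.mem_conjugatesOfSet_iff.1 hx
        obtain ⟨g, hg⟩ := isConj_iff.1 hc
        have hmem : K.map (MulAut.conj g).toMonoidHom ∈ s := Finset.mem_image_of_mem _ (Finset.mem_univ g)
        exact (Finset.le_sup (f := id) hmem) (Subgroup.mem_map.2 ⟨k, hk, hg⟩)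
      · obtain ⟨g, -, rfl⟩ := Finset.mem_image.1 hL
        rintro _ ⟨k, hk, rfl⟩
        exact Subgroup.Normal.conj_mem inferInstance k (hKle hk) g
    by_cases hex : ∃ L ∈ s, L ≤ M
    · obtain ⟨L, hL, hLM⟩ := hex
      obtain ⟨g, -, rfl⟩ := Finset.mem_image.1 hL
      refine Or.inr (le_antisymm hle (Subgroup.normalClosure_le_normal fun k hk => ?_))
      have := hM.conj_mem _ (hLM (Subgroup.mem_map_of_mem _ hk)) g⁻¹
      simpa [mul_assoc] using this
    left
    have hc : M ≤ Subgroup.centralizer ((s.sup id : Subgroup G) : Set G) := by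
      rw [Subgroup.le_centralizer_iff]
      exact Finset.sup_le fun L hL => Subgroup.commutator_eq_bot_iff_le_centralizer.1
        ((Cfsg.Lib.Comp.component_subnormal (hs L hL) hM.isSubnormal).resolve_left
          fun h => hex ⟨L, hL, h⟩)
    rw [eq_bot_iff]
    refine le_trans (le_inf (hN ▸ hle) hc) ((Cfsg.Lib.Comp.sup_center_commuting id s fun i hi j hj hne =>
      Cfsg.Lib.Comp.component_commute (hs i hi) (hs j hj) hne).trans (Finset.sup_le fun L hL => ?_))
    obtain ⟨g, -, rfl⟩ := Finset.mem_image.1 hL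
    rintro z ⟨⟨k, hk, rfl⟩, hz⟩
    have : (⟨k, hk⟩ : K) ∈ Subgroup.center ↥K := by
      rw [Subgroup.mem_center_iff]
      intro y
      have h2 := Subgroup.mem_centralizer_iff.1 hz _ (Subgroup.mem_map_of_mem _ y.2)
      exact Subtype.ext ((MulAut.conj g).injective (by simpa only [map_mul, Subgroup.coe_mul, MulEquiv.coe_toMonoidHom] using h2))
    rw [hZ, Subgroup.mem_bot] at this
    rw [Subgroup.mem_bot, show k = 1 from congrArg Subtype.val this, map_one]
  refine ⟨hA, fun hF => ?_⟩
  refine le_antisymm (sSup_le ?_) (Cfsg.Lib.Comp.layer_le_iff.2 fun K hK => ?_)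
  · rintro N ⟨hne, hNn, hmin⟩
    rcases hmin (N ⊓ Cfsg.layer G) inferInstance inf_le_left with h | h
    · exfalso
      refine hne (le_bot_iff.1 ?_)
      have h1 := Cfsg.Lib.Comp.centralizer_fstar_le_fitting (G := G)
      rw [Cfsg.generalizedFittingSubgroup, hF, sup_bot_eq] at h1
      refine le_trans (fun x hx => ?_) h1
      rw [Subgroup.mem_centralizer_iff]
      intro y hy
      exact Subgroup.commute_of_normal_of_disjoint (Cfsg.layer G) N inferInstance hNn
        (disjoint_iff.2 (inf_comm N (Cfsg.layer G) ▸ h)) y x hy hx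
    · exact inf_eq_left.1 h
  · have hZ : Subgroup.center ↥K = ⊥ := by
      apply Subgroup.map_injective K.subtype_injective
      rw [Subgroup.map_bot, eq_bot_iff, ← hF]
      refine Cfsg.Lib.Solv.subnormal_nilpotent_le_fitting
        ((Subgroup.center ↥K).normal_of_characteristic.isSubnormal.trans' hK.1) ?_
      have : Group.IsNilpotent (Subgroup.center ↥K) := @CommGroup.isNilpotent _ { (inferInstance : Group (Subgroup.center ↥K)) with mul_comm := fun a b => Subtype.ext (Subgroup.mem_center_iff.1 b.2 a) }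
      exact Group.nilpotent_of_mulEquiv ((Subgroup.center ↥K).equivMapOfInjective K.subtype K.subtype_injective)
    obtain ⟨hne, hmin⟩ := hA K hK hZ
    refine le_trans (fun x hx => Subgroup.subset_normalClosure hx) (le_sSup ?_)
    exact ⟨hne, inferInstance, hmin⟩

end Cfsg.Agent.S3747
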