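import Cfsg.Statements.S3748
import Mathlib
import Cfsg.Agent.Lib.Solv.Subnormal
import Cfsg.Agent.Lib.Solv.MinNormal
import Cfsg.Agent.Lib.Solv.Cores
-- import your own Cfsg.Agent.* helpers here

set_option autoImplicit false
open Cfsg
open scoped Pointwise

namespace Cfsg.Agent.S3748

/-- Call a proper subgroup M of G primitive when M = N_G(N) for every non-trivial normal subgroup N of M. If M is a primitive subgroup of the finite group G, then no non-trivial subnormal subgroup of G is contained in M; in particular M ∩ F(G) = 1. -/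
theorem result {G : Type*} [Group G] [Finite G] (M : Subgroup G) (hM : M ≠ ⊤) (hprim : ∀ N : Subgroup G, N ≤ M → M ≤ Subgroup.normalizer (N : Set G) → N ≠ ⊥ → Subgroup.normalizer (N : Set G) = M) : (∀ L : Subgroup G, L.IsSubnormal → L ≤ M → L = ⊥) ∧ M ⊓ Cfsg.fittingSubgroup G = ⊥ := by
  classical
  have hMne : (⊤ : Subgroup G) ≠ ⊥ := fun h => hM (eq_top_iff.2 fun x _ => by
    have : x ∈ (⊥ : Subgroup G) := h ▸ Subgroup.mem_top x
    rw [Subgroup.mem_bot.1 this]; exact M.one_mem)
  have key : ∀ L : Subgroup G, L.IsSubnormal → L ≤ M → M ≤ Subgroup.normalizer (L : Set G) → L = ⊥ := by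
    intro L hL hLM hMn
    by_contra hne
    have hN := hprim L hLM hMn hne
    obtain ⟨V, hVn, -, hVne, hVmin⟩ := Cfsg.Lib.Solv.exists_minimal_normal_le hMne
    haveI := hVn
    have hVM : V ≤ M := hN ▸ Cfsg.Lib.Solv.minimal_normal_le_normalizer hVmin hL
    exact hM ((hprim V hVM Subgroup.le_normalizer_of_normal hVne).symm.trans
      (Subgroup.normalizer_eq_top_iff.2 hVn))
  have h1 : ∀ L : Subgroup G, L.IsSubnormal → L ≤ M → L = ⊥ := by
    intro L hL hLM
    letI := Fintype.ofFinite M
    set K := (Finset.univ : Finset M).sup (fun m => MulAut.conj (m : G) • L) with hK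
    have hKs : K.IsSubnormal := Finset.sup_induction (p := fun X : Subgroup G => X.IsSubnormal)
      (Subgroup.IsSubnormal.bot) (fun a ha b hb => Cfsg.Lib.Solv.sup_isSubnormal ha hb)
      (fun m _ => Cfsg.Lib.Solv.isSubnormal_conj _ hL)
    have hKM : K ≤ M := Finset.sup_le fun m _ x hx => by
      have h2 := hLM (Cfsg.Lib.Solv.mem_conj_smul.1 hx)
      have e : x = (m : G) * ((m : G)⁻¹ * x * m) * (m : G)⁻¹ := by group
      rw [e]
      exact M.mul_mem (M.mul_mem m.2 h2) (M.inv_mem m.2)
    have hKn : M ≤ Subgroup.normalizer (K : Set G) := by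
      have hle : ∀ g ∈ M, MulAut.conj g • K ≤ K := fun g hg => by
        rw [Cfsg.Lib.Solv.conj_smul_eq_map, hK, Finset.sup_eq_iSup, Subgroup.map_iSup]
        refine iSup_le fun m => ?_
        rw [Subgroup.map_iSup]
        refine iSup_le fun _ => ?_
        rintro _ ⟨x, hx, rfl⟩
        refine (le_iSup₂ (f := fun (m : M) (_ : m ∈ (Finset.univ : Finset M)) => MulAut.conj (m : G) • L)
          (⟨g, hg⟩ * m) (Finset.mem_univ _)) (Cfsg.Lib.Solv.mem_conj_smul.2 ?_)
        push_cast
        have h2 := Cfsg.Lib.Solv.mem_conj_smul.1 hx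
        have e : (g * (m : G))⁻¹ * (MulAut.conj g).toMonoidHom x * (g * (m : G)) = (m : G)⁻¹ * x * m := by
          show (g * (m : G))⁻¹ * (g * x * g⁻¹) * (g * (m : G)) = _
          group
        rwa [e]
      intro g hg
      refine Subgroup.mem_normalizer_iff.2 fun x => ⟨fun hx => ?_, fun hx => ?_⟩
      · refine hle g hg (Cfsg.Lib.Solv.mem_conj_smul.2 ?_)
        have e : g⁻¹ * (g * x * g⁻¹) * g = x := by group
        rwa [e]
      · refine hle g⁻¹ (M.inv_mem hg) (Cfsg.Lib.Solv.mem_conj_smul.2 ?_)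
        rwa [inv_inv]
    have hLK : L ≤ K := fun x hx => by
      refine (Finset.le_sup (f := fun m : M => MulAut.conj (m : G) • L) (Finset.mem_univ (1 : M))) ?_
      refine Cfsg.Lib.Solv.mem_conj_smul.2 ?_
      simpa using hx
    exact le_bot_iff.1 (hLK.trans (key K hKs hKM hKn).le)
  refine ⟨h1, h1 _ ?_ inf_le_left⟩
  haveI := Cfsg.Lib.Solv.fitting_isNilpotent (G := G)
  have hFn : (Cfsg.fittingSubgroup G).Normal := by
    rw [Cfsg.Lib.Solv.fitting_eq_iSup_pCore]; infer_instance
  exact Subgroup.IsSubnormal.trans inf_le_right (Cfsg.Lib.Solv.isSubnormal_of_nilpotent _) hFn.isSubnormal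

end Cfsg.Agent.S3748
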