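import Cfsg.Statements.S3749
import Mathlib
import Cfsg.Agent.Lib.Solv.Coprime
import Cfsg.Agent.Lib.Solv.Cores
import Cfsg.Agent.Lib.Transfer.Action
-- import your own Cfsg.Agent.* helpers here

set_option autoImplicit false
open Cfsg
open scoped Pointwise

namespace Cfsg.Agent.S3749

/-- Call a proper subgroup M of G primitive when M = N_G(N) for every non-trivial normal subgroup N of M. Let M be a primitive subgroup of the finite group G, p a prime with O_p(M) ≠ 1, and N a normal subgroup of G with M ∩ N = 1. Then p does not divide the order of N; for every prime q there is exactly one Sylow q-subgroup of N normalized by M; and if the order of N has at least two prime divisors then M is not a maximal subgroup of G. -/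
theorem result {G : Type*} [Group G] [Finite G] (M : Subgroup G) (hM : M ≠ ⊤) (hprim : ∀ N : Subgroup G, N ≤ M → M ≤ Subgroup.normalizer (N : Set G) → N ≠ ⊥ → Subgroup.normalizer (N : Set G) = M) {p : ℕ} [Fact p.Prime] (hOp : Cfsg.pCore p ↥M ≠ ⊥) (N : Subgroup G) [N.Normal] (hMN : M ⊓ N = ⊥) : ¬ p ∣ Nat.card N ∧ (∀ q : ℕ, [Fact q.Prime] → ∃! Q : Sylow q ↥N, M ≤ Subgroup.normalizer ((Q : Subgroup ↥N).map N.subtype : Set G)) ∧ ((∃ q r : ℕ, q.Prime ∧ r.Prime ∧ q ≠ r ∧ q ∣ Nat.card N ∧ r ∣ Nat.card N) → ¬ IsCoatom M) := by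
  classical
  have hp := (inferInstance : Fact p.Prime).out
  set T := (Cfsg.pCore p ↥M).map M.subtype with hT
  have hTM : T ≤ M := Subgroup.map_subtype_le _
  have hTne : T ≠ ⊥ := by
    rw [hT, Ne, Subgroup.map_eq_bot_iff_of_injective _ M.subtype_injective]
    exact hOp
  have hTp : IsPGroup p T := (Cfsg.Lib.Solv.isPGroup_pCore p).map _
  haveI hTnorm : (Cfsg.pCore p ↥M).Normal := Cfsg.Lib.Transfer.pCore_normal p
  have hMT : M ≤ Subgroup.normalizer (T : Set G) := by
    intro m hm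
    rw [← Cfsg.Lib.Solv.conj_smul_eq_self_iff]
    refine Subgroup.eq_of_le_of_card_ge ?_ (Cfsg.Lib.Solv.card_conj_smul _ _).ge
    rintro _ ⟨x, hx, rfl⟩
    obtain ⟨y, hy, rfl⟩ := Subgroup.mem_map.1 hx
    exact ⟨⟨m, hm⟩ * y * ⟨m, hm⟩⁻¹, hTnorm.conj_mem y hy _, rfl⟩
  have hTN : T ≤ Subgroup.normalizer (N : Set G) := fun x _ =>
    (Subgroup.normalizer_eq_top_iff.2 inferInstance : Subgroup.normalizer (N : Set G) = ⊤) ▸ trivial
  have hfix : N ⊓ Subgroup.centralizer (T : Set G) = ⊥ := by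
    refine le_bot_iff.1 ?_
    rw [← hMN]
    refine le_inf ?_ inf_le_left
    refine le_trans inf_le_right ?_
    rw [← hprim T hTM hMT hTne]
    exact Subgroup.centralizer_le_normalizer _
  have hpN : ¬ p ∣ Nat.card N := by
    intro hd
    have h := Cfsg.Lib.Transfer.card_modEq_card_inf_centralizer N T hTp hTN
    rw [hfix, Subgroup.card_bot] at h
    have h' : Nat.card N % p = 1 % p := h
    rw [Nat.mod_eq_zero_of_dvd hd, Nat.one_mod_eq_one.2 hp.one_lt.ne'] at h'
    exact zero_ne_one h'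
  have hcop : (Nat.card T).Coprime (Nat.card N) := by
    obtain ⟨k, hk⟩ := IsPGroup.iff_card.1 hTp
    rw [hk]
    exact Nat.Coprime.pow_left _ (hp.coprime_iff_not_dvd.2 hpN)
  have hsolv : Group.IsSolvable T ∨ Group.IsSolvable N := by
    haveI : Group.IsNilpotent T := hTp.isNilpotent
    exact Or.inl inferInstance
  have huniq : ∀ q : ℕ, [Fact q.Prime] → ∃! Q : Sylow q ↥N,
      M ≤ Subgroup.normalizer ((Q : Subgroup ↥N).map N.subtype : Set G) := by
    intro q _
    obtain ⟨Q, hQ⟩ := Cfsg.Lib.Solv.exists_invariant_sylow T N hTN hcop hsolv q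
    have key : ∀ R : Sylow q ↥N,
        T ≤ Subgroup.normalizer ((R : Subgroup ↥N).map N.subtype : Set G) → R = Q := by
      intro R hR
      obtain ⟨c, hc, hcQ⟩ := Cfsg.Lib.Solv.invariant_sylow_conj T N hTN hcop hsolv R Q hR hQ
      have hc1 : c = 1 := by
        have h : (c : G) ∈ N ⊓ Subgroup.centralizer (T : Set G) := ⟨c.2, hc⟩
        rw [hfix, Subgroup.mem_bot] at h
        exact Subtype.ext h
      rw [hc1, map_one, one_smul] at hcQ
      exact hcQ
    refine ⟨Q, ?_, fun R hR => key R (hTM.trans hR)⟩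
    intro m hm
    rw [← Cfsg.Lib.Solv.conj_smul_eq_self_iff]
    obtain ⟨R, hR⟩ := Cfsg.Lib.Solv.exists_sylow_map_eq (K := N)
      (Q := MulAut.conj m • (Q : Subgroup ↥N).map N.subtype) (by
        rintro _ ⟨x, hx, rfl⟩
        exact (inferInstance : N.Normal).conj_mem x (Subgroup.map_subtype_le _ hx) m) Q (by
        rw [Cfsg.Lib.Solv.card_conj_smul, Subgroup.card_map_of_injective N.subtype_injective])
    have hRT : T ≤ Subgroup.normalizer ((R : Subgroup ↥N).map N.subtype : Set G) := by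
      rw [hR]
      have h := Cfsg.Lib.Solv.mem_normalizer_conj_smul (g := m) hQ
      rwa [Cfsg.Lib.Solv.conj_smul_eq_self_iff.2 (hMT hm)] at h
    rw [key R hRT] at hR
    exact hR.symm
  refine ⟨hpN, huniq, ?_⟩
  rintro ⟨q, r, hq, hr, hqr, hqN, hrN⟩ hcoatom
  haveI := Fact.mk hq
  obtain ⟨Q, hQ, -⟩ := huniq q
  set Q' := (Q : Subgroup ↥N).map N.subtype with hQ'
  have hQN : Q' ≤ N := Subgroup.map_subtype_le _
  have hne : Q' ≠ ⊥ := by
    rw [hQ', Ne, Subgroup.map_eq_bot_iff_of_injective _ N.subtype_injective]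
    exact Q.ne_bot_of_dvd_card hqN
  have hlt : M < M ⊔ Q' := by
    refine lt_of_le_of_ne le_sup_left fun he => hne (le_bot_iff.1 ?_)
    rw [← hMN]
    exact le_inf (he ▸ le_sup_right) hQN
  have htop := hcoatom.2 _ hlt
  have hNQ : N ≤ Q' := by
    intro n hn
    have h : n ∈ M ⊔ Q' := htop ▸ trivial
    rw [← SetLike.mem_coe, Subgroup.coe_mul_of_left_le_normalizer_right M Q' hQ] at h
    obtain ⟨m, hm, x, hx, rfl⟩ := h
    have : m ∈ M ⊓ N := ⟨hm, by simpa using N.mul_mem hn (N.inv_mem (hQN hx))⟩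
    rw [hMN, Subgroup.mem_bot] at this
    simpa [this] using hx
  obtain ⟨k, hk⟩ := IsPGroup.iff_card.1 (Q.isPGroup'.map N.subtype)
  have hd : r ∣ q ^ k := hk ▸ hrN.trans (Subgroup.card_dvd_of_le hNQ)
  exact hqr ((Nat.prime_dvd_prime_iff_eq hr hq).1 (hr.dvd_of_dvd_pow hd)).symm

end Cfsg.Agent.S3749
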