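import Cfsg.Statements.S3750
import Mathlib
import Cfsg.Agent.Lib.Comp.Misc
import Cfsg.Agent.Lib.Comp.FStar
import Cfsg.Agent.Lib.Comp.Component
import Cfsg.Agent.Lib.Solv.Cores
-- import your own Cfsg.Agent.* helpers here

set_option autoImplicit false
open Cfsg

namespace Cfsg.Agent.S3750

/-- Call a proper subgroup M of G primitive when M = N_G(N) for every non-trivial normal subgroup N of M. Let M be a primitive subgroup of the finite group G and N a normal subgroup of G with M ∩ F*(N) ≠ 1. Then F(G) = 1 and F*(N) = F*(G) = E(G); in particular every minimal normal subgroup of G is contained in N. -/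
theorem result {G : Type*} [Group G] [Finite G] (M : Subgroup G) (hM : M ≠ ⊤) (hprim : ∀ N : Subgroup G, N ≤ M → M ≤ Subgroup.normalizer (N : Set G) → N ≠ ⊥ → Subgroup.normalizer (N : Set G) = M) (N : Subgroup G) [N.Normal] (hMF : M ⊓ (Cfsg.generalizedFittingSubgroup ↥N).map N.subtype ≠ ⊥) : Cfsg.fittingSubgroup G = ⊥ ∧ (Cfsg.generalizedFittingSubgroup ↥N).map N.subtype = Cfsg.generalizedFittingSubgroup G ∧ Cfsg.generalizedFittingSubgroup G = Cfsg.layer G ∧ ∀ K : Subgroup G, K.Normal → K ≠ ⊥ → (∀ K' : Subgroup G, K'.Normal → K' ≤ K → K' = ⊥ ∨ K' = K) → K ≤ N := by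
  classical
  have hFN := Cfsg.Lib.Comp.fstar_inf_eq (G := G) (H := N) (Subgroup.Normal.isSubnormal inferInstance)
  haveI hFn : (Cfsg.generalizedFittingSubgroup G).Normal := by
    haveI := Cfsg.Lib.Comp.fstar_characteristic (G := G)
    infer_instance
  rw [← hFN] at hMF ⊢
  set A := M ⊓ (Cfsg.generalizedFittingSubgroup G ⊓ N) with hA
  have hMA : M ≤ Subgroup.normalizer (A : Set G) := by
    intro m hm
    rw [Subgroup.mem_normalizer_iff]
    intro x
    have hn : (Cfsg.generalizedFittingSubgroup G ⊓ N).Normal := inferInstance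
    constructor
    · exact fun hx => ⟨M.mul_mem (M.mul_mem hm hx.1) (M.inv_mem hm), hn.conj_mem x hx.2 m⟩
    · intro hx
      have h1 := M.mul_mem (M.mul_mem (M.inv_mem hm) hx.1) hm
      have h2 := hn.conj_mem _ hx.2 m⁻¹
      exact ⟨by simpa [mul_assoc] using h1, by simpa [mul_assoc] using h2⟩
  have hNA := hprim A inf_le_left hMA hMF
  have hcent : ∀ K : Subgroup G, K ≤ Subgroup.centralizer (A : Set G) → K ≤ M := fun K hK x hx => by
    rw [← hNA]
    have hxC := Subgroup.mem_centralizer_iff.1 (hK hx)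
    refine Subgroup.mem_normalizer_iff.2 fun a => ⟨fun ha => ?_, fun ha => ?_⟩
    · rw [← hxC a ha, mul_inv_cancel_right]; exact ha
    · have h := hxC _ ha
      rw [show a = x * a * x⁻¹ from mul_left_cancel (a := x) (by rw [← h]; group)]
      exact ha
  have hcore : ∀ K : Subgroup G, K.Normal → K ≤ M → K = ⊥ := by
    intro K hK hKM
    by_contra hne
    exact hM (by rw [← hprim K hKM (le_top.trans (Subgroup.normalizer_eq_top_iff.2 hK).ge) hne]; exact Subgroup.normalizer_eq_top_iff.2 hK)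
  have hmin : ∀ K : Subgroup G, K.Normal → K ≠ ⊥ → (∀ K' : Subgroup G, K'.Normal → K' ≤ K → K' = ⊥ ∨ K' = K) → K ≤ N := by
    intro K hK hne hKmin
    rcases hKmin (K ⊓ N) inferInstance inf_le_left with h | h
    · exfalso
      refine hne (hcore K hK (hcent K ?_))
      have h2 : ⁅K, N⁆ = ⊥ := le_bot_iff.1 (h ▸ Subgroup.commutator_le_inf K N)
      exact (Subgroup.commutator_eq_bot_iff_le_centralizer.1 h2).trans
        (Subgroup.centralizer_le fun a ha => ha.2.2)
    · exact inf_eq_left.1 h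
  have hexists : ∀ Z : Subgroup G, Z.Normal → Z ≠ ⊥ → ∃ K : Subgroup G, K.Normal ∧ K ≠ ⊥ ∧ K ≤ Z ∧ K ≤ N := by
    intro Z hZ hZne
    obtain ⟨K, ⟨hK, hKne, hKZ⟩, hKmin⟩ := (Set.toFinite {K : Subgroup G | K.Normal ∧ K ≠ ⊥ ∧ K ≤ Z}).exists_minimal
      ⟨Z, hZ, hZne, le_rfl⟩
    refine ⟨K, hK, hKne, hKZ, hmin K hK hKne fun K' hK' hle => or_iff_not_imp_left.2 fun h => ?_⟩
    exact le_antisymm hle (hKmin ⟨hK', h, hle.trans hKZ⟩ hle)
  have hCN : Subgroup.centralizer (N : Set G) = ⊥ := by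
    by_contra hne
    obtain ⟨K, hK, hKne, hKC, hKN⟩ := hexists _ inferInstance hne
    exact hKne (hcore K hK (hcent K (hKC.trans (Subgroup.centralizer_le fun a ha => ha.2.2))))
  have hF : Cfsg.fittingSubgroup G = ⊥ := by
    by_contra hne
    set F := Cfsg.fittingSubgroup G with hFdef
    haveI : F.Characteristic := Cfsg.Lib.Solv.fitting_characteristic
    haveI : Group.IsNilpotent ↥F := Cfsg.Lib.Solv.fitting_isNilpotent
    haveI : Nontrivial ↥F := (Subgroup.nontrivial_iff_ne_bot F).2 hne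
    obtain ⟨K, hK, hKne, hKZ, hKN⟩ := hexists ((Subgroup.center ↥F).map F.subtype) inferInstance (fun h =>
      Group.IsNilpotent.center_ne_bot (G := ↥F) ((Subgroup.map_eq_bot_iff_of_injective _ F.subtype_injective).1 h))
    refine hKne (hcore K hK (hcent K (le_trans ?_ (Subgroup.centralizer_le (fun a ha => ha.2.1)))))
    intro k hk
    obtain ⟨z, hz, rfl⟩ := hKZ hk
    change (z : G) ∈ Subgroup.centralizer ((Cfsg.generalizedFittingSubgroup G : Subgroup G) : Set G)
    rw [Cfsg.Lib.Comp.centralizer_fstar_eq]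
    refine ⟨Subgroup.mem_centralizer_iff.2 fun l hl => ?_, Subgroup.mem_centralizer_iff.2 fun f hf => ?_⟩
    · exact (Subgroup.mem_centralizer_iff.1 (Cfsg.Lib.Comp.layer_le_centralizer_fitting hl) (z : G) z.2).symm
    · exact congrArg Subtype.val (Subgroup.mem_center_iff.1 hz ⟨f, hf⟩)
  have hEG : Cfsg.generalizedFittingSubgroup G = Cfsg.layer G := by
    rw [Cfsg.generalizedFittingSubgroup, hF, sup_bot_eq]
  have hEN : Cfsg.generalizedFittingSubgroup G ≤ N := by
    rw [hEG]
    refine Cfsg.Lib.Comp.layer_le_iff.2 fun L hL => ?_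
    refine (Cfsg.Lib.Comp.component_subnormal hL (Subgroup.Normal.isSubnormal inferInstance)).resolve_right fun h => ?_
    exact Cfsg.Lib.Comp.component_ne_bot hL (le_bot_iff.1 (hCN ▸ Subgroup.commutator_eq_bot_iff_le_centralizer.1 h))
  exact ⟨hF, inf_eq_left.2 hEN, hEG, hmin⟩

end Cfsg.Agent.S3750
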