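import Cfsg.Statements.S3751
import Cfsg.Agent.Lib.Solv.Cores
-- import your own Cfsg.Agent.* helpers here

set_option autoImplicit false
open Cfsg
open scoped Pointwise commutatorElement

namespace Cfsg.Agent.S3751

theorem normalizer_le_core {G : Type*} [Group G] {p : ℕ} (A : Subgroup G) :
    Subgroup.normalizer (A : Set G) ≤ Subgroup.normalizer (((Cfsg.pCore p ↥A).map A.subtype : Subgroup G) : Set G) := by
  have key : ∀ n ∈ Subgroup.normalizer (A : Set G), ∀ y ∈ (Cfsg.pCore p ↥A).map A.subtype,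
      n * y * n⁻¹ ∈ (Cfsg.pCore p ↥A).map A.subtype := by
    rintro n hn _ ⟨a, ha, rfl⟩
    have h := Subgroup.characteristic_iff_map_eq.1 (Cfsg.Lib.Solv.pCore_characteristic (G := ↥A) p) (A.normalizerMonoidHom ⟨n, hn⟩)
    exact ⟨A.normalizerMonoidHom ⟨n, hn⟩ a, h.le ⟨a, ha, rfl⟩, rfl⟩
  intro n hn
  refine Subgroup.mem_normalizer_iff.2 fun y => ⟨key n hn y, fun hy => ?_⟩
  have := key n⁻¹ (inv_mem hn) _ hy
  simpa [mul_assoc] using this

/-- Two distinct subgroups M₁, M₂ of G form a primitive pair when, for {i, j} = {1, 2}, every non-trivial normal subgroup A of M_i contained in M₁ ∩ M₂ satisfies N_{M_j}(A) = M₁ ∩ M₂; the pair has characteristic p when moreover C_{M_i}(O_p(M_i)) ≤ O_p(M_i) for both i and O_p(M₁)O_p(M₂) ≤ M₁ ∩ M₂. Let G be a finite group, p a prime dividing its order, with O_p(G) = 1 and every p-local subgroup of characteristic p. Then either G has a primitive pair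 of characteristic p, or every maximal p-local subgroup M of G is strongly p-embedded in G: M is a proper subgroup, p divides its order, and for every g ∉ M the order of M ∩ gMg⁻¹ is prime to p. -/
theorem result {G : Type*} [Group G] [Finite G] {p : ℕ} [Fact p.Prime] (hloc : Cfsg.IsOfLocalCharacteristic p G) (hOp : Cfsg.pCore p G = ⊥) : (∃ M₁ M₂ : Subgroup G, M₁ ≠ M₂ ∧ (∀ A : Subgroup G, A ≠ ⊥ → A ≤ M₁ ⊓ M₂ → (M₁ ≤ Subgroup.normalizer (A : Set G) → M₂ ⊓ Subgroup.normalizer (A : Set G) = M₁ ⊓ M₂) ∧ (M₂ ≤ Subgroup.normalizer (A : Set G) → M₁ ⊓ Subgroup.normalizer (A : Set G) = M₁ ⊓ M₂)) ∧ Subgroup.centralizer (Cfsg.pCore p ↥M₁ : Set ↥M₁) ≤ Cfsg.pCore p ↥M₁ ∧ Subgroup.centralizer (Cfsg.pCore p ↥M₂ : Set ↥M₂) ≤ Cfsg.pCore p ↥M₂ ∧ (Cfsg.pCore p ↥M₁).map M₁.subtype ⊔ (Cfsg.pCore p ↥M₂).map M₂.subtype ≤ M₁ ⊓ M₂) ∨ (∀ M : Subgroup G, (∃ T : Subgroup G, IsPGroup p T ∧ T ≠ ⊥ ∧ M = Subgroup.normalizer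 (T : Set G)) → (∀ L : Subgroup G, (∃ T : Subgroup G, IsPGroup p T ∧ T ≠ ⊥ ∧ L = Subgroup.normalizer (T : Set G)) → M ≤ L → L = M) → M ≠ ⊤ ∧ p ∣ Nat.card M ∧ ∀ g : G, g ∉ M → ¬ p ∣ Nat.card ↥(M ⊓ M.map (MulAut.conj g).toMonoidHom)) := by
  classical
  let Loc : Set (Subgroup G) := {L | ∃ T : Subgroup G, IsPGroup p T ∧ T ≠ ⊥ ∧ L = Subgroup.normalizer (T : Set G)}
  let Mx : Subgroup G → Prop := fun M => M ∈ Loc ∧ ∀ L ∈ Loc, M ≤ L → L = M
  have hNT : ∀ M ∈ Loc, M ≠ ⊤ := by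
    rintro M ⟨T, hT, hT1, rfl⟩ htop
    refine hT1 (le_bot_iff.1 ?_)
    rw [← hOp]
    exact Cfsg.Lib.Solv.le_pCore (Subgroup.normalizer_eq_top_iff.1 htop) hT
  have hupper : ∀ L ∈ Loc, ∃ M, Mx M ∧ L ≤ M := by
    intro L hL
    obtain ⟨M, ⟨hM, hLM⟩, hmax⟩ := (Set.toFinite {M | M ∈ Loc ∧ L ≤ M}).exists_maximal ⟨L, hL, le_rfl⟩
    exact ⟨M, ⟨hM, fun L' hL' hle => le_antisymm (hmax ⟨hL', hLM.trans hle⟩ hle) hle⟩, hLM⟩
  set O : Subgroup G → Subgroup G := fun M => (Cfsg.pCore p ↥M).map M.subtype with hO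
  have hOp' : ∀ M : Subgroup G, IsPGroup p (O M) := fun M => (Cfsg.Lib.Solv.isPGroup_pCore p).map _
  have hOn : ∀ M : Subgroup G, M ≤ Subgroup.normalizer (O M : Set G) := fun M =>
    Subgroup.le_normalizer.trans (normalizer_le_core M)
  have hOne : ∀ M ∈ Loc, O M ≠ ⊥ := by
    rintro M ⟨T, hT, hT1, rfl⟩ h
    refine hT1 (le_bot_iff.1 (le_of_le_of_eq ?_ h))
    intro t ht
    refine ⟨⟨t, Subgroup.le_normalizer ht⟩, ?_, rfl⟩
    exact Cfsg.Lib.Solv.le_pCore (N := T.subgroupOf (Subgroup.normalizer (T : Set G))) Subgroup.normal_in_normalizer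
      (hT.of_equiv (Subgroup.subgroupOfEquivOfLe Subgroup.le_normalizer).symm) ht
  have hchar : ∀ M ∈ Loc, Subgroup.centralizer (Cfsg.pCore p ↥M : Set ↥M) ≤ Cfsg.pCore p ↥M := by
    rintro M ⟨T, hT, hT1, rfl⟩
    exact hloc.2 T hT hT1
  have hPP : ∀ M, Mx M → ∀ A : Subgroup G, A ≠ ⊥ → A ≤ M → M ≤ Subgroup.normalizer (A : Set G) →
      Subgroup.normalizer (A : Set G) = M := by
    intro M hM A hA hAM hMA
    haveI hAn : (A.subgroupOf M).Normal := Subgroup.normal_subgroupOf_of_le_normalizer hMA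
    set A₀ := (Cfsg.pCore p ↥A).map A.subtype with hA₀
    have hA₀n : M ≤ Subgroup.normalizer (A₀ : Set G) := hMA.trans (normalizer_le_core A)
    have hA₀ne : A₀ ≠ ⊥ := by
      intro h
      have hinf : A.subgroupOf M ⊓ Cfsg.pCore p ↥M = ⊥ := by
        rw [eq_bot_iff]
        intro x hx
        have hmem : (x : G) ∈ A₀ := by
          refine ⟨⟨x, hx.1⟩, ?_, rfl⟩
          refine Cfsg.Lib.Solv.le_pCore (N := ((A ⊓ O M).subgroupOf A)) ?_ ?_ ⟨hx.1, x, hx.2, rfl⟩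
          · exact ⟨fun n hn a => ⟨(a * n * a⁻¹).2, (Subgroup.mem_normalizer_iff.1 (hOn M (hAM a.2)) n).1 hn.2⟩⟩
          · exact ((hOp' M).to_le inf_le_right).of_equiv (Subgroup.subgroupOfEquivOfLe inf_le_left).symm
        rw [h, Subgroup.mem_bot] at hmem
        exact Subgroup.mem_bot.2 (Subtype.ext hmem)
      refine hA (le_bot_iff.1 fun a ha => ?_)
      have hc : (⟨a, hAM ha⟩ : ↥M) ∈ Subgroup.centralizer (Cfsg.pCore p ↥M : Set ↥M) :=
        Subgroup.mem_centralizer_iff.2 fun y hy => (Subgroup.commute_of_normal_of_disjoint (A.subgroupOf M)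
          (Cfsg.pCore p ↥M) hAn inferInstance (disjoint_iff.2 hinf) ⟨a, hAM ha⟩ y ha hy).symm
      have h2 : (⟨a, hAM ha⟩ : ↥M) ∈ A.subgroupOf M ⊓ Cfsg.pCore p ↥M := ⟨ha, hchar M hM.1 hc⟩
      rw [hinf, Subgroup.mem_bot] at h2
      exact Subgroup.mem_bot.2 (congrArg Subtype.val h2)
    have hloc₀ : Subgroup.normalizer (A₀ : Set G) ∈ Loc :=
      ⟨A₀, (Cfsg.Lib.Solv.isPGroup_pCore p).map _, hA₀ne, rfl⟩
    exact le_antisymm ((normalizer_le_core A).trans (hM.2 _ hloc₀ hA₀n).le) hMA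
  have hpair : ∀ M₁ M₂, Mx M₁ → Mx M₂ → M₁ ≠ M₂ → O M₁ ≤ M₂ → O M₂ ≤ M₁ →
      ∃ M₁ M₂ : Subgroup G, M₁ ≠ M₂ ∧ (∀ A : Subgroup G, A ≠ ⊥ → A ≤ M₁ ⊓ M₂ → (M₁ ≤ Subgroup.normalizer (A : Set G) → M₂ ⊓ Subgroup.normalizer (A : Set G) = M₁ ⊓ M₂) ∧ (M₂ ≤ Subgroup.normalizer (A : Set G) → M₁ ⊓ Subgroup.normalizer (A : Set G) = M₁ ⊓ M₂)) ∧ Subgroup.centralizer (Cfsg.pCore p ↥M₁ : Set ↥M₁) ≤ Cfsg.pCore p ↥M₁ ∧ Subgroup.centralizer (Cfsg.pCore p ↥M₂ : Set ↥M₂) ≤ Cfsg.pCore p ↥M₂ ∧ (Cfsg.pCore p ↥M₁).map M₁.subtype ⊔ (Cfsg.pCore p ↥M₂).map M₂.subtype ≤ M₁ ⊓ M₂ := by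
    intro M₁ M₂ h₁ h₂ hne ho₁ ho₂
    refine ⟨M₁, M₂, hne, fun A hA hAD => ⟨fun hn => ?_, fun hn => ?_⟩, hchar _ h₁.1, hchar _ h₂.1,
      sup_le (le_inf (Subgroup.map_subtype_le _) ho₁) (le_inf ho₂ (Subgroup.map_subtype_le _))⟩
    · rw [hPP M₁ h₁ A hA (hAD.trans inf_le_left) hn, inf_comm]
    · rw [hPP M₂ h₂ A hA (hAD.trans inf_le_right) hn]
  -- conjugates
  let cj : G → Subgroup G → Subgroup G := fun g H => H.map (MulAut.conj g).toMonoidHom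
  have hcj : ∀ (g : G) (T : Subgroup G), cj g (Subgroup.normalizer (T : Set G)) = Subgroup.normalizer ((cj g T : Subgroup G) : Set G) :=
    fun g T => Subgroup.map_equiv_normalizer_eq T (MulAut.conj g)
  have hcjloc : ∀ g, ∀ M ∈ Loc, cj g M ∈ Loc := by
    rintro g M ⟨T, hT, hT1, rfl⟩
    exact ⟨cj g T, hT.map _, fun h => hT1 ((Subgroup.map_eq_bot_iff_of_injective _ (MulAut.conj g).injective).1 h), hcj g T⟩
  have hcjcj : ∀ g H, cj g⁻¹ (cj g H) = H := by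
    intro g H
    simp only [cj, Subgroup.map_map]
    convert Subgroup.map_id H
    ext x
    simp [mul_assoc]
  have hcjinv : ∀ g H, cj g (cj g⁻¹ H) = H := fun g H => by
    have := hcjcj g⁻¹ H
    rwa [inv_inv] at this
  have hcjMx : ∀ g M, Mx M → Mx (cj g M) := by
    refine fun g M hM => ⟨hcjloc g M hM.1, fun L hL hle => ?_⟩
    have h1 : M ≤ cj g⁻¹ L := by
      rw [← hcjcj g M]
      exact Subgroup.map_mono hle
    rw [← hM.2 _ (hcjloc g⁻¹ L hL) h1, hcjinv]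
  have hself : ∀ M, Mx M → ∀ g, cj g M = M → g ∈ M := by
    intro M hM g hg
    have hn : g ∈ Subgroup.normalizer (M : Set G) := by
      refine Subgroup.mem_normalizer_iff.2 fun x => ⟨fun hx => ?_, fun hx => ?_⟩
      · rw [← hg]; exact ⟨x, hx, rfl⟩
      · rw [← hg] at hx
        obtain ⟨y, hy, he⟩ := hx
        rwa [← mul_left_cancel (mul_right_cancel (show g * y * g⁻¹ = g * x * g⁻¹ from he))]
    rw [← hPP M hM (O M) (hOne M hM.1) (Subgroup.map_subtype_le _) (hOn M)]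
    exact normalizer_le_core M hn
  by_cases hall : ∀ M, Mx M → ∀ g : G, g ∉ M → ¬ p ∣ Nat.card ↥(M ⊓ cj g M)
  · refine Or.inr fun M hM hmax => ⟨hNT M hM, ?_, fun g hg => hall M ⟨hM, hmax⟩ g hg⟩
    obtain ⟨T, hT, hT1, rfl⟩ := hM
    obtain ⟨j, hj⟩ := IsPGroup.iff_card.1 hT
    refine dvd_trans ?_ (Subgroup.card_dvd_of_le (Subgroup.le_normalizer : T ≤ _))
    rw [hj]
    refine dvd_pow_self p fun h => hT1 (Subgroup.eq_bot_of_card_eq T ?_)
    rw [hj, h, pow_zero]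
  left
  push_neg at hall
  obtain ⟨M₀, hM₀, g, hg, hdvd⟩ := hall
  obtain ⟨x, hx⟩ := exists_prime_orderOf_dvd_card' (G := ↥(M₀ ⊓ cj g M₀)) p hdvd
  let S : Set (Subgroup G) := {T | T ≠ ⊥ ∧ IsPGroup p T ∧ ∃ M L, Mx M ∧ Mx L ∧ M ≠ L ∧ T ≤ M ⊓ L}
  obtain ⟨T, ⟨hT1, hTp, M, L, hM, hL, hML, hTML⟩, hTmax⟩ := (Set.toFinite S).exists_maximal
    ⟨Subgroup.zpowers (x : G), by
      refine ⟨fun h => ?_, IsPGroup.of_card (n := 1) ?_, M₀, cj g M₀, hM₀, hcjMx g M₀ hM₀, fun h => hg (hself M₀ hM₀ g h.symm),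
        Subgroup.zpowers_le.2 x.2⟩
      · rw [Subgroup.zpowers_eq_bot] at h
        rw [← Subgroup.orderOf_coe, h, orderOf_one] at hx
        exact (Fact.out : p.Prime).one_lt.ne hx
      · rw [Nat.card_zpowers, Subgroup.orderOf_coe, hx, pow_one]⟩
  obtain ⟨H, hH, hNH⟩ := hupper (Subgroup.normalizer (T : Set G)) ⟨T, hTp, hT1, rfl⟩
  -- `T` is a Sylow subgroup of any member of the pair other than `H`, and contains its core
  have hstep : ∀ K, Mx K → T ≤ K → K ≠ H → ∀ P : Subgroup G, IsPGroup p P → T ≤ P → P ≤ K → P = T := by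
    intro K hK _ hKH P hP hTP hPK
    by_contra hne
    have hlt : T.subgroupOf P < ⊤ := lt_top_iff_ne_top.2 fun h => hne (le_antisymm (Subgroup.subgroupOf_eq_top.1 h) hTP)
    have hnc := @Group.normalizerCondition_of_isNilpotent _ _ hP.isNilpotent (T.subgroupOf P) hlt
    obtain ⟨y, hy, hyT⟩ := SetLike.exists_of_lt hnc
    have hyN : (y : G) ∈ Subgroup.normalizer (T : Set G) := by
      refine Subgroup.mem_normalizer_iff.2 fun z => ⟨fun hz => ?_, fun hz => ?_⟩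
      · exact (Subgroup.mem_normalizer_iff.1 hy ⟨z, hTP hz⟩).1 hz
      · have hzP : z ∈ P := by
          have := P.mul_mem (P.mul_mem (P.inv_mem y.2) (hTP hz)) y.2
          simpa [mul_assoc] using this
        exact (Subgroup.mem_normalizer_iff.1 hy ⟨z, hzP⟩).2 hz
    have hlt2 : T < P ⊓ Subgroup.normalizer (T : Set G) :=
      lt_of_le_of_ne (le_inf hTP Subgroup.le_normalizer) fun h => hyT (show (y : G) ∈ T by rw [h]; exact ⟨y.2, hyN⟩)
    exact hlt2.not_ge (hTmax ⟨fun h => hT1 (le_bot_iff.1 (h ▸ hlt2.le)), hP.to_le inf_le_left, K, H, hK, hH, hKH,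
      le_inf (inf_le_left.trans hPK) (inf_le_right.trans hNH)⟩ hlt2.le)
  have hcoreT : ∀ K, Mx K → T ≤ K → K ≠ H → O K ≤ T := by
    intro K hK hTK hKH
    have hsup : IsPGroup p ↥(O K ⊔ T) := IsPGroup.to_sup_of_normal_left' (hOp' K) hTp (hTK.trans (hOn K))
    have := hstep K hK hTK hKH _ hsup le_sup_right (sup_le (Subgroup.map_subtype_le _) hTK)
    exact le_sup_left.trans this.le
  have hTM : T ≤ M := hTML.trans inf_le_left
  have hTL : T ≤ L := hTML.trans inf_le_right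
  by_cases hsyl : ∀ K, (K = M ∨ K = L) → O K ≤ T
  · exact hpair M L hM hL hML ((hsyl M (Or.inl rfl)).trans hTL) ((hsyl L (Or.inr rfl)).trans hTM)
  push_neg at hsyl
  obtain ⟨K, hKeq, hKT⟩ := hsyl
  obtain ⟨K', hK', hK'H, hTK'⟩ : ∃ K', Mx K' ∧ K' ≠ H ∧ T ≤ K' := by
    by_cases h : M = H
    · exact ⟨L, hL, fun h' => hML (h.trans h'.symm), hTL⟩
    · exact ⟨M, hM, h, hTM⟩
  obtain ⟨hK, hTK⟩ : Mx K ∧ T ≤ K := by rcases hKeq with rfl | rfl; exacts [⟨hM, hTM⟩, ⟨hL, hTL⟩]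
  have hKH : K = H := by
    by_contra h
    exact hKT (hcoreT K hK hTK h)
  -- a normalizing `p`-element outside `T`
  have hP : IsPGroup p ↥(O K ⊔ T) := IsPGroup.to_sup_of_normal_left' (hOp' K) hTp (hTK.trans (hOn K))
  have hlt : T.subgroupOf (O K ⊔ T) < ⊤ := lt_top_iff_ne_top.2 fun h =>
    hKT (le_sup_left.trans (Subgroup.subgroupOf_eq_top.1 h))
  obtain ⟨y, hy, hyT⟩ := SetLike.exists_of_lt (@Group.normalizerCondition_of_isNilpotent _ _ hP.isNilpotent _ hlt)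
  have hyconj : ∀ z ∈ T, (y : G) * z * (y : G)⁻¹ ∈ T := fun z hz =>
    (Subgroup.mem_normalizer_iff.1 hy ⟨z, Subgroup.mem_sup_right hz⟩).1 hz
  have hcjT : cj (y : G) T = T :=
    Subgroup.eq_of_le_of_card_ge (by rintro _ ⟨z, hz, rfl⟩; exact hyconj z hz)
      (le_of_eq (Subgroup.card_map_of_injective (MulAut.conj (y : G)).injective).symm)
  have hO' := hcoreT K' hK' hTK' hK'H
  refine hpair K' (cj (y : G) K') hK' (hcjMx _ _ hK') (fun h => ?_) ?_ ?_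
  · have hyK : (y : G) ∈ K' := hself K' hK' _ h.symm
    have hle : Subgroup.zpowers (y : G) ⊔ T ≤ K' := sup_le (Subgroup.zpowers_le.2 hyK) hTK'
    have hp' : IsPGroup p ↥(Subgroup.zpowers (y : G) ⊔ T) := hP.to_le (sup_le (Subgroup.zpowers_le.2 y.2) le_sup_right)
    have h2 := hstep K' hK' hTK' hK'H _ hp' le_sup_right hle
    refine hyT (show (y : G) ∈ T from ?_)
    exact h2.le (Subgroup.mem_sup_left (Subgroup.mem_zpowers (y : G)))
  · exact hO'.trans (hcjT.ge.trans (Subgroup.map_mono hTK'))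
  · intro z hz
    have hOc : O (cj (y : G) K') ≤ cj (y : G) (O K') := by
      rintro _ ⟨⟨w, hw⟩, hwc, rfl⟩
      obtain ⟨u, hu, rfl⟩ := hw
      refine ⟨u, ⟨⟨u, hu⟩, ?_, rfl⟩, rfl⟩
      let e : ↥K' ≃* ↥(cj (y : G) K') := Subgroup.equivMapOfInjective K' _ (MulAut.conj (y : G)).injective
      have hN : (Cfsg.pCore p ↥(cj (y : G) K')).comap e.toMonoidHom ≤ Cfsg.pCore p ↥K' :=
        Cfsg.Lib.Solv.le_pCore inferInstance
          ((Cfsg.Lib.Solv.isPGroup_pCore p).comap_of_injective _ e.injective)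
      exact hN (show e ⟨u, hu⟩ ∈ Cfsg.pCore p ↥(cj (y : G) K') from hwc)
    exact hTK' (hcjT.le (Subgroup.map_mono hO' (hOc hz)))


end Cfsg.Agent.S3751
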