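import Cfsg.Statements.S3752
import Cfsg.Agent.Lib.Comp.Component
import Cfsg.Agent.Lib.Comp.FStar
import Cfsg.Agent.Lib.Solv.Cores
import Cfsg.Agent.Lib.Solv.SchurZassenhaus
-- import your own Cfsg.Agent.* helpers here

set_option autoImplicit false
open Cfsg
open scoped Pointwise commutatorElement

namespace Cfsg.Agent.S3752

open Cfsg.Lib.Solv Cfsg.Lib.Comp

variable {G : Type*} [Group G]

theorem comp_down {L A B : Subgroup G} (hLA : L ≤ A) (hAB : A ≤ B) (h : Cfsg.IsComponent (L.subgroupOf B)) :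
    Cfsg.IsComponent (L.subgroupOf A) := by
  refine ⟨?_, ?_⟩
  · have := h.1.comap (Subgroup.inclusion hAB)
    exact this
  · exact (isQuasisimple_congr (Subgroup.subgroupOfEquivOfLe hLA)).2
      ((isQuasisimple_congr (Subgroup.subgroupOfEquivOfLe (hLA.trans hAB))).1 h.2)

theorem comp_up {L A B : Subgroup G} (hLA : L ≤ A) (hAB : A ≤ B) (hA : B ≤ Subgroup.normalizer (A : Set G))
    (h : Cfsg.IsComponent (L.subgroupOf A)) : Cfsg.IsComponent (L.subgroupOf B) := by
  refine ⟨?_, ?_⟩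
  · haveI : (A.subgroupOf B).Normal := Subgroup.normal_subgroupOf_of_le_normalizer hA
    refine Subgroup.IsSubnormal.trans (K := A.subgroupOf B) (fun x hx => hLA hx) ?_ (Subgroup.Normal.isSubnormal inferInstance)
    have := h.1.comap (Subgroup.subgroupOfEquivOfLe hAB).toMonoidHom
    exact this
  · exact (isQuasisimple_congr (Subgroup.subgroupOfEquivOfLe (hLA.trans hAB))).2
      ((isQuasisimple_congr (Subgroup.subgroupOfEquivOfLe hLA)).1 h.2)

theorem map_normalizer (M : Subgroup G) (N : Subgroup ↥M) [N.Normal] :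
    M ≤ Subgroup.normalizer ((N.map M.subtype : Subgroup G) : Set G) := by
  have h1 : M ≤ Subgroup.normalizer (N.map M.subtype : Set G) := by
    refine fun g hg => Subgroup.mem_normalizer_iff.2 fun x => ⟨?_, ?_⟩
    · rintro ⟨y, hy, rfl⟩
      exact ⟨⟨g, hg⟩ * y * ⟨g, hg⟩⁻¹, (inferInstance : N.Normal).conj_mem y hy _, rfl⟩
    · rintro ⟨y, hy, he⟩
      refine ⟨⟨g, hg⟩⁻¹ * y * ⟨g, hg⟩, ?_, ?_⟩
      · simpa using (inferInstance : N.Normal).conj_mem y hy ⟨g, hg⟩⁻¹
      · show g⁻¹ * (y : G) * g = x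
        rw [show (y : G) = g * x * g⁻¹ from he]; group
  exact h1

variable [Finite G]

theorem layer_le (M₁ M₂ : Subgroup G) (h₁ : (Cfsg.generalizedFittingSubgroup ↥M₁).map M₁.subtype ≤ M₂)
    (h₂ : (Cfsg.generalizedFittingSubgroup ↥M₂).map M₂.subtype ≤ M₁) :
    (Cfsg.layer ↥M₁).map M₁.subtype ≤ (Cfsg.layer ↥M₂).map M₂.subtype := by
  rw [Subgroup.map_le_iff_le_comap]
  refine layer_le_iff.2 fun K hK => ?_
  rw [← Subgroup.map_le_iff_le_comap]
  set L := K.map M₁.subtype with hL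
  have hLM₁ : L ≤ M₁ := Subgroup.map_subtype_le _
  have hLM₂ : L ≤ M₂ := (Subgroup.map_mono ((component_le_layer hK).trans layer_le_fstar)).trans h₁
  have hKeq : L.subgroupOf M₁ = K := Subgroup.comap_map_eq_self_of_injective M₁.subtype_injective K
  rw [← hKeq] at hK
  set D := M₁ ⊓ M₂ with hD
  have hLD : L ≤ D := le_inf hLM₁ hLM₂
  have hKD := comp_down hLD inf_le_left hK
  set F₂ := (Cfsg.generalizedFittingSubgroup ↥M₂).map M₂.subtype with hF₂
  have hF₂D : F₂ ≤ D := le_inf h₂ (Subgroup.map_subtype_le _)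
  haveI : (Cfsg.generalizedFittingSubgroup ↥M₂).Normal := by
    haveI := fstar_characteristic (G := ↥M₂); infer_instance
  haveI hF₂n : (F₂.subgroupOf D).Normal :=
    Subgroup.normal_subgroupOf_of_le_normalizer (inf_le_right.trans (map_normalizer M₂ _))
  rcases component_subnormal hKD (Subgroup.Normal.isSubnormal hF₂n) with h | h
  · have hLF : L ≤ F₂ := fun x hx => h (show (⟨x, hLD hx⟩ : ↥D) ∈ L.subgroupOf D from hx)
    have hK2 := comp_up hLF (Subgroup.map_subtype_le _) (map_normalizer M₂ _) (comp_down hLF hF₂D hKD)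
    refine le_trans ?_ (Subgroup.map_mono (component_le_layer hK2))
    rw [Subgroup.subgroupOf_map_subtype, inf_eq_left.2 hLM₂]
  · exfalso
    have hle : L.subgroupOf M₂ ≤ Subgroup.centralizer (Cfsg.generalizedFittingSubgroup ↥M₂ : Set ↥M₂) := by
      intro x hx
      refine Subgroup.mem_centralizer_iff.2 fun f hf => Subtype.ext ?_
      show (f : G) * (x : G) = (x : G) * (f : G)
      have hfD : (f : G) ∈ D := hF₂D ⟨f, hf, rfl⟩
      have h' := Subgroup.commutator_eq_bot_iff_le_centralizer.1 h (show (⟨x, hLD hx⟩ : ↥D) ∈ L.subgroupOf D from hx)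
      exact congrArg Subtype.val (Subgroup.mem_centralizer_iff.1 h' ⟨f, hfD⟩ (show (f : G) ∈ F₂ from ⟨f, hf, rfl⟩))
    have hs : Group.IsSolvable ↥(L.subgroupOf M₂) :=
      Cfsg.Lib.Solv.solvable_of_le (hle.trans centralizer_fstar_le_fitting) fitting_solvable
    exact component_not_solvable hKD (Cfsg.Lib.Solv.solvable_of_equiv hs
      ((Subgroup.subgroupOfEquivOfLe hLM₂).trans (Subgroup.subgroupOfEquivOfLe hLD).symm))

theorem coprime_commute {D : Type*} [Group D] [Finite D] {A B : Subgroup D} [A.Normal] [B.Normal]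
    (h : (Nat.card A).Coprime (Nat.card B)) {a b : D} (ha : a ∈ A) (hb : b ∈ B) : a * b = b * a :=
  Subgroup.commute_of_normal_of_disjoint A B inferInstance inferInstance
    (disjoint_iff.2 (Cfsg.Lib.Solv.inf_eq_bot_of_coprime_card h)) a b ha hb

/-- The image of the `r`-core. -/
def O (r : ℕ) (M : Subgroup G) : Subgroup G := (Cfsg.pCore r ↥M).map M.subtype

theorem O_le (r : ℕ) (M : Subgroup G) : O r M ≤ M := Subgroup.map_subtype_le _

theorem fitting_le_of_cores {M : Subgroup G} {T : Subgroup ↥M} (h : ∀ r : ℕ, r.Prime → Cfsg.pCore r ↥M ≤ T) :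
    Cfsg.fittingSubgroup ↥M ≤ T := by
  rw [fitting_eq_iSup_pCore]
  exact iSup_le fun r => h r r.2

/-- The subgroup generated by the `q`-elements of `D` centralizing `R` is normalized. -/
theorem normalized_S (q : ℕ) [Fact q.Prime] (M D : Subgroup G) (hDM : D ≤ M)
    (hlay : Cfsg.layer ↥M = ⊥) (hF : (Cfsg.fittingSubgroup ↥M).map M.subtype ≤ D)
    (R : Subgroup G) (hR : R = ((Cfsg.fittingSubgroup ↥D ⊓ Cfsg.pPrimeCore q ↥D).map D.subtype))
    (hC : ∀ x ∈ M, x ∈ Subgroup.centralizer (R : Set G) → x ∈ D) :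
    M ≤ Subgroup.normalizer ((Subgroup.closure {x : G | x ∈ D ∧ x ∈ Subgroup.centralizer (R : Set G) ∧
      ∃ k, x ^ q ^ k = 1} : Subgroup G) : Set G) := by
  haveI : (Cfsg.pCore q ↥M).Normal := inferInstance
  have hRM : R ≤ M := by rw [hR]; exact (Subgroup.map_subtype_le _).trans hDM
  have hRn : D ≤ Subgroup.normalizer (R : Set G) := by rw [hR]; exact map_normalizer D _
  have hRD : R ≤ D := by rw [hR]; exact Subgroup.map_subtype_le _
  -- the `q'`-part of the Fitting subgroup of `M` lies in `R`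
  set R₁ := (Cfsg.fittingSubgroup ↥M ⊓ Cfsg.pPrimeCore q ↥M).map M.subtype with hR₁
  have hR₁D : R₁ ≤ D := (Subgroup.map_mono inf_le_left).trans hF
  have hR₁R : R₁ ≤ R := by
    rw [hR]
    intro x hx
    have hn : (R₁.subgroupOf D).Normal :=
      Subgroup.normal_subgroupOf_of_le_normalizer (hDM.trans (map_normalizer M _))
    have hcard : Nat.card ↥(R₁.subgroupOf D) = Nat.card ↥(Cfsg.fittingSubgroup ↥M ⊓ Cfsg.pPrimeCore q ↥M) := by
      rw [Nat.card_congr (Subgroup.subgroupOfEquivOfLe hR₁D).toEquiv, Subgroup.card_map_of_injective M.subtype_injective]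
    refine ⟨⟨x, hR₁D hx⟩, ⟨le_fitting hn ?_ hx, le_pPrimeCore hn ?_ hx⟩, rfl⟩
    · haveI : Group.IsNilpotent ↥(Cfsg.fittingSubgroup ↥M ⊓ Cfsg.pPrimeCore q ↥M) :=
        isNilpotent_of_le inf_le_left fitting_isNilpotent
      exact Group.nilpotent_of_mulEquiv ((Subgroup.equivMapOfInjective _ M.subtype M.subtype_injective).trans
        (Subgroup.subgroupOfEquivOfLe hR₁D).symm)
    · rw [hcard]
      exact (coprime_pPrimeCore q).coprime_dvd_left (Subgroup.card_dvd_of_le inf_le_right)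
  set B := O q M with hB
  have hBD : B ≤ D := (Subgroup.map_mono (pCore_le_fitting q)).trans hF
  have hRq : (Nat.card R).Coprime q := by
    rw [hR, Subgroup.card_map_of_injective D.subtype_injective]
    exact (coprime_pPrimeCore q).coprime_dvd_left (Subgroup.card_dvd_of_le inf_le_right)
  have hRB : ∀ r ∈ R, ∀ b ∈ B, r * b = b * r := by
    intro r hr b hb
    haveI : (B.subgroupOf D).Normal :=
      Subgroup.normal_subgroupOf_of_le_normalizer (hDM.trans (map_normalizer M _))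
    haveI : (R.subgroupOf D).Normal := Subgroup.normal_subgroupOf_of_le_normalizer hRn
    refine congrArg Subtype.val (coprime_commute (A := R.subgroupOf D) (B := B.subgroupOf D) ?_
      (a := ⟨r, hRD hr⟩) (b := ⟨b, hBD hb⟩) hr hb)
    rw [Nat.card_congr (Subgroup.subgroupOfEquivOfLe hRD).toEquiv, Nat.card_congr (Subgroup.subgroupOfEquivOfLe hBD).toEquiv,
      hB, O, Subgroup.card_map_of_injective M.subtype_injective]
    obtain ⟨j, hj⟩ := IsPGroup.iff_card.1 (isPGroup_pCore (G := ↥M) q)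
    rw [hj]
    exact hRq.pow_right j
  -- `q`-elements centralizing `R₁` centralize `R`
  have hkey : ∀ w ∈ M, w ∈ Subgroup.centralizer (R₁ : Set G) → (∃ k, w ^ q ^ k = 1) →
      w ∈ Subgroup.centralizer (R : Set G) := by
    rintro w hw hwR ⟨k, hk⟩
    refine Subgroup.mem_centralizer_iff.2 fun r hr => ?_
    set t := w * r * w⁻¹ * r⁻¹ with ht
    have htM : t ∈ M := M.mul_mem (M.mul_mem (M.mul_mem hw (hRM hr)) (M.inv_mem hw)) (M.inv_mem (hRM hr))
    have htB : ∀ b ∈ B, t * b = b * t := by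
      intro b hb
      have c1 : Commute r b := hRB r hr b hb
      have hb' : w⁻¹ * b * w ∈ B := (Subgroup.mem_normalizer_iff''.1 (map_normalizer M (Cfsg.pCore q ↥M) hw) b).1 hb
      have c2 : Commute r (w⁻¹ * b * w) := hRB r hr _ hb'
      calc t * b = w * r * w⁻¹ * (r⁻¹ * b) := by rw [ht]; group
        _ = w * (r * (w⁻¹ * b * w)) * w⁻¹ * r⁻¹ := by rw [c1.inv_left.eq]; group
        _ = b * t := by rw [c2.eq, ht]; group
    have htR₁ : ∀ y ∈ R₁, t * y = y * t := by
      intro y hy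
      have hy' : r⁻¹ * y * r ∈ R₁ :=
        (Subgroup.mem_normalizer_iff''.1 (map_normalizer M (Cfsg.fittingSubgroup ↥M ⊓ Cfsg.pPrimeCore q ↥M) (hRM hr)) y).1 hy
      have c1 : Commute w (r⁻¹ * y * r) := (Subgroup.mem_centralizer_iff.1 hwR _ hy').symm
      have c2 : Commute w y := (Subgroup.mem_centralizer_iff.1 hwR _ hy).symm
      calc t * y = w * r * w⁻¹ * (r⁻¹ * y * r) * r⁻¹ := by rw [ht]; group
        _ = w * r * (w⁻¹ * (r⁻¹ * y * r)) * r⁻¹ := by simp only [mul_assoc]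
        _ = w * y * r * w⁻¹ * r⁻¹ := by rw [c1.inv_left.eq]; group
        _ = y * t := by rw [c2.eq, ht]; group
    have htF : (⟨t, htM⟩ : ↥M) ∈ Cfsg.fittingSubgroup ↥M := by
      refine centralizer_fitting_le_of_layer_eq_bot hlay ?_
      have hle : Cfsg.fittingSubgroup ↥M ≤ Subgroup.centralizer ({(⟨t, htM⟩ : ↥M)} : Set ↥M) := by
        refine fitting_le_of_cores fun s hs f hf => Subgroup.mem_centralizer_singleton_iff.2 (Subtype.ext ?_)
        haveI := Fact.mk hs
        by_cases hsq : s = q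
        · subst hsq; exact (htB f ⟨f, hf, rfl⟩).symm
        · refine (htR₁ f ⟨f, ⟨pCore_le_fitting s hf, le_pPrimeCore inferInstance ?_ hf⟩, rfl⟩).symm
          obtain ⟨j, hj⟩ := IsPGroup.iff_card.1 (isPGroup_pCore (G := ↥M) s)
          rw [hj]
          exact ((Nat.coprime_primes hs (Fact.out : q.Prime)).2 hsq).pow_left j
      exact Subgroup.mem_centralizer_iff.2 fun f hf => Subgroup.mem_centralizer_singleton_iff.1 (hle hf)
    obtain ⟨t₁, ht₁, t₂, ht₂, he⟩ : ∃ a ∈ Cfsg.pCore q ↥M, ∃ b ∈ Cfsg.fittingSubgroup ↥M ⊓ Cfsg.pPrimeCore q ↥M,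
        a * b = ⟨t, htM⟩ := by
      have hle : Cfsg.fittingSubgroup ↥M ≤ Cfsg.pCore q ↥M ⊔ (Cfsg.fittingSubgroup ↥M ⊓ Cfsg.pPrimeCore q ↥M) := by
        refine fitting_le_of_cores fun s hs => ?_
        haveI := Fact.mk hs
        by_cases hsq : s = q
        · subst hsq; exact le_sup_left
        · refine le_trans (le_inf (pCore_le_fitting s) (le_pPrimeCore inferInstance ?_)) le_sup_right
          obtain ⟨j, hj⟩ := IsPGroup.iff_card.1 (isPGroup_pCore (G := ↥M) s)
          rw [hj]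
          exact ((Nat.coprime_primes hs (Fact.out : q.Prime)).2 hsq).pow_left j
      exact Subgroup.mem_sup_of_normal_left.1 (hle htF)
    have he' : (t₁ : G) * (t₂ : G) = t := congrArg Subtype.val he
    have ht₁B : (t₁ : G) ∈ B := ⟨t₁, ht₁, rfl⟩
    have ht₂R₁ : (t₂ : G) ∈ R₁ := ⟨t₂, ht₂, rfl⟩
    set u := (t₂ : G) * r with hu
    have huR : u ∈ R := R.mul_mem (hR₁R ht₂R₁) hr
    have hpow : ∀ y ∈ R, y ^ Nat.card R = 1 := fun y hy =>
      congrArg Subtype.val (pow_card_eq_one' (x := (⟨y, hy⟩ : ↥R)))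
    have ht₁1 : (t₁ : G) = 1 := by
      have c : Commute (t₁ : G) u := (hRB u huR _ ht₁B).symm
      have h0 : w * r * w⁻¹ = (t₁ : G) * u := by rw [hu, ← mul_assoc, he', ht]; group
      have h1 : ((t₁ : G) * u) ^ Nat.card R = 1 := by rw [← h0, conj_pow, hpow r hr]; group
      rw [c.mul_pow, hpow u huR, mul_one] at h1
      obtain ⟨j, hj⟩ := (isPGroup_pCore (G := ↥M) q) ⟨t₁, ht₁⟩
      have hj' : (t₁ : G) ^ q ^ j = 1 := congrArg (fun z => ((z : ↥M) : G)) (congrArg Subtype.val hj)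
      exact orderOf_eq_one_iff.1 (Nat.eq_one_of_dvd_coprimes (hRq.pow_right j)
        (orderOf_dvd_of_pow_eq_one h1) (orderOf_dvd_of_pow_eq_one hj'))
    have htR₁' : t ∈ R₁ := by rw [← he', ht₁1, one_mul]; exact ht₂R₁
    have cwt : Commute w t := (Subgroup.mem_centralizer_iff.1 hwR _ htR₁').symm
    have hiter : ∀ n, w ^ n * r * (w ^ n)⁻¹ = t ^ n * r := by
      intro n
      induction n with
      | zero => simp
      | succ n ih =>
        calc w ^ (n + 1) * r * (w ^ (n + 1))⁻¹ = w * (w ^ n * r * (w ^ n)⁻¹) * w⁻¹ := by rw [pow_succ']; group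
          _ = w * t ^ n * r * w⁻¹ := by rw [ih]; group
          _ = t ^ n * (w * r * w⁻¹) := by rw [(cwt.pow_right n).eq]; group
          _ = t ^ (n + 1) * r := by rw [pow_succ, mul_assoc (t ^ n), ht]; group
    have h2 := hiter (q ^ k)
    rw [hk, one_mul, inv_one, mul_one, right_eq_mul] at h2
    have h3 : t ^ Nat.card R = 1 := hpow t (hR₁R htR₁')
    have ht1 : t = 1 := orderOf_eq_one_iff.1 (Nat.eq_one_of_dvd_coprimes (hRq.pow_right k)
      (orderOf_dvd_of_pow_eq_one h3) (orderOf_dvd_of_pow_eq_one h2))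
    rw [ht, mul_inv_eq_one, mul_inv_eq_iff_eq_mul] at ht1
    exact ht1.symm
  have hmap : ∀ m ∈ M, ∀ x ∈ Subgroup.closure {x : G | x ∈ D ∧ x ∈ Subgroup.centralizer (R : Set G) ∧ ∃ k, x ^ q ^ k = 1},
      m * x * m⁻¹ ∈ Subgroup.closure {x : G | x ∈ D ∧ x ∈ Subgroup.centralizer (R : Set G) ∧ ∃ k, x ^ q ^ k = 1} := by
    intro m hm x hx
    induction hx using Subgroup.closure_induction with
    | mem y hy =>
      obtain ⟨hyD, hyR, k, hk⟩ := hy
      have hyM := hDM hyD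
      have hm' : m * y * m⁻¹ ∈ M := M.mul_mem (M.mul_mem hm hyM) (M.inv_mem hm)
      have hq : ∃ k, (m * y * m⁻¹) ^ q ^ k = 1 := ⟨k, by rw [conj_pow, hk]; group⟩
      have hR₁' : m * y * m⁻¹ ∈ Subgroup.centralizer (R₁ : Set G) := by
        refine Subgroup.mem_centralizer_iff.2 fun z hz => ?_
        have hz' : m⁻¹ * z * m ∈ R₁ :=
          (Subgroup.mem_normalizer_iff''.1 (map_normalizer M (Cfsg.fittingSubgroup ↥M ⊓ Cfsg.pPrimeCore q ↥M) hm) z).1 hz
        have c := Subgroup.mem_centralizer_iff.1 hyR _ (hR₁R hz')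
        calc z * (m * y * m⁻¹) = m * ((m⁻¹ * z * m) * y) * m⁻¹ := by group
          _ = m * (y * (m⁻¹ * z * m)) * m⁻¹ := by rw [c]
          _ = _ := by group
      have hcR := hkey _ hm' hR₁' hq
      exact Subgroup.subset_closure ⟨hC _ hm' hcR, hcR, hq⟩
    | one => simp
    | mul y z _ _ hy hz => rw [← conj_mul]; exact Subgroup.mul_mem _ hy hz
    | inv y _ hy => rw [← conj_inv]; exact Subgroup.inv_mem _ hy
  intro m hm
  refine Subgroup.mem_normalizer_iff.2 fun x => ⟨hmap m hm x, fun hx => ?_⟩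
  have := hmap m⁻¹ (M.inv_mem hm) _ hx
  simpa [mul_assoc] using this

/-- Bender's Theorem on primitive pairs. Two distinct subgroups M₁, M₂ of G form a primitive pair when, for {i, j} = {1, 2}, every non-trivial normal subgroup A of M_i contained in M₁ ∩ M₂ satisfies N_{M_j}(A) = M₁ ∩ M₂; the pair has characteristic p when moreover C_{M_i}(O_p(M_i)) ≤ O_p(M_i) for both i and O_p(M₁)O_p(M₂) ≤ M₁ ∩ M₂. If (M₁, M₂) is a primitive pair of the finite group G with F*(M₁) ≤ M₂ and F*(M₂) ≤ M₁, then for some prime p the pair has characteristic p. -/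
theorem result {G : Type*} [Group G] [Finite G] (M₁ M₂ : Subgroup G) (hne : M₁ ≠ M₂) (hP : ∀ A : Subgroup G, A ≠ ⊥ → A ≤ M₁ ⊓ M₂ → (M₁ ≤ Subgroup.normalizer (A : Set G) → M₂ ⊓ Subgroup.normalizer (A : Set G) = M₁ ⊓ M₂) ∧ (M₂ ≤ Subgroup.normalizer (A : Set G) → M₁ ⊓ Subgroup.normalizer (A : Set G) = M₁ ⊓ M₂)) (h₁ : (Cfsg.generalizedFittingSubgroup ↥M₁).map M₁.subtype ≤ M₂) (h₂ : (Cfsg.generalizedFittingSubgroup ↥M₂).map M₂.subtype ≤ M₁) : ∃ p : ℕ, p.Prime ∧ Subgroup.centralizer (Cfsg.pCore p ↥M₁ : Set ↥M₁) ≤ Cfsg.pCore p ↥M₁ ∧ Subgroup.centralizer (Cfsg.pCore p ↥M₂ : Set ↥M₂) ≤ Cfsg.pCore p ↥M₂ ∧ (Cfsg.pCore p ↥M₁).map M₁.subtype ⊔ (Cfsg.pCore p ↥M₂).map M₂.subtype ≤ M₁ ⊓ M₂ := by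
  classical
  set D := M₁ ⊓ M₂ with hD
  have hboth : ∀ A : Subgroup G, A ≠ ⊥ → A ≤ D → M₁ ≤ Subgroup.normalizer (A : Set G) →
      M₂ ≤ Subgroup.normalizer (A : Set G) → False := by
    intro A hA hAD hn₁ hn₂
    have e₁ := (hP A hA hAD).1 hn₁
    have e₂ := (hP A hA hAD).2 hn₂
    rw [inf_eq_left.2 hn₂] at e₁
    rw [inf_eq_left.2 hn₁] at e₂
    exact hne (e₂.trans e₁.symm)
  have hF₁D : (Cfsg.generalizedFittingSubgroup ↥M₁).map M₁.subtype ≤ D := le_inf (Subgroup.map_subtype_le _) h₁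
  have hF₂D : (Cfsg.generalizedFittingSubgroup ↥M₂).map M₂.subtype ≤ D := le_inf h₂ (Subgroup.map_subtype_le _)
  have hEeq : (Cfsg.layer ↥M₁).map M₁.subtype = (Cfsg.layer ↥M₂).map M₂.subtype :=
    le_antisymm (layer_le M₁ M₂ h₁ h₂) (layer_le M₂ M₁ h₂ h₁)
  have hlay₁ : Cfsg.layer ↥M₁ = ⊥ := by
    by_contra hne'
    haveI := layer_characteristic (G := ↥M₁)
    haveI := layer_characteristic (G := ↥M₂)
    refine hboth ((Cfsg.layer ↥M₁).map M₁.subtype) (fun h => hne' ((Subgroup.map_eq_bot_iff_of_injective _ M₁.subtype_injective).1 h))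
      ((Subgroup.map_mono layer_le_fstar).trans hF₁D) (map_normalizer M₁ _) ?_
    rw [hEeq]; exact map_normalizer M₂ _
  have hlay₂ : Cfsg.layer ↥M₂ = ⊥ := by
    rw [hlay₁, Subgroup.map_bot] at hEeq
    exact (Subgroup.map_eq_bot_iff_of_injective _ M₂.subtype_injective).1 hEeq.symm
  have hFit₁ : (Cfsg.fittingSubgroup ↥M₁).map M₁.subtype ≤ D := (Subgroup.map_mono fitting_le_fstar).trans hF₁D
  have hFit₂ : (Cfsg.fittingSubgroup ↥M₂).map M₂.subtype ≤ D := (Subgroup.map_mono fitting_le_fstar).trans hF₂D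
  have hO₁D : ∀ r : ℕ, r.Prime → O r M₁ ≤ D := fun r hr => by
    haveI := Fact.mk hr; exact (Subgroup.map_mono (pCore_le_fitting r)).trans hFit₁
  have hO₂D : ∀ r : ℕ, r.Prime → O r M₂ ≤ D := fun r hr => by
    haveI := Fact.mk hr; exact (Subgroup.map_mono (pCore_le_fitting r)).trans hFit₂
  -- the same primes occur
  have hsame : ∀ (M N : Subgroup G), D ≤ M → D ≤ N → Cfsg.layer ↥N = ⊥ → (∀ r : ℕ, r.Prime → O r M ≤ D) →
      (∀ r : ℕ, r.Prime → O r N ≤ D) → ∀ p : ℕ, p.Prime → Cfsg.pCore p ↥M ≠ ⊥ → Cfsg.pCore p ↥N ≠ ⊥ := by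
    intro M N hDM hDN hlayN hOM hON p hp hMp hNp
    haveI := Fact.mk hp
    refine hMp (le_bot_iff.1 fun a ha => ?_)
    have haD : (a : G) ∈ D := hOM p hp ⟨a, ha, rfl⟩
    have hcent : (⟨a, hDN haD⟩ : ↥N) ∈ Subgroup.centralizer (Cfsg.fittingSubgroup ↥N : Set ↥N) := by
      have hle : Cfsg.fittingSubgroup ↥N ≤ Subgroup.centralizer ({(⟨a, hDN haD⟩ : ↥N)} : Set ↥N) := by
        refine fitting_le_of_cores fun s hs f hf => Subgroup.mem_centralizer_singleton_iff.2 (Subtype.ext ?_)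
        haveI := Fact.mk hs
        by_cases hsp : s = p
        · subst hsp
          rw [hNp, Subgroup.mem_bot] at hf
          subst hf
          simp
        haveI : ((O p M).subgroupOf D).Normal := Subgroup.normal_subgroupOf_of_le_normalizer (hDM.trans (map_normalizer M _))
        haveI : ((O s N).subgroupOf D).Normal := Subgroup.normal_subgroupOf_of_le_normalizer (hDN.trans (map_normalizer N _))
        refine (congrArg Subtype.val (coprime_commute (A := (O p M).subgroupOf D) (B := (O s N).subgroupOf D) ?_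
          (a := ⟨a, haD⟩) (b := ⟨(f : G), hON s hs ⟨f, hf, rfl⟩⟩) ⟨a, ha, rfl⟩ ⟨f, hf, rfl⟩)).symm
        rw [Nat.card_congr (Subgroup.subgroupOfEquivOfLe (hOM p hp)).toEquiv, Nat.card_congr (Subgroup.subgroupOfEquivOfLe (hON s hs)).toEquiv,
          O, O, Subgroup.card_map_of_injective M.subtype_injective, Subgroup.card_map_of_injective N.subtype_injective]
        obtain ⟨i, hi⟩ := IsPGroup.iff_card.1 (isPGroup_pCore (G := ↥M) p)
        obtain ⟨j, hj⟩ := IsPGroup.iff_card.1 (isPGroup_pCore (G := ↥N) s)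
        rw [hi, hj]
        exact Nat.Coprime.pow _ _ ((Nat.coprime_primes hp hs).2 (Ne.symm hsp))
      exact Subgroup.mem_centralizer_iff.2 fun f hf => Subgroup.mem_centralizer_singleton_iff.1 (hle hf)
    have hin := centralizer_fitting_le_of_layer_eq_bot hlayN hcent
    have hpp : Cfsg.fittingSubgroup ↥N ≤ Cfsg.pPrimeCore p ↥N := by
      refine fitting_le_of_cores fun s hs => ?_
      haveI := Fact.mk hs
      by_cases hsp : s = p
      · subst hsp; rw [hNp]; exact bot_le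
      refine le_pPrimeCore inferInstance ?_
      obtain ⟨j, hj⟩ := IsPGroup.iff_card.1 (isPGroup_pCore (G := ↥N) s)
      rw [hj]
      exact ((Nat.coprime_primes hs hp).2 hsp).pow_left j
    obtain ⟨j, hj⟩ := (isPGroup_pCore (G := ↥M) p) ⟨a, ha⟩
    have hj' : (a : G) ^ p ^ j = 1 := congrArg (fun z => ((z : ↥M) : G)) (congrArg Subtype.val hj)
    have h1 : orderOf (a : G) ∣ Nat.card ↥(Cfsg.pPrimeCore p ↥N) := by
      have := orderOf_dvd_natCard (⟨⟨a, hDN haD⟩, hpp hin⟩ : ↥(Cfsg.pPrimeCore p ↥N))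
      rwa [← Subgroup.orderOf_coe, ← Subgroup.orderOf_coe] at this
    rw [Subgroup.mem_bot]
    exact Subtype.ext (orderOf_eq_one_iff.1 (Nat.eq_one_of_dvd_coprimes
      ((coprime_pPrimeCore p).pow_right j) h1 (orderOf_dvd_of_pow_eq_one hj')))
  have h12 := hsame M₁ M₂ inf_le_left inf_le_right hlay₂ hO₁D hO₂D
  have h21 := hsame M₂ M₁ inf_le_right inf_le_left hlay₁ hO₂D hO₁D
  obtain ⟨p, hp, hp₁⟩ : ∃ p : ℕ, p.Prime ∧ Cfsg.pCore p ↥M₁ ≠ ⊥ := by
    by_contra h
    push_neg at h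
    have htriv : ∀ M : Subgroup G, Cfsg.layer ↥M = ⊥ → (∀ r : ℕ, r.Prime → Cfsg.pCore r ↥M = ⊥) → M = ⊥ := by
      intro M hl hc
      have hf : Cfsg.fittingSubgroup ↥M = ⊥ := le_bot_iff.1 (fitting_le_of_cores fun r hr => (hc r hr).le)
      by_contra hM
      haveI : Nontrivial ↥M := (Subgroup.nontrivial_iff_ne_bot M).2 hM
      exact fstar_ne_bot (G := ↥M) (by rw [Cfsg.generalizedFittingSubgroup, hl, hf, sup_bot_eq])
    refine hne ((htriv M₁ hlay₁ h).trans (htriv M₂ hlay₂ fun r hr => ?_).symm)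
    by_contra hc
    exact h21 r hr hc (h r hr)
  have honly : ∀ q : ℕ, q.Prime → q ≠ p → Cfsg.pCore q ↥M₁ = ⊥ := by
    intro q hq hqp
    by_contra hq₁
    haveI := Fact.mk hq
    haveI := Fact.mk hp
    set R := (Cfsg.fittingSubgroup ↥D ⊓ Cfsg.pPrimeCore q ↥D).map D.subtype with hR
    have hOR : ∀ N : Subgroup G, D ≤ N → O p N ≤ D → O p N ≤ R := by
      intro N hDN hON x hx
      have hn : ((O p N).subgroupOf D).Normal := Subgroup.normal_subgroupOf_of_le_normalizer (hDN.trans (map_normalizer N _))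
      have hpg : IsPGroup p ↥((O p N).subgroupOf D) :=
        ((isPGroup_pCore (G := ↥N) p).map _).of_equiv (Subgroup.subgroupOfEquivOfLe hON).symm
      refine ⟨⟨x, hON hx⟩, ⟨le_fitting hn hpg.isNilpotent hx, le_pPrimeCore hn ?_ hx⟩, rfl⟩
      obtain ⟨j, hj⟩ := IsPGroup.iff_card.1 hpg
      rw [hj]
      exact ((Nat.coprime_primes hp hq).2 (Ne.symm hqp)).pow_left j
    have hcn : ∀ (A : Subgroup G) (x : G), x ∈ Subgroup.centralizer (A : Set G) → x ∈ Subgroup.normalizer (A : Set G) :=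
      fun A x hx => Subgroup.centralizer_le_normalizer _ hx
    have hC₁ : ∀ x ∈ M₁, x ∈ Subgroup.centralizer (R : Set G) → x ∈ D := by
      intro x hx hxR
      have hA : O p M₂ ≠ ⊥ := fun h => h12 p hp hp₁ ((Subgroup.map_eq_bot_iff_of_injective _ M₂.subtype_injective).1 h)
      have := (hP (O p M₂) hA (hO₂D p hp)).2 (map_normalizer M₂ _)
      rw [← this]
      exact ⟨hx, hcn _ _ (Subgroup.centralizer_le (hOR M₂ inf_le_right (hO₂D p hp)) hxR)⟩
    have hC₂ : ∀ x ∈ M₂, x ∈ Subgroup.centralizer (R : Set G) → x ∈ D := by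
      intro x hx hxR
      have hA : O p M₁ ≠ ⊥ := fun h => hp₁ ((Subgroup.map_eq_bot_iff_of_injective _ M₁.subtype_injective).1 h)
      have := (hP (O p M₁) hA (hO₁D p hp)).1 (map_normalizer M₁ _)
      rw [← this]
      exact ⟨hx, hcn _ _ (Subgroup.centralizer_le (hOR M₁ inf_le_left (hO₁D p hp)) hxR)⟩
    set S := Subgroup.closure {x : G | x ∈ D ∧ x ∈ Subgroup.centralizer (R : Set G) ∧ ∃ k, x ^ q ^ k = 1} with hS
    have hBS : O q M₁ ≤ S := by
      intro b hb
      refine Subgroup.subset_closure ⟨hO₁D q hq hb, Subgroup.mem_centralizer_iff.2 fun r hr => ?_, ?_⟩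
      · haveI : ((O q M₁).subgroupOf D).Normal :=
          Subgroup.normal_subgroupOf_of_le_normalizer ((inf_le_left : D ≤ M₁).trans (map_normalizer M₁ _))
        obtain ⟨r', hr', rfl⟩ := hr
        refine congrArg Subtype.val (coprime_commute (A := Cfsg.fittingSubgroup ↥D ⊓ Cfsg.pPrimeCore q ↥D)
          (B := (O q M₁).subgroupOf D) ?_ (a := r') (b := ⟨b, hO₁D q hq hb⟩) hr' hb)
        obtain ⟨j, hj⟩ := IsPGroup.iff_card.1
          (((isPGroup_pCore (G := ↥M₁) q).map M₁.subtype).of_equiv (Subgroup.subgroupOfEquivOfLe (hO₁D q hq)).symm)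
        rw [show Nat.card ↥((O q M₁).subgroupOf D) = q ^ j from hj]
        exact ((coprime_pPrimeCore q).coprime_dvd_left (Subgroup.card_dvd_of_le inf_le_right)).pow_right j
      · obtain ⟨b', hb', rfl⟩ := hb
        obtain ⟨j, hj⟩ := (isPGroup_pCore (G := ↥M₁) q) ⟨b', hb'⟩
        exact ⟨j, congrArg (fun z => ((z : ↥M₁) : G)) (congrArg Subtype.val hj)⟩
    refine hboth S (fun h => hq₁ ?_) ((Subgroup.closure_le _).2 fun x hx => hx.1) ?_ ?_
    · rw [h] at hBS
      exact (Subgroup.map_eq_bot_iff_of_injective _ M₁.subtype_injective).1 (le_bot_iff.1 hBS)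
    · exact normalized_S q M₁ D inf_le_left hlay₁ hFit₁ R hR hC₁
    · exact normalized_S q M₂ D inf_le_right hlay₂ hFit₂ R hR hC₂
  have honly₂ : ∀ q : ℕ, q.Prime → q ≠ p → Cfsg.pCore q ↥M₂ = ⊥ := fun q hq hqp => by
    by_contra h
    exact h21 q hq h (honly q hq hqp)
  have hchar : ∀ M : Subgroup G, Cfsg.layer ↥M = ⊥ → (∀ q : ℕ, q.Prime → q ≠ p → Cfsg.pCore q ↥M = ⊥) →
      Subgroup.centralizer (Cfsg.pCore p ↥M : Set ↥M) ≤ Cfsg.pCore p ↥M := by
    intro M hl ho
    haveI := Fact.mk hp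
    have hf : Cfsg.fittingSubgroup ↥M = Cfsg.pCore p ↥M := le_antisymm (fitting_le_of_cores fun r hr => by
      by_cases hrp : r = p
      · rw [hrp]
      · rw [ho r hr hrp]; exact bot_le) (pCore_le_fitting p)
    have := centralizer_fitting_le_of_layer_eq_bot hl
    rwa [hf] at this
  exact ⟨p, hp, hchar M₁ hlay₁ honly, hchar M₂ hlay₂ honly₂, sup_le (hO₁D p hp) (hO₂D p hp)⟩


end Cfsg.Agent.S3752
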