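import Cfsg.Statements.S3754
import Cfsg.Agent.Lib.Solv.HHPLength
import Cfsg.Agent.Lib.Solv.Coprime2
import Cfsg.Agent.Lib.Transfer.PGroupFrattini
import Cfsg.Agent.Lib.Transfer.NormalPComplement

set_option autoImplicit false
open Cfsg
open scoped Pointwise commutatorElement

namespace Cfsg.Agent.S3754

open Cfsg.Lib.Solv

lemma mem_of_coprime {G : Type*} [Group G] {p : ℕ} {N A : Subgroup G} (hN : A ≤ Subgroup.normalizer (N : Set G))
    (hA : IsPGroup p A) {g : G} (hg : g ∈ N ⊔ A) (hc : (orderOf g).Coprime p) : g ∈ N := by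
  have hg' : g ∈ ((N ⊔ A : Subgroup G) : Set G) := hg
  rw [Subgroup.coe_mul_of_right_le_normalizer_left N A hN] at hg'
  obtain ⟨n, hn, a, ha, rfl⟩ := hg'
  have key : ∀ m : ℕ, (n * a) ^ m * (a ^ m)⁻¹ ∈ N := by
    intro m
    induction m with
    | zero => simp [N.one_mem]
    | succ m ih =>
      have e : (n * a) ^ (m + 1) * (a ^ (m + 1))⁻¹ =
          (n * a) ^ m * (a ^ m)⁻¹ * (a ^ m * n * (a ^ m)⁻¹) := by
        rw [pow_succ, pow_succ]; group
      rw [e]
      exact mul_mem ih ((Subgroup.mem_normalizer_iff.1 (hN (pow_mem ha m)) n).1 hn)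
  obtain ⟨k, hk⟩ := hA ⟨a, ha⟩
  have h1 : (n * a) ^ p ^ k ∈ N := by
    have h2 := key (p ^ k)
    rwa [show a ^ p ^ k = 1 from congrArg Subtype.val hk, inv_one, mul_one] at h2
  obtain ⟨m, hm⟩ := exists_pow_eq_self_of_coprime (x := n * a) (n := p ^ k) (hc.pow_right k).symm
  show n * a ∈ N
  rw [← hm]
  exact pow_mem h1 m

lemma conj_sup_le {G : Type*} [Group G] {L : Subgroup G} {N : Subgroup G} {A : Subgroup G} {x : G}
    (hA : A ≤ Subgroup.normalizer (N : Set G)) (hx : x ∈ Subgroup.normalizer (N : Set G))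
    (hL : L = A ⊔ A.map (MulAut.conj x).toMonoidHom) : L ≤ Subgroup.normalizer (N : Set G) := by
  rw [hL]
  refine sup_le hA ?_
  rintro _ ⟨a, ha, rfl⟩
  exact mul_mem (mul_mem hx (hA ha)) (inv_mem hx)



/-- Let M be a finite p-soluble group and A a p-subgroup of M with Φ(A) ≤ O_p(M) but A ≰ O_p(M). Then there is x ∈ O_{p,p'}(M) such that L = ⟨A, xAx⁻¹⟩ satisfies: x ∈ O^p(L) and O^p(L) ≤ O_{p,p'}(M); [O^p(L), A] = O^p(L); A ∩ O_p(L) has index p in A; and [A ∩ O_p(L), L] ≤ O_p(M). Here O^p(L) is the subgroup generated by the p'-elements of L and O_{p,p'}(M) the preimage of O_{p'}(M/O_p(M)). -/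
theorem result {M : Type*} [Group M] [Finite M] {p : ℕ} [Fact p.Prime] (hM : Cfsg.IsPSolvable p M) (A : Subgroup M) (hA : IsPGroup p A) (hΦ : (frattini ↥A).map A.subtype ≤ Cfsg.pCore p M) (hnot : ¬ A ≤ Cfsg.pCore p M) : ∃ x ∈ (Cfsg.pPrimeCore p (M ⧸ Cfsg.pCore p M)).comap (QuotientGroup.mk' (Cfsg.pCore p M)), x ∈ (Cfsg.pResidual p ↥(A ⊔ A.map (MulAut.conj x).toMonoidHom)).map (A ⊔ A.map (MulAut.conj x).toMonoidHom).subtype ∧ (Cfsg.pResidual p ↥(A ⊔ A.map (MulAut.conj x).toMonoidHom)).map (A ⊔ A.map (MulAut.conj x).toMonoidHom).subtype ≤ (Cfsg.pPrimeCore p (M ⧸ Cfsg.pCore p M)).comap (QuotientGroup.mk' (Cfsg.pCore p M)) ∧ ⁅(Cfsg.pResidual p ↥(A ⊔ A.map (MulAut.conj x).toMonoidHom)).map (A ⊔ A.map (MulAut.conj x).toMonoidHom).subtype, A⁆ = (Cfsg.pResidual p ↥(A ⊔ A.map (MulAut.conj x).toMonoidHom)).map (A ⊔ A.map (MulAut.conj x).toMonoidHom).subtype ∧ (A ⊓ (Cfsg.pCore p ↥(A ⊔ A.map (MulAut.conj x).toMonoidHom)).map (A ⊔ A.map (MulAut.conj x).toMonoidHom).subtype).relIndex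 A = p ∧ ⁅A ⊓ (Cfsg.pCore p ↥(A ⊔ A.map (MulAut.conj x).toMonoidHom)).map (A ⊔ A.map (MulAut.conj x).toMonoidHom).subtype, A ⊔ A.map (MulAut.conj x).toMonoidHom⁆ ≤ Cfsg.pCore p M := by
  classical
  have hpp : p.Prime := Fact.out
  set O := Cfsg.pCore p M with hO
  let q : M →* M ⧸ O := QuotientGroup.mk' O
  have hqs : Function.Surjective q := QuotientGroup.mk'_surjective O
  have hqk : q.ker = O := QuotientGroup.ker_mk' O
  set K := Cfsg.pPrimeCore p (M ⧸ O) with hK
  set Ab := A.map q with hAb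
  have hAbp : IsPGroup p Ab := hA.map q
  have hfr : ∀ w ∈ frattini ↥A, q (w : M) = 1 := fun w hw =>
    (QuotientGroup.eq_one_iff (w : M)).2 (hΦ (Subgroup.mem_map_of_mem _ hw))
  have hAbe : ∀ u ∈ Ab, u ^ p = 1 := by
    rintro _ ⟨a, ha, rfl⟩
    rw [← map_pow]
    exact hfr ((⟨a, ha⟩ : ↥A) ^ p) (Cfsg.Lib.Transfer.pow_mem_frattini hA _)
  have hAbc : IsMulCommutative Ab := by
    refine ⟨⟨?_⟩⟩
    rintro ⟨_, a, ha, rfl⟩ ⟨_, b, hb, rfl⟩
    apply Subtype.ext
    show q a * q b = q b * q a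
    have h : q (a * b * a⁻¹ * b⁻¹) = 1 := hfr ⁅(⟨a, ha⟩ : ↥A), ⟨b, hb⟩⁆
      (Cfsg.Lib.Transfer.commutator_le_frattini hA
        (Subgroup.commutator_mem_commutator (Subgroup.mem_top _) (Subgroup.mem_top _)))
    rw [map_mul, map_mul, map_mul, map_inv, map_inv, mul_inv_eq_one, mul_inv_eq_iff_eq_mul] at h
    exact h
  have hcm : ∀ u ∈ Ab, ∀ v ∈ Ab, u * v = v * u := fun u hu v hv =>
    congrArg Subtype.val (hAbc.is_comm.comm ⟨u, hu⟩ ⟨v, hv⟩)
  have hAbne : ∃ u ∈ Ab, u ≠ 1 := by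
    by_contra h
    push Not at h
    exact hnot fun a ha => (QuotientGroup.eq_one_iff a).1 (h _ (Subgroup.mem_map_of_mem q ha))
  have hKn : Ab ≤ Subgroup.normalizer (K : Set (M ⧸ O)) := by rw [Subgroup.normalizer_eq_top]; exact le_top
  have hKA : ∀ S : Subgroup (M ⧸ O), IsPGroup p S → ∀ z ∈ S, z ∈ K → z = 1 := by
    intro S hS z hzS hzK
    obtain ⟨k, hk⟩ := hS ⟨z, hzS⟩
    exact orderOf_eq_one_iff.1 (Nat.eq_one_of_dvd_coprimes ((coprime_pPrimeCore (G := M ⧸ O) p).pow_right k)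
      (K.orderOf_dvd_natCard hzK) (orderOf_dvd_of_pow_eq_one (congrArg Subtype.val hk)))
  have hnc : ¬ Ab ≤ Subgroup.centralizer (K : Set (M ⧸ O)) := by
    intro h
    obtain ⟨u, hu, hu1⟩ := hAbne
    exact hu1 (hKA Ab hAbp u hu (Cfsg.Lib.Characters.centralizer_pPrimeCore_le
      (Cfsg.Lib.PLocal.IsPSolvable.of_surjective _ hqs hM) (pCore_quotient_eq_bot (G := M) p) (h hu)))
  -- B: maximal with non-centralised fixed points
  let P : Subgroup (M ⧸ O) → Prop := fun B => B ≤ Ab ∧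
    ¬ Ab ≤ Subgroup.centralizer ((K ⊓ Subgroup.centralizer (B : Set (M ⧸ O)) : Subgroup (M ⧸ O)) : Set (M ⧸ O))
  have hPb : P ⊥ := by
    refine ⟨bot_le, ?_⟩
    rwa [show Subgroup.centralizer ((⊥ : Subgroup (M ⧸ O)) : Set (M ⧸ O)) = ⊤ from
      eq_top_iff.2 fun z _ => Subgroup.mem_centralizer_iff.2 fun w hw => by
        rw [Subgroup.mem_bot.1 hw]; simp, inf_top_eq]
  obtain ⟨B, hB⟩ := (Set.toFinite {B | P B}).exists_maximal ⟨⊥, hPb⟩
  have hBA : B ≤ Ab := hB.1.1
  set KB := K ⊓ Subgroup.centralizer (B : Set (M ⧸ O)) with hKB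
  have hKBn : Ab ≤ Subgroup.normalizer (KB : Set (M ⧸ O)) := fun u hu =>
    fixed_inf_normalized (hKn hu) (normalizer_eq_of_centralizes
      (Subgroup.mem_centralizer_iff.2 fun w hw => hcm w (hBA hw) u hu))
  have hKBc : (Nat.card KB).Coprime p :=
    (coprime_pPrimeCore (G := M ⧸ O) p).coprime_dvd_left (Subgroup.card_dvd_of_le inf_le_left)
  have hnB : ∃ u ∈ Ab, u ∉ B := by
    by_contra h
    push Not at h
    exact hB.1.2 fun u hu => Subgroup.mem_centralizer_iff.2 fun w hw =>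
      ((Subgroup.mem_centralizer_iff.1 hw.2) u (h u hu)).symm
  have hgen : ∀ u ∈ Ab, u ∉ B → Ab = B ⊔ Subgroup.zpowers u := by
    intro a ha haB
    refine le_antisymm ?_ (sup_le hBA (Subgroup.zpowers_le.2 ha))
    by_contra hle
    obtain ⟨b, hb, hbn⟩ := SetLike.not_le_iff_exists.1 hle
    set A1 := Subgroup.closure ({a, b} : Set (M ⧸ O)) with hA1
    have hA1le : A1 ≤ Ab := (Subgroup.closure_le _).2 (by
      intro z hz
      rcases hz with rfl | rfl <;> assumption)
    haveI : IsMulCommutative A1 := ⟨⟨fun x y => Subtype.ext (hcm _ (hA1le x.2) _ (hA1le y.2))⟩⟩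
    have ha1 : a ≠ 1 := fun h => haB (h ▸ B.one_mem)
    have haA1 : a ∈ A1 := Subgroup.subset_closure (Set.mem_insert a _)
    have hbA1 : b ∈ A1 := Subgroup.subset_closure (Set.mem_insert_of_mem a rfl)
    have hoa : orderOf a = p := orderOf_eq_prime (hAbe a ha) ha1
    have hncyc : ¬ IsCyclic A1 := by
      intro hc
      obtain ⟨g, hg⟩ := hc.exists_generator
      have hgo : orderOf g ∣ p := orderOf_dvd_of_pow_eq_one
        (Subtype.ext (by rw [SubmonoidClass.coe_pow, hAbe _ (hA1le g.2)]; rfl))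
      have hcard : Nat.card A1 ≤ p := by
        rw [← orderOf_eq_card_of_forall_mem_zpowers hg]
        exact Nat.le_of_dvd hpp.pos hgo
      have he : Subgroup.zpowers a = A1 := Subgroup.eq_of_le_of_card_ge (Subgroup.zpowers_le.2 haA1)
        (by rw [Nat.card_zpowers, hoa]; exact hcard)
      exact hbn ((le_sup_right : Subgroup.zpowers a ≤ B ⊔ Subgroup.zpowers a) (he.symm ▸ hbA1))
    have hcop : (Nat.card A1).Coprime (Nat.card KB) := by
      obtain ⟨k, hk⟩ := IsPGroup.iff_card.1 (hAbp.to_le hA1le)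
      rw [hk]
      exact (hKBc.pow_right k).symm
    have hdisj : ∀ c ∈ A1, c ∈ B → c = 1 := by
      intro c hc hcB
      obtain ⟨i, j, rfl⟩ : ∃ i j : ℤ, c = a ^ i * b ^ j := by
        have : A1 ≤ Subgroup.zpowers a ⊔ Subgroup.zpowers b := (Subgroup.closure_le _).2 (by
          intro z hz
          rcases hz with rfl | rfl
          · exact Subgroup.mem_sup_left (Subgroup.mem_zpowers _)
          · exact Subgroup.mem_sup_right (Subgroup.mem_zpowers _))
        have h' : c ∈ ((Subgroup.zpowers a ⊔ Subgroup.zpowers b : Subgroup (M ⧸ O)) : Set (M ⧸ O)) := this hc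
        rw [Subgroup.coe_mul_of_right_le_normalizer_left _ _ (fun y hy => normalizer_eq_of_centralizes
          (Subgroup.mem_centralizer_iff.2 fun w hw => hcm w ((Subgroup.zpowers_le.2 ha) hw) y
            ((Subgroup.zpowers_le.2 hb) hy)))] at h'
        obtain ⟨_, ⟨i, rfl⟩, _, ⟨j, rfl⟩, e⟩ := h'
        exact ⟨i, j, e.symm⟩
      have hbj : b ^ j = 1 := by
        by_contra hne
        have hob : orderOf b = p := orderOf_eq_prime (hAbe b hb) (fun h => hne (by rw [h, one_zpow]))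
        have hmem : b ^ j ∈ B ⊔ Subgroup.zpowers a := by
          have e : b ^ j = (a ^ i)⁻¹ * (a ^ i * b ^ j) := by group
          rw [e]
          exact mul_mem (inv_mem (Subgroup.mem_sup_right (zpow_mem (Subgroup.mem_zpowers a) i)))
            (Subgroup.mem_sup_left hcB)
        have he : Subgroup.zpowers (b ^ j) = Subgroup.zpowers b := Subgroup.eq_of_le_of_card_ge
          (Subgroup.zpowers_le.2 (zpow_mem (Subgroup.mem_zpowers b) j))
          (by rw [Nat.card_zpowers, Nat.card_zpowers, hob,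
            orderOf_eq_prime (hAbe _ (zpow_mem hb j)) hne])
        exact hbn (Subgroup.zpowers_le.2 hmem (he ▸ Subgroup.mem_zpowers b))
      rw [hbj, mul_one] at hcB ⊢
      by_contra hne
      have he : Subgroup.zpowers (a ^ i) = Subgroup.zpowers a := Subgroup.eq_of_le_of_card_ge
        (Subgroup.zpowers_le.2 (zpow_mem (Subgroup.mem_zpowers a) i))
        (by rw [Nat.card_zpowers, Nat.card_zpowers, hoa, orderOf_eq_prime (hAbe _ (zpow_mem ha i)) hne])
      exact haB (Subgroup.zpowers_le.2 hcB (he ▸ Subgroup.mem_zpowers a))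
    have hW := le_of_fixed_le A1 KB (KB ⊓ Subgroup.centralizer (Ab : Set (M ⧸ O))) hncyc
      (hA1le.trans hKBn) hcop ?_
    · exact hB.1.2 fun u hu => Subgroup.mem_centralizer_iff.2 fun w hw =>
        ((Subgroup.mem_centralizer_iff.1 (hW hw).2) u hu).symm
    · intro c hc hc1 w hw
      refine ⟨hw.1, Subgroup.mem_centralizer_iff.2 fun u hu => ?_⟩
      by_contra hwu
      have hP' : P (B ⊔ Subgroup.zpowers c) := by
        refine ⟨sup_le hBA (Subgroup.zpowers_le.2 (hA1le hc)), fun h => hwu ?_⟩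
        refine ((Subgroup.mem_centralizer_iff.1 (h hu)) w ⟨hw.1.1, ?_⟩).symm
        refine (Subgroup.le_centralizer_iff.1 (sup_le ?_ (Subgroup.zpowers_le.2 ?_))) (Subgroup.mem_zpowers w)
        · exact Subgroup.le_centralizer_iff.1 (Subgroup.zpowers_le.2 hw.1.2)
        · exact (Subgroup.le_centralizer_iff.1 (Subgroup.zpowers_le.2
            (Subgroup.mem_centralizer_iff.2 fun z hz => by
              obtain ⟨i, rfl⟩ := hz
              exact (Commute.zpow_left ((Subgroup.mem_centralizer_singleton_iff.1 hw.2).symm) i).eq))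
            : Subgroup.zpowers c ≤ _) (Subgroup.mem_zpowers c)
      exact hc1 (hdisj c hc (hB.2 hP' le_sup_left (Subgroup.mem_sup_right (Subgroup.mem_zpowers c))))
  -- R: minimal invariant, not centralised
  obtain ⟨R, hR⟩ := (Set.toFinite {R : Subgroup (M ⧸ O) | R ≤ KB ∧ Ab ≤ Subgroup.normalizer (R : Set (M ⧸ O)) ∧
    ¬ Ab ≤ Subgroup.centralizer (R : Set (M ⧸ O))}).exists_minimal ⟨KB, le_rfl, hKBn, hB.1.2⟩
  obtain ⟨hRK, hRn, hRnc⟩ := hR.1
  have hRc : (Nat.card R).Coprime p := hKBc.coprime_dvd_left (Subgroup.card_dvd_of_le hRK)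
  have hBc : ∀ b ∈ B, ∀ z ∈ R ⊔ Ab, b * z = z * b := by
    intro b hb z hz
    refine (Subgroup.mem_centralizer_iff.1 ((sup_le ?_ ?_ : R ⊔ Ab ≤ Subgroup.centralizer (B : Set (M ⧸ O))) hz)) b hb
    · exact hRK.trans inf_le_right
    · exact fun u hu => Subgroup.mem_centralizer_iff.2 fun w hw => hcm w (hBA hw) u hu
  obtain ⟨a0, ha0, x0, hx0, hx0a⟩ : ∃ u ∈ Ab, ∃ w ∈ R, u * w ≠ w * u := by
    by_contra h
    push Not at h
    exact hRnc fun u hu => Subgroup.mem_centralizer_iff.2 fun w hw => (h u hu w hw).symm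
  -- some commutator is moved
  obtain ⟨x1, hx1, hx1a⟩ : ∃ w ∈ R, a0 * ⁅w, a0⁆ ≠ ⁅w, a0⁆ * a0 := by
    by_contra h
    push Not at h
    apply hx0a
    set c := ⁅x0, a0⁆ with hc
    have hcom : a0 * c = c * a0 := h x0 hx0
    have hcR : c ∈ R := by
      rw [hc, commutatorElement_def]
      have h2 : a0 * x0⁻¹ * a0⁻¹ ∈ R := (Subgroup.mem_normalizer_iff.1 (hRn ha0) x0⁻¹).1 (inv_mem hx0)
      simpa [mul_assoc] using mul_mem hx0 h2
    have hpow : ∀ m : ℕ, x0 * a0 ^ m * x0⁻¹ = c ^ m * a0 ^ m := by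
      intro m
      rw [← conj_pow, show x0 * a0 * x0⁻¹ = c * a0 by rw [hc, commutatorElement_def]; group]
      exact (show Commute c a0 from hcom.symm).mul_pow m
    have h3 := hpow p
    rw [hAbe a0 ha0] at h3
    simp only [mul_one, mul_inv_cancel] at h3
    have hc1 : c = 1 := orderOf_eq_one_iff.1 (Nat.eq_one_of_dvd_coprimes hRc (R.orderOf_dvd_natCard hcR)
      (orderOf_dvd_of_pow_eq_one h3.symm))
    rw [hc, commutatorElement_eq_one_iff_mul_comm] at hc1
    exact hc1.symm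
  let Lof : M → Subgroup M := fun y => A ⊔ A.map (MulAut.conj y).toMonoidHom
  obtain ⟨y0, hy0⟩ := hqs x1
  obtain ⟨x, hx⟩ : ∃ x, Minimal (fun s : Subgroup M => ∃ y, s = Lof y ∧ q y = x1) (Lof x) ∧ q x = x1 := by
    obtain ⟨s, hs⟩ := (Set.toFinite {s : Subgroup M | ∃ y, s = Lof y ∧ q y = x1}).exists_minimal
      ⟨Lof y0, y0, rfl, hy0⟩
    obtain ⟨y, rfl, hy⟩ := hs.1
    exact ⟨y, hs, hy⟩
  obtain ⟨hmin, hqx⟩ := hx
  set L := Lof x with hL
  have hqL : L.map q = R ⊔ Ab := by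
    have hconj : ∀ a ∈ A, q (x * a * x⁻¹) = x1 * q a * x1⁻¹ := fun a _ => by rw [map_mul, map_mul, map_inv, hqx]
    refine le_antisymm ?_ ?_
    · rw [Subgroup.map_le_iff_le_comap]
      refine sup_le (fun a ha => Subgroup.mem_sup_right (Subgroup.mem_map_of_mem q ha)) ?_
      rintro _ ⟨a, ha, rfl⟩
      show q (x * a * x⁻¹) ∈ R ⊔ Ab
      rw [hconj a ha]
      exact mul_mem (mul_mem (Subgroup.mem_sup_left hx1) (Subgroup.mem_sup_right (Subgroup.mem_map_of_mem q ha)))
        (inv_mem (Subgroup.mem_sup_left hx1))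
    · have hAbL : Ab ≤ L.map q := Subgroup.map_mono le_sup_left
      refine sup_le ?_ hAbL
      suffices R ≤ R ⊓ L.map q from this.trans inf_le_right
      refine hR.2 ⟨inf_le_left.trans hRK, fun u hu => ?_, fun h => hx1a ?_⟩ inf_le_left
      · rw [← conj_smul_eq_self_iff, Subgroup.smul_inf, conj_smul_eq_self_iff.2 (hRn hu),
          conj_smul_eq_self_iff.2 (Subgroup.le_normalizer (hAbL hu))]
      · refine ((Subgroup.mem_centralizer_iff.1 (h ha0)) ⁅x1, a0⁆ ⟨?_, ?_⟩).symm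
        · rw [commutatorElement_def]
          have h2 : a0 * x1⁻¹ * a0⁻¹ ∈ R := (Subgroup.mem_normalizer_iff.1 (hRn ha0) x1⁻¹).1 (inv_mem hx1)
          simpa [mul_assoc] using mul_mem hx1 h2
        · obtain ⟨a, ha, rfl⟩ := ha0
          show _ ∈ L.map q
          rw [commutatorElement_def, ← hconj a ha]
          exact mul_mem (Subgroup.mem_map_of_mem q (Subgroup.mem_sup_right (Subgroup.mem_map_of_mem _ ha)))
            (inv_mem (Subgroup.mem_map_of_mem q (Subgroup.mem_sup_left ha)))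
  set Res := (Cfsg.pResidual p ↥L).map L.subtype with hRes
  have hResL : Res ≤ L := Subgroup.map_subtype_le _
  have hResn : L ≤ Subgroup.normalizer (Res : Set M) := by
    intro l hl
    haveI := Cfsg.Lib.Transfer.pResidual_normal (G := ↥L) p
    rw [← conj_smul_eq_self_iff, hRes, show l = L.subtype ⟨l, hl⟩ from rfl, ← map_conj_smul, conj_smul_normal]
  have hRess : ∀ (N : Subgroup M), (∀ g ∈ L, (orderOf g).Coprime p → g ∈ N) → Res ≤ N := by
    intro N hN
    rw [hRes, Subgroup.map_le_iff_le_comap, Cfsg.pResidual, Subgroup.closure_le]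
    intro g hg
    exact hN _ g.2 ((Subgroup.orderOf_coe g).symm ▸ hg)
  -- the image of the residual
  have hResR : Res ≤ R.comap q := hRess _ fun g hg hc =>
    mem_of_coprime hRn hAbp (hqL ▸ Subgroup.mem_map_of_mem q hg) (hc.coprime_dvd_left (orderOf_map_dvd q g))
  have hRRes : ∀ r ∈ R, ∃ l ∈ Res, q l = r := by
    intro r hr
    obtain ⟨l, hl, hlr⟩ : r ∈ L.map q := hqL ▸ Subgroup.mem_sup_left hr
    have h1 := Cfsg.Lib.Transfer.pow_ordProj_mem_pResidual (p := p) (⟨l, hl⟩ : ↥L)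
    set e := (orderOf (⟨l, hl⟩ : ↥L)).factorization p
    obtain ⟨m, hm⟩ := exists_pow_eq_self_of_coprime (x := r) (n := p ^ e)
      ((hRc.coprime_dvd_left (R.orderOf_dvd_natCard hr)).pow_right e).symm
    refine ⟨(l ^ p ^ e) ^ m, pow_mem (Subgroup.mem_map_of_mem L.subtype h1) m, ?_⟩
    rw [map_pow, map_pow, hlr, hm]
  -- minimality puts x in the residual
  obtain ⟨l, hlRes, hql⟩ := hRRes x1 hx1
  have hLl : Lof l = L := by
    have hle : Lof l ≤ L := sup_le le_sup_left (by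
      rintro _ ⟨a, ha, rfl⟩
      exact mul_mem (mul_mem (hResL hlRes) (Subgroup.mem_sup_left ha)) (inv_mem (hResL hlRes)))
    exact le_antisymm hle (hmin.2 ⟨l, rfl, hql⟩ hle)
  have hLL : A ⊔ A.map (MulAut.conj l).toMonoidHom = L := hLl
  have hRK' : R ≤ K := hRK.trans inf_le_left
  refine ⟨l, hRK' (hResR hlRes), ?_⟩
  rw [hLL, ← hRes]
  have hAL : A ≤ L := le_sup_left
  refine ⟨hlRes, fun z hz => hRK' (hResR hz), ?_, ?_⟩
  · set N := ⁅Res, A⁆ with hN
    have hNle : N ≤ Res := commutator_le_of_normalizes (hAL.trans hResn)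
    refine le_antisymm hNle ?_
    have hAN : A ≤ Subgroup.normalizer (N : Set M) := le_normalizer_commutator_right Res A
    have hLN : L ≤ N ⊔ A := by
      rw [← hLL]
      refine sup_le le_sup_right ?_
      rintro _ ⟨a, ha, rfl⟩
      have e : (MulAut.conj l).toMonoidHom a = ⁅l, a⁆ * a := by
        simp [commutatorElement_def, mul_assoc]
      rw [e]
      exact Subgroup.mul_mem_sup (Subgroup.commutator_mem_commutator hlRes ha) ha
    exact hRess N fun g hg hc => mem_of_coprime hAN hA (hLN hg) hc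
  have hOL : ∀ a ∈ A, (a ∈ (Cfsg.pCore p ↥L).map L.subtype ↔ q a ∈ B) := by
    intro a ha
    constructor
    · rintro ⟨o, ho, rfl⟩
      by_contra hnB'
      have hqa : q (o : M) ∈ Ab := Subgroup.mem_map_of_mem q ha
      apply hRnc
      have hcent : q (o : M) ∈ Subgroup.centralizer (R : Set (M ⧸ O)) := by
        rw [Subgroup.mem_centralizer_iff]
        intro r hr
        obtain ⟨l', hl', rfl⟩ := hRRes r hr
        let Q := (Cfsg.pCore p ↥L).map (q.comp L.subtype)
        have hQp : IsPGroup p Q := (isPGroup_pCore (G := ↥L) p).map _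
        have hoQ : q (o : M) ∈ Q := Subgroup.mem_map_of_mem (q.comp L.subtype) ho
        have hnQ : q l' * q (o : M) * (q l')⁻¹ ∈ Q := by
          refine ⟨⟨l', hResL hl'⟩ * o * ⟨l', hResL hl'⟩⁻¹, Subgroup.Normal.conj_mem inferInstance o ho _, ?_⟩
          simp
        have h1 : ⁅q l', q (o : M)⁆ ∈ Q := by
          rw [commutatorElement_def]; exact mul_mem hnQ (inv_mem hoQ)
        have h2 : ⁅q l', q (o : M)⁆ ∈ R := by
          rw [commutatorElement_def]
          have h3 : q (o : M) * (q l')⁻¹ * (q (o : M))⁻¹ ∈ R :=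
            (Subgroup.mem_normalizer_iff.1 (hRn hqa) _).1 (inv_mem hr)
          simpa [mul_assoc] using mul_mem hr h3
        exact commutatorElement_eq_one_iff_mul_comm.1 (hKA Q hQp _ h1 (hRK' h2))
      rw [hgen _ hqa hnB']
      exact sup_le (Subgroup.le_centralizer_iff.1 (hRK.trans inf_le_right)) (Subgroup.zpowers_le.2 hcent)
    · intro haB
      let X : Subgroup ↥L := (B.comap q).subgroupOf L
      have hXn : X.Normal := ⟨fun z hz g => by
        show q (((g * z * g⁻¹ : ↥L) : M)) ∈ B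
        have hz' : q (z : M) ∈ B := hz
        have hgz : q (g : M) * q (z : M) = q (z : M) * q (g : M) :=
          (hBc _ hz' _ (hqL ▸ Subgroup.mem_map_of_mem q g.2)).symm
        rw [Subgroup.coe_mul, Subgroup.coe_mul, Subgroup.coe_inv, map_mul, map_mul, map_inv, hgz,
          mul_inv_cancel_right]
        exact hz'⟩
      have hXp : IsPGroup p X := by
        have h1 : IsPGroup p (B.comap q) := (hAbp.to_le hBA).comap_of_ker_isPGroup q
          (by rw [hqk]; exact isPGroup_pCore (G := M) p)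
        exact h1.comap_of_injective L.subtype L.subtype_injective
      exact Subgroup.mem_map.2 ⟨⟨a, hAL ha⟩, le_pCore hXn hXp haB, rfl⟩
  have hinf : A ⊓ (Cfsg.pCore p ↥L).map L.subtype = A ⊓ B.comap q :=
    Subgroup.ext fun a => and_congr_right fun ha => hOL a ha
  rw [hinf]
  refine ⟨?_, ?_⟩
  · rw [Subgroup.inf_relIndex_left, Subgroup.relIndex_comap]
    show B.relIndex Ab = p
    obtain ⟨u, hu, huB⟩ := hnB
    haveI : IsMulCommutative ↥Ab := hAbc
    set B' := B.subgroupOf Ab with hB'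
    haveI : B'.Normal := ⟨fun z hz g => by rw [hAbc.is_comm.comm g z, mul_inv_cancel_right]; exact hz⟩
    set U := Subgroup.zpowers (⟨u, hu⟩ : ↥Ab) with hU
    have htop : U ⊔ B' = ⊤ := by
      refine Subgroup.map_injective Ab.subtype_injective ?_
      rw [Subgroup.map_sup, hU, MonoidHom.map_zpowers, hB', Subgroup.subgroupOf_map_subtype, inf_eq_left.2 hBA,
        ← MonoidHom.range_eq_map, Subgroup.range_subtype]
      show Subgroup.zpowers u ⊔ B = Ab
      rw [sup_comm]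
      exact (hgen u hu huB).symm
    have hu1 : (⟨u, hu⟩ : ↥Ab) ≠ 1 := fun h => huB (by rw [show u = 1 from congrArg Subtype.val h]; exact B.one_mem)
    have hUc : Nat.card U = p := by
      rw [hU, Nat.card_zpowers]; exact orderOf_eq_prime (Subtype.ext (hAbe u hu)) hu1
    have hinf' : U ⊓ B' = ⊥ := by
      rcases (Nat.dvd_prime hpp).1 (hUc ▸ Subgroup.card_dvd_of_le (inf_le_left : U ⊓ B' ≤ U)) with h | h
      · exact Subgroup.card_eq_one.1 h
      · exfalso
        have := Subgroup.eq_of_le_of_card_ge (inf_le_left : U ⊓ B' ≤ U) (by rw [hUc, h])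
        exact huB ((this.ge (Subgroup.mem_zpowers _)).2)
    show B'.index = p
    rw [← Subgroup.relIndex_top_right, ← htop, Subgroup.relIndex_sup_right,
      card_eq_relIndex_of_inf_eq_bot hinf', hUc]
  · rw [Subgroup.commutator_le]
    intro a ha g hg
    rw [← QuotientGroup.eq_one_iff]
    show q ⁅a, g⁆ = 1
    rw [map_commutatorElement, commutatorElement_eq_one_iff_mul_comm]
    exact hBc _ ha.2 _ (hqL ▸ Subgroup.mem_map_of_mem q hg)

end Cfsg.Agent.S3754
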