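import Cfsg.Statements.S3755
import Cfsg.Agent.Lib.Solv.Coprime2
import Cfsg.Agent.Lib.Solv.Cores
import Cfsg.Agent.Lib.Solv.DihedralPairs
-- import your own Cfsg.Agent.* helpers here

set_option autoImplicit false
open Cfsg
open scoped Pointwise commutatorElement

namespace Cfsg.Agent.S3755

/-- The symmetric group of degree three as a dihedral group. -/
theorem dihedral_perm : Nonempty (DihedralGroup 3 ≃* Equiv.Perm (Fin 3)) := by
  let f : DihedralGroup 3 → Equiv.Perm (Fin 3) := fun d => match d with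
    | .r i => Equiv.addRight (show Fin 3 from i)
    | .sr i => (Equiv.addRight (show Fin 3 from i)).trans (Equiv.neg (Fin 3))
  exact ⟨MulEquiv.ofBijective (MonoidHom.mk' f (by decide)) (by decide)⟩

/-- Elements moved by a power fixing modulo fixed points. -/
theorem prime_index {G : Type*} [Group G] [Finite G] (D E : Subgroup G) (hED : E ≤ D) (hD : ∀ u ∈ D, u ^ 2 = 1)
    (x : G) {p : ℕ} (hp : p.Prime) (hp5 : 5 ≤ p) (hx : x ^ p = 1) (hxD : ∀ u ∈ D, x * u * x⁻¹ ∈ D)
    (hxE : ∀ e ∈ E, x * e = e * x) (hidx : E.relIndex D ≤ 4) : ∀ u ∈ D, x * u = u * x := by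
  intro u hu
  have hmem : ∀ i : ℕ, x ^ i * u * (x ^ i)⁻¹ ∈ D := by
    intro i
    induction i with
    | zero => simpa using hu
    | succ i ih =>
      have := hxD _ ih
      convert this using 1
      rw [pow_succ']; group
  let F : Fin p → ↥D ⧸ E.subgroupOf D := fun i => ((⟨_, hmem i⟩ : ↥D) : ↥D ⧸ E.subgroupOf D)
  obtain ⟨i, j, hij, hne⟩ : ∃ i j : Fin p, F i = F j ∧ (i : ℕ) < j := by
    have hni : ¬ Function.Injective F := fun h => by
      have h1 := Nat.card_le_card_of_injective F h
      rw [Nat.card_fin, ← Subgroup.index_eq_card] at h1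
      change p ≤ E.relIndex D at h1
      omega
    simp only [Function.Injective, not_forall] at hni
    obtain ⟨i, j, h, hne⟩ := hni
    rcases lt_or_gt_of_ne (fun h' => hne (Fin.ext h') : (i : ℕ) ≠ j) with h' | h'
    · exact ⟨i, j, h, h'⟩
    · exact ⟨j, i, h.symm, h'⟩
  have hE : (x ^ (i : ℕ) * u * (x ^ (i : ℕ))⁻¹)⁻¹ * (x ^ (j : ℕ) * u * (x ^ (j : ℕ))⁻¹) ∈ E :=
    (QuotientGroup.eq (s := E.subgroupOf D)).1 hij
  obtain ⟨k, hk⟩ : ∃ k, (j : ℕ) = (i : ℕ) + k := ⟨(j : ℕ) - i, by omega⟩
  set t := u⁻¹ * (x ^ k * u * (x ^ k)⁻¹) with ht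
  have hxpow : ∀ (m : ℕ), ∀ e ∈ E, x ^ m * e = e * x ^ m := fun m e he => (Commute.pow_left (hxE e he) m).eq
  have htE : t ∈ E := by
    have h1 : (x ^ (i : ℕ) * u * (x ^ (i : ℕ))⁻¹)⁻¹ * (x ^ (j : ℕ) * u * (x ^ (j : ℕ))⁻¹) =
        x ^ (i : ℕ) * t * (x ^ (i : ℕ))⁻¹ := by rw [hk, ht, pow_add]; group
    rw [h1] at hE
    have h2 := hxpow i _ hE
    have h3 : x ^ (i : ℕ) * t * (x ^ (i : ℕ))⁻¹ = t := by
      have := congrArg (fun z => (x ^ (i : ℕ))⁻¹ * z) h2
      simpa [mul_assoc] using this
    rwa [h3] at hE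
  have hku : ∀ m, x ^ (k * m) * u * (x ^ (k * m))⁻¹ = u * t ^ m := by
    intro m
    induction m with
    | zero => simp
    | succ m ih =>
      rw [mul_add, mul_one, add_comm, pow_add]
      calc x ^ k * x ^ (k * m) * u * (x ^ k * x ^ (k * m))⁻¹ = x ^ k * (x ^ (k * m) * u * (x ^ (k * m))⁻¹) * (x ^ k)⁻¹ := by group
        _ = (x ^ k * u * (x ^ k)⁻¹) * (x ^ k * t ^ m * (x ^ k)⁻¹) := by rw [ih]; group
        _ = u * t ^ (m + 1) := by
          rw [hxpow k _ (E.pow_mem htE m), mul_inv_cancel_right, pow_succ', ← mul_assoc, ht, mul_inv_cancel_left]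
  have htp : t ^ p = 1 := by
    have h := hku p
    rw [mul_comm k, pow_mul, hx, one_pow, one_mul, inv_one, mul_one, left_eq_mul] at h
    exact h
  have ht1 : t = 1 := orderOf_eq_one_iff.1 (Nat.eq_one_of_dvd_coprimes
    ((Nat.coprime_primes hp Nat.prime_two).2 (by omega))
    (orderOf_dvd_of_pow_eq_one htp) (orderOf_dvd_of_pow_eq_one (hD t (hED htE))))
  obtain ⟨m, -, hm⟩ := Nat.exists_mul_mod_eq_one_of_coprime (n := k) (k := p)
    (Nat.Coprime.symm ((Nat.Prime.coprime_iff_not_dvd hp).2 (fun h => by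
      have := Nat.le_of_dvd (by omega) h
      have := j.2
      omega))) hp.one_lt
  have h := hku m
  rw [ht1, one_pow, mul_one, ← Nat.mod_add_div (k * m) p, hm, pow_add, pow_mul, hx, one_pow, mul_one, pow_one,
    mul_inv_eq_iff_eq_mul] at h
  exact h

/-- Let M and V be subgroups of a finite group with V an elementary abelian 2-group, M normalizing V and acting faithfully on it (M ∩ C(V) = 1), and C_M(O_{2'}(M)) ≤ O_{2'}(M). If some elementary abelian 2-subgroup A of M satisfies |V : C_V(A)| < |A|², then M has a section isomorphic to the symmetric group of degree 3. -/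
theorem result {X : Type*} [Group X] [Finite X] (M V : Subgroup X) (hV : Cfsg.IsElementaryAbelian 2 V) (hMV : M ≤ Subgroup.normalizer (V : Set X)) (hfaith : M ⊓ Subgroup.centralizer (V : Set X) = ⊥) (hcon : Subgroup.centralizer (Cfsg.pPrimeCore 2 ↥M : Set ↥M) ≤ Cfsg.pPrimeCore 2 ↥M) (A : Subgroup X) (hAM : A ≤ M) (hA : Cfsg.IsElementaryAbelian 2 A) (hsmall : (V ⊓ Subgroup.centralizer (A : Set X)).relIndex V < Nat.card A ^ 2) : Cfsg.Involves (Equiv.Perm (Fin 3)) ↥M := by
  classical
  haveI : Fact (Nat.Prime 2) := ⟨Nat.prime_two⟩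
  haveI := hA.1
  haveI := hV.1
  by_contra hinv
  set L : Subgroup X := (Cfsg.pPrimeCore 2 ↥M).map M.subtype with hL
  have hLM : L ≤ M := Subgroup.map_subtype_le _
  have hLodd : Odd (Nat.card L) := by
    rw [hL, Subgroup.card_map_of_injective M.subtype_injective, ← Nat.not_even_iff_odd, even_iff_two_dvd]
    exact Cfsg.Lib.Solv.not_dvd_card_pPrimeCore 2
  have hA2 : ∀ a ∈ A, a ^ 2 = 1 := hA.2
  have hAp : IsPGroup 2 A := fun a => ⟨1, Subtype.ext (by simpa using hA2 a a.2)⟩
  have hML : ∀ m ∈ M, ∀ l ∈ L, m * l * m⁻¹ ∈ L := by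
    rintro m hm _ ⟨l, hl, rfl⟩
    exact ⟨⟨m, hm⟩ * l * ⟨m, hm⟩⁻¹, (inferInstance : (Cfsg.pPrimeCore 2 ↥M).Normal).conj_mem l hl _, rfl⟩
  have hoddsq : ∀ l ∈ L, l ^ 2 = 1 → l = 1 := by
    intro l hl h
    refine orderOf_eq_one_iff.1 (Nat.eq_one_of_dvd_coprimes ((Nat.coprime_two_left).2 hLodd)
      (orderOf_dvd_of_pow_eq_one h) ?_)
    have := orderOf_dvd_natCard (⟨l, hl⟩ : ↥L)
    rwa [← Subgroup.orderOf_coe] at this
  have hAfaith : ∀ a ∈ A, (∀ l ∈ L, a * l = l * a) → a = 1 := by
    intro a ha h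
    refine hoddsq a ⟨⟨a, hAM ha⟩, hcon (Subgroup.mem_centralizer_iff.2 fun l hl => Subtype.ext ?_), rfl⟩ (hA2 a ha)
    exact (h l ⟨l, hl, rfl⟩).symm
  -- generation by fixed points of hyperplanes
  let W : Subgroup X := Subgroup.closure {l : X | l ∈ L ∧ ∃ H : Subgroup X, H ≤ A ∧ H.relIndex A ≤ 2 ∧ l ∈ Subgroup.centralizer (H : Set X)}
  have hgen : ∀ (k : ℕ) (B : Subgroup X), B ≤ A → Nat.card A - Nat.card B = k → L ⊓ Subgroup.centralizer (B : Set X) ≤ W := by
    intro k
    induction k using Nat.strong_induction_on with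
    | _ k ih =>
      intro B hBA hk
      by_cases hidx : B.relIndex A ≤ 2
      · exact fun l hl => Subgroup.subset_closure ⟨hl.1, B, hBA, hidx, hl.2⟩
      obtain ⟨e1, he1A, he1B⟩ : ∃ e ∈ A, e ∉ B := by
        by_contra h
        push_neg at h
        exact hidx (by rw [Subgroup.relIndex_eq_one.2 h]; norm_num)
      have he11 : e1 * e1 = 1 := by rw [← pow_two]; exact hA2 e1 he1A
      let V1 : Subgroup X :=
        { carrier := {y | y ∈ A ∧ (y ∈ B ∨ y * e1 ∈ B)}
          one_mem' := ⟨A.one_mem, Or.inl B.one_mem⟩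
          mul_mem' := fun {a b} ha hb => ⟨A.mul_mem ha.1 hb.1, by
            rcases ha.2 with h | h <;> rcases hb.2 with h' | h'
            · exact Or.inl (B.mul_mem h h')
            · exact Or.inr (by rw [mul_assoc]; exact B.mul_mem h h')
            · refine Or.inr ?_
              rw [mul_assoc, ← setLike_mul_comm he1A hb.1, ← mul_assoc]
              exact B.mul_mem h h'
            · refine Or.inl ?_
              have := B.mul_mem h h'
              rwa [show a * e1 * (b * e1) = a * (e1 * (b * e1)) from mul_assoc _ _ _,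
                setLike_mul_comm he1A (A.mul_mem hb.1 he1A), mul_assoc b, he11, mul_one] at this⟩
          inv_mem' := fun {a} ha => by
            have hai : a⁻¹ = a := inv_eq_of_mul_eq_one_right (by rw [← pow_two]; exact hA2 a ha.1)
            show a⁻¹ ∈ {y | y ∈ A ∧ (y ∈ B ∨ y * e1 ∈ B)}
            rw [hai]
            exact ha }
      have hBV1 : B ≤ V1 := fun y hy => ⟨hBA hy, Or.inl hy⟩
      have hV1c : e1 ∈ V1 := ⟨he1A, Or.inr (by rw [he11]; exact B.one_mem)⟩
      obtain ⟨e2, he2A, he2V⟩ : ∃ e ∈ A, e ∉ V1 := by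
        by_contra h
        push_neg at h
        refine hidx (le_of_eq ?_)
        show (B.subgroupOf A).index = 2
        refine Subgroup.index_eq_two_iff.2 ⟨⟨e1, he1A⟩, fun y => ?_⟩
        by_cases hy : (y : X) ∈ B
        · exact Or.inr ⟨hy, fun hye => he1B (by
            have := B.mul_mem (B.inv_mem hy) (show (y : X) * e1 ∈ B from hye)
            rwa [inv_mul_cancel_left] at this)⟩
        · exact Or.inl ⟨((h y y.2).2.resolve_left hy), hy⟩
      have he1 : e1 ≠ 1 := fun h => he1B (by rw [h]; exact B.one_mem)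
      let E : Subgroup X :=
        { carrier := {y | ∃ i j : ℕ, y = e1 ^ i * e2 ^ j}
          one_mem' := ⟨0, 0, by simp⟩
          mul_mem' := fun {a b} => by
            rintro ⟨i, j, rfl⟩ ⟨i', j', rfl⟩
            refine ⟨i + i', j + j', ?_⟩
            rw [pow_add, pow_add, mul_assoc, ← mul_assoc (e2 ^ j), ((show Commute e2 e1 from setLike_mul_comm he2A he1A).pow_pow j i').eq]
            simp only [mul_assoc]
          inv_mem' := fun {a} => by
            rintro ⟨i, j, rfl⟩
            exact ⟨i, j, inv_eq_of_mul_eq_one_right (by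
              rw [← pow_two]; exact hA2 _ (A.mul_mem (A.pow_mem he1A i) (A.pow_mem he2A j)))⟩ }
      have hEA : E ≤ A := by rintro _ ⟨i, j, rfl⟩; exact A.mul_mem (A.pow_mem he1A i) (A.pow_mem he2A j)
      have hEB : ∀ e ∈ E, e ≠ 1 → e ∉ B := by
        rintro _ ⟨i, j, rfl⟩ hne heB
        rw [pow_eq_pow_mod i (hA2 e1 he1A), pow_eq_pow_mod j (hA2 e2 he2A)] at hne heB
        rcases Nat.mod_two_eq_zero_or_one i with hi | hi <;> rcases Nat.mod_two_eq_zero_or_one j with hj | hj <;>
          simp only [hi, hj, pow_zero, pow_one, one_mul, mul_one] at hne heB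
        · exact hne rfl
        · exact he2V (hBV1 heB)
        · exact he1B heB
        · have := V1.mul_mem (V1.inv_mem hV1c) (hBV1 heB)
          rw [inv_mul_cancel_left] at this
          exact he2V this
      haveI : IsMulCommutative E := ⟨⟨fun a b => Subtype.ext (setLike_mul_comm (hEA a.2) (hEA b.2))⟩⟩
      have hEnc : ¬ IsCyclic E := by
        intro hc
        obtain ⟨g, hg⟩ := hc.exists_generator
        have hE2 : Nat.card E ∣ 2 := by
          rw [← orderOf_eq_card_of_forall_mem_zpowers hg]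
          exact orderOf_dvd_of_pow_eq_one (Subtype.ext (hA2 g (hEA g.2)))
        have hz : Subgroup.zpowers e1 = E := Subgroup.eq_of_le_of_card_ge (Subgroup.zpowers_le.2 ⟨1, 0, by simp⟩)
          (by rw [Nat.card_zpowers, orderOf_eq_prime (hA2 e1 he1A) he1]; exact Nat.le_of_dvd two_pos hE2)
        have : e2 ∈ Subgroup.zpowers e1 := by rw [hz]; exact ⟨0, 1, by simp⟩
        exact he2V (Subgroup.zpowers_le.2 hV1c this)
      refine Cfsg.Lib.Solv.le_of_fixed_le E (L ⊓ Subgroup.centralizer (B : Set X)) W hEnc ?_ ?_ ?_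
      · refine Cfsg.Lib.Solv.DihedralPairs.le_normalizer_of_conj fun a ha u hu => ⟨hML a (hAM (hEA ha)) u hu.1,
          Subgroup.mem_centralizer_iff.2 fun y hy => ?_⟩
        have h1 : a * y = y * a := setLike_mul_comm (hEA ha) (hBA hy)
        have h2 := Subgroup.mem_centralizer_iff.1 hu.2 y hy
        have h3 : a⁻¹ * y = y * a⁻¹ := (show Commute a y from h1).inv_left
        calc y * (a * u * a⁻¹) = (y * a) * u * a⁻¹ := by group
          _ = a * (y * u) * a⁻¹ := by rw [← h1]; group
          _ = a * u * (y * a⁻¹) := by rw [h2]; group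
          _ = a * u * a⁻¹ * y := by rw [← h3]; group
      · have hE2 : IsPGroup 2 E := fun a => ⟨1, Subtype.ext (by simpa using hA2 a (hEA a.2))⟩
        obtain ⟨m, hm⟩ := IsPGroup.iff_card.1 hE2
        rw [hm]
        exact Nat.Coprime.pow_left _ ((Nat.coprime_two_left).2 (hLodd.of_dvd_nat (Subgroup.card_dvd_of_le inf_le_left)))
      · intro e he he1
        have hBsup : B < B ⊔ Subgroup.zpowers e := lt_of_le_of_ne le_sup_left fun h =>
          hEB e he he1 (h ▸ Subgroup.mem_sup_right (Subgroup.mem_zpowers e))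
        have hsupA : B ⊔ Subgroup.zpowers e ≤ A := sup_le hBA (Subgroup.zpowers_le.2 (hEA he))
        have hlt : Nat.card A - Nat.card ↥(B ⊔ Subgroup.zpowers e) < k := by
          have h1 : Nat.card B < Nat.card ↥(B ⊔ Subgroup.zpowers e) := by
            by_contra h
            exact hBsup.ne (Subgroup.eq_of_le_of_card_ge hBsup.le (not_lt.1 h))
          have h2 := Nat.le_of_dvd Nat.card_pos (Subgroup.card_dvd_of_le hsupA)
          omega
        refine le_trans ?_ (ih _ hlt _ hsupA rfl)
        intro l hl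
        refine ⟨hl.1.1, ?_⟩
        have hle : B ⊔ Subgroup.zpowers e ≤ Subgroup.centralizer ({l} : Set X) := by
          refine sup_le (fun y hy => Subgroup.mem_centralizer_singleton_iff.2 (Subgroup.mem_centralizer_iff.1 hl.1.2 y hy))
            (Subgroup.zpowers_le.2 (Subgroup.mem_centralizer_singleton_iff.2 (Subgroup.mem_centralizer_singleton_iff.1 hl.2).symm))
        exact Subgroup.mem_centralizer_iff.2 fun y hy => Subgroup.mem_centralizer_singleton_iff.1 (hle hy)
  have hLW : L ≤ W := fun l hl => hgen _ ⊥ bot_le rfl ⟨hl, Subgroup.mem_centralizer_iff.2 fun y hy => by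
    rw [Subgroup.mem_bot.1 hy, one_mul, mul_one]⟩
  -- the fixed points
  let CV : Subgroup X → Subgroup X := fun B => V ⊓ Subgroup.centralizer (B : Set X)
  have hmain : ∀ (k : ℕ) (B : Subgroup X), B ≤ A → Nat.card B = k → k ^ 2 * Nat.card (CV B) ≤ Nat.card V := by
    intro k
    induction k using Nat.strong_induction_on with
    | _ k ih =>
      intro B hBA hk
      rcases eq_or_ne B ⊥ with rfl | hB
      · rw [← hk, Subgroup.card_bot, one_pow, one_mul]
        exact Nat.le_of_dvd Nat.card_pos (Subgroup.card_dvd_of_le inf_le_left)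
      obtain ⟨b, hbB, hb1⟩ := (Subgroup.bot_or_exists_ne_one B).resolve_left hB
      have hbA := hBA hbB
      have hbb : b * b = 1 := by rw [← pow_two]; exact hA2 b hbA
      have hbi : b⁻¹ = b := inv_eq_of_mul_eq_one_right hbb
      obtain ⟨l, ⟨hlL, H, hHA, hH2, hlH⟩, hbl⟩ : ∃ l, (l ∈ L ∧ ∃ H : Subgroup X, H ≤ A ∧ H.relIndex A ≤ 2 ∧
          l ∈ Subgroup.centralizer (H : Set X)) ∧ b * l ≠ l * b := by
        by_contra h
        push_neg at h
        refine hb1 (hAfaith b hbA fun l hl => ?_)
        have hle : W ≤ Subgroup.centralizer ({b} : Set X) :=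
          (Subgroup.closure_le _).2 fun l hl => Subgroup.mem_centralizer_singleton_iff.2 (h l hl).symm
        exact (Subgroup.mem_centralizer_singleton_iff.1 (hle (hLW hl))).symm
      have hbH : b ∉ H := fun h => hbl (Subgroup.mem_centralizer_iff.1 hlH b h)
      set u := l⁻¹ * (b * l * b⁻¹) with hu
      have hu1 : u ≠ 1 := fun h => hbl (mul_inv_eq_iff_eq_mul.1 (inv_mul_eq_one.1 h).symm)
      have huL : u ∈ L := L.mul_mem (L.inv_mem hlL) (hML b (hAM hbA) l hlL)
      have huH : u ∈ Subgroup.centralizer (H : Set X) := by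
        have hbC : b ∈ Subgroup.centralizer (H : Set X) :=
          Subgroup.mem_centralizer_iff.2 fun y hy => setLike_mul_comm (hHA hy) hbA
        exact Subgroup.mul_mem _ (Subgroup.inv_mem _ hlH) (Subgroup.mul_mem _ (Subgroup.mul_mem _ hbC hlH) (Subgroup.inv_mem _ hbC))
      have hbu : b * u * b⁻¹ = u⁻¹ := by
        rw [hu, hbi, mul_inv_rev, inv_inv, mul_inv_rev, mul_inv_rev, hbi]
        calc b * (l⁻¹ * (b * l * b)) * b = b * l⁻¹ * b * l * (b * b) := by simp only [mul_assoc]
          _ = b * (l⁻¹ * b) * l := by rw [hbb, mul_one]; simp only [mul_assoc]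
      obtain ⟨p, hp, hpd⟩ := Nat.exists_prime_and_dvd (fun h => hu1 (orderOf_eq_one_iff.1 h))
      set x := u ^ (orderOf u / p) with hxdef
      have hxp : x ^ p = 1 := by rw [hxdef, ← pow_mul, Nat.div_mul_cancel hpd, pow_orderOf_eq_one]
      have hx1 : x ≠ 1 := by
        rw [hxdef, Ne, ← orderOf_dvd_iff_pow_eq_one]
        intro h
        have h0 : 0 < orderOf u := orderOf_pos u
        have := Nat.le_of_dvd (Nat.div_pos (Nat.le_of_dvd h0 hpd) hp.pos) h
        have := Nat.div_lt_self h0 hp.one_lt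
        omega
      have hxL : x ∈ L := L.pow_mem huL _
      have hbx : b * x * b⁻¹ = x⁻¹ := by rw [hxdef, ← conj_pow, hbu, inv_pow]
      have hxH : x ∈ Subgroup.centralizer (H : Set X) := Subgroup.pow_mem _ huH _
      have hox : orderOf x = p := by haveI := Fact.mk hp; exact orderOf_eq_prime hxp hx1
      have hp2 : p ≠ 2 := fun h => hx1 (hoddsq x hxL (h ▸ hxp))
      have hp5 : 5 ≤ p := by
        by_contra h5
        have hp3 : p = 3 := by
          have := hp.two_le
          rcases (show p = 2 ∨ p = 3 ∨ p = 4 by omega) with h | h | h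
          · exact absurd h hp2
          · exact h
          · rw [h] at hp; exact absurd hp (by norm_num)
        have hbx' : b ∉ Subgroup.zpowers x := fun h => by
          have h2 := orderOf_dvd_natCard (⟨b, h⟩ : ↥(Subgroup.zpowers x))
          rw [← Subgroup.orderOf_coe, orderOf_eq_prime (hA2 b hbA) hb1, Nat.card_zpowers, hox, hp3] at h2
          omega
        obtain ⟨e⟩ := Cfsg.Lib.Solv.DihedralPairs.dihedral_iso (hA2 b hbA) hbx hbx'
        obtain ⟨e'⟩ := dihedral_perm
        rw [hox, hp3] at e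
        have hKM : Subgroup.zpowers b ⊔ Subgroup.zpowers x ≤ M :=
          sup_le (Subgroup.zpowers_le.2 (hAM hbA)) (Subgroup.zpowers_le.2 (hLM hxL))
        refine hinv ⟨(Subgroup.zpowers b ⊔ Subgroup.zpowers x).subgroupOf M, ⊥, inferInstance, ⟨?_⟩⟩
        exact (((QuotientGroup.quotientMulEquivOfEq (Subgroup.bot_subgroupOf _)).trans QuotientGroup.quotientBot).trans
          (Subgroup.subgroupOfEquivOfLe hKM)).trans (e.trans e')
      -- the hyperplane of `B`
      have hB1A : B ⊓ H ≤ A := inf_le_left.trans hBA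
      have hH2' : ∀ y ∈ A, y ∈ H ∨ y * b ∈ H := by
        intro y hy
        have hidx : (H.subgroupOf A).index = 2 := by
          have h0 : H.relIndex A ≠ 0 := Subgroup.index_ne_zero_of_finite
          have h1 : H.relIndex A ≠ 1 := fun h => hbH (Subgroup.relIndex_eq_one.1 h hbA)
          show H.relIndex A = 2
          omega
        by_cases hyH : y ∈ H
        · exact Or.inl hyH
        refine Or.inr ?_
        exact (Subgroup.mul_mem_iff_of_index_two hidx (a := (⟨y, hy⟩ : ↥A)) (b := ⟨b, hbA⟩)).2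
          (iff_of_false hyH hbH)
      set B1 := B ⊓ H with hB1
      have hcardB : Nat.card B ≤ 2 * Nat.card B1 := by
        let f : ↥B → Bool × ↥B1 := fun y =>
          if h : (y : X) ∈ H then (true, ⟨y, y.2, h⟩)
          else (false, ⟨(y : X) * b, B.mul_mem y.2 hbB, (hH2' y (hBA y.2)).resolve_left h⟩)
        have hf : Function.Injective f := by
          intro y z h
          simp only [f] at h
          split_ifs at h with hy hz hz
          · exact Subtype.ext (congrArg Subtype.val (Prod.mk.inj h).2 :)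
          · exact absurd (Prod.mk.inj h).1 (by simp)
          · exact absurd (Prod.mk.inj h).1 (by simp)
          · exact Subtype.ext (mul_right_cancel (congrArg Subtype.val (Prod.mk.inj h).2 :))
        have := Nat.card_le_card_of_injective f hf
        rwa [Nat.card_prod, Nat.card_eq_fintype_card (α := Bool), Fintype.card_bool] at this
      have hlt : Nat.card B1 < k := by
        rw [← hk]
        by_contra h
        exact hbH ((Subgroup.eq_of_le_of_card_ge inf_le_left (not_lt.1 h)).ge hbB).2
      have hIH := ih _ hlt B1 hB1A rfl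
      -- `x` moves a fixed point of the hyperplane
      set D := CV B1 with hD
      have hxD0 : x ∈ Subgroup.centralizer (B1 : Set X) := Subgroup.centralizer_le inf_le_right hxH
      have hMVn : ∀ m ∈ M, m ∈ Subgroup.normalizer (V : Set X) := fun m hm => hMV hm
      have hMV : ∀ m ∈ M, ∀ v ∈ V, m * v * m⁻¹ ∈ V := fun m hm v hv => (Subgroup.mem_normalizer_iff.1 (hMV hm) v).1 hv
      have hDn : ∀ g ∈ M, g ∈ Subgroup.centralizer (B1 : Set X) → ∀ v ∈ D, g * v * g⁻¹ ∈ D := fun g hg hgC v hv =>
        ⟨hMV g hg v hv.1, Subgroup.mul_mem _ (Subgroup.mul_mem _ hgC hv.2) (Subgroup.inv_mem _ hgC)⟩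
      have hbC1 : b ∈ Subgroup.centralizer (B1 : Set X) :=
        Subgroup.mem_centralizer_iff.2 fun y hy => setLike_mul_comm (hB1A hy) hbA
      have hxnot : ∃ v ∈ D, x * v ≠ v * x := by
        by_contra h
        push_neg at h
        have hVp : IsPGroup 2 V := fun v => ⟨1, Subtype.ext (by simpa using hV.2 v v.2)⟩
        have hxV : Subgroup.zpowers x ≤ Subgroup.centralizer (V : Set X) := by
          refine Cfsg.Lib.Solv.thompson_PxQ B1 (Subgroup.zpowers x) V (hAp.to_le hB1A) ?_ hVp ?_
            (fun y hy => Subgroup.mem_normalizer_iff.2 fun v => ?_) (Subgroup.zpowers_le.2 ?_) ?_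
          · rw [Nat.card_zpowers, hox]; exact (Nat.coprime_primes hp Nat.prime_two).2 hp2
          · exact Subgroup.le_centralizer_iff.1 (Subgroup.zpowers_le.2 hxD0)
          · exact Subgroup.mem_normalizer_iff.1 (hMVn y (hAM (hB1A hy))) v
          · exact hMVn x (hLM hxL)
          · intro v hv
            refine Subgroup.mem_centralizer_iff.2 fun y hy => ?_
            obtain ⟨i, rfl⟩ := hy
            exact (Commute.zpow_left (h v ⟨hv.1, hv.2⟩) i).eq
        have : x ∈ M ⊓ Subgroup.centralizer (V : Set X) := ⟨hLM hxL, hxV (Subgroup.mem_zpowers x)⟩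
        rw [hfaith, Subgroup.mem_bot] at this
        exact hx1 this
      obtain ⟨v0, hv0, hv0x⟩ := hxnot
      set F1 := D ⊓ Subgroup.centralizer ({b} : Set X) with hF1
      set F2 := D ⊓ Subgroup.centralizer ({x * b * x⁻¹} : Set X) with hF2
      have hD2 : ∀ d ∈ D, d ^ 2 = 1 := fun d hd => hV.2 d hd.1
      have h4 : 4 ≤ F1.relIndex D := by
        by_contra h4
        have hF1card : F1.relIndex D ≤ 2 := by
          have hpow : ∀ K : Subgroup X, K ≤ D → ∃ j, Nat.card K = 2 ^ j := fun K hK =>
            IsPGroup.iff_card.1 (fun v => ⟨1, Subtype.ext (by simpa using hD2 v (hK v.2))⟩)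
          obtain ⟨j, hj⟩ := hpow D le_rfl
          have hd : F1.relIndex D ∣ 2 ^ j := by rw [← hj]; exact Subgroup.index_dvd_card _
          obtain ⟨i, -, hi⟩ := (Nat.dvd_prime_pow Nat.prime_two).1 hd
          rw [hi] at h4 ⊢
          rcases i with _ | _ | i
          · norm_num
          · norm_num
          · exfalso
            have : 2 ^ 2 ≤ 2 ^ (i + 1 + 1) := Nat.pow_le_pow_right (by norm_num) (by omega)
            omega
        have hF2card : F2.relIndex D = F1.relIndex D := by
          have hmap : F1.map (MulAut.conj x).toMonoidHom = F2 := by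
            ext v
            constructor
            · rintro ⟨w, hw, rfl⟩
              refine ⟨hDn x (hLM hxL) hxD0 w hw.1, Subgroup.mem_centralizer_singleton_iff.2 ?_⟩
              have hwb := Subgroup.mem_centralizer_singleton_iff.1 hw.2
              show x * w * x⁻¹ * (x * b * x⁻¹) = x * b * x⁻¹ * (x * w * x⁻¹)
              calc x * w * x⁻¹ * (x * b * x⁻¹) = x * (w * b) * x⁻¹ := by group
                _ = x * (b * w) * x⁻¹ := by rw [hwb]
                _ = _ := by group
            · intro hv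
              refine ⟨x⁻¹ * v * x, ⟨?_, Subgroup.mem_centralizer_singleton_iff.2 ?_⟩, ?_⟩
              · have := hDn x⁻¹ (M.inv_mem (hLM hxL)) (Subgroup.inv_mem _ hxD0) v hv.1
                rwa [inv_inv] at this
              · have hvb := Subgroup.mem_centralizer_singleton_iff.1 hv.2
                calc x⁻¹ * v * x * b = x⁻¹ * (v * (x * b * x⁻¹)) * x := by group
                  _ = x⁻¹ * ((x * b * x⁻¹) * v) * x := by rw [hvb]
                  _ = b * (x⁻¹ * v * x) := by group
              · show x * (x⁻¹ * v * x) * x⁻¹ = v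
                group
          have e1 : F1.relIndex D * Nat.card F1 = Nat.card D := by
            rw [← Nat.card_congr (Subgroup.subgroupOfEquivOfLe (inf_le_left : F1 ≤ D)).toEquiv]
            exact (F1.subgroupOf D).index_mul_card
          have e2 : F2.relIndex D * Nat.card F2 = Nat.card D := by
            rw [← Nat.card_congr (Subgroup.subgroupOfEquivOfLe (inf_le_left : F2 ≤ D)).toEquiv]
            exact (F2.subgroupOf D).index_mul_card
          rw [← hmap]
          rw [← hmap, Subgroup.card_map_of_injective (MulAut.conj x).injective] at e2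
          exact Nat.eq_of_mul_eq_mul_right Nat.card_pos (e2.trans e1.symm)
        refine hv0x (prime_index D (F1 ⊓ F2) (inf_le_left.trans inf_le_left) hD2 x hp hp5 hxp
          (fun v hv => hDn x (hLM hxL) hxD0 v hv) (fun e he => ?_) ?_ v0 hv0)
        · have h1 : Commute e b := Subgroup.mem_centralizer_singleton_iff.1 he.1.2
          have h2 : Commute e (x * b * x⁻¹) := Subgroup.mem_centralizer_singleton_iff.1 he.2.2
          have h3 : Commute e (x ^ 2) := by
            have h := h2.mul_right h1.inv_right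
            have hb2 : b * x⁻¹ * b⁻¹ = x := by rw [← conj_inv, hbx, inv_inv]
            rwa [show x * b * x⁻¹ * b⁻¹ = x * (b * x⁻¹ * b⁻¹) by group, hb2, ← pow_two] at h
          obtain ⟨m, hm⟩ := exists_pow_eq_self_of_coprime (x := x) (n := 2) (by
            rw [hox]; exact (Nat.coprime_primes Nat.prime_two hp).2 (Ne.symm hp2))
          rw [← hm]
          exact (h3.pow_right m).symm.eq
        · calc (F1 ⊓ F2).relIndex D ≤ F1.relIndex D * F2.relIndex D := Subgroup.relIndex_inf_le
            _ ≤ 2 * 2 := Nat.mul_le_mul hF1card (hF2card ▸ hF1card)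
      have hCB : CV B ≤ F1 := fun v hv => ⟨⟨hv.1, Subgroup.centralizer_le inf_le_left hv.2⟩,
        Subgroup.mem_centralizer_singleton_iff.2 (Subgroup.mem_centralizer_iff.1 hv.2 b hbB).symm⟩
      have hdle : 4 * Nat.card (CV B) ≤ Nat.card D := by
        rw [← (F1.subgroupOf D).index_mul_card, Nat.card_congr (Subgroup.subgroupOfEquivOfLe (inf_le_left : F1 ≤ D)).toEquiv]
        exact Nat.mul_le_mul h4 (Nat.le_of_dvd Nat.card_pos (Subgroup.card_dvd_of_le hCB))
      calc k ^ 2 * Nat.card (CV B) ≤ (2 * Nat.card B1) ^ 2 * Nat.card (CV B) :=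
            Nat.mul_le_mul_right _ (Nat.pow_le_pow_left (hk ▸ hcardB) 2)
        _ = Nat.card B1 ^ 2 * (4 * Nat.card (CV B)) := by ring
        _ ≤ Nat.card B1 ^ 2 * Nat.card D := Nat.mul_le_mul_left _ hdle
        _ ≤ Nat.card V := hIH
  have h1 := hmain _ A le_rfl rfl
  have h2 : (CV A).relIndex V * Nat.card (CV A) = Nat.card V := by
    rw [← Nat.card_congr (Subgroup.subgroupOfEquivOfLe (inf_le_left : CV A ≤ V)).toEquiv]
    exact ((CV A).subgroupOf V).index_mul_card
  rw [← h2] at h1
  exact absurd (Nat.le_of_mul_le_mul_right h1 Nat.card_pos) (not_le.2 hsmall)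


end Cfsg.Agent.S3755
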