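import Cfsg.Statements.S3760
import Mathlib
-- import your own Cfsg.Agent.* helpers here

set_option autoImplicit false
open Cfsg

namespace Cfsg.Agent.S3760

/-- Let the group G act transitively on a set X, let x ∈ X with stabilizer H = G_x, and let K ≤ H. Then N_G(K) acts transitively on the set of fixed points of K if and only if every G-conjugate of K contained in H is already an H-conjugate of K. -/
theorem result {G : Type*} [Group G] {X : Type*} [MulAction G X] (htrans : ∀ a b : X, ∃ g : G, g • a = b) (x : X) (K : Subgroup G) (hK : K ≤ MulAction.stabilizer G x) : (∀ a b : X, (∀ k ∈ K, k • a = a) → (∀ k ∈ K, k • b = b) → ∃ g ∈ Subgroup.normalizer (K : Set G), g • a = b) ↔ ∀ g : G, K.map (MulAut.conj g).toMonoidHom ≤ MulAction.stabilizer G x → ∃ h ∈ MulAction.stabilizer G x, K.map (MulAut.conj g).toMonoidHom = K.map (MulAut.conj h).toMonoidHom := by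
  constructor
  · intro h g hg
    have hfix : ∀ k ∈ K, k • (g⁻¹ • x) = g⁻¹ • x := fun k hk => by
      have h1 : (g * k * g⁻¹) • x = x := hg ⟨k, hk, rfl⟩
      calc k • (g⁻¹ • x) = g⁻¹ • ((g * k * g⁻¹) • x) := by simp only [smul_smul]; congr 1; group
        _ = _ := by rw [h1]
    obtain ⟨n, hn, hnx⟩ := h x (g⁻¹ • x) (fun k hk => hK hk) hfix
    refine ⟨g * n, ?_, ?_⟩
    · show (g * n) • x = x
      rw [mul_smul, hnx, smul_inv_smul]
    · ext y
      constructor
      · rintro ⟨k, hk, rfl⟩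
        refine ⟨n⁻¹ * k * n, (Subgroup.mem_normalizer_iff''.1 hn k).1 hk, ?_⟩
        show g * n * (n⁻¹ * k * n) * (g * n)⁻¹ = g * k * g⁻¹
        group
      · rintro ⟨k, hk, rfl⟩
        refine ⟨n * k * n⁻¹, (Subgroup.mem_normalizer_iff.1 hn k).1 hk, ?_⟩
        show g * (n * k * n⁻¹) * g⁻¹ = g * n * k * (g * n)⁻¹
        group
  · intro h a b ha hb
    obtain ⟨u, rfl⟩ := htrans x a
    obtain ⟨v, rfl⟩ := htrans x b
    have key : ∀ u : G, (∀ k ∈ K, k • (u • x) = u • x) →
        ∃ m ∈ Subgroup.normalizer (K : Set G), m • x = u • x := by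
      intro u hu
      obtain ⟨hh, hhx, he⟩ := h u⁻¹ (by
        rintro _ ⟨k, hk, rfl⟩
        show (u⁻¹ * k * u⁻¹⁻¹) • x = x
        rw [inv_inv, mul_smul, mul_smul, hu k hk, inv_smul_smul])
      have hhx' : hh • x = x := hhx
      refine ⟨u * hh, Subgroup.mem_normalizer_iff.2 fun y => ⟨fun hy => ?_, fun hy => ?_⟩,
        by rw [mul_smul, hhx']⟩
      · have h1 : hh * y * hh⁻¹ ∈ K.map (MulAut.conj u⁻¹).toMonoidHom := he ▸ ⟨y, hy, rfl⟩
        obtain ⟨k, hk, hke⟩ := h1
        change u⁻¹ * k * u⁻¹⁻¹ = hh * y * hh⁻¹ at hke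
        have e : u * hh * y * (u * hh)⁻¹ = k := by
          calc u * hh * y * (u * hh)⁻¹ = u * (hh * y * hh⁻¹) * u⁻¹ := by group
            _ = k := by rw [← hke]; group
        rwa [e]
      · have h1 : u⁻¹ * (u * hh * y * (u * hh)⁻¹) * u⁻¹⁻¹ ∈ K.map (MulAut.conj hh).toMonoidHom :=
          he ▸ ⟨_, hy, rfl⟩
        obtain ⟨k, hk, hke⟩ := h1
        change hh * k * hh⁻¹ = _ at hke
        have e : y = k := by
          calc y = hh⁻¹ * (u⁻¹ * (u * hh * y * (u * hh)⁻¹) * u⁻¹⁻¹) * hh := by group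
            _ = k := by rw [← hke]; group
        rwa [e]
    obtain ⟨m, hm, hmx⟩ := key u ha
    obtain ⟨m', hm', hmx'⟩ := key v hb
    exact ⟨m' * m⁻¹, mul_mem hm' (inv_mem hm), by rw [← hmx, ← hmx', mul_smul, inv_smul_smul]⟩

end Cfsg.Agent.S3760
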