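import Cfsg.Statements.S3761
import Cfsg.Agent.Lib.Transfer.MaximalClass
import Cfsg.Agent.Lib.Transfer.TwoMaxClass
-- import your own Cfsg.Agent.* helpers here

set_option autoImplicit false
open Cfsg
open scoped Pointwise commutatorElement

namespace Cfsg.Agent.S3761

theorem sub_one_dvd {p : ℕ} (hp : p.Prime) (hodd : Odd p) {e : ℤ} {m : ℕ} (h : (p : ℤ) ^ (m + 1) ∣ e ^ p - 1) :
    (p : ℤ) ^ m ∣ e - 1 := by
  haveI := Fact.mk hp
  have h1 : (p : ℤ) ∣ e ^ p - 1 := (dvd_pow_self _ (by omega)).trans h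
  obtain ⟨b, hb⟩ : (p : ℤ) ∣ e - 1 := by
    rw [← ZMod.intCast_zmod_eq_zero_iff_dvd] at h1 ⊢
    push_cast at h1 ⊢
    rwa [ZMod.pow_card] at h1
  have he : e = 1 + (p : ℤ) * b := by linarith
  set S : ℤ := ∑ i ∈ Finset.range p, e ^ i with hS
  have hgeom : e ^ p - 1 = (e - 1) * S := by rw [hS, mul_geom_sum]
  have hcong : (p : ℤ) ^ 2 ∣ S - p := by
    have := odd_sq_dvd_geom_sum₂_sub (R := ℤ) (p := p) 1 b hodd
    simpa [← he, hS] using this
  obtain ⟨t, ht⟩ := hcong
  have hS' : S = (p : ℤ) * (1 + p * t) := by linarith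
  have hpz : (p : ℤ) ≠ 0 := by exact_mod_cast hp.ne_zero
  rw [hgeom, hS', pow_succ', ← mul_assoc, mul_comm (e - 1) (p : ℤ), mul_assoc] at h
  have h2 := (mul_dvd_mul_iff_left hpz).1 h
  refine (IsCoprime.pow_left ?_).dvd_of_dvd_mul_right h2
  exact ⟨-t, 1, by ring⟩

theorem mul_pow_central {G : Type*} [Group G] {v x c : G} (h : x * v = c * (v * x)) (hc : ∀ g, c * g = g * c) :
    ∀ k : ℕ, (v * x) ^ k = v ^ k * x ^ k * c ^ (k * (k - 1) / 2) := by
  have hxk : ∀ k : ℕ, x ^ k * v = c ^ k * (v * x ^ k) := by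
    intro k
    induction k with
    | zero => simp
    | succ k ih =>
      calc x ^ (k + 1) * v = x ^ k * (x * v) := by rw [pow_succ, mul_assoc]
        _ = x ^ k * c * (v * x) := by rw [h]; simp only [mul_assoc]
        _ = c * (x ^ k * v) * x := by rw [← hc (x ^ k)]; simp only [mul_assoc]
        _ = c ^ (k + 1) * (v * x ^ (k + 1)) := by rw [ih, pow_succ' c, pow_succ x]; simp only [mul_assoc]
  intro k
  induction k with
  | zero => simp
  | succ k ih =>
    have hC : ∀ (j : ℕ) (g : G), c ^ j * g = g * c ^ j := fun j g => (Commute.pow_left (hc g) j).eq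
    calc (v * x) ^ (k + 1) = v ^ k * x ^ k * c ^ (k * (k - 1) / 2) * (v * x) := by rw [pow_succ, ih]
      _ = v ^ k * (x ^ k * v) * x * c ^ (k * (k - 1) / 2) := by rw [mul_assoc (v ^ k * x ^ k), hC, ← mul_assoc]; simp only [mul_assoc]
      _ = v ^ k * (c ^ k * (v * x ^ k)) * x * c ^ (k * (k - 1) / 2) := by rw [hxk]
      _ = v ^ (k + 1) * x ^ (k + 1) * (c ^ k * c ^ (k * (k - 1) / 2)) := by
          rw [hC k (v * x ^ k), pow_succ v, pow_succ x]
          simp only [mul_assoc]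
          rw [← mul_assoc (c ^ k) x, hC k x]
          simp only [mul_assoc]
      _ = v ^ (k + 1) * x ^ (k + 1) * c ^ ((k + 1) * (k + 1 - 1) / 2) := by
          rw [← pow_add]
          congr 2
          have : (k + 1) * k = k * (k - 1) + k * 2 := by
            rcases k with _ | j
            · rfl
            · simp only [Nat.add_sub_cancel]; ring
          rw [Nat.add_sub_cancel, this, Nat.add_mul_div_right _ _ (by norm_num : 0 < 2)]
          ring

theorem left_case {G : Type*} [Group G] [Finite G] (u : G) (n : ℕ) (hn : 2 ≤ n) (hu : orderOf u = 2 ^ n)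
    (hidx : (Subgroup.zpowers u).index = 2) (hna : ¬ IsMulCommutative G) (x : G) (hx : x ∉ Subgroup.zpowers u) (s : ℤ)
    (hxu : x * u * x⁻¹ = u⁻¹ * (u ^ 2 ^ (n - 1)) ^ s) :
    Nat.card G = 2 ^ (n + 1) ∧ ((∃ m : ℕ, Nonempty (G ≃* DihedralGroup m)) ∨ (∃ m : ℕ, Nonempty (G ≃* QuaternionGroup m)) ∨ Cfsg.IsQuasiDihedral G) := by
  classical
  haveI := Fact.mk Nat.prime_two
  set U := Subgroup.zpowers u with hUdef
  have hcard : Nat.card G = 2 ^ (n + 1) := by
    rw [← U.card_mul_index, hidx, hUdef, Nat.card_zpowers, hu, pow_succ]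
  refine ⟨hcard, ?_⟩
  have hG : IsPGroup 2 G := IsPGroup.of_card hcard
  set z := u ^ 2 ^ (n - 1) with hz
  have hpw : 2 ^ n = 2 ^ (n - 1) * 2 := by rw [← pow_succ]; congr 1; omega
  have hz2 : z ^ 2 = 1 := by rw [hz, ← pow_mul, ← hpw, ← hu, pow_orderOf_eq_one]
  have hz1 : z ≠ 1 := by
    rw [hz, Ne, ← orderOf_dvd_iff_pow_eq_one, hu, Nat.pow_dvd_pow_iff_le_right (by norm_num)]
    omega
  have hmem : ∀ c, c ∈ U ∨ c * x ∈ U := Cfsg.Lib.Transfer.mem_or_mul_mem_of_index_two hidx hx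
  have hkey : ∀ v ∈ U, x * v = v * x → v = 1 ∨ v = z := by
    rintro _ ⟨k, rfl⟩ hv
    show u ^ k = 1 ∨ u ^ k = z
    have h1 : x * u ^ k * x⁻¹ = (u ^ k)⁻¹ * z ^ (s * k) := by
      rw [← conj_zpow, hxu, Commute.mul_zpow (((Commute.refl u).inv_left.pow_right _).zpow_right s), inv_zpow, ← zpow_mul]
    rw [mul_inv_eq_iff_eq_mul.2 hv, eq_inv_mul_iff_mul_eq, ← zpow_add] at h1
    rcases Int.even_or_odd' k with ⟨m, rfl | rfl⟩
    · have h2 : u ^ (2 * m + 2 * m) = 1 := by
        rw [h1, show s * (2 * m) = (s * m) * 2 by ring, zpow_mul, show (z ^ (s * m)) ^ (2 : ℤ) = (z ^ (s * m)) ^ 2 from zpow_natCast _ 2,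
          ← zpow_natCast (z ^ (s * m)), ← zpow_mul, mul_comm (s * m), zpow_mul, zpow_natCast, hz2, one_zpow]
      rw [← orderOf_dvd_iff_zpow_eq_one, hu] at h2
      obtain ⟨j, hj⟩ := h2
      have hm : 2 * m = ((2 ^ (n - 1) : ℕ) : ℤ) * j := by
        rw [hpw] at hj; push_cast at hj ⊢; linarith
      rw [hm, zpow_mul, zpow_natCast, ← hz]
      rcases Int.even_or_odd' j with ⟨i, rfl | rfl⟩
      · left; rw [zpow_mul, show z ^ (2 : ℤ) = z ^ 2 from zpow_natCast z 2, hz2, one_zpow]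
      · right; rw [zpow_add, zpow_mul, show z ^ (2 : ℤ) = z ^ 2 from zpow_natCast z 2, hz2, one_zpow, one_mul, zpow_one]
    · exfalso
      obtain ⟨a, b, hab⟩ := (show IsCoprime (2 * m + 1) (2 : ℤ) from ⟨1, -m, by ring⟩).pow_right (n := n)
      have hN : u ^ ((2 : ℤ) ^ n) = 1 := by
        rw [show ((2 : ℤ) ^ n) = ((2 ^ n : ℕ) : ℤ) by norm_num, zpow_natCast, ← hu, pow_orderOf_eq_one]
      have hu' : (u ^ (2 * m + 1)) ^ a = u := by
        rw [← zpow_mul, show (2 * m + 1) * a = 1 - (2 : ℤ) ^ n * b by linarith [hab], zpow_sub, zpow_one,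
          zpow_mul, hN, one_zpow, inv_one, mul_one]
      have hxu' : Commute x u := hu' ▸ Commute.zpow_right hv a
      refine hna ⟨⟨fun c d => ?_⟩⟩
      have hall : ∀ c, ∃ r : ℤ, c = u ^ r ∨ c = u ^ r * x⁻¹ := by
        intro c
        rcases hmem c with h | h
        · obtain ⟨r, hr⟩ := h; exact ⟨r, Or.inl hr.symm⟩
        · obtain ⟨r, hr⟩ := h; exact ⟨r, Or.inr (by rw [show u ^ r = c * x from hr, mul_inv_cancel_right])⟩
      have cx : ∀ c, Commute c u ∧ Commute c x := by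
        intro c
        obtain ⟨r, rfl | rfl⟩ := hall c
        · exact ⟨(Commute.refl u).zpow_left r, hxu'.symm.zpow_left r⟩
        · exact ⟨((Commute.refl u).zpow_left r).mul_left hxu'.inv_left, (hxu'.symm.zpow_left r).mul_left (Commute.refl x).inv_left⟩
      obtain ⟨r, rfl | rfl⟩ := hall d
      · exact ((cx c).1.zpow_right r).eq
      · exact (((cx c).1.zpow_right r).mul_right (cx c).2.inv_right).eq
  have hzx : z * x = x * z := by
    have h1 : x * z * x⁻¹ = (u⁻¹) ^ 2 ^ (n - 1) * (z ^ s) ^ 2 ^ (n - 1) := by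
      rw [hz, ← conj_pow, hxu, Commute.mul_pow (((Commute.refl u).inv_left.pow_right _).zpow_right s)]
    have h2 : (z ^ s) ^ 2 ^ (n - 1) = 1 := by
      rw [show 2 ^ (n - 1) = 2 * 2 ^ (n - 2) by rw [← pow_succ']; congr 1; omega, pow_mul, ← zpow_natCast (z ^ s),
        ← zpow_mul, mul_comm s, zpow_mul, zpow_natCast, hz2, one_zpow, one_pow]
    rw [h2, mul_one, inv_pow, ← hz, inv_eq_of_mul_eq_one_right (show z * z = 1 by rw [← pow_two]; exact hz2)] at h1
    exact (mul_inv_eq_iff_eq_mul.1 h1).symm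
  set A := Subgroup.centralizer ({x} : Set G) with hA
  have hAmem : ∀ c, c ∈ A ↔ x * c = c * x := fun c => by
    rw [hA, Subgroup.mem_centralizer_singleton_iff]; exact eq_comm
  have hAdesc : ∀ c ∈ A, c = 1 ∨ c = z ∨ c * x = 1 ∨ c * x = z := by
    intro c hc
    rcases hmem c with h | h
    · rcases hkey c h ((hAmem c).1 hc) with h' | h'
      exacts [Or.inl h', Or.inr (Or.inl h')]
    · rcases hkey _ h (by rw [← mul_assoc, (hAmem c).1 hc]) with h' | h'
      exacts [Or.inr (Or.inr (Or.inl h')), Or.inr (Or.inr (Or.inr h'))]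
  have hAcomm : A ≤ Subgroup.centralizer (A : Set G) := by
    intro c hc
    refine Subgroup.mem_centralizer_iff.2 fun d hd => ?_
    have cz : ∀ w ∈ A, Commute z w := by
      intro w hw
      rcases hmem w with h | h
      · obtain ⟨k, rfl⟩ := h; exact ((Commute.refl u).pow_left _).zpow_right k
      · obtain ⟨k, hk⟩ := h
        rw [show w = u ^ k * x⁻¹ by rw [show u ^ k = w * x from hk, mul_inv_cancel_right]]
        exact (((Commute.refl u).pow_left _).zpow_right k).mul_right (Commute.inv_right hzx)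
    have cxd : Commute x d := (hAmem d).1 hd
    rcases hAdesc c hc with rfl | rfl | h | h
    · simp
    · exact (cz d hd).symm.eq
    · rw [eq_inv_of_mul_eq_one_left h]; exact cxd.inv_left.symm.eq
    · rw [show c = z * x⁻¹ by rw [← h, mul_inv_cancel_right]]
      exact ((cz d hd).symm.mul_right cxd.inv_left.symm).eq
  have hA4 : Nat.card A = 2 ^ 2 := by
    haveI := Fintype.ofFinite G
    have hzA : z ∈ A := (hAmem z).2 hzx.symm
    have hxA : x ∈ A := (hAmem x).2 rfl
    have hzU : z ∈ U := Subgroup.pow_mem _ (Subgroup.mem_zpowers u) _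
    have hset : (Finset.univ.filter fun c => c ∈ A) = {1, z, x⁻¹, z * x⁻¹} := by
      ext c
      simp only [Finset.mem_filter, Finset.mem_univ, true_and, Finset.mem_insert, Finset.mem_singleton]
      constructor
      · intro hc
        rcases hAdesc c hc with h | h | h | h
        · exact Or.inl h
        · exact Or.inr (Or.inl h)
        · exact Or.inr (Or.inr (Or.inl (eq_inv_of_mul_eq_one_left h)))
        · exact Or.inr (Or.inr (Or.inr (by rw [← h, mul_inv_cancel_right])))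
      · rintro (rfl | rfl | rfl | rfl)
        exacts [A.one_mem, hzA, A.inv_mem hxA, A.mul_mem hzA (A.inv_mem hxA)]
    have h1 : x⁻¹ ∉ U := fun h => hx (by simpa using U.inv_mem h)
    have h2 : z * x⁻¹ ∉ U := fun h => h1 (by simpa using U.mul_mem (U.inv_mem hzU) h)
    have h4 : ({1, z, x⁻¹, z * x⁻¹} : Finset G).card = 4 := by
      have e1 : (1 : G) ≠ x⁻¹ := fun h => h1 (h ▸ U.one_mem)
      have e2 : (1 : G) ≠ z * x⁻¹ := fun h => h2 (h ▸ U.one_mem)
      have e3 : z ≠ x⁻¹ := fun h => h1 (h ▸ hzU)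
      have e4 : z ≠ z * x⁻¹ := fun h => h2 (h ▸ hzU)
      have e5 : x⁻¹ ≠ z * x⁻¹ := fun h => hz1 (by simpa using h.symm)
      rw [Finset.card_insert_of_notMem (by simp [Ne.symm hz1, e1, e2]), Finset.card_insert_of_notMem (by simp [e3, e4]),
        Finset.card_insert_of_notMem (by simp [e5]), Finset.card_singleton]
    rw [Nat.card_eq_fintype_card, Fintype.card_of_subtype _ (fun c => by simp : ∀ c, c ∈ (Finset.univ.filter fun c => c ∈ A) ↔ c ∈ A), hset, h4]
    norm_num
  have hCA : Subgroup.centralizer (A : Set G) = A := le_antisymm (fun c hc =>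
    (hAmem c).2 (Subgroup.mem_centralizer_iff.1 hc x ((hAmem x).2 rfl))) hAcomm
  have hcl := Cfsg.Lib.Transfer.nilpotencyClass_of_selfCentralizing (n + 1) G hcard A hA4 hCA
  have h4 := Cfsg.Lib.Transfer.four_of_maximal_class (n + 1) G (by omega) hcard hcl
  rcases Cfsg.Lib.Transfer.classify_four (by omega) hcard h4 with ⟨k, h⟩ | ⟨k, hk, a, b, ha, hb, hab⟩ | ⟨k, h⟩
  · exact Or.inl ⟨_, h⟩
  · exact Or.inr (Or.inr ⟨k + 3, by omega, by rw [hk], a, b, ha, hb, by rw [hab]; rfl⟩)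
  · exact Or.inr (Or.inl ⟨_, h⟩)

/-- Let G be a finite non-abelian p-group with a cyclic normal subgroup U of order p^n such that C_G(U) = U. Then either p = 2 and G is dihedral, generalized quaternion or semidihedral of order 2^(n+1); or, writing U₁ for the subgroup generated by the p-th powers of elements of U and M = C_G(U₁), the subgroup U has index p in M and the subgroup Ω₁(M) generated by the elements of M of order dividing p is elementary abelian of order p² and characteristic in G. -/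
theorem result {G : Type*} [Group G] [Finite G] {p : ℕ} [Fact p.Prime] (hG : IsPGroup p G) (hna : ¬ IsMulCommutative G) (U : Subgroup G) [U.Normal] (hU : IsCyclic U) (n : ℕ) (hUn : Nat.card U = p ^ n) (hC : Subgroup.centralizer (U : Set G) = U) : (p = 2 ∧ Nat.card G = 2 ^ (n + 1) ∧ ((∃ m : ℕ, Nonempty (G ≃* DihedralGroup m)) ∨ (∃ m : ℕ, Nonempty (G ≃* QuaternionGroup m)) ∨ Cfsg.IsQuasiDihedral G)) ∨ (U.relIndex (Subgroup.centralizer (Cfsg.powerClosure p 1 U : Set G)) = p ∧ Cfsg.IsElementaryAbelian p (Cfsg.omegaOne p (Subgroup.centralizer (Cfsg.powerClosure p 1 U : Set G))) ∧ Nat.card ↥(Cfsg.omegaOne p (Subgroup.centralizer (Cfsg.powerClosure p 1 U : Set G))) = p ^ 2 ∧ (Cfsg.omegaOne p (Subgroup.centralizer (Cfsg.powerClosure p 1 U : Set G))).Characteristic) := by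
  classical
  have hp : p.Prime := Fact.out
  haveI := hU
  obtain ⟨⟨u, huU⟩, hgen⟩ := hU.exists_generator
  have hzU : Subgroup.zpowers u = U := by
    refine le_antisymm (Subgroup.zpowers_le.2 huU) fun v hv => ?_
    obtain ⟨k, hk⟩ := hgen ⟨v, hv⟩
    exact ⟨k, congrArg Subtype.val hk⟩
  have hou : orderOf u = p ^ n := by rw [← Nat.card_zpowers, hzU, hUn]
  have hGU : U ≠ ⊤ := by
    intro h
    refine hna ⟨⟨fun a b => ?_⟩⟩
    have ha : a ∈ Subgroup.zpowers u := by rw [hzU, h]; trivial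
    have hb : b ∈ Subgroup.zpowers u := by rw [hzU, h]; trivial
    obtain ⟨i, rfl⟩ := ha; obtain ⟨j, rfl⟩ := hb
    exact ((Commute.refl u).zpow_zpow i j).eq
  have hfix : ∀ g, g * u = u * g → g ∈ U := by
    intro g hg
    rw [← hC, ← hzU, Subgroup.zpowers_eq_closure, Subgroup.centralizer_closure, Subgroup.mem_centralizer_singleton_iff]
    exact hg
  have hconj : ∀ g : G, ∃ e : ℤ, g * u * g⁻¹ = u ^ e := by
    intro g
    have h : g * u * g⁻¹ ∈ Subgroup.zpowers u := by
      rw [hzU]; exact (inferInstance : U.Normal).conj_mem u huU g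
    obtain ⟨e, he⟩ := h
    exact ⟨e, he.symm⟩
  choose E hE using hconj
  have hEmul : ∀ g h, u ^ E (g * h) = u ^ (E g * E h) := by
    intro g h
    rw [← hE, mul_inv_rev, show g * h * u * (h⁻¹ * g⁻¹) = g * (h * u * h⁻¹) * g⁻¹ by group, hE h, ← conj_zpow, hE g, ← zpow_mul]
  -- `n ≥ 2`
  have hn2 : 2 ≤ n := by
    by_contra hlt
    obtain ⟨g, hg⟩ : ∃ g, g ∉ U := by
      by_contra h; push_neg at h; exact hGU (eq_top_iff.2 fun g _ => h g)
    refine hg (hfix g ?_)
    rcases (show n = 0 ∨ n = 1 by omega) with rfl | rfl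
    · rw [pow_zero, orderOf_eq_one_iff] at hou; simp [hou]
    · by_contra hne
      -- a normal subgroup of prime order is central
      haveI : Nontrivial ↥U := by
        rw [← Finite.one_lt_card_iff_nontrivial, hUn]; simpa using hp.one_lt
      obtain ⟨k, hk⟩ := hG g
      have h1 : ∀ i : ℕ, u ^ E (g ^ i) = u ^ (E g) ^ i := by
        intro i
        induction i with
        | zero => rw [pow_zero, pow_zero, ← hE]; simp
        | succ i ih => rw [pow_succ, hEmul, pow_succ, zpow_mul, ih, ← zpow_mul]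
      have h2 := h1 (p ^ k)
      rw [hk, ← hE, one_mul, inv_one, mul_one] at h2
      nth_rewrite 1 [← zpow_one u] at h2
      rw [zpow_eq_zpow_iff_modEq, hou, pow_one, ← ZMod.intCast_eq_intCast_iff] at h2
      push_cast at h2
      rw [ZMod.pow_card_pow] at h2
      refine hne ?_
      have h3 : u ^ (E g) = u ^ (1 : ℤ) := by
        rw [zpow_eq_zpow_iff_modEq, hou, pow_one, ← ZMod.intCast_eq_intCast_iff]; push_cast; exact h2.symm
      rw [zpow_one] at h3
      exact mul_inv_eq_iff_eq_mul.1 ((hE g).trans h3)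
  set z := u ^ p ^ (n - 1) with hzdef
  have hpn : p ^ n = p ^ (n - 1) * p := by rw [← pow_succ]; congr 1; omega
  have hzp : z ^ p = 1 := by rw [hzdef, ← pow_mul, ← hpn, ← hou, pow_orderOf_eq_one]
  have hz1 : z ≠ 1 := by
    rw [hzdef, Ne, ← orderOf_dvd_iff_pow_eq_one, hou, Nat.pow_dvd_pow_iff_le_right hp.one_lt]; omega
  have hzord : orderOf z = p := orderOf_eq_prime hzp hz1
  have hzmem : ∀ v ∈ U, v ^ p = 1 → v ∈ Subgroup.zpowers z := by
    intro v hv hvp
    rw [← hzU] at hv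
    obtain ⟨k, rfl⟩ := hv
    have h2 : u ^ (k * p) = 1 := by rw [zpow_mul, zpow_natCast]; exact hvp
    rw [← orderOf_dvd_iff_zpow_eq_one, hou, hpn, Nat.cast_mul] at h2
    obtain ⟨j, rfl⟩ := Int.dvd_of_mul_dvd_mul_right (by exact_mod_cast hp.ne_zero) h2
    exact ⟨j, by show z ^ j = u ^ _; rw [zpow_mul, zpow_natCast]⟩
  have hzc : ∀ g : G, z * g = g * z := by
    intro g
    have hgz : g * z * g⁻¹ ∈ Subgroup.zpowers z := by
      refine hzmem _ ((inferInstance : U.Normal).conj_mem z (U.pow_mem huU _) g) ?_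
      rw [conj_pow, hzp]; group
    haveI : (Subgroup.zpowers z).Normal := ⟨fun w hw h => by
      obtain ⟨i, rfl⟩ := hw
      rw [← conj_zpow]
      refine Subgroup.zpow_mem _ (hzmem _ ((inferInstance : U.Normal).conj_mem z (U.pow_mem huU _) h) ?_) i
      rw [conj_pow, hzp]; group⟩
    have hcen : Subgroup.zpowers z ≤ Subgroup.center G := by
      have hne : Subgroup.zpowers z ≠ ⊥ := fun h => hz1 (by rwa [Subgroup.zpowers_eq_bot] at h)
      have h1 := Cfsg.Lib.Transfer.inf_center_ne_bot hG _ hne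
      by_contra hle
      refine h1 (Subgroup.eq_bot_of_card_eq _ ?_)
      have hd := Subgroup.card_dvd_of_le (inf_le_left : Subgroup.zpowers z ⊓ Subgroup.center G ≤ Subgroup.zpowers z)
      rw [Nat.card_zpowers, hzord] at hd
      rcases (Nat.dvd_prime hp).1 hd with h | h
      · exact h
      · exact absurd ((Subgroup.eq_of_le_of_card_ge inf_le_left (by rw [h, Nat.card_zpowers, hzord])).ge.trans inf_le_right) hle
    exact (Subgroup.mem_center_iff.1 (hcen (Subgroup.mem_zpowers z)) g).symm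
  set M := Subgroup.centralizer (Cfsg.powerClosure p 1 U : Set G) with hMdef
  have hM : ∀ g, g ∈ M ↔ g * u * g⁻¹ * u⁻¹ ∈ Subgroup.zpowers z := by
    intro g
    have hiff : g ∈ M ↔ g * u ^ p * g⁻¹ = u ^ p := by
      rw [hMdef, Cfsg.powerClosure, Subgroup.centralizer_closure, Subgroup.mem_centralizer_iff, mul_inv_eq_iff_eq_mul]
      constructor
      · exact fun h => (h _ ⟨u, huU, by rw [pow_one]⟩).symm
      · rintro h _ ⟨x, hx, rfl⟩
        rw [← hzU] at hx
        obtain ⟨k, rfl⟩ := hx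
        rw [pow_one, ← zpow_natCast (u ^ k), ← zpow_mul, mul_comm, zpow_mul, zpow_natCast]
        exact (Commute.zpow_left (show Commute (u ^ p) g from h.symm) k).eq
    rw [hiff]
    have hdU : g * u * g⁻¹ * u⁻¹ ∈ U := U.mul_mem ((inferInstance : U.Normal).conj_mem u huU g) (U.inv_mem huU)
    have hpow : (g * u * g⁻¹ * u⁻¹) ^ p = g * u ^ p * g⁻¹ * (u ^ p)⁻¹ := by
      rw [hE g, Commute.mul_pow ((Commute.refl u).zpow_left _).inv_right, inv_pow, ← hE g, conj_pow]
    constructor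
    · intro h; exact hzmem _ hdU (by rw [hpow, h, mul_inv_cancel])
    · rintro ⟨i, hi⟩
      rw [← mul_inv_eq_one, ← hpow, ← hi]
      show (z ^ i) ^ p = 1
      rw [← zpow_natCast (z ^ i), ← zpow_mul, mul_comm, zpow_mul, zpow_natCast, hzp, one_zpow]
  have hUM : U ≤ M := fun g hg => by
    rw [hM, ← hzU] at *
    obtain ⟨k, rfl⟩ := hg
    show u ^ k * u * (u ^ k)⁻¹ * u⁻¹ ∈ _
    rw [((Commute.refl u).zpow_left k).eq, mul_inv_cancel_right, mul_inv_cancel]
    exact Subgroup.one_mem _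
  by_cases hgood : (∃ g ∈ M, g ∉ U) ∧ (Odd p ∨ 3 ≤ n)
  · obtain ⟨⟨x, hxM, hxU⟩, hpn3⟩ := hgood
    right
    let δ : ↥M →* ↥(Subgroup.zpowers z) := MonoidHom.mk' (fun g => ⟨(g : G) * u * (g : G)⁻¹ * u⁻¹, (hM g).1 g.2⟩) (by
      intro g h
      refine Subtype.ext ?_
      show (g : G) * (h : G) * u * ((g : G) * (h : G))⁻¹ * u⁻¹ = ((g : G) * u * (g : G)⁻¹ * u⁻¹) * ((h : G) * u * (h : G)⁻¹ * u⁻¹)
      obtain ⟨i, hi⟩ := (hM h).1 h.2
      have hc : ((h : G) * u * (h : G)⁻¹ * u⁻¹) * g = g * ((h : G) * u * (h : G)⁻¹ * u⁻¹) := by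
        rw [← hi]; exact (Commute.zpow_left (hzc g) i).eq
      calc (g : G) * (h : G) * u * ((g : G) * (h : G))⁻¹ * u⁻¹ = g * ((h : G) * u * (h : G)⁻¹ * u⁻¹) * u * (g : G)⁻¹ * u⁻¹ := by group
        _ = ((h : G) * u * (h : G)⁻¹ * u⁻¹) * ((g : G) * u * (g : G)⁻¹ * u⁻¹) := by rw [← hc]; group
        _ = _ := by
          rw [← hi]
          exact (Commute.zpow_left (hzc _) i).eq)
    have hker : δ.ker = U.subgroupOf M := by
      ext g
      rw [MonoidHom.mem_ker, Subgroup.mem_subgroupOf]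
      constructor
      · intro h
        have h' : (g : G) * u * (g : G)⁻¹ * u⁻¹ = 1 := congrArg Subtype.val h
        exact hfix g (mul_inv_eq_iff_eq_mul.1 (mul_inv_eq_one.1 h'))
      · intro h
        refine Subtype.ext ?_
        show (g : G) * u * (g : G)⁻¹ * u⁻¹ = 1
        rw [← hzU] at h
        obtain ⟨k, hk⟩ := h
        rw [← hk]
        show u ^ k * u * (u ^ k)⁻¹ * u⁻¹ = 1
        rw [((Commute.refl u).zpow_left k).eq, mul_inv_cancel_right, mul_inv_cancel]
    have hrel : U.relIndex M = p := by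
      show (U.subgroupOf M).index = p
      rw [← hker, Subgroup.index_ker]
      have hd : Nat.card δ.range ∣ p := by
        rw [← hzord, ← Nat.card_zpowers]; exact Subgroup.card_subgroup_dvd_card _
      refine ((Nat.dvd_prime hp).1 hd).resolve_left fun h1 => hxU ?_
      have hx' : (⟨x, hxM⟩ : ↥M) ∈ δ.ker := by
        rw [MonoidHom.mem_ker]
        have := Subgroup.eq_bot_of_card_eq _ h1
        exact Subgroup.mem_bot.1 (this ▸ ⟨⟨x, hxM⟩, rfl⟩)
      rwa [hker] at hx'
    obtain ⟨s, hs⟩ := (hM x).1 hxM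
    have hsp : ¬ (p : ℤ) ∣ s := by
      rintro ⟨t, rfl⟩
      refine hxU (hfix x ?_)
      have : x * u * x⁻¹ * u⁻¹ = 1 := by
        rw [← hs]; show z ^ ((p : ℤ) * t) = 1; rw [zpow_mul, zpow_natCast, hzp, one_zpow]
      exact mul_inv_eq_iff_eq_mul.1 (mul_inv_eq_one.1 this)
    have hxv : ∀ k : ℤ, x * u ^ k = z ^ (s * k) * (u ^ k * x) := by
      intro k
      have h1 : x * u * x⁻¹ = z ^ s * u := by rw [show z ^ s = _ from hs, inv_mul_cancel_right]
      have h2 : x * u ^ k * x⁻¹ = z ^ (s * k) * u ^ k := by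
        rw [← conj_zpow, h1, Commute.mul_zpow (Commute.zpow_left (hzc u) s), ← zpow_mul]
      rw [← mul_assoc, ← h2, inv_mul_cancel_right]
    have hzk : ∀ (i : ℤ) (g : G), z ^ i * g = g * z ^ i := fun i g => (Commute.zpow_left (hzc g) i).eq
    have hzpp : ∀ i : ℤ, (z ^ i) ^ p = 1 := fun i => by
      rw [← zpow_natCast, ← zpow_mul, mul_comm, zpow_mul, zpow_natCast, hzp, one_zpow]
    have hxp : x ^ p ∈ U := by
      have hn : (U.subgroupOf M).Normal := inferInstance
      have := (U.subgroupOf M).pow_index_mem ⟨x, hxM⟩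
      rwa [show (U.subgroupOf M).index = p from hrel] at this
    rw [← hzU] at hxp
    obtain ⟨i, hi⟩ := hxp
    have hpi : (p : ℤ) ∣ i := by
      have h1 := hxv i
      have h2 : x * u ^ i = u ^ i * x := by rw [show u ^ i = x ^ p from hi]; exact ((Commute.refl x).pow_right p).eq
      rw [h2, right_eq_mul] at h1
      rw [← orderOf_dvd_iff_zpow_eq_one, hzord] at h1
      exact ((Nat.prime_iff_prime_int.1 hp).dvd_mul.1 h1).resolve_left hsp
    obtain ⟨i', rfl⟩ := hpi
    obtain ⟨y, hyM, hyU, hyp⟩ : ∃ y ∈ M, y ∉ U ∧ y ^ p = 1 := by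
      set v := u ^ (-i') with hv
      have hvU : v ∈ U := by rw [← hzU]; exact ⟨-i', rfl⟩
      have hnot : ∀ w ∈ U, w * x ∉ U := fun w hw h => hxU (by simpa using U.mul_mem (U.inv_mem hw) h)
      have hpw : (v * x) ^ p = (z ^ (s * -i')) ^ (p * (p - 1) / 2) := by
        rw [mul_pow_central (hxv (-i')) (fun g => hzk _ g) p]
        rw [show v ^ p = (x ^ p)⁻¹ by
          rw [hv, ← zpow_natCast (u ^ (-i')), ← zpow_mul, ← hi]
          show u ^ (-i' * (p : ℤ)) = (u ^ ((p : ℤ) * i'))⁻¹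
          rw [← zpow_neg]; congr 1; ring, inv_mul_cancel, one_mul]
      rcases hp.eq_two_or_odd' with rfl | hodd
      · have hn3 : 3 ≤ n := hpn3.resolve_left (by decide)
        norm_num at hpw
        by_cases hone : z ^ (s * -i') = 1
        · exact ⟨v * x, M.mul_mem (hUM hvU) hxM, hnot v hvU, by rw [hpw]; simpa using hone⟩
        · set w := u ^ 2 ^ (n - 2) with hw
          have hwU : w ∈ U := U.pow_mem huU _
          have hw2 : w ^ 2 = z := by rw [hw, hzdef, ← pow_mul, ← pow_succ]; congr 2; omega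
          have hwc : w * (v * x) = (v * x) * w := by
            have h3 : x * w = w * x := by
              have := hxv ((2 ^ (n - 2) : ℕ) : ℤ)
              rw [zpow_natCast, ← hw, show s * ((2 ^ (n - 2) : ℕ) : ℤ) = (2 : ℕ) * (s * (2 ^ (n - 3) : ℕ)) by
                rw [show n - 2 = n - 3 + 1 by omega, pow_succ]; push_cast; ring, zpow_mul, zpow_natCast, hzp, one_zpow, one_mul] at this
              exact this
            exact ((((Commute.refl u).pow_left _).zpow_right (-i')).mul_right (show Commute w x from h3.symm)).eq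
          refine ⟨w * (v * x), M.mul_mem (hUM hwU) (M.mul_mem (hUM hvU) hxM), ?_, ?_⟩
          · rw [← mul_assoc]; exact hnot _ (U.mul_mem hwU hvU)
          · rw [Commute.mul_pow hwc, hw2]
            have hmem : z ^ (s * -i') = z := by
              have h4 : (z ^ (s * -i')) = z ^ ((s * -i') % 2) := by
                conv_lhs => rw [← Int.emod_add_mul_ediv (s * -i') 2, zpow_add, zpow_mul,
                  show z ^ (2 : ℤ) = z ^ 2 from zpow_natCast z 2, hzp, one_zpow, mul_one]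
              rcases Int.emod_two_eq (s * -i') with h | h <;> rw [h] at h4
              · exact absurd (h4.trans (zpow_zero z)) hone
              · rw [h4, zpow_one]
            have hpw' : (v * x) ^ 2 = z := by rw [hpw]; simpa using hmem
            rw [hpw', ← pow_two]
            exact hzp
      · refine ⟨v * x, M.mul_mem (hUM hvU) hxM, hnot v hvU, ?_⟩
        obtain ⟨k, hk⟩ := hodd
        rw [hpw, show p * (p - 1) / 2 = p * k by rw [hk, Nat.add_sub_cancel, ← mul_assoc, mul_comm _ 2, mul_assoc, Nat.mul_div_cancel_left _ two_pos], pow_mul, hzpp, one_pow]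
    -- the elements of order `p`
    have hdec : ∀ g ∈ M, ∃ (b : ℕ) (a : ℤ), g = u ^ a * y ^ b := by
      intro g hg
      obtain ⟨r, hr⟩ := (hM y).1 hyM
      have hrp : ¬ (p : ℤ) ∣ r := by
        rintro ⟨t, rfl⟩
        refine hyU (hfix y ?_)
        have : y * u * y⁻¹ * u⁻¹ = 1 := by
          rw [← hr]; show z ^ ((p : ℤ) * t) = 1; rw [zpow_mul, zpow_natCast, hzp, one_zpow]
        exact mul_inv_eq_iff_eq_mul.1 (mul_inv_eq_one.1 this)
      obtain ⟨q, hq⟩ := (hM g).1 hg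
      obtain ⟨b, hb⟩ : ∃ b : ℕ, (z ^ r) ^ b = z ^ q := by
        have hne : (⟨z ^ r, r, rfl⟩ : ↥(Subgroup.zpowers z)) ≠ 1 := fun h => hrp (by
          rw [← hzord, orderOf_dvd_iff_zpow_eq_one]; exact congrArg Subtype.val h)
        obtain ⟨b, hb⟩ := mem_powers_of_prime_card (p := p) (by rw [Nat.card_zpowers, hzord]) hne (g' := (⟨z ^ q, q, rfl⟩ : ↥(Subgroup.zpowers z)))
        exact ⟨b, congrArg Subtype.val hb⟩
      have hmemU : g * (y ^ b)⁻¹ ∈ U := by
        have h1 : (⟨g, hg⟩ : ↥M) * ((⟨y, hyM⟩ : ↥M) ^ b)⁻¹ ∈ δ.ker := by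
          rw [MonoidHom.mem_ker, map_mul, map_inv, map_pow, mul_inv_eq_one]
          refine Subtype.ext ?_
          show g * u * g⁻¹ * u⁻¹ = (y * u * y⁻¹ * u⁻¹) ^ b
          rw [← hq, ← hr]; exact hb.symm
        rw [hker] at h1
        exact h1
      rw [← hzU] at hmemU
      obtain ⟨a, ha⟩ := hmemU
      exact ⟨b, a, by rw [show u ^ a = g * (y ^ b)⁻¹ from ha, inv_mul_cancel_right]⟩
    have helt : ∀ g ∈ M, g ^ p = 1 → ∃ (a : ℤ) (b : ℕ), g = z ^ a * y ^ b := by
      intro g hg hgp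
      obtain ⟨b, a, rfl⟩ := hdec g hg
      have hyb : y ^ b ∈ M := M.pow_mem hyM b
      obtain ⟨r, hr⟩ := (hM _).1 hyb
      have hcomm : y ^ b * u ^ a = z ^ (r * a) * (u ^ a * y ^ b) := by
        have h1 : y ^ b * u * (y ^ b)⁻¹ = z ^ r * u := by rw [show z ^ r = _ from hr, inv_mul_cancel_right]
        have h2 : y ^ b * u ^ a * (y ^ b)⁻¹ = z ^ (r * a) * u ^ a := by
          rw [← conj_zpow, h1, Commute.mul_zpow (Commute.zpow_left (hzc u) r), ← zpow_mul]
        rw [← mul_assoc, ← h2, inv_mul_cancel_right]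
      rw [mul_pow_central hcomm (fun g => hzk _ g) p, ← pow_mul y, mul_comm b, pow_mul, hyp, one_pow, mul_one] at hgp
      have hap : (u ^ a) ^ p = 1 := by
        rcases hp.eq_two_or_odd' with rfl | hodd
        · have hn3 : 3 ≤ n := hpn3.resolve_left (by decide)
          have h0 : u ^ (2 * a + ((2 ^ (n - 1) : ℕ) : ℤ) * (r * a)) = 1 := by
            rw [zpow_add, mul_comm 2 a, zpow_mul, zpow_mul, zpow_natCast u, ← hzdef]
            rw [show (u ^ a) ^ (2 : ℤ) = (u ^ a) ^ 2 from zpow_natCast _ 2]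
            simpa using hgp
          rw [← orderOf_dvd_iff_zpow_eq_one, hou] at h0
          have h0' : ((2 : ℤ)) ^ n ∣ (2 * a) * (1 + 2 ^ (n - 2) * r) := by
            refine (show ((2 ^ n : ℕ) : ℤ) = (2 : ℤ) ^ n by norm_num) ▸ h0.trans (dvd_of_eq ?_)
            rw [show n - 1 = n - 2 + 1 by omega]; push_cast; ring
          have hc : IsCoprime ((2 : ℤ) ^ n) (1 + 2 ^ (n - 2) * r) := by
            refine IsCoprime.pow_left ⟨-(2 ^ (n - 3) * r), 1, ?_⟩
            rw [show n - 2 = n - 3 + 1 by omega, pow_succ]; ring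
          have := hc.dvd_of_dvd_mul_right h0'
          rw [← zpow_natCast (u ^ a), ← zpow_mul, ← orderOf_dvd_iff_zpow_eq_one, hou]
          push_cast
          rwa [mul_comm a]
        · obtain ⟨k, hk⟩ := hodd
          rwa [show p * (p - 1) / 2 = p * k by rw [hk, Nat.add_sub_cancel, ← mul_assoc, mul_comm _ 2, mul_assoc, Nat.mul_div_cancel_left _ two_pos], pow_mul, hzpp, one_pow, mul_one] at hgp
      obtain ⟨a', ha'⟩ := hzmem _ (by rw [← hzU]; exact ⟨a, rfl⟩) hap
      exact ⟨a', b, by rw [← ha']⟩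
    have hzy : ∀ g ∈ M, g ^ p = 1 → ∀ h ∈ M, h ^ p = 1 → g * h = h * g := by
      intro g hg hgp h hh hhp
      obtain ⟨a, b, rfl⟩ := helt g hg hgp
      obtain ⟨a', b', rfl⟩ := helt h hh hhp
      have c1 : Commute (z ^ a) (z ^ a' * y ^ b') := hzk a _
      have c2 : Commute (y ^ b) (z ^ a' * y ^ b') := (Commute.mul_right (hzk a' _).symm ((Commute.refl y).pow_pow b b'))
      exact (c1.mul_left c2).eq
    let Ω : Subgroup G :=
      { carrier := {g | g ∈ M ∧ g ^ p = 1}
        one_mem' := ⟨M.one_mem, one_pow p⟩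
        mul_mem' := fun {g h} hg hh => ⟨M.mul_mem hg.1 hh.1, by
          rw [Commute.mul_pow (hzy g hg.1 hg.2 h hh.1 hh.2), hg.2, hh.2, one_mul]⟩
        inv_mem' := fun {g} hg => ⟨M.inv_mem hg.1, by rw [inv_pow, hg.2, inv_one]⟩ }
    have hΩ : Cfsg.omegaOne p M = Ω := by
      rw [Cfsg.omegaOne]; exact Subgroup.closure_eq Ω
    have hzΩ : z ∈ Ω := ⟨hUM (U.pow_mem huU _), hzp⟩
    have hΩab : IsMulCommutative Ω := ⟨⟨fun g h => Subtype.ext (hzy g g.2.1 g.2.2 h h.2.1 h.2.2)⟩⟩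
    have hΩcard : Nat.card Ω = p ^ 2 := by
      let ψ : ↥Ω →* ↥(Subgroup.zpowers z) := δ.comp (Subgroup.inclusion (show Ω ≤ M from fun g hg => hg.1))
      have hk : Nat.card ψ.ker = p := by
        rw [← hzord, ← Nat.card_zpowers]
        refine Nat.card_congr ⟨fun g => ⟨g.1.1, hzmem _ ?_ g.1.2.2⟩, fun w => ⟨⟨w.1, Subgroup.zpowers_le.2 hzΩ w.2⟩, ?_⟩,
          fun g => rfl, fun w => rfl⟩
        · have := g.2
          change _ ∈ δ.ker at this
          rw [hker] at this
          exact this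
        · show Subgroup.inclusion (show Ω ≤ M from fun g hg => hg.1) _ ∈ δ.ker
          rw [hker]
          exact Subgroup.zpowers_le.2 (U.pow_mem huU _) w.2
      have hr : ψ.range = ⊤ := by
        refine (Subgroup.eq_bot_or_eq_top_of_prime_card (hp := ⟨by rw [Nat.card_zpowers, hzord]; exact hp⟩) _).resolve_left fun h => ?_
        refine hyU ?_
        have h1 : δ ⟨y, hyM⟩ = 1 := Subgroup.mem_bot.1 (h ▸ ⟨⟨y, hyM, hyp⟩, rfl⟩)
        have h2 : (⟨y, hyM⟩ : ↥M) ∈ δ.ker := h1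
        rwa [hker] at h2
      rw [← ψ.ker.card_mul_index, Subgroup.index_ker, hk, hr, Subgroup.card_top, Nat.card_zpowers, hzord, pow_two]
    haveI hMn : M.Normal := by
      refine ⟨fun g hg h => ?_⟩
      rw [hM]
      obtain ⟨r, hr⟩ := (hM g).1 hg
      have hh : u = h * (u ^ E h⁻¹) * h⁻¹ := by rw [← hE h⁻¹]; group
      have h1 : g * u ^ E h⁻¹ * g⁻¹ = z ^ (r * E h⁻¹) * u ^ E h⁻¹ := by
        rw [← conj_zpow, show g * u * g⁻¹ = z ^ r * u by rw [show z ^ r = _ from hr, inv_mul_cancel_right],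
          Commute.mul_zpow (Commute.zpow_left (hzc u) r), ← zpow_mul]
      refine ⟨r * E h⁻¹, ?_⟩
      show z ^ (r * E h⁻¹) = _
      calc z ^ (r * E h⁻¹) = z ^ (r * E h⁻¹) * h * (u ^ E h⁻¹) * h⁻¹ * u⁻¹ := by
            rw [mul_assoc (z ^ (r * E h⁻¹)), mul_assoc (z ^ (r * E h⁻¹)), ← hh, mul_inv_cancel_right]
        _ = h * (z ^ (r * E h⁻¹) * u ^ E h⁻¹) * h⁻¹ * u⁻¹ := by rw [hzk _ h]; simp only [mul_assoc]
        _ = h * (g * u ^ E h⁻¹ * g⁻¹) * h⁻¹ * u⁻¹ := by rw [h1]
        _ = h * g * h⁻¹ * u * (h * g * h⁻¹)⁻¹ * u⁻¹ := by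
            rw [show u ^ E h⁻¹ = h⁻¹ * u * h by rw [← hE h⁻¹, inv_inv]]
            group
    have hΩn : Ω.Normal := ⟨fun g hg h => ⟨hMn.conj_mem g hg.1 h, by rw [conj_pow, hg.2]; group⟩⟩
    have hΩchar : Ω.Characteristic := by
      rw [Subgroup.characteristic_iff_map_le]
      intro φ
      set F := Ω.map φ.toMonoidHom with hF
      haveI hFn : F.Normal := hΩn.map _ φ.surjective
      have hFp : ∀ f ∈ F, f ^ p = 1 := by
        rintro _ ⟨g, hg, rfl⟩
        rw [← map_pow, hg.2, map_one]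
      have hFU : F ⊓ U ≠ ⊥ := by
        intro h
        have hle : F ≤ U := by
          rw [← hC, ← Subgroup.commutator_eq_bot_iff_le_centralizer, eq_bot_iff, ← h]
          exact Subgroup.commutator_le_inf F U
        rw [inf_eq_left.2 hle, Subgroup.map_eq_bot_iff_of_injective _ φ.injective] at h
        rw [h, Subgroup.mem_bot] at hzΩ
        exact hz1 hzΩ
      intro f hf
      refine ⟨(hM f).2 (hzmem _ ?_ (hFp _ ?_)), hFp f hf⟩
      · exact U.mul_mem ((inferInstance : U.Normal).conj_mem u huU f) (U.inv_mem huU)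
      · rw [show f * u * f⁻¹ * u⁻¹ = f * (u * f⁻¹ * u⁻¹) by group]
        exact F.mul_mem hf (hFn.conj_mem _ (F.inv_mem hf) u)
    rw [hΩ]
    exact ⟨hrel, ⟨hΩab, fun g hg => hg.2⟩, hΩcard, hΩchar⟩
  · left
    have hEpow : ∀ (g : G) (i : ℕ), u ^ E (g ^ i) = u ^ (E g) ^ i := by
      intro g i
      induction i with
      | zero => rw [pow_zero, pow_zero, ← hE]; simp
      | succ i ih => rw [pow_succ, hEmul, pow_succ, zpow_mul, ih, ← zpow_mul]
    have hdvd : ∀ (g : G) (i : ℕ), g ^ i ∈ U → (p : ℤ) ^ n ∣ (E g) ^ i - 1 := by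
      intro g i hgi
      have h1 : g ^ i * u * (g ^ i)⁻¹ = u := by
        rw [← hzU] at hgi
        obtain ⟨k, hk⟩ := hgi
        rw [← hk]; exact mul_inv_eq_iff_eq_mul.2 ((Commute.refl u).zpow_left k).eq
      rw [hE, hEpow] at h1
      nth_rewrite 2 [← zpow_one u] at h1
      rw [zpow_eq_zpow_iff_modEq, hou] at h1
      exact_mod_cast h1.symm.dvd
    have hMof : ∀ g : G, ((p ^ (n - 1) : ℕ) : ℤ) ∣ E g - 1 → g ∈ M := by
      intro g hg
      obtain ⟨k, hk⟩ := hg
      refine (hM g).2 ⟨k, ?_⟩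
      show z ^ k = g * u * g⁻¹ * u⁻¹
      rw [hE g, show E g = ((p ^ (n - 1) : ℕ) : ℤ) * k + 1 by linarith, zpow_add, zpow_one, mul_inv_cancel_right,
        zpow_mul, zpow_natCast]
    have hexq : ∀ g : G, g ∉ U → ∃ j, g ^ p ^ j ∉ U ∧ (g ^ p ^ j) ^ p ∈ U := by
      intro g hg
      obtain ⟨k, hk⟩ := hG g
      have hex : ∃ j, g ^ p ^ j ∈ U := ⟨k, by rw [hk]; exact U.one_mem⟩
      obtain ⟨j, hj⟩ : ∃ j, Nat.find hex = j + 1 := by
        refine ⟨Nat.find hex - 1, ?_⟩
        have : Nat.find hex ≠ 0 := fun h => hg (by have := Nat.find_spec hex; rwa [h, pow_zero, pow_one] at this)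
        omega
      refine ⟨j, Nat.find_min hex (by omega), ?_⟩
      rw [← pow_mul, ← pow_succ, ← hj]
      exact Nat.find_spec hex
    obtain ⟨g0, hg0⟩ : ∃ g, g ∉ U := by
      by_contra h; push_neg at h; exact hGU (eq_top_iff.2 fun g _ => h g)
    have hp2 : p = 2 := by
      by_contra hp2
      obtain ⟨j, hj, hj'⟩ := hexq g0 hg0
      refine hgood ⟨⟨g0 ^ p ^ j, hMof _ ?_, hj⟩, Or.inl (hp.eq_two_or_odd'.resolve_left hp2)⟩
      have h1 := hdvd _ p hj'
      rw [show n = n - 1 + 1 by omega] at h1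
      push_cast
      exact sub_one_dvd hp (hp.eq_two_or_odd'.resolve_left hp2) h1
    subst hp2
    refine ⟨rfl, ?_⟩
    -- every element outside `U` inverts `u` modulo the involution
    have hinv : ∀ g : G, g ∉ U → g ^ 2 ∈ U → ((2 ^ (n - 1) : ℕ) : ℤ) ∣ E g + 1 := by
      intro g hg hg2
      have h1 := hdvd g 2 hg2
      have hodd : ¬ (2 : ℤ) ∣ E g := fun ⟨t, ht⟩ => by
        have h2 : (2 : ℤ) ∣ (E g) ^ 2 - 1 := (dvd_pow_self 2 (by omega : n ≠ 0)).trans h1
        rw [ht, show (2 * t) ^ 2 = 2 * (2 * t * t) by ring] at h2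
        omega
      obtain ⟨m, hm⟩ : ∃ m, E g = 2 * m + 1 := ⟨(E g - 1) / 2, by omega⟩
      by_cases hn3 : n = 2
      · subst hn3; rw [hm]; exact ⟨m + 1, by norm_num; ring⟩
      have hmm : (2 : ℤ) ^ (n - 2) ∣ m * (m + 1) := by
        have h3 : ((2 : ℕ) : ℤ) ^ n = 2 ^ (n - 2) * 4 := by
          rw [show (4 : ℤ) = 2 ^ 2 by norm_num, ← pow_add]; push_cast; congr 1; omega
        rw [h3, hm, show (2 * m + 1) ^ 2 - 1 = m * (m + 1) * 4 by ring] at h1
        exact Int.dvd_of_mul_dvd_mul_right (by norm_num) h1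
      have e1 : ((2 ^ (n - 1) : ℕ) : ℤ) = 2 * (2 : ℤ) ^ (n - 2) := by
        rw [← pow_succ']; push_cast; congr 1; omega
      rcases Int.even_or_odd' m with ⟨q, hq | hq⟩
      · exfalso
        have hc : IsCoprime ((2 : ℤ) ^ (n - 2)) (m + 1) := IsCoprime.pow_left ⟨-q, 1, by rw [hq]; ring⟩
        refine hgood ⟨⟨g, hMof g ?_, hg⟩, Or.inr (by omega)⟩
        rw [hm, add_sub_cancel_right, e1]
        exact mul_dvd_mul_left 2 (hc.dvd_of_dvd_mul_right hmm)
      · have hc : IsCoprime ((2 : ℤ) ^ (n - 2)) m := IsCoprime.pow_left ⟨-q, 1, by rw [hq]; ring⟩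
        rw [hm, show 2 * m + 1 + 1 = 2 * (m + 1) by ring, e1]
        exact mul_dvd_mul_left 2 (hc.dvd_of_dvd_mul_left hmm)
    have hsq : ∀ g : G, g ^ 2 ∈ U := by
      intro g
      by_contra hg
      obtain ⟨j, hj, hj'⟩ := hexq (g ^ 2) hg
      rw [← pow_mul g 2, mul_comm 2 (2 ^ j), pow_mul g (2 ^ j)] at hj hj'
      have hj0 := hinv _ hj hj'
      have hcongr : (2 : ℤ) ^ n ∣ (E (g ^ 2 ^ j)) ^ 2 - E ((g ^ 2 ^ j) ^ 2) := by
        have h := hEpow (g ^ 2 ^ j) 2
        rw [zpow_eq_zpow_iff_modEq, hou] at h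
        exact_mod_cast h.dvd
      by_cases hn3 : n = 2
      · -- the automorphism group of a cyclic group of order four has order two
        subst hn3
        refine hg (hfix _ ?_)
        have h := hEpow g 2
        have hodd : ¬ (2 : ℤ) ∣ E g := fun ⟨t, ht⟩ => by
          obtain ⟨k, hk⟩ := hG g
          have h2 : (2 : ℤ) ^ 2 ∣ (E g) ^ 2 ^ k - 1 := by
            exact_mod_cast hdvd g (2 ^ k) (by rw [hk]; exact U.one_mem)
          have h5 : (2 : ℤ) ∣ (E g) ^ 2 ^ k := by rw [ht]; exact (dvd_mul_right 2 t).trans (dvd_pow_self _ (by positivity))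
          obtain ⟨a, ha⟩ := h2; obtain ⟨b, hb⟩ := h5
          omega
        obtain ⟨m, hm⟩ : ∃ m, E g = 2 * m + 1 := ⟨(E g - 1) / 2, by omega⟩
        have h3 : u ^ (E g) ^ 2 = u := by
          rw [hm, show (2 * m + 1) ^ 2 = ((2 ^ 2 : ℕ) : ℤ) * (m * m + m) + 1 by push_cast; ring, zpow_add, zpow_mul,
            zpow_natCast, ← hou, pow_orderOf_eq_one, one_zpow, one_mul, zpow_one]
        rw [h3, ← hE] at h
        exact mul_inv_eq_iff_eq_mul.1 h
      have h4 : (4 : ℤ) ∣ ((2 ^ (n - 1) : ℕ) : ℤ) := by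
        rw [show (4 : ℤ) = ((2 ^ 2 : ℕ) : ℤ) by norm_num]
        exact_mod_cast Nat.pow_dvd_pow 2 (show 2 ≤ n - 1 by omega)
      have h6 : (4 : ℤ) ∣ (2 : ℤ) ^ n := by
        rw [show (4 : ℤ) = 2 ^ 2 by norm_num]; exact pow_dvd_pow 2 (by omega)
      have h7 := dvd_add (h4.trans hj0) (h6.trans hcongr)
      rw [add_comm (E ((g ^ 2 ^ j) ^ 2)) 1, add_assoc, add_sub_cancel] at h7
      rcases Int.even_or_odd' (E (g ^ 2 ^ j)) with ⟨q, hq | hq⟩
      · rw [hq, show (1 : ℤ) + (2 * q) ^ 2 = 4 * (q * q) + 1 by ring] at h7; omega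
      · rw [hq, show (1 : ℤ) + (2 * q + 1) ^ 2 = 4 * (q * q + q) + 2 by ring] at h7; omega
    have hidx : U.index = 2 := by
      refine Subgroup.index_eq_two_iff.2 ⟨g0, fun b => ?_⟩
      by_cases hb : b ∈ U
      · exact Or.inr ⟨hb, fun h => hg0 (by simpa using U.mul_mem (U.inv_mem hb) h)⟩
      refine Or.inl ⟨?_, hb⟩
      by_contra hbg
      obtain ⟨q1, hq1⟩ := hinv b hb (hsq b)
      obtain ⟨q2, hq2⟩ := hinv g0 hg0 (hsq g0)
      obtain ⟨q3, hq3⟩ := hinv (b * g0) hbg (hsq _)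
      have h := hEmul b g0
      rw [zpow_eq_zpow_iff_modEq, hou] at h
      obtain ⟨q4, hq4⟩ := h.dvd
      by_cases hn3 : 3 ≤ n
      · have h4 : (4 : ℤ) ∣ ((2 ^ (n - 1) : ℕ) : ℤ) := by
          rw [show (4 : ℤ) = ((2 ^ 2 : ℕ) : ℤ) by norm_num]
          exact_mod_cast Nat.pow_dvd_pow 2 (show 2 ≤ n - 1 by omega)
        obtain ⟨d, hd⟩ := h4
        have e2 : ((2 ^ n : ℕ) : ℤ) = 2 * ((2 ^ (n - 1) : ℕ) : ℤ) := by
          rw [hpn]; push_cast; ring
        rw [e2, hd] at hq4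
        rw [hd] at hq1 hq2 hq3
        have e3 : E b * E g0 = (4 * d * q1 - 1) * (4 * d * q2 - 1) := by
          rw [show E b = 4 * d * q1 - 1 by linarith, show E g0 = 4 * d * q2 - 1 by linarith]
        have : (4 : ℤ) ∣ 2 := ⟨d * (2 * q4 + q3) - (4 * d * q1 * d * q2 - d * q1 - d * q2), by linear_combination hq3 + hq4 - e3⟩
        norm_num at this
      · obtain rfl : n = 2 := by omega
        refine hb (hfix b ?_) |>.elim
        by_contra hne
        have he : ∀ x, x ∉ U → u ^ E x = u⁻¹ := by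
          intro x hx
          obtain ⟨q, hq⟩ := hinv x hx (hsq x)
          norm_num at hq
          rcases Int.even_or_odd' q with ⟨r, hr | hr⟩
          · rw [show E x = ((2 ^ 2 : ℕ) : ℤ) * r + (-1) by push_cast; linarith, zpow_add, zpow_mul, zpow_natCast, ← hou,
              pow_orderOf_eq_one, one_zpow, one_mul, zpow_neg, zpow_one]
          · exfalso
            refine hx (hfix x (mul_inv_eq_iff_eq_mul.1 ?_))
            rw [hE, show E x = ((2 ^ 2 : ℕ) : ℤ) * r + 1 by push_cast; linarith, zpow_add, zpow_mul, zpow_natCast, ← hou,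
              pow_orderOf_eq_one, one_zpow, one_mul, zpow_one]
        have h2 := hEmul b g0
        rw [he _ hbg, zpow_mul, he b hb, inv_zpow, he g0 hg0, inv_inv] at h2
        exact hne (mul_inv_eq_iff_eq_mul.1 (by rw [hE, he b hb, h2]))
    obtain ⟨q, hq⟩ := hinv g0 hg0 (hsq g0)
    refine left_case u n hn2 hou (by rw [hzU]; exact hidx) hna g0 (by rw [hzU]; exact hg0) q ?_
    rw [hE, show E g0 = -1 + ((2 ^ (n - 1) : ℕ) : ℤ) * q by linarith, zpow_add, zpow_neg, zpow_one, zpow_mul, zpow_natCast]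


end Cfsg.Agent.S3761
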