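import Cfsg.Statements.S3762
import Cfsg.Agent.S3761
import Cfsg.Agent.Lib.Transfer.Critical
import Cfsg.Agent.Lib.Transfer.OmegaCentralizer
import Cfsg.Agent.Lib.Transfer.PGroupNormal
import Cfsg.Agent.Lib.Solv.PGroupBasic
import Cfsg.Agent.Lib.Characters.Induction

set_option autoImplicit false
open Cfsg
open scoped Pointwise commutatorElement

namespace Cfsg.Agent.S3762

/-- At most `N.index` homomorphisms trivial on `N` into a subgroup of prime order. -/
theorem dual_bound {X G : Type*} [Group X] [Finite X] [Group G] [Finite G] (N : Subgroup X) [N.Normal]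
    (Ω : Subgroup G) {p : ℕ} [Fact p.Prime] (hΩ : Nat.card Ω = p) {α : Type*}
    (F : α → (X →* Ω)) (hF : Function.Injective F) (hN : ∀ a, ∀ n ∈ N, F a n = 1) :
    Nat.card α ≤ N.index := by
  classical
  have hp := (Fact.out : p.Prime)
  have hcyc : IsCyclic Ω := isCyclic_of_prime_card hΩ
  let _ : CommGroup Ω := IsCyclic.commGroup
  have hnt : Nontrivial Ω := by rw [← Finite.one_lt_card_iff_nontrivial, hΩ]; exact hp.one_lt
  obtain ⟨w, hw⟩ := exists_ne (1 : Ω)
  obtain ⟨χ, hχ⟩ := CommGroup.exists_apply_ne_one_of_hasEnoughRootsOfUnity Ω ℂ hw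
  have hinj : Function.Injective χ := by
    rw [← MonoidHom.ker_eq_bot_iff]
    have : Fact (Nat.card Ω).Prime := ⟨by rw [hΩ]; exact hp⟩
    rcases Subgroup.eq_bot_or_eq_top_of_prime_card χ.ker with h | h
    · exact h
    · exact absurd (h.ge (Subgroup.mem_top w)) hχ
  let Φ : α → ((X ⧸ N) →* ℂˣ) := fun a =>
    χ.comp (QuotientGroup.lift N (F a) fun n hn => hN a n hn)
  have hΦ : Function.Injective Φ := by
    intro a b h
    apply hF
    ext x
    have := DFunLike.congr_fun h (x : X ⧸ N)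
    exact congrArg Subtype.val (hinj this)
  calc Nat.card α ≤ Nat.card ((X ⧸ N) →* ℂˣ) := by
        have : Finite ((X ⧸ N) →* ℂˣ) := Nat.finite_of_card_ne_zero (by
          rw [Lib.Characters.card_hom_units]; exact Subgroup.index_ne_zero_of_finite)
        exact Nat.card_le_card_of_injective Φ hΦ
    _ = (commutator (X ⧸ N)).index := Lib.Characters.card_hom_units
    _ ≤ Nat.card (X ⧸ N) := Nat.le_of_dvd Nat.card_pos (Subgroup.index_dvd_card _)

/-- Recognition of extraspecial groups. -/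
theorem extraspecial_of {H : Type*} [Group H] [Finite H] {p : ℕ} [Fact p.Prime] (hH : IsPGroup p H)
    (Ω : Subgroup H) (hΩc : Nat.card Ω = p) (hcenter : Subgroup.center H ≤ Ω)
    (hΩZ : Ω ≤ Subgroup.center H) (hcomm : ∀ a b : H, ⁅a, b⁆ ∈ Ω) (hpow : ∀ a : H, a ^ p ∈ Ω)
    (hne : Ω ≠ ⊤) : Cfsg.IsExtraspecial p H := by
  have hp := (Fact.out : p.Prime)
  have hZ : Subgroup.center H = Ω := le_antisymm hcenter hΩZ
  have hDle : commutator H ≤ Ω := by
    rw [commutator_def, Subgroup.commutator_le]; exact fun a _ b _ => hcomm a b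
  have hD : commutator H = Ω := by
    refine Subgroup.eq_of_le_of_card_ge hDle ?_
    rw [hΩc]
    obtain ⟨k, hk⟩ := IsPGroup.iff_card.1 (hH.to_subgroup (commutator H))
    rw [hk]
    refine Nat.le_self_pow ?_ p
    rintro rfl
    rw [pow_zero, Subgroup.card_eq_one] at hk
    apply hne
    rw [← hZ, eq_top_iff]
    intro a _
    refine Subgroup.mem_center_iff.2 fun b => commutatorElement_eq_one_iff_mul_comm.1 ?_
    have := Subgroup.commutator_mem_commutator (H₁ := (⊤ : Subgroup H)) (H₂ := ⊤)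
      (Subgroup.mem_top b) (Subgroup.mem_top a)
    rw [← commutator_def, hk, Subgroup.mem_bot] at this
    exact this
  have hΩn : Ω.Normal := hZ ▸ inferInstance
  have hΦ : frattini H = Ω := le_antisymm
    (Lib.Solv.frattini_le_of_elementary_quotient (p := p) Ω hDle hpow)
    (hD ▸ Lib.Solv.commutator_le_frattini hH)
  exact ⟨⟨hH, hΦ.trans hZ.symm, hD.trans hZ.symm⟩, by rw [hZ, hΩc]⟩

theorem extraspecial_congr {A B : Type*} [Group A] [Group B] [Finite A] [Finite B] {p : ℕ} [Fact p.Prime]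
    (e : A ≃* B) (h : Cfsg.IsExtraspecial p A) : Cfsg.IsExtraspecial p B := by
  obtain ⟨⟨hA, hΦ, hD⟩, hZ⟩ := h
  have hB : IsPGroup p B := hA.of_equiv e
  have hmem : ∀ a, a ∈ Subgroup.center A → e a ∈ Subgroup.center B := fun a ha =>
    Subgroup.mem_center_iff.2 fun b => by
      have := congrArg e (Subgroup.mem_center_iff.1 ha (e.symm b))
      simpa using this
  have hmem' : ∀ b, b ∈ Subgroup.center B → e.symm b ∈ Subgroup.center A := fun b hb =>
    Subgroup.mem_center_iff.2 fun a => by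
      have := congrArg e.symm (Subgroup.mem_center_iff.1 hb (e a))
      simpa using this
  refine extraspecial_of hB ((Subgroup.center A).map e.toMonoidHom) ?_ ?_ ?_ ?_ ?_ ?_
  · rw [Subgroup.card_map_of_injective e.injective, hZ]
  · exact fun b hb => ⟨e.symm b, hmem' b hb, e.apply_symm_apply b⟩
  · rintro _ ⟨a, ha, rfl⟩; exact hmem a ha
  · intro a b
    refine ⟨⁅e.symm a, e.symm b⁆, ?_, by simp [map_commutatorElement]⟩
    rw [SetLike.mem_coe, ← hD]
    exact Subgroup.commutator_mem_commutator (Subgroup.mem_top _) (Subgroup.mem_top _)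
  · intro a
    refine ⟨e.symm a ^ p, ?_, by simp⟩
    rw [SetLike.mem_coe, ← hΦ]
    exact Lib.Solv.pow_mem_frattini hA _
  · intro h
    have h1 : Subgroup.center A = ⊤ := eq_top_iff.2 fun a _ => by
      obtain ⟨a', ha', e'⟩ := h.ge (Subgroup.mem_top (e a))
      exact e.injective e' ▸ ha'
    have h2 : IsMulCommutative A := ⟨⟨fun a b =>
      (Subgroup.mem_center_iff.1 (h1.ge (Subgroup.mem_top b)) a)⟩⟩
    have h3 : commutator A = ⊥ := by
      rw [commutator_def, Subgroup.commutator_eq_bot_iff_le_centralizer]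
      exact fun a _ => Subgroup.mem_centralizer_iff.2 fun b _ => h2.is_comm.comm b a
    rw [← hD, h3, Subgroup.card_bot] at hZ
    exact (Fact.out : p.Prime).one_lt.ne hZ

theorem char_omegaOne {G : Type*} [Group G] (p : ℕ) (M : Subgroup G) [M.Characteristic] :
    (Cfsg.omegaOne p M).Characteristic :=
  Cfsg.Lib.Transfer.characteristic_of_mem_iff fun φ x hx => by
    refine Subgroup.closure_induction (p := fun y _ => φ y ∈ Cfsg.omegaOne p M) ?_ ?_ ?_ ?_ hx
    · rintro y ⟨hy, hyp⟩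
      exact Subgroup.subset_closure
        ⟨Cfsg.Lib.Transfer.map_mem_of_characteristic φ hy, by rw [← map_pow, hyp, map_one]⟩
    · simp
    · intro a b _ _ ha hb; rw [map_mul]; exact mul_mem ha hb
    · intro a _ ha; rw [map_inv]; exact inv_mem ha

theorem char_center_inside {G : Type*} [Group G] (M : Subgroup G) [M.Characteristic] :
    (M ⊓ Subgroup.centralizer (M : Set G)).Characteristic ∧
      IsMulCommutative (M ⊓ Subgroup.centralizer (M : Set G) : Subgroup G) := by
  refine ⟨Cfsg.Lib.Transfer.characteristic_of_mem_iff fun φ x hx =>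
    ⟨Cfsg.Lib.Transfer.map_mem_of_characteristic φ hx.1,
      Cfsg.Lib.Transfer.map_mem_centralizer φ hx.2⟩, ?_⟩
  rw [← Subgroup.le_centralizer_iff_isMulCommutative]
  exact inf_le_right.trans (Subgroup.centralizer_le inf_le_left)

/-- Let G be a finite p-group of symplectic type: every characteristic abelian subgroup of G is cyclic. Then G = E ∗ R is a central product of subgroups E and R (they commute elementwise and generate G) where E is extraspecial or trivial, and R is cyclic, or p = 2 and R is dihedral, semidihedral or generalized quaternion of order at least 16. -/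
theorem result {G : Type*} [Group G] [Finite G] {p : ℕ} [Fact p.Prime] (hG : IsPGroup p G) (hsymp : ∀ A : Subgroup G, A.Characteristic → IsMulCommutative A → IsCyclic A) : ∃ E R : Subgroup G, (∀ e ∈ E, ∀ r ∈ R, e * r = r * e) ∧ E ⊔ R = ⊤ ∧ (E = ⊥ ∨ Cfsg.IsExtraspecial p ↥E) ∧ (IsCyclic R ∨ (p = 2 ∧ 16 ≤ Nat.card R ∧ ((∃ m : ℕ, Nonempty (↥R ≃* DihedralGroup m)) ∨ (∃ m : ℕ, Nonempty (↥R ≃* QuaternionGroup m)) ∨ Cfsg.IsQuasiDihedral ↥R))) := by
  classical
  have hp := (Fact.out : p.Prime)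
  obtain ⟨C, hCc, hCΦ, hCG, hCC⟩ := Lib.Transfer.exists_critical hG
  haveI := hCc
  set Z := C ⊓ Subgroup.centralizer (C : Set G) with hZdef
  obtain ⟨hZch, hZab⟩ := char_center_inside C
  haveI := hZch
  have hZcent : Subgroup.centralizer (C : Set G) = Z := le_antisymm (le_inf hCC le_rfl) inf_le_right
  have hZc : ∀ u ∈ Z, ∀ c ∈ C, c * u = u * c := fun u hu c hc =>
    Subgroup.mem_centralizer_iff.1 hu.2 c hc
  have hZcyc : IsCyclic Z := hsymp Z hZch hZab
  obtain ⟨z, hz⟩ : ∃ z, Subgroup.zpowers z = Z := by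
    obtain ⟨g, hg⟩ := IsCyclic.exists_generator (α := Z)
    refine ⟨g.1, le_antisymm (Subgroup.zpowers_le.2 g.2) fun v hv => ?_⟩
    obtain ⟨k, hk⟩ := hg ⟨v, hv⟩
    exact ⟨k, congrArg Subtype.val hk⟩
  have hzZ : z ∈ Z := hz ▸ Subgroup.mem_zpowers z
  have hzC : z ∈ C := hzZ.1
  by_cases hbot : Z = ⊥
  · -- then everything is trivial
    have hC1 : C = ⊥ := by
      by_contra hne
      have := (Lib.Transfer.inf_center_ne_bot hG C hne)
      apply this
      rw [eq_bot_iff, ← hbot]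
      exact fun x hx => ⟨hx.1, Subgroup.center_le_centralizer _ hx.2⟩
    have htop : (⊤ : Subgroup G) = ⊥ := by
      rw [eq_bot_iff, ← hC1]
      refine le_trans ?_ hCC
      rw [hC1]
      intro x _
      rw [Subgroup.mem_centralizer_iff]
      intro h hh
      rw [SetLike.mem_coe, Subgroup.mem_bot] at hh
      simp [hh]
    refine ⟨⊥, ⊤, fun e he r _ => ?_, bot_sup_eq _, Or.inl rfl, Or.inl ?_⟩
    · rw [Subgroup.mem_bot] at he; simp [he]
    · rw [htop]; infer_instance
  obtain ⟨n, hn⟩ := IsPGroup.iff_card.1 (hG.to_subgroup Z)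
  have hn1 : 1 ≤ n := by
    by_contra h
    obtain rfl : n = 0 := by omega
    exact hbot (Subgroup.card_eq_one.1 (by simpa using hn))
  have hoz : orderOf z = p ^ n := by rw [← Nat.card_zpowers, hz, hn]
  -- the subgroup of order `p` of `Z`
  set z1 := z ^ p ^ (n - 1) with hz1def
  have hoz1 : orderOf z1 = p := by
    have hgcd : (orderOf z).gcd (p ^ (n - 1)) = p ^ (n - 1) :=
      Nat.gcd_eq_right (hoz ▸ pow_dvd_pow p (by omega))
    rw [hz1def, orderOf_pow, hgcd, hoz, Nat.pow_div (by omega) hp.pos,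
      show n - (n - 1) = 1 by omega, pow_one]
  set Ω := Subgroup.zpowers z1 with hΩdef
  have hΩcard : Nat.card Ω = p := by rw [hΩdef, Nat.card_zpowers, hoz1]
  have hΩZ : Ω ≤ Z := Subgroup.zpowers_le.2 (pow_mem hzZ _)
  have hsmall : ∀ u ∈ Z, u ^ p = 1 → u ∈ Ω := by
    intro u hu hup
    rw [← hz] at hu
    obtain ⟨k, rfl⟩ := mem_powers_iff_mem_zpowers.2 hu
    simp only at hup ⊢
    rw [← pow_mul, ← orderOf_dvd_iff_pow_eq_one, hoz, show p ^ n = p ^ (n - 1) * p by
      rw [← pow_succ]; congr 1; omega] at hup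
    obtain ⟨d, rfl⟩ := Nat.dvd_of_mul_dvd_mul_right hp.pos hup
    rw [pow_mul]; exact pow_mem (Subgroup.mem_zpowers _) d
  have hΩp : ∀ c ∈ Ω, c ^ p = 1 := fun c hc => by
    have := (Subgroup.orderOf_dvd_natCard Ω hc).trans (dvd_of_eq hΩcard)
    exact orderOf_dvd_iff_pow_eq_one.1 this
  have hΩn : Ω.Normal := by
    refine ⟨fun c hc g => hsmall _ ((inferInstance : Z.Normal).conj_mem c (hΩZ hc) g) ?_⟩
    rw [conj_pow, hΩp c hc, mul_one, mul_inv_cancel]
  have hΩcen : Ω ≤ Subgroup.center G := by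
    have hne : Ω ≠ ⊥ := fun h => by rw [h, Subgroup.card_bot] at hΩcard; exact hp.one_lt.ne hΩcard
    have h1 := Lib.Transfer.inf_center_ne_bot hG Ω hne
    have h2 : Ω ⊓ Subgroup.center G = Ω := by
      refine Subgroup.eq_of_le_of_card_ge inf_le_left ?_
      rw [hΩcard]
      obtain ⟨j, hj⟩ := IsPGroup.iff_card.1 (hG.to_subgroup (Ω ⊓ Subgroup.center G))
      rw [hj]
      refine Nat.le_self_pow ?_ p
      rintro rfl
      exact h1 (Subgroup.card_eq_one.1 (by simpa using hj))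
    exact h2 ▸ inf_le_right
  have hΩc : ∀ c ∈ Ω, ∀ g : G, c * g = g * c := fun c hc g =>
    (Subgroup.mem_center_iff.1 (hΩcen hc) g).symm
  have hCpow : ∀ c ∈ C, c ^ p ∈ Z := fun c hc =>
    ⟨pow_mem hc p, hCΦ ⟨⟨c, hc⟩ ^ p, Lib.Solv.pow_mem_frattini (hG.to_subgroup C) _, rfl⟩⟩
  have hcommZ : ∀ a ∈ C, ∀ g : G, ⁅a, g⁆ ∈ Z := fun a ha g =>
    hCG (Subgroup.commutator_mem_commutator ha (Subgroup.mem_top g))
  -- commutators in `C`
  have hpowcomm : ∀ a ∈ C, ∀ g : G, g * a ^ p = a ^ p * g → ⁅a, g⁆ ∈ Ω := by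
    intro a ha g hga
    refine hsmall _ (hcommZ a ha g) ?_
    have hc : Commute a ⁅a, g⁆ := (hZc _ (hcommZ a ha g) a ha)
    have h1 : ∀ k : ℕ, ⁅a ^ k, g⁆ = ⁅a, g⁆ ^ k := by
      intro k
      induction k with
      | zero => simp
      | succ k ih =>
        have : ⁅a ^ (k + 1), g⁆ = a ^ k * ⁅a, g⁆ * (a ^ k)⁻¹ * ⁅a ^ k, g⁆ := by
          simp only [commutatorElement_def]; group
        rw [this, (hc.pow_left k).eq, mul_inv_cancel_right, ih, ← pow_succ']
    rw [← h1, commutatorElement_eq_one_iff_mul_comm, hga]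
  have hCcomm : ∀ a ∈ C, ∀ b ∈ C, ⁅a, b⁆ ∈ Ω := fun a ha b hb =>
    hpowcomm a ha b (hZc _ (hCpow a ha) b hb)
  have hmulpow : ∀ a ∈ C, ∀ b ∈ C, ∃ c ∈ Ω, (a * b) ^ p = a ^ p * b ^ p * c ∧
      (Odd p → c = 1) := by
    intro a ha b hb
    have hd : ⁅b⁻¹, a⁻¹⁆ ∈ Ω := hCcomm _ (inv_mem hb) _ (inv_mem ha)
    refine ⟨⁅b⁻¹, a⁻¹⁆ ^ p.choose 2, pow_mem hd _, Lib.Transfer.mul_pow_class_two
      (by simp only [commutatorElement_def]; group) (hΩc _ hd a) (hΩc _ hd b) p, fun hodd => ?_⟩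
    obtain ⟨t, ht⟩ := hp.dvd_choose_self (k := 2) two_ne_zero
      (lt_of_le_of_ne hp.two_le fun h => by rw [← h] at hodd; exact absurd hodd (by decide))
    rw [ht, pow_mul, hΩp _ hd, one_pow]
  have hZpch : ∀ (φ : G ≃* G) (y : G), y ∈ Subgroup.zpowers (z ^ p) →
      φ y ∈ Subgroup.zpowers (z ^ p) := by
    intro φ y hy
    obtain ⟨i, rfl⟩ := Subgroup.mem_zpowers_iff.1 hy
    have h := Cfsg.Lib.Transfer.map_mem_of_characteristic φ hzZ
    rw [← hz] at h
    obtain ⟨j, hj⟩ := Subgroup.mem_zpowers_iff.1 h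
    rw [map_zpow, map_pow, ← hj]
    refine zpow_mem (K := Subgroup.zpowers (z ^ p)) ?_ i
    rw [← zpow_natCast (z ^ j), ← zpow_mul, mul_comm, zpow_mul, zpow_natCast]
    exact zpow_mem (Subgroup.mem_zpowers _) j
  have hΩZp : 2 ≤ n → Ω ≤ Subgroup.zpowers (z ^ p) := by
    intro hn2
    refine Subgroup.zpowers_le.2 ?_
    rw [hz1def, show p ^ (n - 1) = p * p ^ (n - 2) by rw [← pow_succ']; congr 1; omega, pow_mul]
    exact pow_mem (Subgroup.mem_zpowers _) _
  -- `p`-th powers of `C` lie in `Z ^ p` outside the case of an extraspecial `C`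
  have hq : Odd p ∨ 2 ≤ n → ∀ c ∈ C, c ^ p ∈ Subgroup.zpowers (z ^ p) := by
    intro hcase
    by_contra! hno
    obtain ⟨x, hx, hxp⟩ := hno
    have hadd : ∀ a ∈ C, ∀ b ∈ C, ∃ d ∈ Subgroup.zpowers (z ^ p),
        (a * b) ^ p = a ^ p * b ^ p * d := by
      intro a ha b hb
      obtain ⟨c, hc, heq, hodd⟩ := hmulpow a ha b hb
      refine ⟨c, ?_, heq⟩
      rcases hcase with h | h
      · rw [hodd h]; exact one_mem _
      · exact hΩZp h hc
    let K : Subgroup G :=
      { carrier := {c | c ∈ C ∧ c ^ p ∈ Subgroup.zpowers (z ^ p)}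
        one_mem' := ⟨one_mem _, by simp⟩
        mul_mem' := fun {a b} ⟨ha, hap⟩ ⟨hb, hbp⟩ => by
          obtain ⟨d, hd, heq⟩ := hadd a ha b hb
          exact ⟨mul_mem ha hb, by rw [heq]; exact mul_mem (mul_mem hap hbp) hd⟩
        inv_mem' := fun {a} ⟨ha, hap⟩ => ⟨inv_mem ha, by rw [inv_pow]; exact inv_mem hap⟩ }
    haveI hKch : K.Characteristic := Cfsg.Lib.Transfer.characteristic_of_mem_iff fun φ c hc =>
      ⟨Cfsg.Lib.Transfer.map_mem_of_characteristic φ hc.1, by rw [← map_pow]; exact hZpch φ _ hc.2⟩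
    have hZK : Z ≤ K := by
      intro u hu
      refine ⟨hu.1, ?_⟩
      rw [← hz] at hu
      obtain ⟨k, rfl⟩ := Subgroup.mem_zpowers_iff.1 hu
      rw [← zpow_natCast (z ^ k), ← zpow_mul, mul_comm, zpow_mul, zpow_natCast]
      exact zpow_mem (Subgroup.mem_zpowers _) k
    have hKC : K ≤ C := fun c hc => hc.1
    -- the centre of `K` is `Z`
    have hZKc : ∀ k ∈ K, (∀ c ∈ K, c * k = k * c) → k ∈ Z := by
      intro k hk hkc
      by_contra hkZ
      obtain ⟨hch, hab⟩ := char_center_inside K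
      have := hsymp _ hch hab
      obtain ⟨w, hw⟩ := IsCyclic.exists_generator
        (α := (K ⊓ Subgroup.centralizer (K : Set G) : Subgroup G))
      have hgen : ∀ u ∈ K ⊓ Subgroup.centralizer (K : Set G), ∃ i : ℤ, w.1 ^ i = u := by
        intro u hu
        obtain ⟨i, hi⟩ := hw ⟨u, hu⟩
        exact ⟨i, congrArg Subtype.val hi⟩
      have hzK : z ∈ K ⊓ Subgroup.centralizer (K : Set G) :=
        ⟨hZK hzZ, Subgroup.mem_centralizer_iff.2 fun c hc => hZc z hzZ c (hKC hc)⟩
      obtain ⟨j, hj⟩ := hgen z hzK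
      obtain ⟨i, hi⟩ := hgen k ⟨hk, Subgroup.mem_centralizer_iff.2 hkc⟩
      have hwK : w.1 ∈ K := w.2.1
      have hwp := hCpow w.1 (hKC hwK)
      by_cases hpj : (p : ℤ) ∣ j
      · obtain ⟨d, rfl⟩ := hpj
        have h1 : z ∈ Subgroup.zpowers (z ^ p) := by
          have e : z = (w.1 ^ p) ^ d := by rw [← hj, zpow_mul, zpow_natCast]
          exact (congrArg (fun t => t ∈ Subgroup.zpowers (z ^ p)) e).mpr (zpow_mem hwK.2 d)
        have h2 := Subgroup.card_le_of_le (Subgroup.zpowers_le.2 h1)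
        rw [Nat.card_zpowers, Nat.card_zpowers, orderOf_pow,
          Nat.gcd_eq_right (hoz ▸ dvd_pow_self p (by omega)), hoz] at h2
        have := Nat.div_lt_self (pow_pos hp.pos n) hp.one_lt
        omega
      · have hcop : IsCoprime j (p : ℤ) := by
          rw [isCoprime_comm]
          exact (Nat.prime_iff_prime_int.1 hp).coprime_iff_not_dvd.2 hpj
        obtain ⟨a, b, hab'⟩ := hcop
        apply hkZ
        rw [← hi]
        refine zpow_mem ?_ i
        have e : w.1 = (w.1 ^ j) ^ a * (w.1 ^ p) ^ b := by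
          rw [← zpow_natCast w.1 p, ← zpow_mul, ← zpow_mul, ← zpow_add, mul_comm j a,
            mul_comm (p : ℤ) b, hab', zpow_one]
        rw [e, hj]
        exact mul_mem (zpow_mem hzZ a) (zpow_mem hwp b)
    have hlt : K < C := lt_of_le_of_ne hKC fun h => hxp (h.ge hx).2
    let ZK := Z.subgroupOf K
    have hZKn : ZK.Normal := inferInstance
    let ZC := Z.subgroupOf C
    let F : C ⧸ ZC → (K →* Ω) := fun a => MonoidHom.mk'
      (fun k => ⟨⁅(k : G), (a.out : G)⁆, hCcomm _ (hKC k.2) _ a.out.2⟩)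
      (fun k l => by
        apply Subtype.ext
        show ⁅(k : G) * l, (a.out : G)⁆ = ⁅(k : G), (a.out : G)⁆ * ⁅(l : G), (a.out : G)⁆
        have hd := hΩc _ (hCcomm _ (hKC l.2) _ a.out.2)
        calc ⁅(k : G) * l, (a.out : G)⁆ = k * ⁅(l : G), (a.out : G)⁆ * (k : G)⁻¹ * ⁅(k : G), (a.out : G)⁆ := by
              simp only [commutatorElement_def]; group
          _ = _ := by rw [← hd k, mul_inv_cancel_right, hd])
    have hFinj : Function.Injective F := by
      intro a b h
      rw [← QuotientGroup.out_eq' a, ← QuotientGroup.out_eq' b, QuotientGroup.eq]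
      show ((a.out⁻¹ * b.out : C) : G) ∈ Z
      set d := ((a.out⁻¹ * b.out : C) : G) with hd
      have hdC : d ∈ C := (a.out⁻¹ * b.out).2
      have hcomm : ∀ k ∈ K, k * d = d * k := by
        intro k hk
        have h1 : ⁅k, (a.out : G)⁆ = ⁅k, (b.out : G)⁆ :=
          congrArg (fun f => ((f ⟨k, hk⟩ : Ω) : G)) h
        rw [← commutatorElement_eq_one_iff_mul_comm]
        have e : ⁅k, (b.out : G)⁆ = ⁅k, (a.out : G)⁆ * ((a.out : G) * ⁅k, d⁆ * (a.out : G)⁻¹) := by
          simp only [hd, Subgroup.coe_mul, Subgroup.coe_inv, commutatorElement_def]; group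
        rw [← h1, ← hΩc _ (hCcomm _ (hKC hk) _ hdC), mul_inv_cancel_right, left_eq_mul] at e
        exact e
      by_cases hdK : d ∈ K
      · exact hZKc d hdK hcomm
      · exfalso
        -- `C = K ⟨d⟩`, so `d` is central in `C`
        have hdp := hCpow d hdC
        rw [← hz] at hdp
        obtain ⟨j, hj⟩ := Subgroup.mem_zpowers_iff.1 hdp
        have hpj : ¬ (p : ℤ) ∣ j := by
          rintro ⟨t, rfl⟩
          apply hdK
          refine ⟨hdC, ?_⟩
          rw [← hj, zpow_mul, zpow_natCast]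
          exact zpow_mem (Subgroup.mem_zpowers _) _
        obtain ⟨u, v, huv⟩ : IsCoprime j (p : ℤ) := by
          rw [isCoprime_comm]
          exact (Nat.prime_iff_prime_int.1 hp).coprime_iff_not_dvd.2 hpj
        apply hdK
        apply hZK
        refine ⟨hdC, Subgroup.mem_centralizer_iff.2 fun c hc => ?_⟩
        have hcp := hCpow c hc
        rw [← hz] at hcp
        obtain ⟨i, hi⟩ := Subgroup.mem_zpowers_iff.1 hcp
        obtain ⟨e, he, heq⟩ := hadd c hc (d ^ (-(u * i))) (zpow_mem hdC _)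
        have hk : c * d ^ (-(u * i)) ∈ K := by
          refine ⟨mul_mem hc (zpow_mem hdC _), ?_⟩
          rw [heq]
          refine mul_mem ?_ he
          have e1 : c ^ p * (d ^ (-(u * i))) ^ p = (z ^ p) ^ (v * i) := by
            rw [← hi, ← zpow_natCast (d ^ (-(u * i))), ← zpow_mul, mul_comm (-(u * i)), zpow_mul,
              zpow_natCast, ← hj, ← zpow_mul, ← zpow_add, ← zpow_natCast z p, ← zpow_mul]
            congr 1
            linear_combination (-i) * huv
          rw [e1]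
          exact zpow_mem (Subgroup.mem_zpowers _) _
        have h2 : Commute (c * d ^ (-(u * i))) d := hcomm _ hk
        have h3 := h2.mul_left ((Commute.refl d).zpow_left (u * i))
        rwa [mul_assoc, ← zpow_add, neg_add_cancel, zpow_zero, mul_one] at h3
    have h1 := dual_bound ZK Ω hΩcard F hFinj fun a k hk =>
      Subtype.ext (commutatorElement_eq_one_iff_mul_comm.2 (hZc _ hk _ a.out.2).symm)
    have h2 : ZK.index < Nat.card (C ⧸ ZC) := by
      show Z.relIndex K < Z.relIndex C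
      have h3 := Subgroup.relIndex_mul_relIndex Z K C hZK hKC
      have h4 : 1 < K.relIndex C := by
        refine Nat.lt_of_le_of_ne (Nat.pos_of_ne_zero ?_) fun h => ?_
        · intro h; rw [h, mul_zero] at h3; exact Subgroup.index_ne_zero_of_finite h3.symm
        · exact not_le_of_gt hlt (Subgroup.relIndex_eq_one.1 h.symm)
      rw [← h3]
      exact lt_mul_of_one_lt_right (Nat.pos_of_ne_zero Subgroup.index_ne_zero_of_finite) h4
    omega
  -- the extraspecial part
  obtain ⟨E, hΩE, hEC, hEZ, hEodd, hEfac⟩ : ∃ E : Subgroup G, Ω ≤ E ∧ E ≤ C ∧ E ⊓ Z ≤ Ω ∧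
      (Odd p → ∀ e ∈ E, e ^ p = 1) ∧ ∀ c ∈ C, ∃ e ∈ E, ∃ u ∈ Z, c = e * u := by
    by_cases hn12 : Odd p ∨ 2 ≤ n
    · obtain ⟨E, ⟨hΩE, hEC, hEZ, hEodd⟩, hmax⟩ := (Set.toFinite {E : Subgroup G | Ω ≤ E ∧ E ≤ C ∧
        E ⊓ Z ≤ Ω ∧ (Odd p → ∀ e ∈ E, e ^ p = 1)}).exists_maximal
          ⟨Ω, le_rfl, hΩZ.trans inf_le_left, inf_le_left, fun _ e he => hΩp e he⟩
      refine ⟨E, hΩE, hEC, hEZ, hEodd, ?_⟩
      by_contra! hno
      obtain ⟨c, hc, hcno⟩ := hno
      obtain ⟨m, hm⟩ := Subgroup.mem_zpowers_iff.1 (hq hn12 c hc)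
      set x := c * z ^ (-m) with hxdef
      have hxC : x ∈ C := mul_mem hc (zpow_mem hzC _)
      have hxp : x ^ p = 1 := by
        rw [hxdef, (show Commute c (z ^ (-m)) from (Commute.zpow_right (hZc z hzZ c hc) _)).mul_pow,
          ← hm, ← zpow_natCast (z ^ (-m)), ← zpow_mul, ← zpow_natCast z p, ← zpow_mul, ← zpow_add]
        convert zpow_zero z using 2
        ring
      have hxno : ∀ e ∈ E, ∀ u ∈ Z, x ≠ e * u := by
        intro e he u hu h
        refine hcno e he (u * z ^ m) (mul_mem hu (zpow_mem hzZ _)) ?_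
        rw [← mul_assoc, ← h, hxdef, mul_assoc, ← zpow_add, neg_add_cancel, zpow_zero, mul_one]
      have hcj : ∀ e ∈ E, ∀ i : ℤ, x ^ i * e * (x ^ i)⁻¹ ∈ E := by
        intro e he i
        have : x ^ i * e * (x ^ i)⁻¹ = ⁅x ^ i, e⁆ * e := by simp only [commutatorElement_def]; group
        rw [this]
        exact mul_mem (hΩE (hCcomm _ (zpow_mem hxC i) _ (hEC he))) he
      let E' : Subgroup G :=
        { carrier := {w | ∃ e ∈ E, ∃ i : ℤ, w = e * x ^ i}
          one_mem' := ⟨1, one_mem _, 0, by simp⟩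
          mul_mem' := by
            rintro _ _ ⟨e, he, i, rfl⟩ ⟨f, hf, j, rfl⟩
            refine ⟨e * (x ^ i * f * (x ^ i)⁻¹), mul_mem he (hcj f hf i), i + j, ?_⟩
            rw [zpow_add]; group
          inv_mem' := by
            rintro _ ⟨e, he, i, rfl⟩
            exact ⟨x ^ (-i) * e⁻¹ * (x ^ (-i))⁻¹, hcj _ (inv_mem he) (-i), -i, by group⟩ }
      have hle : E ≤ E' := fun e he => ⟨e, he, 0, by simp⟩
      have hxE' : x ∈ E' := ⟨1, one_mem _, 1, by simp⟩
      have hback := hmax (show E' ∈ _ from ⟨hΩE.trans hle, by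
          rintro _ ⟨e, he, i, rfl⟩; exact mul_mem (hEC he) (zpow_mem hxC i), by
          rintro _ ⟨⟨e, he, i, rfl⟩, hwZ⟩
          by_cases hpi : (p : ℤ) ∣ i
          · obtain ⟨t, rfl⟩ := hpi
            rw [zpow_mul, zpow_natCast, hxp, one_zpow, mul_one] at hwZ ⊢
            exact hEZ ⟨he, hwZ⟩
          · exfalso
            obtain ⟨a, b, hab⟩ : IsCoprime i (p : ℤ) := by
              rw [isCoprime_comm]
              exact (Nat.prime_iff_prime_int.1 hp).coprime_iff_not_dvd.2 hpi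
            set u := e * x ^ i with hu
            have hcu : Commute e⁻¹ u := hZc _ hwZ _ (hEC (E.inv_mem he))
            have hxi : x ^ i = e⁻¹ * u := by rw [hu, inv_mul_cancel_left]
            refine hxno ((e⁻¹) ^ a) (E.zpow_mem (E.inv_mem he) a) (u ^ a) (Z.zpow_mem hwZ a) ?_
            calc x = (x ^ i) ^ a * (x ^ (p : ℤ)) ^ b := by
                  rw [← zpow_mul, ← zpow_mul, ← zpow_add, mul_comm i a, mul_comm (p : ℤ) b, hab,
                    zpow_one]
              _ = _ := by rw [zpow_natCast, hxp, one_zpow, mul_one, hxi, hcu.mul_zpow],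
        fun hodd w hw => by
          obtain ⟨e, he, i, rfl⟩ := hw
          obtain ⟨d, -, heq, h1⟩ := hmulpow e (hEC he) (x ^ i) (zpow_mem hxC i)
          rw [heq, h1 hodd, hEodd hodd e he, one_mul, mul_one, ← zpow_natCast, ← zpow_mul,
            mul_comm, zpow_mul, zpow_natCast, hxp, one_zpow]⟩) hle
      exact hxno x (hback hxE') 1 (one_mem _) (mul_one x).symm
    · push Not at hn12
      obtain rfl : n = 1 := by omega
      have hΩeq : Z ≤ Ω := by
        rw [← hz]; exact Subgroup.zpowers_le.2 (by simp [hΩdef, hz1def])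
      exact ⟨C, hΩZ.trans inf_le_left, le_rfl, inf_le_right.trans hΩeq,
        fun h => absurd h hn12.1, fun c hc => ⟨c, hc, 1, one_mem _, (mul_one c).symm⟩⟩
  have hEcenter : ∀ d ∈ E, (∀ e ∈ E, e * d = d * e) → d ∈ Ω := by
    intro d hd h
    refine hEZ ⟨hd, hEC hd, Subgroup.mem_centralizer_iff.2 fun c hc => ?_⟩
    obtain ⟨e, he, u, hu, rfl⟩ := hEfac c hc
    have h1 : Commute d e := (h e he).symm
    have h2 : Commute d u := hZc u hu d (hEC hd)
    exact (h1.mul_right h2).symm.eq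
  have hEpow : ∀ e ∈ E, e ^ p ∈ Ω := fun e he => hEZ ⟨pow_mem he p, hCpow e (hEC he)⟩
  have hEG : ∀ e ∈ E, ∀ g : G, ⁅e, g⁆ ∈ Ω := fun e he g =>
    hpowcomm e (hEC he) g (hΩc _ (hEpow e he) g).symm
  set R := Subgroup.centralizer (E : Set G) with hR
  have hER : ∀ e ∈ E, ∀ r ∈ R, e * r = r * e := fun e he r hr =>
    Subgroup.mem_centralizer_iff.1 hr e he
  -- `G = E C(E)`
  have hdec : ∀ g : G, ∃ e ∈ E, ∃ r ∈ R, g = e * r := by
    intro g
    by_contra! hno
    let ΩE := Ω.subgroupOf E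
    let hom : G → (E →* Ω) := fun g => MonoidHom.mk'
      (fun k => ⟨⁅(k : G), g⁆, hEG _ k.2 g⟩)
      (fun k l => by
        apply Subtype.ext
        show ⁅(k : G) * l, g⁆ = ⁅(k : G), g⁆ * ⁅(l : G), g⁆
        have hd := hΩc _ (hEG _ l.2 g)
        calc ⁅(k : G) * l, g⁆ = k * ⁅(l : G), g⁆ * (k : G)⁻¹ * ⁅(k : G), g⁆ := by
              simp only [commutatorElement_def]; group
          _ = _ := by rw [← hd k, mul_inv_cancel_right, hd])
    have hsame : ∀ a b : G, hom a = hom b → a⁻¹ * b ∈ R := by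
      intro a b h
      refine Subgroup.mem_centralizer_iff.2 fun k hk => ?_
      have h1 : ⁅k, a⁆ = ⁅k, b⁆ := congrArg (fun f => ((f ⟨k, hk⟩ : Ω) : G)) h
      rw [← commutatorElement_eq_one_iff_mul_comm]
      have e : ⁅k, b⁆ = ⁅k, a⁆ * (a * ⁅k, a⁻¹ * b⁆ * a⁻¹) := by
        simp only [commutatorElement_def]; group
      rw [← h1, ← hΩc _ (hEG k hk _) a, mul_inv_cancel_right, left_eq_mul] at e
      exact e
    let F : Option (E ⧸ ΩE) → (E →* Ω) := fun o => o.elim (hom g) fun a => hom (a.out : G)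
    have hFinj : Function.Injective F := by
      have key : ∀ a : E ⧸ ΩE, hom (a.out : G) ≠ hom g := fun a h =>
        hno _ a.out.2 _ (hsame _ _ h) (mul_inv_cancel_left _ _).symm
      intro a b h
      rcases a with _ | a <;> rcases b with _ | b
      · rfl
      · exact absurd h.symm (key b)
      · exact absurd h (key a)
      · congr 1
        rw [← QuotientGroup.out_eq' a, ← QuotientGroup.out_eq' b, QuotientGroup.eq]
        show ((a.out⁻¹ * b.out : E) : G) ∈ Ω
        refine hEcenter _ (a.out⁻¹ * b.out).2 fun e he => ?_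
        exact hER e he _ (hsame _ _ h)
    have hΩEn : ΩE.Normal := inferInstance
    have h1 := dual_bound ΩE Ω hΩcard F hFinj (fun o k hk => by
      apply Subtype.ext
      rcases o with _ | a <;>
        exact commutatorElement_eq_one_iff_mul_comm.2 (hΩc _ hk _))
    rw [Finite.card_option] at h1
    exact absurd h1 (by show ¬ ΩE.index + 1 ≤ ΩE.index; omega)
  have hsup : E ⊔ R = ⊤ := eq_top_iff.2 fun g _ => by
    obtain ⟨e, he, r, hr, rfl⟩ := hdec g
    exact mul_mem (Subgroup.mem_sup_left he) (Subgroup.mem_sup_right hr)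
  -- the factor `E`
  set E₀ := if E = Ω then (⊥ : Subgroup G) else E with hE₀
  have hE₀sup : E₀ ⊔ R = ⊤ ∧ E₀ ≤ E := by
    by_cases h : E = Ω
    · rw [hE₀, if_pos h, bot_sup_eq]
      refine ⟨?_, bot_le⟩
      rw [hR, eq_top_iff]
      intro g _
      exact Subgroup.mem_centralizer_iff.2 fun e he => hΩc e (h ▸ he) g
    · rw [hE₀, if_neg h]; exact ⟨hsup, le_rfl⟩
  have hE₀ext : E₀ = ⊥ ∨ Cfsg.IsExtraspecial p ↥E₀ := by
    by_cases h : E = Ω
    · exact Or.inl (if_pos h)
    · rw [hE₀, if_neg h]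
      right
      refine extraspecial_of (hG.to_subgroup E) (Ω.subgroupOf E)
        ((Nat.card_congr (Subgroup.subgroupOfEquivOfLe hΩE).toEquiv).trans hΩcard) ?_ ?_ ?_ ?_ ?_
      · intro d hd
        exact hEcenter d d.2 fun e he => congrArg Subtype.val (Subgroup.mem_center_iff.1 hd ⟨e, he⟩)
      · intro d hd
        exact Subgroup.mem_center_iff.2 fun e => Subtype.ext (hΩc _ hd e).symm
      · intro a b; exact hEG _ a.2 _
      · intro a; exact hEpow _ a.2
      · rw [Ne, Subgroup.subgroupOf_eq_top]; exact fun h' => h (le_antisymm h' hΩE)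
  -- the factor `R`
  have hZR : Z ≤ R := fun u hu => Subgroup.mem_centralizer_iff.2 fun e he => hZc u hu e (hEC he)
  have hRZ : ∀ r ∈ R, (∀ u ∈ Z, u * r = r * u) → r ∈ Z := by
    intro r hr h
    rw [← hZcent]
    refine Subgroup.mem_centralizer_iff.2 fun c hc => ?_
    obtain ⟨e, he, u, hu, rfl⟩ := hEfac c hc
    exact ((show Commute e r from hER e he r hr).mul_left (h u hu)).eq
  by_cases hRab : IsMulCommutative R
  · refine ⟨E₀, R, fun e he => hER e (hE₀sup.2 he), hE₀sup.1, hE₀ext, Or.inl ?_⟩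
    have : R ≤ Z := fun r hr => hRZ r hr fun u hu =>
      congrArg Subtype.val (hRab.is_comm.comm ⟨u, hZR hu⟩ ⟨r, hr⟩)
    rw [le_antisymm this hZR]; exact hZcyc
  set U := Z.subgroupOf R with hU
  have hUn : U.Normal := inferInstance
  have hUcard : Nat.card U = p ^ n :=
    (Nat.card_congr (Subgroup.subgroupOfEquivOfLe hZR).toEquiv).trans hn
  have hUcyc : IsCyclic U :=
    isCyclic_of_surjective (Subgroup.subgroupOfEquivOfLe hZR).symm
      (Subgroup.subgroupOfEquivOfLe hZR).symm.surjective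
  have hUC : Subgroup.centralizer (U : Set R) = U := by
    refine le_antisymm (fun r hr => ?_) ?_
    · exact hRZ r r.2 fun u hu =>
        congrArg Subtype.val (Subgroup.mem_centralizer_iff.1 hr ⟨u, hZR hu⟩ hu)
    · intro r hr
      exact Subgroup.mem_centralizer_iff.2 fun u hu => Subtype.ext
        (hZc _ (show (r : G) ∈ Z from hr) _ (show (u : G) ∈ C from
          (show (u : G) ∈ Z from hu).1))
  have hn2 : 2 ≤ n := by
    by_contra h
    obtain rfl : n = 1 := by omega
    have hΩeq : Ω = Z := Subgroup.eq_of_le_of_card_ge hΩZ (by rw [hn, hΩcard, pow_one])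
    apply hRab
    refine ⟨⟨fun a b => Subtype.ext ?_⟩⟩
    have hb := hRZ b b.2 fun u hu => hΩc u (hΩeq.ge hu) _
    exact (hΩc _ (hΩeq.ge hb) _).symm
  -- the small case
  have small : p = 2 → Nat.card R = 8 → Cfsg.IsExtraspecial p G := by
    intro hp2 hR8
    subst hp2
    obtain rfl : n = 2 := by
      have h1 := Subgroup.card_le_of_le hZR
      rw [hn, hR8] at h1
      by_contra hne
      have h3 : n = 3 := by
        have : n < 4 := (Nat.pow_lt_pow_iff_right (by norm_num : 1 < 2)).1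
          (lt_of_le_of_lt h1 (by norm_num))
        omega
      subst h3
      have := Subgroup.eq_of_le_of_card_ge hZR (by rw [hn, hR8]; norm_num)
      apply hRab
      rw [← this]; exact hZab
    have hUi : U.index = 2 := by
      have h := U.card_mul_index
      rw [hUcard, hR8] at h
      omega
    have hzsq : z ^ 2 ∈ Ω := by simp [hΩdef, hz1def, Subgroup.mem_zpowers]
    have hZΩ : ∀ u ∈ Z, u ∉ Ω → ∀ r ∈ R, (∀ s ∈ R, s * u = u * s) → False := by
      intro u hu huΩ r hr hc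
      apply hRab
      refine ⟨⟨fun a b => Subtype.ext ?_⟩⟩
      have hzu : z ∈ Subgroup.zpowers u := by
        rw [← hz] at hu
        obtain ⟨k, rfl⟩ := Subgroup.mem_zpowers_iff.1 hu
        rcases Int.even_or_odd k with ⟨t, rfl⟩ | ⟨t, rfl⟩
        · exact absurd (by rw [← two_mul, zpow_mul]; exact zpow_mem (by exact_mod_cast hzsq) t) huΩ
        · refine ⟨1 - 2 * t, ?_⟩
          show (z ^ (2 * t + 1)) ^ (1 - 2 * t) = z
          rw [← zpow_mul, show (2 * t + 1) * (1 - 2 * t) = 1 + 4 * (-(t * t)) by ring, zpow_add,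
            zpow_one, zpow_mul, show z ^ (4 : ℤ) = 1 by
              rw [show (4 : ℤ) = ((2 ^ 2 : ℕ) : ℤ) by norm_num, zpow_natCast, ← hoz,
                pow_orderOf_eq_one], one_zpow, mul_one]
      obtain ⟨k, hk⟩ := Subgroup.mem_zpowers_iff.1 hzu
      have hzR : ∀ s ∈ R, s * z = z * s := fun s hs =>
        hk ▸ (show Commute s u from hc s hs).zpow_right k
      have hmem : ∀ s : R, (s : G) ∈ Z := fun s => hRZ s s.2 fun w hw => by
        rw [← hz] at hw
        obtain ⟨i, rfl⟩ := Subgroup.mem_zpowers_iff.1 hw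
        exact ((show Commute (s : G) z from hzR s s.2).zpow_right i).symm.eq
      exact hZc _ (hmem b) _ (hmem a).1
    have hZR' : ∀ r ∈ R, (∀ s ∈ R, s * r = r * s) → r ∈ Ω := by
      intro r hr hc
      have hrZ : r ∈ Z := hRZ r hr fun u hu => hc u (hZR hu)
      by_contra h
      exact hZΩ r hrZ h r hr hc
    have hsqR : ∀ r ∈ R, r ^ 2 ∈ Ω := by
      intro r hr
      have h1 := Subgroup.pow_index_mem U (⟨r, hr⟩ : R)
      rw [hUi] at h1
      have h2 : r ^ 2 ∈ Z := h1
      by_cases hrZ : r ∈ Z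
      · rw [← hz] at hrZ
        obtain ⟨k, rfl⟩ := Subgroup.mem_zpowers_iff.1 hrZ
        rw [← zpow_natCast (z ^ k), ← zpow_mul, mul_comm, zpow_mul, zpow_natCast]
        exact zpow_mem hzsq k
      by_contra h3
      rw [← hz] at h2
      obtain ⟨k, hk⟩ := Subgroup.mem_zpowers_iff.1 h2
      rcases Int.even_or_odd k with ⟨t, rfl⟩ | ⟨t, rfl⟩
      · exact h3 (hk ▸ by rw [← two_mul, zpow_mul]; exact zpow_mem (by exact_mod_cast hzsq) t)
      · apply hrZ
        refine hRZ r hr fun u hu => ?_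
        rw [← hz] at hu
        obtain ⟨i, rfl⟩ := Subgroup.mem_zpowers_iff.1 hu
        have hz' : z = (r ^ 2) ^ (1 - 2 * t) := by
          rw [← hk, ← zpow_mul, show (2 * t + 1) * (1 - 2 * t) = 1 + 4 * (-(t * t)) by ring,
            zpow_add, zpow_one, zpow_mul, show z ^ (4 : ℤ) = 1 by
              rw [show (4 : ℤ) = ((2 ^ 2 : ℕ) : ℤ) by norm_num, zpow_natCast, ← hoz,
                pow_orderOf_eq_one], one_zpow, mul_one]
        rw [hz']
        exact ((((Commute.refl r).pow_left 2).zpow_left _).zpow_left _).eq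
    have hsqG : ∀ g : G, g ^ 2 ∈ Ω := by
      intro g
      obtain ⟨e, he, r, hr, rfl⟩ := hdec g
      rw [(show Commute e r from hER e he r hr).mul_pow]
      exact mul_mem (hEpow e he) (hsqR r hr)
    refine extraspecial_of hG Ω hΩcard ?_ hΩcen ?_ hsqG ?_
    · intro x hx
      obtain ⟨e, he, r, hr, rfl⟩ := hdec x
      rw [Subgroup.mem_center_iff] at hx
      have heΩ : e ∈ Ω := hEcenter e he fun f hf => by
        have h1 := hx f
        have h2 : Commute f r := hER f hf r hr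
        apply mul_right_cancel (b := r)
        rw [mul_assoc, h1, mul_assoc e r, ← h2.eq, mul_assoc]
      refine mul_mem heΩ (hZR' r hr fun s hs => ?_)
      have h1 := hx s
      have h2 : Commute e s := hER e he s hs
      apply mul_left_cancel (a := e)
      rw [← mul_assoc, h2.eq, mul_assoc, h1, mul_assoc]
    · intro a b
      have e : ⁅a, b⁆ = (a * b) ^ 2 * (b⁻¹ * (a⁻¹) ^ 2 * b⁻¹⁻¹) * (b⁻¹) ^ 2 := by
        simp only [sq, commutatorElement_def]; group
      rw [e]
      exact mul_mem (mul_mem (hsqG _) (hΩn.conj_mem _ (hsqG _) _)) (hsqG _)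
    · intro h
      have := Subgroup.card_le_of_le (h.ge.trans' (show R ≤ ⊤ from le_top))
      rw [hR8, hΩcard] at this
      omega
  have smallGoal : p = 2 → Nat.card R = 8 → ∃ E R : Subgroup G, (∀ e ∈ E, ∀ r ∈ R, e * r = r * e) ∧
      E ⊔ R = ⊤ ∧ (E = ⊥ ∨ Cfsg.IsExtraspecial p ↥E) ∧ (IsCyclic R ∨ (p = 2 ∧ 16 ≤ Nat.card R ∧
        ((∃ m : ℕ, Nonempty (↥R ≃* DihedralGroup m)) ∨ (∃ m : ℕ, Nonempty (↥R ≃* QuaternionGroup m)) ∨
          Cfsg.IsQuasiDihedral ↥R))) := by
    intro h2 h8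
    refine ⟨⊤, ⊥, fun e _ r hr => ?_, top_sup_eq _, Or.inr ?_, Or.inl inferInstance⟩
    · rw [Subgroup.mem_bot] at hr; simp [hr]
    · exact extraspecial_congr Subgroup.topEquiv.symm (small h2 h8)
  rcases S3761.result (hG.to_subgroup R) hRab U hUcyc n hUcard hUC with
    ⟨h2, hcard, htype⟩ | ⟨hrel, hWel, hWcard, -⟩
  · rcases Nat.lt_or_ge n 3 with h3 | h3
    · obtain rfl : n = 2 := by omega
      exact smallGoal h2 (by rw [hcard]; norm_num)
    · exact ⟨E₀, R, fun e he => hER e (hE₀sup.2 he), hE₀sup.1, hE₀ext, Or.inr ⟨h2, by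
        rw [hcard]; exact le_trans (by norm_num) (Nat.pow_le_pow_right two_pos
          (show 4 ≤ n + 1 by omega)), htype⟩⟩
  set MR := Subgroup.centralizer (Cfsg.powerClosure p 1 U : Set R) with hMR
  have hzR : z ∈ R := hZR hzZ
  have hzU : (⟨z, hzR⟩ : R) ∈ U := hzZ
  have hUMR : U ≤ MR := fun u hu => by
    rw [hMR, Cfsg.powerClosure, Subgroup.centralizer_closure]
    refine Subgroup.mem_centralizer_iff.2 ?_
    rintro _ ⟨v, hv, rfl⟩
    exact (Subgroup.mem_centralizer_iff.1 (hUC.ge hu) _ (pow_mem hv _))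
  have hmemMR : ∀ r : R, r ∈ MR ↔ Commute (r : G) (z ^ p) := by
    intro r
    constructor
    · intro h
      have h1 := Subgroup.mem_centralizer_iff.1 h ((⟨z, hzR⟩ : R) ^ p)
        (Subgroup.subset_closure ⟨⟨z, hzR⟩, hzU, by rw [pow_one]⟩)
      exact (congrArg Subtype.val h1).symm
    · intro h
      rw [hMR, Cfsg.powerClosure, Subgroup.centralizer_closure]
      refine Subgroup.mem_centralizer_iff.2 ?_
      rintro _ ⟨v, hv, rfl⟩
      apply Subtype.ext
      have hv' : (v : G) ∈ Z := hv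
      rw [← hz] at hv'
      obtain ⟨k, hk⟩ := Subgroup.mem_zpowers_iff.1 hv'
      simp only [Subgroup.coe_mul, SubgroupClass.coe_pow, pow_one]
      rw [← hk, ← zpow_natCast (z ^ k), ← zpow_mul, mul_comm, zpow_mul, zpow_natCast]
      exact ((h.zpow_right k).symm).eq
  by_cases hsm : p = 2 ∧ n = 2
  · obtain ⟨rfl, rfl⟩ := hsm
    refine smallGoal rfl ?_
    have htop : MR = ⊤ := eq_top_iff.2 fun r _ => (hmemMR r).2 (by
      have : z ^ 2 ∈ Ω := by simp [hΩdef, hz1def, Subgroup.mem_zpowers]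
      exact (hΩc _ this r).symm)
    rw [htop, Subgroup.relIndex_top_right] at hrel
    rw [← U.card_mul_index, hUcard, hrel]; norm_num
  -- the noncyclic characteristic abelian subgroup
  exfalso
  obtain ⟨w, hwW, hwU⟩ : ∃ w ∈ Cfsg.omegaOne p MR, w ∉ U := by
    by_contra! h
    have hWU : Cfsg.omegaOne p MR ≤ U := h
    have hcyc : IsCyclic (Cfsg.omegaOne p MR) := Subgroup.isCyclic_of_le hWU
    have h1 := IsCyclic.exponent_eq_card (α := Cfsg.omegaOne p MR)
    have h2 : Monoid.exponent (Cfsg.omegaOne p MR) ∣ p :=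
      Monoid.exponent_dvd_of_forall_pow_eq_one fun a => Subtype.ext (hWel.2 a.1 a.2)
    rw [h1, hWcard] at h2
    have := Nat.le_of_dvd hp.pos h2
    nlinarith [hp.two_le]
  have hwp : w ^ p = 1 := hWel.2 w hwW
  have hwMR : w ∈ MR := (Subgroup.closure_le _).2 (fun x hx => hx.1) hwW
  have hwpG : (w : G) ^ p = 1 := congrArg Subtype.val hwp
  have hwzp : Commute (w : G) (z ^ p) := (hmemMR w).1 hwMR
  let S : Set G := {y | ∃ u ∈ Z, y = u ^ p}
  have hSmem : ∀ g, g ∈ Subgroup.centralizer S ↔ Commute g (z ^ p) := by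
    intro g
    constructor
    · intro h; exact (Subgroup.mem_centralizer_iff.1 h _ ⟨z, hzZ, rfl⟩).symm
    · intro h
      refine Subgroup.mem_centralizer_iff.2 ?_
      rintro _ ⟨u, hu, rfl⟩
      rw [← hz] at hu
      obtain ⟨k, rfl⟩ := Subgroup.mem_zpowers_iff.1 hu
      rw [← zpow_natCast (z ^ k), ← zpow_mul, mul_comm, zpow_mul, zpow_natCast]
      exact ((h.zpow_right k).symm).eq
  set M := Subgroup.centralizer S with hM
  haveI hMch : M.Characteristic := Cfsg.Lib.Transfer.characteristic_of_mem_iff fun φ x hx => by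
    refine Subgroup.mem_centralizer_iff.2 ?_
    rintro _ ⟨u, hu, rfl⟩
    have h1 := congrArg φ (Subgroup.mem_centralizer_iff.1 hx ((φ.symm u) ^ p)
      ⟨_, Cfsg.Lib.Transfer.map_mem_of_characteristic φ.symm hu, rfl⟩)
    simpa using h1
  -- elements of order `p` of `M` commute with `w`
  have hkey : ∀ x ∈ M, x ^ p = 1 → Commute x (w : G) := by
    intro x hx hxp
    obtain ⟨e, he, r, hr, rfl⟩ := hdec x
    have hez : Commute e (z ^ p) := (hZc _ (pow_mem hzZ p) e (hEC he))
    have hrz : Commute r (z ^ p) := by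
      have h1 := (hez.inv_left).mul_left ((hSmem _).1 hx)
      rwa [inv_mul_cancel_left] at h1
    have hrMR : (⟨r, hr⟩ : R) ∈ MR := (hmemMR _).2 hrz
    have hMRdec : ∀ m ∈ MR, ∃ u ∈ U, ∃ j : ℕ, m = u * w ^ j := by
      intro m hm
      have hsup2 : U ⊔ Subgroup.zpowers w = MR := by
        have hle : U ⊔ Subgroup.zpowers w ≤ MR := sup_le hUMR (Subgroup.zpowers_le.2 hwMR)
        have h1 := Subgroup.relIndex_mul_relIndex U (U ⊔ Subgroup.zpowers w) MR le_sup_left hle
        rw [hrel] at h1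
        rcases hp.eq_one_or_self_of_dvd _ (Dvd.intro _ h1) with h2 | h2
        · exact absurd (Subgroup.relIndex_eq_one.1 h2
            (Subgroup.mem_sup_right (Subgroup.mem_zpowers w))) hwU
        · rw [h2] at h1
          exact le_antisymm hle (Subgroup.relIndex_eq_one.1
            (Nat.eq_of_mul_eq_mul_left hp.pos (by rw [h1, mul_one])))
      rw [← hsup2] at hm
      obtain ⟨u, hu, v, hv, rfl⟩ := Subgroup.mem_sup_of_normal_left.1 hm
      obtain ⟨j, rfl⟩ := mem_powers_iff_mem_zpowers.2 hv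
      exact ⟨u, hu, j, rfl⟩
    obtain ⟨u, hu, j, hrj⟩ := hMRdec _ hrMR
    have hrj' : r = (u : G) * (w : G) ^ j := by
      have := congrArg Subtype.val hrj
      simpa using this
    have hu' : (u : G) ∈ Z := hu
    obtain ⟨i, hi⟩ := Subgroup.mem_zpowers_iff.1 (hz.ge hu')
    have hew : Commute e (w : G) := hER e he _ w.2
    suffices hpi : (p : ℤ) ∣ i by
      obtain ⟨t, rfl⟩ := hpi
      have : Commute (u : G) (w : G) := by
        rw [← hi, zpow_mul, zpow_natCast]; exact (hwzp.symm).zpow_left t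
      rw [hrj']
      exact hew.mul_left (this.mul_left ((Commute.refl _).pow_left j))
    -- the `p`-th power of `u w^j`
    set a := (u : G) with ha
    set b := (w : G) ^ j with hb
    have hbzp : Commute b (z ^ p) := hwzp.pow_left j
    have hd : ⁅b⁻¹, a⁻¹⁆ ∈ Ω := by
      have h1 : ⁅a⁻¹, b⁻¹⁆ ∈ Ω := by
        refine hpowcomm _ (inv_mem hu'.1) _ ?_
        rw [← hi, ← zpow_neg, ← zpow_natCast (z ^ (-i)), ← zpow_mul, mul_comm, zpow_mul,
          zpow_natCast]
        exact ((hbzp.inv_left).zpow_right (-i)).eq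
      rw [← inv_inv (⁅b⁻¹, a⁻¹⁆), commutatorElement_inv]
      exact inv_mem h1
    have hab : (a * b) ^ p = a ^ p * b ^ p * ⁅b⁻¹, a⁻¹⁆ ^ p.choose 2 :=
      Lib.Transfer.mul_pow_class_two (by simp only [commutatorElement_def]; group)
        (hΩc _ hd a) (hΩc _ hd b) p
    have hbp : b ^ p = 1 := by
      rw [hb, ← pow_mul, mul_comm, pow_mul, hwpG, one_pow]
    have hxe : e ^ p * (a * b) ^ p = 1 := by
      rw [← hrj', ← (show Commute e r from hER e he r hr).mul_pow, hxp]
    rw [hab, hbp, mul_one] at hxe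
    rcases hp.eq_two_or_odd' with hp2 | hodd
    · subst hp2
      have hn3 : 3 ≤ n := by
        by_contra h; exact hsm ⟨rfl, by omega⟩
      have ha2 : a ^ 2 ∈ Ω := by
        have h1 : a ^ 2 = (e ^ 2)⁻¹ * (⁅b⁻¹, a⁻¹⁆ ^ Nat.choose 2 2)⁻¹ := by
          rw [eq_mul_inv_iff_mul_eq]; exact eq_inv_of_mul_eq_one_right hxe
        rw [h1]
        exact mul_mem (inv_mem (hEpow e he)) (inv_mem (pow_mem hd _))
      have h4 := hΩp _ ha2
      rw [← hi, ← pow_mul, ← zpow_natCast, ← zpow_mul, ← orderOf_dvd_iff_zpow_eq_one, hoz] at h4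
      have h5 : ((2 ^ 3 : ℕ) : ℤ) ∣ i * ((2 * 2 : ℕ) : ℤ) :=
        (Int.natCast_dvd_natCast.2 (pow_dvd_pow 2 hn3)).trans h4
      push_cast at h5 ⊢
      omega
    · obtain ⟨t, ht⟩ := hp.dvd_choose_self (k := 2) two_ne_zero
        (lt_of_le_of_ne hp.two_le fun h => by rw [← h] at hodd; exact absurd hodd (by decide))
      rw [ht, pow_mul, hΩp _ hd, one_pow, hEodd hodd e he, one_mul, mul_one, ← hi,
        ← zpow_natCast, ← zpow_mul, ← orderOf_dvd_iff_zpow_eq_one, hoz] at hxe
      have h1 : ((p ^ 2 : ℕ) : ℤ) ∣ i * (p : ℤ) :=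
        (Int.natCast_dvd_natCast.2 (pow_dvd_pow p hn2)).trans hxe
      push_cast at h1
      rw [sq, mul_dvd_mul_iff_right (by exact_mod_cast hp.ne_zero)] at h1
      exact h1
  haveI := char_omegaOne p M
  obtain ⟨hWch, hWab⟩ := char_center_inside (Cfsg.omegaOne p M)
  set W' := Cfsg.omegaOne p M ⊓ Subgroup.centralizer (Cfsg.omegaOne p M : Set G) with hW'
  have hwM : (w : G) ∈ M := (hSmem _).2 hwzp
  have hwW' : (w : G) ∈ W' := by
    refine ⟨Subgroup.subset_closure ⟨hwM, hwpG⟩, ?_⟩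
    rw [Cfsg.omegaOne, Subgroup.centralizer_closure]
    exact Subgroup.mem_centralizer_iff.2 fun x hx => hkey x hx.1 hx.2
  have hz1W' : z1 ∈ W' := by
    have hz1Ω : z1 ∈ Ω := Subgroup.mem_zpowers z1
    refine ⟨Subgroup.subset_closure ⟨(hSmem _).2 (hΩc _ hz1Ω _), hΩp _ hz1Ω⟩, ?_⟩
    exact Subgroup.mem_centralizer_iff.2 fun x _ => (hΩc _ hz1Ω x).symm
  have hcyc := hsymp W' hWch hWab
  have := hcyc
  let Q : Subgroup G := Ω ⊔ Subgroup.zpowers (w : G)
  have hQW : Q ≤ W' := sup_le (Subgroup.zpowers_le.2 hz1W') (Subgroup.zpowers_le.2 hwW')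
  have hQcyc : IsCyclic Q := Subgroup.isCyclic_of_le hQW
  have hQexp : Monoid.exponent Q ∣ p := Monoid.exponent_dvd_of_forall_pow_eq_one fun q => by
    apply Subtype.ext
    have hcm : ∀ a ∈ W', ∀ b ∈ W', Commute a b := fun a ha b hb =>
      congrArg Subtype.val (hWab.is_comm.comm ⟨a, ha⟩ ⟨b, hb⟩)
    have hle : Q ≤ Ω ⊔ Subgroup.zpowers (w : G) := le_rfl
    obtain ⟨c, hc, v, hv, hq⟩ := Subgroup.mem_sup_of_normal_left.1 (hle q.2)
    obtain ⟨j, rfl⟩ := mem_powers_iff_mem_zpowers.2 hv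
    simp only at hq
    show (q : G) ^ p = 1
    rw [← hq, (show Commute c ((w : G) ^ j) from (hΩc c hc _)).mul_pow, hΩp c hc, one_mul,
      ← pow_mul, mul_comm, pow_mul, hwpG, one_pow]
  rw [IsCyclic.exponent_eq_card] at hQexp
  have hQ : Q = Ω := (Subgroup.eq_of_le_of_card_ge le_sup_left
    (by rw [hΩcard]; exact Nat.le_of_dvd hp.pos hQexp)).symm
  exact hwU (hΩZ (hQ.le (Subgroup.mem_sup_right (Subgroup.mem_zpowers _))))

end Cfsg.Agent.S3762
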