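import Cfsg.Statements.S3763
import Cfsg.Agent.Lib.Transfer.ExtraspecialClass
import Cfsg.Agent.Lib.PLocal.ExtraspecialFive
-- import your own Cfsg.Agent.* helpers here

set_option autoImplicit false
open Cfsg
open scoped Pointwise commutatorElement

namespace Cfsg.Agent.S3763

open Cfsg.Lib.Transfer.ExtraspecialClass

universe u

theorem insert_inv {G : Type*} [Group G] (W : Subgroup G) [IsMulCommutative W] (z : G) (hz : z ^ 2 = 1)
    (hW : ∀ w ∈ W, z * w = w * z) (hWexp : ∀ w ∈ W, w ^ 2 = 1) :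
    ∃ V : Subgroup G, W ≤ V ∧ z ∈ V ∧ IsMulCommutative V ∧ ∀ a ∈ V, a ^ 2 = 1 := by
  have hzz : z * z = 1 := by rw [← pow_two]; exact hz
  have hmem : ∀ a, a * z ∈ W → a = a * z * z := fun a _ => by rw [mul_assoc, hzz, mul_one]
  let V : Subgroup G :=
    { carrier := {a | a ∈ W ∨ a * z ∈ W}
      one_mem' := Or.inl W.one_mem
      mul_mem' := fun {a b} ha hb => by
        rcases ha with ha | ha <;> rcases hb with hb | hb
        · exact Or.inl (W.mul_mem ha hb)
        · exact Or.inr (by rw [mul_assoc]; exact W.mul_mem ha hb)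
        · refine Or.inr ?_
          rw [mul_assoc, ← hW b hb, ← mul_assoc]
          exact W.mul_mem ha hb
        · refine Or.inl ?_
          have h := W.mul_mem ha hb
          rwa [show a * z * (b * z) = a * (z * (b * z)) from mul_assoc _ _ _, hW _ hb, mul_assoc b, hzz, mul_one] at h
      inv_mem' := fun {a} ha => by
        rcases ha with ha | ha
        · exact Or.inl (W.inv_mem ha)
        · refine Or.inr ?_
          have h := W.inv_mem ha
          have h1 : a⁻¹ = (a * z)⁻¹ * z := by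
            rw [← hW _ h, mul_inv_rev, ← mul_assoc, mul_inv_cancel, one_mul]
          rw [h1, mul_assoc, hzz, mul_one]
          exact h }
  refine ⟨V, fun a ha => Or.inl ha, Or.inr (by rw [hzz]; exact W.one_mem), ?_, ?_⟩
  · refine ⟨⟨fun a b => Subtype.ext ?_⟩⟩
    show (a : G) * (b : G) = (b : G) * (a : G)
    have key : ∀ a : G, a ∈ V → Commute a z ∧ ∀ w ∈ W, Commute a w := by
      intro a ha
      rcases ha with ha | ha
      · exact ⟨(hW a ha).symm, fun w hw => setLike_mul_comm ha hw⟩
      · rw [hmem a ha]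
        exact ⟨Commute.mul_left (hW _ ha).symm (Commute.refl z), fun w hw => Commute.mul_left (setLike_mul_comm ha hw) (hW w hw)⟩
    rcases b.2 with hb | hb
    · exact (key a a.2).2 b hb
    · rw [hmem (b : G) hb]
      exact ((key a a.2).2 _ hb).mul_right (key a a.2).1
  · intro a ha
    rcases ha with ha | ha
    · exact hWexp a ha
    · rw [hmem a ha, Commute.mul_pow (hW _ ha).symm, hWexp _ ha, hz, one_mul]

theorem card_insert {G : Type*} [Group G] [Finite G] {A V : Subgroup G} {x : G} (hAV : A ≤ V) (hx : x ∈ V)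
    (hxA : x ∉ A) : 2 * Nat.card A ≤ Nat.card V := by
  obtain ⟨k, hk⟩ := Subgroup.card_dvd_of_le hAV
  have hk0 : k ≠ 0 := fun h => Nat.card_pos.ne' (by rw [hk, h, mul_zero])
  have hk1 : k ≠ 1 := fun h => hxA ((Subgroup.eq_of_le_of_card_ge hAV (by rw [hk, h, mul_one])).ge hx)
  rw [hk, mul_comm 2]
  exact Nat.mul_le_mul_left _ (by omega)

theorem center_card {E : Type u} [Group E] [Finite E] (h : ES 2 E) :
    IsMulCommutative (Subgroup.center E) ∧ ∀ a ∈ Subgroup.center E, a ^ 2 = 1 := by
  refine ⟨⟨⟨fun a b => Subtype.ext (Subgroup.mem_center_iff.1 b.2 a)⟩⟩, fun a ha => ?_⟩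
  have := pow_card_eq_one' (x := (⟨a, ha⟩ : ↥(Subgroup.center E)))
  rw [h.cardZ] at this
  exact congrArg Subtype.val this

theorem exists_elem : ∀ (n : ℕ) (E : Type u) [Group E] [Finite E], ES 2 E → Nat.card E = 2 ^ (2 * n + 1) →
    ∃ A : Subgroup E, Subgroup.center E ≤ A ∧ IsMulCommutative A ∧ (∀ a ∈ A, a ^ 2 = 1) ∧ 2 ^ n ≤ Nat.card A ∧
      (N E = 2 ^ (2 * n) + 2 ^ n → 2 ^ (n + 1) ≤ Nat.card A) := by
  haveI := Fact.mk Nat.prime_two
  intro n
  induction n with
  | zero =>
    intro E _ _ h _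
    obtain ⟨hc, he⟩ := center_card h
    exact ⟨Subgroup.center E, le_rfl, hc, he, by rw [h.cardZ]; norm_num, fun _ => by rw [h.cardZ]; norm_num⟩
  | succ m ih =>
    intro E _ _ h hcard
    by_cases hinv : ∃ x : E, x ^ 2 = 1 ∧ x ∉ Subgroup.center E
    · obtain ⟨x, hx, hxc⟩ := hinv
      obtain ⟨y, hne, hy⟩ := d8_of_invol h hx hxc
      have hcC : Nat.card (C x y) = 2 ^ (2 * m + 1) := by
        have h1 := card_eq x y h hne
        rw [hcard, show 2 * (m + 1) + 1 = (2 * m + 1) + 2 by ring, pow_add] at h1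
        omega
      obtain ⟨A, hZA, hAc, hA2, hAn, hAp⟩ := ih (C x y) (es_C x y h hne) hcC
      haveI := hAc
      have hA2' : ∀ a ∈ A.map (C x y).subtype, a ^ 2 = 1 := by
        rintro _ ⟨a, ha, rfl⟩
        rw [← map_pow, hA2 a ha, map_one]
      haveI : IsMulCommutative (A.map (C x y).subtype) := Subgroup.map_isMulCommutative _ _
      have hxcomm : ∀ w ∈ A.map (C x y).subtype, x * w = w * x := by
        rintro _ ⟨a, -, rfl⟩
        exact ((mem_C x y).1 a.2).1.eq
      obtain ⟨V, hAV, hxV, hVc, hV2⟩ := insert_inv (A.map (C x y).subtype) x hx hxcomm hA2'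
      have hxA : x ∉ A.map (C x y).subtype := fun hm => by
        obtain ⟨a, -, ha⟩ := hm
        refine hne (commutatorElement_eq_one_iff_mul_comm.2 ?_)
        rw [← ha]
        exact ((mem_C x y).1 a.2).2.symm.eq
      have h2 := card_insert hAV hxV hxA
      rw [Subgroup.card_map_of_injective (C x y).subtype_injective] at h2
      refine ⟨V, le_trans ?_ hAV, hVc, hV2, ?_, fun hN => ?_⟩
      · rw [← center_C x y h hne]
        exact Subgroup.map_mono hZA
      · rw [pow_succ']
        exact le_trans (Nat.mul_le_mul_left 2 hAn) h2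
      · have hc8 := count_d8 h x y hne hx hy
        rw [hN, hcC, show 2 * (m + 1) = 2 * m + 1 + 1 by ring, pow_succ 2 (2 * m + 1), pow_succ 2 (2 * m),
          pow_succ 2 m] at hc8
        rw [pow_succ']
        exact le_trans (Nat.mul_le_mul_left 2 (hAp (by omega))) h2
    · have hm : m = 0 := by
        by_contra hm
        refine hinv (exists_invol h ?_)
        rw [hcard, show (8 : ℕ) = 2 ^ 3 by norm_num]
        exact Nat.pow_lt_pow_right (by norm_num) (by omega)
      subst hm
      obtain ⟨hc, he⟩ := center_card h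
      refine ⟨Subgroup.center E, le_rfl, hc, he, by rw [h.cardZ]; norm_num, fun hN => ?_⟩
      exfalso
      have hle : N E ≤ 2 := by
        rw [← h.cardZ]
        push_neg at hinv
        exact Nat.card_le_card_of_injective (fun a => ⟨a.1, hinv a.1 a.2⟩) fun a b e =>
          Subtype.ext (congrArg (fun z : ↥(Subgroup.center E) => (z : E)) e)
      norm_num at hN
      omega

theorem upper {E : Type u} [Group E] [Finite E] (hE : Cfsg.IsExtraspecial 2 E) (n : ℕ)
    (hn : Nat.card E = 2 ^ (2 * n + 1)) (A : Subgroup E) (hA : IsMulCommutative A) (hA2 : ∀ a ∈ A, a ^ 2 = 1) :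
    Nat.card A ≤ 2 ^ (n + 1) ∧ (Nat.card A = 2 ^ (n + 1) → N E = 2 ^ (2 * n) + 2 ^ n) := by
  classical
  haveI := Fact.mk Nat.prime_two
  have h := ES.of_extraspecial hE
  set K := A ⊔ Subgroup.center E with hK
  have hKC : K ≤ Subgroup.centralizer (K : Set E) := by
    haveI := hA
    have hAK : K ≤ Subgroup.centralizer (A : Set E) := sup_le (Subgroup.le_centralizer A) (Subgroup.center_le_centralizer _)
    exact sup_le (Subgroup.le_centralizer_iff.1 hAK) (Subgroup.center_le_centralizer _)
  have hb := Cfsg.Lib.ExtraspecialFive.centralizer_mul_card_le hE K le_sup_right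
  have hKle : Nat.card K * Nat.card K ≤ 2 * Nat.card E :=
    le_trans (Nat.mul_le_mul_right _ (Nat.le_of_dvd Nat.card_pos (Subgroup.card_dvd_of_le hKC))) hb
  have hsq : 2 * Nat.card E = 2 ^ (n + 1) * 2 ^ (n + 1) := by
    rw [hn, ← pow_succ', ← pow_add]; congr 1; omega
  rw [hsq] at hKle hb
  have hK' : Nat.card K ≤ 2 ^ (n + 1) := Nat.mul_self_le_mul_self_iff.1 hKle
  have hAK' := Nat.le_of_dvd Nat.card_pos (Subgroup.card_dvd_of_le (le_sup_left : A ≤ K))
  refine ⟨hAK'.trans hK', fun hcard => ?_⟩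
  have hAK : A = K := Subgroup.eq_of_le_of_card_ge le_sup_left (by rw [hcard]; exact hK')
  have hAA : Subgroup.centralizer (A : Set E) = A := by
    rw [← hAK, hcard] at hb
    refine (Subgroup.eq_of_le_of_card_ge (by haveI := hA; exact Subgroup.le_centralizer A) ?_).symm
    rw [hcard]
    exact Nat.le_of_mul_le_mul_right hb (pow_pos two_pos _)
  -- cosets outside `A` contain as many involutions as others
  have hmove : ∀ q : E ⧸ A, ∃ a ∈ A, ∀ e : E, (e : E ⧸ A) = q → e ∉ A → a * e ≠ e * a := by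
    intro q
    obtain ⟨e₀, rfl⟩ := QuotientGroup.mk_surjective q
    by_cases he₀ : e₀ ∈ A
    · exact ⟨1, A.one_mem, fun e he hne' => absurd (by
        have := A.mul_mem he₀ (A.inv_mem (QuotientGroup.eq.1 he))
        rwa [mul_inv_rev, inv_inv, mul_inv_cancel_left] at this) hne'⟩
    · obtain ⟨a, ha, hne'⟩ : ∃ a ∈ A, a * e₀ ≠ e₀ * a := by
        by_contra hno
        push_neg at hno
        exact he₀ (hAA.le (Subgroup.mem_centralizer_iff.2 hno))
      refine ⟨a, ha, fun e he _ hc => hne' ?_⟩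
      have hu := QuotientGroup.eq.1 he
      have hau : a * (e⁻¹ * e₀) = (e⁻¹ * e₀) * a := by
        haveI := hA
        exact setLike_mul_comm ha hu
      calc a * e₀ = a * e * (e⁻¹ * e₀) := by group
        _ = e * (a * (e⁻¹ * e₀)) := by rw [hc]; group
        _ = e₀ * a := by rw [hau]; group
  choose f hf hfne using hmove
  let g : E → E := fun e => e * f (e : E ⧸ A)
  have hgA : ∀ e, e ∉ A → g e ∉ A := fun e he h1 => he (by
    have := A.mul_mem h1 (A.inv_mem (hf (e : E ⧸ A)))
    rwa [mul_inv_cancel_right] at this)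
  have hgq : ∀ e, (g e : E ⧸ A) = (e : E ⧸ A) := fun e => QuotientGroup.eq.2 (by
    simp only [g, mul_inv_rev, mul_assoc, inv_mul_cancel, mul_one]; exact A.inv_mem (hf _))
  have hgg : ∀ e, g (g e) = e := fun e => by
    show g e * f (g e : E ⧸ A) = e
    rw [hgq]
    simp only [g, mul_assoc, ← pow_two, hA2 _ (hf _), mul_one]
  have hflip : ∀ e, e ∉ A → ((g e) ^ 2 = 1 ↔ ¬ e ^ 2 = 1) := by
    intro e he
    set a := f (e : E ⧸ A)
    have ha2 : a * a = 1 := by rw [← pow_two]; exact hA2 a (hf _)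
    have hai : a⁻¹ = a := inv_eq_of_mul_eq_one_right ha2
    have hz : ⁅a, e⁆ ≠ 1 := fun h1 => hfne (e : E ⧸ A) e rfl he (commutatorElement_eq_one_iff_mul_comm.1 h1)
    have hge : (g e) ^ 2 = ⁅a, e⁆ * e ^ 2 := by
      have hzc := Subgroup.mem_center_iff.1 (h.comm a e)
      calc (g e) ^ 2 = e * (a * e * a⁻¹ * e⁻¹) * (e * (a * a)) := by
            rw [pow_two]; show e * a * (e * a) = _; rw [hai, ha2, mul_one]; group
        _ = ⁅a, e⁆ * e * (e * 1) := by rw [← commutatorElement_def, hzc e, ha2]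
        _ = ⁅a, e⁆ * e ^ 2 := by rw [mul_one, pow_two, mul_assoc]
    rw [hge]
    rcases eq_z h a e hz (h.powc e) with h1 | h1
    · simp [h1, hz]
    · simp [h1, hz, z_sq h a e hz]
  haveI := Fintype.ofFinite E
  set S₁ := Finset.univ.filter fun e : E => e ∉ A ∧ e ^ 2 = 1
  set S₂ := Finset.univ.filter fun e : E => e ∉ A ∧ ¬ e ^ 2 = 1
  set SA := Finset.univ.filter fun e : E => e ∈ A
  have h12 : S₁.card = S₂.card := by
    refine Finset.card_bij' (fun e _ => g e) (fun e _ => g e) ?_ ?_ (fun e _ => hgg e) (fun e _ => hgg e)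
    · intro e he
      simp only [S₁, S₂, Finset.mem_filter, Finset.mem_univ, true_and] at he ⊢
      exact ⟨hgA e he.1, fun h1 => (hflip e he.1).1 h1 he.2⟩
    · intro e he
      simp only [S₁, S₂, Finset.mem_filter, Finset.mem_univ, true_and] at he ⊢
      exact ⟨hgA e he.1, (hflip e he.1).2 he.2⟩
  have hSA : SA.card = 2 ^ (n + 1) := by
    rw [← hcard, Nat.card_eq_fintype_card, Fintype.card_of_subtype]; simp [SA]
  have hN : N E = SA.card + S₁.card := by
    have hd : Disjoint SA S₁ := Finset.disjoint_filter.2 fun e _ h1 h2 => h2.1 h1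
    rw [N, Nat.card_eq_fintype_card, ← Finset.card_union_of_disjoint hd, Fintype.card_of_subtype]
    intro e
    simp only [SA, S₁, Finset.mem_union, Finset.mem_filter, Finset.mem_univ, true_and]
    by_cases he : e ∈ A <;> simp [he, hA2 e]
  have htot : Nat.card E = SA.card + S₁.card + S₂.card := by
    rw [Nat.card_eq_fintype_card, ← Finset.card_univ]
    have e1 := Finset.card_filter_add_card_filter_not (s := (Finset.univ : Finset E)) (fun e => e ∈ A)
    have e2 := Finset.card_filter_add_card_filter_not (s := Finset.univ.filter fun e : E => e ∉ A) (fun e => e ^ 2 = 1)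
    simp only [Finset.filter_filter] at e2
    simp only [SA, S₁, S₂]
    omega
  rw [hn, ← h12, hSA, pow_succ 2 (2 * n), pow_succ 2 n] at htot
  rw [hN, hSA, pow_succ]
  omega

theorem rank_spec {E : Type u} [Group E] [Finite E] (hE : Cfsg.IsExtraspecial 2 E) (n : ℕ)
    (hn : Nat.card E = 2 ^ (2 * n + 1)) : (∀ k, Cfsg.PRankLE 2 k E ↔
      (if N E = 2 ^ (2 * n) + 2 ^ n then n + 1 else n) ≤ k) := by
  haveI := Fact.mk Nat.prime_two
  obtain ⟨A, -, hA, hA2, hAn, hAp⟩ := exists_elem n E (ES.of_extraspecial hE) hn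
  intro k
  constructor
  · intro hk
    have := hk A hA hA2
    split_ifs with hN
    · exact (Nat.pow_le_pow_iff_right (le_refl 2)).1 ((hAp hN).trans this)
    · exact (Nat.pow_le_pow_iff_right (le_refl 2)).1 (hAn.trans this)
  · intro hk B hB hB2
    obtain ⟨hle, heq⟩ := upper hE n hn B hB hB2
    split_ifs at hk with hN
    · exact hle.trans (Nat.pow_le_pow_right two_pos hk)
    · obtain ⟨j, hj⟩ := IsPGroup.iff_card.1 (hE.1.1.to_subgroup B)
      rw [hj] at hle heq ⊢
      have hj' : j ≠ n + 1 := fun h => hN (heq (by rw [h]))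
      have := (Nat.pow_le_pow_iff_right (le_refl 2)).1 hle
      exact Nat.pow_le_pow_right two_pos (by omega)

/-- Let E be an extraspecial 2-group of order 2^(2n+1). Then the largest elementary abelian subgroups of E have order 2^n or 2^(n+1); and two extraspecial 2-groups of the same order whose largest elementary abelian subgroups have the same order are isomorphic. -/
theorem result {E : Type*} [Group E] [Finite E] (hE : Cfsg.IsExtraspecial 2 E) (n : ℕ) (hn : Nat.card E = 2 ^ (2 * n + 1)) : ((Cfsg.PRankLE 2 n E ∧ ¬ Cfsg.PRankLE 2 (n - 1) E) ∨ (Cfsg.PRankLE 2 (n + 1) E ∧ ¬ Cfsg.PRankLE 2 n E)) ∧ ∀ (E' : Type*) [Group E'] [Finite E'], Cfsg.IsExtraspecial 2 E' → Nat.card E' = Nat.card E → (∀ k : ℕ, Cfsg.PRankLE 2 k E ↔ Cfsg.PRankLE 2 k E') → Nonempty (E ≃* E') := by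
  haveI := Fact.mk Nat.prime_two
  have hr := rank_spec hE n hn
  refine ⟨?_, fun E' _ _ hE' hcard hiff => ?_⟩
  · by_cases hN : Cfsg.Lib.Transfer.ExtraspecialClass.N E = 2 ^ (2 * n) + 2 ^ n
    · simp only [hN, if_true] at hr
      exact Or.inr ⟨(hr (n + 1)).2 le_rfl, fun h => by have := (hr n).1 h; omega⟩
    · simp only [hN, if_false] at hr
      refine Or.inl ⟨(hr n).2 le_rfl, fun h => ?_⟩
      have := (hr (n - 1)).1 h
      rcases Nat.eq_zero_or_pos n with rfl | hpos
      · exact hN (((Cfsg.Lib.Transfer.ExtraspecialClass.classify.{_, 0} 0 E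
          (Cfsg.Lib.Transfer.ExtraspecialClass.ES.of_extraspecial hE) hn).1).resolve_right (by omega))
      · omega
  · have hn' : Nat.card E' = 2 ^ (2 * n + 1) := hcard.trans hn
    have hr' := rank_spec hE' n hn'
    have hc := (Cfsg.Lib.Transfer.ExtraspecialClass.classify.{_, 0} n E
      (Cfsg.Lib.Transfer.ExtraspecialClass.ES.of_extraspecial hE) hn).1
    have hc' := (Cfsg.Lib.Transfer.ExtraspecialClass.classify.{_, 0} n E'
      (Cfsg.Lib.Transfer.ExtraspecialClass.ES.of_extraspecial hE') hn').1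
    refine (Cfsg.Lib.Transfer.ExtraspecialClass.classify n E (Cfsg.Lib.Transfer.ExtraspecialClass.ES.of_extraspecial hE) hn).2 E' (Cfsg.Lib.Transfer.ExtraspecialClass.ES.of_extraspecial hE') hcard ?_
    have key := ((hr n).symm.trans ((hiff n).trans (hr' n)))
    rcases hc with h1 | ⟨hpos, h1⟩ <;> rcases hc' with h2 | ⟨hpos', h2⟩
    · rw [h1, h2]
    · rw [if_pos h1, if_neg (by have := Nat.pow_pos (n := n) two_pos; omega)] at key
      exact absurd (key.2 le_rfl) (by omega)
    · rw [if_neg (by have := Nat.pow_pos (n := n) two_pos; omega), if_pos h2] at key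
      exact absurd (key.1 le_rfl) (by omega)
    · omega


end Cfsg.Agent.S3763
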