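import Cfsg.Statements.S3766
import Cfsg.Agent.Lib.Solv.Cores
-- import your own Cfsg.Agent.* helpers here

set_option autoImplicit false
open Cfsg
open scoped commutatorElement

namespace Cfsg.Agent.S3766

/-- `U / V` is a chief factor of `G`. -/
def Chief {G : Type*} [Group G] (U V : Subgroup G) : Prop :=
  U.Normal ∧ V.Normal ∧ V < U ∧ ∀ W : Subgroup G, W.Normal → V ≤ W → W ≤ U → W = V ∨ W = U

theorem forward {G : Type*} [Group G] [Finite G] {F : Subgroup G} [hFn : F.Normal]
    (hF : Group.IsNilpotent F) {U V : Subgroup G} (h : Chief U V) : ⁅U, F⁆ ≤ V := by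
  obtain ⟨hU, hV, hlt, hmax⟩ := h
  haveI := hU
  haveI := hV
  have hUF : ⁅U, F⁆ ≤ U := Subgroup.commutator_le_left _ _
  rcases hmax (⁅U, F⁆ ⊔ V) inferInstance le_sup_right (sup_le hUF hlt.le) with h | h
  · exact le_sup_left.trans h.le
  exfalso
  let f := QuotientGroup.mk' V
  have hVf : V.map f = ⊥ := by rw [Subgroup.map_eq_bot_iff, QuotientGroup.ker_mk']
  have heq : U.map f = ⁅U.map f, F.map f⁆ := by
    conv_lhs => rw [← h]
    rw [Subgroup.map_sup, hVf, sup_bot_eq, Subgroup.map_commutator]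
  have hle : ∀ k, U.map f ≤ (F.map f).lowerCentralSeries k := by
    intro k
    induction k with
    | zero =>
      haveI : (F.map f).Normal := hFn.map f (QuotientGroup.mk'_surjective V)
      rw [Subgroup.lowerCentralSeries_zero, heq]
      exact Subgroup.commutator_le_right _ _
    | succ k ih =>
      rw [Subgroup.lowerCentralSeries_succ, heq]
      exact Subgroup.commutator_mono ih le_rfl
  obtain ⟨n, hn⟩ := (Subgroup.isNilpotent_iff_lowerCentralSeries F).1 hF
  have hb : U.map f = ⊥ := by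
    refine le_bot_iff.1 ((hle n).trans ?_)
    rw [← Subgroup.map_lowerCentralSeries, hn, Subgroup.map_bot]
  rw [Subgroup.map_eq_bot_iff, QuotientGroup.ker_mk'] at hb
  exact hlt.not_ge hb

/-- Elements centralising all chief factors below `F`. -/
def centr {G : Type*} [Group G] (F : Subgroup G) : Subgroup G where
  carrier := {g | ∀ U V : Subgroup G, Chief U V → U ≤ F → ∀ u ∈ U, ⁅u, g⁆ ∈ V}
  one_mem' := fun U V _ _ u _ => by simp [V.one_mem]
  mul_mem' := fun {a b} ha hb U V h hle u hu => by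
    rw [show ⁅u, a * b⁆ = ⁅u, a⁆ * (a * ⁅u, b⁆ * a⁻¹) by simp only [commutatorElement_def]; group]
    exact V.mul_mem (ha U V h hle u hu) (h.2.1.conj_mem _ (hb U V h hle u hu) a)
  inv_mem' := fun {a} ha U V h hle u hu => by
    rw [show ⁅u, a⁻¹⁆ = a⁻¹ * ⁅u, a⁆⁻¹ * a⁻¹⁻¹ by simp only [commutatorElement_def]; group]
    exact h.2.1.conj_mem _ (V.inv_mem (ha U V h hle u hu)) _

theorem centr_normal {G : Type*} [Group G] (F : Subgroup G) : (centr F).Normal := by
  refine ⟨fun g hg x U V h hle u hu => ?_⟩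
  rw [show ⁅u, x * g * x⁻¹⁆ = x * ⁅x⁻¹ * u * x⁻¹⁻¹, g⁆ * x⁻¹ by
    simp only [commutatorElement_def]; group]
  exact h.2.1.conj_mem _ (hg U V h hle _ (h.1.conj_mem u hu _)) x

/-- iterated commutator with `L` -/
def it {G : Type*} [Group G] (L : Subgroup G) : ℕ → Subgroup G → Subgroup G
  | 0, X => X
  | n + 1, X => it L n ⁅X, L⁆

theorem it_mono {G : Type*} [Group G] (L : Subgroup G) :
    ∀ (n : ℕ) {X Y : Subgroup G}, X ≤ Y → it L n X ≤ it L n Y
  | 0, _, _, h => h
  | n + 1, _, _, h => it_mono L n (Subgroup.commutator_mono h le_rfl)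

theorem exists_it_eq_bot {G : Type*} [Group G] [Finite G] {F L : Subgroup G} (hL : L ≤ centr F) :
    ∀ c : ℕ, ∀ X : Subgroup G, X.Normal → X ≤ F → Nat.card X = c → ∃ n, it L n X = ⊥ := by
  intro c
  induction c using Nat.strong_induction_on with
  | _ c ih =>
    intro X hX hXF hc
    by_cases hb : X = ⊥
    · exact ⟨0, hb⟩
    obtain ⟨V, ⟨hV, hlt⟩, hmax⟩ := (Set.toFinite {V : Subgroup G | V.Normal ∧ V < X}).exists_maximal
      ⟨⊥, inferInstance, bot_lt_iff_ne_bot.2 hb⟩
    have hch : Chief X V := by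
      refine ⟨hX, hV, hlt, fun W hW h1 h2 => ?_⟩
      rcases h2.lt_or_eq with h3 | h3
      · exact Or.inl (le_antisymm (hmax ⟨hW, h3⟩ h1) h1)
      · exact Or.inr h3
    obtain ⟨n, hn⟩ := ih _ (hc ▸ Set.Finite.card_lt_card (Set.toFinite _) hlt) V hV
      (hlt.le.trans hXF) rfl
    refine ⟨n + 1, le_bot_iff.1 (hn ▸ it_mono L n ?_)⟩
    exact Subgroup.commutator_le.2 fun u hu g hg => hL hg X V hch hXF u hu

theorem nilpotent_of_centr {G : Type*} [Group G] [Finite G] {F L : Subgroup G} [F.Normal]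
    (hL : L ≤ centr F) (hLL : ⁅L, L⁆ ≤ F) : Group.IsNilpotent L := by
  obtain ⟨n, hn⟩ := exists_it_eq_bot hL _ F inferInstance le_rfl rfl
  refine (Subgroup.isNilpotent_iff_lowerCentralSeries L).2 ⟨1 + n, ?_⟩
  have key : ∀ j X, X ≤ F → ∀ i, L.lowerCentralSeries i ≤ X →
      L.lowerCentralSeries (i + j) ≤ it L j X := by
    intro j
    induction j with
    | zero => exact fun X _ i h => h
    | succ j ih =>
      intro X hX i h
      rw [show i + (j + 1) = (i + 1) + j by omega]
      exact ih ⁅X, L⁆ ((Subgroup.commutator_mono hX le_rfl).trans (Subgroup.commutator_le_left _ _))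
        (i + 1) (Subgroup.commutator_mono h le_rfl)
  exact le_bot_iff.1 (hn ▸ key n F le_rfl 1 hLL)

/-- Let G be a finite solvable group and N a normal subgroup of G. Call a pair V < U of normal subgroups of G a chief factor of G when no normal subgroup of G lies strictly between them; an element g centralizes the chief factor U/V when u g u⁻¹ g⁻¹ ∈ V for all u ∈ U. Then an element of G lies in the Fitting subgroup F(N) if and only if it lies in N and centralizes every chief factor of G; and also if and only if it lies in N and centralizes every chief factor U/V of G with U ≤ F(N). -/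
theorem result {G : Type*} [Group G] [Finite G] (hG : Group.IsSolvable G) (N : Subgroup G) [N.Normal] (g : G) : (g ∈ (Cfsg.fittingSubgroup ↥N).map N.subtype ↔ g ∈ N ∧ ∀ U V : Subgroup G, (U.Normal ∧ V.Normal ∧ V < U ∧ ∀ W : Subgroup G, W.Normal → V ≤ W → W ≤ U → W = V ∨ W = U) → ∀ u ∈ U, u * g * u⁻¹ * g⁻¹ ∈ V) ∧ (g ∈ (Cfsg.fittingSubgroup ↥N).map N.subtype ↔ g ∈ N ∧ ∀ U V : Subgroup G, (U.Normal ∧ V.Normal ∧ V < U ∧ ∀ W : Subgroup G, W.Normal → V ≤ W → W ≤ U → W = V ∨ W = U) → U ≤ (Cfsg.fittingSubgroup ↥N).map N.subtype → ∀ u ∈ U, u * g * u⁻¹ * g⁻¹ ∈ V) := by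
  set F := (Cfsg.fittingSubgroup ↥N).map N.subtype with hFdef
  have hFeq : F = Cfsg.fittingSubgroup G ⊓ N := Cfsg.Lib.Solv.map_fitting_subgroup N
  haveI hFn : F.Normal := by
    haveI := Cfsg.Lib.Solv.fitting_normal (G := G)
    rw [hFeq]
    infer_instance
  have hFnil : Group.IsNilpotent F := by
    rw [hFeq]
    exact Cfsg.Lib.Solv.isNilpotent_of_le inf_le_left (Cfsg.Lib.Solv.fitting_isNilpotent (G := G))
  have hFN : F ≤ N := Subgroup.map_subtype_le _
  have fwd : ∀ x ∈ F, ∀ U V : Subgroup G, Chief U V → ∀ u ∈ U, u * x * u⁻¹ * x⁻¹ ∈ V :=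
    fun x hx U V h u hu => forward hFnil h (Subgroup.commutator_mem_commutator hu hx)
  haveI := centr_normal F
  have hK : N ⊓ centr F ≤ F := by
    set K := N ⊓ centr F with hKdef
    haveI : K.Normal := inferInstance
    obtain ⟨d, hd⟩ : ∃ d, derivedSeries ↥K d = ⊥ :=
      (Group.isSolvable_def ↥K).1 inferInstance
    have main : ∀ j ≤ d, (derivedSeries ↥K (d - j)).map K.subtype ≤ F := by
      intro j
      induction j with
      | zero =>
        intro _
        rw [Nat.sub_zero, hd, Subgroup.map_bot]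
        exact bot_le
      | succ j ih =>
        intro hj
        set L := (derivedSeries ↥K (d - (j + 1))).map K.subtype with hLdef
        haveI : L.Normal := ConjAct.normal_of_characteristic_of_normal
        have hLK : L ≤ K := Subgroup.map_subtype_le _
        have hLL : ⁅L, L⁆ ≤ F := by
          refine le_trans (le_of_eq ?_) (ih (by omega))
          rw [hLdef, ← Subgroup.map_commutator, ← derivedSeries_succ,
            show d - j = (d - (j + 1)).succ by omega]
        rw [hFeq]
        refine le_inf (Cfsg.Lib.Solv.le_fitting inferInstance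
          (nilpotent_of_centr (hLK.trans inf_le_right) hLL)) (hLK.trans inf_le_left)
    have h := main d le_rfl
    rwa [Nat.sub_self, derivedSeries_zero, ← MonoidHom.range_eq_map, Subgroup.range_subtype] at h
  refine ⟨⟨fun hg => ⟨hFN hg, fwd g hg⟩, fun hg => hK ⟨hg.1, fun U V h _ => hg.2 U V h⟩⟩,
    ⟨fun hg => ⟨hFN hg, fun U V h _ => fwd g hg U V h⟩, fun hg => hK ⟨hg.1, hg.2⟩⟩⟩

end Cfsg.Agent.S3766
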