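import Cfsg.Statements.S3767
import Mathlib
import Cfsg.Agent.Lib.Transfer.ExtraspecialClass

set_option autoImplicit false
open Cfsg
open scoped Pointwise commutatorElement

namespace Cfsg.Agent.S3767

open Polynomial Matrix

theorem roots_reverse {L : Type*} [Field L] : ∀ s : Multiset L, (∀ a ∈ s, a ≠ 0) →
    ((s.map fun a => X - C a).prod).reverse.roots = s.map (·⁻¹) ∧
      ((s.map fun a => X - C a).prod).reverse ≠ 0 := by
  intro s
  induction s using Multiset.induction with
  | empty =>
    intro _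
    rw [Multiset.map_zero, Multiset.prod_zero, Multiset.map_zero, ← C_1, reverse_C]
    exact ⟨roots_C 1, C_ne_zero.2 one_ne_zero⟩
  | cons a s ih =>
    intro h
    obtain ⟨ih1, ih2⟩ := ih fun b hb => h b (Multiset.mem_cons_of_mem hb)
    have ha := h a (Multiset.mem_cons_self a s)
    have e : (X - C a).reverse = C (-a) * (X - C a⁻¹) := by
      rw [reverse, natDegree_X_sub_C, reflect_sub, reflect_one_X, ← C_mul_X_pow_eq_monomial.symm.trans
        (by rw [pow_zero, mul_one] : C a * X ^ 0 = C a), ← C_mul_X_pow_eq_monomial]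
      simp [mul_sub, ← C_mul, mul_inv_cancel₀ ha, reflect_C_mul]
      ring
    have he : (X - C a).reverse ≠ 0 := by
      rw [e]
      exact mul_ne_zero (C_ne_zero.2 (neg_ne_zero.2 ha)) (X_sub_C_ne_zero _)
    rw [Multiset.map_cons, Multiset.prod_cons, reverse_mul_of_domain, Multiset.map_cons]
    refine ⟨?_, mul_ne_zero he ih2⟩
    rw [roots_mul (mul_ne_zero he ih2), ih1, e, roots_C_mul _ (neg_ne_zero.2 ha), roots_X_sub_C]
    rfl

theorem card_dvd_sum {T : Type*} [CommGroup T] [Fintype T] (S : Subgroup T) (m : T → ℕ)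
    (hm : ∀ s ∈ S, ∀ u, m (s * u) = m u) : Nat.card S ∣ ∑ u, m u := by
  classical
  let F : (T ⧸ S) × S → T := fun x => x.1.out * x.2
  have hF : Function.Bijective F := by
    refine ⟨?_, fun u => ⟨⟨(u : T ⧸ S), ⟨((u : T ⧸ S)).out⁻¹ * u,
      QuotientGroup.eq.1 (QuotientGroup.out_eq' _)⟩⟩, by simp [F]⟩⟩
    rintro ⟨q, s⟩ ⟨q', s'⟩ h
    have hq : q = q' := by
      have := congrArg (fun x : T => (x : T ⧸ S)) h
      simpa [F, QuotientGroup.mk_mul_of_mem] using this
    subst hq
    exact Prod.ext rfl (Subtype.ext (mul_left_cancel h))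
  rw [← hF.sum_comp, Fintype.sum_prod_type]
  refine Finset.dvd_sum fun q _ => ?_
  rw [Finset.sum_congr rfl (fun (s : S) _ => show m (F (q, s)) = m q.out by
    simp only [F]; rw [mul_comm]; exact hm s s.2 _), Finset.sum_const, smul_eq_mul, Finset.card_univ,
    ← Nat.card_eq_fintype_card]
  exact dvd_mul_right _ _

theorem unit_pow_cases {h : ℕ} (P : (ZMod h)ˣ) (n : ℕ) (hP : orderOf P ≠ 0) (h1 : orderOf P ∣ 2 * n)
    (hmem : (-1 : (ZMod h)ˣ) ∈ Subgroup.zpowers P) : P ^ n = 1 ∨ P ^ n = -1 := by
  by_cases hd : orderOf P ∣ n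
  · exact Or.inl (orderOf_dvd_iff_pow_eq_one.1 hd)
  obtain ⟨j, hj⟩ : ∃ j : ℕ, P ^ j = -1 := by
    obtain ⟨z, hz⟩ := hmem
    refine ⟨(z % (orderOf P : ℤ)).toNat, ?_⟩
    rw [← zpow_natCast, Int.toNat_of_nonneg (Int.emod_nonneg _ (Int.natCast_ne_zero.2 hP)),
      zpow_mod_orderOf]
    exact hz
  have h2j : orderOf P ∣ 2 * j := by
    rw [orderOf_dvd_iff_pow_eq_one, mul_comm, pow_mul, hj, neg_one_sq]
  by_cases hdj : orderOf P ∣ j
  · have h11 : (-1 : (ZMod h)ˣ) = 1 := hj ▸ orderOf_dvd_iff_pow_eq_one.1 hdj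
    left
    have hh : (2 : ZMod h) = 0 := by
      have := congrArg (fun u : (ZMod h)ˣ => (u : ZMod h)) h11
      simp only [Units.val_neg, Units.val_one] at this
      rw [← one_add_one_eq_two]
      exact add_eq_zero_iff_eq_neg.2 this.symm
    have hle : h ∣ 2 := (ZMod.natCast_eq_zero_iff 2 h).1 (by exact_mod_cast hh)
    have hsub : ∀ u : (ZMod h)ˣ, u = 1 := by
      rcases (Nat.dvd_prime Nat.prime_two).1 hle with rfl | rfl <;>
      · intro u; revert u; decide
    exact hsub _
  · right
    rw [← hj]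
    apply pow_eq_pow_iff_modEq.2
    obtain ⟨a, ha⟩ := h1
    obtain ⟨b, hb⟩ := h2j
    obtain ⟨a', ha'⟩ : ∃ a', a = 2 * a' + 1 := by
      rcases Nat.even_or_odd' a with ⟨a', rfl | rfl⟩
      · exact absurd ⟨a', by linarith⟩ hd
      · exact ⟨a', rfl⟩
    obtain ⟨b', hb'⟩ : ∃ b', b = 2 * b' + 1 := by
      rcases Nat.even_or_odd' b with ⟨b', rfl | rfl⟩
      · exact absurd ⟨b', by linarith⟩ hdj
      · exact ⟨b', rfl⟩
    subst ha' hb'
    obtain ⟨c, hc⟩ : ∃ c, orderOf P = 2 * c := by
      rcases Nat.even_or_odd' (orderOf P) with ⟨c, hc | hc⟩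
      · exact ⟨c, hc⟩
      · exfalso; rw [hc] at ha; ring_nf at ha; omega
    have hn : n = c + orderOf P * a' := by nlinarith
    have hj' : j = c + orderOf P * b' := by nlinarith
    rw [hn, hj', Nat.ModEq, Nat.add_mul_mod_self_left, Nat.add_mul_mod_self_left]

/-- The arithmetic of a fixed-point-free symplectic element. -/
theorem symplectic_order {p : ℕ} [Fact p.Prime] {ι : Type*} [Fintype ι] [DecidableEq ι] (n : ℕ)
    (hN : Fintype.card ι = 2 * n) (A J : Matrix ι ι (ZMod p)) (hJ : J.det ≠ 0)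
    (hAJ : Aᵀ * J * A = J) (h : ℕ) (h0 : 0 < h) (hcop : h.Coprime p) (hA : A ^ h = 1)
    (hfpf : ∀ k : ℕ, ¬ h ∣ k → (1 - A ^ k).det ≠ 0) : h ∣ p ^ n + 1 ∨ h ∣ p ^ n - 1 := by
  classical
  have hp := (Fact.out : p.Prime)
  let L := AlgebraicClosure (ZMod p)
  let φ : ZMod p →+* L := algebraMap (ZMod p) L
  haveI : CharP L p := charP_of_injective_algebraMap φ.injective p
  set AL := A.map φ with hAL
  set R := AL.charpoly.roots with hR
  have hsplit : AL.charpoly.Splits := IsAlgClosed.splits _
  have hcard : Multiset.card R = 2 * n := by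
    rw [hR, ← hsplit.natDegree_eq_card_roots, Matrix.charpoly_natDegree_eq_dim, hN]
  have hmap : AL.charpoly = A.charpoly.map φ := Matrix.charpoly_map A φ
  have hmonic : AL.charpoly.Monic := Matrix.charpoly_monic _
  have hpow : ∀ k : ℕ, AL ^ k = (A ^ k).map φ := fun k =>
    (map_pow φ.mapMatrix A k).symm
  have hprim : ∀ μ ∈ R, IsPrimitiveRoot μ h := by
    intro μ hμ
    have hσ : μ ∈ spectrum L AL :=
      Matrix.mem_spectrum_iff_isRoot_charpoly.2 ((mem_roots hmonic.ne_zero).1 hμ)
    have hne : Nonempty ι := by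
      by_contra hne
      rw [not_nonempty_iff] at hne
      rw [Fintype.card_eq_zero] at hN
      rw [← hN, Multiset.card_eq_zero] at hcard
      rw [hcard] at hμ
      simp at hμ
    refine ⟨?_, fun l hl => ?_⟩
    · have h1 := spectrum.pow_mem_pow AL h hσ
      rw [hpow, hA, Matrix.map_one φ (map_zero φ) (map_one φ), spectrum.one_eq] at h1
      exact h1
    · by_contra hdl
      have h1 := spectrum.pow_mem_pow AL l hσ
      rw [hl, hpow, Matrix.mem_spectrum_iff_isRoot_charpoly, IsRoot, Matrix.eval_charpoly] at h1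
      apply hfpf l hdl
      apply φ.injective
      rw [RingHom.map_det, map_zero]
      refine Eq.trans ?_ h1
      congr 1
      rw [map_sub, map_one]
      simp [Matrix.scalar_apply, ← Matrix.diagonal_one, RingHom.mapMatrix_apply]
  -- invariance under Frobenius
  have hfrob : R.map (frobenius L p) = R := by
    have h1 : (AL.charpoly.map (frobenius L p)).roots = R.map (frobenius L p) :=
      (roots_map_of_injective_of_card_eq_natDegree (frobenius L p).injective
        hsplit.natDegree_eq_card_roots.symm).symm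
    rw [← h1, hR, hmap, Polynomial.map_map, RingHom.ext_zmod ((frobenius L p).comp φ) φ]
  -- invariance under inversion
  have hdet : A.det ≠ 0 := fun h1 => by
    have := congrArg Matrix.det hA
    rw [Matrix.det_pow, h1, zero_pow h0.ne', Matrix.det_one] at this
    exact zero_ne_one this
  have hAu : IsUnit A := (Matrix.isUnit_iff_isUnit_det A).2 (isUnit_iff_ne_zero.2 hdet)
  have hJu : IsUnit J := (Matrix.isUnit_iff_isUnit_det J).2 (isUnit_iff_ne_zero.2 hJ)
  have hchar : A⁻¹.charpoly = A.charpoly := by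
    have h1 : Aᵀ * J = J * A⁻¹ := by
      calc Aᵀ * J = Aᵀ * J * (A * A⁻¹) := by
            rw [Matrix.mul_nonsing_inv A (isUnit_iff_ne_zero.2 hdet), mul_one]
        _ = J * A⁻¹ := by rw [← mul_assoc, hAJ]
    obtain ⟨u, hu⟩ := hJu
    have h2 : A⁻¹ = (u⁻¹ : (Matrix ι ι (ZMod p))ˣ).val * Aᵀ * u.val := by
      rw [mul_assoc, hu, h1, ← hu, ← mul_assoc, Units.inv_mul, one_mul]
    rw [h2, Matrix.coe_units_inv, Matrix.charpoly_units_conj', Matrix.charpoly_transpose]
  have hinv : R.map (·⁻¹) = R := by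
    have h1 := Matrix.charpoly_inv A hAu
    rw [hchar, ← Matrix.reverse_charpoly] at h1
    have h2 : AL.charpoly = C (φ ((-1) ^ Fintype.card ι * Ring.inverse A.det)) * AL.charpoly.reverse := by
      rw [hmap]
      conv_lhs => rw [h1]
      rw [Polynomial.map_mul, show (A.charpoly.map φ).reverse = A.charpoly.reverse.map φ by
        rw [reverse, reverse, natDegree_map_eq_of_injective φ.injective, reflect_map]]
      congr 1
      simp
    have hc : φ ((-1) ^ Fintype.card ι * Ring.inverse A.det) ≠ 0 := by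
      intro e
      rw [e, C_0, zero_mul] at h2
      exact hmonic.ne_zero h2
    have h0R : ∀ a ∈ R, a ≠ 0 := fun a ha e => by
      have := (hprim a ha).pow_eq_one
      rw [e, zero_pow h0.ne'] at this
      exact zero_ne_one this
    have h3 := congrArg Polynomial.roots h2
    rw [roots_C_mul _ hc, ← hR, hsplit.eq_prod_roots_of_monic hmonic, ← hR,
      (roots_reverse R h0R).1] at h3
    exact h3.symm
  rcases Nat.eq_zero_or_pos n with hn | hn
  · right; simp [hn]
  obtain ⟨ζ, hζR⟩ := Multiset.card_pos_iff_exists_mem.1 (by omega : 0 < Multiset.card R)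
  have hζ := hprim ζ hζR
  haveI : NeZero h := ⟨h0.ne'⟩
  let f : (ZMod h)ˣ → L := fun u => ζ ^ (u : ZMod h).val
  have hfmul : ∀ (u : (ZMod h)ˣ) (a : ℕ), (u : ZMod h) = a → f u = ζ ^ a := by
    intro u a ha
    simp only [f, ha, ZMod.val_natCast]
    rw [hζ.eq_orderOf, pow_mod_orderOf]
  have hfinj : Function.Injective f := by
    intro u v huv
    refine Units.ext (ZMod.val_injective h ?_)
    exact hζ.pow_inj (ZMod.val_lt _) (ZMod.val_lt _) huv
  have hsum : ∑ u : (ZMod h)ˣ, R.count (f u) = 2 * n := by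
    rw [← hcard, ← Finset.sum_image (f := fun x => R.count x) (fun u _ v _ e => hfinj e),
      ← Multiset.toFinset_sum_count_eq R]
    refine (Finset.sum_subset (fun x hx => ?_) fun x _ hx => ?_).symm
    · obtain ⟨i, hi, hc, rfl⟩ := hζ.isPrimitiveRoot_iff.1 (hprim x (Multiset.mem_toFinset.1 hx))
      refine Finset.mem_image.2 ⟨ZMod.unitOfCoprime i hc, Finset.mem_univ _, ?_⟩
      exact hfmul _ i (ZMod.coe_unitOfCoprime i hc)
    · exact Multiset.count_eq_zero.2 fun e => hx (Multiset.mem_toFinset.2 e)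
  let pu : (ZMod h)ˣ := ZMod.unitOfCoprime p hcop.symm
  let Stab : Subgroup (ZMod h)ˣ :=
    { carrier := {s | ∀ u, R.count (f (s * u)) = R.count (f u)}
      one_mem' := fun u => by simp
      mul_mem' := fun {a b} ha hb u => by rw [mul_assoc, ha, hb]
      inv_mem' := fun {a} ha u => by
        have := ha (a⁻¹ * u)
        rw [mul_inv_cancel_left] at this
        exact this.symm }
  have hp1 : pu ∈ Stab := by
    intro u
    have e : f (pu * u) = frobenius L p (f u) := by
      rw [frobenius_def, hfmul (pu * u) ((u : ZMod h).val * p) (by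
        rw [Units.val_mul, ZMod.coe_unitOfCoprime, Nat.cast_mul, ZMod.natCast_zmod_val, mul_comm]),
        pow_mul]
    rw [e]
    conv_lhs => rw [← hfrob]
    exact Multiset.count_map_eq_count' _ _ (frobenius L p).injective _
  have hm1 : (-1 : (ZMod h)ˣ) ∈ Stab := by
    intro u
    have hne : f u * f (-1 * u) = 1 := by
      simp only [f]
      rw [← pow_add, hζ.pow_eq_one_iff_dvd, ← ZMod.natCast_eq_zero_iff, Nat.cast_add,
        ZMod.natCast_zmod_val, ZMod.natCast_zmod_val]
      simp
    rw [eq_inv_of_mul_eq_one_right hne]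
    conv_lhs => rw [← hinv]
    exact Multiset.count_map_eq_count' _ _ inv_injective _
  have key : ∀ S : Subgroup (ZMod h)ˣ, S ≤ Stab → Nat.card S ∣ 2 * n := fun S hS => by
    rw [← hsum]
    exact card_dvd_sum S _ fun s hs => hS hs
  have hfin : pu ^ n = 1 ∨ pu ^ n = -1 := by
    by_cases hneg : (-1 : (ZMod h)ˣ) ∈ Subgroup.zpowers pu
    · refine unit_pow_cases pu n (orderOf_pos pu).ne' ?_ hneg
      rw [← Nat.card_zpowers]
      exact key _ (Subgroup.zpowers_le.2 hp1)
    · left
      rw [← orderOf_dvd_iff_pow_eq_one, ← Nat.card_zpowers]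
      have h1 := key (Subgroup.zpowers pu ⊔ Subgroup.zpowers (-1))
        (sup_le (Subgroup.zpowers_le.2 hp1) (Subgroup.zpowers_le.2 hm1))
      have h2 : (Subgroup.zpowers pu).relIndex (Subgroup.zpowers (-1)) = 2 := by
        have hd := Subgroup.relIndex_dvd_card (Subgroup.zpowers pu) (Subgroup.zpowers (-1 : (ZMod h)ˣ))
        rw [Nat.card_zpowers] at hd
        have ho : orderOf (-1 : (ZMod h)ˣ) ∣ 2 := orderOf_dvd_of_pow_eq_one neg_one_sq
        rcases (Nat.dvd_prime Nat.prime_two).1 (hd.trans ho) with e | e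
        · exact absurd (Subgroup.relIndex_eq_one.1 e (Subgroup.mem_zpowers _)) hneg
        · exact e
      have h3 : Nat.card (Subgroup.zpowers pu ⊔ Subgroup.zpowers (-1) : Subgroup (ZMod h)ˣ) =
          Nat.card (Subgroup.zpowers pu) * 2 := by
        rw [← h2, ← Subgroup.relIndex_sup_right, ← Subgroup.relIndex_bot_left,
          ← Subgroup.relIndex_bot_left (H := Subgroup.zpowers pu), sup_comm,
          Subgroup.relIndex_mul_relIndex _ _ _ bot_le le_sup_right]
      rw [h3, mul_comm] at h1
      exact Nat.dvd_of_mul_dvd_mul_left two_pos h1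
  have hcast : ((pu ^ n : (ZMod h)ˣ) : ZMod h) = ((p ^ n : ℕ) : ZMod h) := by
    rw [Units.val_pow_eq_pow_val, Nat.cast_pow]
    rfl
  rcases hfin with e | e <;> rw [e] at hcast
  · right
    rw [← ZMod.natCast_eq_zero_iff, Nat.cast_sub (Nat.one_le_pow _ _ hp.pos), ← hcast]
    simp
  · left
    rw [← ZMod.natCast_eq_zero_iff, Nat.cast_add, ← hcast]
    simp

theorem exists_bilin {p : ℕ} {V : Type*} [AddCommGroup V] [Module (ZMod p) V]
    (g : V →+ (V →+ ZMod p)) :
    ∃ B : LinearMap.BilinForm (ZMod p) V, ∀ x y, B x y = g x y :=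
  ⟨LinearMap.mk₂ (ZMod p) (fun x y => g x y)
      (fun x x' y => by rw [map_add]; rfl)
      (fun r x y => ZMod.map_smul
        (AddMonoidHom.mk' (fun x => g x y) fun x x' => by rw [map_add]; rfl) r x)
      (fun x y y' => map_add _ _ _)
      (fun r x y => ZMod.map_smul (g x) r y), fun _ _ => rfl⟩

/-- The commutator form and the bound. -/
theorem order_bound {P : Type*} [Group P] [Finite P] {p : ℕ} [Fact p.Prime]
    (hP : Cfsg.IsExtraspecial p P) (n : ℕ) (hn : Nat.card P = p ^ (2 * n + 1)) (α : MulAut P) (h : ℕ)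
    (h0 : 0 < h) (hcop : h.Coprime p) (hα : α ^ h = 1)
    (hZ : ∀ z ∈ Subgroup.center P, α z = z)
    (hfpf : ∀ k : ℕ, ¬ h ∣ k → ∀ a, (α ^ k) a = a → a ∈ Subgroup.center P) :
    h ∣ p ^ n + 1 ∨ h ∣ p ^ n - 1 := by
  classical
  have ES := Cfsg.Lib.Transfer.ExtraspecialClass.ES.of_extraspecial hP
  let Q := P ⧸ Subgroup.center P
  letI : CommGroup Q := { (inferInstance : Group Q) with
    mul_comm := fun a b => by
      induction a using QuotientGroup.induction_on with | _ a =>
      induction b using QuotientGroup.induction_on with | _ b =>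
      rw [← QuotientGroup.mk_mul, ← QuotientGroup.mk_mul, eq_comm, QuotientGroup.eq]
      have h1 : ⁅a⁻¹, b⁻¹⁆ ∈ Subgroup.center P := ES.comm _ _
      rwa [show (b * a)⁻¹ * (a * b) = ⁅a⁻¹, b⁻¹⁆ by rw [commutatorElement_def]; group] }
  haveI hmodule : Module (ZMod p) (Additive Q) := AddCommGroup.zmodModule fun x => by
    obtain ⟨a, ha⟩ := QuotientGroup.mk'_surjective _ (Additive.toMul x)
    apply Additive.toMul.injective
    rw [toMul_nsmul, ← ha, ← map_pow, toMul_zero]
    exact (QuotientGroup.eq_one_iff _).2 (ES.powc a)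
  let e : ↥(Subgroup.center P) ≃* Multiplicative (ZMod p) :=
    mulEquivOfPrimeCardEq ES.cardZ (by simp)
  let c : P → P → ↥(Subgroup.center P) := fun a b => ⟨⁅a, b⁆, ES.comm a b⟩
  have hc1 : ∀ a a' b, c (a * a') b = c a b * c a' b := by
    intro a a' b
    apply Subtype.ext
    have hz := Subgroup.mem_center_iff.1 (ES.comm a' b)
    calc ⁅a * a', b⁆ = a * ⁅a', b⁆ * (b * a⁻¹ * b⁻¹) := by simp only [commutatorElement_def]; group
      _ = ⁅a', b⁆ * (a * (b * a⁻¹ * b⁻¹)) := by rw [hz a, mul_assoc]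
      _ = a * (b * a⁻¹ * b⁻¹) * ⁅a', b⁆ := (hz _).symm
      _ = _ := by simp only [c, Subgroup.coe_mul, commutatorElement_def]; group
  have hc2 : ∀ a b b', c a (b * b') = c a b * c a b' := by
    intro a b b'
    apply Subtype.ext
    have hz := Subgroup.mem_center_iff.1 (ES.comm a b')
    calc ⁅a, b * b'⁆ = ⁅a, b⁆ * (b * ⁅a, b'⁆ * b⁻¹) := by simp only [commutatorElement_def]; group
      _ = _ := by rw [hz b, mul_inv_cancel_right]; rfl
  have hc0 : ∀ a b, b ∈ Subgroup.center P → c a b = 1 ∧ c b a = 1 := fun a b hb =>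
    ⟨Subtype.ext (commutatorElement_eq_one_iff_mul_comm.2 (Subgroup.mem_center_iff.1 hb a)),
     Subtype.ext (commutatorElement_eq_one_iff_mul_comm.2 (Subgroup.mem_center_iff.1 hb a).symm)⟩
  let f1 : P → (Q →* Multiplicative (ZMod p)) := fun a =>
    QuotientGroup.lift _ (MonoidHom.mk' (fun b => e (c a b)) fun b b' => by rw [hc2, map_mul])
      fun b hb => by simp [MonoidHom.mem_ker, (hc0 a b hb).1]
  let f2 : Q →* (Q →* Multiplicative (ZMod p)) :=
    QuotientGroup.lift _ (MonoidHom.mk' f1 fun a a' => by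
      refine MonoidHom.ext fun x => ?_
      induction x using QuotientGroup.induction_on with | _ b =>
      change e (c (a * a') b) = e (c a b) * e (c a' b)
      rw [hc1, map_mul])
      fun a ha => by
        rw [MonoidHom.mem_ker]
        refine MonoidHom.ext fun x => ?_
        induction x using QuotientGroup.induction_on with | _ b =>
        change e (c a b) = 1
        rw [(hc0 b a ha).2, map_one]
  let g1 : (Additive Q) →+ ((Additive Q) →+ ZMod p) := AddMonoidHom.mk'
    (fun x => AddMonoidHom.mk' (fun y => Multiplicative.toAdd (f2 (Additive.toMul x) (Additive.toMul y)))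
      fun y y' => by rw [toMul_add, map_mul, toAdd_mul])
    fun x x' => AddMonoidHom.ext fun y => by
      change Multiplicative.toAdd (f2 (Additive.toMul x * Additive.toMul x') (Additive.toMul y)) = _
      rw [map_mul]
      rfl
  obtain ⟨B, hB'⟩ := exists_bilin g1
  have hB : ∀ a b : P, B (Additive.ofMul (a : Q)) (Additive.ofMul (b : Q)) =
      Multiplicative.toAdd (e (c a b)) := fun a b => hB' _ _
  have hcen : ∀ x : P, x ∈ Subgroup.center P → α x ∈ Subgroup.center P := fun x hx => by
    rw [hZ x hx]; exact hx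
  let σm : Q →* Q := QuotientGroup.map (Subgroup.center P) (Subgroup.center P) α.toMonoidHom hcen
  let σ : (Additive Q) →ₗ[ZMod p] (Additive Q) := AddMonoidHom.toZModLinearMap p (MonoidHom.toAdditive σm)
  have hσ : ∀ (k : ℕ) (a : P), (σ ^ k) (Additive.ofMul (a : Q)) = Additive.ofMul (((α ^ k) a : P) : Q) := by
    intro k
    induction k with
    | zero => intro a; rfl
    | succ k ih =>
      intro a
      rw [pow_succ', Module.End.mul_apply, ih, pow_succ']
      rfl
  let b := Module.finBasis (ZMod p) (Additive Q)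
  have hdim : Module.finrank (ZMod p) (Additive Q) = 2 * n := by
    refine Nat.pow_right_injective (Fact.out : p.Prime).two_le ?_
    have h1 : Nat.card (Additive Q) = Nat.card Q := Nat.card_congr Additive.toMul
    have h2 := Subgroup.card_mul_index (Subgroup.center P)
    rw [Subgroup.index_eq_card, ES.cardZ, hn, pow_succ'] at h2
    have h3 := Module.natCard_eq_pow_finrank (K := ZMod p) (V := Additive Q)
    rw [Nat.card_zmod, h1] at h3
    exact h3.symm.trans (Nat.eq_of_mul_eq_mul_left (Fact.out : p.Prime).pos h2)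
  have hsurj : ∀ x : (Additive Q), ∃ a : P, Additive.ofMul (a : Q) = x := fun x => by
    obtain ⟨a, ha⟩ := QuotientGroup.mk'_surjective _ (Additive.toMul x)
    exact ⟨a, Additive.toMul.injective ha⟩
  have hpres : B.comp σ σ = B := by
    refine LinearMap.ext fun x => LinearMap.ext fun y => ?_
    obtain ⟨a, rfl⟩ := hsurj x
    obtain ⟨a', rfl⟩ := hsurj y
    change B (σ _) (σ _) = _
    rw [show σ (Additive.ofMul (a : Q)) = Additive.ofMul ((α a : P) : Q) from rfl,
      show σ (Additive.ofMul (a' : Q)) = Additive.ofMul ((α a' : P) : Q) from rfl, hB, hB]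
    congr 2
    exact Subtype.ext ((map_commutatorElement α a a').symm.trans (hZ _ (ES.comm a a')))
  set A := LinearMap.toMatrixAlgEquiv b σ with hAdef
  set J := LinearMap.BilinForm.toMatrix b B with hJdef
  have hJ : J.det ≠ 0 := by
    rw [← Matrix.separatingLeft_iff_det_ne_zero, hJdef,
      ← Matrix.separatingLeft_toBilin_iff b, Matrix.toBilin_toMatrix]
    intro x hx
    obtain ⟨a, rfl⟩ := hsurj x
    have ha : a ∈ Subgroup.center P := by
      rw [Subgroup.mem_center_iff]
      intro a'
      have h1 := hx (Additive.ofMul (a' : Q))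
      rw [hB] at h1
      have h2 : c a a' = 1 := e.injective (by rw [map_one]; exact h1)
      exact (commutatorElement_eq_one_iff_mul_comm.1 (congrArg Subtype.val h2)).symm
    rw [(QuotientGroup.eq_one_iff a).2 ha, ofMul_one]
  have hAJ : Aᵀ * J * A = J := by
    have h1 := LinearMap.BilinForm.toMatrix_comp b b B σ σ
    rw [hpres] at h1
    exact h1.symm
  refine symplectic_order n (by rw [Fintype.card_fin, hdim]) A J hJ hAJ h h0 hcop ?_ fun k hk => ?_
  · rw [hAdef, ← map_pow, ← map_one (LinearMap.toMatrixAlgEquiv b)]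
    congr 1
    refine LinearMap.ext fun x => ?_
    obtain ⟨a, rfl⟩ := hsurj x
    rw [hσ, hα]
    rfl
  · rw [hAdef, ← map_pow, ← map_one (LinearMap.toMatrixAlgEquiv b), ← map_sub]
    change (LinearMap.toMatrix b b (1 - σ ^ k)).det ≠ 0
    rw [LinearMap.det_toMatrix, Ne, LinearMap.det_eq_zero_iff_ker_ne_bot, not_not]
    refine (Submodule.eq_bot_iff _).2 fun x hx => ?_
    obtain ⟨a, rfl⟩ := hsurj x
    rw [LinearMap.mem_ker, LinearMap.sub_apply, Module.End.one_apply, hσ, sub_eq_zero] at hx
    set β := α ^ k with hβ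
    have hzc : a⁻¹ * β a ∈ Subgroup.center P := QuotientGroup.eq.1 (Additive.ofMul.injective hx)
    set z := a⁻¹ * β a with hzdef
    have hβz : β z = z := by
      rw [hβ]
      clear_value z
      clear hzdef
      induction k generalizing z with
      | zero => rfl
      | succ k _ =>
        have : ∀ i : ℕ, (α ^ i) z = z := by
          intro i
          induction i with
          | zero => rfl
          | succ i ih => rw [pow_succ, MulAut.mul_apply, hZ z hzc, ih]
        exact this _
    have hit : ∀ i : ℕ, (β ^ i) a = a * z ^ i := by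
      intro i
      induction i with
      | zero => simp
      | succ i ih =>
        rw [pow_succ', MulAut.mul_apply, ih, map_mul, map_pow, hβz, pow_succ', ← mul_assoc]
        congr 1
        rw [hzdef, mul_inv_cancel_left]
    have hzh : z ^ h = 1 := by
      have := hit h
      rw [hβ, ← pow_mul, mul_comm, pow_mul, hα, one_pow, MulAut.one_apply] at this
      exact left_eq_mul.1 this
    have hzp : z ^ p = 1 := by
      have := pow_card_eq_one' (x := (⟨z, hzc⟩ : ↥(Subgroup.center P)))
      rw [ES.cardZ] at this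
      exact congrArg Subtype.val this
    have hz1 : z = 1 := by
      have := pow_gcd_eq_one.2 ⟨hzh, hzp⟩
      rwa [hcop, pow_one] at this
    have hfix : β a = a := by
      rw [hzdef, inv_mul_eq_one] at hz1
      exact hz1.symm
    rw [(QuotientGroup.eq_one_iff a).2 (hfpf k hk a hfix), ofMul_one]



/-- Let P be an extraspecial p-group of order p^(2n+1) and H a cyclic group of order h prime to p acting on P (inside a common finite group: H normalizes P) so that C_P(x) = Z(P) for every non-identity x ∈ H. Then h divides p^n + 1 or h divides p^n − 1. -/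
theorem result {G : Type*} [Group G] [Finite G] {p : ℕ} [Fact p.Prime] (P H : Subgroup G) (hP : Cfsg.IsExtraspecial p ↥P) (n : ℕ) (hn : Nat.card P = p ^ (2 * n + 1)) (hH : IsCyclic H) (hcop : (Nat.card H).Coprime p) (hHP : H ≤ Subgroup.normalizer (P : Set G)) (hfix : ∀ x ∈ H, x ≠ 1 → P ⊓ Subgroup.centralizer {x} = (Subgroup.center ↥P).map P.subtype) : Nat.card H ∣ p ^ n + 1 ∨ Nat.card H ∣ p ^ n - 1 := by
  obtain ⟨x, hx⟩ := hH.exists_generator
  have hmem : (x : G) ∈ Subgroup.normalizer (P : Set G) := hHP x.2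
  let ψ : ↥(Subgroup.normalizer (P : Set G)) →* MulAut ↥P := Subgroup.normalizerMonoidHom P
  set α := ψ ⟨x, hmem⟩ with hα
  have hord : orderOf x = Nat.card H := orderOf_eq_card_of_forall_mem_zpowers hx
  have hact : ∀ (k : ℕ) (a : ↥P), ((α ^ k) a : G) = (x : G) ^ k * a * ((x : G) ^ k)⁻¹ := by
    intro k a
    rw [hα, ← map_pow]
    rfl
  refine order_bound hP n hn α (Nat.card H) Nat.card_pos hcop ?_ ?_ ?_
  · rw [hα, ← map_pow, show (⟨(x : G), hmem⟩ : ↥(Subgroup.normalizer (P : Set G))) ^ Nat.card H = 1 from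
      Subtype.ext (by
        change (x : G) ^ Nat.card H = 1
        rw [← hord, ← SubmonoidClass.coe_pow, pow_orderOf_eq_one]; rfl), map_one]
  · intro z hz
    refine Subtype.ext ?_
    have h1 := hact 1 z
    rw [pow_one, pow_one] at h1
    rw [h1]
    rcases eq_or_ne (x : G) 1 with e | e
    · rw [e]; simp
    have h2 : (z : G) ∈ P ⊓ Subgroup.centralizer {(x : G)} := by
      rw [hfix x x.2 e]; exact Subgroup.mem_map_of_mem _ hz
    rw [← Subgroup.mem_centralizer_singleton_iff.1 h2.2, mul_inv_cancel_right]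
  · intro k hk a ha
    have hne : (x : G) ^ k ≠ 1 := fun e => hk (hord ▸ orderOf_dvd_of_pow_eq_one (Subtype.ext (by simpa using e)))
    have h1 : (a : G) ∈ P ⊓ Subgroup.centralizer {(x : G) ^ k} := by
      refine ⟨a.2, Subgroup.mem_centralizer_singleton_iff.2 ?_⟩
      have h2 := hact k a
      rw [ha] at h2
      exact (mul_inv_eq_iff_eq_mul.1 h2.symm).symm
    rw [hfix _ (H.pow_mem x.2 k) hne] at h1
    obtain ⟨a', ha', e⟩ := h1
    rwa [← Subtype.ext e]

end Cfsg.Agent.S3767
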