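import Cfsg.Statements.S3768
import Mathlib
import Cfsg.Agent.Lib.Solv.Frobenius
-- import your own Cfsg.Agent.* helpers here

set_option autoImplicit false
open Cfsg
open scoped Pointwise

namespace Cfsg.Agent.S3768

/-- Let G be a finite Frobenius group with Frobenius complement R and Frobenius kernel K (the identity together with the elements in no conjugate of R), and let N be a normal subgroup of G not containing K. Then G/N is a Frobenius group with Frobenius complement RN/N whose Frobenius kernel is the image of K. -/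
theorem result {G : Type*} [Group G] [Finite G] (R : Subgroup G) (hR : Cfsg.IsFrobeniusComplement R) (N : Subgroup G) [N.Normal] (hKN : ¬ Cfsg.frobeniusKernel R ⊆ N) : Cfsg.IsFrobeniusComplement (R.map (QuotientGroup.mk' N)) ∧ Cfsg.frobeniusKernel (R.map (QuotientGroup.mk' N)) = QuotientGroup.mk' N '' Cfsg.frobeniusKernel R := by
  obtain ⟨K, hKn, hKeq, hc⟩ := Cfsg.Lib.Solv.exists_frobeniusKernel hR
  haveI := hKn
  have hnot : ¬ K ≤ N := fun h => hKN (hKeq ▸ h)
  have hNK : N ≤ K := (Cfsg.Lib.Solv.normal_le_or_kernel_le hR hc N).resolve_right hnot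
  set π := QuotientGroup.mk' N with hπ
  have hsur : Function.Surjective π := QuotientGroup.mk'_surjective N
  haveI : (K.map π).Normal := hKn.map π hsur
  have hdisK : ∀ r ∈ R, π r ∈ K.map π → r = 1 := fun r hr hm => by
    rw [← Subgroup.mem_comap, Subgroup.comap_map_eq, QuotientGroup.ker_mk', sup_eq_left.2 hNK] at hm
    have h2 : r ∈ K ⊓ R := ⟨hm, hr⟩
    rwa [hc.disjoint.eq_bot, Subgroup.mem_bot] at h2
  have hc' : (K.map π).IsComplement' (R.map π) := by
    refine Subgroup.isComplement'_of_disjoint_and_mul_eq_univ (disjoint_iff.2 ?_) ?_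
    · rw [eq_bot_iff]
      rintro z ⟨hzK, r, hr, rfl⟩
      rw [Subgroup.mem_bot, hdisK r hr hzK, map_one]
    · refine Set.eq_univ_of_forall fun z => ?_
      obtain ⟨g, rfl⟩ := hsur z
      obtain ⟨⟨⟨k, hk⟩, ⟨r, hr⟩⟩, hkr : k * r = g⟩ := (hc : Function.Bijective _).2 g
      exact ⟨π k, ⟨k, hk, rfl⟩, π r, ⟨r, hr, rfl⟩, by show π k * π r = π g; rw [← map_mul, hkr]⟩
  have hK1 : K.map π ≠ ⊥ := fun h => hnot (by
    rw [Subgroup.map_eq_bot_iff, QuotientGroup.ker_mk'] at h; exact h)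
  have hR1 : R.map π ≠ ⊥ := fun h => hR.1 (eq_bot_iff.2 fun r hr => Subgroup.mem_bot.2 (by
    have h1 : π r = 1 := Subgroup.mem_bot.1 (h ▸ (⟨r, hr, rfl⟩ : π r ∈ R.map π))
    exact hdisK r hr (h1.symm ▸ (K.map π).one_mem)))
  have hF : Cfsg.IsFrobeniusComplement (R.map π) := by
    refine Cfsg.Lib.Solv.isFrobeniusComplement_of_fpf hc' hK1 hR1 ?_
    rintro _ ⟨h, hh, rfl⟩ hne
    have hh1 : h ≠ 1 := fun e => hne (by rw [e, map_one])
    rw [eq_bot_iff]
    rintro z ⟨⟨k, hk, rfl⟩, hz⟩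
    replace hz := Subgroup.mem_centralizer_singleton_iff.1 hz
    let φ : N → N := fun a => ⟨h * a * h⁻¹ * (a : G)⁻¹,
      N.mul_mem (Subgroup.Normal.conj_mem inferInstance _ a.2 h) (N.inv_mem a.2)⟩
    have key : ∀ a b : G, a ∈ K → b ∈ K → h * a * h⁻¹ * a⁻¹ = h * b * h⁻¹ * b⁻¹ → a = b := by
      intro a b ha hb e
      have hmem : b⁻¹ * a ∈ K ⊓ Subgroup.centralizer ({h} : Set G) :=
        ⟨K.mul_mem (K.inv_mem hb) ha, Subgroup.mem_centralizer_singleton_iff.2 (by
          calc b⁻¹ * a * h = b⁻¹ * (h * a * h⁻¹ * a⁻¹)⁻¹ * h * a := by group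
            _ = b⁻¹ * (h * b * h⁻¹ * b⁻¹)⁻¹ * h * a := by rw [e]
            _ = _ := by group)⟩
      rw [Cfsg.Lib.Solv.frob_fpf hR hc.disjoint.eq_bot hh hh1, Subgroup.mem_bot, inv_mul_eq_one] at hmem
      exact hmem.symm
    have hinj : Function.Injective φ := fun a b hab =>
      Subtype.ext (key a b (hNK a.2) (hNK b.2) (congrArg Subtype.val hab))
    have hin : h * k * h⁻¹ * k⁻¹ ∈ N := (QuotientGroup.eq_one_iff _).1 (by
      show π _ = 1
      rw [map_mul, map_mul, map_mul, map_inv, map_inv, ← hz, mul_inv_cancel_right, mul_inv_cancel])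
    obtain ⟨a, ha⟩ := (Finite.injective_iff_surjective.1 hinj) ⟨_, hin⟩
    have hka := key a k (hNK a.2) hk (congrArg Subtype.val ha)
    rw [Subgroup.mem_bot, ← hka]
    exact (QuotientGroup.eq_one_iff _).2 a.2
  refine ⟨hF, ?_⟩
  rw [← Cfsg.Lib.Solv.eq_frobeniusKernel hF (K.map π) hc', Subgroup.coe_map, hKeq]

end Cfsg.Agent.S3768
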