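import Cfsg.Statements.S3769
import Mathlib
import Cfsg.Agent.Lib.Solv.HHTheoremB
import Cfsg.Agent.Lib.Solv.Coprime
import Cfsg.Agent.Lib.Solv.Coprime2
-- import your own Cfsg.Agent.* helpers here

set_option autoImplicit false
open Cfsg
open scoped Pointwise commutatorElement

namespace Cfsg.Agent.S3769

open Subgroup Cfsg.Lib.Solv

theorem geom_contra {F W : Type*} [Field F] [AddCommGroup W] [Module F W] [FiniteDimensional F W]
    {Q : Type*} [Group Q] [Finite Q] {q r : ℕ}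
    (hq : q.Prime) (hr : r.Prime) (hq2 : q ≠ 2) (hr2 : r ≠ 2) (hrq : r ≠ q) (hqF : (q : F) ≠ 0)
    (hQ : IsPGroup q Q) (ρ : Q →* Module.End F W) (α : MulAut Q) (hα : α ^ r = 1) (X : Module.End F W)
    (hXn : X ^ r = 1) (hfpf : ∀ v, X v = v → v = 0) (hX : ∀ g, X * ρ g = ρ (α g) * X) (g : Q) :
    ρ (α g) = ρ g := by
  classical
  by_contra hne
  have hgeom : Polynomial.aeval X (∑ i ∈ Finset.range r, (Polynomial.X : Polynomial F) ^ i) = 0 := by
    rw [map_sum]
    simp only [map_pow, Polynomial.aeval_X]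
    refine LinearMap.ext fun v => ?_
    have h1 : (X - 1) * ∑ i ∈ Finset.range r, X ^ i = 0 := by rw [mul_geom_sum, hXn, sub_self]
    have h2 := LinearMap.congr_fun h1 v
    rw [Module.End.mul_apply, LinearMap.sub_apply, LinearMap.zero_apply, sub_eq_zero] at h2
    exact hfpf _ h2
  have hinj : Function.Injective X := by
    intro u v huv
    have h1 := congrArg (X ^ (r - 1) : Module.End F W) huv
    rw [← Module.End.mul_apply, ← Module.End.mul_apply, ← pow_succ, Nat.sub_add_cancel hr.pos, hXn] at h1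
    exact h1
  rcases HH.hall_higman (n := 1) hr hq hrq one_pos hQ hqF ρ α (by rw [pow_one]; exact hα) X hinj hX
      ⟨g, by simpa using hne⟩ with hd | ⟨e, m, he1, he2, hm, hpe, -, -⟩
  · have hcoeff : (∑ i ∈ Finset.range r, (Polynomial.X : Polynomial F) ^ i).coeff 0 = 1 := by
      rw [Polynomial.finset_sum_coeff, Finset.sum_eq_single 0 (fun b _ hb => by rw [Polynomial.coeff_X_pow, if_neg (Ne.symm hb)]) (fun h => absurd (Finset.mem_range.2 hr.pos) h)]
      simp
    have h := hd _ (fun h0 => by rw [h0] at hcoeff; simp at hcoeff) hgeom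
    rw [pow_one] at h
    have hdeg : (∑ i ∈ Finset.range r, (Polynomial.X : Polynomial F) ^ i).natDegree ≤ r - 1 :=
      Polynomial.natDegree_sum_le_of_forall_le _ _ fun i hi => by
        rw [Polynomial.natDegree_X_pow]; have := Finset.mem_range.1 hi; omega
    have := hr.pos
    omega
  · rw [show e = 1 by omega, pow_one] at hpe
    have h1 : Odd (q ^ m) := (hq.eq_two_or_odd'.resolve_left hq2).pow
    have h2 : Odd r := hr.eq_two_or_odd'.resolve_left hr2
    rw [hpe] at h2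
    exact (Nat.not_odd_iff_even.2 h1.add_one) h2

theorem linearized {A : Type*} [CommGroup A] [Finite A] {Q : Type*} [Group Q] [Finite Q] {ℓ q r : ℕ}
    [Fact ℓ.Prime] [Module (ZMod ℓ) (Additive A)]
    (hq : q.Prime) (hr : r.Prime) (hq2 : q ≠ 2) (hr2 : r ≠ 2) (hrq : r ≠ q) (hqℓ : q ≠ ℓ)
    (hQ : IsPGroup q Q) (φ : Q →* MulAut A) (α : MulAut Q) (hα : α ^ r = 1)
    (x : MulAut A) (hxr : x ^ r = 1) (hfpf : ∀ a, x a = a → a = 1) (hx : ∀ g a, x (φ g a) = φ (α g) (x a))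
    (g : Q) (a : A) : φ (α g) a = φ g a := by
  let L : MulAut A → Module.End (ZMod ℓ) (Additive A) := fun f =>
    AddMonoidHom.toZModLinearMap ℓ (MonoidHom.toAdditive f.toMonoidHom)
  let ρ : Q →* Module.End (ZMod ℓ) (Additive A) :=
    { toFun := fun g => L (φ g)
      map_one' := by
        refine LinearMap.ext fun v => ?_
        show Additive.ofMul (φ 1 v.toMul) = v
        rw [map_one]; rfl
      map_mul' := fun a b => by
        refine LinearMap.ext fun v => ?_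
        show Additive.ofMul (φ (a * b) v.toMul) = Additive.ofMul (φ a (φ b v.toMul))
        rw [map_mul]; rfl }
  have hXpow : ∀ (k : ℕ) (v : Additive A), ((L x) ^ k) v = Additive.ofMul ((x ^ k) v.toMul) := by
    intro k
    induction k with
    | zero => intro v; rfl
    | succ k ih => intro v; rw [pow_succ', Module.End.mul_apply, ih, pow_succ']; rfl
  haveI : FiniteDimensional (ZMod ℓ) (Additive A) := Module.Finite.of_finite
  have hqF : (q : ZMod ℓ) ≠ 0 := fun h => hqℓ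
    ((Nat.prime_dvd_prime_iff_eq (Fact.out : ℓ.Prime) hq).1 ((ZMod.natCast_eq_zero_iff q ℓ).1 h)).symm
  have h := geom_contra hq hr hq2 hr2 hrq hqF hQ ρ α hα (L x)
    (LinearMap.ext fun v => by rw [hXpow, hxr]; rfl)
    (fun v hv => Additive.toMul.injective (hfpf v.toMul (congrArg Additive.toMul hv)))
    (fun g => LinearMap.ext fun v => congrArg Additive.ofMul (hx g v.toMul)) g
  exact congrArg Additive.toMul (LinearMap.congr_fun h (Additive.ofMul a))

theorem commute_of_fpf {A : Type*} [CommGroup A] [Finite A] {Q : Type*} [Group Q] [Finite Q] {ℓ q r : ℕ}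
    (hℓ : ℓ.Prime) (hq : q.Prime) (hr : r.Prime) (hq2 : q ≠ 2) (hr2 : r ≠ 2) (hrq : r ≠ q) (hqℓ : q ≠ ℓ)
    (hA : ∀ a : A, a ^ ℓ = 1) (hQ : IsPGroup q Q) (φ : Q →* MulAut A) (α : MulAut Q) (hα : α ^ r = 1)
    (x : MulAut A) (hxr : x ^ r = 1) (hfpf : ∀ a, x a = a → a = 1) (hx : ∀ g a, x (φ g a) = φ (α g) (x a))
    (g : Q) : φ (α g) = φ g := by
  haveI := Fact.mk hℓ
  letI : Module (ZMod ℓ) (Additive A) := AddCommGroup.zmodModule fun a => Additive.toMul.injective (hA a.toMul)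
  exact MulEquiv.ext fun a => linearized hq hr hq2 hr2 hrq hqℓ hQ φ α hα x hxr hfpf hx g a

theorem sylow_step {X : Type*} [Group X] [Finite X] (V Q : Subgroup X) {ℓ q : ℕ} (hV : Cfsg.IsElementaryAbelian ℓ V)
    (hℓ : ℓ.Prime) (hq : q.Prime) (hq2 : q ≠ 2) (hqℓ : q ≠ ℓ) (hQ : IsPGroup q Q) (hQV : Q ≤ normalizer (V : Set X))
    (c : X) (hr : (orderOf c).Prime) (hr2 : orderOf c ≠ 2) (hrq : orderOf c ≠ q)
    (hcV : c ∈ normalizer (V : Set X)) (hcQ : c ∈ normalizer (Q : Set X))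
    (hfpf : V ⊓ centralizer ({c} : Set X) = ⊥) (g : X) (hg : g ∈ Q) :
    c * g * c⁻¹ * g⁻¹ ∈ centralizer (V : Set X) := by
  haveI := hV.1
  letI : CommGroup ↥V := { (inferInstance : Group ↥V) with mul_comm := fun a b => mul_comm' a b }
  have hpow : ∀ (W : Subgroup X) (hW : c ∈ normalizer (W : Set X)), (W.normalizerMonoidHom ⟨c, hW⟩) ^ orderOf c = 1 := by
    intro W hW
    rw [← map_pow, show (⟨c, hW⟩ : ↥(normalizer (W : Set X))) ^ orderOf c = 1 from Subtype.ext (pow_orderOf_eq_one c),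
      map_one]
  have h := commute_of_fpf (A := ↥V) (Q := ↥Q) hℓ hq hr hq2 hr2 hrq hqℓ
    (fun a => Subtype.ext (hV.2 a a.2)) hQ (V.normalizerMonoidHom.comp (Subgroup.inclusion hQV))
    (Q.normalizerMonoidHom ⟨c, hcQ⟩) (hpow Q hcQ) (V.normalizerMonoidHom ⟨c, hcV⟩) (hpow V hcV)
    (fun a ha => Subtype.ext (show (a : X) = 1 by
      have h1 : c * (a : X) * c⁻¹ = a := congrArg Subtype.val ha
      have h2 : (a : X) ∈ V ⊓ centralizer ({c} : Set X) :=
        ⟨a.2, mem_centralizer_singleton_iff.2 (mul_inv_eq_iff_eq_mul.1 h1).symm⟩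
      rwa [hfpf, mem_bot] at h2))
    (fun u a => Subtype.ext (by
      show c * ((u : X) * (a : X) * (u : X)⁻¹) * c⁻¹ = (c * (u : X) * c⁻¹) * (c * (a : X) * c⁻¹) * (c * (u : X) * c⁻¹)⁻¹
      group))
    ⟨g, hg⟩
  rw [mem_centralizer_iff]
  intro v hv
  have h1 : (c * g * c⁻¹) * (g⁻¹ * v * g) * (c * g * c⁻¹)⁻¹ = g * (g⁻¹ * v * g) * g⁻¹ :=
    congrArg Subtype.val (MulEquiv.congr_fun h ⟨g⁻¹ * v * g, (mem_normalizer_iff''.1 (hQV hg) v).1 hv⟩)
  calc v * (c * g * c⁻¹ * g⁻¹) = (g * (g⁻¹ * v * g) * g⁻¹) * (c * g * c⁻¹ * g⁻¹) := by group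
    _ = (c * g * c⁻¹) * (g⁻¹ * v * g) * (c * g * c⁻¹)⁻¹ * (c * g * c⁻¹ * g⁻¹) := by rw [h1]
    _ = c * g * c⁻¹ * g⁻¹ * v := by group


/-- Let G and V be subgroups of a finite group with G solvable of odd order normalizing V, V an elementary abelian ℓ-group for a prime ℓ not dividing the order of G, and suppose G has a normal Hall subgroup K with a complement R of prime order. If C_V(R) = 1, then [R, K] centralizes V. -/
theorem result {X : Type*} [Group X] [Finite X] (G : Subgroup X) (hsolv : Group.IsSolvable G) (hodd : Odd (Nat.card G)) (V : Subgroup X) {ℓ : ℕ} (hℓ : ℓ.Prime) (hV : Cfsg.IsElementaryAbelian ℓ V) (hℓG : ¬ ℓ ∣ Nat.card G) (hGV : G ≤ Subgroup.normalizer (V : Set X)) (K R : Subgroup X) (hKG : K ≤ G) (hKn : G ≤ Subgroup.normalizer (K : Set X)) (hHall : (Nat.card K).Coprime (K.relIndex G)) (hRG : R ≤ G) (hR : (Nat.card R).Prime) (hKR : K ⊓ R = ⊥) (hKRG : K ⊔ R = G) (hCV : V ⊓ Subgroup.centralizer (R : Set X) = ⊥) : ⁅R,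 K⁆ ≤ Subgroup.centralizer (V : Set X) := by
  classical
  haveI := Fact.mk hR
  obtain ⟨⟨c, hcR⟩, hco⟩ := exists_prime_orderOf_dvd_card' (G := ↥R) (Nat.card R) dvd_rfl
  rw [Subgroup.orderOf_mk] at hco
  have hzR : Subgroup.zpowers c = R :=
    Subgroup.eq_of_le_of_card_ge (Subgroup.zpowers_le.2 hcR) (by rw [Nat.card_zpowers, hco])
  have hfpf : V ⊓ Subgroup.centralizer ({c} : Set X) = ⊥ := by
    rw [← hCV, ← hzR, Subgroup.zpowers_eq_closure, Subgroup.centralizer_closure]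
  have hcard : Nat.card K * Nat.card R = Nat.card G := by
    have h1 := Subgroup.card_mul_index (K.subgroupOf G)
    have h2 : (↑(K ⊔ R) : Set X) = (R : Set X) * (K : Set X) := by
      rw [sup_comm]; exact Subgroup.coe_mul_of_left_le_normalizer_right R K (hRG.trans hKn)
    apply le_antisymm
    · rw [mul_comm]
      refine Nat.le_of_dvd Nat.card_pos (Nat.Coprime.mul_dvd_of_dvd_of_dvd ?_ (Subgroup.card_dvd_of_le hRG) (Subgroup.card_dvd_of_le hKG))
      have hrel : Nat.card R ∣ K.relIndex G := by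
        have h3 : R.relIndex G ≠ 0 := Subgroup.index_ne_zero_of_finite
        have h5 : (K.subgroupOf G) ⊓ (R.subgroupOf G) = ⊥ := by
          rw [eq_bot_iff]
          rintro ⟨x, hx⟩ ⟨hxK, hxR⟩
          exact Subtype.ext (Subgroup.mem_bot.1 (hKR.le ⟨hxK, hxR⟩))
        haveI : (K.subgroupOf G).Normal := Subgroup.normal_subgroupOf_of_le_normalizer hKn
        have h6 := Subgroup.relIndex_dvd_index_of_normal (K.subgroupOf G) (R.subgroupOf G)
        rw [← Subgroup.inf_relIndex_right, h5, Subgroup.relIndex_bot_left] at h6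
        rwa [Nat.card_congr (Subgroup.subgroupOfEquivOfLe hRG).toEquiv] at h6
      exact (hHall.symm).coprime_dvd_left hrel
    · rw [mul_comm, ← hKRG, show Nat.card ↥(K ⊔ R) = Nat.card ((K ⊔ R : Subgroup X) : Set X) from rfl, h2]
      exact Set.natCard_mul_le
  have hco' : (Nat.card R).Coprime (Nat.card K) := by
    have h1 : K.relIndex G * Nat.card K = Nat.card K * Nat.card R := by
      rw [hcard, ← (K.subgroupOf G).index_mul_card, Nat.card_congr (Subgroup.subgroupOfEquivOfLe hKG).toEquiv]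
      rfl
    rw [mul_comm] at h1
    rw [← Nat.eq_of_mul_eq_mul_left Nat.card_pos h1]
    exact hHall.symm
  have hRK : R ≤ Subgroup.normalizer (K : Set X) := hRG.trans hKn
  have hVn : ∀ x ∈ G, x ∈ Subgroup.normalizer ((Subgroup.centralizer (V : Set X) : Subgroup X) : Set X) := fun x hx =>
    Cfsg.Lib.Solv.normalizer_le_normalizer_centralizer V (hGV hx)
  set C := Subgroup.centralizer (V : Set X) with hC
  have hcG : c ∈ G := hRG hcR
  let T : Subgroup X :=
    { carrier := {k | k ∈ K ∧ c * k * c⁻¹ * k⁻¹ ∈ C}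
      one_mem' := ⟨K.one_mem, by simp⟩
      mul_mem' := fun {a b} ha hb => ⟨K.mul_mem ha.1 hb.1, by
        have h1 := (Subgroup.mem_normalizer_iff.1 (hVn a (hKG ha.1)) _).1 hb.2
        have h2 := C.mul_mem ha.2 h1
        rwa [show c * a * c⁻¹ * a⁻¹ * (a * (c * b * c⁻¹ * b⁻¹) * a⁻¹) = c * (a * b) * c⁻¹ * (a * b)⁻¹ by group] at h2⟩
      inv_mem' := fun {a} ha => ⟨K.inv_mem ha.1, by
        have h1 := (Subgroup.mem_normalizer_iff.1 (hVn a⁻¹ (G.inv_mem (hKG ha.1))) _).1 (C.inv_mem ha.2)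
        rwa [show a⁻¹ * (c * a * c⁻¹ * a⁻¹)⁻¹ * (a⁻¹)⁻¹ = c * a⁻¹ * c⁻¹ * (a⁻¹)⁻¹ by group] at h1⟩ }
  have hTK : T ≤ K := fun x hx => hx.1
  have hKT : K ≤ T := by
    rw [← Subgroup.subgroupOf_eq_top, ← Subgroup.index_eq_one]
    by_contra hne
    obtain ⟨q, hq, hqd⟩ := Nat.exists_prime_and_dvd hne
    haveI := Fact.mk hq
    have hqK : q ∣ Nat.card K := hqd.trans (Subgroup.index_dvd_card _)
    have hqG : q ∣ Nat.card G := hqK.trans (Subgroup.card_dvd_of_le hKG)
    have hq2 : q ≠ 2 := fun e => (Nat.not_even_iff_odd.2 hodd) (even_iff_two_dvd.2 (e ▸ hqG))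
    obtain ⟨Q, hRQ⟩ := Cfsg.Lib.Solv.exists_invariant_sylow R K hRK hco'
      (Or.inl (by rw [← hzR]; exact Group.isSolvable_of_comm fun a b => mul_comm' a b)) q
    refine Q.not_dvd_index (hqd.trans (Subgroup.index_dvd_of_le ?_))
    intro k hk
    refine ⟨k.2, sylow_step V ((Q : Subgroup ↥K).map K.subtype) hV hℓ hq hq2 (fun e => hℓG (e ▸ hqG))
      (Q.isPGroup'.map _) ((Subgroup.map_subtype_le _).trans (hKG.trans hGV)) c (hco ▸ hR) ?_ ?_
      (hGV hcG) (hRQ hcR) hfpf k ⟨k, hk, rfl⟩⟩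
    · rw [hco]
      exact fun e => (Nat.not_even_iff_odd.2 hodd) (even_iff_two_dvd.2 (e ▸ Subgroup.card_dvd_of_le hRG))
    · rw [hco]
      exact fun e => hR.one_lt.ne' (Nat.eq_one_of_dvd_coprimes hco' dvd_rfl (e ▸ hqK))
  rw [Subgroup.commutator_le]
  intro ρ0 hρ k hk
  rw [← hzR, ← mem_powers_iff_mem_zpowers] at hρ
  obtain ⟨i, rfl⟩ := hρ
  show ⁅c ^ i, k⁆ ∈ C
  induction i with
  | zero => simp
  | succ i ih =>
    rw [show ⁅c ^ (i + 1), k⁆ = c * ⁅c ^ i, k⁆ * c⁻¹ * (c * k * c⁻¹ * k⁻¹) by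
      rw [pow_succ', commutatorElement_def, commutatorElement_def]; group]
    exact C.mul_mem ((Subgroup.mem_normalizer_iff.1 (hVn c hcG) _).1 ih) (hKT hk).2

end Cfsg.Agent.S3769
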