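import Cfsg.Statements.S3770
import Cfsg.Agent.S0033
import Cfsg.Agent.Lib.Solv.Frobenius
-- import your own Cfsg.Agent.* helpers here

set_option autoImplicit false
open Cfsg
open scoped Pointwise commutatorElement TensorProduct

namespace Cfsg.Agent.S3770

open Module

theorem fpf_pow {K : Type*} [Group K] (α : MulAut K) {r : ℕ} (hr : r.Prime) (hα : α ^ r = 1)
    (hfpf : ∀ g, α g = g → g = 1) {d : ℕ} (hd : ¬ r ∣ d) : ∀ g, (α ^ d) g = g → g = 1 := by
  intro g hg
  refine hfpf g ?_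
  obtain ⟨m, hm⟩ := Nat.exists_mul_mod_eq_one_of_coprime ((hr.coprime_iff_not_dvd.2 hd).symm) hr.one_lt
  have h1 : ∀ m : ℕ, ((α ^ d) ^ m) g = g := by
    intro m
    induction m with
    | zero => rfl
    | succ m ih => rw [pow_succ, MulAut.mul_apply, hg, ih]
  have h2 := h1 m
  rw [← pow_mul, ← Nat.mod_add_div (d * m) r, hm.2, pow_add, pow_mul, hα, one_pow, mul_one, pow_one] at h2
  exact h2

section core

variable {F W : Type*} [Field F] [AddCommGroup W] [Module F W] {K : Type*} [Group K] [Finite K]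

theorem X_pow_mul (α : MulAut K) (ρ : K →* Module.End F W) (X : Module.End F W)
    (hX : ∀ g, X * ρ g = ρ (α g) * X) (i : ℕ) : ∀ g, X ^ i * ρ g = ρ ((α ^ i) g) * X ^ i := by
  induction i with
  | zero => intro g; simp
  | succ i ih => intro g; rw [pow_succ', mul_assoc, ih, ← mul_assoc, hX, mul_assoc, pow_succ' α, MulAut.mul_apply]

/-- A fixed point free group acts trivially where the sum of the powers vanishes. -/
theorem norm_trivial {r : ℕ} (hr : r.Prime) (hKF : (Nat.card K : F) ≠ 0) (α : MulAut K) (hα : α ^ r = 1)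
    (hfpf : ∀ g, α g = g → g = 1) (ρ : K →* Module.End F W) (X : Module.End F W)
    (hX : ∀ g, X * ρ g = ρ (α g) * X) (w : W)
    (hN : ∀ k, ∑ i ∈ Finset.range r, (X ^ i) (ρ k w) = 0) (g : K) : ρ g w = w := by
  classical
  haveI := Fintype.ofFinite K
  set S : Module.End F W := ∑ k : K, ρ k with hS
  have hpt : ∀ i ∈ (Finset.range r).erase 0, ∑ k : K, ρ k ((X ^ i) (ρ k⁻¹ w)) = S ((X ^ i) w) := by
    intro i hi
    rw [Finset.mem_erase, Finset.mem_range] at hi
    have hinj : Function.Injective (fun k : K => k * (α ^ i) k⁻¹) := by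
      intro a b hab
      have h : (α ^ i) (b⁻¹ * a) = b⁻¹ * a := by
        simp only [map_inv] at hab
        rw [map_mul, map_inv]
        calc ((α ^ i) b)⁻¹ * (α ^ i) a = b⁻¹ * (b * ((α ^ i) b)⁻¹) * (α ^ i) a := by group
          _ = b⁻¹ * (a * ((α ^ i) a)⁻¹) * (α ^ i) a := by rw [hab]
          _ = b⁻¹ * a := by group
      have h0 := fpf_pow α hr hα hfpf (fun hd => absurd (Nat.le_of_dvd (Nat.pos_of_ne_zero hi.1) hd) (not_le.2 hi.2)) _ h
      exact (inv_mul_eq_one.1 h0).symm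
    rw [hS, LinearMap.sum_apply]
    refine Fintype.sum_bijective _ (Finite.injective_iff_bijective.1 hinj) _ _ fun k => ?_
    show ρ k ((X ^ i * ρ k⁻¹) w) = ρ (k * (α ^ i) k⁻¹) ((X ^ i) w)
    rw [X_pow_mul α ρ X hX i, map_mul]
    rfl
  have h0 : ∑ i ∈ Finset.range r, ∑ k : K, ρ k ((X ^ i) (ρ k⁻¹ w)) = 0 := by
    rw [Finset.sum_comm]
    exact Finset.sum_eq_zero fun k _ => by rw [← map_sum, hN, map_zero]
  rw [← Finset.add_sum_erase _ _ (Finset.mem_range.2 hr.pos), Finset.sum_congr rfl hpt, ← map_sum] at h0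
  have hrest : ∑ i ∈ (Finset.range r).erase 0, (X ^ i) w = -w := by
    have h1 := hN 1
    rw [map_one, Module.End.one_apply, ← Finset.add_sum_erase _ _ (Finset.mem_range.2 hr.pos), pow_zero,
      Module.End.one_apply] at h1
    exact (neg_eq_of_add_eq_zero_right h1).symm
  have hfirst : ∑ k : K, ρ k ((X ^ 0) (ρ k⁻¹ w)) = (Nat.card K : F) • w := by
    have : ∀ k : K, ρ k ((X ^ 0) (ρ k⁻¹ w)) = w := fun k => by
      rw [pow_zero, Module.End.one_apply, ← Module.End.mul_apply, ← map_mul, mul_inv_cancel, map_one,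
        Module.End.one_apply]
    rw [Finset.sum_congr rfl fun k _ => this k, Finset.sum_const, Finset.card_univ, ← Nat.card_eq_fintype_card,
      Nat.cast_smul_eq_nsmul]
  rw [hfirst, hrest, map_neg, add_neg_eq_zero] at h0
  have hgS : ρ g * S = S := by
    rw [hS, Finset.mul_sum]
    exact Fintype.sum_bijective (fun k => g * k) (Group.mulLeft_bijective g) _ _ fun k => (map_mul ρ g k).symm
  have h3 : (Nat.card K : F) • ρ g w = (Nat.card K : F) • w := by
    rw [← map_smul, h0, ← Module.End.mul_apply, hgS]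
  exact smul_right_injective W hKF h3

variable [IsAlgClosed F] [FiniteDimensional F W] [Group.IsNilpotent K]

set_option maxHeartbeats 1000000 in
theorem core_injective {r : ℕ} (hr : r.Prime) (hKF : (Nat.card K : F) ≠ 0) (α : MulAut K) (hα : α ^ r = 1)
    (hfpf : ∀ g, α g = g → g = 1) (ρ : K →* Module.End F W) (hρ : Function.Injective ρ) (X : Module.End F W)
    (hXr : X ^ r = 1) (hX : ∀ g, X * ρ g = ρ (α g) * X) (v0 : W) (hC : ∀ v, X v = v → ∃ c : F, v = c • v0)
    (a b : K) : ρ a * ρ b = ρ b * ρ a := by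
  classical
  rcases subsingleton_or_nontrivial K with hK | hK
  · rw [Subsingleton.elim a b]
  let f : ↥(Subgroup.center K) → Module.End F W := fun z => ρ (z : K)
  have hss : ∀ z, (f z).IsSemisimple := by
    intro z
    refine Module.End.isSemisimple_of_squarefree_aeval_eq_zero
      (p := (Polynomial.X ^ Nat.card K - 1 : Polynomial F)) ?_ ?_
    · exact (Polynomial.X_pow_sub_one_separable_iff.2 hKF).squarefree
    · rw [map_sub, map_one, map_pow, Polynomial.aeval_X, show f z = ρ (z : K) from rfl, ← map_pow, pow_card_eq_one', map_one, sub_self]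
  let E : (↥(Subgroup.center K) → F) → Submodule F W := fun χ => ⨅ z, (f z).maxGenEigenspace (χ z)
  have hmem : ∀ χ w, w ∈ E χ ↔ ∀ z, f z w = χ z • w := by
    intro χ w
    simp only [E, Submodule.mem_iInf]
    refine forall_congr' fun z => ?_
    rw [(hss z).isFinitelySemisimple.maxGenEigenspace_eq_eigenspace, Module.End.mem_eigenspace_iff]
  have hcomm : ∀ (z : ↥(Subgroup.center K)) (g : K), Commute (ρ g) (f z) := fun z g =>
    (show Commute g (z : K) from (Subgroup.mem_center_iff.1 z.2 g)).map ρ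
  have hind : iSupIndep E := Module.End.independent_iInf_maxGenEigenspace_of_forall_mapsTo f fun i j φ =>
    Module.End.mapsTo_maxGenEigenspace_of_comm (hcomm j i).symm φ
  have htop : ⨆ χ, E χ = ⊤ :=
    Module.End.iSup_iInf_maxGenEigenspace_eq_top_of_iSup_maxGenEigenspace_eq_top_of_commute f
      (fun i j _ => hcomm j i) fun z => Module.End.iSup_maxGenEigenspace_eq_top (f z)
  have hKE : ∀ (g : K) χ w, w ∈ E χ → ρ g w ∈ E χ := by
    intro g χ w hw
    rw [hmem] at hw ⊢
    intro z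
    rw [← Module.End.mul_apply, ← (hcomm z g).eq, Module.End.mul_apply, hw z, map_smul]
  have hzα : ∀ (i : ℕ) (z : ↥(Subgroup.center K)), ((α ^ i).symm (z : K)) ∈ Subgroup.center K := by
    intro i z
    rw [Subgroup.mem_center_iff]
    intro g
    apply (α ^ i).injective
    rw [map_mul, map_mul, MulEquiv.apply_symm_apply]
    exact Subgroup.mem_center_iff.1 z.2 _
  let tw : ℕ → (↥(Subgroup.center K) → F) → ↥(Subgroup.center K) → F := fun i χ z =>
    χ ⟨(α ^ i).symm (z : K), hzα i z⟩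
  have hXE : ∀ i χ w, w ∈ E χ → (X ^ i) w ∈ E (tw i χ) := by
    intro i χ w hw
    rw [hmem] at hw ⊢
    intro z
    have h1 := X_pow_mul α ρ X hX i ((α ^ i).symm (z : K))
    rw [MulEquiv.apply_symm_apply] at h1
    show (f z * X ^ i) w = _
    rw [show f z * X ^ i = X ^ i * ρ ((α ^ i).symm (z : K)) from h1.symm, Module.End.mul_apply,
      show ρ ((α ^ i).symm (z : K)) w = _ from hw ⟨_, hzα i z⟩, map_smul]
  have hXfix : ∀ w, X (∑ i ∈ Finset.range r, (X ^ i) w) = ∑ i ∈ Finset.range r, (X ^ i) w := by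
    intro w
    have h1 : (X - 1) * ∑ i ∈ Finset.range r, X ^ i = 0 := by rw [mul_geom_sum, hXr, sub_self]
    have h2 := LinearMap.congr_fun h1 w
    rw [Module.End.mul_apply, LinearMap.sub_apply, LinearMap.zero_apply, sub_eq_zero, LinearMap.sum_apply] at h2
    exact h2
  set N : Module.End F W := ∑ i ∈ Finset.range r, X ^ i with hNdef
  have hNapp : ∀ w, N w = ∑ i ∈ Finset.range r, (X ^ i) w := fun w => by rw [hNdef, LinearMap.sum_apply]
  -- nontrivial characters have orbits of length `r`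
  have horb : ∀ χ, (∃ w ∈ E χ, w ≠ 0) → ∀ i, 0 < i → i < r → tw i χ = χ → χ = fun _ => 1 := by
    rintro χ ⟨w, hw, hw0⟩ i hi hir he
    rw [hmem] at hw
    have hmul : ∀ z z', χ (z * z') = χ z * χ z' := by
      intro z z'
      refine smul_left_injective F hw0 ?_
      show χ (z * z') • w = (χ z * χ z') • w
      rw [← hw, show f (z * z') = f z * f z' from map_mul ρ _ _, Module.End.mul_apply, hw, map_smul, hw,
        smul_smul, mul_comm]
    have h1 : χ 1 = 1 := by
      refine smul_left_injective F hw0 ?_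
      show χ 1 • w = (1 : F) • w
      rw [← hw, one_smul, show f 1 = 1 from map_one ρ]
      rfl
    let β : ↥(Subgroup.center K) → ↥(Subgroup.center K) := fun z => z⁻¹ * ⟨(α ^ i).symm (z : K), hzα i z⟩
    have hβ : Function.Injective β := by
      intro y z hyz
      have h2 : (y : K)⁻¹ * (α ^ i).symm (y : K) = (z : K)⁻¹ * (α ^ i).symm (z : K) := congrArg Subtype.val hyz
      have h3 : (α ^ i).symm ((y : K) * (z : K)⁻¹) = (y : K) * (z : K)⁻¹ := by
        rw [map_mul, map_inv]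
        calc (α ^ i).symm (y : K) * ((α ^ i).symm (z : K))⁻¹
            = (y : K) * ((y : K)⁻¹ * (α ^ i).symm (y : K)) * ((α ^ i).symm (z : K))⁻¹ := by group
          _ = (y : K) * ((z : K)⁻¹ * (α ^ i).symm (z : K)) * ((α ^ i).symm (z : K))⁻¹ := by rw [h2]
          _ = (y : K) * (z : K)⁻¹ := by group
      have h4 : (α ^ i) ((y : K) * (z : K)⁻¹) = (y : K) * (z : K)⁻¹ := by
        conv_lhs => rw [← h3]
        exact (α ^ i).apply_symm_apply _
      exact Subtype.ext (mul_inv_eq_one.1 (fpf_pow α hr hα hfpf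
        (fun hd => absurd (Nat.le_of_dvd hi hd) (not_le.2 hir)) _ h4))
    funext u
    obtain ⟨z, rfl⟩ := (Finite.injective_iff_surjective.1 hβ) u
    have hz : χ ⟨(α ^ i).symm (z : K), hzα i z⟩ = χ z := congrFun he z
    show χ (z⁻¹ * _) = 1
    rw [hmul, hz, ← hmul, inv_mul_cancel, h1]
  have hne : ∀ χ, χ ≠ (fun _ => 1) → (∃ w ∈ E χ, w ≠ 0) → ∀ i ∈ (Finset.range r).erase 0, tw i χ ≠ χ := by
    intro χ hχ hw i hi he
    rw [Finset.mem_erase, Finset.mem_range] at hi
    exact hχ (horb χ hw i (Nat.pos_of_ne_zero hi.1) hi.2 he)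
  -- the norm map is injective on a nontrivial eigenspace
  have hNinj : ∀ χ, χ ≠ (fun _ => 1) → ∀ w ∈ E χ, N w = 0 → w = 0 := by
    intro χ hχ w hw hNw
    by_contra hw0
    rw [hNapp, ← Finset.add_sum_erase _ _ (Finset.mem_range.2 hr.pos), pow_zero, Module.End.one_apply] at hNw
    refine hw0 (Submodule.disjoint_def.1 (hind χ) w hw ?_)
    rw [eq_neg_of_add_eq_zero_left hNw]
    refine Submodule.neg_mem _ (Submodule.sum_mem _ fun i hi => ?_)
    exact Submodule.mem_iSup_of_mem (tw i χ) (Submodule.mem_iSup_of_mem (hne χ hχ ⟨w, hw, hw0⟩ i hi) (hXE i χ w hw))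
  obtain ⟨χ₁, hχ₁, w₁, hw₁, hw₁0⟩ : ∃ χ, χ ≠ (fun _ => 1) ∧ ∃ w ∈ E χ, w ≠ 0 := by
    by_contra hno
    push_neg at hno
    have hbot : Subgroup.center K = ⊥ := by
      rw [Subgroup.eq_bot_iff_forall]
      intro z hz
      apply hρ
      rw [map_one]
      refine LinearMap.eqLocus_eq_top.1 (top_le_iff.1 ?_)
      rw [← htop, iSup_le_iff]
      intro χ w hw
      show ρ z w = (1 : Module.End F W) w
      by_cases hχ : χ = fun _ => 1
      · subst hχ
        rw [(hmem _ _).1 hw ⟨z, hz⟩, one_smul, Module.End.one_apply]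
      · rw [hno χ hχ w hw, map_zero, map_zero]
    exact (Group.IsNilpotent.center_ne_bot (G := K)) hbot
  obtain ⟨c₁, hc₁⟩ := hC (N w₁) (by rw [hNapp]; exact hXfix w₁)
  have hc₁0 : c₁ ≠ 0 := fun h => hw₁0 (hNinj χ₁ hχ₁ w₁ hw₁ (by rw [hc₁, h, zero_smul]))
  have htriv : ∀ w ∈ E (fun _ => 1), ∀ g : K, ρ g w = w := by
    intro w hw g
    refine norm_trivial hr hKF α hα hfpf ρ X hX w (fun k => ?_) g
    rw [← hNapp]
    have hu : ρ k w ∈ E (fun _ => 1) := hKE k _ w hw
    obtain ⟨c, hc⟩ := hC (N (ρ k w)) (by rw [hNapp]; exact hXfix _)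
    have h1 : N (ρ k w) ∈ E (fun _ => 1) := by
      rw [hNapp]
      refine Submodule.sum_mem (E (fun _ => 1)) fun i _ => ?_
      have h3 := hXE i (fun _ => 1) (ρ k w) hu
      have h4 : tw i (fun _ => 1) = fun _ => 1 := rfl
      rw [h4] at h3
      exact h3
    refine Submodule.disjoint_def.1 (hind fun _ => 1) _ h1 ?_
    have hv0 : v0 = c₁⁻¹ • N w₁ := by rw [hc₁, smul_smul, inv_mul_cancel₀ hc₁0, one_smul]
    rw [hc, hv0, hNapp]
    refine Submodule.smul_mem _ _ (Submodule.smul_mem _ _ (Submodule.sum_mem _ fun i hi => ?_))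
    refine Submodule.mem_iSup_of_mem (tw i χ₁) (Submodule.mem_iSup_of_mem ?_ (hXE i χ₁ w₁ hw₁))
    intro he
    refine hχ₁ (funext fun z => ?_)
    have h2 := congrFun he ⟨(α ^ i) (z : K), by
      rw [Subgroup.mem_center_iff]
      intro g
      obtain ⟨g', rfl⟩ := (α ^ i).surjective g
      rw [← map_mul, ← map_mul, Subgroup.mem_center_iff.1 z.2 g']⟩
    simp only [tw, MulEquiv.symm_apply_apply] at h2
    exact h2
  refine LinearMap.eqLocus_eq_top.1 (top_le_iff.1 ?_)
  rw [← htop, iSup_le_iff]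
  intro χ w hw
  show ρ a (ρ b w) = ρ b (ρ a w)
  by_cases hχ : χ = fun _ => 1
  · subst hχ
    rw [htriv w hw, htriv w hw, htriv w hw]
  rcases eq_or_ne w 0 with rfl | hw0
  · simp
  obtain ⟨c, hc⟩ := hC (N w) (by rw [hNapp]; exact hXfix w)
  have hc0 : c ≠ 0 := fun h => hw0 (hNinj χ hχ w hw (by rw [hc, h, zero_smul]))
  have hline : ∀ u ∈ E χ, ∃ s : F, u = s • w := by
    intro u hu
    obtain ⟨d, hd⟩ := hC (N u) (by rw [hNapp]; exact hXfix u)
    refine ⟨d * c⁻¹, sub_eq_zero.1 (hNinj χ hχ _ ((E χ).sub_mem hu ((E χ).smul_mem _ hw)) ?_)⟩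
    rw [map_sub, map_smul, hd, hc, smul_smul, mul_assoc, inv_mul_cancel₀ hc0, mul_one, sub_self]
  obtain ⟨s, hs⟩ := hline _ (hKE a χ w hw)
  obtain ⟨t, ht⟩ := hline _ (hKE b χ w hw)
  rw [hs, ht, map_smul, map_smul, hs, ht, smul_smul, smul_smul, mul_comm]

theorem core {r : ℕ} (hr : r.Prime) (hKF : (Nat.card K : F) ≠ 0) (α : MulAut K) (hα : α ^ r = 1)
    (hfpf : ∀ g, α g = g → g = 1) (ρ : K →* Module.End F W) (X : Module.End F W)
    (hXr : X ^ r = 1) (hX : ∀ g, X * ρ g = ρ (α g) * X) (v0 : W) (hC : ∀ v, X v = v → ∃ c : F, v = c • v0)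
    (a b : K) : ρ a * ρ b = ρ b * ρ a := by
  classical
  have hXinj : ∀ A B : Module.End F W, A * X = B * X → A = B := by
    intro A B h
    have h2 := congrArg (fun C => C * X ^ (r - 1)) h
    simp only [mul_assoc, ← pow_succ', Nat.sub_add_cancel hr.pos, hXr, mul_one] at h2
    exact h2
  set M := ρ.ker with hM
  have hαM : ∀ k, k ∈ M → α k ∈ M := by
    intro k hk
    rw [hM, MonoidHom.mem_ker] at hk ⊢
    exact hXinj _ _ (by rw [← hX, hk, mul_one, one_mul])
  have hmap : M.map (α : K →* K) = M := by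
    refine Subgroup.eq_of_le_of_card_ge (Subgroup.map_le_iff_le_comap.2 hαM) (le_of_eq ?_)
    exact (Subgroup.card_map_of_injective (K := M) (f := (α : K →* K)) α.injective).symm
  let αq : MulAut (K ⧸ M) := QuotientGroup.congr M M α hmap
  have hαq : ∀ (i : ℕ) (k : K), (αq ^ i) (k : K ⧸ M) = ((α ^ i) k : K) := by
    intro i
    induction i with
    | zero => intro k; rfl
    | succ i ih => intro k; rw [pow_succ', MulAut.mul_apply, ih, pow_succ' α]; rfl
  let ρq : K ⧸ M →* Module.End F W := QuotientGroup.lift M ρ le_rfl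
  have hinj : Function.Injective ρq := by
    intro x y
    refine QuotientGroup.induction_on x fun k => QuotientGroup.induction_on y fun l h => ?_
    rw [QuotientGroup.eq, hM, MonoidHom.mem_ker, map_mul]
    have h' : ρ k = ρ l := h
    rw [← h', ← map_mul, inv_mul_cancel, map_one]
  refine core_injective (K := K ⧸ M) hr ?_ αq ?_ ?_ ρq hinj X hXr ?_ v0 hC (a : K ⧸ M) (b : K ⧸ M)
  · intro h
    refine hKF ?_
    rw [Subgroup.card_eq_card_quotient_mul_card_subgroup M, Nat.cast_mul, h, zero_mul]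
  · refine MulEquiv.ext fun x => QuotientGroup.induction_on x fun k => ?_
    rw [hαq, hα]
    rfl
  · intro x
    refine QuotientGroup.induction_on x fun k hk => ?_
    have h1 : k⁻¹ * α k ∈ M := by
      rw [← QuotientGroup.eq]
      exact hk.symm
    have hβ : Function.Injective (fun n : M => (⟨(n : K)⁻¹ * α n, M.mul_mem (M.inv_mem n.2) (hαM n n.2)⟩ : M)) := by
      intro y z hyz
      have h2 : (y : K)⁻¹ * α y = (z : K)⁻¹ * α z := congrArg Subtype.val hyz
      refine Subtype.ext (mul_inv_eq_one.1 (hfpf _ ?_))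
      rw [map_mul, map_inv]
      calc α y * (α z)⁻¹ = (y : K) * ((y : K)⁻¹ * α y) * (α z)⁻¹ := by group
        _ = (y : K) * ((z : K)⁻¹ * α z) * (α z)⁻¹ := by rw [h2]
        _ = (y : K) * (z : K)⁻¹ := by group
    obtain ⟨n, hn⟩ := Finite.injective_iff_surjective.1 hβ ⟨_, h1⟩
    have h3 : (n : K)⁻¹ * α n = k⁻¹ * α k := congrArg Subtype.val hn
    have h4 : k * (n : K)⁻¹ = 1 := hfpf _ (by
      rw [map_mul, map_inv]
      calc α k * (α n)⁻¹ = k * (k⁻¹ * α k) * (α n)⁻¹ := by group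
        _ = k * ((n : K)⁻¹ * α n) * (α n)⁻¹ := by rw [h3]
        _ = k * (n : K)⁻¹ := by group)
    rw [mul_inv_eq_one.1 h4]
    exact (QuotientGroup.eq_one_iff _).2 n.2
  · intro g
    exact QuotientGroup.induction_on g fun k => hX k

end core

theorem linearized {R : Type*} [Field R] {V : Type*} [AddCommGroup V] [Module R V] [FiniteDimensional R V]
    {K : Type*} [Group K] [Finite K] [Group.IsNilpotent K]
    {r : ℕ} (hr : r.Prime) (hrR : (r : R) ≠ 0) (hKR : (Nat.card K : R) ≠ 0) (α : MulAut K) (hα : α ^ r = 1)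
    (hfpf : ∀ g, α g = g → g = 1) (ρ : K →* Module.End R V) (X : Module.End R V)
    (hXr : X ^ r = 1) (hX : ∀ g, X * ρ g = ρ (α g) * X) (v0 : V) (hC : ∀ v, X v = v → ∃ c : R, v = c • v0)
    (a b : K) : ρ a * ρ b = ρ b * ρ a := by
  let F := AlgebraicClosure R
  let BC : Module.End R V →ₐ[R] Module.End F (F ⊗[R] V) := Module.End.baseChangeHom R F V
  have hBC : ∀ (f : Module.End R V) (c : F) (v : V), BC f (c ⊗ₜ v) = c ⊗ₜ f v := fun f c v => rfl
  have hrF : (r : F) ≠ 0 := by
    rw [← map_natCast (algebraMap R F), Ne, map_eq_zero]; exact hrR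
  have h := core (F := F) hr (by rw [← map_natCast (algebraMap R F), Ne, map_eq_zero]; exact hKR) α hα hfpf
    (BC.toMonoidHom.comp ρ) (BC X) (by rw [← map_pow, hXr, map_one])
    (fun g => by
      show BC X * BC (ρ g) = BC (ρ (α g)) * BC X
      rw [← map_mul, hX, map_mul])
    ((1 : F) ⊗ₜ v0)
    (fun v hv => by
      have hpow : ∀ i : ℕ, (BC X ^ i) v = v := by
        intro i
        induction i with
        | zero => rfl
        | succ i ih => rw [pow_succ, Module.End.mul_apply, hv, ih]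
      have h1 : (r : F) • v = BC (∑ i ∈ Finset.range r, X ^ i) v := by
        rw [map_sum, LinearMap.sum_apply, Finset.sum_congr rfl (fun i _ => by rw [map_pow, hpow]),
          Finset.sum_const, Finset.card_range, Nat.cast_smul_eq_nsmul]
      have h2 : ∀ u, ∃ c : F, BC (∑ i ∈ Finset.range r, X ^ i) u = c • ((1 : F) ⊗ₜ[R] v0) := by
        intro u
        induction u with
        | zero => exact ⟨0, by rw [map_zero, zero_smul]⟩
        | tmul c w =>
          obtain ⟨d, hd⟩ := hC ((∑ i ∈ Finset.range r, X ^ i) w) (by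
            have h1 : (X - 1) * ∑ i ∈ Finset.range r, X ^ i = 0 := by rw [mul_geom_sum, hXr, sub_self]
            have h2 := LinearMap.congr_fun h1 w
            rw [Module.End.mul_apply, LinearMap.sub_apply, LinearMap.zero_apply, sub_eq_zero] at h2
            exact h2)
          refine ⟨d • c, ?_⟩
          rw [hBC, hd, TensorProduct.smul_tmul', ← TensorProduct.smul_tmul, smul_eq_mul, mul_one]
        | add x y hx hy =>
          obtain ⟨c, hc⟩ := hx
          obtain ⟨d, hd⟩ := hy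
          exact ⟨c + d, by rw [map_add, hc, hd, add_smul]⟩
      obtain ⟨c, hc⟩ := h2 v
      exact ⟨(r : F)⁻¹ * c, by rw [← smul_smul, ← hc, ← h1, smul_smul, inv_mul_cancel₀ hrF, one_smul]⟩)
    a b
  obtain ⟨φ, hφ⟩ := LinearMap.exists_leftInverse_of_injective (Algebra.linearMap R F)
    (LinearMap.ker_eq_bot.2 (algebraMap R F).injective)
  refine LinearMap.ext fun v => ?_
  have hφ1 : φ 1 = 1 := by simpa using LinearMap.congr_fun hφ 1
  have h4 : (1 : F) ⊗ₜ[R] (ρ a (ρ b v)) = (1 : F) ⊗ₜ[R] (ρ b (ρ a v)) := LinearMap.congr_fun h ((1 : F) ⊗ₜ v)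
  have h5 := congrArg (fun t => TensorProduct.lid R V (φ.rTensor V t)) h4
  simpa [hφ1] using h5

theorem commute_of_frob {A : Type*} [CommGroup A] [Finite A] {K : Type*} [Group K] [Finite K] {ℓ r : ℕ}
    [Fact ℓ.Prime] [Module (ZMod ℓ) (Additive A)] [Group.IsNilpotent K]
    (hr : r.Prime) (hrℓ : ¬ ℓ ∣ r) (hKℓ : ¬ ℓ ∣ Nat.card K) (φ : K →* MulAut A) (α : MulAut K) (hα : α ^ r = 1)
    (hfpf : ∀ g, α g = g → g = 1) (x : MulAut A) (hxr : x ^ r = 1) (a0 : A)
    (hC : ∀ a, x a = a → ∃ n : ℕ, a = a0 ^ n) (hx : ∀ g a, x (φ g a) = φ (α g) (x a))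
    (g h : K) (a : A) : φ g (φ h a) = φ h (φ g a) := by
  let L : MulAut A → Module.End (ZMod ℓ) (Additive A) := fun f =>
    AddMonoidHom.toZModLinearMap ℓ (MonoidHom.toAdditive f.toMonoidHom)
  let ρ : K →* Module.End (ZMod ℓ) (Additive A) :=
    { toFun := fun g => L (φ g)
      map_one' := by
        refine LinearMap.ext fun v => ?_
        show Additive.ofMul (φ 1 v.toMul) = v
        rw [map_one]; rfl
      map_mul' := fun a b => by
        refine LinearMap.ext fun v => ?_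
        show Additive.ofMul (φ (a * b) v.toMul) = Additive.ofMul (φ a (φ b v.toMul))
        rw [map_mul]; rfl }
  have hXpow : ∀ (k : ℕ) (v : Additive A), ((L x) ^ k) v = Additive.ofMul ((x ^ k) v.toMul) := by
    intro k
    induction k with
    | zero => intro v; rfl
    | succ k ih => intro v; rw [pow_succ', Module.End.mul_apply, ih, pow_succ']; rfl
  haveI : FiniteDimensional (ZMod ℓ) (Additive A) := Module.Finite.of_finite
  have h0 : ∀ n : ℕ, ¬ ℓ ∣ n → (n : ZMod ℓ) ≠ 0 := fun n hn h => hn ((ZMod.natCast_eq_zero_iff n ℓ).1 h)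
  have h := linearized hr (h0 r hrℓ) (h0 _ hKℓ) α hα hfpf ρ (L x)
    (LinearMap.ext fun v => by rw [hXpow, hxr]; rfl)
    (fun g => LinearMap.ext fun v => congrArg Additive.ofMul (hx g v.toMul)) (Additive.ofMul a0)
    (fun v hv => by
      obtain ⟨n, hn⟩ := hC v.toMul (congrArg Additive.toMul hv)
      refine ⟨(n : ZMod ℓ), ?_⟩
      rw [Nat.cast_smul_eq_nsmul, ← ofMul_pow, ← hn]
      rfl) g h
  exact congrArg Additive.toMul (LinearMap.congr_fun h (Additive.ofMul a))

/-- Let G and V be subgroups of a finite group with G a Frobenius group with complement R of prime order and kernel K, G normalizing V, and V an elementary abelian ℓ-group for a prime ℓ not dividing the order of G. If C_V(R) has order ℓ, then the derived subgroup of K centralizes V. -/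
theorem result {X : Type*} [Group X] [Finite X] (G : Subgroup X) (V : Subgroup X) {ℓ : ℕ} (hℓ : ℓ.Prime) (hV : Cfsg.IsElementaryAbelian ℓ V) (hℓG : ¬ ℓ ∣ Nat.card G) (hGV : G ≤ Subgroup.normalizer (V : Set X)) (R : Subgroup ↥G) (hR : Cfsg.IsFrobeniusComplement R) (hRp : (Nat.card R).Prime) (hCV : Nat.card ↥(V ⊓ Subgroup.centralizer ((R.map G.subtype : Subgroup X) : Set X)) = ℓ) : ⁅Subgroup.closure (Subtype.val '' Cfsg.frobeniusKernel R), Subgroup.closure (Subtype.val '' Cfsg.frobeniusKernel R)⁆ ≤ Subgroup.centralizer (V : Set X) := by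
  classical
  haveI := Fact.mk hℓ
  haveI := Fact.mk hRp
  obtain ⟨Kn, hKnn, hKeq, hKcompl⟩ := Cfsg.Lib.Solv.exists_frobeniusKernel hR
  haveI := hKnn
  obtain ⟨⟨c, hcR⟩, hco⟩ := exists_prime_orderOf_dvd_card' (G := ↥R) (Nat.card R) dvd_rfl
  rw [Subgroup.orderOf_mk] at hco
  have hzR : Subgroup.zpowers c = R :=
    Subgroup.eq_of_le_of_card_ge (Subgroup.zpowers_le.2 hcR) (by rw [Nat.card_zpowers, hco])
  have hrX : orderOf (c : X) = Nat.card R := by rw [← Subgroup.orderOf_coe] at hco; exact hco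
  have hcpow : c ^ Nat.card R = 1 := by rw [← hco]; exact pow_orderOf_eq_one c
  have hc1 : c ≠ 1 := fun h => hRp.one_lt.ne' (by rw [← hco, h, orderOf_one])
  let α : MulAut ↥Kn := MulAut.conjNormal c
  have hα : α ^ Nat.card R = 1 := by rw [← map_pow, hcpow, map_one]
  have hfpf : ∀ g, α g = g → g = 1 := by
    intro g hg
    have h1 : c * (g : ↥G) * c⁻¹ = g := congrArg Subtype.val hg
    have h2 : (g : ↥G) ∈ Kn ⊓ Subgroup.centralizer ({c} : Set ↥G) :=
      ⟨g.2, Subgroup.mem_centralizer_singleton_iff.2 (mul_inv_eq_iff_eq_mul.1 h1).symm⟩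
    rw [Cfsg.Lib.Solv.frob_fpf hR hKcompl.disjoint.eq_bot hcR hc1, Subgroup.mem_bot] at h2
    exact Subtype.ext h2
  haveI : Group.IsNilpotent ↥Kn := by
    by_cases hα1 : α = 1
    · haveI : Subsingleton ↥Kn := ⟨fun x y => (hfpf x (by rw [hα1]; rfl)).trans (hfpf y (by rw [hα1]; rfl)).symm⟩
      infer_instance
    · refine Cfsg.Agent.S0033.result α (fun g hg => hfpf g hg) (Nat.card R) hRp ?_
      exact orderOf_eq_prime hα hα1
  haveI := hV.1
  letI : CommGroup ↥V := { (inferInstance : Group ↥V) with mul_comm := fun a b => mul_comm' a b }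
  letI : Module (ZMod ℓ) (Additive ↥V) := AddCommGroup.zmodModule fun a =>
    Additive.toMul.injective (Subtype.ext (hV.2 a.toMul a.toMul.2))
  let ψ : ↥G →* MulAut ↥V := V.normalizerMonoidHom.comp (Subgroup.inclusion hGV)
  have hψ : ∀ (g : ↥G) (v : ↥V), ((ψ g v : ↥V) : X) = (g : X) * v * (g : X)⁻¹ := fun g v => rfl
  have hcent : ∀ v : X, v ∈ Subgroup.centralizer ((R.map G.subtype : Subgroup X) : Set X) ↔ (c : X) * v = v * c := by
    intro v
    rw [← hzR, MonoidHom.map_zpowers, Subgroup.zpowers_eq_closure, Subgroup.centralizer_closure,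
      Subgroup.mem_centralizer_singleton_iff]
    exact eq_comm
  obtain ⟨⟨a0, ha0V, ha0C⟩, ha0⟩ : ∃ a : ↥(V ⊓ Subgroup.centralizer ((R.map G.subtype : Subgroup X) : Set X)), a ≠ 1 := by
    haveI : Nontrivial ↥(V ⊓ Subgroup.centralizer ((R.map G.subtype : Subgroup X) : Set X)) :=
      Finite.one_lt_card_iff_nontrivial.1 (by rw [hCV]; exact hℓ.one_lt)
    exact exists_ne 1
  have hC : ∀ a : ↥V, ψ c a = a → ∃ n : ℕ, a = (⟨a0, ha0V⟩ : ↥V) ^ n := by
    intro a ha
    have h1 : (c : X) * a * (c : X)⁻¹ = a := congrArg Subtype.val ha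
    have h2 : (a : X) ∈ V ⊓ Subgroup.centralizer ((R.map G.subtype : Subgroup X) : Set X) :=
      ⟨a.2, (hcent a).2 (mul_inv_eq_iff_eq_mul.1 h1)⟩
    haveI := Fact.mk hℓ
    have h3 := mem_powers_of_prime_card (g' := (⟨(a : X), h2⟩ : ↥(V ⊓ Subgroup.centralizer ((R.map G.subtype : Subgroup X) : Set X)))) hCV ha0
    obtain ⟨n, hn⟩ := h3
    exact ⟨n, Subtype.ext (congrArg Subtype.val hn).symm⟩
  have hcardG : Nat.card ↥Kn ∣ Nat.card ↥G := Subgroup.card_subgroup_dvd_card Kn
  have hcomm := commute_of_frob (A := ↥V) (K := ↥Kn) hRp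
    (fun h => hℓG (h.trans (Subgroup.card_subgroup_dvd_card R))) (fun h => hℓG (h.trans hcardG))
    (ψ.comp Kn.subtype) α hα hfpf (ψ c) (by rw [← map_pow, hcpow, map_one]) ⟨a0, ha0V⟩ hC
    (fun g a => by
      show ψ c (ψ (g : ↥G) a) = ψ (c * (g : ↥G) * c⁻¹) (ψ c a)
      rw [← MulAut.mul_apply, ← MulAut.mul_apply, ← map_mul, ← map_mul, inv_mul_cancel_right])
  have hcl : Subgroup.closure (Subtype.val '' Cfsg.frobeniusKernel R) = Kn.map G.subtype := by
    rw [← hKeq, show (Subtype.val '' (Kn : Set ↥G)) = ((Kn.map G.subtype : Subgroup X) : Set X) from rfl,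
      Subgroup.closure_eq]
  rw [hcl, Subgroup.commutator_le]
  rintro _ ⟨g, hg, rfl⟩ _ ⟨h, hh, rfl⟩
  rw [Subgroup.mem_centralizer_iff]
  intro v hv
  have h1 := hcomm ⟨g, hg⟩ ⟨h, hh⟩ ⟨(h : X)⁻¹ * (g : X)⁻¹ * v * (g : X) * (h : X), by
    have h2 := (Subgroup.mem_normalizer_iff''.1 (hGV g.2) v).1 hv
    have h3 := (Subgroup.mem_normalizer_iff''.1 (hGV h.2) _).1 h2
    rwa [show (h : X)⁻¹ * ((g : X)⁻¹ * v * (g : X)) * (h : X) = (h : X)⁻¹ * (g : X)⁻¹ * v * (g : X) * (h : X) by group] at h3⟩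
  have h4 : (g : X) * ((h : X) * ((h : X)⁻¹ * (g : X)⁻¹ * v * (g : X) * (h : X)) * (h : X)⁻¹) * (g : X)⁻¹ =
      (h : X) * ((g : X) * ((h : X)⁻¹ * (g : X)⁻¹ * v * (g : X) * (h : X)) * (g : X)⁻¹) * (h : X)⁻¹ :=
    congrArg Subtype.val h1
  show v * ⁅(g : X), (h : X)⁆ = ⁅(g : X), (h : X)⁆ * v
  rw [commutatorElement_def]
  calc v * ((g : X) * (h : X) * (g : X)⁻¹ * (h : X)⁻¹)
      = ((g : X) * (h : X) * (g : X)⁻¹ * (h : X)⁻¹) * ((h : X) * ((g : X) * ((h : X)⁻¹ * (g : X)⁻¹ * v * (g : X) * (h : X)) * (g : X)⁻¹) * (h : X)⁻¹) := by group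
    _ = ((g : X) * (h : X) * (g : X)⁻¹ * (h : X)⁻¹) * ((g : X) * ((h : X) * ((h : X)⁻¹ * (g : X)⁻¹ * v * (g : X) * (h : X)) * (h : X)⁻¹) * (g : X)⁻¹) := by rw [h4]
    _ = ((g : X) * (h : X) * (g : X)⁻¹ * (h : X)⁻¹) * v := by group


end Cfsg.Agent.S3770
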