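import Cfsg.Statements.S3771
import Mathlib
import Cfsg.Agent.Lib.Transfer.PGroupNormal
-- import your own Cfsg.Agent.* helpers here

set_option autoImplicit false
open Cfsg

namespace Cfsg.Agent.S3771

/-- Let p be a prime and R a finite p-group of p-rank at most 2 (no elementary abelian subgroup of order p³) in which every element has order dividing p. Then R has order at most p³. -/
theorem result {R : Type*} [Group R] [Finite R] {p : ℕ} [Fact p.Prime] (hR : IsPGroup p R) (hrank : Cfsg.PRankLE p 2 R) (hexp : ∀ x : R, x ^ p = 1) : Nat.card R ≤ p ^ 3 := by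
  obtain ⟨A, ⟨hAn, hAc⟩, hmax⟩ := (Set.toFinite {A : Subgroup R | A.Normal ∧ IsMulCommutative A}).exists_maximal
    ⟨⊥, inferInstance, inferInstance⟩
  have hC := Cfsg.Lib.Transfer.centralizer_eq_of_maximal_normal_abelian hR A hAc
    (fun B hB hBc hle => le_antisymm (hmax ⟨hB, hBc⟩ hle) hle)
  obtain ⟨a, ha⟩ := IsPGroup.iff_card.1 (hR.to_subgroup A)
  obtain ⟨B, hBn, hBA, hBc, hBi⟩ :=
    Cfsg.Lib.Transfer.exists_normal_card_index_centralizer hR A ha a le_rfl
  obtain rfl : B = A := Subgroup.eq_of_le_of_card_ge hBA (by rw [hBc, ha])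
  rw [hC] at hBi
  have h2 : p ^ a ≤ p ^ 2 := ha ▸ hrank B hAc (fun x _ => hexp x)
  have ha2 : a ≤ 2 := (Nat.pow_le_pow_iff_right (Fact.out : p.Prime).two_le).1 h2
  rw [← B.card_mul_index, ha]
  calc p ^ a * B.index ≤ p ^ a * p ^ a.choose 2 := Nat.mul_le_mul_left _ hBi
    _ ≤ p ^ 3 := by
      rw [← pow_add]
      refine Nat.pow_le_pow_right (Fact.out : p.Prime).pos ?_
      interval_cases a <;> simp [Nat.choose]

end Cfsg.Agent.S3771
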