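import Cfsg.Statements.S3772
import Cfsg.Agent.Lib.Solv.PGroupBasic

set_option autoImplicit false
open Cfsg

namespace Cfsg.Agent.S3772

open scoped commutatorElement

variable {G : Type*} [Group G]

/-- the sign of a member of a group of order two -/
noncomputable def χ (a : G) : ℤ := open scoped Classical in if a = 1 then 1 else -1

theorem χ_mul {H : Subgroup G} (hH : Nat.card H = 2) {a b : G} (ha : a ∈ H) (hb : b ∈ H) :
    χ (a * b) = χ a * χ b := by
  classical
  by_cases ha1 : a = 1
  · simp [ha1, χ]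
  by_cases hb1 : b = 1
  · simp [hb1, χ]
  have hab : a * b = 1 := by
    by_contra h
    obtain ⟨u, v, -, huv⟩ := Nat.card_eq_two_iff.1 hH
    have key : ∀ c : H, c ≠ 1 → ∀ c' : H, c' ≠ 1 → c = c' := by
      intro c hc c' hc'
      have h1 : c ∈ ({u, v} : Set H) := huv ▸ Set.mem_univ c
      have h2 : c' ∈ ({u, v} : Set H) := huv ▸ Set.mem_univ c'
      have h3 : (1 : H) ∈ ({u, v} : Set H) := huv ▸ Set.mem_univ _
      simp only [Set.mem_insert_iff, Set.mem_singleton_iff] at h1 h2 h3
      grind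
    have e1 := congrArg Subtype.val (key ⟨a, ha⟩ (by simpa [Subtype.ext_iff] using ha1) ⟨a * b, mul_mem ha hb⟩
      (by simpa [Subtype.ext_iff] using h))
    exact hb1 (mul_left_cancel (a := a) (by simpa using e1.symm))
  simp [χ, ha1, hb1, hab]

/-- a multiplicative sign sums to the group order or to zero -/
theorem sum_sign [Finite G] (φ : G → ℤ) (h : ∀ a b, φ (a * b) = φ a * φ b) [Fintype G] :
    (∀ a, φ a = 1) ∨ ∑ a, φ a = 0 := by
  by_cases hall : ∀ a, φ a = 1
  · exact Or.inl hall
  right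
  push Not at hall
  obtain ⟨a, ha⟩ := hall
  have h1 : ∑ x, φ x = φ a * ∑ x, φ x := by
    conv_lhs => rw [← Equiv.sum_comp (Equiv.mulLeft a) φ]
    simp [h, Finset.mul_sum]
  have : (φ a - 1) * ∑ x, φ x = 0 := by rw [sub_mul, one_mul, ← h1, sub_self]
  rcases mul_eq_zero.1 this with h2 | h2
  · exact absurd (by linarith) ha
  · exact h2

/-- Let G be a finite 2-group whose Frattini subgroup Φ(G) has order 2, with |G : Φ(G)| = 2^d, and let j be the number of elements x of G with x² = 1. Then j = 2^d, or j = 2^d + 2^(d−r) or j = 2^d − 2^(d−r) for some positive integer r with 2r ≤ d. Moreover if d = 2r and j is 2^d + 2^r or 2^d − 2^r, then G is extraspecial. -/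
theorem result {G : Type*} [Group G] [Finite G] (hG : IsPGroup 2 G) (hΦ : Nat.card (frattini G) = 2) (d : ℕ) (hd : (frattini G).index = 2 ^ d) : (Nat.card {x : G // x ^ 2 = 1} = 2 ^ d ∨ ∃ r : ℕ, 1 ≤ r ∧ 2 * r ≤ d ∧ (Nat.card {x : G // x ^ 2 = 1} = 2 ^ d + 2 ^ (d - r) ∨ Nat.card {x : G // x ^ 2 = 1} + 2 ^ (d - r) = 2 ^ d)) ∧ (∀ r : ℕ, d = 2 * r → (Nat.card {x : G // x ^ 2 = 1} = 2 ^ d + 2 ^ r ∨ Nat.card {x : G // x ^ 2 = 1} + 2 ^ r = 2 ^ d) → Cfsg.IsExtraspecial 2 G) := by
  classical
  have := Fintype.ofFinite G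
  have := Fact.mk Nat.prime_two
  set Φ := frattini G with hΦdef
  have hn : Φ.Normal := inferInstanceAs (frattini G).Normal
  have hsq : ∀ x : G, x ^ 2 ∈ Φ := Cfsg.Lib.Solv.pow_mem_frattini hG
  have hcomm : ∀ a b : G, ⁅a, b⁆ ∈ Φ := fun a b => Cfsg.Lib.Solv.commutator_le_frattini hG
    (Subgroup.commutator_mem_commutator (Subgroup.mem_top a) (Subgroup.mem_top b))
  have hcent : Φ ≤ Subgroup.center G := by
    intro z hz
    rw [Subgroup.mem_center_iff]
    intro g
    by_cases hz1 : z = 1
    · simp [hz1]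
    have hc : χ (g * z * g⁻¹) = -1 := by
      simp [χ, hz1]
    have h1 : g * z * g⁻¹ * z ∈ Φ := mul_mem (hn.conj_mem z hz g) hz
    have h2 : χ (g * z * g⁻¹ * z) = 1 := by
      rw [χ_mul hΦ (hn.conj_mem z hz g) hz, hc]; simp [χ, hz1]
    have h3 : g * z * g⁻¹ * z = 1 := by
      by_contra h; simp [χ, h] at h2
    have hzz : z * z = 1 := by
      have h4 : χ (z * z) = 1 := by rw [χ_mul hΦ hz hz]; simp [χ, hz1]
      by_contra h; simp [χ, h] at h4
    have h5 : g * z * g⁻¹ = z := by
      rw [eq_inv_of_mul_eq_one_left h3]; exact inv_eq_of_mul_eq_one_right hzz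
    calc g * z = g * z * g⁻¹ * g := by group
      _ = z * g := by rw [h5]
  let f : G → ℤ := fun x => χ (x ^ 2)
  have hfc : ∀ x u, f (x * u) = f x * f u * χ ⁅u, x⁆ := by
    intro x u
    have hk : (x * u) ^ 2 = x ^ 2 * u ^ 2 * ⁅u, x⁆ := by
      have hc := Subgroup.mem_center_iff.1 (hcent (hcomm u x))
      calc (x * u) ^ 2 = x * (⁅u, x⁆ * x) * u * u := by rw [pow_two, commutatorElement_def]; group
        _ = ⁅u, x⁆ * (x ^ 2 * u ^ 2) := by rw [← mul_assoc x, hc x]; simp only [pow_two, mul_assoc]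
        _ = _ := (hc _).symm
    simp only [f, hk]
    rw [χ_mul hΦ (mul_mem (hsq x) (hsq u)) (hcomm u x), χ_mul hΦ (hsq x) (hsq u)]
  have hff : ∀ x, f x * f x = 1 := fun x => by simp only [f, χ]; split <;> rfl
  have hcomm_hom : ∀ u a b : G, χ ⁅u, a * b⁆ = χ ⁅u, a⁆ * χ ⁅u, b⁆ := by
    intro u a b
    have e : ⁅u, a * b⁆ = ⁅u, a⁆ * (a * ⁅u, b⁆ * a⁻¹) := by simp only [commutatorElement_def]; group
    rw [e, Subgroup.mem_center_iff.1 (hcent (hcomm u b)) a, mul_inv_cancel_right,
      χ_mul hΦ (hcomm u a) (hcomm u b)]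
  set T := ∑ x, f x with hT
  set Z := Subgroup.center G with hZ
  have hTsq : T * T = (Nat.card G : ℤ) * ∑ u : Z, f u := by
    calc T * T = ∑ x, ∑ u, f u * χ ⁅u, x⁆ := by
          rw [hT, Finset.sum_mul]
          refine Finset.sum_congr rfl fun x _ => ?_
          rw [Finset.mul_sum, ← Equiv.sum_comp (Equiv.mulLeft x) fun y => f x * f y]
          refine Finset.sum_congr rfl fun u _ => ?_
          simp only [Equiv.coe_mulLeft, hfc]
          linear_combination (f u * χ ⁅u, x⁆) * hff x
      _ = ∑ u, if u ∈ Z then (Nat.card G : ℤ) * f u else 0 := by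
          rw [Finset.sum_comm]
          refine Finset.sum_congr rfl fun u _ => ?_
          rw [← Finset.mul_sum]
          split_ifs with hu
          · have : ∀ x, χ ⁅u, x⁆ = 1 := fun x => by
              rw [commutatorElement_eq_one_iff_mul_comm.2 (Subgroup.mem_center_iff.1 hu x).symm]; simp [χ]
            simp [this, Nat.card_eq_fintype_card, mul_comm]
          · rcases sum_sign (fun x => χ ⁅u, x⁆) (hcomm_hom u) with h | h
            · refine absurd (Subgroup.mem_center_iff.2 fun x => ?_) hu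
              refine (commutatorElement_eq_one_iff_mul_comm.1 ?_).symm
              by_contra hne
              simpa [χ, hne] using h x
            · rw [h, mul_zero]
      _ = _ := by
          rw [← Finset.sum_filter, Finset.mul_sum]
          exact (Finset.sum_subtype _ (by simp) _)
  have hfZ : ∀ a b : Z, f ((a * b : Z) : G) = f a * f b := fun a b => by
    rw [Subgroup.coe_mul, hfc, commutatorElement_eq_one_iff_mul_comm.2 (Subgroup.mem_center_iff.1 a.2 b)]
    simp [χ]
  have hcardG : Nat.card G = 2 ^ (d + 1) := by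
    rw [← Φ.card_mul_index, hΦ, hd, pow_succ']
  obtain ⟨e, he, hZe⟩ := (Nat.dvd_prime_pow Nat.prime_two).1 (hcardG ▸ Z.card_subgroup_dvd_card)
  set j := Nat.card {x : G // x ^ 2 = 1} with hj
  have hjT : (2 * j : ℤ) = 2 ^ (d + 1) + T := by
    have h1 : ∀ x, f x = 2 * (if x ^ 2 = 1 then 1 else 0) - 1 := fun x => by
      simp only [f, χ]; split <;> rfl
    rw [hT, Finset.sum_congr rfl fun x _ => h1 x, Finset.sum_sub_distrib, ← Finset.mul_sum,
      Finset.sum_boole, hj, Nat.card_eq_fintype_card, Fintype.card_subtype]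
    have : (Fintype.card G : ℤ) = 2 ^ (d + 1) := by
      rw [← Nat.card_eq_fintype_card, hcardG]; push_cast; rfl
    simp [this]
  have hnab : Subgroup.center G = ⊤ → ∃ x : G, x ^ 2 ≠ 1 := by
    intro hab
    by_contra! hx
    have hbot := Cfsg.Lib.Solv.frattini_le_of_elementary_quotient (p := 2) (⊥ : Subgroup G) (by
      rw [commutator_def, Subgroup.commutator_le]
      intro a _ b _
      rw [Subgroup.mem_bot, commutatorElement_eq_one_iff_mul_comm]
      exact Subgroup.mem_center_iff.1 (hab ▸ Subgroup.mem_top b) a) (by simpa using hx)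
    rw [← hΦdef, le_bot_iff] at hbot
    rw [hbot, Subgroup.card_bot] at hΦ
    omega
  have hmain : T = 0 ∨ ∃ k, T.natAbs = 2 ^ k ∧ 2 * k = d + 1 + e ∧ 1 ≤ e ∧ e ≤ d := by
    rcases sum_sign (fun u : Z => f u) hfZ with h | h
    · right
      have h2 : T.natAbs * T.natAbs = 2 ^ (d + 1) * 2 ^ e := by
        rw [← Int.natAbs_mul, hTsq]
        simp [h, ← hcardG, ← hZe, Nat.card_eq_fintype_card, Int.natAbs_mul, Int.natAbs_pow]
      rw [← pow_add] at h2
      obtain ⟨k, -, hk⟩ := (Nat.dvd_prime_pow Nat.prime_two).1 (⟨_, h2.symm⟩ : T.natAbs ∣ 2 ^ (d + 1 + e))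
      refine ⟨k, hk, ?_, ?_, ?_⟩
      · rw [hk, ← pow_add] at h2
        have := Nat.pow_right_injective (le_refl 2) h2
        omega
      · have := Subgroup.card_le_of_le hcent
        rw [hΦ, hZe] at this
        by_contra h0
        interval_cases e
        simp at this
      · by_contra h0
        have htop : Z = ⊤ := Subgroup.eq_top_of_card_eq _ (by rw [hZe, hcardG, show e = d + 1 by omega])
        obtain ⟨x, hx⟩ := hnab htop
        have := h ⟨x, htop ▸ Subgroup.mem_top x⟩
        simp [f, χ, hx] at this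
    · left
      rw [h, mul_zero] at hTsq
      exact mul_self_eq_zero.1 hTsq
  constructor
  · rcases hmain with h0 | ⟨k, hk, hke, he1, hed⟩
    · left
      have : (2 * j : ℤ) = ((2 ^ (d + 1) : ℕ) : ℤ) := by rw [hjT, h0]; push_cast; ring
      have h2 : 2 * j = 2 ^ (d + 1) := by exact_mod_cast this
      rw [pow_succ] at h2
      omega
    · right
      refine ⟨d + 1 - k, by omega, by omega, ?_⟩
      have hk' : d - (d + 1 - k) = k - 1 := by omega
      rw [hk']
      have hp : 2 ^ k = 2 * 2 ^ (k - 1) := by rw [← pow_succ', Nat.sub_add_cancel (by omega)]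
      have hp2 : (2 ^ (d + 1) : ℕ) = 2 * 2 ^ d := pow_succ' 2 d
      have hjT' : (2 * j : ℤ) = ((2 ^ (d + 1) : ℕ) : ℤ) + T := by rw [hjT]; push_cast; ring
      generalize 2 ^ (k - 1) = A at *
      generalize 2 ^ k = B at *
      generalize 2 ^ (d + 1) = C at *
      generalize 2 ^ d = D at *
      rcases Int.natAbs_eq T with hT' | hT' <;> rw [hk] at hT' <;> omega
  · intro r hr hjr
    have hTr : T.natAbs = 2 ^ (r + 1) := by
      have hjT' : (2 * j : ℤ) = ((2 * 2 ^ d : ℕ) : ℤ) + T := by rw [hjT]; push_cast; ring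
      rw [pow_succ']
      generalize 2 ^ d = D at *
      generalize 2 ^ r = R at *
      omega
    rcases hmain with h0 | ⟨k, hk, hke, he1, hed⟩
    · rw [h0] at hTr
      exact absurd hTr.symm (by simp)
    have hkr : k = r + 1 := Nat.pow_right_injective (le_refl 2) (hk.symm.trans hTr)
    have hZ2 : Nat.card Z = 2 := by rw [hZe, show e = 1 by omega, pow_one]
    have hΦZ : Φ = Z := Subgroup.eq_of_le_of_card_ge hcent (by rw [hZ2, hΦ])
    refine ⟨⟨hG, hΦZ, ?_⟩, hZ2⟩
    refine Subgroup.eq_of_le_of_card_ge ((Cfsg.Lib.Solv.commutator_le_frattini hG).trans hcent) ?_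
    rw [hZ2]
    by_contra hlt
    have h1 : commutator G = ⊥ := Subgroup.card_eq_one.1 (by have := Nat.card_pos (α := commutator G); omega)
    have htop : Z = ⊤ := by
      refine eq_top_iff.2 fun z _ => Subgroup.mem_center_iff.2 fun g => ?_
      refine commutatorElement_eq_one_iff_mul_comm.1 (Subgroup.mem_bot.1 (h1 ▸ ?_))
      exact Subgroup.commutator_mem_commutator (Subgroup.mem_top g) (Subgroup.mem_top z)
    rw [htop, Subgroup.card_top, hcardG] at hZ2
    have := Nat.pow_right_injective (le_refl 2) (hZ2.trans (pow_one 2).symm)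
    omega

end Cfsg.Agent.S3772
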