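import Cfsg.Statements.S3774
import Mathlib
import Mathlib
-- import your own Cfsg.Agent.* helpers here

set_option autoImplicit false
open Cfsg

namespace Cfsg.Agent.S3774

/-- Let G be a nontrivial finite 2-group whose automorphism group permutes the involutions of G transitively. Then every involution of G is central, so that the involutions together with 1 form the subgroup Ω₁(Z(G)), and if this subgroup has order q then |G| is a power of q. -/
theorem result {G : Type*} [Group G] [Finite G] [Nontrivial G] (hG : IsPGroup 2 G) (htrans : ∀ x y : G, x ≠ 1 → x ^ 2 = 1 → y ≠ 1 → y ^ 2 = 1 → ∃ a : MulAut G, a x = y) : (∀ x : G, x ^ 2 = 1 → x ∈ Subgroup.center G) ∧ ∃ m : ℕ, Nat.card G = Nat.card {z : G // z ^ 2 = 1} ^ m := by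
  classical
  haveI := Fact.mk Nat.prime_two
  haveI := hG.center_nontrivial
  obtain ⟨n, hn⟩ := (hG.to_subgroup (Subgroup.center G)).exists_card_eq
  have hn0 : n ≠ 0 := fun e => by
    rw [e, pow_zero] at hn
    exact absurd hn (Finite.one_lt_card (α := Subgroup.center G)).ne'
  obtain ⟨i, hi⟩ := exists_prime_orderOf_dvd_card' (G := Subgroup.center G) 2 (hn ▸ dvd_pow_self 2 hn0)
  have hi1 : (i : G) ≠ 1 := fun e => by rw [show i = 1 from Subtype.ext e, orderOf_one] at hi; omega
  have hi2 : (i : G) ^ 2 = 1 := by rw [← hi, ← Subgroup.coe_pow, pow_orderOf_eq_one]; rfl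
  have hcen : ∀ x : G, x ^ 2 = 1 → x ∈ Subgroup.center G := by
    intro x hx
    by_cases hx1 : x = 1
    · rw [hx1]; exact one_mem _
    obtain ⟨a, ha⟩ := htrans _ x hi1 hi2 hx1 hx
    rw [Subgroup.mem_center_iff]
    intro g
    have h := congrArg a (Subgroup.mem_center_iff.1 i.2 (a.symm g))
    rwa [map_mul, map_mul, ha, MulEquiv.apply_symm_apply] at h
  refine ⟨hcen, ?_⟩
  haveI := Fintype.ofFinite G
  let E : Subgroup G :=
    { carrier := {x | x ^ 2 = 1}
      one_mem' := one_pow 2
      mul_mem' := fun {a b} ha hb => by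
        show (a * b) ^ 2 = 1
        rw [(show Commute a b from Subgroup.mem_center_iff.1 (hcen b hb) a).mul_pow, ha, hb, one_mul]
      inv_mem' := fun {a} ha => by show a⁻¹ ^ 2 = 1; rw [inv_pow, ha, inv_one] }
  -- the map to the involution below an element
  let J : Finset G := Finset.univ.filter fun x => x ≠ 1
  let K : Finset G := Finset.univ.filter fun x => x ≠ 1 ∧ x ^ 2 = 1
  let f : G → G := fun x => x ^ (orderOf x / 2)
  have heven : ∀ x : G, x ≠ 1 → 2 ∣ orderOf x := by
    intro x hx
    obtain ⟨k, hk⟩ := hG x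
    obtain ⟨j, -, hj⟩ := (Nat.dvd_prime_pow Nat.prime_two).1 (orderOf_dvd_of_pow_eq_one hk)
    rcases j with _ | j
    · exact absurd (orderOf_eq_one_iff.1 (hj.trans (pow_zero 2))) hx
    · rw [hj]; exact dvd_pow_self 2 j.succ_ne_zero
  have hf : ∀ x ∈ J, f x ∈ K := by
    intro x hx
    simp only [J, K, f, Finset.mem_filter, Finset.mem_univ, true_and] at hx ⊢
    have ho : orderOf (x ^ (orderOf x / 2)) = 2 := orderOf_pow_orderOf_div (orderOf_pos x).ne' (heven x hx)
    refine ⟨fun h => ?_, by rw [← pow_mul, Nat.div_mul_cancel (heven x hx), pow_orderOf_eq_one]⟩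
    rw [h, orderOf_one] at ho
    omega
  have hfeq : ∀ (φ : MulAut G) (x : G), f (φ x) = φ (f x) := fun φ x => by
    simp only [f, map_pow, MulEquiv.orderOf_eq]
  have hle : ∀ u ∈ K, ∀ v ∈ K, (J.filter fun x => f x = u).card ≤ (J.filter fun x => f x = v).card := by
    intro u hu v hv
    simp only [K, Finset.mem_filter, Finset.mem_univ, true_and] at hu hv
    obtain ⟨φ, hφ⟩ := htrans u v hu.1 hu.2 hv.1 hv.2
    refine Finset.card_le_card_of_injOn φ ?_ φ.injective.injOn
    intro x hx
    simp only [J, Finset.coe_filter, Finset.mem_filter, Finset.mem_univ, true_and, Set.mem_ofPred_eq] at hx ⊢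
    refine ⟨fun h => hx.1 (φ.injective (h.trans (map_one φ).symm)), ?_⟩
    rw [hfeq, hx.2, hφ]
  have hiK : (i : G) ∈ K := by simp [K, hi1, hi2]
  have hJ : J.card = K.card * (J.filter fun x => f x = (i : G)).card := by
    rw [Finset.card_eq_sum_card_fiberwise hf, Finset.sum_congr rfl fun u hu => le_antisymm (hle u hu _ hiK) (hle _ hiK u hu),
      Finset.sum_const, smul_eq_mul]
  have hJc : J.card = Nat.card G - 1 := by
    rw [Nat.card_eq_fintype_card, show J = Finset.univ.erase 1 from Finset.ext (by simp [J]),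
      Finset.card_erase_of_mem (Finset.mem_univ _), Finset.card_univ]
  have hKc : K.card = Nat.card {z : G // z ^ 2 = 1} - 1 := by
    rw [Nat.card_eq_fintype_card, Fintype.card_subtype,
      show K = (Finset.univ.filter fun z : G => z ^ 2 = 1).erase 1 from Finset.ext (by simp [K]),
      Finset.card_erase_of_mem (by simp)]
  obtain ⟨N, hN⟩ := hG.exists_card_eq
  obtain ⟨r, hr⟩ := (hG.to_subgroup E).exists_card_eq
  have hr' : Nat.card {z : G // z ^ 2 = 1} = 2 ^ r := hr
  rw [hJc, hKc, hN, hr'] at hJ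
  rw [hr', hN]
  obtain ⟨m, rfl⟩ : r ∣ N := by
    have h1 : 2 ^ r - 1 ∣ 2 ^ N - 1 := ⟨_, hJ⟩
    have h2 := Nat.pow_sub_one_gcd_pow_sub_one 2 r N
    rw [Nat.gcd_eq_left h1] at h2
    have h3 : 2 ^ r = 2 ^ r.gcd N := by
      have := Nat.one_le_two_pow (n := r)
      have := Nat.one_le_two_pow (n := r.gcd N)
      omega
    rw [Nat.pow_right_injective le_rfl h3]
    exact Nat.gcd_dvd_right r N
  exact ⟨m, by rw [pow_mul]⟩

end Cfsg.Agent.S3774
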