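import Cfsg.Statements.S3775
import Mathlib
-- import your own Cfsg.Agent.* helpers here

set_option autoImplicit false
open Cfsg

namespace Cfsg.Agent.S3775

universe u v

variable {A : Type u} [CommGroup A] [Finite A] {X : Type v} [Group X] [Finite X]

omit [Finite A] in
/-- A complement of an invariant subgroup can be averaged to an invariant one. -/
theorem exists_invariant_compl (σ : X →* MulAut A) (B K : Subgroup A) (hB : ∀ x, ∀ b ∈ B, σ x b ∈ B)
    (hd : B ⊓ K = ⊥) (hs : B ⊔ K = ⊤) (N : ℕ) (hN : ∀ a : A, a ^ N = 1) (hco : (Nat.card X).Coprime N) :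
    ∃ K' : Subgroup A, (∀ x, ∀ k ∈ K', σ x k ∈ K') ∧ B ⊓ K' = ⊥ ∧ B ⊔ K' = ⊤ := by
  classical
  haveI := Fintype.ofFinite X
  let P : ↥B × ↥K →* A := MonoidHom.coprod B.subtype K.subtype
  have hP : Function.Bijective P := by
    refine ⟨(injective_iff_map_eq_one P).2 ?_, fun a => ?_⟩
    · rintro ⟨b, k⟩ h
      simp only [P, MonoidHom.coprod_apply, Subgroup.coe_subtype] at h
      have hb : (b : A) ∈ B ⊓ K := ⟨b.2, by rw [eq_inv_of_mul_eq_one_left h]; exact K.inv_mem k.2⟩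
      rw [hd, Subgroup.mem_bot] at hb
      rw [hb, one_mul] at h
      exact Prod.ext (Subtype.ext hb) (Subtype.ext h)
    · obtain ⟨b, hb, k, hk, rfl⟩ := Subgroup.mem_sup.1 (show a ∈ B ⊔ K by rw [hs]; trivial)
      exact ⟨(⟨b, hb⟩, ⟨k, hk⟩), rfl⟩
  let e := MulEquiv.ofBijective P hP
  let π : A →* A := B.subtype.comp ((MonoidHom.fst _ _).comp e.symm.toMonoidHom)
  have hπB : ∀ a, π a ∈ B := fun a => (e.symm a).1.2
  have hπid : ∀ b ∈ B, π b = b := fun b hb => by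
    have : e.symm b = (⟨b, hb⟩, 1) := e.symm_apply_eq.2 (by simp [e, P])
    simp [π, this]
  obtain ⟨m, hm⟩ : ∃ m : ℕ, ∀ a : A, (a ^ Fintype.card X) ^ m = a := by
    rcases Nat.eq_zero_or_pos N with rfl | hNpos
    · rw [Nat.coprime_zero_right, Nat.card_eq_fintype_card] at hco
      exact ⟨1, fun a => by rw [hco, pow_one, pow_one]⟩
    · haveI : NeZero N := ⟨hNpos.ne'⟩
      refine ⟨((Fintype.card X : ZMod N)⁻¹).val, fun a => ?_⟩
      have h : Fintype.card X * ((Fintype.card X : ZMod N)⁻¹).val ≡ 1 [MOD N] := by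
        rw [← ZMod.natCast_eq_natCast_iff]
        push_cast [ZMod.natCast_zmod_val]
        exact ZMod.coe_mul_inv_eq_one _ (Nat.card_eq_fintype_card (α := X) ▸ hco)
      rw [← pow_mul]
      conv_rhs => rw [← pow_one a]
      exact pow_eq_pow_iff_modEq.2 (h.of_dvd (orderOf_dvd_of_pow_eq_one (hN a)))
  let τ : A →* A := (powMonoidHom m).comp (∏ x : X, ((σ x).toMonoidHom.comp (π.comp (σ x⁻¹).toMonoidHom)))
  have hτ : ∀ a, τ a = (∏ x : X, σ x (π (σ x⁻¹ a))) ^ m := fun a => by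
    simp [τ, MonoidHom.finsetProd_apply, Finset.prod_pow]
  have hτB : ∀ a, τ a ∈ B := fun a => by
    rw [hτ]; exact B.pow_mem (B.prod_mem fun x _ => hB x _ (hπB _)) m
  have hτid : ∀ b ∈ B, τ b = b := fun b hb => by
    rw [hτ, Finset.prod_congr rfl (fun x _ => show σ x (π (σ x⁻¹ b)) = b by
      rw [hπid _ (hB _ b hb), map_inv, MulAut.apply_inv_self]), Finset.prod_const, Finset.card_univ, hm]
  have hτeq : ∀ y a, τ (σ y a) = σ y (τ a) := fun y a => by
    rw [hτ, hτ, map_pow, map_prod]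
    refine congrArg (· ^ m) (Fintype.prod_equiv (Equiv.mulLeft y⁻¹) _ _ fun x => ?_)
    simp only [Equiv.coe_mulLeft, mul_inv_rev, inv_inv, map_mul, MulAut.mul_apply, map_inv, MulAut.apply_inv_self]
  refine ⟨τ.ker, fun y k hk => ?_, ?_, ?_⟩
  · rw [MonoidHom.mem_ker] at hk ⊢
    rw [hτeq, hk, map_one]
  · rw [eq_bot_iff]
    intro a ha
    rw [Subgroup.mem_bot, ← hτid a ha.1]
    exact ha.2
  · rw [eq_top_iff]
    intro a _
    rw [← mul_inv_cancel_left (τ a) a]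
    refine Subgroup.mul_mem_sup (hτB a) ?_
    rw [MonoidHom.mem_ker, map_mul, map_inv, hτid _ (hτB a), inv_mul_cancel]

theorem exists_compl_of_exponent_prime {p : ℕ} (hp : p.Prime) (he : ∀ a : A, a ^ p = 1) (B : Subgroup A) :
    ∃ D : Subgroup A, B ⊓ D = ⊥ ∧ B ⊔ D = ⊤ := by
  obtain ⟨D, hD, hmax⟩ := {D : Subgroup A | B ⊓ D = ⊥}.toFinite.exists_maximal ⟨⊥, inf_bot_eq B⟩
  refine ⟨D, hD, eq_top_iff.2 fun a _ => ?_⟩
  by_contra ha
  have haD : a ∈ D := by
    refine (hmax (y := D ⊔ Subgroup.zpowers a) ?_ le_sup_left) (Subgroup.mem_sup_right (Subgroup.mem_zpowers a))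
    show B ⊓ _ = ⊥
    rw [eq_bot_iff]
    rintro b ⟨hb, hb'⟩
    obtain ⟨d, hd, z, hz, rfl⟩ := Subgroup.mem_sup.1 hb'
    obtain ⟨k, rfl⟩ := Subgroup.mem_zpowers_iff.1 hz
    by_cases hk : (p : ℤ) ∣ k
    · obtain ⟨l, rfl⟩ := hk
      rw [zpow_mul, zpow_natCast, he, one_zpow, mul_one] at hb ⊢
      exact hD.le ⟨hb, hd⟩
    · exfalso
      apply ha
      obtain ⟨u, v, huv⟩ := (Int.isCoprime_iff_nat_coprime (a := (p : ℤ)) (b := k)).2 (by
        rw [Int.natAbs_natCast, hp.coprime_iff_not_dvd]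
        exact fun h => hk (Int.natCast_dvd.2 h))
      have hak : a ^ k ∈ B ⊔ D := by
        rw [show a ^ k = d⁻¹ * (d * a ^ k) by group]
        exact mul_mem (Subgroup.mem_sup_right (D.inv_mem hd)) (Subgroup.mem_sup_left hb)
      have := (B ⊔ D).zpow_mem hak v
      rwa [← zpow_mul, mul_comm k v, show v * k = 1 - u * p by omega, zpow_sub, zpow_one, mul_comm u,
        zpow_mul, zpow_natCast, he, one_zpow, inv_one, mul_one] at this
  exact ha (Subgroup.mem_sup_right haD)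

omit [Finite X] in
/-- If the elements of order dividing `p` have no invariant subgroups, every invariant subgroup is some omega. -/
theorem omega_of_irreducible {p : ℕ} [Fact p.Prime] (hA : IsPGroup p A) (σ : X →* MulAut A)
    (h3 : ∀ B : Subgroup A, (∀ x, ∀ b ∈ B, σ x b ∈ B) → (∀ b ∈ B, b ^ p = 1) → B = ⊥ ∨ ∀ a : A, a ∈ B ↔ a ^ p = 1)
    (B : Subgroup A) (hB : ∀ x, ∀ b ∈ B, σ x b ∈ B) : ∃ i : ℕ, ∀ a : A, a ∈ B ↔ a ^ p ^ i = 1 := by
  classical
  have hex : ∃ i, ∀ b ∈ B, b ^ p ^ i = 1 := by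
    obtain ⟨i, hi⟩ := IsPGroup.iff_card.1 hA
    exact ⟨i, fun b _ => by rw [← hi]; exact pow_card_eq_one'⟩
  refine ⟨Nat.find hex, fun a => ⟨fun ha => Nat.find_spec hex a ha, ?_⟩⟩
  suffices H : ∀ k, k ≤ Nat.find hex → ∀ c : A, c ^ p ^ k = 1 → c ∈ B from H _ le_rfl a
  intro k
  induction k with
  | zero => intro _ c hc; rw [pow_zero, pow_one] at hc; rw [hc]; exact B.one_mem
  | succ k ih =>
    intro hk c hc
    set i := Nat.find hex with hi
    rcases h3 (B.map (powMonoidHom (p ^ (i - 1)))) (by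
        rintro x _ ⟨b, hb, rfl⟩
        exact ⟨σ x b, hB x b hb, (map_pow (σ x) b _).symm⟩) (by
        rintro _ ⟨b, hb, rfl⟩
        rw [powMonoidHom_apply, ← pow_mul, ← pow_succ, show i - 1 + 1 = i by omega]
        exact Nat.find_spec hex b hb) with h0 | h1
    · exfalso
      refine Nat.find_min hex (show i - 1 < i by omega) fun b hb => ?_
      exact Subgroup.mem_bot.1 (h0.le ⟨b, hb, rfl⟩)
    · obtain ⟨b, hb, hbe⟩ := (h1 (c ^ p ^ k)).2 (by rw [← pow_mul, ← pow_succ, hc])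
      rw [powMonoidHom_apply] at hbe
      set b' := b ^ p ^ (i - 1 - k) with hb'
      have hbk : b' ^ p ^ k = c ^ p ^ k := by
        rw [hb', ← pow_mul, ← pow_add, show i - 1 - k + k = i - 1 by omega, hbe]
      have h2 := ih (by omega) (c * b'⁻¹) (by rw [mul_pow, inv_pow, hbk, mul_inv_cancel])
      have h4 := B.mul_mem h2 (B.pow_mem hb (p ^ (i - 1 - k)))
      rwa [← hb', inv_mul_cancel_right] at h4

/-- The key step: a failure of irreducibility gives a decomposition. -/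
theorem decompose {p : ℕ} [hp : Fact p.Prime] (hA : IsPGroup p A) (σ : X →* MulAut A)
    (hco : (Nat.card X).Coprime p) (hA1 : Nontrivial A)
    (hnot : ¬ ∀ B : Subgroup A, (∀ x, ∀ b ∈ B, σ x b ∈ B) → (∀ b ∈ B, b ^ p = 1) → B = ⊥ ∨ ∀ a : A, a ∈ B ↔ a ^ p = 1) :
    ∃ B C : Subgroup A, B ≠ ⊥ ∧ C ≠ ⊥ ∧ (∀ x, ∀ b ∈ B, σ x b ∈ B) ∧ (∀ x, ∀ c ∈ C, σ x c ∈ C) ∧
      B ⊓ C = ⊥ ∧ B ⊔ C = ⊤ := by
  classical
  have hex : ∃ e, ∀ a : A, a ^ p ^ e = 1 := by
    obtain ⟨e, he⟩ := IsPGroup.iff_card.1 hA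
    exact ⟨e, fun a => by rw [← he]; exact pow_card_eq_one'⟩
  set e := Nat.find hex with he
  have hexp : ∀ a : A, a ^ p ^ e = 1 := Nat.find_spec hex
  have he1 : 1 ≤ e := by
    by_contra h
    obtain ⟨a, ha⟩ := exists_ne (1 : A)
    apply ha
    have := hexp a
    rwa [show e = 0 by omega, pow_zero, pow_one] at this
  set Inv := fun B : Subgroup A => ∀ x, ∀ b ∈ B, σ x b ∈ B
  -- a minimal invariant subgroup inside the top power
  set S := (powMonoidHom (p ^ (e - 1)) : A →* A).range with hS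
  have hSinv : Inv S := by
    rintro x _ ⟨a, rfl⟩; exact ⟨σ x a, (map_pow (σ x) a _).symm⟩
  have hSne : S ≠ ⊥ := fun h => Nat.find_min hex (show e - 1 < e by omega) fun a =>
    Subgroup.mem_bot.1 (h.le ⟨a, rfl⟩)
  obtain ⟨B0, ⟨hB0S, hB0ne, hB0i⟩, hB0min⟩ :=
    {B : Subgroup A | B ≤ S ∧ B ≠ ⊥ ∧ Inv B}.toFinite.exists_minimal ⟨S, le_rfl, hSne, hSinv⟩
  obtain ⟨C, ⟨hCd, hCi⟩, hCmax⟩ :=
    {C : Subgroup A | B0 ⊓ C = ⊥ ∧ Inv C}.toFinite.exists_maximal
      ⟨⊥, inf_bot_eq _, fun x b hb => by rw [Subgroup.mem_bot.1 hb, map_one]; exact one_mem _⟩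
  let q := QuotientGroup.mk' C
  let σ' : X →* MulAut (A ⧸ C) :=
    { toFun := fun x => QuotientGroup.congr C C (σ x) (le_antisymm (Subgroup.map_le_iff_le_comap.2 fun c hc => hCi x c hc)
        (fun c hc => ⟨σ x⁻¹ c, hCi x⁻¹ c hc, by simp⟩))
      map_one' := by
        ext a; induction a using QuotientGroup.induction_on with | H a => simp
      map_mul' := fun x y => by
        ext a; induction a using QuotientGroup.induction_on with | H a => simp }
  have hσ' : ∀ x (a : A), σ' x (q a) = q (σ x a) := fun x a => rfl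
  -- invariant subgroups of the quotient contain the image of B0
  have hcont : ∀ D : Subgroup (A ⧸ C), (∀ x, ∀ d ∈ D, σ' x d ∈ D) → D ≠ ⊥ → B0.map q ≤ D := by
    intro D hD hDne
    set D' := D.comap q
    have hCD : C ≤ D' := fun c hc => by
      show q c ∈ D
      rw [show q c = 1 from (QuotientGroup.eq_one_iff c).2 hc]; exact one_mem _
    have hD'i : Inv D' := fun x a ha => by
      show q (σ x a) ∈ D
      rw [← hσ']; exact hD x _ ha
    by_cases hcap : B0 ⊓ D' = ⊥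
    · exfalso
      apply hDne
      have hle : D' ≤ C := hCmax ⟨hcap, hD'i⟩ hCD
      rw [eq_bot_iff]
      intro d hd
      obtain ⟨a, rfl⟩ := QuotientGroup.mk'_surjective C d
      exact Subgroup.mem_bot.2 ((QuotientGroup.eq_one_iff a).2 (hle hd))
    · have hle : B0 ≤ B0 ⊓ D' := hB0min ⟨inf_le_left.trans hB0S, hcap,
        fun x b hb => ⟨hB0i x b hb.1, hD'i x b hb.2⟩⟩ inf_le_left
      rw [Subgroup.map_le_iff_le_comap]
      exact hle.trans inf_le_right
  have hB0p : ∀ b ∈ B0, b ^ p = 1 := fun b hb => by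
    obtain ⟨a, rfl⟩ := hB0S hb
    rw [powMonoidHom_apply, ← pow_mul, ← pow_succ, show e - 1 + 1 = e by omega, hexp]
  have hqinv : ∀ x, ∀ d ∈ B0.map q, σ' x d ∈ B0.map q := by
    rintro x _ ⟨b, hb, rfl⟩; exact ⟨σ x b, hB0i x b hb, (hσ' x b).symm⟩
  -- irreducibility in the quotient, by averaging
  have hirr : ∀ D : Subgroup (A ⧸ C), (∀ x, ∀ d ∈ D, σ' x d ∈ D) → (∀ d ∈ D, d ^ p = 1) →
      D = ⊥ ∨ ∀ a : A ⧸ C, a ∈ D ↔ a ^ p = 1 := by
    intro D hD hDp
    by_cases hDne : D = ⊥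
    · exact Or.inl hDne
    refine Or.inr fun a => ⟨hDp a, fun ha => hcont D hD hDne ?_⟩
    set W := (powMonoidHom p : A ⧸ C →* A ⧸ C).ker with hW
    have hWi : ∀ x, ∀ d ∈ W, σ' x d ∈ W := fun x d hd => by
      rw [hW, MonoidHom.mem_ker, powMonoidHom_apply] at hd ⊢
      rw [← map_pow, hd, map_one]
    have hBW : B0.map q ≤ W := by
      rintro _ ⟨b, hb, rfl⟩
      rw [hW, MonoidHom.mem_ker, powMonoidHom_apply, ← map_pow, hB0p b hb, map_one]
    have hWe : ∀ w : ↥W, w ^ p = 1 := fun w => Subtype.ext (show (w : A ⧸ C) ^ p = 1 from w.2)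
    let σW : X →* MulAut ↥W :=
      { toFun := fun x =>
          { toFun := fun w => ⟨σ' x w, hWi x w w.2⟩
            invFun := fun w => ⟨σ' x⁻¹ w, hWi x⁻¹ w w.2⟩
            left_inv := fun w => Subtype.ext (by simp)
            right_inv := fun w => Subtype.ext (by simp)
            map_mul' := fun u v => Subtype.ext (map_mul (σ' x) _ _) }
        map_one' := MulEquiv.ext fun w => Subtype.ext (by simp)
        map_mul' := fun x y => MulEquiv.ext fun w => Subtype.ext (by simp) }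
    obtain ⟨K, hKd, hKs⟩ := exists_compl_of_exponent_prime hp.out hWe ((B0.map q).subgroupOf W)
    obtain ⟨K', hK'i, hK'd, hK's⟩ := exists_invariant_compl σW _ K (fun x b hb => hqinv x _ hb) hKd hKs p hWe hco
    have hbot : K'.map W.subtype = ⊥ := by
      by_contra hne
      have hle := hcont (K'.map W.subtype) (by
        rintro x _ ⟨w, hw, rfl⟩; exact ⟨σW x w, hK'i x w hw, rfl⟩) hne
      apply hB0ne
      rw [eq_bot_iff]
      intro b hb
      obtain ⟨w, hw, hwe⟩ := hle ⟨b, hb, rfl⟩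
      have h1 : w ∈ (B0.map q).subgroupOf W ⊓ K' := ⟨by
        show (w : A ⧸ C) ∈ B0.map q
        exact ⟨b, hb, hwe.symm⟩, hw⟩
      rw [hK'd, Subgroup.mem_bot] at h1
      have h2 : b ∈ B0 ⊓ C := ⟨hb, (QuotientGroup.eq_one_iff b).1 (by
        rw [h1] at hwe; exact hwe.symm)⟩
      rw [hCd] at h2; exact h2
    rw [Subgroup.map_eq_bot_iff_of_injective _ W.subtype_injective] at hbot
    rw [hbot, sup_bot_eq] at hK's
    have : (⟨a, ha⟩ : ↥W) ∈ (B0.map q).subgroupOf W := by rw [hK's]; trivial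
    exact this
  have hAq : IsPGroup p (A ⧸ C) := hA.to_quotient C
  have homega := omega_of_irreducible hAq σ' hirr
  obtain ⟨b0, hb0, hb01⟩ := (Subgroup.bot_or_exists_ne_one B0).resolve_left hB0ne
  obtain ⟨a0, ha0⟩ := hB0S hb0
  have hqb0 : q b0 ≠ 1 := fun h => hb01 (Subgroup.mem_bot.1 (hCd.le ⟨hb0, (QuotientGroup.eq_one_iff b0).1 h⟩))
  -- the quotient is homocyclic of exponent p ^ e
  have hdiv : ∀ k ≤ e, ∀ c : A ⧸ C, c ^ p ^ k = 1 → ∃ d, d ^ p ^ (e - k) = c := by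
    intro k hk c hc
    obtain ⟨i, hi⟩ := homega (powMonoidHom (p ^ (e - k)) : A ⧸ C →* A ⧸ C).range (by
      rintro x _ ⟨d, rfl⟩; exact ⟨σ' x d, (map_pow (σ' x) d _).symm⟩)
    refine (hi c).2 ?_
    suffices hki : k ≤ i by
      obtain ⟨r, rfl⟩ := Nat.exists_eq_add_of_le hki
      rw [pow_add, pow_mul, hc, one_pow]
    by_contra hik
    apply hqb0
    have h1 : (q a0 ^ p ^ (e - k)) ^ p ^ i = 1 := (hi _).1 ⟨q a0, rfl⟩
    rw [← pow_mul, ← pow_add] at h1
    rw [← ha0, powMonoidHom_apply, map_pow, show e - 1 = e - k + i + (k - 1 - i) by omega, pow_add, pow_mul, h1, one_pow]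
  obtain ⟨ι, hι, n, hn, ⟨E⟩⟩ := CommGroup.equiv_prod_multiplicative_zmod_of_finite (A ⧸ C)
  haveI := hι
  have hlift : ∀ i, ∃ a : A, q a = E.symm (Pi.mulSingle i (Multiplicative.ofAdd 1)) ∧ a ^ n i = 1 := by
    intro i
    set g := E.symm (Pi.mulSingle i (Multiplicative.ofAdd (1 : ZMod (n i)))) with hg
    obtain ⟨a, ha⟩ := QuotientGroup.mk'_surjective C g
    refine ⟨a, ha, ?_⟩
    have hgn : ∀ r : ℕ, g ^ r = 1 ↔ n i ∣ r := fun r => by
      rw [hg, ← map_pow, MulEquiv.map_eq_one_iff, ← Pi.mulSingle_pow, Pi.mulSingle_eq_one_iff, ← ofAdd_nsmul,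
        ofAdd_eq_one, nsmul_one, ZMod.natCast_eq_zero_iff]
    obtain ⟨k, hk, hnk⟩ := (Nat.dvd_prime_pow hp.out).1 ((hgn (p ^ e)).1 (by rw [← ha, ← map_pow, hexp, map_one]))
    rcases hk.eq_or_lt with rfl | hlt
    · rw [hnk]; exact hexp a
    · exfalso
      obtain ⟨d, hd⟩ := hdiv k hlt.le g ((hgn _).2 (dvd_of_eq hnk))
      have h2 : (E d i) ^ p ^ (e - k) = Multiplicative.ofAdd (1 : ZMod (n i)) := by
        rw [← Pi.pow_apply, ← map_pow, hd, hg, MulEquiv.apply_symm_apply, Pi.mulSingle_eq_same]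
      have h3 : p ∣ n i := by
        have := hn i
        rw [hnk] at this ⊢
        rcases k with _ | k
        · simp at this
        · exact dvd_pow_self p (Nat.succ_ne_zero k)
      have h4 := congrArg (fun z => ZMod.castHom h3 (ZMod p) (Multiplicative.toAdd z)) h2
      simp only [toAdd_pow, toAdd_ofAdd, map_one, map_nsmul] at h4
      rw [show e - k = (e - k - 1) + 1 by omega, pow_succ, mul_smul, nsmul_eq_mul (p : ℕ), ZMod.natCast_self,
        zero_mul, smul_zero] at h4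
      exact zero_ne_one h4
  choose lift hlift1 hlift2 using hlift
  haveI : ∀ i, NeZero (n i) := fun i => ⟨by have := hn i; omega⟩
  let s : (A ⧸ C) →* A := MonoidHom.mk' (fun c => ∏ i, lift i ^ (Multiplicative.toAdd (E c i)).val) (fun c d => by
    rw [← Finset.prod_mul_distrib]
    refine Finset.prod_congr rfl fun i _ => ?_
    rw [← pow_add, map_mul, Pi.mul_apply, toAdd_mul, ZMod.val_add]
    exact (pow_eq_pow_mod _ (hlift2 i)).symm)
  have hs : ∀ c, q (s c) = c := fun c => by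
    apply E.injective
    simp only [s, MonoidHom.mk'_apply, map_prod, map_pow, hlift1, MulEquiv.apply_symm_apply]
    conv_rhs => rw [← Finset.univ_prod_mulSingle (E c)]
    refine Finset.prod_congr rfl fun i _ => ?_
    rw [← Pi.mulSingle_pow, ← ofAdd_nsmul, nsmul_one, ZMod.natCast_zmod_val, ofAdd_toAdd]
  obtain ⟨K', hK'i, hK'd, hK's⟩ := exists_invariant_compl σ C s.range hCi (by
      rw [eq_bot_iff]
      rintro _ ⟨ha, c, rfl⟩
      rw [show c = 1 from (hs c).symm.trans ((QuotientGroup.eq_one_iff (s c)).2 ha), map_one]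
      exact one_mem _) (by
      rw [eq_top_iff]
      intro a _
      rw [← inv_mul_cancel_right a (s (q a))]
      refine Subgroup.mul_mem_sup ((QuotientGroup.eq_one_iff _).1 ?_) ⟨q a, rfl⟩
      show q _ = 1
      rw [map_mul, map_inv, hs, mul_inv_cancel]) _ hexp (hco.pow_right e)
  refine ⟨C, K', ?_, ?_, hCi, hK'i, hK'd, hK's⟩
  · intro hC
    apply hnot
    intro B hB hBp
    by_cases hBne : B = ⊥
    · exact Or.inl hBne
    refine Or.inr fun a => ⟨hBp a, fun ha => ?_⟩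
    rcases hirr (B.map q) (by rintro x _ ⟨b, hb, rfl⟩; exact ⟨σ x b, hB x b hb, (hσ' x b).symm⟩) (by
      rintro _ ⟨b, hb, rfl⟩; rw [← map_pow, hBp b hb, map_one]) with h | h
    · exfalso
      apply hBne
      rw [eq_bot_iff]
      intro b hb
      have h1 : q b = 1 := Subgroup.mem_bot.1 (h.le ⟨b, hb, rfl⟩)
      exact hC ▸ (QuotientGroup.eq_one_iff b).1 h1
    · obtain ⟨b, hb, hbe⟩ := (h (q a)).2 (by rw [← map_pow, ha, map_one])
      have h1 := QuotientGroup.eq.1 hbe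
      rw [hC, Subgroup.mem_bot, inv_mul_eq_one] at h1
      exact h1 ▸ hb
  · intro hK
    rw [hK, sup_bot_eq] at hK's
    exact hb01 (Subgroup.mem_bot.1 (hCd.le ⟨hb0, hK's.symm ▸ Subgroup.mem_top b0⟩))

/-- Let A be a finite abelian p-group and X a group of automorphisms of A of order prime to p. Call a subgroup of A invariant when every element of X maps it onto itself. Then the following are equivalent: (i) A is not the direct product of two nontrivial invariant subgroups; (ii) every invariant subgroup of A is one of the subgroups Ω_i(A) = {a : a^(p^i) = 1}; (iii) the subgroup Ω₁(A) of elements of order dividing p has no invariant subgroups other than 1 and itself. -/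
theorem result {A : Type*} [CommGroup A] [Finite A] {p : ℕ} [Fact p.Prime] (hA : IsPGroup p A) (X : Subgroup (MulAut A)) (hX : (Nat.card X).Coprime p) : ((¬ ∃ B C : Subgroup A, B ≠ ⊥ ∧ C ≠ ⊥ ∧ (∀ x ∈ X, B.map x.toMonoidHom = B) ∧ (∀ x ∈ X, C.map x.toMonoidHom = C) ∧ B ⊓ C = ⊥ ∧ B ⊔ C = ⊤) ↔ (∀ B : Subgroup A, (∀ x ∈ X, B.map x.toMonoidHom = B) → ∃ i : ℕ, ∀ a : A, a ∈ B ↔ a ^ p ^ i = 1)) ∧ ((∀ B : Subgroup A, (∀ x ∈ X, B.map x.toMonoidHom = B) → ∃ i : ℕ, ∀ a : A, a ∈ B ↔ a ^ p ^ i = 1) ↔ (∀ B : Subgroup A, (∀ x ∈ X, B.map x.toMonoidHom = B) → (∀ b ∈ B, b ^ p = 1) → B = ⊥ ∨ ∀ a : A, a ∈ B ↔ a ^ p = 1)) := by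
  classical
  let σ : ↥X →* MulAut A := X.subtype
  have hiff : ∀ B : Subgroup A, (∀ x ∈ X, B.map x.toMonoidHom = B) ↔ ∀ x : ↥X, ∀ b ∈ B, σ x b ∈ B := fun B =>
    ⟨fun h x b hb => (h x x.2).le ⟨b, hb, rfl⟩, fun h x hx => le_antisymm
      (Subgroup.map_le_iff_le_comap.2 fun b hb => h ⟨x, hx⟩ b hb)
      (fun b hb => ⟨x⁻¹ b, h ⟨x⁻¹, X.inv_mem hx⟩ b hb, MulAut.apply_inv_self _ _ _⟩)⟩
  simp only [hiff]
  refine ⟨⟨fun h B hB => ?_, ?_⟩, ⟨fun h B hB hBp => ?_, fun h B hB => omega_of_irreducible hA σ h B hB⟩⟩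
  · by_cases hA1 : Nontrivial A
    · refine omega_of_irreducible hA σ (by_contra fun hnot => h ?_) B hB
      exact decompose hA σ hX hA1 hnot
    · haveI := not_nontrivial_iff_subsingleton.1 hA1
      exact ⟨0, fun a => iff_of_true (Subsingleton.elim a 1 ▸ B.one_mem) (Subsingleton.elim _ _)⟩
  · rintro h ⟨B, C, hB0, hC0, hB, hC, hd, -⟩
    obtain ⟨i, hi⟩ := h B hB
    obtain ⟨j, hj⟩ := h C hC
    rcases le_total i j with hij | hij
    · refine hB0 (eq_bot_iff.2 fun b hb => hd.le ⟨hb, (hj b).2 ?_⟩)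
      obtain ⟨r, rfl⟩ := Nat.exists_eq_add_of_le hij
      rw [pow_add, pow_mul, (hi b).1 hb, one_pow]
    · refine hC0 (eq_bot_iff.2 fun b hb => hd.le ⟨(hi b).2 ?_, hb⟩)
      obtain ⟨r, rfl⟩ := Nat.exists_eq_add_of_le hij
      rw [pow_add, pow_mul, (hj b).1 hb, one_pow]
  · obtain ⟨i, hi⟩ := h B hB
    rcases i with _ | i
    · exact Or.inl (eq_bot_iff.2 fun b hb => by have := (hi b).1 hb; rwa [pow_zero, pow_one] at this)
    · exact Or.inr fun a => ⟨hBp a, fun ha => (hi a).2 (by rw [pow_succ', pow_mul, ha, one_pow])⟩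

end Cfsg.Agent.S3775
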