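import Cfsg.Statements.S3778
import Mathlib

set_option autoImplicit false
open Cfsg
open scoped Pointwise commutatorElement

namespace Cfsg.Agent.S3778

open scoped Classical in
lemma exists_many {G : Type*} [Group G] [Finite G] (p b m : ℕ) (C : ℕ → Subgroup G)
    (hC : ∀ i < m, p * Nat.card (C i) ≤ Nat.card G) (hb0 : 0 < b)
    (hle : ∀ x : G, ((Finset.range m).filter fun i => x ∉ C i).card ≤ b) (hp : 0 < p) : m * (p - 1) < b * p := by
  haveI := Fintype.ofFinite G
  have hsum : ∑ x : G, ((Finset.range m).filter fun i => x ∉ C i).card =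
      ∑ i ∈ Finset.range m, (Finset.univ.filter fun x : G => x ∉ C i).card := by
    simp only [Finset.card_filter]
    exact Finset.sum_comm
  have hlt : ∑ x : G, ((Finset.range m).filter fun i => x ∉ C i).card < ∑ _x : G, b := by
    refine Finset.sum_lt_sum (fun x _ => hle x) ⟨1, Finset.mem_univ _, ?_⟩
    have h1 : ((Finset.range m).filter fun i => (1 : G) ∉ C i) = ∅ :=
      Finset.filter_false_of_mem fun i _ h => h (C i).one_mem
    rw [h1, Finset.card_empty]; exact hb0
  rw [hsum, Finset.sum_const, Finset.card_univ, smul_eq_mul, ← Nat.card_eq_fintype_card] at hlt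
  have hterm : ∀ i ∈ Finset.range m, (p - 1) * Nat.card G ≤ p * (Finset.univ.filter fun x : G => x ∉ C i).card := by
    intro i hi
    have h1 := Finset.card_filter_add_card_filter_not (s := (Finset.univ : Finset G)) (fun x => x ∈ C i)
    rw [Finset.card_univ, ← Nat.card_eq_fintype_card] at h1
    have h2 : (Finset.univ.filter fun x : G => x ∈ C i).card = Nat.card (C i) := by
      rw [← Fintype.card_subtype, ← Nat.card_eq_fintype_card]
    rw [h2] at h1
    have h3 := hC i (Finset.mem_range.1 hi)
    rw [Nat.sub_mul, one_mul, ← h1, Nat.mul_add]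
    omega
  have h4 := Finset.card_nsmul_le_sum _ (fun i => p * (Finset.univ.filter fun x : G => x ∉ C i).card) _ hterm
  rw [Finset.card_range, smul_eq_mul, ← Finset.mul_sum] at h4
  have h5 := Nat.mul_lt_mul_of_pos_left hlt hp
  by_contra hcon
  have h6 := Nat.mul_le_mul_right (Nat.card G) (not_lt.1 hcon)
  have h7 : b * p * Nat.card G = p * (Nat.card G * b) := by ring
  have h8 : m * (p - 1) * Nat.card G = m * ((p - 1) * Nat.card G) := by ring
  omega

open scoped Classical in
lemma breadth_ge {G : Type*} [Group G] [Finite G] {p : ℕ} [Fact p.Prime] (hG : IsPGroup p G) (L : ℕ → Subgroup G)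
    [∀ i, (L i).Normal] (hanti : Antitone L) (x : G) (m : ℕ)
    (hcomm : ∀ i, ∀ y ∈ L (i + 1), ⁅x, y⁆ ∈ L (i + 2)) :
    p ^ ((Finset.range m).filter fun i => ∃ y ∈ L i, ⁅x, y⁆ ∉ L (i + 2)).card ≤
      (Subgroup.centralizer ({x} : Set G)).index := by
  set C := Subgroup.centralizer ({x} : Set G) with hC
  have key : ∀ n, p ^ ((Finset.range n).filter fun i => ∃ y ∈ L i, ⁅x, y⁆ ∉ L (i + 2)).card ≤ (C ⊔ L n).index := by
    intro n
    induction n with
    | zero =>
      rw [Finset.range_zero, Finset.filter_empty, Finset.card_empty, pow_zero]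
      exact Nat.pos_of_ne_zero Subgroup.index_ne_zero_of_finite
    | succ n ih =>
      have hle : C ⊔ L (n + 1) ≤ C ⊔ L n := sup_le_sup_left (hanti (Nat.le_succ n)) C
      rw [Finset.range_add_one, Finset.filter_insert]
      split_ifs with h
      · rw [Finset.card_insert_of_notMem (by simp), pow_succ, mul_comm, ← Subgroup.relIndex_mul_index hle]
        refine Nat.mul_le_mul ?_ ih
        have hne : (C ⊔ L (n + 1)).relIndex (C ⊔ L n) ≠ 1 := by
          intro h1
          obtain ⟨y, hy, hxy⟩ := h
          have hy' : y ∈ ((C ⊔ L (n + 1) : Subgroup G) : Set G) :=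
            (Subgroup.relIndex_eq_one.1 h1) (Subgroup.mem_sup_right hy)
          rw [Subgroup.mul_normal] at hy'
          obtain ⟨c, hc, z, hz, rfl⟩ := hy'
          apply hxy
          have hcx : x * c = c * x := (Subgroup.mem_centralizer_singleton_iff.1 hc).symm
          have e : ⁅x, c * z⁆ = c * ⁅x, z⁆ * c⁻¹ := by
            rw [commutatorElement_def, commutatorElement_def]
            calc x * (c * z) * x⁻¹ * (c * z)⁻¹ = (x * c) * z * x⁻¹ * z⁻¹ * c⁻¹ := by group
              _ = _ := by rw [hcx]; group
          show ⁅x, c * z⁆ ∈ L (n + 2)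
          rw [e]
          exact Subgroup.Normal.conj_mem inferInstance _ (hcomm n z hz) c
        obtain ⟨k, hk⟩ := (hG.to_subgroup (C ⊔ L n)).index ((C ⊔ L (n + 1)).subgroupOf (C ⊔ L n))
        rw [show (C ⊔ L (n + 1)).relIndex (C ⊔ L n) = p ^ k from hk] at hne ⊢
        rcases k with _ | k
        · exact absurd (pow_zero p) hne
        · exact Nat.le_self_pow (by omega) p
      · exact ih.trans (Nat.le_of_dvd (Nat.pos_of_ne_zero Subgroup.index_ne_zero_of_finite)
          (Subgroup.index_dvd_of_le hle))
  exact (key m).trans (Nat.le_of_dvd (Nat.pos_of_ne_zero Subgroup.index_ne_zero_of_finite)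
    (Subgroup.index_dvd_of_le le_sup_left))



/-- If G is a finite p-group in which every conjugacy class has at most p^b elements (every element has centralizer of index at most p^b), then G is abelian when b = 0, and when b ≥ 1 its nilpotency class c satisfies (c − 1)(p − 1) < bp, that is c < bp/(p − 1) + 1, and hence c ≤ 2b. -/
theorem result {G : Type*} [Group G] [Finite G] {p : ℕ} [Fact p.Prime] (hG : IsPGroup p G) (b : ℕ) (hb : ∀ x : G, (Subgroup.centralizer ({x} : Set G)).index ≤ p ^ b) : ∃ c : ℕ, (⊤ : Subgroup G).lowerCentralSeries c = ⊥ ∧ (b ≠ 0 → (c - 1) * (p - 1) < b * p ∧ c ≤ 2 * b) ∧ (b = 0 → c ≤ 1) := by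
  classical
  have hpp : p.Prime := Fact.out
  haveI : Group.IsNilpotent G := hG.isNilpotent
  let L : ℕ → Subgroup G := fun i => (⊤ : Subgroup G).lowerCentralSeries i
  haveI : ∀ i, (L i).Normal := fun i => by simp only [L]; infer_instance
  have hex : ∃ n, L n = ⊥ := (Subgroup.nilpotent_iff_lowerCentralSeries.1 inferInstance)
  refine ⟨Nat.find hex, Nat.find_spec hex, fun hb0 => ?_, fun hb0 => ?_⟩
  · set c := Nat.find hex
    have hanti : Antitone L := Subgroup.lowerCentralSeries_antitone _
    have hsucc : ∀ i, L (i + 1) = ⁅L i, (⊤ : Subgroup G)⁆ := fun i => Subgroup.lowerCentralSeries_succ _ i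
    have hcomm : ∀ (x : G) (i : ℕ), ∀ y ∈ L (i + 1), ⁅x, y⁆ ∈ L (i + 2) := by
      intro x i y hy
      rw [← commutatorElement_inv, hsucc (i + 1)]
      exact inv_mem (Subgroup.commutator_mem_commutator hy (Subgroup.mem_top x))
    let C : ℕ → Subgroup G := fun i =>
      (Subgroup.centralizer (((L i).map (QuotientGroup.mk' (L (i + 2)))) : Set (G ⧸ L (i + 2)))).comap
        (QuotientGroup.mk' (L (i + 2)))
    have hCmem : ∀ i x, x ∈ C i ↔ ∀ y ∈ L i, ⁅x, y⁆ ∈ L (i + 2) := by
      intro i x
      simp only [C, Subgroup.mem_comap, Subgroup.mem_centralizer_iff]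
      constructor
      · intro h y hy
        rw [← QuotientGroup.eq_one_iff]
        show QuotientGroup.mk' (L (i + 2)) ⁅x, y⁆ = 1
        rw [map_commutatorElement, commutatorElement_eq_one_iff_mul_comm]
        exact (h _ (Subgroup.mem_map_of_mem _ hy)).symm
      · rintro h _ ⟨y, hy, rfl⟩
        refine (commutatorElement_eq_one_iff_mul_comm.1 ?_).symm
        rw [← map_commutatorElement]
        exact (QuotientGroup.eq_one_iff _).2 (h y hy)
    have hC : ∀ i < c - 1, p * Nat.card (C i) ≤ Nat.card G := by
      intro i hi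
      have hne : C i ≠ ⊤ := by
        intro htop
        have hstat : L (i + 2) = L (i + 1) := by
          refine le_antisymm (hanti (Nat.le_succ _)) ?_
          rw [hsucc i, Subgroup.commutator_le]
          intro y hy x _
          rw [← commutatorElement_inv]
          exact inv_mem ((hCmem i x).1 (htop ▸ Subgroup.mem_top x) y hy)
        have hall : ∀ j, L (i + 1 + j) = L (i + 1) := by
          intro j
          induction j with
          | zero => rfl
          | succ j ih => rw [← add_assoc, hsucc, ih, ← hsucc, hstat]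
        refine Nat.find_min hex (show i + 1 < c by omega) ?_
        rw [← hall (c - (i + 1)), show i + 1 + (c - (i + 1)) = c by omega]
        exact Nat.find_spec hex
      obtain ⟨k, hk⟩ := hG.index (C i)
      rw [← (C i).index_mul_card, hk]
      refine Nat.mul_le_mul_right _ ?_
      rcases k with _ | k
      · exact absurd (Subgroup.index_eq_one.1 (by rw [hk, pow_zero])) hne
      · exact Nat.le_self_pow (by omega) p
    have hle : ∀ x : G, ((Finset.range (c - 1)).filter fun i => x ∉ C i).card ≤ b := by
      intro x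
      have h1 := (breadth_ge hG L hanti x (c - 1) (hcomm x)).trans (hb x)
      have h2 := (Nat.pow_le_pow_iff_right hpp.one_lt).1 h1
      refine le_trans (le_of_eq (congrArg Finset.card (Finset.filter_congr fun i _ => ?_))) h2
      simp only [hCmem, not_forall, exists_prop]
    have hmain := exists_many p b (c - 1) C hC (Nat.pos_of_ne_zero hb0) hle hpp.pos
    refine ⟨hmain, ?_⟩
    obtain ⟨t, ht⟩ : ∃ t, p = t + 2 := ⟨p - 2, by have := hpp.two_le; omega⟩
    subst ht
    rw [show t + 2 - 1 = t + 1 by omega] at hmain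
    by_contra hcon
    have h3 : 2 * b * (t + 1) ≤ (c - 1) * (t + 1) := Nat.mul_le_mul_right _ (by omega)
    nlinarith
  · refine Nat.find_min' hex ?_
    show (⊤ : Subgroup G).lowerCentralSeries 1 = ⊥
    rw [Subgroup.lowerCentralSeries_succ, Subgroup.lowerCentralSeries_zero, eq_bot_iff, Subgroup.commutator_le]
    intro x _ y _
    rw [Subgroup.mem_bot, commutatorElement_eq_one_iff_mul_comm]
    have h1 := hb x
    rw [hb0, pow_zero] at h1
    have h2 : (Subgroup.centralizer ({x} : Set G)).index = 1 :=
      le_antisymm h1 (Nat.pos_of_ne_zero Subgroup.index_ne_zero_of_finite)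
    exact (Subgroup.mem_centralizer_singleton_iff.1 (Subgroup.index_eq_one.1 h2 ▸ Subgroup.mem_top y)).symm

end Cfsg.Agent.S3778
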