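import Cfsg.Statements.S3780
import Mathlib
-- import your own Cfsg.Agent.* helpers here

set_option autoImplicit false
open Cfsg

namespace Cfsg.Agent.S3780

/-- Let V be a finite abelian p-group and α an automorphism of V of order p whose fixed-point subgroup has order p^n. Then V can be generated by pn elements: some subset of V with at most pn elements generates V. -/
theorem result {V : Type*} [CommGroup V] [Finite V] {p : ℕ} [Fact p.Prime] (hV : IsPGroup p V) (α : MulAut V) (hα : orderOf α = p) (n : ℕ) (hfix : Nat.card {v : V // α v = v} = p ^ n) : ∃ S : Finset V, S.card ≤ p * n ∧ Subgroup.closure (S : Set V) = ⊤ := by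
  classical
  have hp := (Fact.out : p.Prime)
  let D : V →* V :=
    { toFun := fun v => α v * v⁻¹
      map_one' := by simp
      map_mul' := fun a b => by rw [map_mul, mul_inv_rev]; ac_rfl }
  let f : Monoid.End V := D
  let K : ℕ → Subgroup V := fun j => (powMonoidHom p : V →* V).ker ⊓ MonoidHom.ker (f ^ j : Monoid.End V)
  have hmem : ∀ j v, v ∈ K j ↔ v ^ p = 1 ∧ (f ^ j : Monoid.End V) v = 1 := fun j v => Iff.rfl
  have hstep : ∀ j, Nat.card (K (j + 1)) ≤ Nat.card (K j) * p ^ n := by
    intro j
    set h := ((f ^ j : Monoid.End V) : V →* V).comp (K (j + 1)).subtype with hh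
    have hr : Nat.card h.range ≤ p ^ n := by
      rw [← hfix]
      refine Nat.card_le_card_of_injective (fun v => ⟨v.1, ?_⟩)
        fun a b e => Subtype.ext (congrArg (fun z => z.1) e)
      obtain ⟨w, hw⟩ := v.2
      have h2 := ((hmem _ _).1 w.2).2
      rw [pow_succ'] at h2
      rw [← hw]
      exact mul_inv_eq_one.1 h2
    have hk : Nat.card h.ker ≤ Nat.card (K j) := by
      refine Nat.card_le_card_of_injective (fun v => ⟨v.1.1, ((hmem _ _).1 v.1.2).1, v.2⟩)
        fun a b e => Subtype.ext (Subtype.ext (congrArg (fun z => z.1) e))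
    have hc := h.ker.card_mul_index
    rw [Subgroup.index_ker] at hc
    rw [← hc]
    exact Nat.mul_le_mul hk hr
  have h0 : K 0 = ⊥ := by
    refine eq_bot_iff.2 fun v hv => ?_
    exact ((hmem 0 v).1 hv).2
  have hbound : ∀ j, Nat.card (K j) ≤ p ^ (n * j) := by
    intro j
    induction j with
    | zero => rw [h0, Subgroup.card_bot]; simp
    | succ j ih => exact (hstep j).trans (by rw [Nat.mul_succ, pow_add]; exact Nat.mul_le_mul_right _ ih)
  have hall : K p = (powMonoidHom p : V →* V).ker := by
    refine le_antisymm inf_le_left fun v hv => (hmem p v).2 ⟨hv, ?_⟩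
    let Ω := (powMonoidHom p : V →* V).ker
    let a : AddMonoid.End (Additive V) := MonoidHom.toAdditive (α : V →* V)
    let d : AddMonoid.End (Additive V) := MonoidHom.toAdditive D
    have had : a = d + 1 := by
      refine AddMonoidHom.ext fun x => ?_
      show Additive.ofMul (α x.toMul) = Additive.ofMul (α x.toMul * x.toMul⁻¹) + x
      rw [← ofMul_toMul x, ← ofMul_mul]
      simp
    obtain ⟨r, hr⟩ := (Commute.one_right d).exists_add_pow_prime_pow_eq hp 1
    rw [pow_one, ← had, one_pow] at hr
    have hap : a ^ p = 1 := by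
      have h1 : ∀ (j : ℕ) (x : Additive V), (a ^ j) x = Additive.ofMul ((α ^ j) x.toMul) := by
        intro j
        induction j with
        | zero => intro x; simp
        | succ j ih =>
          intro x
          rw [pow_succ, pow_succ]
          show (a ^ j) (a x) = _
          rw [ih]
          rfl
      refine AddMonoidHom.ext fun x => (h1 p x).trans ?_
      rw [← hα, pow_orderOf_eq_one]
      rfl
    have hd : ∀ (j : ℕ) (x : V), (f ^ j : Monoid.End V) x = ((d ^ j) (Additive.ofMul x)).toMul := by
      intro j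
      induction j with
      | zero => intro x; rfl
      | succ j ih =>
        intro x
        rw [pow_succ, pow_succ]
        show (f ^ j : Monoid.End V) (f x) = ((d ^ j) (d (Additive.ofMul x))).toMul
        rw [ih]
        rfl
    rw [hd]
    rw [hap] at hr
    have h2 := DFunLike.congr_fun hr (Additive.ofMul v)
    have h3 : ∀ y : AddMonoid.End (Additive V), ((p : AddMonoid.End (Additive V)) * y) (Additive.ofMul v) = 0 := by
      intro y
      rw [← nsmul_eq_mul]
      show p • y (Additive.ofMul v) = 0
      rw [← map_nsmul, ← ofMul_pow, show v ^ p = 1 from hv, ofMul_one, map_zero]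
    have h2' : Additive.ofMul v = (d ^ p) (Additive.ofMul v) + Additive.ofMul v +
        ((p : AddMonoid.End (Additive V)) * (d * r)) (Additive.ofMul v) := by
      rw [mul_one, mul_assoc (p : AddMonoid.End (Additive V)) d r] at hr
      exact DFunLike.congr_fun hr (Additive.ofMul v)
    rw [h3, add_zero] at h2'
    have h4 : (d ^ p) (Additive.ofMul v) = 0 := right_eq_add.1 h2'
    rw [h4]; rfl
  set W := (powMonoidHom p : V →* V).range with hW
  have hidx : W.index ≤ p ^ (p * n) := by
    have h1 := W.card_mul_index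
    have h2 := ((powMonoidHom p : V →* V).ker).card_mul_index
    rw [Subgroup.index_ker, ← hW, mul_comm] at h2
    have h3 := Nat.eq_of_mul_eq_mul_left Nat.card_pos (h1.trans h2.symm)
    rw [h3, ← hall, mul_comm p n]
    exact hbound p
  have hgen : ∀ (m : ℕ) (H : Subgroup V), H.index ≤ p ^ m → W ≤ H →
      ∃ S : Finset V, S.card ≤ m ∧ H ⊔ Subgroup.closure (S : Set V) = ⊤ := by
    intro m
    induction m with
    | zero =>
      intro H hH _
      refine ⟨∅, le_rfl, ?_⟩
      have h0 : H.index ≠ 0 := Subgroup.index_ne_zero_of_finite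
      rw [Subgroup.index_eq_one.1 (show H.index = 1 by rw [pow_zero] at hH; omega), top_sup_eq]
    | succ m ih =>
      intro H hH hWH
      by_cases hT : H = ⊤
      · exact ⟨∅, Nat.zero_le _, by rw [hT, top_sup_eq]⟩
      obtain ⟨x, -, hx⟩ := SetLike.exists_of_lt (lt_top_iff_ne_top.2 hT)
      set H' := H ⊔ Subgroup.zpowers x with hH'
      have hlt : H < H' := lt_of_le_of_ne le_sup_left fun e =>
        hx (e ▸ (le_sup_right : Subgroup.zpowers x ≤ H') (Subgroup.mem_zpowers x))
      obtain ⟨i, hi⟩ := (hV.index H)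
      have hr : p * H'.index ≤ H.index := by
        rw [← Subgroup.relIndex_mul_index hlt.le]
        refine Nat.mul_le_mul_right _ (Nat.le_of_dvd (Nat.pos_of_ne_zero Subgroup.index_ne_zero_of_finite) ?_)
        obtain ⟨j, -, hj⟩ := (Nat.dvd_prime_pow hp).1
          (hi ▸ Dvd.intro _ (Subgroup.relIndex_mul_index hlt.le))
        rcases j with _ | j
        · exact absurd (Subgroup.relIndex_eq_one.1 (by rw [hj, pow_zero])) (not_le_of_gt hlt)
        · rw [hj]; exact dvd_pow_self p (Nat.succ_ne_zero j)
      obtain ⟨S, hS, hS'⟩ := ih H' (by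
        refine Nat.le_of_mul_le_mul_left (hr.trans (hH.trans ?_)) hp.pos
        rw [pow_succ']) (hWH.trans le_sup_left)
      refine ⟨insert x S, (Finset.card_insert_le _ _).trans (Nat.succ_le_succ hS), ?_⟩
      rw [Finset.coe_insert, Set.insert_eq, Subgroup.closure_union, ← Subgroup.zpowers_eq_closure,
        ← sup_assoc, hS']
  obtain ⟨S, hS, hS'⟩ := hgen (p * n) W hidx le_rfl
  refine ⟨S, hS, ?_⟩
  set T := Subgroup.closure (S : Set V)
  have hk : ∀ (k : ℕ) (v : V), ∃ w : V, ∃ t ∈ T, v = w ^ p ^ k * t := by
    intro k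
    induction k with
    | zero => exact fun v => ⟨v, 1, T.one_mem, by simp⟩
    | succ k ih =>
      intro v
      obtain ⟨w, t, ht, rfl⟩ := ih v
      obtain ⟨_, ⟨u, rfl⟩, t', ht', hw⟩ := Subgroup.mem_sup.1 (hS' ▸ Subgroup.mem_top w)
      refine ⟨u, t' ^ p ^ k * t, T.mul_mem (T.pow_mem ht' _) ht, ?_⟩
      rw [← hw, mul_pow, mul_assoc, powMonoidHom_apply, ← pow_mul, pow_succ']
  rw [eq_top_iff]
  intro v _
  obtain ⟨N, hN⟩ := IsPGroup.iff_card.1 hV
  obtain ⟨w, t, ht, rfl⟩ := hk N v
  rwa [← hN, pow_card_eq_one', one_mul]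

end Cfsg.Agent.S3780
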