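import Cfsg.Statements.S3781
-- import your own Cfsg.Agent.* helpers here

set_option autoImplicit false
open Cfsg
open scoped commutatorElement

namespace Cfsg.Agent.S3781

/-- iterated commutators with the whole group -/
def it {H : Type*} [Group H] (j : ℕ) (X : Subgroup H) : Subgroup H :=
  (fun Y : Subgroup H => ⁅Y, (⊤ : Subgroup H)⁆)^[j] X

theorem it_succ' {H : Type*} [Group H] (j : ℕ) (X : Subgroup H) :
    it (j + 1) X = ⁅it j X, (⊤ : Subgroup H)⁆ :=
  Function.iterate_succ_apply' _ _ _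

theorem it_succ {H : Type*} [Group H] (j : ℕ) (X : Subgroup H) :
    it (j + 1) X = it j ⁅X, (⊤ : Subgroup H)⁆ :=
  Function.iterate_succ_apply _ _ _

theorem it_normal {H : Type*} [Group H] : ∀ (j : ℕ) (X : Subgroup H), X.Normal → (it j X).Normal
  | 0, _, h => h
  | j + 1, X, h => by
    rw [it_succ']
    haveI := it_normal j X h
    exact Subgroup.commutator_normal _ _

theorem three_le {H : Type*} [Group H] (A B C M : Subgroup H) [M.Normal]
    (h1 : ⁅⁅B, C⁆, A⁆ ≤ M) (h2 : ⁅⁅C, A⁆, B⁆ ≤ M) : ⁅⁅A, B⁆, C⁆ ≤ M := by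
  have key : ∀ S : Subgroup H, S.map (QuotientGroup.mk' M) = ⊥ ↔ S ≤ M := fun S => by
    rw [Subgroup.map_eq_bot_iff, QuotientGroup.ker_mk']
  rw [← key, Subgroup.map_commutator, Subgroup.map_commutator]
  rw [← key, Subgroup.map_commutator, Subgroup.map_commutator] at h1 h2
  exact Subgroup.commutator_commutator_eq_bot_of_rotate h1 h2

theorem comm_gamma_le {H : Type*} [Group H] :
    ∀ (j : ℕ) (X : Subgroup H), X.Normal →
      ⁅X, (⊤ : Subgroup H).lowerCentralSeries j⁆ ≤ it (j + 1) X
  | 0, X, _ => by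
    rw [it_succ', Subgroup.lowerCentralSeries_zero]
    exact le_rfl
  | j + 1, X, hX => by
    haveI := hX
    haveI hM : (it (j + 1 + 1) X).Normal := it_normal _ X hX
    rw [Subgroup.lowerCentralSeries_succ, Subgroup.commutator_comm X]
    refine three_le _ _ _ _ ?_ ?_
    · rw [it_succ (j + 1) X, Subgroup.commutator_comm ⊤ X]
      exact comm_gamma_le j _ (Subgroup.commutator_normal _ _)
    · rw [it_succ' (j + 1) X]
      exact Subgroup.commutator_mono (comm_gamma_le j X hX) le_rfl

theorem it_eq_bot {H : Type*} [Group H] [Finite H] {p : ℕ} [hp : Fact p.Prime] (hH : IsPGroup p H) :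
    ∀ (k : ℕ) (X : Subgroup H), X.Normal → Nat.card X ≤ p ^ k → it k X = ⊥
  | 0, X, _, hc => Subgroup.eq_bot_of_card_le X (by simpa using hc)
  | k + 1, X, hX, hc => by
    haveI := hX
    rw [it_succ]
    refine it_eq_bot hH k _ (Subgroup.commutator_normal _ _) ?_
    by_cases hb : X = ⊥
    · subst hb
      rw [Subgroup.commutator_bot_left]
      simpa using Nat.one_le_pow _ _ hp.out.pos
    have hle : ⁅X, (⊤ : Subgroup H)⁆ ≤ X := Subgroup.commutator_le_left _ _
    have hne : ⁅X, (⊤ : Subgroup H)⁆ ≠ X := by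
      intro he
      apply hb
      haveI : Group.IsNilpotent H := hH.isNilpotent
      obtain ⟨n, hn⟩ := (Subgroup.nilpotent_iff_lowerCentralSeries (G := H)).1 inferInstance
      have hall : ∀ i, X ≤ (⊤ : Subgroup H).lowerCentralSeries i := by
        intro i
        induction i with
        | zero => rw [Subgroup.lowerCentralSeries_zero]; exact le_top
        | succ i ih =>
          rw [Subgroup.lowerCentralSeries_succ, ← he]
          exact Subgroup.commutator_mono ih le_rfl
      exact le_bot_iff.1 (hn ▸ hall n)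
    obtain ⟨a, ha⟩ := IsPGroup.iff_card.1 (hH.to_subgroup ⁅X, (⊤ : Subgroup H)⁆)
    obtain ⟨b, hb⟩ := IsPGroup.iff_card.1 (hH.to_subgroup X)
    have hlt : a < b := by
      by_contra hc'
      refine hne (Subgroup.eq_of_le_of_card_ge hle ?_)
      rw [ha, hb]
      exact Nat.pow_le_pow_right hp.out.pos (not_lt.1 hc')
    rw [hb] at hc
    rw [ha]
    have := (Nat.pow_le_pow_iff_right hp.out.one_lt).1 hc
    exact Nat.pow_le_pow_right hp.out.pos (by omega)

/-- Let G be a finite p-group and n ≥ 1, and write γ_1(G) = G, γ_{k+1}(G) = [γ_k(G), G], and likewise γ_k(N) for a subgroup N. Let N be a normal subgroup of G contained in γ_n(G). If i > 1 and γ_{i+1}(N) ≠ 1, then |γ_i(N) : γ_{i+1}(N)| ≥ p^n. -/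
theorem result {G : Type*} [Group G] [Finite G] {p : ℕ} [Fact p.Prime] (hG : IsPGroup p G) (n : ℕ) (hn : 1 ≤ n) (N : Subgroup G) [N.Normal] (hN : N ≤ (⊤ : Subgroup G).lowerCentralSeries (n - 1)) (i : ℕ) (hi : 1 < i) (hne : N.lowerCentralSeries i ≠ ⊥) : p ^ n ≤ (N.lowerCentralSeries i).relIndex (N.lowerCentralSeries (i - 1)) := by
  have hp := (inferInstance : Fact p.Prime).out
  set Y := N.lowerCentralSeries (i - 1) with hYdef
  set K := N.lowerCentralSeries i with hKdef
  have hnorm : ∀ j, (N.lowerCentralSeries j).Normal := by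
    intro j
    induction j with
    | zero => rw [Subgroup.lowerCentralSeries_zero]; infer_instance
    | succ j ih => rw [Subgroup.lowerCentralSeries_succ]; exact Subgroup.commutator_normal _ _
  haveI hKn : K.Normal := hnorm i
  haveI hYn : Y.Normal := hnorm _
  have hKY : K = ⁅Y, N⁆ := by
    rw [hKdef, hYdef]
    conv_lhs => rw [show i = (i - 1) + 1 by omega]
    rfl
  have hKleY : K ≤ Y := N.lowerCentralSeries_antitone (Nat.sub_le i 1)
  -- a normal subgroup of index p in K
  have hW : ⁅K, (⊤ : Subgroup G)⁆ < K := by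
    refine lt_of_le_of_ne (Subgroup.commutator_le_left _ _) fun he => ?_
    have h1 : it 1 K = K := he
    have h2 : ∀ k, it k K = K := by
      intro k
      induction k with
      | zero => rfl
      | succ k ih => rw [it_succ', ih]; exact he
    obtain ⟨a, ha⟩ := IsPGroup.iff_card.1 (hG.to_subgroup K)
    exact hne ((h2 a).symm.trans (it_eq_bot hG a K hKn ha.le))
  obtain ⟨M, ⟨hMn, hWM, hMK⟩, hMmax⟩ := (Set.toFinite {M : Subgroup G |
    M.Normal ∧ ⁅K, (⊤ : Subgroup G)⁆ ≤ M ∧ M < K}).exists_maximal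
      ⟨_, Subgroup.commutator_normal _ _, le_rfl, hW⟩
  haveI := hMn
  let f := QuotientGroup.mk' M
  have hf : Function.Surjective f := QuotientGroup.mk'_surjective M
  have hQ : IsPGroup p (G ⧸ M) := hG.to_quotient M
  have hcK : Nat.card (K.map f) = p := by
    have hne1 : K.map f ≠ ⊥ := by
      rw [Ne, Subgroup.map_eq_bot_iff, QuotientGroup.ker_mk']
      exact hMK.not_ge
    haveI : Nontrivial ↥(K.map f) := (Subgroup.nontrivial_iff_ne_bot _).2 hne1
    obtain ⟨z, hz⟩ := exists_prime_orderOf_dvd_card' (G := ↥(K.map f)) p (by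
      obtain ⟨a, ha⟩ := IsPGroup.iff_card.1 (hQ.to_subgroup (K.map f))
      rcases a with _ | a
      · rw [pow_zero] at ha
        exact absurd (Subgroup.eq_bot_of_card_eq _ ha) hne1
      · rw [ha]; exact dvd_pow_self _ (Nat.succ_ne_zero a))
    obtain ⟨k, hk, hkz⟩ := Subgroup.mem_map.1 z.2
    have hcen : ∀ g : G ⧸ M, g * (z : G ⧸ M) = (z : G ⧸ M) * g := by
      intro g
      obtain ⟨g, rfl⟩ := hf g
      rw [← hkz, ← map_mul, ← map_mul, eq_comm]
      rw [QuotientGroup.mk'_eq_mk']
      refine ⟨⁅k⁻¹, g⁻¹⁆⁻¹⁻¹⁻¹, M.inv_mem (M.inv_mem (M.inv_mem (hWM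
        (Subgroup.commutator_mem_commutator (K.inv_mem hk) trivial)))), ?_⟩
      rw [commutatorElement_def]
      group
    have hzn : (Subgroup.zpowers (z : G ⧸ M)).Normal := by
      refine ⟨fun x hx g => ?_⟩
      obtain ⟨j, rfl⟩ := Subgroup.mem_zpowers_iff.1 hx
      rw [((show Commute g (z : G ⧸ M) from hcen g).zpow_right j).eq, mul_inv_cancel_right]
      exact Subgroup.zpow_mem _ (Subgroup.mem_zpowers _) _
    have hzK : Subgroup.zpowers (z : G ⧸ M) ≤ K.map f := (Subgroup.zpowers_le).2 z.2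
    have hM' : M ≤ (Subgroup.zpowers (z : G ⧸ M)).comap f := by
      intro m hm
      rw [Subgroup.mem_comap, show f m = 1 from (QuotientGroup.eq_one_iff m).2 hm]
      exact one_mem _
    have hM'K : (Subgroup.zpowers (z : G ⧸ M)).comap f ≤ K := by
      refine (Subgroup.comap_mono hzK).trans ?_
      rw [Subgroup.comap_map_eq, QuotientGroup.ker_mk', sup_eq_left.2 hMK.le]
    rcases hM'K.lt_or_eq with hlt | heq
    · exfalso
      have hle := hMmax ⟨Subgroup.Normal.comap hzn f, hWM.trans hM', hlt⟩ hM'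
      have hz1 : (z : G ⧸ M) = 1 := by
        rw [← hkz]
        exact (QuotientGroup.eq_one_iff k).2 (hle (by
          rw [Subgroup.mem_comap, hkz]; exact Subgroup.mem_zpowers _))
      rw [← Subgroup.orderOf_coe, hz1, orderOf_one] at hz
      exact hp.one_lt.ne hz
    · rw [← heq, Subgroup.map_comap_eq_self_of_surjective hf, Nat.card_zpowers,
        Subgroup.orderOf_coe, hz]
  by_contra hlt
  rw [not_le] at hlt
  obtain ⟨a, ha⟩ := IsPGroup.iff_card.1 ((hG.to_subgroup Y).to_quotient (K.subgroupOf Y))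
  have hidx : K.relIndex Y = p ^ a := by
    rw [Subgroup.relIndex, Subgroup.index_eq_card, ha]
  rw [hidx] at hlt
  have han : a < n := (Nat.pow_lt_pow_iff_right hp.one_lt).1 hlt
  have hcY : Nat.card (Y.map f) ≤ p ^ n := by
    rw [← Subgroup.relIndex_ker, QuotientGroup.ker_mk',
      ← Subgroup.relIndex_mul_relIndex M K Y hMK.le hKleY, hidx]
    rw [← Subgroup.relIndex_ker, QuotientGroup.ker_mk'] at hcK
    rw [hcK, ← pow_succ']
    exact Nat.pow_le_pow_right hp.pos han
  have h0 : ⁅Y.map f, (⊤ : Subgroup (G ⧸ M)).lowerCentralSeries (n - 1)⁆ = ⊥ := by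
    refine le_bot_iff.1 (le_trans (comm_gamma_le _ _ (hYn.map f hf)) ?_)
    rw [show n - 1 + 1 = n by omega, it_eq_bot hQ n _ (hYn.map f hf) hcY]
  have hKb : K.map f ≤ ⊥ := by
    rw [hKY, Subgroup.map_commutator, ← h0]
    refine Subgroup.commutator_mono le_rfl ?_
    refine (Subgroup.map_mono hN).trans ?_
    rw [Subgroup.map_lowerCentralSeries, Subgroup.map_top_of_surjective f hf]
  rw [le_bot_iff] at hKb
  rw [hKb, Subgroup.card_bot] at hcK
  exact hp.one_lt.ne hcK

end Cfsg.Agent.S3781
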