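import Cfsg.Statements.S3784
import Mathlib
-- import your own Cfsg.Agent.* helpers here

set_option autoImplicit false
open Cfsg

namespace Cfsg.Agent.S3784

theorem natAbs_eq_of_two_pow {x : ℤ} (hx : Odd x) {n c : ℕ} (hn : Odd n)
    (h : (x ^ n - 1).natAbs = 2 ^ c) : (x - 1).natAbs = (x ^ n - 1).natAbs := by
  have hg := geom_sum_mul x n
  set s := ∑ i ∈ Finset.range n, x ^ i with hs
  have hodd : Odd s := by
    rw [Int.odd_iff, hs, Finset.sum_int_mod, Finset.sum_congr rfl fun i _ => Int.odd_iff.1 (hx.pow (n := i))]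
    simp only [Finset.sum_const, Finset.card_range, nsmul_eq_mul, mul_one]
    exact_mod_cast Nat.odd_iff.1 hn
  have hmul : s.natAbs * (x - 1).natAbs = 2 ^ c := by rw [← Int.natAbs_mul, hg, h]
  obtain ⟨t, -, ht⟩ := (Nat.dvd_prime_pow Nat.prime_two).1 (Dvd.intro _ hmul)
  rcases t with _ | t
  · rw [pow_zero] at ht
    rw [ht, one_mul] at hmul
    rw [hmul, h]
  · have := Int.natAbs_odd.2 hodd
    rw [ht] at this
    exact absurd this (Nat.not_odd_iff_even.2 (Even.pow_of_ne_zero even_two (Nat.succ_ne_zero t)))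


/-- Let p, q be primes and a, b positive integers with p^a = q^b + 1. Then either p = 2, b = 1, a is prime and q = 2^a − 1; or q = 2, a = 1, b is a power of 2 and p = 2^b + 1; or p^a = 9 and q^b = 8. -/
theorem result (p q a b : ℕ) (hp : p.Prime) (hq : q.Prime) (ha : 1 ≤ a) (hb : 1 ≤ b) (h : p ^ a = q ^ b + 1) : (p = 2 ∧ b = 1 ∧ a.Prime ∧ q + 1 = 2 ^ a) ∨ (q = 2 ∧ a = 1 ∧ (∃ m : ℕ, b = 2 ^ m) ∧ p = 2 ^ b + 1) ∨ (p ^ a = 9 ∧ q ^ b = 8) := by
  rcases hp.eq_two_or_odd' with rfl | hpo
  · have hqo : Odd q := by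
      rcases hq.eq_two_or_odd' with rfl | hqo
      · exfalso
        have h1 : Even (2 ^ a) := Even.pow_of_ne_zero even_two (by omega)
        rw [h] at h1
        exact (Nat.not_odd_iff_even.2 h1) (Even.add_one (Even.pow_of_ne_zero even_two (by omega)))
      · exact hqo
    have hbo : Odd b := by
      by_contra hbe
      obtain ⟨k, rfl⟩ := Nat.not_odd_iff_even.1 hbe
      obtain ⟨r, hr⟩ := hqo.pow (n := k)
      rw [pow_add, hr] at h
      rcases a with _ | _ | a
      · omega
      · have h1 : 1 < q ^ (k + k) := Nat.one_lt_pow (by omega) hq.one_lt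
        rw [pow_add, hr] at h1
        omega
      · rw [pow_succ, pow_succ] at h
        have h1 : (2 * r + 1) * (2 * r + 1) = 4 * (r * r + r) + 1 := by ring
        omega
    have hq1 : q + 1 = 2 ^ a := by
      have hx : Odd (-(q : ℤ)) := (by exact_mod_cast hqo : Odd (q : ℤ)).neg
      have e1 : ((-(q : ℤ)) ^ b - 1).natAbs = q ^ b + 1 := by
        rw [hbo.neg_pow, show -(q : ℤ) ^ b - 1 = -((q ^ b + 1 : ℕ) : ℤ) by push_cast; ring, Int.natAbs_neg,
          Int.natAbs_natCast]
      have e2 := natAbs_eq_of_two_pow hx hbo (c := a) (by rw [e1, h])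
      rw [e1, show -(q : ℤ) - 1 = -((q + 1 : ℕ) : ℤ) by push_cast; ring, Int.natAbs_neg, Int.natAbs_natCast] at e2
      rw [e2, h]
    have hb1 : b = 1 := by
      have : q ^ b = q ^ 1 := by rw [pow_one]; omega
      exact Nat.pow_right_injective hq.two_le this
    left
    refine ⟨rfl, hb1, (Nat.prime_of_pow_sub_one_prime ?_ (show (2 ^ a - 1).Prime from ?_)).2, hq1⟩
    · rintro rfl
      have := hq.two_le
      omega
    · rwa [← hq1, Nat.add_sub_cancel]
  · have hq2 : q = 2 := by
      rcases hq.eq_two_or_odd' with rfl | hqo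
      · rfl
      · exfalso
        have h1 := hpo.pow (n := a)
        rw [h] at h1
        exact (Nat.not_even_iff_odd.2 h1) (hqo.pow (n := b)).add_one
    subst hq2
    rcases Nat.even_or_odd a with ⟨k, rfl⟩ | hao
    · right; right
      obtain ⟨r, hr⟩ := hpo.pow (n := k)
      rw [pow_add, hr] at h ⊢
      have h1 : (2 * r) * (2 * r + 2) = 2 ^ b := by
        have : (2 * r + 1) * (2 * r + 1) = (2 * r) * (2 * r + 2) + 1 := by ring
        linarith
      obtain ⟨u, -, hu⟩ := (Nat.dvd_prime_pow Nat.prime_two).1 (Dvd.intro _ h1)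
      obtain ⟨v, -, hv⟩ := (Nat.dvd_prime_pow Nat.prime_two).1 (Dvd.intro_left _ h1)
      have hr1 : r = 1 := by
        rcases u with _ | _ | u
        · omega
        · omega
        · rcases v with _ | _ | v
          · omega
          · have := Nat.two_pow_pos u; rw [pow_succ, pow_succ] at hu; omega
          · rw [pow_succ, pow_succ] at hu hv; omega
      subst hr1
      norm_num at h ⊢
      omega
    · right; left
      have hp1 : p = 2 ^ b + 1 := by
        have hx : Odd (p : ℤ) := by exact_mod_cast hpo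
        have hpa : 1 ≤ p ^ a := Nat.one_le_pow _ _ hp.pos
        have e1 : ((p : ℤ) ^ a - 1).natAbs = p ^ a - 1 := by
          rw [show (p : ℤ) ^ a - 1 = ((p ^ a - 1 : ℕ) : ℤ) by push_cast [hpa]; ring, Int.natAbs_natCast]
        have e2 := natAbs_eq_of_two_pow hx hao (c := b) (by rw [e1, h, Nat.add_sub_cancel])
        rw [e1, show (p : ℤ) - 1 = ((p - 1 : ℕ) : ℤ) by push_cast [hp.one_le]; ring, Int.natAbs_natCast, h,
          Nat.add_sub_cancel] at e2
        have := hp.two_le
        omega
      refine ⟨rfl, ?_, Nat.pow_of_pow_add_prime (by norm_num) (by omega) (hp1 ▸ hp), hp1⟩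
      exact Nat.pow_right_injective hp.two_le (by dsimp only; rw [pow_one, h, hp1])

end Cfsg.Agent.S3784
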