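import Cfsg.Statements.S3785
import Mathlib
import Cfsg.Agent.Lib.Solv.MinNormal
import Cfsg.Agent.Lib.Solv.Cores
import Cfsg.Agent.Lib.Transfer.Critical
import Cfsg.Agent.Lib.Transfer.Action
import Cfsg.Agent.Lib.Solv.SchurZassenhaus
-- import your own Cfsg.Agent.* helpers here

set_option autoImplicit false
open Cfsg
open scoped Pointwise

namespace Cfsg.Agent.S3785

/-- Let G be a finite solvable group whose Fitting subgroup F(G) has odd order. If an element g of G commutes with every element of prime order of F(G), then g ∈ F(G). -/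
theorem result {G : Type*} [Group G] [Finite G] (hG : Group.IsSolvable G) (hodd : Odd (Nat.card (Cfsg.fittingSubgroup G))) (g : G) (hg : ∀ x ∈ Cfsg.fittingSubgroup G, (orderOf x).Prime → g * x = x * g) : g ∈ Cfsg.fittingSubgroup G := by
  classical
  haveI := hG
  set F := Cfsg.fittingSubgroup G with hFdef
  set Ω : Set G := {x | x ∈ F ∧ (orderOf x).Prime} with hΩ
  set W := Subgroup.centralizer Ω with hW
  haveI hFn : F.Normal := by
    rw [hFdef, Cfsg.Lib.Solv.fitting_eq_iSup_pCore]
    infer_instance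
  haveI hWn : W.Normal := by
    refine ⟨fun w hw a => Subgroup.mem_centralizer_iff.2 fun x hx => ?_⟩
    have hx' : a⁻¹ * x * a ∈ Ω := by
      refine ⟨by simpa using hFn.conj_mem x hx.1 a⁻¹, ?_⟩
      have : orderOf (a⁻¹ * x * a) = orderOf x := by
        simpa using orderOf_injective (MulAut.conj a⁻¹).toMonoidHom (MulAut.conj a⁻¹).injective x
      rw [this]; exact hx.2
    have h1 := Subgroup.mem_centralizer_iff.1 hw _ hx'
    calc x * (a * w * a⁻¹) = a * ((a⁻¹ * x * a) * w) * a⁻¹ := by group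
      _ = a * (w * (a⁻¹ * x * a)) * a⁻¹ := by rw [h1]
      _ = _ := by group
  suffices hnil : Group.IsNilpotent W from
    Cfsg.Lib.Solv.le_fitting hWn hnil (Subgroup.mem_centralizer_iff.2 fun x hx => (hg x hx.1 hx.2).symm)
  -- elements of `W` centralise the cores for the other primes
  have hcent : ∀ (r q : ℕ), r.Prime → q.Prime → r ≠ q → ∀ x ∈ W, (∃ k, orderOf x = r ^ k) →
      x ∈ Subgroup.centralizer (Cfsg.pCore q G : Set G) := by
    intro r q hr hq hrq x hxW hxk
    obtain ⟨k, hk⟩ := hxk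
    haveI := Fact.mk hq
    refine Subgroup.mem_centralizer_iff.2 fun y hy => ?_
    rcases eq_or_ne q 2 with rfl | hq2
    · have h1 : Cfsg.pCore 2 G = ⊥ := by
        obtain ⟨j, hj⟩ := IsPGroup.iff_card.1 (Cfsg.Lib.Solv.isPGroup_pCore (G := G) 2)
        have h2 : Nat.card (Cfsg.pCore 2 G) ∣ Nat.card F :=
          Subgroup.card_dvd_of_le (Cfsg.Lib.Solv.pCore_le_fitting 2)
        refine Subgroup.card_eq_one.1 (Nat.eq_one_of_dvd_coprimes
          ((Nat.coprime_two_left.2 hodd).pow_left j) (hj ▸ dvd_rfl) h2)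
      rw [SetLike.mem_coe, h1, Subgroup.mem_bot] at hy
      subst hy; simp
    · let f : Cfsg.pCore q G ≃* Cfsg.pCore q G := (MulAut.conjNormal : G →* MulAut (Cfsg.pCore q G)) x
      have hfix := Cfsg.Lib.Transfer.fixed_of_fix_omega hq2 _ (Cfsg.pCore q G) rfl
        (Cfsg.Lib.Solv.isPGroup_pCore q) f (r ^ k)
        (((Nat.coprime_primes hr hq).2 hrq).pow_left k) (fun z => by
          have hit : ∀ (n : ℕ) (z : Cfsg.pCore q G),
              f^[n] z = (MulAut.conjNormal : G →* MulAut (Cfsg.pCore q G)) (x ^ n) z := by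
            intro n
            induction n with
            | zero => intro z; simp
            | succ n ih =>
              intro z
              rw [Function.iterate_succ_apply, ih, pow_succ, map_mul]
              rfl
          rw [hit, ← hk, pow_orderOf_eq_one, map_one]; rfl) (fun z hz => by
          rcases eq_or_ne z 1 with rfl | hz1
          · exact map_one f
          apply Subtype.ext
          show ((MulAut.conjNormal x z : Cfsg.pCore q G) : G) = z
          rw [MulAut.conjNormal_apply]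
          have hzΩ : (z : G) ∈ Ω := ⟨Cfsg.Lib.Solv.pCore_le_fitting q z.2, by
            rw [Subgroup.orderOf_coe, orderOf_eq_prime hz hz1]; exact hq⟩
          rw [← Subgroup.mem_centralizer_iff.1 hxW _ hzΩ, mul_inv_cancel_right]) ⟨y, hy⟩
      have h2 : x * y * x⁻¹ = y := by
        have := congrArg Subtype.val hfix
        simpa [f, MulAut.conjNormal_apply] using this
      exact (mul_inv_eq_iff_eq_mul.1 h2).symm
  have hmemF : ∀ (s : ℕ), s.Prime → ∀ y ∈ F, (∃ k, orderOf y = s ^ k) → y ∈ Cfsg.pCore s G := by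
    intro s hs y hy hyk
    obtain ⟨k, hk⟩ := hyk
    haveI := Fact.mk hs
    exact Cfsg.Lib.Solv.le_pCore_of_le_fitting (Subgroup.zpowers_le.2 hy)
      (IsPGroup.of_card (n := k) (by rw [Nat.card_zpowers, hk])) (Subgroup.mem_zpowers y)
  set D := W ⊓ Subgroup.centralizer (F : Set G) with hD
  -- key step: a `q`-element of `W` times an element of `D`
  have key : ∀ (q : ℕ), q.Prime → ∀ x ∈ W, (∃ k, orderOf x = q ^ k) → ∀ d ∈ D,
      (∃ k, orderOf (d * x) = q ^ k) → d ∈ Cfsg.pCore q G := by
    intro q hq x hxW hxk d hd hdxk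
    haveI := Fact.mk hq
    have hdF : d ∈ F := Cfsg.Lib.Solv.centralizer_fitting_le hd.2
    obtain ⟨i, m, hm, hord⟩ := Nat.exists_eq_pow_mul_and_not_dvd (orderOf_pos d).ne' q hq.ne_one
    refine hmemF q hq d hdF ⟨i, ?_⟩
    suffices hm1 : d ^ q ^ i = 1 by
      have h1 := orderOf_dvd_of_pow_eq_one hm1
      exact Nat.dvd_antisymm h1 (hord ▸ dvd_mul_right _ _)
    set b := d ^ q ^ i with hb
    have hbm : b ^ m = 1 := by rw [hb, ← pow_mul, ← hord, pow_orderOf_eq_one]
    -- `b` commutes with `x`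
    have hxb : Commute b x := by
      have h1 : x ∈ Subgroup.centralizer (Subgroup.zpowers b : Set G) := by
        refine Subgroup.mem_centralizer_iff.2 fun w hw => ?_
        have h2 : w ∈ Subgroup.centralizer (Subgroup.zpowers x : Set G) := by
          refine Cfsg.Lib.Transfer.mem_centralizer_of_prime_parts fun s hs z hz hzs => ?_
          obtain ⟨e, he⟩ := hzs
          refine Subgroup.mem_centralizer_iff.2 fun u hu => ?_
          rcases eq_or_ne s q with rfl | hsq
          · have h3 : orderOf z ∣ m := (orderOf_dvd_of_mem_zpowers hz).trans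
              ((orderOf_dvd_of_mem_zpowers hw).trans (orderOf_dvd_of_pow_eq_one hbm))
            have h4 : z = 1 := orderOf_eq_one_iff.1 (Nat.eq_one_of_dvd_coprimes
              ((hq.coprime_iff_not_dvd.2 hm).pow_left e) (he ▸ dvd_rfl) h3)
            subst h4; simp
          · have hzF : z ∈ F := by
              have hwF : w ∈ F := (Subgroup.zpowers_le.2 (pow_mem hdF _)) hw
              exact (Subgroup.zpowers_le.2 hwF) hz
            obtain ⟨j, rfl⟩ := Subgroup.mem_zpowers_iff.1 hu
            have h5 := Subgroup.mem_centralizer_iff.1 (hcent q s hq hs hsq.symm x hxW hxk) z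
              (hmemF s hs z hzF ⟨e, he⟩)
            exact ((Commute.zpow_right (show Commute z x from h5) j)).eq.symm
        exact (Subgroup.mem_centralizer_iff.1 h2 x (Subgroup.mem_zpowers x)).symm
      exact Subgroup.mem_centralizer_iff.1 h1 b (Subgroup.mem_zpowers b)
    -- the product has `q`-power order
    obtain ⟨kx, hkx⟩ := hxk
    obtain ⟨kdx, hkdx⟩ := hdxk
    set S := Subgroup.zpowers x ⊔ Cfsg.pCore q G with hS
    have hSq : IsPGroup q S := IsPGroup.to_sup_of_normal_right
      (IsPGroup.of_card (n := kx) (by rw [Nat.card_zpowers, hkx]))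
      (Cfsg.Lib.Solv.isPGroup_pCore q)
    obtain ⟨u, v, huv⟩ : ∃ u v : ℤ, (q : ℤ) ^ i * u + (m : ℤ) * v = 1 := by
      have := Int.isCoprime_iff_nat_coprime.2
        (show (q ^ i : ℤ).natAbs.Coprime (m : ℤ).natAbs by
          simpa using (hq.coprime_iff_not_dvd.2 hm).pow_left i)
      obtain ⟨u, v, h⟩ := this
      exact ⟨u, v, by linarith⟩
    set a := d ^ ((m : ℤ) * v) with ha
    have hda : d = b ^ u * a := by
      rw [ha, hb, ← zpow_natCast, ← zpow_mul, ← zpow_add]
      push_cast
      rw [huv, zpow_one]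
    have haq : a ^ q ^ i = 1 := by
      rw [ha, ← zpow_natCast, ← zpow_mul, show (m : ℤ) * v * ((q ^ i : ℕ) : ℤ) = ((q ^ i * m : ℕ) : ℤ) * v by
        push_cast; ring, zpow_mul, zpow_natCast, ← hord, pow_orderOf_eq_one, one_zpow]
    have haS : a * x ∈ S := by
      refine mul_mem (Subgroup.mem_sup_right ?_) (Subgroup.mem_sup_left (Subgroup.mem_zpowers x))
      obtain ⟨e, -, he⟩ := (Nat.dvd_prime_pow hq).1 (orderOf_dvd_of_pow_eq_one haq)
      exact hmemF q hq a (zpow_mem hdF _) ⟨e, he⟩
    obtain ⟨e, he⟩ := hSq ⟨a * x, haS⟩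
    have hcomm : Commute (b ^ u) (a * x) := by
      refine Commute.mul_right ?_ (hxb.zpow_left u)
      rw [ha, hb, ← zpow_natCast, ← zpow_mul]
      exact Commute.zpow_zpow_self d _ _
    have h6 : (b ^ u) ^ q ^ (e + kdx) = 1 := by
      have h7 : (d * x) ^ q ^ (e + kdx) = 1 := by
        rw [pow_add, mul_comm, pow_mul, ← hkdx, pow_orderOf_eq_one, one_pow]
      rw [hda, mul_assoc, hcomm.mul_pow] at h7
      have h8 : (a * x) ^ q ^ (e + kdx) = 1 := by
        rw [pow_add, pow_mul, show (a * x) ^ q ^ e = 1 from congrArg Subtype.val he, one_pow]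
      rwa [h8, mul_one] at h7
    have h9 : b ^ u = 1 := orderOf_eq_one_iff.1 (Nat.eq_one_of_dvd_coprimes
      ((hq.coprime_iff_not_dvd.2 hm).pow_left (e + kdx)) (orderOf_dvd_of_pow_eq_one h6)
      (orderOf_dvd_of_pow_eq_one (by
        rw [← zpow_natCast, ← zpow_mul, mul_comm, zpow_mul, zpow_natCast, hbm, one_zpow])))
    rw [hda, h9, one_mul] at hb
    rw [hb]; exact haq
  have hcomm : ∀ (q r : ℕ), q.Prime → r.Prime → q ≠ r → ∀ x ∈ W, (∃ k, orderOf x = q ^ k) →
      ∀ y ∈ W, (∃ k, orderOf y = r ^ k) → Commute x y := by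
    intro q r hq hr hqr x hx hxk y hy hyk
    haveI := Fact.mk hq
    haveI := Fact.mk hr
    set d := y * x * y⁻¹ * x⁻¹ with hd
    have hdW : d ∈ W := mul_mem (mul_mem (mul_mem hy hx) (inv_mem hy)) (inv_mem hx)
    have hdC : d ∈ Subgroup.centralizer (F : Set G) := by
      have hle : F ≤ Subgroup.centralizer ({d} : Set G) := by
        rw [hFdef, Cfsg.Lib.Solv.fitting_eq_iSup_pCore]
        refine iSup_le fun s z hz => Subgroup.mem_centralizer_singleton_iff.2 ?_
        set C := Subgroup.centralizer (Cfsg.pCore (s : ℕ) G : Set G)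
        haveI : C.Normal := inferInstance
        have hdC : d ∈ C := by
          rcases eq_or_ne (s : ℕ) q with hs | hs
          · have h := hcent r s hr s.2 (hs.symm ▸ hqr.symm) y hy hyk
            have e : d = y * (x * y⁻¹ * x⁻¹) := by rw [hd]; group
            rw [e]
            exact mul_mem h ((inferInstance : C.Normal).conj_mem _ (inv_mem h) x)
          · have h := hcent q s hq s.2 hs.symm x hx hxk
            exact mul_mem ((inferInstance : C.Normal).conj_mem _ h y) (inv_mem h)
        exact Subgroup.mem_centralizer_iff.1 hdC z hz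
      exact Subgroup.mem_centralizer_iff.2 fun z hz => Subgroup.mem_centralizer_singleton_iff.1 (hle hz)
    have hdD : d ∈ D := ⟨hdW, hdC⟩
    have hconj : ∀ a b : G, orderOf (a * b * a⁻¹) = orderOf b := fun a b =>
      orderOf_injective (MulAut.conj a).toMonoidHom (MulAut.conj a).injective b
    have h1 : d ∈ Cfsg.pCore q G := key q hq x hx hxk d hdD (by
      rw [hd, inv_mul_cancel_right, hconj]; exact hxk)
    have h2 : d⁻¹ ∈ Cfsg.pCore r G := key r hr y hy hyk d⁻¹ (inv_mem hdD) (by
      have e : d⁻¹ * y = x * y * x⁻¹ := by rw [hd]; group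
      rw [e, hconj]; exact hyk)
    have h3 : d ∈ Cfsg.pCore q G ⊓ Cfsg.pCore r G := ⟨h1, by simpa using inv_mem h2⟩
    obtain ⟨i, hi⟩ := IsPGroup.iff_card.1 (Cfsg.Lib.Solv.isPGroup_pCore (G := G) q)
    obtain ⟨j, hj⟩ := IsPGroup.iff_card.1 (Cfsg.Lib.Solv.isPGroup_pCore (G := G) r)
    rw [Cfsg.Lib.Solv.inf_eq_bot_of_coprime_card (by
      rw [hi, hj]; exact ((Nat.coprime_primes hq hr).2 hqr).pow i j), Subgroup.mem_bot] at h3
    exact (mul_inv_eq_iff_eq_mul.1 (mul_inv_eq_one.1 (hd ▸ h3))).symm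
  refine (Group.isNilpotent_of_finite_tfae.out 0 3).2 ?_
  intro q hq Q
  haveI := hq
  refine Subgroup.normalizer_eq_top_iff.1 (Cfsg.Lib.Solv.eq_top_of_forall_sylow_le fun r hr _ => ?_)
  haveI := Fact.mk hr
  rcases eq_or_ne r q with rfl | hrq
  · exact ⟨Q, Subgroup.le_normalizer⟩
  obtain ⟨R⟩ : Nonempty (Sylow r W) := inferInstance
  refine ⟨R, fun y hy => Subgroup.centralizer_le_normalizer _ (Subgroup.mem_centralizer_iff.2 fun x hx => ?_)⟩
  obtain ⟨i, hi⟩ := IsPGroup.iff_orderOf.1 Q.2 ⟨x, hx⟩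
  obtain ⟨j, hj⟩ := IsPGroup.iff_orderOf.1 R.2 ⟨y, hy⟩
  rw [Subgroup.orderOf_mk] at hi hj
  exact Subtype.ext (hcomm q r hq.out hr hrq.symm x x.2 ⟨i, by rw [Subgroup.orderOf_coe, hi]⟩
    y y.2 ⟨j, by rw [Subgroup.orderOf_coe, hj]⟩).eq

end Cfsg.Agent.S3785
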