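import Cfsg.Statements.S3794
import Mathlib
import Cfsg.Agent.Lib.Solv.FpfFour
-- import your own Cfsg.Agent.* helpers here

set_option autoImplicit false
open Cfsg

namespace Cfsg.Agent.S3794

/-- Let G be a finite solvable group with an automorphism σ satisfying σ⁴ = 1 and fixing only the identity. Then the derived subgroup G' is nilpotent. -/
theorem result {G : Type*} [Group G] [Finite G] (hG : Group.IsSolvable G) (σ : MulAut G) (hσ : σ ^ 4 = 1) (hfpf : ∀ g : G, σ g = g → g = 1) : Group.IsNilpotent (commutator G) := by
    haveI := hG
    exact Cfsg.Lib.Solv.FpfFour.derived_nilpotent _ G le_rfl σ hσ hfpf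

end Cfsg.Agent.S3794
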