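import Cfsg.Statements.S3796
import Cfsg.Agent.Lib.Solv.Ward
-- import your own Cfsg.Agent.* helpers here

set_option autoImplicit false
open Cfsg

namespace Cfsg.Agent.S3796


open Subgroup Cfsg.Lib.Solv Cfsg.Lib.Solv.Ward in
theorem aux.{u, w} {p : ℕ} [Fact p.Prime] {A : Type w} [CommGroup A] [Finite A] (hexp : ∀ a : A, a ^ p = 1)
    (hcard : Nat.card A = p ^ 2) : ∀ (n : ℕ) (G : Type u) [Group G] [Finite G] [MulDistribMulAction A G],
    Nat.card G ≤ n → Group.IsSolvable G → (∀ x : G, (∀ a : A, a • x = x) → x = 1) →
    ∃ k : ℕ, (⊤ : Subgroup G).lowerCentralSeries k ≤ Cfsg.fittingSubgroup G := by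
  intro n
  induction n with
  | zero => intro G _ _ _ hn; exact absurd hn (Nat.not_le.2 Nat.card_pos)
  | succ n ih =>
    intro G _ _ _ hn hsol hfix
    rcases subsingleton_or_nontrivial G with hG | hG
    · exact ⟨0, fun x _ => by rw [Subsingleton.elim x 1]; exact one_mem _⟩
    obtain ⟨q, V, hq, hVn, hVb, hVi, hVc, hVq, hVmin⟩ := exists_minimal (A := A) (K := G) hsol
    have := Fact.mk hq
    have := hVn
    let C : Subgroup G := centralizer (V : Set G)
    have hCn : C.Normal := normal_centralizer
    have hCi : ∀ (a : A), ∀ x ∈ C, a • x ∈ C := by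
      intro a x hx
      rw [mem_centralizer_iff]
      intro v hv
      have h1 := congrArg (a • ·) (mem_centralizer_iff.1 hx _ (hVi a⁻¹ v hv))
      simpa only [smul_mul', smul_inv_smul] using h1
    -- the actions on a quotient
    let qact : ∀ (N : Subgroup G) [N.Normal], (∀ (a : A), ∀ x ∈ N, a • x ∈ N) → MulDistribMulAction A (G ⧸ N) :=
      fun N _ hN =>
      { smul := fun a x => QuotientGroup.map N N (MulDistribMulAction.toMonoidHom G a) (fun y hy => hN a y hy) x
        one_smul := fun x => by
          refine QuotientGroup.induction_on x fun y => ?_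
          exact congrArg (QuotientGroup.mk (s := N)) (one_smul A y)
        mul_smul := fun a b x => by
          refine QuotientGroup.induction_on x fun y => ?_
          exact congrArg (QuotientGroup.mk (s := N)) (mul_smul a b y)
        smul_one := fun a => map_one _
        smul_mul := fun a x y => map_mul _ x y }
    -- the quotient by the minimal subgroup
    obtain ⟨k₂, hk₂⟩ : ∃ k : ℕ, (⊤ : Subgroup (G ⧸ V)).lowerCentralSeries k ≤ Cfsg.fittingSubgroup (G ⧸ V) := by
      letI := qact V hVi
      refine ih (G ⧸ V) ?_ inferInstance fun x => ?_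
      · have h1 : V.index * Nat.card V = Nat.card G := V.index_mul_card
        have h2 : 2 ≤ Nat.card V := (Subgroup.one_lt_card_iff_ne_bot V).2 hVb
        have h3 : 0 < V.index := Nat.pos_of_ne_zero index_ne_zero_of_finite
        rw [← Subgroup.index_eq_card]
        nlinarith
      · refine QuotientGroup.induction_on x fun y => ?_
        intro hy
        exact (QuotientGroup.eq_one_iff y).2 (mem_of_fixed_coset hexp hfix V hVi fun a => QuotientGroup.eq.1 (hy a).symm)
    -- the minimal subgroup as a module
    obtain ⟨k₁, hk₁⟩ : ∃ k : ℕ, (⊤ : Subgroup G).lowerCentralSeries k ≤ C := by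
      letI : CommGroup V := { (inferInstance : Group V) with mul_comm := fun a b => Subtype.ext (hVc a a.2 b b.2) }
      letI := qact C hCi
      letI : MulDistribMulAction A V :=
        { smul := fun a v => ⟨a • (v : G), hVi a v v.2⟩
          one_smul := fun v => Subtype.ext (one_smul A (v : G))
          mul_smul := fun a b v => Subtype.ext (mul_smul a b (v : G))
          smul_one := fun a => Subtype.ext (smul_one a)
          smul_mul := fun a v w => Subtype.ext (smul_mul' a (v : G) w) }
      have hCker : C ≤ (MulAut.conjNormal : G →* MulAut V).ker := fun x hx => by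
        refine MonoidHom.mem_ker.2 (MulEquiv.ext fun v => Subtype.ext ?_)
        rw [MulAut.conjNormal_apply]
        show x * (v : G) * x⁻¹ = v
        rw [← mem_centralizer_iff.1 hx v v.2, mul_inv_cancel_right]
      letI : MulDistribMulAction (G ⧸ C) V :=
        MulDistribMulAction.compHom V (QuotientGroup.lift C (MulAut.conjNormal : G →* MulAut V) hCker)
      have hact : ∀ (g : G) (v : V), (((g : G ⧸ C) • v : V) : G) = g * v * g⁻¹ := fun g v => MulAut.conjNormal_apply g v
      have hnil : Group.IsNilpotent (G ⧸ C) := by
        have : Nontrivial V := (nontrivial_iff_ne_bot V).2 hVb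
        refine core (U := V) hexp hcard (fun x => ?_) (fun v hv => Subtype.ext (hfix _ fun a => congrArg Subtype.val (hv a)))
          (fun a h v => ?_) (q := q) (fun v => Subtype.ext (by rw [Subgroup.coe_pow, hVq v v.2, Subgroup.coe_one]))
          (fun h => ?_) (fun W hWA hWH => ?_) (fun c hc h v => ?_) inferInstance
        · refine QuotientGroup.induction_on x fun y => ?_
          intro hy
          exact (QuotientGroup.eq_one_iff y).2 (mem_of_fixed_coset hexp hfix C hCi fun a => QuotientGroup.eq.1 (hy a).symm)
        · refine QuotientGroup.induction_on h fun g => ?_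
          refine Subtype.ext ?_
          show a • ((((g : G ⧸ C) • v : V)) : G) = (((a • g : G) : G ⧸ C) • (a • v) : V)
          rw [hact, hact, smul_mul', smul_mul', smul_inv']
          rfl
        · refine QuotientGroup.induction_on h fun g => ?_
          intro hg
          refine (QuotientGroup.eq_one_iff g).2 (mem_centralizer_iff.2 fun v hv => ?_)
          have h1 : g * v * g⁻¹ = v := (hact g ⟨v, hv⟩).symm.trans (congrArg Subtype.val (hg ⟨v, hv⟩))
          exact (mul_inv_eq_iff_eq_mul.1 h1).symm
        · have h1 : (W.map V.subtype).Normal := ⟨by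
            rintro _ ⟨w, hw, rfl⟩ g
            exact ⟨(g : G ⧸ C) • w, hWH _ w hw, hact g w⟩⟩
          have h2 : ∀ (a : A), ∀ x ∈ W.map V.subtype, a • x ∈ W.map V.subtype := by
            rintro a _ ⟨w, hw, rfl⟩
            exact ⟨a • w, hWA a w hw, rfl⟩
          rcases hVmin (W.map V.subtype) h1 h2 (map_subtype_le W) with h | h
          · exact Or.inl ((map_eq_bot_iff_of_injective W V.subtype_injective).1 h)
          · refine Or.inr (map_injective V.subtype_injective ?_)
            rw [h, ← MonoidHom.range_eq_map, range_subtype]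
        · refine QuotientGroup.induction_on h fun g => ?_
          intro hcg hcv hco
          obtain ⟨g', hg', hfix'⟩ := exists_fixed hexp (not_dvd_card hexp hfix) (zpowers c) C (fun a _ => hCi a)
            (g := g) (fun a ha => QuotientGroup.eq.1 (MulAction.mem_stabilizer_iff.1
              ((zpowers_le (H := MulAction.stabilizer A ((g : G ⧸ C)))).2 hcg ha)).symm)
          rw [QuotientGroup.eq.2 hg'] at hco ⊢
          obtain ⟨e, m, hqm, hord⟩ := Nat.exists_eq_pow_mul_and_not_dvd (orderOf_pos g').ne' q hq.ne_one
          obtain ⟨t, ht⟩ := exists_pow_eq_self_of_coprime (x := (g' : G ⧸ C)) (hco.pow_right e).symm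
          set g'' := (g' ^ q ^ e) ^ t with hg''
          have himg : (g'' : G ⧸ C) = (g' : G ⧸ C) := by rw [hg'', QuotientGroup.mk_pow, QuotientGroup.mk_pow, ht]
          rw [← himg]
          have hnilc := fixS_nilpotent (H := G) hexp hcard hfix hc
          have hg''m : g'' ^ m = 1 := by
            rw [hg'', ← pow_mul, ← pow_mul, show q ^ e * (t * m) = orderOf g' * t by rw [hord]; ring, pow_mul,
              pow_orderOf_eq_one, one_pow]
          have hc'' : g'' ∈ fixS G c := pow_mem (pow_mem (hfix' c (mem_zpowers c) : g' ∈ fixS G c) _) _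
          have hvc : (v : G) ∈ fixS G c := congrArg Subtype.val hcv
          have hmem : g'' ∈ centralizer ((zpowers (v : G)) : Set G) := by
            refine Cfsg.Lib.Transfer.mem_centralizer_of_prime_parts fun r hr y hy hyo => ?_
            obtain ⟨j, hj⟩ := hyo
            rw [zpowers_eq_closure, centralizer_closure, mem_centralizer_singleton_iff]
            by_cases hv1 : (v : G) = 1
            · rw [hv1, mul_one, one_mul]
            have hyc : y ∈ fixS G c := (zpowers_le.2 hc'') hy
            by_cases hj0 : j = 0
            · rw [hj0, pow_zero, orderOf_eq_one_iff] at hj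
              rw [hj, one_mul, mul_one]
            have hrm : r ∣ m := by
              obtain ⟨i, rfl⟩ := mem_zpowers_iff.1 hy
              have h1 : orderOf (g'' ^ i) ∣ m := by
                refine orderOf_dvd_of_pow_eq_one ?_
                rw [← zpow_natCast, ← zpow_mul, mul_comm, zpow_mul, zpow_natCast, hg''m, one_zpow]
              rw [hj] at h1
              exact (dvd_pow_self r hj0).trans h1
            exact Cfsg.Lib.Solv.commute_of_nilpotent_subgroup hnilc hr hq (fun e => hqm (e ▸ hrm)) hyc hvc hj
              (j := 1) (by rw [pow_one]; exact orderOf_eq_prime (hVq v v.2) hv1)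
          refine Subtype.ext ?_
          rw [hact, ← mem_centralizer_iff.1 hmem v (mem_zpowers _), mul_inv_cancel_right]
      obtain ⟨k, hk⟩ := (Subgroup.isNilpotent_iff_lowerCentralSeries (S := (⊤ : Subgroup (G ⧸ C)))).1 (Group.isNilpotent_top.2 hnil)
      refine ⟨k, fun x hx => (QuotientGroup.eq_one_iff x).1 ?_⟩
      have h1 : (⊤ : Subgroup G).lowerCentralSeries k ≤ ((⊤ : Subgroup (G ⧸ C)).lowerCentralSeries k).comap (QuotientGroup.mk' C) := by
        rw [← map_le_iff_le_comap, map_lowerCentralSeries, ← MonoidHom.range_eq_map,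
          MonoidHom.range_eq_top.2 (QuotientGroup.mk'_surjective C)]
      have h2 := h1 hx
      rw [hk] at h2
      exact h2
    -- intersect
    let E : Subgroup G := (Cfsg.fittingSubgroup (G ⧸ V)).comap (QuotientGroup.mk' V) ⊓ C
    refine ⟨max k₁ k₂, le_trans (le_inf ?_ (le_trans (Subgroup.lowerCentralSeries_antitone _ (le_max_left k₁ k₂)) hk₁))
      (le_fitting (N := E) inferInstance ?_)⟩
    · refine le_trans (Subgroup.lowerCentralSeries_antitone _ (le_max_right k₁ k₂)) ?_
      refine le_trans ?_ (comap_mono hk₂)
      rw [← map_le_iff_le_comap, map_lowerCentralSeries, ← MonoidHom.range_eq_map,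
        MonoidHom.range_eq_top.2 (QuotientGroup.mk'_surjective V)]
    · obtain ⟨m, hm⟩ := (isNilpotent_iff_lowerCentralSeries (S := Cfsg.fittingSubgroup (G ⧸ V))).1
        Cfsg.Lib.Solv.fitting_isNilpotent
      refine (isNilpotent_iff_lowerCentralSeries (S := E)).2 ⟨m + 1, ?_⟩
      have hEF : E.map (QuotientGroup.mk' V) ≤ Cfsg.fittingSubgroup (G ⧸ V) := by
        rintro _ ⟨y, hy, rfl⟩; exact hy.1
      have hmono : ∀ j, (E.map (QuotientGroup.mk' V)).lowerCentralSeries j ≤
          (Cfsg.fittingSubgroup (G ⧸ V)).lowerCentralSeries j := by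
        intro j
        induction j with
        | zero => exact hEF
        | succ j ihj => rw [Subgroup.lowerCentralSeries_succ, Subgroup.lowerCentralSeries_succ]; exact commutator_mono ihj hEF
      have h1 : E.lowerCentralSeries m ≤ V := by
        intro x hx
        have h2 : QuotientGroup.mk' V x ∈ (E.lowerCentralSeries m).map (QuotientGroup.mk' V) := ⟨x, hx, rfl⟩
        rw [map_lowerCentralSeries] at h2
        have h3 := hmono m h2
        rw [hm] at h3
        exact (QuotientGroup.eq_one_iff x).1 h3
      rw [Subgroup.lowerCentralSeries_succ, eq_bot_iff]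
      refine (commutator_mono h1 (inf_le_right : E ≤ C)).trans ?_
      rw [commutator_eq_bot_iff_le_centralizer.2 fun v hv => mem_centralizer_iff.2 fun x hx =>
        (mem_centralizer_iff.1 hx v hv).symm]


/-- Ward's Theorem: let G be a finite solvable group and A an elementary abelian group of automorphisms of G of order p² (p a prime) with no non-identity common fixed point. Then G has Fitting height at most 2: G has Fitting height at most m when there is a chain of normal subgroups 1 = F₀ ≤ F₁ ≤ ⋯ ≤ F_m = G with each F_{i+1}/F_i nilpotent. -/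
theorem result {G : Type*} [Group G] [Finite G] (hG : Group.IsSolvable G) {p : ℕ} (hp : p.Prime) (A : Subgroup (MulAut G)) (hA : Cfsg.IsElementaryAbelian p A) (hcard : Nat.card A = p ^ 2) (hfpf : ∀ g : G, (∀ a ∈ A, a g = g) → g = 1) : ∃ F : Fin (2 + 1) → Subgroup G, F 0 = ⊥ ∧ F (Fin.last 2) = ⊤ ∧ Monotone F ∧ (∀ i, (F i).Normal) ∧ ∀ i : Fin 2, ∃ k : ℕ, (F i.succ).lowerCentralSeries k ≤ F i.castSucc := by
  have := Fact.mk hp
  letI : CommGroup A := { (inferInstance : Group A) with mul_comm := fun a b => hA.1.is_comm.comm a b }
  obtain ⟨k, hk⟩ := aux (A := A) (fun a => Subtype.ext (by rw [Subgroup.coe_pow, hA.2 a a.2, Subgroup.coe_one]))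
    hcard (Nat.card G) G le_rfl hG (fun x hx => hfpf x fun a ha => hx ⟨a, ha⟩)
  refine ⟨![⊥, Cfsg.fittingSubgroup G, ⊤], rfl, rfl, ?_, ?_, ?_⟩
  · refine Fin.monotone_iff_le_succ.2 fun i => ?_
    fin_cases i <;> simp
  · intro i
    fin_cases i
    · exact (inferInstance : (⊥ : Subgroup G).Normal)
    · exact (inferInstance : (Cfsg.fittingSubgroup G).Normal)
    · exact (inferInstance : (⊤ : Subgroup G).Normal)
  · intro i
    fin_cases i
    · obtain ⟨m, hm⟩ := (Subgroup.isNilpotent_iff_lowerCentralSeries (S := Cfsg.fittingSubgroup G)).1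
        Cfsg.Lib.Solv.fitting_isNilpotent
      exact ⟨m, le_of_eq hm⟩
    · exact ⟨k, hk⟩

end Cfsg.Agent.S3796
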