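import Cfsg.Statements.S3797
import Mathlib
import Cfsg.Agent.Lib.Solv.OneClassMain
import Cfsg.Agent.Lib.Solv.HomocyclicTransitive
import Cfsg.Agent.Lib.PLocal.PLengthOne
-- import your own Cfsg.Agent.* helpers here

set_option autoImplicit false
open Cfsg

namespace Cfsg.Agent.S3797

/-- Let G be a finite solvable group of even order whose Sylow 2-subgroups contain more than one involution, and suppose all involutions of G are conjugate. Then G has 2-length at most 1, and a Sylow 2-subgroup S of G is either homocyclic (a direct product of cyclic groups of one common order) or a non-abelian 2-group with more than one involution admitting a solvable group of automorphisms transitive on its involutions. -/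
theorem result {G : Type*} [Group G] [Finite G] (hG : Group.IsSolvable G) (heven : Even (Nat.card G)) (S : Sylow 2 G) (htwo : ∃ x y : G, x ∈ (S : Subgroup G) ∧ y ∈ (S : Subgroup G) ∧ x ≠ y ∧ x ≠ 1 ∧ x ^ 2 = 1 ∧ y ≠ 1 ∧ y ^ 2 = 1) (hconj : ∀ x y : G, x ≠ 1 → x ^ 2 = 1 → y ≠ 1 → y ^ 2 = 1 → IsConj x y) : Cfsg.PLengthLE 2 1 G ∧ ((∃ m r : ℕ, Nonempty (↥(S : Subgroup G) ≃* (Fin r → Multiplicative (ZMod (2 ^ m))))) ∨ (¬ IsMulCommutative (S : Subgroup G) ∧ ∃ Y : Subgroup (MulAut ↥(S : Subgroup G)), Group.IsSolvable Y ∧ ∀ x y : ↥(S : Subgroup G), x ≠ 1 → x ^ 2 = 1 → y ≠ 1 → y ^ 2 = 1 → ∃ a ∈ Y, a x = y)) := by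
  classical
  haveI := Fact.mk Nat.prime_two
  haveI := hG
  set U := Cfsg.pPrimeCore 2 G with hU
  set π := QuotientGroup.mk' U with hπ
  have hUcop : (Nat.card U).Coprime 2 := Lib.Solv.coprime_pPrimeCore 2
  have hUodd : Odd (Nat.card U) := Nat.coprime_two_right.1 hUcop
  have hUinf : ∀ x ∈ U, ∀ k : ℕ, x ^ 2 ^ k = 1 → x = 1 := fun x hx k h =>
    Lib.Solv.OneClass.eq_one_of_pow hUodd (congrArg Subtype.val (pow_card_eq_one' (x := (⟨x, hx⟩ : U)))) h
  haveI : Group.IsSolvable (G ⧸ U) := Group.isSolvable_of_surjective (QuotientGroup.mk'_surjective U)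
  have hlift : ∀ y : G ⧸ U, y ≠ 1 → y ^ 2 = 1 → ∃ x : G, x ≠ 1 ∧ x ^ 2 = 1 ∧ π x = y := by
    intro y hy1 hy
    obtain ⟨x, rfl⟩ := QuotientGroup.mk'_surjective U y
    rw [← map_pow] at hy
    have hx : x ^ 2 ∈ U := (QuotientGroup.eq_one_iff _).1 hy
    have h1 : (x ^ 2) ^ Nat.card U = 1 := congrArg Subtype.val (pow_card_eq_one' (x := (⟨_, hx⟩ : U)))
    refine ⟨x ^ Nat.card U, ?_, by rw [← pow_mul, mul_comm, pow_mul, h1], ?_⟩
    · intro h
      obtain ⟨r, hr⟩ := hUodd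
      apply hy1
      have h2 := congrArg π h
      rwa [map_one, map_pow, hr, pow_succ, pow_mul, ← map_pow, hy, one_pow, one_mul] at h2
    · obtain ⟨r, hr⟩ := hUodd
      rw [map_pow, hr, pow_succ, pow_mul, ← map_pow, hy, one_pow, one_mul]
  have hconj' : ∀ x y : G ⧸ U, x ≠ 1 → x ^ 2 = 1 → y ≠ 1 → y ^ 2 = 1 → IsConj x y := by
    intro x y hx1 hx hy1 hy
    obtain ⟨a, ha1, ha, rfl⟩ := hlift x hx1 hx
    obtain ⟨b, hb1, hb, rfl⟩ := hlift y hy1 hy
    exact π.map_isConj (hconj a b ha1 ha hb1 hb)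
  obtain ⟨x, y, hxS, hyS, hxy, hx1, hx2, hy1, hy2⟩ := htwo
  have hSinj : ∀ a ∈ (S : Subgroup G), π a = 1 → a = 1 := by
    intro a ha h
    obtain ⟨k, hk⟩ := S.2 ⟨a, ha⟩
    exact hUinf a ((QuotientGroup.eq_one_iff a).1 h) k (congrArg Subtype.val hk)
  have htwo' : ∃ x y : G ⧸ U, x ≠ y ∧ x ≠ 1 ∧ x ^ 2 = 1 ∧ y ≠ 1 ∧ y ^ 2 = 1 := by
    refine ⟨π x, π y, fun h => hxy ?_, fun h => hx1 (hSinj x hxS h), by rw [← map_pow, hx2, map_one],
      fun h => hy1 (hSinj y hyS h), by rw [← map_pow, hy2, map_one]⟩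
    refine inv_mul_eq_one.1 (hSinj _ (mul_mem (inv_mem hxS) hyS) ?_)
    rw [map_mul, map_inv, h, inv_mul_cancel]
  obtain ⟨E, W, hset⟩ := Lib.Solv.OneClass.exists_setting (G := G ⧸ U) (Lib.Solv.pPrimeCore_quotient_eq_bot 2) htwo' hconj'
  have hnd : ¬ 2 ∣ (Cfsg.pCore 2 (G ⧸ U)).index := Lib.Solv.OneClass.not_dvd_index hset rfl
  refine ⟨Lib.PLocal.PLengthOne.pLengthLE_one (fun V hVn hV => by subst hV; exact hnd), ?_⟩
  set P := Cfsg.pCore 2 (G ⧸ U) with hP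
  -- the image of `S` is the normal Sylow subgroup
  have hSP : ∀ a ∈ (S : Subgroup G), π a ∈ P := by
    intro a ha
    obtain ⟨k, hk⟩ := S.2 ⟨a, ha⟩
    have h1 : orderOf (QuotientGroup.mk (π a) : (G ⧸ U) ⧸ P) ∣ 2 ^ k := by
      refine orderOf_dvd_of_pow_eq_one ?_
      rw [← QuotientGroup.mk_pow, ← map_pow, show a ^ 2 ^ k = 1 from congrArg Subtype.val hk, map_one]; rfl
    have h2 : orderOf (QuotientGroup.mk (π a) : (G ⧸ U) ⧸ P) ∣ P.index := by
      rw [Subgroup.index_eq_card]; exact orderOf_dvd_natCard _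
    have h3 := Nat.eq_one_of_dvd_coprimes (Nat.Coprime.pow_left k ((Nat.prime_two.coprime_iff_not_dvd).2 hnd)) h1 h2
    exact (QuotientGroup.eq_one_iff _).1 (orderOf_eq_one_iff.1 h3)
  let ψ : (S : Subgroup G) →* P := (π.comp (S : Subgroup G).subtype).codRestrict P fun a => hSP a a.2
  have hψi : Function.Injective ψ := (injective_iff_map_eq_one ψ).2 fun a ha =>
    Subtype.ext (hSinj a a.2 (congrArg Subtype.val ha))
  have hψs : Function.Surjective ψ := by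
    rintro ⟨b, hb⟩
    obtain ⟨g, rfl⟩ := QuotientGroup.mk'_surjective U b
    obtain ⟨T, hT⟩ : ∃ T : Sylow 2 (G ⧸ U), (T : Subgroup (G ⧸ U)) = (S : Subgroup G).map π :=
      ⟨S.mapSurjective (QuotientGroup.mk'_surjective U), rfl⟩
    have h := Lib.Solv.pCore_le_sylow 2 T hb
    rw [hT] at h
    obtain ⟨a, ha, hab⟩ := h
    exact ⟨⟨a, ha⟩, Subtype.ext hab⟩
  let e : (S : Subgroup G) ≃* P := MulEquiv.ofBijective ψ ⟨hψi, hψs⟩
  let act : G ⧸ U →* MulAut (S : Subgroup G) := (MulAut.congr e.symm).toMonoidHom.comp MulAut.conjNormal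
  have hact : ∀ a b : (S : Subgroup G), a ≠ 1 → a ^ 2 = 1 → b ≠ 1 → b ^ 2 = 1 → ∃ g, act g a = b := by
    intro a b ha1 ha hb1 hb
    have hne : ∀ c : (S : Subgroup G), c ≠ 1 → ((e c : P) : G ⧸ U) ≠ 1 := fun c hc h => hc (e.injective (by
      rw [map_one]; exact Subtype.ext h))
    have hsq : ∀ c : (S : Subgroup G), c ^ 2 = 1 → ((e c : P) : G ⧸ U) ^ 2 = 1 := fun c hc => by
      rw [← Subgroup.coe_pow, ← map_pow, hc, map_one]; rfl
    obtain ⟨g, hg⟩ := isConj_iff.1 (hconj' _ _ (hne a ha1) (hsq a ha) (hne b hb1) (hsq b hb))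
    refine ⟨g, e.injective (Subtype.ext ?_)⟩
    show ((e (e.symm (MulAut.conjNormal g (e a))) : P) : G ⧸ U) = _
    rw [MulEquiv.apply_symm_apply, MulAut.conjNormal_apply]
    exact hg
  by_cases hcomm : IsMulCommutative (S : Subgroup G)
  · left
    refine Cfsg.Lib.Solv.OneClass.homocyclic (S := (S : Subgroup G)) S.2 (fun a b ha1 ha hb1 hb => ?_)
    obtain ⟨g, hg⟩ := hact a b ha1 ha hb1 hb
    exact ⟨act g, hg⟩
  · right
    refine ⟨hcomm, act.range, Group.isSolvable_of_surjective act.rangeRestrict_surjective, fun a b ha1 ha hb1 hb => ?_⟩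
    obtain ⟨g, hg⟩ := hact a b ha1 ha hb1 hb
    exact ⟨act g, ⟨g, rfl⟩, hg⟩

end Cfsg.Agent.S3797
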