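import Cfsg.Statements.S3798
import Cfsg.Agent.Lib.Solv.Cores
import Cfsg.Agent.Lib.Solv.SchurZassenhaus
import Cfsg.Agent.Lib.Solv.PComplement
import Cfsg.Agent.Lib.PLocal.Constraint
import Cfsg.Agent.Lib.Transfer.Critical

set_option autoImplicit false
open Cfsg

namespace Cfsg.Agent.S3798

open Subgroup in
open scoped Pointwise in
theorem not_dvd_index_pCore {G : Type*} [Group G] [Finite G] {p : ℕ} [Fact p.Prime] (hp : p ≠ 2)
    (hdvd : p ∣ Nat.card G) (hG : Cfsg.IsPSolvable p G) (hO : Cfsg.pPrimeCore p G = ⊥)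
    (htrans : ∀ x y : G, orderOf x = p → orderOf y = p →
      ∃ a : MulAut G, (zpowers x).map a.toMonoidHom = zpowers y) :
    ¬ p ∣ (Cfsg.pCore p G).index := by
  classical
  intro hidx
  have hpp : p.Prime := Fact.out
  set Q := Cfsg.pCore p G with hQ
  haveI hQn : Q.Normal := Cfsg.Lib.Transfer.pCore_normal p
  have hQp : IsPGroup p Q := Cfsg.Lib.Solv.isPGroup_pCore p
  have hC : centralizer (Q : Set G) ≤ Q :=
    Cfsg.Lib.PLocal.selfCentralizingCore_of_pSolvable hG hO
  have hQne : Q ≠ ⊥ := by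
    intro h
    rw [h] at hC
    obtain ⟨x, hx⟩ := exists_prime_orderOf_dvd_card' p hdvd
    have : x ∈ (⊥ : Subgroup G) := hC (mem_centralizer_iff.mpr fun y hy => by
      rw [coe_bot, Set.mem_singleton_iff] at hy; simp [hy])
    rw [mem_bot] at this
    rw [this, orderOf_one] at hx
    exact hpp.ne_one hx.symm
  have hQchar : ∀ a : MulAut G, Q.map a.toMonoidHom ≤ Q := fun a =>
    Cfsg.Lib.Solv.map_pCore_le p a.surjective
  -- every element of order `p` lies in the centre of `Q`
  have hW : ∀ x : G, orderOf x = p → x ∈ Q ∧ ∀ y ∈ Q, x * y = y * x := by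
    haveI : Nontrivial Q := Q.nontrivial_iff_ne_bot.mpr hQne
    haveI := hQp.center_nontrivial
    obtain ⟨k, hk⟩ := IsPGroup.iff_card.mp (hQp.to_subgroup (center Q))
    have hpz : p ∣ Nat.card (center Q) := by
      rcases k with _ | k
      · exact absurd (by simpa using hk) (Finite.one_lt_card (α := center Q)).ne'
      · exact hk ▸ dvd_pow_self p (Nat.succ_ne_zero k)
    obtain ⟨z, hz⟩ := exists_prime_orderOf_dvd_card' p hpz
    rw [← orderOf_coe, ← orderOf_coe] at hz
    intro x hx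
    obtain ⟨a, ha⟩ := htrans ((z : Q) : G) x hz hx
    have hmem : x ∈ (zpowers ((z : Q) : G)).map a.toMonoidHom := ha ▸ mem_zpowers x
    obtain ⟨w, hw, hwx⟩ := hmem
    obtain ⟨i, hi⟩ := mem_zpowers_iff.mp hw
    have hwQ : w ∈ Q := hi ▸ zpow_mem (z : Q).2 i
    refine ⟨hwx ▸ hQchar a (mem_map_of_mem _ hwQ), fun y hy => ?_⟩
    obtain ⟨y', hy', rfl⟩ : ∃ y' ∈ Q, a y' = y :=
      ⟨a.symm y, hQchar a.symm (mem_map_of_mem _ hy), a.apply_symm_apply y⟩
    rw [← hwx, ← hi]
    show a _ * a y' = a y' * a _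
    rw [← map_mul, ← map_mul]
    congr 1
    have := mem_center_iff.mp ((center Q).zpow_mem z.2 i) ⟨y', hy'⟩
    have := congrArg Subtype.val this
    simpa using this.symm
  -- the preimage of the `p'`-core of `G ⧸ Q`
  set f := QuotientGroup.mk' Q with hf
  set Kb := Cfsg.pPrimeCore p (G ⧸ Q) with hKb
  haveI hKbn : Kb.Normal := Cfsg.Lib.Transfer.pPrimeCore_normal p
  set K := Kb.comap f with hK
  haveI hKn : K.Normal := inferInstance
  have hKbne : Kb ≠ ⊥ := by
    intro hbot
    have hne : Nat.card (G ⧸ Q) ≠ 1 := fun h => hpp.not_dvd_one (h ▸ hidx)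
    obtain ⟨N, hNn, hNne, hN | hN⟩ := Cfsg.Lib.Solv.exists_normal_p_or_coprime
      (Cfsg.Lib.PLocal.IsPSolvable.of_surjective f (QuotientGroup.mk'_surjective Q) hG) hne
    · exact hNne ((Cfsg.Lib.Solv.pCore_eq_bot_iff_forall p).mp
        (Cfsg.Lib.Solv.pCore_quotient_eq_bot p) N hNn hN)
    · exact hNne ((Cfsg.Lib.Solv.pPrimeCore_eq_bot_iff_forall p).mp hbot N hNn hN)
  have hQK : Q ≤ K := fun x hx => by
    show f x ∈ Kb
    rw [hf, QuotientGroup.mk'_apply, (QuotientGroup.eq_one_iff x).mpr hx]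
    exact one_mem _
  have hKchar : ∀ a : MulAut G, K.map a.toMonoidHom ≤ K := by
    intro a
    have hmap : Q.map (a : G →* G) = Q :=
      le_antisymm (hQchar a) fun x hx =>
        ⟨a.symm x, hQchar a.symm (mem_map_of_mem _ hx), a.apply_symm_apply x⟩
    rintro _ ⟨k, hk, rfl⟩
    show f (a k) ∈ Kb
    exact Cfsg.Lib.Solv.map_pPrimeCore_le p (f := (QuotientGroup.congr Q Q a hmap).toMonoidHom)
      (MulEquiv.surjective _) ⟨f k, hk, rfl⟩
  -- a complement of `Q` in `K`
  set QK := Q.subgroupOf K with hQKdef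
  have hidxK : QK.index = Nat.card Kb := by
    show Q.relIndex K = _
    conv_lhs => rw [← QuotientGroup.ker_mk' Q]
    rw [← MonoidHom.comap_bot, relIndex_comap, hK,
      map_comap_eq_self_of_surjective (QuotientGroup.mk'_surjective Q), relIndex_bot_left]
  have hcop : (Nat.card QK).Coprime QK.index := by
    obtain ⟨n, hn⟩ := IsPGroup.iff_card.mp hQp
    rw [hidxK, Nat.card_congr (subgroupOfEquivOfLe hQK).toEquiv, hn]
    exact Nat.Coprime.pow_left n
      ((Nat.Prime.coprime_iff_not_dvd hpp).mpr (Cfsg.Lib.Solv.not_dvd_card_pPrimeCore p))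
  obtain ⟨T', hT'⟩ := exists_right_complement'_of_coprime hcop
  set T := T'.map K.subtype with hTdef
  have hTcard : Nat.card T' = QK.index := (IsComplement'.index_eq_card hT'.symm).symm
  have hTK : T ≤ K := map_subtype_le _
  have hcardT : ¬ p ∣ Nat.card T := by
    rw [hTdef, card_map_of_injective K.subtype_injective, hTcard, hidxK]
    exact Cfsg.Lib.Solv.not_dvd_card_pPrimeCore p
  have hQT : ∀ x, x ∈ Q → x ∈ T → x = 1 := by
    rintro _ hxQ ⟨t, ht, rfl⟩
    have := hT'.disjoint.le_bot (x := t) ⟨hxQ, ht⟩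
    rw [mem_bot] at this
    rw [this]; rfl
  have hKQT : ∀ k ∈ K, ∃ q ∈ Q, ∃ t ∈ T, k = q * t := by
    intro k hk
    obtain ⟨⟨q, t⟩, hqt, -⟩ := IsComplement.existsUnique hT' (⟨k, hk⟩ : K)
    exact ⟨((q : K) : G), q.2, ((t : K) : G), mem_map_of_mem _ t.2,
      (congrArg Subtype.val hqt).symm⟩
  -- Frattini
  have hfr : ∀ g : G, ∃ q ∈ Q, q⁻¹ * g ∈ normalizer (T : Set G) := by
    intro g
    set T2 := (T.map (MulAut.conj g).toMonoidHom).subgroupOf K with hT2
    have hle : T.map (MulAut.conj g).toMonoidHom ≤ K := by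
      rintro _ ⟨t, ht, rfl⟩
      exact hKn.conj_mem _ (hTK ht) g
    have hc2 : Nat.card T2 = QK.index := by
      rw [hT2, Nat.card_congr (subgroupOfEquivOfLe hle).toEquiv,
        card_map_of_injective (MulEquiv.injective _), hTdef,
        card_map_of_injective K.subtype_injective, hTcard]
    haveI : Group.IsNilpotent QK := (hQp.comap_subtype (K := K)).isNilpotent
    obtain ⟨n, hn, hnT⟩ := Cfsg.Lib.Solv.sz_conj QK hcop T' T2
      (Or.inl inferInstance) hTcard hc2
    refine ⟨(n : G), hn, ?_⟩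
    have hn' : T.map (MulAut.conj g).toMonoidHom = T.map (MulAut.conj (n : G)).toMonoidHom := by
      have h1 : T2.map K.subtype = T.map (MulAut.conj g).toMonoidHom :=
        map_subgroupOf_eq_of_le hle
      have h2 : (MulAut.conj n • T').map K.subtype = T.map (MulAut.conj (n : G)).toMonoidHom := by
        rw [hTdef, map_map, Subgroup.pointwise_smul_def]
        exact map_map _ _ _
      rw [← h1, ← hnT, h2]
    rw [mem_normalizer_iff]
    intro t
    constructor
    · intro ht
      obtain ⟨u, hu, hut⟩ : (MulAut.conj g) t ∈ T.map (MulAut.conj (n : G)).toMonoidHom :=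
        hn' ▸ mem_map_of_mem _ ht
      have h3 : (n : G) * u * (n : G)⁻¹ = g * t * g⁻¹ := hut
      have h4 : u = (n : G)⁻¹ * g * t * ((n : G)⁻¹ * g)⁻¹ := by
        calc u = (n : G)⁻¹ * ((n : G) * u * (n : G)⁻¹) * n := by group
          _ = _ := by rw [h3]; group
      rwa [← h4]
    · intro ht
      obtain ⟨u, hu, hut⟩ :
          (MulAut.conj (n : G)) ((n : G)⁻¹ * g * t * ((n : G)⁻¹ * g)⁻¹) ∈
            T.map (MulAut.conj g).toMonoidHom := hn' ▸ mem_map_of_mem _ ht
      have h3 : g * u * g⁻¹ =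
          (n : G) * ((n : G)⁻¹ * g * t * ((n : G)⁻¹ * g)⁻¹) * (n : G)⁻¹ := hut
      have h4 : u = t := by
        calc u = g⁻¹ * (g * u * g⁻¹) * g := by group
          _ = t := by rw [h3]; group
      rwa [← h4]
  -- an element of order `p` normalizing `T`
  set R := normalizer (T : Set G) with hR
  have hdvdR : p ∣ Nat.card R := by
    have hsurj : Function.Surjective (f.comp R.subtype) := by
      intro y
      obtain ⟨g, rfl⟩ := QuotientGroup.mk'_surjective Q y
      obtain ⟨q, hq, hqg⟩ := hfr g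
      refine ⟨⟨q⁻¹ * g, hqg⟩, ?_⟩
      show f (q⁻¹ * g) = f g
      rw [map_mul, map_inv, hf, QuotientGroup.mk'_apply, (QuotientGroup.eq_one_iff q).mpr hq,
        inv_one, one_mul]
    exact hidx.trans (card_dvd_of_surjective _ hsurj)
  obtain ⟨⟨x, hxR⟩, hx⟩ := exists_prime_orderOf_dvd_card' p hdvdR
  rw [orderOf_mk] at hx
  obtain ⟨hxQ, hxc⟩ := hW x hx
  have hxT : ∀ t ∈ T, x * t = t * x := by
    intro t ht
    have h1 : x * t * x⁻¹ * t⁻¹ ∈ T :=
      mul_mem ((mem_normalizer_iff.mp hxR t).mp ht) (inv_mem ht)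
    have h2 : x * t * x⁻¹ * t⁻¹ ∈ Q := by
      rw [mul_assoc, mul_assoc, ← mul_assoc t]
      exact mul_mem hxQ (hQn.conj_mem _ (inv_mem hxQ) t)
    have h3 := hQT _ h2 h1
    rw [mul_inv_eq_one, mul_inv_eq_iff_eq_mul] at h3
    exact h3
  have hxK : ∀ k ∈ K, x * k = k * x := by
    intro k hk
    obtain ⟨q, hq, t, ht, rfl⟩ := hKQT k hk
    rw [← mul_assoc, hxc q hq, mul_assoc, hxT t ht, mul_assoc]
  -- so every element of order `p` commutes with `K`
  have hall : ∀ y : G, orderOf y = p → ∀ k ∈ K, y * k = k * y := by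
    intro y hy k hk
    obtain ⟨a, ha⟩ := htrans x y hx hy
    obtain ⟨w, hw, hwy⟩ : y ∈ (zpowers x).map a.toMonoidHom := ha ▸ mem_zpowers y
    obtain ⟨i, hi⟩ := mem_zpowers_iff.mp hw
    obtain ⟨k', hk', rfl⟩ : ∃ k' ∈ K, a k' = k :=
      ⟨a.symm k, hKchar a.symm (mem_map_of_mem _ hk), a.apply_symm_apply k⟩
    rw [← hwy, ← hi]
    show a _ * a k' = a k' * a _
    rw [← map_mul, ← map_mul]
    have hcm : Commute x k' := hxK k' hk'
    exact congrArg _ (hcm.zpow_left i).eq
  -- hence `T` centralizes `Q`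
  have hTbot : ∀ t ∈ T, t = 1 := by
    intro t ht
    refine hQT t (hC (mem_centralizer_iff.mpr fun q hq => ?_)) ht
    have hcopn : (orderOf t).Coprime p := by
      refine ((Nat.Prime.coprime_iff_not_dvd hpp).mpr fun h => hcardT (h.trans ?_)).symm
      exact (orderOf_mk t ht ▸ orderOf_dvd_natCard (⟨t, ht⟩ : T) : orderOf t ∣ _)
    have hiter : ∀ (n : ℕ) (u : Q), (((MulAut.conjNormal t)^[n] u : Q) : G) =
        t ^ n * u * (t ^ n)⁻¹ := by
      intro n
      induction n with
      | zero => intro u; simp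
      | succ n ih =>
        intro u
        rw [Function.iterate_succ_apply', MulAut.conjNormal_apply, ih, pow_succ']
        group
    have hfix := Cfsg.Lib.Transfer.fixed_of_fix_omega hp (Nat.card Q) Q rfl hQp
      (MulAut.conjNormal t) (orderOf t) hcopn
      (fun u => Subtype.ext (by rw [hiter, pow_orderOf_eq_one]; simp))
      (fun u hu => Subtype.ext (by
        rw [MulAut.conjNormal_apply]
        by_cases hu1 : u = 1
        · simp [hu1]
        · have hou : orderOf (u : G) = p := by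
            rw [orderOf_coe]; exact orderOf_eq_prime hu hu1
          rw [mul_inv_eq_iff_eq_mul]
          exact (hall _ hou t (hTK ht)).symm))
      ⟨q, hq⟩
    have h1 := congrArg Subtype.val hfix
    rw [MulAut.conjNormal_apply, mul_inv_eq_iff_eq_mul] at h1
    exact h1.symm
  apply hKbne
  rw [eq_bot_iff]
  intro y hy
  obtain ⟨g, rfl⟩ := QuotientGroup.mk'_surjective Q y
  obtain ⟨q, hq, t, ht, rfl⟩ := hKQT g hy
  rw [hTbot t ht, mul_one, mem_bot]
  exact (QuotientGroup.eq_one_iff q).mpr hq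

/-- The Gaschütz–Yen Theorem: let G be a finite p-soluble group, p an odd prime dividing its order, such that the automorphism group of G permutes the subgroups of G of order p transitively. Then G has p-length at most 1. -/
theorem result {G : Type*} [Group G] [Finite G] {p : ℕ} [Fact p.Prime] (hp : p ≠ 2) (hdvd : p ∣ Nat.card G) (hG : Cfsg.IsPSolvable p G) (htrans : ∀ U V : Subgroup G, Nat.card U = p → Nat.card V = p → ∃ a : MulAut G, U.map a.toMonoidHom = V) : Cfsg.PLengthLE p 1 G := by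
  classical
  have hpp : p.Prime := Fact.out
  haveI hKn : (Cfsg.pPrimeCore p G).Normal := Cfsg.Lib.Transfer.pPrimeCore_normal p
  have hU1 : (Cfsg.upperPSeries p G 1).1 = Cfsg.pPrimeCore p G := by
    show (if Even 0 then (⟨_, _⟩ : {H : Subgroup G // H.Normal}) else ⟨_, _⟩).1 = _
    rw [if_pos (by decide : Even 0)]
    show (Cfsg.pPrimeCore p (G ⧸ (Cfsg.upperPSeries p G 0).1)).comap _ = _
    have h0 : (Cfsg.upperPSeries p G 0).1 = ⊥ := rfl
    refine le_antisymm (fun x hx => ?_) (fun x hx => ?_)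
    · let e : G ≃* G ⧸ (Cfsg.upperPSeries p G 0).1 :=
        MulEquiv.ofBijective (QuotientGroup.mk' _)
          ⟨(MonoidHom.ker_eq_bot_iff _).mp (by rw [QuotientGroup.ker_mk', h0]),
            QuotientGroup.mk'_surjective _⟩
      exact Cfsg.Lib.Solv.map_pPrimeCore_le p (f := e.symm.toMonoidHom) e.symm.surjective
        ⟨_, hx, e.symm_apply_apply x⟩
    · exact Cfsg.Lib.Solv.map_pPrimeCore_le p (f := QuotientGroup.mk' _)
        (QuotientGroup.mk'_surjective _) ⟨x, hx, rfl⟩
  have key : ∀ (U : Subgroup G) [U.Normal], U = Cfsg.pPrimeCore p G →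
      ¬ p ∣ (Cfsg.pCore p (G ⧸ U)).index := by
    intro U _ hU
    subst hU
    have hKc : ¬ p ∣ Nat.card (Cfsg.pPrimeCore p G) := Cfsg.Lib.Solv.not_dvd_card_pPrimeCore p
    refine not_dvd_index_pCore hp ?_
      (Cfsg.Lib.PLocal.IsPSolvable.of_surjective _ (QuotientGroup.mk'_surjective _) hG)
      (Cfsg.Lib.Solv.pPrimeCore_quotient_eq_bot p) ?_
    · rw [Subgroup.card_eq_card_quotient_mul_card_subgroup (Cfsg.pPrimeCore p G)] at hdvd
      exact (hpp.dvd_mul.mp hdvd).resolve_right hKc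
    · intro x y hx hy
      have hlift : ∀ z : G ⧸ Cfsg.pPrimeCore p G, orderOf z = p → ∃ w : G, orderOf w = p ∧
          Subgroup.zpowers ((w : G) : G ⧸ Cfsg.pPrimeCore p G) = Subgroup.zpowers z := by
        intro z hz
        obtain ⟨g, rfl⟩ := QuotientGroup.mk_surjective z
        have hdg : p ∣ orderOf g := hz ▸ orderOf_map_dvd (QuotientGroup.mk' _) g
        obtain ⟨m, hm⟩ : ∃ m, g ^ m ∉ Cfsg.pPrimeCore p G ∧ orderOf (g ^ m) = p := by
          refine ⟨orderOf g / p, ?_, orderOf_pow_orderOf_div (orderOf_pos g).ne' hdg⟩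
          intro hmem
          refine hKc ?_
          have h1 := orderOf_pow_orderOf_div (orderOf_pos g).ne' hdg
          rw [← Subgroup.orderOf_mk _ hmem] at h1
          have h3 := orderOf_dvd_natCard
            (⟨g ^ (orderOf g / p), hmem⟩ : Cfsg.pPrimeCore p G)
          rwa [h1] at h3
        refine ⟨g ^ m, hm.2, Subgroup.eq_of_le_of_card_ge ?_ ?_⟩
        · rw [Subgroup.zpowers_le, QuotientGroup.mk_pow]
          exact Subgroup.npow_mem_zpowers _ _
        · rw [Nat.card_zpowers, Nat.card_zpowers, hz]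
          refine le_of_eq (orderOf_eq_prime ?_ ?_).symm
          · have h4 := pow_orderOf_eq_one (g ^ m)
            rw [hm.2] at h4
            rw [← QuotientGroup.mk_pow, h4, QuotientGroup.mk_one]
          · exact fun h => hm.1 ((QuotientGroup.eq_one_iff _).mp h)
      obtain ⟨u, hu, hux⟩ := hlift x hx
      obtain ⟨v, hv, hvy⟩ := hlift y hy
      obtain ⟨a, ha⟩ := htrans (Subgroup.zpowers u) (Subgroup.zpowers v)
        (by rw [Nat.card_zpowers, hu]) (by rw [Nat.card_zpowers, hv])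
      have hmap : (Cfsg.pPrimeCore p G).map (a : G →* G) = Cfsg.pPrimeCore p G :=
        le_antisymm (Cfsg.Lib.Solv.map_pPrimeCore_le p a.surjective) fun z hz =>
          ⟨a.symm z, Cfsg.Lib.Solv.map_pPrimeCore_le p (f := a.symm.toMonoidHom) a.symm.surjective ⟨z, hz, rfl⟩,
            a.apply_symm_apply z⟩
      refine ⟨QuotientGroup.congr _ _ a hmap, ?_⟩
      rw [← hux, ← hvy, ← QuotientGroup.mk'_apply, ← QuotientGroup.mk'_apply,
        ← MonoidHom.map_zpowers, ← MonoidHom.map_zpowers, ← ha, Subgroup.map_map, Subgroup.map_map]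
      rfl
  have h2 : ¬ p ∣ (Cfsg.upperPSeries p G 2).1.index := by
    show ¬ p ∣ (if Even 1 then (⟨_, _⟩ : {H : Subgroup G // H.Normal}) else ⟨_, _⟩).1.index
    rw [if_neg (by decide : ¬ Even 1)]
    show ¬ p ∣ ((Cfsg.pCore p (G ⧸ (Cfsg.upperPSeries p G 1).1)).comap _).index
    rw [Subgroup.index_comap_of_surjective _ (QuotientGroup.mk'_surjective _)]
    exact key _ hU1
  show (if Even 2 then (⟨_, _⟩ : {H : Subgroup G // H.Normal}) else ⟨_, _⟩).1 = ⊤
  rw [if_pos (by decide : Even 2)]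
  show (Cfsg.pPrimeCore p (G ⧸ (Cfsg.upperPSeries p G 2).1)).comap _ = ⊤
  rw [eq_top_iff]
  intro x _
  refine Cfsg.Lib.Solv.le_pPrimeCore inferInstance ?_ (Subgroup.mem_top _)
  rw [Subgroup.card_top, ← Subgroup.index_eq_card]
  exact ((Nat.Prime.coprime_iff_not_dvd hpp).mpr h2).symm

end Cfsg.Agent.S3798
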