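import Cfsg.Statements.S3799
import Mathlib
import Cfsg.Agent.Lib.Solv.PGroupBasic

set_option autoImplicit false
open Cfsg
open scoped Pointwise commutatorElement

namespace Cfsg.Agent.S3799

open Matrix

variable {R : Type*} [CommRing R] {n : ℕ}

/-- The nilpotent part of a Heisenberg matrix. -/
def N (a b : Fin n → R) (c : R) : Matrix (Fin (n + 2)) (Fin (n + 2)) R :=
  Matrix.of (Fin.cons (Fin.cons 0 (Fin.snoc a c) : Fin (n + 2) → R)
    (fun i => (Fin.cons 0
      (Fin.snoc 0 ((Fin.snoc b 0 : Fin (n + 1) → R) i)) : Fin (n + 2) → R)))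

theorem N_add (a b : Fin n → R) (c : R) (a' b' : Fin n → R) (c' : R) :
    N a b c + N a' b' c' = N (a + a') (b + b') (c + c') := by
  ext i j
  refine Fin.cases ?_ (fun i => ?_) i <;> refine Fin.cases ?_ (fun j => ?_) j <;>
    simp [N] <;> refine Fin.lastCases ?_ (fun j => ?_) j <;> simp <;>
    refine Fin.lastCases ?_ (fun i => ?_) i <;> simp

theorem N_mul (a b : Fin n → R) (c : R) (a' b' : Fin n → R) (c' : R) :
    N a b c * N a' b' c' = N 0 0 (∑ k, a k * b' k) := by
  ext i j
  rw [Matrix.mul_apply, Fin.sum_univ_succ, Fin.sum_univ_castSucc]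
  refine Fin.cases ?_ (fun i => ?_) i <;> refine Fin.cases ?_ (fun j => ?_) j
  · simp [N]
  · simp [N]
    refine Fin.lastCases ?_ (fun j => ?_) j <;> simp
  · simp [N]
  · simp [N]
    refine Fin.lastCases ?_ (fun j => ?_) j <;> simp
    refine Fin.lastCases ?_ (fun i => ?_) i <;> simp

theorem N_inj (a b : Fin n → R) (c : R) (a' b' : Fin n → R) (c' : R)
    (h : N a b c = N a' b' c') : a = a' ∧ b = b' ∧ c = c' := by
  refine ⟨funext fun i => ?_, funext fun i => ?_, ?_⟩
  · simpa [N] using congrFun (congrFun h 0) i.castSucc.succ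
  · simpa [N] using congrFun (congrFun h i.castSucc.succ) (Fin.last n).succ
  · simpa [N] using congrFun (congrFun h 0) (Fin.last n).succ

theorem one_add_mul (a b : Fin n → R) (c : R) (a' b' : Fin n → R) (c' : R) :
    (1 + N a b c) * (1 + N a' b' c') = 1 + N (a + a') (b + b') (c + c' + ∑ k, a k * b' k) := by
  rw [add_mul, mul_add, mul_add, N_mul, one_mul, one_mul, mul_one]
  have h2 : N (a + a') (b + b') (c + c' + ∑ k, a k * b' k) =
      N a b c + N a' b' c' + N 0 0 (∑ k, a k * b' k) := by rw [N_add, N_add]; simp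
  rw [h2]
  abel

theorem one_eq : (1 : Matrix (Fin (n + 2)) (Fin (n + 2)) R) = 1 + N 0 0 0 := by
  have : N (0 : Fin n → R) 0 (0 : R) = 0 := by
    ext i j
    refine Fin.cases ?_ (fun i => ?_) i <;> refine Fin.cases ?_ (fun j => ?_) j <;>
      simp [N] <;> refine Fin.lastCases ?_ (fun j => ?_) j <;> simp <;>
      refine Fin.lastCases ?_ (fun i => ?_) i <;> simp
  rw [this, add_zero]

theorem one_add_pow (a b : Fin n → R) (c : R) (k : ℕ) :
    (1 + N a b c) ^ k =
      1 + N (k • a) (k • b) (k • c + k.choose 2 • ∑ i, a i * b i) := by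
  induction k with
  | zero => simp only [pow_zero, zero_smul, Nat.choose_zero_succ, add_zero]; exact one_eq
  | succ k ih =>
    rw [pow_succ, ih, one_add_mul]
    congr 2
    · rw [succ_nsmul]
    · rw [succ_nsmul]
    · rw [Nat.choose_succ_succ k 1, Nat.choose_one_right]
      have : ∑ i, (k • a) i * b i = k • ∑ i, a i * b i := by
        rw [Finset.smul_sum]
        exact Finset.sum_congr rfl fun i _ => smul_mul_assoc k (a i) (b i)
      rw [this, succ_nsmul, add_smul]
      abel

/-- The Heisenberg group inside `GL`. -/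
def heis (R : Type*) [CommRing R] (n : ℕ) : Subgroup (GL (Fin (n + 2)) R) where
  carrier := {g | ∃ a b c, (g : Matrix (Fin (n + 2)) (Fin (n + 2)) R) = 1 + N a b c}
  one_mem' := ⟨0, 0, 0, by rw [Units.val_one]; exact one_eq⟩
  mul_mem' := by
    rintro g h ⟨a, b, c, hg⟩ ⟨a', b', c', hh⟩
    exact ⟨_, _, _, by rw [Units.val_mul, hg, hh, one_add_mul]⟩
  inv_mem' := by
    rintro g ⟨a, b, c, hg⟩
    refine ⟨-a, -b, (∑ k, a k * b k) - c, ?_⟩
    refine Units.inv_eq_of_mul_eq_one_right ?_
    rw [hg, one_add_mul]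
    refine (one_eq.trans ?_).symm
    simp [mul_neg]

theorem exists_param (g : ↥(heis R n)) :
    ∃ a b c, ((g : GL (Fin (n + 2)) R) : Matrix (Fin (n + 2)) (Fin (n + 2)) R) = 1 + N a b c :=
  g.2

theorem exists_elem (a b : Fin n → R) (c : R) : ∃ g : ↥(heis R n),
    ((g : GL (Fin (n + 2)) R) : Matrix (Fin (n + 2)) (Fin (n + 2)) R) = 1 + N a b c := by
  have h1 : (1 + N a b c) * (1 + N (-a) (-b) ((∑ k, a k * b k) - c)) = 1 := by
    rw [one_add_mul]; refine (one_eq.trans ?_).symm; simp [mul_neg]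
  have h2 : (1 + N (-a) (-b) ((∑ k, a k * b k) - c)) * (1 + N a b c) = 1 := by
    rw [one_add_mul]; refine (one_eq.trans ?_).symm; simp [neg_mul]
  exact ⟨⟨⟨_, _, h1, h2⟩, a, b, c, rfl⟩, rfl⟩

noncomputable def paramEquiv (R : Type*) [CommRing R] (n : ℕ) :
    (Fin n → R) × (Fin n → R) × R ≃ ↥(heis R n) :=
  Equiv.ofBijective (fun x => (exists_elem x.1 x.2.1 x.2.2).choose)
    ⟨fun x y h => by
      have hx := (exists_elem x.1 x.2.1 x.2.2).choose_spec
      have hy := (exists_elem y.1 y.2.1 y.2.2).choose_spec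
      simp only at h
      rw [h, hy] at hx
      obtain ⟨h1, h2, h3⟩ := N_inj _ _ _ _ _ _ (add_left_cancel hx)
      exact (Prod.ext h1 (Prod.ext h2 h3)).symm,
    fun g => by
      obtain ⟨a, b, c, hg⟩ := exists_param g
      refine ⟨(a, b, c), Subtype.ext (Units.ext ?_)⟩
      exact (exists_elem a b c).choose_spec.trans hg.symm⟩

theorem mem_center_iff' (g : ↥(heis R n)) (a b : Fin n → R) (c : R)
    (hg : ((g : GL (Fin (n + 2)) R) : Matrix (Fin (n + 2)) (Fin (n + 2)) R) = 1 + N a b c) :
    g ∈ Subgroup.center ↥(heis R n) ↔ a = 0 ∧ b = 0 := by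
  constructor
  · intro h
    constructor
    · funext i
      obtain ⟨x, hx⟩ := exists_elem (R := R) 0 (Pi.single i 1) 0
      have h1 := congrArg (fun y : ↥(heis R n) =>
        (y : GL (Fin (n + 2)) R).val) (Subgroup.mem_center_iff.mp h x)
      simp only [Subgroup.coe_mul, Units.val_mul, hx, hg, one_add_mul] at h1
      have h2 := (N_inj _ _ _ _ _ _ (add_left_cancel h1)).2.2
      simpa [Pi.single_apply, mul_comm] using h2.symm
    · funext i
      obtain ⟨x, hx⟩ := exists_elem (R := R) (Pi.single i 1) 0 0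
      have h1 := congrArg (fun y : ↥(heis R n) =>
        (y : GL (Fin (n + 2)) R).val) (Subgroup.mem_center_iff.mp h x)
      simp only [Subgroup.coe_mul, Units.val_mul, hx, hg, one_add_mul] at h1
      have h2 := (N_inj _ _ _ _ _ _ (add_left_cancel h1)).2.2
      simpa [Pi.single_apply] using h2
  · rintro ⟨rfl, rfl⟩
    rw [Subgroup.mem_center_iff]
    intro x
    obtain ⟨a', b', c', hx⟩ := exists_param x
    refine Subtype.ext (Units.ext ?_)
    simp only [Subgroup.coe_mul, Units.val_mul, hx, hg, one_add_mul]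
    simp [add_comm]



/-- For every odd prime p and every n ≥ 1 there is an extraspecial p-group of order p^(1+2n) and exponent p; concretely, the general linear group of degree n + 2 over the field with p elements contains such a subgroup. -/
theorem result (p : ℕ) [Fact p.Prime] (hp : p ≠ 2) (n : ℕ) (hn : 1 ≤ n) : ∃ E : Subgroup (Matrix.GeneralLinearGroup (Fin (n + 2)) (ZMod p)), Cfsg.IsExtraspecial p ↥E ∧ Nat.card E = p ^ (1 + 2 * n) ∧ ∀ x ∈ E, x ^ p = 1 := by
  refine ⟨heis (ZMod p) n, ?_, ?_, ?_⟩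
  swap
  · rw [Nat.card_congr (paramEquiv (ZMod p) n).symm, Nat.card_prod, Nat.card_prod, Nat.card_fun,
      Nat.card_zmod, Nat.card_fin, ← mul_assoc, ← pow_add, ← pow_succ]
    congr 1
    omega
  swap
  · intro g hg
    obtain ⟨a, b, c, h⟩ := hg
    refine Units.ext ?_
    rw [Units.val_pow_eq_pow_val, h, one_add_pow, Units.val_one]
    obtain ⟨d, hd⟩ : p ∣ p.choose 2 := (Fact.out : p.Prime).dvd_choose_self two_ne_zero
      (lt_of_le_of_ne (Fact.out : p.Prime).two_le (Ne.symm hp))
    refine Eq.trans ?_ one_eq.symm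
    simp [hd, mul_smul, ZModModule.char_nsmul_eq_zero p]
  have hpg : IsPGroup p ↥(heis (ZMod p) n) := by
    refine IsPGroup.of_card (n := 1 + 2 * n) ?_
    rw [Nat.card_congr (paramEquiv (ZMod p) n).symm, Nat.card_prod, Nat.card_prod, Nat.card_fun,
      Nat.card_zmod, Nat.card_fin, ← mul_assoc, ← pow_add, ← pow_succ]
    congr 1
    omega
  have hcomm : commutator ↥(heis (ZMod p) n) = Subgroup.center ↥(heis (ZMod p) n) := by
    refine le_antisymm ?_ ?_
    · rw [commutator_def, Subgroup.commutator_le]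
      intro x _ y _
      obtain ⟨a, b, c, hx⟩ := exists_param x
      obtain ⟨a', b', c', hy⟩ := exists_param y
      obtain ⟨u, v, w, huv⟩ := exists_param ⁅x, y⁆
      rw [mem_center_iff' _ u v w huv]
      have key : ⁅x, y⁆ * (y * x) = x * y := by rw [commutatorElement_def]; group
      have h1 := congrArg (fun z : ↥(heis (ZMod p) n) =>
        (z : GL (Fin (n + 2)) (ZMod p)).val) key
      simp only [Subgroup.coe_mul, Units.val_mul, hx, hy, huv, one_add_mul] at h1
      obtain ⟨ha, hb, -⟩ := N_inj _ _ _ _ _ _ (add_left_cancel h1)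
      exact ⟨by simpa [add_comm a' a] using ha, by simpa [add_comm b' b] using hb⟩
    · intro z hz
      obtain ⟨a, b, c, hzc⟩ := exists_param z
      obtain ⟨rfl, rfl⟩ := (mem_center_iff' z a b c hzc).mp hz
      let i : Fin n := ⟨0, hn⟩
      obtain ⟨x, hx⟩ := exists_elem (R := ZMod p) (n := n) (Pi.single i c) 0 0
      obtain ⟨y, hy⟩ := exists_elem (R := ZMod p) (n := n) 0 (Pi.single i 1) 0
      have key : z = ⁅x, y⁆ := by
        rw [commutatorElement_def, eq_mul_inv_iff_mul_eq, eq_mul_inv_iff_mul_eq]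
        refine Subtype.ext (Units.ext ?_)
        simp only [Subgroup.coe_mul, Units.val_mul, hx, hy, hzc, one_add_mul]
        simp [Pi.single_apply, add_comm]
      rw [key, commutator_def]
      exact Subgroup.commutator_mem_commutator (Subgroup.mem_top _) (Subgroup.mem_top _)
  refine ⟨⟨hpg, le_antisymm ?_ ?_, hcomm⟩, ?_⟩
  · refine Cfsg.Lib.Solv.frattini_le_of_elementary_quotient (p := p) _ hcomm.le fun x => ?_
    obtain ⟨a, b, c, hx⟩ := exists_param x
    have hxp : ((((x ^ p : ↥(heis (ZMod p) n))) : GL (Fin (n + 2)) (ZMod p)) :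
        Matrix (Fin (n + 2)) (Fin (n + 2)) (ZMod p)) =
        1 + N (p • a) (p • b) (p • c + p.choose 2 • ∑ i, a i * b i) := by
      rw [Subgroup.coe_pow, Units.val_pow_eq_pow_val, hx, one_add_pow]
    rw [mem_center_iff' _ _ _ _ hxp]
    simp [ZModModule.char_nsmul_eq_zero p]
  · rw [← hcomm]
    exact Cfsg.Lib.Solv.commutator_le_frattini hpg
  · have hbij : Nat.card ↥(Subgroup.center ↥(heis (ZMod p) n)) = Nat.card (ZMod p) := by
      refine (Nat.card_eq_of_bijective (fun c : ZMod p =>
        (⟨(exists_elem (R := ZMod p) (n := n) 0 0 c).choose,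
          (mem_center_iff' _ _ _ _ (exists_elem 0 0 c).choose_spec).mpr ⟨rfl, rfl⟩⟩ :
          ↥(Subgroup.center ↥(heis (ZMod p) n)))) ⟨fun c d h => ?_, fun z => ?_⟩).symm
      · have h1 := congrArg Subtype.val h
        have hc := (exists_elem (R := ZMod p) (n := n) 0 0 c).choose_spec
        have hd := (exists_elem (R := ZMod p) (n := n) 0 0 d).choose_spec
        simp only at h1
        rw [h1, hd] at hc
        exact (N_inj _ _ _ _ _ _ (add_left_cancel hc)).2.2.symm
      · obtain ⟨a, b, c, hz⟩ := exists_param z.1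
        obtain ⟨rfl, rfl⟩ := (mem_center_iff' _ a b c hz).mp z.2
        refine ⟨c, Subtype.ext (Subtype.ext (Units.ext ?_))⟩
        exact (exists_elem 0 0 c).choose_spec.trans hz.symm
    rw [hbij, Nat.card_zmod]

end Cfsg.Agent.S3799
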