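import Cfsg.Statements.S3800
import Mathlib
import Cfsg.Agent.Lib.Solv.SchurZassenhaus
-- import your own Cfsg.Agent.* helpers here

set_option autoImplicit false
open Cfsg
open scoped Pointwise

namespace Cfsg.Agent.S3800

/-- Let G be a finite group, N a normal subgroup of G whose order is prime to p, and P a p-subgroup of G. Then in G/N the normalizer of the image of P is the image of N_G(P), and the centralizer of the image of P is the image of C_G(P). -/
theorem result {G : Type*} [Group G] [Finite G] {p : ℕ} [Fact p.Prime] (N : Subgroup G) [N.Normal] (hN : (Nat.card N).Coprime p) (P : Subgroup G) (hP : IsPGroup p P) : Subgroup.normalizer ((P.map (QuotientGroup.mk' N)) : Set (G ⧸ N)) = (Subgroup.normalizer (P : Set G)).map (QuotientGroup.mk' N) ∧ Subgroup.centralizer ((P.map (QuotientGroup.mk' N)) : Set (G ⧸ N)) = (Subgroup.centralizer (P : Set G)).map (QuotientGroup.mk' N) := by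
  set π := QuotientGroup.mk' N with hπ
  obtain ⟨i, hi⟩ := IsPGroup.iff_card.1 hP
  have hcop : (Nat.card P).Coprime (Nat.card N) := by rw [hi]; exact (hN.pow_right i).symm
  have hsolv : ∀ U : Subgroup G, Nat.card U = Nat.card P → Group.IsSolvable U := fun U hU => by
    haveI := (IsPGroup.of_card (n := i) (hU.trans hi) : IsPGroup p U).isNilpotent
    infer_instance
  have hdis : ∀ z ∈ N, z ∈ P → z = 1 := fun z h1 h2 => by
    have h3 : z ∈ P ⊓ N := ⟨h2, h1⟩
    rwa [Cfsg.Lib.Solv.inf_eq_bot_of_coprime_card hcop, Subgroup.mem_bot] at h3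
  have hnorm : Subgroup.normalizer ((P.map π) : Set (G ⧸ N)) = (Subgroup.normalizer (P : Set G)).map π := by
    refine le_antisymm (fun x hx => ?_) (Subgroup.le_normalizer_map π)
    obtain ⟨g, rfl⟩ := QuotientGroup.mk'_surjective N x
    set U := P.map (MulAut.conj g).toMonoidHom with hU
    have hcU : Nat.card U = Nat.card P :=
      (Nat.card_congr (Subgroup.equivMapOfInjective P _ (MulAut.conj g).injective).toEquiv).symm
    have hUle : U ≤ P ⊔ N := by
      rintro _ ⟨y, hy, rfl⟩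
      have h1 := (Subgroup.mem_normalizer_iff.1 hx (π y)).1 ⟨y, hy, rfl⟩
      rw [← map_inv, ← map_mul, ← map_mul, ← Subgroup.mem_comap, Subgroup.comap_map_eq,
        QuotientGroup.ker_mk'] at h1
      exact h1
    obtain ⟨n, hn, hle⟩ := Cfsg.Lib.Solv.exists_conj_le N P U Subgroup.le_normalizer_of_normal hUle hcop
      (hcU ▸ hcop) (Or.inr (hsolv U hcU))
    have heq : MulAut.conj n • P = U := by
      refine (Subgroup.eq_of_le_of_card_ge hle ?_).symm
      rw [Cfsg.Lib.Solv.card_conj_smul, hcU]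
    refine ⟨n⁻¹ * g, Subgroup.mem_normalizer_iff.2 fun y => ⟨fun hy => ?_, fun hy => ?_⟩, ?_⟩
    · have h1 : g * y * g⁻¹ ∈ MulAut.conj n • P := heq ▸ ⟨y, hy, rfl⟩
      have h2 := Cfsg.Lib.Solv.mem_conj_smul.1 h1
      have e : n⁻¹ * g * y * (n⁻¹ * g)⁻¹ = n⁻¹ * (g * y * g⁻¹) * n := by group
      rw [e]; exact h2
    · have h1 : g * y * g⁻¹ ∈ U := by
        rw [← heq]
        refine Cfsg.Lib.Solv.mem_conj_smul.2 ?_
        have e : n⁻¹ * (g * y * g⁻¹) * n = n⁻¹ * g * y * (n⁻¹ * g)⁻¹ := by group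
        rw [e]; exact hy
      obtain ⟨z, hz, hzy⟩ := h1
      have hzy' : (MulAut.conj g) z = (MulAut.conj g) y := hzy
      exact (MulAut.conj g).injective hzy' ▸ hz
    · have h1 : π n = 1 := (QuotientGroup.eq_one_iff n).2 hn
      rw [map_mul, map_inv, h1, inv_one, one_mul]
  refine ⟨hnorm, le_antisymm (fun x hx => ?_) ?_⟩
  · obtain ⟨g, hg, rfl⟩ := hnorm ▸ Subgroup.centralizer_le_normalizer _ hx
    refine ⟨g, Subgroup.mem_centralizer_iff.2 fun y hy => ?_, rfl⟩
    refine (mul_inv_eq_iff_eq_mul.1 (mul_inv_eq_one.1 (hdis (g * y * g⁻¹ * y⁻¹) ?_ ?_))).symm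
    · refine (QuotientGroup.eq_one_iff _).1 ?_
      show π _ = 1
      rw [map_mul, map_mul, map_mul, map_inv, map_inv,
        ← Subgroup.mem_centralizer_iff.1 hx (π y) ⟨y, hy, rfl⟩, mul_inv_cancel_right, mul_inv_cancel]
    · exact P.mul_mem ((Subgroup.mem_normalizer_iff.1 hg y).1 hy) (P.inv_mem hy)
  · rintro _ ⟨g, hg, rfl⟩
    refine Subgroup.mem_centralizer_iff.2 ?_
    rintro _ ⟨y, hy, rfl⟩
    rw [← map_mul, ← map_mul, Subgroup.mem_centralizer_iff.1 hg y hy]

end Cfsg.Agent.S3800
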