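import Cfsg.Statements.S3950
import Cfsg.Agent.Lib.Stem.Cover
import Cfsg.Agent.Lib.Stem.Criterion

set_option autoImplicit false
open Cfsg

namespace Cfsg.Agent.S3950

open scoped commutatorElement

universe w

/-- the extension by a bilinear cocycle -/
@[ext] structure BExt {G : Type w} {p : ℕ} (f g : G → ZMod p) where
  /-- base -/
  base : G
  /-- fibre -/
  fib : ZMod p

/-- the bilinear extension -/
theorem kills {G : Type w} [CommGroup G] [Finite G] {p : ℕ} [Fact p.Prime]
    (hM : Cfsg.HasCyclicSchurMultiplier G 1) (f g : G → ZMod p)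
    (hf : ∀ a b, f (a * b) = f a + f b) (hg : ∀ a b, g (a * b) = g a + g b) (x y : G) :
    f x * g y - f y * g x = 0 := by
  have hf1 : f 1 = 0 := by simpa using hf 1 1
  have hg1 : g 1 = 0 := by simpa using hg 1 1
  letI : Mul (BExt f g) := ⟨fun u v => ⟨u.base * v.base, u.fib + v.fib + f u.base * g v.base⟩⟩
  letI : One (BExt f g) := ⟨⟨1, 0⟩⟩
  letI : Inv (BExt f g) := ⟨fun u => ⟨u.base⁻¹, -u.fib + f u.base * g u.base⟩⟩
  letI : Group (BExt f g) := Group.ofLeftAxioms
    (fun u v t => by
      refine BExt.ext (mul_assoc _ _ _) ?_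
      show (u.fib + v.fib + f u.base * g v.base) + t.fib + f (u.base * v.base) * g t.base =
        u.fib + (v.fib + t.fib + f v.base * g t.base) + f u.base * g (v.base * t.base)
      rw [hf, hg]; ring)
    (fun u => by
      refine BExt.ext (one_mul _) ?_
      show (0 : ZMod p) + u.fib + f 1 * g u.base = u.fib
      rw [hf1]; ring)
    (fun u => by
      refine BExt.ext (inv_mul_cancel _) ?_
      show -u.fib + f u.base * g u.base + u.fib + f u.base⁻¹ * g u.base = 0
      have h1 : f u.base⁻¹ = -f u.base := eq_neg_of_add_eq_zero_left (by rw [← hf, inv_mul_cancel, hf1])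
      rw [h1]; ring)
  let π : BExt f g →* G := { toFun := BExt.base, map_one' := rfl, map_mul' := fun _ _ => rfl }
  haveI : Finite (BExt f g) := Finite.of_injective (fun u : BExt f g => (u.base, u.fib))
    (fun u v h => BExt.ext (congrArg Prod.fst h) (congrArg Prod.snd h))
  have hs : Function.Surjective π := fun a => ⟨⟨a, 0⟩, rfl⟩
  have hc : π.ker ≤ Subgroup.center (BExt f g) := by
    rintro ⟨a, k⟩ (rfl : a = 1)
    refine Subgroup.mem_center_iff.mpr fun u => ?_
    refine BExt.ext (mul_comm u.base 1) ?_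
    show u.fib + k + f u.base * g 1 = k + u.fib + f 1 * g u.base
    rw [hf1, hg1]; ring
  set X : BExt f g := ⟨x, 0⟩ with hX
  set Y : BExt f g := ⟨y, 0⟩ with hY
  have hd : X * Y * (Y * X)⁻¹ ∈ commutator (BExt f g) := by
    rw [show X * Y * (Y * X)⁻¹ = ⁅X, Y⁆ by rw [commutatorElement_def]; group]
    exact Subgroup.commutator_mem_commutator (Subgroup.mem_top _) (Subgroup.mem_top _)
  have h := Cfsg.Agent.Stem.eq_one_of_trivial_multiplier hM π hs hc (z := X * Y * (Y * X)⁻¹)
    (by rw [map_mul, map_inv, map_mul, map_mul, mul_comm (π X), mul_inv_cancel]) hd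
  have h2 : (0 : ZMod p) + 0 + f x * g y = 0 + 0 + f y * g x := congrArg BExt.fib (mul_inv_eq_one.mp h)
  linear_combination h2

/-- A finite abelian group has trivial Schur multiplier if and only if it is cyclic. -/
theorem result {G : Type*} [CommGroup G] [Finite G] : Cfsg.HasCyclicSchurMultiplier G 1 ↔ IsCyclic G := by
  classical
  constructor
  · intro hM
    by_contra hnc
    -- two independent characters modulo a prime
    obtain ⟨J, _, m, hm, ⟨e⟩⟩ := CommGroup.equiv_prod_multiplicative_zmod_of_finite G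
    obtain ⟨i, j, hij, p, hp, hpi, hpj⟩ : ∃ i j, i ≠ j ∧ ∃ p, p.Prime ∧ p ∣ m i ∧ p ∣ m j := by
      by_contra hno
      push Not at hno
      haveI : ∀ i, NeZero (m i) := fun i => ⟨(Nat.zero_lt_of_lt (hm i)).ne'⟩
      have hco : Pairwise (Function.onFun Nat.Coprime m) := fun i j hij => by
        refine Nat.coprime_of_dvd fun p hp h1 h2 => hno i j hij p hp h1 h2
      let e' := e.trans ((MulEquiv.piMultiplicative fun i => ZMod (m i)).symm.trans
        (AddEquiv.toMultiplicative (ZMod.prodEquivPi m hco).toAddEquiv.symm))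
      exact hnc (e'.isCyclic.mpr inferInstance)
    haveI := Fact.mk hp
    let χ : J → G → ZMod p := fun i g => ZMod.cast (Multiplicative.toAdd (e g i))
    have hadd : ∀ k, p ∣ m k → ∀ a b, χ k (a * b) = χ k a + χ k b := fun k hk a b => by
      simp only [χ, map_mul, Pi.mul_apply, toAdd_mul]
      exact ZMod.cast_add hk _ _
    have h := Cfsg.Agent.S3950.kills hM (χ i) (χ j) (hadd i hpi) (hadd j hpj)
      (e.symm (Pi.mulSingle i (Multiplicative.ofAdd 1))) (e.symm (Pi.mulSingle j (Multiplicative.ofAdd 1)))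
    simp [χ, hij, hij.symm, Pi.mulSingle_apply, ZMod.cast_one hpi, ZMod.cast_one hpj] at h
  · intro _
    refine Cfsg.Agent.Stem.multiplier_one_of fun Γ _ _ σ hσ => ?_
    obtain ⟨hs, hc, hd⟩ := hσ
    rw [Subgroup.eq_bot_iff_forall]
    intro z hz
    exact Cfsg.Agent.Stem.noCentralExt_cyclic (R := G) Γ σ hs hc z hz (hd hz)

end Cfsg.Agent.S3950
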