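import Cfsg.Statements.S3951
import Cfsg.Agent.Lib.Stem.Cover
import Cfsg.Agent.Lib.Stem.Bilinear

set_option autoImplicit false
open Cfsg

namespace Cfsg.Agent.S3951

open scoped commutatorElement

/-- For positive integers `m` and `n` with `n` dividing `m`, the Schur multiplier of the abelian group `ZMod m × ZMod n` (written multiplicatively) is cyclic of order `n`. In particular the elementary abelian group of order `p ^ 2` has multiplier of order `p`. -/
theorem result (m n : ℕ) [NeZero m] [NeZero n] (hnm : n ∣ m) : Cfsg.HasCyclicSchurMultiplier (Multiplicative (ZMod m × ZMod n)) n := by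
  classical
  let c : ZMod m →+* ZMod n := ZMod.castHom hnm (ZMod n)
  let f : (Multiplicative (ZMod m × ZMod n)) → (Multiplicative (ZMod m × ZMod n)) → ZMod n := fun a b => c (Multiplicative.toAdd a).1 * (Multiplicative.toAdd b).2
  have hl : ∀ a b d : (Multiplicative (ZMod m × ZMod n)), f (a * b) d = f a d + f b d := fun a b d => by simp [f, add_mul]
  have hr : ∀ a b d : (Multiplicative (ZMod m × ZMod n)), f a (b * d) = f a b + f a d := fun a b d => by simp [f, mul_add]
  let x : (Multiplicative (ZMod m × ZMod n)) := Multiplicative.ofAdd (1, 0)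
  let y : (Multiplicative (ZMod m × ZMod n)) := Multiplicative.ofAdd (0, 1)
  open Cfsg.Agent.Stem.BilExt in
  have hσ : Cfsg.IsStemExtension (proj : Cfsg.Agent.Stem.BilExt f hl hr →* (Multiplicative (ZMod m × ZMod n))) := by
    refine ⟨proj_surjective, proj_ker_central, ?_⟩
    rintro ⟨a, k⟩ (rfl : a = 1)
    have h := incl_mem_commutator (f := f) (hl := hl) (hr := hr) x y (mul_comm _ _)
    rw [show f x y - f y x = 1 by simp [f, x, y]] at h
    have h2 := Subgroup.pow_mem _ h k.val
    rw [← map_pow, ← ofAdd_nsmul, nsmul_eq_mul, mul_one, ZMod.natCast_zmod_val] at h2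
    exact h2
  refine Cfsg.Agent.Stem.multiplier_of_image hσ Cfsg.Agent.Stem.BilExt.kerEquiv fun Δ _ _ τ hτ => ?_
  obtain ⟨X, hX⟩ := hτ.1 x
  obtain ⟨Y, hY⟩ := hτ.1 y
  have cz : ∀ {z : Δ}, τ z = 1 → ∀ g, g * z = z * g := fun hz g =>
    Subgroup.mem_center_iff.mp (hτ.2.1 (MonoidHom.mem_ker.mpr hz)) g
  set C := ⁅X, Y⁆ with hC
  have hCk : τ C = 1 := by rw [hC, map_commutatorElement, commutatorElement_eq_one_iff_mul_comm, mul_comm]
  have hYpow : ∀ j : ℕ, ⁅X, Y ^ j⁆ = C ^ j := by
    intro j
    induction j with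
    | zero => simp
    | succ j ih =>
      calc ⁅X, Y ^ (j + 1)⁆ = ⁅X, Y⁆ * (Y * ⁅X, Y ^ j⁆) * Y⁻¹ := by
            rw [commutatorElement_def, commutatorElement_def, commutatorElement_def, pow_succ']; group
        _ = _ := by rw [ih, cz (by rw [map_pow, hCk, one_pow]) Y, pow_succ', ← hC]; group
  have hCn : C ^ n = 1 := by
    rw [← hYpow, commutatorElement_eq_one_iff_mul_comm]
    exact cz (by rw [map_pow, hY, ← ofAdd_nsmul]; simp) X
  have hform : ∀ g, ∃ (i j : ℕ) (z : Δ), τ z = 1 ∧ g = X ^ i * Y ^ j * z := by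
    intro g
    refine ⟨(Multiplicative.toAdd (τ g)).1.val, (Multiplicative.toAdd (τ g)).2.val, _, ?_, (mul_inv_cancel_left _ g).symm⟩
    rw [map_mul, map_inv, map_mul, map_pow, map_pow, hX, hY, inv_mul_eq_one]
    apply Multiplicative.toAdd.injective
    rw [toAdd_mul, toAdd_pow, toAdd_pow]
    simp [x, y]
  let N := Subgroup.zpowers C
  haveI : N.Normal := ⟨fun a ha g => by
    obtain ⟨k, rfl⟩ := ha
    show g * C ^ k * g⁻¹ ∈ N
    rw [cz (by rw [map_zpow, hCk, one_zpow]) g, mul_inv_cancel_right]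
    exact ⟨k, rfl⟩⟩
  have hder : commutator Δ ≤ N := by
    let q := QuotientGroup.mk' N
    have hXY : Commute (q X) (q Y) := by
      rw [← commutatorElement_eq_one_iff_commute, ← map_commutatorElement]
      exact (QuotientGroup.eq_one_iff _).mpr (Subgroup.mem_zpowers C)
    rw [commutator_def, Subgroup.commutator_le]
    intro g _ h _
    obtain ⟨i, j, z, hz, rfl⟩ := hform g
    obtain ⟨i', j', z', hz', rfl⟩ := hform h
    refine (QuotientGroup.eq_one_iff _).mp ?_
    show q _ = 1
    have cq : ∀ {z : Δ}, τ z = 1 → ∀ w, Commute (q w) (q z) := fun hz w => by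
      show q w * q _ = _
      rw [← map_mul, cz hz, map_mul]
    have hall : ∀ w, Commute (q X) (q w) ∧ Commute (q Y) (q w) := by
      intro w
      obtain ⟨a, b, t, ht, rfl⟩ := hform w
      simp only [map_mul, map_pow]
      exact ⟨(((Commute.refl _).pow_right a).mul_right (hXY.pow_right b)).mul_right (cq ht X),
        ((hXY.symm.pow_right a).mul_right ((Commute.refl _).pow_right b)).mul_right (cq ht Y)⟩
    rw [map_commutatorElement, commutatorElement_eq_one_iff_commute]
    generalize X ^ i' * Y ^ j' * z' = w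
    simp only [map_mul, map_pow]
    exact ((((hall w).1).pow_left i).mul_left (((hall w).2).pow_left j)).mul_left (cq hz w).symm
  let C' : τ.ker := ⟨C, hCk⟩
  have hd : orderOf C' ∣ n := orderOf_dvd_of_pow_eq_one (Subtype.ext hCn)
  let φ : ZMod n →+ Additive τ.ker := ZMod.lift n ⟨(zmultiplesHom _) (Additive.ofMul C'), by
    show ((n : ℤ)) • Additive.ofMul C' = 0
    rw [natCast_zsmul, ← ofMul_pow, orderOf_dvd_iff_pow_eq_one.mp hd, ofMul_one]⟩
  refine ⟨AddMonoidHom.toMultiplicativeLeft φ, fun k => ?_⟩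
  obtain ⟨e, he⟩ := hder (hτ.2.2 k.2)
  refine ⟨Multiplicative.ofAdd (e : ZMod n), ?_⟩
  show Additive.toMul (φ (e : ZMod n)) = k
  rw [ZMod.lift_coe]
  exact Subtype.ext he

end Cfsg.Agent.S3951
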