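import Cfsg.Statements.S3952
import Cfsg.Agent.Lib.Stem.Transfer

set_option autoImplicit false
open Cfsg

namespace Cfsg.Agent.S3952

/-- If `A` is the Schur multiplier of the finite group `Q`, then the square of the exponent of `A` divides the order of `Q`. -/
theorem result {Q : Type*} [Group Q] [Finite Q] {A : Type*} [CommGroup A] (hA : Cfsg.HasSchurMultiplier Q A) : Monoid.exponent A ^ 2 ∣ Nat.card Q := by
  classical
  obtain ⟨Γ, _, _, σ, hσ, ⟨e⟩⟩ := hA.1
  haveI := Cfsg.Agent.Stem.finite_of_multiplier hA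
  obtain ⟨a, ha⟩ := Monoid.exists_orderOf_eq_exponent (G := A) (Monoid.ExponentExists.of_finite)
  set w : σ.ker := e.symm a
  have hw : orderOf (w : Γ) = Monoid.exponent A := by
    rw [Subgroup.orderOf_coe, MulEquiv.orderOf_eq, ha]
  rw [Nat.dvd_iff_prime_pow_dvd_dvd]
  intro p k hp hk
  haveI := Fact.mk hp
  set E := Monoid.exponent A with hE
  have hE0 : E ≠ 0 := Monoid.exponent_ne_zero_of_finite
  set t := E.factorization p with ht
  have hkt : k ≤ 2 * t := by
    have := (hp.pow_dvd_iff_le_factorization (pow_ne_zero 2 hE0)).mp hk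
    rwa [Nat.factorization_pow, Finsupp.smul_apply, smul_eq_mul] at this
  refine (pow_dvd_pow p hkt).trans ?_
  set z : Γ := (w : Γ) ^ (E / p ^ t) with hzdef
  have hzk : z ∈ σ.ker := Subgroup.pow_mem _ w.2 _
  have hdvd : p ^ t ∣ E := Nat.ordProj_dvd E p
  have hzo : orderOf z = p ^ t := by
    have h0 : E / p ^ t ≠ 0 := (Nat.div_pos (Nat.le_of_dvd (Nat.pos_of_ne_zero hE0) hdvd) (pow_pos hp.pos _)).ne'
    rw [hzdef, orderOf_pow' _ h0, hw, Nat.gcd_eq_right (Nat.div_dvd_of_dvd hdvd), Nat.div_div_self hdvd hE0]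
  obtain ⟨R⟩ := (inferInstance : Nonempty (Sylow p Q))
  set P := (R : Subgroup Q).comap σ with hP
  obtain ⟨h1, h2⟩ := Cfsg.Agent.Stem.pow_index_mem_commutator P (hσ.2.1 hzk) (hσ.2.2 hzk)
  have hPi : ¬ p ∣ P.index := by
    rw [hP, Subgroup.index_comap_of_surjective _ hσ.1]; exact R.not_dvd_index
  have hzP : z ∈ P := by
    show σ z ∈ (R : Subgroup Q)
    rw [MonoidHom.mem_ker.mp hzk]; exact one_mem _
  have hzd : (⟨z, hzP⟩ : P) ∈ commutator P := by
    have hco : Nat.Coprime (orderOf (⟨z, hzP⟩ : P)) P.index := by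
      rw [Subgroup.orderOf_mk, hzo]
      exact ((Nat.Prime.coprime_iff_not_dvd hp).mpr hPi).pow_left t
    obtain ⟨j, hj⟩ := exists_pow_eq_self_of_coprime hco.symm
    rw [← hj]
    exact Subgroup.pow_mem _ h2 j
  -- a Sylow subgroup of the preimage
  haveI := Fact.mk hp
  obtain ⟨S⟩ := (inferInstance : Nonempty (Sylow p P))
  obtain ⟨h3, h4⟩ := Cfsg.Agent.Stem.pow_index_mem_commutator (S : Subgroup P)
    (Subgroup.mem_center_iff.mpr fun g => Subtype.ext (Subgroup.mem_center_iff.mp (hσ.2.1 hzk) g)) hzd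
  set y : (S : Subgroup P) := ⟨_, h3⟩
  have hyo : orderOf y = p ^ t := by
    rw [Subgroup.orderOf_mk]
    rw [Nat.Coprime.orderOf_pow]
    · rw [Subgroup.orderOf_mk, hzo]
    · rw [Subgroup.orderOf_mk, hzo]
      exact ((Nat.Prime.coprime_iff_not_dvd hp).mpr S.not_dvd_index).pow_left t
  let φ : (S : Subgroup P) →* Q := σ.comp (P.subtype.comp (S : Subgroup P).subtype)
  have hφ : φ.ker ≤ Subgroup.center (S : Subgroup P) := fun x hx => Subgroup.mem_center_iff.mpr fun g =>
    Subtype.ext (Subtype.ext (Subgroup.mem_center_iff.mp (hσ.2.1 hx) _))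
  have hyk : y ∈ φ.ker := by
    show σ (z ^ _) = 1
    rw [map_pow, MonoidHom.mem_ker.mp hzk, one_pow]
  have := Cfsg.Agent.Stem.sq_dvd_index (p := p) _ (S : Subgroup P) S.isPGroup' le_rfl φ.ker hφ y t hyk h4 hyo
  refine this.trans ?_
  rw [Subgroup.index_ker]
  exact Subgroup.card_subgroup_dvd_card _

end Cfsg.Agent.S3952
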