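import Cfsg.Statements.S3953
import Mathlib
import Cfsg.Agent.Lib.Stem.Cover

set_option autoImplicit false
open Cfsg
open scoped Pointwise commutatorElement

namespace Cfsg.Agent.S3953

open Cfsg.Agent.Stem

universe u v w

/-- A group element together with a family indexed by the points it permutes. -/
@[ext]
structure Tw (Γ : Type u) (X : Type v) (F : Type w) where
  x : Γ
  f : X → F

section tw
variable {Γ : Type u} {X : Type v} {F : Type w} [Group Γ] [MulAction Γ X] [Group F]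

instance : One (Tw Γ X F) := ⟨⟨1, fun _ => 1⟩⟩
instance : Mul (Tw Γ X F) := ⟨fun a b => ⟨a.x * b.x, fun c => a.f (b.x • c) * b.f c⟩⟩
instance : Inv (Tw Γ X F) := ⟨fun a => ⟨a.x⁻¹, fun c => (a.f (a.x⁻¹ • c))⁻¹⟩⟩

theorem mul_x (a b : Tw Γ X F) : (a * b).x = a.x * b.x := rfl
theorem mul_f (a b : Tw Γ X F) (c : X) : (a * b).f c = a.f (b.x • c) * b.f c := rfl
theorem one_x : (1 : Tw Γ X F).x = 1 := rfl
theorem one_f (c : X) : (1 : Tw Γ X F).f c = 1 := rfl
theorem inv_x (a : Tw Γ X F) : (a⁻¹).x = a.x⁻¹ := rfl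
theorem inv_f (a : Tw Γ X F) (c : X) : (a⁻¹).f c = (a.f (a.x⁻¹ • c))⁻¹ := rfl

instance : Group (Tw Γ X F) := Group.ofLeftAxioms
  (fun a b c => Tw.ext (mul_assoc _ _ _) (funext fun d => by simp [mul_f, mul_x, mul_smul, mul_assoc]))
  (fun a => Tw.ext (one_mul _) (funext fun d => by simp [mul_f, one_f]))
  (fun a => Tw.ext (inv_mul_cancel _) (funext fun d => by simp [mul_f, inv_f, inv_smul_smul, one_f]))

end tw

theorem coset_mem {Γ : Type*} [Group Γ] (Δ : Subgroup Γ) (x : Γ) (c : Γ ⧸ Δ) :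
    (x • c).out⁻¹ * x * c.out ∈ Δ := by
  rw [mul_assoc, ← QuotientGroup.eq, QuotientGroup.out_eq',
    show ((x * c.out : Γ) : Γ ⧸ Δ) = x • (c.out : Γ ⧸ Δ) from rfl, QuotientGroup.out_eq']

theorem smul_eq_self_of_central {Γ : Type*} [Group Γ] (Δ : Subgroup Γ) {x : Γ}
    (hx : x ∈ Subgroup.center Γ) (hxΔ : x ∈ Δ) (c : Γ ⧸ Δ) : x • c = c := by
  induction c using QuotientGroup.induction_on with | _ a =>
  change ((x * a : Γ) : Γ ⧸ Δ) = a
  rw [eq_comm, QuotientGroup.eq, ← Subgroup.mem_center_iff.1 hx a, inv_mul_cancel_left]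
  exact hxΔ

/-- The transfer map between multipliers: `s` followed by the restriction is the `[G : P]`-th power. -/
theorem exists_transfer {G : Type u} [Group G] [Finite G] (P : Subgroup G) {A : Type v} {B : Type w}
    [CommGroup A] [CommGroup B] (hA : Cfsg.HasSchurMultiplier G A) (hB : Cfsg.HasSchurMultiplier ↥P B) :
    ∃ (s : A →* B) (r : B →* A), ∀ a, r (s a) = a ^ P.index := by
  classical
  obtain ⟨Γ, _, _, σ, hσ, ⟨eA⟩⟩ := hA.1
  obtain ⟨E, _, _, τ, hτ, ⟨eB⟩⟩ := hB.1
  haveI : Finite A := finite_of_multiplier hA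
  haveI : Finite B := finite_of_multiplier hB
  set Δ : Subgroup Γ := P.comap σ with hΔ
  let X := Γ ⧸ Δ
  haveI : Fintype X := Fintype.ofFinite X
  have hn : Fintype.card X = P.index := by
    rw [← Nat.card_eq_fintype_card, ← Subgroup.index_eq_card, hΔ, Subgroup.index_comap_of_surjective _ hσ.1]
  let σΔ : Δ →* P := (σ.comp Δ.subtype).codRestrict P fun d => d.2
  have hσΔ : Function.Surjective σΔ := fun q => by
    obtain ⟨g, hg⟩ := hσ.1 q
    exact ⟨⟨g, show σ g ∈ P from hg ▸ q.2⟩, Subtype.ext hg⟩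
  have hσΔc : σΔ.ker ≤ Subgroup.center Δ := fun d hd => Subgroup.mem_center_iff.2 fun e =>
    Subtype.ext (Subgroup.mem_center_iff.1 (hσ.2.1 (show σ d = 1 from congrArg Subtype.val hd)) e)
  let F := fib σΔ τ
  let b : F →* P := fibBase σΔ τ
  have hbs : Function.Surjective b := fibBase_surjective hσΔ hτ.1
  have hbc : b.ker ≤ Subgroup.center F := fibBase_central hσΔc hτ.2.1
  -- coordinates on the kernel of `b`
  have hk2 : ∀ v : F, v ∈ b.ker → fibSnd σΔ τ v ∈ τ.ker := fun v hv => (fibBase_eq σΔ τ v).symm.trans hv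
  have hk1 : ∀ v : F, v ∈ b.ker → ((fibFst σΔ τ v : Δ) : Γ) ∈ σ.ker := fun v hv => congrArg Subtype.val hv
  let αh : b.ker →* σ.ker :=
    ((Δ.subtype.comp (fibFst σΔ τ)).comp b.ker.subtype).codRestrict _ fun v => hk1 _ v.2
  let βh : b.ker →* τ.ker := ((fibSnd σΔ τ).comp b.ker.subtype).codRestrict _ fun v => hk2 _ v.2
  let co : b.ker →* A × B := (eA.toMonoidHom.comp αh).prod (eB.toMonoidHom.comp βh)
  have hco : Function.Bijective co := by
    refine ⟨fun v v' h => ?_, fun ab => ?_⟩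
    · have h1 : αh v = αh v' := eA.injective (congrArg Prod.fst h)
      have h2 : βh v = βh v' := eB.injective (congrArg Prod.snd h)
      exact Subtype.ext (Subtype.ext (Prod.ext (Subtype.ext (congrArg (fun t : σ.ker => (t : Γ)) h1))
        (congrArg (fun t : τ.ker => (t : E)) h2)))
    · have hk : σ (eA.symm ab.1 : Γ) = 1 := (eA.symm ab.1).2
      let d : Δ := ⟨(eA.symm ab.1 : Γ), show σ _ ∈ P by rw [hk]; exact P.one_mem⟩
      have hd : σΔ d = 1 := Subtype.ext hk
      refine ⟨⟨⟨(d, (eB.symm ab.2 : E)), (mem_fib σΔ τ).2 (hd.trans (eB.symm ab.2).2.symm)⟩, hd⟩, ?_⟩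
      exact Prod.ext (eA.apply_symm_apply ab.1) (eB.apply_symm_apply ab.2)
  let coE : b.ker ≃* A × B := MulEquiv.ofBijective co hco
  -- the twisted group over `Γ`
  let Gd : Subgroup (Tw Γ X F) :=
    { carrier := {r | ∀ c : X, ((fibFst σΔ τ (r.f c) : Δ) : Γ) = (r.x • c).out⁻¹ * r.x * c.out}
      one_mem' := fun c => by simp [one_f, one_x]
      mul_mem' := fun {r r'} hr hr' c => by
        rw [mul_f, map_mul, Subgroup.coe_mul, hr, hr', mul_x, mul_smul]; group
      inv_mem' := fun {r} hr c => by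
        rw [inv_f, map_inv, Subgroup.coe_inv, hr, inv_x, smul_inv_smul]; group }
  let pr : Gd →* Γ := MonoidHom.mk' (fun r => r.1.x) fun _ _ => rfl
  have hpr : Function.Surjective pr := fun x => by
    have hex : ∀ c : X, ∃ v : F, fibFst σΔ τ v = ⟨_, coset_mem Δ x c⟩ :=
      fun c => fibFst_surjective hτ.1 _
    choose v hv using hex
    exact ⟨⟨⟨x, v⟩, fun c => congrArg Subtype.val (hv c)⟩, rfl⟩
  set Kb : Subgroup Gd := (σ.comp pr).ker with hKb
  have hfix : ∀ r : Gd, r ∈ Kb → ∀ c : X, r.1.x • c = c := fun r hr c =>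
    smul_eq_self_of_central Δ (hσ.2.1 hr) (show σ r.1.x ∈ P by
      rw [show σ r.1.x = 1 from hr]; exact P.one_mem) c
  have hval : ∀ r : Gd, r ∈ Kb → ∀ c : X, ((fibFst σΔ τ (r.1.f c) : Δ) : Γ) = r.1.x := fun r hr c => by
    have := r.2 c
    rw [hfix r hr c, mul_assoc, ← (show c.out * r.1.x = r.1.x * c.out from Subgroup.mem_center_iff.1 (hσ.2.1 hr) c.out),
      inv_mul_cancel_left] at this
    exact this
  have hker : ∀ r : Gd, r ∈ Kb → ∀ c : X, r.1.f c ∈ b.ker := fun r hr c => by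
    refine Subtype.ext ?_
    change σ ((fibFst σΔ τ (r.1.f c) : Δ) : Γ) = 1
    rw [hval r hr c]; exact hr
  let comp : X → (Kb →* b.ker) := fun c => MonoidHom.mk' (fun r => ⟨r.1.1.f c, hker r.1 r.2 c⟩)
    fun r r' => Subtype.ext (by
      change (r.1.1 * r'.1.1).f c = r.1.1.f c * r'.1.1.f c
      rw [mul_f, hfix r'.1 r'.2 c])
  let xk : Kb →* σ.ker := (pr.comp Kb.subtype).codRestrict _ fun r => r.2
  let Ψ : Kb →* A × B := (eA.toMonoidHom.comp xk).prod
    (∏ c, (MonoidHom.snd A B).comp (coE.toMonoidHom.comp (comp c)))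
  have hΨ2 : ∀ r : Kb, (Ψ r).2 = ∏ c, (coE (comp c r)).2 := fun r => by
    change (∏ c, (MonoidHom.snd A B).comp (coE.toMonoidHom.comp (comp c))) r = _
    rw [MonoidHom.finsetProd_apply]
    rfl
  have hcof : ∀ (r : Kb) (c : X), (coE (comp c r)).1 = (Ψ r).1 := fun r c =>
    congrArg eA (Subtype.ext (hval r.1 r.2 c))
  -- the quotient
  set N : Subgroup Gd := Ψ.ker.map Kb.subtype with hN
  haveI hNn : N.Normal := by
    refine ⟨?_⟩
    rintro _ ⟨n, hn, rfl⟩ r
    have hcen : ∀ c : X, n.1.1.f c ∈ Subgroup.center F := fun c => hbc (hker n.1 n.2 c)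
    have hxc : ∀ g : Γ, g * n.1.1.x = n.1.1.x * g :=
      Subgroup.mem_center_iff.1 (hσ.2.1 (show pr n.1 ∈ σ.ker from n.2))
    let n' : Tw Γ X F := ⟨n.1.1.x, fun c => n.1.1.f (r.1.x⁻¹ • c)⟩
    have hn'G : n' ∈ Gd := fun c => by
      change ((fibFst σΔ τ (n.1.1.f (r.1.x⁻¹ • c)) : Δ) : Γ) = (n.1.1.x • c).out⁻¹ * n.1.1.x * c.out
      rw [hval n.1 n.2, hfix n.1 n.2 c, mul_assoc, ← hxc c.out, inv_mul_cancel_left]
    have hn'K : (⟨n', hn'G⟩ : Gd) ∈ Kb := n.2
    have hconj : r * (n : Gd) * r⁻¹ = ⟨n', hn'G⟩ := by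
      rw [mul_inv_eq_iff_eq_mul]
      refine Subtype.ext (Tw.ext (hxc r.1.x) (funext fun c => ?_))
      change r.1.f (n.1.1.x • c) * n.1.1.f c = n.1.1.f (r.1.x⁻¹ • r.1.x • c) * r.1.f c
      rw [hfix n.1 n.2 c, inv_smul_smul, Subgroup.mem_center_iff.1 (hcen c) (r.1.f c)]
    change r * (n : Gd) * r⁻¹ ∈ N
    rw [hconj]
    refine ⟨⟨_, hn'K⟩, ?_, rfl⟩
    rw [SetLike.mem_coe, MonoidHom.mem_ker] at hn ⊢
    refine Prod.ext (show eA _ = 1 from (congrArg Prod.fst hn : _)) ?_
    have h2 := congrArg Prod.snd hn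
    rw [hΨ2] at h2 ⊢
    exact (Fintype.prod_equiv (MulAction.toPerm r.1.x⁻¹)
      (fun c => (coE (comp c ⟨_, hn'K⟩)).2) (fun c => (coE (comp c n)).2) fun c => rfl).trans h2
  let W := Gd ⧸ N
  let mkW : Gd →* W := QuotientGroup.mk' N
  let σW : W →* G := QuotientGroup.lift N (σ.comp pr) (Subgroup.map_subtype_le _)
  have hσWs : Function.Surjective σW := fun g => by
    obtain ⟨x, rfl⟩ := hσ.1 g
    obtain ⟨r, rfl⟩ := hpr x
    exact ⟨mkW r, rfl⟩
  haveI : Finite (Tw Γ X F) :=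
    Finite.of_injective (fun r => (r.x, r.f)) fun r r' h => Tw.ext (congrArg Prod.fst h) (congrArg Prod.snd h)
  have hσWc : σW.ker ≤ Subgroup.center W := by
    intro w hw
    obtain ⟨n, rfl⟩ := QuotientGroup.mk'_surjective N w
    rw [Subgroup.mem_center_iff]
    intro w'
    obtain ⟨r, rfl⟩ := QuotientGroup.mk'_surjective N w'
    rw [← map_mul, ← map_mul]
    change ((r * n : Gd) : W) = ((n * r : Gd) : W)
    rw [QuotientGroup.eq]
    have hnK : n ∈ Kb := hw
    have hxc : ∀ g : Γ, g * n.1.x = n.1.x * g :=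
      Subgroup.mem_center_iff.1 (hσ.2.1 (show pr n ∈ σ.ker from hnK))
    let n' : Tw Γ X F := ⟨n.1.x, fun c => n.1.f (r.1.x • c)⟩
    have hn'G : n' ∈ Gd := fun c => by
      change ((fibFst σΔ τ (n.1.f (r.1.x • c)) : Δ) : Γ) = (n.1.x • c).out⁻¹ * n.1.x * c.out
      rw [hval n hnK, hfix n hnK c, mul_assoc, ← hxc c.out, inv_mul_cancel_left]
    have hn'K : (⟨n', hn'G⟩ : Gd) ∈ Kb := hnK
    have hnr : n * r = r * ⟨n', hn'G⟩ := by
      refine Subtype.ext (Tw.ext (hxc r.1.x).symm (funext fun c => ?_))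
      change n.1.f (r.1.x • c) * r.1.f c = r.1.f (n.1.x • c) * n.1.f (r.1.x • c)
      rw [hfix n hnK c, Subgroup.mem_center_iff.1 (hbc (hker n hnK _)) (r.1.f c)]
    rw [hnr, mul_inv_rev, mul_assoc, inv_mul_cancel_left]
    refine ⟨⟨n, hnK⟩⁻¹ * ⟨_, hn'K⟩, ?_, rfl⟩
    rw [SetLike.mem_coe, MonoidHom.mem_ker, map_mul, map_inv, inv_mul_eq_one]
    refine Prod.ext rfl ?_
    rw [hΨ2, hΨ2]
    exact (Fintype.prod_equiv (MulAction.toPerm r.1.x)
      (fun c => (coE (comp c ⟨_, hn'K⟩)).2) (fun c => (coE (comp c ⟨n, hnK⟩)).2) fun c => rfl).symm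
  -- the graph
  set R : Subgroup (A × B) := ((commutator Gd).subgroupOf Kb).map Ψ with hR
  have hRA : Function.Bijective ((MonoidHom.fst A B).comp R.subtype) := by
    have hsurj : Function.Surjective ((MonoidHom.fst A B).comp R.subtype) := fun a => by
      have hmem : (eA.symm a : Γ) ∈ commutator Γ := hσ.2.2 (eA.symm a).2
      rw [← map_commutator_surj pr hpr] at hmem
      obtain ⟨r, hr, hra⟩ := hmem
      have hrK : r ∈ Kb := by
        change σ (pr r) = 1
        rw [hra]; exact (eA.symm a).2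
      refine ⟨⟨Ψ ⟨r, hrK⟩, ⟨r, hrK⟩, hr, rfl⟩, ?_⟩
      change eA (xk ⟨r, hrK⟩) = a
      rw [show xk ⟨r, hrK⟩ = eA.symm a from Subtype.ext hra, eA.apply_symm_apply]
    refine hsurj.bijective_of_nat_card_le ?_
    obtain ⟨π, hπ⟩ := central_kernel_image hA σW hσWs hσWc
    refine le_trans ?_ (Nat.card_le_card_of_surjective π hπ)
    choose rep hrep using fun t : R => t.2
    refine Nat.card_le_card_of_injective (fun t : R => (⟨mkW (rep t : Gd), (rep t).2, by
      rw [← map_commutator_surj mkW (QuotientGroup.mk'_surjective N)]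
      exact Subgroup.mem_map_of_mem _ (hrep t).1⟩ : ↥(σW.ker ⊓ commutator W))) fun t t' htt => ?_
    obtain ⟨n, hn, hne⟩ := QuotientGroup.eq.1 (congrArg Subtype.val htt)
    have e : (rep t)⁻¹ * rep t' = n := Subtype.ext hne.symm
    have h1 : Ψ ((rep t)⁻¹ * rep t') = 1 := by rw [e]; exact hn
    rw [map_mul, map_inv, (hrep t).2, (hrep t').2, inv_mul_eq_one] at h1
    exact Subtype.ext h1
  let eR : R ≃* A := MulEquiv.ofBijective _ hRA
  let s : A →* B := ((MonoidHom.snd A B).comp R.subtype).comp eR.symm.toMonoidHom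
  -- transfer into the abelianization
  let Φh : Gd →* Abelianization F := MonoidHom.mk' (fun r => ∏ c, Abelianization.of (r.1.f c))
    fun r r' => by
      change ∏ c, Abelianization.of (r.1.f (r'.1.x • c) * r'.1.f c) = _
      simp only [map_mul, Finset.prod_mul_distrib]
      congr 1
      exact Fintype.prod_equiv (MulAction.toPerm r'.1.x) _ _ fun c => rfl
  let ι : A × B →* F := b.ker.subtype.comp coE.symm.toMonoidHom
  have htrans : ∀ a, ι (a ^ P.index, s a) ∈ commutator F := by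
    intro a
    have hmem := (eR.symm a).2
    obtain ⟨r, hr, hre⟩ := hmem
    have hfst : (Ψ r).1 = a := by
      rw [hre]; exact eR.apply_symm_apply a
    have hsnd : (Ψ r).2 = s a := by rw [hre]; rfl
    rw [← Abelianization.ker_of, MonoidHom.mem_ker]
    have h1 : Φh (r : Gd) = 1 := Abelianization.commutator_subset_ker Φh hr
    rw [← h1]
    change _ = ∏ c, Abelianization.of ((r : Gd).1.f c)
    have h2 : ∀ c : X, (r : Gd).1.f c = ι (coE (comp c r)) := fun c => by
      change (comp c r : F) = ι (coE (comp c r))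
      simp [ι]
    simp only [h2]
    rw [← MonoidHom.comp_apply]
    simp only [← MonoidHom.comp_apply]
    rw [← map_prod]
    congr 1
    refine Prod.ext ?_ ?_
    · rw [Prod.fst_prod]
      simp only [hcof, hfst, Finset.prod_const, Finset.card_univ, hn]
    · rw [Prod.snd_prod, ← hΨ2, hsnd]
  -- the restriction
  set Rp : Subgroup (A × B) := (commutator F).comap ι with hRp
  have hRpB : Function.Bijective ((MonoidHom.snd A B).comp Rp.subtype) := by
    have hsurj : Function.Surjective ((MonoidHom.snd A B).comp Rp.subtype) := fun bb => by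
      have hmem : (eB.symm bb : E) ∈ commutator E := hτ.2.2 (eB.symm bb).2
      rw [← map_commutator_surj (fibSnd σΔ τ) (fibSnd_surjective hσΔ)] at hmem
      obtain ⟨v, hv, hvb⟩ := hmem
      have hvK : v ∈ b.ker := by
        rw [MonoidHom.mem_ker]
        change fibBase σΔ τ v = 1
        rw [fibBase_eq, hvb]; exact (eB.symm bb).2
      refine ⟨⟨coE ⟨v, hvK⟩, ?_⟩, ?_⟩
      · rw [hRp, Subgroup.mem_comap]
        change ((coE.symm (coE ⟨v, hvK⟩) : b.ker) : F) ∈ _
        rw [MulEquiv.symm_apply_apply]; exact hv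
      · change eB (βh ⟨v, hvK⟩) = bb
        rw [show βh ⟨v, hvK⟩ = eB.symm bb from Subtype.ext hvb, eB.apply_symm_apply]
    refine hsurj.bijective_of_nat_card_le ?_
    obtain ⟨π, hπ⟩ := central_kernel_image hB b hbs hbc
    refine le_trans ?_ (Nat.card_le_card_of_surjective π hπ)
    refine Nat.card_le_card_of_injective
      (fun t : Rp => (⟨ι t.1, (coE.symm t.1).2, t.2⟩ : ↥(b.ker ⊓ commutator F))) fun t t' htt => ?_
    have e : coE.symm t.1 = coE.symm t'.1 :=
      Subtype.ext (show ι t.1 = ι t'.1 from congrArg (fun z : ↥(b.ker ⊓ commutator F) => (z : F)) htt)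
    exact Subtype.ext (coE.symm.injective e)
  let eRp : Rp ≃* B := MulEquiv.ofBijective _ hRpB
  refine ⟨s, ((MonoidHom.fst A B).comp Rp.subtype).comp eRp.symm.toMonoidHom, fun a => ?_⟩
  have e : eRp.symm (s a) = ⟨(a ^ P.index, s a), htrans a⟩ := eRp.injective (by
    rw [MulEquiv.apply_symm_apply]; rfl)
  change ((eRp.symm (s a) : Rp) : A × B).1 = _
  rw [e]



/-- Let `P` be a Sylow `p`-subgroup of the finite group `G`, let `A` be the Schur multiplier of `G` and `B` that of `P`. Then the `p`-primary component of `A` is isomorphic to a direct factor of `B`: there are subgroups `C` and `D` of `B` meeting trivially and generating `B`, with `C` isomorphic to the `p`-primary component of `A`. -/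
theorem result {G : Type*} [Group G] [Finite G] (p : ℕ) [Fact p.Prime] (P : Sylow p G) {A B : Type*} [CommGroup A] [CommGroup B] (hA : Cfsg.HasSchurMultiplier G A) (hB : Cfsg.HasSchurMultiplier P B) : ∃ C D : Subgroup B, C ⊓ D = ⊥ ∧ C ⊔ D = ⊤ ∧ Nonempty (CommGroup.primaryComponent A p ≃* C) := by
  classical
  haveI : Finite A := Cfsg.Agent.Stem.finite_of_multiplier hA
  obtain ⟨s, r, hrs⟩ := exists_transfer (P : Subgroup G) hA hB
  set n := (P : Subgroup G).index with hn
  set Ap := CommGroup.primaryComponent A p with hAp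
  obtain ⟨k, M, hM, hcard⟩ := Nat.exists_eq_pow_mul_and_not_dvd (Nat.card_pos (α := A)).ne' p
    (Fact.out : p.Prime).ne_one
  have hMn : (n * M).Coprime p :=
    Nat.Coprime.mul_left ((Fact.out : p.Prime).coprime_iff_not_dvd.2 P.not_dvd_index).symm
      ((Fact.out : p.Prime).coprime_iff_not_dvd.2 hM).symm
  have hinj : ∀ a ∈ Ap, a ^ (n * M) = 1 → a = 1 := by
    rintro a ⟨j, hj⟩ ha
    have := pow_gcd_eq_one.2 ⟨ha, hj⟩
    rwa [(hMn.pow_right j), pow_one] at this
  let φ : Ap → Ap := fun a => a ^ (n * M)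
  have hφ : Function.Surjective φ := Finite.injective_iff_surjective.1 fun a a' h => by
    have h1 : (a * a'⁻¹ : Ap) ^ (n * M) = 1 := by
      rw [mul_pow, inv_pow]; exact mul_inv_eq_one.2 h
    exact mul_inv_eq_one.1 (Subtype.ext (hinj _ (a * a'⁻¹).2 (by exact_mod_cast congrArg Subtype.val h1)))
  let D : Subgroup B :=
    { carrier := {b | r b ^ M = 1}
      one_mem' := by simp
      mul_mem' := fun {a b} ha hb => by
        simp only [Set.mem_setOf_eq, map_mul, mul_pow] at *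
        rw [ha, hb, one_mul]
      inv_mem' := fun {a} ha => by
        simp only [Set.mem_setOf_eq, map_inv, inv_pow] at *
        rw [ha, inv_one] }
  refine ⟨Ap.map s, D, ?_, ?_, ?_⟩
  · rw [Subgroup.eq_bot_iff_forall]
    rintro _ ⟨⟨a, ha, rfl⟩, hD⟩
    have h1 : r (s a) ^ M = 1 := hD
    rw [hrs, ← pow_mul] at h1
    rw [hinj a ha h1, map_one]
  · rw [eq_top_iff]
    intro b _
    have hy : r b ^ M ∈ Ap := by
      refine ⟨k, ?_⟩
      rw [← pow_mul, mul_comm, ← hcard, pow_card_eq_one']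
    obtain ⟨a, ha⟩ := hφ ⟨_, hy⟩
    have ha' : (a : A) ^ (n * M) = r b ^ M := congrArg Subtype.val ha
    have hbD : b * (s a)⁻¹ ∈ D := by
      change r (b * (s a)⁻¹) ^ M = 1
      rw [map_mul, map_inv, hrs, mul_pow, inv_pow, ← pow_mul, ha', mul_inv_cancel]
    rw [show b = s a * (b * (s a)⁻¹) by rw [mul_comm, inv_mul_cancel_right]]
    exact mul_mem (Subgroup.mem_sup_left (Subgroup.mem_map_of_mem s a.2)) (Subgroup.mem_sup_right hbD)
  · refine ⟨MulEquiv.ofBijective ((s.comp Ap.subtype).codRestrict (Ap.map s)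
      fun a => Subgroup.mem_map_of_mem s a.2) ⟨(injective_iff_map_eq_one _).2 fun a ha => ?_, ?_⟩⟩
    · have h1 := congrArg r (congrArg Subtype.val ha)
      simp only [MonoidHom.codRestrict_apply, MonoidHom.comp_apply, Subgroup.coe_subtype, hrs,
        OneMemClass.coe_one, map_one] at h1
      exact Subtype.ext (hinj _ a.2 (by rw [pow_mul, h1, one_pow]))
    · rintro ⟨_, a, ha, rfl⟩
      exact ⟨⟨a, ha⟩, rfl⟩

end Cfsg.Agent.S3953
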