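import Cfsg.Statements.S3954
import Cfsg.Agent.Lib.Stem.Transfer

set_option autoImplicit false
open Cfsg

namespace Cfsg.Agent.S3954

/-- a quotient of a finite abelian group embeds in it -/
theorem exists_embedding {B K : Type*} [CommGroup B] [Finite B] [Group K] (π : B →* K)
    (hπ : Function.Surjective π) : ∃ g : K →* B, Function.Injective g := by
  letI : CommGroup K := { (inferInstance : Group K) with
    mul_comm := fun a b => by
      obtain ⟨x, rfl⟩ := hπ a
      obtain ⟨y, rfl⟩ := hπ b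
      rw [← map_mul, mul_comm, map_mul] }
  haveI : Finite K := Finite.of_surjective π hπ
  obtain ⟨eK⟩ := CommGroup.monoidHom_mulEquiv_of_hasEnoughRootsOfUnity K ℂ
  obtain ⟨eB⟩ := CommGroup.monoidHom_mulEquiv_of_hasEnoughRootsOfUnity B ℂ
  let d : (K →* ℂˣ) →* (B →* ℂˣ) :=
    { toFun := fun χ => χ.comp π, map_one' := rfl, map_mul' := fun _ _ => rfl }
  have hd : Function.Injective d := fun a b h => by
    ext k
    obtain ⟨x, rfl⟩ := hπ k
    exact congrArg Units.val (DFunLike.congr_fun h x)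
  exact ⟨eB.toMonoidHom.comp (d.comp eK.symm.toMonoidHom), eB.injective.comp (hd.comp eK.symm.injective)⟩

/-- Let `U` be a subgroup of index `m` in the finite group `G`, let `A` be the Schur multiplier of `G` and `B` that of `U`. Then the subgroup of `m`-th powers of `A` is isomorphic to a subgroup of `B`. -/
theorem result {G : Type*} [Group G] [Finite G] (U : Subgroup G) {A B : Type*} [CommGroup A] [CommGroup B] (hA : Cfsg.HasSchurMultiplier G A) (hB : Cfsg.HasSchurMultiplier U B) : ∃ C : Subgroup B, Nonempty ((powMonoidHom U.index : A →* A).range ≃* C) := by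
  classical
  obtain ⟨Γ, _, _, σ, hσ, ⟨e⟩⟩ := hA.1
  haveI := Cfsg.Agent.Stem.finite_of_multiplier hB
  set P := U.comap σ with hP
  let τ : P →* U := (σ.comp P.subtype).codRestrict _ (fun x => x.2)
  have hτc : τ.ker ≤ Subgroup.center P := fun x hx => Subgroup.mem_center_iff.mpr fun g => Subtype.ext
    (Subgroup.mem_center_iff.mp (hσ.2.1 (show σ (x : Γ) = 1 from congrArg Subtype.val (MonoidHom.mem_ker.mp hx))) _)
  obtain ⟨π, hπ⟩ := Cfsg.Agent.Stem.central_kernel_image hB τ (fun r => by
      obtain ⟨x, hx⟩ := hσ.1 (r : G)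
      exact ⟨⟨x, by show σ x ∈ U; rw [hx]; exact r.2⟩, Subtype.ext hx⟩) hτc
  let K := τ.ker ⊓ commutator P
  let R := (powMonoidHom U.index : A →* A).range
  have hidx : P.index = U.index := by rw [hP, Subgroup.index_comap_of_surjective _ hσ.1]
  have hmem : ∀ r : R, ∃ h : (e.symm (r : A) : Γ) ∈ P, (⟨_, h⟩ : P) ∈ K := by
    rintro ⟨_, a, rfl⟩
    obtain ⟨h1, h2⟩ := Cfsg.Agent.Stem.pow_index_mem_commutator P (hσ.2.1 (e.symm a).2) (hσ.2.2 (e.symm a).2)
    have heq : (e.symm ((powMonoidHom U.index : A →* A) a) : Γ) = (e.symm a : Γ) ^ P.index := by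
      rw [hidx, powMonoidHom_apply, map_pow]; rfl
    refine ⟨by rw [heq]; exact h1, ?_, ?_⟩
    swap
    · rw [show (⟨_, _⟩ : P) = ⟨_, h1⟩ from Subtype.ext heq]; exact h2
    exact MonoidHom.mem_ker.mpr (Subtype.ext (MonoidHom.mem_ker.mp (e.symm _).2))
  let f : R →* K :=
    { toFun := fun r => ⟨⟨_, (hmem r).1⟩, (hmem r).2⟩
      map_one' := Subtype.ext (Subtype.ext (by simp))
      map_mul' := fun a b => Subtype.ext (Subtype.ext (by simp)) }
  have hf : Function.Injective f := fun a b h => by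
    have : (e.symm (a : A) : Γ) = e.symm (b : A) := congrArg (fun k : K => ((k : P) : Γ)) h
    exact Subtype.ext (e.symm.injective (Subtype.ext this))
  obtain ⟨g, hg⟩ := Cfsg.Agent.S3954.exists_embedding π hπ
  exact ⟨(g.comp f).range, ⟨MonoidHom.ofInjective (hg.comp hf)⟩⟩

end Cfsg.Agent.S3954
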