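import Cfsg.Statements.S3957
import Cfsg.Agent.Lib.Stem.Cover

set_option autoImplicit false
universe u v
open Cfsg

namespace Cfsg.Agent.S3957

/-- Let `Q` be a finite group with Schur multiplier `A` and let `τ : Δ →* Q` be a finite stem extension, `Δ` in the universe of `Q`. Then there is a finite stem extension `σ : Γ →* Q` with kernel isomorphic to `A` (a Schur covering group) and a surjective homomorphism `β : Γ →* Δ` with `τ ∘ β = σ`. -/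
theorem result {Q : Type u} [Group Q] [Finite Q] {A : Type v} [CommGroup A] (hA : Cfsg.HasSchurMultiplier Q A) {Δ : Type u} [Group Δ] [Finite Δ] (τ : Δ →* Q) (hτ : Cfsg.IsStemExtension τ) : ∃ (Γ : Type u) (_ : Group Γ) (_ : Finite Γ) (σ : Γ →* Q), Cfsg.IsStemExtension σ ∧ Nonempty (σ.ker ≃* A) ∧ ∃ β : Γ →* Δ, Function.Surjective β ∧ τ.comp β = σ := by
  open Cfsg.Agent.Stem in
  obtain ⟨Γ₁, _, _, σ₁, h₁, ⟨e₁⟩⟩ := hA.1
  obtain ⟨Γ', i1, i2, σ', h', ⟨e'⟩, β, hβ, hcomp⟩ := Cfsg.Agent.Stem.stemify (Cfsg.Agent.Stem.fibBase σ₁ τ)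
    (Cfsg.Agent.Stem.fibBase_surjective h₁.1 hτ.1) (Cfsg.Agent.Stem.fibBase_central h₁.2.1 hτ.2.1) τ hτ
    (Cfsg.Agent.Stem.fibSnd σ₁ τ) (Cfsg.Agent.Stem.fibSnd_surjective h₁.1)
    (MonoidHom.ext fun x => (Cfsg.Agent.Stem.fibBase_eq σ₁ τ x).symm)
  refine ⟨Γ', i1, i2, σ', h', ⟨e'.trans ((MulEquiv.ofBijective (Cfsg.Agent.Stem.fibKerFst σ₁ τ) ?_).trans e₁)⟩, β, hβ, hcomp⟩
  exact (Cfsg.Agent.Stem.fibFst_injOn_commutator hA h₁ (Nat.card_congr e₁.toEquiv) hτ.1 hτ.2.1).1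

end Cfsg.Agent.S3957
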