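import Cfsg.Statements.S3961
import Cfsg.Agent.Lib.Stem.Perfect
import Cfsg.Agent.Lib.Stem.DihedralLike

set_option autoImplicit false
universe u v
open Cfsg

namespace Cfsg.Agent.S3961

open scoped commutatorElement

/-- Let `π : G →* Q` be a surjective homomorphism with central kernel from a finite perfect group `G` (a perfect cover of `Q`). Then `π` is universal, in the sense that every surjective homomorphism `ξ : X →* Q` with central kernel from a group `X` in the universe of `G` admits a homomorphism `η : G →* X` with `ξ ∘ η = π`, if and only if `G` has trivial Schur multiplier. -/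
theorem result {G : Type u} {Q : Type v} [Group G] [Group Q] [Finite G] (hG : Group.IsPerfect G) (π : G →* Q) (hπ : Function.Surjective π) (hker : π.ker ≤ Subgroup.center G) : (∀ (X : Type u) [Group X] (ξ : X →* Q), Function.Surjective ξ → ξ.ker ≤ Subgroup.center X → ∃ η : G →* X, ξ.comp η = π) ↔ Cfsg.HasCyclicSchurMultiplier G 1 := by
  haveI : Finite Q := Finite.of_surjective π hπ
  have hG' : commutator G = ⊤ := hG.commutator_eq_top
  have hQ : commutator Q = ⊤ := by
    rw [← Cfsg.Agent.Stem.map_commutator_surj π hπ, hG', Subgroup.map_top_of_surjective π hπ]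
  constructor
  · intro huniv
    refine Cfsg.Agent.Stem.multiplier_one_of fun Δ _ _ τ hτ => ?_
    have hΔ := Cfsg.Agent.Stem.perfect_of_stem hτ hG'
    have hc : (π.comp τ).ker ≤ Subgroup.center Δ := fun x hx =>
      Cfsg.Agent.Stem.center_of_perfect hΔ fun g => hτ.2.1 (by
        rw [MonoidHom.mem_ker, map_commutatorElement, commutatorElement_eq_one_iff_mul_comm]
        exact (Subgroup.mem_center_iff.mp (hker (show π (τ x) = 1 from hx)) (τ g)).symm)
    obtain ⟨η, hη⟩ := huniv Δ (π.comp τ) (hπ.comp hτ.1) hc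
    have hid : τ.comp η = MonoidHom.id G :=
      Cfsg.Agent.Stem.lift_unique hG' hker _ _ (by rw [← MonoidHom.comp_assoc, hη, MonoidHom.comp_id])
    have hsurj : ∀ x : Δ, ∃ g, η g = x := by
      have hle : commutator Δ ≤ η.range := by
        rw [commutator_def, Subgroup.commutator_le]
        intro a _ b _
        refine ⟨⁅τ a, τ b⁆, ?_⟩
        have hs : ∀ x : Δ, τ (x⁻¹ * η (τ x)) = 1 := fun x => by
          rw [map_mul, map_inv, show τ (η (τ x)) = τ x from DFunLike.congr_fun hid (τ x), inv_mul_cancel]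
        have c₁ := Subgroup.mem_center_iff.mp (hτ.2.1 (hs a))
        have c₂ := Subgroup.mem_center_iff.mp (hτ.2.1 (hs b))
        rw [map_commutatorElement, show η (τ a) = a * (a⁻¹ * η (τ a)) by group,
          show η (τ b) = b * (b⁻¹ * η (τ b)) by group]
        generalize a⁻¹ * η (τ a) = z₁ at *
        generalize b⁻¹ * η (τ b) = z₂ at *
        rw [commutatorElement_def, commutatorElement_def]
        calc a * z₁ * (b * z₂) * (a * z₁)⁻¹ * (b * z₂)⁻¹
            = a * (z₁ * (b * z₂)) * z₁⁻¹ * a⁻¹ * z₂⁻¹ * b⁻¹ := by group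
          _ = a * b * (z₂ * a⁻¹) * z₂⁻¹ * b⁻¹ := by rw [← c₁]; group
          _ = a * b * a⁻¹ * b⁻¹ := by rw [← c₂]; group
      exact fun x => hle (hΔ ▸ Subgroup.mem_top x)
    rw [Subgroup.eq_bot_iff_forall]
    intro x hx
    obtain ⟨g, rfl⟩ := hsurj x
    have : g = 1 := (DFunLike.congr_fun hid g).symm.trans hx
    rw [this, map_one]
  · intro hM X _ ξ hξ hξc
    -- the fibre product over the base is a central extension of `G`
    obtain ⟨η, hη⟩ := Cfsg.Agent.Stem.exists_lift_of_cover (Q := G) hG' hM (σ := MonoidHom.id G)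
      Cfsg.Agent.Stem.isStemExtension_id (by
        rw [Nat.card_congr Multiplicative.toAdd, Nat.card_zmod, Subgroup.card_eq_one]
        exact (MonoidHom.ker_eq_bot_iff _).mpr fun a b h => h)
      (Cfsg.Agent.Stem.fibFst π ξ) (Cfsg.Agent.Stem.fibFst_surjective hξ) (Cfsg.Agent.Stem.fibFst_central hξc)
    refine ⟨(Cfsg.Agent.Stem.fibSnd π ξ).comp η, ?_⟩
    ext g
    show ξ (Cfsg.Agent.Stem.fibSnd π ξ (η g)) = π g
    rw [← Cfsg.Agent.Stem.fibBase_eq]
    exact congrArg π (DFunLike.congr_fun hη g)

end Cfsg.Agent.S3961
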