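import Cfsg.Statements.S3962
import Mathlib
-- import your own Cfsg.Agent.* helpers here

set_option autoImplicit false
open Cfsg

namespace Cfsg.Agent.S3962

/-- Let `G` be a perfect group and `π : G →* Q` a surjective homomorphism whose kernel is central. Then `π` maps the centre of `G` onto the centre of `Q`. Taking `π` to be the map to `G ⧸ Z(G)` shows that the central quotient of a perfect group has trivial centre. -/
theorem result {G Q : Type*} [Group G] [Group Q] (hG : Group.IsPerfect G) (π : G →* Q) (hπ : Function.Surjective π) (hker : π.ker ≤ Subgroup.center G) : (Subgroup.center G).map π = Subgroup.center Q := by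
  refine le_antisymm ?_ fun z hz => ?_
  · rintro _ ⟨g, hg, rfl⟩
    refine Subgroup.mem_center_iff.2 fun q => ?_
    obtain ⟨h, rfl⟩ := hπ q
    rw [← map_mul, ← map_mul, Subgroup.mem_center_iff.1 hg h]
  · obtain ⟨g, rfl⟩ := hπ z
    have hk : ∀ y, g * y * g⁻¹ * y⁻¹ ∈ Subgroup.center G := fun y => hker (by
      rw [MonoidHom.mem_ker, map_mul, map_mul, map_mul, map_inv, map_inv,
        ← Subgroup.mem_center_iff.1 hz (π y), mul_inv_cancel_right, mul_inv_cancel])
    let φ : G →* Subgroup.center G :=
      { toFun := fun y => ⟨g * y * g⁻¹ * y⁻¹, hk y⟩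
        map_one' := Subtype.ext (by simp)
        map_mul' := fun a b => Subtype.ext (by
          show g * (a * b) * g⁻¹ * (a * b)⁻¹ = g * a * g⁻¹ * a⁻¹ * (g * b * g⁻¹ * b⁻¹)
          calc g * (a * b) * g⁻¹ * (a * b)⁻¹ = (g * a * g⁻¹) * (g * b * g⁻¹ * b⁻¹) * a⁻¹ := by group
            _ = (g * a * g⁻¹) * (a⁻¹ * (g * b * g⁻¹ * b⁻¹)) := by
                rw [mul_assoc, Subgroup.mem_center_iff.1 (hk b) a⁻¹]
            _ = _ := by group) }
    refine ⟨g, Subgroup.mem_center_iff.2 fun y => ?_, rfl⟩
    have hy : y ∈ φ.ker := by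
      have hle : commutator G ≤ φ.ker := by
        rw [_root_.commutator_def, Subgroup.commutator_le]
        intro a _ b _
        rw [MonoidHom.mem_ker, map_commutatorElement]
        exact commutatorElement_eq_one_iff_mul_comm.2
          (Subtype.ext (Subgroup.mem_center_iff.1 (φ b).2 (φ a)))
      exact hle (hG.commutator_eq_top ▸ Subgroup.mem_top y)
    have h1 : g * y * g⁻¹ * y⁻¹ = 1 := congrArg Subtype.val hy
    exact (mul_inv_eq_iff_eq_mul.1 (mul_inv_eq_one.1 h1)).symm

end Cfsg.Agent.S3962
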