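import Cfsg.Statements.S3963
import Cfsg.Agent.Lib.Stem.DihedralLike

set_option autoImplicit false
open Cfsg

namespace Cfsg.Agent.S3963

/-- For every `n ≥ 1` the dicyclic (generalized quaternion) group of order `4 n` has trivial Schur multiplier. -/
theorem result (n : ℕ) [NeZero n] : Cfsg.HasCyclicSchurMultiplier (QuaternionGroup n) 1 := by
  refine Cfsg.Agent.Stem.multiplier_one_of fun Γ _ _ σ hσ =>
    Cfsg.Agent.Stem.stem_ker_dihedral_like (QuaternionGroup.a 1) (QuaternionGroup.xa 0) n ?_ ?_ ⟨2, ?_⟩ ?_ σ hσ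
  · intro g
    rcases g with i | i
    · exact ⟨((i.val : ℕ) : ℤ), Or.inl (by rw [zpow_natCast, QuaternionGroup.a_one_pow]; simp)⟩
    · exact ⟨((i.val : ℕ) : ℤ), Or.inr (by rw [zpow_natCast, QuaternionGroup.a_one_pow]; simp)⟩
  · rw [mul_inv_eq_iff_eq_mul, eq_inv_mul_iff_mul_eq]; simp
  · simp [zpow_two, QuaternionGroup.a_one_pow]
  · intro k hk
    have h : orderOf (QuaternionGroup.a 1 : QuaternionGroup n) = 2 * n := QuaternionGroup.orderOf_a_one
    have hd := orderOf_dvd_iff_zpow_eq_one.mpr hk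
    rw [h] at hd
    push_cast at hd
    exact (mul_dvd_mul_iff_left (by norm_num : (2 : ℤ) ≠ 0)).mp hd

end Cfsg.Agent.S3963
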