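import Cfsg.Statements.S3964
import Cfsg.Agent.Lib.Stem.DihedralLike

set_option autoImplicit false
open Cfsg

namespace Cfsg.Agent.S3964

/-- For odd `n` the dihedral group of order `2 n` has trivial Schur multiplier. -/
theorem result (n : ℕ) (hn : Odd n) : Cfsg.HasCyclicSchurMultiplier (DihedralGroup n) 1 := by
  haveI : NeZero n := ⟨fun h => by simp [h] at hn⟩
  refine Cfsg.Agent.Stem.multiplier_one_of fun Γ _ _ σ hσ =>
    Cfsg.Agent.Stem.stem_ker_dihedral_like (DihedralGroup.r 1) (DihedralGroup.sr 0) n ?_ ?_ ⟨0, ?_⟩ ?_ σ hσ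
  · intro g
    rcases g with i | i
    · exact ⟨((i.val : ℕ) : ℤ), Or.inl (by rw [zpow_natCast, DihedralGroup.r_one_pow]; simp)⟩
    · exact ⟨((i.val : ℕ) : ℤ), Or.inr (by rw [zpow_natCast, DihedralGroup.r_one_pow]; simp)⟩
  · simp
  · rw [zpow_zero, DihedralGroup.r_one_pow, ZMod.natCast_self, DihedralGroup.one_def]
  · intro k hk
    rw [DihedralGroup.r_one_zpow, DihedralGroup.one_def, DihedralGroup.r.injEq, ZMod.intCast_zmod_eq_zero_iff_dvd] at hk
    exact Int.dvd_of_dvd_mul_right_of_gcd_one hk (by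
      show Nat.gcd n 2 = 1
      exact Nat.coprime_two_right.mpr hn)

end Cfsg.Agent.S3964
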