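import Cfsg.Statements.S3966
import Cfsg.Agent.Lib.Stem.Cover

set_option autoImplicit false
open Cfsg

namespace Cfsg.Agent.S3966

open scoped commutatorElement

/-- For even `n ≥ 2` the dicyclic group of order `4 n` is a stem extension of the dihedral group of order `2 n` with kernel of order `2`: there is a surjective homomorphism `QuaternionGroup n →* DihedralGroup n` whose kernel is central, lies in the commutator subgroup and has two elements. Together with the order of the multiplier this exhibits the dicyclic group as a Schur covering group of the dihedral group. -/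
theorem result (n : ℕ) [NeZero n] (hn : Even n) : ∃ σ : QuaternionGroup n →* DihedralGroup n, Cfsg.IsStemExtension σ ∧ Nat.card σ.ker = 2 := by
  classical
  let c : ZMod (2 * n) →+* ZMod n := ZMod.castHom (dvd_mul_left n 2) (ZMod n)
  let f : QuaternionGroup n → DihedralGroup n
    | QuaternionGroup.a i => DihedralGroup.r (c i)
    | QuaternionGroup.xa i => DihedralGroup.sr (c i)
  have hcn : c (n : ZMod (2 * n)) = 0 := by rw [map_natCast, ZMod.natCast_self]
  let σ : QuaternionGroup n →* DihedralGroup n := MonoidHom.mk' f (by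
    rintro (i | i) (j | j) <;> simp [f, hcn])
  have hs : Function.Surjective σ := by
    rintro (k | k) <;> obtain ⟨i, rfl⟩ := ZMod.castHom_surjective (dvd_mul_left n 2) k
    · exact ⟨QuaternionGroup.a i, rfl⟩
    · exact ⟨QuaternionGroup.xa i, rfl⟩
  have hker : ∀ x, σ x = 1 → x = 1 ∨ x = QuaternionGroup.a (n : ZMod (2 * n)) := by
    rintro (i | i) h
    · obtain ⟨k, rfl⟩ := ZMod.natCast_zmod_surjective i
      have h0 : c (k : ZMod (2 * n)) = 0 := DihedralGroup.r.inj (h.trans DihedralGroup.one_def)
      rw [map_natCast, ZMod.natCast_eq_zero_iff] at h0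
      obtain ⟨t, rfl⟩ := h0
      rcases Nat.even_or_odd t with ⟨u, rfl⟩ | ⟨u, rfl⟩
      · left
        rw [show ((n * (u + u) : ℕ) : ZMod (2 * n)) = 0 by
          rw [ZMod.natCast_eq_zero_iff]; exact ⟨u, by ring⟩]
        rfl
      · right
        congr 1
        rw [show n * (2 * u + 1) = (2 * n) * u + n by ring, Nat.cast_add, Nat.cast_mul, ZMod.natCast_self, zero_mul, zero_add]
    · cases (h.trans DihedralGroup.one_def)
  have hcz : ∀ g, g * QuaternionGroup.a (n : ZMod (2 * n)) = QuaternionGroup.a (n : ZMod (2 * n)) * g := by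
    have h2 : (n : ZMod (2 * n)) + n = 0 := by
      rw [← Nat.cast_add, ← two_mul, ZMod.natCast_self]
    rintro (i | i) <;> simp [add_comm]
    linear_combination h2
  have hne : QuaternionGroup.a (n : ZMod (2 * n)) ≠ 1 := by
    intro h
    have h0 : (n : ZMod (2 * n)) = 0 := QuaternionGroup.a.inj (h.trans QuaternionGroup.one_def)
    rw [ZMod.natCast_eq_zero_iff] at h0
    have := Nat.le_of_dvd (NeZero.pos n) h0
    have := NeZero.pos n
    omega
  refine ⟨σ, ⟨hs, fun x hx => Subgroup.mem_center_iff.mpr fun g => ?_, fun x hx => ?_⟩, ?_⟩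
  · rcases hker x hx with rfl | rfl
    · simp
    · exact hcz g
  · rcases hker x hx with rfl | rfl
    · exact one_mem _
    · obtain ⟨h, rfl⟩ := hn
      have : ⁅QuaternionGroup.a ((h : ℕ) : ZMod (2 * (h + h))), QuaternionGroup.xa 0⁆ =
          QuaternionGroup.a ((h + h : ℕ) : ZMod (2 * (h + h))) := by
        rw [commutatorElement_def]
        rw [mul_inv_eq_iff_eq_mul, mul_inv_eq_iff_eq_mul]
        simp
      rw [← this]
      exact Subgroup.commutator_mem_commutator (Subgroup.mem_top _) (Subgroup.mem_top _)
  · rw [Nat.card_eq_two_iff]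
    refine ⟨1, ⟨_, show σ (QuaternionGroup.a (n : ZMod (2 * n))) = 1 from ?_⟩, fun h => hne (congrArg Subtype.val h).symm, ?_⟩
    · show DihedralGroup.r (c _) = 1
      rw [hcn]; rfl
    · ext ⟨x, hx⟩
      simp only [Set.mem_insert_iff, Set.mem_singleton_iff, Set.mem_univ, iff_true]
      rcases hker x hx with rfl | rfl
      · exact Or.inl rfl
      · exact Or.inr rfl

end Cfsg.Agent.S3966
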