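import Cfsg.Statements.S3965
import Cfsg.Agent.Lib.Stem.Cover
import Cfsg.Agent.S3963
import Cfsg.Agent.S3966

set_option autoImplicit false
open Cfsg

namespace Cfsg.Agent.S3965

/-- For even `n ≥ 2` the dihedral group of order `2 n` has Schur multiplier cyclic of order `2`. -/
theorem result (n : ℕ) [NeZero n] (hn : Even n) : Cfsg.HasCyclicSchurMultiplier (DihedralGroup n) 2 := by
  obtain ⟨σ, hσ, hk⟩ := Cfsg.Agent.S3966.result n hn
  haveI : IsCyclic σ.ker := isCyclic_of_prime_card (p := 2) hk
  exact Cfsg.Agent.Stem.multiplier_of_cover hσ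
    (mulEquivOfCyclicCardEq (by rw [hk, Nat.card_congr Multiplicative.toAdd, Nat.card_zmod]))
    (Cfsg.Agent.S3963.result n)

end Cfsg.Agent.S3965
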