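import Cfsg.Statements.S3968
import Cfsg.Agent.Lib.Characters.Burnside
import Cfsg.Agent.Lib.Characters.Degree

set_option autoImplicit false
open Cfsg
open scoped Pointwise commutatorElement

namespace Cfsg.Agent.S3968

/-- Let `p` be a prime and `G` a finite group with a faithful irreducible complex character of degree `p` (so `G` is an irreducible linear group in `p` variables). If `p ^ 2` divides the order of `G`, then the centre of `G` is nontrivial. -/
theorem result {G : Type*} [Group G] [Finite G] (p : ℕ) (hp : p.Prime) (χ : Cfsg.IrrCharacter G) (hdeg : χ.1 1 = p) (hfaith : ∀ g : G, χ.1 g = χ.1 1 → g = 1) (hdiv : p ^ 2 ∣ Nat.card G) : Subgroup.center G ≠ ⊥ := by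
  classical
  have : Fact p.Prime := ⟨hp⟩
  intro hZ
  obtain ⟨P⟩ : Nonempty (Sylow p G) := inferInstance
  have hd : χ.1 1 = (p : ℂ) := hdeg
  -- vanishing on central elements of the Sylow subgroup
  have hvan : ∀ x : (P : Subgroup G), x ∈ Subgroup.center (P : Subgroup G) → x ≠ 1 →
      χ.1 (x : G) = 0 := by
    intro x hxc hx1
    have hle : (P : Subgroup G) ≤ Subgroup.centralizer ({(x : G)} : Set G) := fun q hq => by
      rw [Subgroup.mem_centralizer_singleton_iff]
      exact congrArg Subtype.val (Subgroup.mem_center_iff.1 hxc ⟨q, hq⟩)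
    have hcop : Nat.Coprime p (Nat.card {y : G // IsConj (x : G) y}) := by
      rw [Lib.Characters.card_conj_eq_index, hp.coprime_iff_not_dvd]
      intro h
      apply P.not_dvd_index
      exact h.trans (Subgroup.index_dvd_of_le hle)
    rcases Lib.Characters.zero_or_norm_of_coprime χ.2 (x : G) hd hcop with h | h
    · exact h
    · have hc := Lib.Characters.mem_center_of_norm_eq χ.2 hfaith hd h
      rw [hZ, Subgroup.mem_bot] at hc
      exact absurd (Subtype.ext hc) hx1
  have hPcard : p ^ 2 ∣ Nat.card (P : Subgroup G) := P.pow_dvd_card_of_pow_dvd_card hdiv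
  have hnt : Nontrivial (P : Subgroup G) := by
    rw [← Finite.one_lt_card_iff_nontrivial]
    exact lt_of_lt_of_le (Nat.one_lt_pow two_ne_zero hp.one_lt)
      (Nat.le_of_dvd Nat.card_pos hPcard)
  -- the restriction
  have hres : IsCharacter (P : Subgroup G) (fun x => χ.1 (x : G)) :=
    Lib.Characters.isCharacter_restrict χ.2.isCharacter (P : Subgroup G)
  obtain ⟨m, hm⟩ := Lib.Characters.exists_decomposition hres
  have hmx : ∀ x : (P : Subgroup G), χ.1 (x : G) =
      ∑ ψ, (m ψ : ℂ) * ψ.1 x := fun x => by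
    have := congrFun hm x
    simpa [Finset.sum_apply] using this
  choose d hdpos hdval using fun ψ : IrrCharacter (P : Subgroup G) => ψ.2.exists_degree_pos
  have hsum : p = ∑ ψ, m ψ * d ψ := by
    have := hmx 1
    rw [OneMemClass.coe_one, hd] at this
    simp only [hdval] at this
    exact_mod_cast this
  have hdeg1 : ∀ ψ, d ψ = 1 ∨ p ∣ d ψ := by
    intro ψ
    obtain ⟨k, hk⟩ := IsPGroup.iff_card.1 P.isPGroup'
    have := Lib.Characters.degree_dvd_card ψ.2 (hdval ψ)
    rw [hk] at this
    obtain ⟨i, -, hi⟩ := (Nat.dvd_prime_pow hp).1 this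
    rcases i with _ | i
    · left; simpa using hi
    · right; exact ⟨p ^ i, by rw [hi, pow_succ']⟩
  by_cases hlin : ∀ ψ, m ψ ≠ 0 → d ψ = 1
  · -- all constituents linear: the Sylow subgroup is abelian
    have hab : ∀ a b : (P : Subgroup G), a * b = b * a := by
      intro a b
      rw [← commutatorElement_eq_one_iff_mul_comm]
      apply Subtype.ext
      rw [OneMemClass.coe_one]
      apply hfaith
      have h1 := hmx ⁅a, b⁆
      have h2 := hmx 1
      rw [OneMemClass.coe_one] at h2
      rw [h1, h2]
      refine Finset.sum_congr rfl fun ψ _ => ?_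
      by_cases hψ : m ψ = 0
      · simp [hψ]
      · congr 1
        obtain ⟨lam, hlam⟩ := Lib.Characters.exists_hom_of_degree_one ψ.2.isCharacter
          (by rw [hdval ψ, hlin ψ hψ, Nat.cast_one])
        rw [hlam]
        show ((lam ⁅a, b⁆ : ℂˣ) : ℂ) = ((lam 1 : ℂˣ) : ℂ)
        rw [map_commutatorElement, map_one,
          commutatorElement_eq_one_iff_mul_comm.2 (mul_comm (lam a) (lam b))]
    have hall : ∀ x : (P : Subgroup G), x ≠ 1 → χ.1 (x : G) = 0 := fun x hx =>
      hvan x (Subgroup.mem_center_iff.2 fun q => hab q x) hx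
    have := Fintype.ofFinite (P : Subgroup G)
    obtain ⟨k, hk⟩ := Lib.Characters.classInner_nat hres
      (Lib.Characters.isCharacter_one (G := (P : Subgroup G)))
    unfold classInner at hk
    rw [Finset.sum_eq_single (1 : (P : Subgroup G)) (fun x _ hx => by simp [hall x hx]) (by simp)]
      at hk
    simp only [OneMemClass.coe_one, hd, map_one, mul_one] at hk
    have hne : (Nat.card (P : Subgroup G) : ℂ) ≠ 0 := Nat.cast_ne_zero.2 Nat.card_pos.ne'
    rw [inv_mul_eq_iff_eq_mul₀ hne] at hk
    have hk' : p = Nat.card (P : Subgroup G) * k := by exact_mod_cast hk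
    have h := hPcard.trans (Dvd.intro k hk'.symm)
    have := Nat.le_of_dvd hp.pos h
    nlinarith [hp.two_le]
  · push Not at hlin
    obtain ⟨ψ, hψ, hψd⟩ := hlin
    have hpd := Nat.le_of_dvd (hdpos ψ) ((hdeg1 ψ).resolve_left hψd)
    have hrest : ∀ φ, φ ≠ ψ → m φ = 0 := by
      intro φ hφ
      by_contra h0
      have h1 : m ψ * d ψ + m φ * d φ ≤ p := by
        rw [hsum, ← Finset.sum_pair (Ne.symm hφ) (f := fun x => m x * d x)]
        exact Finset.sum_le_sum_of_subset (Finset.subset_univ _)
      nlinarith [Nat.pos_of_ne_zero hψ, Nat.pos_of_ne_zero h0, hdpos φ, hp.two_le]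
    rw [Finset.sum_eq_single ψ (fun φ _ hφ => by simp [hrest φ hφ]) (by simp)] at hsum
    have hone : m ψ = 1 := by
      rcases Nat.lt_or_ge (m ψ) 2 with h | h
      · omega
      · nlinarith [hp.two_le]
    obtain ⟨⟨z, hz⟩, hz1'⟩ := (Subgroup.ne_bot_iff_exists_ne_one).1
      (IsPGroup.bot_lt_center (G := (P : Subgroup G)) P.isPGroup').ne'
    have hz1 : z ≠ 1 := fun h => hz1' (Subtype.ext h)
    have h1 := hmx z
    rw [Finset.sum_eq_single ψ (fun φ _ hφ => by simp [hrest φ hφ]) (by simp), hone, Nat.cast_one,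
      one_mul, hvan z hz hz1] at h1
    have h2 := Lib.Characters.norm_eq_of_mem_center ψ.2 (hdval ψ) hz
    rw [← h1, norm_zero] at h2
    have : d ψ = 0 := by exact_mod_cast h2.symm
    have := hdpos ψ
    omega

end Cfsg.Agent.S3968
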