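import Cfsg.Statements.S3969
import Mathlib
import Cfsg.Agent.Lib.Transfer.Action
import Cfsg.Agent.Lib.Transfer.NormalPComplement
import Cfsg.Agent.Lib.Transfer.Tate
-- import your own Cfsg.Agent.* helpers here

set_option autoImplicit false
open Cfsg

namespace Cfsg.Agent.S3969

/-- Let `P` be an abelian Sylow `p`-subgroup of the finite group `G`, generated by `d` elements (`d` its minimal number of generators). If the order of `G` is coprime to `(p - 1)(p ^ 2 - 1) ⋯ (p ^ d - 1)`, then `G` has a normal `p`-complement. (The classical statement needs only the largest number of cyclic factors of `P` of equal order in place of `d`; the form here follows from it.) -/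
theorem result {G : Type*} [Group G] [Finite G] (p : ℕ) [Fact p.Prime] (P : Sylow p G) (hab : IsMulCommutative (P : Subgroup G)) (hcop : Nat.Coprime (Nat.card G) (∏ i ∈ Finset.Icc 1 (Group.rank (P : Subgroup G)), (p ^ i - 1))) : Cfsg.HasNormalPComplement p G := by
  classical
  have hp := (Fact.out : p.Prime)
  set d := Group.rank (P : Subgroup G) with hd
  letI : CommGroup (P : Subgroup G) :=
    { (inferInstance : Group (P : Subgroup G)) with mul_comm := fun a b => (hab.is_comm.comm a b) }
  apply Cfsg.Lib.Transfer.hasNormalPComplement_of_normalizer_le_centralizer P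
  intro x hx
  apply Cfsg.Lib.Transfer.mem_centralizer_of_prime_parts
  intro r hr y hy hyk
  haveI : Fact r.Prime := ⟨hr⟩
  have hyN : y ∈ Subgroup.normalizer ((P : Subgroup G) : Set G) := Subgroup.zpowers_le.2 hx hy
  obtain ⟨k, hk⟩ := hyk
  have hR : IsPGroup r (Subgroup.zpowers y) := IsPGroup.of_card (n := k) (by rw [Nat.card_zpowers, hk])
  rcases eq_or_ne r p with rfl | hrp
  · have hyP : y ∈ (P : Subgroup G) := by
      have h : IsPGroup r ↥((P : Subgroup G) ⊔ Subgroup.zpowers y) :=
        P.2.to_sup_of_normal_left' hR (Subgroup.zpowers_le.2 hyN)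
      rw [← P.3 h le_sup_left]
      exact le_sup_right (a := (P : Subgroup G)) (Subgroup.mem_zpowers y)
    exact Subgroup.mem_centralizer_iff.2 fun z hz =>
      congrArg Subtype.val (mul_comm (⟨z, hz⟩ : (P : Subgroup G)) ⟨y, hyP⟩)
  -- the elements of order dividing `p`
  set O : Subgroup G := ((powMonoidHom p : (P : Subgroup G) →* _).ker).map (P : Subgroup G).subtype with hO
  have hOmem : ∀ {z : G}, z ∈ O ↔ z ∈ (P : Subgroup G) ∧ z ^ p = 1 := by
    intro z
    constructor
    · rintro ⟨w, hw, rfl⟩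
      exact ⟨w.2, congrArg Subtype.val hw⟩
    · rintro ⟨hz, hz'⟩
      exact ⟨⟨z, hz⟩, Subtype.ext hz', rfl⟩
  have hOP : O ≤ (P : Subgroup G) := fun z hz => (hOmem.1 hz).1
  obtain ⟨j, hjd, hj⟩ : ∃ j ≤ d, Nat.card O = p ^ j := by
    set f : (P : Subgroup G) →* (P : Subgroup G) := powMonoidHom p with hf
    have h1 : Nat.card O = Nat.card f.ker :=
      (Nat.card_congr (f.ker.equivMapOfInjective _ (P : Subgroup G).subtype_injective).toEquiv).symm
    have h2 : Nat.card f.ker = Nat.card ((P : Subgroup G) ⧸ f.range) := by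
      have ha := f.ker.card_mul_index
      have hb := f.range.card_mul_index
      rw [Subgroup.index_ker] at ha
      rw [← hb, mul_comm] at ha
      rw [← Subgroup.index_eq_card]
      exact Nat.eq_of_mul_eq_mul_left Nat.card_pos ha
    have h3 : Nat.card ((P : Subgroup G) ⧸ f.range) ∣ p ^ d := by
      refine dvd_trans (card_dvd_exponent_pow_rank' (n := p) _ fun q => ?_)
        (pow_dvd_pow p (Group.rank_le_of_surjective (QuotientGroup.mk' f.range) (QuotientGroup.mk'_surjective _)))
      obtain ⟨w, rfl⟩ := QuotientGroup.mk'_surjective f.range q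
      rw [← map_pow]
      exact (QuotientGroup.eq_one_iff _).2 ⟨w, rfl⟩
    rw [← h2, ← h1] at h3
    exact (Nat.dvd_prime_pow hp).1 h3
  -- `y` normalizes and centralizes `O`
  have hconjP : ∀ w, w ∈ Subgroup.zpowers y → ∀ z ∈ (P : Subgroup G), w * z * w⁻¹ ∈ (P : Subgroup G) :=
    fun w hw z hz => (Subgroup.mem_normalizer_iff.1 (Subgroup.zpowers_le.2 hyN hw) z).1 hz
  have hnorm : Subgroup.zpowers y ≤ Subgroup.normalizer (O : Set G) := by
    intro w hw
    have key : ∀ w ∈ Subgroup.zpowers y, ∀ z ∈ O, w * z * w⁻¹ ∈ O := fun w hw z hz =>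
      hOmem.2 ⟨hconjP w hw z (hOP hz), by rw [conj_pow, (hOmem.1 hz).2]; group⟩
    refine Subgroup.mem_normalizer_iff.2 fun z => ⟨key w hw z, fun hz => ?_⟩
    have h := key _ (inv_mem hw) _ hz
    have e : w⁻¹ * (w * z * w⁻¹) * w⁻¹⁻¹ = z := by group
    rwa [e] at h
  have hcentO : ∀ z ∈ O, y * z = z * y := by
    have hmod := Cfsg.Lib.Transfer.card_modEq_card_inf_centralizer O (Subgroup.zpowers y) hR hnorm
    obtain ⟨i, hi, hi'⟩ := (Nat.dvd_prime_pow hp).1
      ((hj ▸ Subgroup.card_dvd_of_le inf_le_left :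
        Nat.card ↥(O ⊓ Subgroup.centralizer ((Subgroup.zpowers y : Subgroup G) : Set G)) ∣ p ^ j))
    rw [hj, hi'] at hmod
    rcases hi.lt_or_eq with hlt | heq
    · exfalso
      have hy1 : y ≠ 1 := by
        intro h1
        have h5 : O ≤ Subgroup.centralizer ((Subgroup.zpowers y : Subgroup G) : Set G) := by
          intro z _
          rw [h1]
          refine Subgroup.mem_centralizer_iff.2 fun w hw => ?_
          obtain ⟨n, rfl⟩ := hw
          simp
        rw [inf_eq_left.2 h5, hj] at hi'
        exact hlt.ne' (Nat.pow_right_injective hp.two_le hi')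
      have hrG : r ∣ Nat.card G := by
        have hk0 : k ≠ 0 := by rintro rfl; exact hy1 (orderOf_eq_one_iff.1 (by simpa using hk))
        exact (dvd_pow_self r hk0).trans (hk ▸ orderOf_dvd_natCard y)
      have h1 : r ∣ p ^ j - p ^ i := (Nat.modEq_iff_dvd' (Nat.pow_le_pow_right hp.pos hi)).1 hmod.symm
      rw [show p ^ j - p ^ i = p ^ i * (p ^ (j - i) - 1) by
        rw [Nat.mul_sub_one, ← pow_add, Nat.add_sub_cancel' hi]] at h1
      rcases hr.dvd_mul.1 h1 with h2 | h2
      · exact hrp ((Nat.prime_dvd_prime_iff_eq hr hp).1 (hr.dvd_of_dvd_pow h2))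
      · exact hr.not_dvd_one (hcop ▸ Nat.dvd_gcd hrG (h2.trans
          (Finset.dvd_prod_of_mem (fun t => p ^ t - 1) (Finset.mem_Icc.2 ⟨by omega, by omega⟩))))
    · intro z hz
      have h6 : O ⊓ Subgroup.centralizer ((Subgroup.zpowers y : Subgroup G) : Set G) = O :=
        Subgroup.eq_of_le_of_card_ge inf_le_left (by rw [hj, hi', heq])
      rw [← h6] at hz
      exact Subgroup.mem_centralizer_iff.1 hz.2 y (Subgroup.mem_zpowers y)
  -- hence all of `P`
  suffices ∀ n, ∀ z ∈ (P : Subgroup G), z ^ p ^ n = 1 → y * z = z * y by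
    refine Subgroup.mem_centralizer_iff.2 fun z hz => ?_
    obtain ⟨n, hn⟩ := P.2 ⟨z, hz⟩
    exact (this n z hz (congrArg Subtype.val hn)).symm
  intro n
  induction n with
  | zero => intro z _ h; simp only [pow_zero, pow_one] at h; simp [h]
  | succ n ih =>
    intro z hz hzn
    have hzp : y * z ^ p = z ^ p * y := ih _ (pow_mem hz p) (by rw [← pow_mul, ← pow_succ']; exact hzn)
    set c := y * z * y⁻¹ * z⁻¹ with hc
    have hcP : y * z * y⁻¹ ∈ (P : Subgroup G) := hconjP y (Subgroup.mem_zpowers y) z hz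
    have hcO : c ∈ O := by
      refine hOmem.2 ⟨mul_mem hcP (inv_mem hz), ?_⟩
      have hcomm : Commute (y * z * y⁻¹) z⁻¹ :=
        congrArg Subtype.val (mul_comm (⟨_, hcP⟩ : (P : Subgroup G)) ⟨_, inv_mem hz⟩)
      rw [hc, hcomm.mul_pow, conj_pow, hzp, inv_pow]
      group
    have hyc : Commute y c := hcentO c hcO
    have hiter : ∀ m : ℕ, y ^ m * z * (y ^ m)⁻¹ = c ^ m * z := by
      intro m
      induction m with
      | zero => simp
      | succ m ihm =>
        calc y ^ (m + 1) * z * (y ^ (m + 1))⁻¹ = y * (y ^ m * z * (y ^ m)⁻¹) * y⁻¹ := by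
              rw [pow_succ']; group
          _ = y * c ^ m * z * y⁻¹ := by rw [ihm]; group
          _ = c ^ m * (y * z * y⁻¹) := by rw [(hyc.pow_right m).eq]; group
          _ = c ^ m * (c * z) := by rw [hc]; group
          _ = c ^ (m + 1) * z := by rw [pow_succ]; exact (mul_assoc _ _ _).symm
    have hcr : c ^ orderOf y = 1 := by
      have := hiter (orderOf y)
      rw [pow_orderOf_eq_one] at this
      simpa using this.symm
    have hc1 : c = 1 := by
      refine orderOf_eq_one_iff.1 (Nat.eq_one_of_dvd_coprimes ?_ (orderOf_dvd_of_pow_eq_one (hOmem.1 hcO).2)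
        (orderOf_dvd_of_pow_eq_one hcr))
      rw [hk]
      exact ((Nat.coprime_primes hp hr).2 hrp.symm).pow_right k
    rw [hc, mul_inv_eq_one] at hc1
    exact mul_inv_eq_iff_eq_mul.1 hc1

end Cfsg.Agent.S3969
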