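import Cfsg.Statements.S3970
import Mathlib
import Cfsg.Agent.Lib.Transfer.Action
import Cfsg.Agent.Lib.Solv.Coprime2
-- import your own Cfsg.Agent.* helpers here

set_option autoImplicit false
open Cfsg
open scoped commutatorElement

namespace Cfsg.Agent.S3970

open Subgroup

universe u

/-- The inherited hypothesis: small abelian Sylow subgroups below the largest prime. -/
def Small (G : Type u) [Group G] : Prop :=
  ∀ p : ℕ, p.Prime → (∃ q : ℕ, q.Prime ∧ q ∣ Nat.card G ∧ p < q) → ∀ Q : Subgroup G, IsPGroup p Q →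
    IsMulCommutative Q ∧ ((∀ x ∈ Q, x ^ p = 1) → Nat.card Q ≤ p ^ 2)

theorem card_le_of_rank {P : Type u} [Group P] [Finite P] (hc : IsMulCommutative P) (hr : Group.rank P ≤ 2) {p : ℕ}
    (hp : p.Prime) (W : Subgroup P) (hW : ∀ x ∈ W, x ^ p = 1) : Nat.card W ≤ p ^ 2 := by
  classical
  letI : CommGroup P := { (inferInstance : Group P) with mul_comm := hc.is_comm.comm }
  set f : P →* P := powMonoidHom p
  have hle : W ≤ f.ker := fun x hx => hW x hx
  refine (Subgroup.card_le_of_le hle).trans ?_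
  have e1 : Nat.card f.ker = f.range.index := by
    have h1 := f.ker.card_mul_index
    have h2 := f.range.card_mul_index
    rw [index_ker] at h1
    rw [← h2, mul_comm] at h1
    exact Nat.eq_of_mul_eq_mul_left Nat.card_pos h1
  rw [e1, index_eq_card]
  obtain ⟨S, hS1, hS2⟩ := Group.rank_spec P
  have hq : Subgroup.closure ((S.image (QuotientGroup.mk' f.range) : Finset (P ⧸ f.range)) : Set (P ⧸ f.range)) = ⊤ := by
    rw [Finset.coe_image, ← MonoidHom.map_closure, hS2, Subgroup.map_top_of_surjective _ (QuotientGroup.mk'_surjective _)]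
  have hle2 : Group.rank (P ⧸ f.range) ≤ 2 :=
    ((Group.rank_le hq).trans Finset.card_image_le).trans (hS1.le.trans hr)
  have hd := card_dvd_exponent_pow_rank' (G := P ⧸ f.range) (n := p) (fun g => by
    obtain ⟨x, rfl⟩ := QuotientGroup.mk'_surjective f.range g
    rw [← map_pow]
    exact (QuotientGroup.eq_one_iff _).2 ⟨x, rfl⟩)
  exact (Nat.le_of_dvd (pow_pos hp.pos _) hd).trans (Nat.pow_le_pow_right hp.pos hle2)

theorem solvable_of_small : ∀ (n : ℕ) (G : Type u) [Group G] [Finite G], Nat.card G = n → Small G → ¬ 12 ∣ Nat.card G →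
    Group.IsSolvable G := by
  intro n
  induction n using Nat.strong_induction_on with
  | _ n ih => ?_
  intro G _ _ hn hG h12
  subst hn
  rcases eq_or_ne (Nat.card G) 1 with h1 | h1
  · haveI := (Nat.card_eq_one_iff_unique.1 h1).1
    infer_instance
  set p := (Nat.card G).minFac with hpdef
  have hp : p.Prime := Nat.minFac_prime h1
  haveI := Fact.mk hp
  have hpG : p ∣ Nat.card G := Nat.minFac_dvd _
  by_cases hlast : ∃ q : ℕ, q.Prime ∧ q ∣ Nat.card G ∧ p < q
  swap
  · have hpg : IsPGroup p G := by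
      rw [IsPGroup.iff_card]
      refine ⟨_, Nat.eq_prime_pow_of_unique_prime_dvd Nat.card_pos.ne' fun {q} hq hqd => ?_⟩
      push Not at hlast
      exact le_antisymm (hlast q hq hqd) (Nat.minFac_le_of_dvd hq.two_le hqd)
    haveI := hpg.isNilpotent
    infer_instance
  obtain P := (default : Sylow p G)
  obtain ⟨hPc, -⟩ := hG p hp hlast P P.isPGroup'
  haveI := hPc
  have hNC : normalizer ((P : Subgroup G) : Set G) ≤ centralizer ((P : Subgroup G) : Set G) := by
    intro g hg
    refine Cfsg.Lib.Transfer.mem_centralizer_of_prime_parts fun r hr y hy hyr => ?_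
    have hyN : y ∈ normalizer ((P : Subgroup G) : Set G) := Subgroup.zpowers_le.2 hg hy
    obtain ⟨k, hk⟩ := hyr
    haveI := Fact.mk hr
    have hyp : IsPGroup r ↥(zpowers y) := IsPGroup.of_card (n := k) (by rw [Nat.card_zpowers, hk])
    by_cases hrp : r = p
    · have hyp' : IsPGroup p ↥(zpowers y) := hrp ▸ hyp
      have hsup : IsPGroup p ↥((P : Subgroup G) ⊔ zpowers y) :=
        IsPGroup.to_sup_of_normal_left' P.isPGroup' hyp' (Subgroup.zpowers_le.2 hyN)
      have hyP : y ∈ (P : Subgroup G) := by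
        rw [← P.is_maximal' hsup le_sup_left]
        exact mem_sup_right (mem_zpowers y)
      exact mem_centralizer_iff.2 fun v hv => congrArg Subtype.val (hPc.is_comm.comm (⟨v, hv⟩ : ↥(P : Subgroup G)) ⟨y, hyP⟩)
    by_contra hyC
    set A := zpowers y with hA
    have hAN : A ≤ normalizer ((P : Subgroup G) : Set G) := Subgroup.zpowers_le.2 hyN
    have hk0 : k ≠ 0 := fun e => hyC (by
      rw [e, pow_zero, orderOf_eq_one_iff] at hk; rw [hk]; exact one_mem _)
    have hrG : r ∣ Nat.card G := ((dvd_pow_self r hk0).trans (dvd_of_eq hk.symm)).trans (orderOf_dvd_natCard y)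
    have hpr : p < r := lt_of_le_of_ne (Nat.minFac_le_of_dvd hr.two_le hrG) (Ne.symm hrp)
    obtain ⟨e, he⟩ := IsPGroup.iff_card.1 P.isPGroup'
    have hcop : (Nat.card A).Coprime (Nat.card (P : Subgroup G)) := by
      rw [hA, Nat.card_zpowers, hk, he]
      exact ((Nat.coprime_primes hr hp).2 hrp).pow k e
    obtain ⟨hd, hj⟩ := Cfsg.Lib.Solv.coprime_abelian_decomposition A (P : Subgroup G) hAN hcop
    let W : Subgroup G :=
      { carrier := {x | x ∈ (P : Subgroup G) ∧ x ^ p = 1}
        one_mem' := ⟨one_mem _, one_pow p⟩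
        mul_mem' := fun {a b} ha hb => ⟨(P : Subgroup G).mul_mem ha.1 hb.1, by
          rw [(show Commute a b from congrArg Subtype.val (hPc.is_comm.comm (⟨a, ha.1⟩ : ↥(P : Subgroup G)) ⟨b, hb.1⟩)).mul_pow,
            ha.2, hb.2, one_mul]⟩
        inv_mem' := fun {a} ha => ⟨(P : Subgroup G).inv_mem ha.1, by rw [inv_pow, ha.2, inv_one]⟩ }
    have hWP : W ≤ (P : Subgroup G) := fun x hx => hx.1
    have hW : IsPGroup p W := P.isPGroup'.to_le hWP
    have hWcard : Nat.card W ≤ p ^ 2 := (hG p hp hlast W hW).2 fun x hx => hx.2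
    have hAW : A ≤ normalizer (W : Set G) := by
      intro a ha
      rw [mem_normalizer_iff]
      intro x
      have hap := mem_normalizer_iff.1 (hAN ha) x
      have hconj : (a * x * a⁻¹) ^ p = a * x ^ p * a⁻¹ := conj_pow
      constructor
      · exact fun hx => ⟨hap.1 hx.1, by rw [hconj, hx.2, mul_one, mul_inv_cancel]⟩
      · exact fun hx => ⟨hap.2 hx.1, by have h := hx.2; rw [hconj] at h; exact conj_eq_one_iff.1 h⟩
    obtain ⟨w, hw⟩ := IsPGroup.iff_card.1 hW
    obtain ⟨f, hf⟩ := IsPGroup.iff_card.1 (hW.to_le (inf_le_left : W ⊓ centralizer (A : Set G) ≤ W))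
    have hmod := Cfsg.Lib.Transfer.card_modEq_card_inf_centralizer (p := r) W A hyp hAW
    rw [hw, hf] at hmod
    have hfw : f ≤ w := by
      have := Subgroup.card_le_of_le (inf_le_left : W ⊓ centralizer (A : Set G) ≤ W)
      rw [hw, hf] at this
      exact (Nat.pow_le_pow_iff_right hp.one_lt).1 this
    have hw2 : w ≤ 2 := (Nat.pow_le_pow_iff_right hp.one_lt).1 (hw ▸ hWcard)
    have hfne : f ≠ w := by
      intro efw
      apply hyC
      have heq : W ⊓ centralizer (A : Set G) = W := Subgroup.eq_of_le_of_card_ge inf_le_left (by rw [hw, hf, efw])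
      have hbot : ⁅(P : Subgroup G), A⁆ = ⊥ := by
        by_contra hne
        have hle : ⁅(P : Subgroup G), A⁆ ≤ (P : Subgroup G) := Cfsg.Lib.Solv.commutator_le_of_normalizes hAN
        obtain ⟨m, hm⟩ := IsPGroup.iff_card.1 (P.isPGroup'.to_le hle)
        have hm0 : m ≠ 0 := fun e0 => hne (Subgroup.eq_bot_of_card_eq _ (by rw [hm, e0, pow_zero]))
        obtain ⟨x, hx⟩ := exists_prime_orderOf_dvd_card' (G := ↥⁅(P : Subgroup G), A⁆) p (hm ▸ dvd_pow_self p hm0)
        have hx1 : (x : G) ∈ W ⊓ centralizer (A : Set G) := by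
          rw [heq]
          exact ⟨hle x.2, congrArg Subtype.val (orderOf_dvd_iff_pow_eq_one.1 (dvd_of_eq hx) : x ^ p = 1)⟩
        have h3 : (x : G) ∈ ((P : Subgroup G) ⊓ centralizer (A : Set G)) ⊓ ⁅(P : Subgroup G), A⁆ := ⟨⟨hle x.2, hx1.2⟩, x.2⟩
        rw [hd, Subgroup.mem_bot] at h3
        rw [show x = 1 from Subtype.ext h3, orderOf_one] at hx
        exact hp.one_lt.ne hx
      rw [hbot, sup_bot_eq] at hj
      refine mem_centralizer_iff.2 fun v hv => ?_
      exact (mem_centralizer_iff.1 (hj.ge hv).2 y (mem_zpowers y)).symm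
    have hdiv : ∀ a b : ℕ, a ≤ b → p ^ b ≡ p ^ a [MOD r] → r ∣ p ^ (b - a) - 1 := by
      intro a b hab hm
      have h1 := (Nat.modEq_iff_dvd' (Nat.pow_le_pow_right hp.pos hab)).1 hm.symm
      rw [← Nat.add_sub_cancel' hab, pow_add] at h1
      rw [show p ^ a * p ^ (b - a) - p ^ a = p ^ a * (p ^ (b - a) - 1) by rw [Nat.mul_sub, mul_one]] at h1
      exact ((((Nat.coprime_primes hr hp).2 hrp).pow_right a).dvd_of_dvd_mul_left h1)
    have hr1 := hdiv f w hfw hmod
    have hp1 : ¬ r ∣ p - 1 := fun h => by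
      have := Nat.le_of_dvd (by have := hp.two_le; omega) h; omega
    rcases (show w - f = 1 ∨ w - f = 2 by omega) with h | h
    · rw [h, pow_one] at hr1; exact hp1 hr1
    · rw [h, show p ^ 2 - 1 = (p + 1) * (p - 1) by rw [sq, ← Nat.mul_self_sub_mul_self_eq p 1]] at hr1
      have h2 : r ∣ p + 1 := (hr.dvd_mul.1 hr1).resolve_right hp1
      have h3 : r = p + 1 := le_antisymm (Nat.le_of_dvd (Nat.succ_pos p) h2) hpr
      have hp2 : p = 2 := by
        rcases hp.eq_two_or_odd' with e | ho
        · exact e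
        · rcases hr.eq_two_or_odd' with e | he'
          · have := hp.two_le; omega
          · rw [h3] at he'
            exact absurd he' (Nat.not_odd_iff_even.2 ho.add_one)
      apply h12
      have h4 : 4 ∣ Nat.card G := by
        refine (dvd_trans ?_ (Subgroup.card_subgroup_dvd_card W))
        rw [hw, hp2, show w = 2 by omega]
        norm_num
      exact (show Nat.Coprime 4 3 by norm_num).mul_dvd_of_dvd_of_dvd h4 (by rw [show r = 3 by omega] at hrG; exact hrG)
  obtain ⟨Q, N, hN, hc⟩ := Cfsg.Lib.Transfer.hasNormalPComplement_of_normalizer_le_centralizer P hNC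
  haveI := hN
  have hidx : N.index = Nat.card (Q : Subgroup G) := hc.symm.index_eq_card
  have hQne : 1 < Nat.card (Q : Subgroup G) := lt_of_lt_of_le hp.one_lt (Nat.le_of_dvd Nat.card_pos (Q.dvd_card_of_dvd_card hpG))
  have hlt : Nat.card N < Nat.card G := by
    rw [← N.card_mul_index, hidx]
    exact lt_mul_of_one_lt_right Nat.card_pos hQne
  haveI hsN : Group.IsSolvable N := ih (Nat.card N) hlt ↥N rfl (by
    intro q hq ⟨r, hr, hrN, hqr⟩ R hR
    obtain ⟨hcom, hcard⟩ := hG q hq ⟨r, hr, hrN.trans (Subgroup.card_subgroup_dvd_card N), hqr⟩ (R.map N.subtype) (hR.map _)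
    refine ⟨⟨⟨fun a b => Subtype.ext ?_⟩⟩, fun hx => ?_⟩
    · exact Subtype.ext (congrArg Subtype.val (hcom.is_comm.comm (⟨_, a, a.2, rfl⟩ : ↥(R.map N.subtype)) ⟨_, b, b.2, rfl⟩) :)
    · rw [← Subgroup.card_map_of_injective N.subtype_injective]
      exact hcard (by rintro _ ⟨x, hx', rfl⟩; rw [← map_pow, hx x hx', map_one]))
    (fun h => h12 (h.trans (Subgroup.card_subgroup_dvd_card N)))
  haveI : Group.IsSolvable (G ⧸ N) := by
    have hpq : IsPGroup p (G ⧸ N) := by
      obtain ⟨e, he⟩ := IsPGroup.iff_card.1 Q.isPGroup'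
      exact IsPGroup.of_card (n := e) (by rw [← Subgroup.index_eq_card, hidx, he])
    haveI := hpq.isNilpotent
    infer_instance
  exact Group.isSolvable_of_ker_le_range N.subtype (QuotientGroup.mk' N) (by rw [QuotientGroup.ker_mk', Subgroup.range_subtype])


/-- Let `G` be a finite group such that for every prime `p` dividing its order, other than the largest such prime, the Sylow `p`-subgroups are abelian and generated by at most two elements, and suppose `12` does not divide the order of `G`. Then `G` is solvable. In particular a group of cube-free order not divisible by `12` is solvable. -/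
theorem result {G : Type*} [Group G] [Finite G] (h : ∀ p : ℕ, p.Prime → p ∣ Nat.card G → (∃ q : ℕ, q.Prime ∧ q ∣ Nat.card G ∧ p < q) → ∀ P : Sylow p G, IsMulCommutative (P : Subgroup G) ∧ Group.rank (P : Subgroup G) ≤ 2) (h12 : ¬ 12 ∣ Nat.card G) : Group.IsSolvable G := by
  refine solvable_of_small _ G rfl ?_ h12
  intro p hp hlast Q hQ
  haveI := Fact.mk hp
  obtain ⟨P, hP⟩ := hQ.exists_le_sylow
  have hpG : p ∣ Nat.card G ∨ Nat.card Q = 1 := by
    obtain ⟨e, he⟩ := IsPGroup.iff_card.1 hQ
    rcases e with _ | e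
    · exact Or.inr (by rw [he, pow_zero])
    · exact Or.inl ((he ▸ dvd_pow_self p (Nat.succ_ne_zero e)).trans (Subgroup.card_subgroup_dvd_card Q))
  rcases hpG with hpG | h1
  swap
  · haveI := (Nat.card_eq_one_iff_unique.1 h1).1
    exact ⟨⟨⟨fun a b => Subsingleton.elim _ _⟩⟩, fun _ => by rw [h1]; exact Nat.one_le_pow _ _ hp.pos⟩
  obtain ⟨hc, hr⟩ := h p hp hpG hlast P
  refine ⟨⟨⟨fun a b => Subtype.ext (congrArg Subtype.val (hc.is_comm.comm (⟨a, hP a.2⟩ : ↥(P : Subgroup G)) ⟨b, hP b.2⟩) :)⟩⟩, fun hx => ?_⟩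
  have h2 := card_le_of_rank hc hr hp (Q.subgroupOf (P : Subgroup G)) (fun x hx' => Subtype.ext (hx x hx'))
  rwa [Nat.card_congr (Subgroup.subgroupOfEquivOfLe hP).toEquiv] at h2

end Cfsg.Agent.S3970
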