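import Cfsg.Statements.S3971
import Mathlib
import Cfsg.Agent.Lib.Transfer.Frobenius
import Cfsg.Agent.Lib.Transfer.NormalPComplement
import Cfsg.Agent.Lib.Transfer.PGroupFrattini
import Cfsg.Agent.Lib.Solv.Coprime2
-- import your own Cfsg.Agent.* helpers here

set_option autoImplicit false
open Cfsg

namespace Cfsg.Agent.S3971

/-- Let `G` be a finite group of order `2 ^ a * n` with `n` odd and not divisible by `3`, and suppose `G` has an element of order `2 ^ (a - 1)` (so a Sylow `2`-subgroup has a cyclic subgroup of index at most `2`). Then `G` has a normal subgroup of order `n`. -/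
theorem result {G : Type*} [Group G] [Finite G] (a n : ℕ) (hG : Nat.card G = 2 ^ a * n) (hn : Odd n) (h3 : ¬ 3 ∣ n) (hx : ∃ x : G, orderOf x = 2 ^ (a - 1)) : ∃ N : Subgroup G, N.Normal ∧ Nat.card N = n := by
  classical
  haveI : Fact (Nat.Prime 2) := ⟨Nat.prime_two⟩
  obtain ⟨x, hx⟩ := hx
  have hzp : IsPGroup 2 ↥(Subgroup.zpowers x) := IsPGroup.of_card (n := a - 1) (by rw [Nat.card_zpowers, hx])
  obtain ⟨P, hP⟩ := hzp.exists_le_sylow
  set C := Subgroup.zpowers x with hCdef
  have hfac : (Nat.card G).factorization 2 = a := by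
    rw [hG, Nat.factorization_mul (by positivity) hn.pos.ne', Finsupp.add_apply,
      Nat.prime_two.factorization_pow, Finsupp.single_eq_same,
      Nat.factorization_eq_zero_of_not_dvd (fun h => hn.not_two_dvd_nat h), add_zero]
  have hPc : Nat.card P = 2 ^ a := by rw [P.card_eq_multiplicity, hfac]
  have hCP : C.relIndex (P : Subgroup G) ≤ 2 := by
    have h := (C.subgroupOf (P : Subgroup G)).card_mul_index
    rw [Nat.card_congr (Subgroup.subgroupOfEquivOfLe hP).toEquiv, Nat.card_zpowers, hx, hPc] at h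
    rcases a with _ | b
    · rw [pow_zero] at hPc
      have h1 := Subgroup.index_dvd_card (C.subgroupOf (P : Subgroup G))
      rw [hPc, Nat.dvd_one] at h1
      rw [Subgroup.relIndex, h1]; omega
    · rw [pow_succ, Nat.add_sub_cancel] at h
      exact (Nat.eq_of_mul_eq_mul_left (by positivity) h).le
  have hnpc : Cfsg.HasNormalPComplement 2 G := by
    refine (Cfsg.Lib.Transfer.frobenius_iff P).2 fun Q hQ g hg hgord => ?_
    set Φ := frattini ↥Q with hΦ
    have hQp : IsPGroup 2 Q := P.isPGroup'.to_le hQ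
    -- the Frattini quotient has order at most four
    have hidx : Φ.index ≤ 4 := by
      set D := C.subgroupOf Q with hDdef
      haveI : IsCyclic D := by
        let f : ↥D →* ↥C := (Q.subtype.comp D.subtype).codRestrict C (fun z => z.2)
        exact isCyclic_of_injective f (fun u v h => by
          have := congrArg Subtype.val h
          exact Subtype.ext (Subtype.ext this))
      obtain ⟨d, hd⟩ := IsCyclic.exists_generator (α := D)
      have hD2 : D.index ≤ 2 :=
        le_trans (Subgroup.relIndex_le_of_le_right (H := C) hQ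
          (Subgroup.index_ne_zero_of_finite)) hCP
      set W := Subgroup.zpowers ((d : ↥Q) ^ 2) with hW
      have hWΦ : W ≤ Φ := (Subgroup.zpowers_le).2 (Cfsg.Lib.Transfer.pow_mem_frattini hQp (d : ↥Q))
      have hcD : Nat.card D ≤ 2 * Nat.card W := by
        rw [← orderOf_eq_card_of_forall_mem_zpowers hd, Nat.card_zpowers, ← Subgroup.orderOf_coe,
          orderOf_pow' (d : ↥Q) two_ne_zero]
        have h1 := Nat.le_of_dvd (Nat.succ_pos 1) (Nat.gcd_dvd_right (orderOf (d : ↥Q)) 2)
        have h2 := Nat.div_mul_cancel (Nat.gcd_dvd_left (orderOf (d : ↥Q)) 2)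
        calc orderOf (d : ↥Q) = orderOf (d : ↥Q) / Nat.gcd (orderOf (d : ↥Q)) 2 *
              Nat.gcd (orderOf (d : ↥Q)) 2 := h2.symm
          _ ≤ _ := by rw [mul_comm 2]; exact Nat.mul_le_mul_left _ h1
      have hWi : W.index ≤ 4 := by
        have e : Nat.card W * W.index = Nat.card D * D.index := by
          rw [Subgroup.card_mul_index, Subgroup.card_mul_index]
        refine Nat.le_of_mul_le_mul_left ?_ (Nat.card_pos (α := W))
        rw [e]
        calc Nat.card D * D.index ≤ (2 * Nat.card W) * 2 := Nat.mul_le_mul hcD hD2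
          _ = Nat.card W * 4 := by ring
      exact (Nat.le_of_dvd (Nat.pos_of_ne_zero Subgroup.index_ne_zero_of_finite)
        (Subgroup.index_dvd_of_le hWΦ)).trans hWi
    let ψ : ↥(Subgroup.normalizer (Q : Set G)) →* MulAut (↥Q ⧸ Φ) :=
      MonoidHom.mk' (fun y => QuotientGroup.congr Φ Φ (Q.normalizerMonoidHom y)
        (Subgroup.characteristic_iff_map_eq.1 inferInstance _)) (fun y z => by
          refine MulEquiv.ext fun q => ?_
          induction q using QuotientGroup.induction_on with
          | _ q => simp; rfl)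
    have hord : orderOf (ψ ⟨g, hg⟩) = 1 := by
      have h1 : orderOf (ψ ⟨g, hg⟩) ∣ orderOf g := by
        refine (orderOf_map_dvd ψ _).trans (dvd_of_eq ?_)
        rw [← Subgroup.orderOf_coe]
      let tp : MulAut (↥Q ⧸ Φ) →* Equiv.Perm (↥Q ⧸ Φ) :=
        { toFun := fun e => e.toEquiv, map_one' := rfl, map_mul' := fun _ _ => rfl }
      have h2 : orderOf (ψ ⟨g, hg⟩) ∣ 24 := by
        rw [← orderOf_injective tp (fun e f h => MulEquiv.ext fun z => Equiv.ext_iff.1 h z)]
        refine (orderOf_dvd_natCard _).trans ?_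
        rw [Nat.card_perm, ← Subgroup.index_eq_card]
        exact (Nat.factorial_dvd_factorial hidx).trans (by decide)
      have h6 : (orderOf g).Coprime 24 := by
        have h3' : (orderOf g).Coprime 3 := by
          rw [Nat.coprime_comm, Nat.Prime.coprime_iff_not_dvd Nat.prime_three]
          intro h
          have hd := h.trans (orderOf_dvd_natCard g)
          rw [hG] at hd
          rcases (Nat.Prime.dvd_mul Nat.prime_three).1 hd with h' | h'
          · exact absurd (Nat.prime_three.dvd_of_dvd_pow h') (by norm_num)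
          · exact h3 h'
        exact Nat.Coprime.mul_right (hgord.pow_right 3) h3'
      exact Nat.eq_one_of_dvd_coprimes h6 h1 h2
    have hker : (⟨g, hg⟩ : ↥(Subgroup.normalizer (Q : Set G))) ∈ ψ.ker := orderOf_eq_one_iff.1 hord
    refine Cfsg.Lib.Solv.centralizes_of_frattini (Subgroup.zpowers g) Q
      ((Subgroup.zpowers_le).2 hg) ?_ ?_ (Subgroup.mem_zpowers g)
    · obtain ⟨k, hk⟩ := IsPGroup.iff_card.1 (hQp.to_subgroup (frattini ↥Q))
      rw [Nat.card_zpowers, hk]
      exact hgord.pow_right k
    · intro y hy q hq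
      obtain ⟨j, rfl⟩ := Subgroup.mem_zpowers_iff.1 hy
      have hj : ψ (⟨g, hg⟩ ^ j) = 1 := zpow_mem hker j
      have h := congrArg (fun e : MulAut (↥Q ⧸ Φ) => e (QuotientGroup.mk ⟨q, hq⟩⁻¹)) hj
      simp only [ψ, MonoidHom.mk'_apply, QuotientGroup.congr_mk, MulAut.one_apply] at h
      have h' := (QuotientGroup.eq).1 h
      refine ⟨_, h', ?_⟩
      rw [map_inv, inv_inv]
      rfl
  obtain ⟨N, hN, hNc⟩ : ∃ N : Subgroup G, N.Normal ∧ Nat.card N = n := by
    refine ⟨Cfsg.pResidual 2 G, Cfsg.Lib.Transfer.pResidual_normal 2, ?_⟩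
    have hk := Cfsg.Lib.Transfer.hasNormalPComplement_iff_pResidual.1 hnpc
    obtain ⟨k, hk2⟩ := Cfsg.Lib.Transfer.exists_index_pResidual_eq_pow (G := G) (p := 2)
    have e := (Cfsg.pResidual 2 G).card_mul_index
    rw [hk2, hG] at e
    have hn2 : Nat.Coprime n (2 ^ a) := (Nat.coprime_two_right.2 hn).pow_right a
    refine Nat.dvd_antisymm ((hk.pow_right a).dvd_of_dvd_mul_left ?_) ?_
    · exact ⟨2 ^ k, e.symm⟩
    · exact ((Nat.coprime_two_right.2 hn).pow_right k).dvd_of_dvd_mul_right ⟨2 ^ a, by rw [e, mul_comm]⟩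
  exact ⟨N, hN, hNc⟩

end Cfsg.Agent.S3971
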