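import Cfsg.Statements.S3973
import Mathlib


set_option autoImplicit false
open Cfsg
open scoped commutatorElement

namespace Cfsg.Agent.S3973

/-- If a finite group is presented by `n` generators and a finite set of `r` relators, then its Schur multiplier can be generated by `r - n` elements. In particular a finite group with a presentation having as many relators as generators has trivial Schur multiplier. -/
theorem result (n : ℕ) (rels : Finset (FreeGroup (Fin n))) [Finite (PresentedGroup (rels : Set (FreeGroup (Fin n))))] {A : Type*} [CommGroup A] [Finite A] (hA : Cfsg.HasSchurMultiplier (PresentedGroup (rels : Set (FreeGroup (Fin n)))) A) : Group.rank A ≤ rels.card - n := by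
  classical
  obtain ⟨⟨Γ, _, _, σ, ⟨hsurj, hcen, hcomm⟩, ⟨eK⟩⟩, -⟩ := hA
  set G := PresentedGroup (rels : Set (FreeGroup (Fin n))) with hG
  let K := σ.ker
  choose sec hsec using hsurj
  -- the lift of the free group
  let f : FreeGroup (Fin n) →* Γ := FreeGroup.lift fun i => sec (PresentedGroup.of i)
  let q : FreeGroup (Fin n) →* G := PresentedGroup.mk _
  have hfq : ∀ x, σ (f x) = q x := by
    have h : σ.comp f = q := FreeGroup.ext_hom _ _ fun i => by
      show σ (f (FreeGroup.of i)) = q (FreeGroup.of i)
      rw [FreeGroup.lift_apply_of, hsec]; rfl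
    exact fun x => DFunLike.congr_fun h x
  have hqs : Function.Surjective q := PresentedGroup.mk_surjective _
  have hqker : q.ker = Subgroup.normalClosure (rels : Set (FreeGroup (Fin n))) :=
    QuotientGroup.ker_mk' _
  have hcz : ∀ k ∈ K, ∀ g : Γ, g * k = k * g := fun k hk g => Subgroup.mem_center_iff.1 (hcen hk) g
  -- `f` is surjective
  have hfsurj : Function.Surjective f := by
    have hdec : ∀ y : Γ, ∃ h ∈ f.range, ∃ k ∈ K, y = h * k := by
      intro y
      obtain ⟨x, hx⟩ := hqs (σ y)
      refine ⟨f x, ⟨x, rfl⟩, (f x)⁻¹ * y, ?_, by group⟩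
      show σ ((f x)⁻¹ * y) = 1
      rw [map_mul, map_inv, hfq, hx, inv_mul_cancel]
    have hc : commutator Γ ≤ f.range := by
      rw [commutator_def, Subgroup.commutator_le]
      intro a _ b _
      obtain ⟨h, hh, k, hk, rfl⟩ := hdec a
      obtain ⟨h', hh', k', hk', rfl⟩ := hdec b
      have e : ⁅h * k, h' * k'⁆ = ⁅h, h'⁆ := by
        have c1 : ∀ g, Commute g k := fun g => hcz k hk g
        have c2 : ∀ g, Commute g k' := fun g => hcz k' hk' g
        simp only [commutatorElement_def, mul_inv_rev]
        calc h * k * (h' * k') * (k⁻¹ * h⁻¹) * (k'⁻¹ * h'⁻¹)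
            = h * (k * h') * (k' * k⁻¹) * (h⁻¹ * k'⁻¹) * h'⁻¹ := by group
          _ = h * (h' * k) * (k⁻¹ * k') * (k'⁻¹ * h⁻¹) * h'⁻¹ := by
              rw [(c1 h').eq, ((c2 k⁻¹).eq).symm, ((c2 h⁻¹).inv_right).eq]
          _ = _ := by group
      rw [e, commutatorElement_def]
      exact mul_mem (mul_mem (mul_mem hh hh') (inv_mem hh)) (inv_mem hh')
    intro y
    obtain ⟨h, hh, k, hk, rfl⟩ := hdec y
    exact mul_mem hh (hc (hcomm hk))
  -- linearisation
  let r := rels.card
  let e : Fin r → FreeGroup (Fin n) := fun i => (rels.equivFin.symm i).1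
  have hereR : ∀ i, f (e i) ∈ K := fun i => by
    show σ (f (e i)) = 1
    rw [hfq]
    exact PresentedGroup.one_of_mem (rels.equivFin.symm i).2
  let _ : CommGroup K :=
    { (inferInstance : Group K) with
      mul_comm := fun a b => Subtype.ext (hcz b b.2 a.1) }
  let ab : FreeGroup (Fin n) →* Multiplicative (Fin n → ℤ) :=
    FreeGroup.lift fun i => Multiplicative.ofAdd (Pi.single i 1)
  let L1 : (Fin r → ℤ) →ₗ[ℤ] (Fin n → ℤ) :=
    (Pi.basisFun ℤ (Fin r)).constr ℤ fun i => (ab (e i)).toAdd
  let L2 : (Fin r → ℤ) →ₗ[ℤ] Additive K :=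
    (Pi.basisFun ℤ (Fin r)).constr ℤ fun i => Additive.ofMul ⟨f (e i), hereR i⟩
  let S : Subgroup (FreeGroup (Fin n)) :=
    { carrier := {x | ∃ v, L1 v = (ab x).toAdd ∧ ((Additive.toMul (L2 v) : K) : Γ) = f x}
      one_mem' := ⟨0, by simp, by simp⟩
      mul_mem' := by
        rintro x y ⟨v, hv1, hv2⟩ ⟨w, hw1, hw2⟩
        exact ⟨v + w, by simp [hv1, hw1], by simp [hv2, hw2]⟩
      inv_mem' := by
        rintro x ⟨v, hv1, hv2⟩
        exact ⟨-v, by simp [hv1], by simp [hv2]⟩ }
  have hSn : S.Normal := ⟨by
    rintro x ⟨v, hv1, hv2⟩ g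
    refine ⟨v, ?_, ?_⟩
    · rw [hv1]
      congr 1
      rw [MonoidHom.map_mul, MonoidHom.map_mul, MonoidHom.map_inv, mul_comm (ab g), mul_inv_cancel_right]
    · rw [hv2, map_mul, map_mul, map_inv]
      have : f x ∈ K := hv2 ▸ (Additive.toMul (L2 v)).2
      rw [hcz _ this (f g), mul_inv_cancel_right]⟩
  have hRS : q.ker ≤ S := by
    rw [hqker]
    refine Subgroup.normalClosure_le_normal ?_
    intro x hx
    refine ⟨Pi.basisFun ℤ (Fin r) (rels.equivFin ⟨x, hx⟩), ?_, ?_⟩
    · simp only [L1, Module.Basis.constr_basis, e, Equiv.symm_apply_apply]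
    · simp only [L2, Module.Basis.constr_basis, e, Equiv.symm_apply_apply]
      rfl
  -- the rank of the image of `L1`
  have hrange : Module.finrank ℤ (LinearMap.range L1) = n := by
    refine le_antisymm ((Submodule.finrank_le _).trans (by simp)) ?_
    have hN : (Nat.card G : ℤ) ≠ 0 := by exact_mod_cast Nat.card_pos.ne'
    have hmem : ∀ i, (Nat.card G : ℤ) • (Pi.basisFun ℤ (Fin n) i) ∈ LinearMap.range L1 := by
      intro i
      have hx : (FreeGroup.of i) ^ Nat.card G ∈ q.ker := by
        rw [MonoidHom.mem_ker, map_pow, pow_card_eq_one']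
      obtain ⟨v, hv, -⟩ := hRS hx
      refine ⟨v, ?_⟩
      rw [hv, map_pow, toAdd_pow, natCast_zsmul]
      simp [ab]
    let M : (Fin n → ℤ) →ₗ[ℤ] LinearMap.range L1 :=
      (Pi.basisFun ℤ (Fin n)).constr ℤ fun i => ⟨_, hmem i⟩
    have hM : (LinearMap.range L1).subtype.comp M = (Nat.card G : ℤ) • LinearMap.id := by
      refine (Pi.basisFun ℤ (Fin n)).ext fun i => ?_
      rw [LinearMap.comp_apply, LinearMap.smul_apply, LinearMap.id_apply]
      exact congrArg Subtype.val ((Pi.basisFun ℤ (Fin n)).constr_basis ℤ _ i)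
    have hinj : Function.Injective M := by
      intro a b h
      have h1 := congrArg (fun x : LinearMap.range L1 => (x : Fin n → ℤ)) h
      have ha := LinearMap.congr_fun hM a
      have hb := LinearMap.congr_fun hM b
      simp only [LinearMap.comp_apply, Submodule.coe_subtype, LinearMap.smul_apply,
        LinearMap.id_apply] at ha hb
      change (M a : Fin n → ℤ) = (M b : Fin n → ℤ) at h1
      rw [ha, hb] at h1
      exact smul_right_injective _ hN h1
    have := LinearMap.finrank_le_finrank_of_injective hinj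
    simpa using this
  have hker : Module.finrank ℤ (LinearMap.ker L1) = r - n := by
    have h1 := (LinearMap.ker L1).finrank_quotient_add_finrank
    rw [L1.quotKerEquivRange.finrank_eq, hrange, Module.finrank_fin_fun] at h1
    omega
  let b := Module.finBasisOfFinrankEq ℤ (LinearMap.ker L1) hker
  let gens : Finset K := Finset.univ.image fun i => Additive.toMul (L2 (b i).1)
  have hgen : Subgroup.closure (gens : Set K) = ⊤ := by
    rw [eq_top_iff]
    intro k _
    have hk : (k : Γ) ∈ (commutator (FreeGroup (Fin n))).map f := by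
      rw [commutator_def, Subgroup.map_commutator, ← MonoidHom.range_eq_map,
        MonoidHom.range_eq_top.2 hfsurj, ← commutator_def]
      exact hcomm k.2
    obtain ⟨c, hc, hck⟩ := hk
    have hcR : c ∈ q.ker := by
      rw [MonoidHom.mem_ker, ← hfq, hck]; exact k.2
    obtain ⟨v, hv1, hv2⟩ := hRS hcR
    have hab : ab c = 1 := Abelianization.commutator_subset_ker ab hc
    have hv : v ∈ LinearMap.ker L1 := by
      rw [LinearMap.mem_ker, hv1, hab]; rfl
    have hk2 : k = Additive.toMul (L2 v) := Subtype.ext (by rw [hv2, hck])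
    rw [hk2]
    let T : Submodule ℤ (Fin r → ℤ) :=
      AddSubgroup.toIntSubmodule
        { carrier := {w | Additive.toMul (L2 w) ∈ Subgroup.closure (gens : Set K)}
          zero_mem' := by simp
          add_mem' := fun {a b} ha hb => by
            simp only [Set.mem_setOf_eq, map_add, toMul_add]; exact mul_mem ha hb
          neg_mem' := fun {a} ha => by
            simp only [Set.mem_setOf_eq, map_neg, toMul_neg]; exact inv_mem ha }
    have hT : LinearMap.ker L1 ≤ T := by
      intro w hw
      have hw' : (⟨w, hw⟩ : LinearMap.ker L1) ∈ (⊤ : Submodule ℤ (LinearMap.ker L1)) := trivial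
      rw [← b.span_eq] at hw'
      have h1 := Submodule.apply_mem_span_image_of_mem_span (LinearMap.ker L1).subtype hw'
      refine (Submodule.span_le.2 ?_) h1
      rintro _ ⟨_, ⟨i, rfl⟩, rfl⟩
      exact Subgroup.subset_closure (Finset.mem_coe.2 (Finset.mem_image_of_mem _ (Finset.mem_univ i)))
    exact hT hv
  calc Group.rank A ≤ Group.rank K := Group.rank_le_of_surjective eK.toMonoidHom eK.surjective
    _ ≤ gens.card := Group.rank_le hgen
    _ ≤ _ := Finset.card_image_le.trans (by simp [r])

end Cfsg.Agent.S3973
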