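import Cfsg.Statements.S3974
import Mathlib
import Cfsg.Agent.Lib.Stem.Cover

set_option autoImplicit false
universe u v
open Cfsg
open scoped Pointwise commutatorElement

namespace Cfsg.Agent.S3974

open Cfsg.Agent.Stem

theorem commutator_eq_of_stem {Γ Q : Type*} [Group Γ] [Group Q] {σ : Γ →* Q}
    (h : Cfsg.IsStemExtension σ) : (commutator Q).comap σ = commutator Γ := by
  rw [← map_commutator_surj σ h.1, Subgroup.comap_map_eq, sup_eq_left]
  exact h.2.2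

/-- Coprime case: any two covers are isomorphic over the group. -/
theorem covers_iso {Q : Type u} [Group Q] [Finite Q] {A : Type v} [CommGroup A]
    (hA : Cfsg.HasSchurMultiplier Q A) (hcop : (Nat.card (Abelianization Q)).Coprime (Nat.card A))
    (Γ₁ Γ₂ : Type u) [Group Γ₁] [Finite Γ₁] [Group Γ₂] [Finite Γ₂] (σ₁ : Γ₁ →* Q) (σ₂ : Γ₂ →* Q)
    (h₁ : Cfsg.IsStemExtension σ₁) (h₂ : Cfsg.IsStemExtension σ₂)
    (e₁ : σ₁.ker ≃* A) (e₂ : σ₂.ker ≃* A) : ∃ e : Γ₁ ≃* Γ₂, σ₂.comp e.toMonoidHom = σ₁ := by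
  classical
  haveI : Finite A := finite_of_multiplier hA
  set F := fib σ₁ σ₂
  set b := fibBase σ₁ σ₂ with hb
  have hbs : Function.Surjective b := fibBase_surjective h₁.1 h₂.1
  have hbc : b.ker ≤ Subgroup.center F := fibBase_central h₁.2.1 h₂.2.1
  set D := b.ker ⊓ commutator F with hD
  obtain ⟨π, hπ⟩ := central_kernel_image hA b hbs hbc
  have hDle : Nat.card D ≤ Nat.card A := Nat.card_le_card_of_surjective π hπ
  have hk2 : ∀ x : F, x ∈ b.ker → fibSnd σ₁ σ₂ x ∈ σ₂.ker := fun x hx =>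
    (fibBase_eq σ₁ σ₂ x).symm.trans hx
  let d₁ : D →* σ₁.ker := ((fibFst σ₁ σ₂).comp D.subtype).codRestrict _ fun x => x.2.1
  let d₂ : D →* σ₂.ker := ((fibSnd σ₁ σ₂).comp D.subtype).codRestrict _ fun x => hk2 _ x.2.1
  have hd₁ : Function.Surjective d₁ := by
    rintro ⟨k, hk⟩
    have hmem := h₁.2.2 hk
    rw [← map_commutator_surj (fibFst σ₁ σ₂) (fibFst_surjective h₂.1)] at hmem
    obtain ⟨x, hx, rfl⟩ := hmem
    exact ⟨⟨x, hk, hx⟩, rfl⟩
  have hd₂ : Function.Surjective d₂ := by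
    rintro ⟨k, hk⟩
    have hmem := h₂.2.2 hk
    rw [← map_commutator_surj (fibSnd σ₁ σ₂) (fibSnd_surjective h₁.1)] at hmem
    obtain ⟨x, hx, rfl⟩ := hmem
    exact ⟨⟨x, (fibBase_eq σ₁ σ₂ x).trans hk, hx⟩, rfl⟩
  have hb₁ : Function.Bijective d₁ :=
    hd₁.bijective_of_nat_card_le (by rwa [Nat.card_congr e₁.toEquiv])
  have hb₂ : Function.Bijective d₂ :=
    hd₂.bijective_of_nat_card_le (by rwa [Nat.card_congr e₂.toEquiv])
  have hDcard : Nat.card D = Nat.card A := (Nat.card_eq_of_bijective d₁ hb₁).trans (Nat.card_congr e₁.toEquiv)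
  have hKcard : Nat.card b.ker = Nat.card A * Nat.card A := by
    trans Nat.card σ₁.ker * Nat.card σ₂.ker
    swap
    · rw [Nat.card_congr e₁.toEquiv, Nat.card_congr e₂.toEquiv]
    rw [← Nat.card_prod]
    refine Nat.card_eq_of_bijective
      (fun x : b.ker => ((⟨fibFst σ₁ σ₂ x.1, x.2⟩ : σ₁.ker), (⟨fibSnd σ₁ σ₂ x.1, hk2 _ x.2⟩ : σ₂.ker))) ⟨?_, ?_⟩
    · intro x y h
      exact Subtype.ext (Subtype.ext (Prod.ext (congrArg (fun z => (z.1 : Γ₁)) h)
        (congrArg (fun z => (z.2 : Γ₂)) h)))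
    · rintro ⟨k₁, k₂⟩
      refine ⟨⟨⟨(k₁, k₂), ?_⟩, k₁.2⟩, rfl⟩
      exact (mem_fib σ₁ σ₂).2 ((MonoidHom.mem_ker.1 k₁.2).trans (MonoidHom.mem_ker.1 k₂.2).symm)
  let T := Abelianization F
  set B : Subgroup T := b.ker.map Abelianization.of with hB
  have hker : (Abelianization.of : F →* T).ker = commutator F := Abelianization.ker_of _
  have hBcard : Nat.card B = Nat.card A := by
    have h1 : Nat.card B * Nat.card D = Nat.card b.ker := by
      have h2 := Subgroup.relIndex_comap (⊥ : Subgroup T) Abelianization.of b.ker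
      rw [MonoidHom.comap_bot, hker, Subgroup.relIndex_bot_left, ← hB, ← Subgroup.inf_relIndex_left] at h2
      rw [← h2, ← Subgroup.relIndex_bot_left, mul_comm, Subgroup.relIndex_mul_relIndex _ _ _ bot_le inf_le_left,
        Subgroup.relIndex_bot_left]
    rw [hKcard, hDcard] at h1
    exact Nat.eq_of_mul_eq_mul_right Nat.card_pos h1
  have hBindex : B.index = Nat.card (Abelianization Q) := by
    rw [hB, Subgroup.index_map, hker, (MonoidHom.range_eq_top.2 QuotientGroup.mk_surjective :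
      (Abelianization.of : F →* T).range = ⊤), Subgroup.index_top, mul_one, sup_comm,
      ← Subgroup.comap_map_eq, map_commutator_surj b hbs, Subgroup.index_comap_of_surjective _ hbs]
    rfl
  obtain ⟨C, hC⟩ := Subgroup.exists_right_complement'_of_coprime (N := B) (by
    rw [hBcard, hBindex]; exact hcop.symm)
  set H : Subgroup F := C.comap Abelianization.of with hH
  have hHK : ∀ x ∈ H, x ∈ b.ker → x ∈ D := by
    intro x hx hxk
    have hm : Abelianization.of x ∈ B ⊓ C := ⟨Subgroup.mem_map_of_mem _ hxk, hx⟩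
    rw [hC.disjoint.eq_bot, Subgroup.mem_bot, ← MonoidHom.mem_ker, hker] at hm
    exact ⟨hxk, hm⟩
  have hDH : ∀ x : D, (x : F) ∈ H := fun x => by
    rw [hH, Subgroup.mem_comap, MonoidHom.mem_ker.1 (hker.ge x.2.2)]
    exact one_mem _
  have hsplit : ∀ f : F, ∃ k ∈ b.ker, f * k⁻¹ ∈ H := by
    intro f
    obtain ⟨x, hx, c, hc, he⟩ := Subgroup.mem_sup_of_normal_left.1
      (hC.sup_eq_top.ge (Subgroup.mem_top (Abelianization.of f)))
    obtain ⟨k, hk, rfl⟩ := hx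
    refine ⟨k, hk, ?_⟩
    rw [hH, Subgroup.mem_comap, map_mul, map_inv, ← he, mul_inv_cancel_comm]
    exact hc
  let p₁ : H →* Γ₁ := (fibFst σ₁ σ₂).comp H.subtype
  let p₂ : H →* Γ₂ := (fibSnd σ₁ σ₂).comp H.subtype
  have hp₁ : Function.Bijective p₁ := by
    refine ⟨(injective_iff_map_eq_one p₁).2 fun x hx => ?_, fun g => ?_⟩
    · have hxk : (x : F) ∈ b.ker := by
        change σ₁ (p₁ x) = 1
        rw [hx, map_one]
      have h1 : d₁ ⟨x, hHK x x.2 hxk⟩ = 1 := Subtype.ext hx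
      have h2 := congrArg Subtype.val ((injective_iff_map_eq_one d₁).1 hb₁.1 _ h1)
      exact Subtype.ext h2
    · obtain ⟨f, rfl⟩ := fibFst_surjective (σ := σ₁) h₂.1 g
      obtain ⟨k, hk, hfk⟩ := hsplit f
      obtain ⟨x, hx⟩ := hd₁ ⟨fibFst σ₁ σ₂ k, hk⟩
      have hx' : fibFst σ₁ σ₂ (x : F) = fibFst σ₁ σ₂ k := congrArg Subtype.val hx
      refine ⟨⟨f * k⁻¹, hfk⟩ * ⟨x, hDH x⟩, ?_⟩
      change fibFst σ₁ σ₂ (f * k⁻¹ * x) = _
      rw [map_mul, map_mul, map_inv, hx', inv_mul_cancel_right]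
  have hp₂ : Function.Bijective p₂ := by
    refine ⟨(injective_iff_map_eq_one p₂).2 fun x hx => ?_, fun g => ?_⟩
    · have hxk : (x : F) ∈ b.ker := by
        rw [MonoidHom.mem_ker, hb, fibBase_eq, show fibSnd σ₁ σ₂ (x : F) = 1 from hx, map_one]
      have h1 : d₂ ⟨x, hHK x x.2 hxk⟩ = 1 := Subtype.ext hx
      have h2 := congrArg Subtype.val ((injective_iff_map_eq_one d₂).1 hb₂.1 _ h1)
      exact Subtype.ext h2
    · obtain ⟨f, rfl⟩ := fibSnd_surjective (τ := σ₂) h₁.1 g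
      obtain ⟨k, hk, hfk⟩ := hsplit f
      obtain ⟨x, hx⟩ := hd₂ ⟨fibSnd σ₁ σ₂ k, hk2 k hk⟩
      have hx' : fibSnd σ₁ σ₂ (x : F) = fibSnd σ₁ σ₂ k := congrArg Subtype.val hx
      refine ⟨⟨f * k⁻¹, hfk⟩ * ⟨x, hDH x⟩, ?_⟩
      change fibSnd σ₁ σ₂ (f * k⁻¹ * x) = _
      rw [map_mul, map_mul, map_inv, hx', inv_mul_cancel_right]
  refine ⟨(MulEquiv.ofBijective p₁ hp₁).symm.trans (MulEquiv.ofBijective p₂ hp₂), MonoidHom.ext fun g => ?_⟩
  obtain ⟨x, rfl⟩ := hp₁.2 g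
  change σ₂ (p₂ ((MulEquiv.ofBijective p₁ hp₁).symm (MulEquiv.ofBijective p₁ hp₁ x))) = σ₁ (p₁ x)
  rw [MulEquiv.symm_apply_apply]
  exact (fibBase_eq σ₁ σ₂ x).symm

/-- Non-coprime case: a second cover. -/
theorem exists_second_cover {Q : Type u} [Group Q] [Finite Q] {Γ : Type u} [Group Γ] [Finite Γ]
    (σ : Γ →* Q) (h : Cfsg.IsStemExtension σ) {p : ℕ} (hp : p.Prime)
    (hpQ : p ∣ Nat.card (Abelianization Q)) (hpK : p ∣ Nat.card σ.ker) :
    ∃ (Γ₂ : Type u) (_ : Group Γ₂) (_ : Finite Γ₂) (σ₂ : Γ₂ →* Q), Cfsg.IsStemExtension σ₂ ∧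
      Nonempty (σ₂.ker ≃* σ.ker) ∧ ¬ ∃ e : Γ ≃* Γ₂, σ₂.comp e.toMonoidHom = σ := by
  classical
  have := Fact.mk hp
  set m := Monoid.exponent (Abelianization Q) with hm
  have hm0 : 0 < m := Nat.pos_of_ne_zero Monoid.exponent_ne_zero_of_finite
  have hpm : p ∣ m := by
    obtain ⟨x, hx⟩ := exists_prime_orderOf_dvd_card' p hpQ
    rw [← hx]; exact Monoid.order_dvd_exponent x
  obtain ⟨q₀, hq₀⟩ := Monoid.exists_orderOf_eq_exponent
    (G := Abelianization Q) Monoid.ExponentExists.of_finite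
  -- a character
  have hζ' := Complex.isPrimitiveRoot_exp m hm0.ne'
  set ζ : ℂˣ := (hζ'.isUnit hm0.ne').unit with hζdef
  have hζ : IsPrimitiveRoot ζ m := hζ'.isUnit_unit hm0.ne'
  obtain ⟨χ, hχ⟩ : ∃ χ : Abelianization Q →* ℂˣ, χ q₀ = ζ := by
    let gen : Subgroup.zpowers q₀ := ⟨q₀, Subgroup.mem_zpowers q₀⟩
    have hgen : ∀ x : Subgroup.zpowers q₀, x ∈ Subgroup.zpowers gen := by
      rintro ⟨x, i, rfl⟩; exact ⟨i, Subtype.ext (by simp [gen])⟩
    have hord : orderOf ζ ∣ orderOf gen := by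
      rw [← hζ.eq_orderOf, Subgroup.orderOf_mk, hq₀]
    obtain ⟨χ, hχ⟩ := MonoidHom.domRestrict_surjective ℂ (Subgroup.zpowers q₀)
      (monoidHomOfForallMemZpowers hgen hord)
    refine ⟨χ, ?_⟩
    have := DFunLike.congr_fun hχ gen
    rw [monoidHomOfForallMemZpowers_apply_gen] at this
    exact this
  set ψ : Γ →* ℂˣ := χ.comp (Abelianization.of.comp σ) with hψ
  have hψpow : ∀ g, ∃ n : ℕ, ψ g = ζ ^ n := by
    intro g
    have h1 : ((ψ g : ℂˣ) : ℂ) ^ m = 1 := by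
      rw [← Units.val_pow_eq_pow_val, hψ, MonoidHom.comp_apply, ← map_pow, hm,
        Monoid.pow_exponent_eq_one, map_one, Units.val_one]
    haveI : NeZero m := ⟨hm0.ne'⟩
    obtain ⟨i, -, hi⟩ := hζ'.eq_pow_of_pow_eq_one h1
    exact ⟨i, Units.ext (by rw [Units.val_pow_eq_pow_val, ← hi]; rfl)⟩
  have hψK : ∀ k ∈ σ.ker, ψ k = 1 := fun k hk => by
    rw [hψ, MonoidHom.comp_apply, MonoidHom.comp_apply, MonoidHom.mem_ker.1 hk, map_one, map_one]
  -- `z`
  obtain ⟨z, hzK, hz⟩ : ∃ z ∈ σ.ker, ∀ k ∈ σ.ker, k ^ m ≠ z := by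
    by_contra hall
    push Not at hall
    have hsurj : Function.Surjective (fun k : σ.ker => k ^ m) := fun z => by
      obtain ⟨k, hk, e⟩ := hall z z.2
      exact ⟨⟨k, hk⟩, Subtype.ext e⟩
    have hinj := (Finite.injective_iff_surjective.2 hsurj)
    obtain ⟨x, hx⟩ := exists_prime_orderOf_dvd_card' p hpK
    have : x = 1 := hinj (by
      simp only [one_pow]
      rw [← orderOf_dvd_iff_pow_eq_one, hx]; exact hpm)
    rw [this, orderOf_one] at hx
    exact hp.ne_one hx.symm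
  have hzc : ∀ g : Γ, g * z = z * g := fun g => Subgroup.mem_center_iff.1 (h.2.1 hzK) g
  -- the twisted group
  let Φ : Subgroup (Γ × Multiplicative ℤ) :=
    (ψ.comp (MonoidHom.fst _ _)).eqLocus ((zpowersHom ℂˣ ζ).comp (MonoidHom.snd _ _))
  have hmemΦ : ∀ (g : Γ) (i : ℤ), (g, Multiplicative.ofAdd i) ∈ Φ ↔ ψ g = ζ ^ i := fun g i => Iff.rfl
  have hw : (z, Multiplicative.ofAdd (m : ℤ)) ∈ Φ := by
    rw [hmemΦ, hψK z hzK, zpow_natCast, hζ.pow_eq_one]
  let w : Φ := ⟨_, hw⟩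
  have hwpow : ∀ j : ℤ, ((w ^ j : Φ) : Γ × Multiplicative ℤ) = (z ^ j, Multiplicative.ofAdd (j * m)) := by
    intro j
    rw [Subgroup.coe_zpow]
    refine Prod.ext rfl ?_
    change (Multiplicative.ofAdd (m : ℤ)) ^ j = _
    rw [← ofAdd_zsmul, smul_eq_mul]
  haveI hNn : (Subgroup.zpowers w).Normal := by
    refine ⟨fun x hx r => ?_⟩
    obtain ⟨j, rfl⟩ := hx
    have : r * w * r⁻¹ = w := by
      refine mul_inv_eq_iff_eq_mul.2 (Subtype.ext (Prod.ext ?_ ?_))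
      · exact hzc _
      · exact mul_comm _ _
    exact ⟨j, by rw [← conj_zpow, this]⟩
  let Γ₂ := Φ ⧸ Subgroup.zpowers w
  let π : Φ →* Γ₂ := QuotientGroup.mk' _
  have hπ : ∀ r r' : Φ, π r = π r' → ∃ j : ℤ, r⁻¹ * r' = w ^ j := fun r r' e => by
    obtain ⟨j, hj⟩ := QuotientGroup.eq.1 e
    exact ⟨j, hj.symm⟩
  have hπw : ∀ (r : Φ) (j : ℤ), π (r * w ^ j) = π r := fun r j => by
    rw [map_mul, show π (w ^ j) = 1 from (QuotientGroup.eq_one_iff _).2 ⟨j, rfl⟩, mul_one]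
  let σ₂ : Γ₂ →* Q := QuotientGroup.lift (Subgroup.zpowers w) (σ.comp ((MonoidHom.fst _ _).comp Φ.subtype))
    (by rw [Subgroup.zpowers_le]; exact hzK)
  have hσ₂ : ∀ r : Φ, σ₂ (π r) = σ (r : Γ × Multiplicative ℤ).1 := fun r => rfl
  -- normal forms
  have hform : ∀ (g : Γ) (i : ℤ) (hgi : (g, Multiplicative.ofAdd i) ∈ Φ), ∀ i' : ℤ, (i - i') % m = 0 →
      ∃ k ∈ σ.ker, ∃ hh : (g * k, Multiplicative.ofAdd i') ∈ Φ,
        π ⟨_, hgi⟩ = π ⟨_, hh⟩ := by
    intro g i hgi i' hdiv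
    obtain ⟨j, hj⟩ := Int.dvd_of_emod_eq_zero hdiv
    have hzj : z ^ (-j) ∈ σ.ker := zpow_mem hzK _
    refine ⟨z ^ (-j), hzj, ?_, ?_⟩
    · rw [hmemΦ, map_mul, hψK _ hzj, mul_one, (hmemΦ g i).1 hgi, show i = i' + m * j by linarith,
        zpow_add, zpow_mul, zpow_natCast, hζ.pow_eq_one, one_zpow, mul_one]
    · rw [← hπw ⟨_, hgi⟩ (-j)]
      congr 1
      refine Subtype.ext ?_
      rw [Subgroup.coe_mul, hwpow]
      refine Prod.ext rfl ?_
      change Multiplicative.ofAdd i * Multiplicative.ofAdd (-j * m) = Multiplicative.ofAdd i'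
      rw [← ofAdd_add]
      congr 1
      linarith
  have hsurjπ : ∀ x : Γ₂, ∃ (g : Γ) (i : ℤ) (hgi : (g, Multiplicative.ofAdd i) ∈ Φ), π ⟨_, hgi⟩ = x := by
    intro x
    obtain ⟨⟨⟨g, i⟩, hgi⟩, rfl⟩ := QuotientGroup.mk'_surjective _ x
    exact ⟨g, Multiplicative.toAdd i, hgi, rfl⟩
  haveI : Finite Γ₂ := by
    let f : Γ × Fin m → Γ₂ := fun x =>
      if hx : (x.1, Multiplicative.ofAdd ((x.2 : ℕ) : ℤ)) ∈ Φ then π ⟨_, hx⟩ else 1
    refine Finite.of_surjective f fun x => ?_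
    obtain ⟨g, i, hgi, rfl⟩ := hsurjπ x
    have hnn : 0 ≤ i % (m : ℤ) := Int.emod_nonneg _ (by omega)
    have hlt : i % (m : ℤ) < m := Int.emod_lt_of_pos _ (by omega)
    obtain ⟨k, -, hh, he⟩ := hform g i hgi (i % m) (by
      rw [Int.sub_emod, Int.emod_emod_of_dvd _ dvd_rfl, sub_self, Int.zero_emod])
    refine ⟨(g * k, ⟨(i % (m : ℤ)).toNat, by omega⟩), ?_⟩
    have e : (((⟨(i % (m : ℤ)).toNat, by omega⟩ : Fin m) : ℕ) : ℤ) = i % m := Int.toNat_of_nonneg hnn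
    simp only [f, e]
    rw [dif_pos hh]
    exact he.symm
  have hcommK : ∀ c ∈ commutator Γ, ψ c = 1 := fun c hc => by
    have := Abelianization.commutator_subset_ker ψ hc
    exact this
  have hι0 : ∀ c : ψ.ker, ((c : Γ), Multiplicative.ofAdd (0 : ℤ)) ∈ Φ := fun c => by
    rw [hmemΦ, zpow_zero]; exact c.2
  let ι : ψ.ker →* Γ₂ := π.comp
    { toFun := fun c => ⟨_, hι0 c⟩
      map_one' := rfl
      map_mul' := fun a b => Subtype.ext (Prod.ext rfl (by simp)) }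
  have hιker : ∀ x : Γ₂, σ₂ x = 1 → ∃ k, ∃ hk : k ∈ σ.ker, ι ⟨k, hψK k hk⟩ = x := by
    intro x hx
    obtain ⟨g, i, hgi, rfl⟩ := hsurjπ x
    rw [hσ₂] at hx
    have hi : ζ ^ i = 1 := ((hmemΦ g i).1 hgi).symm.trans (hψK g hx)
    rw [hζ.zpow_eq_one_iff_dvd] at hi
    obtain ⟨k, hk, hh, he⟩ := hform g i hgi 0 (by rw [sub_zero]; exact Int.emod_eq_zero_of_dvd hi)
    exact ⟨g * k, σ.ker.mul_mem hx hk, he.symm⟩
  have hιinj : Function.Injective ι := by
    refine (injective_iff_map_eq_one ι).2 fun c hc => Subtype.ext ?_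
    obtain ⟨j, hj⟩ := (QuotientGroup.eq_one_iff _).1 hc
    have h1 := congrArg (fun r : Φ => (r : Γ × Multiplicative ℤ)) hj
    simp only at h1
    rw [hwpow] at h1
    have h2 := congrArg (fun r => Multiplicative.toAdd r.2) h1
    simp at h2
    rcases h2 with h2 | h2
    · first
        | omega
        | (have h3 := congrArg Prod.fst h1; simp [h2] at h3; exact h3.symm)
    · first
        | omega
        | (have h3 := congrArg Prod.fst h1; simp [h2] at h3; exact h3.symm)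
  have hstem : Cfsg.IsStemExtension σ₂ := by
    refine ⟨fun q => ?_, fun x hx => ?_, fun x hx => ?_⟩
    · obtain ⟨g, rfl⟩ := h.1 q
      obtain ⟨n, hn⟩ := hψpow g
      exact ⟨π ⟨(g, Multiplicative.ofAdd (n : ℤ)), (hmemΦ _ _).2 (by rw [zpow_natCast]; exact hn)⟩, rfl⟩
    · obtain ⟨k, hk, rfl⟩ := hιker x hx
      refine Subgroup.mem_center_iff.2 fun y => ?_
      obtain ⟨g, i, hgi, rfl⟩ := hsurjπ y
      change π _ * π _ = π _ * π _
      rw [← map_mul, ← map_mul]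
      congr 1
      exact Subtype.ext (Prod.ext (Subgroup.mem_center_iff.1 (h.2.1 hk) g) (mul_comm _ _))
    · obtain ⟨k, hk, rfl⟩ := hιker x hx
      let pr : Φ →* Γ := (MonoidHom.fst _ _).comp Φ.subtype
      have hpr : Function.Surjective pr := fun g => by
        obtain ⟨n, hn⟩ := hψpow g
        exact ⟨⟨(g, Multiplicative.ofAdd (n : ℤ)), (hmemΦ _ _).2 (by rw [zpow_natCast]; exact hn)⟩, rfl⟩
      have hk' := h.2.2 hk
      rw [← map_commutator_surj pr hpr] at hk'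
      obtain ⟨r, hr, hrk⟩ := hk'
      have hr2 : (r : Γ × Multiplicative ℤ).2 = 1 :=
        Abelianization.commutator_subset_ker ((MonoidHom.snd _ _).comp Φ.subtype) hr
      rw [← map_commutator_surj π (QuotientGroup.mk'_surjective _)]
      exact ⟨r, hr, congrArg π (Subtype.ext (Prod.ext hrk hr2))⟩
  refine ⟨Γ₂, inferInstance, inferInstance, σ₂, hstem, ?_, ?_⟩
  · refine ⟨(MulEquiv.ofBijective
      ((ι.comp (Subgroup.inclusion (fun k hk => hψK k hk))).codRestrict σ₂.ker fun k => k.2) ⟨?_, ?_⟩).symm⟩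
    · intro a b hab
      exact Subtype.ext (congrArg (fun c : ψ.ker => (c : Γ)) (hιinj (congrArg Subtype.val hab)))
    · rintro ⟨x, hx⟩
      obtain ⟨k, hk, rfl⟩ := hιker x hx
      exact ⟨⟨k, hk⟩, rfl⟩
  rintro ⟨e, he⟩
  have hrep : ∀ (a : Γ) (i : ℤ), ψ a = ζ ^ i → ∃ k ∈ σ.ker, ∃ hh : (a * k, Multiplicative.ofAdd i) ∈ Φ,
      e a = π ⟨_, hh⟩ := by
    intro a i hai
    obtain ⟨g, i', hgi, hg⟩ := hsurjπ (e a)
    have hσg : σ g = σ a := by
      have := DFunLike.congr_fun he a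
      rw [MonoidHom.comp_apply, MulEquiv.coe_toMonoidHom, ← hg, hσ₂] at this
      exact this
    have hga : a⁻¹ * g ∈ σ.ker := by rw [MonoidHom.mem_ker, map_mul, map_inv, hσg, inv_mul_cancel]
    have hψg : ψ g = ψ a := by
      have := hψK _ hga
      rwa [map_mul, map_inv, inv_mul_eq_one, eq_comm] at this
    have hdiv : (i' - i) % (m : ℤ) = 0 := by
      refine Int.emod_eq_zero_of_dvd ((hζ.zpow_eq_one_iff_dvd _).1 ?_)
      rw [zpow_sub, ← (hmemΦ g i').1 hgi, hψg, hai, mul_inv_cancel]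
    obtain ⟨k, hk, hh, hke⟩ := hform g i' hgi i hdiv
    refine ⟨a⁻¹ * g * k, σ.ker.mul_mem hga hk, ?_, ?_⟩
    · rwa [show a * (a⁻¹ * g * k) = g * k by group]
    · rw [← hg, hke]
      congr 1
      exact Subtype.ext (Prod.ext (show g * k = a * (a⁻¹ * g * k) by group) rfl)
  have hfix : commutator Γ ≤ ((e.toMonoidHom.comp ψ.ker.subtype).eqLocus ι).map ψ.ker.subtype := by
    rw [commutator_def, Subgroup.commutator_le]
    intro a _ b _
    obtain ⟨n, hn⟩ := hψpow a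
    obtain ⟨n', hn'⟩ := hψpow b
    obtain ⟨k, hk, hh, hea⟩ := hrep a n (by rw [zpow_natCast]; exact hn)
    obtain ⟨k', hk', hh', heb⟩ := hrep b n' (by rw [zpow_natCast]; exact hn')
    have hc : ψ ⁅a, b⁆ = 1 := hcommK _ (Subgroup.commutator_mem_commutator (Subgroup.mem_top a) (Subgroup.mem_top b))
    refine ⟨⟨⁅a, b⁆, hc⟩, ?_, rfl⟩
    change e ⁅a, b⁆ = ι ⟨⁅a, b⁆, hc⟩
    rw [map_commutatorElement, hea, heb, ← map_commutatorElement]
    refine congrArg π (Subtype.ext (Prod.ext ?_ ?_))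
    · have hck := Subgroup.mem_center_iff.1 (h.2.1 hk)
      have hck' := Subgroup.mem_center_iff.1 (h.2.1 hk')
      change ⁅a * k, b * k'⁆ = ⁅a, b⁆
      have e1 : ⁅a * k, b * k'⁆ = ⁅a, b * k'⁆ := by
        rw [commutatorElement_def, commutatorElement_def, mul_inv_rev, mul_assoc a k (b * k'),
          ← hck (b * k')]
        group
      rw [e1, commutatorElement_def, commutatorElement_def, mul_inv_rev]
      calc a * (b * k') * a⁻¹ * (k'⁻¹ * b⁻¹) = a * b * (k' * a⁻¹) * k'⁻¹ * b⁻¹ := by group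
        _ = a * b * a⁻¹ * b⁻¹ := by rw [← hck' a⁻¹]; group
    · change ⁅Multiplicative.ofAdd (n : ℤ), Multiplicative.ofAdd (n' : ℤ)⁆ = 1
      rw [commutatorElement_eq_one_iff_mul_comm]
      exact mul_comm _ _
  obtain ⟨g, hg⟩ : ∃ g : Γ, Abelianization.of (σ g) = q₀ := by
    obtain ⟨q, hq⟩ := QuotientGroup.mk_surjective q₀
    obtain ⟨g, rfl⟩ := h.1 q
    exact ⟨g, hq⟩
  have hψg : ψ g = ζ ^ (1 : ℤ) := by
    rw [zpow_one, hψ, MonoidHom.comp_apply, MonoidHom.comp_apply, hg, hχ]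
  obtain ⟨k, hk, hh, heg⟩ := hrep g 1 hψg
  have hu : g ^ m ∈ commutator Γ := by
    rw [← commutator_eq_of_stem h, Subgroup.mem_comap, ← Abelianization.ker_of, MonoidHom.mem_ker,
      map_pow, map_pow, hg, hm, Monoid.pow_exponent_eq_one]
  obtain ⟨⟨c, hc⟩, hec, rfl⟩ := hfix hu
  have h1 : π (⟨_, hh⟩ ^ m) = π ⟨_, hι0 ⟨g ^ m, hc⟩⟩ := by
    rw [map_pow, ← heg, ← map_pow]
    exact hec
  obtain ⟨j, hj⟩ := hπ _ _ h1.symm
  have h2 := congrArg (fun r : Φ => (r : Γ × Multiplicative ℤ)) hj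
  simp only [Subgroup.coe_mul, Subgroup.coe_inv, SubmonoidClass.coe_pow] at h2
  rw [hwpow] at h2
  have h3 := congrArg (fun r => Multiplicative.toAdd r.2) h2
  simp at h3
  have hj1 : j = 1 := by
    have hm' : (0 : ℤ) < m := by exact_mod_cast hm0
    nlinarith
  have h4 := congrArg Prod.fst h2
  simp only [Prod.fst_mul, Prod.fst_inv, Prod.pow_fst, hj1, zpow_one] at h4
  rw [(show Commute g k from Subgroup.mem_center_iff.1 (h.2.1 hk) g).mul_pow,
    inv_mul_cancel_left] at h4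
  exact hz k hk h4



/-- Let `Q` be a finite group with Schur multiplier `A`. Any two Schur covering groups of `Q` (finite stem extensions `σ₁ : Γ₁ →* Q`, `σ₂ : Γ₂ →* Q` with kernels isomorphic to `A`, `Γ₁, Γ₂` in the universe of `Q`) are isomorphic over `Q` — there is a group isomorphism `e : Γ₁ ≃* Γ₂` with `σ₂ ∘ e = σ₁` — if and only if the order of the commutator quotient of `Q` is coprime to the order of `A`. In particular a finite perfect group has a unique Schur covering group up to isomorphism over it. -/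
theorem result {Q : Type u} [Group Q] [Finite Q] {A : Type v} [CommGroup A] (hA : Cfsg.HasSchurMultiplier Q A) : (∀ (Γ₁ Γ₂ : Type u) [Group Γ₁] [Finite Γ₁] [Group Γ₂] [Finite Γ₂] (σ₁ : Γ₁ →* Q) (σ₂ : Γ₂ →* Q), Cfsg.IsStemExtension σ₁ → Cfsg.IsStemExtension σ₂ → Nonempty (σ₁.ker ≃* A) → Nonempty (σ₂.ker ≃* A) → ∃ e : Γ₁ ≃* Γ₂, σ₂.comp e.toMonoidHom = σ₁) ↔ Nat.Coprime (Nat.card (Abelianization Q)) (Nat.card A) := by
  constructor
  · intro hall
    by_contra hnc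
    haveI : Finite A := Cfsg.Agent.Stem.finite_of_multiplier hA
    obtain ⟨p, hp, hpQ, hpA⟩ := Nat.Prime.not_coprime_iff_dvd.1 hnc
    obtain ⟨Γ, _, _, σ, hσ, ⟨e⟩⟩ := hA.1
    obtain ⟨Γ₂, _, _, σ₂, hσ₂, ⟨e₂⟩, hne⟩ :=
      exists_second_cover σ hσ hp hpQ (by rwa [Nat.card_congr e.toEquiv])
    exact hne (hall Γ Γ₂ σ σ₂ hσ hσ₂ ⟨e⟩ ⟨e₂.trans e⟩)
  · intro hcop Γ₁ Γ₂ _ _ _ _ σ₁ σ₂ h₁ h₂ he₁ he₂
    obtain ⟨e₁⟩ := he₁
    obtain ⟨e₂⟩ := he₂
    exact covers_iso hA hcop Γ₁ Γ₂ σ₁ σ₂ h₁ h₂ e₁ e₂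

end Cfsg.Agent.S3974
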