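import Cfsg.Statements.S3975
import Mathlib
import Mathlib
import Cfsg.Agent.Lib.Solv.SubgroupCount
-- import your own Cfsg.Agent.* helpers here

set_option autoImplicit false
open Cfsg

namespace Cfsg.Agent.S3975

/-- Let `p` be a prime and `G` a finite group whose order is divisible by `p ^ β`. Then the number of subgroups of `G` of order `p ^ β` is congruent to `1` modulo `p`. (When `p ^ β` is the full power of `p` dividing the order, these are the Sylow `p`-subgroups and this is the usual Sylow count.) -/
theorem result {G : Type*} [Group G] [Finite G] (p β : ℕ) (hp : p.Prime) (hdiv : p ^ β ∣ Nat.card G) : Nat.card {H : Subgroup G // Nat.card H = p ^ β} ≡ 1 [MOD p] := by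
  classical
  obtain ⟨m, hm⟩ := hdiv
  have hn0 : Nat.card G ≠ 0 := Nat.card_pos.ne'
  have hm0 : m ≠ 0 := fun h => hn0 (by rw [hm, h, mul_zero])
  haveI : NeZero (Nat.card G) := ⟨hn0⟩
  have hcZ : Nat.card (Multiplicative (ZMod (Nat.card G))) = p ^ β * m := by
    rw [Nat.card_congr Multiplicative.toAdd, Nat.card_zmod, hm]
  have h1 := Cfsg.Lib.Solv.SubgroupCount.choose_modEq (G := G) hp hm
  have h2 := Cfsg.Lib.Solv.SubgroupCount.choose_modEq (G := Multiplicative (ZMod (Nat.card G))) hp hcZ
  rw [hcZ, ← hm] at h2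
  have hone : Nat.card {H : Subgroup (Multiplicative (ZMod (Nat.card G))) // Nat.card H = p ^ β} = 1 := by
    haveI := Fact.mk hp
    rw [Nat.card_eq_one_iff_exists]
    obtain ⟨H, hH⟩ := Sylow.exists_subgroup_card_pow_prime (G := Multiplicative (ZMod (Nat.card G))) p
      (n := β) (by rw [hcZ]; exact dvd_mul_right _ _)
    refine ⟨⟨H, hH⟩, fun K => Subtype.ext ?_⟩
    haveI := Fintype.ofFinite (Multiplicative (ZMod (Nat.card G)))
    set T := (Finset.univ.filter fun x : Multiplicative (ZMod (Nat.card G)) => x ^ (p ^ β) = 1)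
    have hT : T.card ≤ p ^ β := IsCyclic.card_pow_eq_one_le (pow_pos hp.pos β)
    have hkey : ∀ L : Subgroup (Multiplicative (ZMod (Nat.card G))), Nat.card L = p ^ β →
        (L : Set (Multiplicative (ZMod (Nat.card G)))) = (T : Set (Multiplicative (ZMod (Nat.card G)))) := by
      intro L hL
      refine Set.eq_of_subset_of_ncard_le (fun x hx => ?_) ?_ (Set.toFinite _)
      · have := pow_card_eq_one' (x := (⟨x, hx⟩ : L))
        rw [hL] at this
        simpa [T] using congrArg Subtype.val this
      · rw [Set.ncard_coe_finset, ← Nat.card_coe_set_eq]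
        exact hT.trans hL.ge
    exact SetLike.coe_injective ((hkey K.1 K.2).trans (hkey H hH).symm)
  rw [hone, mul_one] at h2
  have h3 := h1.symm.trans h2
  have h4 : m * Nat.card {H : Subgroup G // Nat.card H = p ^ β} ≡ m * 1 [MOD m * p] := by rwa [mul_one]
  exact Nat.ModEq.mul_left_cancel' hm0 h4

end Cfsg.Agent.S3975
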