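import Cfsg.Statements.S3976
import Mathlib
import Mathlib
import Cfsg.Agent.S3975
-- import your own Cfsg.Agent.* helpers here

set_option autoImplicit false
open Cfsg
open scoped Pointwise

namespace Cfsg.Agent.S3976

/-- Let `p` be a prime and `G` a group of order `p ^ m`. For every `s ≤ m` the number of normal subgroups of `G` of order `p ^ s` is congruent to `1` modulo `p`. -/
theorem result {G : Type*} [Group G] [Finite G] (p m s : ℕ) (hp : p.Prime) (hG : Nat.card G = p ^ m) (hs : s ≤ m) : Nat.card {H : Subgroup G // H.Normal ∧ Nat.card H = p ^ s} ≡ 1 [MOD p] := by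
  classical
  haveI := Fact.mk hp
  have hP : IsPGroup p (ConjAct G) := IsPGroup.of_card (n := m) (by rw [Nat.card_congr ConjAct.toConjAct.toEquiv.symm]; exact hG)
  let X := {H : Subgroup G // Nat.card H = p ^ s}
  letI : MulAction (ConjAct G) X :=
    { smul := fun g H => ⟨g • H.1, by rw [Nat.card_congr (Subgroup.equivSMul g H.1).toEquiv.symm]; exact H.2⟩
      one_smul := fun H => Subtype.ext (one_smul _ H.1)
      mul_smul := fun g h H => Subtype.ext (mul_smul g h H.1) }
  have h1 := hP.card_modEq_card_fixedPoints X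
  have h2 : Nat.card (MulAction.fixedPoints (ConjAct G) X) = Nat.card {H : Subgroup G // H.Normal ∧ Nat.card H = p ^ s} := by
    refine Nat.card_congr
      { toFun := fun H => ⟨H.1.1, ?_, H.1.2⟩
        invFun := fun H => ⟨⟨H.1, H.2.2⟩, fun g => Subtype.ext (@Subgroup.Normal.conjAct _ _ _ H.2.1 g)⟩
        left_inv := fun _ => rfl
        right_inv := fun _ => rfl }
    refine ⟨fun x hx g => ?_⟩
    have := congrArg Subtype.val (H.2 (ConjAct.toConjAct g))
    rw [← this]
    exact ⟨x, hx, by simp [ConjAct.smul_def]⟩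
  rw [← h2]
  exact h1.symm.trans (Cfsg.Agent.S3975.result p s hp (by rw [hG]; exact pow_dvd_pow p hs))

end Cfsg.Agent.S3976
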