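import Cfsg.Statements.S3978
import Cfsg.Agent.Lib.Stem.Projective

set_option autoImplicit false
open Cfsg

namespace Cfsg.Agent.S3978

/-- A finite group `Q` has trivial Schur multiplier if and only if, for every `n`, every homomorphism from `Q` to the projective general linear group (the quotient of `GL n ℂ` by its centre) lifts to a homomorphism into `GL n ℂ`. -/
theorem result {Q : Type*} [Group Q] [Finite Q] : Cfsg.HasCyclicSchurMultiplier Q 1 ↔ ∀ (n : ℕ) (γ : Q →* (GL (Fin n) ℂ ⧸ Subgroup.center (GL (Fin n) ℂ))), ∃ ρ : Q →* GL (Fin n) ℂ, (QuotientGroup.mk' (Subgroup.center (GL (Fin n) ℂ))).comp ρ = γ := by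
  constructor
  · intro hM n γ
    obtain ⟨ρ, hρ⟩ := Cfsg.Agent.Stem.exists_projective_lift hM (MonoidHom.id Q)
      Cfsg.Agent.Stem.isStemExtension_id (by
        rw [Nat.card_congr Multiplicative.toAdd, Nat.card_zmod, Subgroup.card_eq_one]
        exact (MonoidHom.ker_eq_bot_iff _).mpr fun a b h => h) n γ
    exact ⟨ρ, by rw [hρ, MonoidHom.comp_id]⟩
  · intro h
    haveI : Subsingleton (MonoidHom.id Q).ker := ⟨fun a b => Subtype.ext (by
      rw [show (a : Q) = 1 from a.2, show (b : Q) = 1 from b.2])⟩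
    haveI : Subsingleton (Multiplicative (ZMod 1)) := inferInstanceAs (Subsingleton (ZMod 1))
    haveI : Unique (MonoidHom.id Q).ker := uniqueOfSubsingleton 1
    haveI : Unique (Multiplicative (ZMod 1)) := uniqueOfSubsingleton 1
    refine Cfsg.Agent.Stem.multiplier_of_image Cfsg.Agent.Stem.isStemExtension_id MulEquiv.ofUnique
      fun Δ _ _ τ hτ => ?_
    obtain ⟨π, hπ⟩ := Cfsg.Agent.Stem.kernel_surj_of_lift (MonoidHom.id Q) Cfsg.Agent.Stem.isStemExtension_id
      (fun n γ => (h n γ).imp fun ρ hρ => by rw [hρ, MonoidHom.comp_id]) τ hτ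
    exact ⟨π.comp MulEquiv.ofUnique.toMonoidHom, hπ.comp (MulEquiv.surjective _)⟩

end Cfsg.Agent.S3978
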