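import Cfsg.Statements.S3979
import Mathlib
-- import your own Cfsg.Agent.* helpers here

set_option autoImplicit false
open Cfsg
open scoped commutatorElement

namespace Cfsg.Agent.S3979

/-- A finite cyclic group has trivial Schur multiplier: every finite stem extension of it is an isomorphism, said through `HasCyclicSchurMultiplier G 1`. -/
theorem result {G : Type*} [Group G] [Finite G] [IsCyclic G] : Cfsg.HasCyclicSchurMultiplier G 1 := by
  classical
  have hab : ∀ a b : G, a * b = b * a := fun a b => IsCyclic.isMulCommutative.is_comm.comm a b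
  have hcomm : commutator G = ⊥ := by
    rw [_root_.commutator_def, eq_bot_iff, Subgroup.commutator_le]
    intro a _ b _
    rw [Subgroup.mem_bot, commutatorElement_eq_one_iff_mul_comm]; exact hab a b
  have key : ∀ (Γ : Type _) [Group Γ] [Finite Γ] (σ : Γ →* G), Cfsg.IsStemExtension σ → σ.ker = ⊥ := by
    intro Γ _ _ σ hσ
    have hc : ∀ a b : Γ, a * b = b * a := fun a b => by
      refine commutative_of_cyclic_center_quotient σ hσ.2.1 a b
    refine le_bot_iff.1 (hσ.2.2.trans ?_)
    rw [_root_.commutator_def, Subgroup.commutator_le]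
    intro a _ b _
    rw [Subgroup.mem_bot, commutatorElement_eq_one_iff_mul_comm]; exact hc a b
  refine ⟨⟨G, inferInstance, inferInstance, MonoidHom.id G, ⟨fun x => ⟨x, rfl⟩, ?_, ?_⟩, ?_⟩, ?_⟩
  · exact fun x hx => Subgroup.mem_center_iff.2 fun g => hab g x
  · intro x hx
    rw [show x = 1 from hx]; exact one_mem _
  · haveI : Subsingleton (MonoidHom.id G).ker := ⟨fun a b => Subtype.ext (by
      rw [show (a : G) = 1 from a.2, show (b : G) = 1 from b.2])⟩
    haveI : Subsingleton (Multiplicative (ZMod 1)) := inferInstanceAs (Subsingleton (ZMod 1))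
    haveI : Unique (MonoidHom.id G).ker := uniqueOfSubsingleton 1
    haveI : Unique (Multiplicative (ZMod 1)) := uniqueOfSubsingleton 1
    exact ⟨MulEquiv.ofUnique⟩
  · intro Γ _ _ σ hσ
    refine ⟨1, fun y => ⟨1, Subtype.ext ?_⟩⟩
    have this : (y : Γ) ∈ (⊥ : Subgroup Γ) := (key Γ σ hσ).le y.2
    rw [Subgroup.mem_bot] at this
    rw [this]; rfl

end Cfsg.Agent.S3979
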