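import Cfsg.Statements.S3980
import Cfsg.Agent.Lib.Stem.Product

set_option autoImplicit false
universe u v w
open Cfsg

namespace Cfsg.Agent.S3980

/-- Let `Q₁` and `Q₂` be finite groups whose commutator quotients have coprime orders, with Schur multipliers `A` and `B`. Then the Schur multiplier of `Q₁ × Q₂` is isomorphic to `A × B`. -/
theorem result {Q₁ : Type u} {Q₂ : Type v} [Group Q₁] [Group Q₂] [Finite Q₁] [Finite Q₂] {A B : Type w} [CommGroup A] [CommGroup B] (hA : Cfsg.HasSchurMultiplier Q₁ A) (hB : Cfsg.HasSchurMultiplier Q₂ B) (hcop : Nat.Coprime (Nat.card (Abelianization Q₁)) (Nat.card (Abelianization Q₂))) : Cfsg.HasSchurMultiplier (Q₁ × Q₂) (A × B) := by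
  open scoped TensorProduct in
  haveI hT : Subsingleton (Additive (Abelianization Q₁) ⊗[ℤ] Additive (Abelianization Q₂)) := by
    refine subsingleton_of_forall_eq 0 fun t => ?_
    induction t using TensorProduct.induction_on with
    | zero => rfl
    | add t t' ht ht' => rw [ht, ht', add_zero]
    | tmul a b =>
      obtain ⟨x, y, hxy⟩ := Nat.isCoprime_iff_coprime.mpr hcop
      have h1 : (Nat.card (Abelianization Q₁) : ℤ) • a = 0 := by
        rw [natCast_zsmul]; exact card_nsmul_eq_zero'
      have h2 : (Nat.card (Abelianization Q₂) : ℤ) • b = 0 := by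
        rw [natCast_zsmul]; exact card_nsmul_eq_zero'
      have key : (1 : ℤ) • (a ⊗ₜ[ℤ] b) = 0 := by
        rw [← hxy, add_smul, mul_smul, mul_smul, TensorProduct.smul_tmul', h1, TensorProduct.zero_tmul, smul_zero,
          zero_add, ← TensorProduct.tmul_smul, h2, TensorProduct.tmul_zero, smul_zero]
      rwa [one_smul] at key
  haveI : Unique (Multiplicative (TensorProduct ℤ (Additive (Abelianization Q₁)) (Additive (Abelianization Q₂)))) :=
    @uniqueOfSubsingleton _ hT 1
  exact Cfsg.Agent.Stem.multiplier_congr ((MulEquiv.refl A).prodCongr MulEquiv.prodUnique)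
    (Cfsg.Agent.Stem.multiplier_prod hA hB)

end Cfsg.Agent.S3980
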