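import Cfsg.Statements.S3992
import Cfsg.Agent.Lib.Solv.FrobeniusComplement
import Cfsg.Agent.Lib.Solv.MinNormal
import Cfsg.Agent.Lib.Solv.Hall
-- import your own Cfsg.Agent.* helpers here

set_option autoImplicit false
open Cfsg
open Cfsg.Lib.Solv

namespace Cfsg.Agent.S3992

universe u

/-- Commuting elements of coprime nontrivial orders do not exist. -/
theorem eppo_false {G : Type u} [Group G] [Finite G] (hpp : ∀ g : G, g ≠ 1 → IsPrimePow (orderOf g))
    {x y : G} (hc : Commute x y) {p q : ℕ} (hp : p.Prime) (hq : q.Prime) (hpq : p ≠ q)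
    (hx : p ∣ orderOf x) (hy : q ∣ orderOf y) : False := by
  obtain ⟨a, ha⟩ := hx
  obtain ⟨b, hb⟩ := hy
  have ha0 : a ≠ 0 := fun h => (orderOf_pos x).ne' (by rw [ha, h, mul_zero])
  have hb0 : b ≠ 0 := fun h => (orderOf_pos y).ne' (by rw [hb, h, mul_zero])
  have h1 : orderOf (x ^ a) = p := by
    rw [orderOf_pow_of_dvd ha0 ⟨p, by rw [ha, mul_comm]⟩, ha, Nat.mul_div_cancel _ (Nat.pos_of_ne_zero ha0)]
  have h2 : orderOf (y ^ b) = q := by
    rw [orderOf_pow_of_dvd hb0 ⟨q, by rw [hb, mul_comm]⟩, hb, Nat.mul_div_cancel _ (Nat.pos_of_ne_zero hb0)]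
  have h3 := (hc.pow_pow a b).orderOf_mul_eq_mul_orderOf_of_coprime (by
    rw [h1, h2]; exact (Nat.coprime_primes hp hq).2 hpq)
  rw [h1, h2] at h3
  have hne : x ^ a * y ^ b ≠ 1 := fun h => by
    rw [h, orderOf_one] at h3
    exact hp.one_lt.ne' (Nat.eq_one_of_mul_eq_one_right h3.symm)
  have := hpp _ hne
  rw [h3, isPrimePow_iff_unique_prime_dvd] at this
  obtain ⟨r, -, hr⟩ := this
  exact hpq ((hr p ⟨hp, dvd_mul_right p q⟩).trans (hr q ⟨hq, dvd_mul_left q p⟩).symm)

/-- `p'`-elements act fixed-point-freely on a `p`-subgroup. -/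
theorem eppo_fpf {G : Type u} [Group G] [Finite G] (hpp : ∀ g : G, g ≠ 1 → IsPrimePow (orderOf g))
    {p : ℕ} [hp : Fact p.Prime] (N : Subgroup G) (hN : IsPGroup p N) {h : G} (h1 : h ≠ 1)
    (hcop : (orderOf h).Coprime p) : N ⊓ Subgroup.centralizer ({h} : Set G) = ⊥ := by
  rw [eq_bot_iff]
  intro n hn
  rw [Subgroup.mem_bot]
  by_contra hn1
  obtain ⟨k, hk⟩ := IsPGroup.iff_orderOf.1 hN ⟨n, hn.1⟩
  rw [← Subgroup.orderOf_coe] at hk
  have hk0 : k ≠ 0 := fun h0 => hn1 (orderOf_eq_one_iff.1 (by rw [← pow_zero p, ← h0, ← hk]))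
  obtain ⟨r, hr, hrd⟩ := Nat.exists_prime_and_dvd (fun h0 => h1 (orderOf_eq_one_iff.1 h0))
  refine eppo_false hpp (x := n) (y := h) (Subgroup.mem_centralizer_singleton_iff.1 hn.2) hp.out hr
    ?_ (hk ▸ dvd_pow_self p hk0) hrd
  rintro rfl
  exact hr.one_lt.ne' (Nat.eq_one_of_dvd_coprimes hcop hrd dvd_rfl)

theorem minimal_normal_pgroup {G : Type u} [Group G] [Finite G] {N : Subgroup G} [N.Normal]
    (hN : N ≠ ⊥) (hs : Group.IsSolvable N)
    (hmin : ∀ K : Subgroup G, K.Normal → K ≤ N → K = ⊥ ∨ K = N) :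
    ∃ p : ℕ, p.Prime ∧ IsPGroup p N ∧ IsMulCommutative N :=
  let ⟨hc, p, hp, hP, _⟩ := minimal_normal_elementary hN hs hmin
  ⟨p, hp, hP, hc⟩

/-- Higman: a solvable group with all elements of prime power order has at most two prime divisors. -/
theorem solvable_two_primes {G : Type u} [Group G] [Finite G] [hsol : Group.IsSolvable G]
    (hpp : ∀ g : G, g ≠ 1 → IsPrimePow (orderOf g)) : (Nat.card G).primeFactors.card ≤ 2 := by
  classical
  by_contra hlt
  rw [not_le] at hlt
  haveI : Nontrivial G := by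
    by_contra h
    rw [not_nontrivial_iff_subsingleton] at h
    rw [Nat.card_unique] at hlt
    simp at hlt
  obtain ⟨N, hNn, -, hN1, hmin⟩ := exists_minimal_normal_le (N := (⊤ : Subgroup G)) top_ne_bot
  haveI := hNn
  obtain ⟨p, hp, hNp, hNc⟩ := minimal_normal_pgroup hN1 inferInstance hmin
  haveI := Fact.mk hp
  haveI := hNc
  obtain ⟨q, r, hq, hr, hqr, hqp, hrp⟩ : ∃ q r : ℕ, q ∈ (Nat.card G).primeFactors ∧
      r ∈ (Nat.card G).primeFactors ∧ q ≠ r ∧ q ≠ p ∧ r ≠ p := by
    have h2 : 2 ≤ ((Nat.card G).primeFactors.erase p).card := by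
      have := Finset.pred_card_le_card_erase (s := (Nat.card G).primeFactors) (a := p)
      omega
    obtain ⟨q, hq, r, hr, hqr⟩ := Finset.one_lt_card.1 h2
    exact ⟨q, r, (Finset.mem_erase.1 hq).2, (Finset.mem_erase.1 hr).2, hqr,
      (Finset.mem_erase.1 hq).1, (Finset.mem_erase.1 hr).1⟩
  have hqP := Nat.prime_of_mem_primeFactors hq
  have hrP := Nat.prime_of_mem_primeFactors hr
  set π : Set ℕ := {q, r} with hπ
  obtain ⟨U, hU⟩ := hall_exists (G := G) π
  have hfpf : ∀ h ∈ U, h ≠ 1 → N ⊓ Subgroup.centralizer ({h} : Set G) = ⊥ := by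
    intro h hh h1
    refine eppo_fpf hpp N hNp h1 (Nat.coprime_comm.1 (hp.coprime_iff_not_dvd.2 fun hd => ?_))
    rcases hU.1 p hp (hd.trans (Subgroup.orderOf_dvd_natCard U hh)) with h' | h'
    · exact hqp h'.symm
    · exact hrp (Set.mem_singleton_iff.1 h').symm
  have hdiv : ∀ s : ℕ, s ∈ (Nat.card G).primeFactors → s ∈ π → s ∣ Nat.card U := by
    intro s hs hsπ
    have hsP := Nat.prime_of_mem_primeFactors hs
    have hd := Nat.dvd_of_mem_primeFactors hs
    rw [← U.card_mul_index] at hd
    exact (hsP.dvd_mul.1 hd).resolve_right fun h => hU.2 s hsP hsπ h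
  haveI : Nontrivial U := by
    rw [Subgroup.nontrivial_iff_ne_bot]
    intro hb
    have := hdiv q hq (Or.inl rfl)
    rw [hb, Subgroup.card_bot, Nat.dvd_one] at this
    exact hqP.one_lt.ne' this
  obtain ⟨Q0, hQ0n, -, hQ01, hQ0min⟩ := exists_minimal_normal_le (N := (⊤ : Subgroup U)) top_ne_bot
  haveI := hQ0n
  obtain ⟨s, hs, hQ0p, hQ0c⟩ := minimal_normal_pgroup hQ01 inferInstance hQ0min
  haveI := Fact.mk hs
  haveI := hQ0c
  obtain ⟨k, hk⟩ := IsPGroup.iff_card.1 hQ0p
  have hk0 : k ≠ 0 := fun h0 => hQ01 (Subgroup.eq_bot_of_card_eq _ (by rw [hk, h0, pow_zero]))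
  obtain ⟨z, hz⟩ := exists_prime_orderOf_dvd_card' (G := Q0) s (hk ▸ dvd_pow_self s hk0)
  have hsU : s ∣ Nat.card U :=
    (hk ▸ dvd_pow_self s hk0 : s ∣ Nat.card Q0).trans (Subgroup.card_subgroup_dvd_card _)
  obtain ⟨t, ht, htU, hts⟩ : ∃ t : ℕ, t.Prime ∧ t ∣ Nat.card U ∧ t ≠ s := by
    by_cases h : s = q
    · exact ⟨r, hrP, hdiv r hr (Or.inr rfl), fun h' => hqr (h.symm.trans h'.symm)⟩
    · exact ⟨q, hqP, hdiv q hq (Or.inl rfl), fun h' => h h'.symm⟩
  haveI := Fact.mk ht
  obtain ⟨y, hy⟩ := exists_prime_orderOf_dvd_card' (G := U) t htU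
  have hzo : orderOf (((z : U)) : G) = s := by rw [Subgroup.orderOf_coe, Subgroup.orderOf_coe, hz]
  have hyo : orderOf (y : G) = t := by rw [Subgroup.orderOf_coe, hy]
  have hUN : U ≤ Subgroup.normalizer (N : Set G) := by
    rw [Subgroup.normalizer_eq_top_iff.2 hNn]; exact le_top
  set w : Q0 := ⟨y * (z : U) * y⁻¹, hQ0n.conj_mem z z.2 y⟩ with hw
  have hwz : ((w : U) : G) ∈ Subgroup.zpowers (((z : U)) : G) := by
    refine FrobCompl.mem_zpowers_of_commute hN1 hUN hfpf hs (z : U).2 (w : U).2 hzo ?_ ?_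
    · rw [← hzo]
      exact MulEquiv.orderOf_eq (MulAut.conj (y : G)) _
    · exact congrArg (fun v : Q0 => ((v : U) : G)) (mul_comm' z w)
  have hnorm : (y : G) ∈ Subgroup.normalizer ((Subgroup.zpowers (((z : U)) : G) : Subgroup G) : Set G) := by
    rw [Subgroup.mem_normalizer_iff]
    have hle : (Subgroup.zpowers (((z : U)) : G)).map (MulAut.conj (y : G)).toMonoidHom =
        Subgroup.zpowers (((z : U)) : G) := by
      refine Subgroup.eq_of_le_of_card_ge ?_ (le_of_eq ?_)
      · rw [MonoidHom.map_zpowers, Subgroup.zpowers_le]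
        exact hwz
      · exact Nat.card_congr ((Subgroup.zpowers _).equivMapOfInjective _ (MulAut.conj (y : G)).injective).toEquiv
    intro v
    conv_rhs => rw [← hle]
    exact (Subgroup.mem_map_iff_mem (MulAut.conj (y : G)).injective).symm
  have hc := FrobCompl.commute_of_normalizes hN1 hUN hfpf hs ht hts.symm (z : U).2 y.2 hzo hyo hnorm
  exact eppo_false hpp hc hs ht hts.symm (dvd_of_eq hzo.symm) (dvd_of_eq hyo.symm)

/-- Let G be a finite non-solvable group in which every element has prime-power order, and let R be its largest solvable normal subgroup. Then R is a p-group for some prime p; G/R has a non-abelian simple normal subgroup contained in every nontrivial normal subgroup of G/R (its unique minimal normal subgroup); and the order of every solvable subgroup of G has at most two prime divisors. -/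
theorem result {G : Type*} [Group G] [Finite G] (hns : ¬ Group.IsSolvable G) (hpp : ∀ g : G, g ≠ 1 → IsPrimePow (orderOf g))
    (R : Subgroup G) [R.Normal] (hRs : Group.IsSolvable ↥R) (hRmax : ∀ N : Subgroup G, N.Normal → Group.IsSolvable ↥N → N ≤ R) :
    (∃ p : ℕ, p.Prime ∧ IsPGroup p ↥R) ∧
      (∃ M : Subgroup (G ⧸ R), M.Normal ∧ IsSimpleGroup ↥M ∧ ¬ IsMulCommutative ↥M ∧
        ∀ N : Subgroup (G ⧸ R), N.Normal → N ≠ ⊥ → M ≤ N) ∧
      ∀ H : Subgroup G, Group.IsSolvable ↥H → (Nat.card ↥H).primeFactors.card ≤ 2 := by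
  classical
  haveI := hRs
  have hG : ∀ N : Subgroup G, ∀ (hN : N.Normal), R ≤ N → Group.IsSolvable N → N = R :=
    fun N hN hRN hs => le_antisymm (hRmax N hN hs) hRN
  -- no solvable normal subgroup in the quotient
  have hquot : ∀ A : Subgroup (G ⧸ R), A.Normal → Group.IsSolvable A → A = ⊥ := by
    intro A hA hAs
    set A' := A.comap (QuotientGroup.mk' R) with hA'
    let f : A' →* A := ((QuotientGroup.mk' R).comp A'.subtype).codRestrict A (fun v => v.2)
    have hker : f.ker ≤ (Subgroup.inclusion (show R ≤ A' from fun r hr => by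
        rw [hA', Subgroup.mem_comap, show QuotientGroup.mk' R r = 1 from (QuotientGroup.eq_one_iff r).2 hr]
        exact one_mem _)).range := fun v hv =>
      ⟨⟨(v : G), (QuotientGroup.eq_one_iff _).1 (congrArg Subtype.val hv)⟩, Subtype.ext rfl⟩
    have hs : Group.IsSolvable A' := Group.isSolvable_of_ker_le_range _ f hker
    have := hRmax A' (hA.comap _) hs
    rw [← Subgroup.map_comap_eq_self_of_surjective (QuotientGroup.mk'_surjective R) A, ← hA',
      Subgroup.map_eq_bot_iff, QuotientGroup.ker_mk']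
    exact this
  have hppQ : ∀ g : G ⧸ R, g ≠ 1 → IsPrimePow (orderOf g) := by
    intro g hg
    obtain ⟨x, rfl⟩ := QuotientGroup.mk'_surjective R g
    have hx : x ≠ 1 := fun h => hg (by rw [h, map_one])
    obtain ⟨p, k, hp, hk, hpk⟩ := (isPrimePow_nat_iff _).1 (hpp x hx)
    have hd := orderOf_map_dvd (QuotientGroup.mk' R) x
    rw [← hpk] at hd
    obtain ⟨i, -, hi⟩ := (Nat.dvd_prime_pow hp).1 hd
    rw [hi]
    exact IsPrimePow.pow hp.prime.isPrimePow (fun h0 => hg (orderOf_eq_one_iff.1 (by rw [hi, h0, pow_zero])))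
  refine ⟨?_, ?_, ?_⟩
  · -- the solvable radical is a p-group
    by_cases hR1 : R = ⊥
    · refine ⟨2, Nat.prime_two, ?_⟩
      rw [hR1]
      exact IsPGroup.of_bot
    obtain ⟨N, hNn, hNR, hN1, hmin⟩ := exists_minimal_normal_le hR1
    haveI := hNn
    obtain ⟨p, hp, hNp, hNc⟩ := minimal_normal_pgroup hN1 (solvable_of_le hNR hRs) hmin
    haveI := Fact.mk hp
    haveI := hNc
    refine ⟨p, hp, ?_⟩
    by_contra hnp
    obtain ⟨q, hq, hqR, hqp⟩ : ∃ q : ℕ, q.Prime ∧ q ∣ Nat.card R ∧ q ≠ p := by
      by_contra h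
      push_neg at h
      exact hnp (IsPGroup.of_card (Nat.eq_prime_pow_of_unique_prime_dvd Nat.card_pos.ne'
        (fun {d} hd hdd => h d hd hdd)))
    haveI := Fact.mk hq
    obtain Q : Sylow q R := default
    set Q' := (Q : Subgroup R).map R.subtype with hQ'
    have hQ'p : IsPGroup q Q' := Q.isPGroup'.map _
    haveI : Group.IsNilpotent Q' := hQ'p.isNilpotent
    have hQne : Q' ≠ ⊥ := by
      rw [hQ', Ne, Subgroup.map_eq_bot_iff_of_injective _ R.subtype_injective]
      exact Q.ne_bot_of_dvd_card hqR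
    haveI : Nontrivial Q' := (Subgroup.nontrivial_iff_ne_bot _).2 hQne
    set Z := (Subgroup.center Q').map Q'.subtype with hZ
    have hZQ : Z ≤ Q' := Subgroup.map_subtype_le _
    have hfpf : ∀ h ∈ Q', h ≠ 1 → N ⊓ Subgroup.centralizer ({h} : Set G) = ⊥ := by
      intro h hh h1
      refine eppo_fpf hpp N hNp h1 ?_
      obtain ⟨k, hk⟩ := IsPGroup.iff_orderOf.1 hQ'p ⟨h, hh⟩
      rw [← Subgroup.orderOf_coe] at hk
      show (orderOf h).Coprime p
      rw [show orderOf h = q ^ k from hk]
      exact ((Nat.coprime_primes hq hp).2 hqp).pow_left k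
    have hUN : ∀ U : Subgroup G, U ≤ Subgroup.normalizer (N : Set G) := fun U => by
      rw [Subgroup.normalizer_eq_top_iff.2 hNn]; exact le_top
    have hZc : IsMulCommutative Z := by rw [hZ]; infer_instance
    haveI hZcyc : IsCyclic Z := Cfsg.Lib.Solv.fpf_isCyclic Z N hN1 (hUN Z) (fun a ha => hfpf a (hZQ ha)) (Or.inl hZc)
    obtain ⟨z, hzZ, hzo⟩ : ∃ z ∈ Z, orderOf z = q := by
      haveI := hQ'p.center_nontrivial
      obtain ⟨k, hk⟩ := IsPGroup.iff_card.1 (hQ'p.to_subgroup (Subgroup.center Q'))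
      have hk0 : k ≠ 0 := by
        rintro rfl
        exact (Finite.one_lt_card (α := Subgroup.center Q')).ne' (by rw [hk, pow_zero])
      obtain ⟨z, hz⟩ := exists_prime_orderOf_dvd_card' (G := Subgroup.center Q') q (hk ▸ dvd_pow_self q hk0)
      exact ⟨((z : Q') : G), ⟨z, z.2, rfl⟩, by rw [Subgroup.orderOf_coe, Subgroup.orderOf_coe, hz]⟩
    set C := Subgroup.centralizer (Z : Set G) with hC
    have hCq : IsPGroup q C := by
      intro c
      refine ⟨(orderOf c).factorization q, orderOf_dvd_iff_pow_eq_one.1 ?_⟩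
      refine dvd_of_eq (Nat.eq_prime_pow_of_unique_prime_dvd (orderOf_pos c).ne' (p := q) ?_ |>.trans ?_)
      · intro d hd hdd
        by_contra hne
        refine eppo_false hpp (x := z) (y := (c : G)) ?_ hq hd (Ne.symm hne) (dvd_of_eq hzo.symm) ?_
        · exact Subgroup.mem_centralizer_iff.1 c.2 z hzZ
        · rwa [Subgroup.orderOf_coe]
      · congr 1
        set l := (orderOf c).primeFactorsList.length
        have e : orderOf c = q ^ l := Nat.eq_prime_pow_of_unique_prime_dvd (orderOf_pos c).ne' (p := q) (by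
          intro d hd hdd
          by_contra hne
          refine eppo_false hpp (x := z) (y := (c : G)) ?_ hq hd (Ne.symm hne) (dvd_of_eq hzo.symm) ?_
          · exact Subgroup.mem_centralizer_iff.1 c.2 z hzZ
          · rwa [Subgroup.orderOf_coe])
        rw [e, hq.factorization_pow, Finsupp.single_eq_same]
    haveI : Group.IsNilpotent C := hCq.isNilpotent
    set M := Subgroup.normalizer (Q' : Set G) with hM
    have hMZ : M ≤ Subgroup.normalizer (Z : Set G) := by
      haveI : (Subgroup.center Q').Characteristic := inferInstance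
      haveI : (Q'.subgroupOf M).Normal := Subgroup.normal_in_normalizer
      intro m hm
      rw [Subgroup.mem_normalizer_iff]
      have key : ∀ m ∈ M, ∀ v ∈ Z, m * v * m⁻¹ ∈ Z := by
        rintro m hm _ ⟨v, hv, rfl⟩
        have hv' : m * (v : G) * m⁻¹ ∈ Q' := (Subgroup.mem_normalizer_iff.1 hm v).1 v.2
        refine ⟨⟨_, hv'⟩, ?_, rfl⟩
        rw [SetLike.mem_coe, Subgroup.mem_center_iff]
        intro u
        apply Subtype.ext
        have hu : m⁻¹ * (u : G) * m ∈ Q' := by
          refine (Subgroup.mem_normalizer_iff.1 hm _).2 ?_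
          rw [show m * (m⁻¹ * (u : G) * m) * m⁻¹ = u by group]
          exact u.2
        have h2 : m⁻¹ * (u : G) * m * v = v * (m⁻¹ * u * m) :=
          congrArg Subtype.val (Subgroup.mem_center_iff.1 hv ⟨_, hu⟩)
        show (u : G) * (m * v * m⁻¹) = m * v * m⁻¹ * u
        calc (u : G) * (m * v * m⁻¹) = m * (m⁻¹ * u * m * v) * m⁻¹ := by group
          _ = m * (v * (m⁻¹ * u * m)) * m⁻¹ := by rw [h2]
          _ = _ := by group
      intro v
      refine ⟨key m hm v, fun hv => ?_⟩
      have := key m⁻¹ (inv_mem hm) _ hv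
      rwa [show m⁻¹ * (m * v * m⁻¹) * m⁻¹⁻¹ = v by group] at this
    have hMsol : Group.IsSolvable M := by
      refine solvable_of_le hMZ ?_
      let f := Z.normalizerMonoidHom
      haveI : Group.IsSolvable (MulAut Z) := by
        refine (Group.isSolvable_def (MulAut Z)).2 ⟨1, ?_⟩
        rw [derivedSeries_one, eq_bot_iff]
        show Bracket.bracket (⊤ : Subgroup (MulAut Z)) (⊤ : Subgroup (MulAut Z)) ≤ ⊥
        rw [Subgroup.commutator_le]
        intro a _ b _
        rw [Subgroup.mem_bot, commutatorElement_eq_one_iff_mul_comm]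
        exact (IsCyclic.mulAutMulEquiv Z).injective (by rw [map_mul, map_mul, mul_comm])
      refine Group.isSolvable_of_ker_le_range (Subgroup.inclusion (Subgroup.centralizer_le_normalizer (Z : Set G))) f ?_
      rw [Subgroup.normalizerMonoidHom_ker]
      exact fun v hv => ⟨⟨(v : G), hv⟩, Subtype.ext rfl⟩
    apply hns
    have htop : M ⊔ R = ⊤ := Sylow.normalizer_sup_eq_top Q
    haveI : Group.IsSolvable ↥(⊤ : Subgroup G) := htop ▸ solvable_sup M R hMsol hRs
    exact Group.isSolvable_of_surjective (f := (⊤ : Subgroup G).subtype) (fun g => ⟨⟨g, trivial⟩, rfl⟩)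
  · -- the unique minimal normal subgroup
    haveI : Nontrivial (G ⧸ R) := by
      refine QuotientGroup.nontrivial_iff.2 fun h => hns ?_
      haveI : Group.IsSolvable ↥(⊤ : Subgroup G) := h ▸ hRs
      exact Group.isSolvable_of_surjective (f := (⊤ : Subgroup G).subtype) (fun g => ⟨⟨g, trivial⟩, rfl⟩)
    obtain ⟨M, hMn, -, hM1, hmin⟩ := exists_minimal_normal_le (N := (⊤ : Subgroup (G ⧸ R))) top_ne_bot
    haveI := hMn
    -- commuting nonsolvable subgroups are impossible
    have hcomm : ∀ A B : Subgroup (G ⧸ R), A ≠ ⊥ → ¬ Group.IsSolvable B → (∀ a ∈ A, ∀ b ∈ B, Commute a b) → False := by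
      intro A B hA hB hAB
      obtain ⟨p, hp, hpA⟩ := Nat.exists_prime_and_dvd
        (fun h : Nat.card A = 1 => hA (Subgroup.eq_bot_of_card_eq _ h))
      obtain ⟨q, hq, hqB, hqp⟩ : ∃ q : ℕ, q.Prime ∧ q ∣ Nat.card B ∧ q ≠ p := by
        by_contra h
        push_neg at h
        haveI := Fact.mk hp
        haveI : Group.IsNilpotent B := (IsPGroup.of_card (Nat.eq_prime_pow_of_unique_prime_dvd Nat.card_pos.ne'
          (fun {d} hd hdd => h d hd hdd)) : IsPGroup p B).isNilpotent
        exact hB inferInstance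
      haveI := Fact.mk hp
      haveI := Fact.mk hq
      obtain ⟨a, ha⟩ := exists_prime_orderOf_dvd_card' p hpA
      obtain ⟨b, hb⟩ := exists_prime_orderOf_dvd_card' q hqB
      exact eppo_false hppQ (hAB a a.2 b b.2) hp hq hqp.symm
        (dvd_of_eq (by rw [Subgroup.orderOf_coe, ha])) (dvd_of_eq (by rw [Subgroup.orderOf_coe, hb]))
    have hMns : ¬ Group.IsSolvable M := fun h => hM1 (hquot M hMn h)
    refine ⟨M, hMn, ?_, ?_, ?_⟩
    · -- simplicity
      haveI : Nontrivial M := (Subgroup.nontrivial_iff_ne_bot _).2 hM1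
      refine ⟨fun K hK => ?_⟩
      by_contra hcon
      push_neg at hcon
      obtain ⟨hK1, hKt⟩ := hcon
      obtain ⟨L, hLn, hLK, hL1, hLmin⟩ := exists_minimal_normal_le (hn := hK) hK1
      haveI := hLn
      set L' := L.map M.subtype with hL'
      have hL'1 : L' ≠ ⊥ := by
        rwa [hL', Ne, Subgroup.map_eq_bot_iff_of_injective _ M.subtype_injective]
      have hL'M : L' ≤ M := Subgroup.map_subtype_le _
      let conjL : G ⧸ R → Subgroup (G ⧸ R) := fun g => L'.map (MulAut.conj g).toMonoidHom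
      have hconjM : ∀ g, conjL g ≤ M := by
        rintro g _ ⟨v, hv, rfl⟩
        exact hMn.conj_mem v (hL'M hv) g
      have hconjn : ∀ g, ((conjL g).subgroupOf M).Normal := by
        intro g
        refine ⟨fun v hv m => ?_⟩
        obtain ⟨u, hu, huv⟩ := Subgroup.mem_map.1 (Subgroup.mem_subgroupOf.1 hv)
        obtain ⟨u', hu', rfl⟩ := Subgroup.mem_map.1 hu
        set m' : M := ⟨g⁻¹ * (m : G ⧸ R) * g⁻¹⁻¹, hMn.conj_mem _ m.2 _⟩ with hm'
        refine Subgroup.mem_map.2 ⟨_, Subgroup.mem_map.2 ⟨m' * u' * m'⁻¹, hLn.conj_mem u' hu' m', rfl⟩, ?_⟩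
        show g * (g⁻¹ * (m : G ⧸ R) * g⁻¹⁻¹ * (u' : G ⧸ R) * (g⁻¹ * (m : G ⧸ R) * g⁻¹⁻¹)⁻¹) * g⁻¹ =
          (m : G ⧸ R) * (v : G ⧸ R) * (m : G ⧸ R)⁻¹
        rw [← huv]
        show _ = (m : G ⧸ R) * (g * (u' : G ⧸ R) * g⁻¹) * (m : G ⧸ R)⁻¹
        group
      by_cases hall : ∀ g, conjL g = L'
      · have hL'n : L'.Normal := ⟨fun v hv g => hall g ▸ ⟨v, hv, rfl⟩⟩
        rcases hmin L' hL'n hL'M with h | h
        · exact hL'1 h
        · apply hKt
          rw [eq_top_iff]
          intro v _
          obtain ⟨l, hl, hlv⟩ := (h.symm ▸ v.2 : (v : G ⧸ R) ∈ L')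
          exact hLK (Subtype.ext hlv ▸ hl)
      · push_neg at hall
        obtain ⟨g, hg⟩ := hall
        have hdisj : ∀ a ∈ conjL g, ∀ b ∈ L', Commute a b := by
          intro a ha b hb
          obtain ⟨b', hb', rfl⟩ := Subgroup.mem_map.1 hb
          haveI := hconjn g
          have hint : (conjL g).subgroupOf M ⊓ L = ⊥ := by
            rcases hLmin _ inferInstance (inf_le_right (a := (conjL g).subgroupOf M)) with h | h
            · exact h
            · exfalso
              refine hg (Subgroup.eq_of_le_of_card_ge ?_ ?_).symm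
              · rintro _ ⟨l, hl, rfl⟩
                exact Subgroup.mem_subgroupOf.1 ((inf_eq_right.1 h) hl)
              · exact le_of_eq (Nat.card_congr (L'.equivMapOfInjective _ (MulAut.conj g).injective).toEquiv).symm
          exact congrArg M.subtype (Subgroup.commute_of_normal_of_disjoint _ _ (hconjn g) hLn
            (disjoint_iff.2 hint) ⟨a, hconjM g ha⟩ b' (Subgroup.mem_subgroupOf.2 ha) hb').eq
        have hLns : ¬ Group.IsSolvable L' := by
          intro hs
          apply hMns
          -- the conjugates of L generate M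
          have hgen : ∀ T : Finset (G ⧸ R), Group.IsSolvable ↥((T.sup fun g => conjL g).subgroupOf M) ∧
              ((T.sup fun g => conjL g).subgroupOf M).Normal := by
            intro T
            induction T using Finset.induction_on with
            | empty =>
              rw [Finset.sup_empty, Subgroup.bot_subgroupOf]
              exact ⟨inferInstance, inferInstance⟩
            | @insert g T _ ih =>
              obtain ⟨ih1, ih2⟩ := ih
              haveI := ih2
              haveI := hconjn g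
              rw [Finset.sup_insert, Subgroup.subgroupOf_sup (hconjM g) (Finset.sup_le fun g _ => hconjM g)]
              refine ⟨solvable_sup _ _ ?_ ih1, inferInstance⟩
              haveI : Group.IsSolvable ↥(conjL g) := solvable_map _ hs
              exact Group.isSolvable_of_surjective (f := (Subgroup.subgroupOfEquivOfLe (hconjM g)).symm.toMonoidHom)
                (Subgroup.subgroupOfEquivOfLe (hconjM g)).symm.surjective
          haveI : Fintype (G ⧸ R) := Fintype.ofFinite _
          set S := (Finset.univ : Finset (G ⧸ R)).sup fun g => conjL g with hS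
          have hSn : S.Normal := by
            refine ⟨fun v hv g => ?_⟩
            have hle : S ≤ S.comap (MulAut.conj g).toMonoidHom := Finset.sup_le fun g' _ => by
              rintro _ ⟨u, hu, rfl⟩
              have h2 : conjL (g * g') ≤ S := Finset.le_sup (f := fun g => conjL g) (Finset.mem_univ _)
              refine h2 ⟨u, hu, ?_⟩
              show g * g' * u * (g * g')⁻¹ = g * (g' * u * g'⁻¹) * g⁻¹
              group
            exact hle hv
          have hSM : S ≤ M := Finset.sup_le fun g _ => hconjM g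
          rcases hmin S hSn hSM with h | h
          · exfalso
            apply hL'1
            rw [eq_bot_iff, ← h]
            intro v hv
            exact (Finset.le_sup (f := fun g => conjL g) (Finset.mem_univ (1 : G ⧸ R))) ⟨v, hv, by simp⟩
          · have h3 := (hgen Finset.univ).1
            rw [← hS, h, Subgroup.subgroupOf_self] at h3
            haveI := h3
            exact Group.isSolvable_of_surjective (f := (⊤ : Subgroup M).subtype) (fun g => ⟨⟨g, trivial⟩, rfl⟩)
        refine hcomm (conjL g) L' ?_ hLns hdisj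
        intro h
        exact hL'1 ((Subgroup.map_eq_bot_iff_of_injective _ (MulAut.conj g).injective).1 h)
    · intro hc
      apply hMns
      haveI := hc
      refine (Group.isSolvable_def ↥M).2 ⟨1, ?_⟩
      rw [derivedSeries_one, eq_bot_iff]
      show Bracket.bracket (⊤ : Subgroup M) (⊤ : Subgroup M) ≤ ⊥
      rw [Subgroup.commutator_le]
      intro a _ b _
      rw [Subgroup.mem_bot, commutatorElement_eq_one_iff_mul_comm]
      exact mul_comm' a b
    · intro N hN hN1
      haveI := hN
      rcases hmin (M ⊓ N) inferInstance inf_le_left with h | h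
      · exfalso
        exact hcomm N M hN1 hMns fun a ha b hb =>
          Subgroup.commute_of_normal_of_disjoint N M hN hMn (disjoint_iff.2 (inf_comm M N ▸ h)) a b ha hb
      · exact inf_eq_left.1 h
  · intro H hH
    haveI := hH
    refine solvable_two_primes fun g hg => ?_
    rw [← Subgroup.orderOf_coe]
    exact hpp g fun h => hg (Subtype.ext h)

end Cfsg.Agent.S3992
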