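import Cfsg.Statements.S3994
import Mathlib
import Mathlib
import Cfsg.Agent.Lib.Solv.FrobeniusDivisibility
import Cfsg.Agent.Lib.Characters.PiSection
-- import your own Cfsg.Agent.* helpers here

set_option autoImplicit false
open Cfsg

namespace Cfsg.Agent.S3994

/-- Let G be a finite group and n a positive integer. The number of elements of G whose order is divisible by n is either 0 or divisible by the largest divisor of the order of G that is coprime to n. -/
theorem result {G : Type*} [Group G] [Finite G] (n : ℕ) (hn : 0 < n) :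
    Nat.card {g : G // n ∣ orderOf g} = 0 ∨
      (Nat.card G / Nat.gcd (Nat.card G) (n ^ Nat.card G)) ∣ Nat.card {g : G // n ∣ orderOf g} := by
  classical
  right
  haveI := Fintype.ofFinite G
  set N := Nat.card G with hN
  set a := Nat.gcd N (n ^ N) with ha
  set b := N / a with hb
  have hN0 : N ≠ 0 := Nat.card_pos.ne'
  have ha0 : 0 < a := Nat.gcd_pos_of_pos_left _ (Nat.pos_of_ne_zero hN0)
  have hab : a * b = N := Nat.mul_div_cancel' (Nat.gcd_dvd_left _ _)
  have hcop : ∀ q : ℕ, q.Prime → q ∣ n → ¬ q ∣ b := by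
    intro q hq hqn hqb
    obtain ⟨k, hk⟩ : ∃ k, k = a.factorization q := ⟨_, rfl⟩
    have hk1 : q ^ (k + 1) ∣ N := by
      rw [← hab, pow_succ]
      exact mul_dvd_mul (hk ▸ Nat.ordProj_dvd a q) hqb
    have hk2 : k + 1 ≤ N := by
      have h1 : q ^ (k + 1) ≤ N := Nat.le_of_dvd (Nat.pos_of_ne_zero hN0) hk1
      exact ((Nat.lt_pow_self hq.one_lt).le).trans h1
    have h3 : q ^ (k + 1) ∣ a := Nat.dvd_gcd hk1 ((pow_dvd_pow q hk2).trans (pow_dvd_pow_of_dvd hqn N))
    rw [hq.pow_dvd_iff_le_factorization ha0.ne', ← hk] at h3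
    omega
  have habc : Nat.Coprime a b := by
    refine Nat.coprime_of_dvd fun q hq hqa hqb => ?_
    exact hcop q hq (hq.dvd_of_dvd_pow (hqa.trans (Nat.gcd_dvd_right _ _))) hqb
  obtain ⟨e, he1, he0⟩ := Cfsg.Lib.Characters.exists_piExp habc
  have hgab : ∀ g : G, g ^ (a * b) = 1 := fun g => by rw [hab, hN]; exact pow_card_eq_one'
  have hea : ∀ g : G, (g ^ e) ^ a = 1 := fun g => Cfsg.Lib.Characters.piExp_pow_left he0 (hgab g)
  have heb : ∀ g : G, (g * (g ^ e)⁻¹) ^ b = 1 := fun g => Cfsg.Lib.Characters.piExp_compl he1 (hgab g)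
  -- the fibres
  set T := {x : G // x ^ a = 1 ∧ n ∣ orderOf x}
  have key : ∀ g : G, n ∣ orderOf g ↔ n ∣ orderOf (g ^ e) := by
    intro g
    refine ⟨fun h => ?_, fun h => h.trans (orderOf_pow_dvd e)⟩
    have hcomm : Commute (g * (g ^ e)⁻¹) (g ^ e) :=
      ((Commute.refl g).pow_right e).mul_left (Commute.refl (g ^ e)).inv_left
    have h1 : g = (g * (g ^ e)⁻¹) * g ^ e := by group
    have h2 : orderOf g ∣ orderOf (g * (g ^ e)⁻¹) * orderOf (g ^ e) := by
      nth_rw 1 [h1]
      exact hcomm.orderOf_mul_dvd_mul_orderOf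
    refine (Nat.Coprime.dvd_of_dvd_mul_left ?_ (h.trans h2))
    exact Nat.coprime_of_dvd fun q hq hqn hqd => hcop q hq hqn (hqd.trans (orderOf_dvd_of_pow_eq_one (heb g)))
  have hbnn : ∀ g : G, g ^ b = 1 → g ^ e = 1 := fun g h => Cfsg.Lib.Characters.pow_piExp_of_right he0 h
  let E : {g : G // n ∣ orderOf g} ≃ Σ x : T, {y : G // Commute y x.1 ∧ y ^ b = 1} :=
    { toFun := fun g => ⟨⟨g.1 ^ e, hea g.1, (key g.1).1 g.2⟩, ⟨g.1 * (g.1 ^ e)⁻¹,
        ((Commute.refl g.1).pow_right e).mul_left (Commute.refl (g.1 ^ e)).inv_left, heb g.1⟩⟩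
      invFun := fun z => ⟨z.2.1 * z.1.1, by
        rw [key, z.2.2.1.mul_pow, hbnn _ z.2.2.2, one_mul,
          Cfsg.Lib.Characters.pow_piExp_of_left he1 z.1.2.1]
        exact z.1.2.2⟩
      left_inv := fun g => Subtype.ext (inv_mul_cancel_right _ _)
      right_inv := fun z => by
        obtain ⟨⟨x, hx1, hx2⟩, ⟨y, hy1, hy2⟩⟩ := z
        have h : (y * x) ^ e = x := by
          rw [hy1.mul_pow, hbnn y hy2, one_mul, Cfsg.Lib.Characters.pow_piExp_of_left he1 hx1]
        refine Sigma.subtype_ext (Subtype.ext h) ?_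
        show y * x * ((y * x) ^ e)⁻¹ = y
        rw [h, mul_inv_cancel_right] }
  rw [Nat.card_congr E, Nat.card_sigma, ← Finset.sum_fiberwise Finset.univ (fun x : T => ConjClasses.mk x.1)]
  refine Finset.dvd_sum fun c _ => ?_
  rcases (Finset.univ.filter fun x : T => ConjClasses.mk x.1 = c).eq_empty_or_nonempty with h0 | ⟨x₀, hx₀⟩
  · rw [h0, Finset.sum_empty]; exact dvd_zero _
  rw [Finset.mem_filter] at hx₀
  set C := Subgroup.centralizer ({x₀.1} : Set G) with hC
  set d := Nat.gcd (Nat.card C) b with hd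
  have hterm : ∀ x : T, ConjClasses.mk x.1 = c →
      Nat.card {y : G // Commute y x.1 ∧ y ^ b = 1} = Nat.card {y : C // y ^ d = 1} := by
    intro x hx
    obtain ⟨g, hg⟩ := isConj_iff.1 (ConjClasses.mk_eq_mk_iff_isConj.1 (hx.trans hx₀.2.symm))
    refine Nat.card_congr
      { toFun := fun y => ⟨⟨g * y.1 * g⁻¹, Subgroup.mem_centralizer_singleton_iff.2 (by
            rw [← hg, conj_mul, conj_mul, y.2.1.eq])⟩, Subtype.ext (by
            show (g * y.1 * g⁻¹) ^ d = 1
            have h1 : (g * y.1 * g⁻¹) ^ b = 1 := by rw [conj_pow, y.2.2, mul_one, mul_inv_cancel]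
            have hm : g * y.1 * g⁻¹ ∈ C := Subgroup.mem_centralizer_singleton_iff.2 (by
              rw [← hg, conj_mul, conj_mul, y.2.1.eq])
            have h2 : (g * y.1 * g⁻¹) ^ Nat.card C = 1 :=
              orderOf_dvd_iff_pow_eq_one.1 (Subgroup.orderOf_dvd_natCard C hm)
            rw [hd]
            exact pow_gcd_eq_one.2 ⟨h2, h1⟩)⟩
        invFun := fun y => ⟨g⁻¹ * y.1.1 * g, by
            show g⁻¹ * y.1.1 * g * x.1 = x.1 * (g⁻¹ * y.1.1 * g)
            have h1 : y.1.1 * (g * x.1 * g⁻¹) = g * x.1 * g⁻¹ * y.1.1 := by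
              rw [hg]; exact Subgroup.mem_centralizer_singleton_iff.1 y.1.2
            calc g⁻¹ * y.1.1 * g * x.1 = g⁻¹ * (y.1.1 * (g * x.1 * g⁻¹)) * g := by group
              _ = g⁻¹ * (g * x.1 * g⁻¹ * y.1.1) * g := by rw [h1]
              _ = x.1 * (g⁻¹ * y.1.1 * g) := by group, by
            have h2 : (y.1 : G) ^ b = 1 := by
              obtain ⟨k, hk⟩ : d ∣ b := Nat.gcd_dvd_right _ _
              have h3 : (y.1 : G) ^ d = 1 := congrArg Subtype.val y.2
              rw [hk, pow_mul, h3, one_pow]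
            have := conj_pow (i := b) (a := g⁻¹) (b := (y.1 : G))
            rw [inv_inv, h2, mul_one, inv_mul_cancel] at this
            exact this⟩
        left_inv := fun y => Subtype.ext (by show g⁻¹ * (g * y.1 * g⁻¹) * g = y.1; group)
        right_inv := fun y => Subtype.ext (Subtype.ext (by show g * (g⁻¹ * y.1.1 * g) * g⁻¹ = y.1.1; group)) }
  have hcard : (Finset.univ.filter fun x : T => ConjClasses.mk x.1 = c).card = C.index := by
    rw [hC, ← Cfsg.Lib.Solv.FrobDiv.card_conj_fibre x₀.1, Nat.card_eq_fintype_card, Fintype.card_subtype]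
    refine Finset.card_bij (fun x _ => x.1) ?_ ?_ ?_
    · intro x hx
      rw [Finset.mem_filter] at hx ⊢
      exact ⟨Finset.mem_univ _, ConjClasses.mk_eq_mk_iff_isConj.1 (hx₀.2.trans hx.2.symm)⟩
    · exact fun _ _ _ _ h => Subtype.ext h
    · intro y hy
      rw [Finset.mem_filter] at hy
      obtain ⟨g, hg⟩ := isConj_iff.1 hy.2
      have ho : orderOf y = orderOf x₀.1 := by
        rw [← hg]
        exact orderOf_injective (MulAut.conj g).toMonoidHom (MulAut.conj g).injective x₀.1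
      refine ⟨⟨y, ?_, ho ▸ x₀.2.2⟩, ?_, rfl⟩
      · rw [← hg, conj_pow, x₀.2.1, mul_one, mul_inv_cancel]
      · rw [Finset.mem_filter]
        exact ⟨Finset.mem_univ _, (ConjClasses.mk_eq_mk_iff_isConj.2 hy.2).symm.trans hx₀.2⟩
  rw [Finset.sum_congr rfl (fun x hx => hterm x (Finset.mem_filter.1 hx).2), Finset.sum_const, smul_eq_mul, hcard]
  have hfrob : d ∣ Nat.card {y : C // y ^ d = 1} := Cfsg.Lib.Solv.FrobDiv.frobenius_dvd d (Nat.gcd_dvd_left _ _)
  refine dvd_trans ?_ (mul_dvd_mul_left C.index hfrob)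
  rw [hd, ← Nat.gcd_mul_left]
  refine Nat.dvd_gcd ?_ (dvd_mul_left _ _)
  rw [Subgroup.index_mul_card, ← hN, ← hab]
  exact dvd_mul_left _ _

end Cfsg.Agent.S3994
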