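import Cfsg.Statements.S3995
import Mathlib
import Cfsg.Agent.Lib.Solv.FrobeniusDivisibility
import Cfsg.Agent.Lib.ZStar.UniqueInvolution
-- import your own Cfsg.Agent.* helpers here

set_option autoImplicit false
open Cfsg

namespace Cfsg.Agent.S3995

open Cfsg.Lib.Solv.FrobDiv

variable {G : Type*} [Group G] [Finite G]

theorem card_step (d d' a b : ℕ) (hd' : d' ∣ d) (ha : a ∣ d) (hb : b ∣ d) (hab : a ≠ b) (had : ¬ a ∣ d')
    (hbd : ¬ b ∣ d') (hdiv : ∀ k, k ∣ d → k ∣ d' ∨ k = a ∨ k = b) :
    Nat.card {g : G // g ^ d = 1} = Nat.card {g : G // g ^ d' = 1} + Nat.card {g : G // orderOf g = a} +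
      Nat.card {g : G // orderOf g = b} := by
  classical
  have h : ({g : G | g ^ d = 1} : Set G) = {g : G | g ^ d' = 1} ∪ {g : G | orderOf g = a} ∪ {g : G | orderOf g = b} := by
    ext g
    simp only [Set.mem_union, Set.mem_ofPred_eq, ← orderOf_dvd_iff_pow_eq_one]
    refine ⟨fun hg => ?_, ?_⟩
    · rcases hdiv _ hg with h | h | h
      exacts [Or.inl (Or.inl h), Or.inl (Or.inr h), Or.inr h]
    · rintro ((h | h) | h)
      exacts [h.trans hd', h ▸ ha, h ▸ hb]
  have h1 : Disjoint ({g : G | g ^ d' = 1} : Set G) {g : G | orderOf g = a} :=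
    Set.disjoint_left.2 fun g hg hg' => had ((hg' : orderOf g = a) ▸ orderOf_dvd_of_pow_eq_one hg)
  have h2 : Disjoint ({g : G | g ^ d' = 1} ∪ {g : G | orderOf g = a} : Set G) {g : G | orderOf g = b} := by
    refine Set.disjoint_left.2 fun g hg hg' => ?_
    rcases hg with hg | hg
    · exact hbd ((hg' : orderOf g = b) ▸ orderOf_dvd_of_pow_eq_one hg)
    · exact hab ((hg : orderOf g = a) ▸ hg')
  have e : ∀ s : Set G, Nat.card ↥s = s.ncard := fun s => Nat.card_coe_set_eq s
  show Nat.card ↥({g : G | g ^ d = 1} : Set G) = Nat.card ↥({g : G | g ^ d' = 1} : Set G) +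
    Nat.card ↥({g : G | orderOf g = a} : Set G) + Nat.card ↥({g : G | orderOf g = b} : Set G)
  rw [e, e, e, e, h, Set.ncard_union_eq h2, Set.ncard_union_eq h1]

theorem card_step_one (d d' a : ℕ) (hd' : d' ∣ d) (ha : a ∣ d) (had : ¬ a ∣ d')
    (hdiv : ∀ k, k ∣ d → k ∣ d' ∨ k = a) :
    Nat.card {g : G // g ^ d = 1} = Nat.card {g : G // g ^ d' = 1} + Nat.card {g : G // orderOf g = a} := by
  classical
  have h : ({g : G | g ^ d = 1} : Set G) = {g : G | g ^ d' = 1} ∪ {g : G | orderOf g = a} := by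
    ext g
    simp only [Set.mem_union, Set.mem_ofPred_eq, ← orderOf_dvd_iff_pow_eq_one]
    refine ⟨hdiv _, ?_⟩
    rintro (h | h)
    exacts [h.trans hd', h ▸ ha]
  have h1 : Disjoint ({g : G | g ^ d' = 1} : Set G) {g : G | orderOf g = a} :=
    Set.disjoint_left.2 fun g hg hg' => had ((hg' : orderOf g = a) ▸ orderOf_dvd_of_pow_eq_one hg)
  have e : ∀ s : Set G, Nat.card ↥s = s.ncard := fun s => Nat.card_coe_set_eq s
  show Nat.card ↥({g : G | g ^ d = 1} : Set G) = Nat.card ↥({g : G | g ^ d' = 1} : Set G) +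
    Nat.card ↥({g : G | orderOf g = a} : Set G)
  rw [e, e, e, h, Set.ncard_union_eq h1]

theorem card_prime_pow_one {p : ℕ} (hp : p.Prime) :
    Nat.card {g : G // g ^ p = 1} = 1 + Nat.card {g : G // orderOf g = p} := by
  rw [card_step_one p 1 p (one_dvd _) dvd_rfl (fun h => hp.one_lt.ne' (Nat.dvd_one.1 h))
    (fun k hk => ((Nat.dvd_prime hp).1 hk).imp (fun h => (dvd_of_eq h)) id)]
  congr 1
  exact Nat.card_eq_one_iff_unique.2 ⟨⟨fun a b => Subtype.ext ((pow_one a.1).symm.trans (a.2.trans (b.2.symm.trans (pow_one b.1))))⟩, ⟨⟨1, one_pow 1⟩⟩⟩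

theorem even_card_order {m : ℕ} (hm : 2 < m) : Even (Nat.card {g : G // orderOf g = m}) := by
  classical
  haveI := Fintype.ofFinite {g : G // orderOf g = m}
  rw [Nat.card_eq_fintype_card, ← ZMod.natCast_eq_zero_iff_even]
  have h : ∑ _g : {g : G // orderOf g = m}, (1 : ZMod 2) = 0 := by
    refine Finset.sum_involution (fun g _ => ⟨g.1⁻¹, by rw [orderOf_inv, g.2]⟩) (fun g _ => by decide)
      (fun g _ _ hg => ?_) (fun g _ => Finset.mem_univ _) (fun g _ => Subtype.ext (inv_inv g.1))
    have h2 : g.1⁻¹ = g.1 := congrArg Subtype.val hg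
    have h3 : orderOf g.1 ∣ 2 := orderOf_dvd_of_pow_eq_one (by rw [sq]; nth_rewrite 1 [← h2]; exact inv_mul_cancel _)
    have := Nat.le_of_dvd two_pos h3
    rw [g.2] at this
    omega
  simpa using h

theorem exists_orderOf_eq {g : G} {k : ℕ} (h : k ∣ orderOf g) : ∃ x : G, orderOf x = k :=
  ⟨g ^ (orderOf g / k), orderOf_pow_orderOf_div (orderOf_pos g).ne' h⟩


/-- Let G be a finite group such that the numbers of elements of each order that occurs in G (the numbers #{g : o(g) = m}, m ranging over the element orders of G) take exactly two values, 1 and some n ≠ 1. Then either G is a p-group of exponent p and order at least 3 for some prime p, or G is the quaternion group of order 8, or G is cyclic of order 4, or G ≅ Z₂ × P for a p-group P of exponent p with p an odd prime. -/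
theorem result {G : Type*} [Group G] [Finite G] (n : ℕ) (hn : n ≠ 1) (h : ((fun m : ℕ => Nat.card {g : G // orderOf g = m}) '' Set.range (orderOf : G → ℕ)) = {1, n}) :
    (∃ p : ℕ, p.Prime ∧ IsPGroup p G ∧ 3 ≤ Nat.card G ∧ Monoid.exponent G = p) ∨
      Nonempty (G ≃* QuaternionGroup 2) ∨ (IsCyclic G ∧ Nat.card G = 4) ∨
      (∃ (p : ℕ) (P : Type) (_ : Group P) (_ : Finite P), p.Prime ∧ p ≠ 2 ∧ IsPGroup p P ∧ Monoid.exponent P = p ∧
        Nonempty (G ≃* Multiplicative (ZMod 2) × P)) := by
  classical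
  set c := fun m : ℕ => Nat.card {g : G // orderOf g = m} with hc
  have hmem : ∀ g : G, c (orderOf g) = 1 ∨ c (orderOf g) = n := fun g => by
    have : c (orderOf g) ∈ ({1, n} : Set ℕ) := h ▸ ⟨orderOf g, ⟨g, rfl⟩, rfl⟩
    exact this
  have hbig : ∀ g : G, 2 < orderOf g → c (orderOf g) = n := fun g hg => (hmem g).resolve_left fun e => by
    have := even_card_order (G := G) hg
    rw [show Nat.card {x : G // orderOf x = orderOf g} = 1 from e] at this
    exact Nat.not_even_one this
  obtain ⟨g0, hg0⟩ : ∃ g : G, c (orderOf g) = n := by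
    have : n ∈ ({1, n} : Set ℕ) := Or.inr rfl
    rw [← h] at this
    obtain ⟨_, ⟨g, rfl⟩, hg⟩ := this
    exact ⟨g, hg⟩
  have hone : c 1 = 1 := Nat.card_eq_one_iff_unique.2
    ⟨⟨fun a b => Subtype.ext ((orderOf_eq_one_iff.1 a.2).trans (orderOf_eq_one_iff.1 b.2).symm)⟩, ⟨⟨1, orderOf_one⟩⟩⟩
  have hn0 : 0 < n := by
    rw [← hg0]
    haveI : Nonempty {g : G // orderOf g = orderOf g0} := ⟨⟨g0, rfl⟩⟩
    exact Nat.card_pos
  have hle : ∀ m, (∃ g : G, orderOf g = m) → 1 ≤ c m := fun m ⟨g, hg⟩ => by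
    haveI : Nonempty {g : G // orderOf g = m} := ⟨⟨g, hg⟩⟩
    exact Nat.card_pos
  have hzero : ∀ m, (¬ ∃ g : G, orderOf g = m) → c m = 0 := fun m hm => by
    haveI : IsEmpty {g : G // orderOf g = m} := ⟨fun g => hm ⟨g.1, g.2⟩⟩
    exact Nat.card_of_isEmpty
  have hval : ∀ m, 2 < m → c m = 0 ∨ c m = n := fun m hm => by
    by_cases hex : ∃ g : G, orderOf g = m
    · obtain ⟨g, hg⟩ := hex
      exact Or.inr (hg ▸ hbig g (hg ▸ hm))
    · exact Or.inl (hzero m hex)
  by_cases h2 : ∃ z : G, orderOf z = 2 ∧ c 2 = n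
  · -- exponent two
    obtain ⟨z, hz, hc2⟩ := h2
    haveI : Fact (Nat.Prime 2) := ⟨Nat.prime_two⟩
    left
    have hev : 2 ∣ Nat.card {g : G // g ^ 2 = 1} := frobenius_dvd 2 (hz ▸ orderOf_dvd_natCard z)
    rw [card_prime_pow_one Nat.prime_two, show Nat.card {g : G // orderOf g = 2} = n from hc2] at hev
    have hsq : ∀ g : G, g ^ 2 = 1 := by
      intro g
      rw [← orderOf_dvd_iff_pow_eq_one]
      rcases Nat.lt_or_ge 2 (orderOf g) with hlt | hle'
      · exfalso
        have := even_card_order (G := G) hlt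
        rw [show Nat.card {x : G // orderOf x = orderOf g} = n from hbig g hlt] at this
        obtain ⟨j, hj⟩ := this
        omega
      · interval_cases hk : orderOf g
        · exact absurd hk (orderOf_pos g).ne'
        · exact one_dvd _
        · exact dvd_rfl
    refine ⟨2, Nat.prime_two, fun g => ⟨1, by rw [pow_one]; exact hsq g⟩, ?_, ?_⟩
    · rw [← Nat.card_congr (Equiv.subtypeUnivEquiv hsq), card_prime_pow_one Nat.prime_two]
      change 3 ≤ 1 + c 2
      omega
    · refine Nat.dvd_antisymm (Monoid.exponent_dvd_of_forall_pow_eq_one hsq) ?_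
      exact hz ▸ Monoid.order_dvd_exponent z
  push Not at h2
  have huniq : ∀ y z : G, orderOf y = 2 → orderOf z = 2 → y = z := fun y z hy hz => by
    have h1 : c 2 = 1 := (hy ▸ hmem y).resolve_right (h2 y hy)
    exact congrArg Subtype.val ((Nat.card_eq_one_iff_unique.1 h1).1.elim ⟨y, hy⟩ ⟨z, hz⟩)
  have hodd : ∀ p : ℕ, p.Prime → p ≠ 2 → p ∣ Nat.card G → c p = n ∧ p ∣ 1 + n ∧ ¬ p ∣ n ∧ ¬ p ∣ 2 * n := by
    intro p hp hp2 hdvd
    haveI := Fact.mk hp
    obtain ⟨x, hx⟩ := exists_prime_orderOf_dvd_card' p hdvd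
    have hcp : c p = n := hx ▸ hbig x (hx ▸ lt_of_le_of_ne hp.two_le (Ne.symm hp2))
    have h1 := frobenius_dvd p hdvd
    rw [card_prime_pow_one hp, show Nat.card {g : G // orderOf g = p} = n from hcp] at h1
    have hnd : ¬ p ∣ n := fun e => hp.one_lt.ne' (Nat.dvd_one.1 ((Nat.dvd_add_left e).1 h1))
    exact ⟨hcp, h1, hnd, fun e => (hp.dvd_mul.1 e).elim (fun e2 => hp2 ((Nat.prime_dvd_prime_iff_eq hp Nat.prime_two).1 e2)) hnd⟩
  have hnosq : ∀ p : ℕ, p.Prime → p ≠ 2 → ¬ ∃ g : G, orderOf g = p ^ 2 := by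
    rintro p hp hp2 ⟨g, hg⟩
    have hd : p ^ 2 ∣ Nat.card G := hg ▸ orderOf_dvd_natCard g
    obtain ⟨hcp, h1, hnd, -⟩ := hodd p hp hp2 ((dvd_pow_self p two_ne_zero).trans hd)
    have h3 := frobenius_dvd (p ^ 2) hd
    have hlt : 2 < p ^ 2 := by nlinarith [hp.two_le]
    rw [card_step_one (p ^ 2) p (p ^ 2) (dvd_pow_self p two_ne_zero) dvd_rfl
        (fun e => by have := Nat.le_of_dvd hp.pos e; nlinarith [hp.two_le])
        (fun k hk => by
          obtain ⟨i, hi, rfl⟩ := (Nat.dvd_prime_pow hp).1 hk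
          interval_cases i <;> simp),
      card_prime_pow_one hp, show Nat.card {g : G // orderOf g = p} = n from hcp,
      show Nat.card {x : G // orderOf x = p ^ 2} = n from hg ▸ hbig g (hg ▸ hlt)] at h3
    exact hnd ((Nat.dvd_add_right h1).1 ((dvd_pow_self p two_ne_zero).trans h3))
  have honep : ∀ p q : ℕ, p.Prime → q.Prime → p ≠ 2 → q ≠ 2 → p ∣ Nat.card G → q ∣ Nat.card G → p = q := by
    intro p q hp hq hp2 hq2 hpd hqd
    by_contra hne
    obtain ⟨hcp, h1, hnd, h2nd⟩ := hodd p hp hp2 hpd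
    obtain ⟨hcq, -, -, -⟩ := hodd q hq hq2 hqd
    have hco : Nat.Coprime p q := (Nat.coprime_primes hp hq).2 hne
    have h3 := frobenius_dvd (p * q) (hco.mul_dvd_of_dvd_of_dvd hpd hqd)
    rw [card_step (p * q) p q (p * q) (dvd_mul_right p q) (dvd_mul_left q p) dvd_rfl
        (fun e => hp.one_lt.ne' (mul_eq_right₀ hq.ne_zero |>.1 e.symm))
        (fun e => hne ((Nat.prime_dvd_prime_iff_eq hq hp).1 e).symm)
        (fun e => hne ((Nat.prime_dvd_prime_iff_eq hq hp).1 ((dvd_mul_left q p).trans e)).symm)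
        (fun k hk => by
          obtain ⟨i, j, hi, hj, rfl⟩ := exists_dvd_and_dvd_of_dvd_mul hk
          rcases (Nat.dvd_prime hp).1 hi with rfl | rfl <;> rcases (Nat.dvd_prime hq).1 hj with rfl | rfl <;> simp),
      card_prime_pow_one hp, show Nat.card {g : G // orderOf g = p} = n from hcp,
      show Nat.card {g : G // orderOf g = q} = n from hcq] at h3
    have h4 := (dvd_mul_right p q).trans h3
    rw [add_assoc, Nat.dvd_add_right h1] at h4
    rcases hval (p * q) (by nlinarith [hp.two_le, hq.two_le]) with e | e <;>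
      rw [show Nat.card {g : G // orderOf g = p * q} = c (p * q) from rfl, e] at h4
    · exact hnd (by rwa [add_zero] at h4)
    · exact h2nd (by rwa [two_mul])
  by_cases hev : 2 ∣ Nat.card G
  swap
  · -- odd order
    left
    obtain ⟨g1, hg1⟩ : ∃ g : G, g ≠ 1 := ⟨g0, fun e => hn (by rw [← hg0, e, orderOf_one, hone])⟩
    obtain ⟨p, hp, hpd⟩ := Nat.exists_prime_and_dvd (fun e => hg1 (orderOf_eq_one_iff.1 e) : orderOf g1 ≠ 1)
    haveI := Fact.mk hp
    have hp2 : p ≠ 2 := fun e => hev (e ▸ hpd.trans (orderOf_dvd_natCard g1))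
    have hexp : ∀ g : G, g ^ p = 1 := by
      intro g
      rw [← orderOf_dvd_iff_pow_eq_one]
      have hq : ∀ q : ℕ, q.Prime → q ∣ orderOf g → q = p := fun q hq hqd => by
        have hq2 : q ≠ 2 := fun e => hev (e ▸ hqd.trans (orderOf_dvd_natCard g))
        exact honep q p hq hp hq2 hp2 (hqd.trans (orderOf_dvd_natCard g)) (hpd.trans (orderOf_dvd_natCard g1))
      have he := Nat.eq_prime_pow_of_unique_prime_dvd (orderOf_pos g).ne' (fun {q} => hq q)
      rcases hk : (orderOf g).primeFactorsList.length with _ | _ | k <;> rw [hk] at he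
      · rw [he, pow_zero]; exact one_dvd _
      · rw [he, pow_one]
      · exact absurd (exists_orderOf_eq (G := G) (he ▸ pow_dvd_pow p (by omega : 2 ≤ k + 2))) (hnosq p hp hp2)
    refine ⟨p, hp, fun g => ⟨1, by rw [pow_one]; exact hexp g⟩, ?_, ?_⟩
    · exact le_trans (lt_of_le_of_ne hp.two_le (Ne.symm hp2)) (Nat.le_of_dvd Nat.card_pos (hpd.trans (orderOf_dvd_natCard g1)))
    · refine Nat.dvd_antisymm (Monoid.exponent_dvd_of_forall_pow_eq_one hexp) ?_
      exact hpd.trans (Monoid.order_dvd_exponent g1)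
  · haveI : Fact (Nat.Prime 2) := ⟨Nat.prime_two⟩
    obtain ⟨z, hz⟩ := exists_prime_orderOf_dvd_card' 2 hev
    have hc2 : c 2 = 1 := (hz ▸ hmem z).resolve_right (h2 z hz)
    have hcard2 : Nat.card {g : G // g ^ 2 = 1} = 2 := by
      rw [card_prime_pow_one Nat.prime_two, show Nat.card {g : G // orderOf g = 2} = 1 from hc2]
    have hzc : ∀ g : G, g * z = z * g := fun g => by
      have h1 : g * z * g⁻¹ = z := huniq _ _ (by rw [← hz]; exact (MulAut.conj g).orderOf_eq z) hz
      exact mul_inv_eq_iff_eq_mul.1 h1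
    have hfour : ∀ k, k ∣ 4 → k ∣ 2 ∨ k = 4 := by
      intro k hk
      have := Nat.le_of_dvd (by norm_num) hk
      interval_cases k <;> first | omega | exact Or.inl (by norm_num) | exact Or.inr rfl
    by_cases h4 : ∃ g : G, orderOf g = 4
    · -- two-group
      obtain ⟨g4, hg4⟩ := h4
      have h4d : 4 ∣ Nat.card G := hg4 ▸ orderOf_dvd_natCard g4
      have hc4 : c 4 = n := hg4 ▸ hbig g4 (by omega)
      have h3 := frobenius_dvd 4 h4d
      have hcard4 : Nat.card {g : G // g ^ 4 = 1} = 2 + n := by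
        rw [card_step_one 4 2 4 ⟨2, rfl⟩ dvd_rfl (by norm_num) hfour, hcard2]
        exact congrArg _ hc4
      rw [hcard4] at h3
      have h8 : ¬ ∃ g : G, orderOf g = 8 := by
        rintro ⟨g8, hg8⟩
        have h5 := frobenius_dvd 8 (hg8 ▸ orderOf_dvd_natCard g8)
        rw [card_step_one 8 4 8 ⟨2, rfl⟩ dvd_rfl (by norm_num) (fun k hk => by
          have := Nat.le_of_dvd (by norm_num) hk
          interval_cases k <;> first | omega | exact Or.inl (by norm_num) | exact Or.inr rfl), hcard4,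
          show Nat.card {g : G // orderOf g = 8} = n from hg8 ▸ hbig g8 (by omega)] at h5
        omega
      have hnop : ∀ p : ℕ, p.Prime → p ∣ Nat.card G → p = 2 := by
        intro p hp hpd
        by_contra hp2
        obtain ⟨hcp, h1, hnd, h2nd⟩ := hodd p hp hp2 hpd
        have hco : Nat.Coprime 4 p := by
          rw [show 4 = 2 ^ 2 from rfl]; exact ((Nat.coprime_primes Nat.prime_two hp).2 (Ne.symm hp2)).pow_left 2
        have h5 := frobenius_dvd (4 * p) (hco.mul_dvd_of_dvd_of_dvd h4d hpd)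
        have h6 := frobenius_dvd (2 * p) (((Nat.coprime_primes Nat.prime_two hp).2 (Ne.symm hp2)).mul_dvd_of_dvd_of_dvd hev hpd)
        have hp4 : ¬ 4 ∣ 2 * p := fun e => by
          obtain ⟨l, hl⟩ := e
          exact hp2 ((Nat.prime_dvd_prime_iff_eq Nat.prime_two hp).1 ⟨l, by omega⟩).symm
        rw [card_step (4 * p) (2 * p) 4 (4 * p) (Nat.mul_dvd_mul_right ⟨2, rfl⟩ p) (dvd_mul_right 4 p) dvd_rfl
          (fun e => hp.one_lt.ne' (by omega)) hp4 (fun e => hp4 ((dvd_mul_right 4 p).trans e))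
          (fun k hk => by
            obtain ⟨i, j, hi, hj, rfl⟩ := exists_dvd_and_dvd_of_dvd_mul hk
            rcases hfour i hi with hi' | rfl
            · exact Or.inl (mul_dvd_mul hi' hj)
            · rcases (Nat.dvd_prime hp).1 hj with rfl | rfl <;> simp)] at h5
        have h7 := (dvd_mul_left p 4).trans h5
        rw [add_assoc, Nat.dvd_add_right ((dvd_mul_left p 2).trans h6), show Nat.card {g : G // orderOf g = 4} = n from hc4] at h7
        rcases hval (4 * p) (by nlinarith [hp.two_le]) with e | e <;>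
          rw [show Nat.card {g : G // orderOf g = 4 * p} = c (4 * p) from rfl, e] at h7
        · exact hnd (by rwa [add_zero] at h7)
        · exact h2nd (by rwa [two_mul])
      have h2G : IsPGroup 2 G := by
        rw [IsPGroup.iff_card]
        exact ⟨_, Nat.eq_prime_pow_of_unique_prime_dvd Nat.card_pos.ne' (fun {q} hq hqd => hnop q hq hqd)⟩
      have hexp : ∀ g : G, orderOf g ∣ 4 := by
        intro g
        obtain ⟨k, hk⟩ := IsPGroup.iff_orderOf.1 h2G g
        rcases Nat.lt_or_ge k 3 with hlt | hge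
        · rw [hk]; exact pow_dvd_pow 2 (show k ≤ 2 by omega)
        · exact absurd (exists_orderOf_eq (G := G) (hk ▸ pow_dvd_pow 2 hge)) h8
      rcases Cfsg.Lib.ZStar.isCyclic_or_inverted h2G (fun x y hx hy => huniq x y hx hy ▸ Subgroup.mem_zpowers x) with
        hcyc | ⟨-, a, g, ha, hidx, hg, hinv, hg2⟩
      · right; right; left
        obtain ⟨a, ha⟩ := hcyc.exists_ofOrder_eq_natCard
        refine ⟨hcyc, Nat.dvd_antisymm ?_ h4d⟩
        exact ha ▸ hexp a
      · right; left
        have ha4 : orderOf a = 4 := Nat.dvd_antisymm (hexp a) (by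
          have := Nat.le_of_dvd (by norm_num) (hexp a); rw [show orderOf a = 4 by omega])
        rw [ha4] at hg2
        exact Cfsg.Lib.ZStar.nonempty_quaternion_of_inverted two_ne_zero ha4 hidx hg hinv hg2
    · right; right; right
      have hS : ∀ g : G, (∃ k, orderOf g = 2 ^ k) → g ^ 2 = 1 := by
        rintro g ⟨k, hk⟩
        rw [← orderOf_dvd_iff_pow_eq_one, hk]
        rcases Nat.lt_or_ge k 2 with hlt | hge
        · exact (pow_dvd_pow 2 (show k ≤ 1 by omega)).trans (dvd_of_eq (pow_one 2))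
        · exact absurd (exists_orderOf_eq (G := G) (hk ▸ pow_dvd_pow 2 hge)) h4
      obtain T := (default : Sylow 2 G)
      have hTle : Nat.card T ≤ 2 := by
        refine le_of_le_of_eq ?_ hcard2
        exact Nat.card_le_card_of_injective (fun t => (⟨(t : G), hS _ (by
          obtain ⟨k, hk⟩ := IsPGroup.iff_orderOf.1 T.isPGroup' t
          exact ⟨k, by rw [Subgroup.orderOf_coe, hk]⟩)⟩ : {g : G // g ^ 2 = 1}))
          (fun s t e => Subtype.ext (congrArg (fun x : {g : G // g ^ 2 = 1} => x.1) e))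
      obtain ⟨p, hp, hp2, hpd⟩ : ∃ p : ℕ, p.Prime ∧ p ≠ 2 ∧ p ∣ Nat.card G := by
        by_contra hno
        push Not at hno
        refine hn ?_
        rw [← hg0]
        have hd2 : orderOf g0 ∣ 2 := by
          refine orderOf_dvd_of_pow_eq_one (hS g0 ⟨_, Nat.eq_prime_pow_of_unique_prime_dvd (orderOf_pos g0).ne' (fun {q} hq hqd => ?_)⟩)
          exact by_contra fun e => hno q hq e (hqd.trans (orderOf_dvd_natCard g0))
        rcases (Nat.dvd_prime Nat.prime_two).1 hd2 with e | e
        · rw [e, hone]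
        · rw [e, hc2]
      haveI := Fact.mk hp
      obtain ⟨hcp, h1, hnd, -⟩ := hodd p hp hp2 hpd
      have hco : Nat.Coprime 2 p := (Nat.coprime_primes Nat.prime_two hp).2 (Ne.symm hp2)
      have hord : ∀ g : G, orderOf g ∣ 2 * p := by
        intro g
        refine Nat.dvd_of_primeFactorsList_subperm (orderOf_pos g).ne' ?_
        rw [List.subperm_ext_iff]
        intro q hq
        obtain ⟨hq1, hq2⟩ := (Nat.mem_primeFactorsList (orderOf_pos g).ne').1 hq
        rw [Nat.primeFactorsList_count_eq, Nat.primeFactorsList_count_eq]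
        have hqG := hq2.trans (orderOf_dvd_natCard g)
        have hsq : ¬ q ^ 2 ∣ orderOf g := fun e => by
          obtain ⟨x, hx⟩ := exists_orderOf_eq (G := G) e
          by_cases hq2' : q = 2
          · subst hq2'; exact h4 ⟨x, hx⟩
          · exact hnosq q hq1 hq2' ⟨x, hx⟩
        have hle1 : (orderOf g).factorization q ≤ 1 := by
          by_contra hgt
          exact hsq ((hq1.pow_dvd_iff_le_factorization (orderOf_pos g).ne').2 (by omega))
        refine le_trans hle1 (Nat.Prime.factorization_pos_of_dvd hq1 (mul_ne_zero two_ne_zero hp.ne_zero) ?_)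
        by_cases hq2' : q = 2
        · exact hq2' ▸ dvd_mul_right 2 p
        · exact (honep q p hq1 hp hq2' hp2 hqG hpd) ▸ dvd_mul_left p 2
      obtain ⟨x, hx⟩ := exists_prime_orderOf_dvd_card' p hpd
      have hzx : orderOf (z * x) = 2 * p := by
        rw [(show Commute z x from (hzc x).symm).orderOf_mul_eq_mul_orderOf_of_coprime (by rw [hz, hx]; exact hco), hz, hx]
      have hp3 : 2 < 2 * p := by have := hp.two_le; omega
      have hcardG : Nat.card G = 2 + 2 * n := by
        rw [← Nat.card_congr (Equiv.subtypeUnivEquiv (fun g => orderOf_dvd_iff_pow_eq_one.1 (hord g))),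
          card_step (2 * p) 2 p (2 * p) (dvd_mul_right 2 p) (dvd_mul_left p 2) dvd_rfl (by have := hp.pos; omega)
            (fun e => hp2 ((Nat.prime_dvd_prime_iff_eq hp Nat.prime_two).1 e))
            (fun e => hp2 ((Nat.prime_dvd_prime_iff_eq hp Nat.prime_two).1 ((dvd_mul_left p 2).trans e)))
            (fun k hk => by
              obtain ⟨i, j, hi, hj, rfl⟩ := exists_dvd_and_dvd_of_dvd_mul hk
              rcases (Nat.dvd_prime Nat.prime_two).1 hi with rfl | rfl <;>
                rcases (Nat.dvd_prime hp).1 hj with rfl | rfl <;> simp),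
          hcard2, show Nat.card {g : G // orderOf g = p} = n from hcp,
          show Nat.card {g : G // orderOf g = 2 * p} = n from hzx ▸ hbig (z * x) (hzx ▸ hp3)]
        omega
      obtain Q := (default : Sylow p G)
      have hQexp : ∀ u ∈ (Q : Subgroup G), u ^ p = 1 := by
        intro u hu
        obtain ⟨k, hk⟩ := IsPGroup.iff_orderOf.1 Q.isPGroup' ⟨u, hu⟩
        rw [Subgroup.orderOf_mk] at hk
        rw [← orderOf_dvd_iff_pow_eq_one, hk]
        have h5 := hord u
        rw [hk] at h5
        exact (Nat.Coprime.dvd_of_dvd_mul_left (hco.symm.pow_left k) h5)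
      have hQle : Nat.card Q ≤ 1 + n := by
        rw [← show Nat.card {g : G // g ^ p = 1} = 1 + n by rw [card_prime_pow_one hp]; exact congrArg _ hcp]
        exact Nat.card_le_card_of_injective (fun u => (⟨(u : G), hQexp _ u.2⟩ : {g : G // g ^ p = 1}))
          (fun s t e => Subtype.ext (congrArg (fun y : {g : G // g ^ p = 1} => y.1) e))
      set Z := Subgroup.zpowers z with hZ
      have hZcard : Nat.card Z = 2 := by rw [hZ, Nat.card_zpowers, hz]
      have hZc : ∀ a : ↥Z, ∀ u : G, (a : G) * u = u * a := by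
        rintro ⟨a, i, rfl⟩ u
        exact ((show Commute z u from (hzc u).symm).zpow_left i).eq
      haveI : IsCyclic (Multiplicative (ZMod 2)) := inferInstance
      let ez : Multiplicative (ZMod 2) ≃* ↥Z :=
        mulEquivOfCyclicCardEq (by rw [hZcard, Nat.card_congr Multiplicative.toAdd, Nat.card_zmod])
      let ψ : Multiplicative (ZMod 2) × ↥(Q : Subgroup G) →* G :=
        MonoidHom.noncommCoprod (Z.subtype.comp ez.toMonoidHom) (Q : Subgroup G).subtype (fun a u => hZc (ez a) u)
      have hinj : Function.Injective ψ := by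
        rw [injective_iff_map_eq_one]
        rintro ⟨a, u⟩ e
        have e' : ((ez a : G)) * (u : G) = 1 := e
        have h5 : (u : G) ^ 2 = 1 := by
          rw [eq_inv_of_mul_eq_one_right e', inv_pow, inv_eq_one]
          exact congrArg Subtype.val (show (ez a) ^ 2 = 1 from orderOf_dvd_iff_pow_eq_one.1 ((orderOf_dvd_natCard (ez a)).trans (dvd_of_eq hZcard)))
        have hu : (u : G) = 1 := by
          rw [← orderOf_eq_one_iff]
          exact Nat.eq_one_of_dvd_coprimes hco (orderOf_dvd_of_pow_eq_one h5) (orderOf_dvd_of_pow_eq_one (hQexp _ u.2))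
        rw [hu, mul_one] at e'
        exact Prod.ext (ez.injective (Subtype.ext (e'.trans (congrArg Subtype.val (map_one ez)).symm))) (Subtype.ext hu)
      have hQge : 1 + n ≤ Nat.card Q := by
        -- the index of a Sylow subgroup is two
        have hdiv : Nat.card G ∣ 2 * Nat.card Q := by
          refine Nat.dvd_of_primeFactorsList_subperm Nat.card_pos.ne' ?_
          rw [List.subperm_ext_iff]
          intro q hq
          obtain ⟨hq1, hq2⟩ := (Nat.mem_primeFactorsList Nat.card_pos.ne').1 hq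
          rw [Nat.primeFactorsList_count_eq, Nat.primeFactorsList_count_eq,
            Nat.factorization_mul two_ne_zero Nat.card_pos.ne', Finsupp.add_apply, Q.card_eq_multiplicity,
            Nat.Prime.factorization_pow hp]
          by_cases hq2' : q = 2
          · subst hq2'
            have h5 : 2 ^ (Nat.card G).factorization 2 ≤ 2 ^ 1 := T.card_eq_multiplicity ▸ hTle
            rw [Nat.prime_two.factorization_self, Finsupp.single_eq_of_ne (Ne.symm hp2)]
            exact (Nat.pow_le_pow_iff_right one_lt_two).1 h5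
          · have : q = p := honep q p hq1 hp hq2' hp2 hq2 hpd
            subst this
            rw [Finsupp.single_eq_same]
            exact Nat.le_add_left _ _
        have h5 := Nat.le_of_dvd (Nat.mul_pos two_pos Nat.card_pos) hdiv
        rw [hcardG] at h5
        omega
      have hbij : Function.Bijective ψ := (Nat.bijective_iff_injective_and_card ψ).2 ⟨hinj, by
        rw [Nat.card_prod, Nat.card_congr Multiplicative.toAdd, Nat.card_zmod, hcardG, le_antisymm hQle hQge]; omega⟩
      let e₀ : {i : Fin (Nat.card ↥(Q : Subgroup G)) // True} ≃ ↥(Q : Subgroup G) :=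
        (Equiv.subtypeUnivEquiv fun _ => trivial).trans (Finite.equivFin _).symm
      letI : Group {i : Fin (Nat.card ↥(Q : Subgroup G)) // True} := e₀.group
      let e₁ : {i : Fin (Nat.card ↥(Q : Subgroup G)) // True} ≃* ↥(Q : Subgroup G) := e₀.mulEquiv
      refine ⟨p, _, inferInstance, inferInstance, hp, hp2, Q.isPGroup'.of_equiv e₁.symm, ?_,
        ⟨(MulEquiv.ofBijective ψ hbij).symm.trans (MulEquiv.prodCongr (MulEquiv.refl _) e₁.symm)⟩⟩
      rw [Monoid.exponent_eq_of_mulEquiv e₁]
      refine Nat.dvd_antisymm (Monoid.exponent_dvd_of_forall_pow_eq_one fun u => Subtype.ext (hQexp _ u.2)) ?_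
      obtain ⟨u, hu⟩ := exists_prime_orderOf_dvd_card' (G := ↥(Q : Subgroup G)) p (Q.dvd_card_of_dvd_card hpd)
      exact (dvd_of_eq hu.symm).trans (Monoid.order_dvd_exponent u)

end Cfsg.Agent.S3995
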