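import Cfsg.Statements.S3997
import Mathlib
-- import your own Cfsg.Agent.* helpers here

set_option autoImplicit false
open Cfsg

namespace Cfsg.Agent.S3997

theorem card_eq_sum {K : Type*} [Group K] [Finite K] (N : ℕ) (hN : ∀ k : K, orderOf k ∣ N) (hN0 : N ≠ 0) :
    Nat.card K = ∑ m ∈ N.divisors, Nat.card {k : K // orderOf k = m} := by
  classical
  haveI := Fintype.ofFinite K
  rw [Nat.card_eq_fintype_card, ← Finset.card_univ,
    Finset.card_eq_sum_card_fiberwise (f := orderOf) (t := N.divisors)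
      (fun k _ => Nat.mem_divisors.2 ⟨hN k, hN0⟩)]
  refine Finset.sum_congr rfl fun m _ => ?_
  rw [Nat.card_eq_fintype_card, Fintype.card_subtype]

theorem card_pow_eq_sum {K : Type*} [Group K] [Finite K] (n : ℕ) (hn : n ≠ 0) :
    Nat.card {k : K // k ^ n = 1} = ∑ m ∈ n.divisors, Nat.card {k : K // orderOf k = m} := by
  classical
  haveI := Fintype.ofFinite K
  rw [Nat.card_eq_fintype_card, Fintype.card_subtype,
    Finset.card_eq_sum_card_fiberwise (f := orderOf) (t := n.divisors)
      (fun k hk => Nat.mem_divisors.2 ⟨orderOf_dvd_of_pow_eq_one (Finset.mem_filter.1 hk).2, hn⟩)]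
  refine Finset.sum_congr rfl fun m hm => ?_
  rw [Nat.card_eq_fintype_card, Fintype.card_subtype, Finset.filter_filter]
  congr 1
  refine Finset.filter_congr fun k _ => ⟨fun h => h.2, fun h => ⟨?_, h⟩⟩
  rw [← orderOf_dvd_iff_pow_eq_one, h]
  exact (Nat.mem_divisors.1 hm).1

/-- Let G and H be finite groups with the same order type: for every m they have the same number of elements of order m. If G is nilpotent then so is H. -/
theorem result {G H : Type*} [Group G] [Finite G] [Group H] [Finite H] (hT : (∀ m : ℕ, Nat.card {g : G // orderOf g = m} = Nat.card {h : H // orderOf h = m})) (hG : Group.IsNilpotent G) :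
    Group.IsNilpotent H := by
  classical
  haveI := hG
  haveI := Fintype.ofFinite G
  haveI := Fintype.ofFinite H
  have hcard : Nat.card G = Nat.card H := by
    set N := Nat.card G * Nat.card H
    have hN0 : N ≠ 0 := mul_ne_zero Nat.card_pos.ne' Nat.card_pos.ne'
    rw [card_eq_sum (K := G) N (fun k => dvd_mul_of_dvd_left (orderOf_dvd_natCard k) _) hN0,
      card_eq_sum (K := H) N (fun k => dvd_mul_of_dvd_right (orderOf_dvd_natCard k) _) hN0]
    exact Finset.sum_congr rfl fun m _ => hT m
  have hpow : ∀ n : ℕ, n ≠ 0 → Nat.card {g : G // g ^ n = 1} = Nat.card {h : H // h ^ n = 1} := by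
    intro n hn
    rw [card_pow_eq_sum (K := G) n hn, card_pow_eq_sum (K := H) n hn]
    exact Finset.sum_congr rfl fun m _ => hT m
  refine ((Group.isNilpotent_of_finite_tfae (G := H)).out 3 0 :).1 fun p hp Q => ?_
  haveI := hp
  obtain ⟨P⟩ := (inferInstance : Nonempty (Sylow p G))
  haveI : (P : Subgroup G).Normal :=
    ((Group.isNilpotent_of_finite_tfae (G := G)).out 0 3 :).1 hG p hp P
  obtain ⟨k, hk⟩ := P.2.exists_card_eq
  have hGP : Nat.card {g : G // g ^ p ^ k = 1} = p ^ k := by
    rw [← hk]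
    refine Nat.card_congr (Equiv.subtypeEquivRight fun g => ⟨fun hg => ?_, fun hg => ?_⟩)
    · have h1 : IsPGroup p ↥((P : Subgroup G) ⊔ Subgroup.zpowers g) := by
        refine P.2.to_sup_of_normal_left ?_
        rw [hk] at hg
        obtain ⟨i, -, hi⟩ := (Nat.dvd_prime_pow hp.out).1 (orderOf_dvd_of_pow_eq_one hg)
        exact IsPGroup.of_card (n := i) (by rw [Nat.card_zpowers, hi])
      rw [← P.3 h1 le_sup_left]
      exact le_sup_right (a := (P : Subgroup G)) (Subgroup.mem_zpowers g)
    · exact congrArg Subtype.val (pow_card_eq_one' (x := (⟨g, hg⟩ : (P : Subgroup G))))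
  have hQ : Nat.card Q = p ^ k := by
    rw [Q.card_eq_multiplicity, ← hcard, ← P.card_eq_multiplicity, hk]
  rw [hpow _ (pow_ne_zero _ hp.out.ne_zero)] at hGP
  refine ⟨fun x hx h => ?_⟩
  have hset : {y : H | y ∈ (Q : Subgroup H)} = {y | y ^ p ^ k = 1} := by
    refine Set.eq_of_subset_of_ncard_le (fun y hy => ?_) ?_ (Set.toFinite _)
    · rw [← hQ]; exact congrArg Subtype.val (pow_card_eq_one' (x := (⟨y, hy⟩ : (Q : Subgroup H))))
    · rw [← Nat.card_coe_set_eq, ← Nat.card_coe_set_eq]
      exact le_of_eq (hGP.trans hQ.symm)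
  have e : h * x * h⁻¹ ∈ {y : H | y ∈ (Q : Subgroup H)} := by
    rw [hset]
    show (h * x * h⁻¹) ^ p ^ k = 1
    rw [conj_pow, show x ^ p ^ k = 1 from hset.le hx]; group
  exact e

end Cfsg.Agent.S3997
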