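import Cfsg.Statements.S3999
import Mathlib
import Cfsg.Agent.Lib.Solv.OrderTypeFrobenius
import Cfsg.Agent.S0042
-- import your own Cfsg.Agent.* helpers here

set_option autoImplicit false
open Cfsg
open scoped Pointwise

namespace Cfsg.Agent.S3999

/-- Let F be a finite Frobenius group (it has a Frobenius complement) and G a finite group with the same order type as F (for every m the same number of elements of order m). Then G is a Frobenius group; moreover G is solvable if and only if F is. -/
theorem result {F G : Type*} [Group F] [Finite F] [Group G] [Finite G] (hF : (∃ C : Subgroup F, Cfsg.IsFrobeniusComplement C)) (hT : (∀ m : ℕ, Nat.card {g : F // orderOf g = m} = Nat.card {h : G // orderOf h = m})) :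
    (∃ C : Subgroup G, Cfsg.IsFrobeniusComplement C) ∧ (Group.IsSolvable G ↔ Group.IsSolvable F) := by
  classical
  obtain ⟨C, hC⟩ := hF
  obtain ⟨K, hKn, hKeq, hKc⟩ := Cfsg.Lib.Solv.exists_frobeniusKernel hC
  haveI := hKn
  obtain ⟨K0, hK0eq, hK0n, hK0nil⟩ := Cfsg.Agent.S0042.result C hC
  obtain rfl : K0 = K := SetLike.coe_injective (hK0eq.trans hKeq.symm)
  haveI := hK0nil
  obtain ⟨e, he⟩ := Cfsg.Lib.Solv.exists_equiv_orderOf hT
  have hcardFG : Nat.card F = Nat.card G := Nat.card_congr e
  set k := Nat.card K0 with hk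
  set c := Nat.card C with hc
  have hkc : k * c = Nat.card F := hKc.card_mul
  have hidx : C.index = k := hKc.index_eq_card
  have hcop : k.Coprime c := by
    have := Cfsg.Lib.Solv.frob_coprime_index hC
    rw [hidx] at this
    exact this.symm
  have hk1 : k ≠ 1 := fun h => hC.2.1 (Subgroup.index_eq_one.1 (hidx.trans h))
  have hc1 : c ≠ 1 := fun h => hC.1 (Subgroup.eq_bot_of_card_eq C h)
  have hKidx : K0.index = c := hKc.symm.index_eq_card
  -- Sylow subgroups of `G` for the kernel primes are normal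
  have hnorm : ∀ (p : ℕ) [Fact p.Prime], p ∣ k → ∀ P : Sylow p G, (P : Subgroup G).Normal ∧
      Nat.card (P : Subgroup G) ∣ k := by
    intro p _ hpk P
    have hp : p.Prime := Fact.out
    obtain ⟨Q⟩ : Nonempty (Sylow p K0) := inferInstance
    haveI hQn : (Q : Subgroup K0).Normal :=
      ((Group.isNilpotent_of_finite_tfae (G := K0)).out 0 3 :).1 hK0nil p inferInstance Q
    haveI hQc : (Q : Subgroup K0).Characteristic := Q.characteristic_of_normal hQn
    set Q' := (Q : Subgroup K0).map K0.subtype with hQ'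
    haveI hQ'n : Q'.Normal := ConjAct.normal_of_characteristic_of_normal
    have hpc : ¬ p ∣ c := fun h => hp.ne_one (Nat.eq_one_of_dvd_coprimes hcop hpk h)
    have hfac : (Nat.card G).factorization p = k.factorization p := by
      rw [← hcardFG, ← hkc, Nat.factorization_mul Nat.card_pos.ne' Nat.card_pos.ne']
      simp only [Finsupp.coe_add, Pi.add_apply]
      rw [show (Nat.card C).factorization p = 0 from Nat.factorization_eq_zero_of_not_dvd hpc, add_zero]
    have hQcard : Nat.card Q' = Nat.card (P : Subgroup G) := by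
      rw [hQ', Subgroup.card_map_of_injective K0.subtype_injective, Q.card_eq_multiplicity,
        P.card_eq_multiplicity, hfac]
    -- all `p`-elements of `F` lie in `Q'`
    have hall : ∀ x : F, orderOf x ∣ Nat.card Q' → x ∈ Q' := by
      intro x hx
      obtain ⟨P', hP'⟩ := (show IsPGroup p Q' from Q.isPGroup'.map _).exists_le_sylow
      have hP'eq : (P' : Subgroup F) = Q' := by
        refine (Subgroup.eq_of_le_of_card_ge hP' ?_).symm
        rw [hQcard, P'.card_eq_multiplicity, P.card_eq_multiplicity, hcardFG]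
      obtain ⟨j, hj⟩ := (show IsPGroup p Q' from Q.isPGroup'.map _).exists_card_eq
      rw [hj] at hx
      obtain ⟨i, -, hi⟩ := (Nat.dvd_prime_pow hp).1 hx
      have hz : IsPGroup p (Subgroup.zpowers x) := IsPGroup.of_card (n := i) (by rw [Nat.card_zpowers, hi])
      obtain ⟨P'', hP''⟩ := hz.exists_le_sylow
      obtain ⟨g, rfl⟩ := MulAction.exists_smul_eq F P' P''
      have h1 : x ∈ MulAut.conj g • (P' : Subgroup F) := hP'' (Subgroup.mem_zpowers x)
      rwa [hP'eq, Cfsg.Lib.Solv.conj_smul_normal] at h1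
    have hsub : ∀ x : G, x ∈ (P : Subgroup G) → orderOf x ∣ Nat.card (P : Subgroup G) := fun x hx =>
      Subgroup.orderOf_dvd_natCard _ hx
    have hcount : Nat.card {x : G // orderOf x ∣ Nat.card (P : Subgroup G)} = Nat.card (P : Subgroup G) := by
      rw [← Nat.card_congr (e.subtypeEquiv (p := fun x => orderOf x ∣ Nat.card (P : Subgroup G))
        (q := fun x => orderOf x ∣ Nat.card (P : Subgroup G)) fun x => by rw [he]), ← hQcard]
      exact Nat.card_congr (Equiv.subtypeEquivRight fun x =>
        ⟨hall x, fun hx => Subgroup.orderOf_dvd_natCard _ hx⟩)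
    have hset : ((P : Subgroup G) : Set G) = {x | orderOf x ∣ Nat.card (P : Subgroup G)} :=
      Set.eq_of_subset_of_ncard_le hsub
        (by rw [← Nat.card_coe_set_eq, ← Nat.card_coe_set_eq]; exact hcount.le) (Set.toFinite _)
    refine ⟨⟨fun x hx g => ?_⟩, ?_⟩
    · have hx' : orderOf x ∣ Nat.card (P : Subgroup G) := hsub x hx
      rw [← SetLike.mem_coe, hset, Set.mem_setOf_eq,
        show orderOf (g * x * g⁻¹) = orderOf x from
          orderOf_injective (MulAut.conj g).toMonoidHom (MulAut.conj g).injective x]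
      exact hx'
    · rw [← hQcard, hQ', Subgroup.card_map_of_injective K0.subtype_injective]
      exact Subgroup.card_subgroup_dvd_card _
  -- the normal Hall subgroup of `G`
  obtain ⟨K', hK'n, hK'nil, hK'⟩ : ∃ K' : Subgroup G, K'.Normal ∧ Group.IsSolvable K' ∧ Nat.card K' = k := by
    suffices h : ∀ S : Finset ℕ, S ⊆ k.primeFactors → ∃ M : Subgroup G, M.Normal ∧ Group.IsSolvable M ∧
        Nat.card M ∣ k ∧ (∀ r ∈ S, ¬ r ∣ M.index) by
      obtain ⟨M, h1, h2, h3, h4⟩ := h _ subset_rfl
      refine ⟨M, h1, h2, Nat.dvd_antisymm h3 ?_⟩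
      have h5 : k ∣ Nat.card M * M.index := by
        rw [M.card_mul_index, ← hcardFG, ← hkc]; exact dvd_mul_right _ _
      refine (Nat.Coprime.dvd_of_dvd_mul_right ?_ h5)
      exact Nat.coprime_of_dvd fun r hr hrk hrd => h4 r (Nat.mem_primeFactors.2 ⟨hr, hrk, Nat.card_pos.ne'⟩) hrd
    intro S
    induction S using Finset.induction_on with
    | empty => exact fun _ => ⟨⊥, inferInstance, inferInstance, by simp, by simp⟩
    | @insert r S hr ih =>
      intro hS
      obtain ⟨M, hMn, hMs, hMd, hMi⟩ := ih ((Finset.subset_insert _ _).trans hS)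
      obtain ⟨hrp, hrk, -⟩ := Nat.mem_primeFactors.1 (hS (Finset.mem_insert_self r S))
      haveI := Fact.mk hrp
      let P : Sylow r G := default
      obtain ⟨hPn, hPd⟩ := hnorm r hrk P
      haveI := P.isPGroup'.isNilpotent
      refine ⟨(P : Subgroup G) ⊔ M, inferInstance,
        Cfsg.Lib.Solv.solvable_sup _ _ (inferInstance) hMs, ?_, ?_⟩
      · -- only primes of `k`
        have hdvd : Nat.card ↥((P : Subgroup G) ⊔ M) ∣ Nat.card (P : Subgroup G) * Nat.card M := by
          have h4 := Subgroup.relIndex_mul_relIndex ⊥ M ((P : Subgroup G) ⊔ M) bot_le le_sup_right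
          rw [Subgroup.relIndex_bot_left, Subgroup.relIndex_bot_left, Subgroup.relIndex_sup_right] at h4
          rw [← h4, mul_comm]
          exact mul_dvd_mul (Subgroup.relIndex_dvd_card _ _) dvd_rfl
        have h1 : Nat.card ↥((P : Subgroup G) ⊔ M) ∣ k * k :=
          hdvd.trans (mul_dvd_mul hPd hMd)
        have h2 : Nat.card ↥((P : Subgroup G) ⊔ M) ∣ k * c := by
          rw [hkc, hcardFG]; exact Subgroup.card_subgroup_dvd_card _
        have h3 := Nat.dvd_gcd h1 h2
        rwa [Nat.gcd_mul_left, hcop.gcd_eq_one, mul_one] at h3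
      · intro s hs hd
        rcases Finset.mem_insert.1 hs with rfl | hs
        · exact P.not_dvd_index (hd.trans (Subgroup.index_dvd_of_le le_sup_left))
        · exact hMi s hs (hd.trans (Subgroup.index_dvd_of_le le_sup_right))
  haveI := hK'n
  have hcopK : (Nat.card K').Coprime K'.index := by
    have h1 := K'.card_mul_index
    rw [hK', ← hcardFG, ← hkc] at h1
    rw [hK', Nat.eq_of_mul_eq_mul_left Nat.card_pos h1]
    exact hcop
  obtain ⟨C', hC'c⟩ := Subgroup.exists_right_complement'_of_coprime hcopK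
  have hC'card : Nat.card C' = c := by
    have := hC'c.card_mul
    rw [hK', ← hcardFG, ← hkc] at this
    exact Nat.eq_of_mul_eq_mul_left Nat.card_pos this
  -- no element of mixed order
  have hmix : ∀ w : F, ∀ p q : ℕ, p.Prime → q.Prime → p ∣ k → q ∣ c → orderOf w ≠ p * q := by
    intro w p q hp hq hpk hqc hw
    by_cases hwK : w ∈ K0
    · exact hq.ne_one (Nat.eq_one_of_dvd_coprimes hcop
        ((hw ▸ dvd_mul_left q p).trans (Subgroup.orderOf_dvd_natCard _ hwK)) hqc)
    · rw [← SetLike.mem_coe, hKeq, Cfsg.Lib.Solv.mem_frobeniusKernel] at hwK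
      push Not at hwK
      obtain ⟨-, g, hg⟩ := hwK
      refine hp.ne_one (Nat.eq_one_of_dvd_coprimes hcop hpk ((hw ▸ dvd_mul_right p q).trans ?_))
      have := Subgroup.orderOf_dvd_natCard _ hg
      rwa [show Nat.card ↥(MulAut.conj g • C) = c from
        (Nat.card_congr (Subgroup.equivSMul (MulAut.conj g) C).toEquiv).symm] at this
  have hfrobG : Cfsg.IsFrobeniusComplement C' := by
    refine Cfsg.Lib.Solv.isFrobeniusComplement_of_fpf (K := K') hC'c
      (fun h => hk1 (by rw [← hK', h, Subgroup.card_bot]))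
      (fun h => hc1 (by rw [← hC'card, h, Subgroup.card_bot])) fun h hh hh1 => ?_
    rw [eq_bot_iff]
    rintro z ⟨hzK, hzc⟩
    rw [Subgroup.mem_bot]
    by_contra hz1
    obtain ⟨p, hp, hpd⟩ := Nat.exists_prime_and_dvd (fun h' => hz1 (orderOf_eq_one_iff.1 h'))
    obtain ⟨q, hq, hqd⟩ := Nat.exists_prime_and_dvd (fun h' => hh1 (orderOf_eq_one_iff.1 h'))
    have hpk : p ∣ k := hpd.trans (hK' ▸ Subgroup.orderOf_dvd_natCard _ hzK)
    have hqc : q ∣ c := hqd.trans (hC'card ▸ Subgroup.orderOf_dvd_natCard _ hh)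
    have hcomm : Commute z h := Subgroup.mem_centralizer_singleton_iff.1 hzc
    set z0 := z ^ (orderOf z / p)
    set h0 := h ^ (orderOf h / q)
    have oz : orderOf z0 = p := orderOf_pow_orderOf_div (orderOf_pos z).ne' hpd
    have oh : orderOf h0 = q := orderOf_pow_orderOf_div (orderOf_pos h).ne' hqd
    have hpq : p.Coprime q := Nat.Coprime.coprime_dvd_left hpk (Nat.Coprime.coprime_dvd_right hqc hcop)
    have hw : orderOf (z0 * h0) = p * q := by
      rw [(hcomm.pow_pow _ _).orderOf_mul_eq_mul_orderOf_of_coprime (by rw [oz, oh]; exact hpq), oz, oh]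
    refine hmix (e.symm (z0 * h0)) p q hp hq hpk hqc ?_
    rw [← he, e.apply_symm_apply, hw]
  refine ⟨⟨C', hfrobG⟩, ?_⟩
  -- the complements have the same order type
  obtain ⟨K1, hK1n, hK1eq, hK1c⟩ := Cfsg.Lib.Solv.exists_frobeniusKernel hfrobG
  have hK1card : Nat.card K1 = k := by
    have := hK1c.card_mul
    rw [hC'card, ← hcardFG, ← hkc] at this
    exact Nat.eq_of_mul_eq_mul_right Nat.card_pos this
  have hC'idx : C'.index = k := hK1c.index_eq_card.trans hK1card
  have hTC : ∀ m : ℕ, Nat.card {g : C // orderOf g = m} = Nat.card {g : C' // orderOf g = m} := by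
    intro m
    rcases eq_or_ne m 1 with rfl | hm
    · have h1 : Nat.card {g : C // orderOf g = 1} = 1 := Nat.card_eq_one_iff_exists.2
        ⟨⟨1, orderOf_one⟩, fun y => Subtype.ext (orderOf_eq_one_iff.1 y.2)⟩
      have h2 : Nat.card {g : C' // orderOf g = 1} = 1 := Nat.card_eq_one_iff_exists.2
        ⟨⟨1, orderOf_one⟩, fun y => Subtype.ext (orderOf_eq_one_iff.1 y.2)⟩
      rw [h1, h2]
    by_cases hmc : m ∣ c
    · have h1 := Cfsg.Lib.Solv.card_orderOf_eq_of_frobenius C K0 hC hKeq m hm hmc hcop
      have h2 := Cfsg.Lib.Solv.card_orderOf_eq_of_frobenius C' K1 hfrobG hK1eq m hm (hC'card.symm ▸ hmc)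
        (by rw [hK1card, hC'card]; exact hcop)
      rw [hT m, h2, hidx, hC'idx] at h1
      exact (Nat.eq_of_mul_eq_mul_left Nat.card_pos h1).symm
    · have h1 : IsEmpty {g : C // orderOf g = m} := ⟨fun g => hmc (g.2 ▸ orderOf_dvd_natCard g.1)⟩
      have h2 : IsEmpty {g : C' // orderOf g = m} :=
        ⟨fun g => hmc (hC'card ▸ g.2 ▸ orderOf_dvd_natCard g.1)⟩
      rw [Nat.card_of_isEmpty, Nat.card_of_isEmpty]
  obtain ⟨eC, heC⟩ := Cfsg.Lib.Solv.exists_equiv_orderOf hTC
  rw [Cfsg.Lib.Solv.solvable_iff_complement K' C' hC'c hK'nil,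
    Cfsg.Lib.Solv.solvable_iff_complement K0 C hKc inferInstance]
  haveI := hK1n
  constructor
  · intro hs
    exact Cfsg.Lib.Solv.solvable_of_orderType_almostCyclic hs (Cfsg.Lib.Solv.almostCyclicSylow_of_frobenius C' K1 hfrobG hK1c) eC.symm
      fun g => by rw [← heC (eC.symm g), eC.apply_symm_apply]
  · intro hs
    exact Cfsg.Lib.Solv.solvable_of_orderType_almostCyclic hs (Cfsg.Lib.Solv.almostCyclicSylow_of_frobenius C K0 hC hKc) eC heC

end Cfsg.Agent.S3999
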