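import Cfsg.Statements.S4002
import Mathlib
import Mathlib
import Cfsg.Agent.Lib.Solv.Hall
import Cfsg.Agent.S1475
-- import your own Cfsg.Agent.* helpers here

set_option autoImplicit false
open Cfsg

namespace Cfsg.Agent.S4002

/-- If the set of element orders of a finite group G is {1, 2, …, n} with n ≥ 7, then G is not solvable. -/
theorem result {G : Type*} [Group G] [Finite G] (n : ℕ) (hn : 7 ≤ n) (h : Set.range (orderOf : G → ℕ) = {k : ℕ | 1 ≤ k ∧ k ≤ n}) : ¬ Group.IsSolvable G := by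
  intro hs
  haveI := hs
  classical
  obtain ⟨p, q, r, hp, hq, hr, hpn, hqn, hrn, hpq', hpr', hqr'⟩ : ∃ p q r : ℕ, p.Prime ∧ q.Prime ∧
      r.Prime ∧ p ≤ n ∧ q ≤ n ∧ r ≤ n ∧ (p ≠ q ∧ n < p * q) ∧ (p ≠ r ∧ n < p * r) ∧ (q ≠ r ∧ n < q * r) := by
    rcases Nat.lt_or_ge n 10 with h1 | h1
    · exact ⟨2, 5, 7, by norm_num, by norm_num, by norm_num, by omega, by omega, by omega, by omega, by omega, by omega⟩
    rcases Nat.lt_or_ge n 11 with h2 | h2
    · exact ⟨3, 5, 7, by norm_num, by norm_num, by norm_num, by omega, by omega, by omega, by omega, by omega, by omega⟩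
    rcases Nat.lt_or_ge n 35 with h3 | h3
    · exact ⟨5, 7, 11, by norm_num, by norm_num, by norm_num, by omega, by omega, by omega, by omega, by omega, by omega⟩
    obtain ⟨p, hp, hp1, hp2⟩ := Nat.exists_prime_lt_and_le_two_mul (n / 8) (by omega)
    obtain ⟨q, hq, hq1, hq2⟩ := Nat.exists_prime_lt_and_le_two_mul (n / 4) (by omega)
    obtain ⟨r, hr, hr1, hr2⟩ := Nat.exists_prime_lt_and_le_two_mul (n / 2) (by omega)
    have m1 : (n / 8 + 1) * (n / 4 + 1) ≤ p * q := Nat.mul_le_mul hp1 hq1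
    have m2 : (n / 8 + 1) * (n / 2 + 1) ≤ p * r := Nat.mul_le_mul hp1 hr1
    have m3 : (n / 4 + 1) * (n / 2 + 1) ≤ q * r := Nat.mul_le_mul hq1 hr1
    have k8 : 5 ≤ n / 8 + 1 := by omega
    have k4 : 9 ≤ n / 4 + 1 := by omega
    have n1 : 5 * (n / 4 + 1) ≤ p * q := (Nat.mul_le_mul_right _ k8).trans m1
    have n2 : 5 * (n / 2 + 1) ≤ p * r := (Nat.mul_le_mul_right _ k8).trans m2
    have n3 : 9 * (n / 2 + 1) ≤ q * r := (Nat.mul_le_mul_right _ k4).trans m3
    exact ⟨p, q, r, hp, hq, hr, by omega, by omega, by omega, by omega, by omega, by omega⟩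
  set π : Set ℕ := {p, q, r} with hπ
  obtain ⟨K, hKπ, hKi⟩ := Cfsg.Lib.Solv.hall_exists (G := G) π
  have hdvd : ∀ s : ℕ, s.Prime → s ≤ n → s ∈ π → s ∣ Nat.card K := by
    intro s hs' hsn hsπ
    obtain ⟨g, hg⟩ : s ∈ Set.range (orderOf : G → ℕ) := by rw [h]; exact ⟨hs'.one_lt.le, hsn⟩
    have h1 : s ∣ Nat.card G := hg ▸ orderOf_dvd_natCard g
    rw [← Subgroup.card_mul_index K] at h1
    exact (hs'.dvd_mul.1 h1).resolve_right (hKi s hs' hsπ)
  have hpp : ∀ g : K, IsPrimePow (orderOf g) ∨ g = 1 := by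
    intro g
    by_cases hg1 : g = 1
    · exact Or.inr hg1
    left
    obtain ⟨s, hs', hsd⟩ := Nat.exists_prime_and_dvd (mt orderOf_eq_one_iff.1 hg1)
    rw [isPrimePow_iff_unique_prime_dvd]
    refine ⟨s, ⟨hs', hsd⟩, fun t ⟨ht, htd⟩ => ?_⟩
    by_contra hne
    have hle : orderOf g ≤ n := by
      have : orderOf (g : G) ∈ Set.range (orderOf : G → ℕ) := ⟨_, rfl⟩
      rw [h] at this
      rw [← Subgroup.orderOf_coe]
      exact this.2
    have h1 : s * t ≤ n := (Nat.le_of_dvd (orderOf_pos g)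
      (((Nat.coprime_primes hs' ht).2 (Ne.symm hne)).mul_dvd_of_dvd_of_dvd hsd htd)).trans hle
    have hsπ := hKπ s hs' (hsd.trans (orderOf_dvd_natCard g))
    have htπ := hKπ t ht (htd.trans (orderOf_dvd_natCard g))
    simp only [hπ, Set.mem_insert_iff, Set.mem_singleton_iff] at hsπ htπ
    have hc1 := Nat.mul_comm p q
    have hc2 := Nat.mul_comm p r
    have hc3 := Nat.mul_comm q r
    rcases hsπ with rfl | rfl | rfl <;> rcases htπ with rfl | rfl | rfl <;> omega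
  have h3 := Cfsg.Agent.S1475.result hpp
  have hsub : ({p, q, r} : Finset ℕ) ⊆ (Nat.card K).primeFactors := by
    intro s hs'
    simp only [Finset.mem_insert, Finset.mem_singleton] at hs'
    rw [Nat.mem_primeFactors]
    rcases hs' with rfl | rfl | rfl
    · exact ⟨hp, hdvd _ hp hpn (by simp [hπ]), Nat.card_pos.ne'⟩
    · exact ⟨hq, hdvd _ hq hqn (by simp [hπ]), Nat.card_pos.ne'⟩
    · exact ⟨hr, hdvd _ hr hrn (by simp [hπ]), Nat.card_pos.ne'⟩
  have h4 := Finset.card_le_card hsub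
  rw [Finset.card_eq_three.2 ⟨p, q, r, hpq'.1, hpr'.1, hqr'.1, rfl⟩] at h4
  omega

end Cfsg.Agent.S4002
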