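import Cfsg.Statements.S4005
import Mathlib
import Cfsg.Agent.Lib.Solv.Frobenius
import Cfsg.Agent.Lib.Solv.MinNormal
import Cfsg.Agent.Lib.Characters.Burnside
import Cfsg.Agent.Lib.Solv.SchurZassenhaus
-- import your own Cfsg.Agent.* helpers here

set_option autoImplicit false
open Cfsg

namespace Cfsg.Agent.S4005

/-- A finite group whose set of element orders is exactly {1, 2, 3} has either a normal elementary abelian 3-subgroup of index 2 or a normal elementary abelian 2-subgroup of index 3. -/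
theorem result {G : Type*} [Group G] [Finite G] (h : Set.range (orderOf : G → ℕ) = {k : ℕ | 1 ≤ k ∧ k ≤ 3}) :
    (∃ N : Subgroup G, N.Normal ∧ Cfsg.IsElementaryAbelian 3 N ∧ N.index = 2) ∨
      (∃ N : Subgroup G, N.Normal ∧ Cfsg.IsElementaryAbelian 2 N ∧ N.index = 3) := by
  classical
  haveI : Fact (Nat.Prime 2) := ⟨Nat.prime_two⟩
  haveI : Fact (Nat.Prime 3) := ⟨Nat.prime_three⟩
  have hle : ∀ x : G, 1 ≤ orderOf x ∧ orderOf x ≤ 3 := fun x => by
    have h1 : orderOf x ∈ Set.range (orderOf : G → ℕ) := ⟨x, rfl⟩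
    rw [h] at h1; exact h1
  obtain ⟨x₂, hx₂⟩ : (2 : ℕ) ∈ Set.range (orderOf : G → ℕ) := by
    rw [h]; exact ⟨by norm_num, by norm_num⟩
  obtain ⟨x₃, hx₃⟩ : (3 : ℕ) ∈ Set.range (orderOf : G → ℕ) := by
    rw [h]; exact ⟨by norm_num, le_rfl⟩
  have hord : ∀ x : G, x = 1 ∨ orderOf x = 2 ∨ orderOf x = 3 := fun x => by
    have := hle x
    by_cases h1 : orderOf x = 1
    · exact Or.inl (orderOf_eq_one_iff.1 h1)
    · exact Or.inr (by omega)
  have hexp2 : ∀ (H : Subgroup G), IsPGroup 2 H → ∀ x ∈ H, x ^ 2 = 1 := fun H hH x hx => by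
    rcases hord x with rfl | h2 | h3
    · exact one_pow 2
    · rw [← h2, pow_orderOf_eq_one]
    · obtain ⟨k, hk⟩ := IsPGroup.iff_orderOf.1 hH ⟨x, hx⟩
      rw [Subgroup.orderOf_mk, h3] at hk
      exact absurd (Nat.prime_three.dvd_of_dvd_pow (hk ▸ dvd_rfl : 3 ∣ 2 ^ k)) (by norm_num)
  have hexp3 : ∀ (H : Subgroup G), IsPGroup 3 H → ∀ x ∈ H, x ^ 3 = 1 := fun H hH x hx => by
    rcases hord x with rfl | h2 | h3
    · exact one_pow 3
    · obtain ⟨k, hk⟩ := IsPGroup.iff_orderOf.1 hH ⟨x, hx⟩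
      rw [Subgroup.orderOf_mk, h2] at hk
      exact absurd (Nat.prime_two.dvd_of_dvd_pow (hk ▸ dvd_rfl : 2 ∣ 3 ^ k)) (by norm_num)
    · rw [← h3, pow_orderOf_eq_one]
  have hfix : ∀ a b : G, orderOf a = 2 → orderOf b = 3 → ¬ Commute a b := fun a b ha hb hab => by
    have h6 : orderOf (a * b) = 6 := by
      rw [hab.orderOf_mul_eq_mul_orderOf_of_coprime (by rw [ha, hb]; norm_num), ha, hb]
    have := hle (a * b)
    omega
  have hcomm2 : ∀ (H : Subgroup G), IsPGroup 2 H → IsMulCommutative H := fun H hH =>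
    ⟨⟨fun a b => Subtype.ext (by
      have e : ∀ z ∈ H, z⁻¹ = z := fun z hz => inv_eq_of_mul_eq_one_right (by rw [← pow_two]; exact hexp2 H hH z hz)
      have h1 := e _ (H.mul_mem a.2 b.2)
      rw [mul_inv_rev, e _ a.2, e _ b.2] at h1
      exact h1.symm)⟩⟩
  haveI hsol : Group.IsSolvable G := by
    obtain ⟨a, -, n, hn, hn2⟩ : ∃ a : ℕ, True ∧ ∃ n, ¬ 2 ∣ n ∧ Nat.card G = 2 ^ a * n := by
      obtain ⟨a, n, h1, h2⟩ := Nat.exists_eq_pow_mul_and_not_dvd (Nat.card_pos (α := G)).ne' 2 (by norm_num)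
      exact ⟨a, trivial, n, h1, h2⟩
    have hn3 : ∀ q : ℕ, q.Prime → q ∣ n → q = 3 := fun q hq hd => by
      haveI := Fact.mk hq
      obtain ⟨x, hx⟩ := exists_prime_orderOf_dvd_card' (G := G) q (hn2 ▸ hd.mul_left _)
      rcases hord x with rfl | h2 | h3
      · rw [orderOf_one] at hx; exact absurd hx.symm hq.ne_one
      · exact absurd (by rwa [← show 2 = q from h2.symm.trans hx] at hd) hn
      · exact hx.symm.trans h3
    exact Cfsg.Lib.Characters.isSolvable_of_card_eq_pow_mul_pow Nat.prime_two Nat.prime_three _ G rfl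
      ⟨a, n.factorization 3, by
        rw [hn2]
        congr 1
        have hn0 : n ≠ 0 := by rintro rfl; exact hn (dvd_zero 2)
        exact Nat.eq_pow_of_factorization_eq_single hn0 (by
          ext q
          rcases eq_or_ne q 3 with rfl | hq3
          · simp
          · rw [Finsupp.single_eq_of_ne hq3]
            by_cases hq : q.Prime
            · exact Nat.factorization_eq_zero_of_not_dvd fun hd => hq3 (hn3 q hq hd)
            · exact Nat.factorization_eq_zero_of_not_prime n hq)⟩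
  have hG1 : (⊤ : Subgroup G) ≠ ⊥ := fun e => by
    have : x₂ ∈ (⊥ : Subgroup G) := e ▸ Subgroup.mem_top x₂
    rw [Subgroup.mem_bot.1 this, orderOf_one] at hx₂
    norm_num at hx₂
  obtain ⟨N, hNn, -, hNne, hNmin⟩ := Cfsg.Lib.Solv.exists_minimal_normal_le hG1
  haveI := hNn
  obtain ⟨hNc, q, hq, hNq, hNexp⟩ := Cfsg.Lib.Solv.minimal_normal_elementary hNne inferInstance hNmin
  haveI := Fact.mk hq
  obtain ⟨z, hz, hz1⟩ := N.bot_or_exists_ne_one.resolve_left hNne
  have hzq : orderOf z = q := orderOf_eq_prime (hNexp z hz) hz1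
  set C := Subgroup.centralizer (N : Set G) with hC
  haveI : C.Normal := inferInstance
  have hidx : ∀ (M : Subgroup G) (p r : ℕ) [Fact r.Prime], (∀ x : G, x = 1 ∨ orderOf x = p ∨ orderOf x = r) →
      p ≠ r → p.Prime → (∃ S : Sylow p G, (S : Subgroup G) = M) →
      ∀ R : Sylow r G, Nat.card R = r → M.index = r := by
    intro M p r _ hall hpr hp hS R hR
    obtain ⟨S, rfl⟩ := hS
    haveI := Fact.mk hp
    obtain ⟨i, hi⟩ := IsPGroup.iff_card.1 S.2
    have h1 : (S : Subgroup G).index ∣ r := by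
      refine hR ▸ (Nat.dvd_iff_prime_pow_dvd_dvd _ _).2 fun s k hs hk => ?_
      rcases Nat.eq_zero_or_pos k with rfl | hk0
      · simp
      have hsd : s ∣ (S : Subgroup G).index := (dvd_pow_self s hk0.ne').trans hk
      haveI := Fact.mk hs
      obtain ⟨x, hx⟩ := exists_prime_orderOf_dvd_card' (G := G) s (hsd.trans (S : Subgroup G).index_dvd_card)
      have hsp : s ≠ p := fun e => S.not_dvd_index (e ▸ hsd)
      have hsr : s = r := by
        rcases hall x with rfl | h2 | h3
        · rw [orderOf_one] at hx; exact absurd hx.symm hs.ne_one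
        · exact absurd (hx.symm.trans h2) hsp
        · exact hx.symm.trans h3
      subst hsr
      exact R.pow_dvd_card_of_pow_dvd_card (hk.trans (S : Subgroup G).index_dvd_card)
    rcases (Nat.dvd_prime (Fact.out : r.Prime)).1 h1 with h2 | h2
    · have h3 := (S : Subgroup G).card_mul_index
      rw [h2, mul_one, hi] at h3
      have h4 : r ∣ p ^ i := h3 ▸ (hR ▸ (R : Subgroup G).card_subgroup_dvd_card)
      exact absurd ((Nat.prime_dvd_prime_iff_eq (Fact.out : r.Prime) hp).1
        ((Fact.out : r.Prime).dvd_of_dvd_pow h4)).symm hpr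
    · exact h2
  rcases hord z with rfl | h2 | h3
  · exact absurd rfl hz1
  · -- the minimal normal subgroup is a 2-group
    rw [hzq] at h2; subst h2
    have hC2 : IsPGroup 2 C := fun c => ⟨1, Subtype.ext (by
      rcases hord (c : G) with h1 | h1 | h1
      · simp [h1]
      · show (c : G) ^ 2 ^ 1 = 1
        rw [pow_one, ← h1, pow_orderOf_eq_one]
      · exact absurd (Subgroup.mem_centralizer_iff.1 c.2 z hz) (hfix z (c : G) hzq h1))⟩
    obtain ⟨S₀, hS₀⟩ := hNq.exists_le_sylow
    have hSC : (S₀ : Subgroup G) ≤ C := fun s hs => Subgroup.mem_centralizer_iff.2 fun n hn =>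
      congrArg Subtype.val ((hcomm2 _ S₀.2).is_comm.comm ⟨n, hS₀ hn⟩ ⟨s, hs⟩)
    have hSeq : (S₀ : Subgroup G) = C := (S₀.3 hC2 hSC).symm
    refine Or.inr ⟨C, inferInstance, ⟨hcomm2 C hC2, fun a ha => hexp2 C hC2 a ha⟩, ?_⟩
    obtain ⟨R⟩ : Nonempty (Sylow 3 G) := inferInstance
    haveI := hNc
    have hRne : (R : Subgroup G) ≠ ⊥ := R.ne_bot_of_dvd_card (hx₃ ▸ orderOf_dvd_natCard x₃)
    have hfpf : ∀ a ∈ (R : Subgroup G), a ≠ 1 → N ⊓ Subgroup.centralizer ({a} : Set G) = ⊥ := by
      intro a ha ha1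
      rw [eq_bot_iff]
      intro n hn
      rw [Subgroup.mem_bot]
      by_contra hn1
      have ho : orderOf n = 2 := orderOf_eq_prime (hNexp n hn.1) hn1
      exact hfix n a ho (orderOf_eq_prime (hexp3 _ R.2 a ha) ha1) (Subgroup.mem_centralizer_singleton_iff.1 hn.2)
    have hRcyc : IsCyclic (R : Subgroup G) := by
      by_contra hnc
      haveI : Nontrivial (R : Subgroup G) := (Subgroup.nontrivial_iff_ne_bot _).2 hRne
      haveI := R.2.center_nontrivial
      obtain ⟨⟨u, huc⟩, hu1⟩ := exists_ne (1 : Subgroup.center (R : Subgroup G))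
      obtain ⟨v, hv⟩ : ∃ v : (R : Subgroup G), v ∉ Subgroup.zpowers u := by
        by_contra! hall
        exact hnc ⟨⟨u, fun w => hall w⟩⟩
      let A := Subgroup.closure ({(u : G), (v : G)} : Set G)
      haveI : IsMulCommutative A := by
        refine Subgroup.isMulCommutative_closure fun a ha b hb => ?_
        have huv : (u : G) * v = v * u := (congrArg Subtype.val (Subgroup.mem_center_iff.1 huc v)).symm
        rcases ha with rfl | rfl <;> rcases hb with rfl | rfl <;> first | rfl | exact huv | exact huv.symm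
      have hAR : A ≤ (R : Subgroup G) := (Subgroup.closure_le _).2 (by rintro _ (rfl | rfl); exacts [u.2, v.2])
      have hcycA : IsCyclic A := Cfsg.Lib.Solv.fpf_isCyclic A N hNne Subgroup.le_normalizer_of_normal
        (fun a ha => hfpf a (hAR ha)) (Or.inl inferInstance)
      obtain ⟨g, hg⟩ := hcycA.exists_generator
      have hg3 : orderOf g ∣ 3 := orderOf_dvd_of_pow_eq_one (Subtype.ext (hexp3 _ R.2 g (hAR g.2)))
      have hAcard : Nat.card A ≤ 3 := by
        rw [← orderOf_eq_card_of_forall_mem_zpowers hg]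
        exact Nat.le_of_dvd (by norm_num) hg3
      have hucard : Nat.card (Subgroup.zpowers (u : G)) = 3 := by
        rw [Nat.card_zpowers]
        exact orderOf_eq_prime (hexp3 _ R.2 u u.2) fun e => hu1 (Subtype.ext (Subtype.ext e))
      have hule : Subgroup.zpowers (u : G) ≤ A := Subgroup.zpowers_le.2 (Subgroup.subset_closure (by simp))
      have heq := Subgroup.eq_of_le_of_card_ge hule (hAcard.trans hucard.ge)
      have hv' : (v : G) ∈ A := Subgroup.subset_closure (by simp)
      rw [← heq] at hv'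
      obtain ⟨i, hi⟩ := Subgroup.mem_zpowers_iff.1 hv'
      exact hv ⟨i, Subtype.ext (by push_cast; exact hi)⟩
    have hR3 : Nat.card R = 3 := by
      obtain ⟨g, hg⟩ := hRcyc.exists_generator
      rw [← orderOf_eq_card_of_forall_mem_zpowers hg]
      refine ((Nat.dvd_prime Nat.prime_three).1
        (orderOf_dvd_of_pow_eq_one (Subtype.ext (hexp3 _ R.2 g g.2)))).resolve_left fun e => hRne ?_
      rw [orderOf_eq_one_iff] at e
      refine eq_bot_iff.2 fun w hw => ?_
      obtain ⟨i, hi⟩ := hg ⟨w, hw⟩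
      rw [e] at hi
      simp only [one_zpow] at hi
      exact Subgroup.mem_bot.2 (congrArg Subtype.val hi).symm
    exact hidx C 2 3 hord (by norm_num) Nat.prime_two ⟨S₀, hSeq⟩ R hR3
  · -- the minimal normal subgroup is a 3-group
    rw [hzq] at h3; subst h3
    have hC3 : IsPGroup 3 C := fun c => ⟨1, Subtype.ext (by
      rcases hord (c : G) with h1 | h1 | h1
      · simp [h1]
      · exact absurd (Subgroup.mem_centralizer_iff.1 c.2 z hz).symm (hfix (c : G) z h1 hzq)
      · show (c : G) ^ 3 ^ 1 = 1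
        rw [pow_one, ← h1, pow_orderOf_eq_one])⟩
    obtain ⟨S⟩ : Nonempty (Sylow 2 G) := inferInstance
    have hSne : (S : Subgroup G) ≠ ⊥ := S.ne_bot_of_dvd_card (hx₂ ▸ orderOf_dvd_natCard x₂)
    haveI := hNc
    haveI := hcomm2 _ S.2
    have hfpf : ∀ a ∈ (S : Subgroup G), a ≠ 1 → N ⊓ Subgroup.centralizer ({a} : Set G) = ⊥ := by
      intro a ha ha1
      rw [eq_bot_iff]
      intro n hn
      rw [Subgroup.mem_bot]
      by_contra hn1
      exact hfix a n (orderOf_eq_prime (hexp2 _ S.2 a ha) ha1) (orderOf_eq_prime (hNexp n hn.1) hn1)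
        (Subgroup.mem_centralizer_singleton_iff.1 hn.2).symm
    have hScyc := Cfsg.Lib.Solv.fpf_isCyclic (S : Subgroup G) N hNne Subgroup.le_normalizer_of_normal hfpf
      (Or.inl inferInstance)
    obtain ⟨g, hg⟩ := hScyc.exists_generator
    have hg1 : (g : G) ≠ 1 := fun e => hSne (eq_bot_iff.2 fun w hw => by
      obtain ⟨i, hi⟩ := hg ⟨w, hw⟩
      rw [show g = 1 from Subtype.ext e] at hi
      simp only [one_zpow] at hi
      exact Subgroup.mem_bot.2 (congrArg Subtype.val hi).symm)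
    have hg2 : orderOf (g : G) = 2 := orderOf_eq_prime (hexp2 _ S.2 g g.2) hg1
    have hS2 : Nat.card S = 2 := by
      rw [← orderOf_eq_card_of_forall_mem_zpowers hg, ← Subgroup.orderOf_coe, hg2]
    obtain ⟨T⟩ : Nonempty (Sylow 3 G) := inferInstance
    have hidxT : (T : Subgroup G).index = 2 :=
      hidx (T : Subgroup G) 3 2 (fun x => (hord x).imp id Or.symm) (by norm_num) Nat.prime_three ⟨T, rfl⟩ S hS2
    haveI hTn : (T : Subgroup G).Normal := Subgroup.normal_of_index_eq_two hidxT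
    have hinv := Cfsg.Lib.Solv.fpf_involution_inverts (K := (T : Subgroup G)) hg2 (by
      rw [eq_bot_iff]
      intro n hn
      rw [Subgroup.mem_bot]
      by_contra hn1
      exact hfix g n hg2 (orderOf_eq_prime (hexp3 _ T.2 n hn.1) hn1)
        (Subgroup.mem_centralizer_singleton_iff.1 hn.2).symm)
    refine Or.inl ⟨T, hTn, ⟨⟨⟨fun a b => Subtype.ext ?_⟩⟩, fun a ha => hexp3 _ T.2 a ha⟩, hidxT⟩
    have h1 := hinv _ ((T : Subgroup G).mul_mem a.2 b.2)
    have e : (g : G) * ((a : G) * b) * (g : G)⁻¹ = ((g : G) * a * (g : G)⁻¹) * ((g : G) * b * (g : G)⁻¹) := by group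
    rw [e, hinv _ a.2, hinv _ b.2, ← mul_inv_rev, inv_inj] at h1
    exact h1.symm

end Cfsg.Agent.S4005
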