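import Cfsg.Statements.S4006
import Mathlib
import Cfsg.Agent.Lib.Solv.Cores
import Cfsg.Agent.Lib.Solv.MinNormal
import Cfsg.Agent.Lib.Solv.FrobeniusComplement
import Cfsg.Agent.Lib.Characters.Burnside
import Cfsg.Agent.Lib.ZStar.UniqueInvolution
-- import your own Cfsg.Agent.* helpers here

set_option autoImplicit false
open Cfsg
open scoped commutatorElement

namespace Cfsg.Agent.S4006

open Cfsg.Lib.Solv

universe u

section Engel

theorem square_zero_relations {G R : Type*} [Group G] [Ring R] (f : G →* R)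
    (hsq : ∀ g, (f g - 1) * (f g - 1) = 0) (g h : G) :
    (f g - 1) * (f h - 1) + (f h - 1) * (f g - 1) = 0 ∧
      f ⁅g, h⁆ - 1 = (f g - 1) * (f h - 1) + (f g - 1) * (f h - 1) := by
  have hinv : ∀ k, f k⁻¹ = 1 - (f k - 1) := fun k => by
    have h1 : f k * (1 - (f k - 1)) = 1 := by
      calc f k * (1 - (f k - 1)) = 1 - (f k - 1) * (f k - 1) := by noncomm_ring
        _ = 1 := by rw [hsq, sub_zero]
    calc f k⁻¹ = f k⁻¹ * (f k * (1 - (f k - 1))) := by rw [h1, mul_one]
      _ = _ := by rw [← mul_assoc, ← map_mul, inv_mul_cancel, map_one, one_mul]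
  set a := f g - 1 with ha
  set b := f h - 1 with hb
  have hfg : f g = 1 + a := by rw [ha]; abel
  have hfh : f h = 1 + b := by rw [hb]; abel
  have haa : a * a = 0 := hsq g
  have hbb : b * b = 0 := hsq h
  have h2 : (a + b + a * b) * (a + b + a * b) = 0 := by
    have := hsq (g * h)
    rwa [map_mul, hfg, hfh, show (1 + a) * (1 + b) - 1 = a + b + a * b by noncomm_ring] at this
  have h3 : a * b + b * a + a * b * a + b * a * b + a * b * (a * b) = 0 := by
    calc _ = (a + b + a * b) * (a + b + a * b) - (a * a + b * b + a * a * b + a * (b * b)) := by noncomm_ring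
      _ = 0 := by rw [h2, haa, hbb]; simp
  have h5 : a * b * a * b = 0 := by
    calc a * b * a * b = a * (a * b + b * a + a * b * a + b * a * b + a * b * (a * b)) * b -
          (a * a * (b * b) + a * a * b * a * b + a * b * a * (b * b) + a * a * b * (a * b) * b) := by noncomm_ring
      _ = 0 := by rw [h3, haa, hbb]; simp
  have h6 : a * b * a = 0 := by
    calc a * b * a = a * (a * b + b * a + a * b * a + b * a * b + a * b * (a * b)) -
          (a * a * b + a * a * b * a + a * b * a * b + a * a * b * (a * b)) := by noncomm_ring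
      _ = 0 := by rw [h3, haa, h5]; simp
  have h7 : b * a * b = 0 := by
    calc b * a * b = (a * b + b * a + a * b * a + b * a * b + a * b * (a * b)) * b -
          (a * (b * b) + a * b * a * b + b * a * (b * b) + a * b * (a * (b * b))) := by noncomm_ring
      _ = 0 := by rw [h3, hbb, h5]; simp
  have h8 : a * b + b * a = 0 := by
    calc a * b + b * a = (a * b + b * a + a * b * a + b * a * b + a * b * (a * b)) -
          (a * b * a + b * a * b + a * b * a * b) := by noncomm_ring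
      _ = 0 := by rw [h3, h6, h7]; simp
  refine ⟨h8, ?_⟩
  rw [commutatorElement_def, map_mul, map_mul, map_mul, hinv, hinv, hfg, hfh,
    show (1 + a - 1 : R) = a by abel, show (1 + b - 1 : R) = b by abel]
  calc (1 + a) * (1 + b) * (1 - a) * (1 - b) - 1
      = (a * b + a * b) - a * a - b * b - (a * b + b * a) - a * b * a + a * (a * b) - a * (b * b) +
          b * a * b + a * b * a * b := by noncomm_ring
    _ = a * b + a * b := by rw [haa, hbb, h8, h6, h7, ← mul_assoc, haa]; simp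

theorem action_relations {G : Type*} [Group G] {A : Type*} [CommGroup A] (φ : G →* MulAut A)
    (hsq : ∀ g a, φ g (φ g a / a) = φ g a / a) (g h : G) (a : A) :
    φ g (φ h a / a) / (φ h a / a) * (φ h (φ g a / a) / (φ g a / a)) = 1 ∧
      φ ⁅g, h⁆ a / a = (φ g (φ h a / a) / (φ h a / a)) * (φ g (φ h a / a) / (φ h a / a)) := by
  let f : G →* AddMonoid.End (Additive A) :=
    { toFun := fun k => MonoidHom.toAdditive (φ k).toMonoidHom
      map_one' := by ext x; show φ 1 x.toMul = x.toMul; simp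
      map_mul' := fun k l => by ext x; show φ (k * l) x.toMul = φ k (φ l x.toMul); simp }
  have hf : ∀ k, (f k - 1) * (f k - 1) = 0 := fun k => by
    ext x
    show φ k (φ k x.toMul / x.toMul) / (φ k x.toMul / x.toMul) = 1
    rw [hsq, div_self']
  obtain ⟨h1, h2⟩ := square_zero_relations f hf g h
  exact ⟨congrArg Additive.toMul (DFunLike.congr_fun h1 (Additive.ofMul a)),
    congrArg Additive.toMul (DFunLike.congr_fun h2 (Additive.ofMul a))⟩

theorem two_engel {M : Type*} [Group M] (hE : ∀ x g : M, Commute x (g * x * g⁻¹))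
    (h3 : ∀ x : M, x ^ 3 = 1 → x = 1) (g h x : M) : ⁅g, ⁅h, x⁆⁆ = 1 := by
  have hgg : ∀ u a : M, ⁅u, ⁅u, a⁆⁆ = 1 := by
    intro u a
    rw [commutatorElement_eq_one_iff_commute, commutatorElement_def]
    have h1 : Commute u (a * u⁻¹ * a⁻¹) := by
      have := (hE u a).inv_right
      rwa [show (a * u * a⁻¹)⁻¹ = a * u⁻¹ * a⁻¹ by group] at this
    rw [show u * a * u⁻¹ * a⁻¹ = u * (a * u⁻¹ * a⁻¹) by group]
    exact (Commute.refl u).mul_right h1
  have key : ∀ z p q : M, ⁅p, ⁅q, z⁆⁆ * ⁅q, ⁅p, z⁆⁆ = 1 ∧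
      ⁅⁅p, q⁆, z⁆ = ⁅p, ⁅q, z⁆⁆ * ⁅p, ⁅q, z⁆⁆ ∧ ⁅p, ⁅z, q⁆⁆ = (⁅p, ⁅q, z⁆⁆)⁻¹ := by
    intro z p q
    set A := Subgroup.normalClosure ({z} : Set M) with hA
    have hcomm : ∀ a ∈ A, ∀ b ∈ A, a * b = b * a := by
      have h0 : ∀ a ∈ Group.conjugatesOfSet ({z} : Set M), ∀ b ∈ Group.conjugatesOfSet ({z} : Set M), a * b = b * a := by
        intro a ha b hb
        obtain ⟨a0, ha0, ha⟩ := Group.mem_conjugatesOfSet_iff.1 ha
        obtain ⟨b0, hb0, hb⟩ := Group.mem_conjugatesOfSet_iff.1 hb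
        rw [Set.mem_singleton_iff] at ha0 hb0
        rw [ha0] at ha
        rw [hb0] at hb
        obtain ⟨u, rfl⟩ := isConj_iff.1 ha
        obtain ⟨v, rfl⟩ := isConj_iff.1 hb
        have := hE (u * z * u⁻¹) (v * u⁻¹)
        rwa [show v * u⁻¹ * (u * z * u⁻¹) * (v * u⁻¹)⁻¹ = v * z * v⁻¹ by group] at this
      intro a ha b hb
      have h1 : A ≤ Subgroup.centralizer (Group.conjugatesOfSet ({z} : Set M)) :=
        (Subgroup.closure_le _).2 fun c hc => Subgroup.mem_centralizer_iff.2 fun d hd => h0 d hd c hc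
      have h2 : A ≤ Subgroup.centralizer (A : Set M) :=
        (Subgroup.closure_le _).2 fun c hc => Subgroup.mem_centralizer_iff.2 fun d hd =>
          (Subgroup.mem_centralizer_iff.1 (h1 hd) c hc).symm
      exact Subgroup.mem_centralizer_iff.1 (h2 hb) a ha
    letI : CommGroup ↥A :=
      { (inferInstance : Group ↥A) with mul_comm := fun a b => Subtype.ext (hcomm a a.2 b b.2) }
    have hval : ∀ (u : M) (a : ↥A), ((MulAut.conjNormal (H := A) u a / a : ↥A) : M) = ⁅u, (a : M)⁆ := fun u a => by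
      rw [div_eq_mul_inv, Subgroup.coe_mul, Subgroup.coe_inv, MulAut.conjNormal_apply, commutatorElement_def]
    have hsq : ∀ (u : M) (a : ↥A), MulAut.conjNormal u (MulAut.conjNormal u a / a) = MulAut.conjNormal u a / a := by
      intro u a
      apply Subtype.ext
      rw [MulAut.conjNormal_apply, hval, mul_inv_eq_iff_eq_mul]
      exact commutatorElement_eq_one_iff_commute.1 (hgg u a)
    have hz : z ∈ A := Subgroup.subset_normalClosure rfl
    obtain ⟨r1, r2⟩ := action_relations (MulAut.conjNormal (H := A)) hsq p q ⟨z, hz⟩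
    have r1' := congrArg (fun y : ↥A => (y : M)) r1
    have r2' := congrArg (fun y : ↥A => (y : M)) r2
    simp only [Subgroup.coe_mul, Subgroup.coe_one, hval] at r1' r2'
    refine ⟨r1', r2', ?_⟩
    have hc : ⁅q, z⁆ ∈ A := by
      have hn : A.Normal := Subgroup.normalClosure_normal
      rw [commutatorElement_def, mul_assoc, mul_assoc]
      have := A.mul_mem (hn.conj_mem z hz q) (A.inv_mem hz)
      simpa [mul_assoc] using this
    have hd : ⁅p, ⁅q, z⁆⁆ ∈ A := by
      have hn : A.Normal := Subgroup.normalClosure_normal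
      rw [commutatorElement_def]
      exact A.mul_mem (hn.conj_mem _ hc p) (A.inv_mem hc)
    set cq := ⁅q, z⁆ with hcq
    rw [show ⁅z, q⁆ = cq⁻¹ from (commutatorElement_inv q z).symm,
      show ⁅p, cq⁻¹⁆ = cq⁻¹ * ⁅p, cq⁆⁻¹ * cq by simp only [commutatorElement_def]; group,
      hcomm _ (A.inv_mem hc) _ (A.inv_mem hd), inv_mul_cancel_right]
  set E := ⁅g, ⁅h, x⁆⁆ with hE'
  have h1 : ⁅x, ⁅g, h⁆⁆ = E := by
    have a1 := (key h x g).1
    have a2 := (key x g h).2.2
    rw [eq_inv_of_mul_eq_one_left a1, a2, inv_inv]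
  have h2 : ⁅⁅g, h⁆, x⁆ = E * E := (key x g h).2.1
  rw [← commutatorElement_inv x ⁅g, h⁆, h1] at h2
  refine h3 E ?_
  calc E ^ 3 = E * (E * E) := by rw [pow_succ, pow_succ, pow_one, mul_assoc]
    _ = 1 := by rw [← h2, mul_inv_cancel]

end Engel

section FixedPointFree

variable {M : Type*} [Group M] [Finite M]

theorem norm_eq_one (σ : MulAut M) (hf : ∀ m, σ m = m → m = 1) (h3 : ∀ m, σ (σ (σ m)) = m) (x : M) :
    x * σ x * σ (σ x) = 1 := by
  have hinj : Function.Injective fun m : M => m⁻¹ * σ m := by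
    intro a b hab
    have h1 : a⁻¹ * σ a = b⁻¹ * σ b := hab
    refine (mul_inv_eq_one.1 (hf (b * a⁻¹) ?_)).symm
    rw [map_mul, map_inv]
    calc σ b * (σ a)⁻¹ = b * (b⁻¹ * σ b) * (σ a)⁻¹ := by group
      _ = b * (a⁻¹ * σ a) * (σ a)⁻¹ := by rw [h1]
      _ = b * a⁻¹ := by group
  obtain ⟨m, rfl⟩ := (Finite.surjective_of_injective hinj) x
  simp only [map_mul, map_inv, h3]
  group

theorem class_two_of_fpf (σ : MulAut M) (hf : ∀ m, σ m = m → m = 1) (h3 : ∀ m, σ (σ (σ m)) = m)
    (hno : ∀ x : M, x ^ 3 = 1 → x = 1) (g h x : M) : ⁅g, ⁅h, x⁆⁆ = 1 := by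
  have hcs : ∀ (τ : MulAut M), (∀ m, τ m = m → m = 1) → (∀ m, τ (τ (τ m)) = m) → ∀ y, Commute y (τ y) := by
    intro τ tf t3 y
    have hn1 := norm_eq_one τ tf t3 y
    have tf2 : ∀ m, (τ * τ) m = m → m = 1 := fun m hm => tf m (by
      have h1 : τ (τ (τ m)) = τ m := congrArg τ hm
      rw [t3] at h1; exact h1.symm)
    have hn2 := norm_eq_one (τ * τ) tf2 (fun m => by simp [MulAut.mul_apply, t3]) y
    simp only [MulAut.mul_apply, t3] at hn2
    have e : τ y * τ (τ y) = τ (τ y) * τ y := by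
      rw [mul_assoc] at hn1 hn2
      exact (eq_inv_of_mul_eq_one_right hn1).trans (eq_inv_of_mul_eq_one_right hn2).symm
    have e2 := congrArg (fun m => τ (τ m)) e
    simp only [map_mul, t3] at e2
    exact e2
  have hconj : ∀ (τ : MulAut M), (∀ m, τ m = m → m = 1) → (∀ m, τ (τ (τ m)) = m) → ∀ a y, Commute y (a * τ y * a⁻¹) := by
    intro τ tf t3 a y
    have hinj : Function.Injective fun m : M => m⁻¹ * τ m := by
      intro u v huv
      have h1 : u⁻¹ * τ u = v⁻¹ * τ v := huv
      refine (mul_inv_eq_one.1 (tf (v * u⁻¹) ?_)).symm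
      rw [map_mul, map_inv]
      calc τ v * (τ u)⁻¹ = v * (v⁻¹ * τ v) * (τ u)⁻¹ := by group
        _ = v * (u⁻¹ * τ u) * (τ u)⁻¹ := by rw [h1]
        _ = v * u⁻¹ := by group
    obtain ⟨b, rfl⟩ := (Finite.surjective_of_injective hinj) a
    -- the twisted automorphism is a conjugate of `τ`
    have h1 := hcs ((MulAut.conj b)⁻¹ * τ * MulAut.conj b)
      (fun m hm => by
        simp only [MulAut.mul_apply] at hm
        have h2 := congrArg (MulAut.conj b) hm
        rw [MulAut.apply_inv_self] at h2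
        exact (map_eq_one_iff _ (MulAut.conj b).injective).1 (tf _ h2))
      (fun m => by simp only [MulAut.mul_apply, MulAut.apply_inv_self, t3, MulAut.inv_apply_self]) y
    convert h1 using 1
    simp only [MulAut.mul_apply, MulAut.conj_apply, MulAut.conj_inv_apply, map_mul, map_inv]
    group
  have hf2 : ∀ m, (σ * σ) m = m → m = 1 := fun m hm => hf m (by
    have h1 : σ (σ (σ m)) = σ m := congrArg σ hm
    rw [h3] at h1; exact h1.symm)
  refine two_engel (fun y a => ?_) hno g h x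
  have hn := norm_eq_one σ hf h3 y
  have hy : y = (σ y * σ (σ y))⁻¹ := eq_inv_of_mul_eq_one_left (by rwa [← mul_assoc])
  have e : a * y * a⁻¹ = ((a * σ y * a⁻¹) * (a * σ (σ y) * a⁻¹))⁻¹ := by
    conv_lhs => rw [hy]
    group
  rw [e]
  exact ((hconj σ hf h3 a y).mul_right
    (hconj (σ * σ) hf2 (fun m => by simp [MulAut.mul_apply, h3]) a y)).inv_right

theorem elementary_of_sym_three (σ τ : MulAut M) (hf : ∀ m, σ m = m → m = 1) (h3 : ∀ m, σ (σ (σ m)) = m)
    (h2 : ∀ m, τ (τ m) = m) (hrel : ∀ m, τ (σ m) = σ (σ (τ m))) (he : ∀ x : M, x ^ 4 = 1)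
    (hsq : ∀ x, (x * τ x) * (x * τ x) = 1) : (∀ a b : M, a * b = b * a) ∧ ∀ a : M, a ^ 2 = 1 := by
  have hno : ∀ x : M, x ^ 3 = 1 → x = 1 := fun x hx => by
    have := he x; rwa [pow_succ, hx, one_mul] at this
  set Z := Subgroup.center M with hZ
  have hcen : ∀ u v : M, ⁅u, v⁆ ∈ Z := fun u v => Subgroup.mem_center_iff.2 fun g =>
    commutatorElement_eq_one_iff_commute.1 (class_two_of_fpf σ hf h3 hno g u v)
  have hZσ : ∀ φ : MulAut M, ∀ z, z ∈ Z → φ z ∈ Z := fun φ z hz => Subgroup.mem_center_iff.2 fun g => by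
    obtain ⟨g', rfl⟩ := φ.surjective g
    rw [← map_mul, ← map_mul, Subgroup.mem_center_iff.1 hz g']
  haveI : Z.Normal := inferInstance
  set q := QuotientGroup.mk' Z with hq
  have hqc : ∀ u v : M, q u * q v = q v * q u := fun u v => by
    rw [← commutatorElement_eq_one_iff_mul_comm, ← map_commutatorElement]
    exact (QuotientGroup.eq_one_iff _).2 (hcen u v)
  let σq : M ⧸ Z →* M ⧸ Z := QuotientGroup.map Z Z σ.toMonoidHom (fun z hz => hZσ σ z hz)
  let τq : M ⧸ Z →* M ⧸ Z := QuotientGroup.map Z Z τ.toMonoidHom (fun z hz => hZσ τ z hz)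
  have hσq : ∀ m, σq (q m) = q (σ m) := fun m => rfl
  have hτq : ∀ m, τq (q m) = q (τ m) := fun m => rfl
  -- the second reflection
  have hsq' : ∀ x, (x * σ (σ (τ x))) * (x * σ (σ (τ x))) = 1 := fun x => by
    have h := congrArg σ (hsq (σ (σ x)))
    simp only [map_mul, map_one, h3, hrel] at h
    exact h
  have hnorm := norm_eq_one σ hf h3
  have hzsq : ∀ z ∈ Z, z * z = 1 := by
    intro z hz
    have key : ∀ w, w ∈ Z → (z * w) * (z * w) = 1 → w * w = (z * z)⁻¹ := fun w hw h => by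
      refine eq_inv_of_mul_eq_one_right ?_
      calc z * z * (w * w) = z * (z * w) * w := by group
        _ = z * (w * z) * w := by rw [Subgroup.mem_center_iff.1 hw z]
        _ = 1 := by rw [← h]; group
    have a1 := key _ (hZσ τ z hz) (hsq z)
    have a2 := key _ (hZσ σ _ (hZσ σ _ (hZσ τ z hz))) (hsq' z)
    rw [← map_mul] at a1
    rw [← map_mul, ← map_mul, ← map_mul, a1, map_inv, map_inv, inv_inj] at a2
    refine hf _ ?_
    have h := congrArg σ a2
    rw [h3] at h; exact h.symm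
  have hsqZ : ∀ x : M, x * x ∈ Z := by
    intro x
    have key : ∀ w, q ((x * w) * (x * w)) = 1 → q (w * w) = (q (x * x))⁻¹ := fun w h => by
      refine eq_inv_of_mul_eq_one_right ?_
      rw [← h]
      simp only [map_mul]
      exact (show Commute (q x) (q w) from hqc x w).mul_mul_mul_comm _ _
    have a1 := key _ (by rw [hsq x, map_one])
    have a2 := key _ (by rw [hsq' x, map_one])
    rw [← map_mul] at a1
    rw [← map_mul, ← map_mul, ← map_mul, ← hσq, ← hσq, a1, map_inv, map_inv, inv_inj, hσq, hσq] at a2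
    -- `σ` fixes the square modulo the centre
    have a3 : q (σ (x * x)) = q (x * x) := by
      have h := congrArg σq a2
      rw [hσq, h3, hσq] at h
      exact h.symm
    have h := congrArg q (hnorm (x * x))
    rw [map_one, map_mul q, map_mul q, a3, show q (σ (σ (x * x))) = q (x * x) by rw [← hσq, a3, hσq, a3]] at h
    refine (QuotientGroup.eq_one_iff _).1 ?_
    show q (x * x) = 1
    have h4 : q (x * x) * q (x * x) = 1 := by rw [← map_mul, ← sq (x * x), ← sq x, ← pow_mul, he, map_one]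
    rwa [h4, one_mul] at h
  have hq2 : ∀ m, q m * q m = 1 := fun m => by rw [← map_mul]; exact (QuotientGroup.eq_one_iff _).2 (hsqZ m)
  have hcsq : ∀ u v : M, ⁅u, v⁆ * ⁅u, v⁆ = 1 := fun u v => hzsq _ (hcen u v)
  have hbr : ∀ u u' v v' : M, q u = q u' → q v = q v' → ⁅u, v⁆ = ⁅u', v'⁆ := by
    intro u u' v v' hu hv
    obtain ⟨z, hz, rfl⟩ : ∃ z ∈ Z, u' = u * z := ⟨u⁻¹ * u', QuotientGroup.eq.1 hu, by group⟩
    obtain ⟨w, hw, rfl⟩ : ∃ w ∈ Z, v' = v * w := ⟨v⁻¹ * v', QuotientGroup.eq.1 hv, by group⟩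
    rw [commutatorElement_def, commutatorElement_def, mul_inv_rev, mul_inv_rev]
    have e1 : ∀ m : M, z * m = m * z := fun m => (Subgroup.mem_center_iff.1 hz m).symm
    have e2 : ∀ m : M, w * m = m * w := fun m => (Subgroup.mem_center_iff.1 hw m).symm
    symm
    calc u * z * (v * w) * (z⁻¹ * u⁻¹) * (w⁻¹ * v⁻¹)
        = u * (z * (v * w)) * z⁻¹ * u⁻¹ * w⁻¹ * v⁻¹ := by group
      _ = u * v * (w * u⁻¹) * w⁻¹ * v⁻¹ := by rw [e1]; group
      _ = u * v * u⁻¹ * v⁻¹ := by rw [e2]; group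
  have hbl : ∀ u v w : M, ⁅u * v, w⁆ = ⁅u, w⁆ * ⁅v, w⁆ := fun u v w => by
    rw [show ⁅u * v, w⁆ = u * ⁅v, w⁆ * u⁻¹ * ⁅u, w⁆ by simp only [commutatorElement_def]; group,
      Subgroup.mem_center_iff.1 (hcen v w) u, mul_inv_cancel_right, Subgroup.mem_center_iff.1 (hcen u w)]
  have hbs : ∀ u v : M, ⁅u, v⁆ = ⁅v, u⁆ := fun u v => by
    rw [← commutatorElement_inv v u]
    exact inv_eq_of_mul_eq_one_right (hcsq v u)
  have hbrr : ∀ u v w : M, ⁅u, v * w⁆ = ⁅u, v⁆ * ⁅u, w⁆ := fun u v w => by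
    rw [hbs, hbl, hbs v u, hbs w u]
  have hqn : ∀ m, q (σ (σ m)) = q (m * σ m) := fun m => by
    have h := congrArg q (hnorm m)
    rw [map_mul q (m * σ m), map_one] at h
    rw [← inv_eq_of_mul_eq_one_right h]
    exact inv_eq_of_mul_eq_one_right (hq2 _)
  -- the elements fixed by the reflection modulo the centre
  let W : Subgroup M :=
    { carrier := {u | q (τ u) = q u}
      one_mem' := by simp
      mul_mem' := fun {a b} ha hb => by
        show q (τ (a * b)) = q (a * b)
        rw [map_mul τ, map_mul, map_mul, show q (τ a) = q a from ha, show q (τ b) = q b from hb]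
      inv_mem' := fun {a} ha => by
        show q (τ a⁻¹) = q a⁻¹
        rw [map_inv τ, map_inv, map_inv, show q (τ a) = q a from ha] }
  have hW2 : ∀ u ∈ W, u * u = 1 := by
    intro u hu
    have h1 : q (σ u * τ (σ u)) = q u := by
      rw [hrel, map_mul q, ← hσq (σ (τ u)), ← hσq (τ u), show q (τ u) = q u from hu, hσq, hσq, hqn, map_mul q,
        hqc u (σ u), ← mul_assoc, hq2, one_mul]
    obtain ⟨z, hz, hzu⟩ : ∃ z ∈ Z, σ u * τ (σ u) = u * z :=
      ⟨u⁻¹ * (σ u * τ (σ u)), QuotientGroup.eq.1 h1.symm, by group⟩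
    have h2 := hsq (σ u)
    rw [hzu] at h2
    rw [← h2, show u * z * (u * z) = u * (z * u) * z by group, ← Subgroup.mem_center_iff.1 hz u,
      show u * (u * z) * z = u * u * (z * z) by group, hzsq z hz, mul_one]
  have hWc : ∀ u ∈ W, ∀ w ∈ W, ⁅u, w⁆ = 1 := by
    intro u hu w hw
    rw [commutatorElement_eq_one_iff_mul_comm]
    have h := hW2 _ (W.mul_mem hu hw)
    calc u * w = (u * w)⁻¹ := (inv_eq_of_mul_eq_one_right h).symm
      _ = w * u := by rw [mul_inv_rev, inv_eq_of_mul_eq_one_right (hW2 u hu), inv_eq_of_mul_eq_one_right (hW2 w hw)]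
  have hcs : ∀ y, ⁅y, σ y⁆ = 1 := by
    intro y
    have hn1 := hnorm y
    have hf2 : ∀ m, (σ * σ) m = m → m = 1 := fun m hm => hf m (by
      have h1 : σ (σ (σ m)) = σ m := congrArg σ hm
      rw [h3] at h1; exact h1.symm)
    have hn2 := norm_eq_one (σ * σ) hf2 (fun m => by simp [MulAut.mul_apply, h3]) y
    simp only [MulAut.mul_apply, h3] at hn2
    rw [mul_assoc] at hn1 hn2
    have e := congrArg (fun m => σ (σ m))
      ((eq_inv_of_mul_eq_one_right hn1).trans (eq_inv_of_mul_eq_one_right hn2).symm)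
    simp only [map_mul, h3] at e
    exact commutatorElement_eq_one_iff_mul_comm.2 e
  have hcross : ∀ u ∈ W, ∀ w ∈ W, ⁅u, σ w⁆ = 1 := by
    intro u hu w hw
    have hsym : ⁅u, σ w⁆ = ⁅w, σ u⁆ := by
      have h := hcs (u * w)
      rw [map_mul, hbl, hbrr, hbrr, hcs u, hcs w, one_mul, mul_one] at h
      exact (eq_inv_of_mul_eq_one_left h).trans (inv_eq_of_mul_eq_one_right (hcsq _ _))
    refine hf _ ?_
    rw [map_commutatorElement, hbr (σ u) (σ u) (σ (σ w)) (w * σ w) rfl (hqn w), hbrr, ← map_commutatorElement σ,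
      hWc u hu w hw, map_one, mul_one, hbs, hsym]
  have hWmem : ∀ n, n * τ n ∈ W := fun n => by
    show q (τ (n * τ n)) = q (n * τ n)
    rw [map_mul τ, h2, map_mul, map_mul, hqc]
  have hdec : ∀ n, ∃ a ∈ W, ∃ b ∈ W, ∃ c ∈ W, q n = q a * q (σ b) * q (σ (σ c)) := by
    intro n
    refine ⟨n * τ n, hWmem n, σ (σ n) * τ (σ (σ n)), hWmem _, σ n * τ (σ n), hWmem _, ?_⟩
    have e1 : σ (σ (σ n) * τ (σ (σ n))) = n * σ (σ (τ n)) := by simp only [map_mul, hrel, h3]
    have e2 : σ (σ (σ n * τ (σ n))) = n * σ (τ n) := by simp only [map_mul, hrel, h3]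
    rw [e1, e2, ← map_mul q, ← map_mul q]
    have h1 := congrArg q (hnorm (τ n))
    rw [map_mul q, map_mul q, map_one] at h1
    symm
    calc q (n * τ n * (n * σ (σ (τ n))) * (n * σ (τ n)))
        = q n * (q (τ n) * q n) * q (σ (σ (τ n))) * (q n * q (σ (τ n))) := by simp only [map_mul, mul_assoc]
      _ = (q n * q n) * q (τ n) * (q (σ (σ (τ n))) * q n) * q (σ (τ n)) := by rw [hqc (τ n) n]; simp only [mul_assoc]
      _ = (q (τ n) * q n) * (q (σ (σ (τ n))) * q (σ (τ n))) := by rw [hq2, hqc (σ (σ (τ n))) n]; simp only [one_mul, mul_assoc]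
      _ = (q n * q (τ n)) * (q (σ (τ n)) * q (σ (σ (τ n)))) := by rw [hqc (τ n) n, hqc (σ (σ (τ n))) (σ (τ n))]
      _ = q n := by rw [mul_assoc, ← mul_assoc (q (τ n)), h1, mul_one]
  have hWZ : ∀ u ∈ W, u ∈ Z := by
    intro u hu
    rw [Subgroup.mem_center_iff]
    intro n
    rw [← commutatorElement_eq_one_iff_mul_comm, hbs]
    obtain ⟨a, ha, b, hb, c, hc, he'⟩ := hdec n
    rw [← map_mul q, ← map_mul q] at he'
    rw [hbr u u n _ rfl he', hbrr, hbrr, hWc u hu a ha, hcross u hu b hb,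
      hbr u u (σ (σ c)) (c * σ c) rfl (hqn c), hbrr, hWc u hu c hc, hcross u hu c hc]
    simp
  have hall : ∀ n, n ∈ Z := by
    intro n
    obtain ⟨a, ha, b, hb, c, hc, he'⟩ := hdec n
    refine (QuotientGroup.eq_one_iff n).1 ?_
    show q n = 1
    have hz1 : ∀ z ∈ Z, q z = 1 := fun z hz => (QuotientGroup.eq_one_iff z).2 hz
    rw [he', hz1 a (hWZ a ha), hz1 _ (hZσ σ b (hWZ b hb)), hz1 _ (hZσ σ _ (hZσ σ c (hWZ c hc))), one_mul, one_mul]
  exact ⟨fun a b => Subgroup.mem_center_iff.1 (hall b) a, fun a => by rw [sq]; exact hzsq a (hall a)⟩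

end FixedPointFree

theorem no_six {H : Type*} [Group H] [Finite H] (h4 : ∀ g : H, orderOf g ≤ 4) {x y : H} (hc : Commute x y)
    (hx : orderOf x = 3) (hy : 2 ∣ orderOf y) : False := by
  have hy' : orderOf y = 2 ∨ orderOf y = 4 := by
    have := h4 y; have := orderOf_pos y; omega
  have hco : (orderOf x).Coprime (orderOf y) := by
    rcases hy' with e | e <;> rw [hx, e] <;> norm_num
  have h := hc.orderOf_mul_eq_mul_orderOf_of_coprime hco
  have := h4 (x * y)
  rw [hx] at h
  omega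

theorem order_of_three_group {H : Type*} [Group H] [Finite H] (h4 : ∀ g : H, orderOf g ≤ 4) {N : Subgroup H}
    (hN : IsPGroup 3 N) {n : H} (hn : n ∈ N) (hn1 : n ≠ 1) : orderOf n = 3 := by
  haveI : Fact (Nat.Prime 3) := ⟨Nat.prime_three⟩
  obtain ⟨k, hk⟩ := IsPGroup.iff_orderOf.1 hN ⟨n, hn⟩
  rw [Subgroup.orderOf_mk] at hk
  rcases k with _ | _ | k
  · exact absurd (orderOf_eq_one_iff.1 (by rw [hk, pow_zero])) hn1
  · rw [hk, pow_one]
  · have hle := h4 n
    rw [hk] at hle
    have hge : 3 ^ 2 ≤ 3 ^ (k + 2) := Nat.pow_le_pow_right (by norm_num) (by omega)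
    exact absurd hle (not_le.2 (lt_of_lt_of_le (by norm_num) hge))

theorem case_three {G : Type u} [Group G] [Finite G] (h4 : ∀ g : G, orderOf g ≤ 4)
    (hex : ∀ k, 1 ≤ k → k ≤ 4 → ∃ g : G, orderOf g = k) (N : Subgroup G) [N.Normal] (hN : IsPGroup 3 N)
    (hNmax : ∀ M : Subgroup G, M.Normal → IsPGroup 3 M → M ≤ N) (hNne : N ≠ ⊥) :
    Cfsg.IsElementaryAbelian 3 N ∧ ((IsCyclic (G ⧸ N) ∧ N.index = 4) ∨ Nonempty (G ⧸ N ≃* QuaternionGroup 2)) := by
  classical
  have hord := fun n (hn : n ∈ N) (hn1 : n ≠ 1) => order_of_three_group h4 hN hn hn1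
  obtain ⟨n0, hn0, hn01⟩ := (Subgroup.bot_or_exists_ne_one N).resolve_left hNne
  have hinvert : ∀ y : G, orderOf y = 2 → ∀ n ∈ N, y * n * y⁻¹ = n⁻¹ := by
    intro y hy n hn
    have hf : MonoidHom.FixedPointFree ((MulAut.conjNormal (H := N) y).toMonoidHom) := by
      intro v hv
      by_contra hv1
      refine no_six h4 (y := y) ?_ (hord v v.2 (fun e => hv1 (Subtype.ext e))) (dvd_of_eq hy.symm)
      have h1 : y * (v : G) * y⁻¹ = v := congrArg Subtype.val hv
      exact (mul_inv_eq_iff_eq_mul.1 h1).symm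
    have hinv : Function.Involutive ((MulAut.conjNormal (H := N) y).toMonoidHom) := fun v => by
      apply Subtype.ext
      show y * (y * (v : G) * y⁻¹) * y⁻¹ = v
      have hy2 : y * y = 1 := by rw [← sq, ← hy, pow_orderOf_eq_one]
      calc y * (y * (v : G) * y⁻¹) * y⁻¹ = (y * y) * v * (y * y)⁻¹ := by group
        _ = v := by rw [hy2]; group
    exact congrArg Subtype.val (congrFun (hf.coe_eq_inv_of_involutive hinv) ⟨n, hn⟩)
  obtain ⟨z, hz⟩ := hex 2 (by norm_num) (by norm_num)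
  have hNc : ∀ a ∈ N, ∀ b ∈ N, a * b = b * a := fun a ha b hb => by
    have h1 := hinvert z hz (a * b) (N.mul_mem ha hb)
    rw [← conj_mul, hinvert z hz a ha, hinvert z hz b hb, mul_inv_rev] at h1
    have := congrArg (·⁻¹) h1
    simpa using this.symm
  refine ⟨⟨⟨⟨fun a b => Subtype.ext (hNc a a.2 b b.2)⟩⟩, fun a ha => ?_⟩, ?_⟩
  · by_cases ha1 : a = 1
    · rw [ha1, one_pow]
    · rw [← hord a ha ha1, pow_orderOf_eq_one]
  set C := Subgroup.centralizer (N : Set G) with hC
  have hCN : C ≤ N := by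
    haveI : C.Normal := inferInstance
    refine hNmax C inferInstance (IsPGroup.iff_orderOf.2 fun c => ?_)
    rw [← Subgroup.orderOf_coe]
    have := h4 c
    have := orderOf_pos (c : G)
    by_cases h1 : orderOf (c : G) = 1
    · exact ⟨0, h1⟩
    by_cases h3 : orderOf (c : G) = 3
    · exact ⟨1, h3⟩
    · exact absurd (no_six h4 (x := n0) (y := (c : G)) (Subgroup.mem_centralizer_iff.1 c.2 n0 hn0)
        (hord n0 hn0 hn01) (by omega)) id
  have hyz : ∀ y : G, orderOf y = 2 → y * z ∈ N := fun y hy => hCN (by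
    rw [hC, Subgroup.mem_centralizer_iff]
    intro n hn
    have : y * z * n * (y * z)⁻¹ = n := by
      calc y * z * n * (y * z)⁻¹ = y * (z * n * z⁻¹) * y⁻¹ := by group
        _ = n := by rw [hinvert z hz n hn, hinvert y hy _ (N.inv_mem hn), inv_inv]
    exact (mul_inv_eq_iff_eq_mul.1 this).symm)
  set q := QuotientGroup.mk' N with hq
  have hQ4 : ∀ x : G ⧸ N, orderOf x ≤ 4 := fun x => by
    obtain ⟨g, rfl⟩ := QuotientGroup.mk'_surjective N x
    exact (Nat.le_of_dvd (orderOf_pos g) (orderOf_map_dvd q g)).trans (h4 g)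
  have hlift : ∀ g : G, g * g ∈ N → 2 ∣ orderOf g → orderOf g = 2 := fun g hg hev => by
    have h5 := h4 g
    have := orderOf_pos g
    by_contra hne
    have hg4 : orderOf g = 4 := by omega
    have h2 : orderOf (g * g) = 2 := by rw [← sq, orderOf_pow' g two_ne_zero, hg4]; rfl
    have := hord _ hg (fun e => by rw [e, orderOf_one] at h2; omega)
    omega
  have hQinv : ∀ x : G ⧸ N, orderOf x = 2 → x = q z := by
    intro x hx
    obtain ⟨g, rfl⟩ := QuotientGroup.mk'_surjective N x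
    have hg := hlift g ((QuotientGroup.eq_one_iff _).1 (by
      show q (g * g) = 1; rw [map_mul, ← sq, ← hx, pow_orderOf_eq_one])) (hx ▸ orderOf_map_dvd q g)
    have h1 : q g * q z = 1 := by rw [← map_mul]; exact (QuotientGroup.eq_one_iff _).2 (hyz g hg)
    have h2 : q z * q z = 1 := by rw [← map_mul, ← sq, ← hz, pow_orderOf_eq_one, map_one]
    exact mul_right_cancel (h1.trans h2.symm)
  have hqz : orderOf (q z) = 2 := by
    refine orderOf_eq_prime (by rw [← map_pow, ← hz, pow_orderOf_eq_one, map_one]) fun e => ?_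
    have hzN := (QuotientGroup.eq_one_iff z).1 e
    have := hord z hzN (fun e' => by rw [e', orderOf_one] at hz; omega)
    omega
  have hQ2 : IsPGroup 2 (G ⧸ N) := IsPGroup.iff_orderOf.2 fun x => by
    have := hQ4 x
    have := orderOf_pos x
    by_cases h3 : orderOf x = 3
    · exfalso
      refine no_six hQ4 (y := q z) ?_ h3 (dvd_of_eq hqz.symm)
      have h1 : x * q z * x⁻¹ = q z := hQinv _ (by rw [← hqz]; exact (MulAut.conj x).orderOf_eq (q z))
      exact mul_inv_eq_iff_eq_mul.1 h1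
    · by_cases h1 : orderOf x = 1
      · exact ⟨0, h1⟩
      by_cases h2 : orderOf x = 2
      · exact ⟨1, h2⟩
      · exact ⟨2, by omega⟩
  obtain ⟨f, hf⟩ := hex 4 (by norm_num) le_rfl
  have hf4 : orderOf (q f) = 4 := by
    have hd : orderOf (q f) ∣ 4 := hf ▸ orderOf_map_dvd q f
    by_contra hne
    have hd2 : orderOf (q f) ∣ 2 := by
      have := Nat.le_of_dvd (by norm_num) hd
      interval_cases orderOf (q f) <;> simp_all
    have hmem : f * f ∈ N := (QuotientGroup.eq_one_iff _).1 (by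
      show q (f * f) = 1; rw [map_mul, ← sq]; exact orderOf_dvd_iff_pow_eq_one.1 hd2)
    have := hlift f hmem ⟨2, hf⟩
    omega
  haveI : Fact (Nat.Prime 2) := ⟨Nat.prime_two⟩
  rcases Cfsg.Lib.ZStar.isCyclic_or_inverted hQ2 (fun x y hx hy => by
      rw [hQinv y hy, ← hQinv x hx]; exact Subgroup.mem_zpowers _) with hc | ⟨-, a, g, ha, hidx, hg, hinv, hg2⟩
  · left
    refine ⟨hc, ?_⟩
    obtain ⟨a, ha⟩ := hc.exists_ofOrder_eq_natCard
    rw [Subgroup.index_eq_card]
    refine le_antisymm (ha ▸ hQ4 a) ?_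
    exact hf4 ▸ Nat.le_of_dvd Nat.card_pos (orderOf_dvd_natCard (q f))
  · right
    have ha4 : orderOf a = 4 := le_antisymm (hQ4 a) ha
    rw [ha4] at hg2
    exact Cfsg.Lib.ZStar.nonempty_quaternion_of_inverted two_ne_zero ha4 hidx hg hinv hg2

theorem sym_three_of_order_six {Q : Type*} [Group Q] [Finite Q] (hc : Nat.card Q = 6) {y k : Q} (hy : orderOf y = 2)
    (hne : y * k ≠ k * y) : Nonempty (Q ≃* Equiv.Perm (Fin 3)) := by
  classical
  set H := Subgroup.zpowers y with hH
  have hHc : Nat.card H = 2 := by rw [hH, Nat.card_zpowers, hy]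
  have hq : Nat.card (Q ⧸ H) = 3 := by
    have := H.card_mul_index
    rw [hHc, hc, Subgroup.index_eq_card] at this
    omega
  set f := MulAction.toPermHom Q (Q ⧸ H) with hf
  have hker : f.ker = ⊥ := by
    rw [hf, ← Subgroup.normalCore_eq_ker, eq_bot_iff]
    intro c hc'
    rw [Subgroup.mem_bot]
    by_contra hc1
    have hcH := H.normalCore_le hc'
    have hy2 : y * y = 1 := by rw [← sq, ← hy, pow_orderOf_eq_one]
    have hmem : ∀ d ∈ H, d = 1 ∨ d = y := by
      intro d hd
      obtain ⟨i, rfl⟩ := Subgroup.mem_zpowers_iff.1 hd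
      rcases Int.even_or_odd' i with ⟨j, rfl | rfl⟩
      · left; rw [zpow_mul, zpow_two, hy2, one_zpow]
      · right; rw [zpow_add, zpow_mul, zpow_two, hy2, one_zpow, one_mul, zpow_one]
    have hcy := (hmem c hcH).resolve_left hc1
    rw [hcy] at hc' hc1
    have h2 := H.normalCore_le (H.normalCore_normal.conj_mem y hc' k)
    rcases hmem _ h2 with e | e
    · exact hc1 (conj_eq_one_iff.1 e)
    · exact hne (mul_inv_eq_iff_eq_mul.1 e).symm
  haveI := Fintype.ofFinite (Q ⧸ H)
  have hbij : Function.Bijective f := (Nat.bijective_iff_injective_and_card f).2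
    ⟨(MonoidHom.ker_eq_bot_iff f).1 hker, by rw [hc, Nat.card_perm, hq]; rfl⟩
  exact ⟨(MulEquiv.ofBijective f hbij).trans (Finite.equivFinOfCardEq hq).permCongrHom⟩

theorem card_two_pow_mul_three_pow {G : Type*} [Group G] [Finite G] (h4 : ∀ g : G, orderOf g ≤ 4) :
    ∃ a b, Nat.card G = 2 ^ a * 3 ^ b := by
  refine ⟨(Nat.card G).factorization 2, (Nat.card G).factorization 3, Nat.eq_of_factorization_eq Nat.card_pos.ne'
    (by positivity) fun q => ?_⟩
  rw [Nat.factorization_mul (by positivity) (by positivity), Finsupp.add_apply,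
    Nat.Prime.factorization_pow Nat.prime_two, Nat.Prime.factorization_pow Nat.prime_three]
  by_cases h2 : q = 2
  · subst h2; simp
  by_cases h3 : q = 3
  · subst h3; simp
  rw [Finsupp.single_eq_of_ne h2, Finsupp.single_eq_of_ne h3, add_zero]
  by_contra hne
  have hq : q ∈ (Nat.card G).primeFactors := by
    rw [← Nat.support_factorization, Finsupp.mem_support_iff]; exact hne
  haveI := Fact.mk (Nat.prime_of_mem_primeFactors hq)
  obtain ⟨g, hg⟩ := exists_prime_orderOf_dvd_card' q (Nat.dvd_of_mem_primeFactors hq)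
  have := h4 g
  have := (Fact.out : q.Prime).two_le
  have : q = 4 := by omega
  subst this
  exact absurd (Fact.out : Nat.Prime 4) (by norm_num)

theorem case_two {G : Type u} [Group G] [Finite G] (h4 : ∀ g : G, orderOf g ≤ 4)
    (hex : ∀ k, 1 ≤ k → k ≤ 4 → ∃ g : G, orderOf g = k) (hsol : Group.IsSolvable G)
    (M : Subgroup G) [M.Normal] (hM : IsPGroup 2 M) (hMne : M ≠ ⊥)
    (hMmax : ∀ L : Subgroup G, L.Normal → IsPGroup 2 L → L ≤ M) :
    (IsPGroup 2 ↥M ∧ Monoid.exponent ↥M = 4 ∧ Group.nilpotencyClass ↥M ≤ 2 ∧ M.index = 3) ∨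
      (Cfsg.IsElementaryAbelian 2 M ∧ Nonempty (G ⧸ M ≃* Equiv.Perm (Fin 3))) := by
  classical
  haveI : Fact (Nat.Prime 2) := ⟨Nat.prime_two⟩
  haveI : Fact (Nat.Prime 3) := ⟨Nat.prime_three⟩
  haveI := hsol
  have hev : ∀ m ∈ M, m ≠ 1 → 2 ∣ orderOf m := fun m hm hm1 => by
    obtain ⟨k, hk⟩ := IsPGroup.iff_orderOf.1 hM ⟨m, hm⟩
    rw [Subgroup.orderOf_mk] at hk
    rcases k with _ | k
    · exact absurd (orderOf_eq_one_iff.1 (by rw [hk, pow_zero])) hm1
    · exact hk ▸ dvd_pow_self 2 (Nat.succ_ne_zero k)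
  obtain ⟨s, hs⟩ := hex 3 (by norm_num) (by norm_num)
  have hfix : ∀ m ∈ M, m * s = s * m → m = 1 := fun m hm hc => by
    by_contra hm1
    exact no_six h4 (x := s) (y := m) hc.symm hs (hev m hm hm1)
  have hsM : s ∉ M := fun hsM => by
    have := hev s hsM (fun e => by rw [e, orderOf_one] at hs; omega)
    omega
  -- Sylow 3-subgroups have order three
  have hthree : ∀ T : Subgroup G, IsPGroup 3 T → Nat.card T ∣ 3 := by
    intro T hT
    rcases subsingleton_or_nontrivial ↥T with hsub | hnt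
    · rw [Nat.card_unique]; exact one_dvd _
    haveI := hT.center_nontrivial
    obtain ⟨⟨c, hc⟩, hc1⟩ := exists_ne (1 : Subgroup.center ↥T)
    have hc1' : (c : G) ≠ 1 := fun e => hc1 (Subtype.ext (Subtype.ext e))
    set V := (Subgroup.center ↥M).map M.subtype with hV
    haveI hVn : V.Normal := ConjAct.normal_of_characteristic_of_normal
    haveI : IsMulCommutative ↥V := ⟨⟨fun a b => by
      obtain ⟨a', ha', hae⟩ := a.2
      obtain ⟨b', hb', hbe⟩ := b.2
      apply Subtype.ext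
      rw [Subgroup.coe_mul, Subgroup.coe_mul, ← hae, ← hbe, ← map_mul, ← map_mul,
        Subgroup.mem_center_iff.1 hb' a']⟩⟩
    have hVne : V ≠ ⊥ := by
      haveI : Nontrivial ↥M := (Subgroup.nontrivial_iff_ne_bot M).2 hMne
      rw [hV, Ne, Subgroup.map_eq_bot_iff_of_injective _ M.subtype_injective]
      exact (Subgroup.nontrivial_iff_ne_bot _).1 hM.center_nontrivial
    have hTN : T ≤ Subgroup.normalizer (V : Set G) := by
      rw [Subgroup.normalizer_eq_top_iff.2 hVn]; exact le_top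
    have hfpf : ∀ u ∈ T, u ≠ 1 → V ⊓ Subgroup.centralizer ({u} : Set G) = ⊥ := fun u hu hu1 => by
      rw [eq_bot_iff]
      rintro m ⟨hm', hmc⟩
      have hm : m ∈ M := Subgroup.map_subtype_le _ hm'
      rw [Subgroup.mem_bot]
      by_contra hm1
      exact no_six h4 (x := u) (y := m) (Subgroup.mem_centralizer_singleton_iff.1 hmc).symm
        (order_of_three_group h4 hT hu hu1) (hev m hm hm1)
    have hle : T ≤ Subgroup.zpowers (c : G) := by
      intro u hu
      by_cases hu1 : u = 1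
      · rw [hu1]; exact one_mem _
      exact FrobCompl.mem_zpowers_of_commute hVne hTN hfpf Nat.prime_three c.2 hu (order_of_three_group h4 hT c.2 hc1')
        (order_of_three_group h4 hT hu hu1) (congrArg Subtype.val (Subgroup.mem_center_iff.1 hc ⟨u, hu⟩)).symm
    have := Subgroup.card_dvd_of_le hle
    rwa [Nat.card_zpowers, order_of_three_group h4 hT c.2 hc1'] at this
  set q := QuotientGroup.mk' M with hq
  have hQ4 : ∀ x : G ⧸ M, orderOf x ≤ 4 := fun x => by
    obtain ⟨g, rfl⟩ := QuotientGroup.mk'_surjective M x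
    exact (Nat.le_of_dvd (orderOf_pos g) (orderOf_map_dvd q g)).trans (h4 g)
  have hQthree : ∀ T : Subgroup (G ⧸ M), IsPGroup 3 T → Nat.card T ∣ 3 := by
    intro T hT
    obtain ⟨P, hP⟩ := hT.exists_le_sylow
    obtain S0 := (default : Sylow 3 G)
    have h1 := hthree _ S0.isPGroup'
    have h2 : Nat.card P ∣ Nat.card S0 := by
      rw [P.card_eq_multiplicity, S0.card_eq_multiplicity]
      refine Nat.pow_dvd_pow 3 ((Nat.factorization_le_iff_dvd Nat.card_pos.ne' Nat.card_pos.ne').2 ?_ 3)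
      exact Subgroup.card_quotient_dvd_card M
    exact (Subgroup.card_dvd_of_le hP).trans (h2.trans h1)
  have hQsol : Group.IsSolvable (G ⧸ M) := inferInstance
  -- the 3-core of the quotient
  obtain ⟨K, hKn, hK3, hKne⟩ : ∃ K : Subgroup (G ⧸ M), K.Normal ∧ IsPGroup 3 K ∧ K ≠ ⊥ := by
    haveI : Nontrivial (G ⧸ M) := ⟨⟨q s, 1, fun e => hsM ((QuotientGroup.eq_one_iff s).1 e)⟩⟩
    obtain ⟨K, hKn, -, hK1, hmin⟩ := exists_minimal_normal_le (N := (⊤ : Subgroup (G ⧸ M))) top_ne_bot
    haveI := hKn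
    obtain ⟨-, p, hp, hKp, -⟩ := minimal_normal_elementary hK1 inferInstance hmin
    haveI := Fact.mk hp
    have hp3 : p = 3 := by
      obtain ⟨e, he⟩ := IsPGroup.iff_card.1 hKp
      have he0 : e ≠ 0 := fun e0 => hK1 (Subgroup.eq_bot_of_card_eq _ (by rw [he, e0, pow_zero]))
      obtain ⟨x, hx⟩ := exists_prime_orderOf_dvd_card' (G := ↥K) p (he ▸ dvd_pow_self p he0)
      have := hQ4 (x : G ⧸ M)
      rw [Subgroup.orderOf_coe, hx] at this
      have := hp.two_le
      by_contra hne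
      have hp2 : p = 2 := by
        rcases Nat.lt_or_ge p 3 with h' | h'
        · omega
        · have : p = 4 := by omega
          subst this; exact absurd hp (by norm_num)
      subst hp2
      have hle : K.comap q ≤ M := hMmax _ inferInstance
        (hKp.comap_of_ker_isPGroup q (by rw [hq, QuotientGroup.ker_mk']; exact hM))
      apply hK1
      rw [eq_bot_iff]
      intro v hv
      obtain ⟨g, rfl⟩ := QuotientGroup.mk'_surjective M v
      exact Subgroup.mem_bot.2 ((QuotientGroup.eq_one_iff g).2 (hle hv))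
    exact ⟨K, hKn, hp3 ▸ hKp, hK1⟩
  haveI := hKn
  have hKc : Nat.card K = 3 := by
    rcases (Nat.dvd_prime Nat.prime_three).1 (hQthree K hK3) with e | e
    · exact absurd (Subgroup.eq_bot_of_card_eq _ e) hKne
    · exact e
  have hin : ∀ x : G ⧸ M, IsPGroup 3 (Subgroup.zpowers x) → x ∈ K := fun x hx => by
    have h1 := hQthree _ (IsPGroup.to_sup_of_normal_left hK3 hx)
    have h2 : K = K ⊔ Subgroup.zpowers x :=
      Subgroup.eq_of_le_of_card_ge le_sup_left (hKc ▸ Nat.le_of_dvd (by norm_num) h1)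
    rw [h2]; exact Subgroup.mem_sup_right (Subgroup.mem_zpowers x)
  have hk : orderOf (q s) = 3 := by
    refine orderOf_eq_prime (by rw [← map_pow, ← hs, pow_orderOf_eq_one, map_one]) fun e => hsM ((QuotientGroup.eq_one_iff s).1 e)
  have hkK : q s ∈ K := hin _ (IsPGroup.of_card (n := 1) (by rw [Nat.card_zpowers, hk, pow_one]))
  set C := Subgroup.centralizer ({q s} : Set (G ⧸ M)) with hC
  have hCK : C ≤ K := fun x hx => by
    refine hin x (IsPGroup.iff_card.2 ?_)
    rw [Nat.card_zpowers]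
    have := hQ4 x
    have := orderOf_pos x
    by_cases h3 : orderOf x = 3
    · exact ⟨1, h3⟩
    by_cases h1 : orderOf x = 1
    · exact ⟨0, h1⟩
    exact absurd (no_six hQ4 (y := x) (Subgroup.mem_centralizer_singleton_iff.1 hx).symm hk (by omega)) id
  have hKC : K ≤ C := fun x hx => by
    haveI := isCyclic_of_prime_card hKc
    exact Subgroup.mem_centralizer_singleton_iff.2
      (congrArg Subtype.val (IsCyclic.commGroup.mul_comm (⟨x, hx⟩ : ↥K) ⟨q s, hkK⟩))
  have hCc : Nat.card C = 3 := by rw [le_antisymm hCK hKC, hKc]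
  have hzK : Subgroup.zpowers (q s) = K :=
    Subgroup.eq_of_le_of_card_ge (Subgroup.zpowers_le.2 hkK) (by rw [hKc, Nat.card_zpowers, hk])
  have hcases : ∀ x : G ⧸ M, x * q s * x⁻¹ = q s ∨ x * q s * x⁻¹ = (q s)⁻¹ := by
    intro x
    obtain ⟨i, hi⟩ := Subgroup.mem_zpowers_iff.1 (hzK.symm ▸ hKn.conj_mem _ hkK x : x * q s * x⁻¹ ∈ Subgroup.zpowers (q s))
    have h3 : (q s) ^ (3 : ℤ) = 1 := by
      rw [show (3 : ℤ) = ((3 : ℕ) : ℤ) from rfl, zpow_natCast, ← hk, pow_orderOf_eq_one]
    have hne : x * q s * x⁻¹ ≠ 1 := fun e => by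
      rw [conj_eq_one_iff] at e; rw [e, orderOf_one] at hk; omega
    rw [← hi, show i = 3 * (i / 3) + i % 3 from (Int.mul_ediv_add_emod i 3).symm, zpow_add, zpow_mul, h3, one_zpow, one_mul]
    have := Int.emod_nonneg i (by norm_num : (3 : ℤ) ≠ 0)
    have := Int.emod_lt_of_pos i (by norm_num : (0 : ℤ) < 3)
    interval_cases hr : i % 3
    · exfalso
      apply hne
      rw [← hi, show i = 3 * (i / 3) from by omega, zpow_mul, h3, one_zpow]
    · exact Or.inl (zpow_one _)
    · right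
      rw [show (2 : ℤ) = 3 + -1 by norm_num, zpow_add, h3, one_mul, zpow_neg_one]
  have hidx : C.index ≤ 2 := by
    let f : (G ⧸ M) ⧸ C → Bool := Quotient.lift (fun x => decide (x * q s * x⁻¹ = q s)) (fun a b hab => by
      have h1 := Subgroup.mem_centralizer_singleton_iff.1 (QuotientGroup.leftRel_apply.1 hab)
      simp only [decide_eq_decide]
      have e : b * q s * b⁻¹ = a * q s * a⁻¹ := by
        calc b * q s * b⁻¹ = a * ((a⁻¹ * b) * q s) * b⁻¹ := by group
          _ = a * (q s * (a⁻¹ * b)) * b⁻¹ := by rw [h1]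
          _ = a * q s * a⁻¹ := by group
      rw [e])
    have hf : Function.Injective f := by
      intro a b
      induction a using QuotientGroup.induction_on with | H a => ?_
      induction b using QuotientGroup.induction_on with | H b => ?_
      intro hab
      have hab' : (a * q s * a⁻¹ = q s) ↔ (b * q s * b⁻¹ = q s) := decide_eq_decide.1 hab
      have e : a * q s * a⁻¹ = b * q s * b⁻¹ := by
        rcases hcases a with ha | ha <;> rcases hcases b with hb | hb
        · rw [ha, hb]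
        · rw [ha, hab'.1 ha]
        · rw [hb, hab'.2 hb]
        · rw [ha, hb]
      refine QuotientGroup.eq.2 (Subgroup.mem_centralizer_singleton_iff.2 ?_)
      calc a⁻¹ * b * q s = a⁻¹ * (b * q s * b⁻¹) * b := by group
        _ = a⁻¹ * (a * q s * a⁻¹) * b := by rw [e]
        _ = q s * (a⁻¹ * b) := by group
    have := Nat.card_le_card_of_injective f hf
    rwa [Nat.card_eq_fintype_card (α := Bool), Fintype.card_bool, ← Subgroup.index_eq_card] at this
  have hcardQ : Nat.card (G ⧸ M) = 3 ∨ Nat.card (G ⧸ M) = 6 := by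
    have := C.card_mul_index
    have := Subgroup.index_ne_zero_of_finite (H := C)
    rw [hCc] at *
    omega
  let σ : MulAut ↥M := MulAut.conjNormal s
  have hσf : ∀ m, σ m = m → m = 1 := fun m hm => Subtype.ext (hfix m m.2 (by
    have h1 : s * (m : G) * s⁻¹ = m := congrArg Subtype.val hm
    exact (mul_inv_eq_iff_eq_mul.1 h1).symm))
  have hs3 : s ^ 3 = 1 := hs ▸ pow_orderOf_eq_one s
  have hσ3 : ∀ m, σ (σ (σ m)) = m := fun m => Subtype.ext (by
    show s * (s * (s * (m : G) * s⁻¹) * s⁻¹) * s⁻¹ = m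
    calc s * (s * (s * (m : G) * s⁻¹) * s⁻¹) * s⁻¹ = s ^ 3 * m * (s ^ 3)⁻¹ := by
          rw [pow_succ, pow_succ, pow_one]; group
      _ = m := by rw [hs3]; group)
  have hMe : ∀ m : ↥M, m ^ 4 = 1 := fun m => by
    by_cases hm1 : m = 1
    · rw [hm1, one_pow]
    rw [← orderOf_dvd_iff_pow_eq_one, ← Subgroup.orderOf_coe]
    have := hev m m.2 (fun e => hm1 (Subtype.ext e))
    have := h4 m
    have := orderOf_pos (m : G)
    rcases (show orderOf (m : G) = 2 ∨ orderOf (m : G) = 4 by omega) with e | e <;> rw [e] <;> norm_num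
  rcases hcardQ with hQ | hQ
  · left
    have hno : ∀ x : ↥M, x ^ 3 = 1 → x = 1 := fun x hx => by
      have := hMe x; rwa [pow_succ, hx, one_mul] at this
    refine ⟨hM, ?_, ?_, by rw [Subgroup.index_eq_card, hQ]⟩
    · refine Nat.dvd_antisymm (Monoid.exponent_dvd_of_forall_pow_eq_one hMe) ?_
      obtain ⟨f, hf⟩ := hex 4 (by norm_num) le_rfl
      have hfM : f ∈ M := (QuotientGroup.eq_one_iff f).1 (orderOf_eq_one_iff.1 (Nat.eq_one_of_dvd_coprimes
        (show Nat.Coprime 4 3 by norm_num) (hf ▸ orderOf_map_dvd q f) (hQ ▸ orderOf_dvd_natCard (q f))))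
      rw [← hf, ← Subgroup.orderOf_mk f hfM]
      exact Monoid.order_dvd_exponent _
    · haveI := hM.isNilpotent
      rw [← Subgroup.lowerCentralSeries_eq_bot_iff_nilpotencyClass_le, eq_bot_iff]
      rw [Subgroup.lowerCentralSeries_succ, Subgroup.commutator_le]
      intro a ha b _
      rw [Subgroup.lowerCentralSeries_succ] at ha
      have hcen : a ∈ Subgroup.center ↥M := by
        refine (Subgroup.commutator_le.2 fun u _ v _ => ?_) ha
        exact Subgroup.mem_center_iff.2 fun w =>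
          commutatorElement_eq_one_iff_mul_comm.1 (class_two_of_fpf σ hσf hσ3 hno w u v)
      exact Subgroup.mem_bot.2 (commutatorElement_eq_one_iff_mul_comm.2 (Subgroup.mem_center_iff.1 hcen b).symm)
  · right
    obtain ⟨y, hy⟩ := exists_prime_orderOf_dvd_card' (G := G ⧸ M) 2 (hQ ▸ ⟨3, rfl⟩)
    have hynC : y ∉ C := fun hyC => by
      have := orderOf_dvd_natCard (⟨y, hyC⟩ : ↥C)
      rw [Subgroup.orderOf_mk, hy, hCc] at this
      omega
    have hne : y * q s ≠ q s * y := fun e => hynC (Subgroup.mem_centralizer_singleton_iff.2 e)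
    refine ⟨?_, sym_three_of_order_six hQ hy hne⟩
    have hyinv : y * q s * y⁻¹ = (q s)⁻¹ := (hcases y).resolve_left fun e => hne (mul_inv_eq_iff_eq_mul.1 e)
    obtain ⟨g, rfl⟩ := QuotientGroup.mk'_surjective M y
    have he : s * (g * s * g⁻¹) ∈ M := (QuotientGroup.eq_one_iff _).1 (by
      show q (s * (g * s * g⁻¹)) = 1
      rw [map_mul, map_mul, map_mul, map_inv, hyinv, mul_inv_cancel])
    have hinj : Function.Injective fun m : ↥M => σ m * m⁻¹ := by
      intro a b hab
      have h1 : σ a * a⁻¹ = σ b * b⁻¹ := hab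
      refine inv_mul_eq_one.1 (hσf (a⁻¹ * b) ?_)
      rw [map_mul, map_inv]
      calc (σ a)⁻¹ * σ b = (σ a)⁻¹ * (σ b * b⁻¹) * b := by group
        _ = (σ a)⁻¹ * (σ a * a⁻¹) * b := by rw [h1]
        _ = a⁻¹ * b := by group
    obtain ⟨m, hm⟩ := (Finite.surjective_of_injective hinj) ⟨_, he⟩
    have hm' : s * (m : G) * s⁻¹ * (m : G)⁻¹ = s * (g * s * g⁻¹) := congrArg Subtype.val hm
    set t := (m : G)⁻¹ * g with ht
    have hts : t * s * t⁻¹ = s⁻¹ := by
      calc t * s * t⁻¹ = (m : G)⁻¹ * s⁻¹ * (s * (g * s * g⁻¹)) * m := by rw [ht]; group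
        _ = s⁻¹ := by rw [← hm']; group
    have hqt : q t = q g := by
      rw [ht, map_mul, map_inv, show q (m : G) = 1 from (QuotientGroup.eq_one_iff _).2 m.2, inv_one, one_mul]
    have htev : 2 ∣ orderOf t := by
      rw [← hy, ← hqt]; exact orderOf_map_dvd q t
    have ht2 : t * t = 1 := by
      apply hfix
      · refine (QuotientGroup.eq_one_iff _).1 ?_
        show q (t * t) = 1
        rw [map_mul, ← sq, hqt, ← hy, pow_orderOf_eq_one]
      · have : t * t * s * (t * t)⁻¹ = s := by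
          calc t * t * s * (t * t)⁻¹ = t * (t * s * t⁻¹) * t⁻¹ := by group
            _ = t * s⁻¹ * t⁻¹ := by rw [hts]
            _ = (t * s * t⁻¹)⁻¹ := by group
            _ = s := by rw [hts, inv_inv]
        exact mul_inv_eq_iff_eq_mul.1 this
    let τ : MulAut ↥M := MulAut.conjNormal t
    obtain ⟨hab, hsq⟩ := elementary_of_sym_three σ τ hσf hσ3 (fun v => Subtype.ext (by
      show t * (t * (v : G) * t⁻¹) * t⁻¹ = v
      calc t * (t * (v : G) * t⁻¹) * t⁻¹ = t * t * v * (t * t)⁻¹ := by group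
        _ = v := by rw [ht2]; group)) (fun v => Subtype.ext (by
      show t * (s * (v : G) * s⁻¹) * t⁻¹ = s * (s * (t * (v : G) * t⁻¹) * s⁻¹) * s⁻¹
      have hts' : t * s = s * s * t := by
        have h1 : t * s = s⁻¹ * t := mul_inv_eq_iff_eq_mul.1 hts
        rw [h1, show s⁻¹ = s * s by rw [eq_comm, eq_inv_iff_mul_eq_one, ← pow_two, ← pow_succ, hs3]]
      calc t * (s * (v : G) * s⁻¹) * t⁻¹ = (t * s) * v * (t * s)⁻¹ := by group
        _ = _ := by rw [hts']; group)) hMe (fun v => by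
      apply Subtype.ext
      show (v : G) * (t * v * t⁻¹) * ((v : G) * (t * v * t⁻¹)) = 1
      have hti : t⁻¹ = t := inv_eq_of_mul_eq_one_right ht2
      have hev' : 2 ∣ orderOf ((v : G) * t) := by
        have : q ((v : G) * t) = q g := by
          rw [map_mul, hqt, show q (v : G) = 1 from (QuotientGroup.eq_one_iff _).2 v.2, one_mul]
        rw [← hy, ← this]; exact orderOf_map_dvd q _
      have h5 : ((v : G) * t) ^ 4 = 1 := by
        rw [← orderOf_dvd_iff_pow_eq_one]
        have := h4 ((v : G) * t)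
        have := orderOf_pos ((v : G) * t)
        rcases (show orderOf ((v : G) * t) = 2 ∨ orderOf ((v : G) * t) = 4 by omega) with e | e <;> rw [e] <;> norm_num
      rw [hti, ← h5, show (4 : ℕ) = 2 + 2 from rfl, pow_add, sq]; group)
    exact ⟨⟨⟨hab⟩⟩, fun a ha => congrArg Subtype.val (hsq ⟨a, ha⟩)⟩


/-- A finite group whose set of element orders is exactly {1, 2, 3, 4} has a normal subgroup N such that either N is a 2-group of exponent 4 and nilpotency class at most 2 with G/N of order 3, or N is an elementary abelian 2-group with G/N isomorphic to the symmetric group of degree 3, or N is an elementary abelian 3-group with G/N cyclic of order 4 or quaternion of order 8. -/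
theorem result {G : Type*} [Group G] [Finite G] (h : Set.range (orderOf : G → ℕ) = {k : ℕ | 1 ≤ k ∧ k ≤ 4}) :
    ∃ (N : Subgroup G) (_ : N.Normal),
      (IsPGroup 2 ↥N ∧ Monoid.exponent ↥N = 4 ∧ Group.nilpotencyClass ↥N ≤ 2 ∧ N.index = 3) ∨
      (Cfsg.IsElementaryAbelian 2 N ∧ Nonempty (G ⧸ N ≃* Equiv.Perm (Fin 3))) ∨
      (Cfsg.IsElementaryAbelian 3 N ∧ ((IsCyclic (G ⧸ N) ∧ N.index = 4) ∨ Nonempty (G ⧸ N ≃* QuaternionGroup 2))) := by
  classical
  have h4 : ∀ g : G, orderOf g ≤ 4 := fun g => by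
    have h1 : orderOf g ∈ Set.range (orderOf : G → ℕ) := ⟨g, rfl⟩
    rw [h] at h1
    exact h1.2
  have hex : ∀ k, 1 ≤ k → k ≤ 4 → ∃ g : G, orderOf g = k := fun k h1 h2 => by
    have h3 : k ∈ {k : ℕ | 1 ≤ k ∧ k ≤ 4} := ⟨h1, h2⟩
    rw [← h] at h3
    exact h3
  obtain ⟨a, b, hab⟩ := card_two_pow_mul_three_pow h4
  have hsol : Group.IsSolvable G :=
    Cfsg.Lib.Characters.isSolvable_of_card_eq_pow_mul_pow Nat.prime_two Nat.prime_three (Nat.card G) G rfl ⟨a, b, hab⟩
  haveI : Fact (Nat.Prime 2) := ⟨Nat.prime_two⟩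
  haveI : Fact (Nat.Prime 3) := ⟨Nat.prime_three⟩
  by_cases h3 : Cfsg.pCore 3 G = ⊥
  · have h2 : Cfsg.pCore 2 G ≠ ⊥ := by
      intro h2
      haveI := hsol
      obtain ⟨g, hg⟩ := hex 2 (by norm_num) (by norm_num)
      haveI : Nontrivial G := ⟨⟨g, 1, fun e => by rw [e, orderOf_one] at hg; omega⟩⟩
      obtain ⟨K, hKn, -, hK1, hmin⟩ := exists_minimal_normal_le (N := (⊤ : Subgroup G)) top_ne_bot
      haveI := hKn
      obtain ⟨-, p, hp, hKp, hKe⟩ := minimal_normal_elementary hK1 inferInstance hmin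
      obtain ⟨x, hx, hx1⟩ := (Subgroup.bot_or_exists_ne_one K).resolve_left hK1
      haveI := Fact.mk hp
      have h5 := h4 x
      rw [orderOf_eq_prime (hKe x hx) hx1] at h5
      have hp23 : p = 2 ∨ p = 3 := by
        have := hp.two_le
        rcases (show p = 2 ∨ p = 3 ∨ p = 4 by omega) with e | e | e
        · exact Or.inl e
        · exact Or.inr e
        · subst e; exact absurd hp (by norm_num)
      rcases hp23 with rfl | rfl
      · exact hK1 (le_bot_iff.1 (h2 ▸ le_pCore hKn hKp))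
      · exact hK1 (le_bot_iff.1 (h3 ▸ le_pCore hKn hKp))
    refine ⟨Cfsg.pCore 2 G, inferInstance, ?_⟩
    rcases case_two h4 hex hsol (Cfsg.pCore 2 G) (isPGroup_pCore 2) h2 (fun L hL hL2 => le_pCore hL hL2) with hh | hh
    · exact Or.inl hh
    · exact Or.inr (Or.inl hh)
  · exact ⟨Cfsg.pCore 3 G, inferInstance, Or.inr (Or.inr
      (case_three h4 hex (Cfsg.pCore 3 G) (isPGroup_pCore 3) (fun M hM hM3 => le_pCore hM hM3) h3))⟩

end Cfsg.Agent.S4006
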