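import Cfsg.Statements.S4198
import Mathlib
-- import your own Cfsg.Agent.* helpers here

set_option autoImplicit false
open Cfsg

namespace Cfsg.Agent.S4198

open Equiv

theorem parts_ne_zero {n : ℕ} (P : Nat.Partition (n + 1)) : P.parts.toFinset.Nonempty := by
  rw [Finset.nonempty_iff_ne_empty]
  intro h
  rw [Multiset.toFinset_eq_empty] at h
  have := P.parts_sum
  rw [h] at this
  simp at this

def minPart {n : ℕ} (P : Nat.Partition (n + 1)) : ℕ := P.parts.toFinset.min' (parts_ne_zero P)

theorem minPart_mem {n : ℕ} (P : Nat.Partition (n + 1)) : minPart P ∈ P.parts :=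
  Multiset.mem_toFinset.1 (Finset.min'_mem _ _)

theorem minPart_le {n : ℕ} (P : Nat.Partition (n + 1)) {x : ℕ} (h : x ∈ P.parts) : minPart P ≤ x :=
  Finset.min'_le _ _ (Multiset.mem_toFinset.2 h)

theorem card_partition_succ_le (n : ℕ) : Fintype.card (Nat.Partition (n + 1)) ≤ 2 * Fintype.card (Nat.Partition n) := by
  classical
  let f : Nat.Partition (n + 1) → Bool × Nat.Partition n := fun P =>
    if h : 1 ∈ P.parts then
      (false, { parts := P.parts.erase 1
                parts_pos := fun hi => P.parts_pos (Multiset.mem_of_mem_erase hi)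
                parts_sum := by
                  have := P.parts_sum
                  rw [← Multiset.cons_erase h, Multiset.sum_cons] at this
                  omega })
    else
      (true, { parts := (minPart P - 1) ::ₘ P.parts.erase (minPart P)
               parts_pos := fun {i} hi => by
                 rcases Multiset.mem_cons.1 hi with rfl | hi
                 · have h0 := P.parts_pos (minPart_mem P)
                   have h1 : minPart P ≠ 1 := fun e => h (Eq.subst (motive := fun x => x ∈ P.parts) e (minPart_mem P))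
                   omega
                 · exact P.parts_pos (Multiset.mem_of_mem_erase hi)
               parts_sum := by
                 have := P.parts_sum
                 rw [← Multiset.cons_erase (minPart_mem P), Multiset.sum_cons] at this
                 have h0 := P.parts_pos (minPart_mem P)
                 rw [Multiset.sum_cons]
                 omega })
  have hinj : Function.Injective f := by
    intro P Q h
    simp only [f] at h
    split_ifs at h with hP hQ hQ
    · have := congrArg (fun x : Bool × Nat.Partition n => x.2.parts) h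
      refine Nat.Partition.ext ?_
      simp only at this
      rw [← Multiset.cons_erase hP, ← Multiset.cons_erase hQ, this]
    · simp at h
    · simp at h
    · have h2 := congrArg (fun x : Bool × Nat.Partition n => x.2.parts) h
      simp only at h2
      have key : ∀ P Q : Nat.Partition (n + 1), (minPart P - 1) ::ₘ P.parts.erase (minPart P) =
          (minPart Q - 1) ::ₘ Q.parts.erase (minPart Q) → minPart P - 1 ≤ minPart Q - 1 := by
        intro P Q e
        have hm : minPart Q - 1 ∈ (minPart P - 1) ::ₘ P.parts.erase (minPart P) := by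
          rw [e]; exact Multiset.mem_cons_self _ _
        rcases Multiset.mem_cons.1 hm with h | h
        · omega
        · have := minPart_le P (Multiset.mem_of_mem_erase h)
          omega
      have e1 := key P Q h2
      have e2 := key Q P h2.symm
      have p1 := P.parts_pos (minPart_mem P)
      have p2 := Q.parts_pos (minPart_mem Q)
      have he : minPart P = minPart Q := by omega
      rw [he] at h2
      refine Nat.Partition.ext ?_
      rw [← Multiset.cons_erase (minPart_mem P), ← Multiset.cons_erase (minPart_mem Q), he, (Multiset.cons_inj_right _).1 h2]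
  calc Fintype.card (Nat.Partition (n + 1)) ≤ Fintype.card (Bool × Nat.Partition n) := Fintype.card_le_of_injective f hinj
    _ = 2 * Fintype.card (Nat.Partition n) := by rw [Fintype.card_prod, Fintype.card_bool]

theorem card_partition_five : Fintype.card (Nat.Partition 5) ≤ 8 := by
  classical
  let T : Finset (ℕ × ℕ) := {(0, 0), (1, 0), (2, 0), (5, 0), (0, 1), (3, 1), (1, 2)}
  have hsum : ∀ P : Nat.Partition 5, P.parts.count 1 * 1 + P.parts.count 2 * 2 + P.parts.count 3 * 3 +
      P.parts.count 4 * 4 + P.parts.count 5 * 5 = 5 := by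
    intro P
    have h := Finset.sum_multiset_count_of_subset P.parts (Finset.Icc 1 5) (fun a ha => by
      rw [Multiset.mem_toFinset] at ha
      rw [Finset.mem_Icc]
      exact ⟨P.parts_pos ha, Nat.Partition.le_of_mem_parts ha⟩)
    rw [P.parts_sum, show Finset.Icc 1 5 = ({1, 2, 3, 4, 5} : Finset ℕ) from by decide] at h
    simp at h
    omega
  have hb : ∀ P : Nat.Partition 5, P.parts.count 3 ≤ 1 ∧ P.parts.count 4 ≤ 1 ∧ P.parts.count 5 ≤ 1 := fun P => by
    have := hsum P
    omega
  have hdet : ∀ P : Nat.Partition 5, P.parts.count 1 + 2 * P.parts.count 2 ∈ ({0, 1, 2, 5} : Finset ℕ) ∧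
      P.parts.count 3 = (if P.parts.count 1 + 2 * P.parts.count 2 = 2 then 1 else 0) ∧
      P.parts.count 4 = (if P.parts.count 1 + 2 * P.parts.count 2 = 1 then 1 else 0) ∧
      P.parts.count 5 = (if P.parts.count 1 + 2 * P.parts.count 2 = 0 then 1 else 0) := by
    intro P
    have h := hsum P
    obtain ⟨b3, b4, b5⟩ := hb P
    generalize P.parts.count 1 = c1, P.parts.count 2 = c2, P.parts.count 3 = c3, P.parts.count 4 = c4, P.parts.count 5 = c5 at h b3 b4 b5 ⊢
    interval_cases c3 <;> interval_cases c4 <;> interval_cases c5 <;>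
      simp only [Finset.mem_insert, Finset.mem_singleton] <;> split_ifs <;> omega
  have hmem : ∀ P : Nat.Partition 5, (P.parts.count 1, P.parts.count 2) ∈ T := by
    intro P
    have h := (hdet P).1
    simp only [T, Finset.mem_insert, Finset.mem_singleton, Prod.mk.injEq] at h ⊢
    omega
  have hinj : Function.Injective fun P : Nat.Partition 5 => (⟨(P.parts.count 1, P.parts.count 2), hmem P⟩ : T) := by
    intro P Q h
    simp only [Subtype.mk.injEq, Prod.mk.injEq] at h
    have hP := hsum P
    have hQ := hsum Q
    refine Nat.Partition.ext (Multiset.ext.2 fun a => ?_)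
    by_cases ha : a ∈ Finset.Icc 1 5
    · rw [Finset.mem_Icc] at ha
      obtain ⟨-, p3, p4, p5⟩ := hdet P
      obtain ⟨-, q3, q4, q5⟩ := hdet Q
      rw [h.1, h.2] at p3 p4 p5
      rcases (by omega : a = 1 ∨ a = 2 ∨ a = 3 ∨ a = 4 ∨ a = 5) with rfl | rfl | rfl | rfl | rfl
      · exact h.1
      · exact h.2
      · rw [p3, q3]
      · rw [p4, q4]
      · rw [p5, q5]
    · have : ∀ P : Nat.Partition 5, P.parts.count a = 0 := fun P => Multiset.count_eq_zero.2 fun hm =>
        ha (Finset.mem_Icc.2 ⟨P.parts_pos hm, Nat.Partition.le_of_mem_parts hm⟩)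
      rw [this, this]
  refine (Fintype.card_le_of_injective _ hinj).trans ?_
  rw [Fintype.card_coe]
  decide

theorem card_partition_le : ∀ m : ℕ, Fintype.card (Nat.Partition (m + 5)) ≤ 2 ^ (m + 3)
  | 0 => card_partition_five
  | m + 1 => by
    have h1 := card_partition_succ_le (m + 5)
    have h2 := card_partition_le m
    rw [pow_succ]
    rw [show m + 1 + 5 = m + 5 + 1 from by omega]
    omega

theorem odd_of_commute {α : Type*} [Fintype α] [DecidableEq α] (y : Perm α)
    (h : ∀ τ : Perm α, Commute τ y → Perm.sign τ = 1) :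
    (∀ a ∈ y.cycleType, Odd a) ∧ Fintype.card α ≤ y.support.card + 1 := by
  refine ⟨fun a ha => ?_, ?_⟩
  · rw [Perm.cycleType_def] at ha
    obtain ⟨c, hc, rfl⟩ := Multiset.mem_map.1 ha
    have hc' : c ∈ y.cycleFactorsFinset := hc
    have hcyc := (Perm.mem_cycleFactorsFinset_iff.1 hc').1
    have h1 := h c (Perm.self_mem_cycle_factors_commute hc')
    rw [hcyc.sign] at h1
    rcases Nat.even_or_odd c.support.card with he | ho
    · rw [he.neg_one_pow] at h1
      exact absurd h1 (by decide)
    · exact ho
  · by_contra hlt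
    have h2 : 1 < (y.supportᶜ).card := by rw [Finset.card_compl]; omega
    obtain ⟨a, ha, b, hb, hab⟩ := Finset.one_lt_card.1 h2
    rw [Finset.mem_compl, Perm.notMem_support] at ha hb
    have hc : Commute (Equiv.swap a b) y := by
      show Equiv.swap a b * y = y * Equiv.swap a b
      rw [Equiv.mul_swap_eq_swap_mul, ha, hb]
    have h1 := h _ hc
    rw [Perm.sign_swap hab] at h1
    exact absurd h1 (by decide)

theorem odd_sign_of_neg {u : ℤˣ} (h : u ≠ 1) : u = -1 := (Int.units_eq_one_or u).resolve_left h

theorem card_classes_alt_lt (n : ℕ) (hn : 5 ≤ n) :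
    Nat.card (ConjClasses (alternatingGroup (Fin n))) < Nat.card (ConjClasses (Perm (Fin n))) := by
  classical
  set A := alternatingGroup (Fin n) with hA
  let π : ConjClasses A → ConjClasses (Perm (Fin n)) := ConjClasses.map A.subtype
  let o : ConjClasses A → A := fun c => c.exists_rep.choose
  have hout : ∀ c : ConjClasses A, ConjClasses.mk (o c) = c := fun c => c.exists_rep.choose_spec
  have hπ : ∀ c, π c = ConjClasses.mk ((o c : A) : Perm (Fin n)) := fun c => by
    conv_lhs => rw [← hout c]
    rfl
  have hsign : ∀ a : A, Perm.sign (a : Perm (Fin n)) = 1 := fun a => Perm.mem_alternatingGroup.1 a.2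
  have hA' : ∀ τ : Perm (Fin n), Perm.sign τ = 1 → τ ∈ A := fun τ h => Perm.mem_alternatingGroup.2 h
  have hconj : ∀ a b : A, ConjClasses.mk a ≠ ConjClasses.mk b → ∀ g : Perm (Fin n),
      g * (a : Perm (Fin n)) * g⁻¹ = b → Perm.sign g = -1 := by
    intro a b hne g hg
    refine odd_sign_of_neg fun h => hne (ConjClasses.mk_eq_mk_iff_isConj.2 (isConj_iff.2 ⟨⟨g, hA' g h⟩, Subtype.ext hg⟩))
  let rep : ConjClasses A → ConjClasses A := fun c =>
    (Classical.epsilon fun d => π d = π c)
  have hrep : ∀ c, π (rep c) = π c := fun c => Classical.epsilon_spec (p := fun d => π d = π c) ⟨c, rfl⟩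
  have hrep2 : ∀ c d, π c = π d → rep c = rep d := fun c d h => by simp only [rep, h]
  -- non-canonical classes
  have hnc : ∀ c, rep c ≠ c → (∀ a ∈ ((o c : A) : Perm (Fin n)).cycleType, Odd a) ∧
      n ≤ ((o c : A) : Perm (Fin n)).support.card + 1 := by
    intro c hc
    have h := odd_of_commute ((o c : A) : Perm (Fin n)) fun τ hτ => by
      by_contra hτs
      have hm : π (rep c) = π c := hrep c
      rw [hπ, hπ] at hm
      obtain ⟨g, hg⟩ := isConj_iff.1 (ConjClasses.mk_eq_mk_iff_isConj.1 hm)
      have hg1 := hconj (o (rep c)) (o c) (by rw [hout, hout]; exact hc) g hg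
      have hg2 := hconj (o (rep c)) (o c) (by rw [hout, hout]; exact hc) (τ * g) (by
        calc τ * g * ((o (rep c) : A) : Perm (Fin n)) * (τ * g)⁻¹
            = τ * (g * ((o (rep c) : A) : Perm (Fin n)) * g⁻¹) * τ⁻¹ := by group
          _ = τ * ((o c : A) : Perm (Fin n)) * τ⁻¹ := by rw [hg]
          _ = _ := by rw [hτ.eq, mul_inv_cancel_right])
      rw [map_mul, hg1, odd_sign_of_neg hτs] at hg2
      exact absurd hg2 (by decide)
    exact ⟨h.1, by simpa using h.2⟩
  have hne : ∀ c, rep c ≠ c → ((o c : A) : Perm (Fin n)).cycleType.toFinset.Nonempty := by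
    intro c hc
    rw [Finset.nonempty_iff_ne_empty, Ne, Multiset.toFinset_eq_empty]
    intro h
    have := (hnc c hc).2
    rw [← Perm.sum_cycleType, h] at this
    simp at this
    omega
  -- the odd class attached to a non-canonical class
  let mx : ∀ c, rep c ≠ c → ℕ := fun c hc => ((o c : A) : Perm (Fin n)).cycleType.toFinset.max' (hne c hc)
  have hmx : ∀ c hc, mx c hc ∈ ((o c : A) : Perm (Fin n)).cycleType ∧ 3 ≤ mx c hc ∧ Odd (mx c hc) := by
    intro c hc
    have h1 : mx c hc ∈ ((o c : A) : Perm (Fin n)).cycleType := Multiset.mem_toFinset.1 (Finset.max'_mem _ _)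
    have h2 := (hnc c hc).1 _ h1
    have h3 := Perm.two_le_of_mem_cycleType h1
    obtain ⟨t, ht⟩ := h2
    exact ⟨h1, by omega, ⟨t, ht⟩⟩
  have hex : ∀ c hc, ∃ g : Perm (Fin n),
      g.cycleType = (mx c hc - 1) ::ₘ ((o c : A) : Perm (Fin n)).cycleType.erase (mx c hc) := by
    intro c hc
    refine (Equiv.Perm.exists_with_cycleType_iff (Fin n)).2 ⟨?_, fun a ha => ?_⟩
    · have h1 := ((o c : A) : Perm (Fin n)).sum_cycleType
      rw [← Multiset.cons_erase (hmx c hc).1, Multiset.sum_cons] at h1
      have h2 := ((o c : A) : Perm (Fin n)).support.card_le_univ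
      rw [Multiset.sum_cons]
      omega
    · rcases Multiset.mem_cons.1 ha with rfl | ha
      · have := (hmx c hc).2.1; omega
      · exact Perm.two_le_of_mem_cycleType (Multiset.mem_of_mem_erase ha)
  have hodd : ∀ c hc, Perm.sign (hex c hc).choose = -1 := by
    intro c hc
    have h1 := hsign (o c)
    rw [Perm.sign_of_cycleType, ← Multiset.cons_erase (hmx c hc).1, Multiset.sum_cons, Multiset.card_cons] at h1
    rw [Perm.sign_of_cycleType, (hex c hc).choose_spec, Multiset.sum_cons, Multiset.card_cons]
    generalize (((o c : A) : Perm (Fin n)).cycleType.erase (mx c hc)).sum = s at h1 ⊢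
    generalize Multiset.card (((o c : A) : Perm (Fin n)).cycleType.erase (mx c hc)) = k at h1 ⊢
    have := (hmx c hc).2.1
    rw [show mx c hc + s + (k + 1) = mx c hc - 1 + s + (k + 1) + 1 by omega, pow_succ, mul_neg, mul_one] at h1
    exact neg_eq_iff_eq_neg.1 h1
  have hrec : ∀ c hc d hd, (hex c hc).choose.cycleType = (hex d hd).choose.cycleType → mx c hc = mx d hd := by
    intro c hc d hd h
    rw [(hex c hc).choose_spec, (hex d hd).choose_spec] at h
    have hm : mx c hc - 1 ∈ (mx d hd - 1) ::ₘ ((o d : A) : Perm (Fin n)).cycleType.erase (mx d hd) :=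
      h ▸ Multiset.mem_cons_self _ _
    have h1 := (hmx c hc).2
    have h2 := (hmx d hd).2
    rcases Multiset.mem_cons.1 hm with e | e
    · omega
    · have := (hnc d hd).1 _ (Multiset.mem_of_mem_erase e)
      obtain ⟨t, ht⟩ := this
      obtain ⟨t', ht'⟩ := h1.2
      omega
  let Φ : ConjClasses A → ConjClasses (Perm (Fin n)) := fun c =>
    if hc : rep c = c then π c else ConjClasses.mk (hex c hc).choose
  have hπsign : ∀ c (g : Perm (Fin n)), π c = ConjClasses.mk g → Perm.sign g = 1 := by
    intro c g h
    rw [hπ] at h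
    obtain ⟨t, ht⟩ := isConj_iff.1 (ConjClasses.mk_eq_mk_iff_isConj.1 h)
    rw [← ht, map_mul, map_mul, map_inv, mul_comm (Perm.sign t), mul_assoc, mul_inv_cancel, mul_one]
    exact hsign _
  have hΦ : Function.Injective Φ := by
    intro c d h
    simp only [Φ] at h
    split_ifs at h with hc hd hd
    · rw [← hc, ← hd, hrep2 c d h]
    · have := hπsign c _ h
      rw [hodd d hd] at this
      exact absurd this (by decide)
    · have := hπsign d _ h.symm
      rw [hodd c hc] at this
      exact absurd this (by decide)
    · have h' := Perm.isConj_iff_cycleType_eq.1 (ConjClasses.mk_eq_mk_iff_isConj.1 h)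
      have hm := hrec c hc d hd h'
      rw [(hex c hc).choose_spec, (hex d hd).choose_spec, hm, Multiset.cons_inj_right] at h'
      have hct : ((o c : A) : Perm (Fin n)).cycleType = ((o d : A) : Perm (Fin n)).cycleType := by
        rw [← Multiset.cons_erase (hmx c hc).1, ← Multiset.cons_erase (hmx d hd).1, hm, h']
      have hpi : π c = π d := by
        rw [hπ, hπ]
        exact ConjClasses.mk_eq_mk_iff_isConj.2 (Perm.isConj_iff_cycleType_eq.2 hct)
      by_contra hcd
      -- c, d, rep c would be three classes in one fibre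
      obtain ⟨g, hg⟩ := isConj_iff.1 (ConjClasses.mk_eq_mk_iff_isConj.1 (show ConjClasses.mk ((o c : A) : Perm (Fin n)) = ConjClasses.mk ((o d : A) : Perm (Fin n)) by
        rw [← hπ, ← hπ]; exact hpi))
      obtain ⟨k, hk⟩ := isConj_iff.1 (ConjClasses.mk_eq_mk_iff_isConj.1 (show ConjClasses.mk ((o (rep c) : A) : Perm (Fin n)) = ConjClasses.mk ((o c : A) : Perm (Fin n)) by
        rw [← hπ, ← hπ]; exact hrep c))
      have s1 := hconj (o c) (o d) (by rw [hout, hout]; exact hcd) g hg
      have s2 := hconj (o (rep c)) (o c) (by rw [hout, hout]; exact hc) k hk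
      have s3 := hconj (o (rep c)) (o d) (by rw [hout, hout, hrep2 c d hpi]; exact hd) (g * k) (by
        rw [← hg, ← hk]; group)
      rw [map_mul, s1, s2] at s3
      exact absurd s3 (by decide)
  rw [Nat.card_eq_fintype_card, Nat.card_eq_fintype_card]
  refine Fintype.card_lt_of_injective_of_notMem Φ hΦ (b := ConjClasses.mk (Equiv.swap (⟨0, by omega⟩ : Fin n) ⟨1, by omega⟩)) ?_
  rintro ⟨c, hc⟩
  have hne01 : (⟨0, by omega⟩ : Fin n) ≠ ⟨1, by omega⟩ := by simp
  simp only [Φ] at hc
  split_ifs at hc with hr
  · have := hπsign c _ hc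
    rw [Perm.sign_swap hne01] at this
    exact absurd this (by decide)
  · have h := Perm.isConj_iff_cycleType_eq.1 (ConjClasses.mk_eq_mk_iff_isConj.1 hc)
    rw [(hex c hr).choose_spec, (Perm.swap_isSwap_iff.2 hne01).isCycle.cycleType, Perm.card_support_swap hne01] at h
    rw [← Multiset.cons_zero 2, Multiset.cons_eq_cons] at h
    have h3 := (hmx c hr).2.1
    rcases h with ⟨h1, h2⟩ | ⟨-, t, -, h2⟩
    · have hs := (hnc c hr).2
      rw [← Perm.sum_cycleType, ← Multiset.cons_erase (hmx c hr).1, Multiset.sum_cons] at hs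
      simp [h2] at hs
      omega
    · simp at h2

/-- For n ≥ 5 the alternating group of degree n has strictly fewer conjugacy classes than the symmetric group of degree n, and the symmetric group of degree n (whose classes correspond to the partitions of n) has at most 2^(n−2) conjugacy classes. -/
theorem result (n : ℕ) (hn : 5 ≤ n) : Nat.card (ConjClasses (alternatingGroup (Fin n))) < Nat.card (ConjClasses (Equiv.Perm (Fin n))) ∧ Nat.card (ConjClasses (Equiv.Perm (Fin n))) ≤ 2 ^ (n - 2) := by
  refine ⟨card_classes_alt_lt n hn, ?_⟩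
  classical
  obtain ⟨m, rfl⟩ : ∃ m, n = m + 5 := ⟨n - 5, by omega⟩
  let f : ConjClasses (Equiv.Perm (Fin (m + 5))) → Nat.Partition (Fintype.card (Fin (m + 5))) :=
    Quotient.lift (fun σ => σ.partition) fun a b h => Equiv.Perm.partition_eq_of_isConj.1 h
  have hf : Function.Injective f := by
    intro a b
    refine Quotient.inductionOn₂ a b fun x y h => ?_
    exact Quotient.sound (Equiv.Perm.partition_eq_of_isConj.2 h)
  have h1 := Fintype.card_le_of_injective f hf
  rw [Nat.card_eq_fintype_card]
  refine h1.trans ?_
  rw [Fintype.card_congr (Equiv.cast (congrArg Nat.Partition (Fintype.card_fin (m + 5))))]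
  exact (card_partition_le m).trans (le_of_eq (by congr 1))

end Cfsg.Agent.S4198
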