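import Cfsg.Statements.S4200
import Mathlib
-- import your own Cfsg.Agent.* helpers here

set_option autoImplicit false
open Cfsg

namespace Cfsg.Agent.S4200

theorem card_pairs {X : Type*} [Group X] [Finite X] :
    Nat.card {q : X × X // Commute q.1 q.2} = ∑ᶠ x : X, Nat.card (Subgroup.centralizer ({x} : Set X)) := by
  letI := Fintype.ofFinite X
  rw [finsum_eq_sum_of_fintype, ← Nat.card_sigma]
  exact Nat.card_congr
    ⟨fun q => ⟨q.1.1, q.1.2, Subgroup.mem_centralizer_singleton_iff.mpr q.2.eq.symm⟩,
      fun s => ⟨(s.1, s.2.1), (Subgroup.mem_centralizer_singleton_iff.mp s.2.2).symm⟩,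
      fun _ => rfl, fun _ => rfl⟩

/-- Let Y be a subgroup of the finite group X, of index m. Then the numbers of conjugacy classes satisfy k(Y) ≤ m·k(X) and k(X) ≤ m·k(Y), and the second inequality is strict unless Y is normal in X. -/
theorem result {X : Type*} [Group X] [Finite X] (Y : Subgroup X) : Nat.card (ConjClasses Y) ≤ Y.index * Nat.card (ConjClasses X) ∧ Nat.card (ConjClasses X) ≤ Y.index * Nat.card (ConjClasses Y) ∧ (¬ Y.Normal → Nat.card (ConjClasses X) < Y.index * Nat.card (ConjClasses Y)) := by
  classical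
  letI := Fintype.ofFinite X
  letI := Fintype.ofFinite Y
  have hm : 0 < Y.index := Nat.pos_of_ne_zero Subgroup.index_ne_zero_of_finite
  have hY0 : 0 < Nat.card Y := Nat.card_pos
  have hX0 : 0 < Nat.card X := Nat.card_pos
  have hkX := card_comm_eq_card_conjClasses_mul_card X
  have hkY := card_comm_eq_card_conjClasses_mul_card Y
  have hidx : Nat.card Y * Y.index = Nat.card X := Y.card_mul_index
  -- `C_Y(x)` as a set of pairs
  set A := fun x : X => Nat.card ↥(Subgroup.centralizer ({x} : Set X) ⊓ Y) with hA
  have hCle : ∀ x : X, Nat.card (Subgroup.centralizer ({x} : Set X)) ≤ Y.index * A x := by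
    intro x
    have h1 := (Y.subgroupOf (Subgroup.centralizer ({x} : Set X))).card_mul_index
    rw [← Subgroup.inf_subgroupOf_left, Nat.card_congr (Subgroup.subgroupOfEquivOfLe inf_le_left).toEquiv,
      Subgroup.inf_subgroupOf_left] at h1
    rw [← h1, mul_comm Y.index]
    refine Nat.mul_le_mul_left _ ?_
    have h2 := Subgroup.relIndex_le_of_le_right (H := Y) (le_top : Subgroup.centralizer ({x} : Set X) ≤ ⊤) (by rw [Subgroup.relIndex_top_right]; exact Subgroup.index_ne_zero_of_finite)
    rwa [Subgroup.relIndex_top_right] at h2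
  have hsum : ∑ x : X, A x = ∑ y : Y, Nat.card (Subgroup.centralizer ({(y : X)} : Set X)) := by
    rw [hA, ← Nat.card_sigma, ← Nat.card_sigma]
    exact Nat.card_congr
      ⟨fun s => ⟨⟨s.2.1, s.2.2.2⟩, ⟨s.1, Subgroup.mem_centralizer_singleton_iff.mpr (Subgroup.mem_centralizer_singleton_iff.mp s.2.2.1).symm⟩⟩,
        fun s => ⟨s.2.1, ⟨s.1.1, Subgroup.mem_inf.mpr ⟨Subgroup.mem_centralizer_singleton_iff.mpr (Subgroup.mem_centralizer_singleton_iff.mp s.2.2).symm, s.1.2⟩⟩⟩,
        fun _ => rfl, fun _ => rfl⟩
  have hAY : ∀ y : Y, A (y : X) = Nat.card (Subgroup.centralizer ({y} : Set Y)) := by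
    intro y
    refine Nat.card_congr ⟨fun c => ⟨⟨c.1, c.2.2⟩, Subgroup.mem_centralizer_singleton_iff.mpr (Subtype.ext (Subgroup.mem_centralizer_singleton_iff.mp c.2.1))⟩,
      fun c => ⟨c.1.1, Subgroup.mem_inf.mpr ⟨Subgroup.mem_centralizer_singleton_iff.mpr (congrArg Subtype.val (Subgroup.mem_centralizer_singleton_iff.mp c.2)), c.1.2⟩⟩,
      fun _ => rfl, fun _ => rfl⟩
  rw [card_pairs, finsum_eq_sum_of_fintype] at hkX hkY
  refine ⟨?_, ?_, fun hn => ?_⟩
  · have h1 : Nat.card (ConjClasses Y) * Nat.card Y ≤ Nat.card (ConjClasses X) * Nat.card X := by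
      rw [← hkX, ← hkY, Finset.sum_congr rfl fun y _ => (hAY y).symm]
      refine le_trans (Finset.sum_le_sum fun y _ => Subgroup.card_le_of_le inf_le_left) ?_
      exact le_trans (le_of_eq (Finset.sum_subtype (Finset.univ.filter fun x => x ∈ Y) (fun x => by simp) (fun x => Nat.card (Subgroup.centralizer ({x} : Set X)))).symm) (Finset.sum_le_sum_of_subset (Finset.subset_univ _))
    rw [← hidx, show Nat.card (ConjClasses X) * (Nat.card Y * Y.index) = Y.index * Nat.card (ConjClasses X) * Nat.card Y by ring] at h1
    exact Nat.le_of_mul_le_mul_right h1 hY0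
  · have h1 : Nat.card (ConjClasses X) * Nat.card X ≤ Y.index * (Y.index * (Nat.card (ConjClasses Y) * Nat.card Y)) := by
      rw [← hkX, ← hkY]
      calc ∑ x : X, Nat.card (Subgroup.centralizer ({x} : Set X)) ≤ ∑ x : X, Y.index * A x := Finset.sum_le_sum fun x _ => hCle x
        _ = Y.index * ∑ y : Y, Nat.card (Subgroup.centralizer ({(y : X)} : Set X)) := by rw [← Finset.mul_sum, hsum]
        _ ≤ Y.index * ∑ y : Y, Y.index * A (y : X) := Nat.mul_le_mul_left _ (Finset.sum_le_sum fun y _ => hCle _)
        _ = _ := by rw [← Finset.mul_sum, Finset.sum_congr rfl fun y _ => hAY y]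
    rw [← hidx, show Y.index * (Y.index * (Nat.card (ConjClasses Y) * Nat.card Y)) = Y.index * Nat.card (ConjClasses Y) * (Nat.card Y * Y.index) by ring] at h1
    exact Nat.le_of_mul_le_mul_right h1 (mul_pos hY0 hm)
  · have h1 : Nat.card (ConjClasses X) * Nat.card X < Y.index * (Y.index * (Nat.card (ConjClasses Y) * Nat.card Y)) := by
      rw [← hkX, ← hkY]
      calc ∑ x : X, Nat.card (Subgroup.centralizer ({x} : Set X)) ≤ ∑ x : X, Y.index * A x := Finset.sum_le_sum fun x _ => hCle x
        _ = Y.index * ∑ y : Y, Nat.card (Subgroup.centralizer ({(y : X)} : Set X)) := by rw [← Finset.mul_sum, hsum]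
        _ < Y.index * ∑ y : Y, Y.index * A (y : X) := by
            refine (Nat.mul_lt_mul_left hm).mpr (Finset.sum_lt_sum (fun y _ => hCle _) ?_)
            by_contra hcon
            push Not at hcon
            apply hn
            refine ⟨fun y hy g => ?_⟩
            have heq := le_antisymm (hCle y) (hcon ⟨y, hy⟩ (Finset.mem_univ _))
            set C := Subgroup.centralizer ({y} : Set X)
            have h1 := (Y.subgroupOf C).card_mul_index
            rw [← Subgroup.inf_subgroupOf_left, Nat.card_congr (Subgroup.subgroupOfEquivOfLe inf_le_left).toEquiv,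
              Subgroup.inf_subgroupOf_left] at h1
            rw [heq, hA, mul_comm Y.index] at h1
            have h2 : Y.relIndex C = Y.index := Nat.eq_of_mul_eq_mul_left Nat.card_pos h1
            -- `C` is transitive on the cosets of `Y`
            haveI : Fintype (X ⧸ Y) := Fintype.ofFinite _
            let φ : C ⧸ Y.subgroupOf C → X ⧸ Y := Quotient.map' (fun c => (c : X)) fun a b hab => by
              rw [QuotientGroup.leftRel_apply] at hab ⊢
              exact hab
            have hφinj : Function.Injective φ := by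
              intro a b
              induction a using QuotientGroup.induction_on
              induction b using QuotientGroup.induction_on
              intro hab
              exact QuotientGroup.eq.mpr (QuotientGroup.eq.mp hab :)
            have hφ : Function.Surjective φ := (Nat.bijective_iff_injective_and_card φ).mpr ⟨hφinj, h2⟩ |>.2
            obtain ⟨c, hc⟩ := hφ ((g⁻¹ : X) : X ⧸ Y)
            induction c using QuotientGroup.induction_on with
            | _ c =>
            have h3 : (c : X)⁻¹ * g⁻¹ ∈ Y := QuotientGroup.eq.mp hc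
            have h4 : (c : X) * y * (c : X)⁻¹ = y := by
              rw [Subgroup.mem_centralizer_singleton_iff.mp c.2, mul_inv_cancel_right]
            have h5 := mul_mem (mul_mem (inv_mem h3) hy) h3
            rw [show ((c : X)⁻¹ * g⁻¹)⁻¹ * y * ((c : X)⁻¹ * g⁻¹) = g * ((c : X) * y * (c : X)⁻¹) * g⁻¹ by group, h4] at h5
            exact h5
        _ = _ := by rw [← Finset.mul_sum, Finset.sum_congr rfl fun y _ => hAY y]
    rw [← hidx, show Y.index * (Y.index * (Nat.card (ConjClasses Y) * Nat.card Y)) = Y.index * Nat.card (ConjClasses Y) * (Nat.card Y * Y.index) by ring] at h1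
    exact Nat.lt_of_mul_lt_mul_right h1

end Cfsg.Agent.S4200
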