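import Cfsg.Statements.S4201
import Mathlib
-- import your own Cfsg.Agent.* helpers here

set_option autoImplicit false
open Cfsg

namespace Cfsg.Agent.S4201

/-- If N is a normal subgroup of the finite group X then k(X) ≤ k(N)·k(X ⧸ N), where k denotes the number of conjugacy classes. -/
theorem result {X : Type*} [Group X] [Finite X] (N : Subgroup X) [N.Normal] : Nat.card (ConjClasses X) ≤ Nat.card (ConjClasses N) * Nat.card (ConjClasses (X ⧸ N)) := by
  classical
  letI := Fintype.ofFinite X
  letI := Fintype.ofFinite (X ⧸ N)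
  letI := Fintype.ofFinite N
  have hkX := card_comm_eq_card_conjClasses_mul_card X
  have hkN := card_comm_eq_card_conjClasses_mul_card N
  have hkQ := card_comm_eq_card_conjClasses_mul_card (X ⧸ N)
  let PX := {q : X × X // Commute q.1 q.2}
  let PN := {q : N × N // Commute q.1 q.2}
  let PQ := {q : (X ⧸ N) × (X ⧸ N) // Commute q.1 q.2}
  let f : PX → PQ := fun q => ⟨((q.1.1 : X ⧸ N), (q.1.2 : X ⧸ N)), q.2.map (QuotientGroup.mk' N)⟩
  -- each fibre is no larger than the set of commuting pairs of `N`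
  have hle : Nat.card PX ≤ Nat.card PN * Nat.card PQ := by
    letI := Fintype.ofFinite PQ
    rw [← Nat.card_congr (Equiv.sigmaFiberEquiv f), Nat.card_sigma]
    refine (Finset.sum_le_card_nsmul _ _ (Nat.card PN) fun b _ => ?_).trans (le_of_eq ?_)
    · -- pairs over `b`: second coordinate in a coset, first in a coset of its centralizer
      obtain ⟨⟨u, v⟩, huv⟩ := b
      obtain ⟨v0, rfl⟩ := QuotientGroup.mk_surjective v
      let R : {w : X // (w : X ⧸ N) = u} → Type _ := fun a => {w : X // Commute a.1 w ∧ (w : X ⧸ N) = (v0 : X ⧸ N)}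
      let V := {w : X // (w : X ⧸ N) = (v0 : X ⧸ N)}
      letI := Fintype.ofFinite {w : X // (w : X ⧸ N) = u}
      letI := Fintype.ofFinite V
      have hfst : Nat.card {q : PX // f q = ⟨(u, (v0 : X ⧸ N)), huv⟩} = ∑ a : {w : X // (w : X ⧸ N) = u}, Nat.card (R a) := by
        rw [← Nat.card_sigma]
        exact Nat.card_congr
          ⟨fun q => ⟨⟨q.1.1.1, congrArg (fun z : PQ => z.1.1) q.2⟩, ⟨q.1.1.2, q.1.2, congrArg (fun z : PQ => z.1.2) q.2⟩⟩,
            fun s => ⟨⟨(s.1.1, s.2.1), s.2.2.1⟩, Subtype.ext (Prod.ext s.1.2 s.2.2.2)⟩,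
            fun _ => rfl, fun _ => rfl⟩
      rw [hfst]
      calc ∑ a : {w : X // (w : X ⧸ N) = u}, Nat.card (R a)
          ≤ ∑ a : {w : X // (w : X ⧸ N) = u}, Nat.card {n : N // Commute a.1 n} := by
            refine Finset.sum_le_sum fun a _ => ?_
            rcases isEmpty_or_nonempty (R a) with he | ⟨⟨w0, hw0, hw0'⟩⟩
            · simp
            refine Nat.card_le_card_of_injective (fun w => ⟨⟨w0⁻¹ * w.1, QuotientGroup.eq.mp (hw0'.trans w.2.2.symm)⟩, (hw0.inv_right).mul_right w.2.1⟩) ?_
            intro w w' h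
            exact Subtype.ext (mul_left_cancel (congrArg (fun z : {n : N // Commute a.1 (n : X)} => ((z.1 : N) : X)) h))
        _ = ∑ n : N, Nat.card {a : {w : X // (w : X ⧸ N) = u} // Commute a.1 (n : X)} := by
            rw [← Nat.card_sigma, ← Nat.card_sigma]
            exact Nat.card_congr ⟨fun s => ⟨s.2.1, s.1, s.2.2⟩, fun s => ⟨s.2.1, s.1, s.2.2⟩, fun _ => rfl, fun _ => rfl⟩
        _ ≤ ∑ n : N, Nat.card {m : N // Commute m n} := by
            refine Finset.sum_le_sum fun n _ => ?_
            rcases isEmpty_or_nonempty {a : {w : X // (w : X ⧸ N) = u} // Commute a.1 (n : X)} with he | ⟨⟨w0, hw0⟩⟩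
            · simp
            refine Nat.card_le_card_of_injective (fun w => ⟨⟨w0.1⁻¹ * w.1.1, QuotientGroup.eq.mp (w0.2.trans w.1.2.symm)⟩, Subtype.ext ((hw0.inv_left).mul_left w.2).eq⟩) ?_
            intro w w' h
            exact Subtype.ext (Subtype.ext (mul_left_cancel (congrArg (fun z : {m : N // Commute m n} => ((z.1 : N) : X)) h)))
        _ = Nat.card PN := by
            rw [← Nat.card_sigma]
            exact Nat.card_congr ⟨fun s => ⟨(s.2.1, s.1), s.2.2⟩, fun q => ⟨q.1.2, q.1.1, q.2⟩, fun _ => rfl, fun _ => rfl⟩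
    · rw [Finset.card_univ, smul_eq_mul, ← Nat.card_eq_fintype_card, mul_comm]
  rw [show Nat.card PX = _ from hkX, show Nat.card PN = _ from hkN, show Nat.card PQ = _ from hkQ,
    show Nat.card (ConjClasses N) * Nat.card N * (Nat.card (ConjClasses (X ⧸ N)) * Nat.card (X ⧸ N)) =
      Nat.card (ConjClasses N) * Nat.card (ConjClasses (X ⧸ N)) * (Nat.card N * N.index) by rw [Subgroup.index_eq_card]; ring,
    N.card_mul_index] at hle
  exact Nat.le_of_mul_le_mul_right hle Nat.card_pos

end Cfsg.Agent.S4201
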