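import Cfsg.Statements.S4203
import Mathlib
import Cfsg.Agent.Lib.Characters.Burnside
-- import your own Cfsg.Agent.* helpers here

set_option autoImplicit false
open Cfsg

namespace Cfsg.Agent.S4203

universe v
theorem solvable_aux : ∀ (n : ℕ) (G : Type v) [Group G] [Finite G], Nat.card G ≤ n →
    (∀ M : Subgroup G, IsCoatom M → ∃ p : ℕ, p.Prime ∧ (M.index = p ∨ M.index = p ^ 2)) →
    Group.IsSolvable G := by
  intro n
  induction n with
  | zero => intro G _ _ h; exact absurd (Nat.card_pos (α := G)) (by omega)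
  | succ n ih =>
  intro G _ _ hn h
  by_cases hsmall : ∀ q : ℕ, q.Prime → q ∣ Nat.card G → q ≤ 3
  · refine Cfsg.Lib.Characters.isSolvable_of_card_eq_pow_mul_pow Nat.prime_two Nat.prime_three _ G rfl
      ⟨(Nat.card G).factorization 2, (ordCompl[2] (Nat.card G)).primeFactorsList.length, ?_⟩
    conv_lhs => rw [← Nat.ordProj_mul_ordCompl_eq_self (Nat.card G) 2]
    congr 1
    refine Nat.eq_prime_pow_of_unique_prime_dvd (Nat.ordCompl_pos 2 Nat.card_pos.ne').ne' fun {d} hd hdvd => ?_
    have h1 := hsmall d hd (hdvd.trans (Nat.ordCompl_dvd _ _))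
    have h2 : d ≠ 2 := fun e => Nat.not_dvd_ordCompl Nat.prime_two Nat.card_pos.ne' (e ▸ hdvd)
    have := hd.two_le
    omega
  push Not at hsmall
  obtain ⟨p, hpmem, hpmax⟩ := (Nat.card G).primeFactors.exists_max_image id
    (by
      obtain ⟨q, hq, hqd, -⟩ := hsmall
      exact ⟨q, Nat.mem_primeFactors.mpr ⟨hq, hqd, Nat.card_pos.ne'⟩⟩)
  rw [Nat.mem_primeFactors] at hpmem
  obtain ⟨hp, hpd, -⟩ := hpmem
  have hp5 : 3 < p := by
    obtain ⟨q, hq, hqd, hq3⟩ := hsmall
    exact lt_of_lt_of_le hq3 (hpmax q (Nat.mem_primeFactors.mpr ⟨hq, hqd, Nat.card_pos.ne'⟩))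
  haveI := Fact.mk hp
  obtain ⟨P⟩ : Nonempty (Sylow p G) := inferInstance
  by_cases hPn : (P : Subgroup G).Normal
  · haveI := hPn
    haveI : Group.IsNilpotent (P : Subgroup G) := P.isPGroup'.isNilpotent
    have hlt : Nat.card (G ⧸ (P : Subgroup G)) < Nat.card G := by
      rw [← Subgroup.index_eq_card]
      have h1 := (P : Subgroup G).card_mul_index
      have h2 : 1 < Nat.card (P : Subgroup G) := (Subgroup.one_lt_card_iff_ne_bot _).mpr (P.ne_bot_of_dvd_card hpd)
      have h3 : 0 < (P : Subgroup G).index := Nat.pos_of_ne_zero Subgroup.index_ne_zero_of_finite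
      calc (P : Subgroup G).index = 1 * (P : Subgroup G).index := (one_mul _).symm
        _ < Nat.card (P : Subgroup G) * (P : Subgroup G).index := Nat.mul_lt_mul_of_pos_right h2 h3
        _ = _ := h1
    haveI : Group.IsSolvable (G ⧸ (P : Subgroup G)) := ih _ (by omega) fun M hM => by
      have := h (M.comap (QuotientGroup.mk' (P : Subgroup G)))
        (Subgroup.isCoatom_comap_of_surjective (QuotientGroup.mk'_surjective _) hM)
      rwa [Subgroup.index_comap_of_surjective _ (QuotientGroup.mk'_surjective _)] at this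
    exact solvable_of_ker_le_range (Subgroup.subtype (P : Subgroup G)) (QuotientGroup.mk' (P : Subgroup G)) (by simp)
  exfalso
  obtain hN | ⟨M, hM, hNM⟩ := eq_top_or_exists_le_coatom (Subgroup.normalizer ((P : Subgroup G) : Set G))
  · exact hPn (Subgroup.normalizer_eq_top_iff.mp hN)
  obtain ⟨q, hq, hidx⟩ := h M hM
  have hPM : (P : Subgroup G) ≤ M := Subgroup.le_normalizer.trans hNM
  have hmod : M.index ≡ 1 [MOD p] := by
    have h1 := card_sylow_modEq_one p G
    have h2 := card_sylow_modEq_one p M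
    rw [Sylow.card_eq_index_normalizer P] at h1
    rw [Sylow.card_eq_index_normalizer (P.subtype hPM)] at h2
    have e : Subgroup.normalizer ((P.subtype hPM : Sylow p M) : Set M) =
        (Subgroup.normalizer ((P : Subgroup G) : Set G)).subgroupOf M := by
      show Subgroup.normalizer (((P : Subgroup G).subgroupOf M : Subgroup M) : Set M) = _
      rw [Subgroup.subgroupOf_normalizer_eq hPM]
    rw [e] at h2
    replace h1 : (Subgroup.normalizer ((P : Subgroup G) : Set G)).index ≡ 1 [MOD p] := h1
    rw [← Subgroup.relIndex_mul_index hNM] at h1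
    have h3 : 1 * M.index ≡ 1 [MOD p] := (h2.mul_right M.index).symm.trans h1
    rwa [one_mul] at h3
  have hqd : q ∣ Nat.card G := by
    refine dvd_trans ?_ M.index_dvd_card
    rcases hidx with e | e <;> rw [e]
    exact dvd_pow_self q two_ne_zero
  have hqp : q ≤ p := hpmax q (Nat.mem_primeFactors.mpr ⟨hq, hqd, Nat.card_pos.ne'⟩)
  have hq2 := hq.two_le
  have hdvd : p ∣ M.index - 1 := (Nat.modEq_iff_dvd' (by rcases hidx with e | e <;> rw [e] <;> [omega; exact Nat.one_le_pow _ _ hq.pos])).mp hmod.symm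
  rcases hidx with e | e <;> rw [e] at hdvd
  · exact absurd (Nat.le_of_dvd (by omega) hdvd) (by omega)
  · rw [show q ^ 2 - 1 = (q + 1) * (q - 1) by rw [← Nat.sq_sub_sq q 1]] at hdvd
    rcases hp.dvd_mul.mp hdvd with h1 | h1
    · have h2 := Nat.le_of_dvd (by omega) h1
      rcases eq_or_ne q p with rfl | hne
      · rw [Nat.dvd_add_right dvd_rfl, Nat.dvd_one] at h1
        omega
      have e1 : q + 1 = p := by omega
      rcases hp.eq_two_or_odd with h5 | h5
      · omega
      · rcases hq.eq_two_or_odd with h6 | h6 <;> omega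
    · exact absurd (Nat.le_of_dvd (by omega) h1) (by omega)

/-- A finite group in which every maximal subgroup has index a prime or the square of a prime is solvable. -/
theorem result {G : Type*} [Group G] [Finite G] (h : ∀ M : Subgroup G, IsCoatom M → ∃ p : ℕ, p.Prime ∧ (M.index = p ∨ M.index = p ^ 2)) : Group.IsSolvable G := by
  exact solvable_aux _ G le_rfl h

end Cfsg.Agent.S4203
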