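import Cfsg.Statements.S4204
import Mathlib
-- import your own Cfsg.Agent.* helpers here

set_option autoImplicit false
open Cfsg

namespace Cfsg.Agent.S4204

theorem lcs_normal {G : Type*} [Group G] (H : Subgroup G) [H.Normal] : ∀ n, (H.lowerCentralSeries n).Normal
  | 0 => by rw [Subgroup.lowerCentralSeries_zero]; infer_instance
  | n + 1 => by
    rw [Subgroup.lowerCentralSeries_succ]
    haveI := lcs_normal H n
    infer_instance

/-- The lower central series shifted by one, starting with the whole group. -/
def shifted {G : Type*} [Group G] (H : Subgroup G) : ℕ → Subgroup G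
  | 0 => ⊤
  | i + 1 => H.lowerCentralSeries i

theorem shifted_normal {G : Type*} [Group G] (H : Subgroup G) [H.Normal] : ∀ i, (shifted H i).Normal
  | 0 => by show (⊤ : Subgroup G).Normal; infer_instance
  | i + 1 => lcs_normal H i

theorem step {G : Type*} [Group G] (H : Subgroup G) [H.Normal] :
    ∀ i, ⁅shifted H i, H⁆ ≤ shifted H (i + 1)
  | 0 => Subgroup.commutator_le_right _ _
  | _ + 1 => le_rfl

theorem bound {G : Type*} [Group G] (H K : Subgroup G) [H.Normal] [K.Normal] :
    ∀ n, (H ⊔ K).lowerCentralSeries n ≤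
      ⨆ i : Fin (n + 2), shifted H i ⊓ shifted K (n + 1 - i)
  | 0 => by
    rw [Subgroup.lowerCentralSeries_zero]
    refine sup_le ?_ ?_
    · refine le_trans ?_ (le_iSup (fun i : Fin 2 => shifted H i ⊓ shifted K (0 + 1 - i)) 1)
      exact le_inf le_rfl le_top
    · refine le_trans ?_ (le_iSup (fun i : Fin 2 => shifted H i ⊓ shifted K (0 + 1 - i)) 0)
      exact le_inf le_top le_rfl
  | n + 1 => by
    set M := ⨆ i : Fin (n + 1 + 2), shifted H i ⊓ shifted K (n + 1 + 1 - i) with hM
    haveI : ∀ i : Fin (n + 1 + 2), (shifted H i ⊓ shifted K (n + 1 + 1 - i)).Normal := fun i => by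
      haveI := shifted_normal H i
      haveI := shifted_normal K (n + 1 + 1 - i)
      exact Subgroup.normal_inf_normal _ _
    haveI hMn : M.Normal := Subgroup.iSup_normal (fun i : Fin (n + 1 + 2) => shifted H i ⊓ shifted K (n + 1 + 1 - i))
    have key : ∀ A B : Subgroup G, ⁅A, B⁆ ≤ M ↔ A.map (QuotientGroup.mk' M) ≤ Subgroup.centralizer (B.map (QuotientGroup.mk' M) : Set (G ⧸ M)) := by
      intro A B
      rw [← Subgroup.commutator_eq_bot_iff_le_centralizer, ← Subgroup.map_commutator, Subgroup.map_eq_bot_iff,
        QuotientGroup.ker_mk']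
    rw [Subgroup.lowerCentralSeries_succ]
    refine (Subgroup.commutator_mono (bound H K n) le_rfl).trans ?_
    rw [key, Subgroup.map_iSup]
    refine iSup_le fun i => ?_
    rw [Subgroup.le_centralizer_iff, Subgroup.map_sup]
    refine sup_le ?_ ?_
    · rw [Subgroup.le_centralizer_iff, ← key]
      refine le_trans ?_ (le_iSup (fun i : Fin (n + 1 + 2) => shifted H i ⊓ shifted K (n + 1 + 1 - i)) ⟨i + 1, by omega⟩)
      refine le_inf ((Subgroup.commutator_mono inf_le_left le_rfl).trans (step H i)) ?_
      haveI := shifted_normal K (n + 1 - i)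
      refine (Subgroup.commutator_mono inf_le_right le_rfl).trans ((Subgroup.commutator_le_left _ _).trans ?_)
      simp only [Nat.add_sub_add_right]
      exact le_rfl
    · rw [Subgroup.le_centralizer_iff, ← key]
      refine le_trans ?_ (le_iSup (fun i : Fin (n + 1 + 2) => shifted H i ⊓ shifted K (n + 1 + 1 - i)) ⟨i, by omega⟩)
      refine le_inf ?_ ((Subgroup.commutator_mono inf_le_right le_rfl).trans ((step K _).trans ?_))
      · haveI := shifted_normal H i
        exact (Subgroup.commutator_mono inf_le_left le_rfl).trans (Subgroup.commutator_le_left _ _)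
      · have hi := i.2
        show shifted K (n + 1 - (i : ℕ) + 1) ≤ shifted K (n + 1 + 1 - (i : ℕ))
        rw [show n + 1 - (i : ℕ) + 1 = n + 1 + 1 - (i : ℕ) by omega]

/-- If `H` and `K` are normal subgroups of a finite group with `H` nilpotent of class at most `c` and `K` nilpotent of class at most `d` (the terms with index `c`, respectively `d`, of their lower central series are trivial, indices starting at `0`), then `HK` is nilpotent of class at most `c + d`. -/
theorem result {G : Type*} [Group G] [Finite G] (H K : Subgroup G) [H.Normal] [K.Normal] (c d : ℕ) (hH : H.lowerCentralSeries c = ⊥) (hK : K.lowerCentralSeries d = ⊥) : (H ⊔ K).lowerCentralSeries (c + d) = ⊥ := by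
  refine le_bot_iff.mp ((bound H K (c + d)).trans (iSup_le fun i => ?_))
  by_cases hi : c + 1 ≤ (i : ℕ)
  · refine inf_le_left.trans ?_
    obtain ⟨j, hj⟩ : ∃ j, (i : ℕ) = c + j + 1 := ⟨i - c - 1, by omega⟩
    rw [hj]
    exact (H.lowerCentralSeries_antitone (by omega : c ≤ c + j)).trans hH.le
  · refine inf_le_right.trans ?_
    obtain ⟨j, hj⟩ : ∃ j, c + d + 1 - (i : ℕ) = d + j + 1 := ⟨c - i, by omega⟩
    rw [hj]
    exact (K.lowerCentralSeries_antitone (by omega : d ≤ d + j)).trans hK.le

end Cfsg.Agent.S4204
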