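import Cfsg.Statements.S4207
import Mathlib
import Cfsg.Agent.Lib.Transfer.PGroupFrattini
-- import your own Cfsg.Agent.* helpers here

set_option autoImplicit false
open Cfsg

namespace Cfsg.Agent.S4207

theorem exists_family {Q : Type*} [Group Q] [Finite Q] {p : ℕ} [Fact p.Prime] (hQ : IsPGroup p Q) {r : ℕ}
    (hr : Nat.card Q = p ^ r) : ∃ t : Fin r → Q, Subgroup.closure (Set.range t) = ⊤ := by
  have hp : p.Prime := Fact.out
  have key : ∀ k : ℕ, k ≤ r → ∃ t : Fin k → Q, Subgroup.closure (Set.range t) = ⊤ ∨
      p ^ k ≤ Nat.card (Subgroup.closure (Set.range t)) := by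
    intro k
    induction k with
    | zero => exact fun _ => ⟨Fin.elim0, Or.inr (by rw [pow_zero]; exact Nat.card_pos)⟩
    | succ k ih =>
      intro hk
      obtain ⟨t, ht⟩ := ih (by omega)
      by_cases htop : Subgroup.closure (Set.range t) = ⊤
      · refine ⟨Fin.snoc t 1, Or.inl (eq_top_iff.mpr (htop ▸ Subgroup.closure_mono ?_))⟩
        rintro _ ⟨i, rfl⟩
        exact ⟨i.castSucc, by simp⟩
      · obtain ⟨x, hx⟩ : ∃ x, x ∉ Subgroup.closure (Set.range t) := by
          by_contra hcon
          push Not at hcon
          exact htop (eq_top_iff.mpr fun x _ => hcon x)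
        refine ⟨Fin.snoc t x, Or.inr ?_⟩
        have hle : Subgroup.closure (Set.range t) ≤ Subgroup.closure (Set.range (Fin.snoc t x : Fin (k + 1) → Q)) := by
          apply Subgroup.closure_mono
          rintro _ ⟨i, rfl⟩
          exact ⟨i.castSucc, by simp⟩
        obtain ⟨a, ha⟩ := IsPGroup.iff_card.mp (hQ.to_subgroup (Subgroup.closure (Set.range t)))
        obtain ⟨b, hb⟩ := IsPGroup.iff_card.mp (hQ.to_subgroup (Subgroup.closure (Set.range (Fin.snoc t x : Fin (k + 1) → Q))))
        have hab : a < b := by
          by_contra hcon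
          push Not at hcon
          refine hx ?_
          rw [Subgroup.eq_of_le_of_card_ge hle (by rw [ha, hb]; exact Nat.pow_le_pow_right hp.pos hcon)]
          exact Subgroup.subset_closure ⟨Fin.last k, by simp⟩
        have hka : k ≤ a := (Nat.pow_le_pow_iff_right hp.one_lt).mp (ha ▸ ht.resolve_left htop)
        rw [hb]
        exact Nat.pow_le_pow_right hp.pos (by omega)
  obtain ⟨t, ht⟩ := key r le_rfl
  refine ⟨t, ht.elim id fun h => Subgroup.eq_top_of_le_card _ ?_⟩
  rw [hr]; exact h

theorem card_dvd_of_free {M X : Type*} [Group M] [MulAction M X] [Finite M] [Finite X]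
    (h : ∀ (m : M) (x : X), m • x = x → m = 1) : Nat.card M ∣ Nat.card X := by
  classical
  haveI := Fintype.ofFinite (MulAction.orbitRel.Quotient M X)
  rw [Nat.card_congr (MulAction.selfEquivSigmaOrbits' M X), Nat.card_sigma]
  refine Finset.dvd_sum fun ω _ => dvd_of_eq ?_
  induction ω using Quotient.inductionOn' with
  | h x =>
    rw [MulAction.orbitRel.Quotient.orbit_mk, Nat.card_congr (MulAction.orbitEquivQuotientStabilizer M x)]
    have : MulAction.stabilizer M x = ⊥ := (Subgroup.eq_bot_iff_forall _).mpr fun m hm => h m x hm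
    rw [this]
    exact (Nat.card_congr QuotientGroup.quotientBot.toEquiv).symm

/-- Let `P` be a group of order `p^n` whose Frattini subgroup has index `p^r`. Then any group of automorphisms of `P` each of which induces the identity on the Frattini quotient has order dividing `p^(r(n-r))`; in particular it is a `p`-group. -/
theorem result {P : Type*} [Group P] [Finite P] {p n r : ℕ} [Fact p.Prime] (hP : Nat.card P = p ^ n) (hr : (frattini P).index = p ^ r) (A : Subgroup (MulAut P)) (hA : ∀ α ∈ A, ∀ x : P, α x * x⁻¹ ∈ frattini P) : Nat.card A ∣ p ^ (r * (n - r)) := by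
  classical
  have hp : p.Prime := Fact.out
  have hPp : IsPGroup p P := IsPGroup.of_card hP
  obtain ⟨t, ht⟩ := exists_family (hPp.to_quotient (frattini P)) (r := r) (by rw [← Subgroup.index_eq_card, hr])
  let X := {v : Fin r → P // ∀ i, (v i : P ⧸ frattini P) = t i}
  have hmem : ∀ (α : A) (v : X) (i : Fin r), (((α : MulAut P) (v.1 i) : P) : P ⧸ frattini P) = t i := by
    intro α v i
    rw [← v.2 i]
    exact (QuotientGroup.eq_iff_div_mem.mpr (by rw [div_eq_mul_inv]; exact hA α α.2 (v.1 i)))
  letI : MulAction A X :=
    { smul := fun α v => ⟨fun i => (α : MulAut P) (v.1 i), hmem α v⟩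
      one_smul := fun v => Subtype.ext (funext fun i => rfl)
      mul_smul := fun α β v => Subtype.ext (funext fun i => rfl) }
  have hfree : ∀ (α : A) (v : X), α • v = v → α = 1 := by
    intro α v hv
    have hfix : ∀ i, (α : MulAut P) (v.1 i) = v.1 i := fun i => congrFun (congrArg Subtype.val hv) i
    have hgen : Subgroup.closure (Set.range v.1) = ⊤ := by
      apply frattini_nongenerating
      have h1 : (Subgroup.closure (Set.range v.1)).map (QuotientGroup.mk' (frattini P)) = ⊤ := by
        rw [MonoidHom.map_closure, ← ht]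
        congr 1
        rw [← Set.range_comp]
        exact congrArg Set.range (funext v.2)
      have h2 := congrArg (Subgroup.comap (QuotientGroup.mk' (frattini P))) h1
      rwa [Subgroup.comap_map_eq, QuotientGroup.ker_mk', Subgroup.comap_top] at h2
    apply Subtype.ext
    refine MulEquiv.ext fun x => ?_
    have : x ∈ Subgroup.closure (Set.range v.1) := by rw [hgen]; trivial
    exact MonoidHom.eqOn_closure (f := (α : MulAut P).toMonoidHom) (g := MonoidHom.id P) (by rintro _ ⟨i, rfl⟩; exact hfix i) this
  have hcard : Nat.card X = p ^ (r * (n - r)) := by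
    have e : X ≃ ((i : Fin r) → {x : P // (x : P ⧸ frattini P) = t i}) :=
      Equiv.subtypePiEquivPi (β := fun _ : Fin r => P) (p := fun i (x : P) => (x : P ⧸ frattini P) = t i)
    rw [Nat.card_congr e, Nat.card_pi]
    have hfib : ∀ i, Nat.card {x : P // (x : P ⧸ frattini P) = t i} = p ^ (n - r) := by
      intro i
      obtain ⟨x0, hx0⟩ := QuotientGroup.mk_surjective (t i)
      have e2 : {x : P // (x : P ⧸ frattini P) = t i} ≃ frattini P :=
        { toFun := fun x => ⟨x0⁻¹ * x.1, QuotientGroup.eq.mp (hx0.trans x.2.symm)⟩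
          invFun := fun y => ⟨x0 * y, by rw [QuotientGroup.mk_mul_of_mem x0 y.2, hx0]⟩
          left_inv := fun x => Subtype.ext (mul_inv_cancel_left _ _)
          right_inv := fun y => Subtype.ext (inv_mul_cancel_left _ _) }
      rw [Nat.card_congr e2]
      have h1 := (frattini P).card_mul_index
      rw [hr, hP] at h1
      have hrn : r ≤ n := by
        by_contra hlt
        push Not at hlt
        have h2 := Nat.le_of_dvd (pow_pos hp.pos n) ⟨_, h1.symm.trans (mul_comm _ _)⟩
        exact absurd h2 (not_le.mpr (Nat.pow_lt_pow_right hp.one_lt hlt))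
      apply Nat.eq_of_mul_eq_mul_right (pow_pos hp.pos r)
      rw [h1, ← pow_add, Nat.sub_add_cancel hrn]
    rw [Finset.prod_congr rfl (fun i _ => hfib i), Finset.prod_const, Finset.card_univ, Fintype.card_fin,
      ← pow_mul, mul_comm]
  rw [← hcard]
  exact card_dvd_of_free hfree

end Cfsg.Agent.S4207
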