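import Cfsg.Statements.S4208
import Mathlib
import Cfsg.Agent.Lib.Transfer.PGroupFrattini
import Cfsg.Agent.S4207
-- import your own Cfsg.Agent.* helpers here

set_option autoImplicit false
open Cfsg

namespace Cfsg.Agent.S4208

/-- Let `P` be a group of order `p^n` whose Frattini subgroup has index `p^r`. Then the order of the automorphism group of `P` divides `p^(r(n-r)) · (p^r - 1)(p^r - p) ⋯ (p^r - p^(r-1))`. -/
theorem result {P : Type*} [Group P] [Finite P] {p n r : ℕ} [Fact p.Prime] (hP : Nat.card P = p ^ n) (hr : (frattini P).index = p ^ r) : Nat.card (MulAut P) ∣ p ^ (r * (n - r)) * ∏ i ∈ Finset.range r, (p ^ r - p ^ i) := by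
  classical
  have hp : p.Prime := Fact.out
  have hPp : IsPGroup p P := IsPGroup.of_card hP
  haveI : (frattini P).Characteristic := inferInstance
  let f : MulAut P →* MulAut (P ⧸ frattini P) := MonoidHom.mk'
    (fun α => QuotientGroup.congr (frattini P) (frattini P) α (Subgroup.characteristic_iff_map_eq.mp inferInstance α))
    (fun α β => MulEquiv.ext fun x => by
      induction x using QuotientGroup.induction_on
      rfl)
  have hker : Nat.card f.ker ∣ p ^ (r * (n - r)) := Cfsg.Agent.S4207.result hP hr f.ker fun α hα x => by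
    have h1 := congrArg (fun e : MulAut (P ⧸ frattini P) => e (x : P ⧸ frattini P)) hα
    have h2 : ((α x : P) : P ⧸ frattini P) = (x : P ⧸ frattini P) := h1
    rw [← div_eq_mul_inv]
    exact QuotientGroup.eq_iff_div_mem.mp h2
  letI : CommGroup (P ⧸ frattini P) := { (inferInstance : Group (P ⧸ frattini P)) with
    mul_comm := (Subgroup.Normal.quotient_commutative_iff_commutator_le.2 (Cfsg.Lib.Transfer.commutator_le_frattini hPp)).is_comm.comm }
  have hexp : ∀ x : Additive (P ⧸ frattini P), p • x = 0 := fun x => by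
    obtain ⟨y, hy⟩ := QuotientGroup.mk_surjective x.toMul
    apply Additive.toMul.injective
    show x.toMul ^ p = 1
    rw [← hy, ← QuotientGroup.mk_pow, QuotientGroup.eq_one_iff]
    exact Cfsg.Lib.Transfer.pow_mem_frattini hPp y
  have instMod : Module (ZMod p) (Additive (P ⧸ frattini P)) := AddCommGroup.zmodModule hexp
  haveI : Module.Finite (ZMod p) (Additive (P ⧸ frattini P)) := Module.Finite.of_finite
  have hrank : Module.finrank (ZMod p) (Additive (P ⧸ frattini P)) = r := by
    have h1 := Module.natCard_eq_pow_finrank (K := ZMod p) (V := Additive (P ⧸ frattini P))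
    rw [Nat.card_zmod, Nat.card_congr Additive.toMul, ← Subgroup.index_eq_card, hr] at h1
    exact (Nat.pow_right_injective hp.two_le h1).symm
  let e : Additive (P ⧸ frattini P) ≃ₗ[ZMod p] (Fin r → ZMod p) :=
    (Module.finBasisOfFinrankEq (ZMod p) (Additive (P ⧸ frattini P)) hrank).equivFun
  let lin : MulAut (P ⧸ frattini P) → (Additive (P ⧸ frattini P) ≃ₗ[ZMod p] Additive (P ⧸ frattini P)) := fun α =>
    { (MulEquiv.toAdditive α) with map_smul' := fun c x => (AddMonoidHom.toZModLinearMap p (MulEquiv.toAdditive α).toAddMonoidHom).map_smul c x }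
  let g : MulAut (P ⧸ frattini P) →* ((Fin r → ZMod p) ≃ₗ[ZMod p] (Fin r → ZMod p)) :=
    MonoidHom.mk' (fun α => e.symm.trans ((lin α).trans e)) (fun α β => LinearEquiv.ext fun v => by
      show e (lin (α * β) (e.symm v)) = e (lin α (e.symm (e (lin β (e.symm v)))))
      rw [LinearEquiv.symm_apply_apply]
      rfl)
  have hg : Function.Injective g := by
    intro α β h
    refine MulEquiv.ext fun x => ?_
    have h1 := congrArg (fun L => L (e (Additive.ofMul x))) h
    simp only [g, MonoidHom.mk'_apply, LinearEquiv.trans_apply, LinearEquiv.symm_apply_apply, EmbeddingLike.apply_eq_iff_eq] at h1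
    exact congrArg Additive.toMul h1
  have hGL : Nat.card ((Fin r → ZMod p) ≃ₗ[ZMod p] (Fin r → ZMod p)) = ∏ i ∈ Finset.range r, (p ^ r - p ^ i) := by
    rw [← Nat.card_congr ((Matrix.GeneralLinearGroup.toLin (n := Fin r) (R := ZMod p)).trans (LinearMap.GeneralLinearGroup.generalLinearEquiv _ _)).toEquiv,
      Matrix.card_GL_field, ZMod.card, Fin.prod_univ_eq_prod_range (fun i => p ^ r - p ^ i)]
  have h := f.ker.card_mul_index
  rw [Subgroup.index_ker] at h
  rw [← h, ← hGL]
  refine mul_dvd_mul hker ((Subgroup.card_subgroup_dvd_card _).trans ?_)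
  rw [Nat.card_congr (MonoidHom.ofInjective hg).toEquiv]
  exact Subgroup.card_subgroup_dvd_card _

end Cfsg.Agent.S4208
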