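import Cfsg.Statements.S4211
import Mathlib
import Cfsg.Agent.Lib.Transfer.OmegaCentralizer
import Cfsg.Agent.Lib.Transfer.Frobenius
import Cfsg.Agent.Lib.ZStar.UniqueInvolution
-- import your own Cfsg.Agent.* helpers here

set_option autoImplicit false
open Cfsg

namespace Cfsg.Agent.S4211

open Subgroup

universe u

theorem conj_mem_zpowers {G : Type u} [Group G] (hn : ∀ H : Subgroup G, H.Normal) (g x : G) :
    g * x * g⁻¹ ∈ zpowers x := (hn (zpowers x)).conj_mem x (mem_zpowers x) g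

theorem comm_mem_left {G : Type u} [Group G] (hn : ∀ H : Subgroup G, H.Normal) (x y : G) :
    x * y * x⁻¹ * y⁻¹ ∈ zpowers x := by
  rw [show x * y * x⁻¹ * y⁻¹ = x * (y * x⁻¹ * y⁻¹) by group]
  exact mul_mem (mem_zpowers x) ((hn (zpowers x)).conj_mem _ (inv_mem (mem_zpowers x)) y)

theorem comm_mem_right {G : Type u} [Group G] (hn : ∀ H : Subgroup G, H.Normal) (x y : G) :
    x * y * x⁻¹ * y⁻¹ ∈ zpowers y :=
  mul_mem (conj_mem_zpowers hn x y) (inv_mem (mem_zpowers y))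

theorem exists_pair {G : Type u} [Group G] [Finite G] (hn : ∀ H : Subgroup G, H.Normal)
    (hna : ∃ x y : G, x * y ≠ y * x) :
    ∃ x y : G, orderOf x = 4 ∧ y * x * y⁻¹ = x⁻¹ ∧ y ^ 2 = x ^ 2 ∧ x * y ≠ y * x := by
  classical
  have hex : ∃ n : ℕ, ∃ x y : G, x * y ≠ y * x ∧ orderOf x * orderOf y = n := by
    obtain ⟨x, y, h⟩ := hna
    exact ⟨_, x, y, h, rfl⟩
  have hmin : ∀ u v : G, u * v ≠ v * u → Nat.find hex ≤ orderOf u * orderOf v :=
    fun u v h => Nat.find_le ⟨u, v, h, rfl⟩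
  have hprime : ∀ x y : G, x * y ≠ y * x → orderOf x * orderOf y = Nat.find hex →
      ∃ p k : ℕ, p.Prime ∧ orderOf x = p ^ k := by
    intro x y hxy hm
    by_contra hno
    refine hxy (mem_centralizer_iff.1 (Cfsg.Lib.Transfer.mem_centralizer_of_prime_parts (V := zpowers y) (g := x)
      fun r hr u hu ⟨k, hk⟩ => ?_) y (mem_zpowers y)).symm
    rw [mem_centralizer_iff]
    rintro _ ⟨i, rfl⟩
    refine (Commute.zpow_left (show Commute y u from Eq.symm ?_) i).eq
    by_contra hu'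
    have h1 := hmin u y hu'
    rw [← hm] at h1
    have h2 : orderOf u ≤ orderOf x := Nat.le_of_dvd (orderOf_pos x) (orderOf_dvd_of_mem_zpowers hu)
    have h3 := Nat.le_of_mul_le_mul_right h1 (orderOf_pos y)
    exact hno ⟨r, k, hr, (le_antisymm h3 h2).trans hk⟩
  obtain ⟨x₀, y₀, h₀, hm₀⟩ := Nat.find_spec hex
  obtain ⟨x, y, hxy, hm, hle⟩ : ∃ x y : G, x * y ≠ y * x ∧ orderOf x * orderOf y = Nat.find hex ∧ orderOf y ≤ orderOf x := by
    rcases le_total (orderOf y₀) (orderOf x₀) with h | h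
    · exact ⟨x₀, y₀, h₀, hm₀, h⟩
    · exact ⟨y₀, x₀, fun e => h₀ e.symm, by rw [mul_comm, hm₀], h⟩
  obtain ⟨p, a, hp, ha⟩ := hprime x y hxy hm
  obtain ⟨q, b, hq, hb⟩ := hprime y x (fun e => hxy e.symm) (by rw [mul_comm, hm])
  haveI := Fact.mk hp
  set c := x * y * x⁻¹ * y⁻¹ with hc
  have hcne : c ≠ 1 := fun e => hxy (mul_inv_eq_iff_eq_mul.1 (mul_inv_eq_one.1 e))
  have hcx : c ∈ zpowers x := comm_mem_left hn x y
  have hcy : c ∈ zpowers y := comm_mem_right hn x y
  have hqp : q = p := by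
    by_contra hne
    have h1 : orderOf c ∣ Nat.gcd (p ^ a) (q ^ b) :=
      Nat.dvd_gcd (ha ▸ orderOf_dvd_of_mem_zpowers hcx) (hb ▸ orderOf_dvd_of_mem_zpowers hcy)
    rw [Nat.Coprime.pow a b ((Nat.coprime_primes hp hq).2 (Ne.symm hne)), Nat.dvd_one, orderOf_eq_one_iff] at h1
    exact hcne h1
  subst hqp
  have hccx : Commute c x := by
    obtain ⟨i, hi⟩ := mem_zpowers_iff.1 hcx
    rw [← hi]; exact (Commute.refl x).zpow_left i
  have hccy : Commute c y := by
    obtain ⟨i, hi⟩ := mem_zpowers_iff.1 hcy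
    rw [← hi]; exact (Commute.refl y).zpow_left i
  have ha1 : 1 ≤ a := by
    rcases Nat.eq_zero_or_pos a with rfl | h
    · rw [pow_zero, orderOf_eq_one_iff] at ha
      exact absurd (by rw [ha, one_mul, mul_one]) hxy
    · exact h
  have hsmallx : ∀ u : G, u ∈ zpowers x → orderOf u < orderOf x → u * y = y * u := by
    intro u _ hlt
    by_contra h
    have h1 := hmin u y h
    rw [← hm] at h1
    exact absurd (Nat.le_of_mul_le_mul_right h1 (orderOf_pos y)) (not_le.2 hlt)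
  have hxp : x ^ q * y = y * x ^ q := by
    refine hsmallx _ (pow_mem (mem_zpowers x) q) ?_
    rw [orderOf_pow_of_dvd hp.ne_zero (ha ▸ dvd_pow_self q (by omega))]
    exact Nat.div_lt_self (orderOf_pos x) hp.one_lt
  have hpow : ∀ m : ℕ, x ^ m * y = c ^ m * y * x ^ m := by
    intro m
    induction m with
    | zero => simp
    | succ m ih =>
      have e : x * y = c * y * x := by rw [hc]; group
      calc x ^ (m + 1) * y = x * (x ^ m * y) := by rw [pow_succ', mul_assoc]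
        _ = (x * c ^ m) * y * x ^ m := by rw [ih]; group
        _ = c ^ m * (x * y) * x ^ m := by rw [← (hccx.pow_left m).eq]; group
        _ = _ := by rw [e, pow_succ, pow_succ']; group
  have hcp : c ^ q = 1 := by
    have := hpow q
    rw [hxp] at this
    have h2 : c ^ q * y = y := mul_right_cancel this.symm
    exact mul_eq_right.1 h2
  have hco : orderOf c = q := orderOf_eq_prime hcp hcne
  have hb2 : 2 ≤ b := by
    by_contra hlt
    refine hxy ?_
    have h2 : zpowers c = zpowers y := by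
      refine eq_of_le_of_card_ge (zpowers_le.2 hcy) ?_
      rw [Nat.card_zpowers, Nat.card_zpowers, hco, hb]
      calc q ^ b ≤ q ^ 1 := Nat.pow_le_pow_right hp.pos (by omega)
        _ = q := pow_one q
    obtain ⟨i, hi⟩ := mem_zpowers_iff.1 ((h2 ▸ mem_zpowers y : y ∈ zpowers c))
    rw [← hi]
    exact ((hccx.symm).zpow_right i).eq
  have hba : b ≤ a := by rw [ha, hb] at hle; exact (Nat.pow_le_pow_iff_right hp.one_lt).1 hle
  set N := q ^ (b - 1) with hN
  set M := q ^ (a - 1) with hM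
  have hyN : y ^ N ∈ zpowers (x ^ M) := by
    have e1 : zpowers c = zpowers (x ^ M) := by
      haveI : IsCyclic (zpowers x) := inferInstance
      refine eq_of_le_of_card_ge (zpowers_le.2 ?_) (by
        rw [Nat.card_zpowers, Nat.card_zpowers, hco, orderOf_pow_of_dvd (pow_ne_zero _ hp.ne_zero) (ha ▸ pow_dvd_pow q (by omega)),
          ha, Nat.pow_div (by omega) hp.pos, show a - (a - 1) = 1 by omega, pow_one])
      obtain ⟨k, hk⟩ := (IsOfFinOrder.mem_powers_iff_mem_zpowers (isOfFinOrder_of_finite x)).2 hcx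
      have hk' : x ^ k = c := hk
      have h3 : q ^ a ∣ k * q := by
        rw [← ha]; exact orderOf_dvd_of_pow_eq_one (by rw [pow_mul, hk', hcp])
      obtain ⟨t, rfl⟩ : M ∣ k := by
        refine Nat.dvd_of_mul_dvd_mul_right hp.pos ?_
        rw [hM, ← pow_succ, show a - 1 + 1 = a by omega]
        exact h3
      rw [← hk', pow_mul]
      exact pow_mem (mem_zpowers _) t
    have e2 : zpowers c = zpowers (y ^ N) := by
      refine eq_of_le_of_card_ge (zpowers_le.2 ?_) (by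
        rw [Nat.card_zpowers, Nat.card_zpowers, hco, orderOf_pow_of_dvd (pow_ne_zero _ hp.ne_zero) (hb ▸ pow_dvd_pow q (by omega)),
          hb, Nat.pow_div (by omega) hp.pos, show b - (b - 1) = 1 by omega, pow_one])
      obtain ⟨k, hk⟩ := (IsOfFinOrder.mem_powers_iff_mem_zpowers (isOfFinOrder_of_finite y)).2 hcy
      have hk' : y ^ k = c := hk
      have h3 : q ^ b ∣ k * q := by
        rw [← hb]; exact orderOf_dvd_of_pow_eq_one (by rw [pow_mul, hk', hcp])
      obtain ⟨t, rfl⟩ : N ∣ k := by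
        refine Nat.dvd_of_mul_dvd_mul_right hp.pos ?_
        rw [hN, ← pow_succ, show b - 1 + 1 = b by omega]
        exact h3
      rw [← hk', pow_mul]
      exact pow_mem (mem_zpowers _) t
    rw [← e1, e2]
    exact mem_zpowers _
  obtain ⟨i, hi⟩ := (IsOfFinOrder.mem_powers_iff_mem_zpowers (isOfFinOrder_of_finite (x ^ M))).2 hyN
  have hi' : (x ^ M) ^ i = y ^ N := hi
  set e := q ^ (a - b) * i with he
  have hk : q = 2 ∧ b = 2 ∧ a = 2 := by
    by_contra hk
    have hy' : x * ((x ^ e)⁻¹ * y) ≠ (x ^ e)⁻¹ * y * x := by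
      intro h
      refine hxy (mul_left_cancel (a := (x ^ e)⁻¹) ?_)
      rw [← mul_assoc, ← (((Commute.refl x).pow_right e).inv_right).eq, mul_assoc, h, mul_assoc]
    have h1 := hmin x _ hy'
    rw [← hm] at h1
    have h2 := Nat.le_of_mul_le_mul_left h1 (orderOf_pos x)
    have hcom : Commute ((c ^ e)⁻¹) ((x ^ e)⁻¹) := ((hccx.pow_pow e e).inv_inv)
    have hd : y * (x ^ e)⁻¹ = (x ^ e)⁻¹ * y * c ^ e := by
      have := hpow e
      calc y * (x ^ e)⁻¹ = (x ^ e)⁻¹ * (x ^ e * y) * (x ^ e)⁻¹ := by group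
        _ = (x ^ e)⁻¹ * c ^ e * y := by rw [this]; group
        _ = _ := by rw [mul_assoc, (hccy.pow_left e).eq, ← mul_assoc]
    have hdpow : (c ^ e) ^ N.choose 2 = 1 := by
      by_cases hN2 : N = 2
      · have hq2 : q = 2 := by
          refine (Nat.prime_dvd_prime_iff_eq hp Nat.prime_two).1 ?_
          rw [← hN2, hN]; exact dvd_pow_self q (by omega)
        have hb' : b = 2 := by
          rw [hN, hq2] at hN2
          have := Nat.pow_right_injective (le_refl 2) (hN2.trans (pow_one 2).symm : (2:ℕ) ^ (b - 1) = 2 ^ 1)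
          omega
        have ha' : b < a := by
          rcases eq_or_lt_of_le hba with e | h
          · exact absurd ⟨hq2, hb', e.symm.trans hb'⟩ hk
          · exact h
        rw [← pow_mul, ← orderOf_dvd_iff_pow_eq_one, hco]
        exact Dvd.dvd.mul_right (Dvd.dvd.mul_right (dvd_pow_self q (by omega)) i) _
      · rw [← orderOf_dvd_iff_pow_eq_one]
        refine (orderOf_pow_dvd (x := c) e).trans ?_
        rw [hco]
        exact Cfsg.Lib.Transfer.dvd_choose_two_pow (p := q) (n := b - 1) (hN ▸ hN2) (by omega)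
    have h3 : ((x ^ e)⁻¹ * y) ^ N = 1 := by
      rw [Cfsg.Lib.Transfer.mul_pow_class_two hd ((hccx.pow_pow e e).inv_right) (hccy.pow_left e), hdpow, mul_one,
        inv_pow, ← pow_mul, ← hi', ← pow_mul, inv_mul_eq_one]
      congr 1
      rw [he, hN, hM, mul_right_comm, ← pow_add, show a - b + (b - 1) = a - 1 by omega]
    have h4 := orderOf_le_of_pow_eq_one (pow_pos hp.pos _) h3
    rw [hb] at h2
    have : q ^ (b - 1) < q ^ b := Nat.pow_lt_pow_right hp.one_lt (by omega)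
    omega
  obtain ⟨rfl, rfl, rfl⟩ := hk
  have hx4 : orderOf x = 4 := by rw [ha]; norm_num
  have hy4 : orderOf y = 4 := by rw [hb]; norm_num
  refine ⟨x, y, hx4, ?_, ?_, hxy⟩
  · obtain ⟨k, hk⟩ := (IsOfFinOrder.mem_powers_iff_mem_zpowers (isOfFinOrder_of_finite x)).2 (conj_mem_zpowers hn y x)
    have hk' : x ^ k = y * x * y⁻¹ := hk
    rw [← pow_mod_orderOf, hx4] at hk'
    have hxinv : x⁻¹ = x ^ 3 := inv_eq_of_mul_eq_one_right (((pow_succ' x 3).symm).trans (orderOf_dvd_iff_pow_eq_one.1 (dvd_of_eq hx4)))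
    have h5 : orderOf (x ^ (k % 4)) = 4 := by rw [hk', ← hx4]; exact orderOf_injective (MulAut.conj y).toMonoidHom (MulAut.conj y).injective x
    rcases (by omega : k % 4 = 0 ∨ k % 4 = 1 ∨ k % 4 = 2 ∨ k % 4 = 3) with h | h | h | h <;> rw [h] at hk' h5
    · rw [pow_zero, orderOf_one] at h5; omega
    · rw [pow_one] at hk'; exact absurd (eq_mul_inv_iff_mul_eq.1 hk') hxy
    · rw [orderOf_pow_of_dvd two_ne_zero (by rw [hx4]; norm_num), hx4] at h5; omega
    · rw [hxinv, hk']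
  · have hsq : ∀ z : G, orderOf z = 4 → c ∈ zpowers z → z ^ 2 = c := by
      intro z hz hcz
      obtain ⟨k, hk⟩ := (IsOfFinOrder.mem_powers_iff_mem_zpowers (isOfFinOrder_of_finite z)).2 hcz
      have hk' : z ^ k = c := hk
      rw [← pow_mod_orderOf, hz] at hk'
      rcases (by omega : k % 4 = 0 ∨ k % 4 = 1 ∨ k % 4 = 2 ∨ k % 4 = 3) with h | h | h | h <;> rw [h] at hk'
      · rw [pow_zero] at hk'; exact absurd hk'.symm hcne
      · rw [pow_one] at hk'; rw [← hk', hz] at hco; omega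
      · exact hk'
      · have h6 : z ^ 6 = 1 := by rw [show 6 = 3 * 2 from rfl, pow_mul, hk', hcp]
        have := orderOf_dvd_of_pow_eq_one h6
        rw [hz] at this
        omega
    rw [hsq x hx4 hcx, hsq y hy4 hcy]

theorem main {G : Type u} [Group G] [Finite G] (hn : ∀ H : Subgroup G, H.Normal) (hna : ∃ x y : G, x * y ≠ y * x) :
    ∃ Q E A : Subgroup G, Nonempty (Q ≃* QuaternionGroup 2) ∧ Cfsg.IsElementaryAbelian 2 E ∧ IsMulCommutative A ∧
      Odd (Nat.card A) ∧ E ⊓ A = ⊥ ∧ Q ⊓ (E ⊔ A) = ⊥ ∧ Q ⊔ (E ⊔ A) = ⊤ := by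
  classical
  obtain ⟨x, y, hx4, hinv, hsq, hxy⟩ := exists_pair hn hna
  haveI := hn (zpowers x)
  set Q := zpowers x ⊔ zpowers y with hQ
  set c := x ^ 2 with hc
  have hc2 : c * c = 1 := (pow_add x 2 2).symm.trans (orderOf_dvd_iff_pow_eq_one.1 (dvd_of_eq hx4))
  have hco : orderOf c = 2 := by rw [hc, orderOf_pow_of_dvd two_ne_zero (by rw [hx4]; norm_num), hx4]
  have hcne : c ≠ 1 := fun e => by rw [e, orderOf_one] at hco; omega
  have hy4 : orderOf y = 4 := by
    have : orderOf (y ^ 2) = 2 := by rw [hsq]; exact hco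
    exact orderOf_eq_prime_pow (p := 2) (n := 1)
      (fun e => by rw [pow_one] at e; rw [e, orderOf_one] at this; omega)
      (by rw [show 2 ^ (1 + 1) = 2 * 2 from rfl, pow_mul, hsq, pow_two, hc2])
  have hyx : y ∉ zpowers x := fun h => hxy (by
    obtain ⟨i, hi⟩ := mem_zpowers_iff.1 h
    rw [← hi]; exact ((Commute.refl x).zpow_right i).eq)
  have hcy : Commute c y := by rw [← hsq]; exact Commute.pow_left (Commute.refl y) 2
  have hQmem : ∀ q ∈ Q, ∃ i j : ℤ, x ^ i * y ^ j = q := fun q hq => by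
    obtain ⟨u, hu, v, hv, rfl⟩ := mem_sup_of_normal_left.1 hq
    obtain ⟨i, rfl⟩ := mem_zpowers_iff.1 hu
    obtain ⟨j, rfl⟩ := mem_zpowers_iff.1 hv
    exact ⟨i, j, rfl⟩
  set C := centralizer ({x, y} : Set G) with hC
  have hCmem : ∀ u, u ∈ C ↔ x * u = u * x ∧ y * u = u * y := fun u => by
    rw [hC, mem_centralizer_iff]; simp
  have hcC : c ∈ C := (hCmem c).2 ⟨(Commute.pow_right (Commute.refl x) 2).eq, hcy.symm.eq⟩
  -- no elements of order four centralizing Q
  have hno4 : ∀ u ∈ C, orderOf u ≠ 4 := by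
    intro u hu hu4
    obtain ⟨hux, huy⟩ := (hCmem u).1 hu
    have hcom : Commute u x := hux.symm
    have hmem : c ∈ zpowers (u * x) := by
      have h1 := comm_mem_left hn (u * x) y
      have h2 : u * x * y * (u * x)⁻¹ * y⁻¹ = c := by
        have e : x * y * x⁻¹ * y⁻¹ = c := by
          have : y * x⁻¹ * y⁻¹ = x := by rw [← inv_inj, mul_inv_rev, mul_inv_rev, inv_inv, inv_inv, ← mul_assoc, hinv]
          rw [show x * y * x⁻¹ * y⁻¹ = x * (y * x⁻¹ * y⁻¹) by group, this, hc, pow_two]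
        have hcu : Commute u c := hcom.pow_right 2
        calc u * x * y * (u * x)⁻¹ * y⁻¹ = u * (x * y * x⁻¹) * (u⁻¹ * y⁻¹) := by group
          _ = u * (x * y * x⁻¹) * (y⁻¹ * u⁻¹) := by rw [show u⁻¹ * y⁻¹ = y⁻¹ * u⁻¹ by rw [← mul_inv_rev, huy, mul_inv_rev]]
          _ = u * (x * y * x⁻¹ * y⁻¹) * u⁻¹ := by group
          _ = c := by rw [e, hcu.eq, mul_inv_cancel_right]
      rwa [h2] at h1
    have hne1 : u * x ≠ c := by
      intro h
      refine hxy ?_
      have e : x = u⁻¹ * c := by rw [← h]; group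
      rw [e]
      exact ((Commute.inv_left (show Commute u y from huy.symm)).mul_left hcy).eq
    have h4 : (u * x) ^ 4 = 1 := by
      rw [hcom.mul_pow, ← hx4]
      nth_rewrite 1 [hx4]
      rw [pow_orderOf_eq_one, ← hu4, pow_orderOf_eq_one, one_mul]
    obtain ⟨k, hk⟩ := (IsOfFinOrder.mem_powers_iff_mem_zpowers (isOfFinOrder_of_finite (u * x))).2 hmem
    have hk' : (u * x) ^ k = c := hk
    rw [← Nat.mod_add_div k 4, pow_add, pow_mul, h4, one_pow, mul_one] at hk'
    rcases (by omega : k % 4 = 0 ∨ k % 4 = 1 ∨ k % 4 = 2 ∨ k % 4 = 3) with h | h | h | h <;> rw [h] at hk'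
    · rw [pow_zero] at hk'; exact hcne hk'.symm
    · rw [pow_one] at hk'; exact hne1 hk'
    · rw [hcom.mul_pow, ← hc, mul_eq_right] at hk'
      have := orderOf_dvd_of_pow_eq_one hk'
      rw [hu4] at this; omega
    · refine hne1 ?_
      have h5 : (u * x) ^ 3 * (u * x) = 1 := by rw [← pow_succ]; exact h4
      rw [hk'] at h5
      rw [eq_inv_of_mul_eq_one_right h5, inv_eq_of_mul_eq_one_right hc2]
  have hCab : ∀ u ∈ C, ∀ v ∈ C, u * v = v * u := by
    by_contra h
    push Not at h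
    obtain ⟨u, hu, v, hv, huv⟩ := h
    obtain ⟨a, b, ha, -, -, -⟩ := exists_pair (G := C) (fun H => by
      have := hn (H.map C.subtype)
      exact ⟨fun m hm g => by
        obtain ⟨m', hm', he⟩ := this.conj_mem (m : G) ⟨m, hm, rfl⟩ (g : G)
        have : m' = g * m * g⁻¹ := Subtype.ext he
        rwa [this] at hm'⟩) ⟨⟨u, hu⟩, ⟨v, hv⟩, fun e => huv (congrArg Subtype.val e)⟩
    exact hno4 a a.2 (by rw [Subgroup.orderOf_coe, ha])
  have hconj2 : ∀ z : G, orderOf z = 4 → ∀ g : G, g * z * g⁻¹ = z ∨ g * z * g⁻¹ = z⁻¹ := by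
    intro z hz g
    obtain ⟨k, hk⟩ := (IsOfFinOrder.mem_powers_iff_mem_zpowers (isOfFinOrder_of_finite z)).2 (conj_mem_zpowers hn g z)
    have hk' : z ^ k = g * z * g⁻¹ := hk
    rw [← pow_mod_orderOf, hz] at hk'
    have h5 : orderOf (z ^ (k % 4)) = 4 := by rw [hk', ← hz]; exact orderOf_injective (MulAut.conj g).toMonoidHom (MulAut.conj g).injective z
    rcases (by omega : k % 4 = 0 ∨ k % 4 = 1 ∨ k % 4 = 2 ∨ k % 4 = 3) with h | h | h | h <;> rw [h] at hk' h5
    · rw [pow_zero, orderOf_one] at h5; omega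
    · rw [pow_one] at hk'; exact Or.inl hk'.symm
    · rw [orderOf_pow_of_dvd two_ne_zero (by rw [hz]; norm_num), hz] at h5; omega
    · exact Or.inr (by rw [← hk']; exact eq_inv_of_mul_eq_one_left ((pow_succ z 3).symm.trans (orderOf_dvd_iff_pow_eq_one.1 (dvd_of_eq hz))))
  have hxinv : y⁻¹ * x * y = x⁻¹ := by
    have : x = y * x⁻¹ * y⁻¹ := by rw [← inv_inj, mul_inv_rev, mul_inv_rev, inv_inv, inv_inv, ← mul_assoc, hinv]
    nth_rewrite 1 [this]; group
  have hyinv : x * y * x⁻¹ = y⁻¹ := by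
    have e : x * y * x⁻¹ = c * y := by
      have : y * x⁻¹ * y⁻¹ = x := by rw [← inv_inj, mul_inv_rev, mul_inv_rev, inv_inv, inv_inv, ← mul_assoc, hinv]
      calc x * y * x⁻¹ = x * (y * x⁻¹ * y⁻¹) * y := by group
        _ = c * y := by rw [this, hc, pow_two]
    rw [e]
    refine eq_inv_of_mul_eq_one_left ?_
    rw [mul_assoc, ← pow_two, hsq, hc2]
  have hQC : ∀ g : G, g ∈ Q ⊔ C := by
    intro g
    have hxQ : x ∈ Q := mem_sup_left (mem_zpowers x)
    have hyQ : y ∈ Q := mem_sup_right (mem_zpowers y)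
    obtain ⟨q₁, hq₁, h1⟩ : ∃ q ∈ Q, (q * g) * x * (q * g)⁻¹ = x := by
      rcases hconj2 x hx4 g with h | h
      · exact ⟨1, one_mem _, by rw [one_mul]; exact h⟩
      · refine ⟨y, hyQ, ?_⟩
        calc y * g * x * (y * g)⁻¹ = y * (g * x * g⁻¹) * y⁻¹ := by group
          _ = (y * x * y⁻¹)⁻¹ := by rw [h]; group
          _ = x := by rw [hinv, inv_inv]
    obtain ⟨q₂, hq₂, h2, h3⟩ : ∃ q ∈ Q, (q * (q₁ * g)) * x * (q * (q₁ * g))⁻¹ = x ∧ (q * (q₁ * g)) * y * (q * (q₁ * g))⁻¹ = y := by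
      rcases hconj2 y hy4 (q₁ * g) with h | h
      · exact ⟨1, one_mem _, by rw [one_mul]; exact h1, by rw [one_mul]; exact h⟩
      · refine ⟨x, hxQ, ?_, ?_⟩
        · calc x * (q₁ * g) * x * (x * (q₁ * g))⁻¹ = x * ((q₁ * g) * x * (q₁ * g)⁻¹) * x⁻¹ := by group
            _ = x := by rw [h1]; group
        · calc x * (q₁ * g) * y * (x * (q₁ * g))⁻¹ = x * ((q₁ * g) * y * (q₁ * g)⁻¹) * x⁻¹ := by group
            _ = (x * y * x⁻¹)⁻¹ := by rw [h]; group
            _ = y := by rw [hyinv, inv_inv]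
    have hmemC : q₂ * (q₁ * g) ∈ C :=
      (hCmem _).2 ⟨(mul_inv_eq_iff_eq_mul.1 h2).symm, (mul_inv_eq_iff_eq_mul.1 h3).symm⟩
    have : g = (q₂ * q₁)⁻¹ * (q₂ * (q₁ * g)) := by group
    rw [this]
    exact mul_mem (mem_sup_left (inv_mem (mul_mem hq₂ hq₁))) (mem_sup_right hmemC)
  have hodd : ∀ j : ℤ, ¬ 2 ∣ j → Commute (y ^ j) x → False := by
    intro j hj h
    obtain ⟨k, rfl⟩ : ∃ k, j = 2 * k + 1 := ⟨j / 2, by omega⟩
    rw [zpow_add, zpow_mul, zpow_one, zpow_ofNat, hsq] at h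
    refine hxy ?_
    have h' : Commute ((c ^ k)⁻¹ * (c ^ k * y)) x :=
      Commute.mul_left (((Commute.pow_left (Commute.refl x) 2).zpow_left k).inv_left) h
    rw [inv_mul_cancel_left] at h'
    exact h'.symm.eq
  have hQint : ∀ q ∈ Q, q ∈ C → q = 1 ∨ q = c := by
    intro q hq hqC
    obtain ⟨i, j, rfl⟩ := hQmem q hq
    obtain ⟨hqx, hqy⟩ := (hCmem _).1 hqC
    have hj : (2 : ℤ) ∣ j := by
      by_contra hj
      refine hodd j hj ?_
      have h' := Commute.mul_left (((Commute.refl x).zpow_left i).inv_left) (show Commute (x ^ i * y ^ j) x from hqx.symm)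
      rwa [inv_mul_cancel_left] at h'
    obtain ⟨k, rfl⟩ := hj
    rw [zpow_mul, zpow_ofNat, hsq] at hqy ⊢
    have hi : (2 : ℤ) ∣ i := by
      by_contra hi
      obtain ⟨l, rfl⟩ : ∃ l, i = 2 * l + 1 := ⟨i / 2, by omega⟩
      rw [zpow_add, zpow_mul, zpow_one, zpow_ofNat] at hqy
      refine hxy ?_
      have h' := Commute.mul_left ((hcy.zpow_left l).inv_left) (Commute.mul_left (show Commute (c ^ l * x * c ^ k) y from hqy.symm) ((hcy.zpow_left k).inv_left))
      have e : (c ^ l)⁻¹ * (c ^ l * x * c ^ k * (c ^ k)⁻¹) = x := by group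
      rw [e] at h'
      exact h'.eq
    obtain ⟨l, rfl⟩ := hi
    rw [zpow_mul, zpow_ofNat, ← zpow_add]
    have hcsq : c ^ 2 = 1 := by rw [pow_two c]; exact hc2
    rcases Int.emod_two_eq (l + k) with h | h
    · left
      rw [← Int.emod_add_mul_ediv (l + k) 2, h, zero_add, zpow_mul, zpow_ofNat, hcsq, one_zpow]
    · right
      rw [← Int.emod_add_mul_ediv (l + k) 2, h, zpow_add, zpow_mul, zpow_one, zpow_ofNat, hcsq, one_zpow, mul_one]
  let E0 : Subgroup G :=
    { carrier := {u | u ∈ C ∧ u ^ 2 = 1}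
      mul_mem' := fun {u v} hu hv => ⟨C.mul_mem hu.1 hv.1, by
        rw [(show Commute u v from hCab u hu.1 v hv.1).mul_pow, hu.2, hv.2, one_mul]⟩
      one_mem' := ⟨C.one_mem, one_pow 2⟩
      inv_mem' := fun {u} hu => ⟨C.inv_mem hu.1, by rw [inv_pow, hu.2, inv_one]⟩ }
  let A : Subgroup G :=
    { carrier := {u | u ∈ C ∧ Odd (orderOf u)}
      mul_mem' := fun {u v} hu hv => ⟨C.mul_mem hu.1 hv.1,
        Odd.of_dvd_nat ((hu.2).mul hv.2) ((show Commute u v from hCab u hu.1 v hv.1).orderOf_mul_dvd_mul_orderOf)⟩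
      one_mem' := ⟨C.one_mem, by rw [orderOf_one]; exact odd_one⟩
      inv_mem' := fun {u} hu => ⟨C.inv_mem hu.1, by rw [orderOf_inv]; exact hu.2⟩ }
  have hdec : ∀ u ∈ C, ∃ e ∈ E0, ∃ a ∈ A, u = e * a := by
    intro u hu
    have h4 : ¬ 4 ∣ orderOf u := fun h4 => hno4 (u ^ (orderOf u / 4)) (C.pow_mem hu _) (orderOf_pow_orderOf_div (orderOf_pos u).ne' h4)
    rcases Nat.even_or_odd (orderOf u) with ⟨m, hm⟩ | h
    · have hmo : Odd m := by
        rcases Nat.even_or_odd m with ⟨l, hl⟩ | h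
        · exact absurd ⟨l, by omega⟩ h4
        · exact h
      obtain ⟨l, hl⟩ := hmo
      refine ⟨u ^ m, ⟨C.pow_mem hu m, by rw [← pow_mul, show m * 2 = orderOf u by omega, pow_orderOf_eq_one]⟩,
        u ^ (m + 1), ⟨C.pow_mem hu _, ?_⟩, ?_⟩
      · refine Odd.of_dvd_nat (⟨l, hl⟩ : Odd m) (orderOf_dvd_of_pow_eq_one ?_)
        rw [← pow_mul, show (m + 1) * m = orderOf u * (l + 1) by rw [hm, hl]; ring, pow_mul, pow_orderOf_eq_one, one_pow]
      · rw [← pow_add, show m + (m + 1) = orderOf u + 1 by omega, pow_succ, pow_orderOf_eq_one, one_mul]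
    · exact ⟨1, E0.one_mem, u, ⟨hu, h⟩, (one_mul u).symm⟩
  have hEA : ∀ u, u ∈ E0 → u ∈ A → u = 1 := by
    intro u h1 h2
    rcases (Nat.dvd_prime Nat.prime_two).1 (orderOf_dvd_of_pow_eq_one h1.2) with h | h
    · exact orderOf_eq_one_iff.1 h
    · have := h2.2; rw [h] at this; exact absurd this (by decide)
  obtain ⟨E, ⟨hE0, hcE⟩, hEmax⟩ := (Set.toFinite {E : Subgroup G | E ≤ E0 ∧ c ∉ E}).exists_maximal
    ⟨⊥, bot_le, fun h => hcne (mem_bot.1 h)⟩
  have hE0eq : E0 ≤ E ⊔ zpowers c := by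
    intro e he
    by_cases heE : e ∈ E
    · exact mem_sup_left heE
    have hce : c ∈ E ⊔ zpowers e := by
      by_contra h
      exact heE ((hEmax (y := E ⊔ zpowers e) ⟨sup_le hE0 (zpowers_le.2 he), h⟩ le_sup_left) (mem_sup_right (mem_zpowers e)))
    haveI := hn E
    obtain ⟨f, hf, v, hv, hfv⟩ := mem_sup_of_normal_left.1 hce
    obtain ⟨j, rfl⟩ := mem_zpowers_iff.1 hv
    rw [← Int.emod_add_mul_ediv j 2, zpow_add, zpow_mul e 2 (j / 2), zpow_ofNat, he.2, one_zpow, mul_one] at hfv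
    rcases Int.emod_two_eq j with h | h <;> rw [h] at hfv
    · rw [zpow_zero, mul_one] at hfv
      exact absurd (hfv ▸ hf) hcE
    · rw [zpow_one] at hfv
      rw [show e = f⁻¹ * c by rw [← hfv]; group]
      exact mul_mem (mem_sup_left (inv_mem hf)) (mem_sup_right (mem_zpowers c))
  refine ⟨Q, E, A, ?_, ⟨⟨⟨fun a b => Subtype.ext (hCab _ (hE0 a.2).1 _ (hE0 b.2).1)⟩⟩, fun a ha => (hE0 ha).2⟩,
    ⟨⟨fun a b => Subtype.ext (hCab _ a.2.1 _ b.2.1)⟩⟩, ?_, ?_, ?_, ?_⟩
  · have hxQ : x ∈ Q := mem_sup_left (mem_zpowers x)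
    have hyQ : y ∈ Q := mem_sup_right (mem_zpowers y)
    refine Cfsg.Lib.ZStar.nonempty_quaternion_of_inverted (a := (⟨x, hxQ⟩ : Q)) (g := ⟨y, hyQ⟩) two_ne_zero
      (by rw [Subgroup.orderOf_mk, hx4]) ?_ ?_ (Subtype.ext hinv) (Subtype.ext hsq)
    · have e : zpowers (⟨x, hxQ⟩ : Q) = (zpowers x).subgroupOf Q := by
        ext z
        rw [mem_subgroupOf, mem_zpowers_iff, mem_zpowers_iff]
        exact exists_congr fun i => by rw [Subtype.ext_iff]; rfl
      rw [e]
      show (zpowers x).relIndex Q = 2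
      rw [hQ, sup_comm, relIndex_sup_right]
      have hinf : zpowers x ⊓ zpowers y = zpowers c := by
        refine le_antisymm ?_ (zpowers_le.2 ⟨pow_mem (mem_zpowers x) 2, hsq ▸ pow_mem (mem_zpowers y) 2⟩)
        rintro z ⟨hzx, hzy⟩
        have hzQ : z ∈ Q := mem_sup_left hzx
        obtain ⟨i, hi⟩ := mem_zpowers_iff.1 hzx
        obtain ⟨j, hj⟩ := mem_zpowers_iff.1 hzy
        rcases hQint z hzQ ((hCmem z).2 ⟨by rw [← hi]; exact ((Commute.refl x).zpow_right i).eq,
          by rw [← hj]; exact ((Commute.refl y).zpow_right j).eq⟩) with h | h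
        · rw [h]; exact one_mem _
        · rw [h]; exact mem_zpowers c
      have h1 := card_mul_index ((zpowers x ⊓ zpowers y).subgroupOf (zpowers y))
      rw [Nat.card_congr (subgroupOfEquivOfLe inf_le_right).toEquiv, hinf, Nat.card_zpowers, hco, Nat.card_zpowers, hy4] at h1
      rw [← inf_relIndex_right, hinf]
      show ((zpowers c).subgroupOf (zpowers y)).index = 2
      omega
    · intro h
      obtain ⟨i, hi⟩ := mem_zpowers_iff.1 h
      exact hyx ⟨i, congrArg Subtype.val hi⟩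
  · rw [← Nat.not_even_iff_odd, even_iff_two_dvd]
    intro h
    obtain ⟨a, ha⟩ := exists_prime_orderOf_dvd_card' 2 h
    have := a.2.2
    rw [Subgroup.orderOf_coe, ha] at this
    exact absurd this (by decide)
  · rw [eq_bot_iff]
    intro u hu
    exact mem_bot.2 (hEA u (hE0 hu.1) hu.2)
  · rw [eq_bot_iff]
    rintro u ⟨huQ, huEA⟩
    haveI := hn E
    obtain ⟨e, he, a, ha, rfl⟩ := mem_sup_of_normal_left.1 huEA
    rcases hQint _ huQ (C.mul_mem (hE0 he).1 ha.1) with h | h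
    · exact mem_bot.2 h
    · have ha1 : a = e⁻¹ * c := by rw [← h]; group
      have : a = 1 := hEA a (ha1 ▸ E0.mul_mem (E0.inv_mem (hE0 he)) ⟨hcC, by rw [pow_two, hc2]⟩) ha
      rw [this, mul_one] at h
      exact absurd (h ▸ he) hcE
  · rw [eq_top_iff]
    intro g _
    refine (sup_le le_sup_left ?_ : Q ⊔ C ≤ Q ⊔ (E ⊔ A)) (hQC g)
    intro u hu
    obtain ⟨e, he, a, ha, rfl⟩ := hdec u hu
    refine mul_mem ((sup_le (le_sup_left.trans le_sup_right) ?_ : E ⊔ zpowers c ≤ Q ⊔ (E ⊔ A)) (hE0eq he))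
      (mem_sup_right (mem_sup_right ha))
    exact zpowers_le.2 (mem_sup_left (mem_sup_left (pow_mem (mem_zpowers x) 2)))

/-- A finite non-abelian group in which every subgroup is normal is the internal direct product of a subgroup isomorphic to the quaternion group of order `8`, an elementary abelian `2`-subgroup and an abelian subgroup of odd order. -/
theorem result {G : Type*} [Group G] [Finite G] (hna : ¬ IsMulCommutative G) (hn : ∀ H : Subgroup G, H.Normal) : ∃ Q E A : Subgroup G, Nonempty (Q ≃* QuaternionGroup 2) ∧ Cfsg.IsElementaryAbelian 2 E ∧ IsMulCommutative A ∧ Odd (Nat.card A) ∧ E ⊓ A = ⊥ ∧ Q ⊓ (E ⊔ A) = ⊥ ∧ Q ⊔ (E ⊔ A) = ⊤ := by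
  refine main hn ?_
  by_contra h
  push Not at h
  exact hna ⟨⟨h⟩⟩

end Cfsg.Agent.S4211
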