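import Cfsg.Statements.S4212
import Cfsg.Agent.Lib.Solv.FrobeniusDivisibility

set_option autoImplicit false
open Cfsg

namespace Cfsg.Agent.S4212

open scoped Classical

variable {G : Type*} [Group G] [Finite G] {p : ℕ}

theorem prime_case (hp : p.Prime) {b a : ℕ} (ha : p ^ a ∣ Nat.card G) (hab : a ≤ b) {e : G}
    (he : ∃ k, e ^ p ^ k = 1) : p ^ a ∣ Nat.card {u : G // u ^ p ^ b = e} := by
  haveI := Fintype.ofFinite G
  have : Fact p.Prime := ⟨hp⟩
  by_cases he1 : e = 1
  · subst he1
    rcases Nat.le_or_ge b ((Nat.card G).factorization p) with h | h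
    · exact (pow_dvd_pow p hab).trans (Cfsg.Lib.Solv.FrobDiv.frobenius_dvd _
        ((hp.pow_dvd_iff_le_factorization Nat.card_pos.ne').mpr h))
    · set c := (Nat.card G).factorization p
      have h1 : Nat.card {u : G // u ^ p ^ b = 1} = Nat.card {u : G // u ^ p ^ c = 1} := by
        refine Nat.card_congr (Equiv.subtypeEquivRight fun u => ⟨fun hu => ?_, fun hu => ?_⟩)
        · obtain ⟨i, -, hi⟩ := (Nat.dvd_prime_pow hp).mp (orderOf_dvd_of_pow_eq_one hu)
          have h2 := orderOf_dvd_natCard u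
          rw [hi, hp.pow_dvd_iff_le_factorization Nat.card_pos.ne'] at h2
          exact orderOf_dvd_iff_pow_eq_one.mp (hi ▸ pow_dvd_pow p h2)
        · obtain ⟨t, rfl⟩ := Nat.exists_eq_add_of_le h
          rw [pow_add, pow_mul, hu, one_pow]
      rw [h1]
      exact (pow_dvd_pow p ((hp.pow_dvd_iff_le_factorization Nat.card_pos.ne').mp ha)).trans
        (Cfsg.Lib.Solv.FrobDiv.frobenius_dvd _ ((hp.pow_dvd_iff_le_factorization Nat.card_pos.ne').mpr le_rfl))
  · refine (pow_dvd_pow p hab).trans ?_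
    obtain ⟨k, hk⟩ := he
    obtain ⟨i, -, hi⟩ := (Nat.dvd_prime_pow hp).mp (orderOf_dvd_of_pow_eq_one hk)
    have hi0 : i ≠ 0 := fun h => he1 (orderOf_eq_one_iff.mp (by rw [hi, h, pow_zero]))
    have hord : ∀ u : G, u ^ p ^ b = e → orderOf u = p ^ (b + i) := fun u hu => by
      obtain ⟨i', rfl⟩ : ∃ i', i = i' + 1 := ⟨i - 1, by omega⟩
      refine orderOf_eq_prime_pow (n := b + i') (fun h => ?_) ?_
      · rw [pow_add, pow_mul, hu] at h
        have h2 := orderOf_dvd_of_pow_eq_one h
        rw [hi, Nat.pow_dvd_pow_iff_le_right hp.one_lt] at h2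
        omega
      · rw [add_assoc, pow_add, pow_mul, hu, ← hi, pow_orderOf_eq_one]
    rw [Nat.card_eq_fintype_card, Fintype.card_subtype, Finset.card_eq_sum_card_image Subgroup.zpowers]
    refine Finset.dvd_sum fun K hK => ?_
    obtain ⟨u, hu, rfl⟩ := Finset.mem_image.mp hK
    replace hu : u ^ p ^ b = e := by simpa using hu
    letI : CommGroup (Subgroup.zpowers u) := IsCyclic.commGroup
    have hker := IsCyclic.card_powMonoidHom_ker (G := Subgroup.zpowers u) (p ^ b)
    rw [Nat.card_zpowers, hord u hu, Nat.gcd_eq_right (pow_dvd_pow p (Nat.le_add_right b i))] at hker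
    refine dvd_of_eq ?_
    conv_lhs => rw [← hker]
    rw [← Nat.card_eq_finsetCard]
    refine Nat.card_congr (Equiv.ofBijective (fun k => ⟨u * (k.1 : G), ?_⟩) ⟨fun k l h => ?_, fun y => ?_⟩)
    · have hk1 : ((k.1 : G)) ^ p ^ b = 1 := congrArg Subtype.val (MonoidHom.mem_ker.mp k.2)
      have hc : Commute u (k.1 : G) := by
        obtain ⟨z, hz⟩ := Subgroup.mem_zpowers_iff.mp k.1.2
        rw [← hz]
        exact (Commute.refl u).zpow_right z
      have hpow : (u * (k.1 : G)) ^ p ^ b = e := by rw [hc.mul_pow, hu, hk1, mul_one]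
      simp only [Finset.mem_filter, Finset.mem_univ, true_and]
      exact ⟨hpow, Subgroup.eq_of_le_of_card_ge
        (Subgroup.zpowers_le.mpr (mul_mem (Subgroup.mem_zpowers u) k.1.2))
        (by rw [Nat.card_zpowers, Nat.card_zpowers, hord _ hpow, hord u hu])⟩
    · exact Subtype.ext (Subtype.ext (mul_left_cancel (congrArg Subtype.val h)))
    · have hy := y.2
      simp only [Finset.mem_filter, Finset.mem_univ, true_and] at hy
      have hmem : u⁻¹ * y.1 ∈ Subgroup.zpowers u := mul_mem (inv_mem (Subgroup.mem_zpowers u))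
        ((le_of_eq hy.2) (Subgroup.mem_zpowers y.1))
      refine ⟨⟨⟨_, hmem⟩, MonoidHom.mem_ker.mpr (Subtype.ext ?_)⟩, Subtype.ext (mul_inv_cancel_left u y.1)⟩
      show (u⁻¹ * y.1) ^ p ^ b = 1
      have hc : Commute u⁻¹ y.1 := by
        obtain ⟨z, hz⟩ := Subgroup.mem_zpowers_iff.mp ((le_of_eq hy.2) (Subgroup.mem_zpowers y.1) : y.1 ∈ Subgroup.zpowers u)
        rw [← hz]
        exact ((Commute.refl u).zpow_right z).inv_left
      rw [hc.mul_pow, inv_pow, hu, hy.1, inv_mul_cancel]

theorem central_case (hp : p.Prime) {n k : ℕ} (hn : p ^ k ∣ n) (hk : p ^ k ∣ Nat.card G) {c : G}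
    (hc : ∀ g, Commute c g) : p ^ k ∣ Nat.card {x : G // x ^ n = c} := by
  haveI := Fintype.ofFinite G
  rcases Nat.eq_zero_or_pos n with rfl | hn0
  · by_cases h : c = 1
    · rw [Nat.card_congr (Equiv.subtypeUnivEquiv fun x => by rw [h, pow_zero])]
      exact hk
    · have : IsEmpty {x : G // x ^ 0 = c} := ⟨fun x => h (by simpa using x.2.symm)⟩
      rw [show Nat.card {x : G // x ^ 0 = c} = 0 from Nat.card_of_isEmpty]; exact dvd_zero _
  obtain ⟨b, m, hm, rfl⟩ := Nat.exists_eq_pow_mul_and_not_dvd hn0.ne' p hp.ne_one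
  have hkb : k ≤ b := by
    have h1 : (p ^ k).Coprime m := ((hp.coprime_iff_not_dvd).2 hm).pow_left _
    exact (Nat.pow_dvd_pow_iff_le_right hp.one_lt).mp (h1.dvd_of_dvd_mul_right hn)
  obtain ⟨a, g', hg', hG⟩ := Nat.exists_eq_pow_mul_and_not_dvd (Nat.card_pos (α := G)).ne' p hp.ne_one
  have hka : k ≤ a := (Nat.pow_dvd_pow_iff_le_right hp.one_lt).mp
    ((((hp.coprime_iff_not_dvd).2 hg').pow_left k).dvd_of_dvd_mul_right (hG ▸ hk))
  have hcop : (p ^ a).Coprime g' := ((hp.coprime_iff_not_dvd).2 hg').pow_left _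
  obtain ⟨e, he₁, he₂⟩ := Nat.chineseRemainder hcop 1 0
  obtain ⟨f, hf₁, hf₂⟩ := Nat.chineseRemainder hcop 0 1
  obtain ⟨m', hm', hm''⟩ : ∃ m', m * m' ≡ 1 [MOD p ^ a] ∧ True := by
    obtain ⟨z, hz1, hz2⟩ := Nat.chineseRemainder (((hp.coprime_iff_not_dvd).2 hm).pow_left a) 1 0
    obtain ⟨m', rfl⟩ := Nat.modEq_zero_iff_dvd.mp hz2
    exact ⟨m', hz1, trivial⟩
  have hg : ∀ x : G, x ^ (p ^ a * g') = 1 := fun x => by rw [← hG]; exact pow_card_eq_one'
  have hef : ∀ x : G, x ^ e * x ^ f = x := fun x => by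
    rw [← pow_add]
    conv_rhs => rw [← pow_one x]
    refine pow_eq_pow_of_modEq ((Nat.modEq_and_modEq_iff_modEq_mul hcop).1 ⟨?_, ?_⟩) (hg x)
    · simpa using he₁.add hf₁
    · simpa using he₂.add hf₂
  have hue : ∀ x : G, (x ^ e) ^ p ^ a = 1 := fun x => by
    obtain ⟨q, hq⟩ := Nat.modEq_zero_iff_dvd.1 he₂
    rw [← pow_mul, hq, show g' * q * p ^ a = p ^ a * g' * q by ring, pow_mul, hg, one_pow]
  have hvf : ∀ x : G, (x ^ f) ^ g' = 1 := fun x => by
    obtain ⟨q, hq⟩ := Nat.modEq_zero_iff_dvd.1 hf₁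
    rw [← pow_mul, hq, show p ^ a * q * g' = p ^ a * g' * q by ring, pow_mul, hg, one_pow]
  set e' := (c ^ e) ^ m' with he'
  let V := Finset.univ.filter fun v : G => v ^ g' = 1 ∧ v ^ (p ^ b * m) = c ^ f
  let M : G → ℕ := fun v => Nat.card {u : G // Commute u v ∧ u ^ p ^ b = e'}
  -- decomposition
  have hup : ∀ u : G, u ^ p ^ b = e' → u ^ p ^ a = 1 := fun u hu => by
    have h1 : u ^ p ^ (b + a) = 1 := by
      rw [pow_add, pow_mul, hu, he', ← pow_mul, mul_comm, pow_mul, hue, one_pow]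
    obtain ⟨i, -, hi⟩ := (Nat.dvd_prime_pow hp).mp (orderOf_dvd_of_pow_eq_one h1)
    have h2 := orderOf_dvd_natCard u
    rw [hi, hG] at h2
    exact orderOf_dvd_iff_pow_eq_one.mp (hi ▸ (((hp.coprime_iff_not_dvd).2 hg').pow_left i).dvd_of_dvd_mul_right h2)
  have hsum : Nat.card {x : G // x ^ (p ^ b * m) = c} = ∑ v ∈ V, M v := by
    rw [Nat.card_eq_fintype_card, Fintype.card_subtype,
      Finset.card_eq_sum_card_fiberwise (f := fun x => x ^ f) (t := V)]
    · refine Finset.sum_congr rfl fun v hv => ?_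
      simp only [V, Finset.mem_filter, Finset.mem_univ, true_and] at hv
      simp only [M, Nat.card_eq_fintype_card, Fintype.card_subtype]
      refine Finset.card_bij (fun x _ => x ^ e) (fun x hx => ?_) (fun x hx y hy h => ?_) (fun u hu => ?_)
      · simp only [Finset.mem_filter, Finset.mem_univ, true_and] at hx ⊢
        refine ⟨hx.2 ▸ (Commute.refl x).pow_pow e f, ?_⟩
        have h1 : (x ^ e) ^ (p ^ b * m) = c ^ e := by rw [← hx.1, ← pow_mul, ← pow_mul, mul_comm]
        rw [he', ← h1, ← pow_mul (x ^ e) (p ^ b * m), mul_assoc, pow_mul (x ^ e)]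
        refine ((pow_one _).symm.trans (pow_eq_pow_of_modEq hm'.symm ?_))
        rw [← pow_mul, mul_comm, pow_mul, hue, one_pow]
      · simp only [Finset.mem_filter, Finset.mem_univ, true_and] at hx hy
        rw [← hef x, ← hef y, h, hx.2, hy.2]
      · simp only [Finset.mem_filter, Finset.mem_univ, true_and] at hu
        have hu1 := hup u hu.2
        have hx1 : (u * v) ^ e = u := by
          obtain ⟨q, hq⟩ := Nat.modEq_zero_iff_dvd.1 he₂
          rw [hu.1.mul_pow, show v ^ e = 1 by rw [hq, pow_mul, hv.1, one_pow], mul_one]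
          exact (pow_eq_pow_of_modEq he₁ hu1).trans (pow_one u)
        have hx2 : (u * v) ^ f = v := by
          obtain ⟨q, hq⟩ := Nat.modEq_zero_iff_dvd.1 hf₁
          rw [hu.1.mul_pow, show u ^ f = 1 by rw [hq, pow_mul, hu1, one_pow], one_mul]
          exact (pow_eq_pow_of_modEq hf₂ hv.1).trans (pow_one v)
        refine ⟨u * v, Finset.mem_filter.mpr ⟨Finset.mem_filter.mpr ⟨Finset.mem_univ _, ?_⟩, hx2⟩, hx1⟩
        rw [hu.1.mul_pow, hv.2, pow_mul u, hu.2, he', ← pow_mul, mul_comm m' m,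
          (pow_eq_pow_of_modEq hm' (hue c)).trans (pow_one _), hef]
    · intro x hx
      simp only [Finset.coe_filter, Finset.mem_univ, true_and, Set.mem_ofPred_eq, Set.mem_setOf_eq] at hx
      simp only [V, Finset.coe_filter, Finset.mem_univ, true_and, Set.mem_setOf_eq]
      exact ⟨hvf x, by rw [← hx, ← pow_mul, ← pow_mul, mul_comm]⟩
  rw [hsum, ← Finset.sum_fiberwise_of_maps_to (g := ConjClasses.mk) (t := V.image ConjClasses.mk)
    (fun v hv => Finset.mem_image_of_mem _ hv)]
  refine Finset.dvd_sum fun K hK => ?_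
  obtain ⟨v, hv, rfl⟩ := Finset.mem_image.mp hK
  simp only [V, Finset.mem_filter, Finset.mem_univ, true_and] at hv
  have hconst : ∀ y ∈ V.filter (fun y => ConjClasses.mk y = ConjClasses.mk v), M y = M v := by
    intro y hy
    obtain ⟨g, hgy⟩ := isConj_iff.1 (ConjClasses.mk_eq_mk_iff_isConj.1 (Finset.mem_filter.1 hy).2).symm
    subst hgy
    refine (Nat.card_congr ((MulAut.conj g).toEquiv.subtypeEquiv fun u => and_congr ?_ ?_)).symm
    · exact ⟨fun h => h.map (MulAut.conj g).toMonoidHom, fun h => by simpa [mul_assoc] using h.map (MulAut.conj g).symm.toMonoidHom⟩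
    · show _ ↔ (g * u * g⁻¹) ^ p ^ b = e'
      rw [conj_pow]
      have h1 : g * e' * g⁻¹ = e' := by
        rw [← (((hc g).pow_left e).pow_left m').eq, mul_inv_cancel_right]
      exact ⟨fun h => by rw [h, h1], fun h => mul_left_cancel (mul_right_cancel (h.trans h1.symm))⟩
  rw [Finset.sum_congr rfl hconst, Finset.sum_const, smul_eq_mul]
  have hfib : (V.filter fun y => ConjClasses.mk y = ConjClasses.mk v).card =
      (Subgroup.centralizer ({v} : Set G)).index := by
    rw [← Cfsg.Lib.Solv.FrobDiv.card_conj_fibre v, Nat.card_eq_fintype_card, Fintype.card_subtype]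
    congr 1
    ext y
    simp only [V, Finset.mem_filter, Finset.mem_univ, true_and, ConjClasses.mk_eq_mk_iff_isConj]
    refine ⟨fun h => h.2.symm, fun h => ⟨?_, h.symm⟩⟩
    obtain ⟨g, rfl⟩ := isConj_iff.1 h
    rw [conj_pow, conj_pow, hv.1, hv.2]
    exact ⟨by group, by rw [← (((hc g).pow_left f)).eq, mul_inv_cancel_right]⟩
  rw [hfib]
  set C := Subgroup.centralizer ({v} : Set G) with hC
  have hMC : M v = Nat.card {u : C // u ^ p ^ b = ⟨e', Subgroup.mem_centralizer_singleton_iff.mpr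
      (((hc v).pow_left e).pow_left m').eq⟩} := by
    refine Nat.card_congr
      { toFun := fun u => ⟨⟨u.1, Subgroup.mem_centralizer_singleton_iff.mpr u.2.1.eq⟩, Subtype.ext u.2.2⟩
        invFun := fun u => ⟨u.1.1, Subgroup.mem_centralizer_singleton_iff.mp u.1.2, congrArg Subtype.val u.2⟩
        left_inv := fun u => rfl
        right_inv := fun u => rfl }
  obtain ⟨aC, gC, hgC, hCc⟩ := Nat.exists_eq_pow_mul_and_not_dvd (Nat.card_pos (α := C)).ne' p hp.ne_one
  have h1 : p ^ min k aC ∣ M v := by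
    rw [hMC]
    refine prime_case hp ?_ (le_trans (min_le_left _ _) hkb) ⟨a, Subtype.ext ?_⟩
    · rw [hCc]; exact dvd_mul_of_dvd_left (pow_dvd_pow p (min_le_right _ _)) _
    · show e' ^ p ^ a = 1
      rw [he', ← pow_mul, mul_comm, pow_mul, hue, one_pow]
  rcases Nat.le_or_ge k aC with h | h
  · rw [min_eq_left h] at h1
    exact dvd_mul_of_dvd_right h1 _
  · rw [min_eq_right h] at h1
    refine Dvd.dvd.trans ?_ (mul_dvd_mul_left _ h1)
    have h2 : p ^ k ∣ C.index * p ^ aC * gC := by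
      rw [mul_assoc, ← hCc, C.index_mul_card]; exact hk
    exact (((hp.coprime_iff_not_dvd).2 hgC).pow_left k).dvd_of_dvd_mul_right h2

theorem roots_dvd {c : G} (hc : ∀ g, Commute c g) (n : ℕ) :
    Nat.gcd n (Nat.card G) ∣ Nat.card {x : G // x ^ n = c} := by
  rw [Nat.dvd_iff_prime_pow_dvd_dvd]
  exact fun p k hp h => central_case hp (h.trans (Nat.gcd_dvd_left _ _)) (h.trans (Nat.gcd_dvd_right _ _)) hc

/-- Let `G` be a finite group of order `g`, `c` an element whose conjugacy class has `h` elements, and `n` a natural number. Then the number of elements `x` of `G` with `x^n` conjugate to `c` is a multiple of `gcd(hn, g)`. -/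
theorem result {G : Type*} [Group G] [Finite G] (c : G) (n : ℕ) : Nat.gcd (Nat.card {y : G // IsConj c y} * n) (Nat.card G) ∣ Nat.card {x : G // IsConj c (x ^ n)} := by
  haveI := Fintype.ofFinite G
  set C := Subgroup.centralizer ({c} : Set G) with hC
  have h1 : Nat.card {x : G // IsConj c (x ^ n)} =
      Nat.card {y : G // IsConj c y} * Nat.card {x : G // x ^ n = c} := by
    rw [Nat.card_eq_fintype_card (α := {x : G // IsConj c (x ^ n)}), Fintype.card_subtype,
      Finset.card_eq_sum_card_fiberwise (f := fun x => x ^ n) (t := Finset.univ.filter (IsConj c))]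
    · rw [Finset.sum_congr rfl (g := fun _ => Nat.card {x : G // x ^ n = c}) (fun y hy => ?_), Finset.sum_const,
        smul_eq_mul, Nat.card_eq_fintype_card (α := {y : G // IsConj c y}), Fintype.card_subtype]
      obtain ⟨g, hg⟩ := isConj_iff.mp (Finset.mem_filter.mp hy).2
      subst hg
      rw [← Nat.card_eq_finsetCard]
      refine (Nat.card_congr ((MulAut.conj g).toEquiv.subtypeEquiv fun x => ?_)).symm
      simp only [Finset.mem_filter, Finset.mem_univ, true_and]
      show _ ↔ IsConj c ((g * x * g⁻¹) ^ n) ∧ (g * x * g⁻¹) ^ n = g * c * g⁻¹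
      rw [conj_pow]
      exact ⟨fun h => ⟨isConj_iff.mpr ⟨g, by rw [h]⟩, by rw [h]⟩, fun h => mul_left_cancel (mul_right_cancel h.2)⟩
    · intro x hx
      simpa using hx
  have h2 : Nat.card {x : G // x ^ n = c} =
      Nat.card {x : C // x ^ n = ⟨c, Subgroup.mem_centralizer_singleton_iff.mpr rfl⟩} :=
    Nat.card_congr
      { toFun := fun x => ⟨⟨x.1, Subgroup.mem_centralizer_singleton_iff.mpr (by
          conv_lhs => arg 2; rw [← x.2]
          conv_rhs => arg 1; rw [← x.2]
          exact ((Commute.refl x.1).pow_right n).eq)⟩, Subtype.ext x.2⟩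
        invFun := fun x => ⟨x.1.1, congrArg Subtype.val x.2⟩
        left_inv := fun x => rfl
        right_inv := fun x => rfl }
  have h3 : Nat.card G = Nat.card {y : G // IsConj c y} * Nat.card C := by
    rw [Cfsg.Lib.Solv.FrobDiv.card_conj_fibre, C.index_mul_card]
  rw [h1, h2, h3, Nat.gcd_mul_left]
  exact mul_dvd_mul_left _ (roots_dvd (fun g => Subtype.ext (Subgroup.mem_centralizer_singleton_iff.mp g.2).symm) n)

end Cfsg.Agent.S4212
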