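import Cfsg.Statements.S4213
import Mathlib
import Cfsg.Agent.Lib.Solv.MinNormal
import Cfsg.Agent.Lib.Solv.FrobeniusDivisibility
-- import your own Cfsg.Agent.* helpers here

set_option autoImplicit false
open Cfsg

namespace Cfsg.Agent.S4213

universe u

/-- The count forces a subgroup of order `n`. -/
theorem exists_sub : ∀ (N0 : ℕ) (G : Type u) [Group G] [Finite G] [Group.IsSolvable G], Nat.card G = N0 →
    ∀ n : ℕ, n ∣ Nat.card G → Nat.card {x : G // x ^ n = 1} = n → ∃ K : Subgroup G, Nat.card K = n := by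
  intro N0
  induction N0 using Nat.strong_induction_on with
  | _ N0 ih =>
    intro G _ _ _ hG n hn hcount
    rcases subsingleton_or_nontrivial G with hss | hnt
    · exact ⟨⊥, by rw [Subgroup.card_bot]; exact (Nat.eq_one_of_dvd_one (by simpa using hn)).symm⟩
    obtain ⟨N, hNn, -, hN1, hmin⟩ := Cfsg.Lib.Solv.exists_minimal_normal_le
      (N := (⊤ : Subgroup G)) top_ne_bot
    obtain ⟨-, q, hq, hqN, hpow⟩ := Cfsg.Lib.Solv.minimal_normal_elementary hN1 inferInstance hmin
    haveI := Fact.mk hq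
    obtain ⟨a, ha⟩ := IsPGroup.iff_card.1 hqN
    set mk := QuotientGroup.mk' N
    have hlt : Nat.card (G ⧸ N) < N0 := by
      rw [← hG, ← N.index_mul_card, ← Subgroup.index_eq_card]
      exact lt_mul_of_one_lt_right (Nat.pos_of_ne_zero N.index_ne_zero_of_finite) (N.one_lt_card_iff_ne_bot.2 hN1)
    have hcardG : Nat.card G = Nat.card (G ⧸ N) * Nat.card N := N.card_eq_card_quotient_mul_card_subgroup
    by_cases hqn : q ∣ n
    · obtain ⟨n', rfl⟩ := hqn
      set d := n'.gcd (Nat.card (G ⧸ N))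
      have hd : d ∣ Nat.card (G ⧸ N) := Nat.gcd_dvd_right _ _
      let f : {x : G // mk x ^ d = 1} → {x : G // x ^ (q * n') = 1} := fun x => ⟨x, by
        have h1 : (x : G) ^ d ∈ N := (QuotientGroup.eq_one_iff _).1 (by
          show mk ((x : G) ^ d) = 1
          rw [map_pow]; exact x.2)
        obtain ⟨t, ht⟩ : d ∣ n' := Nat.gcd_dvd_left _ _
        rw [show q * n' = d * q * t by rw [ht]; ring, pow_mul, pow_mul, hpow _ h1, one_pow]⟩
      have hle : Nat.card {x : G // mk x ^ d = 1} ≤ q * n' :=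
        hcount ▸ Nat.card_le_card_of_injective f fun x y h => Subtype.ext (congrArg (fun z : {x : G // x ^ (q * n') = 1} => (z : G)) h)
      have hpre : Nat.card {x : G // mk x ^ d = 1} = Nat.card N * Nat.card {y : G ⧸ N // y ^ d = 1} := by
        rw [← Nat.card_prod]
        exact Nat.card_congr (QuotientGroup.preimageMkEquivSubgroupProdSet N {y : G ⧸ N | y ^ d = 1})
      have hcd : d ≤ Nat.card {y : G ⧸ N // y ^ d = 1} :=
        Nat.le_of_dvd (Nat.card_pos_iff.2 ⟨⟨⟨1, one_pow d⟩⟩, inferInstance⟩) (Cfsg.Lib.Solv.FrobDiv.frobenius_dvd d hd)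
      have hdvd : q * n' ∣ Nat.card N * d := by
        rw [← Nat.gcd_mul_left]
        refine Nat.dvd_gcd (mul_dvd_mul_right ?_ n') (by rw [mul_comm (Nat.card N), ← hcardG]; exact hn)
        rcases Nat.eq_zero_or_pos a with rfl | hapos
        · exact absurd (Subgroup.card_eq_one.1 (by simpa using ha)) hN1
        · rw [ha]; exact dvd_pow_self q hapos.ne'
      have hdpos : 0 < d := Nat.gcd_pos_of_pos_right _ Nat.card_pos
      have heq : q * n' = Nat.card N * d :=
        le_antisymm (Nat.le_of_dvd (Nat.mul_pos Nat.card_pos hdpos) hdvd)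
          ((Nat.mul_le_mul_left _ hcd).trans (hpre ▸ hle))
      have hcd' : Nat.card {y : G ⧸ N // y ^ d = 1} = d := by
        refine le_antisymm ?_ hcd
        rw [hpre, heq] at hle
        exact Nat.le_of_mul_le_mul_left hle Nat.card_pos
      obtain ⟨M, hM⟩ := ih _ hlt (G ⧸ N) rfl d hd hcd'
      refine ⟨M.comap mk, ?_⟩
      rw [heq, ← hM, ← Nat.card_prod]
      exact Nat.card_congr (QuotientGroup.preimageMkEquivSubgroupProdSet N (M : Set (G ⧸ N)))
    · have hcop : n.Coprime q := ((hq.coprime_iff_not_dvd).2 hqn).symm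
      have hnQ : n ∣ Nat.card (G ⧸ N) := (hcop.pow_right a).dvd_of_dvd_mul_right (by rw [← ha, ← hcardG]; exact hn)
      have hlift : ∀ y : {y : G ⧸ N // y ^ n = 1}, ∃ x : {x : G // x ^ n = 1}, mk x = y := by
        rintro ⟨y, hy⟩
        obtain ⟨x, rfl⟩ := QuotientGroup.mk'_surjective N y
        have h1 : x ^ n ∈ N := (QuotientGroup.eq_one_iff _).1 (by rw [← map_pow] at hy; exact hy)
        obtain ⟨e, he1, he2⟩ := Nat.chineseRemainder hcop 1 0
        obtain ⟨t, ht⟩ := (Nat.modEq_zero_iff_dvd.1 he2)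
        refine ⟨⟨x ^ e, ?_⟩, ?_⟩
        · rw [← pow_mul, show e * n = n * q * t by rw [ht]; ring, pow_mul, pow_mul, hpow _ h1, one_pow]
        · show mk (x ^ e) = mk x
          rw [map_pow, pow_eq_pow_mod e hy, he1, ← pow_eq_pow_mod 1 hy, pow_one]
      choose g hg using hlift
      have hle : Nat.card {y : G ⧸ N // y ^ n = 1} ≤ n :=
        (Nat.card_le_card_of_injective g fun y z h => Subtype.ext (by rw [← hg y, ← hg z, h])).trans hcount.le
      have heq : Nat.card {y : G ⧸ N // y ^ n = 1} = n := le_antisymm hle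
        (Nat.le_of_dvd (Nat.card_pos_iff.2 ⟨⟨⟨1, one_pow n⟩⟩, inferInstance⟩) (Cfsg.Lib.Solv.FrobDiv.frobenius_dvd n hnQ))
      obtain ⟨M, hM⟩ := ih _ hlt (G ⧸ N) rfl n hnQ heq
      set M' := M.comap mk
      have hNM : N ≤ M' := fun x hx => by
        show mk x ∈ M
        rw [show mk x = 1 from (QuotientGroup.eq_one_iff x).2 hx]; exact M.one_mem
      have hM' : Nat.card M' = Nat.card N * n := by
        rw [← hM, ← Nat.card_prod]
        exact Nat.card_congr (QuotientGroup.preimageMkEquivSubgroupProdSet N (M : Set (G ⧸ N)))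
      have hc1 : Nat.card (N.subgroupOf M') = Nat.card N := Nat.card_congr (Subgroup.subgroupOfEquivOfLe hNM).toEquiv
      have hi : (N.subgroupOf M').index = n := by
        have h := (N.subgroupOf M').index_mul_card
        rw [hc1, hM', mul_comm (Nat.card N)] at h
        exact Nat.eq_of_mul_eq_mul_right Nat.card_pos h
      haveI : (N.subgroupOf M').Normal := hNn.subgroupOf M'
      obtain ⟨H, hH⟩ := Subgroup.exists_right_complement'_of_coprime (N := N.subgroupOf M')
        (by rw [hc1, hi, ha]; exact (hcop.pow_right a).symm)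
      refine ⟨H.map M'.subtype, ?_⟩
      rw [Subgroup.card_map_of_injective M'.subtype_injective]
      have h := hH.card_mul
      rw [hc1, hM'] at h
      exact Nat.eq_of_mul_eq_mul_left Nat.card_pos h

/-- If `G` is a finite solvable group and `n` divides the order of `G` and exactly `n` elements `x` of `G` satisfy `x^n = 1`, then these elements form a normal subgroup. -/
theorem result {G : Type*} [Group G] [Finite G] [Group.IsSolvable G] (n : ℕ) (hn : n ∣ Nat.card G) (hcount : Nat.card {x : G // x ^ n = 1} = n) : ∃ H : Subgroup G, H.Normal ∧ (H : Set G) = {x : G | x ^ n = 1} := by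
  obtain ⟨K, hK⟩ := exists_sub _ G rfl n hn hcount
  have hKS : (K : Set G) = {x : G | x ^ n = 1} := by
    refine Set.eq_of_subset_of_ncard_le (fun x hx => ?_) ?_ (Set.toFinite _)
    · show x ^ n = 1
      rw [← hK]
      exact congrArg Subtype.val (pow_card_eq_one' (x := (⟨x, hx⟩ : K)))
    · rw [← Nat.card_coe_set_eq, ← Nat.card_coe_set_eq]
      exact (hcount.trans hK.symm).le
  refine ⟨K, ⟨fun x hx g => ?_⟩, hKS⟩
  have h1 : x ∈ {x : G | x ^ n = 1} := hKS ▸ hx
  rw [← SetLike.mem_coe, hKS]
  show (g * x * g⁻¹) ^ n = 1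
  rw [conj_pow, show x ^ n = 1 from h1, mul_one, mul_inv_cancel]

end Cfsg.Agent.S4213
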