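import Cfsg.Statements.S4214
import Mathlib
import Cfsg.Agent.Lib.Solv.Coprime2
import Cfsg.Agent.Lib.Solv.Coprime3
import Cfsg.Agent.Lib.Solv.MinNormal
import Cfsg.Agent.Lib.Solv.Hall
import Cfsg.Agent.Lib.Transfer.Action
-- import your own Cfsg.Agent.* helpers here

set_option autoImplicit false
open Cfsg
open scoped commutatorElement

namespace Cfsg.Agent.S4214

open Subgroup
open scoped Pointwise

universe u

/-- The condition on one factor. -/
def Good (G : Type u) [Group G] (m x : ℕ) : Prop :=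
  (∃ q e : ℕ, q.Prime ∧ x = q ^ e) ∧ (∃ K L : Subgroup G, K.Normal ∧ L.Normal ∧ K < L ∧
    (∀ M : Subgroup G, M.Normal → K ≤ M → M ≤ L → M = K ∨ M = L) ∧ x ∣ K.relIndex L) ∧
    (∃ q : ℕ, q.Prime ∧ q ∣ m ∧ x ≡ 1 [MOD q])

theorem normalizes_inf_centralizer {G : Type u} [Group G] {H V R : Subgroup G}
    (hV : H ≤ normalizer (V : Set G)) (hR : H ≤ normalizer (R : Set G)) :
    H ≤ normalizer ((V ⊓ centralizer (R : Set G) : Subgroup G) : Set G) :=
  (le_inf hV (hR.trans (Cfsg.Lib.Solv.normalizer_le_normalizer_centralizer R))).trans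
    (inf_normalizer_le_normalizer_inf)

theorem card_mul_of_abelian {G : Type u} [Group G] [Finite G] (N W C : Subgroup G)
    [IsMulCommutative N] (hd : W ⊓ C = ⊥) (hs : W ⊔ C = N) :
    Nat.card W * Nat.card C = Nat.card N := by
  subst hs
  have hc : ∀ (w : W) (c : C), Commute (W.subtype w) (C.subtype c) := fun w c =>
    congrArg Subtype.val (IsMulCommutative.is_comm.comm
      (⟨w, mem_sup_left w.2⟩ : (W ⊔ C : Subgroup G)) ⟨c, mem_sup_right c.2⟩)
  let f : W × C →* G := MonoidHom.noncommCoprod W.subtype C.subtype hc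
  have hinj : Function.Injective f := by
    rw [injective_iff_map_eq_one]
    rintro ⟨w, c⟩ he
    have he' : (w : G) * c = 1 := he
    have hw : (w : G) ∈ W ⊓ C := ⟨w.2, by rw [eq_inv_of_mul_eq_one_left he']; exact C.inv_mem c.2⟩
    rw [hd, mem_bot] at hw
    rw [hw, one_mul] at he'
    exact Prod.ext (Subtype.ext hw) (Subtype.ext he')
  have hr : f.range = W ⊔ C := by
    rw [show f.range = W.subtype.range ⊔ C.subtype.range from MonoidHom.noncommCoprod_range _ _ _,
      range_subtype, range_subtype]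
  rw [← hr, ← Nat.card_prod]
  exact Nat.card_congr (MonoidHom.ofInjective hinj).toEquiv

/-- A fixed point free coprime module splits into pieces of size `1` modulo primes. -/
theorem split_module {G : Type u} [Group G] [Finite G] (H : Subgroup G) (hHs : Group.IsSolvable H)
    {q : ℕ} [Fact q.Prime] : ∀ (n : ℕ) (V : Subgroup G), Nat.card V ≤ n → IsMulCommutative V →
      IsPGroup q V → H ≤ normalizer (V : Set G) → (Nat.card H).Coprime (Nat.card V) →
      V ⊓ centralizer (H : Set G) = ⊥ →
      ∃ s : List ℕ, s.prod = Nat.card V ∧ ∀ x ∈ s, x ∣ Nat.card V ∧ (∃ e, x = q ^ e) ∧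
        ∃ r : ℕ, r.Prime ∧ r ∣ Nat.card H ∧ x ≡ 1 [MOD r] := by
  intro n
  induction n with
  | zero => intro V h; exact absurd Nat.card_pos (Nat.not_lt.2 h)
  | succ n ih =>
    intro V hn hVc hVq hHV hcop hfix
    by_cases hV : V = ⊥
    · exact ⟨[], by simp [hV], by simp⟩
    have hne : ¬ H ≤ centralizer (V : Set G) := fun h => hV (by
      rwa [inf_eq_left.2 (le_centralizer_iff.1 h)] at hfix)
    obtain ⟨R, hR⟩ := (Set.toFinite {R : Subgroup G | R ≤ H ∧ H ≤ normalizer (R : Set G) ∧
      ¬ R ≤ centralizer (V : Set G)}).exists_minimal ⟨H, le_rfl, le_normalizer, hne⟩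
    obtain ⟨hRH, hHR, hRne⟩ := hR.1
    have hmin : ∀ S : Subgroup G, S ≤ R → H ≤ normalizer (S : Set G) →
        ¬ S ≤ centralizer (V : Set G) → R ≤ S :=
      fun S hS hn hne => hR.2 ⟨hS.trans hRH, hn, hne⟩ hS
    have hRs : Group.IsSolvable R := Cfsg.Lib.Solv.solvable_of_le hRH hHs
    have hR1 : R ≠ ⊥ := fun e => hRne (e ▸ bot_le)
    have hcomm : ⁅R, R⁆ ≤ centralizer (V : Set G) := by
      by_contra hc
      refine (Cfsg.Lib.Solv.commutator_self_ne_of_solvable hR1 hRs).not_ge
        (hmin _ (Subgroup.commutator_le_self R) ?_ hc)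
      intro h hh
      rw [← Cfsg.Lib.Solv.conj_smul_eq_self_iff, Cfsg.Lib.Solv.conj_smul_commutator,
        Cfsg.Lib.Solv.conj_smul_eq_self_iff.2 (hHR hh)]
    obtain ⟨r, hrP, P, hPne⟩ : ∃ r : ℕ, ∃ _ : Fact r.Prime, ∃ P : Sylow r R,
        ¬ (P : Subgroup R).map R.subtype ≤ centralizer (V : Set G) := by
      by_contra hcon
      push Not at hcon
      refine hRne ?_
      have hdvd : Nat.card R ∣ Nat.card (R ⊓ centralizer (V : Set G) : Subgroup G) := by
        rw [Nat.dvd_iff_prime_pow_dvd_dvd]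
        intro r k hr hd
        obtain ⟨P⟩ := (inferInstance : Nonempty (Sylow r R))
        haveI := Fact.mk hr
        refine dvd_trans ?_ (Subgroup.card_dvd_of_le
          (le_inf (Subgroup.map_subtype_le (P : Subgroup R)) (hcon r ⟨hr⟩ P)))
        rw [Nat.card_congr ((P : Subgroup R).equivMapOfInjective R.subtype
          R.subtype_injective).toEquiv.symm]
        exact P.pow_dvd_card_of_pow_dvd_card hd
      exact (Subgroup.eq_of_le_of_card_ge inf_le_left (Nat.le_of_dvd Nat.card_pos hdvd)).ge.trans inf_le_right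
    haveI := hrP
    set P' := (P : Subgroup R).map R.subtype
    have hP'R : P' ≤ R := Subgroup.map_subtype_le _
    set M := P' ⊔ (R ⊓ centralizer (V : Set G))
    have hMR : M ≤ R := sup_le hP'R inf_le_left
    have hRM : R ≤ normalizer (M : Set G) := by
      intro x hx
      rw [← Cfsg.Lib.Solv.conj_smul_eq_self_iff]
      have key : ∀ x ∈ R, MulAut.conj x • M ≤ M := by
        intro x hx y hy
        rw [Cfsg.Lib.Solv.mem_conj_smul] at hy
        have hyR := hMR hy
        have e : y = ⁅x, x⁻¹ * y * x⁆ * (x⁻¹ * y * x) := by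
          simp only [commutatorElement_def]; group
        rw [e]
        refine M.mul_mem (mem_sup_right ⟨?_, hcomm (commutator_mem_commutator hx hyR)⟩) hy
        exact Subgroup.commutator_le_self R (commutator_mem_commutator hx hyR)
      refine le_antisymm (key x hx) fun y hy => ?_
      rw [Cfsg.Lib.Solv.mem_conj_smul]
      have := key x⁻¹ (inv_mem hx) (show x⁻¹ * y * x⁻¹⁻¹ ∈ MulAut.conj x⁻¹ • M by
        rw [Cfsg.Lib.Solv.mem_conj_smul]; simpa [mul_assoc] using hy)
      simpa using this
    have hMeq : R ≤ M := by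
      refine hmin M hMR ?_ fun hle => hPne (le_sup_left.trans hle)
      intro h hh
      rw [← Cfsg.Lib.Solv.conj_smul_eq_self_iff]
      refine Subgroup.eq_of_le_of_card_ge ?_ (by rw [Cfsg.Lib.Solv.card_conj_smul])
      rw [Subgroup.smul_sup]
      refine sup_le ?_ ?_
      · -- the conjugate Sylow lies in the normal subgroup `M`
        have hle : MulAut.conj h • P' ≤ R :=
          (smul_le_smul_left _ hP'R).trans (Cfsg.Lib.Solv.conj_smul_eq_self_iff.2 (hHR hh)).le
        obtain ⟨P2, hP2⟩ := Cfsg.Lib.Solv.exists_sylow_map_eq hle P (by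
          rw [Cfsg.Lib.Solv.card_conj_smul]
          exact Nat.card_congr ((P : Subgroup R).equivMapOfInjective R.subtype R.subtype_injective).toEquiv.symm)
        obtain ⟨k, hk, hkk⟩ := Cfsg.Lib.Solv.sylow_conj_eq P P2
        rw [← hP2, ← hkk]
        exact (smul_le_smul_left _ le_sup_left).trans (Cfsg.Lib.Solv.conj_smul_eq_self_iff.2 (hRM hk)).le
      · refine le_trans ?_ le_sup_right
        rw [Subgroup.smul_inf, Cfsg.Lib.Solv.conj_smul_eq_self_iff.2 (hHR hh)]
        exact inf_le_inf_left _ (Cfsg.Lib.Solv.conj_smul_eq_self_iff.2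
          (Cfsg.Lib.Solv.normalizer_le_normalizer_centralizer V (hHV hh))).le
    have hcen : V ⊓ centralizer (P' : Set G) = V ⊓ centralizer (R : Set G) := by
      refine le_antisymm (le_inf inf_le_left ?_) (inf_le_inf_left _ (centralizer_le hP'R))
      rw [le_centralizer_iff]
      refine hMeq.trans (sup_le ?_ ?_)
      · rw [le_centralizer_iff]; exact inf_le_right
      · exact inf_le_right.trans (centralizer_le inf_le_left)
    haveI := hVc
    have hRV : R ≤ normalizer (V : Set G) := hRH.trans hHV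
    have hcopR : (Nat.card R).Coprime (Nat.card V) :=
      Nat.Coprime.coprime_dvd_left (card_dvd_of_le hRH) hcop
    obtain ⟨hd, hs⟩ := Cfsg.Lib.Solv.coprime_abelian_decomposition R V hRV hcopR
    set W := ⁅V, R⁆
    set C := V ⊓ centralizer (R : Set G)
    have hWV : W ≤ V := Cfsg.Lib.Solv.commutator_le_of_normalizes hRV
    have hHW : H ≤ normalizer (W : Set G) := fun h hh => by
      rw [← Cfsg.Lib.Solv.conj_smul_eq_self_iff, Cfsg.Lib.Solv.conj_smul_commutator,
        Cfsg.Lib.Solv.conj_smul_eq_self_iff.2 (hHR hh), Cfsg.Lib.Solv.conj_smul_eq_self_iff.2 (hHV hh)]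
    have hHC : H ≤ normalizer (C : Set G) := normalizes_inf_centralizer hHV hHR
    have hW1 : W ≠ ⊥ := fun e => by
      apply hRne
      rw [le_centralizer_iff]
      exact (Subgroup.commutator_eq_bot_iff_le_centralizer).1 e
    have hWfix : W ⊓ centralizer (P' : Set G) = ⊥ := by
      refine le_bot_iff.1 (le_trans ?_ (le_of_eq hd))
      exact le_inf ((inf_le_inf_right _ hWV).trans hcen.le) inf_le_left
    have hcard : Nat.card V = Nat.card C * Nat.card W := by
      exact (card_mul_of_abelian V C W hd hs).symm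
    have hWmod : Nat.card W ≡ 1 [MOD r] := by
      have h := Cfsg.Lib.Transfer.card_modEq_card_inf_centralizer (p := r) W P'
        (P.isPGroup'.map R.subtype) (fun x hx => hHW (hRH (hP'R hx)))
      rwa [hWfix, Subgroup.card_bot] at h
    have hrH : r ∣ Nat.card H := by
      refine dvd_trans ?_ (card_dvd_of_le (hP'R.trans hRH))
      obtain ⟨a, ha⟩ := IsPGroup.iff_card.1 (P.isPGroup'.map R.subtype)
      rw [ha]
      refine dvd_pow_self _ ?_
      rintro rfl
      exact hPne (by rw [Subgroup.eq_bot_of_card_eq P' (by rw [ha, pow_zero])]; exact bot_le)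
    have hWlt : 1 < Nat.card W := by
      haveI := W.nontrivial_iff_ne_bot.2 hW1
      exact Finite.one_lt_card
    have hClt : Nat.card C ≤ n := by
      have := Nat.mul_lt_mul_of_pos_left hWlt (Nat.card_pos (α := C))
      omega
    obtain ⟨s, hs1, hs2⟩ := ih C hClt
      ⟨⟨fun a b => Subtype.ext (congrArg Subtype.val (hVc.1.comm ⟨a, a.2.1⟩ ⟨b, b.2.1⟩) :)⟩⟩
      (hVq.to_le inf_le_left) hHC (Nat.Coprime.coprime_dvd_right (card_dvd_of_le inf_le_left) hcop)
      (le_bot_iff.1 ((inf_le_inf_right _ inf_le_left).trans (le_of_eq hfix)))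
    refine ⟨Nat.card W :: s, by rw [List.prod_cons, hs1, hcard, mul_comm], ?_⟩
    intro x hx
    rcases List.mem_cons.1 hx with rfl | hx
    · obtain ⟨e, he⟩ := IsPGroup.iff_card.1 (hVq.to_le hWV)
      exact ⟨card_dvd_of_le hWV, ⟨e, he⟩, r, hrP.out, hrH, hWmod⟩
    · obtain ⟨h1, h2, h3⟩ := hs2 x hx
      exact ⟨h1.trans (card_dvd_of_le inf_le_left), h2, h3⟩

theorem good_comap {G Q : Type u} [Group G] [Group Q] (f : G →* Q) (hf : Function.Surjective f)
    {m m' x : ℕ} (hm : m' ∣ m) (h : Good Q m' x) : Good G m x := by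
  obtain ⟨h1, ⟨K, L, hK, hL, hlt, hchief, hx⟩, r, hr, hrm, hmod⟩ := h
  refine ⟨h1, ⟨K.comap f, L.comap f, hK.comap f, hL.comap f,
    (comap_lt_comap_of_surjective hf).2 hlt, fun M hM hKM hML => ?_, ?_⟩, r, hr, hrm.trans hm, hmod⟩
  · have hker : f.ker ≤ M := (ker_le_comap f K).trans hKM
    have e : (M.map f).comap f = M := by rw [comap_map_eq, sup_eq_left.2 hker]
    rcases hchief (M.map f) (hM.map f hf)
      ((map_le_map_iff'.2 (sup_le_sup_right hKM _)) |> fun h => by
        rwa [map_comap_eq_self_of_surjective hf] at h)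
      ((map_le_iff_le_comap).2 hML) with h | h
    · exact Or.inl (by rw [← e, h])
    · exact Or.inr (by rw [← e, h])
  · rwa [relIndex_comap, map_comap_eq_self_of_surjective hf]

theorem conj_eq_iff {G : Type u} [Group G] {a b : G} {H : Subgroup G} :
    MulAut.conj a • H = MulAut.conj b • H ↔ a⁻¹ * b ∈ normalizer (H : Set G) := by
  rw [← Cfsg.Lib.Solv.conj_smul_eq_self_iff, map_mul, mul_smul, map_inv, inv_smul_eq_iff, eq_comm]

theorem normalizes_iff_centralizes {G : Type u} [Group G] {N H : Subgroup G} [N.Normal] {v : G}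
    (hv : v ∈ N) (hd : H ⊓ N = ⊥) :
    v ∈ normalizer (H : Set G) ↔ v ∈ N ⊓ centralizer (H : Set G) :=
  ⟨fun h => ⟨hv, Cfsg.Lib.Solv.centralizes_of_normalizes
      (by rw [normalizer_eq_top]; exact le_top) hd hv h⟩,
    fun h => centralizer_le_normalizer _ h.2⟩

theorem fibre_count {G : Type u} [Group G] [Finite G] (N : Subgroup G) {T : Type*} (φ : N → T)
    (hφ : Function.Surjective φ) (C1 C0 : Subgroup G)
    (h : ∀ a b : N, φ a = φ b ↔ a⁻¹ * b ∈ C1.subgroupOf N)
    (hc : C1 ≤ N ∧ Nat.card C1 = Nat.card C0) : Nat.card T * Nat.card C0 = Nat.card N := by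
  let e : N ⧸ C1.subgroupOf N → T := Quotient.lift φ fun a b hab =>
    (h a b).2 (QuotientGroup.leftRel_apply.1 hab)
  have he : Function.Bijective e := by
    refine ⟨fun x y => ?_, fun t => ?_⟩
    · induction x using QuotientGroup.induction_on
      induction y using QuotientGroup.induction_on
      intro hxy
      exact QuotientGroup.eq.2 ((h _ _).1 hxy)
    · obtain ⟨a, rfl⟩ := hφ t
      exact ⟨QuotientGroup.mk a, rfl⟩
  rw [← Nat.card_congr (Equiv.ofBijective e he), ← index_eq_card, ← hc.2,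
    ← Nat.card_congr (subgroupOfEquivOfLe hc.1).toEquiv, mul_comm, card_mul_index]

theorem centralizer_card_eq (G : Type u) [Group G] [Finite G] [Group.IsSolvable G] (m n : ℕ)
    (hG : Nat.card G = m * n) (hmn : m.Coprime n) (H0 H1 : Subgroup G) (h0 : Nat.card H0 = m)
    (h1 : Nat.card H1 = m) (N : Subgroup G) [N.Normal] :
    N ⊓ centralizer (H1 : Set G) ≤ N ∧
      Nat.card (N ⊓ centralizer (H1 : Set G) : Subgroup G) =
        Nat.card (N ⊓ centralizer (H0 : Set G) : Subgroup G) := by
  refine ⟨inf_le_left, ?_⟩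
  obtain ⟨g, rfl⟩ := Cfsg.Lib.Solv.hall_conj (Cfsg.Lib.Solv.isPiHall_of_card hG hmn h0)
    (Cfsg.Lib.Solv.isPiHall_of_card hG hmn h1)
  have key : ∀ (g : G) (H : Subgroup G), MulAut.conj g • (N ⊓ centralizer (H : Set G)) ≤
      N ⊓ centralizer ((MulAut.conj g • H : Subgroup G) : Set G) := fun g H => by
    rw [Subgroup.smul_inf, Cfsg.Lib.Solv.conj_smul_eq_self_iff.2 (by rw [normalizer_eq_top]; trivial)]
    exact inf_le_inf_left _ (Cfsg.Lib.Solv.conj_smul_centralizer_le g H)
  have e1 := Subgroup.card_le_of_le (key g H0)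
  rw [Cfsg.Lib.Solv.card_conj_smul] at e1
  have e2 := Subgroup.card_le_of_le (key g⁻¹ (MulAut.conj g • H0))
  rw [Cfsg.Lib.Solv.card_conj_smul, map_inv, inv_smul_smul] at e2
  omega

theorem count_aux : ∀ (k : ℕ) (G : Type u) [Group G] [Finite G], Nat.card G ≤ k →
    Group.IsSolvable G → ∀ m n : ℕ, Nat.card G = m * n → m.Coprime n →
    ∃ s : List ℕ, Nat.card {H : Subgroup G // Nat.card H = m} = s.prod ∧ ∀ x ∈ s, Good G m x := by
  intro k
  induction k with
  | zero => intro G _ _ h; exact absurd Nat.card_pos (Nat.not_lt.2 h)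
  | succ k ih =>
    intro G _ _ hk hs m n hG hmn
    rcases subsingleton_or_nontrivial G with hsub | hnt
    · refine ⟨[], ?_, by simp⟩
      have h1 : m = 1 := by
        have : Nat.card G = 1 := Nat.card_of_subsingleton (1 : G)
        exact Nat.eq_one_of_mul_eq_one_right (by rw [← hG, this])
      rw [List.prod_nil, Nat.card_eq_one_iff_unique]
      refine ⟨⟨fun a b => Subtype.ext ?_⟩, ⟨⟨⊥, by rw [card_bot, h1]⟩⟩⟩
      exact Subgroup.ext fun x => by simp [Subsingleton.elim x 1]
    obtain ⟨N, hN, -, hN1, hmin⟩ := Cfsg.Lib.Solv.exists_minimal_normal_le (N := (⊤ : Subgroup G))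
      bot_lt_top.ne'
    haveI := hN
    obtain ⟨hNc, q, hq, hNq, -⟩ := Cfsg.Lib.Solv.minimal_normal_elementary hN1 inferInstance hmin
    haveI := Fact.mk hq
    obtain ⟨e, he⟩ := IsPGroup.iff_card.1 hNq
    have he0 : e ≠ 0 := by
      rintro rfl
      exact hN1 (eq_bot_of_card_eq _ (by rw [he, pow_zero]))
    have hNd : Nat.card N ∣ m * n := hG ▸ card_subgroup_dvd_card N
    have hqmn : q ∣ m ∨ q ∣ n :=
      hq.dvd_mul.1 ((he ▸ dvd_pow_self q he0).trans hNd)
    have hQlt : Nat.card (G ⧸ N) ≤ k := by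
      have h := N.card_mul_index
      rw [index_eq_card] at h
      have h1 : 1 < Nat.card N := by
        haveI := N.nontrivial_iff_ne_bot.2 hN1
        exact Finite.one_lt_card
      have := Nat.mul_lt_mul_of_pos_right h1 (Nat.card_pos (α := G ⧸ N))
      omega
    set f := QuotientGroup.mk' N
    have hf : Function.Surjective f := QuotientGroup.mk'_surjective N
    have hker : f.ker = N := QuotientGroup.ker_mk' N
    have hcardQ : Nat.card N * Nat.card (G ⧸ N) = Nat.card G := by
      rw [← index_eq_card, card_mul_index]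
    have hcomapcard : ∀ K : Subgroup (G ⧸ N), Nat.card (K.comap f) = Nat.card N * Nat.card K := by
      intro K
      have h1 := (K.comap f).card_mul_index
      rw [index_comap_of_surjective _ hf, ← hcardQ, ← K.card_mul_index, ← mul_assoc] at h1
      exact Nat.eq_of_mul_eq_mul_right (Nat.pos_of_ne_zero K.index_ne_zero_of_finite) h1
    have hmemπ : ∀ {H : Subgroup G}, Nat.card H = m → Cfsg.IsPiHall {p : ℕ | p ∣ m} H :=
      fun h => Cfsg.Lib.Solv.isPiHall_of_card hG hmn h
    rcases hqmn with hqm | hqn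
    · have hqn : ¬ q ∣ n := fun h => hq.ne_one (Nat.eq_one_of_dvd_coprimes hmn hqm h)
      obtain ⟨m', hm'⟩ : Nat.card N ∣ m := by
        refine Nat.Coprime.dvd_of_dvd_mul_right ?_ hNd
        rw [he]; exact (hq.coprime_iff_not_dvd.2 hqn).pow_left e
      have hGQ : Nat.card (G ⧸ N) = m' * n := by
        refine Nat.eq_of_mul_eq_mul_left (Nat.card_pos (α := N)) ?_
        rw [hcardQ, hG, hm', mul_assoc]
      obtain ⟨s, hs1, hs2⟩ := ih (G ⧸ N) hQlt inferInstance m' n hGQ
        (Nat.Coprime.coprime_dvd_left ⟨_, by rw [hm', mul_comm]⟩ hmn)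
      have hle : ∀ H : Subgroup G, Nat.card H = m → N ≤ H := by
        intro H hH
        obtain ⟨g, hg⟩ := Cfsg.Lib.Solv.hall_le_conj (hmemπ hH) (U := N) (fun p hp hd => by
          rw [he] at hd
          exact ((Nat.prime_dvd_prime_iff_eq hp hq).1 (hp.dvd_of_dvd_pow hd)) ▸ hqm)
        rw [Subgroup.subset_pointwise_smul_iff, ← map_inv] at hg
        rwa [Cfsg.Lib.Solv.conj_smul_eq_self_iff.2 (by rw [normalizer_eq_top]; trivial)] at hg
      refine ⟨s, ?_, fun x hx => good_comap f hf ⟨_, by rw [hm', mul_comm]⟩ (hs2 x hx)⟩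
      rw [← hs1]
      have hmap : ∀ H : Subgroup G, Nat.card H = m → (H.map f).comap f = H := fun H hH => by
        rw [comap_map_eq, hker, sup_eq_left.2 (hle H hH)]
      refine Nat.card_congr
        { toFun := fun H => ⟨H.1.map f, by
            have h := hcomapcard (H.1.map f)
            rw [hmap _ H.2, H.2] at h
            exact Nat.eq_of_mul_eq_mul_left Nat.card_pos (h.symm.trans hm')⟩
          invFun := fun K => ⟨K.1.comap f, by rw [hcomapcard, K.2, hm']⟩
          left_inv := fun H => Subtype.ext (hmap _ H.2)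
          right_inv := fun K => Subtype.ext (map_comap_eq_self_of_surjective hf _) }
    · have hqm : ¬ q ∣ m := fun h => hq.ne_one (Nat.eq_one_of_dvd_coprimes hmn h hqn)
      have hcopN : m.Coprime (Nat.card N) := by
        rw [he]; exact ((hq.coprime_iff_not_dvd.2 hqm).symm).pow_right e
      obtain ⟨n', hn'⟩ : Nat.card N ∣ n := hcopN.symm.dvd_of_dvd_mul_left hNd
      have hGQ : Nat.card (G ⧸ N) = m * n' := by
        refine Nat.eq_of_mul_eq_mul_left (Nat.card_pos (α := N)) ?_
        rw [hcardQ, hG, hn']; ring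
      have hmn' : m.Coprime n' := Nat.Coprime.coprime_dvd_right ⟨_, by rw [hn', mul_comm]⟩ hmn
      obtain ⟨s, hs1, hs2⟩ := ih (G ⧸ N) hQlt inferInstance m n' hGQ hmn'
      have hdisj : ∀ H : Subgroup G, Nat.card H = m → H ⊓ N = ⊥ := fun H hH =>
        inf_eq_bot_of_coprime (by rw [hH]; exact hcopN)
      have hmapcard : ∀ H : Subgroup G, Nat.card H = m → Nat.card (H.map f) = m := by
        intro H hH
        have hinj : Function.Injective (f.domRestrict H) := by
          rw [injective_iff_map_eq_one]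
          intro x hx
          have : (x : G) ∈ H ⊓ N := ⟨x.2, (QuotientGroup.eq_one_iff _).1 hx⟩
          rw [hdisj H hH, mem_bot] at this
          exact Subtype.ext this
        rw [← hH, ← MonoidHom.domRestrict_range, ← Nat.card_congr (MonoidHom.ofInjective hinj).toEquiv]
      let π : {H : Subgroup G // Nat.card H = m} → {K : Subgroup (G ⧸ N) // Nat.card K = m} :=
        fun H => ⟨H.1.map f, hmapcard _ H.2⟩
      obtain ⟨H0, hH0⟩ := Cfsg.Lib.Solv.hall_card_exists hG hmn
      set C0 := N ⊓ centralizer (H0 : Set G)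
      have hfibre : ∀ K : {K : Subgroup (G ⧸ N) // Nat.card K = m},
          Nat.card {H // π H = K} * Nat.card C0 = Nat.card N := by
        intro K
        obtain ⟨K0, hK0⟩ := Cfsg.Lib.Solv.hall_card_exists (G := K.1.comap f)
          (m := m) (n := Nat.card N) (by rw [hcomapcard, K.2, mul_comm]) hcopN
        set H1 := K0.map (K.1.comap f).subtype
        have hH1L : H1 ≤ K.1.comap f := map_subtype_le _
        have hH1 : Nat.card H1 = m := by
          rw [← hK0]; exact Nat.card_congr (K0.equivMapOfInjective _ (subtype_injective _)).toEquiv.symm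
        have hH1K : H1.map f = K.1 :=
          eq_of_le_of_card_ge (map_le_iff_le_comap.2 hH1L) (by rw [hmapcard _ hH1, K.2])
        have hconjmap : ∀ v : N, (MulAut.conj (v : G) • H1).map f = H1.map f := fun v => by
          rw [Cfsg.Lib.Solv.map_conj_smul, show f v = 1 from (QuotientGroup.eq_one_iff _).2 v.2,
            map_one, one_smul]
        let φ : N → {H // π H = K} := fun v => ⟨⟨MulAut.conj (v : G) • H1,
          by rw [Cfsg.Lib.Solv.card_conj_smul, hH1]⟩, Subtype.ext ((hconjmap v).trans hH1K)⟩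
        have hφ : Function.Surjective φ := by
          rintro ⟨⟨H, hH⟩, hHK⟩
          have hHK' : H.map f = K.1 := congrArg Subtype.val hHK
          have hLs : Group.IsSolvable (K.1.comap f) := inferInstance
          have hL : ∀ H' : Subgroup G, H' ≤ K.1.comap f → Nat.card H' = m →
              Cfsg.IsPiHallOf {p : ℕ | p ∣ m} H' (K.1.comap f) := fun H' hle' hH' => by
            rw [Cfsg.Lib.Solv.isPiHallOf_iff]
            refine ⟨hle', Cfsg.Lib.Solv.isPiHall_of_card (n := Nat.card N)
              (by rw [hcomapcard, K.2, mul_comm]) hcopN ?_⟩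
            rw [Nat.card_congr (subgroupOfEquivOfLe hle').toEquiv, hH']
          obtain ⟨g, hg, hgH⟩ := Cfsg.Lib.Solv.hallOf_conj hLs (hL H1 hH1L hH1)
            (hL H (map_le_iff_le_comap.1 hHK'.le) hH)
          rw [← hH1K, comap_map_eq, hker, sup_comm] at hg
          obtain ⟨v, hv, h, hh, rfl⟩ := mem_sup_of_normal_left.1 hg
          refine ⟨⟨v, hv⟩, Subtype.ext (Subtype.ext ?_)⟩
          show MulAut.conj v • H1 = H
          rw [← hgH, map_mul, mul_smul, Cfsg.Lib.Solv.conj_smul_eq_self_iff.2 (le_normalizer hh)]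
        set C1 := N ⊓ centralizer (H1 : Set G)
        have hφeq : ∀ a b : N, φ a = φ b ↔ a⁻¹ * b ∈ C1.subgroupOf N := by
          intro a b
          have h1 : φ a = φ b ↔ MulAut.conj (a : G) • H1 = MulAut.conj (b : G) • H1 :=
            ⟨fun h => congrArg (fun x => x.1.1) h, fun h => Subtype.ext (Subtype.ext h)⟩
          rw [h1, conj_eq_iff, mem_subgroupOf, Subgroup.coe_mul, Subgroup.coe_inv]
          exact normalizes_iff_centralizes (mul_mem (inv_mem a.2) b.2) (hdisj H1 hH1)
        exact fibre_count N φ hφ C1 C0 hφeq (centralizer_card_eq G m n hG hmn H0 H1 hH0 hH1 N)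
      obtain ⟨s', hs'1, hs'2⟩ := split_module H0 inferInstance (q := q) _ ⁅N, H0⁆ le_rfl
        ⟨⟨fun a b => Subtype.ext (congrArg Subtype.val
          (hNc.1.comm ⟨a, Subgroup.commutator_le_left N H0 a.2⟩ ⟨b, Subgroup.commutator_le_left N H0 b.2⟩) :)⟩⟩
        (hNq.to_le (commutator_le_left N H0))
        (Cfsg.Lib.Solv.le_normalizer_commutator_right N H0)
        (by rw [hH0]; exact Nat.Coprime.coprime_dvd_right (card_dvd_of_le (commutator_le_left N H0)) hcopN)
        (by
          haveI := hNc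
          have hd := (Cfsg.Lib.Solv.coprime_abelian_decomposition H0 N
            (by rw [normalizer_eq_top]; exact le_top) (by rw [hH0]; exact hcopN)).1
          refine le_bot_iff.1 (le_trans ?_ (le_of_eq hd))
          exact le_inf (inf_le_inf_right _ (commutator_le_left N H0)) inf_le_left)
      have hWcard : Nat.card (⁅N, H0⁆ : Subgroup G) * Nat.card C0 = Nat.card N := by
        haveI := hNc
        obtain ⟨hd, hs⟩ := Cfsg.Lib.Solv.coprime_abelian_decomposition H0 N
          (by rw [normalizer_eq_top]; exact le_top) (by rw [hH0]; exact hcopN)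
        exact card_mul_of_abelian N _ _ (by rw [inf_comm]; exact hd) (by rw [sup_comm]; exact hs)
      refine ⟨s ++ s', ?_, fun x hx => ?_⟩
      · rw [List.prod_append, hs'1, ← hs1]
        haveI : Fintype {K : Subgroup (G ⧸ N) // Nat.card K = m} := Fintype.ofFinite _
        rw [← Nat.card_congr (Equiv.sigmaFiberEquiv π), Nat.card_sigma]
        rw [Finset.sum_congr rfl (fun K _ => show Nat.card {H // π H = K} = Nat.card (⁅N, H0⁆ : Subgroup G) from
          Nat.eq_of_mul_eq_mul_right Nat.card_pos ((hfibre K).trans hWcard.symm))]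
        rw [Finset.sum_const, Finset.card_univ, smul_eq_mul, Nat.card_eq_fintype_card (α := {K : Subgroup (G ⧸ N) // Nat.card K = m})]
      · rcases List.mem_append.1 hx with hx | hx
        · exact good_comap f hf dvd_rfl (hs2 x hx)
        · obtain ⟨h1, ⟨a, ha⟩, r, hr, hrH, hmod⟩ := hs'2 x hx
          refine ⟨⟨q, a, hq, ha⟩, ⟨⊥, N, inferInstance, hN, bot_lt_iff_ne_bot.2 hN1,
            fun M hM _ hMN => hmin M hM hMN, ?_⟩, r, hr, hH0 ▸ hrH, hmod⟩
          rw [relIndex_bot_left]
          exact h1.trans (card_dvd_of_le (commutator_le_left N H0))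

/-- Let `G` be a finite solvable group of order `mn` with `gcd(m, n) = 1`. Then the number of subgroups of order `m` is a product of natural numbers each of which is a power of a prime, divides the order of some chief factor of `G` (a quotient `L/K` of normal subgroups `K < L` of `G` with no normal subgroup of `G` strictly between them), and is congruent to `1` modulo some prime divisor of `m`. -/
theorem result {G : Type*} [Group G] [Finite G] [Group.IsSolvable G] (m n : ℕ) (hG : Nat.card G = m * n) (hmn : Nat.Coprime m n) : ∃ (k : ℕ) (f : Fin k → ℕ), Nat.card {H : Subgroup G // Nat.card H = m} = ∏ i, f i ∧ ∀ i, (∃ q e : ℕ, q.Prime ∧ f i = q ^ e) ∧ (∃ K L : Subgroup G, K.Normal ∧ L.Normal ∧ K < L ∧ (∀ M : Subgroup G, M.Normal → K ≤ M → M ≤ L → M = K ∨ M = L) ∧ f i ∣ K.relIndex L) ∧ (∃ q : ℕ, q.Prime ∧ q ∣ m ∧ f i ≡ 1 [MOD q]) := by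
  obtain ⟨s, hs, hgood⟩ := count_aux _ G le_rfl ‹_› m n hG hmn
  refine ⟨s.length, s.get, ?_, fun i => hgood _ (List.get_mem s i)⟩
  rw [hs, ← List.prod_ofFn, List.ofFn_get]

end Cfsg.Agent.S4214
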