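import Cfsg.Statements.S4216
import Mathlib
-- import your own Cfsg.Agent.* helpers here

set_option autoImplicit false
open Cfsg
open scoped commutatorElement

namespace Cfsg.Agent.S4216

/-- Grün's first Theorem: if `P` is a Sylow `p`-subgroup of the finite group `G`, then `P ∩ G'` is the subgroup generated by `P ∩ N_G(P)'` together with the subgroups `P ∩ z P' z⁻¹` for all `z ∈ G`, where `'` denotes the derived subgroup and `N_G(P)` the normalizer of `P`. -/
theorem result {G : Type*} [Group G] [Finite G] {p : ℕ} [Fact p.Prime] (P : Sylow p G) : (P : Subgroup G) ⊓ commutator G = ((P : Subgroup G) ⊓ ⁅Subgroup.normalizer ((P : Subgroup G) : Set G), Subgroup.normalizer ((P : Subgroup G) : Set G)⁆) ⊔ ⨆ z : G, (P : Subgroup G) ⊓ (⁅(P : Subgroup G), (P : Subgroup G)⁆).map (MulAut.conj z).toMonoidHom := by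
  classical
  have hp : p.Prime := Fact.out
  set P0 : Subgroup G := (P : Subgroup G) with hP0
  set N := Subgroup.normalizer (P0 : Set G) with hN
  set R : Subgroup G := (P0 ⊓ ⁅N, N⁆) ⊔ ⨆ z : G, P0 ⊓ (⁅P0, P0⁆).map (MulAut.conj z).toMonoidHom with hR
  have hPcomm : ⁅P0, P0⁆ ≤ R := by
    refine le_trans ?_ (le_sup_right.trans' (le_iSup (fun z : G => P0 ⊓ (⁅P0, P0⁆).map (MulAut.conj z).toMonoidHom) 1))
    refine le_inf (Subgroup.commutator_le_self _) ?_
    intro x hx; exact ⟨x, hx, by simp⟩
  have hRG : R ≤ P0 ⊓ commutator G := by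
    refine sup_le (inf_le_inf le_rfl (Subgroup.commutator_mono le_top le_top)) (iSup_le fun z => inf_le_inf le_rfl ?_)
    haveI : (commutator G).Normal := inferInstance
    rw [Subgroup.map_le_iff_le_comap]
    intro x hx
    exact ‹(commutator G).Normal›.conj_mem x (Subgroup.commutator_mono le_top le_top hx) z
  refine le_antisymm ?_ hRG
  haveI hRn : (R.subgroupOf P0).Normal := by
    refine ⟨fun x hx g => ?_⟩
    rw [Subgroup.mem_subgroupOf] at hx ⊢
    push_cast
    have h1 : ⁅(g : G), (x : G)⁆ ∈ R := hPcomm (Subgroup.commutator_mem_commutator g.2 x.2)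
    have h2 := mul_mem h1 hx
    rwa [commutatorElement_def, inv_mul_cancel_right] at h2
  have hcomm : commutator P0 ≤ R.subgroupOf P0 := by
    intro x hx
    have h1 : (x : G) ∈ (commutator P0).map P0.subtype := ⟨x, hx, rfl⟩
    rw [Subgroup.map_subtype_commutator] at h1
    exact hPcomm h1
  letI : CommGroup (P0 ⧸ R.subgroupOf P0) := { (inferInstance : Group (P0 ⧸ R.subgroupOf P0)) with
    mul_comm := (Subgroup.Normal.quotient_commutative_iff_commutator_le.2 hcomm).is_comm.comm }
  let φ : P0 →* P0 ⧸ R.subgroupOf P0 := QuotientGroup.mk' (R.subgroupOf P0)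
  have hφ1 : ∀ x : P0, φ x = 1 ↔ (x : G) ∈ R := fun x =>
    (QuotientGroup.eq_one_iff x).trans Subgroup.mem_subgroupOf
  suffices key : ∀ n : ℕ, ∀ u : G, orderOf u = n → u ∈ P0 → u ∈ commutator G → u ∈ R from
    fun u hu => key _ u rfl hu.1 hu.2
  intro n
  induction n using Nat.strong_induction_on with
  | _ n ih =>
  intro u hun hu huG
  by_cases hu1 : u = 1
  · rw [hu1]; exact one_mem _
  haveI : Fintype (Quotient (MulAction.orbitRel (Subgroup.zpowers u) (G ⧸ P0))) := Fintype.ofFinite _
  haveI : Fintype (G ⧸ P0) := Fintype.ofFinite _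
  have hV : MonoidHom.transfer φ u = 1 := Abelianization.commutator_subset_ker _ huG
  rw [MonoidHom.transfer_eq_prod_quotient_orbitRel_zpowers_quot] at hV
  have hsmall : ∀ y : G, y ∈ P0 → y ∈ commutator G → orderOf y < n → y ∈ R :=
    fun y hy hy' hlt => ih _ hlt y rfl hy hy'
  obtain ⟨k, hk⟩ : ∃ k, orderOf u = p ^ k := by
    obtain ⟨k, hk⟩ := IsPGroup.iff_orderOf.mp P.isPGroup' ⟨u, hu⟩
    exact ⟨k, by rw [← hk, Subgroup.orderOf_mk]⟩
  let gg : G ⧸ P0 → P0 ⧸ R.subgroupOf P0 := fun t =>
    if h : t.out⁻¹ * u * t.out ∈ P0 then φ ⟨_, h⟩ else 1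
  have hfixmem : ∀ t : G ⧸ P0, u • t = t → t.out⁻¹ * u * t.out ∈ P0 := by
    intro t ht
    rw [mul_assoc, ← QuotientGroup.eq, QuotientGroup.out_eq']
    have e : (((u * t.out : G)) : G ⧸ P0) = u • t := by
      conv_rhs => rw [← QuotientGroup.out_eq' t]
      rfl
    rw [e, ht]
  -- only fixed cosets contribute
  set Fu : Finset (G ⧸ P0) := Finset.univ.filter (fun t => u • t = t) with hFu
  have hstep1 : ∏ t ∈ Fu, gg t = 1 := by
    rw [← hV, ← Finset.prod_filter_of_ne (p := fun q : Quotient (MulAction.orbitRel (Subgroup.zpowers u) (G ⧸ P0)) => u • q.out = q.out)]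
    · have hout : ∀ t : G ⧸ P0, u • t = t → (Quotient.mk (MulAction.orbitRel (Subgroup.zpowers u) (G ⧸ P0)) t).out = t := by
        intro t ht
        have h := Quotient.mk_out (s := MulAction.orbitRel (Subgroup.zpowers u) (G ⧸ P0)) t
        rw [MulAction.orbitRel_apply, MulAction.mem_orbit_iff] at h
        obtain ⟨⟨w, j, rfl⟩, hw⟩ := h
        rw [← hw]
        exact (MulAction.mem_stabilizer_iff.mp ((MulAction.stabilizer G t).zpow_mem (MulAction.mem_stabilizer_iff.mpr ht) j))
      refine Finset.prod_bij' (fun t _ => Quotient.mk _ t) (fun q _ => q.out) ?_ ?_ ?_ ?_ ?_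
      · intro t ht
        rw [hFu, Finset.mem_filter] at ht
        rw [Finset.mem_filter]
        refine ⟨Finset.mem_univ _, ?_⟩
        rw [hout t ht.2]
        exact ht.2
      · intro q hq
        rw [Finset.mem_filter] at hq
        rw [hFu, Finset.mem_filter]
        exact ⟨Finset.mem_univ _, hq.2⟩
      · intro t ht
        rw [hFu, Finset.mem_filter] at ht
        exact hout t ht.2
      · intro q _
        exact q.out_eq
      · intro t ht
        rw [hFu, Finset.mem_filter] at ht
        simp only [gg, dif_pos (hfixmem t ht.2)]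
        congr 1
        apply Subtype.ext
        show t.out⁻¹ * u * t.out = _
        simp only [hout t ht.2]
        rw [Function.minimalPeriod_eq_one_iff_isFixedPt.mpr (show Function.IsFixedPt (u • ·) t from ht.2), pow_one]
    · intro q _ hne
      by_contra hq
      apply hne
      set r := Function.minimalPeriod (u • ·) q.out with hr
      have hrdvd : r ∣ p ^ k := by
        rw [← hk, hr]
        refine Function.IsPeriodicPt.minimalPeriod_dvd ?_
        show (u • ·)^[orderOf u] q.out = q.out
        rw [smul_iterate_apply, pow_orderOf_eq_one, one_smul]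
      have hr1 : r ≠ 1 := fun e => hq (Function.minimalPeriod_eq_one_iff_isFixedPt.mp e)
      rw [hφ1]
      have hrpos : 0 < r := Nat.pos_of_dvd_of_pos hrdvd (pow_pos hp.pos k)
      refine hsmall _ (QuotientGroup.out_conj_pow_minimalPeriod_mem P0 u q.out) ?_ ?_
      · have := (inferInstance : (commutator G).Normal).conj_mem _ (pow_mem huG r) (q.out.out)⁻¹
        rwa [inv_inv] at this
      · have e : orderOf (q.out.out⁻¹ * u ^ r * q.out.out) = orderOf (u ^ r) := by
          simpa using (MulAut.conj q.out.out⁻¹).orderOf_eq (u ^ r)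
        show orderOf (q.out.out⁻¹ * u ^ r * q.out.out) < n
        rw [e, orderOf_pow_of_dvd hrpos.ne' (hk ▸ hrdvd), ← hun]
        exact Nat.div_lt_self (orderOf_pos u) (by omega)
  set Fix : Finset (G ⧸ P0) := Finset.univ.filter (fun t => t ∈ MulAction.fixedPoints P0 (G ⧸ P0)) with hFix
  have hsub : Fix ⊆ Fu := by
    intro t ht
    rw [hFix, Finset.mem_filter] at ht
    rw [hFu, Finset.mem_filter]
    exact ⟨Finset.mem_univ _, ht.2 ⟨u, hu⟩⟩
  have hFixprod : ∏ t ∈ Fix, gg t = φ ⟨u, hu⟩ ^ Fix.card := by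
    apply Finset.prod_eq_pow_card
    intro t ht
    have htu : u • t = t := (Finset.mem_filter.mp (hsub ht)).2
    rw [hFix, Finset.mem_filter] at ht
    have hn : t.out ∈ N := by
      rw [hN, ← Sylow.mem_fixedPoints_mul_left_cosets_iff_mem_normalizer, QuotientGroup.out_eq']
      exact ht.2
    simp only [gg, dif_pos (hfixmem t htu)]
    refine QuotientGroup.eq.mpr ?_
    rw [Subgroup.mem_subgroupOf]
    push_cast
    refine Subgroup.mem_sup_left (Subgroup.mem_inf.mpr ⟨mul_mem (inv_mem (hfixmem t htu)) hu, ?_⟩)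
    have := Subgroup.commutator_mem_commutator (inv_mem hn) (inv_mem (Subgroup.le_normalizer hu : u ∈ N))
    rw [commutatorElement_def] at this
    convert this using 1
    group
  have hrest : ∏ t ∈ Fu \ Fix, gg t = 1 := by
    let π : G ⧸ P0 → Quotient (MulAction.orbitRel P0 (G ⧸ P0)) := Quotient.mk _
    haveI : Fintype (Quotient (MulAction.orbitRel P0 (G ⧸ P0))) := Fintype.ofFinite _
    rw [← Finset.prod_fiberwise (Fu \ Fix) π gg]
    refine Finset.prod_eq_one fun O _ => ?_
    set S := (Fu \ Fix).filter (fun t => π t = O) with hS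
    by_cases hSe : S = ∅
    · rw [hSe, Finset.prod_empty]
    obtain ⟨t, ht⟩ := Finset.nonempty_iff_ne_empty.mpr hSe
    have hmem : ∀ s ∈ S, u • s = s ∧ s ∉ MulAction.fixedPoints P0 (G ⧸ P0) ∧ π s = O := by
      intro s hs
      simp only [hS, hFu, hFix, Finset.mem_filter, Finset.mem_sdiff, Finset.mem_univ, true_and] at hs
      exact ⟨hs.1.1, hs.1.2, hs.2⟩
    obtain ⟨htu, htfix, htO⟩ := hmem t ht
    -- all terms of the orbit agree
    have hconst : ∀ s ∈ S, gg s = gg t := by
      intro s hs
      obtain ⟨hsu, -, hsO⟩ := hmem s hs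
      obtain ⟨⟨v, hv⟩, hvt⟩ : ∃ v : P0, v • t = s :=
        MulAction.mem_orbit_iff.mp (MulAction.orbitRel_apply.mp (Quotient.exact (hsO.trans htO.symm)))
      have e : (((v * t.out : G)) : G ⧸ P0) = ((s.out : G) : G ⧸ P0) := by
        rw [QuotientGroup.out_eq', ← hvt]
        conv_rhs => rw [← QuotientGroup.out_eq' t]
        rfl
      obtain ⟨w, hw, hsw⟩ : ∃ w ∈ P0, s.out = v * t.out * w :=
        ⟨(v * t.out)⁻¹ * s.out, QuotientGroup.eq.mp e, by group⟩
      simp only [gg, dif_pos (hfixmem t htu), dif_pos (hfixmem s hsu)]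
      have hmid : t.out⁻¹ * v⁻¹ * u * v * t.out ∈ P0 := by
        have := mul_mem (mul_mem hw (hfixmem s hsu)) (inv_mem hw)
        rw [hsw] at this
        convert this using 1
        group
      have e1 : φ ⟨_, hfixmem s hsu⟩ = φ ⟨_, hmid⟩ := by
        have hs' : (⟨_, hfixmem s hsu⟩ : P0) = (⟨w, hw⟩ : P0)⁻¹ * ⟨_, hmid⟩ * ⟨w, hw⟩ := by
          apply Subtype.ext
          push_cast
          rw [hsw]
          group
        rw [hs', map_mul, map_mul, map_inv, mul_comm, ← mul_assoc, mul_inv_cancel, one_mul]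
      rw [e1]
      refine QuotientGroup.eq.mpr ?_
      rw [Subgroup.mem_subgroupOf]
      push_cast
      refine Subgroup.mem_sup_right (Subgroup.mem_iSup_of_mem t.out⁻¹ (Subgroup.mem_inf.mpr ⟨mul_mem (inv_mem hmid) (hfixmem t htu), ?_⟩))
      refine ⟨⁅v⁻¹, u⁻¹⁆, Subgroup.commutator_mem_commutator (inv_mem hv) (inv_mem hu), ?_⟩
      simp only [commutatorElement_def, MulEquiv.coe_toMonoidHom, MulAut.conj_apply]
      group
    rw [Finset.prod_congr rfl hconst, Finset.prod_const]
    -- `p` divides the number of terms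
    have hcard : p ∣ S.card := by
      set Ob := MulAction.orbit P0 t with hOb
      let U : Subgroup P0 := Subgroup.zpowers ⟨u, hu⟩
      have hmod := (P.isPGroup'.to_subgroup U).card_modEq_card_fixedPoints Ob
      have hbig : p ∣ Nat.card Ob := by
        obtain ⟨i, hi⟩ := P.isPGroup'.card_orbit t
        rcases i with _ | i
        · exfalso
          apply htfix
          rw [pow_zero] at hi
          intro x
          haveI := (Nat.card_eq_one_iff_unique.mp hi).1
          exact congrArg Subtype.val (Subsingleton.elim (⟨x • t, MulAction.mem_orbit t x⟩ : Ob) ⟨t, MulAction.mem_orbit_self t⟩)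
        · exact ⟨p ^ i, by rw [hi, pow_succ']⟩
      have hfp : S.card = Nat.card (MulAction.fixedPoints U Ob) := by
        rw [← Nat.card_eq_finsetCard]
        refine Nat.card_congr ⟨fun s => ⟨⟨s.1, MulAction.orbitRel_apply.mp (Quotient.exact ((hmem s.1 s.2).2.2.trans htO.symm))⟩, ?_⟩,
          fun o => ⟨o.1.1, ?_⟩, fun _ => rfl, fun _ => rfl⟩
        · rintro ⟨x, hx⟩
          obtain ⟨j, rfl⟩ := hx
          apply Subtype.ext
          show ((⟨u, hu⟩ : P0) ^ j) • s.1 = s.1
          exact MulAction.mem_stabilizer_iff.mp ((MulAction.stabilizer P0 s.1).zpow_mem (MulAction.mem_stabilizer_iff.mpr (hmem s.1 s.2).1) j)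
        · have h1 : π o.1.1 = O := (Quotient.sound (MulAction.orbitRel_apply.mpr o.1.2)).trans htO
          have h2 : u • o.1.1 = o.1.1 := congrArg Subtype.val (o.2 ⟨⟨u, hu⟩, Subgroup.mem_zpowers _⟩)
          simp only [hS, hFu, hFix, Finset.mem_filter, Finset.mem_sdiff, Finset.mem_univ, true_and]
          refine ⟨⟨h2, fun h3 => htfix ?_⟩, h1⟩
          obtain ⟨v, hv⟩ := MulAction.mem_orbit_iff.mp o.1.2
          rw [← hv] at h3
          intro x
          have h4 := h3 v⁻¹
          rw [inv_smul_smul] at h4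
          have h5 := h3 (x * v⁻¹)
          rw [← mul_smul, inv_mul_cancel_right, ← h4] at h5
          exact h5
      rw [hfp, ← Nat.modEq_zero_iff_dvd]
      exact hmod.symm.trans (Nat.modEq_zero_iff_dvd.mpr hbig)
    obtain ⟨d, hd⟩ := hcard
    rw [hd, pow_mul]
    suffices h : gg t ^ p = 1 by rw [h, one_pow]
    simp only [gg, dif_pos (hfixmem t htu)]
    rw [← map_pow, hφ1]
    have hG' : t.out⁻¹ * u * t.out ∈ commutator G := by
      have := (inferInstance : (commutator G).Normal).conj_mem _ huG t.out⁻¹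
      rwa [inv_inv] at this
    rw [SubgroupClass.coe_pow]
    refine hsmall _ (pow_mem (hfixmem t htu) _) (pow_mem hG' _) ?_
    have e : orderOf (t.out⁻¹ * u * t.out) = orderOf u := by simpa using (MulAut.conj t.out⁻¹).orderOf_eq u
    rw [← hun]
    rcases k with _ | k
    · exact absurd (orderOf_eq_one_iff.mp (by simpa using hk)) hu1
    · rw [orderOf_pow_of_dvd hp.ne_zero (by rw [e, hk]; exact dvd_pow_self p (by omega)), e]
      exact Nat.div_lt_self (orderOf_pos u) hp.one_lt
  have hpow : φ ⟨u, hu⟩ ^ Fix.card = 1 := by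
    rw [← hFixprod, ← hstep1, ← Finset.prod_sdiff hsub, hrest, one_mul]
  have hcop : Fix.card.Coprime p := by
    have hmod := P.isPGroup'.card_modEq_card_fixedPoints (G ⧸ P0)
    have e : Fix.card = Nat.card (MulAction.fixedPoints P0 (G ⧸ P0)) := by
      rw [← Nat.card_eq_finsetCard]
      exact Nat.card_congr (Equiv.subtypeEquivRight (fun t => by simp [hFix]))
    rw [Nat.coprime_comm, hp.coprime_iff_not_dvd, e]
    intro hdvd
    apply P.not_dvd_index
    rw [← Nat.modEq_zero_iff_dvd] at hdvd ⊢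
    rw [Subgroup.index_eq_card]
    exact hmod.trans hdvd
  have hpk : φ ⟨u, hu⟩ ^ p ^ k = 1 := by
    rw [← map_pow]
    convert map_one φ
    apply Subtype.ext
    show u ^ p ^ k = 1
    rw [← hk, pow_orderOf_eq_one]
  have h1 := Nat.dvd_gcd (orderOf_dvd_of_pow_eq_one hpow) (orderOf_dvd_of_pow_eq_one hpk)
  rw [(hcop.pow_right k).gcd_eq_one, Nat.dvd_one, orderOf_eq_one_iff, hφ1] at h1
  exact h1

end Cfsg.Agent.S4216
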