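import Cfsg.Statements.S4217
import Mathlib
import Cfsg.Agent.Lib.Solv.Gaschutz
-- import your own Cfsg.Agent.* helpers here

set_option autoImplicit false
open Cfsg

namespace Cfsg.Agent.S4217

theorem exists_part {G : Type*} [Group G] [Finite G] (A : Subgroup G) [A.Normal] [IsMulCommutative A] {p : ℕ} (hp : p.Prime)
    (hloc : ∃ (U B : Subgroup G), A ≤ U ∧ ¬ p ∣ U.index ∧ B ⊓ A = ⊥ ∧ A ⊔ B = U) :
    ∃ W : Subgroup G, W.index = ordProj[p] (Nat.card A) ∧ ∀ a ∈ A, a ∈ W → a ^ ordCompl[p] (Nat.card A) = 1 := by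
  classical
  haveI := Fact.mk hp
  obtain ⟨U, B, hAU, hpU, hBA, hABU⟩ := hloc
  set m := ordCompl[p] (Nat.card A) with hm
  letI : CommGroup A := { (inferInstance : Group A) with mul_comm := fun x y => (IsMulCommutative.is_comm.comm x y) }
  let f : A →* A := powMonoidHom m
  set A' : Subgroup G := f.ker.map A.subtype with hA'
  haveI : f.ker.Characteristic := Subgroup.characteristic_iff_map_le.mpr fun φ => by
    rintro _ ⟨x, hx, rfl⟩
    show φ x ^ m = 1
    rw [← map_pow, show x ^ m = 1 from hx, map_one]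
  haveI : A'.Normal := ConjAct.normal_of_characteristic_of_normal
  have hA'A : A' ≤ A := Subgroup.map_subtype_le _
  have hA'mem : ∀ a ∈ A', a ^ m = 1 := by
    rintro _ ⟨x, hx, rfl⟩
    exact congrArg Subtype.val (show x ^ m = 1 from hx)
  have hker : (Nat.card f.ker).Coprime p := by
    rw [Nat.coprime_comm, hp.coprime_iff_not_dvd]
    intro hd
    obtain ⟨x, hx⟩ := exists_prime_orderOf_dvd_card' p hd
    have h1 : orderOf x ∣ m := orderOf_dvd_of_pow_eq_one (Subtype.ext x.2)
    rw [hx] at h1
    exact Nat.not_dvd_ordCompl hp Nat.card_pos.ne' h1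
  obtain ⟨j, hj⟩ : ∃ j, Nat.card f.range = p ^ j := by
    refine IsPGroup.iff_card.mp ?_
    rintro ⟨_, x, rfl⟩
    refine ⟨(Nat.card A).factorization p, Subtype.ext ?_⟩
    show (x ^ m) ^ p ^ (Nat.card A).factorization p = 1
    rw [← pow_mul, mul_comm, Nat.ordProj_mul_ordCompl_eq_self, pow_card_eq_one']
  have hrange : Nat.card f.range = ordProj[p] (Nat.card A) := by
    have h1 := f.ker.card_mul_index
    rw [Subgroup.index_ker, hj] at h1
    have h2 : (Nat.card A).factorization p = j := by
      rw [← h1, Nat.factorization_mul Nat.card_pos.ne' (pow_pos hp.pos j).ne', Finsupp.add_apply,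
        Nat.factorization_eq_zero_of_not_dvd (hp.coprime_iff_not_dvd.mp hker.symm), hp.factorization_pow,
        Finsupp.single_eq_same, zero_add]
    rw [hj, h2]
  let π := QuotientGroup.mk' A'
  have hπ : Function.Surjective π := QuotientGroup.mk'_surjective A'
  haveI : (A.map π).Normal := Subgroup.Normal.map inferInstance π hπ
  haveI : IsMulCommutative (A.map π) := inferInstance
  have hcardπ : Nat.card (A.map π) = ordProj[p] (Nat.card A) := by
    have h2 : Nat.card A = Nat.card A' * Nat.card (A.map π) := by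
      rw [← (A'.subgroupOf A).card_mul_index, Nat.card_congr (Subgroup.subgroupOfEquivOfLe hA'A).toEquiv]
      congr 1
      rw [← Subgroup.relIndex_ker, QuotientGroup.ker_mk']
      rfl
    have h3 := f.ker.card_mul_index
    rw [Subgroup.index_ker, ← Subgroup.card_map_of_injective A.subtype_injective (K := f.ker), ← hA', hrange] at h3
    exact (Nat.eq_of_mul_eq_mul_left Nat.card_pos (h3.trans h2)).symm
  obtain ⟨W, hW⟩ := Cfsg.Lib.Solv.Gaschutz.complement_exists (K := A.map π) (U.map π) (Subgroup.map_mono hAU)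
    (by
      rw [hcardπ, Subgroup.index_map_eq _ hπ (by rw [QuotientGroup.ker_mk']; exact hA'A.trans hAU)]
      exact Nat.Coprime.pow_left _ (hp.coprime_iff_not_dvd.mpr hpU))
    (B.map π) (by
      rw [eq_bot_iff]
      rintro _ ⟨⟨b, hb, rfl⟩, a, ha, e⟩
      have h1 : a⁻¹ * b ∈ A' := QuotientGroup.eq.mp e
      have hbA : b ∈ A := by
        have := mul_mem ha (hA'A h1)
        rwa [mul_inv_cancel_left] at this
      have : b ∈ B ⊓ A := ⟨hb, hbA⟩
      rw [hBA, Subgroup.mem_bot] at this
      simp [this])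
    (by rw [← Subgroup.map_sup, hABU])
  refine ⟨W.comap π, ?_, fun a ha haW => hA'mem a ?_⟩
  · rw [Subgroup.index_comap_of_surjective _ hπ, hW.index_eq_card, hcardπ]
  · have h1 : π a ∈ A.map π ⊓ W := ⟨⟨a, ha, rfl⟩, haW⟩
    rw [hW.disjoint.eq_bot, Subgroup.mem_bot] at h1
    exact (QuotientGroup.eq_one_iff a).mp h1

/-- Let `A` be an abelian normal subgroup of the finite group `G`. Then `A` has a complement in `G` if and only if, for every prime `p` dividing the index of `A`, there are a Sylow `p`-subgroup `S` of `G/A` and a subgroup `K` of `G` with `K ∩ A = 1` and `KA` equal to the preimage of `S` (that is, `A` has a complement in the preimage of a Sylow `p`-subgroup of `G/A`). -/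
theorem result {G : Type*} [Group G] [Finite G] (A : Subgroup G) [A.Normal] (hA : IsMulCommutative A) : (∃ K : Subgroup G, K.IsComplement' A) ↔ ∀ p : ℕ, p.Prime → p ∣ A.index → ∃ (S : Sylow p (G ⧸ A)) (K : Subgroup G), K ⊓ A = ⊥ ∧ K ⊔ A = (S : Subgroup (G ⧸ A)).comap (QuotientGroup.mk' A) := by
  classical
  haveI := hA
  constructor
  · rintro ⟨K, hK⟩ p hp -
    haveI := Fact.mk hp
    obtain ⟨S⟩ : Nonempty (Sylow p (G ⧸ A)) := inferInstance
    refine ⟨S, K ⊓ (S : Subgroup (G ⧸ A)).comap (QuotientGroup.mk' A), ?_, le_antisymm (sup_le inf_le_right ?_) ?_⟩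
    · rw [inf_right_comm, hK.disjoint.eq_bot, bot_inf_eq]
    · intro a ha
      show QuotientGroup.mk' A a ∈ (S : Subgroup (G ⧸ A))
      rw [QuotientGroup.mk'_apply, (QuotientGroup.eq_one_iff a).mpr ha]
      exact one_mem _
    · intro x hx
      have hxt : x ∈ K ⊔ A := by rw [hK.sup_eq_top]; trivial
      obtain ⟨k, hk, a, ha, rfl⟩ := Subgroup.mem_sup_of_normal_right.mp hxt
      refine mul_mem (Subgroup.mem_sup_left ⟨hk, ?_⟩) (Subgroup.mem_sup_right ha)
      have : QuotientGroup.mk' A (k * a) = QuotientGroup.mk' A k := by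
        rw [map_mul, QuotientGroup.mk'_apply A a, (QuotientGroup.eq_one_iff a).mpr ha, mul_one]
      show QuotientGroup.mk' A k ∈ (S : Subgroup (G ⧸ A))
      rw [← this]
      exact hx
  · intro h
    have hloc : ∀ p : ℕ, p.Prime → ∃ (U B : Subgroup G), A ≤ U ∧ ¬ p ∣ U.index ∧ B ⊓ A = ⊥ ∧ A ⊔ B = U := by
      intro p hp
      by_cases hdvd : p ∣ A.index
      · obtain ⟨S, K, hK1, hK2⟩ := h p hp hdvd
        haveI := Fact.mk hp
        refine ⟨_, K, le_sup_left, ?_, hK1, rfl⟩
        rw [sup_comm, hK2, Subgroup.index_comap_of_surjective _ (QuotientGroup.mk'_surjective A)]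
        exact S.not_dvd_index
      · exact ⟨A, ⊥, le_rfl, hdvd, bot_inf_eq _, sup_bot_eq _⟩
    choose W hW1 hW2 using fun p : (Nat.card A).primeFactors =>
      exists_part A (Nat.prime_of_mem_primeFactors p.2) (hloc _ (Nat.prime_of_mem_primeFactors p.2))
    set H := ⨅ p, W p with hH
    have hidx : H.index ≤ Nat.card A := by
      refine (Subgroup.index_iInf_le W).trans (le_of_eq ?_)
      simp only [hW1]
      rw [Finset.prod_coe_sort (Nat.card A).primeFactors (fun p => ordProj[p] (Nat.card A))]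
      exact (Nat.prod_factorization_pow_eq_self Nat.card_pos.ne')
    have hdisj : H ⊓ A = ⊥ := by
      rw [eq_bot_iff]
      rintro a ⟨haH, haA⟩
      rw [Subgroup.mem_bot]
      by_contra hne
      obtain ⟨q, hq, hqd⟩ := Nat.exists_prime_and_dvd (mt orderOf_eq_one_iff.mp hne)
      have hqA : q ∈ (Nat.card A).primeFactors :=
        Nat.mem_primeFactors.mpr ⟨hq, hqd.trans (Subgroup.orderOf_dvd_natCard _ haA), Nat.card_pos.ne'⟩
      have h1 := orderOf_dvd_of_pow_eq_one (hW2 ⟨q, hqA⟩ a haA (Subgroup.mem_iInf.mp haH _))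
      exact Nat.not_dvd_ordCompl hq Nat.card_pos.ne' (hqd.trans h1)
    refine ⟨H, Subgroup.isComplement'_of_card_mul_and_disjoint ?_ (disjoint_iff.mpr hdisj)⟩
    refine Nat.le_antisymm ?_ ?_
    · refine Nat.le_of_dvd Nat.card_pos ?_
      have h1 : Nat.card H ∣ A.index := by
        have := Subgroup.relIndex_dvd_index_of_normal A H
        rwa [← Subgroup.inf_relIndex_right, inf_comm, hdisj, Subgroup.relIndex_bot_left] at this
      have h2 := mul_dvd_mul_right h1 (Nat.card A)
      rwa [A.index_mul_card] at h2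
    · calc Nat.card G = Nat.card H * H.index := H.card_mul_index.symm
        _ ≤ Nat.card H * Nat.card A := Nat.mul_le_mul_left _ hidx

end Cfsg.Agent.S4217
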