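import Cfsg.Statements.S4218
import Mathlib
import Cfsg.Agent.Lib.PLocal.Constraint
import Cfsg.Agent.Lib.Solv.PGroupBasic
import Cfsg.Agent.Lib.Solv.Cores
-- import your own Cfsg.Agent.* helpers here

set_option autoImplicit false
open Cfsg
open scoped commutatorElement

namespace Cfsg.Agent.S4218

theorem frattini_map_equiv {X Y : Type*} [Group X] [Group Y] (e : X ≃* Y) (x : X) :
    e x ∈ frattini Y ↔ x ∈ frattini X := by
  constructor
  · intro h
    rw [Cfsg.Lib.Solv.mem_frattini_iff] at h ⊢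
    intro M hM
    have := h (M.map e.toMonoidHom) ((MulEquiv.mapSubgroup e).isCoatom_iff M |>.2 hM)
    exact (Subgroup.mem_map_iff_mem e.injective).1 this
  · intro h
    rw [Cfsg.Lib.Solv.mem_frattini_iff] at h ⊢
    intro M hM
    obtain ⟨N, rfl⟩ := (MulEquiv.mapSubgroup e).surjective M
    exact ⟨x, h N ((MulEquiv.mapSubgroup e).isCoatom_iff N |>.1 hM), rfl⟩

/-- The elements acting trivially modulo the Frattini subgroup of `O_p`. -/
theorem mem_pCore_of_trivial {X : Type*} [Group X] [Finite X] {p : ℕ} [Fact p.Prime]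
    (h : Cfsg.Lib.PLocal.SelfCentralizingCore p X) (g : X)
    (hg : ∀ x ∈ Cfsg.pCore p X, g * x * g⁻¹ * x⁻¹ ∈ (frattini (Cfsg.pCore p X)).map (Cfsg.pCore p X).subtype) :
    g ∈ Cfsg.pCore p X := by
  classical
  haveI := Cfsg.Lib.Transfer.pCore_normal (G := X) p
  set Q := Cfsg.pCore p X
  set F := (frattini Q).map Q.subtype
  haveI : F.Normal := inferInstance
  let C : Subgroup X :=
    { carrier := {g | ∀ x ∈ Q, g * x * g⁻¹ * x⁻¹ ∈ F}
      one_mem' := fun x _ => by simp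
      mul_mem' := fun {a b} ha hb x hx => by
        have e : a * b * x * (a * b)⁻¹ * x⁻¹ = a * (b * x * b⁻¹ * x⁻¹) * a⁻¹ * (a * x * a⁻¹ * x⁻¹) := by group
        rw [e]
        exact mul_mem ((inferInstance : F.Normal).conj_mem _ (hb x hx) a) (ha x hx)
      inv_mem' := fun {a} ha x hx => by
        have e : a⁻¹ * x * a⁻¹⁻¹ * x⁻¹ = a⁻¹ * (a * x * a⁻¹ * x⁻¹)⁻¹ * a⁻¹⁻¹ := by group
        rw [e]
        exact (inferInstance : F.Normal).conj_mem _ (inv_mem (ha x hx)) a⁻¹ }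
  haveI : C.Normal := ⟨fun a ha y x hx => by
    have e : y * a * y⁻¹ * x * (y * a * y⁻¹)⁻¹ * x⁻¹ =
        y * (a * (y⁻¹ * x * y⁻¹⁻¹) * a⁻¹ * (y⁻¹ * x * y⁻¹⁻¹)⁻¹) * y⁻¹ := by group
    rw [e]
    exact (inferInstance : F.Normal).conj_mem _ (ha _ ((inferInstance : Q.Normal).conj_mem _ hx y⁻¹)) y⟩
  have hQp : IsPGroup p Q := Cfsg.Lib.Transfer.pCore_isPGroup p
  have hCp : IsPGroup p C := by
    rw [IsPGroup.iff_orderOf]
    rintro ⟨a, ha⟩
    by_contra hne
    push Not at hne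
    obtain ⟨q, hq, hqd, hqp⟩ : ∃ q : ℕ, q.Prime ∧ q ∣ orderOf a ∧ q ≠ p := by
      by_contra hc
      push Not at hc
      exact hne _ (by rw [Subgroup.orderOf_mk]; exact Nat.eq_prime_pow_of_unique_prime_dvd (orderOf_pos a).ne' (fun {d} hd hdd => hc d hd hdd))
    set b := a ^ (orderOf a / q)
    have hb : orderOf b = q := orderOf_pow_orderOf_div (orderOf_pos a).ne' hqd
    haveI := Fact.mk hq
    obtain ⟨m, hm⟩ := hQp.exists_card_eq
    have hcop : (Nat.card (Subgroup.zpowers b)).Coprime (Nat.card (frattini Q)) := by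
      rw [Nat.card_zpowers, hb]
      exact Nat.Coprime.coprime_dvd_right ((Subgroup.card_subgroup_dvd_card _).trans hm.dvd)
        (Nat.coprime_pow_primes 1 m hq Fact.out hqp |>.coprime_dvd_left (by rw [pow_one]))
    have hbQ : b ∈ Q := h (Cfsg.Lib.Solv.centralizes_of_frattini (Subgroup.zpowers b) Q
      (by rw [Subgroup.normalizer_eq_top]; exact le_top) hcop
      (fun y hy k hk => (Subgroup.zpowers_le.2 (pow_mem ha _) : Subgroup.zpowers b ≤ C) hy k hk) (Subgroup.mem_zpowers b))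
    obtain ⟨k, hk⟩ := IsPGroup.iff_orderOf.1 hQp ⟨b, hbQ⟩
    rw [Subgroup.orderOf_mk, hb] at hk
    exact hqp ((Nat.prime_dvd_prime_iff_eq hq Fact.out).1 (hq.dvd_of_dvd_pow (show q ∣ p ^ k by rw [← hk])))
  exact Cfsg.Lib.Transfer.le_pCore inferInstance hCp (show g ∈ C from hg)

/-- Let `G` be a finite `p`-solvable group, `N₀ = O_{p'}(G)`, `P₁ = O_{p',p}(G)`, and let `F ≤ P₁` be the preimage of the Frattini subgroup of `P₁/N₀`. Then an element `g` of `G` induces the identity on `P₁/F` by conjugation (that is, `g x g⁻¹ x⁻¹ ∈ F` for all `x ∈ P₁`) if and only if `g ∈ P₁`: the group `G/P₁` acts faithfully on `P₁/F`. -/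
theorem result {G : Type*} [Group G] [Finite G] {p : ℕ} [Fact p.Prime] (hG : Cfsg.IsPSolvable p G) (g : G) : (∀ x ∈ Cfsg.pPrimePCore p G, g * x * g⁻¹ * x⁻¹ ∈ ((frattini (↥(Cfsg.pPrimePCore p G) ⧸ (Cfsg.pPrimeCore p G).subgroupOf (Cfsg.pPrimePCore p G))).comap (QuotientGroup.mk' ((Cfsg.pPrimeCore p G).subgroupOf (Cfsg.pPrimePCore p G)))).map (Cfsg.pPrimePCore p G).subtype) ↔ g ∈ Cfsg.pPrimePCore p G := by
  classical
  haveI := Cfsg.Lib.Transfer.pPrimeCore_normal (G := G) p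
  set N0 := Cfsg.pPrimeCore p G
  set q := QuotientGroup.mk' N0 with hqdef
  set Q := Cfsg.pCore p (G ⧸ N0)
  haveI := Cfsg.Lib.Transfer.pCore_normal (G := G ⧸ N0) p
  set P1 := Cfsg.pPrimePCore p G with hP1def
  have hP1 : ∀ x : G, x ∈ P1 ↔ q x ∈ Q := fun x => Iff.rfl
  let f : P1 →* Q := MonoidHom.mk' (fun x => ⟨q (x : G), (hP1 x).1 x.2⟩) (fun a b => Subtype.ext (map_mul q (a : G) (b : G)))
  have hf : Function.Surjective f := fun y => by
    obtain ⟨x, hx⟩ := QuotientGroup.mk'_surjective N0 y.1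
    exact ⟨⟨x, (hP1 x).2 (by rw [hqdef, hx]; exact y.2)⟩, Subtype.ext hx⟩
  have hker : f.ker = N0.subgroupOf P1 := by
    ext x
    rw [MonoidHom.mem_ker, Subgroup.mem_subgroupOf, ← QuotientGroup.eq_one_iff]
    exact ⟨fun h => congrArg Subtype.val h, fun h => Subtype.ext h⟩
  let e : (P1 ⧸ N0.subgroupOf P1) ≃* Q := (QuotientGroup.quotientMulEquivOfEq hker.symm).trans (QuotientGroup.quotientKerEquivOfSurjective f hf)
  set F := ((frattini (↥P1 ⧸ N0.subgroupOf P1)).comap (QuotientGroup.mk' (N0.subgroupOf P1))).map P1.subtype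
  have hFiff : ∀ y : G, y ∈ P1 → (y ∈ F ↔ q y ∈ (frattini Q).map Q.subtype) := by
    intro y hy
    have he : e ((⟨y, hy⟩ : P1) : ↥P1 ⧸ N0.subgroupOf P1) = f ⟨y, hy⟩ := rfl
    constructor
    · rintro ⟨z, hz, rfl⟩
      exact ⟨f z, (frattini_map_equiv e _).2 hz, rfl⟩
    · rintro ⟨z, hz, hzy⟩
      refine ⟨⟨y, hy⟩, ?_, rfl⟩
      show ((⟨y, hy⟩ : P1) : ↥P1 ⧸ N0.subgroupOf P1) ∈ frattini _
      rw [← frattini_map_equiv e, he, show f ⟨y, hy⟩ = z from Subtype.ext hzy.symm]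
      exact hz
  have hcomm : ∀ x ∈ P1, g * x * g⁻¹ * x⁻¹ ∈ P1 := fun x hx => by
    rw [hP1, map_mul, map_mul, map_mul, map_inv, map_inv]
    exact mul_mem ((inferInstance : Q.Normal).conj_mem _ ((hP1 x).1 hx) _) (inv_mem ((hP1 x).1 hx))
  have hsc : Cfsg.Lib.PLocal.SelfCentralizingCore p (G ⧸ N0) :=
    Cfsg.Lib.PLocal.selfCentralizingCore_of_pSolvable (Cfsg.Lib.PLocal.IsPSolvable.of_surjective q (QuotientGroup.mk'_surjective N0) hG)
      (Cfsg.Lib.Solv.pPrimeCore_quotient_eq_bot p)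
  constructor
  · intro h
    rw [hP1]
    refine mem_pCore_of_trivial hsc _ fun y hy => ?_
    obtain ⟨x, rfl⟩ := QuotientGroup.mk'_surjective N0 y
    have hx : x ∈ P1 := (hP1 x).2 hy
    have := (hFiff _ (hcomm x hx)).1 (h x hx)
    rw [map_mul, map_mul, map_mul, map_inv, map_inv] at this
    exact this
  · intro hg x hx
    rw [hFiff _ (hcomm x hx)]
    refine ⟨⁅f ⟨g, hg⟩, f ⟨x, hx⟩⁆, ?_, ?_⟩
    · exact Cfsg.Lib.Solv.commutator_le_frattini (Cfsg.Lib.Transfer.pCore_isPGroup p)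
        (Subgroup.commutator_mem_commutator (Subgroup.mem_top _) (Subgroup.mem_top _))
    · show q g * q x * (q g)⁻¹ * (q x)⁻¹ = _
      simp [map_mul, map_inv]

end Cfsg.Agent.S4218
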