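import Cfsg.Statements.S4219
import Mathlib
-- import your own Cfsg.Agent.* helpers here

set_option autoImplicit false
open Cfsg

namespace Cfsg.Agent.S4219

/-- Let a finite group `G` act `t`-fold transitively on a finite set, let `H` be the stabilizer of `t` distinct points and `P` a Sylow `p`-subgroup of `H`. Then the normalizer of `P` in `G` is `t`-fold transitive on the fixed points of `P`: any `t` distinct fixed points of `P` can be carried to any other `t` distinct fixed points of `P` by an element normalizing `P`. -/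
theorem result {G : Type*} [Group G] [Finite G] {α : Type*} [Fintype α] [MulAction G α] {t : ℕ} (hG : MulAction.IsMultiplyPretransitive G α t) (x : Fin t ↪ α) {p : ℕ} [Fact p.Prime] (P : Sylow p (MulAction.stabilizer G x)) (a b : Fin t ↪ α) (ha : ∀ i, a i ∈ MulAction.fixedPoints ((P : Subgroup (MulAction.stabilizer G x)).map (MulAction.stabilizer G x).subtype) α) (hb : ∀ i, b i ∈ MulAction.fixedPoints ((P : Subgroup (MulAction.stabilizer G x)).map (MulAction.stabilizer G x).subtype) α) : ∃ g ∈ Subgroup.normalizer ((((P : Subgroup (MulAction.stabilizer G x)).map (MulAction.stabilizer G x).subtype) : Subgroup G) : Set G), g • a = b := by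
  classical
  set Q := (P : Subgroup (MulAction.stabilizer G x)).map (MulAction.stabilizer G x).subtype with hQ
  haveI := hG
  obtain ⟨g0, hg0⟩ := MulAction.exists_smul_eq G a b
  obtain ⟨g1, hg1⟩ := MulAction.exists_smul_eq G x a
  have hfix : ∀ c : Fin t ↪ α, (∀ i, c i ∈ MulAction.fixedPoints Q α) → Q ≤ MulAction.stabilizer G c := by
    intro c hc q hq
    rw [MulAction.mem_stabilizer_iff]
    ext i
    exact hc i ⟨q, hq⟩
  have hQa : Q ≤ MulAction.stabilizer G a := hfix a ha
  set Q' := Q.map (MulAut.conj g0⁻¹).toMonoidHom with hQ'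
  have hQ'a : Q' ≤ MulAction.stabilizer G a := by
    rintro _ ⟨q, hq, rfl⟩
    show g0⁻¹ * q * g0⁻¹⁻¹ ∈ MulAction.stabilizer G a
    rw [inv_inv, MulAction.mem_stabilizer_iff, mul_smul, mul_smul, hg0, hfix b hb hq, ← hg0, inv_smul_smul]
  have hQp : IsPGroup p Q := P.isPGroup'.map _
  have hQ'p : IsPGroup p Q' := hQp.map _
  have hcardstab : Nat.card (MulAction.stabilizer G a) = Nat.card (MulAction.stabilizer G x) := by
    rw [← hg1, MulAction.stabilizer_smul_eq_stabilizer_map_conj]
    exact Subgroup.card_map_of_injective (MulAut.conj g1).injective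
  have hcardQ : Nat.card Q = p ^ (Nat.card (MulAction.stabilizer G a)).factorization p := by
    rw [hcardstab, hQ, Subgroup.card_map_of_injective (MulAction.stabilizer G x).subtype_injective, P.card_eq_multiplicity]
  let S : Sylow p (MulAction.stabilizer G a) := Sylow.ofCard (Q.subgroupOf _) (by
    rw [Nat.card_congr (Subgroup.subgroupOfEquivOfLe hQa).toEquiv, hcardQ])
  let S' : Sylow p (MulAction.stabilizer G a) := Sylow.ofCard (Q'.subgroupOf _) (by
    rw [Nat.card_congr (Subgroup.subgroupOfEquivOfLe hQ'a).toEquiv, hQ',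
      Subgroup.card_map_of_injective (MulAut.conj g0⁻¹).injective, hcardQ])
  obtain ⟨⟨l, hl⟩, hlS⟩ := MulAction.exists_smul_eq (MulAction.stabilizer G a) S S'
  refine ⟨g0 * l, ?_, by rw [mul_smul, MulAction.mem_stabilizer_iff.mp hl, hg0]⟩
  have hmap : ∀ q ∈ Q, g0 * l * q * (g0 * l)⁻¹ ∈ Q := by
    intro q hq
    have h1 : (⟨l, hl⟩ : MulAction.stabilizer G a) * ⟨q, hQa hq⟩ * ⟨l, hl⟩⁻¹ ∈ (S' : Subgroup (MulAction.stabilizer G a)) := by
      rw [← hlS, Sylow.smul_def, Sylow.pointwise_smul_def]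
      exact ⟨⟨q, hQa hq⟩, hq, rfl⟩
    obtain ⟨q', hq', e⟩ := (h1 : l * q * l⁻¹ ∈ Q')
    have e' : g0⁻¹ * q' * g0⁻¹⁻¹ = l * q * l⁻¹ := e
    rw [show g0 * l * q * (g0 * l)⁻¹ = g0 * (l * q * l⁻¹) * g0⁻¹ by group, ← e', show g0 * (g0⁻¹ * q' * g0⁻¹⁻¹) * g0⁻¹ = q' by group]
    exact hq'
  rw [Subgroup.mem_normalizer_iff_map_conj_eq]
  refine Subgroup.eq_of_le_of_card_ge ?_ (le_of_eq (Subgroup.card_map_of_injective (MulAut.conj (g0 * l)).injective).symm)
  rintro _ ⟨q, hq, rfl⟩
  exact hmap q hq

end Cfsg.Agent.S4219
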