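import Cfsg.Statements.S4223
-- import your own Cfsg.Agent.* helpers here

set_option autoImplicit false
open Cfsg

namespace Cfsg.Agent.S4223


/-- An endomorphism commuting with all inner automorphisms. -/
def CommutesInner {A : Type*} [Group A] (f : A →* A) : Prop := ∀ a g : A, f (a * g * a⁻¹) = a * f g * a⁻¹

theorem fitting {A : Type*} [Group A] [Finite A]
    (hA : ∀ H K : Subgroup A, H.Normal → K.Normal → H ⊓ K = ⊥ → H ⊔ K = ⊤ → H = ⊥ ∨ K = ⊥)
    (f : A →* A) (hf : CommutesInner f) {g : A} (hg : f g = g) (hg1 : g ≠ 1) : Function.Bijective f := by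
  have hit : ∀ (N : ℕ) (a x : A), f^[N] (a * x * a⁻¹) = a * f^[N] x * a⁻¹ := by
    intro N
    induction N with
    | zero => intro a x; rfl
    | succ N ih => intro a x; rw [Function.iterate_succ_apply', Function.iterate_succ_apply', ih, hf]
  obtain ⟨i, j, hij, he⟩ := Finite.exists_ne_map_eq_of_infinite (fun N : ℕ => f^[N])
  wlog hlt : i < j generalizing i j
  · exact this j i (Ne.symm hij) he.symm (by omega)
  have hper : ∀ k, f^[i + k * (j - i)] = f^[i] := by
    intro k
    induction k with
    | zero => simp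
    | succ k ih =>
      rw [show i + (k + 1) * (j - i) = (i + k * (j - i)) + (j - i) by ring, Function.iterate_add, ih, ← Function.iterate_add]
      skip
      rw [show i + (j - i) = j by omega, he]
  let N := (i + 1) * (j - i)
  have hNi : i + 1 ≤ N := Nat.le_mul_of_pos_right _ (by omega)
  have hidem : ∀ x, f^[N] (f^[N] x) = f^[N] x := by
    intro x
    have h2 : f^[i + N] = f^[i] := hper (i + 1)
    have h3 : f^[N + N] = f^[N] := by
      rw [show N + N = (N - i) + (i + N) by omega, Function.iterate_add, h2, ← Function.iterate_add,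
        show N - i + i = N by omega]
    rw [← Function.iterate_add_apply, h3]
  have hmul : ∀ (M : ℕ) (x y : A), f^[M] (x * y) = f^[M] x * f^[M] y := by
    intro M
    induction M with
    | zero => intro x y; rfl
    | succ M ih => intro x y; rw [Function.iterate_succ_apply', Function.iterate_succ_apply', Function.iterate_succ_apply', ih, map_mul]
  let q : A →* A := MonoidHom.mk' (f^[N]) (hmul N)
  have hq : ∀ x, q (q x) = q x := hidem
  rcases hA q.ker q.range inferInstance ⟨fun x hx a => by
      obtain ⟨y, rfl⟩ := hx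
      exact ⟨a * y * a⁻¹, hit N a y⟩⟩ (by
        rw [eq_bot_iff]
        rintro x ⟨hx, y, rfl⟩
        rw [Subgroup.mem_bot]
        exact (hq y).symm.trans hx) (by
        rw [eq_top_iff]
        intro x _
        have hx : x * (q x)⁻¹ ∈ q.ker := by rw [MonoidHom.mem_ker, map_mul, map_inv, hq, mul_inv_cancel]
        have := Subgroup.mul_mem_sup hx (show q x ∈ q.range from ⟨x, rfl⟩)
        rwa [inv_mul_cancel_right] at this) with h | h
  · refine Finite.injective_iff_bijective.1 fun x y hxy => (MonoidHom.ker_eq_bot_iff q).1 h ?_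
    show f^[N] x = f^[N] y
    obtain ⟨N', hN'⟩ : ∃ N', N = N' + 1 := ⟨N - 1, by omega⟩
    rw [hN', Function.iterate_succ_apply, Function.iterate_succ_apply, hxy]
  · exfalso
    apply hg1
    have h0 : q g ∈ q.range := ⟨g, rfl⟩
    rw [h, Subgroup.mem_bot] at h0
    rw [← h0]
    exact (Function.iterate_fixed hg N).symm

section exchange

variable {A G : Type*} [Group A] [Group G] [Finite A] {n : ℕ} {B : Fin n → Type*} [∀ j, Group (B j)]

open scoped Classical in
/-- The mask of a tuple by a set of indices. -/
noncomputable def maskHom (s : Finset (Fin n)) : ((j : Fin n) → B j) →* ((j : Fin n) → B j) :=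
  MonoidHom.mk' (fun x j => if j ∈ s then x j else 1) fun x y => by
    funext j
    by_cases h : j ∈ s <;> simp [h]

theorem exists_bijective [Nontrivial A]
    (hA : ∀ H K : Subgroup A, H.Normal → K.Normal → H ⊓ K = ⊥ → H ⊔ K = ⊤ → H = ⊥ ∨ K = ⊥)
    (e : A →* ((j : Fin n) → B j)) (p : ((j : Fin n) → B j) →* A) (hp : ∀ a, p (e a) = a) :
    ∃ j, Function.Bijective (fun a => p (Pi.mulSingle j (e a j))) := by
  classical
  let ψ : Finset (Fin n) → (A →* A) := fun s => p.comp ((maskHom s).comp e)
  have hψ : ∀ s, CommutesInner (ψ s) := by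
    intro s a g
    have h1 : maskHom s (e (a * g * a⁻¹)) = e a * maskHom s (e g) * (e a)⁻¹ := by
      funext j
      simp only [maskHom, MonoidHom.mk'_apply, map_mul, map_inv, Pi.mul_apply, Pi.inv_apply]
      by_cases h : j ∈ s <;> simp [h]
    show p (maskHom s (e (a * g * a⁻¹))) = a * p (maskHom s (e g)) * a⁻¹
    rw [h1, map_mul, map_mul, map_inv, hp]
  have hsplit : ∀ (j : Fin n) (s : Finset (Fin n)), j ∉ s → Function.Bijective (ψ (insert j s)) →
      Function.Bijective (ψ {j}) ∨ Function.Bijective (ψ s) := by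
    intro j s hj hb
    by_cases hinj : Function.Injective (ψ {j})
    · exact Or.inl (Finite.injective_iff_bijective.1 hinj)
    right
    obtain ⟨g, hg, hg1⟩ : ∃ g, ψ {j} g = 1 ∧ g ≠ 1 := by
      by_contra! hc
      exact hinj ((injective_iff_map_eq_one _).2 hc)
    let u := MulEquiv.ofBijective (ψ (insert j s)) hb
    have hfix : u.symm (ψ s g) = g := by
      rw [MulEquiv.symm_apply_eq]
      show ψ s g = ψ (insert j s) g
      have h1 : maskHom (insert j s) (e g) = maskHom {j} (e g) * maskHom s (e g) := by
        funext k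
        simp only [maskHom, MonoidHom.mk'_apply, Pi.mul_apply, Finset.mem_insert, Finset.mem_singleton]
        by_cases h : k = j
        · subst h; simp [hj]
        · simp [h]
      show p (maskHom s (e g)) = p (maskHom (insert j s) (e g))
      rw [h1, map_mul, show p (maskHom {j} (e g)) = 1 from hg, one_mul]
    have hci : CommutesInner (u.symm.toMonoidHom.comp (ψ s)) := by
      intro a x
      show u.symm (ψ s (a * x * a⁻¹)) = a * u.symm (ψ s x) * a⁻¹
      rw [MulEquiv.symm_apply_eq, hψ s a x]
      show a * ψ s x * a⁻¹ = ψ (insert j s) (a * u.symm (ψ s x) * a⁻¹)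
      rw [hψ (insert j s) a]
      congr 2
      exact (u.apply_symm_apply _).symm
    have hb' := fitting hA _ hci hfix hg1
    have : (ψ s : A → A) = (u : A → A) ∘ (u.symm.toMonoidHom.comp (ψ s)) := by
      funext x; exact (u.apply_symm_apply _).symm
    rw [this]
    exact u.bijective.comp hb'
  have key : ∀ s : Finset (Fin n), Function.Bijective (ψ s) → ∃ j, Function.Bijective (ψ {j}) := by
    intro s
    induction s using Finset.induction with
    | empty =>
      intro hb
      obtain ⟨a, ha⟩ := exists_ne (1 : A)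
      refine absurd (hb.1 ?_) ha
      show p (maskHom ∅ (e a)) = p (maskHom ∅ (e 1))
      congr 1
    | @insert j s hj ih =>
      intro hb
      rcases hsplit j s hj hb with h | h
      · exact ⟨j, h⟩
      · exact ih h
  obtain ⟨j, hj⟩ := key Finset.univ (by
    have : (ψ Finset.univ : A → A) = id := by
      funext a
      show p (maskHom Finset.univ (e a)) = a
      rw [show maskHom Finset.univ (e a) = e a by funext k; simp [maskHom], hp]
    rw [this]; exact Function.bijective_id)
  refine ⟨j, ?_⟩
  convert hj using 2 with a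
  show p (Pi.mulSingle j (e a j)) = p (maskHom {j} (e a))
  congr 1
  funext k
  by_cases h : k = j
  · subst h; simp [maskHom]
  · simp [maskHom, h]

end exchange

universe u v

theorem aux : ∀ (m n : ℕ) (A : Fin m → Type u) (B : Fin n → Type v) [∀ i, Group (A i)] [∀ j, Group (B j)]
    [∀ i, Finite (A i)] [∀ j, Finite (B j)],
    (∀ i, Nontrivial (A i) ∧ ∀ H K : Subgroup (A i), H.Normal → K.Normal → H ⊓ K = ⊥ → H ⊔ K = ⊤ → H = ⊥ ∨ K = ⊥) →
    (∀ j, Nontrivial (B j) ∧ ∀ H K : Subgroup (B j), H.Normal → K.Normal → H ⊓ K = ⊥ → H ⊔ K = ⊤ → H = ⊥ ∨ K = ⊥) →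
    ((∀ i, A i) ≃* (∀ j, B j)) → ∃ σ : Fin m ≃ Fin n, ∀ i, Nonempty (A i ≃* B (σ i)) := by
  intro m
  induction m with
  | zero =>
    intro n A B _ _ _ _ _ hB e
    rcases n with _ | k
    · exact ⟨Equiv.refl _, fun i => i.elim0⟩
    · exfalso
      have := (hB 0).1
      obtain ⟨b, hb⟩ := exists_ne (1 : B 0)
      have h : e.symm (Pi.mulSingle 0 b) = e.symm 1 := funext fun i => i.elim0
      exact hb (by simpa using congr_fun (e.symm.injective h) 0)
  | succ m ih =>
    intro n A B _ _ _ _ hA hB e
    classical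
    have := (hA 0).1
    let ε : A 0 →* ((j : Fin n) → B j) := e.toMonoidHom.comp (MonoidHom.mulSingle A 0)
    let π : ((j : Fin n) → B j) →* A 0 := (Pi.evalMonoidHom A 0).comp e.symm.toMonoidHom
    have hπ : ∀ a, π (ε a) = a := by
      intro a
      show e.symm (e (Pi.mulSingle 0 a)) 0 = a
      rw [e.symm_apply_apply, Pi.mulSingle_eq_same]
    obtain ⟨j₀, hj⟩ := exists_bijective (hA 0).2 ε π hπ
    rcases n with _ | k
    · exact j₀.elim0
    let α : A 0 →* B j₀ := (Pi.evalMonoidHom B j₀).comp ε
    let β : B j₀ →* A 0 := π.comp (MonoidHom.mulSingle B j₀)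
    have hαinj : Function.Injective α := fun x y h => hj.1 (by
      show β (α x) = β (α y)
      rw [h])
    have hαnormal : α.range.Normal := ⟨by
      rintro _ ⟨a, rfl⟩ b
      obtain ⟨x, hx⟩ : ∃ x, e x j₀ = b := ⟨e.symm (Pi.mulSingle j₀ b), by simp⟩
      refine ⟨x 0 * a * (x 0)⁻¹, ?_⟩
      show e (Pi.mulSingle 0 (x 0 * a * (x 0)⁻¹)) j₀ = b * e (Pi.mulSingle 0 a) j₀ * b⁻¹
      have h1 : (Pi.mulSingle 0 (x 0 * a * (x 0)⁻¹) : ∀ i, A i) = x * Pi.mulSingle 0 a * x⁻¹ := by
        funext i
        by_cases h : i = 0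
        · subst h; simp
        · simp [h]
      rw [h1, map_mul, map_mul, map_inv]
      simp [hx]⟩
    have hαsurj : Function.Surjective α := by
      rcases (hB j₀).2 α.range β.ker hαnormal inferInstance (by
          rw [eq_bot_iff]
          rintro _ ⟨⟨a, rfl⟩, ha⟩
          rw [Subgroup.mem_bot]
          have : a = 1 := hj.1 (by
            show β (α a) = β (α 1)
            rw [map_one α, map_one β]; exact ha)
          rw [this, map_one]) (by
          rw [eq_top_iff]
          intro b _
          obtain ⟨a, ha⟩ := hj.2 (β b)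
          change β (α a) = β b at ha
          have hk : (α a)⁻¹ * b ∈ β.ker := by rw [MonoidHom.mem_ker, map_mul, map_inv, ha, inv_mul_cancel]
          have := Subgroup.mul_mem_sup (show α a ∈ α.range from ⟨a, rfl⟩) hk
          rwa [mul_inv_cancel_left] at this) with h | h
      · exfalso
        obtain ⟨a, ha⟩ := exists_ne (1 : A 0)
        have h1 : α a ∈ α.range := ⟨a, rfl⟩
        rw [h, Subgroup.mem_bot] at h1
        exact ha (hαinj (h1.trans (map_one α).symm))
      · intro b
        obtain ⟨a, ha⟩ := hj.2 (β b)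
        exact ⟨a, (MonoidHom.ker_eq_bot_iff β).1 h ha⟩
    let e₀ : A 0 ≃* B j₀ := MulEquiv.ofBijective α ⟨hαinj, hαsurj⟩
    let R : ((i : Fin k) → B (j₀.succAbove i)) →* ((i : Fin m) → A i.succ) :=
      MonoidHom.mk' (fun y i => e.symm (j₀.insertNth 1 y) i.succ) fun y z => by
        funext i
        have h1 : (j₀.insertNth 1 (y * z) : ∀ j, B j) = j₀.insertNth 1 y * j₀.insertNth 1 z := by
          rw [← Fin.insertNth_mul, one_mul]
        simp only [h1, map_mul, Pi.mul_apply]
    have hR : Function.Bijective R := by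
      constructor
      · rw [injective_iff_map_eq_one]
        intro y hy
        let x := e.symm (j₀.insertNth 1 y)
        have hx : x = Pi.mulSingle 0 (x 0) := by
          funext i
          refine Fin.cases ?_ (fun i => ?_) i
          · simp
          · rw [Pi.mulSingle_eq_of_ne (Fin.succ_ne_zero i)]
            exact congr_fun hy i
        have hx0 : x 0 = 1 := by
          refine hαinj ?_
          show e (Pi.mulSingle 0 (x 0)) j₀ = α 1
          rw [← hx, map_one]
          simp [x]
        rw [hx0, Pi.mulSingle_one] at hx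
        have h1 : (j₀.insertNth 1 y : ∀ j, B j) = 1 := by simpa [x] using hx
        funext i
        simpa using congr_fun h1 (j₀.succAbove i)
      · intro a
        let x₁ : ∀ i, A i := Fin.cons 1 a
        obtain ⟨c, hc⟩ := hαsurj (e x₁ j₀)⁻¹
        let z := e (Pi.mulSingle 0 c * x₁)
        refine ⟨fun i => z (j₀.succAbove i), ?_⟩
        have hz : (j₀.insertNth 1 (fun i => z (j₀.succAbove i)) : ∀ j, B j) = z := by
          rw [Fin.insertNth_eq_iff]
          refine ⟨?_, rfl⟩
          have : α c = e (Pi.mulSingle 0 c) j₀ := rfl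
          simp only [z, map_mul, Pi.mul_apply, ← this, hc, inv_mul_cancel]
        funext i
        show e.symm (j₀.insertNth 1 (fun i => z (j₀.succAbove i))) i.succ = a i
        rw [hz]
        simp [z, x₁]
    obtain ⟨τ, hτ⟩ := ih k (fun i => A i.succ) (fun i => B (j₀.succAbove i))
      (fun i => hA i.succ) (fun i => hB _) (MulEquiv.ofBijective R hR).symm
    refine ⟨(finSuccEquiv m).trans (τ.optionCongr.trans (finSuccEquiv' j₀).symm), ?_⟩
    intro i
    refine Fin.cases ?_ (fun i => ?_) i
    · simpa using ⟨e₀⟩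
    · show Nonempty (A i.succ ≃* B ((finSuccEquiv' j₀).symm ((τ.optionCongr) (finSuccEquiv m i.succ))))
      rw [finSuccEquiv_succ, Equiv.optionCongr_apply, Option.map_some, finSuccEquiv'_symm_some]
      exact hτ i

/-- If a finite group is isomorphic both to a direct product of `m` directly indecomposable nontrivial groups and to a direct product of `n` such groups (a group is directly indecomposable when it is not the internal direct product of two nontrivial normal subgroups), then `m = n` and the factors are isomorphic in pairs after a suitable matching. -/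
theorem result {m n : ℕ} {A : Fin m → Type*} {B : Fin n → Type*} [∀ i, Group (A i)] [∀ j, Group (B j)] [∀ i, Finite (A i)] [∀ j, Finite (B j)] (hA : ∀ i, Nontrivial (A i) ∧ ∀ H K : Subgroup (A i), H.Normal → K.Normal → H ⊓ K = ⊥ → H ⊔ K = ⊤ → H = ⊥ ∨ K = ⊥) (hB : ∀ j, Nontrivial (B j) ∧ ∀ H K : Subgroup (B j), H.Normal → K.Normal → H ⊓ K = ⊥ → H ⊔ K = ⊤ → H = ⊥ ∨ K = ⊥) (e : ((i : Fin m) → A i) ≃* ((j : Fin n) → B j)) : ∃ σ : Fin m ≃ Fin n, ∀ i, Nonempty (A i ≃* B (σ i)) := by
  exact aux m n A B hA hB e

end Cfsg.Agent.S4223
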