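import Cfsg.Statements.S4227
import Mathlib
import Cfsg.Agent.Lib.PLocal.PLengthOne
import Cfsg.Agent.Lib.PLocal.Constraint
import Cfsg.Agent.Lib.Solv.MinNormal
import Cfsg.Agent.Lib.Solv.PGroupBasic
import Cfsg.Agent.Lib.Solv.Coprime2
import Cfsg.Agent.Lib.Characters.Burnside
-- import your own Cfsg.Agent.* helpers here

set_option autoImplicit false
open Cfsg
open scoped commutatorElement

namespace Cfsg.Agent.S4227

variable {G : Type*} [Group G] [Finite G]

theorem solvable (h : ∀ x : G, x ^ 6 = 1) : Group.IsSolvable G := by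
  have hd : ∀ q : ℕ, q.Prime → q ∣ Nat.card G → q = 2 ∨ q = 3 := by
    intro q hq hqd
    haveI := Fact.mk hq
    obtain ⟨g, hg⟩ := exists_prime_orderOf_dvd_card' q hqd
    have h6 : q ∣ 6 := hg ▸ orderOf_dvd_of_pow_eq_one (h g)
    have := Nat.le_of_dvd (by norm_num) h6
    have := hq.two_le
    interval_cases q <;> norm_num at *
  refine Cfsg.Lib.Characters.isSolvable_of_card_eq_pow_mul_pow Nat.prime_two Nat.prime_three (Nat.card G) G rfl
    ⟨(Nat.card G).factorization 2, (Nat.card G).factorization 3, ?_⟩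
  conv_lhs => rw [← Nat.prod_factorization_pow_eq_self (Nat.card_pos (α := G)).ne']
  rw [Finsupp.prod, Nat.support_factorization]
  rw [← Finset.prod_pair (f := fun q => q ^ (Nat.card G).factorization q) (by norm_num : (2 : ℕ) ≠ 3)]
  refine Finset.prod_subset (fun q hq => ?_) (fun q _ hq => ?_)
  · rcases hd q (Nat.prime_of_mem_primeFactors hq) (Nat.dvd_of_mem_primeFactors hq) with rfl | rfl <;> simp
  · rw [Finsupp.notMem_support_iff.1 (by rwa [Nat.support_factorization]), pow_zero]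

theorem pow_prime (h : ∀ x : G, x ^ 6 = 1) {p : ℕ} (hp : p = 2 ∨ p = 3) {x : G} {k : ℕ} (hx : orderOf x = p ^ k) :
    x ^ p = 1 := by
  rw [← orderOf_dvd_iff_pow_eq_one]
  have h6 : orderOf x ∣ 6 := orderOf_dvd_of_pow_eq_one (h x)
  rw [hx] at h6 ⊢
  rcases k with _ | _ | k
  · simp
  · simp
  · exfalso
    have h4 : p ^ 2 ∣ 6 := (pow_dvd_pow p (by omega : 2 ≤ k + 2)).trans h6
    rcases hp with rfl | rfl <;> norm_num at h4

theorem two (h : ∀ x : G, x ^ 6 = 1) (hO : Cfsg.pPrimeCore 2 G = ⊥) : ¬ 2 ∣ (Cfsg.pCore 2 G).index := by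
  haveI := Fact.mk Nat.prime_two
  haveI := solvable h
  obtain ⟨P⟩ : Nonempty (Sylow 2 G) := inferInstance
  have hle : (P : Subgroup G) ≤ Cfsg.pCore 2 G := by
    refine fun x hx => Cfsg.Lib.Solv.centralizer_pCore_le 2 hO (Subgroup.mem_centralizer_iff.2 fun y hy => ?_)
    have hy' : y ∈ (P : Subgroup G) := Cfsg.Lib.Transfer.pCore_le_sylow P hy
    have hinv : ∀ z ∈ (P : Subgroup G), z⁻¹ = z := by
      intro z hz
      obtain ⟨k, hk⟩ := IsPGroup.iff_orderOf.1 P.isPGroup' ⟨z, hz⟩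
      rw [Subgroup.orderOf_mk] at hk
      exact inv_eq_of_mul_eq_one_left (by rw [← pow_two]; exact pow_prime h (Or.inl rfl) hk)
    calc y * x = (y * x)⁻¹ := (hinv _ (mul_mem hy' hx)).symm
      _ = x * y := by rw [mul_inv_rev, hinv x hx, hinv y hy']
  exact fun hd => P.not_dvd_index (hd.trans (Subgroup.index_dvd_of_le hle))

theorem three (h : ∀ x : G, x ^ 6 = 1) (hO : Cfsg.pPrimeCore 3 G = ⊥) : ¬ 3 ∣ (Cfsg.pCore 3 G).index := by
  classical
  haveI := Fact.mk Nat.prime_two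
  haveI := Fact.mk Nat.prime_three
  haveI := solvable h
  haveI := Cfsg.Lib.Transfer.pCore_normal (G := G) 3
  set Q := Cfsg.pCore 3 G
  intro hidx
  have hC := Cfsg.Lib.Solv.centralizer_pCore_le 3 hO
  have hQp : IsPGroup 3 Q := Cfsg.Lib.Transfer.pCore_isPGroup 3
  set q := QuotientGroup.mk' Q
  haveI := Cfsg.Lib.Transfer.pCore_normal (G := G ⧸ Q) 2
  set W := Cfsg.pCore 2 (G ⧸ Q)
  have hO2 : Cfsg.pPrimeCore 2 (G ⧸ Q) = ⊥ := by
    haveI := Cfsg.Lib.Transfer.pPrimeCore_normal (G := G ⧸ Q) 2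
    refine eq_bot_iff.2 ?_
    rw [← (Cfsg.Lib.Solv.pCore_quotient_eq_bot (G := G) 3)]
    refine Cfsg.Lib.Transfer.le_pCore inferInstance ?_
    rw [IsPGroup.iff_orderOf]
    rintro ⟨y, hy⟩
    rw [Subgroup.orderOf_mk]
    have h2 : ¬ 2 ∣ orderOf y := fun h2 => Cfsg.Lib.Solv.not_dvd_card_pPrimeCore 2 (h2.trans (Subgroup.orderOf_dvd_natCard _ hy))
    have h6 : orderOf y ∣ 2 * 3 := orderOf_dvd_of_pow_eq_one (by
      obtain ⟨z, rfl⟩ := QuotientGroup.mk'_surjective Q y
      rw [← map_pow]; exact (congrArg q (h z)).trans (map_one q))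
    have h3 : orderOf y ∣ 3 := ((Nat.prime_two.coprime_iff_not_dvd.2 h2).symm).dvd_of_dvd_mul_left h6
    obtain ⟨i, -, hi⟩ := (Nat.dvd_prime_pow Nat.prime_three).1 (show orderOf y ∣ 3 ^ 1 by simpa using h3)
    exact ⟨i, hi⟩
  have hCW := Cfsg.Lib.Solv.centralizer_pCore_le 2 hO2
  set K := W.comap q
  haveI : K.Normal := inferInstance
  obtain ⟨V⟩ : Nonempty (Sylow 2 K) := inferInstance
  set V' := (V : Subgroup K).map K.subtype
  have hV2 : ∀ v ∈ V', v * v = 1 := by
    rintro _ ⟨v, hv, rfl⟩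
    obtain ⟨k, hk⟩ := IsPGroup.iff_orderOf.1 V.isPGroup' ⟨v, hv⟩
    rw [Subgroup.orderOf_mk, ← Subgroup.orderOf_coe] at hk
    rw [← pow_two]; exact pow_prime h (Or.inl rfl) hk
  have hW : ∀ w ∈ W, ∃ v ∈ V', q v = w := by
    let f : K →* W := MonoidHom.mk' (fun x => ⟨q x, x.2⟩) (fun a b => Subtype.ext (map_mul q (a : G) (b : G)))
    have hf : Function.Surjective f := fun w => by
      obtain ⟨x, hx⟩ := QuotientGroup.mk'_surjective Q w.1
      exact ⟨⟨x, show q x ∈ W by rw [show q x = w.1 from hx]; exact w.2⟩, Subtype.ext hx⟩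
    intro w hw
    have hWp : IsPGroup 2 W := Cfsg.Lib.Transfer.pCore_isPGroup 2
    have htop : ((V.mapSurjective hf : Sylow 2 W) : Subgroup W) = ⊤ :=
      (V.mapSurjective hf).3 (hWp.to_subgroup ⊤) le_top |>.symm
    have : (⟨w, hw⟩ : W) ∈ (V : Subgroup K).map f := by
      rw [Sylow.coe_mapSurjective] at htop; rw [htop]; trivial
    obtain ⟨v, hv, e⟩ := this
    exact ⟨v, ⟨v, hv, rfl⟩, congrArg Subtype.val e⟩
  have hfr : Subgroup.normalizer (V' : Set G) ⊔ K = ⊤ := Sylow.normalizer_sup_eq_top V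
  obtain ⟨y, hy⟩ := exists_prime_orderOf_dvd_card' (G := G ⧸ Q) 3 (by rwa [← Subgroup.index_eq_card])
  obtain ⟨n, hn, hny⟩ : ∃ n ∈ Subgroup.normalizer (V' : Set G), q n = y := by
    obtain ⟨x, rfl⟩ := QuotientGroup.mk'_surjective Q y
    have hx : x ∈ ((Subgroup.normalizer (V' : Set G) ⊔ K : Subgroup G) : Set G) := by rw [hfr]; trivial
    rw [Subgroup.mul_normal] at hx
    obtain ⟨a, ha, b, hb, rfl⟩ := Set.mem_mul.1 hx
    obtain ⟨v, hv, hvb⟩ := hW (q b) hb
    exact ⟨a * v, mul_mem ha (Subgroup.le_normalizer hv), by rw [map_mul, map_mul, hvb]⟩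
  set x := n ^ 4
  have hxN : x ∈ Subgroup.normalizer (V' : Set G) := pow_mem hn 4
  have hxy : q x = y := by
    rw [map_pow, hny, show (4 : ℕ) = 3 + 1 from rfl, pow_add, ← hy, pow_orderOf_eq_one, one_mul, pow_one]
  have hx3 : x ^ 3 = 1 := by rw [← pow_mul, show 4 * 3 = 6 * 2 from rfl, pow_mul, h, one_pow]
  have hy1 : y ≠ 1 := fun e => by rw [e, orderOf_one] at hy; norm_num at hy
  -- `x` centralises `V'`
  have hcent : ∀ v ∈ V', x * v * x⁻¹ = v := by
    intro v hv
    set a1 := x * v * x⁻¹ with ha1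
    set a2 := x * a1 * x⁻¹ with ha2
    have ha1V : a1 ∈ V' := (Subgroup.mem_normalizer_iff.1 hxN v).1 hv
    have ha2V : a2 ∈ V' := (Subgroup.mem_normalizer_iff.1 hxN a1).1 ha1V
    have hcm : ∀ s ∈ V', ∀ t ∈ V', s * t = t * s := by
      intro s hs t ht
      have e1 := inv_eq_of_mul_eq_one_left (hV2 _ (mul_mem hs ht))
      rw [mul_inv_rev, inv_eq_of_mul_eq_one_left (hV2 t ht), inv_eq_of_mul_eq_one_left (hV2 s hs)] at e1
      exact e1.symm
    have hxa2 : x * a2 * x⁻¹ = v := by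
      calc x * a2 * x⁻¹ = (x * x * x) * v * (x * x * x)⁻¹ := by rw [ha2, ha1]; group
        _ = x ^ 3 * v * (x ^ 3)⁻¹ := by simp only [pow_succ, pow_zero, one_mul]
        _ = v := by rw [hx3]; group
    set k1 := v * a1 with hk1
    set k2 := a1 * a2 with hk2
    set k3 := a2 * v with hk3
    have hk1V : k1 ∈ V' := mul_mem hv ha1V
    have hk2V : k2 ∈ V' := mul_mem ha1V ha2V
    have hk3V : k3 ∈ V' := mul_mem ha2V hv
    have hxk1 : x * k1 * x⁻¹ = k2 := by rw [hk1, hk2, ha2, ha1]; group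
    have hxk2 : x * k2 * x⁻¹ = k3 := by
      calc x * k2 * x⁻¹ = (x * a1 * x⁻¹) * (x * a2 * x⁻¹) := by rw [hk2]; group
        _ = k3 := by rw [hxa2, ← ha2, hk3]
    have hxk3 : x * k3 * x⁻¹ = k1 := by
      calc x * k3 * x⁻¹ = (x * a2 * x⁻¹) * (x * v * x⁻¹) := by rw [hk3]; group
        _ = k1 := by rw [hxa2, ← ha1, hk1]
    have hk12 : k1 * k2 = k3 := by
      rw [hk1, hk2, hk3, ← mul_assoc, mul_assoc v a1 a1, hV2 a1 ha1V, mul_one, hcm v hv a2 ha2V]
    have hk23 : k2 * k3 = k1 := by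
      rw [hk2, hk3, hk1, ← mul_assoc, mul_assoc a1 a2 a2, hV2 a2 ha2V, mul_one, hcm a1 ha1V v hv]
    have hk31 : k3 * k1 = k2 := by
      rw [hk3, hk1, hk2, ← mul_assoc, mul_assoc a2 v v, hV2 v hv, mul_one, hcm a2 ha2V a1 ha1V]
    haveI : (frattini Q).Normal := inferInstance
    let _ : CommGroup (Q ⧸ frattini Q) :=
      { (inferInstance : Group (Q ⧸ frattini Q)) with
        mul_comm := fun a b => by
          obtain ⟨a, rfl⟩ := QuotientGroup.mk_surjective a
          obtain ⟨b, rfl⟩ := QuotientGroup.mk_surjective b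
          rw [← QuotientGroup.mk_mul, ← QuotientGroup.mk_mul, QuotientGroup.eq]
          have e : (a * b)⁻¹ * (b * a) = ⁅b⁻¹, a⁻¹⁆ := by rw [commutatorElement_def]; group
          rw [e]
          exact Cfsg.Lib.Solv.commutator_le_frattini hQp (Subgroup.commutator_mem_commutator (Subgroup.mem_top _) (Subgroup.mem_top _)) }
    let cj : G → Q → Q := fun g a => ⟨g * a * g⁻¹, (inferInstance : Q.Normal).conj_mem _ a.2 g⟩
    let F : G → Q → Q ⧸ frattini Q := fun g a => ((cj g a : Q) : Q ⧸ frattini Q)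
    have hFmul : ∀ g a b, F g (a * b) = F g a * F g b := fun g a b => by
      exact congrArg (QuotientGroup.mk' (frattini Q)) (show cj g (a * b) = cj g a * cj g b from Subtype.ext (by simp [cj, mul_assoc]))
    have hFcomp : ∀ g g' a, F g (cj g' a) = F (g * g') a := fun g g' a => by
      exact congrArg (QuotientGroup.mk' (frattini Q)) (show cj g (cj g' a) = cj (g * g') a from Subtype.ext (by simp [cj, mul_assoc]))
    have hbase : ∀ g : G, g ^ 3 = 1 → ∀ a : Q, F 1 a * F g a * F (g * g) a = 1 := by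
      intro g hg a
      have h3 : ((a : G) * g) ^ 3 = 1 := by
        -- `a * g` is a `3`-element
        have hS : IsPGroup 3 ↥(Q ⊔ Subgroup.zpowers g) := hQp.to_sup_of_normal_left
          (IsPGroup.of_card (n := (if g = 1 then 0 else 1)) (by
            rw [Nat.card_zpowers]
            split
            · simp [*]
            · rw [pow_one]; exact orderOf_eq_prime hg ‹_›))
        obtain ⟨k, hk⟩ := IsPGroup.iff_orderOf.1 hS
          ⟨(a : G) * g, mul_mem (Subgroup.mem_sup_left a.2) (Subgroup.mem_sup_right (Subgroup.mem_zpowers g))⟩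
        rw [Subgroup.orderOf_mk] at hk
        exact pow_prime h (Or.inr rfl) hk
      have hq3 : cj 1 a * cj g a * cj (g * g) a = 1 := by
        apply Subtype.ext
        show (1 * (a : G) * 1⁻¹) * (g * a * g⁻¹) * (g * g * a * (g * g)⁻¹) = 1
        have e : (1 * (a : G) * 1⁻¹) * (g * a * g⁻¹) * (g * g * a * (g * g)⁻¹) = ((a : G) * g) ^ 3 * (g ^ 3)⁻¹ := by
          simp only [pow_succ, pow_zero]; group
        rw [e, h3, hg]; group
      show (_ : Q ⧸ frattini Q) * _ * _ = _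
      rw [← QuotientGroup.mk_mul, ← QuotientGroup.mk_mul, hq3, QuotientGroup.mk_one]
    have hconj : ∀ k : G, ∀ a : Q, F k a * F (k * x) a * F (k * (x * x)) a = 1 := by
      intro k a
      have h1 : cj 1 a * cj x a * cj (x * x) a = 1 := by
        apply Subtype.ext
        show (1 * (a : G) * 1⁻¹) * (x * a * x⁻¹) * (x * x * a * (x * x)⁻¹) = 1
        have h3 : ((a : G) * x) ^ 3 = 1 := by
          have hS : IsPGroup 3 ↥(Q ⊔ Subgroup.zpowers x) := hQp.to_sup_of_normal_left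
            (IsPGroup.of_card (n := 1) (by
              rw [Nat.card_zpowers, pow_one]
              exact orderOf_eq_prime hx3 (fun e => hy1 (by rw [← hxy, e, map_one]))))
          obtain ⟨k, hk⟩ := IsPGroup.iff_orderOf.1 hS
            ⟨(a : G) * x, mul_mem (Subgroup.mem_sup_left a.2) (Subgroup.mem_sup_right (Subgroup.mem_zpowers x))⟩
          rw [Subgroup.orderOf_mk] at hk
          exact pow_prime h (Or.inr rfl) hk
        have e : (1 * (a : G) * 1⁻¹) * (x * a * x⁻¹) * (x * x * a * (x * x)⁻¹) = ((a : G) * x) ^ 3 * (x ^ 3)⁻¹ := by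
          simp only [pow_succ, pow_zero]; group
        rw [e, h3, hx3]; group
      have h2 := congrArg (F k) h1
      rw [hFmul, hFmul, hFcomp, hFcomp, hFcomp, mul_one] at h2
      refine h2.trans ?_
      exact congrArg (QuotientGroup.mk' (frattini Q)) (show cj k 1 = 1 from Subtype.ext (by simp [cj]))
    have hsqk : ∀ k k', x * k * x⁻¹ = k' → (k * x) * (k * x) = (k * k') * (x * x) := by
      intro k k' e; rw [← e]; group
    have hcube : ∀ k k' k'', x * k * x⁻¹ = k' → x * k' * x⁻¹ = k'' → k * k' * k'' = 1 → (k * x) ^ 3 = 1 := by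
      intro k k' k'' e e' e3
      calc (k * x) ^ 3 = k * (x * k * x⁻¹) * (x * (x * k * x⁻¹) * x⁻¹) * x ^ 3 := by simp only [pow_succ, pow_zero]; group
        _ = 1 := by rw [e, e', e3, hx3, one_mul]
    have hN : ∀ a : Q, F 1 a * F k1 a * F k2 a * F k3 a = F 1 a := by
      intro a
      have q0 := hbase (k1 * x) (hcube _ _ _ hxk1 hxk2 (by rw [hk12, hV2 k3 hk3V])) a
      have q1 := hbase (k2 * x) (hcube _ _ _ hxk2 hxk3 (by rw [hk23, hV2 k1 hk1V])) a
      have q2 := hbase (k3 * x) (hcube _ _ _ hxk3 hxk1 (by rw [hk31, hV2 k2 hk2V])) a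
      have q3 := hbase x hx3 a
      rw [hsqk _ _ hxk1, hk12] at q0
      rw [hsqk _ _ hxk2, hk23] at q1
      rw [hsqk _ _ hxk3, hk31] at q2
      have r0 := hconj 1 a
      rw [one_mul, one_mul] at r0
      have r1 := hconj k1 a
      have r2 := hconj k2 a
      have r3 := hconj k3 a
      have cube : F 1 a ^ 3 = 1 := by
        show ((cj 1 a : Q) : Q ⧸ frattini Q) ^ 3 = 1
        rw [← QuotientGroup.mk_pow, QuotientGroup.eq_one_iff]
        exact Cfsg.Lib.Solv.pow_mem_frattini hQp _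
      have hE : (F 1 a * F k1 a * F k2 a * F k3 a) *
          ((F 1 a * F (k1 * x) a * F (k3 * (x * x)) a) * (F 1 a * F (k2 * x) a * F (k1 * (x * x)) a) *
            (F 1 a * F (k3 * x) a * F (k2 * (x * x)) a) * (F 1 a * F x a * F (x * x) a)) =
          (F 1 a * F 1 a ^ 3) * ((F 1 a * F x a * F (x * x) a) * (F k1 a * F (k1 * x) a * F (k1 * (x * x)) a) *
            (F k2 a * F (k2 * x) a * F (k2 * (x * x)) a) * (F k3 a * F (k3 * x) a * F (k3 * (x * x)) a)) := by
        simp only [pow_succ, pow_zero, one_mul]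
        ac_rfl
      rw [q0, q1, q2, q3, r1, r2, r3, cube] at hE
      simpa using hE
    have hfix : ∀ a : Q, F k1 a = F 1 a := by
      intro a
      have e := hN (cj k1 a)
      rw [hFcomp, hFcomp, hFcomp, hFcomp, one_mul, hV2 k1 hk1V, show k2 * k1 = k3 by rw [hcm k2 hk2V k1 hk1V, hk12],
        hk31] at e
      calc F k1 a = F k1 a * F 1 a * F k3 a * F k2 a := e.symm
        _ = F 1 a * F k1 a * F k2 a * F k3 a := by ac_rfl
        _ = F 1 a := hN a
    have hk1Q : k1 ∈ Q := by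
      refine hC (Cfsg.Lib.Solv.centralizes_of_frattini (Subgroup.zpowers k1) Q
        (by rw [Subgroup.normalizer_eq_top]; exact le_top) ?_ ?_ (Subgroup.mem_zpowers _))
      · obtain ⟨m, hm⟩ := hQp.exists_card_eq
        rw [Nat.card_zpowers]
        refine Nat.Coprime.coprime_dvd_left (orderOf_dvd_of_pow_eq_one (by rw [pow_two]; exact hV2 k1 hk1V)) ?_
        refine Nat.Coprime.coprime_dvd_right ((Subgroup.card_subgroup_dvd_card _).trans hm.dvd) ?_
        exact Nat.Coprime.pow_right _ (by norm_num)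
      · intro z hz k hk
        have hz' : z = 1 ∨ z = k1 := by
          obtain ⟨i, rfl⟩ := Subgroup.mem_zpowers_iff.1 hz
          rcases Int.even_or_odd i with ⟨j, rfl⟩ | ⟨j, rfl⟩
          · left; rw [← two_mul, zpow_mul, zpow_two, hV2 k1 hk1V, one_zpow]
          · right; rw [zpow_add, zpow_mul, zpow_two, hV2 k1 hk1V, one_zpow, one_mul, zpow_one]
        rcases hz' with rfl | rfl
        · simp
        · have e := hfix ⟨k, hk⟩
          change ((cj k1 ⟨k, hk⟩ : Q) : Q ⧸ frattini Q) = ((cj 1 ⟨k, hk⟩ : Q) : Q ⧸ frattini Q) at e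
          rw [eq_comm, QuotientGroup.eq] at e
          refine ⟨_, (inferInstance : (frattini Q).Normal).conj_mem _ e ⟨k, hk⟩, ?_⟩
          simp [cj, mul_assoc]
    have hk11 : k1 = 1 := by
      obtain ⟨i, hi⟩ := IsPGroup.iff_orderOf.1 hQp ⟨k1, hk1Q⟩
      rw [Subgroup.orderOf_mk] at hi
      have h2 : orderOf k1 ∣ 2 := orderOf_dvd_of_pow_eq_one (by rw [pow_two]; exact hV2 k1 hk1V)
      rw [← orderOf_eq_one_iff]
      exact Nat.eq_one_of_dvd_coprimes (by norm_num : Nat.Coprime (3 ^ 1) 2 ) (by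
        rcases i with _ | i
        · simp [hi]
        · have : 3 ∣ 2 := (hi ▸ dvd_pow_self 3 (Nat.succ_ne_zero i) : 3 ∣ orderOf k1).trans h2
          norm_num at this) h2
    rw [hk1] at hk11
    rw [eq_inv_of_mul_eq_one_right hk11]
    exact inv_eq_of_mul_eq_one_left (hV2 v hv)
  have hyW : y ∈ W := hCW (Subgroup.mem_centralizer_iff.2 fun w hw => by
    obtain ⟨v, hv, rfl⟩ := hW w hw
    rw [← hxy, ← map_mul, ← map_mul]
    congr 1
    exact (mul_inv_eq_iff_eq_mul.1 (hcent v hv)).symm)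
  obtain ⟨i, hi⟩ := IsPGroup.iff_orderOf.1 (Cfsg.Lib.Transfer.pCore_isPGroup (G := G ⧸ Q) 2) ⟨y, hyW⟩
  rw [Subgroup.orderOf_mk, hy] at hi
  have := Nat.prime_three.dvd_of_dvd_pow (show 3 ∣ 2 ^ i by rw [← hi])
  norm_num at this

/-- A finite group in which every element has order dividing `6` has `2`-length at most `1` and `3`-length at most `1`. -/
theorem result {G : Type*} [Group G] [Finite G] (h : ∀ x : G, x ^ 6 = 1) : Cfsg.PLengthLE 2 1 G ∧ Cfsg.PLengthLE 3 1 G := by
  haveI := Fact.mk Nat.prime_two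
  haveI := Fact.mk Nat.prime_three
  have hq : ∀ (U : Subgroup G) [U.Normal], ∀ x : G ⧸ U, x ^ 6 = 1 := fun U _ x => by
    obtain ⟨z, rfl⟩ := QuotientGroup.mk_surjective x
    rw [← QuotientGroup.mk_pow, h, QuotientGroup.mk_one]
  constructor
  · refine Cfsg.Lib.PLocal.PLengthOne.pLengthLE_one (p := 2) fun U _ hU => two (hq U) ?_
    subst hU
    exact Cfsg.Lib.Solv.pPrimeCore_quotient_eq_bot 2
  · refine Cfsg.Lib.PLocal.PLengthOne.pLengthLE_one (p := 3) fun U _ hU => three (hq U) ?_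
    subst hU
    exact Cfsg.Lib.Solv.pPrimeCore_quotient_eq_bot 3

end Cfsg.Agent.S4227
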