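import Cfsg.Statements.S4274
import Cfsg.Agent.Lib.SimpleOrder.Order175560

set_option autoImplicit false
set_option synthInstance.maxSize 8192
set_option synthInstance.maxHeartbeats 400000
set_option maxHeartbeats 1600000
open Cfsg
open scoped Pointwise commutatorElement

namespace Cfsg.Agent.S4274

universe u

open Cfsg.Lib.SimpleOrder Cfsg.Lib.SimpleOrder.DefectOne Cfsg.Lib.SimpleOrder.O175560

theorem no_two_19 : ∀ x ∈ ([(77, 1), (77, 2), (77, 3), (77, 4), (77, 5), (77, 6), (77, 10), (77, 12), (77, 15), (77, 30), (210, 2), (210, 11)] : List (ℕ × ℕ)),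
    NoTwo 19 (19 * (2 * x.1 * x.2)) x.2 := by
  unfold NoTwo TwoPat
  decide +kernel

theorem no_three_19 : ∀ x ∈ ([(77, 1), (77, 2), (77, 4), (20, 1)] : List (ℕ × ℕ)),
    NoThree 19 (19 * (3 * x.1 * x.2)) x.2 := by
  unfold NoThree ThreePat
  decide +kernel

theorem no_two_other : NoTwo 11 8778 3 ∧ NoTwo 11 17556 6 ∧ NoTwo 5 7980 3 ∧ NoTwo 7 35112 44 ∧
    NoTwo 7 35112 2 ∧ NoTwo 11 58520 20 ∧ NoTwo 11 87780 30 := by
  unfold NoTwo TwoPat
  decide +kernel

theorem no_simple {G : Type u} [Group G] [Finite G] [IsSimpleGroup G] (k : ℕ) (hk : k ∣ 9240) (hk1 : 1 < k)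
    (hk2 : k ≠ 9240) (hcard : Nat.card G = 19 * k) : False := by
  haveI : Fact (Nat.Prime 19) := ⟨by norm_num⟩
  haveI : Fact (Nat.Prime 11) := ⟨by norm_num⟩
  haveI : Fact (Nat.Prime 7) := ⟨by norm_num⟩
  haveI : Fact (Nat.Prime 5) := ⟨by norm_num⟩
  have h19k : ¬ 19 ∣ k := fun h => absurd (h.trans hk) (by norm_num)
  have hG : ¬ IsMulCommutative G := not_comm_of_not_prime (by
    rw [hcard]; exact Nat.not_prime_mul (by norm_num) (by omega))
  have hP19 := fun P : Sylow 19 G => sylow_card hcard rfl h19k P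
  obtain ⟨n, m, c, hC, hn, hmod, hn1, hmd, hm1, hr, h2, -, h3, -⟩ :=
    restrictions_centralizer 19 k hcard h19k hk1
  have hnk : n ∣ k := ⟨c * m, by rw [← hr]; ring⟩
  have hmd' : m = 2 ∨ m = 3 ∨ m = 6 ∨ m = 9 ∨ m = 18 :=
    ((by decide +kernel : ∀ m ∈ Nat.divisors 18, m = 1 ∨ m = 2 ∨ m = 3 ∨ m = 6 ∨ m = 9 ∨ m = 18) m
      (Nat.mem_divisors.2 ⟨hmd, by norm_num⟩)).resolve_left hm1
  have hnv : n = 20 ∨ n = 77 ∨ n = 210 ∨ n = 1540 :=
    ((by decide +kernel : ∀ n ∈ Nat.divisors 9240, n % 19 = 1 → n = 1 ∨ n = 20 ∨ n = 77 ∨ n = 210 ∨ n = 1540) n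
      (Nat.mem_divisors.2 ⟨hnk.trans hk, by norm_num⟩) hmod).resolve_left hn1
  have hkN : 19 * k < 90000 := by
    obtain ⟨e, he⟩ := hk
    have : 2 ≤ e := by
      rcases e with _ | _ | e <;> simp_all
    nlinarith
  have two : m = 2 → NoTwo 19 (19 * k) c → False := by
    intro hm hno
    obtain ⟨f, f₀, hpat, hs, -⟩ := h2 hm (by norm_num)
    rw [hcard] at hpat
    exact no_two hkN hno hpat hs
  have three : m = 3 → NoThree 19 (19 * k) c → False := by
    intro hm hno
    obtain ⟨f, g, f₀, hpat, hs, hs'⟩ := h3 hm (by norm_num)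
    rw [hcard] at hpat
    exact no_three hkN hno hpat hs hs'
  clear h2 h3
  have five : n = 77 → c = 5 ∨ c = 10 ∨ c = 20 → False := by
    intro h77 h5
    have hk5 : 5 ∣ k := by
      rw [← hr, mul_assoc]
      exact dvd_mul_of_dvd_left (by omega) _
    obtain ⟨e, he⟩ := hk5
    have h25 : ¬ 5 ∣ 19 * e := by
      intro h
      have he5 : 5 ∣ e := ((Nat.coprime_primes (by norm_num) (by norm_num)).2 (by norm_num : (5 : ℕ) ≠ 19)).dvd_of_dvd_mul_left h
      obtain ⟨e', rfl⟩ := he5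
      exact absurd ((Dvd.intro e' (by rw [he]; ring) : 25 ∣ k).trans hk) (by norm_num)
    exact five_in_centralizer hG ⟨k, hcard⟩ (fun Q => sylow_card hcard (by rw [he]; ring) h25 Q)
      (hn ▸ h77) hC hP19 h5
  have c420 : k = 420 → c = 1 → False := by
    rintro rfl rfl
    have hP5 := fun Q : Sylow 5 G => sylow_card hcard (r := 1596) (by norm_num) (by norm_num) Q
    obtain ⟨n', m', c', hC', hn', hmod', hn1', hmd', hm1', hr', h2', -⟩ :=
      restrictions_centralizer 5 1596 (G := G) hcard (by norm_num) (by norm_num)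
    rcases (by decide +kernel : ∀ n ∈ Nat.divisors 1596, ∀ m ∈ Nat.divisors 4, n % 5 = 1 → n ≠ 1 → m ≠ 1 →
        n * m ∣ 1596 → n = 6 ∨ n = 21 ∧ (m = 2 ∨ m = 4) ∨ n = 266 ∧ m = 2) n'
      (Nat.mem_divisors.2 ⟨⟨c' * m', by rw [← hr']; ring⟩, by norm_num⟩) m' (Nat.mem_divisors.2 ⟨hmd', by norm_num⟩)
      hmod' hn1' hm1' ⟨c', by rw [← hr']; ring⟩ with rfl | ⟨rfl, e⟩ | ⟨rfl, rfl⟩
    · have := card_dvd_of_sylow_succ hG (p := 5) (by norm_num) (hn'.symm)
      rw [hcard] at this; norm_num at this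
    · have h19c : 19 ∣ c' := by rcases e with rfl | rfl <;> omega
      have := link hP5 hP19 (by norm_num) hC' hC h19c
      norm_num at this
    · obtain ⟨f, f₀, hpat, hs, -⟩ := h2' rfl (by norm_num)
      rw [hcard] at hpat
      obtain rfl : c' = 3 := by omega
      exact no_two (by norm_num) no_two_other.2.2.1 hpat hs
  have c462 : k = 462 ∨ k = 924 → False := by
    intro hk'
    obtain ⟨r, hr11, hrv⟩ : ∃ r, Nat.card G = 11 * r ∧ (r = 798 ∨ r = 1596) := by
      rcases hk' with rfl | rfl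
      · exact ⟨798, hcard, Or.inl rfl⟩
      · exact ⟨1596, hcard, Or.inr rfl⟩
    obtain ⟨n', m', c', hC', hn', hmod', hn1', hmd', hm1', hr', h2', -⟩ :=
      restrictions_centralizer 11 r (G := G) hr11 (by omega) (by omega)
    have hrm : r ∈ [798, 1596] := by rcases hrv with rfl | rfl <;> simp
    rcases (by decide +kernel : ∀ r ∈ [798, 1596], ∀ n ∈ Nat.divisors r, ∀ m ∈ Nat.divisors 10, n % 11 = 1 → n ≠ 1 →
        m ≠ 1 → n * m ∣ r → n = 12 ∨ n = 133 ∧ m = 2) r hrm n'
      (Nat.mem_divisors.2 ⟨⟨c' * m', by rw [← hr']; ring⟩, by omega⟩) m' (Nat.mem_divisors.2 ⟨hmd', by norm_num⟩)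
      hmod' hn1' hm1' ⟨c', by rw [← hr']; ring⟩ with rfl | ⟨rfl, rfl⟩
    · have := card_dvd_of_sylow_succ hG (p := 11) (by norm_num) (hn'.symm)
      rw [hr11] at this
      rcases hrv with rfl | rfl <;> norm_num at this
    · obtain ⟨f, f₀, hpat, hs, -⟩ := h2' rfl (by norm_num)
      rw [hr11] at hpat
      rcases hrv with rfl | rfl
      · obtain rfl : c' = 3 := by omega
        exact no_two (by norm_num) no_two_other.1 hpat hs
      · obtain rfl : c' = 6 := by omega
        exact no_two (by norm_num) no_two_other.2.1 hpat hs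
  have c1848 : k = 1848 → c = 8 ∨ c = 4 → False := by
    rintro rfl hc8
    have hP7 := fun Q : Sylow 7 G => sylow_card hcard (r := 5016) (by norm_num) (by norm_num) Q
    obtain ⟨n', m', c', hC', hn', hmod', hn1', hmd', hm1', hr', h2', -⟩ :=
      restrictions_centralizer 7 5016 (G := G) hcard (by norm_num) (by norm_num)
    rcases (by decide +kernel : ∀ n ∈ Nat.divisors 5016, ∀ m ∈ Nat.divisors 6, n % 7 = 1 → n ≠ 1 → m ≠ 1 →
        n * m ∣ 5016 → n = 8 ∨ n = 22 ∧ (m = 2 ∨ m = 3 ∨ m = 6) ∨ n = 57 ∧ m = 2 ∨ n = 1254 ∧ m = 2) n'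
      (Nat.mem_divisors.2 ⟨⟨c' * m', by rw [← hr']; ring⟩, by norm_num⟩) m' (Nat.mem_divisors.2 ⟨hmd', by norm_num⟩)
      hmod' hn1' hm1' ⟨c', by rw [← hr']; ring⟩ with rfl | ⟨rfl, e⟩ | ⟨rfl, rfl⟩ | ⟨rfl, rfl⟩
    · have := card_dvd_of_sylow_succ hG (p := 7) (by norm_num) (hn'.symm)
      rw [hcard] at this; norm_num at this
    · have h19c : 19 ∣ c' := by rcases e with rfl | rfl | rfl <;> omega
      have := link hP7 hP19 (by norm_num) hC' hC h19c
      rcases hc8 with rfl | rfl <;> norm_num at this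
    · obtain ⟨f, f₀, hpat, hs, -⟩ := h2' rfl (by norm_num)
      rw [hcard] at hpat
      obtain rfl : c' = 44 := by omega
      exact no_two (by norm_num) no_two_other.2.2.2.1 hpat hs
    · obtain ⟨f, f₀, hpat, hs, -⟩ := h2' rfl (by norm_num)
      rw [hcard] at hpat
      obtain rfl : c' = 2 := by omega
      exact no_two (by norm_num) no_two_other.2.2.2.2.1 hpat hs
  have c3080 : k = 3080 → n = 1540 → c = 1 → False := by
    rintro rfl hn19 rfl
    have hP11 := fun Q : Sylow 11 G => sylow_card hcard (r := 5320) (by norm_num) (by norm_num) Q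
    have hP7 := fun Q : Sylow 7 G => sylow_card hcard (r := 8360) (by norm_num) (by norm_num) Q
    have hP5 := fun Q : Sylow 5 G => sylow_card hcard (r := 11704) (by norm_num) (by norm_num) Q
    obtain ⟨a, a', x, hA, -, hamod, ha1, had, ha1', har, h2', -⟩ :=
      restrictions_centralizer 11 5320 (G := G) hcard (by norm_num) (by norm_num)
    have hx : x = 19 ∨ x = 8 ∨ x = 4 := by
      rcases (by decide +kernel : ∀ n ∈ Nat.divisors 5320, ∀ m ∈ Nat.divisors 10, n % 11 = 1 → n ≠ 1 → m ≠ 1 →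
          n * m ∣ 5320 → n = 56 ∧ m = 5 ∨ n = 133 ∧ (m = 2 ∨ m = 5 ∨ m = 10)) a
        (Nat.mem_divisors.2 ⟨⟨x * a', by rw [← har]; ring⟩, by norm_num⟩) a' (Nat.mem_divisors.2 ⟨had, by norm_num⟩)
        hamod ha1 ha1' ⟨x, by rw [← har]; ring⟩ with ⟨rfl, rfl⟩ | ⟨rfl, rfl | rfl | rfl⟩
      · omega
      · exfalso
        obtain ⟨f, f₀, hpat, hs, -⟩ := h2' rfl (by norm_num)
        rw [hcard] at hpat
        obtain rfl : x = 20 := by omega
        exact no_two (by norm_num) no_two_other.2.2.2.2.2.1 hpat hs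
      · omega
      · omega
    have hx19 : x = 8 ∨ x = 4 := by
      refine hx.resolve_left fun e => ?_
      have := link hP11 hP19 (by norm_num) hA hC (by omega)
      norm_num at this
    obtain ⟨b, b', y, hB, hb, hbmod, hb1, hbd, hb1', hbr, -⟩ :=
      restrictions_centralizer 7 8360 (G := G) hcard (by norm_num) (by norm_num)
    have hy : b = 22 ∧ y = 190 ∨ b = 190 ∧ y = 22 ∨ b = 4180 ∧ y = 1 := by
      rcases (by decide +kernel : ∀ n ∈ Nat.divisors 8360, ∀ m ∈ Nat.divisors 6, n % 7 = 1 → n ≠ 1 → m ≠ 1 →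
          n * m ∣ 8360 → m = 2 ∧ (n = 22 ∨ n = 190 ∨ n = 4180)) b
        (Nat.mem_divisors.2 ⟨⟨y * b', by rw [← hbr]; ring⟩, by norm_num⟩) b' (Nat.mem_divisors.2 ⟨hbd, by norm_num⟩)
        hbmod hb1 hb1' ⟨y, by rw [← hbr]; ring⟩ with ⟨rfl, rfl | rfl | rfl⟩ <;> omega
    obtain ⟨hb', rfl⟩ : b = 4180 ∧ y = 1 := by
      rcases hy with ⟨-, rfl⟩ | ⟨-, rfl⟩ | h
      · have := link hP7 hP19 (by norm_num) hB hC (by norm_num); norm_num at this
      · have := link hP7 hP11 (by norm_num) hB hA (by norm_num); rcases hx19 with rfl | rfl <;> norm_num at this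
      · exact h
    obtain ⟨d, d', z, hD, hd, hdmod, hd1, hdd, hd1', hdr, -⟩ :=
      restrictions_centralizer 5 11704 (G := G) hcard (by norm_num) (by norm_num)
    have hd' : d = 2926 := by
      rcases (by decide +kernel : ∀ n ∈ Nat.divisors 11704, ∀ m ∈ Nat.divisors 4, n % 5 = 1 → n ≠ 1 → m ≠ 1 →
          n * m ∣ 11704 → n = 2926 ∨ 19 ∣ 11704 / (n * m) ∨ 11 ∣ 11704 / (n * m) ∨ 7 ∣ 11704 / (n * m)) d
        (Nat.mem_divisors.2 ⟨⟨z * d', by rw [← hdr]; ring⟩, by norm_num⟩) d' (Nat.mem_divisors.2 ⟨hdd, by norm_num⟩)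
        hdmod hd1 hd1' ⟨z, by rw [← hdr]; ring⟩ with e | e
      · exact e
      have hzv : 11704 / (d * d') = z := by
        refine Nat.div_eq_of_eq_mul_left (Nat.pos_of_ne_zero fun e0 => ?_) (by rw [← hdr]; ring)
        have : z * d' * d = 0 := by rw [mul_assoc, mul_comm d', e0, mul_zero]
        omega
      rw [hzv] at e
      rcases e with e | e | e
      · have := link hP5 hP19 (by norm_num) hD hC e; norm_num at this
      · have := link hP5 hP11 (by norm_num) hD hA e; rcases hx19 with rfl | rfl <;> norm_num at this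
      · have := link hP5 hP7 (by norm_num) hD hB e; norm_num at this
    have := count_three (G := G) (p := 19) (q := 7) (s := 5) (by norm_num) (by norm_num) (by norm_num)
    rw [O168.card_order_eq hP19, O168.card_order_eq hP7, O168.card_order_eq hP5, ← hn, ← hb, ← hd, hn19, hb', hd',
      hcard] at this
    norm_num at this
  have c4620 : k = 4620 → n = 1540 → c = 1 → False := by
    rintro rfl hn19 rfl
    have hP11 := fun Q : Sylow 11 G => sylow_card hcard (r := 7980) (by norm_num) (by norm_num) Q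
    have hP7 := fun Q : Sylow 7 G => sylow_card hcard (r := 12540) (by norm_num) (by norm_num) Q
    have hP5 := fun Q : Sylow 5 G => sylow_card hcard (r := 17556) (by norm_num) (by norm_num) Q
    obtain ⟨a, a', x, hA, -, hamod, ha1, had, ha1', har, h2', -⟩ :=
      restrictions_centralizer 11 7980 (G := G) hcard (by norm_num) (by norm_num)
    have hx : x = 133 ∨ x = 19 ∨ x = 12 ∨ x = 6 ∨ x = 1 := by
      rcases (by decide +kernel : ∀ n ∈ Nat.divisors 7980, ∀ m ∈ Nat.divisors 10, n % 11 = 1 → n ≠ 1 → m ≠ 1 →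
          n * m ∣ 7980 → n = 12 ∧ m = 5 ∨ n = 133 ∧ (m = 2 ∨ m = 5 ∨ m = 10) ∨ n = 210 ∧ m = 2 ∨ n = 1596 ∧ m = 5) a
        (Nat.mem_divisors.2 ⟨⟨x * a', by rw [← har]; ring⟩, by norm_num⟩) a' (Nat.mem_divisors.2 ⟨had, by norm_num⟩)
        hamod ha1 ha1' ⟨x, by rw [← har]; ring⟩ with ⟨rfl, rfl⟩ | ⟨rfl, rfl | rfl | rfl⟩ | ⟨rfl, rfl⟩ | ⟨rfl, rfl⟩
      · omega
      · exfalso
        obtain ⟨f, f₀, hpat, hs, -⟩ := h2' rfl (by norm_num)
        rw [hcard] at hpat
        obtain rfl : x = 30 := by omega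
        exact no_two (by norm_num) no_two_other.2.2.2.2.2.2 hpat hs
      all_goals omega
    have hx' : x = 12 ∨ x = 6 ∨ x = 1 := by
      rcases hx with rfl | rfl | h
      · have := link hP11 hP19 (by norm_num) hA hC (by norm_num); norm_num at this
      · have := link hP11 hP19 (by norm_num) hA hC (by norm_num); norm_num at this
      · exact h
    obtain ⟨d, d', z, hD, hd, hdmod, hd1, hdd, hd1', hdr, -⟩ :=
      restrictions_centralizer 5 17556 (G := G) hcard (by norm_num) (by norm_num)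
    obtain ⟨hd', rfl⟩ : d = 2926 ∧ z = 3 := by
      rcases (by decide +kernel : ∀ n ∈ Nat.divisors 17556, ∀ m ∈ Nat.divisors 4, n % 5 = 1 → n ≠ 1 → m ≠ 1 →
          n * m ∣ 17556 → n = 2926 ∧ m = 2 ∨ 19 ∣ 17556 / (n * m) ∨ 11 ∣ 17556 / (n * m)) d
        (Nat.mem_divisors.2 ⟨⟨z * d', by rw [← hdr]; ring⟩, by norm_num⟩) d' (Nat.mem_divisors.2 ⟨hdd, by norm_num⟩)
        hdmod hd1 hd1' ⟨z, by rw [← hdr]; ring⟩ with ⟨rfl, rfl⟩ | e
      · exact ⟨rfl, by omega⟩
      have hzv : 17556 / (d * d') = z := by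
        refine Nat.div_eq_of_eq_mul_left (Nat.pos_of_ne_zero fun e0 => ?_) (by rw [← hdr]; ring)
        have : z * d' * d = 0 := by rw [mul_assoc, mul_comm d', e0, mul_zero]
        omega
      rw [hzv] at e
      rcases e with e | e
      · have := link hP5 hP19 (by norm_num) hD hC e; norm_num at this
      · have := link hP5 hP11 (by norm_num) hD hA e; rcases hx' with rfl | rfl | rfl <;> norm_num at this
    obtain ⟨b, b', y, hB, hb, hbmod, hb1, hbd, hb1', hbr, -⟩ :=
      restrictions_centralizer 7 12540 (G := G) hcard (by norm_num) (by norm_num)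
    have hb' : b = 4180 := by
      rcases (by decide +kernel : ∀ n ∈ Nat.divisors 12540, ∀ m ∈ Nat.divisors 6, n % 7 = 1 → n ≠ 1 → m ≠ 1 →
          n * m ∣ 12540 → n = 4180 ∨ 19 ∣ 12540 / (n * m) ∨ 11 ∣ 12540 / (n * m) ∨ 5 ∣ 12540 / (n * m)) b
        (Nat.mem_divisors.2 ⟨⟨y * b', by rw [← hbr]; ring⟩, by norm_num⟩) b' (Nat.mem_divisors.2 ⟨hbd, by norm_num⟩)
        hbmod hb1 hb1' ⟨y, by rw [← hbr]; ring⟩ with e | e
      · exact e
      have hyv : 12540 / (b * b') = y := by
        refine Nat.div_eq_of_eq_mul_left (Nat.pos_of_ne_zero fun e0 => ?_) (by rw [← hbr]; ring)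
        have : y * b' * b = 0 := by rw [mul_assoc, mul_comm b', e0, mul_zero]
        omega
      rw [hyv] at e
      rcases e with e | e | e
      · have := link hP7 hP19 (by norm_num) hB hC e; norm_num at this
      · have := link hP7 hP11 (by norm_num) hB hA e; rcases hx' with rfl | rfl | rfl <;> norm_num at this
      · have := link hP7 hP5 (by norm_num) hB hD e; norm_num at this
    have := count_fifteen (G := G) (by rw [hcard]) (O168.card_order_eq hP19) (O168.card_order_eq hP7) hP5 hD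
    rw [O168.card_order_eq hP5, ← hn, ← hb, ← hd, hn19, hb', hd'] at this
    norm_num at this
  rcases hnv with rfl | rfl | rfl | rfl
  · have := card_dvd_of_sylow_succ hG (p := 19) (by norm_num) hn.symm
    rw [hcard] at this
    have h180 : k ∣ 180 := by
      have h' : 38 * k ∣ 38 * 180 := by
        rw [show 38 * k = 2 * (19 * k) by ring]; exact this
      exact (Nat.mul_dvd_mul_iff_left (by norm_num)).1 h'
    have h60 : k ∣ 60 := by simpa using Nat.dvd_gcd hk h180
    have hcm : c * m ∣ 3 := by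
      rw [← hr, mul_comm _ 20, show (60 : ℕ) = 20 * 3 by norm_num] at h60
      exact (Nat.mul_dvd_mul_iff_left (by norm_num)).1 h60
    rcases (Nat.dvd_prime Nat.prime_three).1 hcm with e | e
    · rcases hmd' with rfl | rfl | rfl | rfl | rfl <;> omega
    · obtain ⟨rfl, rfl⟩ : m = 3 ∧ c = 1 := by rcases hmd' with rfl | rfl | rfl | rfl | rfl <;> omega
      subst hr
      exact three rfl (no_three_19 (20, 1) (by simp))
  · subst hr
    have hcm : c * m ∣ 120 := (Nat.mul_dvd_mul_iff_right (by norm_num : 0 < 77)).1 (by simpa using hk)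
    have hc : c ∈ Nat.divisors 120 := Nat.mem_divisors.2 ⟨(dvd_mul_right c m).trans hcm, by norm_num⟩
    have hm : m ∈ Nat.divisors 18 := Nat.mem_divisors.2 ⟨hmd, by norm_num⟩
    rcases (by decide +kernel : ∀ c ∈ Nat.divisors 120, ∀ m ∈ Nat.divisors 18, m ≠ 1 → c * m ∣ 120 → c * m ≠ 120 →
        c = 5 ∨ c = 10 ∨ c = 20 ∨ (m = 2 ∧ c ∈ [1, 2, 3, 4, 6, 12, 15, 30]) ∨ (m = 3 ∧ c ∈ [1, 2, 4]) ∨
        (c * m * 77 = 1848 ∧ (c = 8 ∧ m = 3 ∨ c = 4 ∧ m = 6)) ∨ (m = 6 ∧ (c = 1 ∨ c = 2))) c hc m hm hm1 hcm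
      (by omega) with e | e | e | ⟨rfl, e⟩ | ⟨rfl, e⟩ | ⟨e, e'⟩ | ⟨rfl, e⟩
    · exact five rfl (Or.inl e)
    · exact five rfl (Or.inr (Or.inl e))
    · exact five rfl (Or.inr (Or.inr e))
    · refine two rfl ?_
      have := no_two_19 (77, c) (by simp only [List.mem_cons, List.not_mem_nil, or_false] at e ⊢; rcases e with rfl | rfl | rfl | rfl | rfl | rfl | rfl | rfl <;> simp)
      rwa [show 19 * (c * 2 * 77) = 19 * (2 * 77 * c) by ring]
    · refine three rfl ?_
      have := no_three_19 (77, c) (by simp only [List.mem_cons, List.not_mem_nil, or_false] at e ⊢; rcases e with rfl | rfl | rfl <;> simp)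
      rwa [show 19 * (c * 3 * 77) = 19 * (3 * 77 * c) by ring]
    · exact c1848 e (by omega)
    · exact c462 (by omega)
  · subst hr
    have hcm : c * m ∣ 44 := (Nat.mul_dvd_mul_iff_right (by norm_num : 0 < 210)).1 (by simpa using hk)
    have hc : c ∈ Nat.divisors 44 := Nat.mem_divisors.2 ⟨(dvd_mul_right c m).trans hcm, by norm_num⟩
    have hm : m ∈ Nat.divisors 18 := Nat.mem_divisors.2 ⟨hmd, by norm_num⟩
    obtain ⟨rfl, e⟩ := (by decide +kernel : ∀ c ∈ Nat.divisors 44, ∀ m ∈ Nat.divisors 18, m ≠ 1 → c * m ∣ 44 →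
        c * m ≠ 44 → m = 2 ∧ (c = 1 ∨ c = 2 ∨ c = 11)) c hc m hm hm1 hcm (by omega)
    rcases e with rfl | rfl | rfl
    · exact c420 rfl rfl
    · exact two rfl (no_two_19 (210, 2) (by simp))
    · exact two rfl (no_two_19 (210, 11) (by simp))
  · subst hr
    have hcm : c * m ∣ 6 := (Nat.mul_dvd_mul_iff_right (by norm_num : 0 < 1540)).1 (by simpa using hk)
    have hc : c ∈ Nat.divisors 6 := Nat.mem_divisors.2 ⟨(dvd_mul_right c m).trans hcm, by norm_num⟩
    have hm : m ∈ Nat.divisors 18 := Nat.mem_divisors.2 ⟨hmd, by norm_num⟩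
    obtain ⟨rfl, rfl | rfl⟩ := (by decide +kernel : ∀ c ∈ Nat.divisors 6, ∀ m ∈ Nat.divisors 18, m ≠ 1 → c * m ∣ 6 →
        c * m ≠ 6 → c = 1 ∧ (m = 2 ∨ m = 3)) c hc m hm hm1 hcm (by omega)
    · exact c3080 rfl rfl rfl
    · exact c4620 rfl rfl rfl

/-- the reduction to proper normal subgroups and quotients -/
theorem step {G : Type u} [Group G] [Finite G] (hdvd : Nat.card G ∣ 175560) (h19 : 19 ∣ Nat.card G)
    (IH : ∀ (H : Type u) [Group H] [Finite H], Nat.card H < Nat.card G → Nat.card H ∣ Nat.card G → 19 ∣ Nat.card H →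
      ∀ P : Sylow 19 H, (P : Subgroup H).Normal)
    (A : Subgroup G) [hA : A.Normal] (hbot : A ≠ ⊥) (htop : A ≠ ⊤) (P : Sylow 19 G) : (P : Subgroup G).Normal := by
  haveI : Fact (Nat.Prime 19) := ⟨by norm_num⟩
  obtain ⟨r, hr⟩ := h19
  have hr19 : ¬ 19 ∣ r := by
    rintro ⟨e, rfl⟩
    exact absurd ((Dvd.intro e (by rw [hr]; ring) : 361 ∣ Nat.card G).trans hdvd) (by norm_num)
  have hP : Nat.card (P : Subgroup G) = 19 := sylow_card hr rfl hr19 P
  have inner : ∀ B : Subgroup G, B.Normal → B ≠ ⊤ → 19 ∣ Nat.card B → (P : Subgroup G).Normal := by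
    intro B hB hBt h19B
    haveI := hB
    have hlt : Nat.card B < Nat.card G :=
      lt_of_le_of_ne (Subgroup.card_le_card_group B) fun e => hBt (Subgroup.eq_top_of_card_eq B e)
    obtain ⟨R⟩ : Nonempty (Sylow 19 B) := inferInstance
    haveI := IH B hlt (Subgroup.card_subgroup_dvd_card B) h19B R
    haveI : (R : Subgroup B).Characteristic := Sylow.characteristic_of_normal R inferInstance
    obtain ⟨e, he⟩ := h19B
    have hR : Nat.card (R : Subgroup B) = 19 := sylow_card he rfl (fun h => hr19 (by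
      obtain ⟨t, ht⟩ := Subgroup.card_subgroup_dvd_card B
      rw [he, hr, mul_assoc] at ht
      exact Nat.eq_of_mul_eq_mul_left (by norm_num) ht ▸ dvd_mul_of_dvd_left h t)) R
    have hc : Nat.card ((R : Subgroup B).map B.subtype) = 19 := by
      rw [Subgroup.card_map_of_injective B.subtype_injective, hR]
    haveI : ((R : Subgroup B).map B.subtype).Normal := inferInstance
    have hle : (R : Subgroup B).map B.subtype ≤ P := by
      have hK : IsPGroup 19 ((R : Subgroup B).map B.subtype) := IsPGroup.of_card (n := 1) (by rw [hc, pow_one])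
      exact le_sup_right.trans (le_of_eq (P.is_maximal' (P.isPGroup'.to_sup_of_normal_right hK) le_sup_left))
    rw [← Subgroup.eq_of_le_of_card_ge hle (by rw [hc, hP])]
    infer_instance
  by_cases h19A : 19 ∣ Nat.card A
  · exact inner A hA htop h19A
  have hAi : Nat.card (G ⧸ A) * Nat.card A = Nat.card G := (Subgroup.card_eq_card_quotient_mul_card_subgroup A).symm
  have h19Q : 19 ∣ Nat.card (G ⧸ A) :=
    ((Nat.Prime.dvd_mul (by norm_num)).1 (hAi ▸ ⟨r, hr⟩ : 19 ∣ Nat.card (G ⧸ A) * Nat.card A)).resolve_right h19A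
  have hA1 : 1 < Nat.card A := (Subgroup.one_lt_card_iff_ne_bot A).2 hbot
  have hQlt : Nat.card (G ⧸ A) < Nat.card G := by
    have : 0 < Nat.card (G ⧸ A) := Nat.card_pos
    nlinarith
  have hQn := IH (G ⧸ A) hQlt ⟨_, hAi.symm⟩ h19Q (P.mapSurjective (QuotientGroup.mk'_surjective A))
  obtain ⟨M, hM⟩ : ∃ M : Subgroup G, M = ((P : Subgroup G).map (QuotientGroup.mk' A)).comap (QuotientGroup.mk' A) :=
    ⟨_, rfl⟩
  have hMn : M.Normal := by
    rw [hM]
    haveI : ((P : Subgroup G).map (QuotientGroup.mk' A)).Normal := hQn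
    infer_instance
  have hPM : (P : Subgroup G) ≤ M := hM ▸ Subgroup.le_comap_map _ _
  by_cases hMt : M = ⊤
  swap
  · exact inner M hMn hMt (by have := Subgroup.card_dvd_of_le hPM; rwa [hP] at this)
  -- `G` is `A` extended by `P`
  rw [← Subgroup.normalizer_eq_top_iff]
  apply Subgroup.eq_top_of_card_eq
  refine Nat.dvd_antisymm (Subgroup.card_subgroup_dvd_card _) ((Nat.dvd_iff_prime_pow_dvd_dvd _ _).2 fun q j hq hj => ?_)
  rcases Nat.eq_zero_or_pos j with rfl | hj0
  · simp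
  by_cases hq19 : q = 19
  · subst hq19
    have hjr : 19 ^ j ∣ 19 := by
      rw [hr] at hj
      exact (Nat.Coprime.pow_left j ((Nat.Prime.coprime_iff_not_dvd (by norm_num)).2 hr19)).dvd_of_dvd_mul_right hj
    exact hjr.trans (dvd_trans (dvd_of_eq hP.symm) (Subgroup.card_dvd_of_le Subgroup.le_normalizer))
  haveI : Fact q.Prime := ⟨hq⟩
  have hQ19 : Nat.card (G ⧸ A) ∣ 19 := by
    have h1 : (P : Subgroup G).map (QuotientGroup.mk' A) = ⊤ := by
      apply Subgroup.comap_injective (QuotientGroup.mk'_surjective A)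
      rw [← hM, hMt, Subgroup.comap_top]
    rw [← Subgroup.card_top (G := G ⧸ A), ← h1]
    exact (Subgroup.card_map_dvd _ _).trans (dvd_of_eq hP)
  have hjA : q ^ j ∣ Nat.card A := by
    rw [← hAi] at hj
    exact (Nat.Coprime.pow_left j (Nat.Coprime.of_dvd_right hQ19
      ((Nat.coprime_primes hq (by norm_num)).2 hq19))).dvd_of_dvd_mul_left hj
  obtain ⟨R⟩ : Nonempty (Sylow q A) := inferInstance
  have hjR : q ^ j ∣ Nat.card (R : Subgroup A) := R.pow_dvd_card_of_pow_dvd_card hjA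
  have hRle : Nat.card (R : Subgroup A) ≤ 11 := by
    obtain ⟨i, hi⟩ := IsPGroup.iff_card.1 R.isPGroup'
    have hd : Nat.card (R : Subgroup A) ∣ 9240 := by
      have h1 : Nat.card (R : Subgroup A) ∣ 19 * 9240 :=
        ((Subgroup.card_subgroup_dvd_card _).trans (Subgroup.card_subgroup_dvd_card A)).trans (by simpa using hdvd)
      rw [hi] at h1 ⊢
      exact (Nat.Coprime.pow_left i ((Nat.coprime_primes hq (by norm_num)).2 hq19)).dvd_of_dvd_mul_left h1
    rcases Nat.eq_zero_or_pos i with rfl | hi0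
    · simp [hi]
    rw [hi] at hd ⊢
    have h1 := (by decide +kernel : ∀ d ∈ Nat.divisors 9240, d ≤ 11 ∨ ¬ IsPrimePow d) (q ^ i)
      (Nat.mem_divisors.2 ⟨hd, by norm_num⟩)
    exact h1.resolve_right fun h => h (hq.isPrimePow.pow hi0.ne')
  obtain ⟨N, hN⟩ : ∃ N : Subgroup G, N = Subgroup.normalizer (((R : Subgroup A).map A.subtype : Subgroup G) : Set G) :=
    ⟨_, rfl⟩
  have hfr : N ⊔ A = ⊤ := hN ▸ Sylow.normalizer_sup_eq_top R
  have h19N : 19 ∣ Nat.card N := by
    refine h19Q.trans ?_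
    have h1 : N.map (QuotientGroup.mk' A) = ⊤ := by
      apply Subgroup.comap_injective (QuotientGroup.mk'_surjective A)
      rw [Subgroup.comap_map_eq, QuotientGroup.ker_mk', hfr, Subgroup.comap_top]
    rw [← Subgroup.card_top (G := G ⧸ A), ← h1]
    exact Subgroup.card_map_dvd _ _
  obtain ⟨x, hx⟩ := exists_prime_orderOf_dvd_card' (G := N) 19 h19N
  have hxG : orderOf (x : G) = 19 := by rw [Subgroup.orderOf_coe]; exact hx
  obtain ⟨P', hP'⟩ := Cfsg.Lib.SimpleOrder.O168.exists_sylow_zpowers (fun Q => sylow_card hr rfl hr19 Q) hxG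
  obtain ⟨K, hK⟩ : ∃ K : Subgroup G, K = (R : Subgroup A).map A.subtype := ⟨_, rfl⟩
  have hKc : Nat.card K = Nat.card (R : Subgroup A) := by
    rw [hK, Subgroup.card_map_of_injective A.subtype_injective]
  have hxK : (x : G) ∈ Subgroup.normalizer (K : Set G) := by rw [hK]; exact hN ▸ x.2
  obtain ⟨σ, hσdef⟩ : ∃ σ : Subgroup.normalizer (K : Set G) →* Equiv.Perm K,
      ∀ y z, ((σ y z : K) : G) = (y : G) * z * (y : G)⁻¹ :=
    ⟨(MulAut.toPerm K).comp K.normalizerMonoidHom, fun y z => rfl⟩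
  have hσ : σ ⟨x, hxK⟩ = 1 := by
    rw [← orderOf_eq_one_iff]
    have h1 : orderOf (σ ⟨x, hxK⟩) ∣ 19 := by
      rw [← hxG, ← Subgroup.orderOf_mk (x : G) hxK]
      exact orderOf_map_dvd σ _
    refine ((Nat.dvd_prime (by norm_num)).1 h1).resolve_right fun e => ?_
    have h2 := orderOf_dvd_natCard (σ ⟨x, hxK⟩)
    rw [e, Nat.card_perm] at h2
    have := (Nat.Prime.dvd_factorial (by norm_num)).1 h2
    omega
  have hKC : K ≤ Subgroup.centralizer ((P' : Subgroup G) : Set G) := by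
    intro z hz y hy
    rw [hP'] at hy
    obtain ⟨i, rfl⟩ := hy
    have h1 := hσdef ⟨x, hxK⟩ ⟨z, hz⟩
    rw [hσ] at h1
    have h2 : Commute (x : G) z := by
      calc (x : G) * z = ((x : G) * z * (x : G)⁻¹) * x := by group
        _ = z * x := by rw [← h1]; rfl
    exact (h2.zpow_left i).eq
  have := hjR.trans (hKc ▸ Subgroup.card_dvd_of_le hKC)
  rw [card_centralizer_eq P' P] at this
  exact this.trans (Subgroup.card_dvd_of_le (Subgroup.centralizer_le_normalizer _))

theorem small_normal : ∀ N : ℕ, N ∣ 175560 → N ≠ 175560 → ∀ (G : Type u) [Group G] [Finite G], Nat.card G = N →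
    19 ∣ N → ∀ P : Sylow 19 G, (P : Subgroup G).Normal := by
  intro N
  induction N using Nat.strong_induction_on with
  | _ N IH =>
    intro hN hne G _ _ hG h19 P
    subst hG
    have h19' := h19
    obtain ⟨k, hk⟩ := h19
    by_cases hk1 : k = 1
    · haveI : Fact (Nat.Prime 19) := ⟨by norm_num⟩
      have hP : Nat.card (P : Subgroup G) = Nat.card G := by
        rw [sylow_card hk rfl (by rw [hk1]; norm_num) P, hk, hk1]
      rw [Subgroup.eq_top_of_card_eq _ hP]; infer_instance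
    haveI : Nontrivial G := Finite.one_lt_card_iff_nontrivial.1 (by
      have : 0 < Nat.card G := Nat.card_pos
      omega)
    by_cases hs : IsSimpleGroup G
    · exfalso
      have hk' : k ∣ 9240 := by
        rw [hk] at hN
        exact (Nat.mul_dvd_mul_iff_left (by norm_num : 0 < 19)).1 (by simpa using hN)
      refine no_simple k hk' ?_ (fun e => hne (by rw [hk, e])) hk
      have : 0 < Nat.card G := Nat.card_pos
      omega
    obtain ⟨A, hA, hbot, htop⟩ : ∃ A : Subgroup G, A.Normal ∧ A ≠ ⊥ ∧ A ≠ ⊤ := by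
      by_contra hno
      exact hs { eq_bot_or_eq_top_of_normal := fun A hA => by
                  by_contra h; exact hno ⟨A, hA, fun e => h (Or.inl e), fun e => h (Or.inr e)⟩ }
    refine step hN h19' (fun H _ _ hlt hd hH => IH _ hlt (hd.trans hN) ?_ H rfl hH) A hbot htop P
    intro e
    have := Nat.le_of_dvd (by norm_num) hN
    omega


/-- A finite group of order 175560 = 2³·3·5·7·11·19 is either simple or has a normal Sylow 19-subgroup. -/
theorem result {G : Type*} [Group G] [Finite G] (hG : Nat.card G = 175560) : IsSimpleGroup G ∨ ∀ P : Sylow 19 G, (P : Subgroup G).Normal := by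
  refine or_iff_not_imp_left.2 fun hs P => ?_
  haveI : Nontrivial G := Finite.one_lt_card_iff_nontrivial.1 (by omega)
  obtain ⟨A, hA, hbot, htop⟩ : ∃ A : Subgroup G, A.Normal ∧ A ≠ ⊥ ∧ A ≠ ⊤ := by
    by_contra hno
    exact hs { eq_bot_or_eq_top_of_normal := fun A hA => by
                by_contra h; exact hno ⟨A, hA, fun e => h (Or.inl e), fun e => h (Or.inr e)⟩ }
  refine step (by rw [hG]) (by rw [hG]; norm_num) (fun H _ _ hlt hd hH => ?_) A hbot htop P
  exact small_normal _ (hd.trans (by rw [hG])) (by omega) H rfl hH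

end Cfsg.Agent.S4274
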