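import Cfsg.Statements.S4275
import Mathlib
-- import your own Cfsg.Agent.* helpers here

set_option autoImplicit false
open Cfsg

namespace Cfsg.Agent.S4275

/-- Let G be a transitive group of permutations of a finite set Ω, let o ∈ Ω, and let α be an automorphism of G. Then α is induced by conjugation by a permutation of Ω normalizing G if and only if the image under α of the stabilizer of o fixes some point of Ω. -/
theorem result {Ω : Type*} [Fintype Ω] (G : Subgroup (Equiv.Perm Ω)) (htr : MulAction.IsPretransitive G Ω) (o : Ω) (α : G ≃* G) : (∃ σ : Equiv.Perm Ω, σ ∈ Subgroup.normalizer (G : Set (Equiv.Perm Ω)) ∧ ∀ g : G, ((α g : G) : Equiv.Perm Ω) = σ * (g : Equiv.Perm Ω) * σ⁻¹) ↔ ∃ ω : Ω, ∀ g ∈ (MulAction.stabilizer G o).map α.toMonoidHom, g • ω = ω := by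
  classical
  haveI := htr
  have hG : ∀ x y : Ω, ∃ g : G, g • x = y := fun x y => MulAction.exists_smul_eq G x y
  constructor
  · rintro ⟨σ, -, hσ⟩
    refine ⟨σ o, ?_⟩
    rintro _ ⟨g, hg, rfl⟩
    show ((α g : G) : Equiv.Perm Ω) (σ o) = σ o
    rw [hσ g]
    have hgo : (g : Equiv.Perm Ω) o = o := hg
    simp [Equiv.Perm.mul_apply, hgo]
  · rintro ⟨ω, hω⟩
    choose c hc using fun x => hG o x
    let s : Ω → Ω := fun x => α (c x) • ω
    have hwd : ∀ g : G, s (g • o) = α g • ω := by
      intro g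
      have hmem : (c (g • o))⁻¹ * g ∈ MulAction.stabilizer G o := by
        rw [MulAction.mem_stabilizer_iff, mul_smul, inv_smul_eq_iff, hc]
      have h1 := hω _ ⟨_, hmem, rfl⟩
      show α (c (g • o)) • ω = α g • ω
      have h2 : α g • ω = α (c (g • o)) • (α ((c (g • o))⁻¹ * g) • ω) := by
        rw [← mul_smul, ← map_mul, mul_inv_cancel_left]
      rw [h2]
      exact (congrArg _ h1).symm
    have hsurj : Function.Surjective s := by
      intro y
      obtain ⟨k, hk⟩ := hG ω y
      exact ⟨α.symm k • o, by rw [hwd, MulEquiv.apply_symm_apply, hk]⟩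
    let σ : Equiv.Perm Ω := Equiv.ofBijective s ⟨Finite.injective_iff_surjective.mpr hsurj, hsurj⟩
    have hσ : ∀ g : G, ((α g : G) : Equiv.Perm Ω) = σ * (g : Equiv.Perm Ω) * σ⁻¹ := by
      intro g
      rw [eq_mul_inv_iff_mul_eq]
      ext x
      show ((α g : G) : Equiv.Perm Ω) (s x) = s ((g : Equiv.Perm Ω) x)
      have e : (g : Equiv.Perm Ω) x = (g * c x) • o := by rw [mul_smul, hc]; rfl
      rw [e, hwd, map_mul, mul_smul]
      rfl
    refine ⟨σ, ?_, hσ⟩
    rw [Subgroup.mem_normalizer_iff]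
    intro y
    constructor
    · intro hy
      have := hσ ⟨y, hy⟩
      exact this ▸ (α ⟨y, hy⟩).2
    · intro hy
      obtain ⟨⟨z, hz⟩, e⟩ := α.surjective ⟨_, hy⟩
      have h1 := hσ ⟨z, hz⟩
      rw [e] at h1
      simp only [mul_left_inj, mul_right_inj] at h1
      rwa [h1]

end Cfsg.Agent.S4275
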