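import Cfsg.Statements.S4276
import Mathlib
import Cfsg.Agent.Lib.Perm.OddAutomorphism
-- import your own Cfsg.Agent.* helpers here

set_option autoImplicit false
open Cfsg

namespace Cfsg.Agent.S4276

open Cfsg.Lib.Perm.OddAut

/-- Let G be a doubly transitive group of permutations of a finite set Ω of size n, let o ∈ Ω, and let α be an automorphism of G of odd order. Suppose that the image under α of the stabilizer of o has an orbit on Ω whose length k is coprime to n. Then α is induced by conjugation by a permutation of Ω normalizing G, and k = 1 or k = n − 1. -/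
theorem result {Ω : Type*} [Fintype Ω] (G : Subgroup (Equiv.Perm Ω)) (h2 : MulAction.IsMultiplyPretransitive G Ω 2) (o : Ω) (α : MulAut G) (hα : Odd (orderOf α)) (ω : Ω) (hk : (Nat.card (MulAction.orbit ((MulAction.stabilizer G o).map α.toMonoidHom) ω)).Coprime (Fintype.card Ω)) : (∃ σ : Equiv.Perm Ω, σ ∈ Subgroup.normalizer (G : Set (Equiv.Perm Ω)) ∧ ∀ g : G, ((α g : G) : Equiv.Perm Ω) = σ * (g : Equiv.Perm Ω) * σ⁻¹) ∧ (Nat.card (MulAction.orbit ((MulAction.stabilizer G o).map α.toMonoidHom) ω) = 1 ∨ Nat.card (MulAction.orbit ((MulAction.stabilizer G o).map α.toMonoidHom) ω) = Fintype.card Ω - 1) := by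
  classical
  obtain ⟨q, hq⟩ := fixes_of_odd h2 o α hα hk
  obtain ⟨σ, -, hσ⟩ := exists_perm h2 o α hq
  have hconj : ∀ g : G, ((α g : G) : Equiv.Perm Ω) = σ * (g : Equiv.Perm Ω) * σ⁻¹ := fun g => by
    rw [eq_mul_inv_iff_mul_eq]
    ext x
    exact (hσ g x).symm
  refine ⟨⟨σ, Subgroup.mem_normalizer_iff.2 fun x => ⟨fun hx => ?_, fun hx => ?_⟩, hconj⟩, card_orbit h2 o α hσ ω⟩
  · rw [← hconj ⟨x, hx⟩]; exact (α ⟨x, hx⟩).2
  · obtain ⟨g, hg⟩ := α.surjective ⟨_, hx⟩
    have := (hconj g).symm.trans (congrArg Subtype.val hg)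
    rw [← mul_left_cancel (mul_right_cancel this)]
    exact g.2

end Cfsg.Agent.S4276
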