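import Cfsg.Statements.S4282
import Mathlib
import Cfsg.Agent.Lib.Solv.HHTheoremB
-- import your own Cfsg.Agent.* helpers here

set_option autoImplicit false
open Cfsg

namespace Cfsg.Agent.S4282

/-- A critical case behind the Hall–Higman theorem. Let p ≠ q be primes and G a finite group generated by a normal q-subgroup Q and a cyclic p-subgroup generated by x, such that the centralizer of every non-identity element of that cyclic subgroup is its product with the centre of G. Let K be an algebraically closed field of characteristic p and ρ a faithful representation of G on a nonzero finite-dimensional K-space whose restriction to Q is irreducible. If s is the least exponent with (ρ(x) − 1)^s = 0, then |⟨x⟩| − 1 ≤ s ≤ |⟨x⟩|; and if s = |⟨x⟩| − 1 then |⟨x⟩| − 1 is a power of q and Q is non-abelian. -/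
theorem result {G : Type*} [Group G] [Finite G] (p q : ℕ) [Fact p.Prime] [Fact q.Prime] (hpq : p ≠ q) (Q : Subgroup G) [Q.Normal] (hQ : IsPGroup q Q) (x : G) (hx : IsPGroup p (Subgroup.zpowers x)) (hgen : Q ⊔ Subgroup.zpowers x = ⊤) (hC : ∀ y ∈ Subgroup.zpowers x, y ≠ 1 → Subgroup.centralizer ({y} : Set G) = Subgroup.zpowers x ⊔ Subgroup.center G) {K : Type*} [Field K] [IsAlgClosed K] [CharP K p] {V : Type*} [AddCommGroup V] [Module K V] [FiniteDimensional K V] [Nontrivial V] (ρ : Representation K G V) (hfaith : Function.Injective ρ) (hirr : ∀ W : Submodule K V, (∀ g ∈ Q, Submodule.map (ρ g) W ≤ W) → W = ⊥ ∨ W = ⊤) (s : ℕ) (hs : (ρ x - 1) ^ s = 0) (hmin : ∀ k < s, (ρ x - 1) ^ k ≠ 0) : Nat.card (Subgroup.zpowers x) - 1 ≤ s ∧ s ≤ Nat.card (Subgroup.zpowers x) ∧ (s = Nat.card (Subgroup.zpowers x) - 1 → (∃ b : ℕ, Nat.card (Subgroup.zpowers x) - 1 = q ^ b) ∧ ¬ IsMulCommutative Q) := by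
  classical
  have hp : p.Prime := Fact.out
  have hq : q.Prime := Fact.out
  obtain ⟨n, hn⟩ := hx.exists_card_eq
  rw [hn]
  set T : Module.End K V := ρ x with hT
  have hxn : x ^ p ^ n = 1 := by rw [← hn, Nat.card_zpowers, pow_orderOf_eq_one]
  have hTn : T ^ p ^ n = 1 := by rw [hT, ← map_pow, hxn, map_one]
  have hsle : s ≤ p ^ n := by
    by_contra hlt
    refine hmin _ (not_le.1 hlt) ?_
    haveI : CharP (Module.End K V) p := charP_of_injective_algebraMap (algebraMap K (Module.End K V)).injective p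
    rw [sub_pow_char_pow_of_commute _ _ (Commute.one_right T), one_pow, hTn, sub_self]
  have hspos : 0 < s := by
    by_contra h0
    rw [show s = 0 by omega, pow_zero] at hs
    exact one_ne_zero hs
  rcases Nat.eq_zero_or_pos n with hn0 | hn0
  · subst hn0
    simp only [pow_zero] at hsle ⊢
    exact ⟨by omega, hsle, fun h => absurd h (by omega)⟩
  set y := x ^ p ^ (n - 1) with hy
  have hy1 : y ≠ 1 := by
    intro h
    have h1 := orderOf_dvd_of_pow_eq_one h
    rw [← Nat.card_zpowers, hn] at h1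
    have := (Nat.pow_dvd_pow_iff_le_right hp.one_lt).1 h1
    omega
  have hCy := hC y (pow_mem (Subgroup.mem_zpowers x) _) hy1
  have hcx : ∀ a : G, a * y = y * a → a * x = x * a := by
    intro a ha
    have h1 : a ∈ Subgroup.zpowers x ⊔ Subgroup.center G :=
      hCy ▸ Subgroup.mem_centralizer_singleton_iff.2 ha
    have h2 : Subgroup.zpowers x ⊔ Subgroup.center G ≤ Subgroup.centralizer {x} :=
      sup_le (Subgroup.zpowers_le.2 (Subgroup.mem_centralizer_singleton_iff.2 rfl))
        (Subgroup.center_le_centralizer _)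
    exact Subgroup.mem_centralizer_singleton_iff.1 (h2 h1)
  have hinv : ∀ b ∈ Q, MulAut.conj x b ∈ Q := fun b hb => (inferInstance : Q.Normal).conj_mem b hb x
  let α : MulAut Q := Cfsg.Lib.Solv.HH.resAut (MulAut.conj x) Q hinv
  have hα : α ^ p ^ n = 1 :=
    Cfsg.Lib.Solv.HH.resAut_pow_eq_one _ Q hinv (by rw [← map_pow, hxn, map_one])
  have hαy : ∀ a : Q, (((α ^ p ^ (n - 1)) a : Q) : G) = y * a * y⁻¹ := fun a => by
    rw [Cfsg.Lib.Solv.HH.resAut_pow_apply, ← map_pow, MulAut.conj_apply]
  have hXinj : Function.Injective T := by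
    intro u w huw
    have h1 := congr(ρ x⁻¹ $huw)
    rw [hT, ← Module.End.mul_apply, ← Module.End.mul_apply, ← map_mul, inv_mul_cancel, map_one] at h1
    exact h1
  let ρQ : Q →* Module.End K V := MonoidHom.comp ρ Q.subtype
  have hρQ : Function.Injective ρQ := fun a b h => Subtype.ext (hfaith h)
  have hX : ∀ g : Q, T * ρQ g = ρQ (α g) * T := fun g => by
    show ρ x * ρ g = ρ (MulAut.conj x g) * ρ x
    rw [← map_mul, ← map_mul, MulAut.conj_apply, inv_mul_cancel_right]
  have hqK : (q : K) ≠ 0 := fun h => hpq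
    ((Nat.prime_dvd_prime_iff_eq hp hq).1 ((CharP.cast_eq_zero_iff K p q).1 h))
  have hne : ∃ a, ρQ ((α ^ p ^ (n - 1)) a) ≠ ρQ a := by
    by_contra hcon
    push Not at hcon
    have hcQ : ∀ a : Q, (a : G) * x = x * a := fun a => hcx _ (by
      have h1 := hαy a
      rw [hρQ (hcon a)] at h1
      calc (a : G) * y = y * a * y⁻¹ * y := by rw [← h1]
        _ = y * a := by group)
    obtain ⟨c, hc⟩ := Module.End.exists_eigenvalue T
    rcases hirr (Module.End.eigenspace T c) (fun g hg => by
      rintro _ ⟨v, hv, rfl⟩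
      rw [SetLike.mem_coe, Module.End.mem_eigenspace_iff] at hv
      rw [Module.End.mem_eigenspace_iff, hT, ← Module.End.mul_apply, ← map_mul, ← hcQ ⟨g, hg⟩, map_mul,
        Module.End.mul_apply]
      show ρ g (T v) = _
      rw [hv, map_smul]) with h | h
    · exact hc h
    have hTc : ∀ v, T v = c • v := fun v => Module.End.mem_eigenspace_iff.1 (h ▸ Submodule.mem_top)
    have hc1 : c = 1 := by
      obtain ⟨v, hv⟩ := exists_ne (0 : V)
      have hpow : ∀ k : ℕ, (T ^ k) v = c ^ k • v := by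
        intro k
        induction k with
        | zero => simp
        | succ k ih => rw [pow_succ', Module.End.mul_apply, ih, map_smul, hTc, smul_smul, pow_succ]
      have h1 := hpow (p ^ n)
      rw [hTn, Module.End.one_apply] at h1
      have h2 : c ^ p ^ n = 1 := smul_left_injective K hv (show c ^ p ^ n • v = (1 : K) • v by rw [one_smul]; exact h1.symm)
      have h3 : (c - 1) ^ p ^ n = 0 := by rw [sub_pow_char_pow, one_pow, h2, sub_self]
      exact sub_eq_zero.1 (eq_zero_of_pow_eq_zero h3)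
    have hT1 : ρ x = ρ 1 := by
      rw [map_one, ← hT]
      exact LinearMap.ext fun v => by rw [hTc, hc1, one_smul, Module.End.one_apply]
    exact hy1 (by rw [hy, hfaith hT1, one_pow])
  have hdeg : ∀ r, Cfsg.Lib.Solv.HH.DegGE T r → r ≤ s := by
    intro r hr
    have h1 := hr ((Polynomial.X - 1) ^ s)
      (pow_ne_zero _ (by rw [← Polynomial.C_1]; exact Polynomial.X_sub_C_ne_zero 1))
      (by rw [map_pow, map_sub, Polynomial.aeval_X, map_one]; exact hs)
    rwa [Polynomial.natDegree_pow, ← Polynomial.C_1, Polynomial.natDegree_X_sub_C, mul_one] at h1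
  refine Cfsg.Lib.Solv.HH.reduce hQ ρQ α hα T hXinj hX hne ?_
  intro Q₂ _ _ hQ₂ α₂ ρ₂ hα₂ hX₂ hinj hmove hcrit _ hab hfixT
  have hfix₂ : ∀ a, (α₂ ^ p ^ (n - 1)) a = a → α₂ a = a := hfixT hρQ fun a ha => Subtype.ext (by
    have h1 := hαy a
    rw [ha] at h1
    have h2 : (a : G) * x = x * a := hcx _ (by
      calc (a : G) * y = y * a * y⁻¹ * y := by rw [← h1]
        _ = y * a := by group)
    show MulAut.conj x (a : G) = a
    rw [MulAut.conj_apply, ← h2, mul_inv_cancel_right])
  rcases Cfsg.Lib.Solv.HH.core_closure hp hq hpq hn0 hQ₂ hqK α₂ hα₂ T hXinj ρ₂ hX₂ hinj hmove hcrit with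
    h | ⟨j, e, m, Z, hcomm, hZinv, lam, R, hZ, hje, hm, he, hPe, hdg, -, hZR, hRi, hRm, hen⟩
  · have h1 := hdeg _ h
    refine ⟨by omega, hsle, fun h2 => ?_⟩
    have := pow_pos hp.pos n
    omega
  · have hRtop : R ≠ ⊤ := by
      intro h
      rw [h, Subgroup.index_top] at hRi
      have : 1 < q ^ (2 * m) := Nat.one_lt_pow (by omega) hq.one_lt
      omega
    have hZfix : ∀ z ∈ Z, α₂ z = z := fun z hz => hfix₂ z (hZ ▸ hz : z ∈ Cfsg.Lib.Solv.HH.fixSub _)
    have hRinv : ∀ a ∈ R, α₂ a ∈ R := by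
      intro a ha
      rw [hRm] at ha ⊢
      intro b
      rw [← ha (α₂.symm b)]
      congr 1
      apply Subtype.ext
      show b * α₂ a * b⁻¹ * (α₂ a)⁻¹ = α₂.symm b * a * (α₂.symm b)⁻¹ * a⁻¹
      conv_rhs => rw [← hZfix _ (hcomm (α₂.symm b) a)]
      simp
    have he' := hen fun a ha => hfix₂ a (hcrit R hRinv hRtop a ha)
    rw [he', Nat.sub_self, pow_zero, one_mul] at hdg
    have h1 := hdeg _ hdg
    rw [he'] at hPe
    refine ⟨by omega, hsle, fun _ => ⟨⟨m, by omega⟩, fun hQc => hRtop (eq_top_iff.2 fun a _ => (hRm a).2 fun b => ?_)⟩⟩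
    rw [← map_one lam]
    congr 1
    refine Subtype.ext ?_
    show b * a * b⁻¹ * a⁻¹ = 1
    rw [hab (fun u w => hQc.is_comm.comm u w) b a]
    group

end Cfsg.Agent.S4282
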