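import Cfsg.Statements.S4283
import Mathlib
import Cfsg.Agent.Lib.Solv.Frobenius
-- import your own Cfsg.Agent.* helpers here

set_option autoImplicit false
open Cfsg
open scoped Pointwise

namespace Cfsg.Agent.S4283

/-- Let G be a finite group with centre Z and let K, H be abelian subgroups of G containing Z such that G/Z is a Frobenius group with complement H/Z and kernel K/Z. Then the conjugacy class sizes of G are exactly 1, [G : K] and [G : H], and these two indices are coprime. (This is the converse half of the characterization of finite groups whose conjugacy class sizes are exactly 1, m and n with m and n coprime.) -/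
theorem result {G : Type*} [Group G] [Finite G] (K H : Subgroup G) (hZK : Subgroup.center G ≤ K) (hZH : Subgroup.center G ≤ H) (hK : IsMulCommutative K) (hH : IsMulCommutative H) (hFrob : Cfsg.IsFrobeniusComplement (H.map (QuotientGroup.mk' (Subgroup.center G)))) (hker : Cfsg.frobeniusKernel (H.map (QuotientGroup.mk' (Subgroup.center G))) = (K.map (QuotientGroup.mk' (Subgroup.center G)) : Set (G ⧸ Subgroup.center G))) : Set.range (fun x : G => (Subgroup.centralizer ({x} : Set G)).index) = ({1, K.index, H.index} : Set ℕ) ∧ K.index.Coprime H.index := by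
  classical
  set Z := Subgroup.center G
  set π := QuotientGroup.mk' Z
  set Hb := H.map π with hHb
  set Kb := K.map π with hKb
  have hsurj := QuotientGroup.mk'_surjective Z
  have hHc : Hb.comap π = H := by rw [hHb, Subgroup.comap_map_eq, QuotientGroup.ker_mk', sup_eq_left.mpr hZH]
  have hKc : Kb.comap π = K := by rw [hKb, Subgroup.comap_map_eq, QuotientGroup.ker_mk', sup_eq_left.mpr hZK]
  have hHidx : Hb.index = H.index := by rw [← hHc, Subgroup.index_comap_of_surjective _ hsurj]
  have hKidx : Kb.index = K.index := by rw [← hKc, Subgroup.index_comap_of_surjective _ hsurj]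
  obtain ⟨K', hK'n, hK'eq, hK'c⟩ := Cfsg.Lib.Solv.exists_frobeniusKernel hFrob
  have hKK' : Kb = K' := SetLike.coe_injective (by rw [hK'eq, hker])
  have hcardH : Nat.card Hb = Kb.index := by rw [hKK', hK'c.symm.index_eq_card]
  have hmemπ : ∀ g : G, (π g = 1 ↔ g ∈ Z) := fun g => QuotientGroup.eq_one_iff g
  -- centralisers
  have hCH : ∀ x ∈ H, x ∉ Z → Subgroup.centralizer ({x} : Set G) = H := by
    intro x hx hxZ
    refine le_antisymm (fun g hg => ?_) (fun g hg => Subgroup.mem_centralizer_singleton_iff.mpr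
      (congrArg Subtype.val (hH.is_comm.comm (⟨g, hg⟩ : H) ⟨x, hx⟩)))
    rw [← hHc, Subgroup.mem_comap]
    refine Cfsg.Lib.Solv.frob_mem_of_commute hFrob ⟨x, hx, rfl⟩ (fun h => hxZ ((hmemπ x).mp h)) ?_
    show π g * π x = π x * π g
    rw [← map_mul, ← map_mul, Subgroup.mem_centralizer_singleton_iff.mp hg]
  have hCK : ∀ x ∈ K, x ∉ Z → Subgroup.centralizer ({x} : Set G) = K := by
    intro x hx hxZ
    refine le_antisymm (fun g hg => ?_) (fun g hg => Subgroup.mem_centralizer_singleton_iff.mpr
      (congrArg Subtype.val (hK.is_comm.comm (⟨g, hg⟩ : K) ⟨x, hx⟩)))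
    rw [← hKc, Subgroup.mem_comap]
    by_contra hgK
    rw [← SetLike.mem_coe, ← hker, Cfsg.Lib.Solv.mem_frobeniusKernel] at hgK
    push Not at hgK
    obtain ⟨hg1, c, hc⟩ := hgK
    have hc' : c⁻¹ * π g * c ∈ Hb := by
      rw [Subgroup.mem_pointwise_smul_iff_inv_smul_mem] at hc
      simpa [mul_assoc] using hc
    have hxc : c⁻¹ * π x * c ∈ Hb := by
      refine Cfsg.Lib.Solv.frob_mem_of_commute hFrob hc' (fun h => hg1 ?_) ?_
      · calc π g = c * (c⁻¹ * π g * c) * c⁻¹ := by group
          _ = 1 := by rw [h]; group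
      · have h2 : π g * π x = π x * π g := by rw [← map_mul, ← map_mul, Subgroup.mem_centralizer_singleton_iff.mp hg]
        calc c⁻¹ * π x * c * (c⁻¹ * π g * c) = c⁻¹ * (π x * π g) * c := by group
          _ = c⁻¹ * (π g * π x) * c := by rw [h2]
          _ = _ := by group
    have h3 : π x ∈ (Kb : Set (G ⧸ Z)) := ⟨x, hx, rfl⟩
    rw [← hker, Cfsg.Lib.Solv.mem_frobeniusKernel] at h3
    refine h3.elim (fun h => hxZ ((hmemπ x).mp h)) (fun h => h c ?_)
    rw [Subgroup.mem_pointwise_smul_iff_inv_smul_mem]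
    simpa [mul_assoc] using hxc
  have hcases : ∀ x : G, (Subgroup.centralizer ({x} : Set G)).index ∈ ({1, K.index, H.index} : Set ℕ) := by
    intro x
    by_cases hxZ : x ∈ Z
    · left
      rw [Subgroup.index_eq_one, eq_top_iff]
      exact fun g _ => Subgroup.mem_centralizer_singleton_iff.mpr (Subgroup.mem_center_iff.mp hxZ g)
    by_cases hxK : x ∈ K
    · right; left
      rw [hCK x hxK hxZ]
    right; right
    have h3 : π x ∉ (Kb : Set (G ⧸ Z)) := fun h => hxK (by rw [← hKc]; exact h)
    rw [← hker, Cfsg.Lib.Solv.mem_frobeniusKernel] at h3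
    push Not at h3
    obtain ⟨-, c, hc⟩ := h3
    obtain ⟨c, rfl⟩ := hsurj c
    have hy : c⁻¹ * x * c ∈ H := by
      rw [Subgroup.mem_pointwise_smul_iff_inv_smul_mem] at hc
      rw [← hHc, Subgroup.mem_comap, map_mul, map_mul, map_inv]
      simpa [π, mul_assoc] using hc
    have hyZ : c⁻¹ * x * c ∉ Z := fun h => hxZ (by
      have := (inferInstance : Z.Normal).conj_mem _ h c
      simpa [mul_assoc] using this)
    have hC : Subgroup.centralizer ({x} : Set G) = (Subgroup.centralizer ({c⁻¹ * x * c} : Set G)).comap (MulAut.conj c⁻¹).toMonoidHom := by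
      ext g
      rw [Subgroup.mem_comap, Subgroup.mem_centralizer_singleton_iff, Subgroup.mem_centralizer_singleton_iff]
      show g * x = x * g ↔ c⁻¹ * g * c⁻¹⁻¹ * (c⁻¹ * x * c) = c⁻¹ * x * c * (c⁻¹ * g * c⁻¹⁻¹)
      constructor
      · intro h
        calc c⁻¹ * g * c⁻¹⁻¹ * (c⁻¹ * x * c) = c⁻¹ * (g * x) * c := by group
          _ = c⁻¹ * (x * g) * c := by rw [h]
          _ = _ := by group
      · intro h
        calc g * x = c * (c⁻¹ * g * c⁻¹⁻¹ * (c⁻¹ * x * c)) * c⁻¹ := by group
          _ = c * (c⁻¹ * x * c * (c⁻¹ * g * c⁻¹⁻¹)) * c⁻¹ := by rw [h]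
          _ = _ := by group
    rw [hC, hCH _ hy hyZ, Subgroup.index_comap_of_surjective _ (MulAut.conj c⁻¹).surjective]
    rfl
  refine ⟨Set.Subset.antisymm (by rintro _ ⟨x, rfl⟩; exact hcases x) ?_, ?_⟩
  · rintro k (rfl | rfl | rfl)
    · refine ⟨1, ?_⟩
      show (Subgroup.centralizer ({(1 : G)} : Set G)).index = 1
      rw [Subgroup.index_eq_one, eq_top_iff]
      exact fun g _ => Subgroup.mem_centralizer_singleton_iff.mpr (by simp)
    · have hne : Kb ≠ ⊥ := fun h => by
        have h1 : Nat.card (Kb : Set (G ⧸ Z)) = 1 := by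
          show Nat.card Kb = 1
          rw [h, Subgroup.card_bot]
        rw [← hker, Cfsg.Lib.Solv.card_frobeniusKernel hFrob, Subgroup.index_eq_one] at h1
        exact hFrob.2.1 h1
      obtain ⟨z, ⟨x, hx, rfl⟩, hz⟩ := Kb.bot_or_exists_ne_one.resolve_left hne
      exact ⟨x, by show (Subgroup.centralizer ({x} : Set G)).index = _; rw [hCK x hx (fun h => hz ((hmemπ x).mpr h))]⟩
    · obtain ⟨z, ⟨x, hx, rfl⟩, hz⟩ := Hb.bot_or_exists_ne_one.resolve_left hFrob.1
      exact ⟨x, by show (Subgroup.centralizer ({x} : Set G)).index = _; rw [hCH x hx (fun h => hz ((hmemπ x).mpr h))]⟩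
  · rw [← hHidx, ← hKidx, ← hcardH]
    exact Cfsg.Lib.Solv.frob_coprime_index hFrob

end Cfsg.Agent.S4283
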