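import Cfsg.Statements.S4292
import Mathlib
import Cfsg.Agent.Lib.Solv.FrobeniusRepresentation
import Cfsg.Agent.Lib.Solv.FrobeniusComplement
-- import your own Cfsg.Agent.* helpers here

set_option autoImplicit false
open Cfsg

namespace Cfsg.Agent.S4292

/-- Let A and B be nontrivial finite groups. Then the direct product A × B occurs as a Frobenius complement if and only if A and B both occur as Frobenius complements and the orders of A and B are coprime. -/
theorem result {A B : Type*} [Group A] [Finite A] [Nontrivial A] [Group B] [Finite B] [Nontrivial B] :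
    (∃ (L : Type) (_ : Group L) (_ : Finite L) (H : Subgroup L), Cfsg.IsFrobeniusComplement H ∧ Nonempty ((A × B) ≃* H)) ↔
    ((∃ (L : Type) (_ : Group L) (_ : Finite L) (H : Subgroup L), Cfsg.IsFrobeniusComplement H ∧ Nonempty (A ≃* H)) ∧
     (∃ (L : Type) (_ : Group L) (_ : Finite L) (H : Subgroup L), Cfsg.IsFrobeniusComplement H ∧ Nonempty (B ≃* H)) ∧
     (Nat.card A).Coprime (Nat.card B)) := by
  constructor
  · rintro ⟨L, _, _, H, hH, ⟨e⟩⟩
    have hAB := e.toMonoidHom
    refine ⟨?_, ?_, ?_⟩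
    · exact Cfsg.Lib.Solv.FrobRep.complement_of_intFpf
        (Cfsg.Lib.Solv.FrobRep.intFpf_of_complement hH (e.toMonoidHom.comp (MonoidHom.inl A B))
          (e.injective.comp fun a b h => congrArg Prod.fst h))
    · exact Cfsg.Lib.Solv.FrobRep.complement_of_intFpf
        (Cfsg.Lib.Solv.FrobRep.intFpf_of_complement hH (e.toMonoidHom.comp (MonoidHom.inr A B))
          (e.injective.comp fun a b h => congrArg Prod.snd h))
    · refine Nat.coprime_of_dvd fun r hr hrA hrB => ?_
      haveI := Fact.mk hr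
      obtain ⟨K, hKn, hKset, hc⟩ := Cfsg.Lib.Solv.exists_frobeniusKernel hH
      haveI := hKn
      obtain ⟨V, hVK, hV1, hVc, hN⟩ := Cfsg.Lib.Solv.exists_invariant_abelian hH hc
      haveI := hVc
      have hfpf : ∀ h ∈ H, h ≠ 1 → V ⊓ Subgroup.centralizer ({h} : Set L) = ⊥ := fun h hh h1 =>
        le_bot_iff.1 ((inf_le_inf_right _ hVK).trans (Cfsg.Lib.Solv.frob_fpf hH hc.disjoint.eq_bot hh h1).le)
      obtain ⟨a, ha⟩ := exists_prime_orderOf_dvd_card' (G := A) r hrA
      obtain ⟨b, hb⟩ := exists_prime_orderOf_dvd_card' (G := B) r hrB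
      have hord : ∀ z : A × B, orderOf ((e z : H) : L) = orderOf z := fun z => by
        rw [Subgroup.orderOf_coe]; exact e.orderOf_eq z
      have hmem := Cfsg.Lib.Solv.FrobCompl.mem_zpowers_of_commute hV1 hN hfpf hr
        (x := ((e (a, 1) : H) : L)) (y := ((e (1, b) : H) : L)) (e (a, 1)).2 (e (1, b)).2
        (by rw [hord, Prod.orderOf_mk, orderOf_one, Nat.lcm_one_right, ha])
        (by rw [hord, Prod.orderOf_mk, orderOf_one, Nat.lcm_one_left, hb])
        (((Commute.one_right a).prod (Commute.one_left b)).map (e.toMonoidHom) |>.map H.subtype)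
      obtain ⟨n, hn⟩ := Subgroup.mem_zpowers_iff.1 hmem
      have hn' : (e (a, 1) : H) ^ n = e (1, b) := Subtype.ext (by simpa using hn)
      rw [← map_zpow] at hn'
      have h2 := congrArg Prod.snd (e.injective hn')
      simp at h2
      rw [← h2, orderOf_one] at hb
      exact hr.ne_one hb.symm
  · rintro ⟨⟨LA, _, _, HA, hA, ⟨eA⟩⟩, ⟨LB, _, _, HB, hB, ⟨eB⟩⟩, hcop⟩
    exact Cfsg.Lib.Solv.FrobRep.complement_of_intFpf
      (Cfsg.Lib.Solv.FrobRep.intFpf_prod
        (Cfsg.Lib.Solv.FrobRep.intFpf_of_complement hA eA.toMonoidHom eA.injective)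
        (Cfsg.Lib.Solv.FrobRep.intFpf_of_complement hB eB.toMonoidHom eB.injective) hcop)

end Cfsg.Agent.S4292
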