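import Cfsg.Statements.S4295
import Mathlib
import Cfsg.Agent.Lib.Transfer.QuaternionComplement
-- import your own Cfsg.Agent.* helpers here

set_option autoImplicit false
open Cfsg

namespace Cfsg.Agent.S4295

theorem exists_hom {R : Type} [Ring R] (i j : R) (hi : i * i = -1) (hj : j * j = -1) (hij : i * j = -(j * i)) :
    ∃ f : QuaternionGroup 2 →* R, f (QuaternionGroup.a 2) = -1 := by
  have h2 : i ^ 2 = -1 := by rw [pow_two, hi]
  have h4 : i ^ 4 = 1 := by rw [show (4:ℕ) = 2 + 2 from rfl, pow_add, h2, neg_mul_neg, one_mul]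
  let P : ZMod 4 → R := fun k => i ^ k.val
  have hP : ∀ k l, P (k + l) = P k * P l := fun k l => by
    show i ^ (k + l).val = i ^ k.val * i ^ l.val
    rw [← pow_add, ZMod.val_add]
    conv_rhs => rw [← Nat.mod_add_div (k.val + l.val) 4, pow_add, pow_mul, h4, one_pow, mul_one]
  have hij' : i * j = j * P 3 := by
    show i * j = j * i ^ 3
    rw [pow_succ, h2, hij, neg_one_mul, mul_neg]
  have hPj : ∀ k : ℕ, i ^ k * j = j * P (3 * k) := by
    intro k
    induction k with
    | zero => simp [P]
    | succ k ih =>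
      rw [pow_succ, mul_assoc, hij', ← mul_assoc, ih, mul_assoc, ← hP]
      congr 2
      push_cast; ring
  have hPj' : ∀ k : ZMod 4, P k * j = j * P (-k) := fun k => by
    show i ^ k.val * j = _
    rw [hPj, ZMod.natCast_zmod_val]
    congr 2
    revert k; decide
  let f : QuaternionGroup 2 → R := fun q => match q with
    | .a k => P k
    | .xa k => j * P k
  refine ⟨{ toFun := f, map_one' := by show P 0 = 1; simp [P], map_mul' := ?_ }, h2⟩
  rintro (k | k) (l | l)
  · exact hP k l
  · show j * P (l - k) = P k * (j * P l)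
    rw [← mul_assoc, hPj', mul_assoc, ← hP, neg_add_eq_sub]
  · show j * P (k + l) = j * P k * P l
    rw [hP, mul_assoc]
  · show P (2 + l - k) = j * P k * (j * P l)
    rw [mul_assoc j, ← mul_assoc (P k) j, hPj', mul_assoc j, ← hP, ← mul_assoc, hj,
      show (2 : ZMod 4) + l - k = 2 + (-k + l) by ring, hP]
    congr 1

theorem card_of_iso {L : Type} [Group L] [Finite L] {H : Subgroup L} (e : H ≃* QuaternionGroup 2) :
    ∃ i j : L, i ∈ H ∧ j ∈ H ∧ orderOf (i ^ 2) = 2 ∧ j ^ 2 = i ^ 2 ∧ j * i * j⁻¹ = i⁻¹ := by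
  set i := e.symm (QuaternionGroup.a 1)
  set j := e.symm (QuaternionGroup.xa 0)
  refine ⟨(i : L), (j : L), i.2, j.2, ?_, ?_, ?_⟩
  · rw [← Subgroup.coe_pow, Subgroup.orderOf_coe]
    refine orderOf_eq_prime ?_ ?_
    · simp only [i, ← map_pow]
      rw [show ((QuaternionGroup.a 1 : QuaternionGroup 2) ^ 2) ^ 2 = 1 by decide, map_one]
    · simp only [i, ← map_pow, Ne, MulEquivClass.map_ne_one_iff]
      decide
  · rw [← Subgroup.coe_pow, ← Subgroup.coe_pow]
    simp only [i, j, ← map_pow]
    rw [show (QuaternionGroup.xa 0 : QuaternionGroup 2) ^ 2 = (QuaternionGroup.a 1) ^ 2 by decide]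
  · rw [← Subgroup.coe_inv, ← Subgroup.coe_inv, ← Subgroup.coe_mul, ← Subgroup.coe_mul]
    simp only [i, j, ← map_inv, ← map_mul]
    rw [show (QuaternionGroup.xa 0 : QuaternionGroup 2) * QuaternionGroup.a 1 * (QuaternionGroup.xa 0)⁻¹ = (QuaternionGroup.a 1)⁻¹ by decide]

/-- For a natural number m the following are equivalent: (a) some finite group has a Frobenius complement isomorphic to the quaternion group of order 8 whose Frobenius kernel (the identity together with the elements lying in no conjugate of the complement) has exactly m elements; (b) m is an odd perfect square greater than 1. -/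
theorem result (m : ℕ) :
    (∃ (L : Type) (_ : Group L) (_ : Finite L) (H : Subgroup L), Cfsg.IsFrobeniusComplement H ∧
        Nonempty (H ≃* QuaternionGroup 2) ∧ Nat.card (Cfsg.frobeniusKernel H) = m) ↔
    (Odd m ∧ IsSquare m ∧ 1 < m) := by
  constructor
  · rintro ⟨L, _, _, H, hH, ⟨e⟩, rfl⟩
    obtain ⟨i, j, hi, hj, hz, hij, hconj⟩ := card_of_iso e
    refine ⟨(Cfsg.Lib.Transfer.kernel_of_quaternion hH hi hj hz hij hconj).1,
      (Cfsg.Lib.Transfer.kernel_of_quaternion hH hi hj hz hij hconj).2, ?_⟩
    rw [Cfsg.Lib.Solv.card_frobeniusKernel hH]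
    exact Subgroup.one_lt_index_of_ne_top hH.2.1
  rintro ⟨hodd, ⟨n, hn⟩, hm⟩
  subst hn
  have hn1 : 1 < n := by
    rcases Nat.lt_or_ge 1 n with h | h
    · exact h
    · interval_cases n <;> simp_all
  have hnodd : Odd n := (Nat.odd_mul.1 hodd).1
  set l := n.primeFactorsList with hl
  have hlp : ∀ i : Fin l.length, (l.get i).Prime := fun i => Nat.prime_of_mem_primeFactorsList (List.get_mem l i)
  let S : Type := (i : Fin l.length) → ZMod (l.get i)
  haveI : ∀ i : Fin l.length, Fact (l.get i).Prime := fun i => ⟨hlp i⟩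
  letI : CommRing S := inferInstanceAs (CommRing ((i : Fin l.length) → ZMod (l.get i)))
  haveI : Finite S := inferInstanceAs (Finite ((i : Fin l.length) → ZMod (l.get i)))
  have hS : Nat.card S = n := by
    show Nat.card ((i : Fin l.length) → ZMod (l.get i)) = n
    rw [Nat.card_pi]
    simp only [Nat.card_zmod]
    rw [← List.prod_ofFn, List.ofFn_get, hl, Nat.prod_primeFactorsList (by omega)]
  have hS' : Nontrivial S := Finite.one_lt_card_iff_nontrivial.1 (hS.symm ▸ hn1)
  have htwo : ∀ x : S, x + x = 0 → x = 0 := by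
    intro x hx
    funext i
    have h1 : (2 : ZMod (l.get i)) * x i = 0 := by rw [two_mul]; exact congrFun hx i
    refine (mul_eq_zero.1 h1).resolve_left ?_
    intro h2
    have h3 : l.get i ∣ 2 := (ZMod.natCast_eq_zero_iff 2 _).1 (by exact_mod_cast h2)
    have h4 : l.get i = 2 := (Nat.prime_dvd_prime_iff_eq (hlp i) Nat.prime_two).1 h3
    have h5 : 2 ∣ n := h4 ▸ Nat.dvd_of_mem_primeFactorsList (List.get_mem l i)
    exact (Nat.not_even_iff_odd.2 hnodd) (even_iff_two_dvd.2 h5)
  obtain ⟨a, b, hab⟩ : ∃ a b : S, a * a + b * b = -1 := by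
    have h : ∀ i : Fin l.length, ∃ u v : ZMod (l.get i), u * u + v * v = -1 := fun i => by
      obtain ⟨u, v, h⟩ := ZMod.sq_add_sq (l.get i) (-1 : ZMod (l.get i))
      exact ⟨u, v, by rw [← pow_two, ← pow_two, h]⟩
    choose a b h using h
    exact ⟨a, b, funext h⟩
  let I : AddMonoid.End (S × S) :=
    { toFun := fun v => (a * v.1 + b * v.2, b * v.1 - a * v.2)
      map_zero' := by simp
      map_add' := fun v w => Prod.ext (show a * (v.1 + w.1) + b * (v.2 + w.2) = (a * v.1 + b * v.2) + (a * w.1 + b * w.2) by ring)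
        (show b * (v.1 + w.1) - a * (v.2 + w.2) = (b * v.1 - a * v.2) + (b * w.1 - a * w.2) by ring) }
  let J : AddMonoid.End (S × S) :=
    { toFun := fun v => (v.2, -v.1)
      map_zero' := by simp
      map_add' := fun v w => Prod.ext rfl (neg_add v.1 w.1) }
  obtain ⟨f, hf⟩ := exists_hom (R := AddMonoid.End (S × S)) I J
    (AddMonoidHom.ext fun v => Prod.ext
      (show a * (a * v.1 + b * v.2) + b * (b * v.1 - a * v.2) = -v.1 by linear_combination v.1 * hab)
      (show b * (a * v.1 + b * v.2) - a * (b * v.1 - a * v.2) = -v.2 by linear_combination v.2 * hab))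
    (AddMonoidHom.ext fun v => Prod.ext rfl rfl)
    (AddMonoidHom.ext fun v => Prod.ext
      (show a * v.2 + b * -v.1 = -(b * v.1 - a * v.2) by ring)
      (show b * v.2 - a * -v.1 = - -(a * v.1 + b * v.2) by ring))
  let φ : QuaternionGroup 2 →* MulAut (Multiplicative (S × S)) :=
    { toFun := fun q => AddEquiv.toMultiplicative
        { toFun := f q
          invFun := f q⁻¹
          left_inv := fun v => by
            show (f q⁻¹ * f q) v = v
            rw [← map_mul, inv_mul_cancel, map_one]; rfl
          right_inv := fun v => by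
            show (f q * f q⁻¹) v = v
            rw [← map_mul, mul_inv_cancel, map_one]; rfl
          map_add' := map_add (f q) }
      map_one' := MulEquiv.ext fun v => by
        show Multiplicative.ofAdd (f 1 v.toAdd) = v
        rw [map_one]; rfl
      map_mul' := fun q r => MulEquiv.ext fun v => by
        show Multiplicative.ofAdd (f (q * r) v.toAdd) = _
        rw [map_mul]; rfl }
  have hfpf : ∀ q : QuaternionGroup 2, q ≠ 1 → ∀ v, φ q v = v → v = 1 := by
    intro q hq v hv
    have hpow := (by decide : ∀ q : QuaternionGroup 2, q ≠ 1 → q = QuaternionGroup.a 2 ∨ q ^ 2 = QuaternionGroup.a 2) q hq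
    have hz : φ (QuaternionGroup.a 2) v = v := by
      rcases hpow with h | h
      · rw [← h]; exact hv
      · rw [← h, map_pow, pow_two, MulAut.mul_apply, hv, hv]
    have h1 : -(v.toAdd) = v.toAdd := by
      have := congrArg Multiplicative.toAdd hz
      rw [show Multiplicative.toAdd (φ (QuaternionGroup.a 2) v) = f (QuaternionGroup.a 2) v.toAdd from rfl, hf] at this
      exact this
    have h2 : v.toAdd + v.toAdd = 0 := by nth_rewrite 1 [← h1]; exact neg_add_cancel _
    exact Multiplicative.toAdd.injective (Prod.ext (htwo _ (congrArg Prod.fst h2)) (htwo _ (congrArg Prod.snd h2)))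
  let L := Multiplicative (S × S) ⋊[φ] QuaternionGroup 2
  haveI : Finite L := Finite.of_equiv _ SemidirectProduct.equivProd.symm
  set K : Subgroup L := (SemidirectProduct.inl : _ →* L).range with hK
  set H : Subgroup L := (SemidirectProduct.inr : _ →* L).range with hH
  haveI hKn : K.Normal := by rw [hK, SemidirectProduct.range_inl_eq_ker_rightHom]; infer_instance
  have hc : Subgroup.IsComplement' K H := by
    refine Subgroup.isComplement'_of_disjoint_and_mul_eq_univ ?_ ?_
    · rw [disjoint_iff, eq_bot_iff]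
      rintro _ ⟨⟨v, rfl⟩, ⟨q, hq⟩⟩
      have := congrArg SemidirectProduct.left hq
      simp at this
      rw [Subgroup.mem_bot, ← this, map_one]
    · refine Set.eq_univ_of_forall fun x => ?_
      exact ⟨_, ⟨x.left, rfl⟩, _, ⟨x.right, rfl⟩, SemidirectProduct.inl_left_mul_inr_right x⟩
  have hF : Cfsg.IsFrobeniusComplement H := by
    refine Cfsg.Lib.Solv.isFrobeniusComplement_of_fpf hc ?_ ?_ ?_
    · intro e
      have : Nat.card K = 1 := by rw [e, Subgroup.card_bot]
      rw [hK, ← Nat.card_congr (MonoidHom.ofInjective SemidirectProduct.inl_injective).toEquiv,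
        Nat.card_congr Multiplicative.toAdd, Nat.card_prod, hS] at this
      nlinarith
    · intro e
      have h1 : (SemidirectProduct.inr (QuaternionGroup.a 1) : L) ∈ H := ⟨_, rfl⟩
      rw [e, Subgroup.mem_bot] at h1
      have := congrArg SemidirectProduct.right h1
      simp at this
      exact absurd this (by decide)
    · rintro _ ⟨q, rfl⟩ hq
      rw [eq_bot_iff]
      rintro _ ⟨⟨v, rfl⟩, hv⟩
      rw [Subgroup.mem_bot]
      have h1 := congrArg SemidirectProduct.left (Subgroup.mem_centralizer_singleton_iff.1 hv)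
      simp at h1
      rw [hfpf q (fun e => hq (by rw [e, map_one])) v h1.symm, map_one]
  refine ⟨L, inferInstance, inferInstance, H, hF, ⟨(MonoidHom.ofInjective SemidirectProduct.inr_injective).symm⟩, ?_⟩
  rw [Cfsg.Lib.Solv.card_frobeniusKernel hF, hc.index_eq_card, hK,
    ← Nat.card_congr (MonoidHom.ofInjective SemidirectProduct.inl_injective).toEquiv,
    Nat.card_congr Multiplicative.toAdd, Nat.card_prod, hS]

end Cfsg.Agent.S4295
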