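import Cfsg.Statements.S4297
import Mathlib
import Cfsg.Agent.S4293
-- import your own Cfsg.Agent.* helpers here

set_option autoImplicit false
open Cfsg

namespace Cfsg.Agent.S4297

/-- The embedding of the complex numbers into the quaternions. -/
noncomputable def iota : ℂ →+* Quaternion ℝ := Quaternion.ofComplex.toRingHom

/-- The quaternion `j`. -/
noncomputable def jj : Quaternion ℝ := ⟨0, 0, 1, 0⟩

theorem jj_re : jj.re = 0 := rfl
theorem jj_imI : jj.imI = 0 := rfl
theorem jj_imJ : jj.imJ = 1 := rfl
theorem jj_imK : jj.imK = 0 := rfl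

theorem iota_apply (z : ℂ) : iota z = (z : Quaternion ℝ) := rfl

theorem iota_jj (z : ℂ) : iota z * jj = jj * iota (starRingEnd ℂ z) := by
  ext <;> simp [iota_apply, jj_re, jj_imI, jj_imJ, jj_imK]

theorem jj_sq : jj * jj = iota (-1) := by
  ext <;> simp [iota_apply, jj_re, jj_imI, jj_imJ, jj_imK]

/-- For every n ≥ 2 the dicyclic group of order 4n (generated by an element a of order 2n and an element x with x² = aⁿ and x a x⁻¹ = a⁻¹) occurs as a Frobenius complement of some finite Frobenius group. -/
theorem result (n : ℕ) (hn : 2 ≤ n) :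
    ∃ (L : Type) (_ : Group L) (_ : Finite L) (H : Subgroup L), Cfsg.IsFrobeniusComplement H ∧ Nonempty (H ≃* QuaternionGroup n) := by
  classical
  haveI : NeZero n := ⟨by omega⟩
  haveI : NeZero (2 * n) := ⟨by omega⟩
  set ζ : ℂ := Complex.exp (2 * Real.pi * Complex.I / (2 * n : ℕ)) with hζ
  have hprim : IsPrimitiveRoot ζ (2 * n) := Complex.isPrimitiveRoot_exp _ (NeZero.ne _)
  let P : ZMod (2 * n) → ℂ := fun i => ζ ^ i.val
  have hP : ∀ i j, P (i + j) = P i * P j := fun i j => by
    simp only [P]
    rw [← pow_add, ZMod.val_add, ← pow_eq_pow_mod _ hprim.pow_eq_one]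
  have hP0 : P 0 = 1 := by simp [P]
  have hPneg : ∀ i, P (-i) = (P i)⁻¹ := fun i => eq_inv_of_mul_eq_one_left (by rw [← hP, neg_add_cancel, hP0])
  have hconj : ∀ i, starRingEnd ℂ (P i) = P (-i) := fun i => by
    have hone : ‖P i‖ = 1 := by
      simp only [P, norm_pow, hprim.norm'_eq_one (NeZero.ne _), one_pow]
    rw [hPneg, Complex.inv_eq_conj hone]
  have hPn : P (n : ZMod (2 * n)) = -1 := by
    simp only [P]
    rw [ZMod.val_natCast, Nat.mod_eq_of_lt (by omega)]
    exact (hprim.pow (by omega) (mul_comm 2 n)).eq_neg_one_of_two_right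
  have hPsub : ∀ i j, starRingEnd ℂ (P i) * P j = P (j - i) := fun i j => by
    rw [hconj, ← hP]; congr 1; ring
  have hPinj : Function.Injective P := fun i j h =>
    ZMod.val_injective _ (hprim.pow_inj (ZMod.val_lt i) (ZMod.val_lt j) h)
  let f0 : QuaternionGroup n → Quaternion ℝ := fun q => match q with
    | QuaternionGroup.a i => iota (P i)
    | QuaternionGroup.xa i => jj * iota (P i)
  let f : QuaternionGroup n →* Quaternion ℝ :=
    { toFun := f0
      map_one' := by rw [QuaternionGroup.one_def]; show iota (P 0) = 1; rw [hP0, map_one]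
      map_mul' := by
        rintro (i | i) (j | j)
        · show iota (P (i + j)) = iota (P i) * iota (P j)
          rw [hP, map_mul]
        · show jj * iota (P (j - i)) = iota (P i) * (jj * iota (P j))
          rw [← mul_assoc, iota_jj, mul_assoc, ← map_mul, hPsub]
        · show jj * iota (P (i + j)) = jj * iota (P i) * iota (P j)
          rw [hP, map_mul, mul_assoc]
        · show iota (P ((n : ZMod (2 * n)) + j - i)) = jj * iota (P i) * (jj * iota (P j))
          rw [mul_assoc, ← mul_assoc (iota (P i)), iota_jj, mul_assoc, ← mul_assoc jj jj, jj_sq, ← map_mul, hPsub,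
            ← map_mul, ← hPn, ← hP, add_sub_assoc] }
  have hinj : Function.Injective f := by
    rintro (i | i) (j | j) h
    · exact congrArg _ (hPinj (iota.injective h))
    · exfalso
      have h1 : iota (P i) = jj * iota (P j) := h
      have hne : P i ≠ 0 := pow_ne_zero _ (hprim.ne_zero (NeZero.ne _))
      apply hne
      have hre := congrArg QuaternionAlgebra.re h1
      have him := congrArg QuaternionAlgebra.imI h1
      simp [iota_apply, jj_re, jj_imI, jj_imJ, jj_imK] at hre him
      exact Complex.ext hre him
    · exfalso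
      have h1 : jj * iota (P i) = iota (P j) := h
      have hne : P j ≠ 0 := pow_ne_zero _ (hprim.ne_zero (NeZero.ne _))
      apply hne
      have hre := congrArg QuaternionAlgebra.re h1.symm
      have him := congrArg QuaternionAlgebra.imI h1.symm
      simp [iota_apply, jj_re, jj_imI, jj_imJ, jj_imK] at hre him
      exact Complex.ext hre him
    · have h1 : jj * iota (P i) = jj * iota (P j) := h
      have hj : jj ≠ 0 := fun e => by
        have : jj.imJ = (0 : Quaternion ℝ).imJ := by rw [e]
        rw [jj_imJ, Quaternion.imJ_zero] at this; exact one_ne_zero this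
      exact congrArg _ (hPinj (iota.injective (mul_left_cancel₀ hj h1)))
  have hu : Function.Injective f.toHomUnits := fun a b h => hinj (congrArg Units.val h)
  haveI : Finite (QuaternionGroup n) := Finite.of_fintype _
  haveI : Finite f.toHomUnits.range := Finite.of_surjective _ f.toHomUnits.rangeRestrict_surjective
  have hne : f.toHomUnits.range ≠ ⊥ := by
    rw [Ne, MonoidHom.range_eq_bot_iff]
    intro h
    have h1 : QuaternionGroup.xa (0 : ZMod (2 * n)) = (1 : QuaternionGroup n) := hu (by rw [h]; simp)
    rw [QuaternionGroup.one_def] at h1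
    cases h1
  obtain ⟨L, i1, i2, H, hH, ⟨e⟩⟩ := Cfsg.Agent.S4293.result f.toHomUnits.range hne
  exact ⟨L, i1, i2, H, hH, ⟨e.symm.trans (MonoidHom.ofInjective hu).symm⟩⟩

end Cfsg.Agent.S4297
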