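import Cfsg.Statements.S4298
import Mathlib
import Cfsg.Agent.S4293
-- import your own Cfsg.Agent.* helpers here

set_option autoImplicit false
open Cfsg

namespace Cfsg.Agent.S4298

/-- The images of the elements of SL(2,3) in SL(2,5), listed by the entries read in base 3. -/
def table : List (ZMod 5 × ZMod 5 × ZMod 5 × ZMod 5) :=
  [(1,0,0,1), (1,0,0,1), (1,0,0,1), (1,0,0,1), (1,0,0,1), (1,0,0,1), (1,0,0,1), (1,0,0,1), (1,0,0,1), (1,0,0,1), (1,0,0,1), (1,0,0,1), (1,0,0,1), (1,0,0,1), (1,0,0,1), (0,4,1,0), (2,4,3,4), (3,2,1,1), (1,0,0,1), (1,0,0,1), (1,0,0,1), (0,1,4,0), (2,3,4,4), (3,1,2,1), (1,0,0,1), (1,0,0,1), (1,0,0,1), (1,0,0,1), (1,0,0,1), (1,0,0,1), (1,0,0,1), (1,2,1,3), (1,0,0,1), (1,0,0,1), (3,3,4,1), (1,0,0,1), (1,0,0,1), (1,1,2,3), (1,0,0,1), (1,0,0,1), (1,0,0,1), (0,2,2,0), (4,2,1,2), (1,0,0,1), (1,0,0,1), (1,0,0,1), (3,4,3,1), (1,0,0,1), (4,1,2,2), (1,0,0,1), (1,0,0,1), (1,0,0,1), (1,0,0,1),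 (3,0,0,2), (1,0,0,1), (1,0,0,1), (4,0,0,4), (1,0,0,1), (1,0,0,1), (2,2,1,4), (1,0,0,1), (1,0,0,1), (4,3,4,2), (1,0,0,1), (1,0,0,1), (2,1,2,4), (1,0,0,1), (2,0,0,3), (1,0,0,1), (1,4,3,3), (1,0,0,1), (1,0,0,1), (1,0,0,1), (1,0,0,1), (4,4,3,2), (1,3,4,3), (1,0,0,1), (1,0,0,1), (1,0,0,1), (0,3,3,0), (1,0,0,1)]

/-- The entry of the table at a matrix. -/
def img (a b c d : ZMod 3) : ZMod 5 × ZMod 5 × ZMod 5 × ZMod 5 :=
  table.getD (27 * a.val + 9 * b.val + 3 * c.val + d.val) (1, 0, 0, 1)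

/-- Product of two matrices given by entries. -/
def mul5 (A B : ZMod 5 × ZMod 5 × ZMod 5 × ZMod 5) : ZMod 5 × ZMod 5 × ZMod 5 × ZMod 5 :=
  (A.1 * B.1 + A.2.1 * B.2.2.1, A.1 * B.2.1 + A.2.1 * B.2.2.2,
   A.2.2.1 * B.1 + A.2.2.2 * B.2.2.1, A.2.2.1 * B.2.1 + A.2.2.2 * B.2.2.2)

/-- The action on the plane. -/
def act (A : ZMod 5 × ZMod 5 × ZMod 5 × ZMod 5) (v : ZMod 5 × ZMod 5) : ZMod 5 × ZMod 5 :=
  (A.1 * v.1 + A.2.1 * v.2, A.2.2.1 * v.1 + A.2.2.2 * v.2)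

theorem img_mul : ∀ a b c d : ZMod 3, a * d - b * c = 1 → ∀ e f g h : ZMod 3, e * h - f * g = 1 →
    img (a * e + b * g) (a * f + b * h) (c * e + d * g) (c * f + d * h) = mul5 (img a b c d) (img e f g h) := by
  decide +kernel

theorem img_fpf : ∀ a b c d : ZMod 3, a * d - b * c = 1 → ¬ (a = 1 ∧ b = 0 ∧ c = 0 ∧ d = 1) →
    ∀ x y : ZMod 5, act (img a b c d) (x, y) = (x, y) → x = 0 ∧ y = 0 := by
  decide +kernel

theorem img_one : img 1 0 0 1 = (1, 0, 0, 1) := by decide +kernel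

theorem act_mul (A B : ZMod 5 × ZMod 5 × ZMod 5 × ZMod 5) (v : ZMod 5 × ZMod 5) :
    act (mul5 A B) v = act A (act B v) := by
  simp only [act, mul5, Prod.mk.injEq]
  constructor <;> ring

/-- The table as a map on SL(2,3). -/
def im (M : Matrix.SpecialLinearGroup (Fin 2) (ZMod 3)) : ZMod 5 × ZMod 5 × ZMod 5 × ZMod 5 :=
  img (M.1 0 0) (M.1 0 1) (M.1 1 0) (M.1 1 1)

theorem det_eq (M : Matrix.SpecialLinearGroup (Fin 2) (ZMod 3)) :
    M.1 0 0 * M.1 1 1 - M.1 0 1 * M.1 1 0 = 1 := by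
  rw [← Matrix.det_fin_two]; exact M.2

theorem im_mul (M N : Matrix.SpecialLinearGroup (Fin 2) (ZMod 3)) : im (M * N) = mul5 (im M) (im N) := by
  have h := img_mul _ _ _ _ (det_eq M) _ _ _ _ (det_eq N)
  simp only [im, Matrix.SpecialLinearGroup.coe_mul, Matrix.mul_apply, Fin.sum_univ_two]
  exact h

theorem act_one (v : ZMod 5 × ZMod 5) : act (1, 0, 0, 1) v = v := by simp [act]

theorem im_one : im 1 = (1, 0, 0, 1) := by simpa [im] using img_one

/-- The representation. -/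
def phi : Matrix.SpecialLinearGroup (Fin 2) (ZMod 3) →* MulAut (Multiplicative (ZMod 5 × ZMod 5)) :=
  MonoidHom.mk' (fun M =>
    { toFun := fun v => Multiplicative.ofAdd (act (im M) v.toAdd)
      invFun := fun v => Multiplicative.ofAdd (act (im M⁻¹) v.toAdd)
      left_inv := fun v => by simp [← act_mul, ← im_mul, im_one, act_one]
      right_inv := fun v => by simp [← act_mul, ← im_mul, im_one, act_one]
      map_mul' := fun v w => by
        apply Multiplicative.toAdd.injective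
        simp only [toAdd_mul, toAdd_ofAdd, act, Prod.fst_add, Prod.snd_add, Prod.mk_add_mk, Prod.mk.injEq]
        constructor <;> ring })
    (fun M N => MulEquiv.ext fun v => by simp [im_mul, act_mul])

/-- The group SL(2,3) of order 24 (the binary tetrahedral group) occurs as a Frobenius complement of some finite Frobenius group. -/
theorem result :
    ∃ (L : Type) (_ : Group L) (_ : Finite L) (H : Subgroup L), Cfsg.IsFrobeniusComplement H ∧ Nonempty (H ≃* Matrix.SpecialLinearGroup (Fin 2) (ZMod 3)) := by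
  haveI : Nontrivial (Multiplicative (ZMod 5 × ZMod 5)) :=
    ⟨⟨Multiplicative.ofAdd (1, 0), 1, fun h => absurd (congrArg Multiplicative.toAdd h) (by decide)⟩⟩
  haveI : Nontrivial (Matrix.SpecialLinearGroup (Fin 2) (ZMod 3)) :=
    ⟨⟨⟨!![1, 1; 0, 1], by simp [Matrix.det_fin_two]⟩, 1, fun h => by
      have := congrArg (fun M => M.1 0 1) h
      simp at this⟩⟩
  obtain ⟨L, i1, i2, C, hC, ⟨e⟩⟩ := Cfsg.Agent.S4293.frobenius_semidirect phi (fun h hh v hv => by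
    have h1 : act (im h) v.toAdd = v.toAdd := congrArg Multiplicative.toAdd hv
    obtain ⟨h2, h3⟩ := img_fpf _ _ _ _ (det_eq h) (fun ⟨a, b, c, d⟩ => hh (by
      ext i j
      fin_cases i <;> fin_cases j <;> simp [a, b, c, d])) v.toAdd.1 v.toAdd.2 h1
    exact Multiplicative.toAdd.injective (Prod.ext h2 h3))
  exact ⟨L, i1, i2, C, hC, ⟨e.symm⟩⟩

end Cfsg.Agent.S4298
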