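import Cfsg.Statements.S4299
import Mathlib
import Cfsg.Agent.S4293
-- import your own Cfsg.Agent.* helpers here

set_option autoImplicit false
open Cfsg

namespace Cfsg.Agent.S4299

/-- Every nontrivial finite cyclic group occurs as a Frobenius complement of some finite Frobenius group. -/
theorem result {C : Type*} [Group C] [Finite C] [IsCyclic C] [Nontrivial C] :
    ∃ (L : Type) (_ : Group L) (_ : Finite L) (H : Subgroup L), Cfsg.IsFrobeniusComplement H ∧ Nonempty (C ≃* H) := by
  classical
  obtain ⟨g, hg⟩ := IsCyclic.exists_generator (α := C)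
  set n := Nat.card C with hn
  haveI : NeZero n := ⟨Nat.card_pos.ne'⟩
  let R := rootsOfUnity n ℂ
  have hR : Nat.card R = n := by
    exact Complex.card_rootsOfUnity n
  haveI : Finite R := Nat.finite_of_card_ne_zero (by rw [hR]; exact NeZero.ne n)
  have hRne : (rootsOfUnity n ℂ : Subgroup ℂˣ) ≠ ⊥ := by
    intro h
    have : Nat.card R = 1 := Subgroup.card_eq_one.mpr h
    rw [hR] at this
    exact Finite.one_lt_card.ne' this
  obtain ⟨L, i1, i2, H, hH, ⟨e⟩⟩ := Cfsg.Agent.S4293.result (rootsOfUnity n ℂ) hRne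
  exact ⟨L, i1, i2, H, hH, ⟨(mulEquivOfCyclicCardEq (G' := R) (by rw [hR])).trans e⟩⟩

end Cfsg.Agent.S4299
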