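import Cfsg.Statements.S4300
import Mathlib
-- import your own Cfsg.Agent.* helpers here

set_option autoImplicit false
open Cfsg

namespace Cfsg.Agent.S4300

/-- Let G act faithfully and primitively on a set X, and suppose the stabilizer of some point is a simple group. Then either G is simple, or G has a normal subgroup, neither trivial nor the whole group, that acts regularly on X (transitively with trivial point stabilizers). -/
theorem result {G : Type*} [Group G] {X : Type*} [MulAction G X] [FaithfulSMul G X]
    (hprim : MulAction.IsPreprimitive G X) (x : X) (hsimple : IsSimpleGroup (MulAction.stabilizer G x)) :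
    IsSimpleGroup G ∨ ∃ N : Subgroup G, N.Normal ∧ N ≠ ⊥ ∧ N ≠ ⊤ ∧
      MulAction.IsPretransitive N X ∧ ∀ y : X, MulAction.stabilizer N y = ⊥ := by
  classical
  haveI := hprim
  haveI := hsimple
  by_cases hs : IsSimpleGroup G
  · exact Or.inl hs
  refine Or.inr ?_
  haveI : Nontrivial G := by
    haveI := IsSimpleGroup.toNontrivial (G := MulAction.stabilizer G x)
    exact Function.Injective.nontrivial (Subgroup.subtype_injective (MulAction.stabilizer G x))
  obtain ⟨N, hN, hb, ht⟩ : ∃ N : Subgroup G, N.Normal ∧ N ≠ ⊥ ∧ N ≠ ⊤ := by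
    by_contra hcon
    push Not at hcon
    exact hs ⟨fun N hN => or_iff_not_imp_left.mpr (hcon N hN)⟩
  haveI := hN
  have hfixne : MulAction.fixedPoints N X ≠ Set.univ := by
    intro huniv
    apply hb
    rw [eq_bot_iff]
    intro n hn
    rw [Subgroup.mem_bot]
    refine FaithfulSMul.eq_of_smul_eq_smul fun a : X => ?_
    have ha : a ∈ MulAction.fixedPoints N X := by rw [huniv]; trivial
    rw [one_smul]
    exact ha ⟨n, hn⟩
  have htr : MulAction.IsPretransitive N X := MulAction.IsQuasiPreprimitive.isPretransitive_of_normal hfixne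
  haveI := htr
  refine ⟨N, hN, hb, ht, htr, ?_⟩
  have hx : MulAction.stabilizer N x = ⊥ := by
    rcases IsSimpleGroup.eq_bot_or_eq_top_of_normal (N.subgroupOf (MulAction.stabilizer G x)) inferInstance with h | h
    · rw [eq_bot_iff]
      intro n hn
      have h1 : (⟨(n : G), hn⟩ : MulAction.stabilizer G x) ∈ N.subgroupOf (MulAction.stabilizer G x) := n.2
      rw [h, Subgroup.mem_bot] at h1
      rw [Subgroup.mem_bot]
      exact Subtype.ext (congrArg Subtype.val h1 :)
    · exfalso
      apply ht
      rw [eq_top_iff]
      intro g _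
      obtain ⟨n, hn⟩ := MulAction.exists_smul_eq N x (g • x)
      have h1 : (n : G)⁻¹ * g ∈ MulAction.stabilizer G x := by
        rw [MulAction.mem_stabilizer_iff, mul_smul, ← hn]
        exact inv_smul_smul (n : G) x
      have h2 := mul_mem n.2 ((Subgroup.subgroupOf_eq_top.mp h) h1)
      rwa [mul_inv_cancel_left] at h2
  intro y
  obtain ⟨n, rfl⟩ := MulAction.exists_smul_eq N x y
  rw [MulAction.stabilizer_smul_eq_stabilizer_map_conj, hx, Subgroup.map_bot]

end Cfsg.Agent.S4300
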