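import Cfsg.Statements.S4301
import Mathlib
-- import your own Cfsg.Agent.* helpers here

set_option autoImplicit false
open Cfsg

namespace Cfsg.Agent.S4301

/-- One-point extension of a multiply transitive group. Let X be a set and G a group of permutations of Option X (the set X with one extra point ∗ = none) all of whose elements fix ∗, such that G is k-transitive on the points of X for some k ≥ 2, X having at least k points. Suppose a permutation h of Option X and an element g of G satisfy: h interchanges ∗ with a point x of X and fixes a point y of X; g interchanges x and y; (g h)³ and h² lie in G; and for every f in G fixing x, the product h f h lies in G and fixes x. Then an element of the group generated by G and h fixes ∗ exactly when it lies in G, and that group acts (k+1)-transitively on Option X. -/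
theorem result {X : Type*} (G : Subgroup (Equiv.Perm (Option X))) (hfix : ∀ f ∈ G, f none = none)
    (k : ℕ) (hk : 2 ≤ k) (hkX : Nonempty (Fin k ↪ X))
    (htrans : ∀ a b : Fin k ↪ X, ∃ f ∈ G, ∀ i, f (some (a i)) = some (b i))
    (h g : Equiv.Perm (Option X)) (hg : g ∈ G) (x y : X)
    (h1 : h none = some x) (h2 : h (some x) = none) (h3 : h (some y) = some y)
    (h4 : g (some x) = some y) (h5 : g (some y) = some x)
    (h6 : (g * h) ^ 3 ∈ G) (h7 : h ^ 2 ∈ G)
    (h8 : ∀ f ∈ G, f (some x) = some x → h * f * h ∈ G ∧ (h * f * h) (some x) = some x) :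
    (∀ f ∈ Subgroup.closure ((G : Set (Equiv.Perm (Option X))) ∪ {h}), f none = none ↔ f ∈ G) ∧
      MulAction.IsMultiplyPretransitive (Subgroup.closure ((G : Set (Equiv.Perm (Option X))) ∪ {h})) (Option X) (k + 1) := by
  classical
  have hh2 : (h ^ 2 : Equiv.Perm (Option X)) (some x) = some x := by
    rw [pow_two, Equiv.Perm.mul_apply, h2, h1]
  have hconj : ∀ a ∈ G, a (some x) = some x → h * a * h⁻¹ ∈ G ∧ h⁻¹ * a * h ∈ G := by
    intro a ha hax
    obtain ⟨hm, hmx⟩ := h8 a ha hax
    refine ⟨?_, ?_⟩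
    · have : h * a * h⁻¹ = (h * a * h) * (h ^ 2)⁻¹ := by group
      rw [this]; exact mul_mem hm (inv_mem h7)
    · have : h⁻¹ * a * h = (h ^ 2)⁻¹ * (h * a * h) := by group
      rw [this]; exact mul_mem (inv_mem h7) hm
  have hmain : ∀ f ∈ G, h * f * h ∈ G ∨ ∃ a ∈ G, ∃ b ∈ G, h * f * h = a * h * b := by
    intro f hf
    by_cases hfx : f (some x) = some x
    · exact Or.inl (h8 f hf hfx).1
    obtain ⟨z, hz⟩ : ∃ z, f (some x) = some z := by
      rcases hz : f (some x) with _ | z
      · exact absurd ((f.injective (hz.trans (hfix f hf).symm))) (by simp)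
      · exact ⟨z, rfl⟩
    have hxy : x ≠ y := by rintro rfl; rw [h3] at h2; simp at h2
    have hzx : x ≠ z := by rintro rfl; exact hfx hz
    obtain ⟨A, hA0, hA1⟩ : ∃ A : Fin k ↪ X, A ⟨0, by omega⟩ = x ∧ A ⟨1, by omega⟩ = y := by
      obtain ⟨A0⟩ := hkX
      let A1 := A0.trans (Equiv.swap (A0 ⟨0, by omega⟩) x).toEmbedding
      have e0 : A1 ⟨0, by omega⟩ = x := Equiv.swap_apply_left _ _
      refine ⟨A1.trans (Equiv.swap (A1 ⟨1, by omega⟩) y).toEmbedding, ?_, Equiv.swap_apply_left _ _⟩
      show Equiv.swap _ y (A1 ⟨0, _⟩) = x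
      rw [e0, Equiv.swap_apply_of_ne_of_ne (e0 ▸ A1.injective.ne (by simp [Fin.ext_iff])) hxy]
    obtain ⟨a, ha, hax⟩ : ∃ a ∈ G, a (some x) = some x ∧ a (some y) = some z := by
      obtain ⟨a, ha, h'⟩ := htrans A (A.trans (Equiv.swap y z).toEmbedding)
      refine ⟨a, ha, ?_, ?_⟩
      · have := h' ⟨0, by omega⟩
        simp only [Function.Embedding.trans_apply, Equiv.coe_toEmbedding, hA0, Equiv.swap_apply_of_ne_of_ne hxy hzx] at this
        exact this
      · have := h' ⟨1, by omega⟩
        simp only [Function.Embedding.trans_apply, Equiv.coe_toEmbedding, hA1, Equiv.swap_apply_left] at this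
        exact this
    set b := g⁻¹ * a⁻¹ * f with hb
    have hbG : b ∈ G := mul_mem (mul_mem (inv_mem hg) (inv_mem ha)) hf
    have hbx : b (some x) = some x := by
      show g⁻¹ (a⁻¹ (f (some x))) = some x
      rw [hz, ← hax.2]
      show g.symm (a.symm (a (some y))) = some x
      rw [a.symm_apply_apply, ← h4, g.symm_apply_apply]
    have hghgh : h * g * h = g⁻¹ * (g * h) ^ 3 * (h ^ 2)⁻¹ * h * g⁻¹ := by
      simp only [pow_succ, pow_zero, one_mul, mul_assoc]; group
    have : h * f * h = (h * a * h⁻¹) * (h * g * h) * (h⁻¹ * b * h) := by rw [hb]; group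
    refine Or.inr ⟨(h * a * h⁻¹) * (g⁻¹ * (g * h) ^ 3 * (h ^ 2)⁻¹),
      mul_mem (hconj a ha hax.1).1 (mul_mem (mul_mem (inv_mem hg) h6) (inv_mem h7)),
      g⁻¹ * (h⁻¹ * b * h), mul_mem (inv_mem hg) (hconj b hbG hbx).2, ?_⟩
    rw [this, hghgh]; group
  set K := Subgroup.closure ((G : Set (Equiv.Perm (Option X))) ∪ {h}) with hK
  have hGK : G ≤ K := fun f hf => Subgroup.subset_closure (Or.inl hf)
  have hhK : h ∈ K := Subgroup.subset_closure (Or.inr rfl)
  have hHK : ∀ f ∈ K, f ∈ G ∨ ∃ a ∈ G, ∃ b ∈ G, f = a * h * b := by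
    intro f hf
    induction hf using Subgroup.closure_induction with
    | mem z hz =>
      rcases hz with hz | hz
      · exact Or.inl hz
      · exact Or.inr ⟨1, one_mem _, 1, one_mem _, by rw [Set.mem_singleton_iff.1 hz, one_mul, mul_one]⟩
    | one => exact Or.inl (one_mem _)
    | inv z _ hz =>
      rcases hz with hz | ⟨a, ha, b, hb, rfl⟩
      · exact Or.inl (inv_mem hz)
      · exact Or.inr ⟨b⁻¹ * (h ^ 2)⁻¹, mul_mem (inv_mem hb) (inv_mem h7), a⁻¹, inv_mem ha, by group⟩
    | mul u v _ _ hu hv =>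
      rcases hu with hu | ⟨a, ha, b, hb, rfl⟩
      · rcases hv with hv | ⟨c, hc, d, hd, rfl⟩
        · exact Or.inl (mul_mem hu hv)
        · exact Or.inr ⟨u * c, mul_mem hu hc, d, hd, by group⟩
      · rcases hv with hv | ⟨c, hc, d, hd, rfl⟩
        · exact Or.inr ⟨a, ha, b * v, mul_mem hb hv, by group⟩
        · have e : a * h * b * (c * h * d) = a * (h * (b * c) * h) * d := by group
          rw [e]
          rcases hmain (b * c) (mul_mem hb hc) with h' | ⟨a', ha', b', hb', h'⟩
          · exact Or.inl (mul_mem (mul_mem ha h') hd)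
          · exact Or.inr ⟨a * a', mul_mem ha ha', b' * d, mul_mem hb' hd, by rw [h']; group⟩
  refine ⟨fun f hf => ⟨fun hn => (hHK f hf).resolve_right ?_, fun hG => hfix f hG⟩, ?_⟩
  · rintro ⟨a, ha, b, hb, rfl⟩
    rw [Equiv.Perm.mul_apply, Equiv.Perm.mul_apply, hfix b hb, h1] at hn
    exact absurd (a.injective (hn.trans (hfix a ha).symm)) (by simp)
  have hnone : ∀ o : Option X, ∃ u ∈ K, u o = none := by
    rintro (_ | z)
    · exact ⟨1, one_mem _, rfl⟩
    · obtain ⟨A0⟩ := hkX
      obtain ⟨a, ha, h'⟩ := htrans (A0.trans (Equiv.swap (A0 ⟨0, by omega⟩) z).toEmbedding)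
        (A0.trans (Equiv.swap (A0 ⟨0, by omega⟩) x).toEmbedding)
      refine ⟨h * a, mul_mem hhK (hGK ha), ?_⟩
      have h'' := h' ⟨0, by omega⟩
      simp only [Function.Embedding.trans_apply, Equiv.coe_toEmbedding, Equiv.swap_apply_left] at h''
      rw [Equiv.Perm.mul_apply, h'', h2]
  rw [MulAction.isMultiplyPretransitive_iff]
  intro A B
  obtain ⟨u, hu, hu0⟩ := hnone (A 0)
  obtain ⟨v, hv, hv0⟩ := hnone (B 0)
  have hex : ∀ (w : Equiv.Perm (Option X)) (C : Fin (k + 1) ↪ Option X), w (C 0) = none →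
      ∃ C' : Fin k ↪ X, ∀ i, w (C i.succ) = some (C' i) := by
    intro w C hw
    have hne : ∀ i : Fin k, ∃ z, w (C i.succ) = some z := fun i => by
      rcases hq : w (C i.succ) with _ | z
      · exact absurd (C.injective (w.injective (hq.trans hw.symm))) (Fin.succ_ne_zero i)
      · exact ⟨z, rfl⟩
    choose C' hC' using hne
    refine ⟨⟨C', fun i j hij => ?_⟩, hC'⟩
    exact Fin.succ_injective _ (C.injective (w.injective (by rw [hC', hC', hij])))
  obtain ⟨A', hA'⟩ := hex u A hu0
  obtain ⟨B', hB'⟩ := hex v B hv0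
  obtain ⟨f, hf, hf'⟩ := htrans A' B'
  refine ⟨⟨v⁻¹ * f * u, mul_mem (mul_mem (inv_mem hv) (hGK hf)) hu⟩, ?_⟩
  ext i : 1
  show v.symm (f (u (A i))) = B i
  refine Fin.cases ?_ (fun j => ?_) i
  · rw [hu0, hfix f hf, ← hv0, v.symm_apply_apply]
  · rw [hA', hf', ← hB', v.symm_apply_apply]

end Cfsg.Agent.S4301
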