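import Cfsg.Statements.S4303
import Mathlib
import Cfsg.Agent.Lib.Solv.Coprime
-- import your own Cfsg.Agent.* helpers here

set_option autoImplicit false
universe u
open Cfsg

namespace Cfsg.Agent.S4303

open Subgroup
open scoped Pointwise

/-- the admissible factors -/
def Good (p m : ℕ) : Prop :=
  (IsPrimePow m ∧ m % p = 1) ∨ ∃ (S : Type u) (_ : Group S) (_ : Finite S), IsSimpleGroup S ∧ m = Nat.card (Sylow p S)

variable {G : Type u} [Group G] [Finite G] {p : ℕ} [hp : Fact p.Prime]

theorem card_sylow_of_normalizer_le (P : Sylow p G) (M : Subgroup G)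
    (hM : normalizer ((P : Subgroup G) : Set G) ≤ M) :
    Nat.card (Sylow p G) = M.index * Nat.card (Sylow p M) := by
  have hP : (P : Subgroup G) ≤ M := le_normalizer.trans hM
  rw [Sylow.card_eq_index_normalizer P, Sylow.card_eq_index_normalizer (P.subtype hP)]
  show (normalizer ((P : Subgroup G) : Set G)).index = M.index * (normalizer ((P.subtype hP : Subgroup M) : Set M)).index
  rw [← relIndex_mul_index hM, mul_comm]
  congr 1
  show ((normalizer ((P : Subgroup G) : Set G)).subgroupOf M).index = _
  congr 1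
  rw [Sylow.coe_subtype]
  ext x
  rw [mem_subgroupOf, mem_normalizer_iff, mem_normalizer_iff]
  constructor
  · intro h y
    rw [mem_subgroupOf, mem_subgroupOf]
    exact h y
  · intro h y
    constructor
    · intro hy
      exact (h ⟨y, hP hy⟩).1 hy
    · intro hy
      have hyM : y ∈ M := by
        have : y = (x : G)⁻¹ * ((x : G) * y * (x : G)⁻¹) * (x : G) := by group
        rw [this]
        exact M.mul_mem (M.mul_mem (M.inv_mem x.2) (hP hy)) x.2
      exact (h ⟨y, hyM⟩).2 hy

theorem card_sylow_normal_of_le (T : Subgroup G) [hT : T.Normal] (P : Sylow p G) (hP : (P : Subgroup G) ≤ T) :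
    Nat.card (Sylow p G) = Nat.card (Sylow p T) := by
  have hle : ∀ Q : Sylow p G, (Q : Subgroup G) ≤ T := fun Q => by
    obtain ⟨g, rfl⟩ := MulAction.exists_smul_eq G P Q
    intro x hx
    obtain ⟨y, hy, rfl⟩ := hx
    exact hT.conj_mem y (hP hy) g
  refine Nat.card_congr (Equiv.ofBijective (fun Q => Q.subtype (hle Q)) ⟨fun Q R h => ?_, fun R => ?_⟩)
  · exact Sylow.subtype_injective h
  · obtain ⟨Q, hQ⟩ := (R.isPGroup'.map T.subtype).exists_le_sylow
    refine ⟨Q, (R.is_maximal' (Q.subtype (hle Q)).isPGroup' ?_ |> fun h => Sylow.ext h)⟩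
    intro x hx
    exact hQ (mem_map_of_mem T.subtype hx)

theorem index_normalizer_image (N : Subgroup G) [N.Normal] (P : Sylow p G) :
    (normalizer ((((P : Subgroup G) ⊔ N) : Subgroup G) : Set G)).index = Nat.card (Sylow p (G ⧸ N)) := by
  let Pb : Sylow p (G ⧸ N) := P.mapSurjective (QuotientGroup.mk'_surjective N)
  rw [Sylow.card_eq_index_normalizer Pb]
  have h1 : ((P : Subgroup G) ⊔ N) = (Pb : Subgroup (G ⧸ N)).comap (QuotientGroup.mk' N) := by
    show _ = ((P : Subgroup G).map (QuotientGroup.mk' N)).comap (QuotientGroup.mk' N)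
    rw [comap_map_eq, QuotientGroup.ker_mk']
  rw [h1, ← Subgroup.comap_normalizer_eq_of_surjective _ (QuotientGroup.mk'_surjective N),
    index_comap_of_surjective _ (QuotientGroup.mk'_surjective N)]
  rfl

theorem pow_part_good (N : Subgroup G) [N.Normal] (hcop : (Nat.card N).Coprime p) (P : Sylow p G) (r : ℕ) [hr : Fact r.Prime]
    (hne : (centralizer ((P : Subgroup G) : Set G)).relIndex N ≠ 0) :
    r ^ ((centralizer ((P : Subgroup G) : Set G)).relIndex N).factorization r % p = 1 := by
  set C := N ⊓ centralizer ((P : Subgroup G) : Set G) with hC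
  obtain ⟨n, hn⟩ := IsPGroup.iff_card.1 P.isPGroup'
  have hc : (Nat.card (P : Subgroup G)).Coprime (Nat.card N) := by rw [hn]; exact (hcop.symm).pow_left n
  have hsolv : Group.IsSolvable (P : Subgroup G) ∨ Group.IsSolvable N := by
    haveI := P.isPGroup'.isNilpotent
    exact Or.inl inferInstance
  have hPN : (P : Subgroup G) ≤ normalizer (N : Set G) := by rw [normalizer_eq_top]; exact le_top
  obtain ⟨R, hR⟩ := Cfsg.Lib.Solv.exists_invariant_sylow (P : Subgroup G) N hPN hc hsolv r
  set R' := (R : Subgroup N).map N.subtype with hR'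
  -- the fixed points of P on R
  let R'' : Sylow r N := R
  obtain U : Sylow r C := default
  set U' := (U : Subgroup C).map C.subtype with hU'
  have hU'C : U' ≤ C := map_subtype_le _
  have hUinv : (P : Subgroup G) ≤ normalizer (U' : Set G) := by
    intro a ha
    refine mem_normalizer_fintype (S := (U' : Set G)) fun x hx => ?_
    have := mem_centralizer_iff.1 (hU'C hx).2 a ha
    rw [this, mul_inv_cancel_right]
    exact hx
  obtain ⟨S, hUS, hS⟩ := Cfsg.Lib.Solv.invariant_pgroup_le_sylow (P : Subgroup G) N hPN hc hsolv r U'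
    (hU'C.trans inf_le_left) (U.isPGroup'.map _) hUinv
  obtain ⟨c, hcC, hcS⟩ := Cfsg.Lib.Solv.invariant_sylow_conj (P : Subgroup G) N hPN hc hsolv S R hS hR
  have hSR : MulAut.conj (c : G) • (S : Subgroup N).map N.subtype = R' := by
    rw [hR', ← hcS]
    exact (Cfsg.Lib.Solv.map_conj_smul N.subtype c (S : Subgroup N)).symm
  set F := R' ⊓ centralizer ((P : Subgroup G) : Set G) with hF
  have hle : Nat.card U' ≤ Nat.card F := by
    rw [← Cfsg.Lib.Solv.card_conj_smul (c : G) U']
    refine card_le_of_le (le_inf ?_ ?_)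
    · rw [← hSR]; exact smul_le_smul_left _ hUS
    · rintro _ ⟨x, hx, rfl⟩
      have hx' := (hU'C hx).2
      exact (centralizer ((P : Subgroup G) : Set G)).mul_mem
        ((centralizer ((P : Subgroup G) : Set G)).mul_mem hcC hx') (inv_mem hcC)
  have hFp : IsPGroup r F := (R.isPGroup'.map _).to_inf_left
  obtain ⟨b, hb⟩ := IsPGroup.iff_card.1 hFp
  have hbC : b ≤ (Nat.card C).factorization r := by
    have h1 : Nat.card F ∣ Nat.card C := card_dvd_of_le (le_inf (inf_le_left.trans (map_subtype_le _)) inf_le_right)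
    rw [hb] at h1
    exact (hr.out.pow_dvd_iff_le_factorization Nat.card_pos.ne').1 h1
  have hUc : Nat.card U' = r ^ (Nat.card C).factorization r := by
    rw [hU', Cfsg.Lib.Solv.card_map_subtype']
    exact U.card_eq_multiplicity
  rw [hUc, hb] at hle
  have hbeq : b = (Nat.card C).factorization r :=
    le_antisymm hbC ((Nat.pow_le_pow_iff_right hr.out.one_lt).1 hle)
  have hRc : Nat.card R' = r ^ (Nat.card N).factorization r := by
    rw [hR', Cfsg.Lib.Solv.card_map_subtype']
    exact R.card_eq_multiplicity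
  -- congruence
  let act : MulAction (P : Subgroup G) R' :=
    { smul := fun a x => ⟨(a : G) * x * (a : G)⁻¹, (mem_normalizer_iff.1 (hR a.2) x).1 x.2⟩
      one_smul := fun x => Subtype.ext (by show ((1 : (P : Subgroup G)) : G) * x * ((1 : (P : Subgroup G)) : G)⁻¹ = x; simp)
      mul_smul := fun a a' x => Subtype.ext (by
        show ((a * a' : (P : Subgroup G)) : G) * x * ((a * a' : (P : Subgroup G)) : G)⁻¹ = (a : G) * ((a' : G) * x * (a' : G)⁻¹) * (a : G)⁻¹
        simp [mul_assoc]) }
  have hmod := P.isPGroup'.card_modEq_card_fixedPoints (α := R')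
  have hfix : Nat.card (MulAction.fixedPoints (P : Subgroup G) R') = Nat.card F := by
    refine Nat.card_congr ((Equiv.subtypeEquivRight fun x => ?_).trans
      (Equiv.subtypeSubtypeEquivSubtypeInter (fun x => x ∈ R') (fun x => x ∈ centralizer ((P : Subgroup G) : Set G))))
    rw [MulAction.mem_fixedPoints, mem_centralizer_iff]
    constructor
    · intro h a ha
      exact mul_inv_eq_iff_eq_mul.1 (congrArg Subtype.val (h ⟨a, ha⟩))
    · intro h a
      exact Subtype.ext (mul_inv_eq_iff_eq_mul.2 (h a a.2))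
  rw [hfix, hb, hRc] at hmod
  have hidx : (centralizer ((P : Subgroup G) : Set G)).relIndex N * Nat.card C = Nat.card N := by
    rw [← inf_relIndex_right, inf_comm, ← hC, mul_comm]
    have hCN : C ≤ N := inf_le_left
    rw [relIndex, ← Nat.card_congr (subgroupOfEquivOfLe hCN).toEquiv]
    exact card_mul_index _
  have hfac : (Nat.card N).factorization r = ((centralizer ((P : Subgroup G) : Set G)).relIndex N).factorization r + b := by
    rw [← hidx, Nat.factorization_mul hne Nat.card_pos.ne', Finsupp.add_apply, hbeq]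
  rw [hfac, pow_add] at hmod
  have hgcd : Nat.gcd p (r ^ b) = 1 := by
    have h1 : r ^ b ∣ Nat.card N := hb ▸ card_dvd_of_le (inf_le_left.trans (map_subtype_le _))
    exact (Nat.Coprime.coprime_dvd_left h1 hcop).symm
  have h2 : r ^ ((centralizer ((P : Subgroup G) : Set G)).relIndex N).factorization r ≡ 1 [MOD p] := by
    refine Nat.ModEq.cancel_right_of_coprime (c := r ^ b) hgcd ?_
    rw [one_mul]; exact hmod
  exact Eq.trans h2 (Nat.mod_eq_of_lt hp.out.one_lt)

theorem coprime_case (N : Subgroup G) [N.Normal] (hcop : (Nat.card N).Coprime p) (P : Sylow p G)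
    (htop : (P : Subgroup G) ⊔ N = ⊤) :
    ∃ l : List ℕ, l.prod = Nat.card (Sylow p G) ∧ ∀ m ∈ l, Good.{u} p m := by
  classical
  set m := (centralizer ((P : Subgroup G) : Set G)).relIndex N with hm
  have hm0 : m ≠ 0 := index_ne_zero_of_finite
  have hcard : Nat.card (Sylow p G) = m := by
    rw [Sylow.card_eq_index_normalizer P]
    set H := normalizer ((P : Subgroup G) : Set G)
    have hH : H ⊔ N = ⊤ := eq_top_iff.2 (htop ▸ sup_le_sup_right le_normalizer N)
    have h1 := relIndex_mul_index (inf_le_left : H ⊓ N ≤ H)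
    have h2 := relIndex_mul_index (inf_le_right : H ⊓ N ≤ N)
    rw [inf_relIndex_right] at h2
    rw [inf_relIndex_left] at h1
    have h3 : N.relIndex H = N.index := by rw [← relIndex_sup_right, hH, relIndex_top_right]
    rw [h3, ← h2, mul_comm] at h1
    have h5 : H.relIndex N = m := by
      refine le_antisymm (Nat.le_of_dvd (Nat.pos_of_ne_zero hm0) ?_) (le_of_eq ?_)
      · exact relIndex_dvd_of_le_left N (centralizer_le_normalizer _)
      · rw [hm, ← inf_relIndex_right, ← inf_relIndex_right H N]
        congr 1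
        refine le_antisymm (inf_le_inf_right N (centralizer_le_normalizer _)) (le_inf ?_ inf_le_right)
        intro x hx
        rw [mem_centralizer_iff]
        intro a ha
        have hk : a * x * a⁻¹ * x⁻¹ ∈ (P : Subgroup G) ⊓ N := by
          refine ⟨?_, N.mul_mem ((inferInstance : N.Normal).conj_mem x hx.2 a) (N.inv_mem hx.2)⟩
          rw [show a * x * a⁻¹ * x⁻¹ = a * (x * a⁻¹ * x⁻¹) by group]
          exact mul_mem ha ((mem_normalizer_iff.1 hx.1 _).1 (inv_mem ha))
        obtain ⟨n, hn⟩ := IsPGroup.iff_card.1 P.isPGroup'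
        rw [Subgroup.inf_eq_bot_of_coprime (by rw [hn]; exact (hcop.symm).pow_left n), mem_bot] at hk
        exact mul_inv_eq_iff_eq_mul.1 (mul_inv_eq_one.1 hk)
    rw [← h5]
    exact Nat.eq_of_mul_eq_mul_right (Nat.pos_of_ne_zero index_ne_zero_of_finite) h1
  refine ⟨m.primeFactors.toList.map fun r => r ^ m.factorization r, ?_, ?_⟩
  · rw [hcard, Finset.prod_map_toList]
    exact Nat.prod_factorization_pow_eq_self hm0
  · intro k hk
    rw [List.mem_map] at hk
    obtain ⟨r, hr, rfl⟩ := hk
    rw [Finset.mem_toList] at hr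
    haveI := Fact.mk (Nat.prime_of_mem_primeFactors hr)
    refine Or.inl ⟨?_, pow_part_good N hcop P r hm0⟩
    exact (Nat.prime_of_mem_primeFactors hr).isPrimePow.pow
      ((Nat.prime_of_mem_primeFactors hr).factorization_pos_of_dvd hm0 (Nat.dvd_of_mem_primeFactors hr)).ne'

omit [Finite G] in
theorem append_good {a b : ℕ} (h1 : ∃ l : List ℕ, l.prod = a ∧ ∀ m ∈ l, Good.{u} p m)
    (h2 : ∃ l : List ℕ, l.prod = b ∧ ∀ m ∈ l, Good.{u} p m) :
    ∃ l : List ℕ, l.prod = a * b ∧ ∀ m ∈ l, Good.{u} p m := by
  obtain ⟨l1, e1, g1⟩ := h1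
  obtain ⟨l2, e2, g2⟩ := h2
  exact ⟨l1 ++ l2, by rw [List.prod_append, e1, e2], fun m hm => (List.mem_append.1 hm).elim (g1 m) (g2 m)⟩

theorem main : ∀ (n : ℕ) (G : Type u) [Group G] [Finite G], Nat.card G ≤ n →
    ∃ l : List ℕ, l.prod = Nat.card (Sylow p G) ∧ ∀ m ∈ l, Good.{u} p m := by
  intro n
  induction n with
  | zero =>
    intro G _ _ hn
    have := Nat.card_pos (α := G)
    omega
  | succ n ih =>
  intro G _ _ hn
  obtain ⟨P⟩ := (inferInstance : Nonempty (Sylow p G))
  rcases subsingleton_or_nontrivial G with hG | hG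
  · refine ⟨[], ?_, fun m hm => absurd hm List.not_mem_nil⟩
    haveI : Subsingleton (Sylow p G) := ⟨fun a b => Sylow.ext (Subsingleton.elim _ _)⟩
    rw [Nat.card_unique, List.prod_nil]
  by_cases hs : IsSimpleGroup G
  · refine ⟨[Nat.card (Sylow p G)], by simp, fun m hm => Or.inr ⟨G, inferInstance, inferInstance, hs, ?_⟩⟩
    simpa using hm
  obtain ⟨N, hN, hN1, hN2⟩ : ∃ N : Subgroup G, N.Normal ∧ N ≠ ⊥ ∧ N ≠ ⊤ := by
    by_contra h
    push Not at h
    exact hs ⟨fun H hH => or_iff_not_imp_left.2 (h H hH)⟩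
  have hlt : ∀ H : Subgroup G, H ≠ ⊤ → Nat.card H ≤ n := fun H hH => by
    have h1 : Nat.card H ≠ Nat.card G := fun e => hH (eq_top_of_card_eq H e)
    have h2 := H.card_le_card_group
    omega
  have hq : ∀ M : Subgroup G, ∀ [M.Normal], M ≠ ⊥ → Nat.card (G ⧸ M) ≤ n := by
    intro M _ hM
    have h1 := M.card_mul_index
    rw [index_eq_card] at h1
    have h2 : 2 ≤ Nat.card M := (one_lt_card_iff_ne_bot M).2 hM
    have h3 := Nat.card_pos (α := G ⧸ M)
    have : 2 * Nat.card (G ⧸ M) ≤ Nat.card G := by rw [← h1]; exact Nat.mul_le_mul_right _ h2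
    omega
  set T := (P : Subgroup G) ⊔ N with hT
  set M := normalizer (T : Set G) with hM
  have hNM : normalizer ((P : Subgroup G) : Set G) ≤ M := by
    intro g hg
    refine mem_normalizer_fintype (S := (T : Set G)) fun x hx => ?_
    rw [SetLike.mem_coe] at hx ⊢
    obtain ⟨a, ha, b, hb, rfl⟩ := mem_sup_of_normal_right.1 hx
    rw [show g * (a * b) * g⁻¹ = (g * a * g⁻¹) * (g * b * g⁻¹) by group]
    exact mul_mem (mem_sup_left ((mem_normalizer_iff.1 hg a).1 ha)) (mem_sup_right (hN.conj_mem b hb g))
  have hA : Nat.card (Sylow p G) = Nat.card (Sylow p (G ⧸ N)) * Nat.card (Sylow p M) := by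
    rw [card_sylow_of_normalizer_le P M hNM, hM, hT, index_normalizer_image]
  by_cases hTtop : T = ⊤
  swap
  · rw [hA]
    refine append_good (ih _ (hq N hN1)) ?_
    have hTM : T ≤ M := le_normalizer
    haveI : (T.subgroupOf M).Normal := normal_in_normalizer
    have hP : (P : Subgroup G) ≤ M := le_sup_left.trans hTM
    rw [card_sylow_normal_of_le (T.subgroupOf M) (P.subtype hP) (fun x hx => mem_sup_left hx)]
    exact ih _ (by rw [Nat.card_congr (subgroupOfEquivOfLe hTM).toEquiv]; exact hlt T hTtop)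
  set R := (P : Subgroup G) ⊓ N with hR
  by_cases hRn : normalizer (R : Set G) = ⊤
  swap
  · set H := normalizer (R : Set G) with hH
    have hPH : (P : Subgroup G) ≤ H := by
      intro a ha
      refine mem_normalizer_fintype (S := (R : Set G)) fun x hx => ?_
      exact ⟨(P : Subgroup G).mul_mem ((P : Subgroup G).mul_mem ha hx.1) ((P : Subgroup G).inv_mem ha), hN.conj_mem x hx.2 a⟩
    have hNH : normalizer ((P : Subgroup G) : Set G) ≤ H := by
      intro a ha
      refine mem_normalizer_fintype (S := (R : Set G)) fun x hx => ?_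
      exact ⟨(mem_normalizer_iff.1 ha x).1 hx.1, hN.conj_mem x hx.2 a⟩
    rw [card_sylow_of_normalizer_le P H hNH]
    refine append_good ?_ (ih _ (hlt H hRn))
    have hsup : H ⊔ N = ⊤ := eq_top_iff.2 (hTtop ▸ sup_le_sup_right hPH N)
    obtain ⟨R', hR'⟩ : ∃ R' : Sylow p N, (R' : Subgroup N) = (P : Subgroup G).subgroupOf N := by
      have hpg : IsPGroup p ((P : Subgroup G).subgroupOf N) := P.isPGroup'.comap_subtype
      refine ⟨hpg.toSylow ?_, rfl⟩
      intro hd
      apply P.not_dvd_index
      have h1 := relIndex_mul_index (inf_le_left : (P : Subgroup G) ⊓ N ≤ P)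
      have h2 := relIndex_mul_index (inf_le_right : (P : Subgroup G) ⊓ N ≤ N)
      rw [inf_relIndex_left, ← relIndex_sup_right, sup_comm, sup_comm N, ← hT, hTtop, relIndex_top_right,
        ← h2, inf_relIndex_right, mul_comm N.index] at h1
      have h3 := Nat.eq_of_mul_eq_mul_right (Nat.pos_of_ne_zero index_ne_zero_of_finite) h1
      rw [h3]; exact hd
    have hidx : H.index = Nat.card (Sylow p N) := by
      rw [Sylow.card_eq_index_normalizer R']
      show H.index = (normalizer ((R' : Subgroup N) : Set N)).index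
      rw [hR']
      have h1 := relIndex_mul_index (inf_le_left : H ⊓ N ≤ H)
      have h2 := relIndex_mul_index (inf_le_right : H ⊓ N ≤ N)
      rw [inf_relIndex_left, ← relIndex_sup_right, hsup, relIndex_top_right, ← h2, inf_relIndex_right,
        mul_comm N.index] at h1
      rw [Nat.eq_of_mul_eq_mul_right (Nat.pos_of_ne_zero index_ne_zero_of_finite) h1]
      show (H.subgroupOf N).index = _
      congr 1
      ext x
      rw [mem_subgroupOf, hH, mem_normalizer_iff, mem_normalizer_iff]
      constructor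
      · intro h y
        rw [mem_subgroupOf, mem_subgroupOf]
        have := h y
        simp only [hR, mem_inf, SetLike.coe_mem, and_true] at this
        constructor
        · exact fun hy => ((h y).1 ⟨hy, y.2⟩).1
        · exact fun hy => ((h y).2 ⟨hy, (x * y * x⁻¹).2⟩).1
      · intro h y
        constructor
        · rintro ⟨hy, hyN⟩
          exact ⟨(h ⟨y, hyN⟩).1 hy, hN.conj_mem y hyN x⟩
        · rintro ⟨hy, hyN⟩
          have hyN' : y ∈ N := by
            have := hN.conj_mem _ hyN (x : G)⁻¹
            simpa [mul_assoc] using this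
          exact ⟨(h ⟨y, hyN'⟩).2 hy, hyN'⟩
    rw [hidx]
    exact ih _ (hlt N hN2)
  by_cases hR1 : R = ⊥
  · refine coprime_case N ?_ P hTtop
    rw [Nat.coprime_comm, hp.out.coprime_iff_not_dvd]
    intro hd
    obtain ⟨x, hx⟩ := exists_prime_orderOf_dvd_card' p hd
    have hxp : IsPGroup p (zpowers (x : G)) :=
      IsPGroup.of_card (n := 1) (by rw [Nat.card_zpowers, Subgroup.orderOf_coe, hx, pow_one])
    obtain ⟨Q, hQ⟩ := hxp.exists_le_sylow
    obtain ⟨g, rfl⟩ := MulAction.exists_smul_eq G P Q
    obtain ⟨y, hy, hyx⟩ := hQ (mem_zpowers (x : G))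
    have hyN : y ∈ N := by
      have e : y = g⁻¹ * (x : G) * g⁻¹⁻¹ := by rw [← hyx]; show y = g⁻¹ * (g * y * g⁻¹) * g⁻¹⁻¹; group
      rw [e]; exact hN.conj_mem _ x.2 _
    have hy1 : y ∈ R := ⟨hy, hyN⟩
    rw [hR1, mem_bot] at hy1
    have hx1 : (x : G) = 1 := by
      rw [← hyx, hy1]
      show g * 1 * g⁻¹ = 1
      group
    rw [← Subgroup.orderOf_coe, hx1, orderOf_one] at hx
    exact hp.out.ne_one hx.symm
  · haveI : R.Normal := normalizer_eq_top_iff.1 hRn
    have h1 : (P : Subgroup G) ⊔ R = P := sup_eq_left.2 inf_le_left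
    rw [card_sylow_of_normalizer_le P _ le_rfl]
    have h2 : Nat.card (Sylow p (normalizer ((P : Subgroup G) : Set G))) = 1 := by
      set Q : Sylow p (normalizer ((P : Subgroup G) : Set G)) := P.subtype le_normalizer with hQ
      have hQn : (Q : Subgroup (normalizer ((P : Subgroup G) : Set G))).Normal := by
        rw [hQ, Sylow.coe_subtype]; exact normal_in_normalizer
      haveI := Sylow.unique_of_normal Q hQn
      exact Nat.card_unique
    rw [h2, mul_one]
    have h3 := index_normalizer_image R P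
    rw [h1] at h3
    rw [h3]
    exact ih _ (hq R hR1)

/-- For a finite group `G` and a prime `p`, the number of Sylow `p`-subgroups of `G` is a product of natural numbers each of which is either a prime power congruent to 1 modulo `p` or the number of Sylow `p`-subgroups of some finite simple group. -/
theorem result {G : Type u} [Group G] [Finite G]
    (p : ℕ) [Fact p.Prime] :
    ∃ l : List ℕ, l.prod = Nat.card (Sylow p G) ∧
      ∀ m ∈ l, (IsPrimePow m ∧ m % p = 1) ∨
        ∃ (S : Type u) (_ : Group S) (_ : Finite S), IsSimpleGroup S ∧ m = Nat.card (Sylow p S) := by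
  exact main (p := p) _ G le_rfl

end Cfsg.Agent.S4303
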