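import Cfsg.Statements.S4314
import Mathlib
-- import your own Cfsg.Agent.* helpers here

set_option autoImplicit false
open Cfsg

namespace Cfsg.Agent.S4314

theorem card_centralizer_le {G : Type*} [Group G] [Finite G] (M : Subgroup G) (hp : M.index.Prime)
    (y : G ⧸ M.normalCore) (hy : orderOf y = M.index) :
    Nat.card (Subgroup.centralizer ({y} : Set (G ⧸ M.normalCore))) ≤ M.index := by
  obtain ⟨g, rfl⟩ := QuotientGroup.mk_surjective y
  obtain ⟨z, hz⟩ : ∃ z : G ⧸ M, g • z ≠ z := by
    by_contra h
    push Not at h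
    have : g ∈ M.normalCore := by
      rw [Subgroup.normalCore_eq_ker]
      exact Equiv.Perm.ext h
    rw [(QuotientGroup.eq_one_iff g).2 this, orderOf_one] at hy
    exact hp.one_lt.ne hy
  have hgp : ∀ w : G ⧸ M, g ^ M.index • w = w := by
    intro w
    have : g ^ M.index ∈ M.normalCore := by
      rw [← QuotientGroup.eq_one_iff, QuotientGroup.mk_pow, ← hy, pow_orderOf_eq_one]
    rw [Subgroup.normalCore_eq_ker] at this
    exact Equiv.Perm.ext_iff.1 this w
  have hdvd : ∀ i : ℕ, g ^ i • z = z → M.index ∣ i := by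
    intro i hi
    by_contra hndvd
    have hc : Nat.Coprime M.index i := (Nat.Prime.coprime_iff_not_dvd hp).2 hndvd
    have h1 : g ∈ MulAction.stabilizer G z := by
      have ha : g ^ M.index ∈ MulAction.stabilizer G z := hgp z
      have hb : g ^ i ∈ MulAction.stabilizer G z := hi
      have := (MulAction.stabilizer G z).mul_mem ((MulAction.stabilizer G z).zpow_mem ha (Nat.gcdA M.index i))
        ((MulAction.stabilizer G z).zpow_mem hb (Nat.gcdB M.index i))
      rwa [← zpow_natCast, ← zpow_natCast, ← zpow_mul, ← zpow_mul, ← zpow_add, ← Nat.gcd_eq_gcd_ab,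
        hc.gcd_eq_one, Nat.cast_one, zpow_one] at this
    exact hz h1
  have hinj : Function.Injective fun i : Fin M.index => g ^ (i : ℕ) • z := by
    intro i j hij
    rcases le_total (i : ℕ) j with h | h
    · refine Fin.ext ?_
      have h1 : g ^ ((j : ℕ) - i) • z = z := by
        apply MulAction.injective (g ^ (i : ℕ))
        show g ^ (i : ℕ) • g ^ ((j : ℕ) - i) • z = g ^ (i : ℕ) • z
        rw [smul_smul, ← pow_add, Nat.add_sub_cancel' h]; exact hij.symm
      have := Nat.eq_zero_of_dvd_of_lt (hdvd _ h1) (by omega)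
      omega
    · refine Fin.ext ?_
      have h1 : g ^ ((i : ℕ) - j) • z = z := by
        apply MulAction.injective (g ^ (j : ℕ))
        show g ^ (j : ℕ) • g ^ ((i : ℕ) - j) • z = g ^ (j : ℕ) • z
        rw [smul_smul, ← pow_add, Nat.add_sub_cancel' h]; exact hij
      have := Nat.eq_zero_of_dvd_of_lt (hdvd _ h1) (by omega)
      omega
  have hbij : Function.Bijective fun i : Fin M.index => g ^ (i : ℕ) • z :=
    (Nat.bijective_iff_injective_and_card _).2 ⟨hinj, by rw [Nat.card_fin, ← Subgroup.index_eq_card]⟩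
  have hrep : ∀ c : Subgroup.centralizer ({(g : G ⧸ M.normalCore)} : Set (G ⧸ M.normalCore)), ∃ a : G, (a : G ⧸ M.normalCore) = c :=
    fun c => QuotientGroup.mk_surjective _
  choose a ha using hrep
  rw [Subgroup.index_eq_card M]
  refine Nat.card_le_card_of_injective (fun c => a c • z) fun c d hcd => ?_
  rw [Subtype.ext_iff, ← ha c, ← ha d, QuotientGroup.eq, Subgroup.normalCore_eq_ker]
  refine Equiv.Perm.ext fun w => ?_
  obtain ⟨i, rfl⟩ := hbij.2 w
  show ((a c)⁻¹ * a d) • g ^ (i : ℕ) • z = g ^ (i : ℕ) • z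
  have hcomm : ((g ^ (i : ℕ) : G) : G ⧸ M.normalCore) * (((a c)⁻¹ * a d : G) : G ⧸ M.normalCore) =
      (((a c)⁻¹ * a d : G) : G ⧸ M.normalCore) * ((g ^ (i : ℕ) : G) : G ⧸ M.normalCore) := by
    have hm := mul_mem (inv_mem c.2) d.2
    rw [Subgroup.mem_centralizer_singleton_iff, ← ha c, ← ha d] at hm
    rw [QuotientGroup.mk_pow, QuotientGroup.mk_mul, QuotientGroup.mk_inv]
    exact (Commute.pow_left (show Commute _ _ from hm.symm) i).eq
  rw [← QuotientGroup.mk_mul, ← QuotientGroup.mk_mul, QuotientGroup.eq, Subgroup.normalCore_eq_ker] at hcomm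
  have h3 := Equiv.Perm.ext_iff.1 hcomm z
  have hcd' : ((a c)⁻¹ * a d) • z = z := by
    rw [mul_smul, ← (show a c • z = a d • z from hcd), inv_smul_smul]
  calc ((a c)⁻¹ * a d) • g ^ (i : ℕ) • z = (g ^ (i : ℕ) * ((a c)⁻¹ * a d)) • (((g ^ (i : ℕ) * ((a c)⁻¹ * a d))⁻¹ * (((a c)⁻¹ * a d) * g ^ (i : ℕ))) • z) := by
        rw [smul_smul, smul_smul, mul_inv_cancel_left]
    _ = (g ^ (i : ℕ) * ((a c)⁻¹ * a d)) • z := by
        have : ((g ^ (i : ℕ) * ((a c)⁻¹ * a d))⁻¹ * (((a c)⁻¹ * a d) * g ^ (i : ℕ))) • z = z := h3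
        rw [this]
    _ = g ^ (i : ℕ) • z := by rw [mul_smul, hcd']

/-- Let `G` be a finite group every conjugacy class of which has size 1 or a prime. Then either `G` is nilpotent of class at most 2, or `G/Z(G)` is a non-abelian group of order `pq` for distinct primes `p, q` (a Frobenius group of order `pq`). -/
theorem result {G : Type*} [Group G] [Finite G]
    (h : ∀ x : G, (Subgroup.centralizer ({x} : Set G)).index = 1 ∨ ((Subgroup.centralizer ({x} : Set G)).index).Prime) :
    Subgroup.upperCentralSeries G 2 = ⊤ ∨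
      ∃ p q : ℕ, p.Prime ∧ q.Prime ∧ p ≠ q ∧ Nat.card (G ⧸ Subgroup.center G) = p * q ∧ ¬ IsMulCommutative (G ⧸ Subgroup.center G) := by
  by_cases hall : ∀ x : G, (Subgroup.centralizer ({x} : Set G)).Normal
  · refine Or.inl (eq_top_iff.2 fun w _ => ?_)
    rw [Subgroup.mem_upperCentralSeries_succ_iff]
    intro v
    rw [Subgroup.upperCentralSeries_one, Subgroup.mem_center_iff]
    intro u
    haveI := hall u
    suffices hmem : w * v * w⁻¹ * v⁻¹ ∈ Subgroup.centralizer ({u} : Set G) from
      (Subgroup.mem_centralizer_singleton_iff.1 hmem).symm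
    rw [← QuotientGroup.eq_one_iff, QuotientGroup.mk_mul, QuotientGroup.mk_mul, QuotientGroup.mk_mul,
      QuotientGroup.mk_inv, QuotientGroup.mk_inv]
    haveI : IsCyclic (G ⧸ Subgroup.centralizer ({u} : Set G)) := by
      rcases h u with h1 | h1
      · have : Nat.card (G ⧸ Subgroup.centralizer ({u} : Set G)) = 1 := by rw [← Subgroup.index_eq_card]; exact h1
        haveI := (Nat.card_eq_one_iff_unique.1 this).1
        infer_instance
      · haveI := Fact.mk h1
        exact isCyclic_of_prime_card (p := (Subgroup.centralizer ({u} : Set G)).index) (Subgroup.index_eq_card _).symm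
    rw [(IsCyclic.commutative.is_comm.comm ((w : G ⧸ Subgroup.centralizer ({u} : Set G))) v)]
    group
  push Not at hall
  obtain ⟨x, hx⟩ := hall
  refine Or.inr ?_
  set M := Subgroup.centralizer ({x} : Set G) with hM
  have hp : M.index.Prime := (h x).resolve_left fun e => hx (by
    rw [← hM, Subgroup.index_eq_one] at e; rw [e]; infer_instance)
  haveI := Fact.mk hp
  set N := M.normalCore with hN
  have hNM : N ≤ M := M.normalCore_le
  have hpQ : M.index ∣ Nat.card (G ⧸ N) := by
    rw [← Subgroup.index_eq_card]; exact Subgroup.index_dvd_of_le hNM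
  obtain ⟨ybar, hy⟩ := exists_prime_orderOf_dvd_card' M.index hpQ
  have hC := card_centralizer_le M hp ybar hy
  have hCeq : Nat.card (Subgroup.centralizer ({ybar} : Set (G ⧸ N))) = M.index := by
    refine le_antisymm hC ?_
    rw [← hy, ← Nat.card_zpowers]
    exact Subgroup.card_le_of_le (Subgroup.zpowers_le.2 (Subgroup.mem_centralizer_singleton_iff.2 rfl))
  obtain ⟨y, rfl⟩ := QuotientGroup.mk_surjective ybar
  have hle : ∀ v : G, Subgroup.centralizer ({v} : Set G) ≤
      (Subgroup.centralizer ({(v : G ⧸ N)} : Set (G ⧸ N))).comap (QuotientGroup.mk' N) := by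
    intro v c hc
    rw [Subgroup.mem_comap, Subgroup.mem_centralizer_singleton_iff, QuotientGroup.mk'_apply, ← QuotientGroup.mk_mul,
      ← QuotientGroup.mk_mul, Subgroup.mem_centralizer_singleton_iff.1 hc]
  have hdiv : ∀ v : G, (Subgroup.centralizer ({(v : G ⧸ N)} : Set (G ⧸ N))).index ∣ (Subgroup.centralizer ({v} : Set G)).index := by
    intro v
    rw [← Subgroup.index_comap_of_surjective _ (QuotientGroup.mk'_surjective N)]
    exact Subgroup.index_dvd_of_le (hle v)
  have hmul := (Subgroup.centralizer ({(y : G ⧸ N)} : Set (G ⧸ N))).card_mul_index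
  rw [hCeq] at hmul
  set q := (Subgroup.centralizer ({(y : G ⧸ N)} : Set (G ⧸ N))).index with hq
  have hq1 : q ≠ 1 := by
    intro e
    rw [e, mul_one, ← Subgroup.index_eq_card] at hmul
    apply hx
    have : N = M := by
      have h1 := Subgroup.relIndex_mul_index hNM
      rw [← hmul] at h1
      have h2 : N.relIndex M = 1 := by
        have := Nat.pos_of_ne_zero (Subgroup.index_ne_zero_of_finite (H := M))
        exact Nat.eq_of_mul_eq_mul_right this (by rw [h1, one_mul])
      exact le_antisymm hNM (Subgroup.relIndex_eq_one.1 h2)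
    rw [← this]; exact M.normalCore_normal
  have hqp : q.Prime := by
    have := hdiv y
    rw [← hq] at this
    rcases h y with h1 | h1
    · rw [h1, Nat.dvd_one] at this; exact absurd this hq1
    · rcases (Nat.dvd_prime h1).1 this with h2 | h2
      · exact absurd h2 hq1
      · rw [h2]; exact h1
  haveI := Fact.mk hqp
  have hpq : M.index ≠ q := by
    intro e
    have hsq : Nat.card (G ⧸ N) = M.index ^ 2 := by rw [← hmul, ← e, pow_two]
    haveI := IsPGroup.isMulCommutative_of_card_eq_prime_sq hsq
    have : Subgroup.centralizer ({(y : G ⧸ N)} : Set (G ⧸ N)) = ⊤ := eq_top_iff.2 fun z _ =>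
      Subgroup.mem_centralizer_singleton_iff.2 (mul_comm' z _)
    rw [this, Subgroup.card_top, hsq, pow_two] at hCeq
    have := hp.two_le
    nlinarith
  have hnc : ∀ v : G, v ∉ N → ∃ b : G ⧸ N, b * v ≠ (v : G ⧸ N) * b := by
    intro v hv
    by_contra hcen
    push Not at hcen
    have h1 : (v : G ⧸ N) ∈ Subgroup.centralizer ({(y : G ⧸ N)} : Set (G ⧸ N)) :=
      Subgroup.mem_centralizer_singleton_iff.2 (hcen _).symm
    haveI : IsCyclic (Subgroup.centralizer ({(y : G ⧸ N)} : Set (G ⧸ N))) := isCyclic_of_prime_card hCeq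
    obtain ⟨i, hi⟩ := mem_zpowers_of_prime_card (p := M.index) hCeq (g := (⟨v, h1⟩ : Subgroup.centralizer ({(y : G ⧸ N)} : Set (G ⧸ N))))
      (g' := ⟨y, Subgroup.mem_centralizer_singleton_iff.2 rfl⟩)
      (fun e => hv ((QuotientGroup.eq_one_iff v).1 (congrArg Subtype.val e)))
    have hi' : (v : G ⧸ N) ^ i = y := congrArg Subtype.val hi
    have : Subgroup.centralizer ({(y : G ⧸ N)} : Set (G ⧸ N)) = ⊤ := eq_top_iff.2 fun z _ => by
      rw [Subgroup.mem_centralizer_singleton_iff, ← hi']
      exact (Commute.zpow_right (show Commute z (v : G ⧸ N) from hcen z) i).eq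
    exact hq1 (by rw [hq, this, Subgroup.index_top])
  have hCv : ∀ v : G, v ∉ N → N ≤ Subgroup.centralizer ({v} : Set G) := by
    intro v hv
    obtain ⟨b, hb⟩ := hnc v hv
    have hvc : (Subgroup.centralizer ({v} : Set G)).index.Prime := (h v).resolve_left fun e => by
      rw [Subgroup.index_eq_one] at e
      obtain ⟨b', rfl⟩ := QuotientGroup.mk_surjective b
      refine hb ?_
      rw [← QuotientGroup.mk_mul, ← QuotientGroup.mk_mul,
        Subgroup.mem_centralizer_singleton_iff.1 (e.ge (Subgroup.mem_top b'))]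
    have hd := hdiv v
    rcases (Nat.dvd_prime hvc).1 hd with h2 | h2
    · exfalso
      rw [Subgroup.index_eq_one] at h2
      exact hb (Subgroup.mem_centralizer_singleton_iff.1 (h2.ge (Subgroup.mem_top b)))
    · have : Subgroup.centralizer ({v} : Set G) =
          (Subgroup.centralizer ({(v : G ⧸ N)} : Set (G ⧸ N))).comap (QuotientGroup.mk' N) := by
        have h3 := Subgroup.relIndex_mul_index (hle v)
        rw [Subgroup.index_comap_of_surjective _ (QuotientGroup.mk'_surjective N), ← h2] at h3
        have h4 := hvc.pos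
        refine le_antisymm (hle v) (Subgroup.relIndex_eq_one.1 ?_)
        rw [← h2] at h4
        exact Nat.eq_of_mul_eq_mul_right h4 (by rw [h3, one_mul])
      rw [this]
      intro n hn
      rw [Subgroup.mem_comap, QuotientGroup.mk'_apply, (QuotientGroup.eq_one_iff n).2 hn]
      exact one_mem _
  have hNZ : N = Subgroup.center G := by
    refine le_antisymm (fun n hn => Subgroup.mem_center_iff.2 fun v => ?_) (fun z hz => ?_)
    · by_cases hv : v ∈ N
      · have hyN : y ∉ N := fun e => by
          rw [(QuotientGroup.eq_one_iff y).2 e, orderOf_one] at hy; exact hp.one_lt.ne hy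
        have h1 := Subgroup.mem_centralizer_singleton_iff.1 (hCv (v * y) (fun e => hyN ((N.mul_mem_cancel_left hv).1 e)) hn)
        have h2 := Subgroup.mem_centralizer_singleton_iff.1 (hCv y hyN hn)
        have : v * n * y = n * v * y := by
          calc v * n * y = v * (y * n) := by rw [← h2, mul_assoc]
            _ = n * v * y := by rw [← mul_assoc, ← h1, mul_assoc]
        exact mul_right_cancel this
      · exact (Subgroup.mem_centralizer_singleton_iff.1 (hCv v hv hn)).symm
    · intro g
      have : g * z * g⁻¹ = z := by rw [Subgroup.mem_center_iff.1 hz g, mul_inv_cancel_right]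
      show g * z * g⁻¹ ∈ M
      rw [this]
      exact Subgroup.mem_centralizer_singleton_iff.2 (Subgroup.mem_center_iff.1 hz x).symm
  refine ⟨M.index, q, hp, hqp, hpq, ?_, ?_⟩
  · rw [← hNZ, ← hmul]
  · intro hcomm
    obtain ⟨b, hb⟩ := hnc y (fun e => by
      rw [(QuotientGroup.eq_one_iff y).2 e, orderOf_one] at hy; exact hp.one_lt.ne hy)
    let e := QuotientGroup.quotientMulEquivOfEq hNZ
    exact hb (e.injective (by rw [map_mul, map_mul]; exact hcomm.is_comm.comm _ _))

end Cfsg.Agent.S4314
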