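import Cfsg.Statements.S4421
import Mathlib
-- import your own Cfsg.Agent.* helpers here

set_option autoImplicit false
open Cfsg

namespace Cfsg.Agent.S4421

/-- A factorization of a normalizer from two-step control of fusion. Let `G` be a finite group and `A ≤ S ≤ H` subgroups of `G` such that: (i) `S` controls the `G`-fusion of `A` in the sense that every `G`-conjugate of `A` lying in `S` is an `S`-conjugate of `A`; (ii) `H` controls the `G`-fusion of `S` in the same sense; (iii) every conjugate of `S` by an element of the normalizer of `A` lies in `H`. Then `N_G(A) = N_H(A) · (N_G(S) ∩ N_G(A))`: every element of the normalizer of `A` is a product of an element of `H` normalizing `A` and an element normalizing both `S` and `A`. -/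
theorem result {G : Type*} [Group G] [Finite G] (A S H : Subgroup G)
    (hAS : A ≤ S) (hSH : S ≤ H)
    (h1 : ∀ g : G, A.map (MulAut.conj g).toMonoidHom ≤ S → ∃ s ∈ S, A.map (MulAut.conj g).toMonoidHom = A.map (MulAut.conj s).toMonoidHom)
    (h2 : ∀ g : G, S.map (MulAut.conj g).toMonoidHom ≤ H → ∃ y ∈ H, S.map (MulAut.conj g).toMonoidHom = S.map (MulAut.conj y).toMonoidHom)
    (h3 : ∀ x ∈ Subgroup.normalizer (A : Set G), S.map (MulAut.conj x).toMonoidHom ≤ H) :
    ∀ x ∈ Subgroup.normalizer (A : Set G), ∃ y ∈ H ⊓ Subgroup.normalizer (A : Set G),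
      ∃ z ∈ Subgroup.normalizer (S : Set G) ⊓ Subgroup.normalizer (A : Set G), x = y * z := by
  intro x hx
  have hcomp : ∀ (a b : G) (X : Subgroup G), X.map (MulAut.conj (a * b)).toMonoidHom = (X.map (MulAut.conj b).toMonoidHom).map (MulAut.conj a).toMonoidHom := by
    intro a b X
    rw [Subgroup.map_map]
    congr 1
    ext c
    simp [mul_assoc]
  have hone : ∀ X : Subgroup G, X.map (MulAut.conj (1 : G)).toMonoidHom = X := by
    intro X; ext c; simp
  have hxA := Subgroup.mem_normalizer_iff_map_conj_eq.mp hx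
  obtain ⟨y, hy, hSy⟩ := h2 x (h3 x hx)
  have hz0 : S.map (MulAut.conj (y⁻¹ * x)).toMonoidHom = S := by
    rw [hcomp, hSy, ← hcomp, inv_mul_cancel, hone]
  obtain ⟨s, hs, hAs⟩ := h1 (y⁻¹ * x) (by
    exact (Subgroup.map_mono hAS).trans hz0.le)
  refine ⟨y * s, Subgroup.mem_inf.mpr ⟨mul_mem hy (hSH hs), ?_⟩, s⁻¹ * (y⁻¹ * x), Subgroup.mem_inf.mpr ⟨?_, ?_⟩, by group⟩
  · have : s⁻¹ * (y⁻¹ * x) ∈ Subgroup.normalizer (A : Set G) := by
      rw [Subgroup.mem_normalizer_iff_map_conj_eq]
      exact (hcomp _ _ A).trans (by rw [hAs, ← hcomp, inv_mul_cancel, hone])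
    have h4 := mul_mem hx (inv_mem this)
    convert h4 using 1
    group
  · exact mul_mem (inv_mem (Subgroup.le_normalizer hs)) (Subgroup.mem_normalizer_iff_map_conj_eq.mpr hz0)
  · rw [Subgroup.mem_normalizer_iff_map_conj_eq]
    exact (hcomp _ _ A).trans (by rw [hAs, ← hcomp, inv_mul_cancel, hone])

end Cfsg.Agent.S4421
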