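import Cfsg.Statements.S4422
import Mathlib
-- import your own Cfsg.Agent.* helpers here

set_option autoImplicit false
open Cfsg

namespace Cfsg.Agent.S4422

/-- Primitive divisors of `q^e - 1` are congruent to 1 modulo `e`. Let `q ≥ 2` and `e ≥ 1` be natural numbers and let `m` be a divisor of `q^e - 1` that is coprime to `q^i - 1` for every `1 ≤ i < e` (so `m` divides the primitive part of `q^e - 1`, the largest such divisor). Then `m ≡ 1 (mod e)`. -/
theorem result (q e m : ℕ) (hq : 2 ≤ q) (he : 1 ≤ e)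
    (hm : m ∣ q ^ e - 1) (hcop : ∀ i : ℕ, 1 ≤ i → i < e → Nat.Coprime m (q ^ i - 1)) :
    m % e = 1 % e := by
  have key : ∀ r : ℕ, r.Prime → r ∣ m → r % e = 1 % e := by
    intro r hr hrm
    haveI := Fact.mk hr
    have hqe : 1 ≤ q ^ e := Nat.one_le_pow _ _ (by omega)
    have h1 : (q : ZMod r) ^ e = 1 := by
      have h2 : ((q ^ e - 1 : ℕ) : ZMod r) = 0 := (ZMod.natCast_eq_zero_iff _ _).mpr (hrm.trans hm)
      rw [Nat.cast_sub hqe, sub_eq_zero, Nat.cast_pow, Nat.cast_one] at h2
      exact h2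
    have hq0 : (q : ZMod r) ≠ 0 := fun h0 => by
      rw [h0, zero_pow (by omega)] at h1
      exact zero_ne_one h1
    have hord : orderOf (q : ZMod r) = e := by
      refine Nat.dvd_antisymm (orderOf_dvd_of_pow_eq_one h1) ?_
      by_contra hne
      set i := orderOf (q : ZMod r) with hi
      have hi1 : 1 ≤ i := Nat.pos_of_dvd_of_pos (orderOf_dvd_of_pow_eq_one h1) he
      have hie : i < e := lt_of_le_of_ne (Nat.le_of_dvd he (orderOf_dvd_of_pow_eq_one h1)) (fun h => hne (h ▸ dvd_rfl))
      have h3 : r ∣ q ^ i - 1 := by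
        rw [← ZMod.natCast_eq_zero_iff, Nat.cast_sub (Nat.one_le_pow _ _ (by omega)), Nat.cast_pow, Nat.cast_one, hi,
          pow_orderOf_eq_one, sub_self]
      exact hr.ne_one (Nat.eq_one_of_dvd_coprimes (hcop i hi1 hie) hrm h3)
    have h4 : e ∣ r - 1 := hord ▸ ZMod.orderOf_dvd_card_sub_one hq0
    exact ((Nat.modEq_iff_dvd' hr.one_le).mpr h4).symm
  have hm0 : m ≠ 0 := fun h => by
    rw [h, Nat.zero_dvd] at hm
    have := Nat.one_lt_pow (n := e) (a := q) (by omega) (by omega)
    omega
  induction m using Nat.recOnMul with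
  | zero => exact absurd rfl hm0
  | one => rfl
  | prime r hr => exact key r hr dvd_rfl
  | mul a b iha ihb =>
    have ha := iha (dvd_trans (dvd_mul_right a b) hm) (fun i h1 h2 => (hcop i h1 h2).coprime_dvd_left (dvd_mul_right a b))
      (fun r hr hd => key r hr (hd.trans (dvd_mul_right a b))) (left_ne_zero_of_mul hm0)
    have hb := ihb (dvd_trans (dvd_mul_left b a) hm) (fun i h1 h2 => (hcop i h1 h2).coprime_dvd_left (dvd_mul_left b a))
      (fun r hr hd => key r hr (hd.trans (dvd_mul_left b a))) (right_ne_zero_of_mul hm0)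
    have := Nat.ModEq.mul (show Nat.ModEq e a 1 from ha) (show Nat.ModEq e b 1 from hb)
    simpa [Nat.ModEq] using this

end Cfsg.Agent.S4422
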