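import Cfsg.Statements.S4425
import Mathlib
import Cfsg.Agent.Lib.Blocks.RegInner
import Cfsg.Agent.Lib.Blocks.Exists

set_option autoImplicit false
open Cfsg

namespace Cfsg.Agent.S4425

/-- Let χ be an irreducible character of the finite group G, p a prime, p^a the p-part of the order of G and p^b the p-part of the degree χ(1). Let χ̃ be the class function equal to p^a · χ on p-regular elements and zero on p-singular elements. Then p^(−b) · χ̃ is a generalized character of G, while p^(−(b+1)) · χ̃ is not. -/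
theorem result {G : Type*} [Group G] [Finite G] (p : ℕ) [Fact p.Prime] (χ : Cfsg.IrrCharacter G) : Cfsg.IsGeneralizedCharacter G (fun x : G => if p ∣ orderOf x then (0 : ℂ) else ((p ^ ((Nat.card G).factorization p - (Cfsg.charDegree (χ : G → ℂ)).factorization p) : ℕ) : ℂ) * (χ : G → ℂ) x) ∧ ¬ Cfsg.IsGeneralizedCharacter G (fun x : G => if p ∣ orderOf x then (0 : ℂ) else ((p ^ (Nat.card G).factorization p : ℕ) : ℂ) / ((p ^ ((Cfsg.charDegree (χ : G → ℂ)).factorization p + 1) : ℕ) : ℂ) * (χ : G → ℂ) x) := by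
  haveI := Fintype.ofFinite G
  classical
  obtain ⟨M, hM⟩ := Cfsg.Lib.Blocks.exists_isPModular p
  haveI := hM.2.1.isPrime
  have hB : Cfsg.IsPBlock M (Cfsg.blockOf M (χ : G → ℂ)) := ⟨χ, rfl⟩
  have hχ := Cfsg.Lib.Blocks.mem_blockOf_self M χ
  have hp0 : (p : ℂ) ≠ 0 := Nat.cast_ne_zero.mpr (Fact.out : p.Prime).ne_zero
  set v := (Cfsg.charDegree (χ : G → ℂ)).factorization p with hv
  have hle : v ≤ (Nat.card G).factorization p := Cfsg.Lib.Blocks.charDegree_factorization_le χ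
  constructor
  · refine Cfsg.Lib.Characters.isGeneralized_of_classInner
      (Cfsg.Lib.Blocks.isClassFunction_regular p _ χ.2.isClassFunction) fun ψ => ?_
    have hdvd : ((p ^ v : ℕ) : ℤ) ∣ Cfsg.Lib.Blocks.regN p χ ψ := by
      by_cases hψ : ψ ∈ Cfsg.blockOf M (χ : G → ℂ)
      · rw [Cfsg.Lib.Blocks.regN_comm]
        exact Cfsg.Lib.Blocks.pow_dvd_regN hM hB hψ χ fun _ => le_rfl
      · rw [Cfsg.Lib.Blocks.regN_eq_zero hM (χ := χ) (ψ := ψ) fun h => hψ
          (Cfsg.Lib.Blocks.IsPBlock.mem_of_sameBlock hB hχ h)]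
        exact dvd_zero _
    obtain ⟨k, hk⟩ := hdvd
    refine ⟨k, ?_⟩
    rw [Cfsg.Lib.Blocks.classInner_regular_irr, hk]
    push_cast
    rw [← mul_assoc, div_mul_eq_mul_div, ← pow_add, Nat.sub_add_cancel hle, div_self (pow_ne_zero _ hp0),
      one_mul]
  · intro hgen
    obtain ⟨χ₀, hχ₀, hmin⟩ := Cfsg.Lib.Blocks.exists_height_zero p ⟨χ, hχ⟩
    have h0 := (Cfsg.Lib.Blocks.blockHeight_eq_zero_iff p hχ₀).mpr hmin
    obtain ⟨hne, hval⟩ := (Cfsg.Lib.Blocks.regN_valuation hM hB hχ₀ hχ).2.mp h0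
    rw [Cfsg.Lib.Blocks.regN_comm] at hne hval
    obtain ⟨k, hk⟩ := Cfsg.Lib.Characters.classInner_int hgen
      (Cfsg.Lib.Characters.isGeneralized_of_isCharacter χ₀.2.isCharacter)
    rw [Cfsg.Lib.Blocks.classInner_regular_irr] at hk
    push_cast at hk
    field_simp at hk
    have hk' : Cfsg.Lib.Blocks.regN p χ χ₀ = ((p ^ (v + 1) : ℕ) : ℤ) * k := by
      push_cast
      exact_mod_cast hk
    have hdvd : p ^ (v + 1) ∣ (Cfsg.Lib.Blocks.regN p χ χ₀).natAbs :=
      Int.natCast_dvd.mp ⟨k, hk'⟩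
    rw [(Fact.out : p.Prime).pow_dvd_iff_le_factorization (Int.natAbs_ne_zero.mpr hne)] at hdvd
    omega

end Cfsg.Agent.S4425
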