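import Cfsg.Statements.S4426
import Mathlib
import Cfsg.Agent.Lib.Blocks.RegInner

set_option autoImplicit false
open Cfsg

namespace Cfsg.Agent.S4426

/-- Let χ be an irreducible character in the p-block B of the finite group G (relative to a maximal ideal M of the algebraic integers containing p), let p^a be the p-part of the order of G, and let χ̃ be the class function equal to p^a · χ on p-regular elements and zero elsewhere. For ξ ∈ B the inner product [χ̃, ξ] is an integer. The following are equivalent: (a) χ has height zero in B; (b) for some ξ ∈ B the integer [χ̃, ξ] is nonzero and the exact power of p dividing it equals the exact power of p dividing ξ(1); (c) the same holds for every ξ ∈ B. -/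
theorem result {G : Type*} [Group G] [Fintype G] (p : ℕ) [Fact p.Prime] (M : Ideal Cfsg.AlgInt) (hM : Cfsg.IsPModular p M) (B : Set (Cfsg.IrrCharacter G)) (hB : Cfsg.IsPBlock M B) (χ : Cfsg.IrrCharacter G) (hχ : χ ∈ B) : (Cfsg.blockHeight p B (χ : G → ℂ) = 0 ↔ ∃ ξ ∈ B, ∃ n : ℤ, Cfsg.classInner (fun x : G => if p ∣ orderOf x then (0 : ℂ) else ((p ^ (Nat.card G).factorization p : ℕ) : ℂ) * (χ : G → ℂ) x) (ξ : G → ℂ) = (n : ℂ) ∧ n ≠ 0 ∧ padicValInt p n = (Cfsg.charDegree (ξ : G → ℂ)).factorization p) ∧ (Cfsg.blockHeight p B (χ : G → ℂ) = 0 ↔ ∀ ξ ∈ B, ∃ n : ℤ, Cfsg.classInner (fun x : G => if p ∣ orderOf x then (0 : ℂ) else ((p ^ (Nat.card G).factorization p : ℕ) : ℂ) * (χ : G → ℂ) x) (ξ : G → ℂ) = (n : ℂ) ∧ n ≠ 0 ∧ padicValInt p n = (Cfsg.charDegree (ξ : G → ℂ)).factorization p) := by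
  haveI := hM.2.1.isPrime
  classical
  have hval : ∀ ξ : Cfsg.IrrCharacter G, Cfsg.classInner (fun x : G => if p ∣ orderOf x then (0 : ℂ)
      else ((p ^ (Nat.card G).factorization p : ℕ) : ℂ) * (χ : G → ℂ) x) (ξ : G → ℂ)
      = (Cfsg.Lib.Blocks.regN p χ ξ : ℂ) := fun ξ => by
    rw [Cfsg.Lib.Blocks.classInner_regular_irr, div_self (Nat.cast_ne_zero.mpr
      (pow_ne_zero _ (Fact.out : p.Prime).ne_zero)), one_mul]
  have key : ∀ ξ ∈ B, (Cfsg.blockHeight p B (χ : G → ℂ) = 0 ↔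
      ∃ n : ℤ, (Cfsg.Lib.Blocks.regN p χ ξ : ℂ) = (n : ℂ) ∧ n ≠ 0 ∧
        padicValInt p n = (Cfsg.charDegree (ξ : G → ℂ)).factorization p) := by
    intro ξ hξ
    rw [(Cfsg.Lib.Blocks.regN_valuation hM hB hχ hξ).2, Nat.factorization_def _ (Fact.out : p.Prime)]
    exact ⟨fun h => ⟨_, rfl, h.1, h.2⟩, fun ⟨n, hn, h⟩ => (Int.cast_injective hn).symm ▸ h⟩
  simp only [hval]
  exact ⟨⟨fun h => ⟨χ, hχ, (key χ hχ).mp h⟩, fun ⟨ξ, hξ, h⟩ => (key ξ hξ).mpr h⟩,
    ⟨fun h ξ hξ => (key ξ hξ).mp h, fun h => (key χ hχ).mpr (h χ hχ)⟩⟩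

end Cfsg.Agent.S4426
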