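import Cfsg.Statements.S4428
import Mathlib
import Cfsg.Agent.Lib.Blocks.RegInner
import Cfsg.Agent.Lib.Blocks.Sections

set_option autoImplicit false
open Cfsg

namespace Cfsg.Agent.S4428

/-- Let χ be an irreducible character of height zero in the p-block B of the finite group G (relative to a maximal ideal M of the algebraic integers containing p). Let x be a p-element of G with centralizer C, and let b be a block of C that induces B. Form the class function ϑ(c) = χ(x c) on C and its b-part (the sum over ψ ∈ b of the inner product of ϑ with ψ, times ψ). Then the b-part of ϑ does not vanish identically on the p-regular elements of C. (Compare the second main Theorem, which gives vanishing when b does not induce B.) -/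
theorem result {G : Type*} [Group G] [Finite G] (p : ℕ) [Fact p.Prime] (M : Ideal Cfsg.AlgInt) (hM : Cfsg.IsPModular p M) (B : Set (Cfsg.IrrCharacter G)) (hB : Cfsg.IsPBlock M B) (χ : Cfsg.IrrCharacter G) (hχ : χ ∈ B) (h0 : Cfsg.blockHeight p B (χ : G → ℂ) = 0) (x : G) (hx : ∃ k : ℕ, orderOf x = p ^ k) (b : Set (Cfsg.IrrCharacter (Subgroup.centralizer ({x} : Set G)))) (hb : Cfsg.IsInducedBlock M (Subgroup.centralizer ({x} : Set G)) b B) : ∃ y : Subgroup.centralizer ({x} : Set G), ¬ p ∣ orderOf y ∧ Cfsg.blockPart b (fun c : Subgroup.centralizer ({x} : Set G) => (χ : G → ℂ) (x * (c : G))) y ≠ 0 := by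
  haveI := hM.2.1.isPrime
  haveI := Fintype.ofFinite G
  classical
  obtain ⟨ψ, hψ⟩ := Cfsg.Lib.Blocks.IsPBlock.nonempty hb.1
  set θ : (Subgroup.centralizer ({x} : Set G)) → ℂ := fun c => (χ : G → ℂ) (x * (c : G)) with hθ
  have hθc : Cfsg.IsClassFunction (Subgroup.centralizer ({x} : Set G)) θ :=
    Cfsg.Lib.Blocks.isClassFunction_section χ (f := (Subgroup.centralizer ({x} : Set G)).subtype) (x := x) (Subgroup.range_subtype _)
  by_contra hh
  push Not at hh
  have hz : Cfsg.Lib.Blocks.zc p θ ∈ Cfsg.Lib.Blocks.locCenter (Subgroup.centralizer ({x} : Set G)) M := by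
    refine ⟨fun g a => ?_, fun g => ?_⟩
    · have h : orderOf (g * a * g⁻¹) = orderOf a := MulEquiv.orderOf_eq (MulAut.conj g) a
      simp only [Cfsg.Lib.Blocks.coeff_zc, h]
      split_ifs
      · rfl
      · rw [show (g * a * g⁻¹)⁻¹ = g * a⁻¹ * g⁻¹ by group, hθc a⁻¹ g]
    · rw [Cfsg.Lib.Blocks.coeff_zc]
      split_ifs
      · exact zero_mem _
      · exact Cfsg.Lib.Blocks.char_mem_locRing M χ _
  have hzero : Cfsg.Lib.Blocks.regInner p θ (ψ : (Subgroup.centralizer ({x} : Set G)) → ℂ) = 0 := by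
    have hbl : Cfsg.Lib.Blocks.regInner p θ (ψ : (Subgroup.centralizer ({x} : Set G)) → ℂ)
        = Cfsg.Lib.Blocks.regInner p (Cfsg.blockPart bᶜ θ) (ψ : (Subgroup.centralizer ({x} : Set G)) → ℂ) := by
      refine Finset.sum_congr rfl fun c _ => ?_
      split_ifs with hc
      · rfl
      · rw [← Cfsg.Lib.Blocks.blockPart_add_compl b hθc c, hh c hc, zero_add]
    rw [hbl]
    have hsum : Cfsg.blockPart bᶜ θ = ∑ φ : Cfsg.IrrCharacter (Subgroup.centralizer ({x} : Set G)),
        (if φ ∈ b then 0 else Cfsg.classInner θ (φ : (Subgroup.centralizer ({x} : Set G)) → ℂ)) • (φ : (Subgroup.centralizer ({x} : Set G)) → ℂ) := by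
      funext c
      rw [Cfsg.Lib.Blocks.blockPart_eq_kerB, Finset.sum_apply]
      simp only [Cfsg.Lib.Blocks.kerB, Finset.mul_sum]
      rw [Finset.sum_comm]
      refine Finset.sum_congr rfl fun φ _ => ?_
      by_cases hφ : φ ∈ b
      · simp [hφ]
      · simp only [Set.mem_compl_iff, hφ, not_false_eq_true, if_true, if_false, Pi.smul_apply,
          smul_eq_mul, Cfsg.classInner, Finset.mul_sum, Finset.sum_mul]
        refine Finset.sum_congr rfl fun h _ => ?_
        rw [Cfsg.Lib.Characters.char_inv_eq_conj φ.2.isCharacter]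
        ring
    rw [hsum, Cfsg.Lib.Blocks.regInner_sum_left]
    refine Finset.sum_eq_zero fun φ _ => ?_
    split_ifs with hφ
    · rw [zero_mul]
    · rw [Cfsg.Lib.Blocks.regInner_eq_zero hM fun hs => hφ
        (Cfsg.Lib.Blocks.IsPBlock.mem_of_sameBlock hb.1 hψ (Cfsg.Lib.Blocks.sameBlock_symm M hs)),
        mul_zero]
  refine (Cfsg.Lib.Blocks.lam_zc_ne_zero_iff hM hB hχ hχ).mpr h0 ?_
  rw [← (Cfsg.Lib.Blocks.isInducedBlock_iff hb.1 hB hψ hχ).mp hb _
      (Cfsg.Lib.Blocks.isClassElt_redG M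
        (Cfsg.Lib.Blocks.zc_mem_locCenter (M := M) p χ.2.isCharacter).1),
    Cfsg.Lib.Blocks.resSub_redG_zc p (χ : G → ℂ) (Subgroup.centralizer ({x} : Set G))]
  have hred : Cfsg.Lib.Blocks.redG M (Cfsg.Lib.Blocks.zc p (fun c : (Subgroup.centralizer ({x} : Set G)) => (χ : G → ℂ) c))
      = Cfsg.Lib.Blocks.redG M (Cfsg.Lib.Blocks.zc p θ) := by
    refine Cfsg.Lib.Blocks.gr_ext fun c => ?_
    simp only [Cfsg.Lib.Blocks.coeff_redG, Cfsg.Lib.Blocks.coeff_zc]
    split_ifs with hc
    · rfl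
    · refine (Cfsg.Lib.Blocks.red_char_mul_pPart hM χ ?_ hx ?_).symm
      · exact (Subgroup.mem_centralizer_singleton_iff.mp (c⁻¹).2).symm
      · rw [Subgroup.orderOf_coe, orderOf_inv]; exact hc
  rw [hred, Cfsg.Lib.Blocks.lam_redG M ψ hz, Cfsg.Lib.Blocks.omega_zc, hzero, zero_div,
    Cfsg.Lib.Blocks.red_zero]

end Cfsg.Agent.S4428
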