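import Cfsg.Statements.S4431
import Mathlib
import Cfsg.Agent.Lib.Blocks.Restriction

set_option autoImplicit false
open Cfsg

namespace Cfsg.Agent.S4431

/-- Let H be a subgroup of the finite group G and b a block of H whose induced block B₀ in G is defined (relative to a maximal ideal M of the algebraic integers containing p). Let χ be an irreducible character of G, ψ ∈ b, and let η be the class function on H equal to p^a · χ on the p-regular elements of H and zero elsewhere, p^a being the p-part of the order of H. Then (a) if χ ∉ B₀, the number [η, ψ]/ψ(1) lies in the local ideal at M; (b) if χ ∈ B₀ has height zero, it does not. -/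
theorem result {G : Type*} [Group G] [Fintype G] (p : ℕ) [Fact p.Prime] (M : Ideal Cfsg.AlgInt) (hM : Cfsg.IsPModular p M) (H : Subgroup G) [Fintype H] (b : Set (Cfsg.IrrCharacter H)) (B₀ : Set (Cfsg.IrrCharacter G)) (hind : Cfsg.IsInducedBlock M H b B₀) (χ : Cfsg.IrrCharacter G) (ψ : Cfsg.IrrCharacter H) (hψ : ψ ∈ b) : (χ ∉ B₀ → Cfsg.MemLocalIdeal M (Cfsg.classInner (fun h : H => if p ∣ orderOf h then (0 : ℂ) else ((p ^ (Nat.card H).factorization p : ℕ) : ℂ) * (χ : G → ℂ) h) (ψ : H → ℂ) / (ψ : H → ℂ) 1)) ∧ (χ ∈ B₀ → Cfsg.blockHeight p B₀ (χ : G → ℂ) = 0 → ¬ Cfsg.MemLocalIdeal M (Cfsg.classInner (fun h : H => if p ∣ orderOf h then (0 : ℂ) else ((p ^ (Nat.card H).factorization p : ℕ) : ℂ) * (χ : G → ℂ) h) (ψ : H → ℂ) / (ψ : H → ℂ) 1)) := by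
  haveI := hM.2.1.isPrime
  classical
  rename Fintype ↥H => instH
  obtain rfl : instH = @Subgroup.instFintypeSubtypeMemOfDecidablePred G _ H _ _ := Subsingleton.elim _ _
  obtain ⟨χ', hχ'⟩ := Cfsg.Lib.Blocks.IsPBlock.nonempty hind.2.1
  have h1 : Cfsg.Lib.Blocks.lam M ψ (Cfsg.Lib.Blocks.redG M
      (Cfsg.Lib.Blocks.zc p (fun h : H => (χ : G → ℂ) h)))
      = Cfsg.Lib.Blocks.lam M χ' (Cfsg.Lib.Blocks.redG M (Cfsg.Lib.Blocks.zc p (χ : G → ℂ))) := by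
    rw [← (Cfsg.Lib.Blocks.isInducedBlock_iff hind.1 hind.2.1 hψ hχ').mp hind _
      (Cfsg.Lib.Blocks.isClassElt_redG M
        (Cfsg.Lib.Blocks.zc_mem_locCenter (M := M) p χ.2.isCharacter).1)]
    exact congrArg _ (Cfsg.Lib.Blocks.resSub_redG_zc p (χ : G → ℂ) H).symm
  have hθ := Cfsg.Lib.Characters.isCharacter_restrict χ.2.isCharacter H
  have hA : ((p ^ (Nat.card H).factorization p : ℕ) : ℂ) ≠ 0 :=
    Nat.cast_ne_zero.mpr (pow_ne_zero _ (Fact.out : p.Prime).ne_zero)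
  set u : ℂ := ((Nat.card H / p ^ (Nat.card H).factorization p : ℕ) : ℂ) with hu
  obtain ⟨hui, hur⟩ := Cfsg.Lib.Blocks.natCast_inv_mem hM
    (Nat.not_dvd_ordCompl (Fact.out : p.Prime) (Nat.card_pos (α := H)).ne')
  set v := Cfsg.classInner (fun h : H => if p ∣ orderOf h then (0 : ℂ)
      else ((p ^ (Nat.card H).factorization p : ℕ) : ℂ) * (χ : G → ℂ) h) (ψ : H → ℂ) / (ψ : H → ℂ) 1
    with hv
  have hv' : v = u⁻¹ * (Cfsg.Lib.Blocks.regInner p (fun h : H => (χ : G → ℂ) h) (ψ : H → ℂ)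
      / (ψ : H → ℂ) 1) := by
    rw [hv, ← mul_div_assoc]
    congr 1
    convert Cfsg.Lib.Blocks.classInner_regular p ((p ^ (Nat.card H).factorization p : ℕ) : ℂ)
      (fun h : H => (χ : G → ℂ) h) ψ.2.isCharacter using 2
    rw [← Cfsg.Lib.Blocks.pPow_mul_ordCompl (G := H) (p := p), ← hu]
    field_simp
  have hmem : Cfsg.Lib.Blocks.regInner p (fun h : H => (χ : G → ℂ) h) (ψ : H → ℂ) / (ψ : H → ℂ) 1
      ∈ Cfsg.Lib.Blocks.locRing M := Cfsg.Lib.Blocks.regInner_div_mem p hθ ψ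
  have hred : Cfsg.Lib.Blocks.red M v = Cfsg.Lib.Blocks.red M u⁻¹ *
      Cfsg.Lib.Blocks.lam M χ' (Cfsg.Lib.Blocks.redG M (Cfsg.Lib.Blocks.zc p (χ : G → ℂ))) := by
    rw [hv', Cfsg.Lib.Blocks.red_mul hui hmem, ← Cfsg.Lib.Blocks.lam_zc p hθ, h1]
  refine ⟨fun hχ => Cfsg.Lib.Blocks.memLocalIdeal_iff.mpr ⟨hv' ▸ mul_mem hui hmem, ?_⟩,
    fun hχ h0 h => ?_⟩
  · rw [hred, Cfsg.Lib.Blocks.lam_zc_eq_zero hM fun hs => hχ
      (Cfsg.Lib.Blocks.IsPBlock.mem_of_sameBlock hind.2.1 hχ' (Cfsg.Lib.Blocks.sameBlock_symm M hs)),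
      mul_zero]
  · have h2 := (Cfsg.Lib.Blocks.memLocalIdeal_iff.mp h).2
    rw [hred, mul_eq_zero] at h2
    refine h2.elim (fun h3 => ?_) ((Cfsg.Lib.Blocks.lam_zc_ne_zero_iff hM hind.2.1 hχ hχ').mpr h0)
    rw [hu, hur, inv_eq_zero, Cfsg.Lib.Blocks.natCast_resF_eq_zero hM] at h3
    exact Nat.not_dvd_ordCompl (Fact.out : p.Prime) (Nat.card_pos (α := H)).ne' h3

end Cfsg.Agent.S4431
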