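import Cfsg.Statements.S4432
import Cfsg.Agent.Lib.Blocks.CoveringDefect
import Cfsg.Agent.Lib.Blocks.RegInner

set_option autoImplicit false
open Cfsg

namespace Cfsg.Agent.S4432

open Cfsg.Lib.Blocks Cfsg.Lib.Characters Finset
open scoped Classical ComplexConjugate

/-- A character of `N` without constituents in `B` is killed by all components of the idempotent. -/
theorem lam_resSub_bIdem_mul {G : Type*} [Group G] [Fintype G] {M : Ideal Cfsg.AlgInt} [M.IsPrime]
    (N : Subgroup G) [N.Normal] {B : Set (IrrCharacter G)} (hB : IsPBlock M B)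
    (θ : IrrCharacter N)
    (h : ∀ χ ∈ B, classInner (fun n : N => (χ : G → ℂ) n) (θ : N → ℂ) = 0)
    {c : MonoidAlgebra (ResF M) G} (hc : IsStableUnder N c) :
    lam M θ (resSub N (bIdem M B * c)) = 0 := by
  set E := blockE B with hE
  set C : MonoidAlgebra ℂ G := gOfFun fun g => liftRes M (c.coeff g) with hCdef
  have hCred : redG M C = c := gr_ext fun g => by simp [hCdef, red_liftRes]
  have hCloc : IsLoc M C := fun g => by simp [hCdef, liftRes_mem]
  have hCst : IsStableUnder N C := fun n hn g => by simp [hCdef, hc n hn g]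
  have hEloc : IsLoc M E := (blockE_mem_locCenter hB).2
  have hbE : bIdem M B = redG M E := gr_ext fun g => by rw [coeff_bIdem, coeff_redG, hE, coeff_blockE]
  have hzmem : resSub N (E * C) ∈ locCenter N M :=
    ⟨(((isClassElt_blockE B).stable N).mul hCst).isClassElt_resSub,
      fun n => by rw [coeff_resSub]; exact IsLoc.mul M hEloc hCloc _⟩
  rw [hbE, ← hCred, ← redG_mul M hEloc hCloc, resSub_redG, lam_redG M θ hzmem]
  -- the orthogonality on `N`
  set Z := resSub N E with hZ
  have hω : omega θ Z = 0 := by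
    rw [omega]
    refine div_eq_zero_iff.mpr (Or.inl ?_)
    simp only [hZ, coeff_resSub, hE, coeff_blockE, blockCoeff_eq, Finset.mul_sum, Finset.sum_mul]
    rw [Finset.sum_comm]
    refine Finset.sum_eq_zero fun χ _ => ?_
    by_cases hχ : χ ∈ B
    · have h1 := congrArg conj (h χ hχ)
      rw [conj_classInner, map_zero, classInner, mul_eq_zero] at h1
      have h2 := h1.resolve_left (inv_ne_zero (Nat.cast_ne_zero.mpr Nat.card_pos.ne'))
      calc _ = ∑ n : N, (Nat.card G : ℂ)⁻¹ * (χ : G → ℂ) 1 * ((θ : N → ℂ) n * conj ((χ : G → ℂ) n)) :=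
            Finset.sum_congr rfl fun n _ => by rw [if_pos hχ]; ring
        _ = 0 := by rw [← Finset.mul_sum, h2, mul_zero]
    · exact Finset.sum_eq_zero fun n _ => by simp [hχ]
  have hquad : ∑ n : N, ∑ m : N, (θ : N → ℂ) n * conj ((θ : N → ℂ) m) * E.coeff ((n : G) * (m : G)⁻¹) = 0 := by
    have hZc : IsClassElt Z := (isClassElt_blockE B).resSub N
    have h1 := omega_mul θ hZc (isClassElt_blockE ({θ} : Set (IrrCharacter N)))
    rw [hω, zero_mul, omega, div_eq_zero_iff] at h1
    have h2 := h1.resolve_right θ.2.one_ne_zero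
    have he : ∀ m : N, blockCoeff ({θ} : Set (IrrCharacter N)) m
        = (Nat.card N : ℂ)⁻¹ * ((θ : N → ℂ) 1 * conj ((θ : N → ℂ) m)) := fun m => by
      rw [blockCoeff_eq]
      congr 1
      refine (Finset.sum_eq_single θ (fun φ _ hne => if_neg (by simpa using hne))
        (fun h' => absurd (Finset.mem_univ _) h')).trans (if_pos rfl)
    have h3 : ∀ n : N, (Z * blockE ({θ} : Set (IrrCharacter N))).coeff n
        = ∑ m : N, E.coeff ((n : G) * (m : G)⁻¹) * blockCoeff ({θ} : Set (IrrCharacter N)) m := fun n => by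
      rw [gr_mul_apply]
      refine Fintype.sum_equiv ((Equiv.inv N).trans (Equiv.mulRight n)) _ _ fun a => ?_
      simp [hZ, mul_assoc]
    simp only [h3, he, Finset.sum_mul] at h2
    have h4 : (Nat.card N : ℂ)⁻¹ * (θ : N → ℂ) 1 * ∑ n : N, ∑ m : N,
        (θ : N → ℂ) n * conj ((θ : N → ℂ) m) * E.coeff ((n : G) * (m : G)⁻¹) = 0 := by
      rw [← h2, Finset.mul_sum]
      refine Finset.sum_congr rfl fun n _ => ?_
      rw [Finset.mul_sum]
      exact Finset.sum_congr rfl fun m _ => by ring
    exact (mul_eq_zero.mp h4).resolve_left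
      (mul_ne_zero (inv_ne_zero (Nat.cast_ne_zero.mpr Nat.card_pos.ne')) θ.2.one_ne_zero)
  -- the vanishing of the twisted sums
  set F : G → ℂ := fun g => ∑ n : N, (θ : N → ℂ) n * E.coeff ((n : G) * g) with hF
  have hconj : ∀ x : G, conj (E.coeff x) = E.coeff x⁻¹ := fun x => by
    simp only [hE, coeff_blockE, blockCoeff_eq, map_mul, map_inv₀, map_natCast, map_sum]
    congr 1
    refine Finset.sum_congr rfl fun χ _ => ?_
    split_ifs
    · rw [map_mul, ← coe_charDegree χ, map_natCast, char_inv_eq_conj χ.2.isCharacter]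
    · simp
  have hF0 : ∀ g, F g = 0 := by
    have hsum : ∑ g : G, F g * conj (F g) = 0 := by
      calc ∑ g : G, F g * conj (F g)
          = ∑ g : G, ∑ n : N, ∑ m : N, (θ : N → ℂ) n * conj ((θ : N → ℂ) m)
              * (E.coeff ((n : G) * g) * E.coeff (g⁻¹ * (m : G)⁻¹)) := by
            refine Finset.sum_congr rfl fun g _ => ?_
            rw [hF, map_sum, Finset.sum_mul_sum]
            refine Finset.sum_congr rfl fun n _ => Finset.sum_congr rfl fun m _ => ?_
            rw [map_mul (starRingEnd ℂ), hconj, mul_inv_rev]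
            ring
        _ = ∑ n : N, ∑ m : N, (θ : N → ℂ) n * conj ((θ : N → ℂ) m)
              * ∑ g : G, E.coeff ((n : G) * g) * E.coeff (g⁻¹ * (m : G)⁻¹) := by
            rw [Finset.sum_comm]
            refine Finset.sum_congr rfl fun n _ => ?_
            rw [Finset.sum_comm]
            exact Finset.sum_congr rfl fun m _ => (Finset.mul_sum _ _ _).symm
        _ = _ := by
            refine Eq.trans (Finset.sum_congr rfl fun n _ => Finset.sum_congr rfl fun m _ => ?_) hquad
            congr 1
            conv_rhs => rw [hE, ← blockE_sq B, ← hE, gr_mul_apply]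
            refine Fintype.sum_equiv (Equiv.mulLeft (n : G)) _ _ fun g => ?_
            simp [mul_assoc]
    have h1 : ((∑ g : G, Complex.normSq (F g) : ℝ) : ℂ) = 0 := by
      rw [← hsum]; push_cast
      exact Finset.sum_congr rfl fun g _ => (Complex.mul_conj _).symm
    rw [Complex.ofReal_eq_zero, Finset.sum_eq_zero_iff_of_nonneg fun g _ => Complex.normSq_nonneg _] at h1
    exact fun g => Complex.normSq_eq_zero.mp (h1 g (Finset.mem_univ g))
  have hfin : omega θ (resSub N (E * C)) = 0 := by
    rw [omega]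
    refine div_eq_zero_iff.mpr (Or.inl ?_)
    calc ∑ n : N, (resSub N (E * C)).coeff n * (θ : N → ℂ) n
        = ∑ n : N, ∑ b : G, C.coeff b * ((θ : N → ℂ) n * E.coeff ((n : G) * b⁻¹)) := by
          refine Finset.sum_congr rfl fun n _ => ?_
          rw [coeff_resSub, gr_mul_apply, Finset.sum_mul]
          refine Fintype.sum_equiv ((Equiv.inv G).trans (Equiv.mulRight (n : G))) _ _ fun a => ?_
          simp only [Equiv.trans_apply, Equiv.inv_apply, Equiv.coe_mulRight, mul_inv_rev, inv_inv,
            mul_inv_cancel_left]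
          ring
      _ = ∑ b : G, C.coeff b * F b⁻¹ := by
          rw [Finset.sum_comm]
          exact Finset.sum_congr rfl fun b _ => by rw [hF, Finset.mul_sum]
      _ = 0 := Finset.sum_eq_zero fun b _ => by rw [hF0, mul_zero]
  rw [hfin, red_zero]

/-- Let N be a normal subgroup of the finite group G, b a block of N and B a block of G (relative to a maximal ideal M of the algebraic integers containing p) such that B covers b: some member of B has a constituent in b on restriction to N. Then every θ ∈ b is a constituent of the restriction of some χ ∈ B. -/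
theorem result {G : Type*} [Group G] [Fintype G] (p : ℕ) [Fact p.Prime] (M : Ideal Cfsg.AlgInt) (hM : Cfsg.IsPModular p M) (N : Subgroup G) [hN : N.Normal] [Fintype N] (B : Set (Cfsg.IrrCharacter G)) (hB : Cfsg.IsPBlock M B) (b : Set (Cfsg.IrrCharacter N)) (hb : Cfsg.IsPBlock M b) (hcov : (∃ χ ∈ B, ∃ θ ∈ b, Cfsg.classInner (fun n : N => (χ : G → ℂ) n) (θ : N → ℂ) ≠ 0)) (θ : Cfsg.IrrCharacter N) (hθ : θ ∈ b) : ∃ χ ∈ B, Cfsg.classInner (fun n : N => (χ : G → ℂ) n) (θ : N → ℂ) ≠ 0 := by
  haveI : M.IsPrime := hM.2.1.isPrime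
  by_contra hh
  push Not at hh
  obtain ⟨χ₀, hχ₀, θ₀, hθ₀, hne⟩ := hcov
  refine bIdem_mul_incSub_ne hM hB hb hχ₀ hθ₀ hne ?_
  have hes : IsStableUnder N (incSub N (bIdem M b)) := isStableUnder_incSub (isClassElt_bIdem b)
  have hus := (isClassElt_bIdem (M := M) B).stable N
  have hcomm : bIdem M B * incSub N (bIdem M b) = incSub N (bIdem M b) * bIdem M B :=
    (incSub_mul_comm_of_stable hus _).symm
  refine idem_eq_zero_of_lam hb hθ (hus.mul hes) ?_ ?_ fun c hc => ?_
  · calc bIdem M B * incSub N (bIdem M b) * (bIdem M B * incSub N (bIdem M b))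
        = bIdem M B * (incSub N (bIdem M b) * bIdem M B) * incSub N (bIdem M b) := by
          simp only [mul_assoc]
      _ = bIdem M B * bIdem M B * (incSub N (bIdem M b) * incSub N (bIdem M b)) := by
          rw [← hcomm]; simp only [mul_assoc]
      _ = _ := by rw [bIdem_sq hB, ← map_mul, bIdem_sq hb]
  · rw [hcomm, ← mul_assoc, ← map_mul, bIdem_sq hb]
  · rw [mul_assoc]
    convert lam_resSub_bIdem_mul N hB θ (fun χ hχ => by convert hh χ hχ) (hes.mul hc) using 2

end Cfsg.Agent.S4432
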