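import Cfsg.Statements.S4433
import Cfsg.Agent.Lib.Blocks.Defect
-- import your own Cfsg.Agent.* helpers here

set_option autoImplicit false
open Cfsg

namespace Cfsg.Agent.S4433

/-- Let N be a normal subgroup of the finite group G and write Ḡ = G/N; fix a maximal ideal M of the algebraic integers containing p. Let B̄ be a block of Ḡ contained in the block B of G, in the sense that the inflation of every member of B̄ lies in B, and let D̄ be a defect group of B̄. Then B has a defect group P whose image in Ḡ contains D̄. -/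
theorem result {G : Type*} [Group G] [Finite G] (p : ℕ) [Fact p.Prime] (M : Ideal Cfsg.AlgInt) (hM : Cfsg.IsPModular p M) (N : Subgroup G) [N.Normal] (Bbar : Set (Cfsg.IrrCharacter (G ⧸ N))) (hBbar : Cfsg.IsPBlock M Bbar) (B : Set (Cfsg.IrrCharacter G)) (hB : Cfsg.IsPBlock M B) (hsub : ∀ χ ∈ Bbar, ∀ ψ : Cfsg.IrrCharacter G, (ψ : G → ℂ) = (χ : G ⧸ N → ℂ) ∘ QuotientGroup.mk → ψ ∈ B) (Dbar : Subgroup (G ⧸ N)) (hDbar : Cfsg.IsDefectGroup p M Bbar Dbar) : ∃ P : Subgroup G, Cfsg.IsDefectGroup p M B P ∧ Dbar ≤ P.map (QuotientGroup.mk' N) := by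
  classical
  haveI := Fintype.ofFinite G
  haveI := Fintype.ofFinite (G ⧸ N)
  haveI := hM.2.1.isPrime
  open Cfsg.Lib.Blocks in
  obtain ⟨D, hD⟩ := exists_defectGroup hM hB
  open Cfsg.Lib.Blocks in
  obtain ⟨g, hg, hs⟩ := isDefectGroup_iff.1 hD
  open Cfsg.Lib.Blocks in
  obtain ⟨-, -, hω⟩ := exists_defectClass_data hg
  open Cfsg.Lib.Blocks in
  obtain ⟨φ, hφ⟩ := IsPBlock.nonempty hBbar
  set C := Subgroup.centralizer ({g} : Set G)
  set q : G ⧸ N := QuotientGroup.mk' N g
  set E := (Subgroup.centralizer ({q} : Set (G ⧸ N))).comap (QuotientGroup.mk' N) with hE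
  have hCE : C ≤ E := fun y hy => by
    rw [hE, Subgroup.mem_comap, Subgroup.mem_centralizer_singleton_iff, ← map_mul, ← map_mul,
      Subgroup.mem_centralizer_singleton_iff.1 hy]
  have hidx : C.index = C.relIndex E * (Subgroup.centralizer ({q} : Set (G ⧸ N))).index := by
    rw [← Subgroup.relIndex_mul_index hCE, hE,
      Subgroup.index_comap_of_surjective _ (QuotientGroup.mk'_surjective N)]
  have hinfl : Cfsg.IsIrrCharacter G ((φ : G ⧸ N → ℂ) ∘ QuotientGroup.mk) :=
    Cfsg.Lib.Characters.isIrrCharacter_comp_surjective φ.2 (QuotientGroup.mk' N) (QuotientGroup.mk'_surjective N)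
  have hmem := hsub φ hφ ⟨_, hinfl⟩ rfl
  have hne := hω _ hmem
  have hcc : Cfsg.centralChar ((φ : G ⧸ N → ℂ) ∘ QuotientGroup.mk) g =
      (C.relIndex E : ℂ) * Cfsg.centralChar (φ : G ⧸ N → ℂ) q := by
    simp only [Cfsg.centralChar, Function.comp_apply, QuotientGroup.mk_one]
    rw [show (Subgroup.centralizer ({g} : Set G)).index = _ from hidx, Nat.cast_mul]
    show _ * ((φ : G ⧸ N → ℂ) q) / _ = _
    ring
  change Cfsg.Lib.Blocks.red M (Cfsg.centralChar ((φ : G ⧸ N → ℂ) ∘ QuotientGroup.mk) g) ≠ 0 at hne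
  rw [hcc, Cfsg.Lib.Blocks.red_mul (natCast_mem _ _) (Cfsg.Lib.Blocks.centralChar_mem_locRing M φ q),
    Cfsg.Lib.Blocks.red_natCast] at hne
  have hωq := right_ne_zero_of_mul hne
  have hm : ¬ p ∣ C.relIndex E := fun hd => left_ne_zero_of_mul hne (by
    obtain ⟨c, hc⟩ := hd
    rw [hc, Nat.cast_mul, Cfsg.Lib.Blocks.red_p hM, zero_mul])
  -- `D` stays a Sylow subgroup of the preimage, so its image is one of the centralizer in the quotient
  have hDE : D ≤ E := hs.le.trans hCE
  have hnd : ¬ p ∣ (D.subgroupOf E).index := by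
    show ¬ p ∣ D.relIndex E
    rw [← Subgroup.relIndex_mul_relIndex D C E hs.le hCE]
    intro hd
    rcases (Fact.out : p.Prime).dvd_mul.1 hd with h | h
    · obtain ⟨S, hS⟩ := hs.exists_sylow
      apply S.not_dvd_index
      rw [hS, Subgroup.relIndex, Subgroup.subgroupOf, Subgroup.comap_map_eq_self_of_injective C.subtype_injective] at h
      exact h
    · exact hm h
  have hDq : Cfsg.Lib.Blocks.IsSylCent p q (D.map (QuotientGroup.mk' N)) := by
    let f : E →* Subgroup.centralizer ({q} : Set (G ⧸ N)) :=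
      ((QuotientGroup.mk' N).comp E.subtype).codRestrict _ fun x => x.2
    have hf : Function.Surjective f := fun y => by
      obtain ⟨x, hx⟩ := QuotientGroup.mk'_surjective N (y : G ⧸ N)
      exact ⟨⟨x, show QuotientGroup.mk' N x ∈ _ by rw [hx]; exact y.2⟩, Subtype.ext hx⟩
    have hDp : IsPGroup p (D.subgroupOf E) := hs.isPGroup.of_equiv (Subgroup.subgroupOfEquivOfLe hDE).symm
    let S : Sylow p E := hDp.toSylow hnd
    let S' : Sylow p (Subgroup.centralizer ({q} : Set (G ⧸ N))) := S.mapSurjective hf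
    have e : (S' : Subgroup _).map (Subgroup.centralizer ({q} : Set (G ⧸ N))).subtype = D.map (QuotientGroup.mk' N) := by
      show ((D.subgroupOf E).map f).map _ = _
      rw [Subgroup.map_map, show (Subgroup.centralizer ({q} : Set (G ⧸ N))).subtype.comp f = (QuotientGroup.mk' N).comp E.subtype from rfl,
        ← Subgroup.map_map,
        Subgroup.map_subgroupOf_eq_of_le hDE]
    exact e ▸ Cfsg.Lib.Blocks.isSylCent_map S'
  obtain ⟨y, hy⟩ := Cfsg.Lib.Blocks.le_conj_of_centralChar_ne hM hBbar hDbar hφ hωq hDq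
  obtain ⟨x, rfl⟩ := QuotientGroup.mk'_surjective N y
  refine ⟨Cfsg.Lib.Blocks.conjSub x⁻¹ D, Cfsg.Lib.Blocks.IsDefectGroup.conjSub hB hD _, ?_⟩
  refine (Cfsg.Lib.Blocks.conjSub_le_iff.1 hy).trans (le_of_eq ?_)
  rw [Cfsg.Lib.Blocks.conjSub, Cfsg.Lib.Blocks.conjSub, Subgroup.map_map, Subgroup.map_map]
  congr 1

end Cfsg.Agent.S4433
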