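import Cfsg.Statements.S4434
import Cfsg.Agent.Lib.Blocks.NormalPInflation
-- import your own Cfsg.Agent.* helpers here

set_option autoImplicit false
open Cfsg

namespace Cfsg.Agent.S4434

open Cfsg.Lib.Blocks

variable {G : Type*} [Group G] [Fintype G]

theorem card_map_mul (N H : Subgroup G) [N.Normal] (h : N ≤ H) :
    Nat.card (H.map (QuotientGroup.mk' N)) * Nat.card N = Nat.card H := by
  have e : (H.map (QuotientGroup.mk' N)).comap (QuotientGroup.mk' N) = H := by
    rw [Subgroup.comap_map_eq, QuotientGroup.ker_mk', sup_eq_left.2 h]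
  have hi := Subgroup.index_comap_of_surjective (H.map (QuotientGroup.mk' N)) (QuotientGroup.mk'_surjective N)
  rw [e] at hi
  have h1 := H.card_mul_index
  have h2 := (H.map (QuotientGroup.mk' N)).card_mul_index
  rw [← hi, ← Subgroup.index_eq_card] at h2
  rw [← N.card_mul_index, ← h2] at h1
  exact Nat.eq_of_mul_eq_mul_right (Nat.pos_of_ne_zero (Subgroup.index_ne_zero_of_finite (H := H)))
    (Eq.trans (by ring) h1.symm)

theorem map_conjSub (N : Subgroup G) [N.Normal] (x : G) (D : Subgroup G) :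
    (conjSub x D).map (QuotientGroup.mk' N) =
      conjSub (QuotientGroup.mk' N x) (D.map (QuotientGroup.mk' N)) := by
  rw [conjSub, conjSub, Subgroup.map_map, Subgroup.map_map]
  congr 1

theorem exists_block {p : ℕ} [Fact (Nat.Prime p)] {M : Ideal Cfsg.AlgInt} [M.IsPrime] (hM : Cfsg.IsPModular p M)
    (N : Subgroup G) [N.Normal] [Fintype (G ⧸ N)] (hN : IsPGroup p N) (B : Set (Cfsg.IrrCharacter G))
    (hB : Cfsg.IsPBlock M B) :
    ∃ φ, inflIrr N φ ∈ B ∧ ∃ D, Cfsg.IsDefectGroup p M B D ∧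
      Cfsg.IsDefectGroup p M (Cfsg.blockOf M (φ : G ⧸ N → ℂ)) (D.map (QuotientGroup.mk' N)) := by
  classical
  obtain ⟨D, hD⟩ := exists_defectGroup hM hB
  obtain ⟨g, hg, hs⟩ := isDefectGroup_iff.1 hD
  obtain ⟨-, hcne, hω⟩ := exists_defectClass_data hg
  have hreg := not_dvd_of_coeff_ne hM hB hcne
  have hND : N ≤ D := normal_le_defectGroup hM hB hD hN
  have hmem : g ∈ Subgroup.centralizer (N : Set G) :=
    Subgroup.centralizer_le hND hs.mem_centralizer
  set U : Set (Cfsg.IrrCharacter (G ⧸ N)) := {φ | inflIrr N φ ∈ B}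
  have hUblock : ∀ φ ∈ U, ∀ ψ ∈ Cfsg.blockOf M (φ : G ⧸ N → ℂ), ψ ∈ U := by
    intro φ hφ ψ hψ
    show inflIrr N ψ ∈ B
    rw [IsPBlock.eq_blockOf hB hφ]
    exact sameBlock_inflIrr hM hN hψ
  let bl : Cfsg.IrrCharacter (G ⧸ N) → Set (Cfsg.IrrCharacter (G ⧸ N)) := fun φ => Cfsg.blockOf M (φ : G ⧸ N → ℂ)
  set T := (Finset.univ.filter (· ∈ U)).image bl
  have hdec : blockCoeff U (g : G ⧸ N) = ∑ b ∈ T, blockCoeff b (g : G ⧸ N) := by
    simp only [blockCoeff_eq]
    rw [← Finset.mul_sum, Finset.sum_comm]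
    congr 1
    refine Finset.sum_congr rfl fun φ _ => ?_
    rw [Finset.sum_ite, Finset.sum_const_zero, add_zero, Finset.sum_const, nsmul_eq_mul]
    by_cases hφ : φ ∈ U
    · rw [if_pos hφ]
      have : T.filter (fun b => φ ∈ b) = {bl φ} := by
        ext b
        simp only [T, Finset.mem_filter, Finset.mem_image, Finset.mem_univ, true_and, Finset.mem_singleton]
        refine ⟨fun ⟨⟨ψ, _, e⟩, hb⟩ => ?_, fun e => ⟨⟨φ, hφ, e.symm⟩, e ▸ mem_blockOf_self M φ⟩⟩
        rw [← e] at hb ⊢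
        exact IsPBlock.eq_blockOf ⟨ψ, rfl⟩ hb
      rw [this]
      simp
    · rw [if_neg hφ]
      have : T.filter (fun b => φ ∈ b) = ∅ := by
        ext b
        simp only [T, Finset.mem_filter, Finset.mem_image, Finset.mem_univ, true_and, Finset.notMem_empty, iff_false, not_and]
        rintro ⟨ψ, hψ, rfl⟩ hb
        exact hφ (hUblock ψ hψ φ hb)
      rw [this]
      simp
  have hTblock : ∀ b ∈ T, Cfsg.IsPBlock M b := by
    intro b hb
    obtain ⟨φ, -, rfl⟩ := Finset.mem_image.1 hb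
    exact ⟨φ, rfl⟩
  have hne : red M (∑ b ∈ T, blockCoeff b (g : G ⧸ N)) ≠ 0 := by
    rw [← hdec, blockCoeff_inflate hM hN hB hreg hmem]
    exact hcne
  rw [red_sum _ (fun b hb => blockCoeff_mem_locRing (hTblock b hb) _)] at hne
  obtain ⟨b, hbT, hbne⟩ := Finset.exists_ne_zero_of_sum_ne_zero hne
  obtain ⟨φ, hφU, rfl⟩ := Finset.mem_image.1 hbT
  have hφ : inflIrr N φ ∈ B := (Finset.mem_filter.1 hφU).2
  have hb := hTblock _ hbT
  have hDp := isPGroup_defectGroup hD
  have hs' : IsSylCent p (g : G ⧸ N) (D.map (QuotientGroup.mk' N)) := by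
    have hc := comap_centralizer_mk_of_centralizing hN hreg hmem
    have hNC : N ≤ Subgroup.centralizer ({g} : Set G) := hND.trans hs.le
    have hmap : (Subgroup.centralizer ({g} : Set G)).map (QuotientGroup.mk' N) =
        Subgroup.centralizer ({(g : G ⧸ N)} : Set (G ⧸ N)) := by
      rw [← hc, Subgroup.map_comap_eq_self_of_surjective (QuotientGroup.mk'_surjective N)]
    refine ⟨hDp.map _, hmap ▸ Subgroup.map_mono hs.le, ?_⟩
    obtain ⟨k, hk⟩ := IsPGroup.iff_card.1 hN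
    have h1 := card_map_mul N D hND
    have h2 := card_map_mul N _ hNC
    rw [hmap] at h2
    rw [hs.card_eq, ← h2, Nat.factorization_mul Nat.card_pos.ne' Nat.card_pos.ne', hk,
      Finsupp.add_apply, (Fact.out : p.Prime).factorization_pow, Finsupp.single_eq_same, pow_add] at h1
    exact Nat.eq_of_mul_eq_mul_right (pow_pos (Fact.out : p.Prime).pos _) h1
  have hωq : red M (Cfsg.centralChar (φ : G ⧸ N → ℂ) (g : G ⧸ N)) ≠ 0 := by
    rw [← centralChar_inflate_of_centralizing hN _ hreg hmem]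
    exact hω _ hφ
  obtain ⟨Db, hDb⟩ := exists_defectGroup hM hb
  obtain ⟨x, hx⟩ := le_conj_of_centralChar_ne hM hb hDb (mem_blockOf_self M φ) hωq hs'
  obtain ⟨y, hy⟩ := le_conj_of_coeff_ne hM hb hDb hbne hs'
  have hle : Nat.card Db ≤ Nat.card (D.map (QuotientGroup.mk' N)) := by
    rw [← card_conjSub x Db]; exact Subgroup.card_le_of_le hx
  have heq : conjSub y (D.map (QuotientGroup.mk' N)) = Db :=
    Subgroup.eq_of_le_of_card_ge hy (by rw [card_conjSub]; exact hle)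
  have h3 := IsDefectGroup.conjSub hb (heq ▸ hDb) y⁻¹
  rw [conjSub_conjSub, inv_mul_cancel, conjSub_one] at h3
  exact ⟨φ, hφ, D, hD, h3⟩


/-- Let N be a normal p-subgroup of the finite group G and write Ḡ = G/N; fix a maximal ideal M of the algebraic integers containing p. Then every block B of G contains a block B̄ of Ḡ (the inflation of every member of B̄ lies in B) whose defect groups are exactly the images in Ḡ of the defect groups of B. -/
theorem result {G : Type*} [Group G] [Finite G] (p : ℕ) [Fact p.Prime] (M : Ideal Cfsg.AlgInt) (hM : Cfsg.IsPModular p M) (N : Subgroup G) [N.Normal] (hN : IsPGroup p N) (B : Set (Cfsg.IrrCharacter G)) (hB : Cfsg.IsPBlock M B) : ∃ Bbar : Set (Cfsg.IrrCharacter (G ⧸ N)), Cfsg.IsPBlock M Bbar ∧ (∀ χ ∈ Bbar, ∀ ψ : Cfsg.IrrCharacter G, (ψ : G → ℂ) = (χ : G ⧸ N → ℂ) ∘ QuotientGroup.mk → ψ ∈ B) ∧ ∀ Dbar : Subgroup (G ⧸ N), Cfsg.IsDefectGroup p M Bbar Dbar ↔ ∃ P : Subgroup G, Cfsg.IsDefectGroup p M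 B P ∧ Dbar = P.map (QuotientGroup.mk' N) := by
  classical
  haveI := Fintype.ofFinite G
  haveI := Fintype.ofFinite (G ⧸ N)
  haveI := hM.2.1.isPrime
  obtain ⟨φ, hφ, D, hD, hDb⟩ := exists_block hM N hN B hB
  refine ⟨Cfsg.blockOf M (φ : G ⧸ N → ℂ), ⟨φ, rfl⟩, fun χ hχ ψ hψ => ?_, fun Dbar => ⟨fun h => ?_, ?_⟩⟩
  · rw [show ψ = inflIrr N χ from Subtype.ext hψ, IsPBlock.eq_blockOf hB hφ]
    exact sameBlock_inflIrr hM hN hχ
  · obtain ⟨q, hq⟩ := defectGroup_conj hM ⟨φ, rfl⟩ hDb h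
    obtain ⟨x, rfl⟩ := QuotientGroup.mk'_surjective N q
    exact ⟨conjSub x D, IsDefectGroup.conjSub hB hD x, by rw [map_conjSub, hq]⟩
  · rintro ⟨P, hP, rfl⟩
    obtain ⟨x, rfl⟩ := defectGroup_conj hM hB hD hP
    rw [map_conjSub]
    exact IsDefectGroup.conjSub ⟨φ, rfl⟩ hDb _

end Cfsg.Agent.S4434
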