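import Cfsg.Statements.S4437
import Mathlib
import Cfsg.Agent.Lib.Blocks.ExtendedFirstMain

set_option autoImplicit false
open Cfsg

namespace Cfsg.Agent.S4437

/-- Let P be a p-subgroup of the finite group G, H = P·C_G(P), and b a block of H (relative to a maximal ideal M of the algebraic integers containing p) having P as a defect group; let B be the block of G induced by b. Let T be the stabilizer of b in N_G(P): the elements g of N_G(P) such that the g-conjugate of every member of b is again a member of b. Then B has defect group P if and only if p does not divide the index of H in T. -/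
theorem result {G : Type*} [Group G] [Fintype G] (p : ℕ) [Fact p.Prime] (M : Ideal Cfsg.AlgInt) (hM : Cfsg.IsPModular p M) (P : Subgroup G) (hP : IsPGroup p P) (H : Subgroup G) [Fintype H] (hH : H = P ⊔ Subgroup.centralizer (P : Set G)) (b : Set (Cfsg.IrrCharacter H)) (hb : Cfsg.IsPBlock M b) (hbP : Cfsg.IsDefectGroup p M b (P.subgroupOf H)) (B : Set (Cfsg.IrrCharacter G)) (hind : Cfsg.IsInducedBlock M H b B) (T : Subgroup G) (hT : ∀ g : G, g ∈ T ↔ (g ∈ Subgroup.normalizer (P : Set G) ∧ ∀ θ ∈ b, ∀ θ' : Cfsg.IrrCharacter H, (∀ h h' : H, (h' : G) = g * h * g⁻¹ → (θ' : H → ℂ) h' = (θ : H → ℂ) h) → θ' ∈ b)) : Cfsg.IsDefectGroup p M B P ↔ ¬ p ∣ H.relIndex T := by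
  haveI := hM.2.1.isPrime
  classical
  subst hH
  open Cfsg.Lib.Blocks in
  · obtain ⟨e, he, hbe, hcoe⟩ := exists_pair_of_localBlock hM hP hb
    have hTeq : T = pairStab M ⊤ P e := by
      ext g
      rw [hT, mem_pairStab]
      refine and_congr_right_iff.mpr ?_ |>.trans ⟨fun h => ⟨trivial, h.1, h.2⟩, fun h => h.2⟩
      intro hg
      have hn := conj_mem_local hg
      have key : pullBlock (normConj _ hn) b = b ↔ cjE g (subE M P e) = subE M P e :=
        (pullBlock_local_iff hb hb hbe hbe hn).trans eq_comm
      refine Iff.trans ⟨fun h => ?_, fun h => ?_⟩ key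
      · have hstab : StabilizesBlock _ b g := ⟨hn, fun χ hχ => by
          have hrel := (isConjCharOf_iff hn χ (irrPull (normConj _ hn).symm χ)).mpr
            (irrPull_symm _ χ)
          exact ⟨_, h χ hχ _ (fun a a' ha => hrel a a' ha), hrel⟩⟩
        obtain ⟨hn', h'⟩ := (stabilizesBlock_iff b g).mp hstab
        exact h'
      · intro θ hθ θ' hθ'
        have hrel := (isConjCharOf_iff hn θ θ').mp fun a a' ha => hθ' a a' ha
        rw [← h, ← hrel] at hθ
        exact (mem_pullBlock _ b θ').mp hθ
    rw [hTeq]
    exact defect_iff_index hM hP hb hbP he hbe hcoe hind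

end Cfsg.Agent.S4437
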