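import Cfsg.Statements.S4444
import Mathlib
import Cfsg.Agent.Lib.Blocks.Glauberman

set_option autoImplicit false
open Cfsg

namespace Cfsg.Agent.S4444

/-- The Glauberman correspondence for a p-group of operators. Inside a finite group Γ let S normalise G with the orders of G and S coprime, S a p-group, and let C = G ⊓ C(S) be the fixed points. Call an irreducible character χ of G S-invariant when χ(s g s⁻¹) = χ(g) for s ∈ S, g ∈ G. Then: (i) for every S-invariant χ there is exactly one irreducible character β of C whose multiplicity [χ_C, β] in the restriction of χ is not divisible by p; (ii) that multiplicity is ≡ 1 or ≡ −1 (mod p); (iii) distinct S-invariant χ give distinct β; (iv) every irreducible character of C arises in this way. So χ ↦ β is a bijection from the S-invariant irreducible characters of G onto the irreducible characters of C. -/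
theorem result {Γ : Type*} [Group Γ] [Fintype Γ] (G S : Subgroup Γ) [Fintype G] (hnorm : ∀ s ∈ S, ∀ g ∈ G, s * g * s⁻¹ ∈ G) (hcop : (Nat.card G).Coprime (Nat.card S)) (p : ℕ) (hp : p.Prime) (hS : IsPGroup p S) (C : Subgroup Γ) [Fintype C] (hC : C = G ⊓ Subgroup.centralizer (S : Set Γ)) (hCG : C ≤ G) : (∀ χ : Cfsg.IrrCharacter G, (∀ s ∈ S, ∀ g g' : G, (g' : Γ) = s * g * s⁻¹ → (χ : G → ℂ) g' = (χ : G → ℂ) g) → ∃! β : Cfsg.IrrCharacter C, ∃ m : ℕ, Cfsg.classInner (fun c : C => (χ : G → ℂ) ⟨c, hCG c.2⟩) (β : C → ℂ) = (m : ℂ) ∧ ¬ p ∣ m) ∧ (∀ χ : Cfsg.IrrCharacter G, (∀ s ∈ S, ∀ g g' : G, (g' : Γ) = s * g * s⁻¹ → (χ : G → ℂ) g' = (χ : G → ℂ) g) → ∀ β : Cfsg.IrrCharacter C, ∀ m : ℕ, Cfsg.classInner (fun c : C => (χ : G → ℂ) ⟨c, hCG c.2⟩) (β : C → ℂ) = (m : ℂ) → ¬ p ∣ m → ((m : ℤ) ≡ 1 [ZMOD p] ∨ (m : ℤ) ≡ -1 [ZMOD p])) ∧ (∀ χ χ' : Cfsg.IrrCharacter G, (∀ s ∈ S, ∀ g g' : G, (g' : Γ) = s * g * s⁻¹ → (χ : G → ℂ) g' = (χ : G → ℂ) g) → (∀ s ∈ S, ∀ g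 g' : G, (g' : Γ) = s * g * s⁻¹ → (χ' : G → ℂ) g' = (χ' : G → ℂ) g) → ∀ β : Cfsg.IrrCharacter C, ∀ m m' : ℕ, Cfsg.classInner (fun c : C => (χ : G → ℂ) ⟨c, hCG c.2⟩) (β : C → ℂ) = (m : ℂ) → ¬ p ∣ m → Cfsg.classInner (fun c : C => (χ' : G → ℂ) ⟨c, hCG c.2⟩) (β : C → ℂ) = (m' : ℂ) → ¬ p ∣ m' → χ = χ') ∧ (∀ β : Cfsg.IrrCharacter C, ∃ χ : Cfsg.IrrCharacter G, (∀ s ∈ S, ∀ g g' : G, (g' : Γ) = s * g * s⁻¹ → (χ : G → ℂ) g' = (χ : G → ℂ) g) ∧ ∃ m : ℕ, Cfsg.classInner (fun c : C => (χ : G → ℂ) ⟨c, hCG c.2⟩) (β : C → ℂ) = (m : ℂ) ∧ ¬ p ∣ m) := by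
  haveI := Fact.mk hp
  classical
  open Cfsg.Lib.Blocks in
  · by_cases hpG : p ∣ Nat.card G
    · have hSbot : Nat.card S = 1 := by
        obtain ⟨n, hn⟩ := IsPGroup.iff_card.mp hS
        rcases n with _ | n
        · simpa using hn
        · exfalso
          have h := Nat.dvd_gcd hpG (hn ▸ dvd_pow_self p (Nat.succ_ne_zero n))
          rw [hcop] at h
          exact hp.not_dvd_one h
      have hs1 : ∀ s ∈ S, s = (1 : Γ) := fun s hs => by
        have := Subgroup.eq_bot_of_card_eq S hSbot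
        rw [this] at hs
        exact Subgroup.mem_bot.mp hs
      have hCeq : C = G := by
        rw [hC, inf_eq_left]
        intro g _
        rw [Subgroup.mem_centralizer_iff]
        intro s hs
        rw [hs1 s hs]; simp
      subst hCeq
      have hres : ∀ χ : IrrCharacter C, (fun c : C => (χ : C → ℂ) ⟨c, hCG c.2⟩) = (χ : C → ℂ) :=
        fun χ => funext fun c => rfl
      have hinst : ∀ (χ β : IrrCharacter C), classInner (χ : C → ℂ) (β : C → ℂ)
          = if χ = β then (1 : ℂ) else 0 := fun χ β => by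
        rw [Cfsg.Lib.Characters.classInner_irr χ.2 β.2]
        simp only [Subtype.ext_iff]
      have hinv : ∀ χ : IrrCharacter C, ∀ s ∈ S, ∀ g g' : C, (g' : Γ) = s * g * s⁻¹ →
          (χ : C → ℂ) g' = (χ : C → ℂ) g := by
        intro χ s hs g g' h
        rw [hs1 s hs, one_mul, inv_one, mul_one] at h
        rw [Subtype.ext h]
      refine ⟨fun χ _ => ⟨χ, ⟨1, ?_, hp.not_dvd_one⟩, fun β ⟨m, hm, hmp⟩ => ?_⟩,
        fun χ _ β m hm hmp => Or.inl ?_, fun χ χ' _ _ β m m' hm hmp hm' hmp' => ?_,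
        fun β => ⟨β, hinv β, 1, ?_, hp.not_dvd_one⟩⟩
      · have h := hinst χ χ
        rw [if_pos rfl] at h
        rw [Nat.cast_one, ← h]
        congr!
      · by_contra hne
        have h : classInner (χ : C → ℂ) (β : C → ℂ) = (m : ℂ) := by convert hm using 2
        rw [hinst, if_neg (Ne.symm hne), eq_comm, Nat.cast_eq_zero] at h
        exact hmp (h ▸ dvd_zero p)
      · have h : classInner (χ : C → ℂ) (β : C → ℂ) = (m : ℂ) := by convert hm using 2
        rw [hinst] at h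
        split_ifs at h
        · rw [show m = 1 by exact_mod_cast h.symm]; rfl
        · rw [eq_comm, Nat.cast_eq_zero] at h
          exact absurd (h ▸ dvd_zero p) hmp
      · have h : classInner (χ : C → ℂ) (β : C → ℂ) = (m : ℂ) := by convert hm using 2
        have h' : classInner (χ' : C → ℂ) (β : C → ℂ) = (m' : ℂ) := by convert hm' using 2
        rw [hinst] at h h'
        split_ifs at h with e
        · split_ifs at h' with e'
          · rw [e, e']
          · rw [eq_comm, Nat.cast_eq_zero] at h'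
            exact absurd (h' ▸ dvd_zero p) hmp'
        · rw [eq_comm, Nat.cast_eq_zero] at h
          exact absurd (h ▸ dvd_zero p) hmp
      · have h := hinst β β
        rw [if_pos rfl] at h
        rw [Nat.cast_one, ← h]
        congr!
    · set ι : C →* G := Subgroup.inclusion hCG with hι
      have hfix : ∀ g : G, (∀ s, conjAct G S hnorm s g = g) ↔ g ∈ Set.range ι := by
        intro g
        constructor
        · intro h
          have hg : (g : Γ) ∈ C := by
            rw [hC]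
            refine Subgroup.mem_inf.mpr ⟨g.2, Subgroup.mem_centralizer_iff.mpr fun s hs => ?_⟩
            have := congrArg Subtype.val (h ⟨s, hs⟩)
            rw [coe_conjAct, mul_inv_eq_iff_eq_mul] at this
            exact this
          exact ⟨⟨g, hg⟩, Subtype.ext rfl⟩
        · rintro ⟨c, rfl⟩ s
          have hc := c.2
          simp only [hC, Subgroup.mem_inf, Subgroup.mem_centralizer_iff] at hc
          refine Subtype.ext ?_
          rw [coe_conjAct, mul_inv_eq_iff_eq_mul]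
          exact hc.2 s s.2
      obtain ⟨Φ, hbij, hΦ, hsign⟩ := glauberman (conjAct G S hnorm) ι hS
        (Subgroup.inclusion_injective hCG) hfix hpG
      have hm : ∀ (χ : IrrCharacter G) (β : IrrCharacter C) (m : ℕ),
          classInner (fun c : C => (χ : G → ℂ) ⟨c, hCG c.2⟩) (β : C → ℂ) = (m : ℂ) ↔ gMult ι χ β = m := by
        intro χ β m
        exact ⟨fun h => Nat.cast_injective ((gMult_spec ι χ β).symm.trans h),
          fun h => (gMult_spec ι χ β).trans (congrArg Nat.cast h)⟩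
      refine ⟨fun χ hχ => ?_, fun χ hχ β m h hmp => ?_, fun χ χ' hχ hχ' β m m' h hmp h' hmp' => ?_,
        fun β => ?_⟩
      · refine ⟨Φ ⟨χ, (isInv_conjAct_iff _ _ hnorm _).mpr hχ⟩, ⟨gMult ι χ (Φ ⟨χ, (isInv_conjAct_iff _ _ hnorm _).mpr hχ⟩),
          (hm χ (Φ ⟨χ, (isInv_conjAct_iff _ _ hnorm _).mpr hχ⟩) _).mpr rfl,
          (hΦ ⟨χ, (isInv_conjAct_iff _ _ hnorm _).mpr hχ⟩ _).mpr rfl⟩, fun β ⟨m, h, hmp⟩ => ?_⟩
        rw [hm] at h
        exact (hΦ ⟨χ, (isInv_conjAct_iff _ _ hnorm _).mpr hχ⟩ β).mp (h.symm ▸ hmp)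
      · rw [hm] at h
        have := (hΦ ⟨χ, (isInv_conjAct_iff _ _ hnorm _).mpr hχ⟩ β).mp (h.symm ▸ hmp)
        rw [← h, this]
        exact hsign ⟨χ, (isInv_conjAct_iff _ _ hnorm _).mpr hχ⟩
      · rw [hm] at h h'
        have e := (hΦ ⟨χ, (isInv_conjAct_iff _ _ hnorm _).mpr hχ⟩ β).mp (h.symm ▸ hmp)
        have e' := (hΦ ⟨χ', (isInv_conjAct_iff _ _ hnorm _).mpr hχ'⟩ β).mp (h'.symm ▸ hmp')
        exact congrArg Subtype.val (hbij.1 (e.symm.trans e'))
      · obtain ⟨χ, rfl⟩ := hbij.2 β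
        exact ⟨χ.1, (isInv_conjAct_iff _ _ hnorm _).mp χ.2, gMult ι χ.1 (Φ χ), (hm χ.1 (Φ χ) _).mpr rfl, (hΦ χ (Φ χ)).mpr rfl⟩

end Cfsg.Agent.S4444
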