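import Cfsg.Statements.S4446
import Mathlib
import Cfsg.Agent.Lib.Blocks.GlaubermanCyclic

set_option autoImplicit false
open Cfsg

namespace Cfsg.Agent.S4446

/-- Let the finite group Γ be generated by a normal subgroup G and a cyclic subgroup S of coprime orders, C = G ⊓ C(S), and let χ be an S-invariant irreducible character of G with canonical extension χ̂ to Γ (the extension whose determinantal order is coprime to the order of S). Then there are exactly one irreducible character β of C and one sign ε such that χ̂(c s) = ε β(c) for every c ∈ C and every generator s of S; this β is a constituent of the restriction of χ to C; distinct S-invariant χ give distinct β; and every irreducible character of C arises in this way. -/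
theorem result {Γ : Type*} [Group Γ] [Fintype Γ] (G S : Subgroup Γ) [Fintype G] (hnorm : ∀ s ∈ S, ∀ g ∈ G, s * g * s⁻¹ ∈ G) (hcop : (Nat.card G).Coprime (Nat.card S)) (htop : G ⊔ S = ⊤) (hcyc : IsCyclic S) (C : Subgroup Γ) [Fintype C] (hC : C = G ⊓ Subgroup.centralizer (S : Set Γ)) (hCG : C ≤ G) : (∀ (χ : Cfsg.IrrCharacter G) (χh : Cfsg.IrrCharacter Γ), (∀ s ∈ S, ∀ g g' : G, (g' : Γ) = s * g * s⁻¹ → (χ : G → ℂ) g' = (χ : G → ℂ) g) → (∀ g : G, (χh : Γ → ℂ) g = (χ : G → ℂ) g) → (Cfsg.detOrder (χh : Γ → ℂ)).Coprime (Nat.card S) → (∃! βε : Cfsg.IrrCharacter C × ℤ, (βε.2 = 1 ∨ βε.2 = -1) ∧ ∀ c : C, ∀ s : Γ, Subgroup.zpowers s = S → (χh : Γ → ℂ) ((c : Γ) * s) = (βε.2 : ℂ) * (βε.1 : C → ℂ) c) ∧ ∀ β : Cfsg.IrrCharacter C, ∀ ε : ℤ, (ε = 1 ∨ ε = -1) → (∀ c : C, ∀ s : Γ, Subgroup.zpowers s = S → (χh : Γ → ℂ) ((c : Γ) * s) = (ε : ℂ) * (β : C → ℂ) c) → Cfsg.classInner (fun c : C => (χ : G → ℂ) ⟨c, hCG c.2⟩) (β : C → ℂ) ≠ 0) ∧ (∀ (χ χ' : Cfsg.IrrCharacter G) (χh χh' : Cfsg.IrrCharacter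 Γ), (∀ s ∈ S, ∀ g g' : G, (g' : Γ) = s * g * s⁻¹ → (χ : G → ℂ) g' = (χ : G → ℂ) g) → (∀ s ∈ S, ∀ g g' : G, (g' : Γ) = s * g * s⁻¹ → (χ' : G → ℂ) g' = (χ' : G → ℂ) g) → (∀ g : G, (χh : Γ → ℂ) g = (χ : G → ℂ) g) → (∀ g : G, (χh' : Γ → ℂ) g = (χ' : G → ℂ) g) → (Cfsg.detOrder (χh : Γ → ℂ)).Coprime (Nat.card S) → (Cfsg.detOrder (χh' : Γ → ℂ)).Coprime (Nat.card S) → ∀ β : Cfsg.IrrCharacter C, ∀ ε ε' : ℤ, (ε = 1 ∨ ε = -1) → (ε' = 1 ∨ ε' = -1) → (∀ c : C, ∀ s : Γ, Subgroup.zpowers s = S → (χh : Γ → ℂ) ((c : Γ) * s) = (ε : ℂ) * (β : C → ℂ) c) → (∀ c : C, ∀ s : Γ, Subgroup.zpowers s = S → (χh' : Γ → ℂ) ((c : Γ) * s) = (ε' : ℂ) * (β : C → ℂ) c) → χ = χ') ∧ (∀ β : Cfsg.IrrCharacter C, ∃ (χ : Cfsg.IrrCharacter G) (χh : Cfsg.IrrCharacter Γ) (ε : ℤ), (∀ s ∈ S, ∀ g g' : G, (g' : Γ) = s * g * s⁻¹ → (χ : G → ℂ) g' = (χ : G → ℂ) g) ∧ (∀ g : G, (χh : Γ → ℂ) g = (χ : G → ℂ) g) ∧ (Cfsg.detOrder (χh : Γ → ℂ)).Coprime (Nat.card S) ∧ (ε = 1 ∨ ε = -1) ∧ ∀ c : C, ∀ s : Γ, Subgroup.zpowers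 s = S → (χh : Γ → ℂ) ((c : Γ) * s) = (ε : ℂ) * (β : C → ℂ) c) := by
  open Cfsg.Lib.GlaubermanCyclic Cfsg.Lib.Characters Cfsg.Lib.Blocks in
  open scoped ComplexConjugate in
  · classical
    obtain ⟨s₀, hs₀'⟩ := (Subgroup.isCyclic_iff_exists_zpowers_eq_top (H := S)).mp hcyc
    have hs₀ : Subgroup.zpowers s₀ = S := hs₀'
    haveI hGn : G.Normal := by
      refine Subgroup.normalizer_eq_top_iff.mp (top_le_iff.mp ?_)
      rw [← htop]
      refine sup_le Subgroup.le_normalizer fun t ht => Subgroup.mem_normalizer_iff.mpr fun g => ⟨hnorm t ht g, fun hg => ?_⟩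
      have := hnorm t⁻¹ (inv_mem ht) _ hg
      simpa [mul_assoc] using this
    have hcard : orderOf s₀ = Nat.card S := by rw [← Nat.card_zpowers, hs₀]
    have h : Setup G C s₀ := by
      refine ⟨by rwa [hcard], by rw [hs₀, htop], fun c => ?_⟩
      rw [hC, Subgroup.mem_inf, Subgroup.mem_centralizer_iff]
      refine and_congr_right fun _ => ⟨fun hc => (hc s₀ (hs₀ ▸ Subgroup.mem_zpowers s₀)).symm, fun hc t ht => ?_⟩
      obtain ⟨i, rfl⟩ := Subgroup.mem_zpowers_iff.mp (hs₀.symm ▸ ht : t ∈ Subgroup.zpowers s₀)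
      exact ((hc.symm).zpow_left i).eq
    have hresirr : ∀ (χ : Cfsg.IrrCharacter G) (χh : Cfsg.IrrCharacter Γ),
        (∀ g : G, (χh : Γ → ℂ) g = (χ : G → ℂ) g) → Cfsg.IsIrrCharacter G fun g : G => (χh : Γ → ℂ) g := by
      intro χ χh hext
      rw [show (fun g : G => (χh : Γ → ℂ) g) = (χ : G → ℂ) from funext hext]
      exact χ.2
    -- the correspondent with all its properties
    have hcorr : ∀ (χ : Cfsg.IrrCharacter G) (χh : Cfsg.IrrCharacter Γ),
        (∀ g : G, (χh : Γ → ℂ) g = (χ : G → ℂ) g) → h.Canon (χh : Γ → ℂ) →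
        ∃ (β₀ : Cfsg.IrrCharacter C) (ε₀ : ℤ), (ε₀ = 1 ∨ ε₀ = -1) ∧
          (∀ c : C, ∀ s : Γ, Subgroup.zpowers s = S → (χh : Γ → ℂ) ((c : Γ) * s) = (ε₀ : ℂ) * (β₀ : C → ℂ) c) ∧
          Cfsg.classInner (fun c : C => (χ : G → ℂ) ⟨c, hCG c.2⟩) (β₀ : C → ℂ) ≠ 0 := by
      intro χ χh hext hcan
      obtain ⟨β₀, ε₀, hε₀, hval, hne⟩ := h.exists_pm χh.2 (hresirr χ χh hext) hcan
      refine ⟨β₀, ε₀, hε₀, fun c s hs => ?_, ?_⟩
      · obtain ⟨k, rfl⟩ : ∃ k : ℕ, s₀ ^ k = s := by
          refine mem_powers_iff_mem_zpowers.mpr ?_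
          rw [hs₀, ← hs]
          exact Subgroup.mem_zpowers s
        have hk : k.Coprime (orderOf s₀) := by
          have h1 : orderOf (s₀ ^ k) = orderOf s₀ := by rw [hcard, ← hs, Nat.card_zpowers]
          rw [orderOf_pow] at h1
          have h2 := Nat.div_eq_self.mp h1
          rcases h2 with h2 | h2
          · exact absurd h2 (orderOf_pos s₀).ne'
          · exact Nat.coprime_comm.mp h2
        rw [h.value_generator χh.2 (hresirr χ χh hext) hcan c.2 hk, hval c]
      · rw [show (fun c : C => (χ : G → ℂ) ⟨c, hCG c.2⟩) = fun c : C => (χh : Γ → ℂ) (c : Γ) from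
          funext fun c => (hext ⟨c, hCG c.2⟩).symm]
        exact hne
    have huniq : ∀ (β β' : Cfsg.IrrCharacter C) (ε ε' : ℤ), (ε = 1 ∨ ε = -1) →
        (∀ c : C, (ε : ℂ) * (β : C → ℂ) c = (ε' : ℂ) * (β' : C → ℂ) c) → β = β' ∧ ε = ε' := by
      intro β β' ε ε' hε hall
      have h1 : Cfsg.classInner ((ε : ℂ) • (β : C → ℂ)) (β : C → ℂ)
          = Cfsg.classInner ((ε' : ℂ) • (β' : C → ℂ)) (β : C → ℂ) := by
        rw [show ((ε : ℂ) • (β : C → ℂ)) = (ε' : ℂ) • (β' : C → ℂ) from funext hall]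
      rw [classInner_smul_left, classInner_smul_left, classInner_irr_self β.2, classInner_irr β'.2 β.2] at h1
      split_ifs at h1 with he
      · exact ⟨(Subtype.ext he).symm, by simpa using h1⟩
      · exfalso
        rw [mul_one, mul_zero, Int.cast_eq_zero] at h1
        omega
    refine ⟨?_, ?_, ?_⟩
    · intro χ χh _ hext hdet
      obtain ⟨β₀, ε₀, hε₀, hval, hne⟩ := hcorr χ χh hext (h.canon_of_coprime χh.2.isCharacter (hcard.symm ▸ hdet))
      refine ⟨⟨(β₀, ε₀), ⟨hε₀, hval⟩, ?_⟩, ?_⟩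
      · rintro ⟨β, ε⟩ ⟨hε, hv⟩
        obtain ⟨h1, h2⟩ := huniq β β₀ ε ε₀ hε fun c => (hv c s₀ hs₀).symm.trans (hval c s₀ hs₀)
        rw [h1, h2]
      · intro β ε hε hv
        obtain ⟨h1, -⟩ := huniq β β₀ ε ε₀ hε fun c => (hv c s₀ hs₀).symm.trans (hval c s₀ hs₀)
        rw [h1]
        exact hne
    · intro χ χ' χh χh' _ _ hext hext' _ _ β ε ε' hε hε' hv hv'
      by_contra hne
      have hdiff : ∀ μ : Γ →* ℂˣ, (∀ g ∈ G, μ g = 1) → μ ≠ 1 →
          (fun x => (μ x : ℂ) * (χh : Γ → ℂ) x) ≠ (χh' : Γ → ℂ) := by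
        intro μ hμ _ he
        refine hne (Subtype.ext (funext fun g => ?_))
        rw [← hext g, ← hext' g, ← he]
        show _ = (μ g : ℂ) * _
        rw [hμ g g.2, Units.val_one, one_mul]
      have hi := h.inner_f χh χh' hdiff
      rw [if_neg fun e => hne (Subtype.ext (funext fun g => by rw [← hext g, ← hext' g, e]))] at hi
      rw [show (fun c : C => (χh : Γ → ℂ) ((c : Γ) * s₀)) = (ε : ℂ) • (β : C → ℂ) from funext fun c => hv c s₀ hs₀,
        show (fun c : C => (χh' : Γ → ℂ) ((c : Γ) * s₀)) = (ε' : ℂ) • (β : C → ℂ) from funext fun c => hv' c s₀ hs₀,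
        classInner_smul_left, classInner_smul_right, classInner_irr_self β.2, map_intCast] at hi
      rcases hε with rfl | rfl <;> rcases hε' with rfl | rfl <;> norm_num at hi
    · -- surjectivity by counting
      haveI := Fintype.ofFinite S
      let Inv := {χ : Cfsg.IrrCharacter G // IsInv (conjAct G S hnorm) (χ : G → ℂ)}
      have hinvall : ∀ χ : Inv, ∀ g : G, ∀ y : Γ, ∀ g' : G, (g' : Γ) = y * g * y⁻¹ →
          (χ.1 : G → ℂ) g' = (χ.1 : G → ℂ) g := by
        intro χ g y g' hg'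
        have hy : y ∈ G ⊔ S := by rw [htop]; trivial
        obtain ⟨a, ha, t, ht, rfl⟩ := Subgroup.mem_sup_of_normal_left.mp hy
        have h2 := χ.2 ⟨t, ht⟩ g
        rw [← h2, ← χ.1.2.isClassFunction (conjAct G S hnorm ⟨t, ht⟩ g) ⟨a, ha⟩]
        refine congrArg _ (Subtype.ext ?_)
        rw [hg']
        simp [mul_assoc]
      choose χh hcan hχh using fun χ : Inv => h.exists_canon χ.1 (hinvall χ)
      choose β₀ ε₀ hε₀ hval hne₀ using fun χ : Inv => hcorr χ.1 (χh χ) (hχh χ) (hcan χ)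
      have hinj : Function.Injective β₀ := by
        intro χ χ' he
        by_contra hne
        have hdiff : ∀ μ : Γ →* ℂˣ, (∀ g ∈ G, μ g = 1) → μ ≠ 1 →
            (fun x => (μ x : ℂ) * (χh χ : Γ → ℂ) x) ≠ (χh χ' : Γ → ℂ) := by
          intro μ hμ _ hee
          refine hne (Subtype.ext (Subtype.ext (funext fun g => ?_)))
          rw [← hχh χ g, ← hχh χ' g, ← hee]
          show _ = (μ g : ℂ) * _
          rw [hμ g g.2, Units.val_one, one_mul]
        have hi := h.inner_f (χh χ) (χh χ') hdiff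
        rw [if_neg fun e => hne (Subtype.ext (Subtype.ext (funext fun g => by rw [← hχh χ g, ← hχh χ' g, e])))] at hi
        rw [show (fun c : C => (χh χ : Γ → ℂ) ((c : Γ) * s₀)) = (ε₀ χ : ℂ) • (β₀ χ : C → ℂ) from
            funext fun c => hval χ c s₀ hs₀,
          show (fun c : C => (χh χ' : Γ → ℂ) ((c : Γ) * s₀)) = (ε₀ χ' : ℂ) • (β₀ χ : C → ℂ) from
            funext fun c => by rw [he]; exact hval χ' c s₀ hs₀,
          classInner_smul_left, classInner_smul_right, classInner_irr_self (β₀ χ).2, map_intCast] at hi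
        rcases hε₀ χ with h1 | h1 <;> rcases hε₀ χ' with h2 | h2 <;> rw [h1, h2] at hi <;> norm_num at hi
      have hsurj : Function.Surjective β₀ := by
        refine (Function.Injective.bijective_of_nat_card_le hinj ?_).2
        haveI : IsCyclic S := hcyc
        haveI : IsMulCommutative S := IsCyclic.isMulCommutative
        have hsolv : Group.IsSolvable S := Group.isSolvable_of_comm fun a b => mul_comm' a b
        rw [card_inv_irr_eq _ G S (conjAct G S hnorm) rfl hsolv hcop, card_irr_eq_card_conjClasses]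
        let emb : ConjClasses C → {K : ConjClasses G // IsInvClass (conjAct G S hnorm) K} := fun Q =>
          ⟨ConjClasses.map (Subgroup.inclusion hCG) Q, by
            induction Q using Quotient.inductionOn with
            | _ c =>
              show IsInvClass (conjAct G S hnorm) (ConjClasses.mk (Subgroup.inclusion hCG c))
              rw [isInvClass_mk]
              intro t
              have e : conjAct G S hnorm t (Subgroup.inclusion hCG c) = Subgroup.inclusion hCG c := by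
                apply Subtype.ext
                rw [coe_conjAct]
                have hc2 : (c : Γ) ∈ G ⊓ Subgroup.centralizer (S : Set Γ) := hC ▸ c.2
                show (t : Γ) * (c : Γ) * (t : Γ)⁻¹ = c
                rw [Subgroup.mem_centralizer_iff.mp hc2.2 (t : Γ) t.2, mul_inv_cancel_right]
              rw [e]⟩
        refine Nat.card_le_card_of_injective emb fun Q Q' hQ => ?_
        induction Q using Quotient.inductionOn with
        | _ c =>
          induction Q' using Quotient.inductionOn with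
          | _ c' =>
            have hcc : ConjClasses.mk (Subgroup.inclusion hCG c) = ConjClasses.mk (Subgroup.inclusion hCG c') :=
              congrArg Subtype.val hQ
            obtain ⟨y, hy⟩ := isConj_iff.mp (ConjClasses.mk_eq_mk_iff_isConj.mp hcc)
            have hy' : (y : Γ) * (c : Γ) * (y : Γ)⁻¹ = (c' : Γ) := congrArg Subtype.val hy
            have hcc1 := ((h.memC _).mp c.2).2
            have hcc2 := ((h.memC _).mp c'.2).2
            set N : Subgroup Γ := G ⊓ Subgroup.centralizer ({(c : Γ)} : Set Γ) with hN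
            have hsN : s₀ ∈ Subgroup.normalizer (N : Set Γ) := by
              refine Subgroup.mem_normalizer_iff.mpr fun g => ?_
              simp only [hN, Subgroup.mem_inf, Subgroup.mem_centralizer_singleton_iff]
              refine and_congr ⟨fun hg => hGn.conj_mem g hg s₀, fun hg => by
                have := hGn.conj_mem _ hg s₀⁻¹
                simpa [mul_assoc] using this⟩ ?_
              show Commute g (c : Γ) ↔ Commute (s₀ * g * s₀⁻¹) (c : Γ)
              exact ⟨fun hg => (hcc1.symm.mul_left hg).mul_left hcc1.symm.inv_left, fun hg => by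
                have := (hcc1.symm.inv_left.mul_left hg).mul_left hcc1.symm
                simpa [mul_assoc] using this⟩
            have hcopN : (orderOf s₀).Coprime (Nat.card N) :=
              (h.cop.coprime_dvd_left (Subgroup.card_dvd_of_le inf_le_left)).symm
            have hh : (y : Γ)⁻¹ * s₀ * y * s₀⁻¹ ∈ N := by
              rw [hN, Subgroup.mem_inf, Subgroup.mem_centralizer_singleton_iff]
              constructor
              · have := G.mul_mem (inv_mem y.2) (hGn.conj_mem _ y.2 s₀)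
                simpa [mul_assoc] using this
              · show Commute ((y : Γ)⁻¹ * s₀ * y * s₀⁻¹) (c : Γ)
                have h3 : Commute ((y : Γ)⁻¹ * s₀ * y) (c : Γ) := by
                  have := (hcc2.symm.map (MulAut.conj (y : Γ)⁻¹).toMonoidHom)
                  simp only [MulEquiv.coe_toMonoidHom, MulAut.conj_apply, inv_inv] at this
                  rw [show (y : Γ)⁻¹ * (c' : Γ) * (y : Γ) = c by rw [← hy']; group] at this
                  exact this
                exact h3.mul_left hcc1.symm.inv_left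
            obtain ⟨n, hn, c'', hc'', hcs, he, -⟩ := exists_conj_coprime_coset hsN hcopN hh
            obtain ⟨e, he1, he0⟩ := h.exists_exp
            have hc''C : c'' ∈ C := (h.memC _).mpr ⟨hc''.1, hcs⟩
            have h4 : n * ((y : Γ)⁻¹ * s₀ * y) * n⁻¹ = s₀ := by
              have h5 := congrArg (· ^ e) he
              rw [h.pow_exp he1 he0 hc''C, conj_pow, inv_mul_cancel_right] at h5
              rw [show ((y : Γ)⁻¹ * s₀ * y) ^ e = (y : Γ)⁻¹ * s₀ * y by
                rw [show (y : Γ)⁻¹ * s₀ * y = (y : Γ)⁻¹ * s₀ * (y : Γ)⁻¹⁻¹ by rw [inv_inv], conj_pow,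
                  pow_piExp_of_left he1 (pow_orderOf_eq_one s₀)]] at h5
              exact h5
            have hz : (y : Γ) * n⁻¹ ∈ C := by
              refine (h.memC _).mpr ⟨G.mul_mem y.2 (inv_mem hn.1), ?_⟩
              show (y : Γ) * n⁻¹ * s₀ = s₀ * ((y : Γ) * n⁻¹)
              conv_lhs => rw [← h4]
              group
            refine ConjClasses.mk_eq_mk_iff_isConj.mpr (isConj_iff.mpr ⟨⟨_, hz⟩, Subtype.ext ?_⟩)
            show (y : Γ) * n⁻¹ * (c : Γ) * ((y : Γ) * n⁻¹)⁻¹ = (c' : Γ)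
            have hnc : n⁻¹ * (c : Γ) * n = c := by
              have h6 : Commute n (c : Γ) := Subgroup.mem_centralizer_singleton_iff.mp hn.2
              rw [h6.inv_left.eq, inv_mul_cancel_right]
            calc (y : Γ) * n⁻¹ * (c : Γ) * ((y : Γ) * n⁻¹)⁻¹ = (y : Γ) * (n⁻¹ * (c : Γ) * n) * (y : Γ)⁻¹ := by group
              _ = (c' : Γ) := by rw [hnc, hy']
      intro β
      obtain ⟨χ, rfl⟩ := hsurj β
      exact ⟨χ.1, χh χ, ε₀ χ, (isInv_conjAct_iff G S hnorm _).mp χ.2, hχh χ,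
        hcard ▸ h.coprime_of_canon (hcan χ), hε₀ χ, hval χ⟩

end Cfsg.Agent.S4446
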