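import Cfsg.Statements.S4447
import Mathlib
import Cfsg.Agent.Lib.Blocks.InvariantOverSolvable
import Cfsg.Agent.Lib.Solv.Coprime3

set_option autoImplicit false
open Cfsg

namespace Cfsg.Agent.S4447

/-- Inside a finite group Γ let S normalise G and also normalise a normal subgroup N of G, with the order of S coprime to the index of N in G and S or G/N solvable. Then for every S-invariant irreducible character χ of G, the restriction of χ to N has an S-invariant irreducible constituent. -/
theorem result {Γ : Type*} [Group Γ] [Fintype Γ] (G S N : Subgroup Γ) [Fintype G] [Fintype N] (hnorm : ∀ s ∈ S, ∀ g ∈ G, s * g * s⁻¹ ∈ G) (hNG : N ≤ G) [hNn : (N.subgroupOf G).Normal] (hNS : ∀ s ∈ S, ∀ n ∈ N, s * n * s⁻¹ ∈ N) (hcop : (N.relIndex G).Coprime (Nat.card S)) (hsolv : Group.IsSolvable S ∨ Group.IsSolvable (G ⧸ N.subgroupOf G)) (χ : Cfsg.IrrCharacter G) (hinv : (∀ s ∈ S, ∀ g g' : G, (g' : Γ) = s * g * s⁻¹ → (χ : G → ℂ) g' = (χ : G → ℂ) g)) : ∃ θ : Cfsg.IrrCharacter N, Cfsg.classInner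 (fun n : N => (χ : G → ℂ) ⟨n, hNG n.2⟩) (θ : N → ℂ) ≠ 0 ∧ (∀ s ∈ S, ∀ g g' : N, (g' : Γ) = s * g * s⁻¹ → (θ : N → ℂ) g' = (θ : N → ℂ) g) := by
  open Cfsg.Lib.Blocks Cfsg.Lib.Characters in
  · classical
    set N' := N.subgroupOf G with hN'
    haveI := Fintype.ofFinite N'
    haveI := Fintype.ofFinite S
    let e := Subgroup.subgroupOfEquivOfLe hNG
    set φ := conjAct G S hnorm with hφ
    have hN : ∀ s, ∀ g ∈ N', φ s g ∈ N' := fun s g hg => hNS s s.2 _ hg
    have hχ : IsInv φ (χ : G → ℂ) := (isInv_conjAct_iff G S hnorm _).mpr hinv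
    set φN := resAct φ N' hN with hφN
    -- the constituents
    let X := {θ : Cfsg.IrrCharacter N' // Cfsg.classInner (fun x : N' => (χ : G → ℂ) x) (θ : N' → ℂ) ≠ 0}
    haveI : Nonempty X := by
      obtain ⟨θ, hθ, h⟩ := classInner_res_ne_zero (N := N') χ.2
      exact ⟨⟨⟨θ, hθ⟩, h⟩⟩
    let tG : G → X → X := fun g θ => ⟨⟨conjFn N' (θ.1 : N' → ℂ) g⁻¹, isIrrCharacter_conjFn θ.1.2 g⁻¹⟩, by
      rw [classInner_res_conjFn χ.2.isClassFunction]; exact θ.2⟩
    have hres : ∀ (s : S) (f : N' → ℂ), Cfsg.classInner (fun x : N' => (χ : G → ℂ) x) (fun x => f (φN s x))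
        = Cfsg.classInner (fun x : N' => (χ : G → ℂ) x) f := by
      intro s f
      rw [Cfsg.classInner, Cfsg.classInner]
      congr 1
      refine Fintype.sum_equiv (φN s).toEquiv _ _ fun x => ?_
      show _ = (χ : G → ℂ) (φ s x) * _
      rw [hχ]
      rfl
    let tS : S → X → X := fun s θ => ⟨⟨fun x => (θ.1 : N' → ℂ) (φN s⁻¹ x),
      isIrrCharacter_comp_surjective θ.1.2 (φN s⁻¹).toMonoidHom (φN s⁻¹).surjective⟩, by
      rw [hres s⁻¹ (θ.1 : N' → ℂ)]; exact θ.2⟩
    letI actG : MulAction G X :=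
      { smul := tG
        one_smul := fun θ => Subtype.ext (Subtype.ext (by show conjFn N' _ (1 : G)⁻¹ = _; rw [inv_one, conjFn_one]))
        mul_smul := fun g h θ => Subtype.ext (Subtype.ext (by
          show conjFn N' (θ.1 : N' → ℂ) (g * h)⁻¹ = conjFn N' (conjFn N' (θ.1 : N' → ℂ) h⁻¹) g⁻¹
          rw [conjFn_conjFn, mul_inv_rev])) }
    letI actS : MulAction S X :=
      { smul := tS
        one_smul := fun θ => Subtype.ext (Subtype.ext (funext fun x => by
          show (θ.1 : N' → ℂ) (φN (1 : S)⁻¹ x) = _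
          simp))
        mul_smul := fun s t θ => Subtype.ext (Subtype.ext (funext fun x => by
          show (θ.1 : N' → ℂ) (φN (s * t)⁻¹ x) = (θ.1 : N' → ℂ) (φN t⁻¹ (φN s⁻¹ x))
          rw [mul_inv_rev, map_mul]; rfl)) }
    have hker : N' ≤ (MulAction.toPermHom G X).ker := by
      intro n hn
      refine MonoidHom.mem_ker.mpr (Equiv.ext fun θ => Subtype.ext (Subtype.ext ?_))
      exact conjFn_mem θ.1.2.isClassFunction ⟨n⁻¹, inv_mem hn⟩
    set P := QuotientGroup.lift N' (MulAction.toPermHom G X) hker with hP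
    have hφq : ∀ s : S, N'.map (↑(φ s) : G →* G) = N' := by
      intro s
      refine le_antisymm ?_ fun g hg => ?_
      · rintro _ ⟨g, hg, rfl⟩
        exact hN s g hg
      · refine ⟨φ s⁻¹ g, hN s⁻¹ g hg, ?_⟩
        show φ s (φ s⁻¹ g) = g
        rw [← MulAut.mul_apply, ← map_mul, mul_inv_cancel, map_one]
        rfl
    let φq : S →* MulAut (G ⧸ N') :=
      { toFun := fun s => QuotientGroup.congr N' N' (φ s) (hφq s)
        map_one' := MulEquiv.ext fun q => QuotientGroup.induction_on q fun g => by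
          rw [QuotientGroup.congr_mk]
          show ((φ 1 g : G) : G ⧸ N') = _
          rw [map_one]
          rfl
        map_mul' := fun s t => MulEquiv.ext fun q => QuotientGroup.induction_on q fun g => by
          rw [MulAut.mul_apply, QuotientGroup.congr_mk, QuotientGroup.congr_mk, QuotientGroup.congr_mk]
          show ((φ (s * t) g : G) : G ⧸ N') = _
          rw [map_mul]
          rfl }
    let Q := SemidirectProduct (G ⧸ N') S φq
    haveI : Finite Q := Finite.of_equiv _ SemidirectProduct.equivProd.symm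
    let Φ : Q →* Equiv.Perm X := SemidirectProduct.lift P (MulAction.toPermHom S X) fun s => by
      refine MonoidHom.ext fun q => ?_
      refine QuotientGroup.induction_on q fun g => ?_
      show MulAction.toPermHom G X (φ s g) = MulAction.toPermHom S X s * MulAction.toPermHom G X g * (MulAction.toPermHom S X s)⁻¹
      rw [eq_mul_inv_iff_mul_eq]
      refine Equiv.ext fun θ => Subtype.ext (Subtype.ext (funext fun x => ?_))
      show (θ.1 : N' → ℂ) (φN s⁻¹ ⟨(φ s g)⁻¹ * x * (φ s g)⁻¹⁻¹, _⟩)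
        = (θ.1 : N' → ℂ) ⟨g⁻¹ * (φN s⁻¹ x : N') * g⁻¹⁻¹, _⟩
      refine congrArg _ (Subtype.ext ?_)
      show φ s⁻¹ ((φ s g)⁻¹ * x * (φ s g)⁻¹⁻¹) = g⁻¹ * φ s⁻¹ x * g⁻¹⁻¹
      have : φ s⁻¹ (φ s g) = g := by rw [← MulAut.mul_apply, ← map_mul, inv_mul_cancel, map_one]; rfl
      simp only [map_mul, map_inv] at this ⊢
      rw [this]
    letI actQ : MulAction Q X := MulAction.compHom X Φ
    set K := (SemidirectProduct.inl : G ⧸ N' →* Q).range with hK
    set H := (SemidirectProduct.inr : S →* Q).range with hH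
    have hKn : K.Normal := by
      rw [hK, SemidirectProduct.range_inl_eq_ker_rightHom]
      infer_instance
    have hcK : Nat.card K = N.relIndex G :=
      (Nat.card_congr (MonoidHom.ofInjective SemidirectProduct.inl_injective).toEquiv).symm
    have hcH : Nat.card H = Nat.card S :=
      (Nat.card_congr (MonoidHom.ofInjective SemidirectProduct.inr_injective).toEquiv).symm
    have hcard : Nat.card Q = Nat.card K * Nat.card H := by
      rw [hcH, hcK, SemidirectProduct.card]
      rfl
    have hcompl : Subgroup.IsComplement' K H :=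
      Subgroup.isComplement'_of_coprime hcard.symm (by rw [hcK, hcH]; exact hcop)
    have hidx : K.index = Nat.card S := by rw [hcompl.symm.index_eq_card, hcH]
    have htrans : MulAction.IsPretransitive K X := by
      refine ⟨fun a b => ?_⟩
      obtain ⟨g, hg⟩ := exists_conjFn_eq χ.2 a.1.2 b.1.2 a.2 b.2
      refine ⟨⟨SemidirectProduct.inl (g⁻¹ : G), ⟨_, rfl⟩⟩, ?_⟩
      show Φ (SemidirectProduct.inl ((g⁻¹ : G) : G ⧸ N')) a = b
      rw [SemidirectProduct.lift_inl]
      refine Subtype.ext (Subtype.ext ?_)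
      show conjFn N' (a.1 : N' → ℂ) g⁻¹⁻¹ = _
      rw [inv_inv, hg]
    obtain ⟨⟨θ, hθfix⟩, -⟩ := Cfsg.Lib.Solv.coprime_action_fixed_point (X := X) K H hcompl
      (by rw [hcK, hidx]; exact hcop)
      (hsolv.symm.imp (fun h => by
          haveI := h
          exact Group.isSolvable_of_surjective (f := (SemidirectProduct.inl : G ⧸ N' →* Q).rangeRestrict)
            (MonoidHom.rangeRestrict_surjective _))
        fun h => by
          haveI := h
          exact Group.isSolvable_of_surjective (f := (SemidirectProduct.inr : S →* Q).rangeRestrict)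
            (MonoidHom.rangeRestrict_surjective _))
      htrans
    refine ⟨⟨fun n => (θ.1 : N' → ℂ) (e.symm n),
      isIrrCharacter_comp_surjective θ.1.2 e.symm.toMonoidHom e.symm.surjective⟩, fun h0 => θ.2 ?_, ?_⟩
    · refine Eq.trans ?_ h0
      exact classInner_comp_equiv e.symm (fun x : N' => (χ : G → ℂ) x) (θ.1 : N' → ℂ) |>.symm
    · intro s hs g g' hg
      have h := hθfix (SemidirectProduct.inr (⟨s, hs⟩⁻¹ : S)) ⟨_, rfl⟩
      change Φ (SemidirectProduct.inr (⟨s, hs⟩⁻¹ : S)) θ = θ at h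
      rw [SemidirectProduct.lift_inr] at h
      have h2 := congrFun (congrArg (fun z : X => (z.1 : N' → ℂ)) h) (e.symm g)
      change (θ.1 : N' → ℂ) (φN (⟨s, hs⟩⁻¹ : S)⁻¹ (e.symm g)) = _ at h2
      rw [inv_inv] at h2
      refine Eq.trans ?_ h2
      exact congrArg _ (Subtype.ext (Subtype.ext hg))

end Cfsg.Agent.S4447
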