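import Cfsg.Statements.S4448
import Mathlib
import Cfsg.Agent.Lib.Blocks.InvariantOverSolvable

set_option autoImplicit false
open Cfsg

namespace Cfsg.Agent.S4448

/-- Inside a finite group Γ let S normalise G and also normalise a normal subgroup N of G, with the order of S coprime to the index of N in G and G/N solvable. Then for every S-invariant irreducible character ϑ of N, the induced character ϑ^G has an S-invariant irreducible constituent. -/
theorem result {Γ : Type*} [Group Γ] [Fintype Γ] (G S N : Subgroup Γ) [Fintype G] [Fintype N] (hnorm : ∀ s ∈ S, ∀ g ∈ G, s * g * s⁻¹ ∈ G) (hNG : N ≤ G) [hNn : (N.subgroupOf G).Normal] (hNS : ∀ s ∈ S, ∀ n ∈ N, s * n * s⁻¹ ∈ N) (hcop : (N.relIndex G).Coprime (Nat.card S)) (hsolv : Group.IsSolvable (G ⧸ N.subgroupOf G)) (θ : Cfsg.IrrCharacter N) (hinv : (∀ s ∈ S, ∀ g g' : N, (g' : Γ) = s * g * s⁻¹ → (θ : N → ℂ) g' = (θ : N → ℂ) g)) : ∃ χ : Cfsg.IrrCharacter G, Cfsg.classInner (fun n :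 N => (χ : G → ℂ) ⟨n, hNG n.2⟩) (θ : N → ℂ) ≠ 0 ∧ (∀ s ∈ S, ∀ g g' : G, (g' : Γ) = s * g * s⁻¹ → (χ : G → ℂ) g' = (χ : G → ℂ) g) := by
  open Cfsg.Lib.Blocks Cfsg.Lib.Characters in
  · classical
    set N' := N.subgroupOf G with hN'
    haveI := Fintype.ofFinite N'
    haveI := Fintype.ofFinite S
    let e := Subgroup.subgroupOfEquivOfLe hNG
    let θ' : Cfsg.IrrCharacter N' := ⟨fun x => (θ : N → ℂ) (e x),
      isIrrCharacter_comp_surjective θ.2 e.toMonoidHom e.surjective⟩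
    have hN : ∀ s, ∀ g ∈ N', conjAct G S hnorm s g ∈ N' := fun s g hg => hNS s s.2 _ hg
    obtain ⟨χ, hχ, hχθ⟩ := exists_invariant_over_of_solvable _ G S (conjAct G S hnorm) N' hN θ' rfl hsolv hcop
      fun s x => hinv s s.2 (e x) _ rfl
    refine ⟨χ, fun h0 => hχθ ?_, (isInv_conjAct_iff G S hnorm _).mp hχ⟩
    rw [← h0]
    exact classInner_comp_equiv e (fun n : N => (χ : G → ℂ) ⟨n, hNG n.2⟩) (θ : N → ℂ)

end Cfsg.Agent.S4448
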