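import Cfsg.Statements.S4449
import Mathlib
import Cfsg.Agent.Lib.Blocks.InvariantOver

set_option autoImplicit false
open Cfsg

namespace Cfsg.Agent.S4449

/-- Inside a finite group Γ let the solvable subgroup S normalise G with the orders of G and S coprime, and let N be a normal subgroup of G normalised by S. Then for every S-invariant irreducible character ϑ of N, the induced character ϑ^G has an S-invariant irreducible constituent. -/
theorem result {Γ : Type*} [Group Γ] [Fintype Γ] (G S N : Subgroup Γ) [Fintype G] [Fintype N] (hnorm : ∀ s ∈ S, ∀ g ∈ G, s * g * s⁻¹ ∈ G) (hNG : N ≤ G) (hNnormal : ∀ g ∈ G, ∀ n ∈ N, g * n * g⁻¹ ∈ N) (hNS : ∀ s ∈ S, ∀ n ∈ N, s * n * s⁻¹ ∈ N) (hcop : (Nat.card G).Coprime (Nat.card S)) (hsolv : Group.IsSolvable S) (θ : Cfsg.IrrCharacter N) (hinv : (∀ s ∈ S, ∀ g g' : N, (g' : Γ) = s * g * s⁻¹ → (θ : N → ℂ) g' = (θ : N → ℂ) g)) : ∃ χ : Cfsg.IrrCharacter G, Cfsg.classInner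 (fun n : N => (χ : G → ℂ) ⟨n, hNG n.2⟩) (θ : N → ℂ) ≠ 0 ∧ (∀ s ∈ S, ∀ g g' : G, (g' : Γ) = s * g * s⁻¹ → (χ : G → ℂ) g' = (χ : G → ℂ) g) := by
  classical
  open Cfsg.Lib.Blocks in
  · let e := Subgroup.subgroupOfEquivOfLe hNG
    haveI : (N.subgroupOf G).Normal := ⟨fun n hn g => hNnormal g g.2 n hn⟩
    let θ' : Cfsg.IrrCharacter (N.subgroupOf G) :=
      ⟨fun x => (θ : N → ℂ) (e x), Cfsg.Lib.Characters.isIrrCharacter_mulEquiv θ.2 e⟩
    have hN' : ∀ s : S, ∀ g ∈ N.subgroupOf G, conjAct G S hnorm s g ∈ N.subgroupOf G :=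
      fun s g hg => hNS s s.2 g hg
    obtain ⟨χ, hχinv, hχ⟩ := exists_invariant_over _ G S (conjAct G S hnorm) (N.subgroupOf G) hN' θ' rfl hsolv hcop
      (fun s x => hinv s s.2 (e x) (e (resAct (conjAct G S hnorm) (N.subgroupOf G) hN' s x)) rfl)
    refine ⟨χ, fun h0 => hχ ?_, (isInv_conjAct_iff G S hnorm _).mp hχinv⟩
    rw [← h0, ← Cfsg.Lib.Characters.classInner_comp_equiv e (fun n : N => (χ : G → ℂ) ⟨n, hNG n.2⟩) (θ : N → ℂ)]
    rfl

end Cfsg.Agent.S4449
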