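import Cfsg.Statements.S4450
import Mathlib
import Cfsg.Agent.Lib.Blocks.CentralInvariant
import Cfsg.Agent.Lib.Characters.Gallagher

set_option autoImplicit false
open Cfsg

namespace Cfsg.Agent.S4450

/-- Let N ≤ G be normal subgroups of the finite group Γ with the index of G in Γ coprime to the index of N in G, and Γ/G or G/N solvable. Then for every irreducible character ϑ of N invariant under conjugation by Γ, the induced character ϑ^G has an irreducible constituent invariant under conjugation by Γ. -/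
theorem result {Γ : Type*} [Group Γ] [Fintype Γ] (G N : Subgroup Γ) [hG : G.Normal] [hN : N.Normal] [Fintype G] [Fintype N] (hNG : N ≤ G) (hcop : (G.index).Coprime (N.relIndex G)) (hsolv : Group.IsSolvable (Γ ⧸ G) ∨ Group.IsSolvable (G ⧸ N.subgroupOf G)) (θ : Cfsg.IrrCharacter N) (hinv : ∀ (x : Γ) (n : N), (θ : N → ℂ) ⟨x * n * x⁻¹, hN.conj_mem n n.2 x⟩ = (θ : N → ℂ) n) : ∃ χ : Cfsg.IrrCharacter G, Cfsg.classInner (fun n : N => (χ : G → ℂ) ⟨n, hNG n.2⟩) (θ : N → ℂ) ≠ 0 ∧ ∀ (x : Γ) (g : G), (χ : G → ℂ) ⟨x * g * x⁻¹, hG.conj_mem g g.2 x⟩ = (χ : G → ℂ) g := by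
  open Cfsg.Lib.Blocks Cfsg.Lib.Characters in
  · classical
    obtain ⟨E, _, _, π, ι, χV, hπ, hZ, hNE, hπι, hχV, hχVι⟩ := exists_cover θ.2
      (fun x => funext fun n => hinv x n)
    haveI := Fintype.ofFinite E
    set NE := ι.range with hNEdef
    haveI := hNE
    set GE := G.comap π with hGE
    haveI := Fintype.ofFinite GE
    set q := QuotientGroup.mk' NE with hq
    set A := GE.map q with hA
    haveI hAn : A.Normal := (inferInstance : GE.Normal).map q (QuotientGroup.mk'_surjective NE)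
    haveI := Fintype.ofFinite A
    set mN := QuotientGroup.mk' N with hmN
    let πb : E ⧸ NE →* Γ ⧸ N := QuotientGroup.lift NE (mN.comp π) (by
      rintro _ ⟨n, rfl⟩
      show mN (π (ι n)) = 1
      rw [hπι]
      exact (QuotientGroup.eq_one_iff _).mpr n.2)
    have hπb : Function.Surjective πb := by
      intro y
      obtain ⟨x, rfl⟩ := QuotientGroup.mk_surjective y
      obtain ⟨e, rfl⟩ := hπ x
      exact ⟨(e : E ⧸ NE), rfl⟩
    set Zb := π.ker.map q with hZb
    have hkerb : πb.ker ≤ Zb := by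
      intro x hx
      obtain ⟨e, rfl⟩ := QuotientGroup.mk_surjective x
      have hN' : π e ∈ N := (QuotientGroup.eq_one_iff _).mp hx
      refine ⟨e * (ι ⟨π e, hN'⟩)⁻¹, ?_, ?_⟩
      · show π (e * (ι ⟨π e, hN'⟩)⁻¹) = 1
        rw [map_mul, map_inv, hπι, mul_inv_cancel]
      · show ((e * (ι ⟨π e, hN'⟩)⁻¹ : E) : E ⧸ NE) = (e : E ⧸ NE)
        exact QuotientGroup.mk_mul_of_mem e (inv_mem ⟨_, rfl⟩)
    have hZbc : Zb ≤ Subgroup.center (E ⧸ NE) := by
      rintro _ ⟨z, hz, rfl⟩
      refine Subgroup.mem_center_iff.mpr fun y => ?_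
      obtain ⟨e, rfl⟩ := QuotientGroup.mk_surjective y
      show ((e * z : E) : E ⧸ NE) = ((z * e : E) : E ⧸ NE)
      rw [Subgroup.mem_center_iff.mp (hZ hz) e]
    have hbk : Zb ≤ πb.ker := by
      rintro _ ⟨z, hz, rfl⟩
      show mN (π z) = 1
      rw [MonoidHom.mem_ker.mp hz, map_one]
    have hZA : Zb ≤ A := by
      rintro _ ⟨z, hz, rfl⟩
      exact ⟨z, by show π z ∈ G; rw [MonoidHom.mem_ker.mp hz]; exact one_mem G, rfl⟩
    set ZA := Zb.subgroupOf A with hZAdef
    have hZAc : ZA ≤ Subgroup.center A := fun z hz => Subgroup.mem_center_iff.mpr fun y =>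
      Subtype.ext (Subgroup.mem_center_iff.mp (hZbc hz) y)
    haveI hZAn : ZA.Normal := ⟨fun z hz g => by
      rw [(Subgroup.mem_center_iff.mp (hZAc hz) g), mul_inv_cancel_right]; exact hz⟩
    -- the image in `Γ / N`
    set Gb := G.map mN with hGb
    haveI hGbn : Gb.Normal := hG.map mN (QuotientGroup.mk'_surjective N)
    let r : G →* Gb := mN.subgroupMap G
    have hr : Function.Surjective r := MonoidHom.subgroupMap_surjective mN G
    have hrker : r.ker = N.subgroupOf G := by
      ext g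
      rw [MonoidHom.mem_ker, Subgroup.mem_subgroupOf, Subtype.ext_iff]
      exact QuotientGroup.eq_one_iff _
    have hcGb : Nat.card Gb = N.relIndex G := by
      rw [Subgroup.relIndex, ← hrker, Subgroup.index_ker, MonoidHom.range_eq_top.mpr hr, Subgroup.card_top]
    have hidxGb : Gb.index = G.index :=
      Subgroup.index_map_eq G (QuotientGroup.mk'_surjective N) (by rw [QuotientGroup.ker_mk']; exact hNG)
    obtain ⟨Hb, hHb⟩ := Subgroup.exists_right_complement'_of_coprime (N := Gb)
      (by rw [hcGb, hidxGb]; exact hcop.symm)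
    have hcHb : Nat.card Hb = G.index := by rw [← hidxGb]; exact hHb.symm.index_eq_card.symm
    have hAim : ∀ a : A, πb a ∈ Gb := by
      rintro ⟨_, e, he, rfl⟩
      exact ⟨π e, he, rfl⟩
    let rA : A →* Gb := (πb.comp A.subtype).codRestrict Gb hAim
    have hrA : Function.Surjective rA := by
      rintro ⟨_, g, hg, rfl⟩
      obtain ⟨e, rfl⟩ := hπ g
      exact ⟨⟨q e, ⟨e, hg, rfl⟩⟩, rfl⟩
    have hrAker : rA.ker = ZA := by
      ext a
      rw [MonoidHom.mem_ker, Subtype.ext_iff]
      exact ⟨fun h => hkerb h, fun h => hbk h⟩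
    have hidxZA : ZA.index = N.relIndex G := by
      rw [← hrAker, Subgroup.index_ker, MonoidHom.range_eq_top.mpr hrA, Subgroup.card_top, hcGb]
    -- the action
    let cA : E ⧸ NE →* MulAut A := MulAut.conjNormal
    have hcker : πb.ker ≤ cA.ker := by
      intro x hx
      refine MonoidHom.mem_ker.mpr (MulEquiv.ext fun a => Subtype.ext ?_)
      show x * (a : E ⧸ NE) * x⁻¹ = a
      rw [← Subgroup.mem_center_iff.mp (hZbc (hkerb hx)) a, mul_inv_cancel_right]
    let act : Γ ⧸ N →* MulAut A := πb.liftOfSurjective hπb ⟨cA, hcker⟩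
    have hact : ∀ x, act (πb x) = cA x := fun x =>
      MonoidHom.liftOfRightInverse_comp_apply πb _ _ ⟨cA, hcker⟩ x
    let φ : Hb →* MulAut A := act.comp Hb.subtype
    -- the central character
    choose ω hω hωmul using fun z : π.ker => exists_central_root ⟨χV, hχV⟩ (hZ z.2)
    have hω0 : ∀ z, ω z ≠ 0 := fun z h => by
      have := hω z
      rw [h, zero_pow (orderOf_pos (z : E)).ne'] at this
      exact zero_ne_one this
    have hV1 : χV 1 ≠ 0 := hχV.one_ne_zero
    let Ω : π.ker →* ℂˣ := MonoidHom.mk' (fun z => Units.mk0 (ω z) (hω0 z)) fun z w => Units.ext (by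
      show ω (z * w) = ω z * ω w
      have e1 : χV (((z * w : π.ker) : E) * 1) = ω (z * w) * χV 1 := hωmul _ _
      have e2 : χV ((z : E) * (w : E)) = ω z * χV (w : E) := hωmul _ _
      have e3 : χV ((w : E) * 1) = ω w * χV 1 := hωmul _ _
      rw [mul_one, Subgroup.coe_mul, e2] at e1
      rw [mul_one] at e3
      rw [e3, ← mul_assoc] at e1
      exact (mul_right_cancel₀ hV1 e1).symm)
    let toZA : π.ker →* ZA :=
      { toFun := fun z => ⟨⟨q z, hZA ⟨z, z.2, rfl⟩⟩, ⟨z, z.2, rfl⟩⟩
        map_one' := Subtype.ext (Subtype.ext (map_one q))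
        map_mul' := fun a b => Subtype.ext (Subtype.ext (map_mul q (a : E) b)) }
    have htoZA : Function.Bijective toZA := by
      refine ⟨(injective_iff_map_eq_one _).mpr fun z hz => ?_, fun z => ?_⟩
      · have h1 : (z : E) ∈ NE := (QuotientGroup.eq_one_iff _).mp (congrArg (fun y : ZA => ((y : A) : E ⧸ NE)) hz)
        obtain ⟨n, hn⟩ := h1
        have h2 : π (ι n) = 1 := by rw [hn]; exact z.2
        rw [hπι] at h2
        have : n = 1 := Subtype.ext h2
        rw [this, map_one] at hn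
        exact Subtype.ext hn.symm
      · obtain ⟨e, he, hez⟩ := z.2
        exact ⟨⟨e, he⟩, Subtype.ext (Subtype.ext hez)⟩
    let eZ := MulEquiv.ofBijective toZA htoZA
    let ζ : ZA →* ℂˣ := (Ω.comp eZ.symm.toMonoidHom)⁻¹
    have hζ : ∀ z : π.ker, (ζ (toZA z) : ℂ) = (ω z)⁻¹ := by
      intro z
      show (((Ω (eZ.symm (eZ z)))⁻¹ : ℂˣ) : ℂ) = _
      rw [MulEquiv.symm_apply_apply, Units.val_inv_eq_inv_val]
      rfl
    obtain ⟨β, hβ, hβz⟩ := exists_invariant_central φ ZA hZAc ζ
      (fun t z hz => by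
        obtain ⟨x, hx⟩ := hπb (t : Γ ⧸ N)
        show act (t : Γ ⧸ N) z = z
        rw [← hx, hact]
        refine Subtype.ext ?_
        show x * (z : E ⧸ NE) * x⁻¹ = z
        have hzx : x * (z : E ⧸ NE) = (z : E ⧸ NE) * x := Subgroup.mem_center_iff.mp (hZbc hz) x
        rw [hzx, mul_inv_cancel_right])
      (by rw [hidxZA, hcHb]; exact hcop.symm)
      (hsolv.imp (fun h => by
          haveI := h
          refine Group.isSolvable_of_isSolvable_injective
            (f := (QuotientGroup.map N G (MonoidHom.id Γ) hNG).comp Hb.subtype) ?_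
          rw [injective_iff_map_eq_one]
          rintro ⟨y, hy⟩ hy1
          obtain ⟨g, rfl⟩ := QuotientGroup.mk_surjective y
          have hg : g ∈ G := (QuotientGroup.eq_one_iff g).mp hy1
          have hmem : (g : Γ ⧸ N) ∈ Gb ⊓ Hb := ⟨⟨g, hg, rfl⟩, hy⟩
          rw [hHb.disjoint.eq_bot] at hmem
          exact Subtype.ext (Subgroup.mem_bot.mp hmem))
        fun h => by
          intro _
          haveI := h
          have e1 : A ⧸ ZA ≃* Gb :=
            (QuotientGroup.quotientMulEquivOfEq hrAker.symm).trans (QuotientGroup.quotientKerEquivOfSurjective rA hrA)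
          have e2 : G ⧸ N.subgroupOf G ≃* Gb :=
            (QuotientGroup.quotientMulEquivOfEq hrker.symm).trans (QuotientGroup.quotientKerEquivOfSurjective r hr)
          exact Group.isSolvable_of_surjective (f := (e2.trans e1.symm).toMonoidHom) (e2.trans e1.symm).surjective)
    -- `β` is invariant under all of `E`
    have hβE : ∀ (x : E ⧸ NE) (a : A), (β : A → ℂ) (MulAut.conjNormal x a) = (β : A → ℂ) a := by
      intro x a
      obtain ⟨⟨⟨y, hy⟩, t⟩, hyt⟩ := (Subgroup.isComplement'_def.mp hHb).2 (πb x)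
      obtain ⟨a₀, ha₀⟩ := hrA ⟨y, hy⟩
      have h1 : cA x = cA (a₀ : E ⧸ NE) * act (t : Γ ⧸ N) := by
        rw [← hact x, ← hact (a₀ : E ⧸ NE), ← map_mul, show πb (a₀ : E ⧸ NE) = y from congrArg Subtype.val ha₀]
        exact congrArg act hyt.symm
      show (β : A → ℂ) (cA x a) = _
      rw [h1, MulAut.mul_apply, ← hβ t a]
      show (β : A → ℂ) (cA (a₀ : E ⧸ NE) (φ t a)) = (β : A → ℂ) (φ t a)
      rw [← β.2.isClassFunction (φ t a) a₀]
      exact congrArg _ (Subtype.ext rfl)
    -- the product on `GE`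
    let qA : GE →* A := q.subgroupMap GE
    have hqA : Function.Surjective qA := MonoidHom.subgroupMap_surjective q GE
    set NG := NE.subgroupOf GE with hNGdef
    haveI := Fintype.ofFinite NG
    let βE : GE → ℂ := fun x => (β : A → ℂ) (qA x)
    have hβEirr : Cfsg.IsIrrCharacter GE βE := isIrrCharacter_comp_surjective β.2 qA hqA
    have hιG : ∀ n, ι n ∈ GE := fun n => by show π (ι n) ∈ G; rw [hπι]; exact hNG n.2
    let ιG : N →* NG :=
      { toFun := fun n => ⟨⟨ι n, hιG n⟩, ⟨n, rfl⟩⟩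
        map_one' := Subtype.ext (Subtype.ext (map_one ι))
        map_mul' := fun a b => Subtype.ext (Subtype.ext (map_mul ι a b)) }
    have hιGs : Function.Surjective ιG := by
      rintro ⟨⟨x, hx⟩, n, hn⟩
      exact ⟨n, Subtype.ext (Subtype.ext hn)⟩
    have hιGi : Function.Injective ιG := by
      intro a b h
      apply Subtype.ext
      rw [← hπι a, ← hπι b]
      exact congrArg π (congrArg (fun y : NG => ((y : GE) : E)) h)
    let eN := MulEquiv.ofBijective ιG ⟨hιGi, hιGs⟩
    have hθirr : Cfsg.IsIrrCharacter NG fun x : NG => χV ((x : GE) : E) := by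
      have := isIrrCharacter_comp_surjective θ.2 eN.symm.toMonoidHom eN.symm.surjective
      convert this using 1
      funext x
      show _ = (θ : N → ℂ) (eN.symm x)
      rw [← hχVι (eN.symm x)]
      congr 1
      exact congrArg (fun y : NG => ((y : GE) : E)) (eN.apply_symm_apply x).symm
    have hχGE : Cfsg.IsIrrCharacter GE fun x : GE => χV (x : E) :=
      isIrrCharacter_of_comp NG.subtype (isCharacter_restrict hχV.isCharacter GE) hθirr
    have hqN : ∀ x : NG, qA (x : GE) = 1 := fun x => Subtype.ext ((QuotientGroup.eq_one_iff _).mpr x.2)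
    obtain ⟨hprod, -⟩ := (gallagher (N := NG) (φ := fun _ => (1 : ℂ)) (θ := fun x : NG => χV ((x : GE) : E))
      isIrrCharacter_one (fun _ => rfl)
      (fun g => funext fun x => hχV.isClassFunction _ (g : E))
      (by rw [show ((fun _ => (1 : ℂ)) * fun x : NG => χV ((x : GE) : E)) = fun x : NG => χV ((x : GE) : E) from
        funext fun x => one_mul _]; exact hθirr)
      hχGE (fun _ => rfl)).1 βE hβEirr (by
        rw [classInner_indFun NG _ hβEirr.isClassFunction,
          show (fun x : NG => βE x) = (β : A → ℂ) 1 • fun _ : NG => (1 : ℂ) from funext fun x => by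
            show (β : A → ℂ) (qA x) = (β : A → ℂ) 1 * 1
            rw [hqN, mul_one],
          classInner_smul_right, classInner_irr_self isIrrCharacter_one, mul_one]
        exact (map_ne_zero _).mpr β.2.one_ne_zero)
    -- descend to `G`
    let pG : GE →* G := π.subgroupComap G
    have hpG : Function.Surjective pG := by
      intro g
      obtain ⟨e, he⟩ := hπ (g : Γ)
      exact ⟨⟨e, by show π e ∈ G; rw [he]; exact g.2⟩, Subtype.ext he⟩
    obtain ⟨F, hF⟩ := exists_descend_surjective hpG hprod (fun k hk => by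
      have hk' : (k : E) ∈ π.ker := congrArg Subtype.val hk
      show (β : A → ℂ) (qA k) * χV (k : E) = (β : A → ℂ) (qA 1) * χV ((1 : GE) : E)
      have e1 : qA k = ((toZA ⟨k, hk'⟩ : ZA) : A) * 1 := by rw [mul_one]; rfl
      have e2 : χV ((k : E) * 1) = ω ⟨k, hk'⟩ * χV 1 := hωmul ⟨k, hk'⟩ 1
      rw [mul_one] at e2
      rw [map_one, e1, hβz, hζ, e2, OneMemClass.coe_one]
      field_simp [hω0 ⟨k, hk'⟩])
    refine ⟨F, ?_, fun x g => ?_⟩
    · rw [show (fun n : N => (F : G → ℂ) ⟨n, hNG n.2⟩) = (β : A → ℂ) 1 • (θ : N → ℂ) from funext fun n => by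
        have h := hF ⟨ι n, hιG n⟩
        rw [show pG ⟨ι n, hιG n⟩ = ⟨n, hNG n.2⟩ from Subtype.ext (hπι n)] at h
        rw [h]
        show (β : A → ℂ) (qA _) * χV (ι n) = (β : A → ℂ) 1 * (θ : N → ℂ) n
        rw [hχVι, show qA ⟨ι n, hιG n⟩ = 1 from hqN (ιG n)],
        classInner_smul_left, classInner_irr_self θ.2, mul_one]
      exact β.2.one_ne_zero
    · obtain ⟨e, rfl⟩ := hπ x
      obtain ⟨a, rfl⟩ := hpG g
      have hmem : e * (a : E) * e⁻¹ ∈ GE := (inferInstance : GE.Normal).conj_mem _ a.2 e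
      rw [show (⟨π e * (pG a : Γ) * (π e)⁻¹, hG.conj_mem _ (pG a).2 (π e)⟩ : G) = pG ⟨_, hmem⟩ from
        Subtype.ext (by show _ = π (e * (a : E) * e⁻¹); rw [map_mul, map_mul, map_inv]; rfl), hF, hF]
      show (β : A → ℂ) (qA ⟨_, hmem⟩) * χV (e * (a : E) * e⁻¹) = (β : A → ℂ) (qA a) * χV (a : E)
      rw [hχV.isClassFunction, ← hβE (q e) (qA a)]
      rfl

end Cfsg.Agent.S4450
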