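import Cfsg.Statements.S4451
import Mathlib
import Cfsg.Agent.Lib.Blocks.GlaubermanCyclic
import Cfsg.Agent.Lib.Blocks.SignedCyclic
import Cfsg.Agent.Lib.Blocks.DefectZero

set_option autoImplicit false
open Cfsg

namespace Cfsg.Agent.S4451

/-- Let the finite group Γ be generated by a normal subgroup G and a cyclic subgroup S of coprime orders such that every non-identity element of S has the same centraliser C = G ⊓ C(S) in G. Let χ be an S-invariant irreducible character of G, χ̂ its canonical extension to Γ (determinantal order coprime to the order of S), and β the irreducible character of C with χ̂(c s) = ε₀ β(c) for c ∈ C and generators s of S (ε₀ = ±1). Then there are a sign ε = ±1, which may differ from ε₀, and a linear character μ of S with μ² = 1, such that: (a) χ̂(c x) = ε β(c) μ(x) for all c ∈ C and all x ∈ S other than 1; (b) the restriction of χ to C equals |S|·ϑ + ε β for some character ϑ of C or ϑ = 0; (c) |S| divides χ(1) − ε β(1). -/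
theorem result {Γ : Type*} [Group Γ] [Fintype Γ] (G S : Subgroup Γ) [Fintype G] (hnorm : ∀ s ∈ S, ∀ g ∈ G, s * g * s⁻¹ ∈ G) (hcop : (Nat.card G).Coprime (Nat.card S)) (htop : G ⊔ S = ⊤) (hcyc : IsCyclic S) (C : Subgroup Γ) [Fintype C] (hC : C = G ⊓ Subgroup.centralizer (S : Set Γ)) (hCG : C ≤ G) (hfpf : ∀ x ∈ S, x ≠ 1 → G ⊓ Subgroup.centralizer ({x} : Set Γ) = C) (χ : Cfsg.IrrCharacter G) (hinv : (∀ s ∈ S, ∀ g g' : G, (g' : Γ) = s * g * s⁻¹ → (χ : G → ℂ) g' = (χ : G → ℂ) g)) (χh : Cfsg.IrrCharacter Γ) (hext : (∀ g : G, (χh : Γ → ℂ) g = (χ : G → ℂ) g)) (hdet : (Cfsg.detOrder (χh : Γ → ℂ)).Coprime (Nat.card S)) (β : Cfsg.IrrCharacter C) (ε₀ : ℤ) (hε₀ : ε₀ = 1 ∨ ε₀ = -1) (hβ : ∀ c : C, ∀ s : Γ, Subgroup.zpowers s = S → (χh : Γ → ℂ) ((c : Γ) * s) = (ε₀ : ℂ) * (β : C → ℂ) c) : ∃ ε : ℤ, (ε = 1 ∨ ε = -1) ∧ (∃ μ : S → ℂ, Cfsg.IsCharacter S μ ∧ μ 1 = 1 ∧ (∀ x : S, μ x * μ x = 1) ∧ ∀ c : C, ∀ x : S, x ≠ 1 → (χh : Γ → ℂ) ((c : Γ) * x) = (ε : ℂ) * (β : C → ℂ) c * μ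 x) ∧ (∃ ϑ : C → ℂ, Cfsg.IsCharacter C ϑ ∧ (fun c : C => (χ : G → ℂ) ⟨c, hCG c.2⟩) = fun c => (Nat.card S : ℂ) * ϑ c + (ε : ℂ) * (β : C → ℂ) c) ∧ (Nat.card S : ℤ) ∣ (Cfsg.charDegree (χ : G → ℂ) : ℤ) - ε * (Cfsg.charDegree (β : C → ℂ) : ℤ) := by
  open Cfsg.Lib.GlaubermanCyclic Cfsg.Lib.Characters Cfsg.Lib.Blocks Cfsg.Lib.SignedCyclic in
  open scoped ComplexConjugate in
  · classical
    haveI := Fintype.ofFinite S
    haveI : IsCyclic S := hcyc
    haveI : IsMulCommutative S := IsCyclic.isMulCommutative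
    obtain ⟨s₀, hs₀'⟩ := (Subgroup.isCyclic_iff_exists_zpowers_eq_top (H := S)).mp hcyc
    have hs₀ : Subgroup.zpowers s₀ = S := hs₀'
    have hs₀S : s₀ ∈ S := hs₀ ▸ Subgroup.mem_zpowers s₀
    by_cases hS1 : Nat.card S = 1
    · have hSbot : S = ⊥ := Subgroup.card_eq_one.mp hS1
      have hgen : Subgroup.zpowers (1 : Γ) = S := by rw [Subgroup.zpowers_one_eq_bot, hSbot]
      have hv : ∀ c : C, (χ : G → ℂ) ⟨c, hCG c.2⟩ = (ε₀ : ℂ) * (β : C → ℂ) c := fun c => by
        rw [← hext ⟨c, hCG c.2⟩]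
        have := hβ c 1 hgen
        rwa [mul_one] at this
      refine ⟨ε₀, hε₀, ⟨fun _ => 1, isCharacter_one, rfl, fun _ => one_mul _, fun c x hx => ?_⟩, ?_, ?_⟩
      · exact absurd (Subtype.ext (Subgroup.mem_bot.mp (by rw [← hSbot]; exact x.2))) hx
      · refine ⟨0, isCharacter_zero, funext fun c => ?_⟩
        rw [hv c, Pi.zero_apply, mul_zero, zero_add]
      · rw [hS1, Nat.cast_one]
        exact one_dvd _
    have hS2 : 1 < Nat.card S := by
      have := Nat.card_pos (α := S)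
      omega
    have hcard : orderOf s₀ = Nat.card S := by rw [← Nat.card_zpowers, hs₀]
    haveI hGn : G.Normal := by
      refine Subgroup.normalizer_eq_top_iff.mp (top_le_iff.mp ?_)
      rw [← htop]
      refine sup_le Subgroup.le_normalizer fun t ht => Subgroup.mem_normalizer_iff.mpr fun g => ⟨hnorm t ht g, fun hg => ?_⟩
      have := hnorm t⁻¹ (inv_mem ht) _ hg
      simpa [mul_assoc] using this
    have hcomm : ∀ c ∈ C, ∀ x ∈ S, Commute c x := fun c hc x hx =>
      (Subgroup.mem_centralizer_iff.mp ((hC ▸ hc : c ∈ G ⊓ Subgroup.centralizer (S : Set Γ))).2 x hx).symm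
    have h : Setup G C s₀ := by
      refine ⟨by rwa [hcard], by rw [hs₀, htop], fun c => ?_⟩
      refine ⟨fun hc => ⟨hCG hc, hcomm c hc s₀ hs₀S⟩, fun hc => ?_⟩
      rw [hC, Subgroup.mem_inf, Subgroup.mem_centralizer_iff]
      refine ⟨hc.1, fun t ht => ?_⟩
      obtain ⟨i, rfl⟩ := Subgroup.mem_zpowers_iff.mp (hs₀.symm ▸ ht : t ∈ Subgroup.zpowers s₀)
      exact ((hc.2.symm).zpow_left i).eq
    have hcan : h.Canon (χh : Γ → ℂ) := h.canon_of_coprime χh.2.isCharacter (hcard.symm ▸ hdet)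
    -- values on `C x`
    have hpm : ∀ x : S, x ≠ 1 → ∃ β' : Cfsg.IrrCharacter C, ∃ δ : ℤ, (δ = 1 ∨ δ = -1) ∧
        ∀ c : C, (χh : Γ → ℂ) ((c : Γ) * x) = (δ : ℂ) * (β' : C → ℂ) c := by
      intro x hx
      set K : Subgroup Γ := G ⊔ Subgroup.zpowers (x : Γ) with hK
      haveI := Fintype.ofFinite K
      have hGK : G ≤ K := le_sup_left
      have hCK : C ≤ K := hCG.trans hGK
      have hxK : (x : Γ) ∈ K := (le_sup_right : Subgroup.zpowers (x : Γ) ≤ K) (Subgroup.mem_zpowers _)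
      haveI := Fintype.ofFinite (G.subgroupOf K)
      haveI := Fintype.ofFinite (C.subgroupOf K)
      have hcardG : Nat.card (G.subgroupOf K) = Nat.card G := Nat.card_congr (Subgroup.subgroupOfEquivOfLe hGK).toEquiv
      have hx1 : (x : Γ) ≠ 1 := fun e => hx (Subtype.ext e)
      have hox : orderOf (⟨x, hxK⟩ : K) = orderOf (x : Γ) := Subgroup.orderOf_mk _ _
      have hset : Setup (G.subgroupOf K) (C.subgroupOf K) (⟨x, hxK⟩ : K) := by
        refine ⟨?_, ?_, fun c => ?_⟩
        · rw [hcardG, hox]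
          exact hcop.coprime_dvd_right (Subgroup.orderOf_dvd_natCard S x.2)
        · apply Subgroup.map_injective (Subgroup.subtype_injective K)
          rw [Subgroup.map_sup, MonoidHom.map_zpowers, ← MonoidHom.range_eq_map, Subgroup.range_subtype,
            Subgroup.map_subgroupOf_eq_of_le hGK]
          rfl
        · rw [Subgroup.mem_subgroupOf, Subgroup.mem_subgroupOf, ← hfpf x x.2 hx1, Subgroup.mem_inf,
            Subgroup.mem_centralizer_singleton_iff]
          refine and_congr_right fun _ => ?_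
          exact ⟨fun e => Subtype.ext e, fun e => congrArg Subtype.val e⟩
      haveI : (G.subgroupOf K).Normal := inferInstance
      set χK : K → ℂ := fun y => (χh : Γ → ℂ) (y : Γ) with hχK
      have hresK : Cfsg.IsIrrCharacter (G.subgroupOf K) fun g => χK (g : K) := by
        have := isIrrCharacter_comp_surjective χ.2 (Subgroup.subgroupOfEquivOfLe hGK).toMonoidHom
          (Subgroup.subgroupOfEquivOfLe hGK).surjective
        convert this using 1
        funext g
        exact hext (Subgroup.subgroupOfEquivOfLe hGK g)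
      have hirrK : Cfsg.IsIrrCharacter K χK := by
        exact isIrrCharacter_of_comp (G.subgroupOf K).subtype (isCharacter_restrict χh.2.isCharacter K) hresK
      have hcanK : hset.Canon χK := by
        intro y
        rw [hcardG, show detChar χK y = detChar (χh : Γ → ℂ) (y : Γ) from
          detChar_comp χh.2.isCharacter K.subtype y]
        exact hcan _
      obtain ⟨b, δ, hδ, hval, -⟩ := hset.exists_pm hirrK hresK hcanK
      refine ⟨⟨_, isIrrCharacter_comp_surjective b.2 (Subgroup.subgroupOfEquivOfLe hCK).symm.toMonoidHom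
        (Subgroup.subgroupOfEquivOfLe hCK).symm.surjective⟩, δ, hδ, fun c => ?_⟩
      exact hval ((Subgroup.subgroupOfEquivOfLe hCK).symm c)
    -- the characters of `S`
    let Φ : C × S →* Γ :=
      { toFun := fun z => (z.1 : Γ) * (z.2 : Γ)
        map_one' := by simp
        map_mul' := fun z w => by
          simp only [Prod.fst_mul, Prod.snd_mul, Subgroup.coe_mul]
          exact (hcomm _ w.1.2 _ z.2.2).mul_mul_mul_comm _ _ }
    let ψ : Cfsg.IrrCharacter C → S → ℂ := fun γ x =>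
      Cfsg.classInner (fun c : C => (χh : Γ → ℂ) ((c : Γ) * x)) (γ : C → ℂ)
    have hψ : ∀ γ, Cfsg.IsCharacter S (ψ γ) := by
      intro γ
      have hcls : Cfsg.IsClassFunction S (ψ γ) := fun x y => by rw [mul_comm' y, mul_inv_cancel_right]
      choose N hN using fun ν : Cfsg.IrrCharacter S =>
        classInner_nat (isCharacter_comp χh.2.isCharacter Φ)
          (isCharacter_mul (isCharacter_comp γ.2.isCharacter (MonoidHom.fst C S))
            (isCharacter_comp ν.2.isCharacter (MonoidHom.snd C S)))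
      refine isCharacter_iff.mpr ⟨N, (classFunction_expansion hcls).trans ?_⟩
      refine Finset.sum_congr rfl fun ν _ => ?_
      rw [← hN ν]
      congr 1
      simp only [ψ, Cfsg.classInner, Nat.card_prod, Nat.cast_mul, mul_inv, Fintype.sum_prod_type]
      rw [Finset.sum_comm (γ := C)]
      simp only [Finset.mul_sum, Finset.sum_mul]
      refine Finset.sum_congr rfl fun x _ => Finset.sum_congr rfl fun c _ => ?_
      simp only [Pi.mul_apply, map_mul, MonoidHom.coe_fst, MonoidHom.coe_snd]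
      show _ = _ * ((χh : Γ → ℂ) ((c : Γ) * x) * _)
      ring
    have hcls : ∀ x : S, Cfsg.IsClassFunction C fun c : C => (χh : Γ → ℂ) ((c : Γ) * x) := by
      intro x c y
      show (χh : Γ → ℂ) (((y * c * y⁻¹ : C) : Γ) * x) = (χh : Γ → ℂ) ((c : Γ) * x)
      rw [← χh.2.isClassFunction ((c : Γ) * x) (y : Γ)]
      congr 1
      have hyx : (x : Γ) * (y : Γ)⁻¹ = (y : Γ)⁻¹ * x := (hcomm _ y.2 _ x.2).inv_left.eq.symm
      push_cast
      simp only [mul_assoc, hyx]
    have hexp : ∀ (x : S) (c : C), (χh : Γ → ℂ) ((c : Γ) * x)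
        = ∑ γ : Cfsg.IrrCharacter C, ψ γ x * (γ : C → ℂ) c := by
      intro x c
      have := congrFun (classFunction_expansion (hcls x)) c
      simpa [Finset.sum_apply] using this
    -- integral values
    have hint : ∀ γ (x : S), x ≠ 1 → ∃ z : ℤ, ψ γ x = z ∧ (z = 0 ∨ z = 1 ∨ z = -1) := by
      intro γ x hx
      obtain ⟨b, δ, hδ, hv⟩ := hpm x hx
      refine ⟨if b = γ then δ else 0, ?_, by split_ifs <;> tauto⟩
      show Cfsg.classInner _ _ = _
      rw [show (fun c : C => (χh : Γ → ℂ) ((c : Γ) * x)) = (δ : ℂ) • (b : C → ℂ) from funext hv,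
        classInner_smul_left, classInner_irr b.2 γ.2]
      simp only [Subtype.coe_inj]
      split_ifs <;> simp
    choose! a ha hsmall using hint
    set g₀ : S := ⟨s₀, hs₀S⟩ with hg₀def
    have hg₀ : ∀ x : S, x ∈ Subgroup.zpowers g₀ := by
      intro x
      obtain ⟨i, hi⟩ := Subgroup.mem_zpowers_iff.mp (hs₀.symm ▸ x.2 : (x : Γ) ∈ Subgroup.zpowers s₀)
      exact Subgroup.mem_zpowers_iff.mpr ⟨i, Subtype.ext (by rw [SubgroupClass.coe_zpow]; exact hi)⟩
    have hg₀1 : g₀ ≠ 1 := by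
      intro e
      have : s₀ = 1 := congrArg Subtype.val e
      rw [this, orderOf_one] at hcard
      omega
    have hgenval : ∀ γ, ψ γ g₀ = if β = γ then (ε₀ : ℂ) else 0 := by
      intro γ
      show Cfsg.classInner _ _ = _
      rw [show (fun c : C => (χh : Γ → ℂ) ((c : Γ) * g₀)) = (ε₀ : ℂ) • (β : C → ℂ) from
          funext fun c => hβ c s₀ hs₀,
        classInner_smul_left, classInner_irr β.2 γ.2]
      simp only [Subtype.coe_inj]
      split_ifs <;> simp
    have hzero : ∀ γ, γ ≠ β → ∀ x : S, x ≠ 1 → ψ γ x = 0 := by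
      intro γ hγ x hx
      rw [ha γ x hx, (eq_zero_iff_generator (hψ γ) (a γ) (ha γ) (hsmall γ) hg₀ hx).mpr ?_, Int.cast_zero]
      apply Int.cast_injective (α := ℂ)
      rw [← ha γ g₀ hg₀1, hgenval, if_neg hγ.symm, Int.cast_zero]
    have hnz : ∀ x : S, x ≠ 1 → a β x = 1 ∨ a β x = -1 := by
      intro x hx
      refine (hsmall β x hx).resolve_left fun h0 => ?_
      have := (eq_zero_iff_generator (hψ β) (a β) (ha β) (hsmall β) hg₀ hx).mp h0
      have h2 := ha β g₀ hg₀1
      rw [hgenval, if_pos rfl, this, Int.cast_zero, Int.cast_eq_zero] at h2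
      omega
    obtain ⟨ε, μ, k, hε, hk, hμ, hμ1, hμsq⟩ := exists_sign_linear (hψ β) hS2 (a β) (ha β) hnz
    choose! kk hkk using fun γ (hγ : γ ≠ β) => card_dvd_of_vanish (hψ γ) (hzero γ hγ)
    let ϑ : C → ℂ := ∑ γ : Cfsg.IrrCharacter C, ((if γ = β then k else kk γ : ℕ) : ℂ) • (γ : C → ℂ)
    have hres : ∀ c : C, (χ : G → ℂ) ⟨c, hCG c.2⟩ = (Nat.card S : ℂ) * ϑ c + (ε : ℂ) * (β : C → ℂ) c := by
      intro c
      rw [← hext ⟨c, hCG c.2⟩, show ((⟨c, hCG c.2⟩ : G) : Γ) = (c : Γ) * ((1 : S) : Γ) by simp, hexp]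
      simp only [ϑ, Finset.sum_apply, Pi.smul_apply, smul_eq_mul, Finset.mul_sum]
      rw [← Finset.add_sum_erase _ _ (Finset.mem_univ β), ← Finset.add_sum_erase _ _ (Finset.mem_univ β),
        if_pos rfl, hk, add_mul, add_right_comm]
      congr 1
      · congr 1
        · ring
        · refine Finset.sum_congr rfl fun γ hγ => ?_
          have hne := (Finset.mem_erase.mp hγ).1
          rw [hkk γ hne, if_neg hne]
          ring
    have hϑ : Cfsg.IsCharacter C ϑ := isCharacter_sum_irr _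
    refine ⟨ε, hε, ⟨(μ : S → ℂ), μ.2.isCharacter, hμ1, hμsq, fun c x hx => ?_⟩, ⟨ϑ, hϑ, funext hres⟩, ?_⟩
    · rw [hexp, Finset.sum_eq_single β (fun γ _ hγ => by rw [hzero γ hγ x hx, zero_mul]) (by simp),
        hμ x hx]
      ring
    · obtain ⟨d, hd⟩ := exists_degree hϑ
      obtain ⟨dχ, hdχ⟩ := exists_degree χ.2.isCharacter
      obtain ⟨dβ, hdβ⟩ := exists_degree β.2.isCharacter
      rw [charDegree_eq hdχ, charDegree_eq hdβ]
      refine ⟨d, ?_⟩
      have h1 := hres 1
      rw [show (⟨((1 : C) : Γ), hCG (1 : C).2⟩ : G) = 1 from rfl, hdχ, hd, hdβ] at h1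
      apply Int.cast_injective (α := ℂ)
      push_cast
      linear_combination h1

end Cfsg.Agent.S4451
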