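import Cfsg.Statements.S4452
import Mathlib
import Cfsg.Agent.Lib.Blocks.CoprimeDegree

set_option autoImplicit false
open Cfsg

namespace Cfsg.Agent.S4452

/-- Let the finite group G be the product of a normal subgroup K and a solvable subgroup H of coprime orders, and let N = N_G(H). Then the number of irreducible characters of G of degree coprime to the order of H equals the number of irreducible characters of N of degree coprime to the order of H. (The two sets are in fact in a canonical bijection; only the equality of their sizes is stated here.) -/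
theorem result {G : Type*} [Group G] [Finite G] (K H : Subgroup G) [K.Normal] (hKH : K ⊔ H = ⊤) (hcop : (Nat.card K).Coprime (Nat.card H)) (hsolv : Group.IsSolvable H) : Nat.card {χ : Cfsg.IrrCharacter G // (Cfsg.charDegree (χ : G → ℂ)).Coprime (Nat.card H)} = Nat.card {η : Cfsg.IrrCharacter (Subgroup.normalizer (H : Set G)) // (Cfsg.charDegree (η : Subgroup.normalizer (H : Set G) → ℂ)).Coprime (Nat.card H)} := by
  open Cfsg.Lib.Blocks Cfsg.Lib.Characters in
  · classical
    haveI := Fintype.ofFinite G
    set N := Subgroup.normalizer (H : Set G) with hN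
    haveI := Fintype.ofFinite N
    set C := K ⊓ Subgroup.centralizer (H : Set G) with hC
    have hKHbot : K ⊓ H = ⊥ := Cfsg.Lib.Solv.inf_eq_bot_of_coprime_card hcop
    have hcompl : Subgroup.IsComplement' K H :=
      Subgroup.isComplement'_of_disjoint_and_mul_eq_univ (disjoint_iff.mpr hKHbot)
        (by rw [← Subgroup.normal_mul, hKH, Subgroup.coe_top])
    rw [card_coprime_degree K H hcompl hcop, card_inv_irr_complement K H hcompl hcop hsolv]
    -- the same inside the normalizer
    have hHN : H ≤ N := Subgroup.le_normalizer
    set K' := K.subgroupOf N with hK'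
    set H' := H.subgroupOf N with hH'
    haveI := Fintype.ofFinite K'
    have hcardH : Nat.card H' = Nat.card H := Nat.card_congr (Subgroup.subgroupOfEquivOfLe hHN).toEquiv
    have hdec : ∀ g ∈ N, ∃ k ∈ C, ∃ y ∈ H, k * y = g := by
      intro g hg
      obtain ⟨⟨⟨k, hk⟩, ⟨y, hy⟩⟩, rfl⟩ := (Subgroup.isComplement'_def.mp hcompl).2 g
      refine ⟨k, ⟨hk, Subgroup.mem_centralizer_iff.mpr fun t ht => ?_⟩, y, hy, rfl⟩
      have hkN : k ∈ N := by
        have h2 := mul_mem hg (inv_mem (hHN hy))
        simpa using h2
      have h1 : k * t * k⁻¹ * t⁻¹ ∈ K ⊓ H := by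
        refine ⟨?_, H.mul_mem ((Subgroup.mem_normalizer_iff.mp hkN t).mp ht) (H.inv_mem ht)⟩
        have h2 : t * k⁻¹ * t⁻¹ ∈ K := (inferInstance : K.Normal).conj_mem _ (inv_mem hk) t
        have h3 := mul_mem hk h2
        simpa [mul_assoc] using h3
      rw [hKHbot, Subgroup.mem_bot, mul_inv_eq_one] at h1
      exact (mul_inv_eq_iff_eq_mul.mp h1).symm
    have hcompl' : Subgroup.IsComplement' K' H' := by
      refine Subgroup.isComplement'_of_disjoint_and_mul_eq_univ (disjoint_iff.mpr ?_) ?_
      · rw [eq_bot_iff]
        rintro x ⟨hxK, hxH⟩
        have : (x : G) ∈ K ⊓ H := ⟨hxK, hxH⟩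
        rw [hKHbot] at this
        exact Subgroup.mem_bot.mpr (Subtype.ext (Subgroup.mem_bot.mp this))
      · refine Set.eq_univ_of_forall fun x => ?_
        obtain ⟨k, hk, y, hy, hky⟩ := hdec x x.2
        have hkN : k ∈ N := by
          refine Subgroup.mem_normalizer_iff.mpr fun t => ?_
          constructor
          · intro ht
            rw [← Subgroup.mem_centralizer_iff.mp hk.2 t ht, mul_inv_cancel_right]
            exact ht
          · intro ht
            have h2 := Subgroup.mem_centralizer_iff.mp (inv_mem hk.2) _ ht
            have : t = k * t * k⁻¹ := by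
              calc t = k⁻¹ * (k * t * k⁻¹) * k := by group
                _ = k * t * k⁻¹ := by rw [← h2]; group
            rwa [this]
        exact ⟨⟨k, hkN⟩, hk.1, ⟨y, hHN hy⟩, hy, Subtype.ext hky⟩
    have hcop' : (Nat.card K').Coprime (Nat.card H') := by
      rw [hcardH]
      exact hcop.coprime_dvd_left (Subgroup.card_comap_dvd_of_injective K N.subtype N.subtype_injective)
    have hsolv' : Group.IsSolvable H' := by
      haveI := hsolv
      exact Group.isSolvable_of_isSolvable_injective (f := (Subgroup.subgroupOfEquivOfLe hHN).toMonoidHom)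
        (Subgroup.subgroupOfEquivOfLe hHN).injective
    rw [← hcardH, card_coprime_degree K' H' hcompl' hcop', card_inv_irr_complement K' H' hcompl' hcop' hsolv']
    congr 1
    · refine Nat.card_congr ?_
      have hCN : C ≤ N := by
        intro k hk
        refine Subgroup.mem_normalizer_iff.mpr fun t => ?_
        constructor
        · intro ht
          rw [← Subgroup.mem_centralizer_iff.mp hk.2 t ht, mul_inv_cancel_right]
          exact ht
        · intro ht
          have h2 := Subgroup.mem_centralizer_iff.mp (inv_mem hk.2) _ ht
          have : t = k * t * k⁻¹ := by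
            calc t = k⁻¹ * (k * t * k⁻¹) * k := by group
              _ = k * t * k⁻¹ := by rw [← h2]; group
          rwa [this]
      have heq : K' ⊓ Subgroup.centralizer (H' : Set N) = C.subgroupOf N := by
        ext x
        rw [hC, Subgroup.mem_inf, Subgroup.mem_subgroupOf, Subgroup.mem_subgroupOf, Subgroup.mem_inf,
          Subgroup.mem_centralizer_iff, Subgroup.mem_centralizer_iff]
        refine and_congr_right fun _ => ⟨fun h t ht => ?_, fun h t ht => Subtype.ext (h t ht)⟩
        exact congrArg Subtype.val (h ⟨t, hHN ht⟩ ht)
      rw [heq]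
      exact
        { toFun := ConjClasses.map (Subgroup.subgroupOfEquivOfLe hCN).symm.toMonoidHom
          invFun := ConjClasses.map (Subgroup.subgroupOfEquivOfLe hCN).toMonoidHom
          left_inv := fun Q => by
            induction Q using Quotient.inductionOn with
            | _ c => exact congrArg ConjClasses.mk ((Subgroup.subgroupOfEquivOfLe hCN).apply_symm_apply c)
          right_inv := fun Q => by
            induction Q using Quotient.inductionOn with
            | _ c => exact congrArg ConjClasses.mk ((Subgroup.subgroupOfEquivOfLe hCN).symm_apply_apply c) }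
    · exact Nat.card_congr
        { toFun := fun μ => μ.comp (Subgroup.subgroupOfEquivOfLe hHN).toMonoidHom
          invFun := fun μ => μ.comp (Subgroup.subgroupOfEquivOfLe hHN).symm.toMonoidHom
          left_inv := fun μ => MonoidHom.ext fun x => congrArg μ ((Subgroup.subgroupOfEquivOfLe hHN).apply_symm_apply x)
          right_inv := fun μ => MonoidHom.ext fun x => congrArg μ ((Subgroup.subgroupOfEquivOfLe hHN).symm_apply_apply x) }

end Cfsg.Agent.S4452
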