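import Mathlib
import Cfsg.Agent.Lib.Characters.Gallagher
import Cfsg.Agent.Lib.Transfer.PGroupNormal
import Cfsg.Statements.S4454
-- import your own Cfsg.Agent.* helpers here

set_option autoImplicit false
open Cfsg

namespace Cfsg.Agent.S4454

open Cfsg.Lib.Characters Finset
open scoped ComplexConjugate Classical

set_option linter.unusedSectionVars false

theorem key_arith {R : Type*} [Fintype R] (a : R → ℤ) (m e : ℤ) (hm : 1 ≤ m)
    (hcard : (Fintype.card R : ℤ) = m) (hsum : ∑ i, a i = e)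
    (hsq : m * ∑ i, a i ^ 2 = e ^ 2 + m - 1) : m ∣ e - 1 ∨ m ∣ e + 1 := by
  rcases eq_or_lt_of_le hm with h1 | h1
  · left; rw [← h1]; exact one_dvd _
  set v := e / m
  set r := e % m
  have hr0 : 0 ≤ r := Int.emod_nonneg _ (by omega)
  have hr1 : r < m := Int.emod_lt_of_pos _ (by omega)
  have hev : e = m * v + r := (Int.mul_ediv_add_emod e m).symm
  have hs1 : ∑ i, (a i - v) = r := by
    rw [sum_sub_distrib, hsum, sum_const, card_univ, nsmul_eq_mul, hcard, hev]; ring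
  have hs2 : ∑ i, (a i - v) ^ 2 = ∑ i, a i ^ 2 - 2 * v * e + m * v ^ 2 := by
    simp only [sub_sq, sum_add_distrib, sum_sub_distrib, sum_const, card_univ, nsmul_eq_mul, hcard]
    rw [← hsum, mul_sum]
    congr 2
    exact sum_congr rfl fun i _ => by ring
  have hge : r ≤ ∑ i, (a i - v) ^ 2 := by
    rw [← hs1]
    exact sum_le_sum fun i _ => Int.le_self_sq _
  have hkey : m * ∑ i, (a i - v) ^ 2 = r ^ 2 + m - 1 := by
    rw [hs2, mul_add, mul_sub, hsq, hev]; ring
  have hle : m * r ≤ r ^ 2 + m - 1 := hkey ▸ mul_le_mul_of_nonneg_left hge (by omega)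
  have hr : r ≠ 0 := by
    intro h0
    rw [h0] at hkey
    have : m ∣ 1 := ⟨1 - ∑ i, (a i - v) ^ 2, by linear_combination hkey⟩
    have := Int.le_of_dvd one_pos this
    omega
  have hr' : r = 1 ∨ r = m - 1 := by
    by_contra hc
    rw [not_or] at hc
    have h2 : 2 ≤ r := by omega
    have h3 : r ≤ m - 2 := by omega
    nlinarith
  rcases hr' with h | h
  · left; exact ⟨v, by rw [hev, h]; ring⟩
  · right; exact ⟨v + 1, by rw [hev, h]; ring⟩

theorem exists_cyclic_complement {Γ : Type*} [Group Γ] [Finite Γ] (G N : Subgroup Γ) [G.Normal]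
    [N.Normal] (hNG : N ≤ G) (hGlt : G ≠ ⊤)
    (hfrob : ∀ x : Γ, x ∉ G → ∀ g : Γ, g ∈ G → x * g * x⁻¹ * g⁻¹ ∈ N → g ∈ N) :
    ∃ C : Subgroup Γ, N ≤ C ∧ C ⊓ G = N ∧ C ⊔ G = ⊤ := by
  set π := QuotientGroup.mk' N with hπ
  have hπs : Function.Surjective π := QuotientGroup.mk'_surjective N
  set Gb := G.map π with hGb
  haveI : Gb.Normal := Subgroup.Normal.map inferInstance π hπs
  have hmem : ∀ g : Γ, π g ∈ Gb → g ∈ G := by
    rintro g ⟨h, hh, hhg⟩
    have h1 : h⁻¹ * g ∈ N := QuotientGroup.eq.mp hhg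
    simpa using mul_mem hh (hNG h1)
  have hcop : (Nat.card Gb).Coprime Gb.index := by
    refine Nat.coprime_of_dvd fun q hq hq1 hq2 => ?_
    haveI := Fact.mk hq
    obtain ⟨g₁, hg₁⟩ := exists_prime_orderOf_dvd_card' q hq1
    have hzq : IsPGroup q (Subgroup.zpowers (g₁ : Γ ⧸ N)) :=
      IsPGroup.of_card (n := 1) (by rw [Nat.card_zpowers, Subgroup.orderOf_coe, hg₁, pow_one])
    obtain ⟨P, hP⟩ := hzq.exists_le_sylow
    have hPne : ((P : Subgroup (Γ ⧸ N)) ⊓ Gb) ≠ ⊥ := by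
      intro hbot
      have h1 : (g₁ : Γ ⧸ N) ∈ (P : Subgroup (Γ ⧸ N)) ⊓ Gb :=
        ⟨hP (Subgroup.mem_zpowers _), g₁.2⟩
      rw [hbot, Subgroup.mem_bot] at h1
      have : orderOf (g₁ : Γ ⧸ N) = 1 := orderOf_eq_one_iff.mpr h1
      rw [Subgroup.orderOf_coe, hg₁] at this
      exact hq.ne_one this
    haveI hPnil : IsPGroup q (P : Subgroup (Γ ⧸ N)) := P.isPGroup'
    set A := ((P : Subgroup (Γ ⧸ N)) ⊓ Gb).subgroupOf (P : Subgroup (Γ ⧸ N)) with hA
    haveI : A.Normal := by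
      refine ⟨fun a ha x => ?_⟩
      rw [hA, Subgroup.mem_subgroupOf] at ha ⊢
      exact ⟨(x * a * x⁻¹).2, (inferInstance : Gb.Normal).conj_mem _ ha.2 _⟩
    have hAne : A ≠ ⊥ := by
      rw [hA, Ne, Subgroup.subgroupOf_eq_bot, disjoint_iff]
      simpa [inf_assoc, inf_comm, inf_left_comm] using hPne
    have h0 := Cfsg.Lib.Transfer.inf_center_ne_bot P.isPGroup' A hAne
    rw [Subgroup.ne_bot_iff_exists_ne_one] at h0
    obtain ⟨⟨z, hz⟩, hz1'⟩ := h0
    have hz1 : z ≠ 1 := fun h => hz1' (Subtype.ext h)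
    have hzA : (z : Γ ⧸ N) ∈ (P : Subgroup (Γ ⧸ N)) ⊓ Gb := hz.1
    have hPG : ¬ (P : Subgroup (Γ ⧸ N)) ≤ Gb := fun hle =>
      P.not_dvd_index (hq2.trans (Subgroup.index_dvd_of_le hle))
    obtain ⟨x, hx, hxG⟩ := SetLike.not_le_iff_exists.mp hPG
    obtain ⟨x₀, rfl⟩ := hπs x
    obtain ⟨z₀, hz₀⟩ := hπs (z : Γ ⧸ N)
    have hcomm : π x₀ * π z₀ = π z₀ * π x₀ := by
      rw [hz₀]
      exact congrArg Subtype.val (Subgroup.mem_center_iff.mp hz.2 ⟨_, hx⟩)
    have h1 : x₀ * z₀ * x₀⁻¹ * z₀⁻¹ ∈ N := by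
      rw [← QuotientGroup.eq_one_iff]
      show π (x₀ * z₀ * x₀⁻¹ * z₀⁻¹) = 1
      simp only [map_mul, map_inv, hcomm]
      group
    have h2 := hfrob x₀ (fun h => hxG ⟨x₀, h, rfl⟩) z₀ (hmem z₀ (hz₀ ▸ hzA.2)) h1
    exact hz1 (Subtype.ext (hz₀.symm.trans ((QuotientGroup.eq_one_iff z₀).mpr h2)))
  obtain ⟨Cb, hCb⟩ := Subgroup.exists_right_complement'_of_coprime hcop
  refine ⟨Cb.comap π, fun n hn => ?_, ?_, ?_⟩
  · rw [Subgroup.mem_comap, hπ, QuotientGroup.mk'_apply, (QuotientGroup.eq_one_iff n).mpr hn]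
    exact one_mem _
  · refine le_antisymm ?_ (le_inf (fun n hn => ?_) hNG)
    · rintro x ⟨hx1, hx2⟩
      have : π x ∈ Gb ⊓ Cb := ⟨⟨x, hx2, rfl⟩, hx1⟩
      rw [disjoint_iff.mp hCb.disjoint, Subgroup.mem_bot] at this
      exact (QuotientGroup.eq_one_iff x).mp this
    · rw [Subgroup.mem_comap, hπ, QuotientGroup.mk'_apply, (QuotientGroup.eq_one_iff n).mpr hn]
      exact one_mem _
  · rw [eq_top_iff]
    intro x _
    obtain ⟨g, hg, c, hc, hgc⟩ : ∃ g ∈ Gb, ∃ c ∈ Cb, g * c = π x := by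
      obtain ⟨⟨g, c⟩, hgc⟩ := hCb.2 (π x)
      exact ⟨g, g.2, c, c.2, hgc⟩
    obtain ⟨g₀, hg₀, rfl⟩ := hg
    have : g₀⁻¹ * x ∈ Cb.comap π := by
      rw [Subgroup.mem_comap, map_mul, map_inv, ← hgc, inv_mul_cancel_left]; exact hc
    have h := Subgroup.mul_mem_sup (show g₀ ∈ G from hg₀) this
    rw [mul_inv_cancel_left] at h
    rwa [sup_comm]

/-- Let N ≤ G be normal subgroups of the finite group Γ with Γ/G cyclic and Γ/N a Frobenius group with kernel G/N: G ≠ Γ, N ≠ G, and no element of Γ outside G fixes a non-identity coset of N in G under conjugation. Let ϑ be an irreducible character of N invariant under conjugation by Γ and suppose ϑ is fully ramified in G: the character of G induced from ϑ equals e·χ for an irreducible character χ of G and a natural number e. Then the index of G in Γ divides e − 1 or e + 1. -/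
theorem result {Γ : Type*} [Group Γ] [Fintype Γ] (G N : Subgroup Γ) [hG : G.Normal] [hN : N.Normal] [Fintype G] [Fintype N] (hNG : N ≤ G) (hGlt : G ≠ ⊤) (hNlt : N ≠ G) (hcyc : IsCyclic (Γ ⧸ G)) (hfrob : ∀ x : Γ, x ∉ G → ∀ g : Γ, g ∈ G → x * g * x⁻¹ * g⁻¹ ∈ N → g ∈ N) (θ : Cfsg.IrrCharacter N) (hinv : ∀ (x : Γ) (n : N), (θ : N → ℂ) ⟨x * n * x⁻¹, hN.conj_mem n n.2 x⟩ = (θ : N → ℂ) n) (χ : Cfsg.IrrCharacter G) (e : ℕ) (hram : Cfsg.indFun (N.subgroupOf G) (fun n : N.subgroupOf G => (θ : N → ℂ) ⟨(n : G), n.2⟩) = fun g => (e : ℂ) * (χ : G → ℂ) g) : (G.index : ℤ) ∣ (e : ℤ) - 1 ∨ (G.index : ℤ) ∣ (e : ℤ) + 1 := by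
  have he0 : e ≠ 0 := by
    intro h
    have h1 := congrFun hram 1
    rw [indFun_one_apply, h, Nat.cast_zero, zero_mul] at h1
    exact mul_ne_zero (Nat.cast_ne_zero.mpr Subgroup.index_ne_zero_of_finite) θ.2.one_ne_zero h1
  haveI : (N.subgroupOf G).Normal := inferInstance
  haveI : Fintype (N.subgroupOf G) := Fintype.ofFinite _
  let eN := Subgroup.subgroupOfEquivOfLe hNG
  set θ' : N.subgroupOf G → ℂ := fun n => (θ : N → ℂ) ⟨(n : G), n.2⟩ with hθ'def
  have hθ' : IsIrrCharacter (N.subgroupOf G) θ' :=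
    isIrrCharacter_comp_surjective θ.2 eN.toMonoidHom eN.surjective
  have hinv' : ∀ g, conjFn (N.subgroupOf G) θ' g = θ' := by
    intro g
    funext n
    rw [conjFn_apply]
    exact (congrArg (θ : N → ℂ) (Subtype.ext rfl)).trans (hinv (g : Γ) ⟨((n : G) : Γ), n.2⟩)
  -- e^2 = |G : N| and χ restricts to e θ
  have hnorm : ((e : ℂ)) ^ 2 = ((N.subgroupOf G).index : ℂ) := by
    have h := classInner_indFun_self_of_invariant hθ' hinv'
    rw [hθ'def, hram, show (fun g => (e : ℂ) * (χ : G → ℂ) g) = (e : ℂ) • (χ : G → ℂ) from rfl,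
      classInner_smul_left, classInner_smul_right, classInner_irr_self χ.2] at h
    rw [← h]; simp; ring
  have hχN : ∀ n : N.subgroupOf G, (χ : G → ℂ) n = (e : ℂ) * θ' n := by
    intro n
    have h := congrFun hram (n : G)
    rw [indFun_apply_coe, sum_congr rfl (fun g _ => congrFun (hinv' g) n), sum_const, card_univ,
      nsmul_eq_mul, ← Nat.card_eq_fintype_card, ← Subgroup.card_mul_index (N.subgroupOf G),
      Nat.cast_mul, mul_assoc, inv_mul_cancel_left₀ (Nat.cast_ne_zero.mpr Nat.card_pos.ne'),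
      ← hnorm] at h
    have he' : (e : ℂ) ≠ 0 := Nat.cast_ne_zero.mpr he0
    exact mul_left_cancel₀ he' (by linear_combination -h)
  -- χ is invariant
  have hχinv : ∀ x : Γ, conjFn G (χ : G → ℂ) x = χ := by
    intro x
    funext g
    have he' : (e : ℂ) ≠ 0 := Nat.cast_ne_zero.mpr he0
    refine mul_left_cancel₀ he' ?_
    rw [conjFn_apply]
    refine (congrFun hram _).symm.trans (Eq.trans ?_ (congrFun hram g))
    simp only [indFun]
    congr 1
    let φ : G ≃* G := MulAut.conjNormal x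
    refine Fintype.sum_equiv φ.symm.toEquiv _ _ fun y => ?_
    rw [MulEquiv.toEquiv_eq_coe, EquivLike.coe_coe]
    have hz : φ ((φ.symm y)⁻¹ * g * φ.symm y) = y⁻¹ * φ g * y := by simp
    have hg : ∀ h, (⟨x * (g : Γ) * x⁻¹, h⟩ : G) = φ g :=
      fun h => Subtype.ext (MulAut.conjNormal_apply x g).symm
    rw [hg, ← hz]
    set z := (φ.symm y)⁻¹ * g * φ.symm y
    have hiff : φ z ∈ N.subgroupOf G ↔ z ∈ N.subgroupOf G := by
      rw [Subgroup.mem_subgroupOf, Subgroup.mem_subgroupOf, MulAut.conjNormal_apply]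
      constructor
      · intro h; simpa [mul_assoc] using hN.conj_mem _ h x⁻¹
      · intro h; exact hN.conj_mem _ h x
    by_cases hzN : z ∈ N.subgroupOf G
    · rw [extendByZero_mem _ hzN, extendByZero_mem _ (hiff.mpr hzN)]
      exact (congrArg (θ : N → ℂ) (Subtype.ext (MulAut.conjNormal_apply x z))).trans
        (hinv x ⟨(z : Γ), hzN⟩)
    · rw [extendByZero_not_mem _ hzN, extendByZero_not_mem _ (fun h => hzN (hiff.mp h))]
  obtain ⟨ψ, hψ, hψG⟩ := exists_extension_of_cyclic hcyc χ.2 hχinv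
  obtain ⟨C, hNC, hCG, hCtop⟩ := exists_cyclic_complement G N hNG hGlt hfrob
  haveI : Fintype C := Fintype.ofFinite C
  haveI : (N.subgroupOf C).Normal := inferInstance
  haveI : Fintype (N.subgroupOf C) := Fintype.ofFinite _
  let eC := Subgroup.subgroupOfEquivOfLe hNC
  set θC : N.subgroupOf C → ℂ := fun n => (θ : N → ℂ) ⟨(n : C), n.2⟩ with hθCdef
  have hθC : IsIrrCharacter (N.subgroupOf C) θC :=
    isIrrCharacter_comp_surjective θ.2 eC.toMonoidHom eC.surjective
  have hinvC : ∀ g, conjFn (N.subgroupOf C) θC g = θC := by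
    intro g
    funext n
    rw [conjFn_apply]
    exact (congrArg (θ : N → ℂ) (Subtype.ext rfl)).trans (hinv (g : Γ) ⟨((n : C) : Γ), n.2⟩)
  let q : C →* Γ ⧸ G := (QuotientGroup.mk' G).comp C.subtype
  have hqker : q.ker = N.subgroupOf C := by
    ext c
    rw [MonoidHom.mem_ker, Subgroup.mem_subgroupOf, ← hCG]
    simp [q, Subgroup.mem_inf, c.2]
  have hqsurj : Function.Surjective q := by
    intro y
    obtain ⟨x, rfl⟩ := QuotientGroup.mk'_surjective G y
    have hx : x ∈ C ⊔ G := by rw [hCtop]; exact Subgroup.mem_top _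
    rw [Subgroup.mem_sup_of_normal_right] at hx
    obtain ⟨c, hc, g, hg, rfl⟩ := hx
    refine ⟨⟨c, hc⟩, ?_⟩
    show QuotientGroup.mk' G c = QuotientGroup.mk' G (c * g)
    rw [map_mul, show QuotientGroup.mk' G g = 1 from (QuotientGroup.eq_one_iff g).mpr hg, mul_one]
  have hidxC : (N.subgroupOf C).index = G.index := by
    rw [← hqker, Subgroup.index_ker, MonoidHom.range_eq_top.mpr hqsurj, Subgroup.card_top,
      Subgroup.index_eq_card]
  have hcycC : IsCyclic (C ⧸ N.subgroupOf C) := by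
    exact isCyclic_of_injective ((QuotientGroup.kerLift q).comp
      (QuotientGroup.quotientMulEquivOfEq hqker.symm).toMonoidHom)
      ((QuotientGroup.kerLift_injective q).comp
        (QuotientGroup.quotientMulEquivOfEq hqker.symm).injective)
  -- decomposition of ψ on C
  have hψC : IsCharacter C fun c : C => ψ c := isCharacter_restrict hψ.isCharacter C
  obtain ⟨a, ha⟩ := exists_decomposition hψC
  obtain ⟨μ, hμ⟩ := exists_decomposition (isCharacter_indFun (N.subgroupOf C) hθC.isCharacter)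
  set b : IrrCharacter C → ℂ := fun ρ => classInner (fun n : N.subgroupOf C => (ρ : C → ℂ) n) θC
    with hb
  set R := univ.filter fun ρ : IrrCharacter C => b ρ ≠ 0 with hR
  have hres : ∀ ρ ∈ R, ∀ n : N.subgroupOf C, (ρ : C → ℂ) n = θC n := by
    intro ρ hρ
    obtain ⟨k, hk, -, hk1⟩ := multiplicity_dvd_index hθC hinvC ρ.2 (mem_filter.mp hρ).2
    intro n
    have := congrFun hk n
    simpa [hk1 hcycC] using this
  have hb1 : ∀ ρ ∈ R, b ρ = 1 := fun ρ hρ => by
    show classInner (fun n : N.subgroupOf C => (ρ : C → ℂ) n) θC = 1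
    rw [funext (hres ρ hρ), classInner_irr_self hθC]
  have hμb : ∀ ρ, (μ ρ : ℂ) = b ρ := by
    intro ρ
    have h : classInner (indFun (N.subgroupOf C) θC) (ρ : C → ℂ) = (μ ρ : ℂ) := by
      rw [hμ, classInner_sum_irr]
    rw [classInner_indFun _ θC ρ.2.isClassFunction, ← conj_classInner] at h
    rw [← h]
    show conj (classInner _ _) = b ρ
    have h' : conj (b ρ) = (μ ρ : ℂ) := h
    rw [hb] at h'
    have h'' := congrArg conj h'
    rw [Complex.conj_conj, Complex.conj_natCast] at h''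
    rw [h', ← h'']
  have hcardR : R.card = G.index := by
    have h := congrFun hμ 1
    rw [indFun_one_apply, Finset.sum_apply, hidxC] at h
    have h2 : ∑ ρ : IrrCharacter C, ((μ ρ : ℂ) • (ρ : C → ℂ)) 1 =
        ∑ ρ : IrrCharacter C, if b ρ ≠ 0 then θC 1 else 0 := by
      refine sum_congr rfl fun ρ _ => ?_
      split_ifs with hρ
      · have hρR : ρ ∈ R := mem_filter.mpr ⟨mem_univ _, hρ⟩
        rw [Pi.smul_apply, hμb, hb1 ρ hρR, one_smul, ← hres ρ hρR 1]
        rfl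
      · rw [Pi.smul_apply, hμb]
        simp [not_not.mp hρ]
    rw [h2, ← sum_filter, sum_const, nsmul_eq_mul] at h
    exact_mod_cast (mul_right_cancel₀ hθC.one_ne_zero h).symm
  have hψN : ∀ n : N.subgroupOf C, ψ (n : C) = (e : ℂ) * θC n := by
    intro n
    exact (hψG ⟨((n : C) : Γ), hNG n.2⟩).trans (hχN ⟨⟨((n : C) : Γ), hNG n.2⟩, n.2⟩)
  have hsum : ∑ ρ ∈ R, (a ρ : ℂ) = e := by
    have h1 : classInner (fun n : N.subgroupOf C => (∑ ρ, (a ρ : ℂ) • (ρ : C → ℂ)) n) θC =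
        (e : ℂ) := by
      rw [← ha, show (fun n : N.subgroupOf C => ψ ((n : C) : Γ)) = (e : ℂ) • θC from funext hψN,
        classInner_smul_left, classInner_irr_self hθC, mul_one]
    rw [show (fun n : N.subgroupOf C => (∑ ρ, (a ρ : ℂ) • (ρ : C → ℂ)) n) =
      ∑ ρ, (a ρ : ℂ) • fun n : N.subgroupOf C => (ρ : C → ℂ) n from funext fun n => by simp,
      classInner_sum_left, sum_congr rfl (fun ρ _ => classInner_smul_left _ _ _)] at h1
    rw [← h1, hR, sum_filter]
    refine sum_congr rfl fun ρ _ => ?_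
    show (if b ρ ≠ 0 then (a ρ : ℂ) else 0) = (a ρ : ℂ) * b ρ
    split_ifs with hρ
    · rw [hb1 ρ (mem_filter.mpr ⟨mem_univ _, hρ⟩), mul_one]
    · rw [not_not.mp hρ, mul_zero]
  have houtside : ∀ ρ, ρ ∉ R → a ρ = 0 := by
    intro ρ hρ
    have h := congrFun ha 1
    simp only [Finset.sum_apply, Pi.smul_apply, smul_eq_mul, OneMemClass.coe_one] at h
    have h1 : ψ 1 = (e : ℂ) * θC 1 := by simpa using hψN 1
    rw [← sum_add_sum_compl R, sum_congr rfl (fun σ hσ => by
      rw [show (σ : C → ℂ) 1 = θC 1 from hres σ hσ 1]), ← sum_mul, hsum, h1, left_eq_add] at h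
    choose d hd0 hd using fun σ : IrrCharacter C => σ.2.exists_degree_pos
    simp only [hd] at h
    have h2 : ((∑ σ ∈ Rᶜ, a σ * d σ : ℕ) : ℂ) = 0 := by push_cast; exact h
    have h3 := (sum_eq_zero_iff.mp (by exact_mod_cast h2 : ∑ σ ∈ Rᶜ, a σ * d σ = 0)) ρ
      (mem_compl.mpr hρ)
    rcases Nat.mul_eq_zero.mp h3 with h4 | h4
    · exact h4
    · exact absurd h4 (hd0 ρ).ne'
  have hnormC : classInner (fun c : C => ψ c) (fun c : C => ψ c) = ∑ ρ ∈ R, (a ρ : ℂ) ^ 2 := by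
    rw [ha, classInner_sum_right]
    refine (sum_subset (subset_univ R) fun ρ _ hρ => ?_).symm.trans (sum_congr rfl fun ρ _ => ?_)
    · rw [houtside ρ hρ, Nat.cast_zero, zero_smul, classInner_zero_right]
    · rw [classInner_smul_right, classInner_sum_irr]
      simp; ring
  -- counting over Γ
  set f : Γ → ℂ := fun x => ψ x * conj (ψ x) with hf
  have hfclass : ∀ g x, f (g * x * g⁻¹) = f x := fun g x => by
    simp only [hf, hψ.isClassFunction x g]
  have hΓ : ∑ x, f x = Nat.card Γ := by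
    have h := classInner_irr_self hψ
    rw [classInner] at h
    have h0 : (Nat.card Γ : ℂ) ≠ 0 := Nat.cast_ne_zero.mpr Nat.card_pos.ne'
    field_simp at h
    exact h
  have hsumsub : ∀ (S : Subgroup Γ) [Fintype S], ∑ x ∈ univ.filter (fun x => x ∈ S), f x =
      (Nat.card S : ℂ) * classInner (fun s : S => ψ s) (fun s : S => ψ s) := by
    intro S _
    rw [classInner, mul_inv_cancel_left₀ (Nat.cast_ne_zero.mpr Nat.card_pos.ne')]
    exact Finset.sum_subtype _ (fun x => by simp) f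
  have hG' : ∑ x ∈ univ.filter (fun x => x ∈ G), f x = Nat.card G := by
    rw [hsumsub G, show (fun s : G => ψ s) = (χ : G → ℂ) from funext hψG,
      classInner_irr_self χ.2, mul_one]
  have hN' : ∑ x ∈ univ.filter (fun x => x ∈ N), f x = (Nat.card N : ℂ) * (e : ℂ) ^ 2 := by
    rw [hsumsub N, show (fun s : N => ψ s) = (e : ℂ) • (θ : N → ℂ) from funext fun n =>
      hψN ⟨⟨(n : Γ), hNC n.2⟩, n.2⟩, classInner_smul_left, classInner_smul_right,
      classInner_irr_self θ.2]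
    simp; ring
  have hC' : ∑ x ∈ univ.filter (fun x => x ∈ C), f x =
      (Nat.card C : ℂ) * ∑ ρ ∈ R, (a ρ : ℂ) ^ 2 := by
    rw [hsumsub C, hnormC]
  set Cs := univ.filter (fun x => x ∈ C ∧ x ∉ N) with hCs
  set Gc := univ.filter (fun x : Γ => x ∉ G) with hGc
  have hsplitC : ∑ x ∈ univ.filter (fun x => x ∈ C), f x =
      ∑ x ∈ univ.filter (fun x => x ∈ N), f x + ∑ x ∈ Cs, f x := by
    rw [← sum_union (disjoint_filter.mpr fun x _ h1 h2 => h2.2 h1)]
    refine sum_congr ?_ fun _ _ => rfl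
    ext x
    by_cases hxN : x ∈ N
    · simp [hxN, hNC hxN]
    · simp [hxN]
  have hcardC : Nat.card C = Nat.card N * G.index := by
    rw [← hidxC, ← Nat.card_congr (Subgroup.subgroupOfEquivOfLe hNC).toEquiv,
      Subgroup.card_mul_index]
  have hcardG : Nat.card G = Nat.card N * (N.subgroupOf G).index := by
    rw [← Nat.card_congr (Subgroup.subgroupOfEquivOfLe hNG).toEquiv, Subgroup.card_mul_index]
  have hbij : ∑ p ∈ (univ : Finset (G ⧸ N.subgroupOf G)) ×ˢ Cs,
      f ((p.1.out : Γ) * p.2 * (p.1.out : Γ)⁻¹) = ∑ x ∈ Gc, f x := by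
    have hmaps : ∀ p ∈ (univ : Finset (G ⧸ N.subgroupOf G)) ×ˢ Cs,
        (p.1.out : Γ) * p.2 * (p.1.out : Γ)⁻¹ ∈ Gc := by
      intro p hp
      obtain ⟨-, hp2⟩ := mem_product.mp hp
      obtain ⟨hpC, hpN⟩ := (mem_filter.mp hp2).2
      refine mem_filter.mpr ⟨mem_univ _, fun h => hpN ?_⟩
      have h' : p.2 ∈ G := by
        have := hG.conj_mem _ h (p.1.out : Γ)⁻¹
        simpa [mul_assoc] using this
      exact hCG ▸ (⟨hpC, h'⟩ : p.2 ∈ C ⊓ G)
    have hinj : Set.InjOn (fun p : (G ⧸ N.subgroupOf G) × Γ => (p.1.out : Γ) * p.2 * (p.1.out : Γ)⁻¹)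
        ((univ : Finset (G ⧸ N.subgroupOf G)) ×ˢ Cs : Finset _) := by
      intro p hp p' hp' heq
      simp only [coe_product, Set.mem_prod, mem_coe] at hp hp'
      obtain ⟨hcC, hcN⟩ := (mem_filter.mp hp.2).2
      obtain ⟨hc'C, -⟩ := (mem_filter.mp hp'.2).2
      set g := (p.1.out : Γ) with hg
      set g' := (p'.1.out : Γ) with hg'
      set h := g⁻¹ * g' with hh
      have hhG : h ∈ G := mul_mem (inv_mem p.1.out.2) p'.1.out.2
      have heq' : p.2 = h * p'.2 * h⁻¹ := by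
        calc p.2 = g⁻¹ * (g * p.2 * g⁻¹) * g := by group
          _ = g⁻¹ * (g' * p'.2 * g'⁻¹) * g := congrArg (fun z => g⁻¹ * z * g) heq
          _ = _ := by rw [hh]; group
      have hn : p.2⁻¹ * p'.2 ∈ N := by
        suffices hs : p.2⁻¹ * p'.2 ∈ G from
          hCG.le (Subgroup.mem_inf.mpr ⟨mul_mem (inv_mem hcC) hc'C, hs⟩)
        have : p.2⁻¹ * p'.2 = h * (p'.2⁻¹ * h⁻¹ * p'.2) := by rw [heq']; group
        rw [this]
        refine mul_mem hhG ?_
        simpa using hG.conj_mem _ (inv_mem hhG) p'.2⁻¹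
      have hcG : p.2 ∉ G := fun hc => hcN (hCG ▸ (⟨hcC, hc⟩ : p.2 ∈ C ⊓ G))
      have hhN : h ∈ N := by
        refine hfrob p.2 hcG h hhG ?_
        have : p.2 * h * p.2⁻¹ * h⁻¹ = h * (p'.2 * p.2⁻¹) * h⁻¹ := by
          conv_lhs => arg 1; arg 1; arg 1; rw [heq']
          group
        rw [this]
        refine hN.conj_mem _ ?_ h
        have := hN.conj_mem _ hn p.2
        simpa [mul_assoc] using this
      have hq : p.1 = p'.1 := by
        rw [← p.1.out_eq', ← p'.1.out_eq', QuotientGroup.eq]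
        exact hhN
      have hh1 : h = 1 := by rw [hh, hg, hg', hq, inv_mul_cancel]
      refine Prod.ext hq ?_
      rw [heq', hh1]; group
    have hcount : Gc.card ≤ ((univ : Finset (G ⧸ N.subgroupOf G)) ×ˢ Cs).card := by
      have h1 : Gc.card + Nat.card G = Nat.card Γ := by
        rw [Nat.card_eq_fintype_card, Nat.card_eq_fintype_card, ← card_univ (α := Γ),
          ← card_filter_add_card_filter_not (s := univ) (fun x : Γ => x ∉ G)]
        congr 1
        rw [Fintype.card_subtype]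
        congr 1
        ext; simp
      have h2 : Cs.card + Nat.card N = Nat.card C := by
        rw [Nat.card_eq_fintype_card, Nat.card_eq_fintype_card, Fintype.card_subtype,
          Fintype.card_subtype, ← card_union_of_disjoint (disjoint_filter.mpr fun x _ h1 h2 => h1.2 h2)]
        congr 1
        ext x
        by_cases hxN : x ∈ N
        · simp [hxN, hNC hxN]
        · simp [hxN]
      rw [card_product, card_univ, ← Nat.card_eq_fintype_card, ← Subgroup.index_eq_card]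
      have h3 : Nat.card Γ = Nat.card G * G.index := (Subgroup.card_mul_index G).symm
      nlinarith [Nat.mul_le_mul_left ((N.subgroupOf G).index) h2.le, congrArg (fun z => (N.subgroupOf G).index * z) h2]
    refine sum_bij (fun p _ => (p.1.out : Γ) * p.2 * (p.1.out : Γ)⁻¹) hmaps
      (fun p hp p' hp' h => hinj hp hp' h) (fun x hx => ?_) fun p _ => rfl
    obtain ⟨p, hp, hpx⟩ := surj_on_of_inj_on_of_card_le (fun p _ => (p.1.out : Γ) * p.2 * (p.1.out : Γ)⁻¹)
      hmaps (fun p p' hp hp' h => hinj hp hp' h) hcount x hx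
    exact ⟨p, hp, hpx.symm⟩
  rw [sum_product, sum_congr rfl (fun q _ => sum_congr rfl fun c _ => hfclass _ _)] at hbij
  simp only [] at hbij
  rw [sum_const,
    card_univ, nsmul_eq_mul, ← Nat.card_eq_fintype_card, ← Subgroup.index_eq_card, ← hnorm] at hbij
  have hGcsum : ∑ x ∈ Gc, f x = (Nat.card Γ : ℂ) - Nat.card G := by
    rw [← hΓ, ← hG', eq_sub_iff_add_eq, hGc, add_comm,
      sum_filter_add_sum_filter_not univ (fun x => x ∈ G) f]
  have hmain : (G.index : ℂ) * ∑ ρ ∈ R, (a ρ : ℂ) ^ 2 = (e : ℂ) ^ 2 + (G.index : ℂ) - 1 := by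
    have hCs' : ∑ x ∈ Cs, f x = (Nat.card C : ℂ) * ∑ ρ ∈ R, (a ρ : ℂ) ^ 2 -
        (Nat.card N : ℂ) * (e : ℂ) ^ 2 := by
      rw [← hC', ← hN', hsplitC]; ring
    rw [hGcsum, hCs', hcardC, ← Subgroup.card_mul_index G, hcardG] at hbij
    push_cast at hbij
    rw [← hnorm] at hbij
    have h0 : (e : ℂ) ^ 2 * (Nat.card N : ℂ) ≠ 0 :=
      mul_ne_zero (pow_ne_zero _ (Nat.cast_ne_zero.mpr he0)) (Nat.cast_ne_zero.mpr Nat.card_pos.ne')
    refine mul_left_cancel₀ h0 ?_
    linear_combination hbij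
  refine key_arith (fun ρ : R => (a ρ : ℤ)) (G.index : ℤ) e ?_ ?_ ?_ ?_
  · exact_mod_cast Nat.one_le_iff_ne_zero.mpr Subgroup.index_ne_zero_of_finite
  · rw [Fintype.card_coe, hcardR]
  · rw [Finset.sum_coe_sort R (fun ρ => (a ρ : ℤ))]
    exact_mod_cast hsum
  · rw [Finset.sum_coe_sort R (fun ρ => (a ρ : ℤ) ^ 2)]
    exact_mod_cast hmain

end Cfsg.Agent.S4454
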