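import Cfsg.Statements.S4455
import Cfsg.Agent.Lib.Characters.Extension
import Cfsg.Agent.Lib.Transfer.NormalPComplement
import Cfsg.Agent.Lib.Blocks.Covering
import Cfsg.Agent.Lib.Blocks.Codegree

set_option autoImplicit false
set_option linter.style.haveILetI false
open Cfsg

namespace Cfsg.Agent.S4455

open Cfsg.Lib.Characters Cfsg.Lib.Blocks Finset
open scoped Classical ComplexConjugate

/-- Fix a prime p and a finite group G. Let s be the sum of χ(1)² over the irreducible characters χ of G whose degree is not divisible by p and whose determinantal order o(χ) is not divisible by p. Then the order of O^p(G), the subgroup generated by the elements of order prime to p, is congruent to s modulo p. -/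
theorem result {G : Type*} [Group G] [Finite G] (p : ℕ) (hp : p.Prime) : (Nat.card (Cfsg.pResidual p G) : ℤ) ≡ (∑ᶠ χ ∈ {χ : Cfsg.IrrCharacter G | ¬ p ∣ Cfsg.charDegree (χ : G → ℂ) ∧ ¬ p ∣ Cfsg.detOrder (χ : G → ℂ)}, (Cfsg.charDegree (χ : G → ℂ) : ℤ) ^ 2) [ZMOD p] := by
  haveI : Fact p.Prime := ⟨hp⟩
  haveI : Fintype G := Fintype.ofFinite G
  set N := Cfsg.pResidual p G with hNdef
  haveI : N.Normal := Cfsg.Lib.Transfer.pResidual_normal p
  obtain ⟨k, hk⟩ : ∃ k, N.index = p ^ k := Cfsg.Lib.Transfer.exists_index_pResidual_eq_pow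
  set m := Nat.card G / p ^ (Nat.card G).factorization p with hm
  have hpm : Nat.Coprime p m := Nat.coprime_ordCompl hp Nat.card_pos.ne'
  -- homomorphisms on `N` take values of order prime to `p`
  have hDN : ∀ (D : N →* ℂˣ) (n : N), D n ^ m = 1 := by
    intro D n
    have hS : ∀ x (hx : x ∈ N), D ⟨x, hx⟩ ^ m = 1 := by
      intro x hx
      induction hx using Subgroup.closure_induction with
      | mem y hy =>
        rw [← map_pow]
        have h1 : y ^ m = 1 := by
          refine orderOf_dvd_iff_pow_eq_one.mp ?_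
          have hc : Nat.Coprime (orderOf y) (p ^ (Nat.card G).factorization p) := Nat.Coprime.pow_right _ hy
          refine hc.dvd_of_dvd_mul_left ?_
          rw [hm, Nat.ordProj_mul_ordCompl_eq_self]
          exact orderOf_dvd_natCard y
        rw [show (⟨y, Subgroup.subset_closure hy⟩ : N) ^ m = 1 from Subtype.ext h1, map_one]
      | one =>
        show D 1 ^ m = 1
        rw [map_one, one_pow]
      | mul x y hx hy h1 h2 =>
        show D (⟨x, hx⟩ * ⟨y, hy⟩) ^ m = 1
        rw [map_mul, mul_pow, h1, h2, one_mul]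
      | inv x hx h1 =>
        show D ((⟨x, hx⟩ : N)⁻¹) ^ m = 1
        rw [map_inv, inv_pow, h1, inv_one]
    exact hS n n.2
  have hpk : ∀ g : G, g ^ p ^ k ∈ N := fun g => by
    rw [← QuotientGroup.eq_one_iff, QuotientGroup.mk_pow, ← hk, Subgroup.index_eq_card]
    exact pow_card_eq_one'
  -- the determinantal condition
  have hdet : ∀ (χ : IrrCharacter G) (D : G →* ℂˣ), (∀ g, (D g : ℂ) = detChar (χ : G → ℂ) g) →
      (¬ p ∣ detOrder (χ : G → ℂ) ↔ ∀ g, D g ^ m = 1) := by
    intro χ D hD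
    have heq : ∀ j : ℕ, detChar (χ : G → ℂ) ^ j = 1 ↔ ∀ g, D g ^ j = 1 := fun j => by
      rw [funext_iff]
      refine forall_congr' fun g => ?_
      rw [Pi.pow_apply, Pi.one_apply, ← hD, ← Units.val_pow_eq_pow_val, Units.val_eq_one]
    rw [← heq, detOrder]
    constructor
    · intro h
      have hc : Nat.Coprime (orderOf (detChar (χ : G → ℂ))) (p ^ (Nat.card G).factorization p) :=
        Nat.Coprime.pow_right _ (hp.coprime_iff_not_dvd.mpr h).symm
      refine orderOf_dvd_iff_pow_eq_one.mp (hc.dvd_of_dvd_mul_left ?_)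
      rw [hm, Nat.ordProj_mul_ordCompl_eq_self]
      refine orderOf_dvd_iff_pow_eq_one.mpr ((heq _).mpr fun g => ?_)
      rw [← map_pow, pow_card_eq_one', map_one]
    · intro h hd
      exact hp.not_dvd_one (hpm ▸ Nat.dvd_gcd dvd_rfl (hd.trans (orderOf_dvd_iff_pow_eq_one.mpr h)))
  -- the action of a Sylow subgroup
  obtain ⟨P⟩ : Nonempty (Sylow p G) := inferInstance
  letI : MulAction (P : Subgroup G) (IrrCharacter N) :=
    { smul := fun g θ => cjIrr θ (g : G)⁻¹
      one_smul := fun θ => by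
        show cjIrr θ ((1 : (P : Subgroup G)) : G)⁻¹ = θ
        rw [OneMemClass.coe_one, inv_one, cjIrr_one]
      mul_smul := fun a b θ => by
        show cjIrr θ ((a * b : (P : Subgroup G)) : G)⁻¹ = cjIrr (cjIrr θ (b : G)⁻¹) (a : G)⁻¹
        rw [cjIrr_cjIrr, Subgroup.coe_mul, mul_inv_rev] }
  have hdegcj : ∀ (θ : IrrCharacter N) (g : G), charDegree (cjIrr θ g : N → ℂ) = charDegree (θ : N → ℂ) :=
    fun θ g => charDegree_eq (by rw [coe_cjIrr, conjFn_eq_comp, coe_charDegree]; simp)
  have hinv : ∀ θ : IrrCharacter N, (∀ g : (P : Subgroup G), g • θ = θ) ↔ ∀ g : G, conjFn N (θ : N → ℂ) g = θ := by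
    intro θ
    constructor
    · intro h
      have htop : N ⊔ (P : Subgroup G) ≤ inertia N (θ : N → ℂ) := by
        refine sup_le (le_inertia θ.2.isClassFunction) fun g hg => ?_
        have h1 := congrArg Subtype.val (h ⟨g⁻¹, inv_mem hg⟩)
        rw [show ((⟨g⁻¹, inv_mem hg⟩ : (P : Subgroup G)) • θ) = cjIrr θ (g⁻¹)⁻¹ from rfl, inv_inv,
          coe_cjIrr] at h1
        exact mem_inertia.mpr h1
      intro g
      have hg : g ∈ N ⊔ (P : Subgroup G) := by
        rw [hNdef, Cfsg.Lib.Transfer.pResidual_sup_sylow]; exact Subgroup.mem_top g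
      exact mem_inertia.mp (htop hg)
    · intro h g
      refine Subtype.ext ?_
      show (cjIrr θ (g : G)⁻¹ : N → ℂ) = _
      rw [coe_cjIrr, h]
  have hsum : ((Nat.card N : ℕ) : ZMod p)
      = ∑ θ : IrrCharacter N with ∀ g : (P : Subgroup G), g • θ = θ,
          (charDegree (θ : N → ℂ) : ZMod p) ^ 2 := by
    rw [← sum_eq_sum_fixed P.isPGroup' (ZMod.natCast_self p) _ (fun g θ => by
      show (charDegree (cjIrr θ (g : G)⁻¹ : N → ℂ) : ZMod p) ^ 2 = _
      rw [hdegcj])]
    have h1 : ∑ θ : IrrCharacter N, charDegree (θ : N → ℂ) ^ 2 = Nat.card N := by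
      have h2 := sum_sq_degree (G := N)
      simp only [← coe_charDegree, ← Nat.cast_pow] at h2
      rw [← Nat.cast_sum] at h2
      exact_mod_cast h2
    rw [← h1, Nat.cast_sum]
    exact Finset.sum_congr rfl fun θ _ => Nat.cast_pow _ _
  rw [finsum_mem_eq_toFinset_sum, ← ZMod.intCast_eq_intCast_iff, Int.cast_natCast, hsum, Int.cast_sum]
  simp only [Int.cast_pow, Int.cast_natCast]
  symm
  rw [← Finset.sum_filter_of_ne (s := univ.filter fun θ : IrrCharacter N => ∀ g : (P : Subgroup G), g • θ = θ)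
    (p := fun θ => ¬ p ∣ charDegree (θ : N → ℂ)) (fun θ _ hne hd => hne (by
      rw [(ZMod.natCast_eq_zero_iff _ _).mpr hd, zero_pow two_ne_zero]))]
  -- the restriction is a bijection
  have hres : ∀ χ : IrrCharacter G, ¬ p ∣ charDegree (χ : G → ℂ) →
      ∃ θ : IrrCharacter N, (∀ n : N, (χ : G → ℂ) n = (θ : N → ℂ) n) ∧
        charDegree (θ : N → ℂ) = charDegree (χ : G → ℂ) := by
    intro χ hd
    obtain ⟨θ, hne⟩ := exists_res_constituent (N := N) χ
    obtain ⟨h1, h2⟩ := degree_dvd_of_normal θ.2 χ.2 hne (coe_charDegree χ).symm (coe_charDegree θ).symm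
    have hq : charDegree (χ : G → ℂ) / charDegree (θ : N → ℂ) = 1 := by
      refine Nat.eq_one_of_dvd_coprimes (Nat.Coprime.pow_left k ((hp.coprime_iff_not_dvd.mpr hd)))
        (hk ▸ h2) (Nat.div_dvd_of_dvd h1)
    have heq : charDegree (χ : G → ℂ) = charDegree (θ : N → ℂ) := by
      have := Nat.div_mul_cancel h1
      rw [hq, one_mul] at this
      exact this.symm
    have hfun := eq_of_constituent_degree_le (Φ := fun n : N => (χ : G → ℂ) n)
      (isCharacter_restrict χ.2.isCharacter N) θ.2 hne (coe_charDegree θ).symm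
      (coe_charDegree χ).symm heq.le
    exact ⟨θ, fun n => congrFun hfun n, heq.symm⟩
  refine Finset.sum_bij (fun χ hχ => (hres χ ((Set.mem_toFinset.mp hχ).1)).choose) ?_ ?_ ?_ ?_
  · intro χ hχ
    obtain ⟨h1, h2⟩ := (hres χ ((Set.mem_toFinset.mp hχ).1)).choose_spec
    refine Finset.mem_filter.mpr ⟨Finset.mem_filter.mpr ⟨Finset.mem_univ _, ?_⟩, ?_⟩
    · refine (hinv _).mpr fun g => ?_
      rw [show ((hres χ ((Set.mem_toFinset.mp hχ).1)).choose : N → ℂ) = fun n : N => (χ : G → ℂ) n from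
        funext fun n => (h1 n).symm]
      exact res_conjFn χ.2.isClassFunction g
    · rw [h2]; exact (Set.mem_toFinset.mp hχ).1
  · intro χ hχ χ' hχ' heq
    obtain ⟨hgood, ho⟩ := Set.mem_toFinset.mp hχ
    obtain ⟨-, ho'⟩ := Set.mem_toFinset.mp hχ'
    obtain ⟨h1, -⟩ := (hres χ hgood).choose_spec
    obtain ⟨h1', -⟩ := (hres χ' (Set.mem_toFinset.mp hχ').1).choose_spec
    obtain ⟨μ, hμ1, hμ⟩ := exists_linear_of_extensions χ.2 χ'.2
      (fun n => by rw [h1, h1']; exact congrArg (fun θ : IrrCharacter N => (θ : N → ℂ) n) heq.symm)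
      (by
        rw [show (fun n : N => (χ : G → ℂ) n) = ((hres χ hgood).choose : N → ℂ) from funext h1]
        exact (hres χ hgood).choose.2)
    obtain ⟨D, hD, -⟩ := exists_detHom χ.2.isCharacter
    obtain ⟨D', hD', -⟩ := exists_detHom χ'.2.isCharacter
    have hfun : (χ' : G → ℂ) = fun g => (μ g : ℂ) * (χ : G → ℂ) g := funext fun g => (hμ g).symm
    have hrel : ∀ g, D' g = μ g ^ charDegree (χ : G → ℂ) * D g := fun g => by
      refine Units.ext ?_
      rw [hD', Units.val_mul, Units.val_pow_eq_pow_val, hD, hfun,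
        detChar_linear_mul χ.2.isCharacter (coe_charDegree χ).symm]
    refine Subtype.ext (funext fun g => ?_)
    have hμg : μ g = 1 := by
      have e1 := (hdet χ D hD).mp ho g
      have e2 := (hdet χ' D' hD').mp ho' g
      rw [hrel, mul_pow, e1, mul_one, ← pow_mul] at e2
      have e3 : μ g ^ p ^ k = 1 := by rw [← map_pow]; exact hμ1 _ (hpk g)
      have hcop : Nat.Coprime (p ^ k) (charDegree (χ : G → ℂ) * m) :=
        Nat.Coprime.pow_left k (Nat.Coprime.mul_right (hp.coprime_iff_not_dvd.mpr hgood) hpm)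
      have h := pow_gcd_eq_one.mpr ⟨e3, e2⟩
      rwa [hcop, pow_one] at h
    simp [hfun, hμg]
  · intro θ hθ
    obtain ⟨hθ1, hθd⟩ := Finset.mem_filter.mp hθ
    have hfix := (hinv θ).mp (Finset.mem_filter.mp hθ1).2
    obtain ⟨Dθ, hDθ, -⟩ := exists_detHom θ.2.isCharacter
    obtain ⟨η, hη, hηθ⟩ := exists_extension_of_coprime θ.2 hfix (coe_charDegree θ).symm (m := m)
      (fun n => by rw [← hDθ, ← Units.val_pow_eq_pow_val, hDN, Units.val_one])
      (by rw [hk]; exact Nat.Coprime.pow_left k (Nat.Coprime.mul_right (hp.coprime_iff_not_dvd.mpr hθd) hpm))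
    have hη1 : η 1 = charDegree (θ : N → ℂ) := by rw [coe_charDegree]; exact hηθ 1
    obtain ⟨D, hD, -⟩ := exists_detHom hη.isCharacter
    set d := charDegree (θ : N → ℂ)
    obtain ⟨s, hs⟩ : ∃ s : ℕ, p ^ k ∣ s * (d * m) + 1 := by
      haveI : NeZero (p ^ k) := ⟨pow_ne_zero _ hp.ne_zero⟩
      have hu : IsUnit ((d * m : ℕ) : ZMod (p ^ k)) := (ZMod.isUnit_iff_coprime _ _).mpr
        (Nat.Coprime.pow_right k (Nat.Coprime.mul_left (hp.coprime_iff_not_dvd.mpr hθd).symm hpm.symm))
      obtain ⟨u, hu⟩ := hu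
      refine ⟨(-(↑u⁻¹ : ZMod (p ^ k))).val, (ZMod.natCast_eq_zero_iff _ _).mp ?_⟩
      push_cast
      rw [ZMod.natCast_zmod_val, ← Nat.cast_mul, ← hu, neg_mul, Units.inv_mul, neg_add_cancel]
    have hDpk : ∀ g, (D g ^ m) ^ p ^ k = 1 := fun g => by
      rw [← pow_mul, mul_comm, pow_mul, ← map_pow]
      have h3 := hDN (D.comp N.subtype) ⟨_, hpk g⟩
      exact h3
    let μ : G →* ℂˣ := (powMonoidHom (m * s)).comp D
    have hμN : ∀ n ∈ N, μ n = 1 := fun n hn => by
      show D n ^ (m * s) = 1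
      rw [pow_mul, show D n ^ m = 1 from hDN (D.comp N.subtype) ⟨n, hn⟩, one_pow]
    have hext : ∀ n : N, (fun g => (μ g : ℂ) * η g) (n : G) = (θ : N → ℂ) n := fun n => by
      show (μ n : ℂ) * η n = _
      rw [hμN _ n.2, Units.val_one, one_mul, hηθ]
    have hchar : IsCharacter G (fun g => (μ g : ℂ) * η g) :=
      isCharacter_mul (isIrrCharacter_linear μ).isCharacter hη.isCharacter
    set χ : IrrCharacter G := ⟨fun g => (μ g : ℂ) * η g,
      isIrrCharacter_of_comp N.subtype hchar (by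
        rw [show (fun n : N => (fun g => (μ g : ℂ) * η g) (N.subtype n)) = (θ : N → ℂ) from funext hext]
        exact θ.2)⟩
    have hχd : charDegree (χ : G → ℂ) = d := charDegree_eq (by
      show (μ 1 : ℂ) * η 1 = _
      rw [map_one, Units.val_one, one_mul, hη1])
    obtain ⟨D', hD', -⟩ := exists_detHom χ.2.isCharacter
    have ho : ¬ p ∣ detOrder (χ : G → ℂ) := (hdet χ D' hD').mpr fun g => by
      have hrel : D' g = μ g ^ d * D g := Units.ext (by
        rw [hD', Units.val_mul, Units.val_pow_eq_pow_val, hD]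
        exact detChar_linear_mul hη.isCharacter hη1 μ g)
      rw [hrel]
      show ((D g ^ (m * s)) ^ d * D g) ^ m = 1
      obtain ⟨t, ht⟩ := hs
      calc ((D g ^ (m * s)) ^ d * D g) ^ m = (D g ^ m) ^ (s * (d * m) + 1) := by
            rw [mul_pow, ← pow_mul, ← pow_mul, ← pow_add, ← pow_mul]; congr 1; ring
        _ = 1 := by rw [ht, pow_mul, hDpk, one_pow]
    have hgood : ¬ p ∣ charDegree (χ : G → ℂ) := by rwa [hχd]
    refine ⟨χ, Set.mem_toFinset.mpr ⟨hgood, ho⟩, ?_⟩
    refine Subtype.ext (funext fun n => ?_)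
    rw [← (hres χ hgood).choose_spec.1 n]
    exact hext n
  · intro χ hχ
    rw [(hres χ ((Set.mem_toFinset.mp hχ).1)).choose_spec.2]

end Cfsg.Agent.S4455
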