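import Cfsg.Statements.S4457
import Cfsg.Agent.Lib.Blocks.MonomialTaketa
import Mathlib.GroupTheory.SchurZassenhaus
-- import your own Cfsg.Agent.* helpers here

set_option autoImplicit false
open Cfsg

namespace Cfsg.Agent.S4457

open Cfsg.Lib.Characters Cfsg.Lib.Blocks.GaloisConj Cfsg.Lib.Blocks.MonomialTaketa
open scoped Classical ComplexConjugate commutatorElement

universe u

variable {G : Type u} [Group G] [Fintype G]

/-- A nilpotent group with two degrees is a p-group times an abelian group. -/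
theorem nilpotent_case (hnil : Group.IsNilpotent G) {m : ℕ} (hm1 : m ≠ 1)
    (hcd : ∀ χ : IrrCharacter G, charDegree (χ : G → ℂ) = 1 ∨ charDegree (χ : G → ℂ) = m)
    (hm : ∃ χ : IrrCharacter G, charDegree (χ : G → ℂ) = m) :
    ∃ p e : ℕ, p.Prime ∧ m = p ^ e ∧ ∃ P A : Subgroup G, P.Normal ∧ A.Normal ∧ IsPGroup p P ∧
      (∀ a ∈ A, ∀ b ∈ A, a * b = b * a) ∧ P ⊓ A = ⊥ ∧ P ⊔ A = ⊤ := by
  have hSn : ∀ (r : ℕ) (_ : Fact r.Prime) (P : Sylow r G), (P : Subgroup G).Normal :=
    ((Group.isNilpotent_of_finite_tfae (G := G)).out 0 3).1 hnil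
  obtain ⟨χ, hχ⟩ := hm
  have hm0 : m ≠ 0 := hχ ▸ (Cfsg.Lib.Blocks.charDegree_pos χ).ne'
  obtain ⟨p, hp, hpm⟩ := Nat.exists_prime_and_dvd hm1
  haveI := Fact.mk hp
  obtain ⟨P⟩ : Nonempty (Sylow p G) := inferInstance
  haveI hPn := hSn p inferInstance P
  obtain ⟨A, hA⟩ := Subgroup.exists_right_complement'_of_coprime (N := (P : Subgroup G)) P.card_coprime_index
  have hAP : A.index = Nat.card (P : Subgroup G) := hA.index_eq_card
  have hPA : Nat.card A = (P : Subgroup G).index := hA.symm.index_eq_card.symm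
  have hcomm : A ≤ Subgroup.centralizer ((P : Subgroup G) : Set G) := by
    have h : A ⊓ Subgroup.centralizer ((P : Subgroup G) : Set G) = A := by
      refine Subgroup.eq_of_le_of_card_ge inf_le_left (Nat.le_of_dvd Nat.card_pos ?_)
      rw [Nat.dvd_iff_prime_pow_dvd_dvd]
      intro r k hr hrk
      rcases Nat.eq_zero_or_pos k with rfl | hk
      · simp
      haveI := Fact.mk hr
      have hrp : r ≠ p := by
        rintro rfl
        exact P.not_dvd_index (hPA ▸ (dvd_pow_self r hk.ne').trans hrk)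
      obtain ⟨Q, hQ⟩ := Sylow.exists_subgroup_card_pow_prime (G := A) r hrk
      have hQp : IsPGroup r (Q.map A.subtype) := (IsPGroup.of_card hQ).map _
      obtain ⟨S, hS⟩ := hQp.exists_le_sylow
      haveI := hSn r inferInstance S
      have hd : Disjoint (S : Subgroup G) (P : Subgroup G) := IsPGroup.disjoint_of_coprime S.isPGroup' P.isPGroup'
        ((Nat.coprime_primes hr hp).2 hrp)
      have hle : Q.map A.subtype ≤ A ⊓ Subgroup.centralizer ((P : Subgroup G) : Set G) := fun x hx =>
        ⟨Subgroup.map_subtype_le Q hx, Subgroup.mem_centralizer_iff.2 fun y hy =>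
          (Subgroup.commute_of_normal_of_disjoint _ _ inferInstance hPn hd x y (hS hx) hy).eq.symm⟩
      have := Subgroup.card_dvd_of_le hle
      rwa [Subgroup.card_map_of_injective A.subtype_injective, hQ] at this
    exact h ▸ inf_le_right
  haveI hAn : A.Normal := ⟨fun a ha g => by
    obtain ⟨⟨⟨x, hx⟩, ⟨y, hy⟩⟩, hxy⟩ := hA.2 g
    have h1 : g = x * y := hxy.symm
    rw [h1, show x * y * a * (x * y)⁻¹ = x * (y * a * y⁻¹) * x⁻¹ by group]
    have hb : y * a * y⁻¹ ∈ A := A.mul_mem (A.mul_mem hy ha) (A.inv_mem hy)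
    rw [Subgroup.mem_centralizer_iff.1 (hcomm hb) x hx, mul_inv_cancel_right]
    exact hb⟩
  have hcopA : (Nat.card A).Coprime p := by
    rw [hPA, Nat.coprime_comm, hp.coprime_iff_not_dvd]
    exact P.not_dvd_index
  -- characters of the complement are linear
  have hlinA : ∀ θ : IrrCharacter A, (θ : A → ℂ) 1 = 1 := by
    intro θ
    let f : G ⧸ (P : Subgroup G) ≃* A := hA.symm.QuotientMulEquiv
    let χ' : IrrCharacter G := ⟨fun g => (θ : A → ℂ) (f.toMonoidHom (QuotientGroup.mk' (P : Subgroup G) g)),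
      isIrrCharacter_comp_surjective θ.2 (f.toMonoidHom.comp (QuotientGroup.mk' (P : Subgroup G)))
        (f.surjective.comp (QuotientGroup.mk'_surjective _))⟩
    have hdeg : charDegree (χ' : G → ℂ) = charDegree (θ : A → ℂ) := by simp [χ', charDegree]
    rw [deg_spec θ.2.isCharacter, ← hdeg]
    rcases hcd χ' with h | h
    · rw [h, Nat.cast_one]
    · exfalso
      have hd := Cfsg.Lib.Blocks.charDegree_dvd_card θ
      rw [← hdeg, h] at hd
      exact hp.ne_one (Nat.Coprime.eq_one_of_dvd (hcopA.coprime_dvd_left (hpm.trans hd)) dvd_rfl)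
  have hAab : ∀ a ∈ A, ∀ b ∈ A, a * b = b * a := by
    intro a ha b hb
    by_contra hne
    have h1 : ⁅(⟨a, ha⟩ : A), (⟨b, hb⟩ : A)⁆ ≠ (1 : A) := fun e =>
      hne (congrArg Subtype.val (commutatorElement_eq_one_iff_mul_comm.1 e))
    obtain ⟨θ, hθ⟩ := exists_irr_ne h1
    have hl : charDegree (θ : A → ℂ) = 1 := by
      have := hlinA θ
      rw [deg_spec θ.2.isCharacter] at this
      exact_mod_cast this
    exact hθ (apply_commutator_of_linear hl (Subgroup.commutator_mem_commutator (Subgroup.mem_top _) (Subgroup.mem_top _)))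
  haveI : IsMulCommutative A := ⟨⟨fun a b => Subtype.ext (hAab a a.2 b b.2)⟩⟩
  have hdvd : m ∣ A.index := by
    have := degree_dvd_index_of_abelian χ.2 A (d := m) (by rw [deg_spec χ.2.isCharacter, hχ])
    exact this
  obtain ⟨a, ha⟩ := IsPGroup.iff_card.1 P.isPGroup'
  rw [hAP, ha] at hdvd
  obtain ⟨e, -, he⟩ := (Nat.dvd_prime_pow hp).1 hdvd
  exact ⟨p, e, hp, he, P, A, hPn, hAn, P.isPGroup', hAab, disjoint_iff.1 hA.disjoint, hA.sup_eq_top⟩

/-- Let G be a finite group whose irreducible character degrees are exactly 1 and m (m ≠ 1). Then either G has an abelian normal subgroup of index m, or m is a power of a prime p and G is the direct product of a p-group and an abelian group: there are normal subgroups P and A with P a p-group, A abelian, P ⊓ A = 1 and P ⊔ A = G. -/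
theorem result {G : Type*} [Group G] [Finite G] (m : ℕ) (hcd : ∀ χ : Cfsg.IrrCharacter G, Cfsg.charDegree (χ : G → ℂ) = 1 ∨ Cfsg.charDegree (χ : G → ℂ) = m) (hm : ∃ χ : Cfsg.IrrCharacter G, Cfsg.charDegree (χ : G → ℂ) = m) (hm1 : m ≠ 1) : (∃ A : Subgroup G, A.Normal ∧ (∀ a ∈ A, ∀ b ∈ A, a * b = b * a) ∧ A.index = m) ∨ ∃ p e : ℕ, p.Prime ∧ m = p ^ e ∧ ∃ P A : Subgroup G, P.Normal ∧ A.Normal ∧ IsPGroup p P ∧ (∀ a ∈ A, ∀ b ∈ A, a * b = b * a) ∧ P ⊓ A = ⊥ ∧ P ⊔ A = ⊤ := by
  haveI : Fintype G := Fintype.ofFinite G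
  obtain ⟨χ₀, hχ₀⟩ := hm
  have hm0 : m ≠ 0 := hχ₀ ▸ (Cfsg.Lib.Blocks.charDegree_pos χ₀).ne'
  obtain ⟨N, hNn, hnil, hcopm, hcop, hlin⟩ := exists_abelian_nilpotent hm1 hm0 hcd
  by_cases hNZ : N ≤ Subgroup.center G
  · refine Or.inr (nilpotent_case ?_ hm1 hcd ⟨χ₀, hχ₀⟩)
    haveI := hnil
    exact Subgroup.isNilpotent_of_ker_le_center (QuotientGroup.mk' N) (by rwa [QuotientGroup.ker_mk'])
  left
  -- a complement and the projection onto it
  obtain ⟨R, hR⟩ := Subgroup.exists_right_complement'_of_coprime hcop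
  let π : G →* R := hR.symm.QuotientMulEquiv.toMonoidHom.comp (QuotientGroup.mk' N)
  have hπs : Function.Surjective π := hR.symm.QuotientMulEquiv.surjective.comp (QuotientGroup.mk'_surjective N)
  have hπN : ∀ n ∈ N, π n = 1 := fun n hn => by
    show hR.symm.QuotientMulEquiv (n : G ⧸ N) = 1
    rw [(QuotientGroup.eq_one_iff n).2 hn, map_one]
  have hdec : ∀ g : G, g * ((π g : R) : G)⁻¹ ∈ N := by
    intro g
    have h1 : ((((π g : R) : G)) : G ⧸ N) = (g : G ⧸ N) := by
      have h2 : hR.symm.QuotientMulEquiv.symm (π g) = (g : G ⧸ N) := hR.symm.QuotientMulEquiv.symm_apply_apply _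
      exact h2
    rw [← QuotientGroup.eq_one_iff, QuotientGroup.mk_mul, QuotientGroup.mk_inv, h1, mul_inv_cancel]
  have hπR : ∀ r : R, π (r : G) = r := fun r => by
    have h1 := hdec (r : G)
    have h2 : (r : G) * ((π (r : G) : R) : G)⁻¹ = 1 := Subgroup.disjoint_def.1 hR.disjoint h1 (mul_mem r.2 (inv_mem (π (r : G)).2))
    exact Subtype.ext (mul_inv_eq_one.1 h2).symm
  -- the action on linear characters of N
  let act : G → (N →* ℂˣ) → (N →* ℂˣ) := fun g f => f.comp (MulAut.conjNormal g⁻¹ : N ≃* N).toMonoidHom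
  have act_mul : ∀ g h f, act (g * h) f = act g (act h f) := fun g h f => by
    ext n
    show (f ((MulAut.conjNormal (g * h)⁻¹ : N ≃* N) n) : ℂ) = (f ((MulAut.conjNormal h⁻¹ : N ≃* N) ((MulAut.conjNormal g⁻¹ : N ≃* N) n)) : ℂ)
    rw [mul_inv_rev, map_mul]
    rfl
  have act_one : ∀ f, act 1 f = f := fun f => by ext n; simp [act]
  have act_pi : ∀ g (f f' : N →* ℂˣ), act g (f * f') = act g f * act g f' := fun g f f' => rfl
  have hact : ∀ (g : G) (f : N →* ℂˣ) (n : N), act g f n = f ⟨g⁻¹ * n * g, by simpa using hNn.conj_mem n n.2 g⁻¹⟩ := fun g f n => by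
    show f ((MulAut.conjNormal g⁻¹ : N ≃* N) n) = _
    congr 1
    exact Subtype.ext (by simp [MulAut.conjNormal_apply])
  have hdiv : ∀ u (a b : N →* ℂˣ), act u (a / b) = act u a / act u b := fun u a b => rfl
  have hpow : ∀ u (a : N →* ℂˣ) (i : ℕ), act u (a ^ i) = act u a ^ i := fun u a i => rfl
  let T : (N →* ℂˣ) → Subgroup G := fun f => {
    carrier := {g | act g f = f}
    one_mem' := act_one f
    mul_mem' := fun {a b} ha hb => by simp only [Set.mem_setOf_eq] at *; rw [act_mul, hb, ha]
    inv_mem' := fun {a} ha => by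
      simp only [Set.mem_setOf_eq] at *
      conv_lhs => rw [← ha]
      rw [← act_mul, inv_mul_cancel, act_one] }
  have hNc : ∀ a b : N, a * b = b * a := fun a b => by
    by_contra hne
    obtain ⟨θ, hθ⟩ := exists_irr_ne (fun e => hne (commutatorElement_eq_one_iff_mul_comm.1 e) : ⁅a, b⁆ ≠ 1)
    have hl : charDegree (θ : N → ℂ) = 1 := by
      have := hlin θ
      rw [deg_spec θ.2.isCharacter] at this
      exact_mod_cast this
    exact hθ (apply_commutator_of_linear hl (Subgroup.commutator_mem_commutator (Subgroup.mem_top _) (Subgroup.mem_top _)))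
  have hNT : ∀ f, N ≤ T f := fun f x hx => by
    show act x f = f
    ext n
    have : (MulAut.conjNormal x⁻¹ : N ≃* N) n = n := Subtype.ext (by
      rw [MulAut.conjNormal_apply, inv_inv]
      have := congrArg Subtype.val (hNc ⟨x, hx⟩ n)
      simp only [Subgroup.coe_mul] at this
      rw [mul_assoc, ← this, inv_mul_cancel_left])
    show ((f ((MulAut.conjNormal x⁻¹ : N ≃* N) n) : ℂˣ) : ℂ) = _
    rw [this]
  have hproj : ∀ f, ∀ t ∈ T f, ((π t : R) : G) ∈ T f := fun f t ht => by
    have h1 := (T f).mul_mem ((T f).inv_mem (hNT f (hdec t))) ht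
    simpa using h1
  -- index of the stabilizers
  have key : ∀ f, T f ≠ ⊤ → (T f).index = m ∧ commutator G ≤ T f ∧
      ∀ a ∈ T f, ∀ b ∈ T f, π a * π b = π b * π a := by
    intro f hf
    let lam : T f →* ℂˣ := MonoidHom.mk' (fun t => f ⟨(t : G) * ((π (t : G) : R) : G)⁻¹, hdec t⟩) fun a b => by
      have hinv : ∀ n : N, f ((MulAut.conjNormal ((π (a : G) : R) : G) : N ≃* N) n) = f n := fun n => by
        have h1 : act (((π (a : G) : R) : G)⁻¹) f = f := (T f).inv_mem (hproj f a a.2)
        have h2 := DFunLike.congr_fun h1 n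
        simpa [act] using h2
      have h3 := hinv ⟨(b : G) * ((π (b : G) : R) : G)⁻¹, hdec b⟩
      rw [← h3, ← map_mul]
      congr 1
      refine Subtype.ext ?_
      simp only [Subgroup.coe_mul, MulAut.conjNormal_apply, map_mul]
      group
    have hlam : ∀ n : N, lam ⟨n, hNT f n.2⟩ = f n := fun n => by
      show f _ = f n
      congr 1
      exact Subtype.ext (by show (n : G) * _ = (n : G); rw [hπN n n.2]; simp)
    have hθ := isIrrCharacter_linear f
    have hTi : T f = inertia N (fun n => (f n : ℂ)) := by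
      ext g
      rw [mem_inertia]
      constructor
      · intro hg
        funext n
        rw [conjFn_apply]
        have h1 := DFunLike.congr_fun ((T f).inv_mem hg : act g⁻¹ f = f) n
        rw [hact] at h1
        refine Eq.trans ?_ (congrArg Units.val h1)
        congr 2
        exact Subtype.ext (by simp)
      · intro hg
        have hg' : conjFn N (fun n => (f n : ℂ)) g⁻¹ = fun n => (f n : ℂ) := (inertia N (fun n => (f n : ℂ))).inv_mem (show g ∈ inertia N _ from hg)
        show act g f = f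
        refine MonoidHom.ext fun n => Units.ext ?_
        rw [hact]
        have h1 := congrFun hg' n
        rw [conjFn_apply] at h1
        refine Eq.trans ?_ h1
        show ((f _ : ℂˣ) : ℂ) = ((f _ : ℂˣ) : ℂ)
        congr 2
        exact Subtype.ext (by simp)
    -- every extension to the stabilizer induces irreducibly
    have hext : ∀ φ : T f → ℂ, IsIrrCharacter (T f) φ →
        classInner (fun n : N => φ ⟨(n : G), hNT f n.2⟩) (fun n => (f n : ℂ)) ≠ 0 →
        IsIrrCharacter G (indFun (T f) φ) := fun φ hφ h => (indFun_of_mem_inertia hθ (T f) hTi (hNT f) hφ h).1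
    have hlamc : classInner (fun n : N => ((lam ⟨(n : G), hNT f n.2⟩ : ℂˣ) : ℂ)) (fun n => (f n : ℂ)) ≠ 0 := by
      simp only [hlam]
      rw [classInner_irr_self hθ]
      exact one_ne_zero
    have hind := hext _ (isIrrCharacter_linear lam) hlamc
    have hidx : (T f).index = m := by
      have h1 : charDegree (indFun (T f) (fun t => ((lam t : ℂˣ) : ℂ))) = (T f).index := by
        simp [charDegree, indFun_one_apply]
      rcases hcd ⟨_, hind⟩ with h | h
      · exact absurd (Subgroup.index_eq_one.1 (h1.symm.trans h)) hf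
      · exact h1.symm.trans h
    have hG' : commutator G ≤ T f := by
      intro g hg
      have hηc : IsCharacter G (indFun (T f) (fun _ : T f => (1 : ℂ))) := isCharacter_indFun _ isIrrCharacter_one.isCharacter
      exact commutator_le_of_index (T f) hidx hcd hg
    refine ⟨hidx, hG', fun a ha b hb => ?_⟩
    by_contra hne
    let S := (T f).subgroupOf R
    let πT : T f →* S := MonoidHom.mk' (fun t => ⟨π (t : G), hproj f t t.2⟩) fun x y => Subtype.ext (map_mul π (x : G) y)
    have hπTs : Function.Surjective πT := fun z => ⟨⟨((z : R) : G), z.2⟩, Subtype.ext (hπR z)⟩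
    have h1 : ⁅πT ⟨a, ha⟩, πT ⟨b, hb⟩⁆ ≠ 1 := fun e =>
      hne (congrArg Subtype.val (commutatorElement_eq_one_iff_mul_comm.1 e))
    obtain ⟨μ, hμ⟩ := exists_irr_ne h1
    have hμ1 : charDegree (μ : S → ℂ) = 1 := by
      have hirr : IsIrrCharacter (T f) ((fun t => ((lam t : ℂˣ) : ℂ)) * fun t => (μ : S → ℂ) (πT t)) :=
        isIrrCharacter_mul_linear (isIrrCharacter_comp_surjective μ.2 πT hπTs) (isIrrCharacter_linear lam).isCharacter (by simp)
      have hi := hext _ hirr (by
        have hp1 : ∀ n : N, πT ⟨(n : G), hNT f n.2⟩ = 1 := fun n => Subtype.ext (hπN n n.2)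
        simp only [Pi.mul_apply, hp1, hlam]
        rw [show (fun n : N => (f n : ℂ) * (μ : S → ℂ) 1) = ((μ : S → ℂ) 1) • (fun n : N => (f n : ℂ)) by
          funext n; simp [mul_comm], classInner_smul_left, classInner_irr_self hθ, mul_one]
        exact μ.2.one_ne_zero)
      obtain ⟨dμ, hdμ⟩ := exists_degree μ.2.isCharacter
      have h2 : charDegree (indFun (T f) ((fun t => ((lam t : ℂˣ) : ℂ)) * fun t => (μ : S → ℂ) (πT t))) = m * dμ := by
        have h4 : indFun (T f) ((fun t => ((lam t : ℂˣ) : ℂ)) * fun t => (μ : S → ℂ) (πT t)) 1 = ((m * dμ : ℕ) : ℂ) := by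
          rw [indFun_one_apply, Pi.mul_apply, map_one, map_one, hdμ, hidx]; simp
        rw [charDegree, h4, Complex.natCast_re, Nat.floor_natCast]
      have h3 : charDegree (μ : S → ℂ) = dμ := by rw [charDegree, hdμ]; simp
      rcases hcd ⟨_, hi⟩ with h | h
      · exact h3.trans (Nat.eq_one_of_mul_eq_one_left (h2.symm.trans h))
      · exact h3.trans (Nat.eq_of_mul_eq_mul_left (Nat.pos_of_ne_zero hm0) ((h2.symm.trans h).trans (mul_one m).symm))
    exact hμ (apply_commutator_of_linear hμ1 (Subgroup.commutator_mem_commutator (Subgroup.mem_top _) (Subgroup.mem_top _)))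
  -- a noncentral linear character
  have hsep : ∀ n : N, (∀ f : N →* ℂˣ, f n = 1) → n = 1 := fun n h => by
    by_contra hn
    haveI : IsMulCommutative N := ⟨⟨hNc⟩⟩
    obtain ⟨θ, hθ⟩ := exists_irr_ne hn
    obtain ⟨f, hf⟩ := exists_hom_of_degree_one θ.2.isCharacter (hlin θ)
    refine hθ ?_
    rw [hf]
    show ((f n : ℂˣ) : ℂ) = ((f 1 : ℂˣ) : ℂ)
    rw [h f, map_one]
  have hcentral : ∀ g : G, (∀ f, g ∈ T f) → ∀ n ∈ N, g * n = n * g := by
    intro g hg n hn
    have h1 : (MulAut.conjNormal g⁻¹ : N ≃* N) ⟨n, hn⟩ * (⟨n, hn⟩ : N)⁻¹ = 1 := hsep _ fun f => by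
      rw [map_mul, map_inv f]
      exact mul_inv_eq_one.2 (DFunLike.congr_fun (hg f : act g f = f) ⟨n, hn⟩)
    have h2 := congrArg Subtype.val (mul_inv_eq_one.1 h1)
    rw [MulAut.conjNormal_apply, inv_inv] at h2
    calc g * n = g * (g⁻¹ * n * g) := by rw [h2]
      _ = n * g := by group
  obtain ⟨f₁, hf₁⟩ : ∃ f, T f ≠ ⊤ := by
    by_contra! hall
    exact hNZ fun n hn => Subgroup.mem_center_iff.2 fun g => hcentral g (fun f => (hall f).symm ▸ Subgroup.mem_top g) n hn
  -- all the stabilizers coincide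
  have heq : ∀ f, T f ≠ ⊤ → T f = T f₁ := by
    intro f₂ hf₂
    by_contra hne
    let k := Nat.card R
    let Nm : (N →* ℂˣ) → (N →* ℂˣ) := fun f => ∏ r : R, act (r : G) f
    have hNm : ∀ (g : G) f, act g (Nm f) = Nm f := by
      intro g f
      let ag : (N →* ℂˣ) →* (N →* ℂˣ) := MonoidHom.mk' (act g) (act_pi g)
      show ag (∏ r : R, act (r : G) f) = _
      rw [map_prod]
      refine Fintype.prod_equiv (Equiv.mulLeft (π g)) _ _ fun r => ?_
      show act g (act (r : G) f) = act ((π g * r : R) : G) f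
      rw [Subgroup.coe_mul, ← act_mul]
      have hfix : ∀ x ∈ N, ∀ u, act (x * u) f = act u f := fun x hx u => by
        rw [act_mul]
        exact hNT (act u f) hx
      conv_lhs => rw [show g * (r : G) = (g * ((π g : R) : G)⁻¹) * (((π g : R) : G) * r) by group, hfix _ (hdec g)]
    have hcopN : ∀ f : N →* ℂˣ, f ^ k = 1 → f = 1 := by
      intro f hf
      refine MonoidHom.ext fun n => ?_
      have h1 : f n ^ k = 1 := DFunLike.congr_fun hf n
      have h2 : f n ^ Nat.card N = 1 := by rw [← map_pow, pow_card_eq_one', map_one]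
      have hk : k = N.index := (hR.symm.index_eq_card).symm
      rw [MonoidHom.one_apply, ← orderOf_eq_one_iff]
      exact Nat.eq_one_of_dvd_coprimes (hk ▸ hcop) (orderOf_dvd_of_pow_eq_one h2) (orderOf_dvd_of_pow_eq_one h1)
    have hprod : ∀ a b : R → (N →* ℂˣ), ∏ r, a r / b r = (∏ r, a r) / ∏ r, b r := fun a b => MonoidHom.ext fun n => by
      simp [MonoidHom.finset_prod_apply, MonoidHom.div_apply, Finset.prod_div_distrib]
    let w : (N →* ℂˣ) → (N →* ℂˣ) := fun f => f ^ k / Nm f
    have hw : ∀ g f, act g f = f → act g (w f) = w f := fun g f h => by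
      show act g (f ^ k / Nm f) = f ^ k / Nm f
      rw [hdiv, hpow, h, hNm g f]
    have hw' : ∀ g f, act g (w f) = w f → act g f = f := fun g f h => by
      have h1 : act g (f ^ k / Nm f) = f ^ k / Nm f := h
      rw [hdiv, hpow, hNm g f] at h1
      have h2 : act g f ^ k = f ^ k := div_left_injective h1
      have h3 : (act g f / f) ^ k = 1 := MonoidHom.ext fun n => by
        have h5 := DFunLike.congr_fun h2 n
        simp only [MonoidHom.pow_apply, MonoidHom.div_apply, MonoidHom.one_apply] at h5 ⊢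
        rw [div_pow, h5, div_self']
      exact div_eq_one.1 (hcopN _ h3)
    have hNw : ∀ f, Nm (w f) = 1 := fun f => by
      show ∏ r : R, act (r : G) (f ^ k / Nm f) = 1
      have h1 : ∀ r : R, act (r : G) (f ^ k / Nm f) = (act (r : G) f) ^ k / Nm f := fun r => by
        rw [hdiv, hpow, hNm r f]
      rw [Finset.prod_congr rfl fun r _ => h1 r]
      refine (hprod _ _).trans ?_
      rw [Finset.prod_pow, Finset.prod_const, Finset.card_univ, ← Nat.card_eq_fintype_card]
      exact MonoidHom.ext fun n => by simp [MonoidHom.div_apply, k, Nm]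
    set W := w f₁ * w f₂
    obtain ⟨hi₁, hG₁, -⟩ := key f₁ hf₁
    obtain ⟨hi₂, hG₂, -⟩ := key f₂ hf₂
    haveI : (T f₁).Normal := Subgroup.Normal.of_commutator_le G hG₁
    haveI : (T f₂).Normal := Subgroup.Normal.of_commutator_le G hG₂
    have hWT : ∀ g, g ∈ T W → g ∈ T f₁ ⊓ T f₂ := by
      intro g hg
      let x := act g (w f₁) / w f₁
      have hx : x = w f₂ / act g (w f₂) := by
        have h1 : act g (w f₁) * act g (w f₂) = w f₁ * w f₂ := (act_pi g _ _).symm.trans hg
        show act g (w f₁) / w f₁ = _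
        refine MonoidHom.ext fun n => ?_
        have h5 := DFunLike.congr_fun h1 n
        simp only [MonoidHom.mul_apply, MonoidHom.div_apply] at h5 ⊢
        rw [div_eq_div_iff_mul_eq_mul, h5, mul_comm]
      have hfix : ∀ f, ∀ u ∈ T f, [(T f).Normal] → act u (act g (w f)) = act g (w f) := fun f u hu _ => by
        have h1 : g⁻¹ * u * g ∈ T f := by
          have := Subgroup.Normal.conj_mem (inferInstance : (T f).Normal) u hu g⁻¹
          simpa using this
        calc act u (act g (w f)) = act g (act (g⁻¹ * u * g) (w f)) := by rw [← act_mul, ← act_mul]; group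
          _ = _ := by rw [hw _ _ h1]
      have hx1 : T f₁ ≤ T x := fun u hu => by
        show act u (act g (w f₁) / w f₁) = _
        rw [hdiv]
        rw [hfix f₁ u hu, hw u f₁ hu]
      have hx2 : T f₂ ≤ T x := fun u hu => by
        show act u x = x
        rw [hx]
        rw [hdiv]
        rw [hfix f₂ u hu, hw u f₂ hu]
      have hxT : T x = ⊤ := by
        by_contra hxne
        have hi := (key x hxne).1
        have e1 : T f₁ = T x := by
          refine le_antisymm hx1 ?_
          rw [← Subgroup.relIndex_eq_one]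
          have := Subgroup.relIndex_mul_index hx1
          rw [hi, hi₁] at this
          exact Nat.eq_of_mul_eq_mul_right (Nat.pos_of_ne_zero hm0) (this.trans (one_mul m).symm)
        refine hne ?_
        rw [← e1] at hx2
        refine le_antisymm hx2 ?_
        rw [← Subgroup.relIndex_eq_one]
        have := Subgroup.relIndex_mul_index hx2
        rw [hi₁, hi₂] at this
        exact Nat.eq_of_mul_eq_mul_right (Nat.pos_of_ne_zero hm0) (this.trans (one_mul m).symm)
      have hx0 : x = 1 := by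
        refine hcopN x ?_
        have h1 : Nm x = x ^ k := by
          show ∏ r : R, act (r : G) x = _
          rw [Finset.prod_congr rfl fun (r : R) _ => (show act (r : G) x = x from (hxT.symm ▸ Subgroup.mem_top (r : G) : (r : G) ∈ T x)),
            Finset.prod_const, Finset.card_univ, ← Nat.card_eq_fintype_card]
        rw [← h1]
        show ∏ r : R, act (r : G) (act g (w f₁) / w f₁) = 1
        have h2 : ∀ r : R, act (r : G) (act g (w f₁) / w f₁) = act g (act (g⁻¹ * r * g) (w f₁)) / act (r : G) (w f₁) := fun r => by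
          rw [hdiv, ← act_mul g, show g * (g⁻¹ * (r : G) * g) = (r : G) * g by group, act_mul]
        rw [Finset.prod_congr rfl fun r _ => h2 r]
        refine (hprod _ _).trans ?_
        let ag : (N →* ℂˣ) →* (N →* ℂˣ) := MonoidHom.mk' (act g) (act_pi g)
        have h3 : ∏ r : R, act g (act (g⁻¹ * r * g) (w f₁)) = ag (Nm (w f₁)) := by
          show _ = ag (∏ r : R, act (r : G) (w f₁))
          rw [map_prod]
          refine Fintype.prod_equiv ((MulAut.conj (π g)⁻¹).toEquiv) _ _ fun r => ?_
          show act g (act (g⁻¹ * r * g) (w f₁)) = act g (act (((π g)⁻¹ * r * (π g)⁻¹⁻¹ : R) : G) (w f₁))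
          congr 1
          have hfx : ∀ a b : G, π a = π b → act a (w f₁) = act b (w f₁) := fun a b hab => by
            have hn : a * b⁻¹ ∈ N := by
              have := hdec (a * b⁻¹)
              rwa [map_mul, map_inv, hab, mul_inv_cancel, OneMemClass.coe_one, inv_one, mul_one] at this
            conv_lhs => rw [show a = a * b⁻¹ * b by group, act_mul]
            exact hNT (act b (w f₁)) hn
          refine hfx _ _ ?_
          rw [map_mul, map_mul, map_inv, hπR, hπR, inv_inv]
        rw [h3, hNw, map_one]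
        show (1 : N →* ℂˣ) / Nm (w f₁) = 1
        rw [hNw]
        exact MonoidHom.ext fun n => by simp [MonoidHom.div_apply]
      refine ⟨hw' g f₁ (div_eq_one.1 hx0), hw' g f₂ ?_⟩
      exact (div_eq_one.1 (hx ▸ hx0)).symm
    have hlt : (T f₁).index < (T W).index := by
      refine lt_of_lt_of_le (Subgroup.index_strictAnti (lt_of_le_of_ne (inf_le_left : T f₁ ⊓ T f₂ ≤ T f₁) fun e => ?_))
        (Nat.le_of_dvd (Nat.pos_of_ne_zero Subgroup.index_ne_zero_of_finite) (Subgroup.index_dvd_of_le hWT))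
      have hle : T f₁ ≤ T f₂ := e ▸ inf_le_right
      refine hne (le_antisymm ?_ hle)
      rw [← Subgroup.relIndex_eq_one]
      have := Subgroup.relIndex_mul_index hle
      rw [hi₁, hi₂] at this
      exact Nat.eq_of_mul_eq_mul_right (Nat.pos_of_ne_zero hm0) (this.trans (one_mul m).symm)
    by_cases hWt : T W = ⊤
    · rw [hWt, Subgroup.index_top, hi₁] at hlt
      omega
    · rw [(key W hWt).1, hi₁] at hlt
      exact lt_irrefl _ hlt
  obtain ⟨hi₁, hG₁, hab⟩ := key f₁ hf₁
  refine ⟨T f₁, Subgroup.Normal.of_commutator_le G hG₁, fun a ha b hb => ?_, hi₁⟩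
  have hcN : ∀ g ∈ T f₁, ∀ n ∈ N, g * n = n * g := fun g hg => hcentral g fun f => by
    by_cases h : T f = ⊤
    · rw [h]; exact Subgroup.mem_top g
    · rw [heq f h]; exact hg
  obtain ⟨na, hna, ea⟩ : ∃ n ∈ N, a = n * ((π a : R) : G) := ⟨_, hdec a, by group⟩
  obtain ⟨nb, hnb, eb⟩ : ∃ n ∈ N, b = n * ((π b : R) : G) := ⟨_, hdec b, by group⟩
  have c1 : Commute ((π a : R) : G) nb := hcN _ (hproj f₁ a ha) nb hnb
  have c2 : Commute ((π b : R) : G) na := hcN _ (hproj f₁ b hb) na hna
  have c3 : Commute ((π a : R) : G) ((π b : R) : G) := congrArg Subtype.val (hab a ha b hb)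
  have c4 : Commute na nb := congrArg Subtype.val (hNc ⟨na, hna⟩ ⟨nb, hnb⟩)
  rw [ea, eb]
  exact ((c4.mul_right c2.symm).mul_left (c1.mul_right c3)).eq

end Cfsg.Agent.S4457
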