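import Cfsg.Statements.S4459
import Cfsg.Agent.Lib.Blocks.TwoDegreesPGroup
import Cfsg.Agent.Lib.Blocks.Codegree
import Cfsg.Agent.Lib.Transfer.PGroupFrattini
import Cfsg.Agent.S4457

set_option autoImplicit false
open Cfsg

namespace Cfsg.Agent.S4459

open Cfsg.Lib.Characters Cfsg.Lib.Blocks.GaloisConj
open scoped Classical commutatorElement

/-- Let G be a non-abelian finite group and p a prime. Then the irreducible character degrees of G are exactly 1 and p if and only if either G has an abelian normal subgroup of index p or the centre of G has index p³. -/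
theorem result {G : Type*} [Group G] [Finite G] (hG : ∃ a b : G, a * b ≠ b * a) (p : ℕ) (hp : p.Prime) : ((∀ χ : Cfsg.IrrCharacter G, Cfsg.charDegree (χ : G → ℂ) = 1 ∨ Cfsg.charDegree (χ : G → ℂ) = p) ∧ ∃ χ : Cfsg.IrrCharacter G, Cfsg.charDegree (χ : G → ℂ) = p) ↔ ((∃ A : Subgroup G, A.Normal ∧ (∀ a ∈ A, ∀ b ∈ A, a * b = b * a) ∧ A.index = p) ∨ (Subgroup.center G).index = p ^ 3) := by
  haveI : Fintype G := Fintype.ofFinite G
  haveI := Fact.mk hp
  obtain ⟨a₀, b₀, hab₀⟩ := hG
  constructor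
  · rintro ⟨hcd, hm⟩
    rcases Cfsg.Agent.S4457.result p hcd hm hp.ne_one with h | ⟨q, e, hq, he, P, A, hPn, hAn, hPq, hAab, hdis, hsup⟩
    · exact Or.inl h
    have hqp : q = p := by
      rcases e with _ | e
      · exact absurd he (by rw [pow_zero]; exact hp.ne_one)
      · exact (Nat.prime_dvd_prime_iff_eq hq hp).1 (he ▸ dvd_pow_self q e.succ_ne_zero)
    subst hqp
    haveI := hPn
    haveI := hAn
    let π := QuotientGroup.mk' A
    have hdec : ∀ g : G, ∃ u ∈ P, ∃ v ∈ A, u * v = g := fun g =>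
      Subgroup.mem_sup_of_normal_right.1 (hsup ▸ Subgroup.mem_top g)
    have hGP : ∀ a b : G, ⁅a, b⁆ ∈ P := by
      intro a b
      obtain ⟨u₁, hu₁, v₁, hv₁, rfl⟩ := hdec a
      obtain ⟨u₂, hu₂, v₂, hv₂, rfl⟩ := hdec b
      rw [← QuotientGroup.eq_one_iff]
      show QuotientGroup.mk' P ⁅u₁ * v₁, u₂ * v₂⁆ = 1
      have e : ∀ u ∈ P, ∀ v : G, QuotientGroup.mk' P (u * v) = QuotientGroup.mk' P v := fun u hu v => by
        rw [map_mul, show QuotientGroup.mk' P u = 1 from (QuotientGroup.eq_one_iff u).2 hu, one_mul]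
      rw [map_commutatorElement, e _ hu₁, e _ hu₂, ← map_commutatorElement,
        commutatorElement_eq_one_iff_mul_comm.2 (hAab _ hv₁ _ hv₂), map_one]
    have hlift : ∀ a b : G, π a * π b = π b * π a → a * b = b * a := fun a b h => by
      rw [← commutatorElement_eq_one_iff_mul_comm] at h ⊢
      rw [← map_commutatorElement] at h
      have : ⁅a, b⁆ ∈ P ⊓ A := ⟨hGP a b, (QuotientGroup.eq_one_iff _).1 h⟩
      rwa [hdis, Subgroup.mem_bot] at this
    have hX : IsPGroup q (G ⧸ A) := hPq.of_surjective (π.comp P.subtype) fun x => by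
      obtain ⟨g, rfl⟩ := QuotientGroup.mk'_surjective A x
      obtain ⟨u, hu, v, hv, rfl⟩ := hdec g
      refine ⟨⟨u, hu⟩, ?_⟩
      show π u = π (u * v)
      rw [map_mul, show π v = 1 from (QuotientGroup.eq_one_iff v).2 hv, mul_one]
    haveI : Fintype (G ⧸ A) := Fintype.ofFinite _
    have hcdX : ∀ χ : IrrCharacter (G ⧸ A), charDegree (χ : G ⧸ A → ℂ) = 1 ∨ charDegree (χ : G ⧸ A → ℂ) = q := fun χ => by
      have := hcd ⟨fun g => (χ : G ⧸ A → ℂ) (π g), isIrrCharacter_comp_surjective χ.2 π (QuotientGroup.mk'_surjective A)⟩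
      simpa [charDegree] using this
    rcases Cfsg.Lib.Blocks.TwoDegrees.pgroup_two_degrees hX hcdX
        ⟨π a₀, π b₀, fun h => hab₀ (hlift _ _ h)⟩ with ⟨B, hBab, hBi⟩ | hc
    · left
      have hBn : B.Normal := (Cfsg.Lib.Transfer.coatom_normal_index hX ⟨fun h => hp.ne_one (by rw [← hBi, h, Subgroup.index_top]),
        fun C hC => (Cfsg.Lib.Blocks.TwoDegrees.eq_or_eq_top hC.le hBi).resolve_left hC.ne⟩).1
      exact ⟨B.comap π, hBn.comap π, fun a ha b hb => hlift a b (hBab _ ha _ hb),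
        (Subgroup.index_comap_of_surjective B (QuotientGroup.mk'_surjective A)).trans hBi⟩
    · right
      have : Subgroup.center G = (Subgroup.center (G ⧸ A)).comap π := by
        ext g
        rw [Subgroup.mem_comap, Subgroup.mem_center_iff, Subgroup.mem_center_iff]
        refine ⟨fun h x => ?_, fun h x => hlift x g (h (π x))⟩
        obtain ⟨y, rfl⟩ := QuotientGroup.mk'_surjective A x
        rw [← map_mul, ← map_mul, h y]
      rw [this, Subgroup.index_comap_of_surjective _ (QuotientGroup.mk'_surjective A), hc]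
  · intro h
    have hcd : ∀ χ : IrrCharacter G, charDegree (χ : G → ℂ) = 1 ∨ charDegree (χ : G → ℂ) = p := by
      intro χ
      rcases h with ⟨A, hAn, hAab, hAi⟩ | hc
      · haveI := hAn
        haveI : IsMulCommutative A := ⟨⟨fun a b => Subtype.ext (hAab a a.2 b b.2)⟩⟩
        exact (Nat.dvd_prime hp).1 (hAi ▸ degree_dvd_index_of_abelian χ.2 A (deg_spec χ.2.isCharacter))
      · haveI : IsMulCommutative (Subgroup.center G) := ⟨⟨fun a b => Subtype.ext (Subgroup.mem_center_iff.1 b.2 a)⟩⟩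
        have hd := degree_dvd_index_of_abelian χ.2 (Subgroup.center G) (deg_spec χ.2.isCharacter)
        rw [hc] at hd
        have hle := Cfsg.Lib.Blocks.degree_sq_le χ.2 (deg_spec χ.2.isCharacter) (Subgroup.center G) fun z hz => norm_central χ hz
        rw [← Subgroup.card_mul_index (Subgroup.center G), hc] at hle
        have h2 := Nat.le_of_mul_le_mul_left hle Nat.card_pos
        obtain ⟨i, -, he⟩ := (Nat.dvd_prime_pow hp).1 hd
        rw [he, ← pow_mul] at h2
        have hi := (Nat.pow_le_pow_iff_right hp.one_lt).1 h2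
        rcases (show i = 0 ∨ i = 1 by omega) with rfl | rfl
        · exact Or.inl (by rw [he, pow_zero])
        · exact Or.inr (by rw [he, pow_one])
    refine ⟨hcd, ?_⟩
    obtain ⟨χ, hχ⟩ := exists_irr_ne (fun e => hab₀ (commutatorElement_eq_one_iff_mul_comm.1 e) : ⁅a₀, b₀⁆ ≠ 1)
    exact ⟨χ, (hcd χ).resolve_left fun h1 => hχ (apply_commutator_of_linear h1
      (Subgroup.commutator_mem_commutator (Subgroup.mem_top _) (Subgroup.mem_top _)))⟩

end Cfsg.Agent.S4459
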