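import Cfsg.Statements.S4470
import Mathlib
import Cfsg.Agent.Lib.Blocks.SmallRotations
import Cfsg.Agent.Lib.Blocks.Principal

set_option autoImplicit false
open Cfsg

namespace Cfsg.Agent.S4470

open Matrix
open scoped ComplexConjugate ComplexOrder
open Cfsg.Lib.Blocks

/-- Two unit complex numbers in the same twelfth of the circle have a quotient near one. -/
theorem re_div_gt {x y : ℂ} (hx : ‖x‖ = 1) (hy : ‖y‖ = 1)
    (h : ((⌊(6 / Real.pi) * Complex.arg x⌋ : ℤ) : ZMod 12) = ((⌊(6 / Real.pi) * Complex.arg y⌋ : ℤ) : ZMod 12)) :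
    Real.sqrt 3 / 2 < (x * conj y).re := by
  obtain ⟨k, hk⟩ := (ZMod.intCast_eq_intCast_iff_dvd_sub _ _ 12).mp h
  set a := Complex.arg x
  set b := Complex.arg y
  have ex : x = Complex.exp (a * Complex.I) := by
    conv_lhs => rw [← Complex.norm_mul_exp_arg_mul_I x, hx, Complex.ofReal_one, one_mul]
  have ey : y = Complex.exp (b * Complex.I) := by
    conv_lhs => rw [← Complex.norm_mul_exp_arg_mul_I y, hy, Complex.ofReal_one, one_mul]
  have e : (x * conj y).re = Real.cos (a - b) := by
    rw [ex, ey, ← Complex.exp_conj, ← Complex.exp_add,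
      show (a : ℂ) * Complex.I + conj ((b : ℂ) * Complex.I) = ((a - b : ℝ) : ℂ) * Complex.I by
        rw [map_mul, Complex.conj_ofReal, Complex.conj_I]; push_cast; ring,
      Complex.exp_ofReal_mul_I_re]
  rw [e, ← Real.cos_add_int_mul_two_pi (a - b) k, ← Real.cos_pi_div_six, ← Real.cos_abs (a - b + k * (2 * Real.pi))]
  have hk' : ((⌊6 / Real.pi * b⌋ : ℤ) : ℝ) - (⌊6 / Real.pi * a⌋ : ℤ) = 12 * (k : ℝ) := by exact_mod_cast hk
  have h1 := Int.floor_le (6 / Real.pi * a)
  have h2 := Int.lt_floor_add_one (6 / Real.pi * a)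
  have h3 := Int.floor_le (6 / Real.pi * b)
  have h4 := Int.lt_floor_add_one (6 / Real.pi * b)
  have hpi := Real.pi_pos
  have hz : |a - b + (k : ℝ) * (2 * Real.pi)| < Real.pi / 6 := by
    have h5 : a - b + (k : ℝ) * (2 * Real.pi)
        = Real.pi / 6 * (6 / Real.pi * a - 6 / Real.pi * b + 12 * k) := by field_simp; ring
    rw [h5, abs_mul, abs_of_pos (by positivity : 0 < Real.pi / 6)]
    refine mul_lt_of_lt_one_right (by positivity) (abs_lt.mpr ⟨?_, ?_⟩) <;> linarith
  exact Real.cos_lt_cos_of_nonneg_of_le_pi (abs_nonneg _) (by linarith) hz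

/-- Let the finite group G have a faithful character of degree n. Then G has an abelian normal subgroup A such that every abelian subgroup H of G satisfies [H : H ⊓ A] ≤ 12^n. -/
theorem result {G : Type*} [Group G] [Finite G] (χ : G → ℂ) (hχ : Cfsg.IsCharacter G χ) (hfaith : ∀ g : G, χ g = χ 1 → g = 1) (n : ℕ) (hn : Cfsg.charDegree χ = n) : ∃ A : Subgroup G, A.Normal ∧ (∀ x ∈ A, ∀ y ∈ A, x * y = y * x) ∧ ∀ H : Subgroup G, (∀ x ∈ H, ∀ y ∈ H, x * y = y * x) → (A.subgroupOf H).index ≤ 12 ^ n := by
  classical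
  haveI := Fintype.ofFinite G
  obtain ⟨d, ρ, rfl⟩ := hχ
  have hd : d = n := by
    rw [← hn, Cfsg.charDegree, Representation.char_one]
    simp
  subst hd
  open Cfsg.Lib.Blocks Cfsg.Lib.Characters in
  · let R : G →* Matrix (Fin d) (Fin d) ℂ :=
      { toFun := fun g => LinearMap.toMatrix' (ρ g)
        map_one' := by rw [map_one]; exact LinearMap.toMatrix'_id
        map_mul' := fun g h => by rw [map_mul]; exact LinearMap.toMatrix'_mul _ _ }
    obtain ⟨U, hU, htr⟩ := exists_unitary_conj R
    have htrace : ∀ g, (U g).trace = ρ.character g := fun g => by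
      rw [htr]
      show (LinearMap.toMatrix' (ρ g)).trace = LinearMap.trace ℂ _ (ρ g)
      rw [LinearMap.trace_eq_matrix_trace ℂ (Pi.basisFun ℂ (Fin d)), LinearMap.toMatrix_eq_toMatrix']
    have hinj : Function.Injective U := fun g h he => by
      have h1 : U (g * h⁻¹) = 1 := by
        rw [map_mul, he, ← map_mul, mul_inv_cancel, map_one]
      have h2 := hfaith (g * h⁻¹) (by rw [← htrace, ← htrace, h1, map_one])
      exact mul_inv_eq_one.mp h2
    set A := Subgroup.closure {g : G | IsSmallRot U g} with hA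
    have hcommK : ∀ x ∈ A, ∀ y ∈ A, x * y = y * x := by
      have h1 : A ≤ Subgroup.centralizer {g : G | IsSmallRot U g} := by
        rw [hA, Subgroup.closure_le]
        intro x hx
        rw [SetLike.mem_coe, Subgroup.mem_centralizer_iff]
        exact fun y hy => IsSmallRot.commute U hU hy hx hinj
      intro x hx y hy
      have h2 : A ≤ Subgroup.centralizer ({x} : Set G) := by
        rw [hA, Subgroup.closure_le]
        intro z hz
        rw [SetLike.mem_coe, Subgroup.mem_centralizer_singleton_iff]
        exact (Subgroup.mem_centralizer_iff.mp (h1 hx) z hz)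
      exact (Subgroup.mem_centralizer_singleton_iff.mp (h2 hy)).symm
    refine ⟨A, ⟨fun g hg x => ?_⟩, hcommK, fun H hH => ?_⟩
    · have h1 : A.map (MulAut.conj x).toMonoidHom ≤ A := by
        rw [hA, MonoidHom.map_closure, Subgroup.closure_le]
        rintro _ ⟨y, hy, rfl⟩
        exact Subgroup.subset_closure (IsSmallRot.conj U hU hy x)
      exact h1 ⟨g, hg, rfl⟩
    haveI := Fintype.ofFinite H
    haveI : IsMulCommutative H := ⟨⟨fun a b => Subtype.ext (hH a a.2 b b.2)⟩⟩
    obtain ⟨m, hm⟩ := exists_decomposition (isCharacter_restrict ⟨d, ρ, rfl⟩ H)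
    have hlin : ∀ μ : Cfsg.IrrCharacter H, ∃ lam : H →* ℂˣ, ∀ x, (μ : H → ℂ) x = (lam x : ℂ) := fun μ =>
      (exists_hom_of_degree_one μ.2.isCharacter (degree_one_of_isMulCommutative μ.2)).imp fun _ hl x => congrFun hl x
    choose lam hlam using hlin
    have hnorm : ∀ (μ : Cfsg.IrrCharacter H) (x : H), ‖(μ : H → ℂ) x‖ = 1 := by
      intro μ x
      rw [hlam]
      exact Complex.norm_eq_one_of_pow_eq_one
        (by rw [← Units.val_pow_eq_pow_val, ← map_pow, pow_orderOf_eq_one, map_one, Units.val_one])
        (orderOf_pos x).ne'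
    let S := {μ : Cfsg.IrrCharacter H // m μ ≠ 0}
    let box : H → S → ZMod 12 := fun h μ => ((⌊6 / Real.pi * Complex.arg ((μ.1 : H → ℂ) h)⌋ : ℤ) : ZMod 12)
    have hclose : ∀ h₁ h₂ : H, box h₁ = box h₂ → ((h₁ * h₂⁻¹ : H) : G) ∈ A := by
      intro h₁ h₂ hb
      refine Subgroup.subset_closure ?_
      intro v hv
      set h := h₁ * h₂⁻¹ with hh
      set f : H → ℂ := fun x => star v ⬝ᵥ U (x : G) *ᵥ v with hf
      have hcl : Cfsg.IsClassFunction H f := fun a b => by rw [mul_comm' b a, mul_inv_cancel_right]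
      have hcoef : ∀ μ : Cfsg.IrrCharacter H, ∃ a : ℝ, 0 ≤ a ∧ Cfsg.classInner f (μ : H → ℂ) = (a : ℂ) ∧
          (m μ = 0 → a = 0) := by
        intro μ
        set E := ∑ x : H, conj ((μ : H → ℂ) x) • U (x : G) with hE
        have hconj : ∀ x : H, conj ((μ : H → ℂ) x) = (μ : H → ℂ) x⁻¹ :=
          fun x => (char_inv_eq_conj μ.2.isCharacter x).symm
        have hEE : Eᴴ * E = (Nat.card H : ℂ) • E := by
          have hterm : ∀ x z : H, (μ : H → ℂ) x * conj ((μ : H → ℂ) (x * z)) = conj ((μ : H → ℂ) z) := by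
            intro x z
            rw [hconj, hconj, hlam, hlam, hlam, ← Units.val_mul, ← map_mul,
              show x * (x * z)⁻¹ = z⁻¹ by rw [_root_.mul_inv_rev, mul_comm' z⁻¹ x⁻¹, mul_inv_cancel_left]]
          calc Eᴴ * E = ∑ x : H, ∑ y : H, ((μ : H → ℂ) x * conj ((μ : H → ℂ) y)) • (U (x⁻¹ : H) * U (y : G)) := by
                simp only [hE, conjTranspose_sum, conjTranspose_smul, hU, RCLike.star_def, Complex.conj_conj,
                  Finset.sum_mul, Finset.mul_sum, Finset.smul_sum, smul_mul_assoc, mul_smul_comm, Subgroup.coe_inv, smul_smul]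
                rw [Finset.sum_comm]
                exact Finset.sum_congr rfl fun x _ => Finset.sum_congr rfl fun y _ => by
                  first | rfl | rw [mul_comm]
            _ = ∑ x : H, ∑ z : H, conj ((μ : H → ℂ) z) • U (z : G) := by
                refine Finset.sum_congr rfl fun x _ => (Fintype.sum_equiv (Equiv.mulLeft x) _ _ fun z => ?_).symm
                simp only [Equiv.coe_mulLeft, hterm, ← map_mul, Subgroup.coe_mul, Subgroup.coe_inv,
                  inv_mul_cancel_left]
            _ = (Nat.card H : ℂ) • E := by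
                rw [Finset.sum_const, Finset.card_univ, hE, Nat.card_eq_fintype_card, Nat.cast_smul_eq_nsmul]
        have hinner : Cfsg.classInner f (μ : H → ℂ) = (Nat.card H : ℂ)⁻¹ * (star v ⬝ᵥ E *ᵥ v) := by
          rw [Cfsg.classInner, hE, sum_mulVec, dotProduct_sum]
          congr 1
          refine Finset.sum_congr rfl fun x _ => ?_
          rw [smul_mulVec, dotProduct_smul, smul_eq_mul]
          simp only [hf]
          ring
        have hsq : (sqLen (E *ᵥ v) : ℂ) = (Nat.card H : ℂ) * (star v ⬝ᵥ E *ᵥ v) := by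
          rw [coe_sqLen, star_mulVec, ← dotProduct_mulVec, mulVec_mulVec, hEE, smul_mulVec,
            dotProduct_smul, smul_eq_mul]
        have hH0 : (Nat.card H : ℂ) ≠ 0 := Nat.cast_ne_zero.mpr Nat.card_pos.ne'
        refine ⟨sqLen (E *ᵥ v) / (Nat.card H : ℝ) ^ 2, div_nonneg (sqLen_nonneg _) (sq_nonneg _), ?_, ?_⟩
        · rw [hinner]
          push_cast
          rw [hsq]
          field_simp
        · intro hμ
          have h0 : E = 0 := by
            rw [← Matrix.trace_conjTranspose_mul_self_eq_zero_iff, hEE, trace_smul, hE, trace_sum]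
            have h2 : (Nat.card H : ℂ)⁻¹ * ∑ x : H, conj ((μ : H → ℂ) x) * ρ.character (x : G) = 0 := by
              have h3 : Cfsg.classInner (fun x : H => ρ.character (x : G)) (μ : H → ℂ) = 0 := by
                rw [hm, classInner_sum_irr, hμ, Nat.cast_zero]
              rw [← h3, Cfsg.classInner]
              exact congrArg _ (Finset.sum_congr rfl fun x _ => by ring)
            simp only [trace_smul, htrace, smul_eq_mul]
            rw [(mul_eq_zero.mp h2).resolve_left (inv_ne_zero hH0), mul_zero]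
          rw [h0, zero_mulVec]
          simp [sqLen]
      choose a ha0 ha hazero using hcoef
      have hexp := classFunction_expansion hcl
      simp only [ha] at hexp
      have hev : ∀ x : H, reForm (U (x : G)) v = ∑ μ : Cfsg.IrrCharacter H, a μ * ((μ : H → ℂ) x).re := by
        intro x
        show (f x).re = _
        rw [congrFun hexp x, Finset.sum_apply, Complex.re_sum]
        simp
      have h1 : ∀ μ : Cfsg.IrrCharacter H, a μ ≠ 0 → Real.sqrt 3 / 2 < ((μ : H → ℂ) h).re := by
        intro μ hμ
        have hm0 : m μ ≠ 0 := fun h0 => hμ (hazero μ h0)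
        have := re_div_gt (hnorm μ h₁) (hnorm μ h₂) (congrFun hb ⟨μ, hm0⟩)
        rw [← char_inv_eq_conj μ.2.isCharacter, hlam, hlam, ← Units.val_mul, ← map_mul, ← hlam] at this
        exact this
      have htot : ∑ μ : Cfsg.IrrCharacter H, a μ = sqLen v := by
        have h2 := hev 1
        rw [OneMemClass.coe_one, map_one, reForm, one_mulVec, ← coe_sqLen, Complex.ofReal_re] at h2
        rw [h2]
        exact Finset.sum_congr rfl fun μ _ => by rw [degree_one_of_isMulCommutative μ.2]; simp
      rw [hev h, ← htot, Finset.mul_sum]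
      obtain ⟨μ₀, hμ₀⟩ : ∃ μ, a μ ≠ 0 := by
        by_contra hall
        push Not at hall
        simp only [hall, Finset.sum_const_zero] at htot
        exact (sqLen_pos hv).ne htot
      refine Finset.sum_lt_sum (fun μ _ => ?_) ⟨μ₀, Finset.mem_univ _, ?_⟩
      · by_cases hz : a μ = 0
        · simp [hz]
        · rw [mul_comm]; exact mul_le_mul_of_nonneg_left (h1 μ hz).le (ha0 μ)
      · rw [mul_comm]; exact mul_lt_mul_of_pos_left (h1 μ₀ hμ₀) (lt_of_le_of_ne (ha0 μ₀) (Ne.symm hμ₀))
    have hcardS : Nat.card S ≤ d := by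
      have h1 : ∑ μ : Cfsg.IrrCharacter H, m μ = d := by
        have h2 := congrFun hm 1
        simp only [OneMemClass.coe_one, Representation.char_one, Module.finrank_fin_fun, Finset.sum_apply,
          Pi.smul_apply, smul_eq_mul, fun μ : Cfsg.IrrCharacter H => degree_one_of_isMulCommutative μ.2, mul_one] at h2
        exact_mod_cast h2.symm
      rw [Nat.card_eq_fintype_card, Fintype.card_subtype, ← h1, Finset.card_eq_sum_ones, Finset.sum_filter]
      exact Finset.sum_le_sum fun μ _ => by split_ifs <;> omega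
    calc (A.subgroupOf H).index ≤ Nat.card (S → ZMod 12) := by
          rw [Subgroup.index_eq_card]
          refine Nat.card_le_card_of_injective (fun q => box q.out⁻¹) fun q q' hq => ?_
          rw [← QuotientGroup.out_eq' q, ← QuotientGroup.out_eq' q', QuotientGroup.eq, Subgroup.mem_subgroupOf]
          simpa using hclose _ _ hq
      _ ≤ 12 ^ d := by
          rw [Nat.card_fun, Nat.card_zmod]
          exact Nat.pow_le_pow_right (by norm_num) hcardS

end Cfsg.Agent.S4470
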