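import Cfsg.Statements.S4469
import Mathlib
import Cfsg.Agent.Lib.Blocks.Blichfeldt
import Cfsg.Agent.Lib.Characters.Brauer
import Cfsg.Agent.S4470

set_option autoImplicit false
open Cfsg Cfsg.Lib.Characters Subgroup

namespace Cfsg.Agent.S4469

universe u

/-- A nilpotent linear group of degree `n` has an abelian subgroup with index dividing `n!`. -/
theorem exists_abelian_index_dvd_factorial {P : Type u} [Group P] [Fintype P] [Group.IsNilpotent P]
    {χ : P → ℂ} (hχ : IsCharacter P χ) (hf : ∀ g, χ g = χ 1 → g = 1) {n : ℕ} (hn : χ 1 = n) :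
    ∃ B : Subgroup P, (∀ a ∈ B, ∀ b ∈ B, a * b = b * a) ∧ B.index ∣ n.factorial := by
  classical
  obtain ⟨k, hk⟩ := exists_decomposition hχ
  choose T lam hT using fun μ : IrrCharacter P =>
    exists_monomial (Nat.card P) P rfl (μ : P → ℂ) μ.2
  let I := {μ : IrrCharacter P // k μ ≠ 0}
  let X := Σ μ : I, P ⧸ T μ.1
  let act : MulAction P X :=
    { smul := fun g x => ⟨x.1, g • x.2⟩
      one_smul := fun x => Sigma.ext rfl (heq_of_eq (one_smul P x.2))
      mul_smul := fun g h x => Sigma.ext rfl (heq_of_eq (mul_smul g h x.2)) }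
  let f : P →* Equiv.Perm X := @MulAction.toPermHom P X _ act
  refine ⟨f.ker, fun a ha b hb => ?_, ?_⟩
  · have hfix : ∀ c ∈ f.ker, ∀ (μ : I) (x : P), x⁻¹ * c * x ∈ T μ.1 := by
      intro c hc μ x
      have h : (⟨μ, c • (x : P ⧸ T μ.1)⟩ : X) = ⟨μ, (x : P ⧸ T μ.1)⟩ := by
        have := Equiv.ext_iff.1 (MonoidHom.mem_ker.1 hc) ⟨μ, (x : P ⧸ T μ.1)⟩
        exact this
      have h2 : (((c * x : P)) : P ⧸ T μ.1) = (x : P ⧸ T μ.1) := eq_of_heq (Sigma.mk.inj_iff.1 h).2
      rw [eq_comm, QuotientGroup.eq] at h2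
      simpa [mul_assoc] using h2
    have h : χ (a * b * a⁻¹ * b⁻¹) = χ 1 := by
      rw [hk]
      simp only [Finset.sum_apply, Pi.smul_apply]
      refine Finset.sum_congr rfl fun μ _ => ?_
      rcases eq_or_ne (k μ) 0 with h0 | h0
      · simp [h0]
      congr 1
      rw [hT μ]
      simp only [indFun]
      congr 1
      refine Finset.sum_congr rfl fun x _ => ?_
      have ha' := hfix a ha ⟨μ, h0⟩ x
      have hb' := hfix b hb ⟨μ, h0⟩ x
      have e : x⁻¹ * (a * b * a⁻¹ * b⁻¹) * x =
          ((⟨_, ha'⟩ * ⟨_, hb'⟩ * (⟨_, ha'⟩ : T μ)⁻¹ * (⟨_, hb'⟩ : T μ)⁻¹ : T μ) : P) := by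
        push_cast; group
      rw [e, extendByZero_coe, show x⁻¹ * 1 * x = ((1 : T μ) : P) by simp, extendByZero_coe]
      congr 1
      rw [map_mul, map_mul, map_mul, map_inv, map_inv, map_one, mul_comm (lam μ _) (lam μ _),
        mul_assoc (lam μ _) (lam μ _), mul_inv_cancel, mul_one, mul_inv_cancel]
    have h2 := hf _ h
    rw [mul_inv_eq_one, mul_inv_eq_iff_eq_mul] at h2
    exact h2
  · have hX : Nat.card X ≤ n := by
      have h1 : ((n : ℕ) : ℂ) = ((∑ μ : IrrCharacter P, k μ * (T μ).index : ℕ) : ℂ) := by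
        rw [← hn, hk]
        push_cast
        simp only [Finset.sum_apply, Pi.smul_apply, smul_eq_mul]
        refine Finset.sum_congr rfl fun μ _ => ?_
        rw [hT μ, indFun_one_apply]
        simp
      have h2 : n = ∑ μ : IrrCharacter P, k μ * (T μ).index := by exact_mod_cast h1
      rw [h2, Nat.card_sigma]
      calc ∑ μ : I, Nat.card (P ⧸ T μ.1) = ∑ μ : I, (T μ.1).index := rfl
        _ = ∑ μ ∈ Finset.univ.filter (fun μ => k μ ≠ 0), (T μ).index :=
          (Finset.sum_subtype (p := fun μ => k μ ≠ 0) _ (fun μ => by simp) fun μ => (T μ).index).symm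
        _ ≤ ∑ μ ∈ Finset.univ.filter (fun μ => k μ ≠ 0), k μ * (T μ).index :=
          Finset.sum_le_sum fun μ hμ => Nat.le_mul_of_pos_left _
            (Nat.pos_of_ne_zero (Finset.mem_filter.1 hμ).2)
        _ ≤ _ := Finset.sum_le_sum_of_subset (Finset.subset_univ _)
    rw [index_ker]
    have h3 := f.range.card_subgroup_dvd_card
    rw [Nat.card_perm] at h3
    exact h3.trans (Nat.factorial_dvd_factorial hX)

/-- The classical bound for finite linear groups, in explicit form. Let the finite group G have a faithful character of degree n. Then G has an abelian normal subgroup whose index is at most n! · 12^(n·(π(n+1)+1)), π(k) denoting the number of primes not exceeding k. -/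
theorem result {G : Type*} [Group G] [Finite G] (χ : G → ℂ) (hχ : Cfsg.IsCharacter G χ) (hfaith : ∀ g : G, χ g = χ 1 → g = 1) (n : ℕ) (hn : Cfsg.charDegree χ = n) : ∃ A : Subgroup G, A.Normal ∧ (∀ x ∈ A, ∀ y ∈ A, x * y = y * x) ∧ A.index ≤ Nat.factorial n * 12 ^ (n * (Nat.primeCounting (n + 1) + 1)) := by
  classical
  haveI := Fintype.ofFinite G
  obtain ⟨A, hAn, hAc, hA⟩ := Cfsg.Agent.S4470.result χ hχ hfaith n hn
  refine ⟨A, hAn, hAc, ?_⟩
  obtain ⟨d, hd⟩ := exists_degree hχ
  rw [Cfsg.Lib.Blocks.charDegree_eq hd] at hn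
  subst hn
  obtain ⟨H, hH⟩ := Cfsg.Lib.Blocks.exists_bigHall hχ hfaith hd
  have hr := hA H hH.comm
  set r := (A.subgroupOf H).index
  set small := (Finset.range (d + 1 + 1)).filter Nat.Prime
  set s := ∏ q ∈ small, q ^ A.index.factorization q
  have hiH : A.index ∣ r * H.index := by
    have h1 : (A ⊓ H).index = r * H.index := by
      rw [← relIndex_mul_index (inf_le_right : A ⊓ H ≤ H), inf_relIndex_right]
      rfl
    exact h1 ▸ index_dvd_of_le inf_le_left
  have hi0 : A.index ≠ 0 := index_ne_zero_of_finite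
  have hsmallprime : ∀ q ∈ small, q.Prime := fun q hq => (Finset.mem_filter.1 hq).2
  have hdvd : A.index ∣ r * s := by
    rw [Nat.dvd_iff_prime_pow_dvd_dvd]
    intro q k hq hqk
    rcases eq_or_ne k 0 with rfl | hk0
    · simp
    by_cases hqs : q ≤ d + 1
    · have hmem : q ∈ small := Finset.mem_filter.2 ⟨Finset.mem_range.2 (by omega), hq⟩
      exact ((pow_dvd_pow q ((hq.pow_dvd_iff_le_factorization hi0).1 hqk)).trans
        (Finset.dvd_prod_of_mem (fun q => q ^ A.index.factorization q) hmem)).trans (dvd_mul_left _ _)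
    · refine (Nat.Coprime.dvd_of_dvd_mul_right ((hq.coprime_iff_not_dvd.2 fun h => ?_).pow_left k)
        (hqk.trans hiH)).trans (dvd_mul_right _ _)
      exact hqs (hH.small q hq h)
  have hbound : ∀ q ∈ small, q ^ A.index.factorization q ≤
      q ^ d.factorial.factorization q * 12 ^ d := by
    intro q hq
    haveI : Fact q.Prime := ⟨hsmallprime q hq⟩
    obtain ⟨P⟩ : Nonempty (Sylow q G) := inferInstance
    haveI : Group.IsNilpotent (P : Subgroup G) := P.2.isNilpotent
    obtain ⟨B, hBc, hBi⟩ := exists_abelian_index_dvd_factorial (isCharacter_restrict hχ (P : Subgroup G))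
      (fun g hg => Subtype.ext (hfaith g hg)) (n := d) hd
    set B' := B.map (P : Subgroup G).subtype
    have hB'c : ∀ x ∈ B', ∀ y ∈ B', x * y = y * x := by
      rintro _ ⟨x, hx, rfl⟩ _ ⟨y, hy, rfl⟩
      rw [← map_mul, ← map_mul, hBc x hx y hy]
    have hB' := hA B' hB'c
    have hB'P : B' ≤ (P : Subgroup G) := map_subtype_le B
    have h1 : (A ⊓ (P : Subgroup G)).relIndex (P : Subgroup G) ≤ B.index * 12 ^ d := by
      have e := relIndex_mul_relIndex (A ⊓ B') B' (P : Subgroup G) inf_le_right hB'P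
      rw [inf_relIndex_right] at e
      have hBidx : B'.relIndex (P : Subgroup G) = B.index := by
        rw [relIndex, subgroupOf, comap_map_eq_self_of_injective (subtype_injective _)]
      calc (A ⊓ (P : Subgroup G)).relIndex (P : Subgroup G) ≤ (A ⊓ B').relIndex (P : Subgroup G) :=
            relIndex_le_of_le_left (inf_le_inf_left _ hB'P) Subgroup.index_ne_zero_of_finite
        _ = A.relIndex B' * B.index := by rw [← e, hBidx]
        _ ≤ _ := by
          rw [mul_comm B.index]
          exact Nat.mul_le_mul_right _ hB'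
    have hBq : B.index ≤ q ^ d.factorial.factorization q := by
      obtain ⟨e, he⟩ := P.2.index B
      refine Nat.le_of_dvd (pow_pos (Fact.out (p := q.Prime)).pos _) ?_
      rw [he] at hBi ⊢
      exact pow_dvd_pow q (((Fact.out : q.Prime).pow_dvd_iff_le_factorization
        (Nat.factorial_ne_zero d)).1 hBi)
    refine le_trans ?_ (h1.trans (Nat.mul_le_mul_right _ hBq))
    refine Nat.le_of_dvd (Nat.pos_of_ne_zero Subgroup.index_ne_zero_of_finite) ?_
    have hAP : A.index ∣ (A ⊓ (P : Subgroup G)).relIndex (P : Subgroup G) * (P : Subgroup G).index := by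
      rw [relIndex_mul_index inf_le_right]
      exact index_dvd_of_le inf_le_left
    refine Nat.Coprime.dvd_of_dvd_mul_right ?_ ((Nat.ordProj_dvd A.index q).trans hAP)
    exact ((Fact.out : q.Prime).coprime_iff_not_dvd.2 P.not_dvd_index).pow_left _
  have hs0 : 0 < r * s := by
    refine Nat.mul_pos (Nat.pos_of_ne_zero index_ne_zero_of_finite) (Finset.prod_pos fun q hq => ?_)
    exact pow_pos (hsmallprime q hq).pos _
  have hfact : ∏ q ∈ small, q ^ d.factorial.factorization q ≤ d.factorial := by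
    refine Nat.le_of_dvd (Nat.factorial_pos d) (Finset.prod_dvd_of_isRelPrime (fun a ha b hb hab => ?_)
      fun q _ => Nat.ordProj_dvd _ q)
    exact Nat.coprime_iff_isRelPrime.1 (((Nat.coprime_primes (hsmallprime a ha) (hsmallprime b hb)).2 hab).pow _ _)
  calc A.index ≤ r * s := Nat.le_of_dvd hs0 hdvd
    _ ≤ 12 ^ d * ∏ q ∈ small, (q ^ d.factorial.factorization q * 12 ^ d) :=
      Nat.mul_le_mul hr (Finset.prod_le_prod' hbound)
    _ = (∏ q ∈ small, q ^ d.factorial.factorization q) * 12 ^ (d * (Nat.primeCounting (d + 1) + 1)) := by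
      rw [Finset.prod_mul_distrib, Finset.prod_const, Nat.primeCounting, Nat.primeCounting',
        Nat.count_eq_card_filter_range, ← pow_mul]
      ring
    _ ≤ _ := Nat.mul_le_mul_right _ hfact

end Cfsg.Agent.S4469
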