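import Cfsg.Statements.S4473
import Cfsg.Agent.Lib.Characters.PowerConj
import Cfsg.Agent.Lib.Blocks.Codegree
-- import your own Cfsg.Agent.* helpers here

set_option autoImplicit false
open Cfsg

namespace Cfsg.Agent.S4473

open Cfsg.Lib.Characters Cfsg.Lib.Blocks
open scoped Classical ComplexConjugate

universe u

variable {G : Type u} [Group G] [Fintype G]

/-- A stable line gives a linear constituent of the restriction. -/
theorem line_constituent (ρ : Representation ℂ G (Fin 2 → ℂ)) (H : Subgroup G) [Fintype H]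
    (θ : H →* ℂˣ) {v : Fin 2 → ℂ} (hv : v ≠ 0) (h : ∀ x : H, ρ x v = (θ x : ℂ) • v) :
    classInner (fun x : H => ρ.character x) (fun x : H => (θ x : ℂ)) ≠ 0 := by
  let A : Representation ℂ H ℂ :=
    { toFun := fun x => (θ x : ℂ) • LinearMap.id
      map_one' := by ext; simp
      map_mul' := fun g h => by ext; simp [mul_comm] }
  let B : Representation ℂ H (Fin 2 → ℂ) := ρ.comp H.subtype
  have hA : ∀ x, A.character x = (θ x : ℂ) := fun x => by simp [Representation.character, A]
  let T : Representation.IntertwiningMap A B := ⟨LinearMap.toSpanSingleton ℂ _ v, fun x => by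
    ext
    simp [A, B, h]⟩
  have hT : T ≠ 0 := by
    intro h0
    have h1 : LinearMap.toSpanSingleton ℂ _ v = 0 :=
      congrArg (fun f : Representation.IntertwiningMap A B => f.toLinearMap) h0
    exact hv (by simpa using LinearMap.congr_fun h1 1)
  haveI : Invertible (Nat.card H : ℂ) := invertibleOfNonzero (Nat.cast_ne_zero.mpr Nat.card_pos.ne')
  have h2 := Representation.card_inv_mul_sum_char_mul_char_eq_finrank A B
  intro h0
  rw [classInner] at h0
  have h3 : (Module.finrank ℂ (Representation.IntertwiningMap A B) : ℂ) = 0 := by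
    rw [← h2, ← h0]
    refine congrArg _ (Finset.sum_congr rfl fun x _ => ?_)
    rw [char_inv_eq_conj (isCharacter_character A), hA]
    rfl
  rw [Nat.cast_eq_zero, Module.finrank_zero_iff] at h3
  exact hT (Subsingleton.elim _ _)

/-- An operator of finite order in dimension two has equal eigenvalues only if it is scalar, and
otherwise exactly two invariant lines. -/
theorem two_lines (T : (Fin 2 → ℂ) →ₗ[ℂ] (Fin 2 → ℂ)) {n : ℕ} (hn : 0 < n) (hT : T ^ n = 1)
    (hns : ¬ ∃ a : ℂ, T = a • LinearMap.id) :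
    ∃ v w : Fin 2 → ℂ, v ≠ 0 ∧ w ≠ 0 ∧ Submodule.span ℂ {v} ≠ Submodule.span ℂ {w} ∧
      (∃ a : ℂ, T v = a • v) ∧ (∃ b : ℂ, T w = b • w) ∧
      ∀ u : Fin 2 → ℂ, u ≠ 0 → (∃ c : ℂ, T u = c • u) →
        Submodule.span ℂ {u} = Submodule.span ℂ {v} ∨ Submodule.span ℂ {u} = Submodule.span ℂ {w} := by
  obtain ⟨a, ha⟩ := Module.End.exists_eigenvalue T
  obtain ⟨v, hv⟩ := ha.exists_hasEigenvector
  have hv0 : v ≠ 0 := hv.2
  have hva : T v = a • v := hv.apply_eq_smul
  obtain ⟨w, hw⟩ : ∃ w, w ∉ Submodule.span ℂ {v} := by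
    by_contra! hcon
    have h1 := Submodule.finrank_mono (fun x _ => hcon x : (⊤ : Submodule ℂ (Fin 2 → ℂ)) ≤ Submodule.span ℂ {v})
    rw [finrank_top, Module.finrank_fin_fun, finrank_span_singleton hv0] at h1
    omega
  have hli : LinearIndependent ℂ ![v, w] := by
    rw [LinearIndependent.pair_iff' hv0]
    exact fun c hc => hw (hc ▸ Submodule.smul_mem _ c (Submodule.mem_span_singleton_self v))
  let B := basisOfLinearIndependentOfCardEqFinrank hli (by simp)
  have hB : ∀ u : Fin 2 → ℂ, ∃ x y : ℂ, u = x • v + y • w := fun u => by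
    refine ⟨B.repr u 0, B.repr u 1, ?_⟩
    conv_lhs => rw [← B.sum_repr u]
    simp [B, Fin.sum_univ_two]
  obtain ⟨c, b, hTw⟩ := hB (T w)
  have hab : a ≠ b := by
    rintro rfl
    have han : a ^ n = 1 := by
      have hpow : ∀ k : ℕ, (T ^ k) v = a ^ k • v := by
        intro k
        induction k with
        | zero => simp
        | succ k ih => rw [pow_succ, Module.End.mul_apply, hva, map_smul, ih, smul_smul, pow_succ, mul_comm]
      have h1 := hpow n
      rw [hT, Module.End.one_apply] at h1
      exact (smul_left_injective ℂ hv0 (h1.symm.trans (one_smul ℂ v).symm))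
    have ha0 : a ≠ 0 := fun e => by rw [e, zero_pow hn.ne'] at han; exact zero_ne_one han
    have hwk : ∀ k : ℕ, (T ^ (k + 1)) w = a ^ (k + 1) • w + (((k + 1 : ℕ) : ℂ) * a ^ k * c) • v := by
      intro k
      induction k with
      | zero => rw [pow_one, hTw]; simp [add_comm]
      | succ k ih =>
        rw [pow_succ', Module.End.mul_apply, ih, map_add, map_smul, map_smul, hTw, hva, smul_add, smul_smul, smul_smul, smul_smul, add_comm, ← add_assoc, ← add_smul, add_comm]
        push_cast
        ring_nf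
    have h1 := hwk (n - 1)
    rw [Nat.sub_add_cancel hn, hT, Module.End.one_apply, han, one_smul] at h1
    have h2 : ((n : ℕ) : ℂ) * a ^ (n - 1) * c = 0 :=
      (smul_eq_zero.1 (left_eq_add.1 h1)).resolve_right hv0
    have hc : c = 0 := (mul_eq_zero.1 h2).resolve_left
      (mul_ne_zero (Nat.cast_ne_zero.2 hn.ne') (pow_ne_zero _ ha0))
    refine hns ⟨a, LinearMap.ext fun u => ?_⟩
    obtain ⟨x, y, rfl⟩ := hB u
    rw [map_add, map_smul, map_smul, hva, hTw, hc, zero_smul, zero_add, LinearMap.smul_apply, LinearMap.id_apply, smul_add, smul_comm a x, smul_comm a y]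
  set w' := w + (c / (b - a)) • v with hw'
  have hwb : T w' = b • w' := by
    rw [hw', map_add, map_smul, hTw, hva, smul_add, smul_smul, smul_smul]
    have : c + c / (b - a) * a = b * (c / (b - a)) := by
      have hba : b - a ≠ 0 := sub_ne_zero.2 (Ne.symm hab)
      field_simp
      ring
    rw [← this, add_smul]
    abel
  clear_value w'
  have hw'm : w' ∉ Submodule.span ℂ {v} := fun hm => hw (by
    simpa [hw'] using Submodule.sub_mem _ hm (Submodule.smul_mem _ (c / (b - a)) (Submodule.mem_span_singleton_self v)))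
  have hw'0 : w' ≠ 0 := fun e => hw'm (e ▸ zero_mem _)
  refine ⟨v, w', hv0, hw'0, fun e => hw'm (e ▸ Submodule.mem_span_singleton_self w'), ⟨a, hva⟩, ⟨b, hwb⟩, ?_⟩
  rintro u hu ⟨l, hl⟩
  obtain ⟨x, y, hxy⟩ := hB u
  have hxy' : u = (x - y * (c / (b - a))) • v + y • w' := by
    rw [hxy, hw', smul_add, smul_smul, sub_smul]; abel
  set x' := x - y * (c / (b - a))
  have hli' : LinearIndependent ℂ ![v, w'] := by
    rw [LinearIndependent.pair_iff' hv0]
    exact fun c hc => hw'm (hc ▸ Submodule.smul_mem _ c (Submodule.mem_span_singleton_self v))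
  have h0 : (x' * a - l * x') • v + (y * b - l * y) • w' = 0 := by
    have := sub_eq_zero.2 hl
    rw [hxy', map_add, map_smul, map_smul, hva, hwb, smul_smul, smul_smul, smul_add, smul_smul, smul_smul] at this
    rw [← this, sub_smul, sub_smul]; abel
  obtain ⟨e1, e2⟩ := LinearIndependent.pair_iff.1 hli' _ _ h0
  rcases eq_or_ne y 0 with hy | hy
  · left
    rw [hy, zero_smul, add_zero] at hxy'
    rw [hxy']
    exact Submodule.span_singleton_smul_eq (IsUnit.mk0 _ fun e => hu (by rw [hxy', e, zero_smul])) v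
  · right
    have hlb : l = b := mul_right_cancel₀ hy (by linear_combination -e2)
    have hx' : x' = 0 := (mul_eq_zero.1 (show x' * (a - b) = 0 by rw [← hlb]; linear_combination e1)).resolve_right (sub_ne_zero.2 hab)
    rw [hx', zero_smul, zero_add] at hxy'
    rw [hxy']
    exact Submodule.span_singleton_smul_eq (IsUnit.mk0 _ hy) w'

/-- The arithmetic of the class equation for poles. -/
theorem pole_arith {N : ℕ} {ι : Type*} [Fintype ι] (o : ι → ℕ) (hN : 2 ≤ N)
    (hsum : ∑ i, o i + 2 * (N - 1) = N * Fintype.card ι) (h3 : ∀ i, 3 ≤ o i) (hdvd : ∀ i, o i ∣ N)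
    (hlt : ∀ i, o i < N) : N = 12 ∨ N = 24 ∨ N = 60 := by
  have hhalf : ∀ i, 2 * o i ≤ N := fun i => by
    obtain ⟨k, hk⟩ := hdvd i
    have := hlt i
    rcases k with _ | _ | k <;> rw [hk] <;> nlinarith [h3 i]
  have hle : 2 * ∑ i, o i ≤ Fintype.card ι * N := by
    rw [Finset.mul_sum]
    exact (Finset.sum_le_card_nsmul _ _ N fun i _ => hhalf i).trans (le_of_eq (by simp))
  have hge : 3 * Fintype.card ι ≤ ∑ i, o i := by
    have := Finset.card_nsmul_le_sum Finset.univ o 3 fun i _ => h3 i
    simpa [mul_comm] using this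
  have hr : Fintype.card ι = 3 := by
    rcases Nat.lt_or_ge (Fintype.card ι) 4 with h4 | h4
    · interval_cases Fintype.card ι <;> omega
    · exfalso
      have : N * 4 ≤ N * Fintype.card ι := Nat.mul_le_mul_left N h4
      rw [mul_comm (Fintype.card ι)] at hle
      omega
  obtain ⟨e⟩ : Nonempty (Fin 3 ≃ ι) := ⟨(Fintype.equivFinOfCardEq hr).symm⟩
  rw [← e.sum_comp, Fin.sum_univ_three, hr] at hsum
  have key : ∀ A B C : ℕ, A ∣ N → B ∣ N → C ∣ N → 3 ≤ C → C ≤ B → B ≤ A → A < N → B < N →
      A + B + C + 2 * (N - 1) = N * 3 → N = 12 ∨ N = 24 ∨ N = 60 := by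
    intro A B C hA hB hC h3C hCB hBA hAN hBN hs
    obtain ⟨k, hk⟩ := hA
    obtain ⟨l, hl⟩ := hB
    obtain ⟨m, hm⟩ := hC
    have hk2 : k = 2 := by
      have h1 : 2 ≤ k := by
        by_contra! hk1
        interval_cases k <;> omega
      have h2 : k < 3 := by
        by_contra! h3k
        have : A * 3 ≤ A * k := Nat.mul_le_mul_left A h3k
        omega
      omega
    subst hk2
    have hl3 : l = 2 ∨ l = 3 := by
      have h1 : 2 ≤ l := by
        by_contra! hl1
        interval_cases l <;> omega
      have h2 : l < 4 := by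
        by_contra! h3k
        have : B * 4 ≤ B * l := Nat.mul_le_mul_left B h3k
        omega
      omega
    rcases hl3 with rfl | rfl
    · omega
    · have hm5 : m ≤ 5 := by
        by_contra! h6
        have : C * 6 ≤ C * m := Nat.mul_le_mul_left C h6
        omega
      interval_cases m <;> omega
  have d0 := hdvd (e 0); have d1 := hdvd (e 1); have d2 := hdvd (e 2)
  have t0 := h3 (e 0); have t1 := h3 (e 1); have t2 := h3 (e 2)
  have l0 := hlt (e 0); have l1 := hlt (e 1); have l2 := hlt (e 2)
  rcases le_total (o (e 0)) (o (e 1)) with p01 | p01 <;> rcases le_total (o (e 1)) (o (e 2)) with p12 | p12 <;>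
    rcases le_total (o (e 0)) (o (e 2)) with p02 | p02
  all_goals first
    | exact key (o (e 0)) (o (e 1)) (o (e 2)) d0 d1 d2 (by omega) (by omega) (by omega) l0 l1 (by omega)
    | exact key (o (e 0)) (o (e 2)) (o (e 1)) d0 d2 d1 (by omega) (by omega) (by omega) l0 l2 (by omega)
    | exact key (o (e 1)) (o (e 0)) (o (e 2)) d1 d0 d2 (by omega) (by omega) (by omega) l1 l0 (by omega)
    | exact key (o (e 1)) (o (e 2)) (o (e 0)) d1 d2 d0 (by omega) (by omega) (by omega) l1 l2 (by omega)
    | exact key (o (e 2)) (o (e 0)) (o (e 1)) d2 d0 d1 (by omega) (by omega) (by omega) l2 l0 (by omega)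
    | exact key (o (e 2)) (o (e 1)) (o (e 0)) d2 d1 d0 (by omega) (by omega) (by omega) l2 l1 (by omega)

/-- Let the finite group G have a faithful irreducible character χ of degree 2 that is primitive: χ is not induced from a character of any proper subgroup. Then the centre of G has index 12, 24 or 60. -/
theorem result {G : Type*} [Group G] [Fintype G] (χ : Cfsg.IrrCharacter G) (hfaith : ∀ g : G, (χ : G → ℂ) g = (χ : G → ℂ) 1 → g = 1) (h2 : Cfsg.charDegree (χ : G → ℂ) = 2) (hprim : ∀ H : Subgroup G, H ≠ ⊤ → ∀ θ : H → ℂ, Cfsg.IsCharacter H θ → (χ : G → ℂ) ≠ Cfsg.indFun H θ) : (Subgroup.center G).index = 12 ∨ (Subgroup.center G).index = 24 ∨ (Subgroup.center G).index = 60 := by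
  obtain ⟨d, ρ, hρ, hρχ⟩ := id χ.2
  haveI := hρ
  have hχv : ∀ g, (χ : G → ℂ) g = ρ.character g := fun g => (congrFun hρχ g).symm
  have hχ1 : (χ : G → ℂ) 1 = 2 := by
    obtain ⟨e, he⟩ := exists_degree χ.2.isCharacter
    rw [charDegree, he] at h2
    simp at h2
    rw [he, h2]; norm_num
  have hd : d = 2 := by
    have := hχv 1
    rw [hχ1, Representation.char_one, Module.finrank_fin_fun] at this
    exact_mod_cast this.symm
  subst hd
  set Z := Subgroup.center G with hZ
  have hinv : ∀ g : G, ∀ u, ρ g⁻¹ (ρ g u) = u := fun g u => by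
    rw [← Module.End.mul_apply, ← map_mul, inv_mul_cancel, map_one, Module.End.one_apply]
  -- scalar operators are exactly the centre
  have hscalar : ∀ g : G, (∃ a : ℂ, ρ g = a • LinearMap.id) ↔ g ∈ Z := by
    intro g
    constructor
    · rintro ⟨a, ha⟩
      rw [hZ, Subgroup.mem_center_iff]
      intro x
      have h : ρ (x * g * (g * x)⁻¹) = 1 := by
        have h1 : ρ (x * g) = ρ (g * x) := by
          rw [map_mul, map_mul, ha, ← Module.End.one_eq_id, mul_smul_comm, smul_mul_assoc, mul_one, one_mul]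
        rw [map_mul, h1, ← map_mul, mul_inv_cancel, map_one]
      exact mul_inv_eq_one.mp (hfaith _ (by rw [hχv, hχv]; exact (char_eq_one_iff ρ _).mpr h))
    · intro hg
      exact schur_scalar ρ (ρ g) fun x => by rw [← map_mul, ← map_mul, Subgroup.mem_center_iff.mp hg x]
  have hns : ∀ g : G, g ∉ Z → ∃ v w : Fin 2 → ℂ, v ≠ 0 ∧ w ≠ 0 ∧ Submodule.span ℂ {v} ≠ Submodule.span ℂ {w} ∧
      (∃ a : ℂ, ρ g v = a • v) ∧ (∃ b : ℂ, ρ g w = b • w) ∧
      ∀ u : Fin 2 → ℂ, u ≠ 0 → (∃ c : ℂ, ρ g u = c • u) →
        Submodule.span ℂ {u} = Submodule.span ℂ {v} ∨ Submodule.span ℂ {u} = Submodule.span ℂ {w} := fun g hg =>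
    two_lines (ρ g) (orderOf_pos g) (by rw [← map_pow, pow_orderOf_eq_one, map_one]) (fun h => hg ((hscalar g).1 h))
  -- the poles
  let X := {L : Submodule ℂ (Fin 2 → ℂ) // ∃ g, g ∉ Z ∧ ∃ v, v ≠ 0 ∧ L = Submodule.span ℂ {v} ∧ ∃ a : ℂ, ρ g v = a • v}
  have hmap : ∀ (g : G) (v : Fin 2 → ℂ), (Submodule.span ℂ {v}).map (ρ g) = Submodule.span ℂ {ρ g v} := fun g v => by
    rw [Submodule.map_span, Set.image_singleton]
  letI : MulAction G X :=
    { smul := fun x L => ⟨L.1.map (ρ x), by
        obtain ⟨g, hg, v, hv, hL, a, ha⟩ := L.2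
        refine ⟨x * g * x⁻¹, fun h => hg ?_, ρ x v, fun h => hv (by rw [← hinv x v, h, map_zero]), by rw [hL, hmap], a, ?_⟩
        · have := Subgroup.Normal.conj_mem (inferInstance : Z.Normal) _ h x⁻¹
          simpa [mul_assoc] using this
        · rw [← Module.End.mul_apply, ← map_mul, inv_mul_cancel_right, map_mul, Module.End.mul_apply, ha, map_smul]⟩
      one_smul := fun L => Subtype.ext (by
        show L.1.map (ρ 1) = L.1
        rw [map_one, Module.End.one_eq_id, Submodule.map_id])
      mul_smul := fun x y L => Subtype.ext (by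
        show L.1.map (ρ (x * y)) = (L.1.map (ρ y)).map (ρ x)
        rw [map_mul, Module.End.mul_eq_comp, Submodule.map_comp]) }
  -- a pole is fixed exactly by the operators having it as an eigenline
  have hfix : ∀ (g : G) (L : X) (v : Fin 2 → ℂ), L.1 = Submodule.span ℂ {v} → (g • L = L ↔ ∃ a : ℂ, ρ g v = a • v) := by
    intro g L v hL
    rw [Subtype.ext_iff]
    show L.1.map (ρ g) = L.1 ↔ _
    rw [hL, hmap]
    constructor
    · intro h
      obtain ⟨a, ha⟩ := Submodule.mem_span_singleton.1 (h ▸ Submodule.mem_span_singleton_self (ρ g v))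
      exact ⟨a, ha.symm⟩
    · rintro ⟨a, ha⟩
      rw [ha]
      rcases eq_or_ne a 0 with rfl | ha0
      · have hv0 : v = 0 := by rw [← hinv g v, ha, zero_smul, map_zero]
        rw [hv0, smul_zero]
      · exact Submodule.span_singleton_smul_eq (IsUnit.mk0 _ ha0) v
  haveI : Finite X := by
    choose! V W hV hW hne hVa hWb hall using hns
    refine Finite.of_injective (β := ↥(Set.range (fun g : G => Submodule.span ℂ {V g}) ∪ Set.range (fun g : G => Submodule.span ℂ {W g})))
      (fun L => ⟨L.1, ?_⟩) fun L L' h => Subtype.ext (by simpa using congrArg Subtype.val h)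
    obtain ⟨g, hg, v, hv, hL, a, ha⟩ := L.2
    rcases hall g hg v hv ⟨a, ha⟩ with h | h
    · exact Or.inl ⟨g, (hL.trans h).symm⟩
    · exact Or.inr ⟨g, (hL.trans h).symm⟩
  haveI : Fintype X := Fintype.ofFinite X
  -- fixed point counts
  have hfc : ∀ g : G, Fintype.card (MulAction.fixedBy X g) = if g ∈ Z then Fintype.card X else 2 := by
    intro g
    split_ifs with hg
    · refine Fintype.card_congr (Equiv.subtypeUnivEquiv fun L => ?_)
      obtain ⟨-, -, v, -, hL, -⟩ := L.2
      obtain ⟨a, ha⟩ := (hscalar g).2 hg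
      exact (hfix g L v hL).2 ⟨a, by rw [ha]; rfl⟩
    · obtain ⟨v, w, hv, hw, hne, hva, hwb, hall⟩ := hns g hg
      let L₁ : X := ⟨_, g, hg, v, hv, rfl, hva⟩
      let L₂ : X := ⟨_, g, hg, w, hw, rfl, hwb⟩
      refine (Fintype.card_of_subtype ({L₁, L₂} : Finset X) fun L => ?_).trans (Finset.card_pair (fun e => hne (congrArg Subtype.val e)))
      rw [Finset.mem_insert, Finset.mem_singleton]
      show L = L₁ ∨ L = L₂ ↔ g • L = L
      constructor
      · rintro (rfl | rfl)
        · exact (hfix g _ v rfl).2 hva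
        · exact (hfix g _ w rfl).2 hwb
      · intro h
        obtain ⟨-, -, u, hu, hL, -⟩ := L.2
        rcases hall u hu ((hfix g L u hL).1 h) with h' | h'
        · exact Or.inl (Subtype.ext (hL.trans h'))
        · exact Or.inr (Subtype.ext (hL.trans h'))
  have hburn := MulAction.sum_card_fixedBy_eq_card_orbits_mul_card_group G X
  rw [Finset.sum_congr rfl fun g _ => hfc g] at hburn
  have hZcard : (Finset.univ.filter (· ∈ Z)).card = Nat.card Z := by
    rw [Nat.card_eq_fintype_card, Fintype.card_subtype]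
  have hGN : Fintype.card G = Nat.card Z * Z.index := by rw [Subgroup.card_mul_index, Nat.card_eq_fintype_card]
  have hnZ : (Finset.univ.filter (¬ · ∈ Z)).card = Nat.card Z * (Z.index - 1) := by
    have := Finset.card_filter_add_card_filter_not (s := (Finset.univ : Finset G)) (· ∈ Z)
    rw [hZcard, Finset.card_univ, hGN] at this
    rw [Nat.mul_sub_one]
    omega
  rw [Finset.sum_ite, Finset.sum_const, Finset.sum_const, hZcard, hnZ, smul_eq_mul, smul_eq_mul, hGN] at hburn
  -- the stabilizer of a pole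
  have hlam : ∀ (L : X) (v : Fin 2 → ℂ), v ≠ 0 → L.1 = Submodule.span ℂ {v} →
      ∀ H : Subgroup G, H ≤ MulAction.stabilizer G L → ∃ θ : H →* ℂˣ, ∀ x : H, ρ x v = (θ x : ℂ) • v := by
    intro L v hv hL H hH
    choose a ha using fun x : H => (hfix x L v hL).1 (hH x.2)
    let f : H →* ℂ := {
      toFun := a
      map_one' := smul_left_injective ℂ hv (by simp [← ha 1])
      map_mul' := fun x y => smul_left_injective ℂ hv (by
        show a (x * y) • v = (a x * a y) • v
        rw [← ha, Subgroup.coe_mul, map_mul, Module.End.mul_apply, ha y, map_smul, ha x, smul_smul, mul_comm]) }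
    exact ⟨f.toHomUnits, fun x => by rw [MonoidHom.coe_toHomUnits]; exact ha x⟩
  have hcon : ∀ (H : Subgroup G) (θ : H →* ℂˣ), classInner (fun x : H => ρ.character x) (fun x : H => (θ x : ℂ)) ≠ 0 →
      classInner (indFun H (fun x : H => (θ x : ℂ))) (χ : G → ℂ) ≠ 0 := by
    intro H θ h
    rw [classInner_indFun H _ χ.2.isClassFunction, ← conj_classInner]
    simp only [hχv]
    intro e
    exact h (by simpa using congrArg conj e)
  have horb : ∀ L : X, 3 ≤ Nat.card (MulAction.orbit G L) ∧ Nat.card (MulAction.orbit G L) ∣ Z.index ∧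
      Nat.card (MulAction.orbit G L) < Z.index := by
    intro L
    rw [Nat.card_coe_set_eq, ← MulAction.index_stabilizer]
    set S := MulAction.stabilizer G L with hS
    obtain ⟨g, hg, v, hv, hL, a, ha⟩ := L.2
    have hZS : Z ≤ S := fun z hz => by
      obtain ⟨c, hc⟩ := (hscalar z).2 hz
      exact (hfix z L v hL).2 ⟨c, by rw [hc]; rfl⟩
    have hgS : g ∈ S := (hfix g L v hL).2 ⟨a, ha⟩
    have hlt : Z < S := lt_of_le_of_ne hZS fun e => hg (e ▸ hgS)
    refine ⟨?_, Subgroup.index_dvd_of_le hZS, Subgroup.index_strictAnti hlt⟩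
    by_contra! h3
    obtain ⟨θ, hθ⟩ := hlam L v hv hL S le_rfl
    have hne := hcon S θ (by convert line_constituent ρ S θ hv hθ)
    have hθc : IsCharacter S (fun x : S => (θ x : ℂ)) := (isIrrCharacter_linear θ).isCharacter
    have hind1 : indFun S (fun x : S => (θ x : ℂ)) 1 = (S.index : ℕ) := by rw [indFun_one_apply]; simp
    have heq := eq_of_constituent_degree_le (isCharacter_indFun S hθc) χ.2 hne (d := 2) (e := S.index)
      (by exact_mod_cast hχ1) hind1 (by omega)
    by_cases hST : S = ⊤
    · rw [heq, hχ1, hST, Subgroup.index_top] at hind1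
      norm_num at hind1
    · exact hprim S hST _ hθc heq.symm
  have hN : 2 ≤ Z.index := by
    by_contra! hN
    have h1 : Z = ⊤ := Subgroup.index_eq_one.1 (by have := Subgroup.index_ne_zero_of_finite (H := Z); omega)
    haveI : IsMulCommutative G := Subgroup.center_eq_top_iff.1 h1
    have := degree_one_of_isMulCommutative χ.2
    rw [hχ1] at this
    norm_num at this
  refine pole_arith (ι := MulAction.orbitRel.Quotient G X) (fun w => Nat.card (MulAction.orbit G w.out)) hN ?_
    (fun w => (horb w.out).1) (fun w => (horb w.out).2.1) (fun w => (horb w.out).2.2)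
  have hX : Fintype.card X = ∑ w : MulAction.orbitRel.Quotient G X, Nat.card (MulAction.orbit G w.out) := by
    rw [← Nat.card_eq_fintype_card, Nat.card_congr (MulAction.selfEquivSigmaOrbits G X), Nat.card_sigma]
  rw [← hX]
  have hpos : 0 < Nat.card Z := Nat.card_pos
  refine Nat.eq_of_mul_eq_mul_left hpos ?_
  have hb : Nat.card Z * Fintype.card X + Nat.card Z * (Z.index - 1) * 2 =
      Fintype.card (MulAction.orbitRel.Quotient G X) * (Nat.card Z * Z.index) := by convert hburn using 2
  rw [mul_add, show Nat.card Z * (2 * (Z.index - 1)) = Nat.card Z * (Z.index - 1) * 2 by ring, hb]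
  ring

end Cfsg.Agent.S4473
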