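import Cfsg.Statements.S4475
import Cfsg.Agent.Lib.Characters.FSValues
-- import your own Cfsg.Agent.* helpers here

set_option autoImplicit false
set_option maxHeartbeats 1600000
open Cfsg Cfsg.Lib.Characters

namespace Cfsg.Agent.S4475

/-- Let ρ be an irreducible representation of the finite group G on the coordinate space Fin n → ℂ whose character χ is real-valued, and let ν be the Frobenius–Schur indicator of χ (the average of χ(s²)). Writing X(g) for the matrix of ρ(g), there is a nonzero matrix M with X(g)ᵀ M X(g) = M for all g ∈ G; and every such M (zero or not) satisfies Mᵀ = ν·M. -/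
theorem result {G : Type*} [Group G] [Fintype G] (n : ℕ) (ρ : Representation ℂ G (Fin n → ℂ)) (hirr : ρ.IsIrreducible) (hreal : ∀ g : G, (ρ.character g).im = 0) : (∃ M : Matrix (Fin n) (Fin n) ℂ, M ≠ 0 ∧ ∀ g : G, (LinearMap.toMatrix' (ρ g)).transpose * M * LinearMap.toMatrix' (ρ g) = M) ∧ ∀ M : Matrix (Fin n) (Fin n) ℂ, (∀ g : G, (LinearMap.toMatrix' (ρ g)).transpose * M * LinearMap.toMatrix' (ρ g) = M) → M.transpose = ((Nat.card G : ℂ)⁻¹ * ∑ s : G, ρ.character (s * s)) • M := by
  classical
  set A : G → Matrix (Fin n) (Fin n) ℂ := fun g => LinearMap.toMatrix' (ρ g) with hA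
  have hmul : ∀ g h, A (g * h) = A g * A h := fun g h => by
    simp only [hA, map_mul]; exact LinearMap.toMatrix'_mul _ _
  have hone : A 1 = 1 := by simp only [hA, map_one]; exact LinearMap.toMatrix'_one
  have htr : ∀ g, ρ.character g = (A g).trace := fun g => by
    simp only [hA, Representation.character]
    rw [LinearMap.trace_eq_matrix_trace ℂ (Pi.basisFun ℂ (Fin n)), LinearMap.toMatrix_eq_toMatrix']
  -- the averaging projection
  let π : Matrix (Fin n) (Fin n) ℂ →ₗ[ℂ] Matrix (Fin n) (Fin n) ℂ :=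
    { toFun := fun M => (Nat.card G : ℂ)⁻¹ • ∑ g, (A g).transpose * M * A g
      map_add' := fun M N => by
        simp only [Matrix.mul_add, Matrix.add_mul, Finset.sum_add_distrib, smul_add]
      map_smul' := fun c M => by
        simp only [Matrix.mul_smul, Matrix.smul_mul, ← Finset.smul_sum, RingHom.id_apply,
          smul_comm c] }
  let inv : Submodule ℂ (Matrix (Fin n) (Fin n) ℂ) :=
    { carrier := {M | ∀ g, (A g).transpose * M * A g = M}
      add_mem' := fun {M N} hM hN g => by rw [Matrix.mul_add, Matrix.add_mul, hM g, hN g]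
      zero_mem' := fun g => by simp
      smul_mem' := fun c M hM g => by rw [Matrix.mul_smul, Matrix.smul_mul, hM g] }
  have hproj : LinearMap.IsProj inv π := by
    constructor
    · intro M g
      simp only [π, LinearMap.coe_mk, AddHom.coe_mk, Matrix.mul_smul, Matrix.smul_mul, Matrix.mul_sum,
        Matrix.sum_mul]
      congr 1
      refine Fintype.sum_equiv (Equiv.mulRight g) _ _ fun h => ?_
      simp only [Equiv.coe_mulRight, hmul, Matrix.transpose_mul, Matrix.mul_assoc]
    · intro M hM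
      simp only [π, LinearMap.coe_mk, AddHom.coe_mk]
      rw [Finset.sum_congr rfl fun g _ => hM g, Finset.sum_const, Finset.card_univ,
        ← Nat.card_eq_fintype_card, ← Nat.cast_smul_eq_nsmul ℂ, smul_smul,
        inv_mul_cancel₀ (Nat.cast_ne_zero.mpr Nat.card_pos.ne'), one_smul]
  -- traces as double sums
  have hdiag : ∀ T : Matrix (Fin n) (Fin n) ℂ →ₗ[ℂ] Matrix (Fin n) (Fin n) ℂ,
      LinearMap.trace ℂ _ T = ∑ i, ∑ j, T (Matrix.single i j (1 : ℂ)) i j := by
    intro T
    rw [LinearMap.trace_eq_matrix_trace ℂ (Matrix.stdBasis ℂ (Fin n) (Fin n)), Matrix.trace,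
      Fintype.sum_prod_type]
    refine Finset.sum_congr rfl fun i _ => Finset.sum_congr rfl fun j _ => ?_
    rw [Matrix.diag_apply, LinearMap.toMatrix_apply, Matrix.stdBasis_eq_single]
    rfl
  have hsingle : ∀ (g : G) (i j k l : Fin n),
      ((A g).transpose * Matrix.single i j (1 : ℂ) * A g) k l = A g i k * A g j l := by
    intro g i j k l
    simp [Matrix.mul_apply, Matrix.single_apply, ite_and]
  have hrank : (Module.finrank ℂ inv : ℂ) = 1 := by
    rw [← LinearMap.IsProj.trace hproj, hdiag]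
    simp only [π, LinearMap.coe_mk, AddHom.coe_mk, Matrix.smul_apply, Matrix.sum_apply, hsingle, smul_eq_mul,
      ← Finset.mul_sum]
    rw [Finset.sum_congr rfl fun i _ => Finset.sum_comm, Finset.sum_comm]
    have h2 := classInner_irr_self (G := G) (χ := ρ.character) ⟨n, ρ, hirr, rfl⟩
    refine Eq.trans ?_ h2
    rw [Cfsg.classInner]
    congr 1
    refine Finset.sum_congr rfl fun g _ => ?_
    rw [Complex.conj_eq_iff_im.mpr (hreal g), htr g, Matrix.trace, Finset.sum_mul_sum]
    rfl
  have hrank1 : Module.finrank ℂ inv = 1 := by exact_mod_cast hrank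
  obtain ⟨M₀, hM₀, hspan⟩ := finrank_eq_one_iff'.mp hrank1
  have hM0 : (M₀ : Matrix (Fin n) (Fin n) ℂ) ≠ 0 := fun h => hM₀ (Subtype.ext h)
  have hT : ∀ M ∈ inv, M.transpose ∈ inv := fun M hM g => by
    conv_rhs => rw [← hM g]
    simp only [Matrix.transpose_mul, Matrix.transpose_transpose, Matrix.mul_assoc]
  obtain ⟨c, hc⟩ := hspan ⟨_, hT _ M₀.2⟩
  have hc' : c • (M₀ : Matrix (Fin n) (Fin n) ℂ) = (M₀ : Matrix (Fin n) (Fin n) ℂ).transpose :=
    congrArg Subtype.val hc
  have hν : (Nat.card G : ℂ)⁻¹ * ∑ g, ρ.character (g * g) = c := by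
    have hpt : (Matrix.transposeLinearEquiv (Fin n) (Fin n) ℂ ℂ).toLinearMap ∘ₗ π = c • π := by
      refine LinearMap.ext fun M => ?_
      obtain ⟨z, hz⟩ := hspan ⟨π M, hproj.map_mem M⟩
      have hz' : z • (M₀ : Matrix (Fin n) (Fin n) ℂ) = π M := congrArg Subtype.val hz
      show (π M).transpose = c • π M
      rw [← hz', Matrix.transpose_smul, ← hc', smul_comm]
    have key := congrArg (LinearMap.trace ℂ _) hpt
    rw [map_smul, LinearMap.IsProj.trace hproj, hrank, smul_eq_mul, mul_one] at key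
    rw [← key, hdiag]
    have hap : ∀ (M : Matrix (Fin n) (Fin n) ℂ) (i j : Fin n),
        ((Matrix.transposeLinearEquiv (Fin n) (Fin n) ℂ ℂ).toLinearMap ∘ₗ π) M i j = π M j i :=
      fun _ _ _ => rfl
    simp only [hap, π, LinearMap.coe_mk, AddHom.coe_mk,
      Matrix.smul_apply, Matrix.sum_apply, hsingle, smul_eq_mul, ← Finset.mul_sum]
    congr 1
    rw [Finset.sum_congr rfl fun i _ => Finset.sum_comm, Finset.sum_comm]
    refine Finset.sum_congr rfl fun g _ => ?_
    rw [htr, hmul, Matrix.trace]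
    refine Finset.sum_congr rfl fun i _ => ?_
    rw [Matrix.diag_apply, Matrix.mul_apply]
  refine ⟨⟨_, hM0, M₀.2⟩, fun M hM => ?_⟩
  obtain ⟨z, hz⟩ := hspan ⟨M, hM⟩
  have hz' : z • (M₀ : Matrix (Fin n) (Fin n) ℂ) = M := congrArg Subtype.val hz
  rw [hν, ← hz', Matrix.transpose_smul, ← hc', smul_comm]

end Cfsg.Agent.S4475
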