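import Cfsg.Statements.S4474
import Cfsg.Agent.S4475
-- import your own Cfsg.Agent.* helpers here

set_option autoImplicit false
set_option maxHeartbeats 1600000
open Cfsg Cfsg.Lib.Characters Matrix
open scoped ComplexConjugate ComplexOrder

namespace Cfsg.Agent.S4474

/-- A character with a symmetric invariant form has indicator one. -/
theorem fs_eq_one_of_symmetric {G : Type*} [Group G] [Fintype G] {n : ℕ}
    (ρ : Representation ℂ G (Fin n → ℂ)) (hI : IsIrrCharacter G ρ.character)
    (hreal : ∀ g : G, (ρ.character g).im = 0) (M : Matrix (Fin n) (Fin n) ℂ) (hMne : M ≠ 0)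
    (hMsym : M.transpose = M)
    (hMinv : ∀ g : G, (LinearMap.toMatrix' (ρ g)).transpose * M * LinearMap.toMatrix' (ρ g) = M) :
    (Nat.card G : ℂ)⁻¹ * ∑ g, ρ.character (g * g) = 1 := by
  classical
  set A : G → Matrix (Fin n) (Fin n) ℂ := fun g => LinearMap.toMatrix' (ρ g) with hA
  have hmul : ∀ g h, A (g * h) = A g * A h := fun g h => by
    simp only [hA, map_mul]; exact LinearMap.toMatrix'_mul _ _
  have hone : A 1 = 1 := by simp only [hA, map_one]; exact LinearMap.toMatrix'_one
  have htr : ∀ g, ρ.character g = (A g).trace := fun g => by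
    simp only [hA, Representation.character]
    rw [LinearMap.trace_eq_matrix_trace ℂ (Pi.basisFun ℂ (Fin n)), LinearMap.toMatrix_eq_toMatrix']
  -- the averaging projection
  let π : Matrix (Fin n) (Fin n) ℂ →ₗ[ℂ] Matrix (Fin n) (Fin n) ℂ :=
    { toFun := fun M => (Nat.card G : ℂ)⁻¹ • ∑ g, (A g).transpose * M * A g
      map_add' := fun M N => by
        simp only [Matrix.mul_add, Matrix.add_mul, Finset.sum_add_distrib, smul_add]
      map_smul' := fun c M => by
        simp only [Matrix.mul_smul, Matrix.smul_mul, ← Finset.smul_sum, RingHom.id_apply,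
          smul_comm c] }
  let inv : Submodule ℂ (Matrix (Fin n) (Fin n) ℂ) :=
    { carrier := {M | ∀ g, (A g).transpose * M * A g = M}
      add_mem' := fun {M N} hM hN g => by rw [Matrix.mul_add, Matrix.add_mul, hM g, hN g]
      zero_mem' := fun g => by simp
      smul_mem' := fun c M hM g => by rw [Matrix.mul_smul, Matrix.smul_mul, hM g] }
  have hproj : LinearMap.IsProj inv π := by
    constructor
    · intro M g
      simp only [π, LinearMap.coe_mk, AddHom.coe_mk, Matrix.mul_smul, Matrix.smul_mul, Matrix.mul_sum,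
        Matrix.sum_mul]
      congr 1
      refine Fintype.sum_equiv (Equiv.mulRight g) _ _ fun h => ?_
      simp only [Equiv.coe_mulRight, hmul, Matrix.transpose_mul, Matrix.mul_assoc]
    · intro M hM
      simp only [π, LinearMap.coe_mk, AddHom.coe_mk]
      rw [Finset.sum_congr rfl fun g _ => hM g, Finset.sum_const, Finset.card_univ,
        ← Nat.card_eq_fintype_card, ← Nat.cast_smul_eq_nsmul ℂ, smul_smul,
        inv_mul_cancel₀ (Nat.cast_ne_zero.mpr Nat.card_pos.ne'), one_smul]
  -- traces as double sums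
  have hdiag : ∀ T : Matrix (Fin n) (Fin n) ℂ →ₗ[ℂ] Matrix (Fin n) (Fin n) ℂ,
      LinearMap.trace ℂ _ T = ∑ i, ∑ j, T (Matrix.single i j (1 : ℂ)) i j := by
    intro T
    rw [LinearMap.trace_eq_matrix_trace ℂ (Matrix.stdBasis ℂ (Fin n) (Fin n)), Matrix.trace,
      Fintype.sum_prod_type]
    refine Finset.sum_congr rfl fun i _ => Finset.sum_congr rfl fun j _ => ?_
    rw [Matrix.diag_apply, LinearMap.toMatrix_apply, Matrix.stdBasis_eq_single]
    rfl
  have hsingle : ∀ (g : G) (i j k l : Fin n),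
      ((A g).transpose * Matrix.single i j (1 : ℂ) * A g) k l = A g i k * A g j l := by
    intro g i j k l
    simp [Matrix.mul_apply, Matrix.single_apply, ite_and]
  have hrank : (Module.finrank ℂ inv : ℂ) = 1 := by
    rw [← LinearMap.IsProj.trace hproj, hdiag]
    simp only [π, LinearMap.coe_mk, AddHom.coe_mk, Matrix.smul_apply, Matrix.sum_apply, hsingle, smul_eq_mul,
      ← Finset.mul_sum]
    rw [Finset.sum_congr rfl fun i _ => Finset.sum_comm, Finset.sum_comm]
    have h2 := classInner_irr_self (G := G) (χ := ρ.character) hI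
    refine Eq.trans ?_ h2
    rw [Cfsg.classInner]
    congr 1
    refine Finset.sum_congr rfl fun g _ => ?_
    rw [Complex.conj_eq_iff_im.mpr (hreal g), htr g, Matrix.trace, Finset.sum_mul_sum]
    rfl
  have hrank1 : Module.finrank ℂ inv = 1 := by exact_mod_cast hrank
  obtain ⟨M₀, hM₀, hspan⟩ := finrank_eq_one_iff'.mp hrank1
  have hM0 : (M₀ : Matrix (Fin n) (Fin n) ℂ) ≠ 0 := fun h => hM₀ (Subtype.ext h)
  have hT : ∀ M ∈ inv, M.transpose ∈ inv := fun M hM g => by
    conv_rhs => rw [← hM g]
    simp only [Matrix.transpose_mul, Matrix.transpose_transpose, Matrix.mul_assoc]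
  obtain ⟨c, hc⟩ := hspan ⟨_, hT _ M₀.2⟩
  have hc' : c • (M₀ : Matrix (Fin n) (Fin n) ℂ) = (M₀ : Matrix (Fin n) (Fin n) ℂ).transpose :=
    congrArg Subtype.val hc
  have hν : (Nat.card G : ℂ)⁻¹ * ∑ g, ρ.character (g * g) = c := by
    have hpt : (Matrix.transposeLinearEquiv (Fin n) (Fin n) ℂ ℂ).toLinearMap ∘ₗ π = c • π := by
      refine LinearMap.ext fun M => ?_
      obtain ⟨z, hz⟩ := hspan ⟨π M, hproj.map_mem M⟩
      have hz' : z • (M₀ : Matrix (Fin n) (Fin n) ℂ) = π M := congrArg Subtype.val hz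
      show (π M).transpose = c • π M
      rw [← hz', Matrix.transpose_smul, ← hc', smul_comm]
    have key := congrArg (LinearMap.trace ℂ _) hpt
    rw [map_smul, LinearMap.IsProj.trace hproj, hrank, smul_eq_mul, mul_one] at key
    rw [← key, hdiag]
    have hap : ∀ (M : Matrix (Fin n) (Fin n) ℂ) (i j : Fin n),
        ((Matrix.transposeLinearEquiv (Fin n) (Fin n) ℂ ℂ).toLinearMap ∘ₗ π) M i j = π M j i :=
      fun _ _ _ => rfl
    simp only [hap, π, LinearMap.coe_mk, AddHom.coe_mk,
      Matrix.smul_apply, Matrix.sum_apply, hsingle, smul_eq_mul, ← Finset.mul_sum]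
    congr 1
    rw [Finset.sum_congr rfl fun i _ => Finset.sum_comm, Finset.sum_comm]
    refine Finset.sum_congr rfl fun g _ => ?_
    rw [htr, hmul, Matrix.trace]
    refine Finset.sum_congr rfl fun i _ => ?_
    rw [Matrix.diag_apply, Matrix.mul_apply]
  obtain ⟨z, hz⟩ := hspan ⟨M, hMinv⟩
  have hz' : z • (M₀ : Matrix (Fin n) (Fin n) ℂ) = M := congrArg Subtype.val hz
  have hz0 : z ≠ 0 := fun h => hMne (by rw [← hz', h, zero_smul])
  have h1 : z • (c • (M₀ : Matrix (Fin n) (Fin n) ℂ)) = z • (M₀ : Matrix (Fin n) (Fin n) ℂ) := by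
    rw [hc', ← Matrix.transpose_smul, hz', hMsym]
  have h2 : c • (M₀ : Matrix (Fin n) (Fin n) ℂ) = (1 : ℂ) • (M₀ : Matrix (Fin n) (Fin n) ℂ) := by
    rw [one_smul]; exact smul_right_injective _ hz0 h1
  rw [hν]
  exact smul_left_injective ℂ hM0 h2

/-- A symmetric invariant form gives a real form of the representation. -/
theorem exists_real_form {G : Type*} [Group G] [Fintype G] {n : ℕ}
    (ρ : Representation ℂ G (Fin n → ℂ)) [ρ.IsIrreducible] (M : Matrix (Fin n) (Fin n) ℂ) (hMne : M ≠ 0)
    (hMsym : M.transpose = M)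
    (hMinv : ∀ g : G, (LinearMap.toMatrix' (ρ g)).transpose * M * LinearMap.toMatrix' (ρ g) = M) :
    ∃ (m : ℕ) (σ : Representation ℝ G (Fin m → ℝ)), ∀ g : G,
      ((LinearMap.trace ℝ (Fin m → ℝ) (σ g) : ℝ) : ℂ) = ρ.character g := by
  classical
  set A : G → Matrix (Fin n) (Fin n) ℂ := fun g => LinearMap.toMatrix' (ρ g) with hA
  have hmul : ∀ g h, A (g * h) = A g * A h := fun g h => by
    simp only [hA, map_mul]; exact LinearMap.toMatrix'_mul _ _
  have hone : A 1 = 1 := by simp only [hA, map_one]; exact LinearMap.toMatrix'_one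
  have hact : ∀ g v, ρ g v = A g *ᵥ v := fun g v => (LinearMap.toMatrix'_mulVec _ v).symm
  set H : Matrix (Fin n) (Fin n) ℂ := ∑ g, (A g).conjTranspose * A g with hHdef
  have hH : H.PosDef := by
    rw [hHdef, ← Finset.add_sum_erase _ _ (Finset.mem_univ (1 : G)), hone, Matrix.conjTranspose_one, one_mul]
    exact Matrix.PosDef.one.add_posSemidef
      (Matrix.posSemidef_sum _ fun g _ => Matrix.posSemidef_conjTranspose_mul_self _)
  have hHinv : ∀ g, (A g).conjTranspose * H * A g = H := by
    intro g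
    rw [hHdef, Matrix.mul_sum, Matrix.sum_mul]
    refine Fintype.sum_equiv (Equiv.mulRight g) _ _ fun h => ?_
    simp only [Equiv.coe_mulRight, hmul, Matrix.conjTranspose_mul, Matrix.mul_assoc]
  have hdet : IsUnit H.det := (Matrix.isUnit_iff_isUnit_det H).mp hH.isUnit
  let T : (Fin n → ℂ) → Fin n → ℂ := fun v => H⁻¹ *ᵥ star (M *ᵥ v)
  have hT : ∀ v, H *ᵥ T v = star (M *ᵥ v) := fun v => by
    simp only [T, Matrix.mulVec_mulVec, Matrix.mul_nonsing_inv _ hdet, Matrix.one_mulVec]
  have hinj : ∀ a b : Fin n → ℂ, H *ᵥ a = H *ᵥ b → a = b := fun a b h => by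
    have := congrArg (fun v => H⁻¹ *ᵥ v) h
    simpa [Matrix.mulVec_mulVec, Matrix.nonsing_inv_mul _ hdet] using this
  have hTadd : ∀ a b, T (a + b) = T a + T b := fun a b => by
    simp only [T, Matrix.mulVec_add, star_add]
  have hTsmul : ∀ (z : ℂ) a, T (z • a) = conj z • T a := fun z a => by
    simp only [T, Matrix.mulVec_smul, star_smul]
    rfl
  have hTg : ∀ g v, T (A g *ᵥ v) = A g *ᵥ T v := by
    intro g v
    have hAinv : A g * A g⁻¹ = 1 := by rw [← hmul, mul_inv_cancel, hone]
    apply hinj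
    have e1 : (A g).conjTranspose *ᵥ (H *ᵥ T (A g *ᵥ v)) = (A g).conjTranspose *ᵥ (H *ᵥ (A g *ᵥ T v)) := by
      rw [Matrix.mulVec_mulVec (T v) H (A g), Matrix.mulVec_mulVec (T v) _ (H * A g), ← Matrix.mul_assoc, hHinv g,
        hT, hT, Matrix.mulVec_mulVec v M (A g)]
      have hAH : (A g).conjTranspose *ᵥ star ((M * A g) *ᵥ v) = star (((A g).transpose * M * A g) *ᵥ v) := by
        rw [Matrix.mul_assoc (A g).transpose, ← Matrix.mulVec_mulVec v (A g).transpose]
        generalize (M * A g) *ᵥ v = w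
        funext i
        simp [Matrix.mulVec, dotProduct, Matrix.conjTranspose_apply]
      rw [hAH, hMinv g]
    have h2 := congrArg (fun w => (A g⁻¹).conjTranspose *ᵥ w) e1
    simpa only [Matrix.mulVec_mulVec, ← Matrix.mul_assoc, ← Matrix.conjTranspose_mul, hAinv,
      Matrix.conjTranspose_one, Matrix.one_mulVec, one_mul] using h2
  let T2 : (Fin n → ℂ) →ₗ[ℂ] (Fin n → ℂ) :=
    { toFun := fun v => T (T v)
      map_add' := fun a b => by rw [hTadd, hTadd]
      map_smul' := fun z a => by rw [hTsmul, hTsmul, Complex.conj_conj, RingHom.id_apply] }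
  obtain ⟨c, hc⟩ := schur_scalar ρ T2 fun g => LinearMap.ext fun v => by
    show T (T (ρ g v)) = ρ g (T (T v))
    rw [hact, hact, hTg, hTg]
  have hc' : ∀ v, T (T v) = c • v := fun v => LinearMap.congr_fun hc v
  obtain ⟨v₀, hv₀⟩ : ∃ v, M *ᵥ v ≠ 0 := by
    by_contra h
    push Not at h
    exact hMne (Matrix.ext_of_mulVec_single fun i => by rw [h, Matrix.zero_mulVec])
  have hv0 : v₀ ≠ 0 := fun h => hv₀ (by rw [h, Matrix.mulVec_zero])
  have hz0 : T v₀ ≠ 0 := by
    intro h
    have h1 := hT v₀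
    rw [h, Matrix.mulVec_zero, eq_comm, star_eq_zero] at h1
    exact hv₀ h1
  have hkey : c * (star v₀ ⬝ᵥ H *ᵥ v₀) = star (T v₀) ⬝ᵥ H *ᵥ T v₀ := by
    have h1 : star v₀ ⬝ᵥ H *ᵥ T (T v₀) = c * (star v₀ ⬝ᵥ H *ᵥ v₀) := by
      rw [hc', Matrix.mulVec_smul, dotProduct_smul, smul_eq_mul]
    rw [← h1, hT, hT, Matrix.star_dotProduct_star, Matrix.star_dotProduct_star]
    rw [dotProduct_comm (M *ᵥ T v₀), Matrix.dotProduct_mulVec, ← Matrix.mulVec_transpose, hMsym]
  have hp1 := Complex.pos_iff.mp (hH.dotProduct_mulVec_pos hv0)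
  have hp2 := Complex.pos_iff.mp (hH.dotProduct_mulVec_pos hz0)
  have hcim : c.im = 0 := by
    have h1 := congrArg Complex.im hkey
    rw [Complex.mul_im, ← hp1.2, ← hp2.2, mul_zero, zero_add] at h1
    exact (mul_eq_zero.mp h1).resolve_right hp1.1.ne'
  have hcre : 0 < c.re := by
    have h1 := congrArg Complex.re hkey
    rw [Complex.mul_re, ← hp1.2, mul_zero, sub_zero] at h1
    exact (mul_pos_iff_of_pos_right hp1.1).mp (h1 ▸ hp2.1)
  set s : ℂ := (Real.sqrt c.re : ℂ) with hsdef
  have hs0 : s ≠ 0 := Complex.ofReal_ne_zero.mpr (Real.sqrt_ne_zero'.mpr hcre)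
  have hss : s * s = c := by
    rw [hsdef, ← Complex.ofReal_mul, Real.mul_self_sqrt hcre.le]
    exact Complex.ext rfl hcim.symm
  have hsc : conj s = s := Complex.conj_ofReal _
  let W : Submodule ℝ (Fin n → ℂ) :=
    { carrier := {v | T v = s • v}
      add_mem' := fun {a b} ha hb => by
        simp only [Set.mem_setOf_eq] at ha hb ⊢
        rw [hTadd, ha, hb, smul_add]
      zero_mem' := by
        show T 0 = s • 0
        simp [T]
      smul_mem' := fun r a ha => by
        simp only [Set.mem_setOf_eq] at ha ⊢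
        rw [show r • a = (r : ℂ) • a from (IsScalarTower.algebraMap_smul ℂ r a).symm, hTsmul, ha,
          Complex.conj_ofReal, smul_comm] }
  have hWstab : ∀ g : G, ∀ v ∈ W, ρ g v ∈ W := fun g v hv => by
    show T (ρ g v) = s • ρ g v
    rw [hact, hTg, show T v = s • v from hv, Matrix.mulVec_smul]
  let σ₀ : Representation ℝ G W :=
    { toFun := fun g => ((ρ g).restrictScalars ℝ).restrict (hWstab g)
      map_one' := LinearMap.ext fun v => Subtype.ext (by
        show ρ 1 (v : Fin n → ℂ) = v
        rw [map_one]; rfl)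
      map_mul' := fun a b => LinearMap.ext fun v => Subtype.ext (by
        show ρ (a * b) (v : Fin n → ℂ) = ρ a (ρ b v)
        rw [map_mul]; rfl) }
  let b := Module.finBasis ℝ W
  let e := b.equivFun
  refine ⟨Module.finrank ℝ W, (e.conjRingEquiv.toMonoidHom).comp σ₀, fun g => ?_⟩
  show ((LinearMap.trace ℝ _ (e.conj (σ₀ g)) : ℝ) : ℂ) = ρ.character g
  rw [LinearMap.trace_conj']
  let w : Fin (Module.finrank ℝ W) → Fin n → ℂ := fun i => (b i : Fin n → ℂ)
  have hreal : ∀ f : Fin (Module.finrank ℝ W) → ℝ,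
      ((∑ i, f i • b i : W) : Fin n → ℂ) = ∑ i, (f i : ℂ) • w i := fun f => by
    rw [AddSubmonoidClass.coe_finsetSum]
    exact Finset.sum_congr rfl fun i _ => (IsScalarTower.algebraMap_smul ℂ (f i) (w i)).symm
  have hli : LinearIndependent ℂ w := by
    rw [Fintype.linearIndependent_iff]
    intro z hz i
    set x := ∑ i, ((z i).re : ℂ) • w i
    set y := ∑ i, ((z i).im : ℂ) • w i
    have hxW : T x = s • x := by
      have h := (∑ i, (z i).re • b i : W).2
      rw [hreal fun i => (z i).re] at h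
      exact h
    have hyW : T y = s • y := by
      have h := (∑ i, (z i).im • b i : W).2
      rw [hreal fun i => (z i).im] at h
      exact h
    have hxy : x + Complex.I • y = 0 := by
      rw [← hz, Finset.smul_sum, ← Finset.sum_add_distrib]
      exact Finset.sum_congr rfl fun i _ => by rw [smul_smul, ← add_smul, mul_comm Complex.I, Complex.re_add_im]
    have hxy2 : x - Complex.I • y = 0 := by
      have h1 := congrArg T hxy
      rw [hTadd, hTsmul, hxW, hyW, Complex.conj_I, show T 0 = 0 by simp [T], smul_smul, mul_comm (-Complex.I),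
        ← smul_smul, ← smul_add, smul_eq_zero, neg_smul, ← sub_eq_add_neg] at h1
      exact h1.resolve_left hs0
    have hx0 : x = 0 := by
      have h1 : (2 : ℂ) • x = 0 := by
        rw [two_smul]
        linear_combination (norm := module) hxy + hxy2
      exact (smul_eq_zero.mp h1).resolve_left two_ne_zero
    have hy0 : y = 0 := by
      rw [hx0, zero_add, smul_eq_zero] at hxy
      exact hxy.resolve_left Complex.I_ne_zero
    have hr : ∀ f : Fin (Module.finrank ℝ W) → ℝ, (∑ i, (f i : ℂ) • w i) = 0 → ∀ i, f i = 0 := fun f hf =>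
      Fintype.linearIndependent_iff.mp b.linearIndependent f (Subtype.ext (by rw [hreal]; exact hf))
    exact Complex.ext (hr _ hx0 i) (hr _ hy0 i)
  have hspanW : ∀ v ∈ W, v ∈ Submodule.span ℂ (Set.range w) := fun v hv => by
    have h1 := congrArg Subtype.val (b.sum_repr ⟨v, hv⟩)
    rw [hreal] at h1
    rw [← show _ = v from h1]
    exact Submodule.sum_mem _ fun i _ => Submodule.smul_mem _ _ (Submodule.subset_span ⟨i, rfl⟩)
  have hsp : ⊤ ≤ Submodule.span ℂ (Set.range w) := by
    intro v _
    have hw1 : v + s⁻¹ • T v ∈ W := by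
      show T (v + s⁻¹ • T v) = s • (v + s⁻¹ • T v)
      rw [hTadd, hTsmul, hc', map_inv₀, hsc, smul_add, smul_smul, smul_smul, mul_inv_cancel₀ hs0, one_smul,
        ← hss, ← mul_assoc, inv_mul_cancel₀ hs0, one_mul, add_comm]
    have hw2 : Complex.I • (v - s⁻¹ • T v) ∈ W := by
      show T (Complex.I • (v - s⁻¹ • T v)) = s • Complex.I • (v - s⁻¹ • T v)
      rw [hTsmul, Complex.conj_I, sub_eq_add_neg, hTadd, ← neg_smul, hTsmul, hc', map_neg, map_inv₀, hsc, ← hss]
      match_scalars <;> field_simp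
    have h2 : v = (2 : ℂ)⁻¹ • ((v + s⁻¹ • T v) + (-Complex.I) • (Complex.I • (v - s⁻¹ • T v))) := by
      rw [smul_smul (-Complex.I), neg_mul, Complex.I_mul_I, neg_neg, one_smul]
      module
    rw [h2]
    exact Submodule.smul_mem _ _ (Submodule.add_mem _ (hspanW _ hw1) (Submodule.smul_mem _ _ (hspanW _ hw2)))
  let bc : Module.Basis (Fin (Module.finrank ℝ W)) ℂ (Fin n → ℂ) := Module.Basis.mk hli hsp
  rw [Representation.character, LinearMap.trace_eq_matrix_trace ℂ bc, LinearMap.trace_eq_matrix_trace ℝ b,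
    Matrix.trace, Matrix.trace, Complex.ofReal_sum]
  refine Finset.sum_congr rfl fun i _ => ?_
  rw [Matrix.diag_apply, Matrix.diag_apply, LinearMap.toMatrix_apply, LinearMap.toMatrix_apply]
  have h1 : ρ g (bc i) = ∑ j, ((b.repr (σ₀ g (b i)) j : ℝ) : ℂ) • bc j := by
    simp only [bc, Module.Basis.mk_apply]
    rw [← hreal, b.sum_repr]
    rfl
  rw [h1, bc.repr_sum_self]

/-- Let χ be an irreducible character of the finite group G. Then the Frobenius–Schur indicator of χ (the average over s ∈ G of χ(s²)) equals 1 if and only if χ is afforded by a real representation: there is a representation of G on a real coordinate space whose trace function, viewed in ℂ, is χ. -/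
theorem result {G : Type*} [Group G] [Fintype G] (χ : Cfsg.IrrCharacter G) : ((Nat.card G : ℂ)⁻¹ * ∑ s : G, (χ : G → ℂ) (s * s)) = 1 ↔ ∃ (n : ℕ) (ρ : Representation ℝ G (Fin n → ℝ)), ∀ g : G, ((LinearMap.trace ℝ (Fin n → ℝ) (ρ g) : ℝ) : ℂ) = (χ : G → ℂ) g := by
  classical
  constructor
  · intro hν
    obtain ⟨χ, n, ρ, hρ, rfl⟩ := χ
    haveI := hρ
    have hI : IsIrrCharacter G ρ.character := ⟨n, ρ, hρ, rfl⟩
    have hreal : ∀ g, (ρ.character g).im = 0 := by
      intro g
      by_contra h
      have h0 := fs_zero_of_nonreal hI ⟨g, fun e => h (Complex.conj_eq_iff_im.mp e)⟩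
      exact one_ne_zero (hν.symm.trans h0)
    obtain ⟨⟨M, hMne, hMinv⟩, hall⟩ := Cfsg.Agent.S4475.result n ρ hρ hreal
    have hs := hall M hMinv
    rw [show ((Nat.card G : ℂ)⁻¹ * ∑ s : G, ρ.character (s * s)) = 1 from hν, one_smul] at hs
    exact exists_real_form ρ M hMne hs hMinv
  · rintro ⟨n, ρ, hρ⟩
    let R : G → Matrix (Fin n) (Fin n) ℝ := fun g => LinearMap.toMatrix' (ρ g)
    have hRmul : ∀ g h, R (g * h) = R g * R h := fun g h => by
      simp only [R, map_mul]; exact LinearMap.toMatrix'_mul _ _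
    have hR1 : R 1 = 1 := by simp only [R, map_one]; exact LinearMap.toMatrix'_one
    let σ : Representation ℂ G (Fin n → ℂ) :=
      { toFun := fun g => Matrix.toLin' ((R g).map Complex.ofReal)
        map_one' := by rw [hR1, Matrix.map_one _ Complex.ofReal_zero Complex.ofReal_one, Matrix.toLin'_one]; rfl
        map_mul' := fun g h => by
          rw [hRmul, show (R g * R h).map Complex.ofReal = (R g).map Complex.ofReal * (R h).map Complex.ofReal from
            Matrix.map_mul (f := Complex.ofRealHom), Matrix.toLin'_mul]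
          rfl }
    have hσ : σ.character = (χ : G → ℂ) := by
      funext g
      rw [← hρ g]
      show LinearMap.trace ℂ _ (Matrix.toLin' ((R g).map Complex.ofReal)) = _
      rw [LinearMap.trace_eq_matrix_trace ℂ (Pi.basisFun ℂ (Fin n)), LinearMap.toMatrix_eq_toMatrix',
        LinearMap.toMatrix'_toLin', LinearMap.trace_eq_matrix_trace ℝ (Pi.basisFun ℝ (Fin n)),
        LinearMap.toMatrix_eq_toMatrix', Matrix.trace, Matrix.trace, Complex.ofReal_sum]
      rfl
    have hA : ∀ g, LinearMap.toMatrix' (σ g) = (R g).map Complex.ofReal := fun g =>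
      LinearMap.toMatrix'_toLin' _
    let S : Matrix (Fin n) (Fin n) ℝ := ∑ g, (R g).transpose * R g
    have hSinv : ∀ g, (R g).transpose * S * R g = S := by
      intro g
      simp only [S, Matrix.mul_sum, Matrix.sum_mul]
      refine Fintype.sum_equiv (Equiv.mulRight g) _ _ fun h => ?_
      simp only [Equiv.coe_mulRight, hRmul, Matrix.transpose_mul, Matrix.mul_assoc]
    have hSsym : S.transpose = S := by
      simp only [S, Matrix.transpose_sum, Matrix.transpose_mul, Matrix.transpose_transpose]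
    have hn : 0 < n := by
      rcases Nat.eq_zero_or_pos n with rfl | h
      · exact absurd (by rw [← hρ 1]; simp) χ.2.one_ne_zero
      · exact h
    have hSpos : S ⟨0, hn⟩ ⟨0, hn⟩ ≠ 0 := by
      simp only [S, Matrix.sum_apply, Matrix.mul_apply, Matrix.transpose_apply]
      refine ne_of_gt (Finset.sum_pos' (fun g _ => Finset.sum_nonneg fun j _ => mul_self_nonneg _)
        ⟨1, Finset.mem_univ _, ?_⟩)
      rw [hR1]
      simp [Matrix.one_apply]
    have hI : IsIrrCharacter G σ.character := hσ ▸ χ.2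
    have hreal : ∀ g, (σ.character g).im = 0 := fun g => by rw [hσ, ← hρ g]; exact Complex.ofReal_im _
    have h := fs_eq_one_of_symmetric σ hI hreal (S.map Complex.ofReal)
      (fun h0 => hSpos (by simpa using congr_fun (congr_fun h0 ⟨0, hn⟩) ⟨0, hn⟩))
      (by rw [← Matrix.transpose_map, hSsym]) (fun g => by
        rw [hA, ← Matrix.transpose_map]
        change (R g).transpose.map Complex.ofRealHom * S.map Complex.ofRealHom * (R g).map Complex.ofRealHom = _
        rw [← Matrix.map_mul, ← Matrix.map_mul, hSinv]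
        rfl)
    rw [hσ] at h
    exact h

end Cfsg.Agent.S4474
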