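import Cfsg.Statements.S4476
import Mathlib
import Cfsg.Agent.Lib.Blocks.DefectZero
import Cfsg.Agent.Lib.Characters.FSValues
import Cfsg.Agent.Lib.Characters.Integrality

set_option autoImplicit false
open Cfsg

namespace Cfsg.Agent.S4476

/-- Let G be a finite group of even order g with exactly t involutions, and put α = (g − 1)/t (a rational number). Then (a) some non-identity element x of G has at most α² conjugates; and (b) some non-principal real-valued irreducible character of G has degree at most α. -/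
theorem result {G : Type*} [Group G] [Fintype G] (heven : Even (Nat.card G)) (t : ℕ) (ht : Nat.card {x : G // orderOf x = 2} = t) : (∃ x : G, x ≠ 1 ∧ ((Subgroup.centralizer ({x} : Set G)).index : ℚ) ≤ (((Nat.card G : ℚ) - 1) / t) ^ 2) ∧ ∃ χ : Cfsg.IrrCharacter G, (χ : G → ℂ) ≠ (fun _ => 1) ∧ (∀ g : G, ((χ : G → ℂ) g).im = 0) ∧ (Cfsg.charDegree (χ : G → ℂ) : ℚ) ≤ ((Nat.card G : ℚ) - 1) / t := by
  classical
  set one : Cfsg.IrrCharacter G := ⟨fun _ => 1, Cfsg.Lib.Characters.isIrrCharacter_one⟩
  set d := fun χ : Cfsg.IrrCharacter G => (Cfsg.charDegree (χ : G → ℂ) : ℝ) with hd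
  have hd1 : ∀ χ : Cfsg.IrrCharacter G, (χ : G → ℂ) 1 = (d χ : ℂ) := fun χ => by
    rw [← Cfsg.Lib.Blocks.coe_charDegree]; simp [hd]
  have hdone : d one = 1 := by
    have h := hd1 one
    change (1 : ℂ) = _ at h
    exact_mod_cast h.symm
  have hdpos : ∀ χ, 1 ≤ d χ := fun χ => by
    simp only [hd]; exact_mod_cast Cfsg.Lib.Blocks.charDegree_pos χ
  set real := fun χ : Cfsg.IrrCharacter G => ∀ g : G, (starRingEnd ℂ) ((χ : G → ℂ) g) = (χ : G → ℂ) g
  set S := Finset.univ.filter (fun χ : Cfsg.IrrCharacter G => real χ ∧ χ ≠ one) with hS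
  have htpos : 0 < t := by
    obtain ⟨x, hx⟩ := exists_prime_orderOf_dvd_card' 2 (even_iff_two_dvd.1 heven)
    rw [← ht]
    haveI : Nonempty {x : G // orderOf x = 2} := ⟨⟨x, hx⟩⟩
    exact Nat.card_pos
  have hsq : (Finset.univ.filter fun x : G => x * x = 1).card = t + 1 := by
    rw [← ht, Nat.card_eq_fintype_card, Fintype.card_subtype,
      ← Finset.card_insert_of_notMem (a := (1 : G)) (by simp)]
    congr 1
    ext x
    simp only [Finset.mem_filter, Finset.mem_univ, true_and, Finset.mem_insert]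
    rw [← sq]
    constructor
    · intro h
      by_cases hx : x = 1
      · exact Or.inl hx
      · exact Or.inr (orderOf_eq_prime h hx)
    · rintro (rfl | h)
      · simp
      · rw [← h, pow_orderOf_eq_one]
  have hbound : (t : ℝ) ≤ ∑ χ ∈ S, d χ := by
    have h := Cfsg.Lib.Characters.card_sqrt_eq_sum (1 : G)
    rw [hsq] at h
    have h2 := congrArg Complex.re h
    rw [Complex.re_sum, Complex.natCast_re] at h2
    have hle : ((t + 1 : ℕ) : ℝ) ≤ ∑ χ : Cfsg.IrrCharacter G, if real χ then d χ else 0 := by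
      rw [h2]
      refine Finset.sum_le_sum fun χ _ => ?_
      rw [show (∑ x : G, (starRingEnd ℂ) ((χ : G → ℂ) (x * x))) = (starRingEnd ℂ) (∑ x : G, (χ : G → ℂ) (x * x)) from (map_sum _ _ _).symm]
      rw [show ((Nat.card G : ℂ))⁻¹ = (starRingEnd ℂ) ((Nat.card G : ℂ))⁻¹ by simp, ← map_mul, hd1]
      by_cases hr : real χ
      · rw [if_pos hr]
        have := hdpos χ
        rcases Cfsg.Lib.Characters.fs_sign_of_real χ.2 hr with h | h
        · rw [h]; simp
        · rw [h]; simp; linarith
      · rw [if_neg hr, Cfsg.Lib.Characters.fs_zero_of_nonreal χ.2 (not_forall.1 hr)]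
        simp
    rw [← Finset.sum_filter, ← Finset.add_sum_erase _ _ (a := one)
      (Finset.mem_filter.2 ⟨Finset.mem_univ _, fun g => map_one _⟩), hdone] at hle
    have hSe : (Finset.univ.filter fun χ => real χ).erase one = S := by
      ext χ; simp [hS, and_comm]
    rw [hSe] at hle
    push_cast at hle
    linarith
  have hsumsq : ∑ χ ∈ Finset.univ.erase one, d χ ^ 2 = (Nat.card G : ℝ) - 1 := by
    rw [eq_sub_iff_add_eq]
    have h := Cfsg.Lib.Characters.sum_sq_degree (G := G)
    rw [← Finset.sum_erase_add _ _ (Finset.mem_univ one)] at h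
    simp only [hd1, hdone] at h
    push_cast at h
    rw [one_pow] at h
    exact_mod_cast h
  have hSsub : S ⊆ Finset.univ.erase one := fun χ hχ => by
    simp [hS] at hχ; simp [hχ.2]
  have hg1 : (1 : ℝ) ≤ Nat.card G := by exact_mod_cast (Nat.card_pos : 0 < Nat.card G)
  have htR : (0 : ℝ) < t := by exact_mod_cast htpos
  constructor
  · set k := Nat.card (ConjClasses G) with hk
    have hCS : (t : ℝ) ^ 2 ≤ ((k : ℝ) - 1) * ((Nat.card G : ℝ) - 1) := by
      have h1 : (t : ℝ) ≤ ∑ χ ∈ Finset.univ.erase one, d χ := hbound.trans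
        (Finset.sum_le_sum_of_subset_of_nonneg hSsub fun χ _ _ => zero_le_one.trans (hdpos χ))
      have h2 := sq_sum_le_card_mul_sum_sq (s := Finset.univ.erase one) (f := d)
      rw [hsumsq, Finset.card_erase_of_mem (Finset.mem_univ one), Finset.card_univ, ← Nat.card_eq_fintype_card,
        Cfsg.Lib.Characters.card_irr_eq_card_conjClasses, ← hk, Nat.cast_sub Nat.card_pos, Nat.cast_one] at h2
      exact (pow_le_pow_left₀ htR.le h1 2).trans h2
    by_contra hcon
    push_neg at hcon
    set c := fun C : ConjClasses G => (Nat.card C.carrier : ℝ) with hc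
    have hsum : ∑ C : ConjClasses G, c C = Nat.card G := by
      simp only [hc]
      rw [← Nat.cast_sum]
      congr 1
      rw [← Nat.card_sigma]
      exact Nat.card_congr ((Equiv.sigmaCongrRight fun C => Equiv.subtypeEquivRight fun x =>
        ConjClasses.mem_carrier_iff_mk_eq).trans (Equiv.sigmaFiberEquiv ConjClasses.mk))
    rw [← Finset.add_sum_erase _ _ (Finset.mem_univ (1 : ConjClasses G))] at hsum
    have hone' : c 1 = 1 := by
      simp only [hc]
      rw [Nat.card_eq_one_iff_unique.2]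
      · simp
      refine ⟨⟨fun a b => Subtype.ext ?_⟩, ⟨⟨1, ConjClasses.mem_carrier_iff_mk_eq.2 rfl⟩⟩⟩
      have ha := ConjClasses.mk_eq_mk_iff_isConj.1 ((ConjClasses.mem_carrier_iff_mk_eq.1 a.2).trans ConjClasses.one_eq_mk_one)
      have hb := ConjClasses.mk_eq_mk_iff_isConj.1 ((ConjClasses.mem_carrier_iff_mk_eq.1 b.2).trans ConjClasses.one_eq_mk_one)
      rw [isConj_one_left.1 ha, isConj_one_left.1 hb]
    set A : ℝ := (((Nat.card G : ℝ) - 1) / t) ^ 2 with hA
    have hkey : ∀ C ∈ Finset.univ.erase (1 : ConjClasses G), A < c C := by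
      intro C hC
      obtain ⟨x, rfl⟩ := ConjClasses.mk_surjective C
      have hx : x ≠ 1 := fun h => (Finset.mem_erase.1 hC).1 (by rw [h]; rfl)
      have h := hcon x hx
      rw [← Cfsg.Lib.Characters.card_conj_eq_index] at h
      have he : Nat.card {y : G // IsConj x y} = Nat.card (ConjClasses.mk x).carrier :=
        Nat.card_congr (Equiv.subtypeEquivRight fun y => by
          rw [ConjClasses.mem_carrier_iff_mk_eq, ConjClasses.mk_eq_mk_iff_isConj, isConj_comm])
      rw [he] at h
      simp only [hc, hA]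
      have h' : (((((Nat.card G : ℚ) - 1) / t) ^ 2 : ℚ) : ℝ) < (((Nat.card (ConjClasses.mk x).carrier : ℚ)) : ℝ) :=
        Rat.cast_lt.2 h
      push_cast at h'
      exact h'
    have hne : (Finset.univ.erase (1 : ConjClasses G)).Nonempty := by
      obtain ⟨x, hx⟩ := exists_prime_orderOf_dvd_card' 2 (even_iff_two_dvd.1 heven)
      refine ⟨ConjClasses.mk x, Finset.mem_erase.2 ⟨fun h => ?_, Finset.mem_univ _⟩⟩
      rw [ConjClasses.one_eq_mk_one, ConjClasses.mk_eq_mk_iff_isConj, isConj_one_left] at h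
      simp [h] at hx
    have hlt := Finset.sum_lt_sum_of_nonempty hne hkey
    rw [Finset.sum_const, nsmul_eq_mul, Finset.card_erase_of_mem (Finset.mem_univ _), Finset.card_univ,
      ← Nat.card_eq_fintype_card, ← hk, Nat.cast_sub Nat.card_pos, Nat.cast_one] at hlt
    rw [hone'] at hsum
    have hg' : 0 < (Nat.card G : ℝ) - 1 := by
      nlinarith [pow_pos htR 2]
    have hA2 : A * (t : ℝ) ^ 2 = ((Nat.card G : ℝ) - 1) ^ 2 := by
      rw [hA, div_pow, div_mul_cancel₀ _ (pow_ne_zero _ htR.ne')]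
    have hA0 : 0 ≤ A := sq_nonneg _
    nlinarith [mul_le_mul_of_nonneg_left hCS hA0]
  · by_contra hcon
    push_neg at hcon
    have hkey : ∀ χ ∈ S, ((Nat.card G : ℝ) - 1) / t * d χ < d χ ^ 2 := by
      intro χ hχ
      simp only [hS, Finset.mem_filter, Finset.mem_univ, true_and] at hχ
      have h := hcon χ (fun h => hχ.2 (Subtype.ext h)) (fun g => Complex.conj_eq_iff_im.1 (hχ.1 g))
      have h' : ((((Nat.card G : ℚ) - 1) / t : ℚ) : ℝ) < ((Cfsg.charDegree (χ : G → ℂ) : ℚ) : ℝ) := Rat.cast_lt.2 h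
      push_cast at h'
      have := hdpos χ
      simp only [hd] at this ⊢
      nlinarith
    have hSne : S.Nonempty := by
      rw [Finset.nonempty_iff_ne_empty]
      intro h
      rw [h, Finset.sum_empty] at hbound
      linarith
    have hlt := Finset.sum_lt_sum_of_nonempty hSne hkey
    rw [← Finset.mul_sum] at hlt
    have h1 : ∑ χ ∈ S, d χ ^ 2 ≤ (Nat.card G : ℝ) - 1 :=
      hsumsq ▸ Finset.sum_le_sum_of_subset_of_nonneg hSsub fun χ _ _ => sq_nonneg _
    have h0 : 0 ≤ ((Nat.card G : ℝ) - 1) / t := by positivity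
    have h2 := mul_le_mul_of_nonneg_left hbound h0
    rw [div_mul_cancel₀ _ htR.ne'] at h2
    linarith

end Cfsg.Agent.S4476
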