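import Cfsg.Statements.S4477
import Cfsg.Agent.Lib.Characters.OddReal
import Cfsg.Agent.Lib.Characters.FSValues
import Cfsg.Agent.Lib.Characters.AbelianInertia
import Cfsg.Agent.Lib.Blocks.DefectZero

set_option autoImplicit false
set_option linter.style.haveILetI false
open Cfsg

namespace Cfsg.Agent.S4477

open Cfsg.Lib.Characters Cfsg.Lib.Blocks Finset
open scoped Classical ComplexConjugate

variable {G : Type*} [Group G]

/-- A cyclic group, or two index-two subgroups. -/
theorem cyclic_or_two_signs [Finite G] (hG : IsPGroup 2 G) :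
    IsCyclic G ∨ ∃ a b : G →* ℂˣ, a ≠ 1 ∧ b ≠ 1 ∧ a ≠ b ∧ a * a = 1 ∧ b * b = 1 := by
  haveI : Fact (Nat.Prime 2) := ⟨Nat.prime_two⟩
  haveI : Group.IsNilpotent G := hG.isNilpotent
  have hmax : ∀ M : Subgroup G, IsCoatom M → M.index = 2 := by
    intro M hM
    have hn : M.Normal := Subgroup.NormalizerCondition.normal_of_coatom M Group.normalizerCondition_of_isNilpotent hM
    obtain ⟨j, hj⟩ := hG.index M
    have hne : M.index ≠ 1 := fun h => hM.1 (Subgroup.index_eq_one.mp h)
    have hpr : (M.index).Prime := by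
      rw [Subgroup.index_eq_card]
      haveI : Nontrivial (G ⧸ M) := Finite.one_lt_card_iff_nontrivial.mp (by
        rw [← Subgroup.index_eq_card]; have := Subgroup.index_ne_zero_of_finite (H := M); omega)
      obtain ⟨c, hc⟩ := exists_prime_orderOf_dvd_card' 2 (G := G ⧸ M) (by
        rw [← Subgroup.index_eq_card, hj]; exact dvd_pow_self 2 fun h0 => hne (by rw [hj, h0, pow_zero]))
      have htop : Subgroup.zpowers c = ⊤ := by
        have h1 := hM.2 ((Subgroup.zpowers c).comap (QuotientGroup.mk' M)) ?_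
        · rw [← Subgroup.map_comap_eq_self_of_surjective (QuotientGroup.mk'_surjective M) (Subgroup.zpowers c), h1,
            Subgroup.map_top_of_surjective _ (QuotientGroup.mk'_surjective M)]
        · refine lt_of_le_of_ne (fun x hx => ?_) fun he => ?_
          · rw [Subgroup.mem_comap, QuotientGroup.mk'_apply, (QuotientGroup.eq_one_iff x).mpr hx]
            exact Subgroup.one_mem _
          · obtain ⟨g, rfl⟩ := QuotientGroup.mk_surjective c
            have hg : g ∈ (Subgroup.zpowers (g : G ⧸ M)).comap (QuotientGroup.mk' M) := Subgroup.mem_zpowers _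
            rw [← he] at hg
            rw [(QuotientGroup.eq_one_iff g).mpr hg, orderOf_one] at hc
            omega
      rw [← Subgroup.card_top, ← htop, Nat.card_zpowers, hc]
      exact Nat.prime_two
    rw [hj] at hpr ⊢
    rw [Nat.Prime.eq_one_of_pow hpr, pow_one]
  have hsign : ∀ M : Subgroup G, IsCoatom M → ∃ μ : G →* ℂˣ, μ * μ = 1 ∧ ∀ g, μ g = 1 ↔ g ∈ M := by
    intro M hM
    refine ⟨{ toFun := fun g => if g ∈ M then 1 else -1, map_one' := if_pos M.one_mem, map_mul' := fun x y => ?_ }, ?_, fun g => ?_⟩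
    · have := Subgroup.mul_mem_iff_of_index_two (hmax M hM) (a := x) (b := y)
      by_cases hx : x ∈ M <;> by_cases hy : y ∈ M <;> simp [hx, hy, this]
    · refine MonoidHom.ext fun g => ?_
      simp only [MonoidHom.mul_apply, MonoidHom.coe_mk, OneHom.coe_mk, MonoidHom.one_apply]
      split_ifs <;> simp
    · simp only [MonoidHom.coe_mk, OneHom.coe_mk]
      by_cases hg : g ∈ M
      · simp [hg]
      · simp only [hg, if_false, iff_false]
        intro h
        have h' := congrArg Units.val h
        norm_num at h'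
  by_cases htriv : Subsingleton G
  · exact Or.inl ⟨⟨1, fun x => ⟨0, Subsingleton.elim _ _⟩⟩⟩
  obtain ⟨M, hM, -⟩ := (eq_top_or_exists_le_coatom (⊥ : Subgroup G)).resolve_left (fun h => htriv
    ⟨fun x y => by
      have hx : x ∈ (⊥ : Subgroup G) := h ▸ Subgroup.mem_top x
      have hy : y ∈ (⊥ : Subgroup G) := h ▸ Subgroup.mem_top y
      rw [Subgroup.mem_bot] at hx hy; rw [hx, hy]⟩)
  obtain ⟨x, hx⟩ : ∃ x, x ∉ M := by
    by_contra h; push Not at h; exact hM.1 ((Subgroup.eq_top_iff' M).mpr h)
  rcases eq_top_or_exists_le_coatom (Subgroup.zpowers x) with h | ⟨M', hM', hle⟩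
  · exact Or.inl ⟨⟨x, fun y => (h ▸ Subgroup.mem_top y : y ∈ Subgroup.zpowers x)⟩⟩
  · obtain ⟨a, ha, ha'⟩ := hsign M hM
    obtain ⟨b, hb, hb'⟩ := hsign M' hM'
    refine Or.inr ⟨a, b, fun h => ?_, fun h => ?_, fun h => ?_, ha, hb⟩
    · exact hx ((ha' x).mp (by rw [h]; rfl))
    · exact hM'.1 ((Subgroup.eq_top_iff' M').mpr fun g => (hb' g).mp (by rw [h]; rfl))
    · exact hx ((ha' x).mp (by rw [h]; exact (hb' x).mpr (hle (Subgroup.mem_zpowers x))))

/-- Let G be a finite 2-group whose number of involutions is congruent to 1 modulo 4. Then G is cyclic or its commutator subgroup has index 4. -/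
theorem result {G : Type*} [Group G] [Finite G] (hG : IsPGroup 2 G) (ht : Nat.card {x : G // orderOf x = 2} % 4 = 1) : IsCyclic G ∨ (commutator G).index = 4 := by
  haveI : Fintype G := Fintype.ofFinite G
  haveI : Fact (Nat.Prime 2) := ⟨Nat.prime_two⟩
  rcases cyclic_or_two_signs hG with h | ⟨a, b, ha1, hb1, hab, ha, hb⟩
  · exact Or.inl h
  refine Or.inr ?_
  by_contra hne4
  haveI : Finite (G →* ℂˣ) := Nat.finite_of_card_ne_zero (by rw [card_hom_units]; exact Subgroup.index_ne_zero_of_finite)
  haveI : Fintype (G →* ℂˣ) := Fintype.ofFinite _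
  obtain ⟨s, hs⟩ := hG.index (commutator G)
  have hA : Nat.card (G →* ℂˣ) = 2 ^ s := card_hom_units.trans hs
  -- the sign characters
  set K : Subgroup (G →* ℂˣ) :=
    { carrier := {l | l * l = 1}
      one_mem' := mul_one 1
      mul_mem' := fun {l m} hl hm => by
        show l * m * (l * m) = 1
        refine MonoidHom.ext fun g => ?_
        have h1 : l g * l g = 1 := DFunLike.congr_fun hl g
        have h2 : m g * m g = 1 := DFunLike.congr_fun hm g
        simp only [MonoidHom.mul_apply, MonoidHom.one_apply]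
        rw [mul_mul_mul_comm, h1, h2, one_mul]
      inv_mem' := fun {l} hl => by
        show l⁻¹ * l⁻¹ = 1
        refine MonoidHom.ext fun g => ?_
        have h1 : l g * l g = 1 := DFunLike.congr_fun hl g
        simp only [MonoidHom.mul_apply, MonoidHom.inv_apply, MonoidHom.one_apply]
        rw [← mul_inv, h1, inv_one] } with hK
  have hK4 : 4 ∣ Nat.card K := by
    obtain ⟨j, -, hj⟩ := (Nat.dvd_prime_pow Nat.prime_two).mp (hA ▸ Subgroup.card_subgroup_dvd_card K)
    have h3 : ({1, a, b} : Finset (G →* ℂˣ)) ⊆ univ.filter fun l => l ∈ K := by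
      intro l hl
      simp only [Finset.mem_insert, Finset.mem_singleton] at hl
      simp only [Finset.mem_filter, Finset.mem_univ, true_and]
      show l * l = 1
      rcases hl with rfl | rfl | rfl
      exacts [mul_one (1 : G →* ℂˣ), ha, hb]
    have hc := Finset.card_le_card h3
    rw [Finset.card_insert_of_notMem (by simp [ha1.symm, hb1.symm]), Finset.card_pair hab,
      ← Fintype.card_subtype, ← Nat.card_eq_fintype_card] at hc
    rw [hj] at hc ⊢
    rcases j with _ | _ | j
    · simp at hc
    · simp at hc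
    · exact ⟨2 ^ j, by ring⟩
  have hA8 : 8 ≤ Nat.card (G →* ℂˣ) := by
    have h1 : 4 ≤ 2 ^ s := hA ▸ (Nat.le_of_dvd Nat.card_pos hK4).trans (Subgroup.card_le_card_group K)
    have h2 : 2 ^ s ≠ 4 := fun h => hne4 (hs.trans h)
    rcases s with _ | _ | _ | s
    · simp at h1
    · simp at h1
    · simp at h2
    · rw [hA, pow_succ, pow_succ, pow_succ]; have := Nat.one_le_two_pow (n := s); omega
  -- the indicators
  set ν : IrrCharacter G → ℂ := fun χ => (Nat.card G : ℂ)⁻¹ * ∑ x, (χ : G → ℂ) (x * x) with hν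
  have hνint : ∀ χ : IrrCharacter G, ∃ e : ℤ, ν χ = e ∧ ((∀ g, conj ((χ : G → ℂ) g) = (χ : G → ℂ) g) → (e : ZMod 2) = 1) ∧
      ((¬ ∀ g, conj ((χ : G → ℂ) g) = (χ : G → ℂ) g) → e = 0) := by
    intro χ
    by_cases hr : ∀ g, conj ((χ : G → ℂ) g) = (χ : G → ℂ) g
    · rcases fs_sign_of_real χ.2 hr with h | h
      · exact ⟨1, by rw [Int.cast_one]; exact h, fun _ => Int.cast_one, fun h' => absurd hr h'⟩
      · exact ⟨-1, by rw [Int.cast_neg, Int.cast_one]; exact h, fun _ => rfl, fun h' => absurd hr h'⟩
    · push Not at hr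
      exact ⟨0, by rw [Int.cast_zero]; exact fs_zero_of_nonreal χ.2 hr, fun h' => absurd (h' hr.choose) hr.choose_spec,
        fun _ => rfl⟩
  choose e he her he0 using hνint
  have hmain : ((Nat.card {x : G // orderOf x = 2} + 1 : ℕ) : ℤ) = ∑ χ, e χ * charDegree (χ : G → ℂ) := by
    have h := card_sqrt_eq_sum (1 : G)
    have hc : #(univ.filter fun x : G => x * x = 1) = Nat.card {x : G // orderOf x = 2} + 1 := by
      rw [Nat.card_eq_fintype_card, Fintype.card_subtype,
        show (univ.filter fun x : G => x * x = 1) = insert 1 (univ.filter fun x : G => orderOf x = 2) from ?_,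
        Finset.card_insert_of_notMem (by simp)]
      ext x
      simp only [Finset.mem_filter, Finset.mem_univ, true_and, Finset.mem_insert, ← sq]
      constructor
      · intro hx
        by_cases h1 : x = 1
        · exact Or.inl h1
        · exact Or.inr (orderOf_eq_prime hx h1)
      · rintro (rfl | hx)
        · simp
        · rw [← hx, pow_orderOf_eq_one]
    rw [hc] at h
    rw [← Int.cast_inj (α := ℂ)]
    push_cast at h ⊢
    rw [h]
    refine Finset.sum_congr rfl fun χ _ => ?_
    rw [← he χ, coe_charDegree]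
    congr 1
    have h' : conj (ν χ) = ν χ := by rw [he χ]; exact Complex.conj_ofReal (e χ : ℝ) |> fun hh => by simpa using hh
    rw [← h', hν]
    simp only [map_mul, map_inv₀, map_natCast, map_sum]
  -- degrees two
  set S := univ.filter (fun χ : IrrCharacter G => charDegree (χ : G → ℂ) = 2) with hS
  have hSeven : 2 ∣ S.card := by
    let D := {χ : IrrCharacter G // charDegree (χ : G → ℂ) = 2}
    have hmul : ∀ (l : G →* ℂˣ) (χ : D), IsIrrCharacter G (fun g => (l g : ℂ) * (χ.1 : G → ℂ) g) := fun l χ =>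
      isIrrCharacter_mul_linear χ.1.2 (isIrrCharacter_linear l).isCharacter (by simp)
    letI : MulAction (G →* ℂˣ) D :=
      { smul := fun l χ => ⟨⟨_, hmul l χ⟩, charDegree_eq (by
          show (l 1 : ℂ) * (χ.1 : G → ℂ) 1 = _
          rw [map_one, Units.val_one, one_mul, ← coe_charDegree χ.1, χ.2])⟩
        one_smul := fun χ => Subtype.ext (Subtype.ext (funext fun g => by
          show ((1 : G →* ℂˣ) g : ℂ) * _ = _; simp))
        mul_smul := fun l m χ => Subtype.ext (Subtype.ext (funext fun g => by
          show ((l * m) g : ℂ) * _ = (l g : ℂ) * ((m g : ℂ) * _); simp [mul_assoc])) }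
    have hpA : IsPGroup 2 (G →* ℂˣ) := IsPGroup.of_card hA
    have hmod := hpA.card_modEq_card_fixedPoints (α := D)
    have hempty : IsEmpty (MulAction.fixedPoints (G →* ℂˣ) D) := by
      refine ⟨fun ⟨χ, hχ⟩ => ?_⟩
      set f : G → ℂ := fun g => (χ.1 : G → ℂ) g * conj ((χ.1 : G → ℂ) g) with hf
      have hfc : IsCharacter G f := isCharacter_mul χ.1.2.isCharacter (isCharacter_conj χ.1.2.isCharacter)
      have hin : ∀ l : G →* ℂˣ, classInner f (fun g => (l g : ℂ)) = 1 := by
        intro l
        have h1 := congrArg (fun z : D => (z.1 : G → ℂ)) (hχ l)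
        have h2 := classInner_irr_self χ.1.2
        refine Eq.trans ?_ h2
        unfold classInner
        congr 1
        refine Finset.sum_congr rfl fun g _ => ?_
        have h3 : (l g : ℂ) * (χ.1 : G → ℂ) g = (χ.1 : G → ℂ) g := congrFun h1 g
        conv_rhs => rw [← h3]; arg 1; rw [h3]
        rw [hf, map_mul]
        ring
      choose m hm using fun ψ : IrrCharacter G => classInner_nat hfc ψ.2.isCharacter
      have h4 : (4 : ℕ) = ∑ ψ : IrrCharacter G, m ψ * charDegree (ψ : G → ℂ) := by
        have h5 := congrFun (classFunction_expansion (isClassFunction_of_isCharacter hfc)) 1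
        simp only [Finset.sum_apply, Pi.smul_apply, smul_eq_mul, hm] at h5
        rw [hf] at h5
        simp only [← coe_charDegree χ.1, χ.2, map_natCast] at h5
        rw [← Nat.cast_inj (R := ℂ)]
        push_cast
        simp only [coe_charDegree]
        rw [← h5]; norm_num
      have h6 : Nat.card (G →* ℂˣ) ≤ 4 := by
        rw [h4, Nat.card_eq_fintype_card, ← Finset.card_univ, Finset.card_eq_sum_ones]
        let ι : (G →* ℂˣ) → IrrCharacter G := fun l => ⟨_, isIrrCharacter_linear l⟩
        have hι : Function.Injective ι := fun l l' h => linear_char_injective (congrArg Subtype.val h)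
        refine le_trans (le_of_eq ?_) (Finset.sum_le_sum_of_subset (Finset.subset_univ (univ.image ι)))
        rw [Finset.sum_image hι.injOn]
        refine Finset.sum_congr rfl fun l _ => ?_
        have h7 : m (ι l) = 1 := Nat.cast_eq_one.mp ((hm (ι l)).symm.trans (hin l))
        rw [h7, one_mul, charDegree_eq (χ := fun g => (l g : ℂ)) (d := 1) (by simp)]
      omega
    rw [Nat.card_eq_zero.mpr (Or.inl hempty)] at hmod
    rw [hS, ← Fintype.card_subtype, ← Nat.card_eq_fintype_card]
    exact Nat.modEq_zero_iff_dvd.mp hmod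
  have hSreal : (∑ χ ∈ S, (e χ : ZMod 2)) = 0 := by
    have h1 : (∑ χ ∈ S.filter (fun χ : IrrCharacter G => ¬ ∀ g, conj ((χ : G → ℂ) g) = (χ : G → ℂ) g), (1 : ZMod 2)) = 0 := by
      refine Finset.sum_involution (fun χ _ => ⟨_, isIrrCharacter_conjVal χ.2⟩) (fun χ _ => rfl) (fun χ hχ _ h => ?_)
        (fun χ hχ => ?_) (fun χ _ => Subtype.ext (funext fun g => Complex.conj_conj _))
      · exact (Finset.mem_filter.mp hχ).2 fun g => congrFun (congrArg Subtype.val h) g
      · simp only [hS, Finset.mem_filter, Finset.mem_univ, true_and] at hχ ⊢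
        refine ⟨charDegree_eq (by rw [← coe_charDegree χ, hχ.1, map_natCast]), fun h => hχ.2 fun g => ?_⟩
        have h2 := h g
        rw [Complex.conj_conj] at h2
        exact h2.symm
    have h2 : (∑ χ ∈ S, (1 : ZMod 2)) = 0 := by
      rw [Finset.sum_const, nsmul_eq_mul, mul_one, ZMod.natCast_eq_zero_iff]; exact hSeven
    rw [← Finset.sum_filter_add_sum_filter_not S (fun χ : IrrCharacter G => ∀ g, conj ((χ : G → ℂ) g) = (χ : G → ℂ) g)] at h2 ⊢
    rw [h1, add_zero] at h2
    rw [Finset.sum_congr rfl fun χ hχ => her χ (Finset.mem_filter.mp hχ).2, h2, zero_add]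
    refine Finset.sum_eq_zero fun χ hχ => ?_
    rw [he0 χ (Finset.mem_filter.mp hχ).2, Int.cast_zero]
  have hlin : (∑ χ ∈ univ.filter (fun χ : IrrCharacter G => charDegree (χ : G → ℂ) = 1), e χ) = Nat.card K := by
    let ι : (G →* ℂˣ) → IrrCharacter G := fun l => ⟨_, isIrrCharacter_linear l⟩
    have hι : Function.Injective ι := fun l l' h => linear_char_injective (congrArg Subtype.val h)
    have himg : univ.filter (fun χ : IrrCharacter G => charDegree (χ : G → ℂ) = 1) = univ.image ι := by
      ext χ
      simp only [Finset.mem_filter, Finset.mem_univ, true_and, Finset.mem_image]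
      constructor
      · intro h
        obtain ⟨l, hl⟩ := exists_hom_of_degree_one χ.2.isCharacter (by rw [← coe_charDegree χ, h, Nat.cast_one])
        exact ⟨l, Subtype.ext hl.symm⟩
      · rintro ⟨l, rfl⟩
        exact charDegree_eq (by simp [ι])
    rw [himg, Finset.sum_image hι.injOn]
    have hval : ∀ l : G →* ℂˣ, e (ι l) = if l ∈ K then 1 else 0 := by
      intro l
      have h := he (ι l)
      rw [← Int.cast_inj (α := ℂ), ← h, hν]
      have hmemK : l ∈ K ↔ l * l = 1 := Iff.rfl
      have h2 := classInner_irr (G := G) (isIrrCharacter_linear (l * l)) (isIrrCharacter_one (G := G))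
      rw [classInner] at h2
      simp only [map_one, mul_one, MonoidHom.mul_apply] at h2
      simp only [ι, map_mul]
      rw [h2]
      by_cases hl : l ∈ K
      · rw [if_pos hl, if_pos, Int.cast_one]
        funext g
        rw [← MonoidHom.mul_apply, hmemK.mp hl]; simp
      · rw [if_neg hl, if_neg, Int.cast_zero]
        intro hh
        refine hl (hmemK.mpr (MonoidHom.ext fun g => Units.ext ?_))
        simpa using congrFun hh g
    rw [Finset.sum_congr rfl fun l _ => hval l, Finset.sum_boole, ← Fintype.card_subtype, ← Nat.card_eq_fintype_card]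
  -- modulo four
  have h4 : (((Nat.card {x : G // orderOf x = 2} + 1 : ℕ) : ℤ) : ZMod 4) = 0 := by
    rw [hmain]
    rw [← Finset.sum_filter_add_sum_filter_not univ (fun χ : IrrCharacter G => charDegree (χ : G → ℂ) = 1),
      ← Finset.sum_filter_add_sum_filter_not (univ.filter fun χ : IrrCharacter G => ¬ charDegree (χ : G → ℂ) = 1)
        (fun χ : IrrCharacter G => charDegree (χ : G → ℂ) = 2), Int.cast_add, Int.cast_add]
    have e1 : ((∑ χ ∈ univ.filter (fun χ : IrrCharacter G => charDegree (χ : G → ℂ) = 1), e χ * charDegree (χ : G → ℂ) : ℤ) : ZMod 4) = 0 := by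
      rw [Finset.sum_congr rfl (g := e) fun χ hχ => by rw [(Finset.mem_filter.mp hχ).2, Nat.cast_one, mul_one], hlin,
        Int.cast_natCast, ZMod.natCast_eq_zero_iff]
      exact hK4
    have e2 : ((∑ χ ∈ (univ.filter fun χ : IrrCharacter G => ¬ charDegree (χ : G → ℂ) = 1).filter (fun χ : IrrCharacter G => charDegree (χ : G → ℂ) = 2),
        e χ * charDegree (χ : G → ℂ) : ℤ) : ZMod 4) = 0 := by
      rw [show (univ.filter fun χ : IrrCharacter G => ¬ charDegree (χ : G → ℂ) = 1).filter (fun χ : IrrCharacter G => charDegree (χ : G → ℂ) = 2) = S by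
        ext χ; simp only [hS, Finset.mem_filter, Finset.mem_univ, true_and]; omega]
      rw [Finset.sum_congr rfl (g := fun χ => e χ * 2) fun χ hχ => by rw [(Finset.mem_filter.mp hχ).2]; rfl,
        ← Finset.sum_mul]
      have h1 : (2 : ℤ) ∣ ∑ χ ∈ S, e χ := by
        rw [← Nat.cast_ofNat, ← ZMod.intCast_zmod_eq_zero_iff_dvd, Int.cast_sum]; exact hSreal
      rw [ZMod.intCast_zmod_eq_zero_iff_dvd]
      exact mul_dvd_mul_right h1 2
    rw [e1, e2, zero_add, zero_add, Int.cast_sum]
    refine Finset.sum_eq_zero fun χ hχ => ?_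
    simp only [Finset.mem_filter, Finset.mem_univ, true_and] at hχ
    have hdvd : charDegree (χ : G → ℂ) ∣ Nat.card G := degree_dvd_card χ.2 (coe_charDegree χ).symm
    obtain ⟨n, hn⟩ := IsPGroup.iff_card.mp hG
    obtain ⟨j, -, hj⟩ := (Nat.dvd_prime_pow Nat.prime_two).mp (hn ▸ hdvd)
    rw [hj] at hχ ⊢
    rcases j with _ | _ | j
    · simp at hχ
    · simp at hχ
    · rw [Int.cast_mul, Int.cast_natCast, show ((2 ^ (j + 1 + 1) : ℕ) : ZMod 4) = 0 from by
        rw [ZMod.natCast_eq_zero_iff]; exact ⟨2 ^ j, by ring⟩, mul_zero]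
  rw [Int.cast_natCast, ZMod.natCast_eq_zero_iff] at h4
  omega

end Cfsg.Agent.S4477
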