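import Cfsg.Statements.S4478
import Cfsg.Agent.Lib.Blocks.DefectZero
import Cfsg.Agent.Lib.Blocks.Exists
import Cfsg.Agent.Lib.Characters.FSValues
import Cfsg.Agent.Lib.Solv.RegularClasses

set_option autoImplicit false
set_option linter.style.haveILetI false
open Cfsg

namespace Cfsg.Agent.S4478

open Cfsg.Lib.Characters Cfsg.Lib.Blocks Finset
open scoped Classical ComplexConjugate

/-- Let G be a finite group of even order and χ an irreducible character of G whose degree x is divisible by the full power of 2 dividing the order of G and, for every odd prime p such that G has an element of order 2p, by the full power of p dividing the order of G. Then all involutions of G are conjugate, the centralizer of every involution has order exactly x with x coprime to its index, and the Frobenius–Schur indicator of χ equals 1. -/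
theorem result {G : Type*} [Group G] [Fintype G] (heven : Even (Nat.card G)) (χ : Cfsg.IrrCharacter G) (h2 : 2 ^ (Nat.card G).factorization 2 ∣ Cfsg.charDegree (χ : G → ℂ)) (hp : ∀ p : ℕ, p.Prime → p ≠ 2 → (∃ g : G, orderOf g = 2 * p) → p ^ (Nat.card G).factorization p ∣ Cfsg.charDegree (χ : G → ℂ)) : (∀ s t : G, orderOf s = 2 → orderOf t = 2 → IsConj s t) ∧ (∀ s : G, orderOf s = 2 → Nat.card (Subgroup.centralizer ({s} : Set G)) = Cfsg.charDegree (χ : G → ℂ) ∧ (Nat.card (Subgroup.centralizer ({s} : Set G))).Coprime (Subgroup.centralizer ({s} : Set G)).index) ∧ (Nat.card G : ℂ)⁻¹ * ∑ g : G, (χ : G → ℂ) (g * g) = 1 := by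
  set x := charDegree (χ : G → ℂ) with hx
  have hx0 : 0 < x := charDegree_pos χ
  have hxd : (χ : G → ℂ) 1 = (x : ℂ) := (coe_charDegree χ).symm
  -- vanishing
  have hvan : ∀ (q : ℕ), q.Prime → q ^ (Nat.card G).factorization q ∣ x → ∀ g : G, q ∣ orderOf g → (χ : G → ℂ) g = 0 := by
    intro q hq hdvd g hg
    haveI : Fact q.Prime := ⟨hq⟩
    obtain ⟨M, hM⟩ := exists_isPModular q
    haveI : M.IsPrime := hM.2.1.isPrime
    refine eq_zero_of_defectZero hM χ (blockOf_eq_singleton hM χ (le_antisymm (charDegree_factorization_le χ) ?_)) hg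
    exact (hq.pow_dvd_iff_le_factorization hx0.ne').mp hdvd
  have hgood : ∀ (u : G) (q : ℕ), orderOf u = 2 → q.Prime → q ∣ Nat.card (Subgroup.centralizer ({u} : Set G)) →
      q ^ (Nat.card G).factorization q ∣ x := by
    intro u q hu hq hqd
    by_cases h2q : q = 2
    · rw [h2q]; exact h2
    refine hp q hq h2q ?_
    haveI : Fact q.Prime := ⟨hq⟩
    obtain ⟨⟨b, hb⟩, hbo⟩ := exists_prime_orderOf_dvd_card' q hqd
    rw [Subgroup.orderOf_mk] at hbo
    refine ⟨u * b, ?_⟩
    have hc : Commute u b := (Subgroup.mem_centralizer_singleton_iff.mp hb).symm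
    rw [hc.orderOf_mul_eq_mul_orderOf_of_coprime (by rw [hu, hbo]; exact (Nat.coprime_primes Nat.prime_two hq).mpr (Ne.symm h2q)), hu, hbo]
  have hz : ∀ (u a : G), orderOf u = 2 → Commute u a → a ≠ 1 → (χ : G → ℂ) a = 0 := by
    intro u a hu hc ha
    obtain ⟨q, hq, hqa⟩ := Nat.exists_prime_and_dvd (n := orderOf a) (fun h => ha (orderOf_eq_one_iff.mp h))
    refine hvan q hq (hgood u q hu hq (hqa.trans ?_)) a hqa
    have := orderOf_dvd_natCard (⟨a, Subgroup.mem_centralizer_singleton_iff.mpr hc.symm⟩ : Subgroup.centralizer ({u} : Set G))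
    rwa [Subgroup.orderOf_mk] at this
  have hdvd : ∀ u : G, orderOf u = 2 → Nat.card (Subgroup.centralizer ({u} : Set G)) ∣ x := by
    intro u hu
    set C := Subgroup.centralizer ({u} : Set G) with hC
    haveI : Fintype C := Fintype.ofFinite C
    obtain ⟨m, hm⟩ := classInner_nat (isCharacter_restrict χ.2.isCharacter C) (isIrrCharacter_one (G := C)).isCharacter
    rw [classInner, Finset.sum_eq_single (1 : C)] at hm
    · rw [map_one, mul_one, OneMemClass.coe_one, hxd] at hm
      refine ⟨m, ?_⟩
      rw [← Nat.cast_inj (R := ℂ), Nat.cast_mul, ← hm, ← mul_assoc, mul_inv_cancel₀ (Nat.cast_ne_zero.mpr Nat.card_pos.ne'), one_mul]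
    · intro c _ hc
      rw [hz u c hu (Subgroup.mem_centralizer_singleton_iff.mp c.2).symm (fun h => hc (Subtype.ext h)), zero_mul]
    · exact fun h => absurd (Finset.mem_univ _) h
  -- the count
  obtain ⟨i, hi⟩ : ∃ i, i = (univ.filter fun g : G => orderOf g = 2).card := ⟨_, rfl⟩
  have hinv : ∃ u : G, orderOf u = 2 := by
    haveI : Fact (Nat.Prime 2) := ⟨Nat.prime_two⟩
    exact exists_prime_orderOf_dvd_card' 2 (even_iff_two_dvd.mp heven)
  obtain ⟨u₀, hu₀⟩ := hinv
  have hne1 : (χ : G → ℂ) ≠ fun _ => 1 := by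
    intro h
    have h1 : x = 1 := charDegree_eq (by rw [h]; simp)
    have h3 := hdvd u₀ hu₀
    rw [h1, Nat.dvd_one, Subgroup.card_eq_one] at h3
    have : u₀ ∈ (⊥ : Subgroup G) := h3 ▸ Subgroup.mem_centralizer_singleton_iff.mpr rfl
    rw [Subgroup.mem_bot] at this
    rw [this, orderOf_one] at hu₀
    omega
  have hsum0 : ∑ g, (χ : G → ℂ) g = 0 := by
    have h := classInner_irr_ne χ.2 isIrrCharacter_one hne1
    rw [classInner] at h
    simpa [Nat.card_pos.ne'] using h
  have hnu : ∑ g, (χ : G → ℂ) (g * g) = (x : ℂ) * i := by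
    have h1 : ∀ g : G, g * g = 1 ↔ g = 1 ∨ orderOf g = 2 := fun g => by
      constructor
      · intro h
        by_cases hg : g = 1
        · exact Or.inl hg
        · haveI : Fact (Nat.Prime 2) := ⟨Nat.prime_two⟩
          exact Or.inr (orderOf_eq_prime (by rw [sq]; exact h) hg)
      · rintro (rfl | h)
        · exact one_mul 1
        · rw [← sq, ← h, pow_orderOf_eq_one]
    have h2' : ∑ g ∈ univ.filter (fun g : G => g * g = 1), (χ : G → ℂ) (g * g) = (x : ℂ) * (i + 1) := by
      rw [Finset.sum_congr rfl fun g hg => by rw [(Finset.mem_filter.mp hg).2, hxd], Finset.sum_const,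
        show univ.filter (fun g : G => g * g = 1) = insert 1 (univ.filter fun g : G => orderOf g = 2) by
          ext g; simp [h1], Finset.card_insert_of_notMem (by simp), ← hi, nsmul_eq_mul]
      push_cast; ring
    have h3 : ∑ g ∈ univ.filter (fun g : G => ¬ g * g = 1), (χ : G → ℂ) (g * g) =
        ∑ a ∈ univ.filter (fun a : G => ¬ a = 1), (χ : G → ℂ) a := by
      refine Finset.sum_bij_ne_zero (fun g _ _ => g * g) (fun g hg _ => ?_) (fun g hg hg' h hh hh' he => ?_)
        (fun a ha hne => ?_) (fun g _ _ => rfl)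
      · exact Finset.mem_filter.mpr ⟨Finset.mem_univ _, (Finset.mem_filter.mp hg).2⟩
      · have ha : g * g ≠ 1 := (Finset.mem_filter.mp hg).2
        set a := g * g with hadef
        have hodd : Odd (orderOf a) := by
          rw [← Nat.not_even_iff_odd, even_iff_two_dvd]
          exact fun hd => hg' (hvan 2 Nat.prime_two h2 a hd)
        obtain ⟨m, hm⟩ := hodd
        have hb : a ^ (m + 1) * a ^ (m + 1) = a := by
          rw [← pow_add, show m + 1 + (m + 1) = orderOf a + 1 by omega, pow_succ, pow_orderOf_eq_one, one_mul]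
        have key : ∀ y : G, y * y = a → y = a ^ (m + 1) := by
          intro y hy
          have hya : Commute y a := hy ▸ (Commute.refl y).mul_right (Commute.refl y)
          have hcy : Commute y (a ^ (m + 1))⁻¹ := (hya.pow_right _).inv_right
          by_contra hne
          have hu : orderOf (y * (a ^ (m + 1))⁻¹) = 2 := by
            haveI : Fact (Nat.Prime 2) := ⟨Nat.prime_two⟩
            refine orderOf_eq_prime ?_ fun h1 => hne (mul_inv_eq_one.mp h1)
            rw [hcy.mul_pow, inv_pow, sq, sq, hb, hy, mul_inv_cancel]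
          exact hg' (hz _ a hu (Commute.mul_left hya ((Commute.refl a).pow_left _).inv_left) ha)
        rw [key g rfl, key h he.symm]
      · have hodd : Odd (orderOf a) := by
          rw [← Nat.not_even_iff_odd, even_iff_two_dvd]
          exact fun hd => hne (hvan 2 Nat.prime_two h2 a hd)
        obtain ⟨m, hm⟩ := hodd
        have hb : a ^ (m + 1) * a ^ (m + 1) = a := by
          rw [← pow_add, show m + 1 + (m + 1) = orderOf a + 1 by omega, pow_succ, pow_orderOf_eq_one, one_mul]
        exact ⟨a ^ (m + 1), Finset.mem_filter.mpr ⟨Finset.mem_univ _, by rw [hb]; exact (Finset.mem_filter.mp ha).2⟩,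
          by rw [hb]; exact hne, hb⟩
    have h4 : ∑ a ∈ univ.filter (fun a : G => ¬ a = 1), (χ : G → ℂ) a = -(x : ℂ) := by
      have := Finset.sum_filter_add_sum_filter_not univ (fun a : G => a = 1) (χ : G → ℂ)
      rw [hsum0, Finset.filter_eq' univ (1 : G), if_pos (Finset.mem_univ _), Finset.sum_singleton, hxd] at this
      linear_combination this
    rw [← Finset.sum_filter_add_sum_filter_not univ (fun g : G => g * g = 1), h2', h3, h4]
    ring
  have hi0 : 0 < i := hi ▸ Finset.card_pos.mpr ⟨u₀, Finset.mem_filter.mpr ⟨Finset.mem_univ _, hu₀⟩⟩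
  have hG : (Nat.card G : ℂ) ≠ 0 := Nat.cast_ne_zero.mpr Nat.card_pos.ne'
  have hνne : (Nat.card G : ℂ)⁻¹ * ∑ g, (χ : G → ℂ) (g * g) ≠ 0 := by
    rw [hnu]; exact mul_ne_zero (inv_ne_zero hG) (mul_ne_zero (Nat.cast_ne_zero.mpr hx0.ne') (Nat.cast_ne_zero.mpr hi0.ne'))
  have hν : (Nat.card G : ℂ)⁻¹ * ∑ g, (χ : G → ℂ) (g * g) = 1 := by
    rcases fs_sign_of_real χ.2 (fun g => by
      by_contra hg; exact hνne (fs_zero_of_nonreal χ.2 ⟨g, hg⟩)) with h | h
    · exact h
    · exfalso
      rw [hnu, inv_mul_eq_iff_eq_mul₀ hG, mul_neg, mul_one] at h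
      have h5 : ((x * i + Nat.card G : ℕ) : ℂ) = 0 := by push_cast; linear_combination h
      have := Nat.cast_eq_zero.mp h5
      have := Nat.card_pos (α := G)
      omega
  have hxi : x * i = Nat.card G := by
    have h := hν
    rw [hnu, inv_mul_eq_iff_eq_mul₀ hG, mul_one] at h
    exact_mod_cast h
  have hle : ∀ s : Finset G, (∀ a ∈ s, orderOf a = 2) → (∀ a ∈ s, ∀ b ∈ s, IsConj a b → a = b) →
      ∑ a ∈ s, (Subgroup.centralizer ({a} : Set G)).index ≤ i := by
    intro s hs hinj
    rw [hi, Finset.sum_congr rfl fun a _ => (Cfsg.Lib.Solv.carrier_ncard_eq_index a).symm.trans (Set.ncard_eq_toFinset_card' _),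
      ← Finset.card_biUnion]
    · refine Finset.card_le_card fun y hy => ?_
      simp only [Finset.mem_biUnion, Set.mem_toFinset, ConjClasses.mem_carrier_iff_mk_eq,
        ConjClasses.mk_eq_mk_iff_isConj] at hy
      obtain ⟨a, ha, hya⟩ := hy
      refine Finset.mem_filter.mpr ⟨Finset.mem_univ _, ?_⟩
      obtain ⟨c, hc⟩ := isConj_iff.mp hya
      rw [← hs a ha, ← hc]
      exact (orderOf_injective (MulAut.conj c).toMonoidHom (MulEquiv.injective _) y).symm
    · intro a ha b hb hab
      rw [Function.onFun, Finset.disjoint_left]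
      intro y hya hyb
      simp only [Set.mem_toFinset, ConjClasses.mem_carrier_iff_mk_eq, ConjClasses.mk_eq_mk_iff_isConj] at hya hyb
      exact hab (hinj a ha b hb (hya.symm.trans hyb))
  have hbig : ∀ a : G, orderOf a = 2 → i ≤ (Subgroup.centralizer ({a} : Set G)).index := by
    intro a ha
    refine Nat.le_of_mul_le_mul_left ?_ hx0
    rw [hxi, ← Subgroup.card_mul_index (Subgroup.centralizer ({a} : Set G))]
    exact Nat.mul_le_mul_right _ (Nat.le_of_dvd hx0 (hdvd a ha))
  refine ⟨fun s t hs ht => ?_, fun s hs => ?_, hν⟩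
  · by_contra hst
    have hne : s ≠ t := fun h => hst (h ▸ IsConj.refl s)
    have h := hle {s, t} (by intro a ha; simp only [Finset.mem_insert, Finset.mem_singleton] at ha; rcases ha with rfl | rfl <;> assumption)
      (by
        intro a ha b hb hab
        simp only [Finset.mem_insert, Finset.mem_singleton] at ha hb
        rcases ha with rfl | rfl <;> rcases hb with rfl | rfl
        · rfl
        · exact absurd hab hst
        · exact absurd hab.symm hst
        · rfl)
    rw [Finset.sum_pair hne] at h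
    have := hbig s hs; have := hbig t ht
    omega
  · have h := hle {s} (by simp [hs]) (by simp)
    rw [Finset.sum_singleton] at h
    have heq := le_antisymm h (hbig s hs)
    have hcard : Nat.card (Subgroup.centralizer ({s} : Set G)) = x := by
      have h1 := Subgroup.card_mul_index (Subgroup.centralizer ({s} : Set G))
      rw [heq, ← hxi] at h1
      exact Nat.eq_of_mul_eq_mul_right hi0 h1
    refine ⟨hcard, Nat.coprime_of_dvd fun q hq hqC hqi => ?_⟩
    have hmul : q ^ ((Nat.card G).factorization q + 1) ∣ Nat.card G := by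
      rw [← Subgroup.card_mul_index (Subgroup.centralizer ({s} : Set G)), pow_succ, Subgroup.card_mul_index (Subgroup.centralizer ({s} : Set G))]
      conv_rhs => rw [← Subgroup.card_mul_index (Subgroup.centralizer ({s} : Set G))]
      exact mul_dvd_mul (hcard.symm ▸ hgood s q hs hq hqC) hqi
    exact Nat.pow_succ_factorization_not_dvd Nat.card_pos.ne' hq hmul

end Cfsg.Agent.S4478
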