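import Cfsg.Statements.S4480
import Cfsg.Agent.S4479
import Cfsg.Agent.Lib.ZStar.KleinSection
import Cfsg.Agent.Lib.Characters.OddReal

set_option autoImplicit false
open Cfsg

namespace Cfsg.Agent.S4480

/-- Same setting as the Klein-four order formula: G of order 4·g₀ (g₀ odd) with no normal 2-complement, P a Sylow 2-subgroup, J an involution of P, M over 2, principal 2-block {1, χ₁, χ₂, χ₃} with χ_i(J) = ε_i = ±1. Suppose ε₁ε₂ε₃ = −1 and ε₃ = −1, and put q = x₃ = χ₃(1). Then there is a natural number m with 4·c(J) = m·c(P)·(q + 1), and the order of G equals (m³·c(P)/4)·(q³ − q)/2, that is 8·#G = m³·c(P)·(q³ − q). -/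
theorem result {G : Type*} [Group G] [Finite G] (M : Ideal Cfsg.AlgInt) (hM : Cfsg.IsPModular 2 M) (g₀ : ℕ) (hg₀ : Odd g₀) (hG : Nat.card G = 4 * g₀) (hnc : ¬ ∃ N : Subgroup G, N.Normal ∧ Nat.card N = g₀) (P : Sylow 2 G) (J : G) (hJ : J ∈ (P : Subgroup G)) (hJ2 : orderOf J = 2) (χ₁ χ₂ χ₃ : Cfsg.IrrCharacter G) (ε₁ ε₂ ε₃ : ℤ) (hB : Cfsg.principalBlock M G = {χ : Cfsg.IrrCharacter G | (χ : G → ℂ) = (fun _ => 1) ∨ χ = χ₁ ∨ χ = χ₂ ∨ χ = χ₃}) (hdist : (χ₁ : G → ℂ) ≠ (fun _ => 1) ∧ (χ₂ : G → ℂ) ≠ (fun _ => 1) ∧ (χ₃ : G → ℂ) ≠ (fun _ => 1) ∧ χ₁ ≠ χ₂ ∧ χ₁ ≠ χ₃ ∧ χ₂ ≠ χ₃) (hε : (ε₁ = 1 ∨ ε₁ = -1) ∧ (ε₂ = 1 ∨ ε₂ = -1) ∧ (ε₃ = 1 ∨ ε₃ = -1)) (hval : (χ₁ : G → ℂ) J = ε₁ ∧ (χ₂ : G → ℂ) J = ε₂ ∧ (χ₃ : G → ℂ) J = ε₃) (hprod : ε₁ * ε₂ * ε₃ = -1) (hε₃ : ε₃ = -1) : ∃ m : ℕ, 4 * Nat.card (Subgroup.centralizer ({J} : Set G)) = m * Nat.card (Subgroup.centralizer ((P : Subgroup G) : Set G)) * (Cfsg.charDegree (χ₃ : G → ℂ) +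 1) ∧ 8 * Nat.card G = m ^ 3 * Nat.card (Subgroup.centralizer ((P : Subgroup G) : Set G)) * (Cfsg.charDegree (χ₃ : G → ℂ) ^ 3 - Cfsg.charDegree (χ₃ : G → ℂ)) := by
  classical
  have hform := Cfsg.Agent.S4479.result M hM g₀ hg₀ hG hnc P J hJ hJ2 χ₁ χ₂ χ₃ ε₁ ε₂ ε₃ hB hdist hε hval
  haveI : Fact (Nat.Prime 2) := ⟨Nat.prime_two⟩
  haveI := hM.2.1.isPrime
  haveI := Fintype.ofFinite G
  have hdeg : ∀ χ : Cfsg.IrrCharacter G, (χ : G → ℂ) 1 = ((Cfsg.charDegree (χ : G → ℂ) : ℕ) : ℂ) ∧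
      0 < Cfsg.charDegree (χ : G → ℂ) := by
    intro χ
    obtain ⟨n, hn, hn'⟩ := χ.2.exists_degree_pos
    simp [Cfsg.charDegree, hn', hn]
  obtain ⟨j, hj⟩ := hg₀
  have hP4 : Nat.card (P : Subgroup G) = 4 := by
    rw [P.card_eq_multiplicity, hG, Nat.factorization_mul (by norm_num) (by omega), Finsupp.add_apply,
      show (4 : ℕ) = 2 ^ 2 by norm_num, Nat.prime_two.factorization_pow, Finsupp.single_eq_same,
      Nat.factorization_eq_zero_of_not_dvd (show ¬ 2 ∣ g₀ by omega)]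
  have hncyc : ¬ IsCyclic (P : Subgroup G) := by
    intro hc
    have hmin : (Nat.card G).minFac = 2 := (Nat.minFac_eq_two_iff _).mpr (by rw [hG]; omega)
    have hle := IsCyclic.normalizer_le_centralizer (P := P) hmin hc
    refine hnc ⟨_, (inferInstance : (MonoidHom.transferSylow P hle).ker.Normal), ?_⟩
    have h1 := Subgroup.card_mul_index (MonoidHom.transferSylow P hle).ker
    rw [(MonoidHom.ker_transferSylow_isComplement' P hle).symm.index_eq_card, hP4, hG] at h1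
    omega
  have hsq4 : ∀ x ∈ (P : Subgroup G), x * x = 1 := by
    intro x hx
    by_contra hne
    exact hncyc (isCyclic_of_orderOf_eq_card ⟨x, hx⟩ (by
      rw [hP4, show (4 : ℕ) = 2 ^ (1 + 1) by norm_num]
      refine orderOf_eq_prime_pow (p := 2) (n := 1) (fun h => hne ?_) ?_
      · rw [pow_one, sq] at h; exact congrArg Subtype.val h
      · rw [show 2 ^ (1 + 1) = Nat.card (P : Subgroup G) by rw [hP4]; norm_num]
        exact pow_card_eq_one'))
  have hK : IsKleinFour (P : Subgroup G) := by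
    refine ⟨hP4, ?_⟩
    haveI : Nontrivial (P : Subgroup G) := Finite.one_lt_card_iff_nontrivial.mp (by rw [hP4]; norm_num)
    exact ((Nat.dvd_prime Nat.prime_two).mp (Monoid.exponent_dvd_of_forall_pow_eq_one
      fun x : (P : Subgroup G) => by rw [sq]; exact Subtype.ext (hsq4 x x.2))).resolve_left
      fun e => not_subsingleton (P : Subgroup G) (Monoid.exp_eq_one_iff.mp e)
  have hone : ∀ s t : G, orderOf s = 2 → orderOf t = 2 → IsConj s t := by
    refine Cfsg.Lib.ZStar.klein_one_class P hK fun ⟨N, hN, hi⟩ => hnc ⟨N, hN, ?_⟩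
    have h1 := Subgroup.card_mul_index N
    rw [hi, hG] at h1
    omega
  have hF := Cfsg.Lib.ZStar.blockFacts G hM
  set T : Cfsg.IrrCharacter G := Cfsg.Lib.ZStar.triv G with hTdef
  set B := Finset.univ.filter (fun χ : Cfsg.IrrCharacter G => χ ∈ Cfsg.principalBlock M G) with hBdef
  obtain ⟨n1, n2, n3, n12, n13, n23⟩ := hdist
  have h0 : ∀ χ : Cfsg.IrrCharacter G, (χ : G → ℂ) ≠ (fun _ => 1) → T ≠ χ :=
    fun χ h e => h (by rw [← e]; rfl)
  have hsum : ∀ f : Cfsg.IrrCharacter G → ℂ, ∑ χ ∈ B, f χ = f T + f χ₁ + f χ₂ + f χ₃ := by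
    intro f
    rw [show B = {T, χ₁, χ₂, χ₃} by
        ext χ
        simp only [hBdef, Finset.mem_filter, Finset.mem_univ, true_and, hB, Set.mem_ofPred_eq,
          Finset.mem_insert, Finset.mem_singleton]
        exact or_congr ⟨fun h => Subtype.ext h, fun h => by rw [h]; rfl⟩ Iff.rfl,
      Finset.sum_insert (by simp [h0 _ n1, h0 _ n2, h0 _ n3]),
      Finset.sum_insert (by simp [n12, n13]), Finset.sum_pair n23]
    ring
  have hmem : ∀ {χ}, χ = χ₁ ∨ χ = χ₂ ∨ χ = χ₃ → χ ∈ Cfsg.principalBlock M G := fun h => by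
    rw [hB]; exact Or.inr h
  -- the signs
  have he12 : ε₁ = 1 ∧ ε₂ = 1 := by
    have hd : (1 : ℤ) + ε₁ * Cfsg.charDegree (χ₁ : G → ℂ) + ε₂ * Cfsg.charDegree (χ₂ : G → ℂ) +
        ε₃ * Cfsg.charDegree (χ₃ : G → ℂ) = 0 := by
      have h := hF.orth 1 J 1 J (Cfsg.Lib.ZStar.isPPart_one (by simp))
        (Cfsg.Lib.ZStar.isPPart_self ⟨1, by rw [hJ2, pow_one]⟩)
        (fun h => by rw [isConj_one_right.mp h] at hJ2; simp at hJ2) _ (Cfsg.Lib.ZStar.isPBlock_principal M)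
      rw [← Cfsg.Lib.Blocks.kerB_eq_finsum, Cfsg.Lib.Blocks.kerB_eq_filter, ← hBdef,
        inv_eq_of_mul_eq_one_right (hsq4 J hJ), hsum] at h
      simp only [hval.1, hval.2.1, hval.2.2, (hdeg χ₁).1, (hdeg χ₂).1, (hdeg χ₃).1, hTdef,
        Cfsg.Lib.ZStar.triv_apply] at h
      have h' : (((1 : ℤ) + ε₁ * Cfsg.charDegree (χ₁ : G → ℂ) + ε₂ * Cfsg.charDegree (χ₂ : G → ℂ) +
          ε₃ * Cfsg.charDegree (χ₃ : G → ℂ) : ℤ) : ℂ) = 0 := by
        push_cast; linear_combination h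
      exact_mod_cast h'
    rcases hε.1 with e1 | e1 <;> rcases hε.2.1 with e2 | e2 <;> rw [e1, e2, hε₃] at hprod hd <;>
      first
        | exact ⟨e1, e2⟩
        | omega
        | (exfalso; have := (hdeg χ₁).2; have := (hdeg χ₂).2; have := (hdeg χ₃).2; omega)
  set Y := Finset.univ.filter (fun y : G => y * J = J * y ∧ Odd (orderOf y)) with hY
  have hYne : (Y.card : ℂ) ≠ 0 := Nat.cast_ne_zero.mpr (Finset.card_ne_zero_of_mem (a := (1 : G))
    (Finset.mem_filter.mpr ⟨Finset.mem_univ _, by simp, by simp⟩))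
  have hsing : ∀ y ∈ Y, ¬ Odd (orderOf (J * y)) ∧ (∀ x : G, x * x ≠ J * y) := by
    intro y hy
    obtain ⟨hyc, hyo⟩ := (Finset.mem_filter.mp hy).2
    have hord : orderOf (J * y) = 2 * orderOf y := by
      rw [(show Commute J y from hyc.symm).orderOf_mul_eq_mul_orderOf_of_coprime
        (by rw [hJ2]; exact Nat.coprime_two_left.mpr hyo), hJ2]
    refine ⟨by rw [hord]; exact Nat.not_odd_iff_even.mpr (even_two_mul _), fun x hx => ?_⟩
    -- a square root has order divisible by 4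
    have h1 : orderOf (x ^ 2) = 2 * orderOf y := by rw [sq, hx, hord]
    have h2 : 4 ∣ orderOf x := by
      have he : 2 ∣ orderOf x := dvd_trans (h1 ▸ dvd_mul_right 2 _) (orderOf_pow_dvd 2)
      have := orderOf_pow_of_dvd (x := x) two_ne_zero he
      rw [h1] at this
      omega
    obtain ⟨c, hc⟩ := h2
    have h4 : orderOf (x ^ c) = 4 := by
      have hxpos := orderOf_pos x
      rw [orderOf_pow_of_dvd (fun e => by rw [hc, e] at hxpos; omega) ⟨4, by rw [hc]; ring⟩, hc,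
        Nat.mul_div_cancel _ (by omega)]
    obtain ⟨Q, hQ⟩ := (IsPGroup.of_card (n := 2)
      (show Nat.card (Subgroup.zpowers (x ^ c)) = 2 ^ 2 by rw [Nat.card_zpowers, h4]; norm_num)).exists_le_sylow
    obtain ⟨g, rfl⟩ := MulAction.exists_smul_eq G P Q
    have h5 := hQ (Subgroup.mem_zpowers _)
    rw [Sylow.coe_subgroup_smul, Subgroup.mem_pointwise_smul_iff_inv_smul_mem, MulAut.smul_def,
      ← map_inv, MulAut.conj_apply] at h5
    have h6 := orderOf_dvd_of_pow_eq_one (show (g⁻¹ * x ^ c * (g⁻¹)⁻¹) ^ 2 = 1 by rw [sq]; exact hsq4 _ h5)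
    rw [Cfsg.Lib.ZStar.orderOf_conjugate', h4] at h6
    norm_num at h6
  set W : Cfsg.IrrCharacter G → ℂ := fun χ => ∑ y ∈ Y, (χ : G → ℂ) (J * y) with hW
  have hWout : ∀ χ : Cfsg.IrrCharacter G, χ ∉ Cfsg.principalBlock M G → W χ = 0 := fun χ hχ =>
    Cfsg.Lib.ZStar.klein_section hM P hK hone hJ2 hJ χ hχ
  have hWin : ∀ χ : Cfsg.IrrCharacter G, χ ∈ Cfsg.principalBlock M G → ∀ e : ℤ,
      (χ : G → ℂ) J = e → W χ = (Y.card : ℂ) * e := by
    intro χ hχ e he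
    have hc : ∀ y ∈ Y, (χ : G → ℂ) (J * y) = e := by
      intro y hy
      obtain ⟨s, hs, e'⟩ := Cfsg.Lib.ZStar.klein_value hF P hK hχ (hsing y hy).1
      rw [e', Cfsg.Lib.Characters.isClassFunction_iff_isConj.mp χ.2.isClassFunction s J (hone s J hs hJ2), he]
    simp only [hW, Finset.sum_congr rfl hc, Finset.sum_const, nsmul_eq_mul]
  -- conjugation
  let cc : Cfsg.IrrCharacter G → Cfsg.IrrCharacter G := fun χ =>
    ⟨fun g => (starRingEnd ℂ) ((χ : G → ℂ) g), Cfsg.Lib.Characters.isIrrCharacter_conjVal χ.2⟩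
  have hcc : ∀ χ, χ = χ₁ ∨ χ = χ₂ ∨ χ = χ₃ → ∀ e : ℤ, e ≠ 0 → (χ : G → ℂ) J = e →
      cc χ = χ₁ ∨ cc χ = χ₂ ∨ cc χ = χ₃ := by
    intro χ hχ e he hv
    have hin : cc χ ∈ Cfsg.principalBlock M G := by
      by_contra hout
      have h1 := hWout _ hout
      have h2 : W (cc χ) = (starRingEnd ℂ) (W χ) := by simp only [hW, cc, map_sum]
      rw [h2, map_eq_zero, hWin χ (hmem hχ) e hv, mul_eq_zero] at h1
      exact h1.elim hYne (by exact_mod_cast he)
    rw [hB] at hin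
    refine hin.resolve_left fun h => ?_
    have hne : (χ : G → ℂ) ≠ fun _ => 1 := by rcases hχ with rfl | rfl | rfl <;> assumption
    refine hne (funext fun g => ?_)
    have := congr_fun h g
    simp only [cc] at this
    rw [← Complex.conj_conj ((χ : G → ℂ) g), this, map_one]
  have hccval : ∀ (χ : Cfsg.IrrCharacter G) (e : ℤ), (χ : G → ℂ) J = e → (cc χ : G → ℂ) J = e :=
    fun χ e h => by show (starRingEnd ℂ) ((χ : G → ℂ) J) = _; rw [h, map_intCast]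
  have hreal3 : cc χ₃ = χ₃ := by
    have h := hccval χ₃ ε₃ hval.2.2
    rcases hcc χ₃ (Or.inr (Or.inr rfl)) ε₃ (by rw [hε₃]; norm_num) hval.2.2 with e | e | e
    · rw [e, hval.1, he12.1, hε₃] at h; norm_num at h
    · rw [e, hval.2.1, he12.2, hε₃] at h; norm_num at h
    · exact e
  have hodd : ∀ χ, χ = χ₁ ∨ χ = χ₂ ∨ χ = χ₃ → Odd (Cfsg.charDegree (χ : G → ℂ)) := by
    intro χ hχ
    obtain ⟨b, hb, hpar, -⟩ := Cfsg.Lib.ZStar.exists_int_involution χ hJ2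
    have hb' : b = 1 ∨ b = -1 := by
      rcases hχ with rfl | rfl | rfl
      · have := hb.symm.trans hval.1; rw [he12.1] at this; left; exact_mod_cast this
      · have := hb.symm.trans hval.2.1; rw [he12.2] at this; left; exact_mod_cast this
      · have := hb.symm.trans hval.2.2; rw [hε₃] at this; right; exact_mod_cast this
    rw [Nat.odd_iff]
    rw [Int.even_iff] at hpar
    omega
  have hswap : cc χ₁ = χ₂ ∨ cc χ₂ = χ₁ := by
    by_contra hh
    push Not at hh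
    have hr1 : cc χ₁ = χ₁ := by
      rcases hcc χ₁ (Or.inl rfl) ε₁ (by rw [he12.1]; norm_num) hval.1 with e | e | e
      · exact e
      · exact absurd e hh.1
      · have h := hccval χ₁ ε₁ hval.1; rw [e, hval.2.2, he12.1, hε₃] at h; norm_num at h
    have hr2 : cc χ₂ = χ₂ := by
      rcases hcc χ₂ (Or.inr (Or.inl rfl)) ε₂ (by rw [he12.2]; norm_num) hval.2.1 with e | e | e
      · exact absurd e hh.2
      · exact e
      · have h := hccval χ₂ ε₂ hval.2.1; rw [e, hval.2.2, he12.2, hε₃] at h; norm_num at h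
    have hν : ∀ χ, χ = χ₁ ∨ χ = χ₂ ∨ χ = χ₃ → cc χ = χ →
        (Nat.card G : ℂ)⁻¹ * ∑ x, (starRingEnd ℂ) ((χ : G → ℂ) (x * x)) = 1 := by
      intro χ hχ hr
      have hr' : ∀ g, (starRingEnd ℂ) ((χ : G → ℂ) g) = (χ : G → ℂ) g :=
        fun g => congr_fun (congrArg Subtype.val hr) g
      simp only [hr']
      exact Cfsg.Lib.Characters.fs_eq_one_of_odd χ.2 hr' (hdeg χ).1 (hodd χ hχ)
    have hzero : ∑ y ∈ Y, ((Finset.univ.filter fun x : G => x * x = J * y).card : ℂ) = 0 :=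
      Finset.sum_eq_zero fun y hy => by
        rw [Finset.filter_eq_empty_iff.mpr fun x _ => (hsing y hy).2 x]; simp
    have hsq : ∀ y ∈ Y, ((Finset.univ.filter fun x : G => x * x = J * y).card : ℂ) =
        ∑ χ : Cfsg.IrrCharacter G, ((Nat.card G : ℂ)⁻¹ * ∑ x, (starRingEnd ℂ) ((χ : G → ℂ) (x * x))) *
          (χ : G → ℂ) (J * y) := fun y _ => by
      convert Cfsg.Lib.Characters.card_sqrt_eq_sum (J * y)
    rw [Finset.sum_congr rfl hsq] at hzero
    rw [Finset.sum_comm] at hzero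
    simp only [← Finset.mul_sum] at hzero
    rw [← Finset.sum_subset (Finset.subset_univ B) fun χ _ hχ => by
      rw [show ∑ y ∈ Y, (χ : G → ℂ) (J * y) = 0 from hWout χ (by simpa [hBdef] using hχ), mul_zero],
      hsum] at hzero
    have hWT : W T = (Y.card : ℂ) := by simp [hW, hTdef]
    have h1T : (Nat.card G : ℂ)⁻¹ * ∑ x : G, (starRingEnd ℂ) ((T : G → ℂ) (x * x)) = 1 := by
      simp [hTdef]
    rw [h1T, hν χ₁ (Or.inl rfl) hr1, hν χ₂ (Or.inr (Or.inl rfl)) hr2, hν χ₃ (Or.inr (Or.inr rfl)) hreal3,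
      show ∑ y ∈ Y, (T : G → ℂ) (J * y) = (Y.card : ℂ) from hWT,
      show ∑ y ∈ Y, (χ₁ : G → ℂ) (J * y) = _ from hWin χ₁ (hmem (Or.inl rfl)) ε₁ hval.1,
      show ∑ y ∈ Y, (χ₂ : G → ℂ) (J * y) = _ from hWin χ₂ (hmem (Or.inr (Or.inl rfl))) ε₂ hval.2.1,
      show ∑ y ∈ Y, (χ₃ : G → ℂ) (J * y) = _ from hWin χ₃ (hmem (Or.inr (Or.inr rfl))) ε₃ hval.2.2,
      he12.1, he12.2, hε₃] at hzero
    push_cast at hzero
    exact hYne (by linear_combination hzero / 2)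
  have hd12 : Cfsg.charDegree (χ₂ : G → ℂ) = Cfsg.charDegree (χ₁ : G → ℂ) := by
    have key : ∀ χ, Cfsg.charDegree (cc χ : G → ℂ) = Cfsg.charDegree (χ : G → ℂ) := fun χ => by
      simp [Cfsg.charDegree, cc]
    rcases hswap with e | e
    · rw [← e, key]
    · rw [← e, key]
  -- the degree of the third character
  set d := Cfsg.charDegree (χ₁ : G → ℂ) with hd
  have hq : Cfsg.charDegree (χ₃ : G → ℂ) = 2 * d + 1 := by
    have h := hF.orth 1 J 1 J (Cfsg.Lib.ZStar.isPPart_one (by simp))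
      (Cfsg.Lib.ZStar.isPPart_self ⟨1, by rw [hJ2, pow_one]⟩)
      (fun h => by rw [isConj_one_right.mp h] at hJ2; simp at hJ2) _ (Cfsg.Lib.ZStar.isPBlock_principal M)
    rw [← Cfsg.Lib.Blocks.kerB_eq_finsum, Cfsg.Lib.Blocks.kerB_eq_filter, ← hBdef,
      inv_eq_of_mul_eq_one_right (hsq4 J hJ), hsum] at h
    simp only [hval.1, hval.2.1, hval.2.2, (hdeg χ₁).1, (hdeg χ₂).1, (hdeg χ₃).1, he12.1, he12.2, hε₃,
      hd12, hTdef, Cfsg.Lib.ZStar.triv_apply, ← hd] at h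
    push_cast at h
    have h' : ((Cfsg.charDegree (χ₃ : G → ℂ) : ℕ) : ℂ) = ((2 * d + 1 : ℕ) : ℂ) := by
      push_cast; linear_combination -h
    exact_mod_cast h'
  have hd0 : 0 < d := (hdeg χ₁).2
  set cP := Nat.card (Subgroup.centralizer ((P : Subgroup G) : Set G)) with hcP
  set cC := Nat.card (Subgroup.centralizer ({J} : Set G)) with hcC
  have hcP0 : 0 < cP := Nat.card_pos
  obtain ⟨a, ha⟩ : cP ∣ cC := Subgroup.card_dvd_of_le (Subgroup.centralizer_le (Set.singleton_subset_iff.mpr hJ))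
  have ha0 : 0 < a := Nat.pos_of_ne_zero fun h => by
    rw [h, mul_zero] at ha
    exact Nat.card_pos.ne' ha
  obtain ⟨k, hk⟩ : cC ∣ Nat.card G := Subgroup.card_subgroup_dvd_card _
  rw [hd12, hq, he12.1, he12.2, hε₃] at hform
  rw [hk, ha] at hform ⊢
  have hcPq : (cP : ℚ) ≠ 0 := by exact_mod_cast hcP0.ne'
  have haq : (a : ℚ) ≠ 0 := by exact_mod_cast ha0.ne'
  have hdq : (d : ℚ) ≠ 0 := by exact_mod_cast hd0.ne'
  have hd1q : (d : ℚ) + 1 ≠ 0 := by exact_mod_cast Nat.succ_ne_zero d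
  push_cast at hform
  rw [show (2 : ℚ) * d + 1 + -1 = 2 * d by ring] at hform
  field_simp at hform
  have hkey : k * (d + 1) ^ 2 = 4 * a ^ 2 * d * (2 * d + 1) := by
    have h' : ((k * (d + 1) ^ 2 : ℕ) : ℚ) = ((4 * a ^ 2 * d * (2 * d + 1) : ℕ) : ℚ) := by
      push_cast
      linear_combination hform / 2
    exact_mod_cast h'
  have hdvd : d + 1 ∣ 2 * a := by
    have hcop : Nat.Coprime ((d + 1) ^ 2) (d * (2 * d + 1)) := by
      refine Nat.Coprime.pow_left 2 (Nat.Coprime.mul_right ?_ ?_)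
      · simp
      · rw [show 2 * d + 1 = d + 1 * (d + 1) by ring, Nat.coprime_add_mul_right_right]
        simp
    have h1 : (d + 1) ^ 2 ∣ (2 * a) ^ 2 * (d * (2 * d + 1)) :=
      ⟨k, by linear_combination -hkey⟩
    exact (Nat.pow_dvd_pow_iff two_ne_zero).mp (hcop.dvd_of_dvd_mul_right h1)
  obtain ⟨m, hm⟩ := hdvd
  refine ⟨m, ?_, ?_⟩
  · rw [hq]
    linear_combination 2 * cP * hm
  · rw [hq]
    have hq3 : (2 * d + 1) ≤ (2 * d + 1) ^ 3 := Nat.le_self_pow three_ne_zero _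
    have h3 : (2 * d + 1) ^ 3 - (2 * d + 1) = (2 * d + 1) * (4 * d * (d + 1)) :=
      Nat.sub_eq_of_eq_add (by ring)
    rw [h3]
    refine Nat.eq_of_mul_eq_mul_right (pow_pos (Nat.succ_pos d) 2) ?_
    have hm3 : m ^ 3 * (d + 1) ^ 3 = 8 * a ^ 3 := by
      rw [← mul_pow, mul_comm m, ← hm]; ring
    calc 8 * (cP * a * k) * (d + 1) ^ 2 = 8 * (cP * a) * (k * (d + 1) ^ 2) := by ring
      _ = 8 * a ^ 3 * cP * (4 * d * (2 * d + 1)) := by rw [hkey]; ring
      _ = m ^ 3 * cP * ((2 * d + 1) * (4 * d * (d + 1))) * (d + 1) ^ 2 := by rw [← hm3]; ring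

end Cfsg.Agent.S4480
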