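import Cfsg.Statements.S4494
import Mathlib
import Cfsg.Agent.Lib.Blocks.RegInner

set_option autoImplicit false
open Cfsg

namespace Cfsg.Agent.S4494

/-- The Brauer–Feit bound. Let B be a p-block of the finite group G (relative to a maximal ideal M of the algebraic integers containing p) and let d be its defect. Then the number k(B) of irreducible characters in B satisfies k(B) ≤ p^(2d)/4 + 1, stated here as 4·k(B) ≤ p^(2d) + 4. -/
theorem result {G : Type*} [Group G] [Finite G] (p : ℕ) [Fact p.Prime] (M : Ideal Cfsg.AlgInt) (hM : Cfsg.IsPModular p M) (B : Set (Cfsg.IrrCharacter G)) (hB : Cfsg.IsPBlock M B) : 4 * Nat.card B ≤ p ^ (2 * Cfsg.blockDefect p B) + 4 := by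
  haveI := hM.2.1.isPrime
  haveI := Fintype.ofFinite G
  classical
  obtain ⟨χ₀, hχ₀, hmin⟩ := Cfsg.Lib.Blocks.exists_height_zero p
    (Cfsg.Lib.Blocks.IsPBlock.nonempty hB)
  have h0 := (Cfsg.Lib.Blocks.blockHeight_eq_zero_iff p hχ₀).mpr hmin
  set F := Finset.univ.filter (fun ψ : Cfsg.IrrCharacter G => ψ ∈ B) with hF
  have hk : Nat.card B = F.card := by
    rw [Nat.card_eq_fintype_card, Fintype.card_subtype]
  have hmem : χ₀ ∈ F := Finset.mem_filter.mpr ⟨Finset.mem_univ _, hχ₀⟩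
  have hsum := Cfsg.Lib.Blocks.sum_blockC_mul hM hB hχ₀ hχ₀
  rw [← Finset.add_sum_erase _ _ hmem] at hsum
  have hge : ((F.erase χ₀).card : ℤ)
      ≤ ∑ ψ ∈ F.erase χ₀, Cfsg.Lib.Blocks.blockC p B χ₀ ψ * Cfsg.Lib.Blocks.blockC p B χ₀ ψ := by
    rw [Finset.card_eq_sum_ones]
    push_cast
    refine Finset.sum_le_sum fun ψ hψ => ?_
    have hne := (Cfsg.Lib.Blocks.blockC_dvd hM hB hχ₀
      (Finset.mem_filter.mp (Finset.mem_of_mem_erase hψ)).2).2.2 h0
    have := mul_self_pos.mpr hne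
    omega
  rw [Finset.card_erase_of_mem hmem, Nat.cast_sub (Finset.card_pos.mpr ⟨χ₀, hmem⟩)] at hge
  have hfin : (4 * F.card : ℤ) ≤ ((p ^ (2 * Cfsg.blockDefect p B) + 4 : ℕ) : ℤ) := by
    push_cast at hsum hge ⊢
    rw [two_mul, pow_add]
    nlinarith [sq_nonneg ((p : ℤ) ^ Cfsg.blockDefect p B - 2 * Cfsg.Lib.Blocks.blockC p B χ₀ χ₀)]
  rw [hk]
  exact_mod_cast hfin

end Cfsg.Agent.S4494
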