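import Cfsg.Statements.S4483
import Mathlib
import Cfsg.Agent.Lib.Blocks.OddDegree
import Cfsg.Agent.S4494

set_option autoImplicit false
open Cfsg

namespace Cfsg.Agent.S4483

/-- Let G be a finite group of order 2^n·g₀ with g₀ odd, and M a maximal ideal of the algebraic integers containing 2. Every real-valued irreducible character of G of odd degree lies in the principal 2-block; consequently G has at most 2^(2n) real-valued irreducible characters of odd degree. -/
theorem result {G : Type*} [Group G] [Finite G] (M : Ideal Cfsg.AlgInt) (hM : Cfsg.IsPModular 2 M) : (∀ χ : Cfsg.IrrCharacter G, (∀ g : G, ((χ : G → ℂ) g).im = 0) → Odd (Cfsg.charDegree (χ : G → ℂ)) → χ ∈ Cfsg.principalBlock M G) ∧ Nat.card {χ : Cfsg.IrrCharacter G // (∀ g : G, ((χ : G → ℂ) g).im = 0) ∧ Odd (Cfsg.charDegree (χ : G → ℂ))} ≤ 2 ^ (2 * (Nat.card G).factorization 2) := by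
  haveI := hM.2.1.isPrime
  haveI := Fintype.ofFinite G
  classical
  have key : ∀ χ : Cfsg.IrrCharacter G, (∀ g : G, ((χ : G → ℂ) g).im = 0) →
      Odd (Cfsg.charDegree (χ : G → ℂ)) → χ ∈ Cfsg.principalBlock M G := by
    intro χ hre hodd
    refine Cfsg.Lib.Blocks.mem_principal_of_inv_invariant hM χ hodd fun g _ => ?_
    rw [Cfsg.centralChar, Cfsg.centralChar, Cfsg.Lib.Blocks.centralizer_inv_singleton,
      Cfsg.Lib.Characters.char_inv_eq_conj χ.2.isCharacter, Complex.conj_eq_iff_im.mpr (hre g)]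
  refine ⟨key, ?_⟩
  have hk : 4 * Nat.card (Cfsg.principalBlock M G) ≤
      2 ^ (2 * Cfsg.blockDefect 2 (Cfsg.principalBlock M G)) + 4 :=
    Cfsg.Agent.S4494.result 2 M hM _ Cfsg.Lib.Blocks.isPBlock_principal
  have hle : Nat.card {χ : Cfsg.IrrCharacter G // (∀ g : G, ((χ : G → ℂ) g).im = 0) ∧
      Odd (Cfsg.charDegree (χ : G → ℂ))} ≤ Nat.card (Cfsg.principalBlock M G) :=
    Nat.card_le_card_of_injective (fun χ => ⟨χ.1, key χ.1 χ.2.1 χ.2.2⟩) fun a b h =>
      Subtype.ext (congrArg (fun x : Cfsg.principalBlock M G => x.1) h)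
  have hd : Cfsg.blockDefect 2 (Cfsg.principalBlock M G) ≤ (Nat.card G).factorization 2 :=
    Nat.sub_le _ _
  have hpow : 2 ^ (2 * Cfsg.blockDefect 2 (Cfsg.principalBlock M G))
      ≤ 2 ^ (2 * (Nat.card G).factorization 2) := Nat.pow_le_pow_right (by norm_num) (by omega)
  have hpos : 1 ≤ 2 ^ (2 * (Nat.card G).factorization 2) := Nat.one_le_two_pow
  omega

end Cfsg.Agent.S4483
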