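import Cfsg.Agent.Lib.Blocks.SchurBound
import Cfsg.Agent.Lib.Blocks.DefectZero
import Cfsg.Statements.S4488
-- import your own Cfsg.Agent.* helpers here

set_option autoImplicit false
open Cfsg

namespace Cfsg.Agent.S4488

/-- Let the finite group G have a faithful p-rational character χ of degree n (all values of χ lie in the field generated over ℚ by a root of unity of order prime to p), and let p^a be the order of a Sylow p-subgroup of G. Then a ≤ Σ_{i ≥ 0} ⌊n / ((p − 1)·p^i)⌋ (a finite sum; the terms vanish once (p − 1)p^i > n). -/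
theorem result {G : Type*} [Group G] [Finite G] (p : ℕ) (hp : p.Prime) (χ : G → ℂ) (hχ : Cfsg.IsCharacter G χ) (hfaith : ∀ g : G, χ g = χ 1 → g = 1) (hrat : (∃ r : ℕ, 0 < r ∧ ¬ p ∣ r ∧ ∀ g : G, χ g ∈ IntermediateField.adjoin ℚ ({Complex.exp (2 * Real.pi * Complex.I / r)} : Set ℂ))) (n : ℕ) (hn : Cfsg.charDegree χ = n) : (Nat.card G).factorization p ≤ ∑ i ∈ Finset.range (n + 1), n / ((p - 1) * p ^ i) := by
  haveI : Fintype G := Fintype.ofFinite G
  haveI := Fact.mk hp
  obtain ⟨r, hr, hpr, hval⟩ := hrat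
  obtain ⟨P⟩ : Nonempty (Sylow p G) := inferInstance
  have h1 : χ 1 = n := by
    obtain ⟨d, hd⟩ := Cfsg.Lib.Characters.exists_degree hχ; rw [← hn, Cfsg.Lib.Blocks.charDegree_eq hd, hd]
  have hkey := Cfsg.Lib.Blocks.SchurBound.card_factorization_le (P := (P : Subgroup G)) hp P.isPGroup'
    (Cfsg.Lib.Characters.isCharacter_restrict hχ _)
    (fun g hg => Subtype.ext (hfaith g (by simpa using hg))) (n := n) (by simpa using h1) hr hpr
    (fun g => hval g)
  rwa [P.card_eq_multiplicity, hp.factorization_pow, Finsupp.single_eq_same] at hkey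

end Cfsg.Agent.S4488
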