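import Cfsg.Statements.S4490
import Cfsg.Agent.Lib.Blocks.RealPrincipal
import Cfsg.Agent.Lib.Blocks.DefectZero

set_option autoImplicit false
open Cfsg

namespace Cfsg.Agent.S4490

open Cfsg.Lib.Blocks Cfsg.Lib.Characters
open scoped Classical

theorem result {G : Type*} [Group G] [Finite G] (M : Ideal Cfsg.AlgInt) (hM : Cfsg.IsPModular 2 M) (B : Set (Cfsg.IrrCharacter G)) (hB : Cfsg.IsPBlock M B) (P : Sylow 2 G) (hfull : Cfsg.IsDefectGroup 2 M B (P : Subgroup G)) (hnp : B ≠ Cfsg.principalBlock M G) : {ψ : Cfsg.IrrCharacter G | ∃ χ ∈ B, (ψ : G → ℂ) = fun g => (starRingEnd ℂ) ((χ : G → ℂ) g)} ≠ B := by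
  haveI := hM.2.1.isPrime
  haveI : Fact (Nat.Prime 2) := ⟨Nat.prime_two⟩
  haveI := Fintype.ofFinite G
  intro hreal
  obtain ⟨η, hη, hmin⟩ := exists_height_zero 2 (IsPBlock.nonempty hB)
  have hd : blockDefect 2 B = (Nat.card G).factorization 2 := by
    have h := card_defectGroup hM hB hfull
    rw [P.card_eq_multiplicity] at h
    exact (Nat.pow_right_injective le_rfl h).symm
  have hle := charDegree_factorization_le (p := 2) η
  have h0 : (charDegree (η : G → ℂ)).factorization 2 = 0 := by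
    by_cases hz : (Nat.card G).factorization 2 = 0
    · omega
    · rw [blockDefect, ← hmin] at hd
      omega
  have hodd : Odd (charDegree (η : G → ℂ)) := by
    rw [← Nat.not_even_iff_odd, even_iff_two_dvd]
    intro h
    exact (Nat.prime_two.factorization_pos_of_dvd (charDegree_pos η).ne' h).ne' h0
  let cη : IrrCharacter G := ⟨fun h => (starRingEnd ℂ) ((η : G → ℂ) h), isIrrCharacter_conj η.2⟩
  have hc : cη ∈ B := by
    rw [← hreal]
    exact ⟨η, hη, rfl⟩
  refine hnp (IsPBlock.eq_of_mem hB isPBlock_principal hη (mem_principal_of_real_odd hM hodd fun g => ?_))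
  rw [← centralChar_conj]
  exact (Cfsg.Lib.Blocks.sameBlock_iff M cη η).mp (IsPBlock.sameBlock hB hc hη) g

end Cfsg.Agent.S4490
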