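import Cfsg.Statements.S4493
import Cfsg.Agent.Lib.Blocks.Covering
import Cfsg.Agent.Lib.Characters.Degree
import Cfsg.Agent.Lib.Characters.Gallagher

set_option autoImplicit false
set_option linter.style.haveILetI false
open Cfsg

namespace Cfsg.Agent.S4493

open Cfsg.Lib.Characters Cfsg.Lib.Blocks Finset
open scoped Classical

universe u

/-- A group whose irreducible characters are linear is commutative. -/
theorem commute_of_linear {G : Type u} [Group G] [Finite G]
    (h : ∀ χ : IrrCharacter G, charDegree (χ : G → ℂ) = 1) (a b : G) : a * b = b * a := by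
  haveI : Fintype G := Fintype.ofFinite G
  have h1 := sum_sq_degree (G := G)
  simp only [← coe_charDegree, h, Nat.cast_one, one_pow, Finset.sum_const, Finset.card_univ,
    nsmul_eq_mul, mul_one, Nat.cast_inj] at h1
  rw [← Nat.card_eq_fintype_card, card_irr_eq_card_conjClasses] at h1
  have hinj : Function.Injective (ConjClasses.mk : G → ConjClasses G) :=
    ((Nat.bijective_iff_surjective_and_card _).mpr ⟨ConjClasses.mk_surjective, h1.symm⟩).1
  have hc : a * b * a⁻¹ = b := hinj (ConjClasses.mk_eq_mk_iff_isConj.mpr (isConj_iff.mpr ⟨a⁻¹, by group⟩))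
  calc a * b = a * b * a⁻¹ * a := by group
    _ = b * a := by rw [hc]

/-- Degrees prime to `p` pass to normal subgroups. -/
theorem not_dvd_normal {G : Type u} [Group G] [Finite G] {p : ℕ} (N : Subgroup G) [N.Normal]
    (h : ∀ χ : IrrCharacter G, ¬ p ∣ charDegree (χ : G → ℂ)) (θ : IrrCharacter N) :
    ¬ p ∣ charDegree (θ : N → ℂ) := by
  haveI : Fintype G := Fintype.ofFinite G
  obtain ⟨χ, hχ⟩ := exists_irr_over (G := G) θ
  exact fun hd => h χ (hd.trans
    (degree_dvd_of_normal θ.2 χ.2 hχ (coe_charDegree χ).symm (coe_charDegree θ).symm).1)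

theorem main {p : ℕ} [hp : Fact p.Prime] (n : ℕ) : ∀ (G : Type u) [Group G] [Finite G],
    Nat.card G = n → Group.IsSolvable G → (∀ χ : IrrCharacter G, ¬ p ∣ charDegree (χ : G → ℂ)) →
    ∃ P : Subgroup G, P.Normal ∧ (∀ x ∈ P, ∀ y ∈ P, x * y = y * x) ∧ IsPGroup p P ∧ ¬ p ∣ P.index := by
  induction n using Nat.strong_induction_on with
  | _ n ih =>
    intro G _ _ hn hs h
    haveI : Fintype G := Fintype.ofFinite G
    -- normal Sylow subgroups are abelian
    have habel : ∀ P : Subgroup G, P.Normal → IsPGroup p P → ∀ x ∈ P, ∀ y ∈ P, x * y = y * x := by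
      intro P _ hP x hx y hy
      refine congrArg Subtype.val (commute_of_linear (fun θ => ?_) (⟨x, hx⟩ : P) ⟨y, hy⟩)
      obtain ⟨k, hk⟩ := IsPGroup.iff_card.mp hP
      haveI : Fintype P := Fintype.ofFinite P
      have hdk : charDegree (θ : P → ℂ) ∣ p ^ k := hk ▸ charDegree_dvd_card θ
      obtain ⟨j, -, hj⟩ := (Nat.dvd_prime_pow hp.out).mp hdk
      rcases j with - | j
      · rw [hj, pow_zero]
      · exact absurd (hj ▸ dvd_pow_self p j.succ_ne_zero) (not_dvd_normal P h θ)
    by_cases hG : Subsingleton G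
    · exact ⟨⊥, inferInstance, by simp, IsPGroup.of_bot, by
        rw [Subgroup.index_bot, Nat.card_eq_one_iff_unique.mpr ⟨hG, ⟨1⟩⟩]
        exact hp.out.not_dvd_one⟩
    haveI : Nontrivial G := not_subsingleton_iff_nontrivial.mp hG
    -- an abelian normal subgroup which is a `p`-group or a `p'`-group
    obtain ⟨N, hN, hN1, hNab, hNp⟩ : ∃ N : Subgroup G, N.Normal ∧ N ≠ ⊥ ∧
        (∀ a ∈ N, ∀ b ∈ N, a * b = b * a) ∧ (IsPGroup p N ∨ ¬ p ∣ Nat.card N) := by
      obtain ⟨m, hm⟩ := (Group.isSolvable_def G).mp hs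
      have hex : ∃ j, derivedSeries G j = ⊥ := ⟨m, hm⟩
      obtain ⟨j, hj⟩ : ∃ j, Nat.find hex = j + 1 := by
        refine Nat.exists_eq_succ_of_ne_zero fun h0 => ?_
        have := Nat.find_spec hex
        rw [h0, derivedSeries_zero] at this
        exact top_ne_bot this
      set A := derivedSeries G j
      have hA1 : A ≠ ⊥ := Nat.find_min hex (by omega)
      haveI hAn : A.Normal := derivedSeries_normal G j
      have hA2 : ⁅A, A⁆ = ⊥ := by
        have := Nat.find_spec hex
        rwa [hj, derivedSeries_succ] at this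
      have hAab : ∀ a ∈ A, ∀ b ∈ A, a * b = b * a := fun a ha b hb =>
        ((Subgroup.commutator_eq_bot_iff_le_centralizer.mp hA2) hb a ha)
      by_cases hd : p ∣ Nat.card A
      · haveI : IsMulCommutative A := ⟨⟨fun a b => Subtype.ext (hAab _ a.2 _ b.2)⟩⟩
        obtain ⟨S⟩ : Nonempty (Sylow p A) := inferInstance
        haveI : (S : Subgroup A).Normal := Subgroup.normal_of_comm _
        haveI := S.characteristic_of_normal inferInstance
        refine ⟨(S : Subgroup A).map A.subtype, inferInstance, fun h0 => ?_, ?_, Or.inl (S.isPGroup'.map _)⟩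
        · rw [Subgroup.map_eq_bot_iff_of_injective _ A.subtype_injective] at h0
          exact S.ne_bot_of_dvd_card hd h0
        · rintro _ ⟨a, -, rfl⟩ _ ⟨b, -, rfl⟩; exact hAab _ a.2 _ b.2
      · exact ⟨A, hAn, hA1, hAab, Or.inr hd⟩
    haveI := hN
    have hlt : Nat.card (G ⧸ N) < n := by
      rw [← hn, ← Subgroup.card_mul_index N, ← Subgroup.index_eq_card]
      exact lt_mul_of_one_lt_left (Nat.pos_of_ne_zero Subgroup.index_ne_zero_of_finite)
        (Subgroup.one_lt_card_iff_ne_bot N |>.mpr hN1)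
    haveI := hs
    haveI : Fintype (G ⧸ N) := Fintype.ofFinite _
    obtain ⟨R, hR, hRab, hRp, hRi⟩ := ih _ hlt (G ⧸ N) rfl inferInstance fun φ hd => by
      refine h ⟨_, isIrrCharacter_comp_surjective φ.2 (QuotientGroup.mk' N) (QuotientGroup.mk'_surjective N)⟩ ?_
      rwa [charDegree_eq (d := charDegree (φ : G ⧸ N → ℂ)) (by
        rw [coe_charDegree]
        show (φ : G ⧸ N → ℂ) (QuotientGroup.mk' N 1) = _
        rw [map_one])]
    haveI := hR
    set K := R.comap (QuotientGroup.mk' N)
    haveI hKn : K.Normal := hR.comap _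
    have hKi : ¬ p ∣ K.index := by
      rwa [Subgroup.index_comap_of_surjective _ (QuotientGroup.mk'_surjective N)]
    have hNK : N ≤ K := fun x hx => by
      show QuotientGroup.mk' N x ∈ R
      rw [QuotientGroup.mk'_apply, (QuotientGroup.eq_one_iff x).mpr hx]; exact R.one_mem
    have hKNi : ∃ k, (N.subgroupOf K).index = p ^ k := by
      obtain ⟨k, hk⟩ := IsPGroup.iff_card.mp hRp
      refine ⟨k, ?_⟩
      have h1 : N.index = (N.subgroupOf K).index * K.index := (Subgroup.relIndex_mul_index hNK).symm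
      have h2 : Nat.card R * R.index = N.index := by rw [Subgroup.card_mul_index, Subgroup.index_eq_card]
      rw [Subgroup.index_comap_of_surjective _ (QuotientGroup.mk'_surjective N), ← h2, hk] at h1
      exact Nat.eq_of_mul_eq_mul_right (Nat.pos_of_ne_zero Subgroup.index_ne_zero_of_finite) h1.symm
    rcases hNp with hNp | hNp
    · have hKp : IsPGroup p K := by
        obtain ⟨k, hk⟩ := hKNi
        obtain ⟨l, hl⟩ := IsPGroup.iff_card.mp hNp
        refine IsPGroup.of_card (n := l + k) ?_
        rw [← Subgroup.card_mul_index (N.subgroupOf K), Nat.card_congr (Subgroup.subgroupOfEquivOfLe hNK).toEquiv, hl, hk, pow_add]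
      exact ⟨K, hKn, habel K hKn hKp, hKp, hKi⟩
    · haveI : IsMulCommutative (N.subgroupOf K) :=
        ⟨⟨fun a b => Subtype.ext (Subtype.ext (hNab _ (Subgroup.mem_subgroupOf.mp a.2) _
          (Subgroup.mem_subgroupOf.mp b.2)))⟩⟩
      obtain ⟨k, hk⟩ := hKNi
      have hcomm := commute_of_linear (G := K) fun θ => by
        have hd := degree_dvd_index_of_abelian θ.2 (N.subgroupOf K) (coe_charDegree θ).symm
        rw [hk] at hd
        obtain ⟨j, -, hj⟩ := (Nat.dvd_prime_pow hp.out).mp hd
        rcases j with - | j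
        · rw [hj, pow_zero]
        · exact absurd (hj ▸ dvd_pow_self p j.succ_ne_zero) (not_dvd_normal K h θ)
      obtain ⟨S⟩ : Nonempty (Sylow p K) := inferInstance
      haveI : IsMulCommutative K := ⟨⟨hcomm⟩⟩
      haveI : (S : Subgroup K).Normal := Subgroup.normal_of_comm _
      haveI := S.characteristic_of_normal inferInstance
      refine ⟨(S : Subgroup K).map K.subtype, inferInstance, ?_, S.isPGroup'.map _, ?_⟩
      · rintro _ ⟨a, -, rfl⟩ _ ⟨b, -, rfl⟩; exact congrArg Subtype.val (hcomm a b)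
      · rw [Subgroup.index_map_subtype]
        exact hp.out.not_dvd_mul S.not_dvd_index hKi

/-- Let G be a finite solvable group and p a prime. Then G has a normal abelian Sylow p-subgroup if and only if no irreducible character degree of G is divisible by p. -/
theorem result {G : Type*} [Group G] [Finite G] (hsolv : Group.IsSolvable G) (p : ℕ) (hp : p.Prime) : (∃ P : Subgroup G, P.Normal ∧ (∀ x ∈ P, ∀ y ∈ P, x * y = y * x) ∧ IsPGroup p P ∧ ¬ p ∣ P.index) ↔ ∀ χ : Cfsg.IrrCharacter G, ¬ p ∣ Cfsg.charDegree (χ : G → ℂ) := by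
  haveI : Fact p.Prime := ⟨hp⟩
  refine ⟨?_, main _ G rfl hsolv⟩
  haveI : Fintype G := Fintype.ofFinite G
  rintro ⟨P, hP, hab, -, hi⟩ χ hd
  haveI : IsMulCommutative P := ⟨⟨fun a b => Subtype.ext (hab _ a.2 _ b.2)⟩⟩
  exact hi (hd.trans (degree_dvd_index_of_abelian χ.2 P (coe_charDegree χ).symm))

end Cfsg.Agent.S4493
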