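import Cfsg.Statements.S4495
import Cfsg.Agent.Lib.Blocks.SelfCentralPrime
-- import your own Cfsg.Agent.* helpers here

set_option autoImplicit false
open Cfsg Cfsg.Lib.Blocks
open scoped commutatorElement

namespace Cfsg.Agent.S4495

/-- Let the finite group G contain an element x of prime order p with C_G(x) = ⟨x⟩, and let t be the number of conjugacy classes of elements of order p. If t ≠ p − 1 then the commutator subgroup has index at most (p − 1)/t; if t = p − 1 it has index exactly p. -/
theorem result {G : Type*} [Group G] [Finite G] (p : ℕ) (hp : p.Prime) (x : G) (hx : orderOf x = p) (hC : Subgroup.centralizer ({x} : Set G) = Subgroup.zpowers x) (t : ℕ) (ht : Nat.card {C : ConjClasses G // ∃ g ∈ C.carrier, orderOf g = p} = t) : (t ≠ p - 1 → (commutator G).index * t ≤ p - 1) ∧ (t = p - 1 → (commutator G).index = p) := by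
  haveI : Fact p.Prime := ⟨hp⟩
  refine ⟨fun hne => ?_, fun heq => ?_⟩
  · obtain ⟨e, he, hte⟩ := SelfCentral.class_count hx hC
    have hd := SelfCentral.index_commutator_dvd hx hC (SelfCentral.dvd_commutator hx hC (ht.symm ▸ hne)) he
    rw [ht] at hte
    have he0 : 0 < e := by
      rcases Nat.eq_zero_or_pos e with rfl | h
      · have := hp.two_le; omega
      · exact h
    rw [← hte, mul_comm t]
    exact Nat.mul_le_mul_right _ (Nat.le_of_dvd he0 hd)
  · exact (SelfCentral.commutator_of_max hx hC (ht.trans heq)).2.1

end Cfsg.Agent.S4495
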