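import Cfsg.Statements.S4497
import Cfsg.Agent.Lib.Blocks.SelfCentralPrime
-- import your own Cfsg.Agent.* helpers here

set_option autoImplicit false
open Cfsg Cfsg.Lib.Blocks
open scoped commutatorElement

namespace Cfsg.Agent.S4497

/-- Let the finite group G contain an element x of prime order p with C_G(x) = ⟨x⟩, let t be the number of conjugacy classes of elements of order p, and let S* = O_{p′}(G) be the largest normal subgroup of order prime to p. Then S* ≤ G′; if t ≠ p − 1 the quotient G′/S* is simple (in particular non-trivial); if t = p − 1 then G′ = S*. -/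
theorem result {G : Type*} [Group G] [Finite G] (p : ℕ) (hp : p.Prime) (x : G) (hx : orderOf x = p) (hC : Subgroup.centralizer ({x} : Set G) = Subgroup.zpowers x) (t : ℕ) (ht : Nat.card {C : ConjClasses G // ∃ g ∈ C.carrier, orderOf g = p} = t) : Cfsg.pPrimeCore p G ≤ commutator G ∧ (t ≠ p - 1 → ∀ h : ((Cfsg.pPrimeCore p G).subgroupOf (commutator G)).Normal, IsSimpleGroup (↥(commutator G) ⧸ (Cfsg.pPrimeCore p G).subgroupOf (commutator G))) ∧ (t = p - 1 → commutator G = Cfsg.pPrimeCore p G) := by
  haveI : Fact p.Prime := ⟨hp⟩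
  refine ⟨SelfCentral.core_le_commutator hx hC, fun hne h => ?_,
    fun heq => (SelfCentral.commutator_of_max hx hC (ht.trans heq)).1⟩
  haveI := h
  haveI := Cfsg.Lib.Transfer.pPrimeCore_normal (G := G) p
  set S := Cfsg.pPrimeCore p G with hS
  set D := commutator G with hD
  have hd := SelfCentral.dvd_commutator hx hC (ht.symm ▸ hne)
  have hxD : x ∈ D := SelfCentral.sylow_le hx hC D hd
  have hSD : S ≤ D := SelfCentral.core_le_commutator hx hC
  have hxS : x ∉ S := fun hm =>
    SelfCentral.not_dvd_pPrimeCore (G := G) (p := p) (by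
      have h0 := Subgroup.orderOf_dvd_natCard S hm
      rwa [hx] at h0)
  have hx' : orderOf (⟨x, hxD⟩ : D) = p := by rw [Subgroup.orderOf_mk, hx]
  have hC' : Subgroup.centralizer ({(⟨x, hxD⟩ : D)} : Set D) = Subgroup.zpowers (⟨x, hxD⟩ : D) := by
    ext y
    rw [Subgroup.mem_centralizer_iff]
    constructor
    · intro hy
      have hm : (y : G) ∈ Subgroup.zpowers x := by
        rw [← hC, Subgroup.mem_centralizer_iff]
        intro z hz
        rw [Set.mem_singleton_iff] at hz
        rw [hz]
        exact congrArg Subtype.val (hy _ rfl)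
      obtain ⟨i, hi⟩ := Subgroup.mem_zpowers_iff.mp hm
      exact Subgroup.mem_zpowers_iff.mpr ⟨i, Subtype.ext (by simpa using hi)⟩
    · intro hy z hz
      rw [Set.mem_singleton_iff] at hz
      obtain ⟨i, hi⟩ := Subgroup.mem_zpowers_iff.mp hy
      rw [hz, ← hi]
      exact ((Commute.refl _).zpow_right i).eq
  haveI : Nontrivial (D ⧸ S.subgroupOf D) := ⟨⟨QuotientGroup.mk ⟨x, hxD⟩, 1, fun e =>
    hxS (Subgroup.mem_subgroupOf.mp ((QuotientGroup.eq_one_iff _).mp e))⟩⟩
  refine ⟨fun L hL => ?_⟩
  set L' : Subgroup D := L.comap (QuotientGroup.mk' (S.subgroupOf D)) with hL'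
  haveI : L'.Normal := hL.comap _
  have hker : S.subgroupOf D ≤ L' := fun z hz => by
    show (QuotientGroup.mk z : D ⧸ S.subgroupOf D) ∈ L
    rw [(QuotientGroup.eq_one_iff z).mpr hz]
    exact L.one_mem
  have hback : L = L'.map (QuotientGroup.mk' (S.subgroupOf D)) :=
    (Subgroup.map_comap_eq_self_of_surjective (QuotientGroup.mk'_surjective _) L).symm
  by_cases hp' : p ∣ Nat.card L'
  · right
    have hxL : (⟨x, hxD⟩ : D) ∈ L' := SelfCentral.sylow_le hx' hC' L' hp'
    have hcom : commutator D ≤ L' := SelfCentral.commutator_le hx' hC' L' hp'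
    haveI : (⁅D, D⁆ : Subgroup G).Normal := Subgroup.commutator_normal D D
    have hle : ⁅D, D⁆ ⊔ S ≤ L'.map D.subtype := by
      refine sup_le ?_ ?_
      · rw [← Subgroup.map_subtype_commutator]
        exact Subgroup.map_mono hcom
      · exact fun s hs => ⟨⟨s, hSD hs⟩, hker hs, rfl⟩
    have htop : D ≤ L'.map D.subtype := by
      by_cases hp2 : p ∣ Nat.card ↥(⁅D, D⁆ ⊔ S)
      · exact (SelfCentral.commutator_le hx hC _ hp2).trans hle
      · have hDS : ⁅D, D⁆ ≤ S := le_sup_left.trans (SelfCentral.le_core _ hp2)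
        have hab : commutator D ≤ S.subgroupOf D := fun z hz => by
          rw [Subgroup.mem_subgroupOf]
          exact hDS (Subgroup.map_subtype_commutator D ▸ ⟨z, hz, rfl⟩)
        have hnd : ¬ p ∣ Nat.card (S.subgroupOf D) := by
          rw [Nat.card_congr (Subgroup.subgroupOfEquivOfLe hSD).toEquiv]
          exact SelfCentral.not_dvd_pPrimeCore
        have hsup := (SelfCentral.eq_sup_of_abelian hx' hC' _ hnd hab).2
        intro g hg
        exact ⟨⟨g, hg⟩, (sup_le hker (Subgroup.zpowers_le.mpr hxL)) (hsup.symm ▸ Subgroup.mem_top _), rfl⟩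
    have hLtop : L' = ⊤ := eq_top_iff.mpr fun d _ => by
      obtain ⟨z, hz, he⟩ := htop d.2
      rwa [Subtype.ext he] at hz
    rw [hback, hLtop, Subgroup.map_top_of_surjective _ (QuotientGroup.mk'_surjective _)]
  · left
    haveI : (Cfsg.pPrimeCore p D).Characteristic := by
      rw [Subgroup.characteristic_iff_comap_le]
      intro φ
      haveI := Cfsg.Lib.Transfer.pPrimeCore_normal (G := D) p
      refine Cfsg.Lib.Transfer.le_pPrimeCore inferInstance ?_
      rw [Subgroup.comap_equiv_eq_map_symm', Subgroup.card_map_of_injective φ.symm.injective]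
      exact Cfsg.Lib.Transfer.coprime_card_pPrimeCore p
    have hcore : (Cfsg.pPrimeCore p D).map D.subtype ≤ S := by
      haveI : ((Cfsg.pPrimeCore p D).map D.subtype).Normal := ConjAct.normal_of_characteristic_of_normal
      refine SelfCentral.le_core _ ?_
      rw [Subgroup.card_map_of_injective D.subtype_injective]
      exact SelfCentral.not_dvd_pPrimeCore
    have hLS : L' ≤ S.subgroupOf D := fun z hz =>
      Subgroup.mem_subgroupOf.mpr (hcore ⟨z, SelfCentral.le_core L' hp' hz, rfl⟩)
    rw [hback, Subgroup.map_eq_bot_iff, QuotientGroup.ker_mk']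
    exact hLS

end Cfsg.Agent.S4497
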