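import Cfsg.Statements.S4498
import Cfsg.Agent.Lib.Blocks.Sections
import Cfsg.Agent.Lib.Blocks.Principal

set_option autoImplicit false
open Cfsg
open Cfsg.Lib.Characters Cfsg.Lib.Blocks
open scoped BigOperators ComplexConjugate

namespace Cfsg.Agent.S4498

theorem kerB_inter_eq_zero {G : Type*} [Group G] [Fintype G] {p q : ℕ} [Fact p.Prime] [Fact q.Prime]
    (hpq : p ≠ q) (hno : ∀ g : G, orderOf g ≠ p * q) {Mp Mq : Ideal Cfsg.AlgInt}
    (hMp : IsPModular p Mp) (hMq : IsPModular q Mq) {Bp Bq : Set (IrrCharacter G)}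
    (hBp : IsPBlock Mp Bp) (hBq : IsPBlock Mq Bq) {u v : G} (hu : p ∣ orderOf u) (hv : q ∣ orderOf v) :
    kerB (Bp ∩ Bq) u v = 0 := by
  haveI := hMp.2.1.isPrime
  haveI := hMq.2.1.isPrime
  have h := sum_kerB_mul Bp Bq u v
  rw [Finset.sum_eq_zero] at h
  · rcases mul_eq_zero.mp h.symm with h1 | h1
    · exact absurd h1 (Nat.cast_ne_zero.mpr Nat.card_pos.ne')
    · exact h1
  intro c _
  by_cases hc1 : p ∣ orderOf c
  · by_cases hc2 : q ∣ orderOf c
    · exfalso
      have hd : p * q ∣ orderOf c :=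
        ((Nat.coprime_primes Fact.out Fact.out).mpr hpq).mul_dvd_of_dvd_of_dvd hc1 hc2
      obtain ⟨k, hk⟩ := hd
      have hk0 : k ≠ 0 := fun h0 => (orderOf_pos c).ne' (by simp [hk, h0])
      apply hno (c ^ k)
      rw [orderOf_pow' c hk0, hk, Nat.gcd_mul_left_left, Nat.mul_div_cancel _ (Nat.pos_of_ne_zero hk0)]
    · rw [kerB_eq_zero_of_regular hMq hBq hc2 hv, mul_zero]
  · rw [← kerB_symm Bp c u, kerB_eq_zero_of_regular hMp hBp hc1 hu, map_zero, zero_mul]


/-- Let p and q be distinct primes dividing the order of the finite group G, and suppose G has no element of order p·q. Fix maximal ideals M_p over p and M_q over q of the algebraic integers. Then the principal p-block and the principal q-block of G have a non-principal irreducible character in common. -/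
theorem result {G : Type*} [Group G] [Finite G] (p q : ℕ) [Fact p.Prime] [Fact q.Prime] (hpq : p ≠ q) (hp : p ∣ Nat.card G) (hq : q ∣ Nat.card G) (hno : ∀ g : G, orderOf g ≠ p * q) (Mp Mq : Ideal Cfsg.AlgInt) (hMp : Cfsg.IsPModular p Mp) (hMq : Cfsg.IsPModular q Mq) : ∃ χ : Cfsg.IrrCharacter G, (χ : G → ℂ) ≠ (fun _ => 1) ∧ χ ∈ Cfsg.principalBlock Mp G ∧ χ ∈ Cfsg.principalBlock Mq G := by
  classical
  haveI := hMp.2.1.isPrime
  haveI := hMq.2.1.isPrime
  haveI := Fintype.ofFinite G
  by_contra hcon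
  push Not at hcon
  have hB : Cfsg.principalBlock Mp G ∩ Cfsg.principalBlock Mq G = {trivChar G} := by
    refine Set.eq_singleton_iff_unique_mem.mpr ⟨⟨trivChar_mem_principal, trivChar_mem_principal⟩, ?_⟩
    intro χ hχ
    by_contra hne
    exact hcon χ (fun h => hne (Subtype.ext (h.trans (funext fun g => (trivChar_apply g).symm)))) hχ.1 hχ.2
  obtain ⟨u, hu⟩ := exists_prime_orderOf_dvd_card' p hp
  obtain ⟨v, hv⟩ := exists_prime_orderOf_dvd_card' q hq
  have h := kerB_inter_eq_zero hpq hno hMp hMq (isPBlock_principal (M := Mp) (G := G))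
    (isPBlock_principal (M := Mq) (G := G)) (u := u) (v := v) (hu ▸ dvd_rfl) (hv ▸ dvd_rfl)
  rw [hB, kerB_eq_finsum, finsum_mem_singleton] at h
  simp at h

end Cfsg.Agent.S4498
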