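import Cfsg.Statements.S4710
import Mathlib
import Cfsg.Agent.Lib.Blocks.RegInner

set_option autoImplicit false
open Cfsg

namespace Cfsg.Agent.S4710

/-- Let p be a prime, M a maximal ideal of the algebraic integers containing p, and B a p-block of defect d of the finite group G containing k irreducible characters. If B contains a character of positive height then 2k ≤ p^(2d − 2); and every character in B has height 0 when d ≤ 1 and height at most d − 2 when d ≥ 2. -/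
theorem result {G : Type*} [Group G] [Finite G] (p : ℕ) [Fact p.Prime] (M : Ideal Cfsg.AlgInt) (hM : Cfsg.IsPModular p M) (B : Set (Cfsg.IrrCharacter G)) (hB : Cfsg.IsPBlock M B) (d : ℕ) (hd : Cfsg.blockDefect p B = d) : ((∃ χ ∈ B, 0 < Cfsg.blockHeight p B (χ : G → ℂ)) → 2 * Nat.card B ≤ p ^ (2 * d - 2)) ∧ ∀ χ ∈ B, (d ≤ 1 → Cfsg.blockHeight p B (χ : G → ℂ) = 0) ∧ (2 ≤ d → Cfsg.blockHeight p B (χ : G → ℂ) ≤ d - 2) := by
  haveI := hM.2.1.isPrime
  haveI := Fintype.ofFinite G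
  classical
  have hp2 := (Fact.out : p.Prime).two_le
  have key : ∀ χ ∈ B, Cfsg.blockHeight p B (χ : G → ℂ) ≠ 0 →
      Cfsg.blockHeight p B (χ : G → ℂ) + 2 ≤ d ∧
      4 * (Finset.univ.filter fun ψ : Cfsg.IrrCharacter G =>
        ψ ∈ B ∧ Cfsg.blockHeight p B (ψ : G → ℂ) = 0).card ≤ p ^ (2 * d - 2) := by
    intro χ hχ hne
    set h := Cfsg.blockHeight p B (χ : G → ℂ) with hh
    set F := Finset.univ.filter (fun ψ : Cfsg.IrrCharacter G => ψ ∈ B) with hF
    set S := Finset.univ.filter (fun ψ : Cfsg.IrrCharacter G =>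
      ψ ∈ B ∧ Cfsg.blockHeight p B (ψ : G → ℂ) = 0) with hS
    have hhd : h ≤ d := by
      rw [← hd, hh, Cfsg.blockHeight, Cfsg.blockDefect]
      exact Nat.sub_le_sub_right (Cfsg.Lib.Blocks.charDegree_factorization_le χ) _
    have hdvd : ∀ ψ ∈ B, ((p ^ h : ℕ) : ℤ) ∣ Cfsg.Lib.Blocks.blockC p B χ ψ := fun ψ hψ => by
      rw [Cfsg.Lib.Blocks.blockC_comm]
      exact (Cfsg.Lib.Blocks.blockC_dvd hM hB hψ hχ).1
    choose! e he using hdvd
    have hph : ((p ^ h : ℕ) : ℤ) ≠ 0 := by exact_mod_cast pow_ne_zero h (by omega : p ≠ 0)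
    have hsum : ∑ ψ ∈ F, e ψ * e ψ = ((p ^ (d - h) : ℕ) : ℤ) * e χ := by
      have h1 := Cfsg.Lib.Blocks.sum_blockC_mul hM hB hχ hχ
      rw [hd, he χ hχ, Finset.sum_congr rfl fun ψ hψ => by rw [he ψ (Finset.mem_filter.mp hψ).2],
        Finset.sum_congr rfl (g := fun ψ => ((p ^ h : ℕ) : ℤ) * (((p ^ h : ℕ) : ℤ) * (e ψ * e ψ)))
          fun ψ _ => by ring, ← Finset.mul_sum, ← Finset.mul_sum] at h1
      refine mul_left_cancel₀ hph (mul_left_cancel₀ hph (h1.trans ?_))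
      rw [show p ^ d = p ^ (d - h) * p ^ h by rw [← pow_add, Nat.sub_add_cancel hhd]]
      push_cast; ring
    have hχF : χ ∈ F := Finset.mem_filter.mpr ⟨Finset.mem_univ _, hχ⟩
    have hpe : (p : ℤ) ∣ e χ := by
      have h1 := (Cfsg.Lib.Blocks.blockC_dvd hM hB hχ hχ).2.1 hne
      rw [he χ hχ, pow_succ, Nat.cast_mul] at h1
      exact (mul_dvd_mul_iff_left hph).mp h1
    have hS0 : ∀ ψ ∈ S, e ψ ≠ 0 := fun ψ hψ h0 => by
      have hm := (Finset.mem_filter.mp hψ).2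
      refine (Cfsg.Lib.Blocks.blockC_dvd hM hB hm.1 hχ).2.2 hm.2 ?_
      rw [Cfsg.Lib.Blocks.blockC_comm, he ψ hm.1, h0, mul_zero]
    have hsub : S ⊆ F.erase χ := fun ψ hψ => by
      have hm := (Finset.mem_filter.mp hψ).2
      refine Finset.mem_erase.mpr ⟨fun hc => hne ?_, Finset.mem_filter.mpr ⟨Finset.mem_univ _, hm.1⟩⟩
      rw [hh, ← hc]; exact hm.2
    have hge : (S.card : ℤ) + e χ * e χ ≤ ((p ^ (d - h) : ℕ) : ℤ) * e χ := by
      rw [← hsum, ← Finset.sum_erase_add _ _ hχF]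
      refine add_le_add ?_ le_rfl
      refine le_trans ?_ (Finset.sum_le_sum_of_subset_of_nonneg hsub fun ψ _ _ => mul_self_nonneg _)
      rw [Finset.card_eq_sum_ones]
      push_cast
      exact Finset.sum_le_sum fun ψ hψ => by
        have := mul_self_pos.mpr (hS0 ψ hψ); omega
    obtain ⟨χ₀, hχ₀, hmin⟩ := Cfsg.Lib.Blocks.exists_height_zero p (B := B) ⟨χ, hχ⟩
    have hSpos : (0 : ℤ) < S.card := by
      exact_mod_cast (Finset.card_pos (s := S)).mpr ⟨χ₀, Finset.mem_filter.mpr ⟨Finset.mem_univ _, hχ₀,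
        (Cfsg.Lib.Blocks.blockHeight_eq_zero_iff p hχ₀).mpr hmin⟩⟩
    have hQ0 : (0 : ℤ) ≤ ((p ^ (d - h) : ℕ) : ℤ) := Int.natCast_nonneg _
    have hepos : 0 < e χ := by nlinarith
    have helt : e χ < ((p ^ (d - h) : ℕ) : ℤ) := by nlinarith
    have hdh : 2 ≤ d - h := by
      by_contra hlt
      have h1 : (p : ℤ) ≤ e χ := Int.le_of_dvd hepos hpe
      have h2 : p ^ (d - h) ≤ p ^ 1 := Nat.pow_le_pow_right (by omega) (by omega)
      rw [pow_one] at h2
      omega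
    refine ⟨by omega, ?_⟩
    have h4 : 4 * S.card ≤ p ^ (2 * (d - h)) := by
      have : (4 * S.card : ℤ) ≤ ((p ^ (2 * (d - h)) : ℕ) : ℤ) := by
        rw [two_mul, pow_add]
        push_cast at hge hQ0 ⊢
        nlinarith [sq_nonneg ((p : ℤ) ^ (d - h) - 2 * e χ)]
      exact_mod_cast this
    exact h4.trans (Nat.pow_le_pow_right (by omega) (by omega))
  refine ⟨fun ⟨χ, hχ, hpos⟩ => ?_, fun χ hχ => ⟨fun h1 => ?_, fun h2 => ?_⟩⟩
  · obtain ⟨hd2, hS4⟩ := key χ hχ (Nat.pos_iff_ne_zero.mp hpos)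
    obtain ⟨χ₀, hχ₀, hmin⟩ := Cfsg.Lib.Blocks.exists_height_zero p (B := B) ⟨χ, hχ⟩
    have h0 := (Cfsg.Lib.Blocks.blockHeight_eq_zero_iff p hχ₀).mpr hmin
    set F := Finset.univ.filter (fun ψ : Cfsg.IrrCharacter G => ψ ∈ B) with hF
    set T := F.filter (fun ψ : Cfsg.IrrCharacter G => ¬ Cfsg.blockHeight p B (ψ : G → ℂ) = 0) with hT
    have hk : Nat.card B = F.card := by
      rw [Nat.card_eq_fintype_card, Fintype.card_subtype]
    have hsplit := Finset.card_filter_add_card_filter_not (s := F)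
      (fun ψ : Cfsg.IrrCharacter G => Cfsg.blockHeight p B (ψ : G → ℂ) = 0)
    rw [show F.filter (fun ψ : Cfsg.IrrCharacter G => Cfsg.blockHeight p B (ψ : G → ℂ) = 0)
      = Finset.univ.filter (fun ψ : Cfsg.IrrCharacter G => ψ ∈ B ∧ Cfsg.blockHeight p B (ψ : G → ℂ) = 0)
      from Finset.filter_filter _ _ _] at hsplit
    have hmem : χ₀ ∈ F := Finset.mem_filter.mpr ⟨Finset.mem_univ _, hχ₀⟩
    have hsum := Cfsg.Lib.Blocks.sum_blockC_mul hM hB hχ₀ hχ₀
    rw [hd, ← Finset.add_sum_erase _ _ hmem] at hsum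
    have hge : (T.card : ℤ) * ((p : ℤ) * p)
        ≤ ∑ ψ ∈ F.erase χ₀, Cfsg.Lib.Blocks.blockC p B χ₀ ψ * Cfsg.Lib.Blocks.blockC p B χ₀ ψ := by
      refine le_trans ?_ (Finset.sum_le_sum_of_subset_of_nonneg (s := T) (fun ψ hψ =>
        Finset.mem_erase.mpr ⟨fun hc => (Finset.mem_filter.mp hψ).2 (hc ▸ h0),
          (Finset.mem_filter.mp hψ).1⟩) fun ψ _ _ => mul_self_nonneg _)
      rw [← nsmul_eq_mul, ← Finset.sum_const]
      refine Finset.sum_le_sum fun ψ hψ => ?_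
      obtain ⟨hψF, hψh⟩ := Finset.mem_filter.mp hψ
      obtain ⟨h1, -, h3⟩ := Cfsg.Lib.Blocks.blockC_dvd hM hB hχ₀ (Finset.mem_filter.mp hψF).2
      have hpd : (p : ℤ) ∣ Cfsg.Lib.Blocks.blockC p B χ₀ ψ :=
        dvd_trans (by exact_mod_cast dvd_pow_self p hψh) h1
      have habs : (p : ℤ) ≤ |Cfsg.Lib.Blocks.blockC p B χ₀ ψ| :=
        Int.le_of_dvd (abs_pos.mpr (h3 h0)) ((dvd_abs _ _).mpr hpd)
      rw [← abs_mul_abs_self (Cfsg.Lib.Blocks.blockC p B χ₀ ψ)]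
      exact mul_le_mul habs habs (Int.natCast_nonneg p) (abs_nonneg _)
    have hT4 : 4 * T.card ≤ p ^ (2 * d - 2) := by
      have h1 : (4 * T.card * (p * p) : ℕ) ≤ p ^ (2 * d - 2) * (p * p) := by
        have h2 : ((4 * T.card * (p * p) : ℕ) : ℤ) ≤ ((p ^ d * p ^ d : ℕ) : ℤ) := by
          push_cast at hsum hge ⊢
          nlinarith [sq_nonneg ((p : ℤ) ^ d - 2 * Cfsg.Lib.Blocks.blockC p B χ₀ χ₀)]
        have h3 : p ^ (2 * d - 2) * (p * p) = p ^ d * p ^ d := by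
          rw [← pow_two, ← pow_add, ← pow_add]; congr 1; omega
        rw [h3]; exact_mod_cast h2
      exact Nat.le_of_mul_le_mul_right h1 (Nat.mul_pos (by omega) (by omega))
    have hsplit' : (Finset.univ.filter (fun ψ : Cfsg.IrrCharacter G =>
        ψ ∈ B ∧ Cfsg.blockHeight p B (ψ : G → ℂ) = 0)).card + T.card = F.card := by
      convert hsplit using 3
    rw [hk, ← hsplit']
    omega
  · by_contra hne
    have := (key χ hχ hne).1
    omega
  · by_cases hne : Cfsg.blockHeight p B (χ : G → ℂ) = 0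
    · omega
    · have := (key χ hχ hne).1
      omega

end Cfsg.Agent.S4710
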