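import Cfsg.Statements.S4499
import Mathlib
import Cfsg.Agent.Lib.Blocks.RegInner
import Cfsg.Agent.S4710

set_option autoImplicit false
open Cfsg

namespace Cfsg.Agent.S4499

/-- Let G be a finite group whose order has p-part p^a (a ≥ 1), and fix a maximal ideal M of the algebraic integers containing p. If the degree of one irreducible character of a p-block B is divisible by p^(a−1), then the degree of every irreducible character in B is divisible by p^(a−1) (so B has defect at most 1). -/
theorem result {G : Type*} [Group G] [Finite G] (p : ℕ) [Fact p.Prime] (M : Ideal Cfsg.AlgInt) (hM : Cfsg.IsPModular p M) (hpa : p ∣ Nat.card G) (B : Set (Cfsg.IrrCharacter G)) (hB : Cfsg.IsPBlock M B) (χ : Cfsg.IrrCharacter G) (hχ : χ ∈ B) (hdiv : p ^ ((Nat.card G).factorization p - 1) ∣ Cfsg.charDegree (χ : G → ℂ)) (ψ : Cfsg.IrrCharacter G) (hψ : ψ ∈ B) : p ^ ((Nat.card G).factorization p - 1) ∣ Cfsg.charDegree (ψ : G → ℂ) := by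
  haveI := hM.2.1.isPrime
  haveI := Fintype.ofFinite G
  classical
  rw [(Fact.out : p.Prime).pow_dvd_iff_le_factorization (Cfsg.Lib.Blocks.charDegree_pos χ).ne'] at hdiv
  rw [(Fact.out : p.Prime).pow_dvd_iff_le_factorization (Cfsg.Lib.Blocks.charDegree_pos ψ).ne']
  obtain ⟨h1, h2⟩ := (Cfsg.Agent.S4710.result p M hM B hB _ rfl).2 χ hχ
  have hmχ := Cfsg.Lib.Blocks.inf_le_factorization p hχ
  have hmψ := Cfsg.Lib.Blocks.inf_le_factorization p hψ
  have hle := Cfsg.Lib.Blocks.charDegree_factorization_le (p := p) χ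
  unfold Cfsg.blockHeight at h1 h2
  unfold Cfsg.blockDefect at h1 h2
  omega

end Cfsg.Agent.S4499
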