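import Cfsg.Statements.S4506
import Cfsg.Agent.Lib.Blocks.Rank
import Cfsg.Agent.Lib.Blocks.Exists
import Cfsg.Agent.Lib.Characters.PowerConj
import Cfsg.Agent.Lib.Characters.Galois
import Cfsg.Agent.Lib.Blocks.DefectZero

set_option autoImplicit false
open Cfsg

namespace Cfsg.Agent.S4506

open Cfsg.Lib.Characters Cfsg.Lib.Blocks
open scoped ComplexConjugate Classical IntermediateField

/-- A field of roots of unity has all its embeddings induced by automorphisms of `ℂ`. -/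
theorem exists_auto {n : ℕ} [NeZero n] {ζ : ℂ} (hζ : IsPrimitiveRoot ζ n) {k : ℕ} (hk : k.Coprime n) :
    ∃ σ : ℂ ≃+* ℂ, σ ζ = ζ ^ k := by
  obtain ⟨φ, hφ⟩ := exists_galois_hom hζ hk
  haveI : FiniteDimensional ℚ ℚ⟮ζ⟯ :=
    IntermediateField.adjoin.finiteDimensional ((hζ.isIntegral (NeZero.pos n)).tower_top)
  have hrange : ∀ z, φ z ∈ ℚ⟮ζ⟯ := by
    rintro ⟨z, hz⟩
    induction hz using IntermediateField.adjoin_induction with
    | mem x hx =>
      obtain rfl : x = ζ := hx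
      exact (show φ ⟨x, _⟩ = x ^ k from hφ) ▸ pow_mem (IntermediateField.mem_adjoin_simple_self ℚ x) k
    | algebraMap q =>
      have h : φ (algebraMap ℚ ℚ⟮ζ⟯ q) ∈ ℚ⟮ζ⟯ := by rw [AlgHom.commutes]; exact ℚ⟮ζ⟯.algebraMap_mem q
      exact h
    | add x y hx' hy' hx hy =>
      have h : φ (⟨x, hx'⟩ + ⟨y, hy'⟩) ∈ ℚ⟮ζ⟯ := by rw [map_add]; exact add_mem hx hy
      exact h
    | inv x hx' hx =>
      have h : φ (⟨x, hx'⟩⁻¹) ∈ ℚ⟮ζ⟯ := by rw [map_inv₀]; exact inv_mem hx
      exact h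
    | mul x y hx' hy' hx hy =>
      have h : φ (⟨x, hx'⟩ * ⟨y, hy'⟩) ∈ ℚ⟮ζ⟯ := by rw [map_mul]; exact mul_mem hx hy
      exact h
  let τ : ℚ⟮ζ⟯ ≃+* ℚ⟮ζ⟯ := (AlgEquiv.ofBijective
    ((φ.codRestrict ℚ⟮ζ⟯.toSubalgebra hrange : ℚ⟮ζ⟯ →ₐ[ℚ] ℚ⟮ζ⟯)) (AlgHom.bijective _)).toRingEquiv
  obtain ⟨s, hs⟩ := exists_isTranscendenceBasis ℚ⟮ζ⟯ ℂ
  letI := IsAlgClosed.isAlgClosure_of_transcendence_basis _ hs
  let e := hs.1.aevalEquiv.symm.toRingEquiv.trans
    ((MvPolynomial.mapEquiv _ τ).trans hs.1.aevalEquiv.toRingEquiv)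
  refine ⟨IsAlgClosure.equivOfEquiv ℂ ℂ e, ?_⟩
  have h := IsAlgClosure.equivOfEquiv_algebraMap ℂ ℂ e
    (algebraMap ℚ⟮ζ⟯ _ (IntermediateField.AdjoinSimple.gen ℚ ζ))
  refine h.trans ?_
  simp [e, τ]
  exact hφ

variable {G : Type*} [Group G] [Fintype G]

/-- Powering by a unit modulo the group order. -/
noncomputable def act (h : (ZMod (Nat.card G))ˣ) (ψ : IrrCharacter G) : IrrCharacter G :=
  ⟨fun g => (ψ : G → ℂ) (g ^ (h : ZMod (Nat.card G)).val),
    isIrrCharacter_comp_pow ψ.2 (ZMod.val_coe_unit_coprime h).symm⟩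

theorem act_apply (h : (ZMod (Nat.card G))ˣ) (ψ : IrrCharacter G) (g : G) :
    (act h ψ : G → ℂ) g = (ψ : G → ℂ) (g ^ (h : ZMod (Nat.card G)).val) := rfl

theorem act_mul (h h' : (ZMod (Nat.card G))ˣ) (ψ : IrrCharacter G) :
    act h (act h' ψ) = act (h * h') ψ := by
  apply Subtype.ext
  funext g
  haveI : NeZero (Nat.card G) := ⟨Nat.card_pos.ne'⟩
  rw [act_apply, act_apply, act_apply, ← pow_mul, Units.val_mul, ZMod.val_mul, pow_mod_natCard]

theorem act_one (ψ : IrrCharacter G) : act 1 ψ = ψ := by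
  apply Subtype.ext
  funext g
  haveI : NeZero (Nat.card G) := ⟨Nat.card_pos.ne'⟩
  rw [act_apply, Units.val_one, ZMod.val_one_eq_one_mod, pow_mod_natCard, pow_one]

theorem geom_dvd {w : ℂ} {N : ℕ} (hw : w ^ N = 1) :
    ∑ i ∈ Finset.range N, w ^ i = (N : ℂ) * if w = 1 then 1 else 0 := by
  split_ifs with h
  · simp [h]
  · rw [geom_sum_eq h, hw]; simp

/-- Sums of conjugate roots of unity over the automorphisms fixing the `p'`-roots. -/
theorem sum_conjugates {p a m n : ℕ} [NeZero n] (hp : p.Prime) (hn : n = p ^ (a + 1) * m) (hm : ¬ p ∣ m)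
    {μ : ℂ} (hμ : μ ^ n = 1) :
    ∃ T : ℂ, IsIntegral ℤ T ∧
      (∑ h ∈ Finset.univ.filter (fun h : (ZMod n)ˣ => ((h : ZMod n).val : ℕ) ≡ 1 [MOD m]),
        μ ^ (h : ZMod n).val) = (p : ℂ) ^ a * T := by
  have hn0 : 0 < n := NeZero.pos n
  have hm0 : 0 < m := Nat.pos_of_ne_zero fun h => hm (h ▸ dvd_zero p)
  have hpdvd : p ∣ n := hn ▸ Dvd.dvd.mul_right (dvd_pow_self p (Nat.succ_ne_zero a)) m
  set f : ℕ → ℂ := fun i => if p ∣ 1 + i * m then μ ^ (1 + i * m) else 0
  have h1 : (∑ h ∈ Finset.univ.filter (fun h : (ZMod n)ˣ => ((h : ZMod n).val : ℕ) ≡ 1 [MOD m]),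
      μ ^ (h : ZMod n).val)
      = ∑ i ∈ (Finset.range (p ^ (a + 1))).filter (fun i => ¬ p ∣ 1 + i * m), μ ^ (1 + i * m) := by
    have key : ∀ h : (ZMod n)ˣ, (h : ZMod n).val ≡ 1 [MOD m] →
        1 + ((h : ZMod n).val - 1) / m * m = (h : ZMod n).val := by
      intro h hh
      have h1 : 1 ≤ (h : ZMod n).val := by
        rcases Nat.eq_zero_or_pos (h : ZMod n).val with h0 | h0
        · have hc := ZMod.val_coe_unit_coprime h
          rw [h0, Nat.coprime_zero_left] at hc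
          have : p ∣ 1 := hc ▸ hpdvd
          exact absurd (Nat.dvd_one.mp this) hp.one_lt.ne'
        · exact h0
      rw [Nat.div_mul_cancel ((Nat.modEq_iff_dvd' h1).mp hh.symm)]
      omega
    refine Finset.sum_bij (fun h _ => ((h : ZMod n).val - 1) / m) (fun h hh => ?_) ?_ (fun i hi => ?_) (fun h hh => ?_)
    · have hk := key h (Finset.mem_filter.mp hh).2
      refine Finset.mem_filter.mpr ⟨Finset.mem_range.mpr ?_, ?_⟩
      · rw [Nat.div_lt_iff_lt_mul hm0, ← hn]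
        have := ZMod.val_lt (h : ZMod n)
        omega
      · rw [hk]
        exact fun hd => hp.one_lt.ne' (Nat.eq_one_of_dvd_coprimes (ZMod.val_coe_unit_coprime h) hd hpdvd)
    · intro h hh h' hh' he
      apply Units.ext
      apply ZMod.val_injective
      rw [← key h (Finset.mem_filter.mp hh).2, ← key h' (Finset.mem_filter.mp hh').2, he]
    · rw [Finset.mem_filter, Finset.mem_range] at hi
      have hcop : (1 + i * m).Coprime n := by
        rw [hn]
        refine Nat.Coprime.mul_right ((hp.coprime_iff_not_dvd.mpr hi.2).symm.pow_right _) ?_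
        simp
      rcases eq_or_lt_of_le (show 1 ≤ m from hm0) with hm1 | hm1
      · subst hm1
        simp only [mul_one] at hn hi hcop ⊢
        rcases eq_or_lt_of_le (show 1 + i ≤ n by omega) with h | h
        · exact absurd (h ▸ hpdvd) hi.2
        refine ⟨ZMod.unitOfCoprime _ hcop, Finset.mem_filter.mpr ⟨Finset.mem_univ _, Nat.modEq_one⟩, ?_⟩
        rw [ZMod.coe_unitOfCoprime, ZMod.val_cast_of_lt h]
        simp
      · have hlt : 1 + i * m < n := by
          have h1 : (i + 1) * m ≤ p ^ (a + 1) * m := Nat.mul_le_mul_right m hi.1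
          rw [← hn, add_mul, one_mul] at h1
          omega
        refine ⟨ZMod.unitOfCoprime _ hcop, Finset.mem_filter.mpr ⟨Finset.mem_univ _, ?_⟩, ?_⟩
        · rw [ZMod.coe_unitOfCoprime, ZMod.val_cast_of_lt hlt]
          simp [Nat.ModEq]
        · rw [ZMod.coe_unitOfCoprime, ZMod.val_cast_of_lt hlt, Nat.add_sub_cancel_left, Nat.mul_div_cancel _ hm0]
    · rw [key h (Finset.mem_filter.mp hh).2]
  have hwm : (μ ^ m) ^ p ^ (a + 1) = 1 := by rw [← pow_mul, mul_comm, ← hn, hμ]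
  have hw' : ((μ ^ m) ^ p) ^ p ^ a = 1 := by rw [← pow_mul, ← pow_succ', hwm]
  have h2 : ∑ i ∈ (Finset.range (p ^ (a + 1))).filter (fun i => ¬ p ∣ 1 + i * m), μ ^ (1 + i * m)
      = (∑ i ∈ Finset.range (p ^ (a + 1)), μ ^ (1 + i * m)) - ∑ i ∈ Finset.range (p ^ (a + 1)), f i := by
    rw [eq_sub_iff_add_eq, ← Finset.sum_filter_add_sum_filter_not (Finset.range (p ^ (a + 1)))
      (fun i => ¬ p ∣ 1 + i * m) (fun i => μ ^ (1 + i * m))]
    congr 1
    simp only [f, not_not, Finset.sum_filter]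
  have h3 : ∑ i ∈ Finset.range (p ^ (a + 1)), f i
      = (∑ j ∈ Finset.range p, f j) * ∑ t ∈ Finset.range (p ^ a), ((μ ^ m) ^ p) ^ t := by
    rw [Finset.sum_mul_sum, ← Finset.sum_product']
    refine Finset.sum_nbij' (fun i => (i % p, i / p)) (fun jt => jt.1 + p * jt.2) ?_ ?_ ?_ ?_ ?_
    · intro i hi
      simp only [Finset.coe_product, Finset.coe_range, Set.mem_prod, Set.mem_Iio, Finset.mem_coe, Finset.mem_range,
        Finset.mem_product] at hi ⊢
      exact ⟨Nat.mod_lt _ hp.pos, Nat.div_lt_of_lt_mul (by rwa [← pow_succ'])⟩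
    · rintro ⟨j, t⟩ hjt
      simp only [Finset.coe_product, Finset.coe_range, Set.mem_prod, Set.mem_Iio, Finset.mem_coe, Finset.mem_range,
        Finset.mem_product] at hjt ⊢
      calc j + p * t < p * (t + 1) := by rw [mul_add, mul_one]; omega
        _ ≤ p * p ^ a := Nat.mul_le_mul_left p hjt.2
        _ = p ^ (a + 1) := (pow_succ' p a).symm
    · intro i _; exact Nat.mod_add_div i p
    · rintro ⟨j, t⟩ hjt
      simp only [Finset.coe_product, Finset.coe_range, Set.mem_prod, Set.mem_Iio, Finset.mem_coe, Finset.mem_range,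
        Finset.mem_product] at hjt
      simp [Nat.add_mul_mod_self_left, Nat.mod_eq_of_lt hjt.1, Nat.add_mul_div_left _ _ hp.pos,
        Nat.div_eq_of_lt hjt.1]
    · intro i _
      have h1 : 1 + i * m = 1 + i % p * m + p * (i / p * m) := by
        conv_lhs => rw [← Nat.mod_add_div i p]
        ring
      have h2 : p ∣ 1 + i * m ↔ p ∣ 1 + i % p * m := by rw [h1, Nat.dvd_add_left (dvd_mul_right _ _)]
      simp only [f, h2]
      split_ifs with h
      · rw [h1, pow_add, ← pow_mul, ← pow_mul]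
        ring
      · rw [zero_mul]
  have h4 : ∑ i ∈ Finset.range (p ^ (a + 1)), μ ^ (1 + i * m)
      = μ * ∑ i ∈ Finset.range (p ^ (a + 1)), (μ ^ m) ^ i := by
    rw [Finset.mul_sum]
    exact Finset.sum_congr rfl fun i _ => by rw [pow_add, pow_one, ← pow_mul, mul_comm i m]
  have hi : IsIntegral ℤ μ := IsIntegral.of_pow hn0 (by rw [hμ]; exact isIntegral_one)
  refine ⟨μ * (p * if μ ^ m = 1 then 1 else 0) - (∑ j ∈ Finset.range p, f j) * (if (μ ^ m) ^ p = 1 then 1 else 0), ?_, ?_⟩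
  · refine (hi.mul ((isIntegral_algebraMap (x := (p : ℤ))).mul ?_)).sub ((IsIntegral.sum _ fun j _ => ?_).mul ?_)
    · split_ifs <;> first | exact isIntegral_one | exact isIntegral_zero
    · simp only [f]; split_ifs <;> first | exact hi.pow _ | exact isIntegral_zero
    · split_ifs <;> first | exact isIntegral_one | exact isIntegral_zero
  · rw [h1, h2, h3, h4, geom_dvd hwm, geom_dvd hw']
    push_cast; ring

/-- Let G be a finite group, p a prime, p^a the p-part of the order of G and g′ its p′-part. Call two irreducible characters p-conjugate when one is obtained from the other by applying a field automorphism of ℂ that fixes the g′-th roots of unity, and let r be the number of characters p-conjugate to the irreducible character χ (χ included). Then the exponent of p in r·χ(1) is at most a; and if p^a divides r·χ(1) then p^a already divides χ(1). -/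
theorem result {G : Type*} [Group G] [Finite G] (p : ℕ) (hp : p.Prime) (χ : Cfsg.IrrCharacter G) (r : ℕ) (hr : Nat.card {ψ : Cfsg.IrrCharacter G // ∃ σ : ℂ ≃+* ℂ, σ (Complex.exp (2 * Real.pi * Complex.I / ((Nat.card G / p ^ (Nat.card G).factorization p) : ℕ))) = Complex.exp (2 * Real.pi * Complex.I / ((Nat.card G / p ^ (Nat.card G).factorization p) : ℕ)) ∧ (ψ : G → ℂ) = fun g => σ ((χ : G → ℂ) g)} = r) : (r * Cfsg.charDegree (χ : G → ℂ)).factorization p ≤ (Nat.card G).factorization p ∧ (p ^ (Nat.card G).factorization p ∣ r * Cfsg.charDegree (χ : G → ℂ) → p ^ (Nat.card G).factorization p ∣ Cfsg.charDegree (χ : G → ℂ)) := by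
  haveI : Fintype G := Fintype.ofFinite G
  haveI : Fact p.Prime := ⟨hp⟩
  obtain ⟨M, hM⟩ := exists_isPModular p
  haveI := hM.2.1.isPrime
  revert hr
  generalize ha : (Nat.card G).factorization p = a
  generalize hm : Nat.card G / p ^ a = m
  intro hr
  haveI : NeZero (Nat.card G) := ⟨Nat.card_pos.ne'⟩
  have hn : Nat.card G = p ^ a * m := by
    rw [← hm, ← ha, Nat.ordProj_mul_ordCompl_eq_self]
  have hpm : ¬ p ∣ m := by rw [← hm, ← ha]; exact Nat.not_dvd_ordCompl hp Nat.card_pos.ne'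
  have hm0 : 0 < m := Nat.pos_of_ne_zero fun h => hpm (h ▸ dvd_zero p)
  have hζ := Complex.isPrimitiveRoot_exp (Nat.card G) Nat.card_pos.ne'
  have hζm : Complex.exp (2 * Real.pi * Complex.I / (Nat.card G : ℕ)) ^ p ^ a
      = Complex.exp (2 * Real.pi * Complex.I / (m : ℕ)) := by
    have : (m : ℂ) ≠ 0 := Nat.cast_ne_zero.mpr hm0.ne'
    have hpne : (p : ℂ) ≠ 0 := Nat.cast_ne_zero.mpr hp.ne_zero
    rw [← Complex.exp_nat_mul, hn]
    congr 1
    push_cast
    field_simp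
  generalize Complex.exp (2 * Real.pi * Complex.I / (Nat.card G : ℕ)) = ζ at hζ hζm
  set H : Finset (ZMod (Nat.card G))ˣ :=
    Finset.univ.filter (fun h => ((h : ZMod (Nat.card G)).val : ℕ) ≡ 1 [MOD m]) with hH
  have hmn : m ∣ Nat.card G := hn ▸ dvd_mul_left m _
  haveI : NeZero m := ⟨hm0.ne'⟩
  have hmemH : ∀ h, h ∈ H ↔ ZMod.unitsMap hmn h = 1 := by
    intro h
    rw [hH, Finset.mem_filter, Units.ext_iff, Units.val_one, ZMod.unitsMap_def, Units.coe_map,
      MonoidHom.coe_coe, ZMod.castHom_apply, ZMod.cast_eq_val,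
      show (1 : ZMod m) = ((1 : ℕ) : ZMod m) by simp, ZMod.natCast_eq_natCast_iff]
    simp
  have hHcard : H.card = Nat.totient (p ^ a) := by
    have h1 : H.card = Nat.card (ZMod.unitsMap hmn).ker := by
      rw [Nat.card_eq_fintype_card (α := (ZMod.unitsMap hmn).ker), ← Finset.card_univ]
      exact Finset.card_bij' (fun h hh => ⟨h, (hmemH h).mp hh⟩) (fun h _ => (h : (ZMod (Nat.card G))ˣ))
        (fun _ _ => Finset.mem_univ _) (fun h _ => (hmemH _).mpr h.2) (fun _ _ => rfl) (fun _ _ => rfl)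
    have h2 := Subgroup.card_mul_index (ZMod.unitsMap hmn).ker
    rw [Subgroup.index_ker, MonoidHom.range_eq_top.mpr (ZMod.unitsMap_surjective hmn), Subgroup.card_top,
      ← h1, Nat.card_eq_fintype_card (α := (ZMod (Nat.card G))ˣ), Nat.card_eq_fintype_card (α := (ZMod m)ˣ),
      ZMod.card_units_eq_totient, ZMod.card_units_eq_totient] at h2
    replace h2 := h2.trans (congrArg Nat.totient hn)
    rw [Nat.totient_mul ((hp.coprime_iff_not_dvd.mpr hpm).pow_left a)] at h2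
    exact Nat.eq_of_mul_eq_mul_right (Nat.totient_pos.mpr hm0) h2
  have hU : ∀ ψ : IrrCharacter G, (∃ σ : ℂ ≃+* ℂ, σ (Complex.exp (2 * Real.pi * Complex.I / (m : ℕ)))
      = Complex.exp (2 * Real.pi * Complex.I / (m : ℕ)) ∧ (ψ : G → ℂ) = fun g => σ ((χ : G → ℂ) g))
      ↔ ∃ h ∈ H, act h χ = ψ := by
    intro ψ
    have hkey : ∀ (σ : ℂ ≃+* ℂ) (k : ℕ), σ ζ = ζ ^ k → ∀ g : G, σ ((χ : G → ℂ) g) = (χ : G → ℂ) (g ^ k) := by
      intro σ k hσ g
      obtain ⟨d, ρ, hρ, hρχ⟩ := id χ.2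
      obtain ⟨μ, hμ, -, hk, -⟩ := exists_eigenvalues ρ g
      have hχg : ∀ j : ℕ, (χ : G → ℂ) (g ^ j) = ∑ i, μ i ^ j := fun j => (congrFun (show (χ : G → ℂ) = ρ.character from hρχ.symm) (g ^ j)).trans (hk j)
      have h1 := hχg 1
      rw [pow_one] at h1
      rw [hχg k, h1, map_sum]
      refine Finset.sum_congr rfl fun i _ => ?_
      have hμn : μ i ^ Nat.card G = 1 := by
        obtain ⟨c, hc⟩ := orderOf_dvd_natCard g
        rw [hc, pow_mul, hμ i, one_pow]
      obtain ⟨e, -, he⟩ := hζ.eq_pow_of_pow_eq_one hμn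
      rw [pow_one, ← he, map_pow, hσ, ← pow_mul, ← pow_mul, mul_comm]
    constructor
    · rintro ⟨σ, hσm, hψ⟩
      have hprim : IsPrimitiveRoot (σ ζ) (Nat.card G) := hζ.map_of_injective σ.injective
      obtain ⟨k, hklt, hk, hk'⟩ := (hζ.isPrimitiveRoot_iff).mp hprim
      refine ⟨ZMod.unitOfCoprime k hk, ?_, ?_⟩
      · rw [hH, Finset.mem_filter]
        refine ⟨Finset.mem_univ _, ?_⟩
        rw [ZMod.coe_unitOfCoprime, ZMod.val_cast_of_lt hklt]
        rw [← hζm, map_pow, ← hk', ← pow_mul] at hσm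
        replace hσm := (IsOfFinOrder.pow_eq_pow_iff_modEq (isOfFinOrder_iff_pow_eq_one.mpr ⟨_, Nat.card_pos, hζ.pow_eq_one⟩)).mp hσm
        rw [← hζ.eq_orderOf, hn] at hσm
        have h2 : p ^ a * k ≡ p ^ a * 1 [MOD p ^ a * m] := by rwa [mul_one, mul_comm (p ^ a) k]
        exact Nat.ModEq.mul_left_cancel' (pow_ne_zero _ hp.ne_zero) h2
      · apply Subtype.ext
        funext g
        rw [act_apply, ZMod.coe_unitOfCoprime, ZMod.val_cast_of_lt hklt, congrFun hψ g, hkey σ k hk'.symm g]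
    · rintro ⟨h, hh, rfl⟩
      obtain ⟨σ, hσ⟩ := exists_auto hζ (ZMod.val_coe_unit_coprime h)
      refine ⟨σ, ?_, funext fun g => (hkey σ _ hσ g).symm⟩
      obtain ⟨q, hq⟩ : ∃ q, (h : ZMod (Nat.card G)).val + m * 0 = (h : ZMod (Nat.card G)).val + q := ⟨0, by simp⟩
      rw [← hζm, map_pow, hσ, ← pow_mul, mul_comm, pow_mul]
      have hz : (ζ ^ p ^ a) ^ m = 1 := by rw [← pow_mul, ← hn, hζ.pow_eq_one]
      have h3 : (h : ZMod (Nat.card G)).val ≡ 1 [MOD m] := (Finset.mem_filter.mp hh).2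
      rw [pow_eq_pow_mod _ hz, h3, ← pow_eq_pow_mod _ hz, pow_one]
  generalize hUdef : H.image (fun h => act h χ) = U
  have hUr : U.card = r := by
    refine Eq.trans ?_ hr
    simp only [hU]
    refine (Nat.card_eq_finsetCard U).symm.trans (Nat.card_congr (Equiv.subtypeEquivRight fun ψ => ?_))
    rw [← hUdef, Finset.mem_image]
  have hHmul : ∀ h ∈ H, ∀ h' ∈ H, h * h' ∈ H := fun h hh h' hh' => by
    rw [hmemH] at hh hh' ⊢; rw [map_mul, hh, hh', one_mul]
  have hHinv : ∀ h ∈ H, h⁻¹ ∈ H := fun h hh => by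
    rw [hmemH] at hh ⊢; rw [map_inv, hh, inv_one]
  have hH1 : (1 : (ZMod (Nat.card G))ˣ) ∈ H := by rw [hmemH, map_one]
  have hχU : χ ∈ U := by rw [← hUdef]; exact Finset.mem_image.mpr ⟨1, hH1, act_one χ⟩
  obtain ⟨c, hc⟩ : ∃ c, c = (H.filter fun h => act h χ = χ).card := ⟨_, rfl⟩
  have hfib : ∀ ψ ∈ U, ∀ φ ∈ U, (H.filter fun h => act h ψ = φ).card = c := by
    intro ψ hψ φ hφ
    rw [← hUdef, Finset.mem_image] at hψ hφ
    obtain ⟨h₁, hh₁, rfl⟩ := hψ
    obtain ⟨h₂, hh₂, rfl⟩ := hφ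
    rw [hc]
    refine Finset.card_bij' (fun h _ => h₂⁻¹ * (h * h₁)) (fun h _ => h₂ * h * h₁⁻¹) ?_ ?_ ?_ ?_
    · intro h hh
      rw [Finset.mem_filter] at hh ⊢
      refine ⟨hHmul _ (hHinv _ hh₂) _ (hHmul _ hh.1 _ hh₁), ?_⟩
      rw [← act_mul, ← act_mul h h₁, hh.2, act_mul, inv_mul_cancel, act_one]
    · intro h hh
      rw [Finset.mem_filter] at hh ⊢
      refine ⟨hHmul _ (hHmul _ hh₂ _ hh.1) _ (hHinv _ hh₁), ?_⟩
      rw [act_mul, inv_mul_cancel_right, ← act_mul, hh.2]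
    · intro h _; group
    · intro h _; group
  have hact : ∀ ψ ∈ U, ∀ h ∈ H, act h ψ ∈ U := by
    intro ψ hψ h hh
    rw [← hUdef, Finset.mem_image] at hψ ⊢
    obtain ⟨h₁, hh₁, rfl⟩ := hψ
    exact ⟨h * h₁, hHmul _ hh _ hh₁, (act_mul h h₁ χ).symm⟩
  have hsum : ∀ ψ ∈ U, ∀ g : G, ∑ h ∈ H, (act h ψ : G → ℂ) g = (c : ℂ) * ∑ φ ∈ U, (φ : G → ℂ) g := by
    intro ψ hψ g
    rw [← Finset.sum_fiberwise_of_maps_to (g := fun h => act h ψ) (t := U) (hact ψ hψ), Finset.mul_sum]
    refine Finset.sum_congr rfl fun φ hφ => ?_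
    rw [Finset.sum_congr rfl (g := fun _ => (φ : G → ℂ) g) fun h hh => by rw [(Finset.mem_filter.mp hh).2],
      Finset.sum_const, hfib ψ hψ φ hφ, nsmul_eq_mul]
  have hcr : r * c = Nat.totient (p ^ a) := by
    rw [← hHcard, Finset.card_eq_sum_card_fiberwise (f := fun h => act h χ) (t := U) (hact χ hχU),
      Finset.sum_congr rfl (hfib χ hχU), Finset.sum_const, smul_eq_mul, hUr]
  have hc0 : c ≠ 0 := fun h => (Nat.totient_pos.mpr (pow_pos hp.pos a)).ne' (by rw [← hcr, h, mul_zero])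
  have hr0 : r ≠ 0 := fun h => (Nat.totient_pos.mpr (pow_pos hp.pos a)).ne' (by rw [← hcr, h, zero_mul])
  have hv : r.factorization p + c.factorization p = a - 1 := by
    rw [← Finsupp.add_apply, ← Nat.factorization_mul hr0 hc0, hcr]
    rcases Nat.eq_zero_or_pos a with h | h
    · subst h; simp
    · have hpd : ¬ p ∣ p - 1 := fun hd => by
        have := Nat.le_of_dvd (by have := hp.two_le; omega) hd
        have := hp.two_le; omega
      rw [Nat.totient_prime_pow hp h, Nat.factorization_mul (pow_ne_zero _ hp.ne_zero)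
        (by have := hp.two_le; omega), Finsupp.add_apply, hp.factorization_pow, Finsupp.single_eq_same,
        Nat.factorization_eq_zero_of_not_dvd hpd, add_zero]
  have hT : ∀ g : G, ∃ T : ℂ, IsIntegral ℤ T ∧ ∑ h ∈ H, (act h χ : G → ℂ) g = (p : ℂ) ^ (a - 1) * T := by
    intro g
    obtain ⟨d, ρ, hρ, hρχ⟩ := id χ.2
    obtain ⟨μ, hμ, -, hk, -⟩ := exists_eigenvalues ρ g
    have hχg : ∀ j : ℕ, (χ : G → ℂ) (g ^ j) = ∑ i, μ i ^ j := fun j => (congrFun (show (χ : G → ℂ) = ρ.character from hρχ.symm) (g ^ j)).trans (hk j)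
    have hμn : ∀ i, μ i ^ Nat.card G = 1 := fun i => by
      obtain ⟨c, hc⟩ := orderOf_dvd_natCard g
      rw [hc, pow_mul, hμ i, one_pow]
    rw [Finset.sum_congr rfl (g := fun h : (ZMod (Nat.card G))ˣ => ∑ i, μ i ^ (h : ZMod (Nat.card G)).val)
      fun h _ => (act_apply h χ g).trans (hχg _), Finset.sum_comm]
    rcases a with _ | a
    · exact ⟨_, IsIntegral.sum _ fun i _ => IsIntegral.sum _ fun h _ =>
        (IsIntegral.of_pow Nat.card_pos (by rw [hμn i]; exact isIntegral_one)).pow _, by simp; rfl⟩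
    · choose T hTi hTe using fun i => sum_conjugates hp hn hpm (hμn i)
      exact ⟨∑ i, T i, IsIntegral.sum _ fun i _ => hTi i, by
        rw [Nat.add_sub_cancel, Finset.mul_sum]; exact Finset.sum_congr rfl fun i _ => hTe i⟩
  have hdeg : ∀ ψ ∈ U, (ψ : G → ℂ) 1 = (χ : G → ℂ) 1 := fun ψ hψ => by
    rw [← hUdef, Finset.mem_image] at hψ
    obtain ⟨h, -, rfl⟩ := hψ
    rw [act_apply, one_pow]
  have hcoeff : ∀ g, blockCoeff (↑U : Set (IrrCharacter G)) g
      = (Nat.card G : ℂ)⁻¹ * ((χ : G → ℂ) 1 * conj (∑ φ ∈ U, (φ : G → ℂ) g)) := by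
    intro g
    rw [blockCoeff_eq, map_sum]
    congr 1
    rw [Finset.mul_sum]
    simp only [Finset.mem_coe]
    rw [← Finset.sum_filter]
    refine Finset.sum_congr (by ext φ; simp) fun φ hφ => ?_
    rw [hdeg φ hφ]
  obtain ⟨c', hc', hc'd⟩ : ∃ c', ¬ p ∣ c' ∧ c = p ^ c.factorization p * c' :=
    ⟨_, Nat.not_dvd_ordCompl hp hc0, (Nat.ordProj_mul_ordCompl_eq_self c p).symm⟩
  obtain ⟨u, hu⟩ : ∃ u, charDegree (χ : G → ℂ) = p ^ (charDegree (χ : G → ℂ)).factorization p * u :=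
    ⟨_, (Nat.ordProj_mul_ordCompl_eq_self _ p).symm⟩
  rw [Nat.factorization_mul hr0 (charDegree_pos χ).ne', Finsupp.add_apply]
  generalize hvd : (charDegree (χ : G → ℂ)).factorization p = v at hu ⊢
  generalize hsd : r.factorization p = s at hv ⊢
  have hform : a ≤ s + v → ∀ g, ∃ t ∈ locRing M,
      blockCoeff (↑U : Set (IrrCharacter G)) g = (p : ℂ) ^ (s + v - a) * t := by
    intro hle g
    obtain ⟨T, hTi, hTe⟩ := hT g
    rw [hsum χ hχU g] at hTe
    refine ⟨(u : ℂ) * ((m : ℂ))⁻¹ * ((c' : ℂ))⁻¹ * conj T,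
      mul_mem (mul_mem (mul_mem (natCast_mem _ u) (natCast_inv_mem hM hpm).1)
        (natCast_inv_mem hM hc').1) (isIntegral_mem_locRing M (isIntegral_conj hTi)), ?_⟩
    have hne : (c : ℂ) ≠ 0 := Nat.cast_ne_zero.mpr hc0
    have hne' : (c' : ℂ) ≠ 0 := Nat.cast_ne_zero.mpr fun h => hc' (h ▸ dvd_zero p)
    have hnm : (m : ℂ) ≠ 0 := Nat.cast_ne_zero.mpr hm0.ne'
    have hpne : (p : ℂ) ≠ 0 := Nat.cast_ne_zero.mpr hp.ne_zero
    rw [hcoeff, show (∑ φ ∈ U, (φ : G → ℂ) g) = (p : ℂ) ^ (a - 1) * T / c by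
      rw [eq_div_iff hne, mul_comm, hTe], map_div₀, map_mul, map_pow, map_natCast, map_natCast,
      ← coe_charDegree χ, hu, hn]
    have hpow : (p : ℂ) ^ (s + v - a) * ((p : ℂ) ^ a * (p : ℂ) ^ c.factorization p)
        = (p : ℂ) ^ v * (p : ℂ) ^ (a - 1) := by
      rw [← pow_add, ← pow_add, ← pow_add]; congr 1; omega
    conv_lhs => rw [hc'd]
    push_cast
    field_simp
    linear_combination (-(u : ℂ) * conj T) * hpow
  have hloc : a ≤ s + v → blockE (↑U : Set (IrrCharacter G)) ∈ locCenter G M := fun hle =>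
    ⟨isClassElt_blockE _, fun g => by
      obtain ⟨t, ht, he⟩ := hform hle g
      rw [coeff_blockE, he]
      exact mul_mem (pow_mem (natCast_mem _ p) _) ht⟩
  have hlam : ∀ (hle : a ≤ s + v) (ψ : IrrCharacter G),
      lam M ψ (redG M (blockE (↑U : Set (IrrCharacter G)))) = if ψ ∈ U then 1 else 0 := by
    intro hle ψ
    rw [lam_redG M ψ (hloc hle), omega_blockE]
    by_cases h : ψ ∈ U <;> simp [h]
  have h1 : s + v ≤ a := by
    by_contra hlt
    push_neg at hlt
    have h := hlam hlt.le χ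
    rw [if_pos hχU, show redG M (blockE (↑U : Set (IrrCharacter G))) = 0 from gr_ext fun g => by
      obtain ⟨t, ht, he⟩ := hform hlt.le g
      rw [coeff_redG, coeff_blockE, he, red_mul (pow_mem (natCast_mem _ p) _) ht,
        red_pow (natCast_mem _ p), red_natCast, red_p hM, zero_pow (by omega), zero_mul]
      rfl, lam_zero] at h
    exact zero_ne_one h
  refine ⟨h1, fun hdvd => ?_⟩
  have hle : a ≤ s + v := by
    have h := (hp.pow_dvd_iff_le_factorization (Nat.mul_ne_zero hr0 (charDegree_pos χ).ne')).mp hdvd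
    rwa [Nat.factorization_mul hr0 (charDegree_pos χ).ne', Finsupp.add_apply, hsd, hvd] at h
  have hUn : IsBlockUnion M (↑U : Set (IrrCharacter G)) := by
    intro φ ψ hsame hφ
    by_contra hψ
    have h := lam_eq_of_sameBlock M hsame (redG M (blockE (↑U : Set (IrrCharacter G))))
    rw [hlam hle, hlam hle, if_pos (by simpa using hφ), if_neg (by simpa using hψ)] at h
    exact one_ne_zero h
  have hker : ∀ x y : G, kerB (↑U : Set (IrrCharacter G)) x y = ∑ φ ∈ U, (φ : G → ℂ) x * (φ : G → ℂ) y⁻¹ := by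
    intro x y
    rw [kerB_eq_filter]
    exact Finset.sum_congr (by ext φ; simp) fun φ _ => rfl
  have hvan : ∀ x : G, x ≠ 1 → (∃ k, orderOf x = p ^ k) → (χ : G → ℂ) x = 0 := by
    intro x hx ⟨k, hk⟩
    have hpx : p ∣ orderOf x := by
      rw [hk]
      refine dvd_pow_self p fun h => hx (orderOf_eq_one_iff.mp (by rw [hk, h, pow_zero]))
    have hΨ : ∑ φ ∈ U, (φ : G → ℂ) x = 0 := by
      have h := kerB_eq_sum_blocks hUn 1 x⁻¹
      rw [hker, Finset.sum_eq_zero fun b hb => kerB_eq_zero_of_regular hM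
        (mem_blocks.mp (Finset.mem_filter.mp hb).1) (by simpa using hp.one_lt.ne')
        (by rwa [orderOf_inv]), inv_inv, Finset.sum_congr rfl fun φ hφ => by rw [hdeg φ hφ],
        ← Finset.mul_sum] at h
      exact (mul_eq_zero.mp h).resolve_left χ.2.one_ne_zero
    have h0 : ∑ h ∈ H, kerB (↑U : Set (IrrCharacter G)) (x ^ (h : ZMod (Nat.card G)).val) x = 0 := by
      simp only [hker]
      rw [Finset.sum_comm]
      refine Finset.sum_eq_zero fun φ hφ => ?_
      rw [← Finset.sum_mul, show (∑ h ∈ H, (φ : G → ℂ) (x ^ (h : ZMod (Nat.card G)).val))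
        = ∑ h ∈ H, (act h φ : G → ℂ) x from rfl, hsum φ hφ, hΨ, mul_zero, zero_mul]
    have h1' : ∀ h ∈ H, kerB (↑U : Set (IrrCharacter G)) (x ^ (h : ZMod (Nat.card G)).val) x
        = if IsConj x (x ^ (h : ZMod (Nat.card G)).val) then kerB (↑U : Set (IrrCharacter G)) x x else 0 := by
      intro h _
      split_ifs with hc
      · rw [hker, hker]
        exact Finset.sum_congr rfl fun φ _ => by rw [char_eq_of_isConj φ hc]
      · rw [kerB_eq_sum_blocks hUn]
        refine Finset.sum_eq_zero fun b hb => kerB_eq_zero_of_not_isConj hM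
          (mem_blocks.mp (Finset.mem_filter.mp hb).1) (x := x ^ (h : ZMod (Nat.card G)).val) (x' := x)
          ⟨1, mul_one _, Commute.one_right _, ?_, by simpa using hp.one_lt.ne'⟩
          ⟨1, mul_one _, Commute.one_right _, ⟨k, hk⟩, by simpa using hp.one_lt.ne'⟩ fun h' => hc h'.symm
        obtain ⟨j, -, hj⟩ := (Nat.dvd_prime_pow hp).mp (hk ▸ orderOf_pow_dvd (x := x) (h : ZMod (Nat.card G)).val)
        exact ⟨j, hj⟩
    rw [Finset.sum_congr rfl h1', ← Finset.sum_filter, Finset.sum_const, nsmul_eq_mul, mul_eq_zero] at h0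
    have hne : ((H.filter fun h : (ZMod (Nat.card G))ˣ => IsConj x (x ^ (h : ZMod (Nat.card G)).val)).card : ℂ) ≠ 0 := by
      refine Nat.cast_ne_zero.mpr (Finset.card_ne_zero.mpr ⟨1, Finset.mem_filter.mpr ⟨hH1, ?_⟩⟩)
      rw [Units.val_one, ZMod.val_one_eq_one_mod, pow_mod_natCard, pow_one]
    have h2 := h0.resolve_left hne
    rw [hker, Finset.sum_congr rfl fun φ _ => by rw [char_inv_eq_conj φ.2.isCharacter, Complex.mul_conj],
      ← Complex.ofReal_sum, Complex.ofReal_eq_zero,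
      Finset.sum_eq_zero_iff_of_nonneg fun φ _ => Complex.normSq_nonneg _] at h2
    exact Complex.normSq_eq_zero.mp (h2 χ hχU)
  obtain ⟨P⟩ : Nonempty (Sylow p G) := inferInstance
  have hP : Nat.card P = p ^ a := by rw [P.card_eq_multiplicity, ha]
  haveI : Fintype (P : Subgroup G) := Fintype.ofFinite _
  obtain ⟨z, hz⟩ := classInner_int (isGeneralized_of_isCharacter
    (isCharacter_comp χ.2.isCharacter (P : Subgroup G).subtype))
    (isGeneralized_of_isCharacter (isIrrCharacter_linear (1 : (P : Subgroup G) →* ℂˣ)).isCharacter)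
  rw [classInner, Finset.sum_eq_single (1 : (P : Subgroup G))] at hz
  · rw [hP] at hz
    simp at hz
    have hi : IsIntegral ℤ (((charDegree (χ : G → ℂ) : ℕ) : ℂ) / ((p ^ a : ℕ) : ℂ)) := by
      rw [coe_charDegree, div_eq_inv_mul]
      push_cast
      rw [hz]
      exact isIntegral_algebraMap
    exact dvd_of_isIntegral_div (pow_ne_zero _ hp.ne_zero) hi
  · intro x _ hx
    obtain ⟨k, hk⟩ := IsPGroup.iff_orderOf.mp P.2 x
    simp [hvan (x : G) (fun h => hx (Subtype.ext h)) ⟨k, by rw [Subgroup.orderOf_coe, hk]⟩]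
  · simp

end Cfsg.Agent.S4506
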