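import Cfsg.Statements.S4508
import Cfsg.Agent.S4495
import Cfsg.Agent.Lib.Blocks.SelfCentralPrime
import Cfsg.Agent.Lib.Blocks.Covering
import Cfsg.Agent.Lib.Blocks.Exists
import Cfsg.Agent.Lib.Characters.Degree
import Cfsg.Agent.Lib.Characters.Det

set_option autoImplicit false
set_option linter.style.haveILetI false
open Cfsg

namespace Cfsg.Agent.S4508

open Cfsg.Lib.Characters Cfsg.Lib.Blocks Finset
open scoped Classical ComplexConjugate

set_option maxHeartbeats 800000

/-- An integral vector with small defect from the regular one is the regular one. -/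
theorem deficit_zero {ι : Type*} [Fintype ι] [DecidableEq ι] (o : ι) (d : ι → ℤ) (m : ℕ) (e : ℕ) (he : 2 ≤ e)
    (hsum : ∑ i ∈ univ.erase o, d i = -(m : ℤ))
    (hbound : ∑ i ∈ univ.erase o, d i ^ 2 + (m : ℤ) ^ 2 - 2 * (m : ℤ) < e)
    (horb : ∀ i ∈ univ.erase o, ∃ s ⊆ univ.erase o, s.card = e ∧ ∀ j ∈ s, d j = d i) : m = 0 := by
  by_contra hm
  set U := univ.erase o
  obtain ⟨i, hi, hd⟩ : ∃ i ∈ U, d i ≠ 0 := by
    by_contra h
    push Not at h
    rw [Finset.sum_eq_zero h] at hsum
    omega
  obtain ⟨s, hs, hcard, hconst⟩ := horb i hi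
  have hsd : (e : ℤ) * d i ^ 2 ≤ ∑ j ∈ U, d j ^ 2 := by
    calc (e : ℤ) * d i ^ 2 = ∑ j ∈ s, d j ^ 2 := by
          rw [Finset.sum_congr rfl fun j hj => by rw [hconst j hj], Finset.sum_const, hcard, nsmul_eq_mul]
      _ ≤ _ := Finset.sum_le_sum_of_subset_of_nonneg hs fun j _ _ => sq_nonneg _
  have hd2 : 1 ≤ d i ^ 2 := by
    have : 0 < d i ^ 2 := by positivity
    omega
  have hm1 : m = 1 := by
    by_contra h1
    have h2 : (2 : ℤ) ≤ m := by omega
    nlinarith
  subst hm1
  have hout : ∀ j ∈ U \ s, d j = 0 := by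
    intro j hj
    by_contra hdj
    have hsub : insert j s ⊆ U := Finset.insert_subset (Finset.mem_sdiff.mp hj).1 hs
    have h3 : d j ^ 2 + (e : ℤ) * d i ^ 2 ≤ ∑ k ∈ U, d k ^ 2 := by
      calc d j ^ 2 + (e : ℤ) * d i ^ 2 = ∑ k ∈ insert j s, d k ^ 2 := by
            rw [Finset.sum_insert (Finset.mem_sdiff.mp hj).2,
              Finset.sum_congr rfl (fun k hk => by rw [hconst k hk]), Finset.sum_const, hcard, nsmul_eq_mul]
        _ ≤ _ := Finset.sum_le_sum_of_subset_of_nonneg hsub fun k _ _ => sq_nonneg _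
    have h4 : 1 ≤ d j ^ 2 := by
      have : 0 < d j ^ 2 := by positivity
      omega
    push_cast at hbound
    nlinarith
  have h5 : ∑ j ∈ U, d j = (e : ℤ) * d i := by
    rw [← Finset.sum_sdiff hs, Finset.sum_eq_zero hout, zero_add, Finset.sum_congr rfl hconst,
      Finset.sum_const, hcard, nsmul_eq_mul]
  rw [h5] at hsum
  have h6 : (e : ℤ) ∣ 1 := ⟨-d i, by push_cast at hsum; linarith⟩
  have h7 := Int.le_of_dvd one_pos h6
  omega

/-- Let the finite group G contain an element x of prime order p with C_G(x) = ⟨x⟩, and let t be the number of conjugacy classes of elements of order p. If G has an irreducible character of degree p − 1, then t is even or the commutator subgroup has even index. -/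
theorem result {G : Type*} [Group G] [Finite G] (p : ℕ) (hp : p.Prime) (x : G) (hx : orderOf x = p) (hC : Subgroup.centralizer ({x} : Set G) = Subgroup.zpowers x) (t : ℕ) (ht : Nat.card {C : ConjClasses G // ∃ g ∈ C.carrier, orderOf g = p} = t) (χ : Cfsg.IrrCharacter G) (hχ : Cfsg.charDegree (χ : G → ℂ) + 1 = p) : Even t ∨ Even (commutator G).index := by
  haveI : Fact p.Prime := ⟨hp⟩
  haveI : Fintype G := Fintype.ofFinite G
  obtain ⟨e, hNcard, hte⟩ := SelfCentral.class_count hx hC
  rw [ht] at hte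
  by_contra hcon
  push Not at hcon
  obtain ⟨htodd, hiodd⟩ := hcon
  rw [Nat.not_even_iff_odd] at htodd
  have hp2 : p ≠ 2 := by
    intro h2
    have hte1 : t * e = 1 := by omega
    have h := (S4495.result p hp x hx hC t ht).2 (by rw [Nat.eq_one_of_mul_eq_one_right hte1]; omega)
    exact hiodd (by rw [h, h2]; decide)
  have hpodd : Odd p := hp.odd_of_ne_two hp2
  have heven : Even e := by
    have h1 : Even (p - 1) := Nat.Odd.sub_odd hpodd odd_one
    rw [← hte, Nat.even_mul] at h1
    exact h1.resolve_left (Nat.not_even_iff_odd.mpr htodd)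
  have he0 : e ≠ 0 := fun h => by rw [h, mul_zero] at hte; have := hp.two_le; omega
  have he2 : 2 ≤ e := by obtain ⟨r, hr⟩ := heven; omega
  set P := Subgroup.zpowers x with hPdef
  set N := Subgroup.normalizer (P : Set G) with hNdef
  have hPcard : Nat.card P = p := by rw [hPdef, Nat.card_zpowers, hx]
  haveI : IsCyclic P := isCyclic_of_prime_card (p := p) hPcard
  haveI : IsMulCommutative P := inferInstance
  -- the automiser
  set φ := P.normalizerMonoidHom
  have hker : ∀ n : N, φ n = 1 ↔ (n : G) ∈ P := by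
    intro n
    rw [← MonoidHom.mem_ker, Subgroup.normalizerMonoidHom_ker, Subgroup.mem_subgroupOf,
      show Subgroup.centralizer (P : Set G) = Subgroup.centralizer ({x} : Set G) by
        rw [hPdef, Subgroup.zpowers_eq_closure, Subgroup.centralizer_closure], hC]
  haveI : IsCyclic (ZMod (Nat.card P))ˣ := by rw [hPcard]; infer_instance
  haveI : IsCyclic (MulAut P) := isCyclic_of_surjective (IsCyclic.mulAutMulEquiv P).symm
    (IsCyclic.mulAutMulEquiv P).symm.surjective
  obtain ⟨gen, hgen⟩ := (isCyclic_iff_exists_zpowers_eq_top.mp (inferInstance : IsCyclic φ.range))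
  obtain ⟨a, ha⟩ := gen.2
  have hrange : Nat.card φ.range = e := by
    have h1 := Subgroup.card_mul_index φ.ker
    rw [Subgroup.index_ker, hNcard] at h1
    have h2 : Nat.card φ.ker = p := by
      rw [← hPcard]
      refine Nat.card_congr (Equiv.ofBijective (fun n => (⟨(n : G), (hker n.1).mp n.2⟩ : P)) ⟨?_, ?_⟩)
      · intro m m' h
        exact Subtype.ext (Subtype.ext (congrArg (fun z : P => (z : G)) h :))
      · rintro ⟨q, hq⟩
        exact ⟨⟨⟨q, Subgroup.le_normalizer hq⟩, (hker _).mpr hq⟩, rfl⟩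
    rw [h2, mul_comm e] at h1
    exact Nat.eq_of_mul_eq_mul_left hp.pos h1
  have hφa : orderOf (φ a) = e := by
    rw [ha, ← Nat.card_zpowers, ← hrange]
    have : (Subgroup.zpowers gen).map φ.range.subtype = Subgroup.zpowers (gen : MulAut P) :=
      MonoidHom.map_zpowers _ _
    rw [← this, hgen, ← MonoidHom.range_eq_map, Subgroup.range_subtype]
  have hfix : ∀ (f : MulAut P) (w : P), w ≠ 1 → f w = w → f = 1 := by
    intro f w hw hfw
    refine MulEquiv.ext fun v => ?_
    obtain ⟨i, rfl⟩ := Subgroup.mem_zpowers_iff.mp (mem_zpowers_of_prime_card (g := w) (g' := v) hPcard hw)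
    rw [map_zpow, hfw]
    rfl
  have hapow : (a : G) ^ e = 1 := by
    have h1 : (a : G) ^ e ∈ P := by
      rw [← Subgroup.coe_pow, ← hker, map_pow, ← hφa, pow_orderOf_eq_one]
    by_contra hne
    have h2 := hfix (φ a) ⟨_, h1⟩ (fun h => hne (congrArg Subtype.val h)) (Subtype.ext (by
      show (a : G) * (a : G) ^ e * (a : G)⁻¹ = _
      rw [(Commute.pow_self (a : G) e).eq.symm, mul_inv_cancel_right]))
    rw [h2, orderOf_one] at hφa
    omega
  -- a representation
  obtain ⟨n, ρ, hρirr, hρ⟩ := χ.2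
  have hval : ∀ g, (χ : G → ℂ) g = ρ.character g := fun g => congrFun hρ.symm g
  have hdeg : (χ : G → ℂ) 1 = ((p - 1 : ℕ) : ℂ) := by
    rw [← coe_charDegree χ, show charDegree (χ : G → ℂ) = p - 1 by omega]
  haveI : Fintype P := Fintype.ofFinite P
  choose m hm using fun l : IrrCharacter P =>
    classInner_nat (isCharacter_restrict χ.2.isCharacter P) l.2.isCharacter
  set o : IrrCharacter P := ⟨fun _ => 1, isIrrCharacter_one⟩
  have hlin : ∀ l : IrrCharacter P, (l : P → ℂ) 1 = 1 := by
    intro l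
    haveI : IsMulCommutative (⊤ : Subgroup P) := ⟨⟨fun u v => Subtype.ext (mul_comm' u.1 v.1)⟩⟩
    have h := degree_dvd_index_of_abelian l.2 (⊤ : Subgroup P) (coe_charDegree l).symm
    rw [Subgroup.index_top, Nat.dvd_one] at h
    rw [← coe_charDegree l, h, Nat.cast_one]
  have hexp : (fun u : P => (χ : G → ℂ) u) = ∑ l : IrrCharacter P, (m l : ℂ) • (l : P → ℂ) := by
    rw [classFunction_expansion (isClassFunction_of_isCharacter (isCharacter_restrict χ.2.isCharacter P))]
    exact Finset.sum_congr rfl fun l _ => by rw [hm]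
  have hsum : ∑ l : IrrCharacter P, m l = p - 1 := by
    have h := congrFun hexp 1
    simp only [Finset.sum_apply, Pi.smul_apply, smul_eq_mul, hlin, mul_one, OneMemClass.coe_one, hdeg] at h
    exact_mod_cast h.symm
  have hsq : ∑ u : P, Complex.normSq ((χ : G → ℂ) u) = (p : ℝ) * ∑ l : IrrCharacter P, (m l : ℝ) ^ 2 := by
    have h : classInner (fun u : P => (χ : G → ℂ) u) (fun u : P => (χ : G → ℂ) u)
        = ∑ l : IrrCharacter P, (m l : ℂ) ^ 2 := by
      nth_rw 2 [hexp]
      rw [classInner_sum_right]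
      exact Finset.sum_congr rfl fun l _ => by rw [classInner_smul_right, hm, map_natCast, sq]
    rw [classInner, inv_mul_eq_iff_eq_mul₀ (Nat.cast_ne_zero.mpr Nat.card_pos.ne'), hPcard] at h
    have h' := congrArg Complex.re h
    simp only [Complex.re_sum, Complex.mul_conj, Complex.ofReal_re] at h'
    rw [h', show ((p : ℂ) * ∑ l : IrrCharacter P, (m l : ℂ) ^ 2)
      = (((p : ℝ) * ∑ l : IrrCharacter P, (m l : ℝ) ^ 2 : ℝ) : ℂ) by push_cast; rfl, Complex.ofReal_re]
  have hindex : (Nat.card G : ℝ) = (N.index : ℝ) * (e * p : ℝ) := by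
    rw [← Subgroup.card_mul_index N, hNcard]; push_cast; ring
  have hnorm : (∑ g : G, Complex.normSq ((χ : G → ℂ) g)) = (Nat.card G : ℝ) := by
    have h := classInner_irr_self χ.2
    rw [classInner, inv_mul_eq_iff_eq_mul₀ (Nat.cast_ne_zero.mpr Nat.card_pos.ne'), mul_one] at h
    simpa [Complex.re_sum, Complex.mul_conj] using congrArg Complex.re h
  have hbound : (p : ℝ) * ∑ l : IrrCharacter P, (m l : ℝ) ^ 2 < ((p - 1 : ℕ) : ℝ) ^ 2 + p * e := by
    haveI : Fintype (G ⧸ N) := Fintype.ofFinite _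
    set f : (G ⧸ N) × P → G := fun z => z.1.out * (z.2 : G) * z.1.out⁻¹ with hf
    set T := (univ : Finset ((G ⧸ N) × P)).filter fun z => z.2 ≠ 1
    have hinj : Set.InjOn f T := by
      rintro ⟨q, u⟩ hz ⟨q', u'⟩ hz' heq
      have hu := (Finset.mem_filter.mp hz).2
      have hu' := (Finset.mem_filter.mp hz').2
      simp only [hf] at heq
      set c := q'.out⁻¹ * q.out with hc
      have hcu : c * (u : G) * c⁻¹ = u' := by
        rw [hc]
        calc q'.out⁻¹ * q.out * (u : G) * (q'.out⁻¹ * q.out)⁻¹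
            = q'.out⁻¹ * (q.out * (u : G) * q.out⁻¹) * q'.out := by group
          _ = _ := by rw [heq]; group
      have hgu := (SelfCentral.zpowers_eq_of_mem hx u.2 fun h => hu (Subtype.ext h)).1
      have hgu' := (SelfCentral.zpowers_eq_of_mem hx u'.2 fun h => hu' (Subtype.ext h)).1
      have hcN : c ∈ N := by
        rw [hNdef, Subgroup.mem_normalizer_iff_map_conj_eq, hPdef]
        conv_lhs => rw [← hgu]
        rw [MonoidHom.map_zpowers]
        show Subgroup.zpowers (c * (u : G) * c⁻¹) = _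
        rw [hcu, hgu']
      have hq : q = q' := by
        rw [← QuotientGroup.out_eq' q, ← QuotientGroup.out_eq' q']
        exact (QuotientGroup.eq.mpr hcN).symm
      subst hq
      rw [mul_left_inj, mul_right_inj] at heq
      rw [Subtype.ext heq]
    have hone : (1 : G) ∉ T.image f := by
      rw [Finset.mem_image]
      rintro ⟨⟨q, u⟩, hz, h⟩
      exact (Finset.mem_filter.mp hz).2 (Subtype.ext (conj_eq_one_iff.mp h))
    have hle : Complex.normSq ((χ : G → ℂ) 1) + ∑ z ∈ T, Complex.normSq ((χ : G → ℂ) (f z)) ≤ Nat.card G := by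
      rw [← hnorm, ← Finset.sum_image (f := fun g => Complex.normSq ((χ : G → ℂ) g)) hinj, ← Finset.sum_insert (f := fun g => Complex.normSq ((χ : G → ℂ) g)) hone]
      exact Finset.sum_le_sum_of_subset_of_nonneg (Finset.subset_univ _) fun g _ _ => Complex.normSq_nonneg _
    have hT : ∑ z ∈ T, Complex.normSq ((χ : G → ℂ) (f z))
        = (N.index : ℝ) * ((p : ℝ) * ∑ l : IrrCharacter P, (m l : ℝ) ^ 2 - Complex.normSq ((χ : G → ℂ) 1)) := by
      rw [← hsq, Finset.sum_filter, Fintype.sum_prod_type]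
      have hin : ∀ q : G ⧸ N, ∑ u : P, (if u ≠ 1 then Complex.normSq ((χ : G → ℂ) (f (q, u))) else 0)
          = (∑ u : P, Complex.normSq ((χ : G → ℂ) u)) - Complex.normSq ((χ : G → ℂ) 1) := fun q => by
        rw [← Finset.sum_filter, Finset.filter_ne', ← Finset.add_sum_erase univ _ (Finset.mem_univ (1 : P)),
          OneMemClass.coe_one, add_sub_cancel_left]
        exact Finset.sum_congr rfl fun u _ => congrArg _ (χ.2.isClassFunction _ _)
      rw [Finset.sum_congr rfl fun q _ => hin q, Finset.sum_const, Finset.card_univ, nsmul_eq_mul,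
        ← Nat.card_eq_fintype_card, ← Subgroup.index_eq_card]
    rw [hT, hdeg, Complex.normSq_natCast, hindex] at hle
    have hi : (1 : ℝ) ≤ N.index := by
      exact_mod_cast Nat.one_le_iff_ne_zero.mpr Subgroup.index_ne_zero_of_finite
    have hp1 : (1 : ℝ) ≤ ((p - 1 : ℕ) : ℝ) := by
      have := hp.two_le
      exact_mod_cast (show 1 ≤ p - 1 by omega)
    nlinarith
  have hcc : Nat.card (ConjClasses P) = Nat.card P :=
    (Nat.card_eq_of_bijective ConjClasses.mk ⟨fun u v h => by
      obtain ⟨c, hc⟩ := isConj_iff.mp (ConjClasses.mk_eq_mk_iff_isConj.mp h)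
      rwa [mul_comm' c u, mul_inv_cancel_right] at hc, ConjClasses.mk_surjective⟩).symm
  -- the multiplicity of the trivial character vanishes
  have hm0 : m o = 0 := by
    refine deficit_zero o (fun l => (m l : ℤ) - 1) (m o) e he2 ?_ ?_ ?_
    · have hcardU : (univ.erase o).card = p - 1 := by
        rw [Finset.card_erase_of_mem (Finset.mem_univ o), Finset.card_univ, ← Nat.card_eq_fintype_card,
          card_irr_eq_card_conjClasses, hcc, hPcard]
      rw [Finset.sum_sub_distrib, Finset.sum_const, hcardU, nsmul_one, ← Nat.cast_sum]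
      have := Finset.add_sum_erase univ m (Finset.mem_univ o)
      omega
    · have hcardU : (univ.erase o).card = p - 1 := by
        rw [Finset.card_erase_of_mem (Finset.mem_univ o), Finset.card_univ, ← Nat.card_eq_fintype_card,
          card_irr_eq_card_conjClasses, hcc, hPcard]
      have h1 : (p : ℤ) * ∑ l : IrrCharacter P, (m l : ℤ) ^ 2 < ((p - 1 : ℕ) : ℤ) ^ 2 + p * e := by
        exact_mod_cast hbound
      have h2 : ∑ l ∈ univ.erase o, ((m l : ℤ) - 1) ^ 2
          = (∑ l : IrrCharacter P, (m l : ℤ) ^ 2) - (m o : ℤ) ^ 2 - 2 * ((∑ l : IrrCharacter P, (m l : ℤ)) - m o)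
            + ((p - 1 : ℕ) : ℤ) := by
        rw [← Finset.add_sum_erase univ _ (Finset.mem_univ o), ← Finset.add_sum_erase univ _ (Finset.mem_univ o)]
        simp only [sub_sq, mul_one, one_pow, Finset.sum_add_distrib, Finset.sum_sub_distrib, Finset.sum_const,
          hcardU, nsmul_one, ← Finset.mul_sum]
        ring
      rw [← Nat.cast_sum, hsum] at h2
      rw [h2]
      set S2 := ∑ l : IrrCharacter P, (m l : ℤ) ^ 2
      have hq : ((p - 1 : ℕ) : ℤ) = (p : ℤ) - 1 := by rw [Nat.cast_sub hp.one_le]; rfl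
      rw [hq] at h1 ⊢
      have hp2' : (2 : ℤ) ≤ p := by exact_mod_cast hp.two_le
      by_contra hcon
      push Not at hcon
      have hge : (e : ℤ) + ((p : ℤ) - 1) ≤ S2 := by linarith
      nlinarith [mul_le_mul_of_nonneg_left hge (show (0 : ℤ) ≤ p by positivity)]
    · intro l hl
      have hl1 : l ≠ o := Finset.ne_of_mem_erase hl
      obtain ⟨L, hL⟩ := exists_hom_of_degree_one l.2.isCharacter (hlin l)
      have hLinj : Function.Injective L := by
        rw [← MonoidHom.ker_eq_bot_iff]
        haveI : Fact (Nat.card P).Prime := ⟨hPcard.symm ▸ hp⟩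
        refine ((L.ker).eq_bot_or_eq_top_of_prime_card).resolve_right fun h => hl1 (Subtype.ext (funext fun u => ?_))
        rw [hL]
        show (L u : ℂ) = _
        rw [show L u = 1 from MonoidHom.mem_ker.mp (h ▸ Subgroup.mem_top u)]
        rfl
      let c : Fin e → IrrCharacter P := fun k => irrPull (φ (a ^ (k : ℕ))) l
      have hc : ∀ k j : Fin e, c k = c j → k = j := by
        intro k j h
        have h1 : φ (a ^ (k : ℕ)) = φ (a ^ (j : ℕ)) := MulEquiv.ext fun u => by
          have h2 := congrArg (fun f : IrrCharacter P => (f : P → ℂ) u) h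
          simp only [c, irrPull_apply, hL] at h2
          exact hLinj (Units.ext h2)
        rw [map_pow, map_pow] at h1
        refine Fin.ext (pow_injOn_Iio_orderOf ?_ ?_ h1) <;> · rw [Set.mem_Iio, hφa]; exact Fin.is_lt _
      refine ⟨univ.image c, ?_, by rw [Finset.card_image_of_injective _ fun k j h => hc k j h, Finset.card_univ, Fintype.card_fin], ?_⟩
      · intro j hj
        obtain ⟨k, -, rfl⟩ := Finset.mem_image.mp hj
        refine Finset.mem_erase.mpr ⟨fun h => hl1 ?_, Finset.mem_univ _⟩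
        have h2 : irrPull (φ (a ^ (k : ℕ))) l = irrPull (φ (a ^ (k : ℕ))) o := h.trans (Subtype.ext rfl)
        exact irrPull_injective _ h2
      · intro j hj
        obtain ⟨k, -, rfl⟩ := Finset.mem_image.mp hj
        have h3 : m (c k) = m l := by
          have h4 : ((m (c k) : ℕ) : ℂ) = (m l : ℂ) := by
            rw [← hm, ← hm]
            simp only [classInner]
            congr 1
            refine Fintype.sum_equiv (φ (a ^ (k : ℕ))).toEquiv _ _ fun u => ?_
            simp only [c, irrPull_apply]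
            congr 1
            have : (((φ (a ^ (k : ℕ))) u : P) : G) = ((a ^ (k : ℕ) : N) : G) * u * ((a ^ (k : ℕ) : N) : G)⁻¹ := rfl
            rw [MulEquiv.toEquiv_eq_coe, EquivLike.coe_coe, this, χ.2.isClassFunction]
          exact_mod_cast h4
        show (m (c k) : ℤ) - 1 = (m l : ℤ) - 1
        rw [h3]
  -- the sum over `P` vanishes as an operator
  have hzero : (∑ u : P, ρ (u : G)) = 0 := by
    set π : (Fin n → ℂ) →ₗ[ℂ] (Fin n → ℂ) := (p : ℂ)⁻¹ • ∑ u : P, ρ (u : G) with hπ
    have hp0 : (p : ℂ) ≠ 0 := Nat.cast_ne_zero.mpr hp.ne_zero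
    have hidem : π * π = π := by
      rw [hπ, smul_mul_smul_comm, Finset.sum_mul_sum,
        Finset.sum_congr rfl (g := fun _ => ∑ u : P, ρ (u : G)) fun u _ =>
          Fintype.sum_equiv (Equiv.mulLeft u) _ _ fun v => by
            rw [Equiv.coe_mulLeft, Subgroup.coe_mul, map_mul],
        Finset.sum_const, Finset.card_univ, ← Nat.card_eq_fintype_card, hPcard, ← Nat.cast_smul_eq_nsmul ℂ,
        smul_smul]
      congr 1
      field_simp
    have hproj : LinearMap.IsProj (LinearMap.range π) π := ⟨fun v => LinearMap.mem_range_self π v, by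
      rintro v ⟨w, rfl⟩; rw [← Module.End.mul_apply, hidem]⟩
    have htr : LinearMap.trace ℂ _ π = 0 := by
      rw [hπ, map_smul, map_sum, smul_eq_mul]
      have h := hm o
      rw [hm0, Nat.cast_zero, classInner, hPcard] at h
      rw [← h]
      congr 1
      refine Finset.sum_congr rfl fun u _ => ?_
      simp only [o, map_one, mul_one]
      rw [hval]
      rfl
    rw [hproj.trace, Nat.cast_eq_zero, Submodule.finrank_eq_zero, LinearMap.range_eq_bot] at htr
    rw [hπ, smul_eq_zero] at htr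
    exact htr.resolve_left (inv_ne_zero hp0)
  -- outside `P` the character vanishes on the normalizer
  have hvanish : ∀ b : N, φ b ≠ 1 → (χ : G → ℂ) (b : G) = 0 := by
    intro b hb
    let F : P → P := fun v => (φ b)⁻¹ v * v⁻¹
    have hFinj : Function.Injective F := fun v w h => by
      by_contra hvw
      refine hb (inv_eq_one.mp (hfix _ (w⁻¹ * v) (fun h' => hvw (inv_mul_eq_one.mp h').symm) ?_))
      simp only [F] at h
      rw [map_mul, map_inv]
      calc ((φ b)⁻¹ w)⁻¹ * (φ b)⁻¹ v = ((φ b)⁻¹ w)⁻¹ * ((φ b)⁻¹ v * v⁻¹) * v := by group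
        _ = w⁻¹ * v := by rw [h]; group
    have hsur := Finite.injective_iff_surjective.mp hFinj
    have hall : ∀ u : P, (χ : G → ℂ) ((b : G) * u) = (χ : G → ℂ) (b : G) := by
      intro u
      obtain ⟨v, rfl⟩ := hsur u
      have h1 : (((φ b)⁻¹ v : P) : G) = (b : G)⁻¹ * v * b := by
        rw [← map_inv]
        show ((b⁻¹ : N) : G) * v * ((b⁻¹ : N) : G)⁻¹ = _
        simp
      simp only [F, Subgroup.coe_mul, Subgroup.coe_inv, h1]
      rw [show (b : G) * ((b : G)⁻¹ * v * b * (v : G)⁻¹) = (v : G) * b * (v : G)⁻¹ by group,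
        χ.2.isClassFunction]
    have h2 : ∑ u : P, (χ : G → ℂ) ((b : G) * u) = 0 := by
      simp only [hval, Representation.character, map_mul]
      rw [← map_sum, ← Finset.mul_sum, hzero, mul_zero, map_zero]
    rw [Finset.sum_congr rfl fun u _ => hall u, Finset.sum_const, Finset.card_univ,
      ← Nat.card_eq_fintype_card, hPcard, nsmul_eq_mul, mul_eq_zero, Nat.cast_eq_zero] at h2
    exact h2.resolve_left hp.ne_zero
  -- the determinant of `a`
  obtain ⟨bas, μ, hbas, -⟩ := exists_eigenbasis ρ (a : G)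
  obtain ⟨ζ, hζ⟩ : ∃ ζ : ℂ, IsPrimitiveRoot ζ e := ⟨_, Complex.isPrimitiveRoot_exp e he0⟩
  have hpow : ∀ k : ℕ, ∑ i, μ i ^ k = ∑ z : Fin t × Fin e, (ζ ^ (z.2 : ℕ)) ^ k := by
    intro k
    rw [← character_pow_eq ρ _ bas μ hbas k, ← hval, Fintype.sum_prod_type]
    dsimp only
    rw [Finset.sum_const,
      Finset.card_univ, Fintype.card_fin, nsmul_eq_mul, Fin.sum_univ_eq_sum_range (fun j => (ζ ^ j) ^ k)]
    by_cases hd : e ∣ k
    · obtain ⟨r, rfl⟩ := hd
      rw [pow_mul, hapow, one_pow, hdeg, ← hte]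
      have h1 : ∀ j : ℕ, (ζ ^ j) ^ (e * r) = 1 := fun j => by
        rw [← pow_mul, mul_comm j, mul_assoc, pow_mul, hζ.pow_eq_one, one_pow]
      simp [h1]
    · have hne : ζ ^ k ≠ 1 := fun h => hd (hζ.dvd_of_pow_eq_one k h)
      have hs : ∑ j ∈ Finset.range e, (ζ ^ j) ^ k = 0 := by
        rw [Finset.sum_congr rfl fun j _ => show (ζ ^ j) ^ k = (ζ ^ k) ^ j by rw [← pow_mul, mul_comm, pow_mul]]
        rw [geom_sum_eq hne, ← pow_mul, mul_comm, pow_mul, hζ.pow_eq_one, one_pow, sub_self, zero_div]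
      rw [hs, mul_zero, ← Subgroup.coe_pow, hvanish]
      rw [map_pow, ne_eq, ← orderOf_dvd_iff_pow_eq_one, hφa]
      exact hd
  have hdet : LinearMap.det (ρ (a : G)) = -1 := by
    rw [det_eq_prod_of_eigenbasis _ bas μ hbas, prod_eq_of_pow_sums μ _ hpow, Fintype.prod_prod_type]
    dsimp only
    rw [Finset.prod_const, Finset.card_univ, Fintype.card_fin, Fin.prod_univ_eq_prod_range (fun j => ζ ^ j),
      Finset.prod_pow_eq_pow_sum]
    obtain ⟨r, hr⟩ := heven
    have hζr : ζ ^ r = -1 := by
      have h2 : (ζ ^ r) * (ζ ^ r) = 1 := by rw [← pow_add, ← hr, hζ.pow_eq_one]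
      refine (mul_self_eq_one_iff.mp h2).resolve_left fun h => ?_
      have := Nat.le_of_dvd (by omega) (hζ.dvd_of_pow_eq_one r h)
      omega
    have hs : ∑ j ∈ Finset.range e, j = r * (e - 1) := by
      rw [Finset.sum_range_id, hr, ← two_mul, mul_assoc, Nat.mul_div_cancel_left _ two_pos]
    rw [hs, pow_mul, hζr, ← pow_mul]
    exact Odd.neg_one_pow ((Nat.Even.sub_odd (by omega) ⟨r, hr⟩ odd_one).mul htodd)
  obtain ⟨D, -, hD⟩ := exists_detHom χ.2.isCharacter
  have hDa : (D (a : G) : ℂ) = -1 := by rw [hD _ ρ hρ, hdet]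
  apply hiodd
  rw [even_iff_two_dvd]
  have h1 : orderOf (D (a : G)) = 2 := by
    refine orderOf_eq_prime (Units.ext ?_) fun h => ?_
    · rw [Units.val_pow_eq_pow_val, hDa, neg_one_sq, Units.val_one]
    · rw [h, Units.val_one] at hDa; norm_num at hDa
  have h2 : commutator G ≤ D.ker := Abelianization.commutator_subset_ker D
  refine dvd_trans ?_ (Subgroup.index_dvd_of_le h2)
  rw [Subgroup.index_ker, ← h1]
  exact Subgroup.orderOf_dvd_natCard _ (MonoidHom.mem_range.mpr ⟨_, rfl⟩)

end Cfsg.Agent.S4508
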