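import Cfsg.Statements.S4509
import Cfsg.Agent.Lib.Blocks.SelfCentralPrime
-- import your own Cfsg.Agent.* helpers here

set_option autoImplicit false
open Cfsg Cfsg.Lib.Blocks
open scoped commutatorElement

namespace Cfsg.Agent.S4509

/-- Let the finite group G contain an element x of prime order p with C_G(x) = ⟨x⟩; let t be the number of conjugacy classes of elements of order p and 1 + n·p the number of subgroups of order p. Then G has a normal subgroup of order 1 + n·p if and only if either t = p − 1, or t < p − 1 and G″ ≠ G′. Moreover, if t = p − 1 then G′ has order 1 + n·p and G/G′ is cyclic of order p; and if t < p − 1 and G″ ≠ G′ then G″ has order 1 + n·p and G′ has order p·(1 + n·p). -/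
theorem result {G : Type*} [Group G] [Finite G] (p : ℕ) (hp : p.Prime) (x : G) (hx : orderOf x = p) (hC : Subgroup.centralizer ({x} : Set G) = Subgroup.zpowers x) (t : ℕ) (ht : Nat.card {C : ConjClasses G // ∃ g ∈ C.carrier, orderOf g = p} = t) (n : ℕ) (hn : Nat.card {H : Subgroup G // Nat.card H = p} = 1 + n * p) : ((∃ S : Subgroup G, S.Normal ∧ Nat.card S = 1 + n * p) ↔ (t = p - 1 ∨ (t < p - 1 ∧ derivedSeries G 2 ≠ derivedSeries G 1))) ∧ (t = p - 1 → Nat.card (commutator G) = 1 + n * p ∧ IsCyclic (G ⧸ commutator G) ∧ (commutator G).index = p) ∧ (t < p - 1 → derivedSeries G 2 ≠ derivedSeries G 1 → Nat.card (derivedSeries G 2) = 1 + n * p ∧ Nat.card (commutator G) = p * (1 + n * p)) := by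
  haveI : Fact p.Prime := ⟨hp⟩
  haveI := Cfsg.Lib.Transfer.pPrimeCore_normal (G := G) p
  set S := Cfsg.pPrimeCore p G with hS
  have hnS : ¬ p ∣ Nat.card S := SelfCentral.not_dvd_pPrimeCore
  have hidx := (SelfCentral.card_order_p hx hC).symm.trans hn
  obtain ⟨P, hP⟩ := SelfCentral.exists_sylow hx hC
  obtain ⟨e, he, hte⟩ := SelfCentral.class_count hx hC
  rw [ht] at hte
  have htdvd : t ∣ p - 1 := ⟨e, hte.symm⟩
  have htle : t ≤ p - 1 := Nat.le_of_dvd (by have := hp.two_le; omega) htdvd
  have hds1 : derivedSeries G 1 = commutator G := derivedSeries_one G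
  have hds2 : derivedSeries G 2 = ⁅commutator G, commutator G⁆ := by rw [← hds1]; rfl
  have h1 : t = p - 1 → Nat.card (commutator G) = 1 + n * p ∧ IsCyclic (G ⧸ commutator G) ∧
      (commutator G).index = p := by
    intro heq
    obtain ⟨-, hi, hc⟩ := SelfCentral.commutator_of_max hx hC (ht.trans heq)
    exact ⟨hc.trans hidx, isCyclic_of_prime_card (p := p) (by rw [← Subgroup.index_eq_card, hi]), hi⟩
  have h2 : t < p - 1 → derivedSeries G 2 ≠ derivedSeries G 1 →
      derivedSeries G 2 = S ∧ Nat.card S = 1 + n * p ∧ Nat.card (commutator G) = p * (1 + n * p) := by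
    intro hlt hne
    rw [hds1, hds2] at hne
    rw [hds2]
    have hd := SelfCentral.dvd_commutator hx hC (ht.symm ▸ hlt.ne)
    have hxD : x ∈ commutator G := SelfCentral.sylow_le hx hC _ hd
    have hSD := SelfCentral.core_le_commutator hx hC
    have hSD2 : S ≤ ⁅commutator G, commutator G⁆ :=
      SelfCentral.le_commutator_of_mem S hx hC hnS _ hSD hxD
    haveI : (⁅commutator G, commutator G⁆ : Subgroup G).Normal := Subgroup.commutator_normal _ _
    have hnd : ¬ p ∣ Nat.card ↥(⁅commutator G, commutator G⁆ : Subgroup G) := fun h =>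
      hne (le_antisymm (Subgroup.commutator_le_self _) (SelfCentral.commutator_le hx hC _ h))
    have hDS := le_antisymm (SelfCentral.le_core _ hnd) hSD2
    have hxS : x ∉ S := fun hm => hnS (hx ▸ Subgroup.orderOf_dvd_natCard _ hm)
    -- `G' = S ⟨x⟩`
    have hD : commutator G ≤ S ⊔ Subgroup.zpowers x := by
      intro g hg
      obtain ⟨hq1, hq2⟩ := SelfCentral.quotient_props S hx hC hnS
      have hm : (g : G ⧸ S) ∈ Subgroup.zpowers (x : G ⧸ S) := by
        rw [← hq2, Subgroup.mem_centralizer_iff]
        intro z hz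
        rw [Set.mem_singleton_iff] at hz
        rw [hz, ← QuotientGroup.mk_mul, ← QuotientGroup.mk_mul, QuotientGroup.eq]
        have h3 : ⁅g⁻¹, x⁻¹⁆ ∈ S :=
          hDS.le (Subgroup.commutator_mem_commutator (inv_mem hg) (inv_mem hxD))
        rw [commutatorElement_def] at h3
        convert h3 using 1
        group
      obtain ⟨i, hi⟩ := Subgroup.mem_zpowers_iff.mp hm
      rw [← QuotientGroup.mk_zpow, QuotientGroup.eq] at hi
      have h4 : x ^ i * ((x ^ i)⁻¹ * g) ∈ S ⊔ Subgroup.zpowers x :=
        mul_mem (Subgroup.mem_sup_right (Subgroup.zpow_mem_zpowers x i)) (Subgroup.mem_sup_left hi)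
      rwa [mul_inv_cancel_left] at h4
    have hDeq : commutator G = S ⊔ Subgroup.zpowers x :=
      le_antisymm hD (sup_le hSD (Subgroup.zpowers_le.mpr hxD))
    have hdis := SelfCentral.inf_normalizer S hx hC hnS
    have hdisC : Disjoint S (Subgroup.zpowers x) := hdis.mono_right Subgroup.le_normalizer
    have hcardD : Nat.card (commutator G) = Nat.card S * p := by
      rw [hDeq, ← Subgroup.relIndex_bot_left, ← Subgroup.relIndex_mul_relIndex ⊥ S _ bot_le le_sup_left,
        Subgroup.relIndex_bot_left, sup_comm, Subgroup.relIndex_sup_right]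
      congr 1
      rw [← Subgroup.inf_relIndex_right, hdisC.eq_bot, Subgroup.relIndex_bot_left, Nat.card_zpowers, hx]
    have hxN : Subgroup.zpowers x ≤ Subgroup.normalizer (Subgroup.zpowers x : Set G) := Subgroup.le_normalizer
    have htop := Sylow.normalizer_sup_eq_top' P (hP ▸ Subgroup.zpowers_le.mpr hxD : (P : Subgroup G) ≤ commutator G)
    rw [show Subgroup.normalizer (P : Set G) = Subgroup.normalizer (Subgroup.zpowers x : Set G) by
      show Subgroup.normalizer ((P : Subgroup G) : Set G) = _; rw [hP]] at htop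
    have htop2 : S ⊔ Subgroup.normalizer (Subgroup.zpowers x : Set G) = ⊤ := by
      rw [← top_le_iff, ← htop]
      exact sup_le le_sup_right (hD.trans (sup_le_sup_left hxN S))
    have hsi : Nat.card S = (Subgroup.normalizer (Subgroup.zpowers x : Set G)).index := by
      have hc := (Subgroup.isComplement'_of_disjoint_and_mul_eq_univ hdis (by
        rw [← Subgroup.normal_mul, htop2, Subgroup.coe_top]))
      exact hc.index_eq_card.symm
    rw [hidx] at hsi
    refine ⟨hDS, hsi, ?_⟩
    rw [hcardD, hsi, mul_comm]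
  refine ⟨⟨fun ⟨K, hK, hKcard⟩ => ?_, fun h => ?_⟩, h1, fun hlt hne => ?_⟩
  · rcases htle.lt_or_eq with hlt | heq
    · right
      refine ⟨hlt, ?_⟩
      rw [hds1, hds2]
      haveI := hK
      have hKp : ¬ p ∣ Nat.card K := by
        rw [hKcard, Nat.dvd_add_left (dvd_mul_left p n)]
        exact hp.not_dvd_one
      have hKS := SelfCentral.le_core K hKp
      have hdvd := SelfCentral.card_dvd_index S hx hC hnS
      rw [hidx, ← hKcard] at hdvd
      have hKeq : K = S := Subgroup.eq_of_le_of_card_ge hKS (Nat.le_of_dvd Nat.card_pos hdvd)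
      have hdis := SelfCentral.inf_normalizer S hx hC hnS
      have hc : Subgroup.IsComplement' S (Subgroup.normalizer (Subgroup.zpowers x : Set G)) := by
        refine Subgroup.isComplement'_of_card_mul_and_disjoint ?_ hdis
        rw [← hKeq, hKcard, ← hidx, mul_comm, Subgroup.card_mul_index]
      have hnorm : (S ⊔ Subgroup.zpowers x).Normal := by
        refine ⟨fun a ha g => ?_⟩
        obtain ⟨⟨s, m⟩, hsm⟩ := hc.surjective g
        obtain ⟨a₁, ha₁, a₂, ha₂, rfl⟩ := Subgroup.mem_sup_of_normal_left.mp ha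
        have hsm' : (s : G) * m = g := hsm
        rw [← hsm', show (s : G) * m * (a₁ * a₂) * ((s : G) * m)⁻¹
          = (s : G) * (((m : G) * a₁ * (m : G)⁻¹) * ((m : G) * a₂ * (m : G)⁻¹)) * (s : G)⁻¹ by group]
        exact mul_mem (mul_mem (Subgroup.mem_sup_left s.2)
          (mul_mem (Subgroup.mem_sup_left (Subgroup.Normal.conj_mem inferInstance _ ha₁ _))
            (Subgroup.mem_sup_right ((Subgroup.mem_normalizer_iff.mp m.2 a₂).mp ha₂))))
          (inv_mem (Subgroup.mem_sup_left s.2))
      haveI := hnorm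
      have hpd : p ∣ Nat.card ↥(S ⊔ Subgroup.zpowers x) := by
        have := Subgroup.card_dvd_of_le (le_sup_right : Subgroup.zpowers x ≤ S ⊔ Subgroup.zpowers x)
        rwa [Nat.card_zpowers, hx] at this
      have hle := SelfCentral.commutator_le hx hC _ hpd
      have hD2 : ⁅commutator G, commutator G⁆ ≤ S := by
        rw [Subgroup.commutator_le]
        intro a ha b hb
        obtain ⟨a₁, ha₁, a₂, ha₂, rfl⟩ := Subgroup.mem_sup_of_normal_left.mp (hle ha)
        obtain ⟨b₁, hb₁, b₂, hb₂, rfl⟩ := Subgroup.mem_sup_of_normal_left.mp (hle hb)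
        obtain ⟨i, rfl⟩ := Subgroup.mem_zpowers_iff.mp ha₂
        obtain ⟨j, rfl⟩ := Subgroup.mem_zpowers_iff.mp hb₂
        rw [← QuotientGroup.eq_one_iff]
        simp only [commutatorElement_def, QuotientGroup.mk_mul, QuotientGroup.mk_inv, QuotientGroup.mk_zpow,
          (QuotientGroup.eq_one_iff a₁).mpr ha₁, (QuotientGroup.eq_one_iff b₁).mpr hb₁, one_mul]
        group
      intro heq
      have hd := SelfCentral.dvd_commutator hx hC (ht.symm ▸ hlt.ne)
      rw [← heq] at hd
      exact hnS (hd.trans (Subgroup.card_dvd_of_le hD2))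
    · exact Or.inl heq
  · rcases h with heq | ⟨hlt, hne⟩
    · exact ⟨commutator G, inferInstance, (h1 heq).1⟩
    · exact ⟨S, inferInstance, (h2 hlt hne).2.1⟩
  · obtain ⟨e1, e2, e3⟩ := h2 hlt hne
    rw [e1]
    exact ⟨e2, e3⟩

end Cfsg.Agent.S4509
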