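import Cfsg.Statements.S4510
import Mathlib
import Cfsg.Agent.Lib.Blocks.Counting

set_option autoImplicit false
open Cfsg

namespace Cfsg.Agent.S4510

/-- Let G be a finite group, p a prime, M a maximal ideal of the algebraic integers containing p, and call the defect of a conjugacy class the exponent of p in the order of the centralizer of its elements. Two irreducible characters lying in p-blocks of defect exactly d lie in the same block if and only if their central characters (class size times χ(x)/χ(1)) agree modulo the local ideal at M at every p-regular element x whose class has defect exactly d. -/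
theorem result {G : Type*} [Group G] [Finite G] (p : ℕ) [Fact p.Prime] (M : Ideal Cfsg.AlgInt) (hM : Cfsg.IsPModular p M) (d : ℕ) (χ ψ : Cfsg.IrrCharacter G) (hχ : Cfsg.blockDefect p (Cfsg.blockOf M (χ : G → ℂ)) = d) (hψ : Cfsg.blockDefect p (Cfsg.blockOf M (ψ : G → ℂ)) = d) : Cfsg.SameBlock M (χ : G → ℂ) (ψ : G → ℂ) ↔ ∀ x : G, ¬ p ∣ orderOf x → (Nat.card (Subgroup.centralizer ({x} : Set G))).factorization p = d → Cfsg.MemLocalIdeal M (Cfsg.centralChar (χ : G → ℂ) x - Cfsg.centralChar (ψ : G → ℂ) x) := by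
  haveI := hM.2.1.isPrime
  haveI := Fintype.ofFinite G
  classical
  refine ⟨fun h x _ _ => h x, fun h => ?_⟩
  have hB : Cfsg.IsPBlock M (Cfsg.blockOf M (χ : G → ℂ)) := ⟨χ, rfl⟩
  have hB' : Cfsg.IsPBlock M (Cfsg.blockOf M (ψ : G → ℂ)) := ⟨ψ, rfl⟩
  set S : Finset (ConjClasses G) := Finset.univ.filter fun C : ConjClasses G =>
    ¬ p ∣ orderOf (Cfsg.Lib.Blocks.cOut C) ∧
      (Nat.card (Subgroup.centralizer ({Cfsg.Lib.Blocks.cOut C} : Set G))).factorization p = d
  have hmem : ∀ g : G, ¬ p ∣ orderOf g → d ≤ (Nat.card (Subgroup.centralizer ({g} : Set G))).factorization p →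
      (Nat.card (Subgroup.centralizer ({g} : Set G))).factorization p ≤ d → ConjClasses.mk g ∈ S := by
    intro g h1 h2 h3
    obtain ⟨a, ha⟩ := isConj_iff.mp (Cfsg.Lib.Blocks.out_isConj g)
    have ho : orderOf (Cfsg.Lib.Blocks.cOut (ConjClasses.mk g)) = orderOf g :=
      (MulEquiv.orderOf_eq (MulAut.conj a) _).symm.trans (congrArg orderOf ha)
    have hi : (Subgroup.centralizer ({Cfsg.Lib.Blocks.cOut (ConjClasses.mk g)} : Set G)).index
        = (Subgroup.centralizer ({g} : Set G)).index := by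
      rw [← Cfsg.Lib.Blocks.card_filter_isConj, ← Cfsg.Lib.Blocks.card_filter_isConj]
      refine congrArg Finset.card (Finset.filter_congr fun x _ => ?_)
      exact ⟨(Cfsg.Lib.Blocks.out_isConj g).symm.trans, (Cfsg.Lib.Blocks.out_isConj g).trans⟩
    have hc := Cfsg.Lib.Blocks.index_factorization (p := p) g
    have hc' := Cfsg.Lib.Blocks.index_factorization (p := p) (Cfsg.Lib.Blocks.cOut (ConjClasses.mk g))
    refine Finset.mem_filter.mpr ⟨Finset.mem_univ _, ho ▸ h1, ?_⟩
    rw [hi] at hc'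
    omega
  have e1 := Cfsg.Lib.Blocks.sum_restricted_coeff_mul hM hB hB
    (Cfsg.Lib.Blocks.mem_blockOf_self M χ) S (fun g a b c => hmem g a (hχ ▸ b) (hχ ▸ c))
  have e2 := Cfsg.Lib.Blocks.sum_restricted_coeff_mul hM hB hB'
    (Cfsg.Lib.Blocks.mem_blockOf_self M ψ) S (fun g a b c => hmem g a (hψ ▸ b) (hχ ▸ c))
  rw [if_pos (Cfsg.Lib.Blocks.mem_blockOf_self M χ)] at e1
  by_contra hne
  rw [if_neg (show ψ ∉ Cfsg.blockOf M (χ : G → ℂ) from hne)] at e2
  apply one_ne_zero (α := Cfsg.Lib.Blocks.ResF M)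
  rw [← e1, ← e2]
  refine Finset.sum_congr rfl fun C hC => ?_
  obtain ⟨h1, h2⟩ := (Finset.mem_filter.mp hC).2
  have hd := (Cfsg.Lib.Blocks.memLocalIdeal_iff.mp (h _ h1 h2))
  rw [Cfsg.Lib.Blocks.red_sub (Cfsg.Lib.Blocks.centralChar_mem_locRing M χ _)
    (Cfsg.Lib.Blocks.centralChar_mem_locRing M ψ _), sub_eq_zero] at hd
  rw [hd.2]

end Cfsg.Agent.S4510
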