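import Cfsg.Statements.S4511
import Mathlib
import Cfsg.Agent.Lib.Blocks.Rank

set_option autoImplicit false
open Cfsg

namespace Cfsg.Agent.S4511

/-- Brauer's count of the irreducible characters in a block by subsections. Let M be a maximal ideal of the algebraic integers containing the prime p, B a p-block of the finite group G, and X a set of representatives of the conjugacy classes of p-elements of G (elements of p-power order, the identity included: every p-element is conjugate to exactly one member of X). Then the number of irreducible characters in B is the sum, over x ∈ X and over the blocks b of C_G(x) that induce B, of the p-regular rank of b (the number of irreducible Brauer characters of b, here the dimension of the span of the restrictions of the members of b to the p-regular elements of C_G(x)). -/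
theorem result {G : Type*} [Group G] [Finite G] (p : ℕ) (M : Ideal Cfsg.AlgInt) (hM : Cfsg.IsPModular p M)
    (B : Set (Cfsg.IrrCharacter G)) (hB : Cfsg.IsPBlock M B) (X : Finset G)
    (hX : ∀ x ∈ X, ∃ k : ℕ, orderOf x = p ^ k)
    (hXrep : ∀ g : G, (∃ k : ℕ, orderOf g = p ^ k) → ∃! x, x ∈ X ∧ IsConj g x) :
    Nat.card B = ∑ x ∈ X, ∑ᶠ b ∈ {b : Set (Cfsg.IrrCharacter ↥(Subgroup.centralizer ({x} : Set G))) | Cfsg.IsInducedBlock M (Subgroup.centralizer ({x} : Set G)) b B},
      Cfsg.blockRank p b := by
  haveI := hM.2.1.isPrime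
  haveI : Fact p.Prime := ⟨hM.1⟩
  haveI := Fintype.ofFinite G
  classical
  open Cfsg.Lib.Blocks in
  · have hG : (Nat.card G : ℂ) ≠ 0 := Nat.cast_ne_zero.mpr Nat.card_pos.ne'
    have htot : (Nat.card G : ℂ) * (Nat.card B : ℂ) = ∑ g : G, kerB B g g := by
      simp only [kerB]
      rw [Finset.sum_comm, Nat.card_eq_fintype_card (α := B), Fintype.card_subtype, Finset.natCast_card_filter,
        Finset.mul_sum]
      refine Finset.sum_congr rfl fun χ _ => ?_
      split_ifs with h
      · rw [mul_one]
        have h1 := Cfsg.Lib.Characters.classInner_irr_self χ.2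
        rw [Cfsg.classInner, inv_mul_eq_iff_eq_mul₀ hG, mul_one] at h1
        rw [← h1]
        exact Finset.sum_congr rfl fun g _ => by
          rw [Cfsg.Lib.Characters.char_inv_eq_conj χ.2.isCharacter]
      · simp
    have hF : Cfsg.IsClassFunction G (fun g => kerB B g g) := fun g h =>
      (kerB_congr_isConj B (isConj_iff.mpr ⟨h, rfl⟩) (isConj_iff.mpr ⟨h, rfl⟩)).symm
    have hpart : ∑ g : G, kerB B g g = ∑ x ∈ X, ∑ g : G,
        (if ∃ a b : G, a * b = g ∧ Commute a b ∧ (∃ k : ℕ, orderOf a = p ^ k) ∧
          ¬ p ∣ orderOf b ∧ IsConj x a then kerB B g g else 0) := by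
      rw [Finset.sum_comm]
      refine Finset.sum_congr rfl fun g _ => ?_
      obtain ⟨a, b, hab, hcab, ha, hb⟩ := exists_pPart_commute (p := p) g
      obtain ⟨x₀, ⟨hx₀, hconj⟩, huniq⟩ := hXrep a ha
      rw [Finset.sum_eq_single x₀, if_pos ⟨a, b, hab, hcab, ha, hb, hconj.symm⟩]
      · intro x hx hne
        rw [if_neg]
        rintro ⟨a', b', hab', hc', ha', hb', h⟩
        refine hne (huniq x ⟨hx, ?_⟩)
        rw [(pPart_unique (hab.trans hab'.symm) hcab hc' ha ha' hb hb').1]
        exact h.symm
      · exact fun h => absurd hx₀ h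
    have hterm : ∀ x ∈ X, ∑ g : G,
        (if ∃ a b : G, a * b = g ∧ Commute a b ∧ (∃ k : ℕ, orderOf a = p ^ k) ∧
          ¬ p ∣ orderOf b ∧ IsConj x a then kerB B g g else 0)
        = (Nat.card G : ℂ) * ((∑ᶠ b ∈ {b : Set (Cfsg.IrrCharacter ↥(Subgroup.centralizer ({x} : Set G))) |
            Cfsg.IsInducedBlock M (Subgroup.centralizer ({x} : Set G)) b B}, Cfsg.blockRank p b : ℕ) : ℂ) := by
      intro x hx
      rw [sum_section x (hX x hx) hF, sum_section_kerB hM hB (hX x hx), ← mul_assoc, ← Nat.cast_mul,
        mul_comm (Subgroup.centralizer ({x} : Set G)).index, Subgroup.card_mul_index]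
      congr 1
      rw [← Nat.cast_sum, finsum_mem_eq_finite_toFinset_sum _ (Set.toFinite _)]
      congr 1
      refine Finset.sum_congr ?_ fun _ _ => rfl
      ext b
      simp only [Finset.mem_filter, mem_blocks, Set.Finite.mem_toFinset]
      exact ⟨fun h => h.2, fun h => ⟨h.1, h⟩⟩
    rw [hpart, Finset.sum_congr rfl hterm, ← Finset.mul_sum, ← Nat.cast_sum] at htot
    exact_mod_cast mul_left_cancel₀ hG htot

end Cfsg.Agent.S4511
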