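import Cfsg.Statements.S4512
import Cfsg.Agent.Lib.ZStar.FactsProof
import Cfsg.Agent.Lib.ZStar.Klein
import Cfsg.Agent.Lib.ZStar.Q8Block

set_option autoImplicit false
open Cfsg

namespace Cfsg.Agent.S4512

/-- If G is a finite group with a Sylow 2-subgroup that is a Klein four-group and a single conjugacy class of involutions, then its principal 2-block (relative to a maximal ideal M of the algebraic integers containing 2) has 2-regular rank 3: the restrictions of its irreducible characters to the elements of odd order span a space of dimension 3 (it has three irreducible Brauer characters). -/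
theorem result {G : Type*} [Group G] [Finite G] (M : Ideal Cfsg.AlgInt) (hM : Cfsg.IsPModular 2 M) (P : Sylow 2 G)
    (hP : Nat.card P = 4) (hexp : ∀ x : P, x * x = 1)
    (hone : ∀ s t : G, orderOf s = 2 → orderOf t = 2 → IsConj s t) :
    Cfsg.blockRank 2 (Cfsg.principalBlock M G) = 3 := by
  classical
  haveI : Fact (Nat.Prime 2) := ⟨Nat.prime_two⟩
  haveI := hM.2.1.isPrime
  haveI := Fintype.ofFinite G
  have hK : IsKleinFour (P : Subgroup G) := by
    refine ⟨hP, ?_⟩
    haveI : Nontrivial (P : Subgroup G) :=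
      Finite.one_lt_card_iff_nontrivial.mp (by rw [hP]; norm_num)
    exact ((Nat.dvd_prime Nat.prime_two).mp (Monoid.exponent_dvd_of_forall_pow_eq_one
      fun x : (P : Subgroup G) => by rw [sq]; exact hexp x)).resolve_left
      fun e => not_subsingleton (P : Subgroup G) (Monoid.exp_eq_one_iff.mp e)
  have hF := Cfsg.Lib.ZStar.blockFacts G hM
  obtain ⟨ζ₂, ζ₃, ζ₄, ε, hε, hn2, hn3, h23, h24, h34, hB0, hval, -, -, -, hrel⟩ :=
    Cfsg.Lib.ZStar.klein_principal hM hF P hK hone
  obtain ⟨s, hs⟩ : ∃ s : G, orderOf s = 2 :=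
    exists_prime_orderOf_dvd_card' 2 ((by rw [hP]; norm_num : 2 ∣ Nat.card (P : Subgroup G)).trans
      (Subgroup.card_subgroup_dvd_card _))
  have hn4 : (ζ₄ : G → ℂ) ≠ fun _ => 1 := fun e => by
    have h1 := (hval s hs).2.2
    rw [e] at h1
    norm_num at h1
  let v : Fin 3 → Cfsg.IrrCharacter G := ![Cfsg.Lib.ZStar.triv G, ζ₂, ζ₃]
  have hvB : ∀ i, v i ∈ Cfsg.principalBlock M G := by
    intro i
    rw [hB0]
    fin_cases i
    · exact Or.inl rfl
    · exact Or.inr (Or.inl rfl)
    · exact Or.inr (Or.inr (Or.inl rfl))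
  let w : Fin 3 → G → ℂ := fun i => Cfsg.pRegularPart 2 (v i : G → ℂ)
  have hspan : Submodule.span ℂ ((fun χ : Cfsg.IrrCharacter G => Cfsg.pRegularPart 2 (χ : G → ℂ)) ''
      Cfsg.principalBlock M G) = Submodule.span ℂ (Set.range w) := by
    refine le_antisymm (Submodule.span_le.mpr ?_) (Submodule.span_mono ?_)
    · rintro _ ⟨χ, hχ, rfl⟩
      rw [hB0] at hχ
      rcases hχ with e | rfl | rfl | rfl
      · exact Submodule.subset_span ⟨0, by
          simp only [w, v, Matrix.cons_val_zero, e]; rfl⟩
      · exact Submodule.subset_span ⟨1, rfl⟩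
      · exact Submodule.subset_span ⟨2, rfl⟩
      · refine (Submodule.mem_span_range_iff_exists_fun ℂ).mpr ⟨![1, 1, (ε : ℂ)], funext fun g => ?_⟩
        simp only [Fin.sum_univ_three, Pi.add_apply, Pi.smul_apply, smul_eq_mul, w, v,
          Matrix.cons_val_zero, Matrix.cons_val_one, Matrix.cons_val, Cfsg.pRegularPart,
          Cfsg.Lib.ZStar.triv_apply]
        by_cases hg : Cfsg.IsPRegular 2 g
        · simp only [if_pos hg]
          linear_combination hrel g (Nat.odd_iff.mpr (Nat.two_dvd_ne_zero.mp hg))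
        · simp [if_neg hg]
    · rintro _ ⟨i, rfl⟩
      exact ⟨v i, hvB i, rfl⟩
  have hli : LinearIndependent ℂ w := by
    rw [Fintype.linearIndependent_iff]
    intro c hc i
    let f : G → ℂ := ∑ j, c j • (v j : G → ℂ)
    have hf0 : ∀ g, Cfsg.IsPRegular 2 g → f g = 0 := by
      intro g hg
      have h1 := congr_fun hc g
      simp only [w, Cfsg.pRegularPart, Finset.sum_apply, Pi.smul_apply, if_pos hg, Pi.zero_apply] at h1
      simpa [f] using h1
    set S : ℂ := c 0 + c 1 + c 2 * ε with hSdef
    have hfS : ∀ g, ¬ Cfsg.IsPRegular 2 g → f g = S := by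
      intro g hg
      have hgo : ¬ Odd (orderOf g) := fun h => hg (Nat.two_dvd_ne_zero.mpr (Nat.odd_iff.mp h))
      obtain ⟨t₁, ht₁, e1⟩ := Cfsg.Lib.ZStar.klein_value hF P hK (hvB 1) hgo
      obtain ⟨t₂, ht₂, e2⟩ := Cfsg.Lib.ZStar.klein_value hF P hK (hvB 2) hgo
      simp only [f, Fin.sum_univ_three, Pi.add_apply, Pi.smul_apply, smul_eq_mul]
      rw [e1, e2, show (v 0 : G → ℂ) g = 1 from rfl, show (v 1 : G → ℂ) t₁ = 1 from (hval t₁ ht₁).1,
        show (v 2 : G → ℂ) t₂ = ε from (hval t₂ ht₂).2.1]
      ring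
    set T := Finset.univ.filter (fun g : G => ¬ Cfsg.IsPRegular 2 g)
    have hinner : ∀ χ : Cfsg.IrrCharacter G, χ ∈ Cfsg.principalBlock M G → ∀ b : ℤ,
        (∀ t : G, orderOf t = 2 → (χ : G → ℂ) t = b) →
        Cfsg.classInner f (χ : G → ℂ) = (Nat.card G : ℂ)⁻¹ * (T.card * (S * b)) := by
      intro χ hχ b hb
      rw [Cfsg.classInner, ← Finset.sum_subset (Finset.subset_univ T) fun g _ hg => by
        rw [hf0 g (by simpa [T] using hg), zero_mul]]
      congr 1
      rw [Finset.sum_congr rfl fun g hg => ?_, Finset.sum_const, nsmul_eq_mul]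
      have hg' : ¬ Cfsg.IsPRegular 2 g := (Finset.mem_filter.mp hg).2
      obtain ⟨t, ht, e⟩ := Cfsg.Lib.ZStar.klein_value hF P hK hχ
        (fun h => hg' (Nat.two_dvd_ne_zero.mpr (Nat.odd_iff.mp h)))
      rw [hfS g hg', e, hb t ht, map_intCast]
    have hco : ∀ χ : Cfsg.IrrCharacter G,
        Cfsg.classInner f (χ : G → ℂ) = ∑ j, if v j = χ then c j else 0 := by
      intro χ
      simp only [f, Cfsg.Lib.Characters.classInner_sum_left, Cfsg.Lib.Characters.classInner_smul_left]
      refine Finset.sum_congr rfl fun j _ => ?_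
      rw [Cfsg.Lib.Characters.classInner_irr (v j).2 χ.2]
      simp only [Subtype.coe_inj, mul_ite, mul_one, mul_zero]
    have h0 : ∀ χ : Cfsg.IrrCharacter G, (χ : G → ℂ) ≠ (fun _ => 1) → Cfsg.Lib.ZStar.triv G ≠ χ :=
      fun χ h e => h (by rw [← e]; rfl)
    have hS0 : S = 0 := by
      have e := (hinner ζ₄ (by rw [hB0]; exact Or.inr (Or.inr (Or.inr rfl))) (-1)
        (fun t ht => by push_cast; exact (hval t ht).2.2)).symm.trans (hco ζ₄)
      simp only [Fin.sum_univ_three, v, Matrix.cons_val_zero, Matrix.cons_val_one, Matrix.cons_val,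
        h0 ζ₄ hn4, h24, h34, if_false, add_zero, mul_eq_zero, inv_eq_zero,
        Nat.cast_eq_zero, Nat.card_pos.ne', false_or] at e
      rcases e with e | e | e
      · exfalso
        refine Finset.card_ne_zero_of_mem (s := T) (a := s) ?_ e
        exact Finset.mem_filter.mpr ⟨Finset.mem_univ _, fun h => h (by rw [hs])⟩
      · exact e
      · norm_num at e
    have hb : ∀ i : Fin 3, ∀ t : G, orderOf t = 2 → (v i : G → ℂ) t = ((![1, 1, ε] : Fin 3 → ℤ) i : ℂ) := by
      intro i t ht
      fin_cases i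
      · simp [v]
      · simpa [v] using (hval t ht).1
      · simpa [v] using (hval t ht).2.1
    have hinj : Function.Injective v := by
      intro a b hab
      fin_cases a <;> fin_cases b <;> first
        | rfl
        | (exfalso; simp [v] at hab; first
            | exact h0 _ hn2 hab
            | exact h0 _ hn3 hab
            | exact h0 _ hn2 hab.symm
            | exact h0 _ hn3 hab.symm
            | exact h23 hab
            | exact h23 hab.symm)
    have e := (hinner (v i) (hvB i) _ (hb i)).symm.trans (hco (v i))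
    rw [hS0, zero_mul, mul_zero, mul_zero, Finset.sum_eq_single i (fun j _ hj => if_neg fun h => hj (hinj h))
      (by simp), if_pos rfl] at e
    exact e.symm
  rw [Cfsg.blockRank, hspan, finrank_span_eq_card hli, Fintype.card_fin]

end Cfsg.Agent.S4512
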