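import Cfsg.Statements.S4633
import Cfsg.Agent.Lib.Blocks.CyclicNilpotent
import Cfsg.Agent.Lib.Blocks.ExtendedFirstMain

set_option autoImplicit false
open Cfsg

namespace Cfsg.Agent.S4633

open Cfsg.Lib.Blocks Cfsg.Lib.Characters
open scoped Classical

theorem result {G : Type*} [Group G] [Finite G] (p : ℕ) [Fact p.Prime] (M : Ideal Cfsg.AlgInt) (hM : Cfsg.IsPModular p M) (B : Set (Cfsg.IrrCharacter G)) (hB : Cfsg.IsPBlock M B) (P : Subgroup G) (hPD : Cfsg.IsDefectGroup p M B P) (hP1 : P ≠ ⊥) (hcyc : IsCyclic P) (c : Set (Cfsg.IrrCharacter (Subgroup.centralizer (P : Set G)))) (hc : Cfsg.IsInducedBlock M (Subgroup.centralizer (P : Set G)) c B) (T : Subgroup G) (hT : ∀ g : G, g ∈ T ↔ (g ∈ Subgroup.normalizer (P : Set G) ∧ Cfsg.StabilizesBlock (Subgroup.centralizer (P : Set G)) c g)) [hn : ((Subgroup.centralizer (P : Set G)).subgroupOf T).Normal] : IsCyclic (T ⧸ (Subgroup.centralizer (P : Set G)).subgroupOf T) ∧ (Subgroup.centralizer (P : Set G)).relIndex T ∣ p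 - 1 ∧ ∀ g ∈ T, ∀ x ∈ P, x ≠ 1 → g * x * g⁻¹ = x → g ∈ Subgroup.centralizer (P : Set G) := by
  haveI := hM.2.1.isPrime
  haveI := Fintype.ofFinite G
  have hP := isPGroup_defectGroup hPD
  have hpair : IsBrauerPairOf p M B P c := (isBrauerPairOf_iff hM).mpr ⟨hP, hc⟩
  have hmax := maximal_of_defect hM hpair hPD
  have hmem : ∀ g ∈ T, g ∈ pairStab M ⊤ P c := fun g hg =>
    mem_pairStab.mpr ⟨trivial, ((hT g).mp hg).1, (stabilizesBlock_iff_cjE hpair.1.2 ((hT g).mp hg).1).mp ((hT g).mp hg).2⟩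
  have hfree : ∀ g ∈ T, ∀ x ∈ P, x ≠ 1 → g * x * g⁻¹ = x → g ∈ Subgroup.centralizer (P : Set G) :=
    fun g hg x hx h1 hfix => mem_centralizer_of_fix hM hcyc hmax (hmem g hg) hx h1 hfix
  -- the subgroup of order `p`
  haveI : Nontrivial P := (Subgroup.nontrivial_iff_ne_bot P).mpr hP1
  obtain ⟨n, hn', hcard⟩ := hP.nontrivial_iff_card.mp inferInstance
  obtain ⟨z, hz⟩ := exists_prime_orderOf_dvd_card' (G := P) p (by rw [hcard]; exact dvd_pow_self p hn'.ne')
  set Z := Subgroup.zpowers (z : G)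
  have hZcard : Nat.card Z = p := by rw [Nat.card_zpowers, Subgroup.orderOf_coe, hz]
  haveI : Fact (Nat.card Z).Prime := ⟨hZcard ▸ Fact.out⟩
  haveI hZc : IsCyclic Z := isCyclic_of_prime_card (p := p) hZcard
  have hTZ : T ≤ Subgroup.normalizer (Z : Set G) := by
    intro g hg
    have hgN := ((hT g).mp hg).1
    obtain ⟨w, hw⟩ := hcyc.exists_generator
    have hmap : ∀ a ∈ Z, g * a * g⁻¹ ∈ Z := by
      intro a ha
      obtain ⟨i, hi⟩ := Subgroup.mem_zpowers_iff.mp (hw ⟨a, Subgroup.zpowers_le.mpr z.2 ha⟩)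
      obtain ⟨m, hm⟩ := Subgroup.mem_zpowers_iff.mp (hw ⟨_, (Subgroup.mem_normalizer_iff.mp hgN _).mp w.2⟩)
      have hi' : (w : G) ^ i = a := by simpa using congrArg Subtype.val hi
      have hm' : (w : G) ^ m = g * w * g⁻¹ := by simpa using congrArg Subtype.val hm
      rw [← hi', ← conj_zpow, ← hm', ← zpow_mul, mul_comm, zpow_mul, hi']
      exact zpow_mem ha m
    refine Subgroup.mem_normalizer_iff.mpr fun a => ⟨hmap a, fun ha => ?_⟩
    obtain ⟨b, hb⟩ := (Finite.injective_iff_surjective (f := fun a : Z => (⟨_, hmap a a.2⟩ : Z))).mp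
      (fun a b h => Subtype.ext (mul_left_cancel (mul_right_cancel (congrArg Subtype.val h)))) ⟨_, ha⟩
    have := mul_left_cancel (mul_right_cancel (congrArg Subtype.val hb))
    exact this ▸ b.2
  set f : T →* MulAut Z := (Subgroup.normalizerMonoidHom Z).comp (Subgroup.inclusion hTZ)
  have hker : f.ker = (Subgroup.centralizer (P : Set G)).subgroupOf T := by
    ext t
    rw [MonoidHom.mem_ker, Subgroup.mem_subgroupOf, MonoidHom.comp_apply, ← MonoidHom.mem_ker,
      Subgroup.normalizerMonoidHom_ker, Subgroup.mem_subgroupOf]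
    constructor
    · intro h
      refine hfree t t.2 z z.2 (fun h1 => ?_)
        (mul_inv_eq_iff_eq_mul.mpr (Subgroup.mem_centralizer_iff.mp h z (Subgroup.mem_zpowers _)).symm)
      have := congrArg orderOf h1
      rw [Subgroup.orderOf_coe, hz, orderOf_one] at this
      exact (Fact.out : p.Prime).ne_one this
    · intro h
      exact Subgroup.centralizer_le (SetLike.coe_subset_coe.mpr (Subgroup.zpowers_le.mpr z.2)) h
  haveI : Fact p.Prime := inferInstance
  haveI hA : IsCyclic (MulAut Z) := by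
    haveI : IsCyclic (ZMod (Nat.card Z))ˣ := ZMod.isCyclic_units_prime (Fact.out : (Nat.card Z).Prime)
    exact isCyclic_of_surjective (IsCyclic.mulAutMulEquiv Z).symm.toMonoidHom (IsCyclic.mulAutMulEquiv Z).symm.surjective
  refine ⟨?_, ?_, hfree⟩
  · haveI : IsCyclic f.range := Subgroup.isCyclic f.range
    exact isCyclic_of_surjective ((QuotientGroup.quotientMulEquivOfEq hker.symm).trans
      (QuotientGroup.quotientKerEquivRange f)).symm.toMonoidHom (MulEquiv.surjective _)
  · rw [Subgroup.relIndex, ← hker, Subgroup.index_ker]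
    refine (Subgroup.card_subgroup_dvd_card f.range).trans ?_
    rw [Nat.card_congr (IsCyclic.mulAutMulEquiv Z).toEquiv, Nat.card_eq_fintype_card, ZMod.card_units_eq_totient,
      hZcard, Nat.totient_prime Fact.out]

end Cfsg.Agent.S4633
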