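import Cfsg.Statements.S4636
import Mathlib
import Cfsg.Agent.Lib.Blocks.DefectZero

set_option autoImplicit false
open scoped Pointwise
open Cfsg

namespace Cfsg.Agent.S4636

/-- Let P be a nontrivial cyclic p-subgroup of the finite group G and Z its subgroup of order p. For every x outside N_G(Z), P meets its conjugate xPx⁻¹ trivially; consequently N_G(Q) ≤ N_G(Z) for every nontrivial subgroup Q of P. -/
theorem result {G : Type*} [Group G] [Finite G] (p : ℕ) [Fact p.Prime] (P : Subgroup G) (hP : IsPGroup p P) (hP1 : P ≠ ⊥) (hcyc : IsCyclic P) (Z : Subgroup G) (hZ : Z ≤ P) (hZcard : Nat.card Z = p) : (∀ x : G, x ∉ Subgroup.normalizer (Z : Set G) → P ⊓ MulAut.conj x • P = ⊥) ∧ ∀ Q : Subgroup G, Q ≤ P → Q ≠ ⊥ → Subgroup.normalizer (Q : Set G) ≤ Subgroup.normalizer (Z : Set G) := by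
  classical
  haveI := hcyc
  haveI : Fintype ↥P := Fintype.ofFinite _
  have huniq : ∀ H : Subgroup G, H ≤ P → Nat.card H = p → H = Z := by
    intro H hH hHc
    set T : Finset ↥P := Finset.univ.filter fun a => a ^ p = 1
    have hT : T.card ≤ p := IsCyclic.card_pow_eq_one_le (Fact.out : p.Prime).pos
    have hmem : ∀ K : Subgroup G, K ≤ P → Nat.card K = p → ∀ a : ↥P, (a : G) ∈ K ↔ a ∈ T := by
      intro K hK hKc
      set A : Finset ↥P := Finset.univ.filter fun a : ↥P => (a : G) ∈ K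
      have hsub : A ⊆ T := fun a ha => by
        simp only [A, T, Finset.mem_filter, Finset.mem_univ, true_and] at ha ⊢
        apply Subtype.ext
        have h := congrArg (fun z : ↥K => (z : G)) (pow_card_eq_one' (x := (⟨a, ha⟩ : ↥K)))
        simpa [hKc] using h
      have hA : A.card = p := by
        rw [← hKc, ← Nat.card_congr (Subgroup.subgroupOfEquivOfLe hK).toEquiv, Nat.card_eq_fintype_card,
          Fintype.card_subtype]
        rfl
      have hAT : A = T := Finset.eq_of_subset_of_card_le hsub (hA ▸ hT)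
      intro a
      rw [← hAT]
      simp [A]
    ext a
    exact ⟨fun ha => ((hmem Z hZ hZcard ⟨a, hH ha⟩).2 ((hmem H hH hHc ⟨a, hH ha⟩).1 ha)),
      fun ha => ((hmem H hH hHc ⟨a, hZ ha⟩).2 ((hmem Z hZ hZcard ⟨a, hZ ha⟩).1 ha))⟩
  have key : ∀ x : G, x ∉ Subgroup.normalizer (Z : Set G) → P ⊓ MulAut.conj x • P = ⊥ := by
    intro x hx
    by_contra hne
    have hp' : IsPGroup p ↥(P ⊓ MulAut.conj x • P) := hP.to_le inf_le_left
    obtain ⟨y, hy⟩ := exists_prime_orderOf_dvd_card' (G := ↥(P ⊓ MulAut.conj x • P)) p (by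
      haveI : Nontrivial ↥(P ⊓ MulAut.conj x • P) := Subgroup.nontrivial_iff_ne_bot _ |>.2 hne
      obtain ⟨n, hn0, hn⟩ := hp'.nontrivial_iff_card.1 inferInstance
      rw [hn]; exact dvd_pow_self p hn0.ne')
    set H := Subgroup.zpowers (y : G)
    have hHc : Nat.card H = p := by rw [Nat.card_zpowers, Subgroup.orderOf_coe, hy]
    have h1 : H = Z := huniq H (Subgroup.zpowers_le.2 y.2.1) hHc
    have h2 : (MulAut.conj x)⁻¹ • H = Z := by
      refine huniq _ ?_ ?_
      · rw [← inv_smul_smul (MulAut.conj x) P]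
        exact Subgroup.pointwise_smul_le_pointwise_smul_iff.2 (Subgroup.zpowers_le.2 y.2.2)
      · rw [← hHc, Nat.card_congr (Subgroup.equivSMul (MulAut.conj x)⁻¹ H).toEquiv.symm]
    rw [h1, inv_smul_eq_iff] at h2
    apply hx
    rw [Subgroup.mem_normalizer_iff]
    intro z
    conv_rhs => rw [h2]
    rw [Subgroup.mem_pointwise_smul_iff_inv_smul_mem, MulAut.smul_def, MulAut.inv_apply, MulAut.conj_symm_apply]
    simp [mul_assoc]
  refine ⟨key, fun Q hQ hQ1 n hn => ?_⟩
  by_contra hnZ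
  have h := key n hnZ
  apply hQ1
  rw [eq_bot_iff, ← h]
  refine le_inf hQ fun q hq => ?_
  rw [Subgroup.mem_pointwise_smul_iff_inv_smul_mem, MulAut.smul_def, MulAut.inv_apply, MulAut.conj_symm_apply]
  apply hQ
  rw [Subgroup.mem_normalizer_iff] at hn
  rw [hn]
  simpa [mul_assoc] using hq

end Cfsg.Agent.S4636
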