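import Cfsg.Statements.S4637
import Mathlib
import Cfsg.Agent.Lib.Blocks.KleinFour

set_option autoImplicit false
open Cfsg

namespace Cfsg.Agent.S4637

/-- Let B be a block of the finite group G relative to a maximal ideal M of the algebraic integers containing 2, with a Klein four defect group P. Let c be a block of C_G(P) inducing B, T the stabilizer of c in N_G(P) and e the index of C_G(P) in T (the inertial index). Then e is 1 or 3, B contains exactly four irreducible characters, and the 2-regular rank of B (its number of irreducible Brauer characters) equals e. -/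
theorem result {G : Type*} [Group G] [Finite G] (M : Ideal Cfsg.AlgInt) (hM : Cfsg.IsPModular 2 M) (B : Set (Cfsg.IrrCharacter G)) (hB : Cfsg.IsPBlock M B) (P : Subgroup G) (hPD : Cfsg.IsDefectGroup 2 M B P) (hV : IsKleinFour P) (c : Set (Cfsg.IrrCharacter (Subgroup.centralizer (P : Set G)))) (hc : Cfsg.IsInducedBlock M (Subgroup.centralizer (P : Set G)) c B) (T : Subgroup G) (hT : ∀ g : G, g ∈ T ↔ (g ∈ Subgroup.normalizer (P : Set G) ∧ Cfsg.StabilizesBlock (Subgroup.centralizer (P : Set G)) c g)) (e : ℕ) (he : (Subgroup.centralizer (P : Set G)).relIndex T = e) : (e = 1 ∨ e = 3) ∧ Nat.card B = 4 ∧ Cfsg.blockRank 2 B = e := by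
  haveI := hM.2.1.isPrime
  classical
  haveI := Fintype.ofFinite G
  haveI : Fact (Nat.Prime 2) := ⟨Nat.prime_two⟩
  open Cfsg.Lib.Blocks in
  · have hcp : IsBrauerPairOf 2 M B P c := (isBrauerPairOf_iff hM).mpr
      ⟨IsPGroup.of_card (n := 2) (by rw [hV.card_four]; norm_num), hc⟩
    have hmax := maximal_of_defect hM hcp hPD
    have hTeq : T = pairStab M ⊤ P c := by
      ext g
      rw [hT g, mem_pairStab]
      exact ⟨fun ⟨h1, h2⟩ => ⟨trivial, h1, (stabilizesBlock_iff_cjE hcp.1.2 h1).mp h2⟩,
        fun ⟨_, h1, h2⟩ => ⟨h1, (stabilizesBlock_iff_cjE hcp.1.2 h1).mpr h2⟩⟩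
    have hV2 : ∀ x ∈ P, x * x = 1 := fun x hx => by
      have h := Monoid.pow_exponent_eq_one (⟨x, hx⟩ : P)
      rw [hV.exponent_two, pow_two] at h
      exact congrArg Subtype.val h
    subst he
    rw [hTeq]
    exact klein_four_block hM hB hPD hV.card_four hV2 hmax

end Cfsg.Agent.S4637
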