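import Cfsg.Statements.S4645
import Cfsg.Agent.Lib.Blocks.CyclicNilpotent
import Cfsg.Agent.Lib.Blocks.ExtendedFirstMain
import Cfsg.Agent.Lib.Blocks.BlockFusion

set_option autoImplicit false
open Cfsg

namespace Cfsg.Agent.S4645

open Cfsg.Lib.Blocks Cfsg.Lib.Characters
open scoped Classical

theorem rank_one_of_cyclic' {G : Type*} [Group G] [Fintype G] {p : ℕ} [Fact p.Prime]
    {M : Ideal Cfsg.AlgInt} [M.IsPrime] (hM : Cfsg.IsPModular p M) {B : Set (Cfsg.IrrCharacter G)}
    {P : Subgroup G} (hcyc : IsCyclic P) {c : Set (Cfsg.IrrCharacter (Subgroup.centralizer (P : Set G)))}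
    (hmax : IsMaximalBrauerPair p M B P c)
    (hT : pairStab M ⊤ P c ≤ Subgroup.centralizer (P : Set G)) : blockRank p B = 1 := by
  obtain ⟨x, hx⟩ := (Subgroup.isCyclic_iff_exists_zpowers_eq_top P).mp hcyc
  subst hx
  exact (rank_one_of_cyclic hM hmax hT).1

/-- Let B be a block of the finite group G relative to a maximal ideal M of the algebraic integers containing the prime p, with a nontrivial cyclic defect group P; let c be a block of C_G(P) inducing B and T the stabilizer of c in N_G(P). Let Q be a nontrivial subgroup of P (so C_G(P) ≤ C_G(Q)), f the block of C_G(Q) induced by c inside C_G(Q), and T' the stabilizer of f in N_G(Q). Then T' = T·C_G(Q), the index of C_G(Q) in T' equals the index of C_G(P) in T, f has p-regular rank 1, and f is a nilpotent block of C_G(Q). -/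
theorem result {G : Type*} [Group G] [Finite G] (p : ℕ) [Fact p.Prime] (M : Ideal Cfsg.AlgInt) (hM : Cfsg.IsPModular p M) (B : Set (Cfsg.IrrCharacter G)) (hB : Cfsg.IsPBlock M B) (P : Subgroup G) (hPD : Cfsg.IsDefectGroup p M B P) (hP1 : P ≠ ⊥) (hcyc : IsCyclic P) (c : Set (Cfsg.IrrCharacter (Subgroup.centralizer (P : Set G)))) (hc : Cfsg.IsInducedBlock M (Subgroup.centralizer (P : Set G)) c B) (T : Subgroup G) (hT : ∀ g : G, g ∈ T ↔ (g ∈ Subgroup.normalizer (P : Set G) ∧ Cfsg.StabilizesBlock (Subgroup.centralizer (P : Set G)) c g)) (Q : Subgroup G) (hQP : Q ≤ P) (hQ1 : Q ≠ ⊥) (f : Set (Cfsg.IrrCharacter (Subgroup.centralizer (Q : Set G)))) (hf : Cfsg.IsInducedBlockIn M (Subgroup.centralizer (Q : Set G)) (Subgroup.centralizer (P : Set G)) c f) (T' : Subgroup G) (hT' : ∀ g : G, g ∈ T' ↔ (g ∈ Subgroup.normalizer (Q : Set G) ∧ Cfsg.StabilizesBlock (Subgroup.centralizer (Q : Set G)) f g)) : T' = T ⊔ Subgroup.centralizer (Q : Set G) ∧ (Subgroup.centralizer (Q : Set G)).relIndex T' = (Subgroup.centralizer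 (P : Set G)).relIndex T ∧ Cfsg.blockRank p f = 1 ∧ Cfsg.IsNilpotentBlock p M f := by
  haveI := hM.2.1.isPrime
  haveI := Fintype.ofFinite G
  have hab : ∀ a ∈ P, ∀ b ∈ P, a * b = b * a := fun a ha b hb => by
    letI : CommGroup P := hcyc.commGroup
    exact congrArg Subtype.val (mul_comm (⟨a, ha⟩ : P) ⟨b, hb⟩)
  have hpair : IsBrauerPairOf p M B P c := (isBrauerPairOf_iff hM).mpr ⟨isPGroup_defectGroup hPD, hc⟩
  have hmax := maximal_of_defect hM hpair hPD
  have hPQ : P ≤ Subgroup.centralizer (Q : Set G) := fun a ha =>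
    Subgroup.mem_centralizer_iff.mpr fun b hb => hab b (hQP hb) a ha
  have hCle : Subgroup.centralizer (P : Set G) ≤ Subgroup.centralizer (Q : Set G) := centralizer_le' hQP
  obtain ⟨f1, hf1, hle⟩ := exists_subpair hM hpair.1 hQP
  have hstep := isNormalSubpair_of_le hM hpair.1 hle (hPQ.trans (Subgroup.centralizer_le_normalizer _))
  -- the block induced inside the centralizer is the subpair
  have hff : f1 = f := by
    obtain ⟨ξ, hξ⟩ := IsPBlock.nonempty hpair.1.2
    obtain ⟨η1, hη1⟩ := IsPBlock.nonempty hf1.2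
    obtain ⟨η, hη⟩ := IsPBlock.nonempty hf.2.1
    refine IsPBlock.eq_of_mem hf1.2 hf.2.1 (IsPBlock.mem_of_sameBlock hf1.2 hη1 ?_) hη
    refine (Cfsg.Lib.Blocks.sameBlock_iff M η1 η).mpr fun h => ?_
    rw [← lam_classSum, ← lam_resSub_incSub hM hstep (isClassElt_classSum _ h)
      ((isStableUnder_incSub (isClassElt_classSum _ h)).mono hPQ) hξ hη1]
    set u := resSub (Subgroup.centralizer (P : Set G))
      (incSub (Subgroup.centralizer (Q : Set G)) (classSum ℂ h)) with hu
    have hloc : u ∈ locCenter (Subgroup.centralizer (P : Set G)) M := by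
      refine ⟨((isStableUnder_incSub (isClassElt_classSum ℂ h)).mono hCle).isClassElt_resSub, fun k => ?_⟩
      rw [hu, coeff_resSub, show (k : G) = ((⟨k, hCle k.2⟩ : Subgroup.centralizer (Q : Set G)) : G) from rfl,
        coeff_incSub_mem]
      exact isLoc_classSum M h _
    have homega : inducedCentralCharIn (Subgroup.centralizer (Q : Set G)) (Subgroup.centralizer (P : Set G))
        (ξ : Subgroup.centralizer (P : Set G) → ℂ) (h : G) = omega ξ u := by
      rw [inducedCentralCharIn, finsum_mem_def, finsum_eq_sum_of_fintype, omega, Finset.sum_div]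
      refine Finset.sum_congr rfl fun k _ => ?_
      rw [hu, coeff_resSub, show (k : G) = ((⟨k, hCle k.2⟩ : Subgroup.centralizer (Q : Set G)) : G) from rfl,
        coeff_incSub_mem, coeff_classSum]
      have hiff : IsConj h (⟨k, hCle k.2⟩ : Subgroup.centralizer (Q : Set G)) ↔
          ∃ x : Subgroup.centralizer (Q : Set G), (x : G) * (k : G) * (x : G)⁻¹ = (h : G) := by
        rw [isConj_comm, isConj_iff]
        exact exists_congr fun x => Subtype.ext_iff
      simp only [Set.indicator_apply, Set.mem_setOf_eq, hiff]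
      split_ifs <;> simp
    have hred : lam M ξ (resSub (Subgroup.centralizer (P : Set G))
        (incSub (Subgroup.centralizer (Q : Set G)) (classSum (ResF M) h))) = red M (omega ξ u) := by
      rw [← lam_redG M ξ hloc]
      congr 1
      refine gr_ext fun k => ?_
      rw [hu, coeff_resSub, coeff_redG, coeff_resSub,
        show (k : G) = ((⟨k, hCle k.2⟩ : Subgroup.centralizer (Q : Set G)) : G) from rfl,
        coeff_incSub_mem, coeff_incSub_mem, ← redG_classSum, coeff_redG]
    rw [hred, ← homega]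
    exact (memLocalIdeal_sub_iff (homega ▸ omega_mem_locRing M ξ hloc) (centralChar_mem_locRing M η h)).mp
      (hf.2.2 ξ hξ η hη h)
  subst hff
  have hTeq : T = pairStab M ⊤ P c := by
    ext g
    rw [hT, mem_pairStab]
    exact ⟨fun h => ⟨trivial, h.1, (stabilizesBlock_iff_cjE hpair.1.2 h.1).mp h.2⟩,
      fun h => ⟨h.2.1, (stabilizesBlock_iff_cjE hpair.1.2 h.2.1).mpr h.2.2⟩⟩
  have hT'eq : T' = pairStab M ⊤ Q f1 := by
    ext g
    rw [hT', mem_pairStab]
    exact ⟨fun h => ⟨trivial, h.1, (stabilizesBlock_iff_cjE hf1.2 h.1).mp h.2⟩,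
      fun h => ⟨h.2.1, (stabilizesBlock_iff_cjE hf1.2 h.2.1).mpr h.2.2⟩⟩
  obtain ⟨z, hzQ, hz1⟩ := Subgroup.bot_or_exists_ne_one Q |>.resolve_left hQ1
  obtain ⟨g, hg⟩ := hcyc.exists_generator
  have hnorm : ∀ y ∈ Subgroup.normalizer (P : Set G), y ∈ Subgroup.normalizer (Q : Set G) := by
    intro y hy
    haveI := Fintype.ofFinite Q
    have hmap : ∀ a ∈ Q, y * a * y⁻¹ ∈ Q := by
      intro a ha
      obtain ⟨i, hi⟩ := Subgroup.mem_zpowers_iff.mp (hg ⟨a, hQP ha⟩)
      obtain ⟨m, hm⟩ := Subgroup.mem_zpowers_iff.mp (hg ⟨_, (Subgroup.mem_normalizer_iff.mp hy _).mp g.2⟩)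
      have hi' : (g : G) ^ i = a := by simpa using congrArg Subtype.val hi
      have hm' : (g : G) ^ m = y * g * y⁻¹ := by simpa using congrArg Subtype.val hm
      rw [← hi', ← conj_zpow, ← hm', ← zpow_mul, mul_comm, zpow_mul, hi']
      exact zpow_mem ha m
    refine Subgroup.mem_normalizer_iff.mpr fun a => ⟨hmap a, fun ha => ?_⟩
    obtain ⟨b, hb⟩ := (Finite.injective_iff_surjective (f := fun a : Q => (⟨_, hmap a a.2⟩ : Q))).mp
      (fun a b h => Subtype.ext (mul_left_cancel (mul_right_cancel (congrArg Subtype.val h)))) ⟨_, ha⟩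
    have := mul_left_cancel (mul_right_cancel (congrArg Subtype.val hb))
    exact this ▸ b.2
  have hCT' : Subgroup.centralizer (Q : Set G) ≤ T' := hT'eq ▸ centralizer_le_pairStab Q f1
  have hTT' : T ≤ T' := by
    intro y hy
    rw [hTeq] at hy
    rw [hT'eq]
    have hyQ := hnorm y hy.2.1
    have hQy : Q.map (MulAut.conj y).toMonoidHom = Q := by
      ext a
      rw [mem_map_conj, Subgroup.mem_normalizer_iff.mp hyQ (y⁻¹ * a * y)]
      simp [mul_assoc]
    have h1 := subpairLE_congr_right (conjBlock_eq_self hpair.1.2 hy) (subpairLE_conj hM hle y)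
    obtain ⟨f2, hf2, hle2⟩ := exists_subpair hM hpair.1 hQP
    have key : ∀ (R : Subgroup G) (d : Set (IrrCharacter (Subgroup.centralizer (R : Set G)))), R = Q →
        SubpairLE p M R d P c → subE M R d = subE M Q f1 := by
      rintro R d rfl hd
      rw [subpair_unique hM hpair.1 hd hle]
    refine ⟨trivial, hyQ, ?_⟩
    rw [← subE_conjBlock hf1.2]
    exact key _ _ hQy h1
  have hsup : T' = T ⊔ Subgroup.centralizer (Q : Set G) := by
    refine le_antisymm (fun x hx => ?_) (sup_le hTT' hCT')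
    obtain ⟨F, hF⟩ := exists_blockFusionSystem hM hmax
    obtain ⟨y, hy, hyx⟩ := exists_extend_abelian hM hF hab hle (hT'eq ▸ hx)
    rw [← hTeq] at hy
    simpa using mul_mem (Subgroup.mem_sup_left (T := Subgroup.centralizer (Q : Set G)) hy)
      (Subgroup.mem_sup_right (S := T) hyx)
  have hinf : Subgroup.centralizer (Q : Set G) ⊓ T = Subgroup.centralizer (P : Set G) ⊓ T := by
    refine le_antisymm (fun y hy => ⟨mem_centralizer_of_fix hM hcyc hmax (hTeq ▸ hy.2) (hQP hzQ) hz1
      (mul_inv_eq_iff_eq_mul.mpr (Subgroup.mem_centralizer_iff.mp hy.1 z hzQ).symm), hy.2⟩)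
      (inf_le_inf_right _ hCle)
  refine ⟨hsup, ?_, ?_⟩
  · set C := Subgroup.centralizer (Q : Set G)
    set N := Subgroup.normalizer (C : Set G)
    have hTN : T ≤ N := fun y hy =>
      normalizer_le_normalizer_centralizer' Q (hnorm y ((hT y).mp hy).1)
    haveI : (C.subgroupOf N).Normal := Subgroup.normal_in_normalizer
    rw [hsup, ← Subgroup.relIndex_subgroupOf (sup_le hTN Subgroup.le_normalizer) (H := C),
      Subgroup.subgroupOf_sup hTN Subgroup.le_normalizer, Subgroup.relIndex_sup_right,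
      Subgroup.relIndex_subgroupOf hTN, ← Subgroup.inf_relIndex_right C, hinf, Subgroup.inf_relIndex_right]
  -- inside the centralizer
  have hD := isDefectGroup_centralizer_of_le hM hmax hle hPQ
  obtain ⟨d, hd⟩ := exists_maximal_of_defect hM hf1.2 hD
  have hcyc' : IsCyclic (P.subgroupOf (Subgroup.centralizer (Q : Set G))) := by
    haveI := hcyc
    exact isCyclic_of_surjective (Subgroup.subgroupOfEquivOfLe hPQ).symm.toMonoidHom
      (Subgroup.subgroupOfEquivOfLe hPQ).symm.surjective
  have hS : pairStab M ⊤ (P.subgroupOf (Subgroup.centralizer (Q : Set G))) d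
      ≤ Subgroup.centralizer ((P.subgroupOf (Subgroup.centralizer (Q : Set G)) : Subgroup _) : Set _) := by
    intro y hy
    refine mem_centralizer_of_fix hM hcyc' hd hy (z := ⟨z, hPQ (hQP hzQ)⟩)
      (Subgroup.mem_subgroupOf.mpr (hQP hzQ)) (fun h => hz1 (congrArg Subtype.val h)) (Subtype.ext ?_)
    exact mul_inv_eq_iff_eq_mul.mpr (Subgroup.mem_centralizer_iff.mp y.2 z hzQ).symm
  refine ⟨rank_one_of_cyclic' hM hcyc' hd hS, (nilpotent_abelian_iff hM hd fun a ha b hb => ?_).mpr hS⟩
  exact Subtype.ext (hab _ (Subgroup.mem_subgroupOf.mp ha) _ (Subgroup.mem_subgroupOf.mp hb))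

end Cfsg.Agent.S4645
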