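import Cfsg.Statements.S4646
import Cfsg.Agent.Lib.Blocks.Principal
import Cfsg.Agent.Lib.Blocks.Defect
import Cfsg.Agent.Lib.Transfer.Frobenius
import Cfsg.Prelude.Def_BrauerPairs
import Cfsg.Prelude.Def_BlockRank
-- import your own Cfsg.Agent.* helpers here

set_option autoImplicit false
open Cfsg

namespace Cfsg.Agent.S4646

open Cfsg.Lib.Blocks Cfsg.Lib.Characters Finset in
open scoped ComplexConjugate Classical in
/-- The principal block of a centralizer gives a Brauer pair of the principal block. -/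
theorem principal_pair {G : Type*} [Group G] [Fintype G] {p : ℕ} [Fact p.Prime]
    {M : Ideal Cfsg.AlgInt} [M.IsPrime] (hM : Cfsg.IsPModular p M) (Q : Subgroup G) (hQ : IsPGroup p Q) :
    Cfsg.IsBrauerPairOf p M (Cfsg.principalBlock M G) Q
      (Cfsg.principalBlock M (Subgroup.centralizer (Q : Set G))) := by
  refine ⟨⟨hQ, isPBlock_principal⟩, isPBlock_principal, ?_⟩
  intro ξ hξ
  let C := Subgroup.centralizer (Q : Set G)
  set β := blockE (Cfsg.principalBlock M G) with hβ
  have hloc : β ∈ locCenter G M := blockE_mem_locCenter isPBlock_principal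
  have hzc : resSub C β ∈ locCenter C M :=
    ⟨hloc.1.resSub C, fun c => by rw [coeff_resSub]; exact hloc.2 _⟩
  have hom : Cfsg.brauerOmega Q (blockCoeff (Cfsg.principalBlock M G)) (ξ : C → ℂ)
      = omega ξ (resSub C β) := by
    rw [Cfsg.brauerOmega, finsum_eq_sum_of_fintype, omega, Finset.sum_div]
    refine Finset.sum_congr rfl fun c _ => ?_
    rw [coeff_resSub, hβ, coeff_blockE]
  rw [hom, memLocalIdeal_sub_iff (omega_mem_locRing M ξ hzc) (one_mem _), ← lam_redG M ξ hzc,
    ← lam_eq_of_sameBlock M (show SameBlock M (trivChar C : C → ℂ) (ξ : C → ℂ) from hξ),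
    lam_redG M _ hzc, red_one]
  have h1 : red M (omega (trivChar G) β) = 1 := by
    rw [hβ, omega_blockE, if_pos trivChar_mem_principal, red_one]
  rw [← h1, omega, omega]
  simp only [trivChar_apply, mul_one, div_one, coeff_resSub]
  rw [red_sum _ fun c _ => hloc.2 _, red_sum _ fun g _ => hloc.2 g]
  let act : MulAction Q G := MulAction.compHom G ((MulAut.conj : G →* MulAut G).comp Q.subtype)
  have hact : ∀ (q : Q) (g : G), q • g = (q : G) * g * (q : G)⁻¹ := fun q g => rfl
  rw [sum_eq_sum_fixed (R := ResF M) hQ (red_p hM) (fun g => red M (β.coeff g))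
    (fun q g => by rw [hact, hloc.1])]
  refine Finset.sum_bij (fun c _ => (c : G)) (fun c _ => ?_) (fun a _ b _ h => Subtype.ext h)
    (fun g hg => ?_) (fun c _ => rfl)
  · refine Finset.mem_filter.mpr ⟨Finset.mem_univ _, fun q => ?_⟩
    rw [hact, Subgroup.mem_centralizer_iff.mp c.2 q q.2, mul_inv_cancel_right]
  · refine ⟨⟨g, Subgroup.mem_centralizer_iff.mpr fun q hq => ?_⟩, Finset.mem_univ _, rfl⟩
    have h2 := (Finset.mem_filter.mp hg).2 ⟨q, hq⟩
    rwa [hact, mul_inv_eq_iff_eq_mul] at h2

/-- For a finite group G, a prime p and a maximal ideal M of the algebraic integers containing p: the principal block of G is nilpotent if and only if its p-regular rank is 1 (the trivial Brauer character is its only irreducible Brauer character). -/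
theorem result {G : Type*} [Group G] [Finite G] (p : ℕ) [Fact p.Prime] (M : Ideal Cfsg.AlgInt) (hM : Cfsg.IsPModular p M) : Cfsg.IsNilpotentBlock p M (Cfsg.principalBlock M G) ↔ Cfsg.blockRank p (Cfsg.principalBlock M G) = 1 := by
  classical
  haveI := hM.2.1.isPrime
  letI := Fintype.ofFinite G
  have hF : Cfsg.IsPBlock M (Cfsg.principalBlock M G) := Cfsg.Lib.Blocks.isPBlock_principal
  obtain ⟨P⟩ := (Sylow.nonempty : Nonempty (Sylow p G))
  constructor
  · rintro ⟨-, hnil⟩
    have hfrob : Cfsg.Lib.Transfer.FrobeniusCond P := by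
      intro Q hQ g hg hco
      haveI := Fintype.ofFinite (Subgroup.centralizer (Q : Set G))
      refine hnil Q _ (principal_pair hM Q (P.isPGroup'.to_le hQ)) g hg ⟨?_, ?_⟩ ?_
      · rw [Subgroup.mem_normalizer_iff]
        intro c
        simp only [Subgroup.mem_centralizer_iff]
        constructor
        · intro hc q hq
          have h1 := hc (g⁻¹ * q * g) ((Subgroup.mem_normalizer_iff.mp hg _).mpr (by
            simpa [mul_assoc] using hq))
          calc q * (g * c * g⁻¹) = g * ((g⁻¹ * q * g) * c) * g⁻¹ := by group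
            _ = g * (c * (g⁻¹ * q * g)) * g⁻¹ := by rw [h1]
            _ = g * c * g⁻¹ * q := by group
        · intro hc q hq
          have h1 := hc (g * q * g⁻¹) ((Subgroup.mem_normalizer_iff.mp hg q).mp hq)
          calc q * c = g⁻¹ * ((g * q * g⁻¹) * (g * c * g⁻¹)) * g := by group
            _ = g⁻¹ * ((g * c * g⁻¹) * (g * q * g⁻¹)) * g := by rw [h1]
            _ = c * q := by group
      · intro χ hχ
        -- the conjugate character
        have hgN : ∀ k : Subgroup.centralizer (Q : Set G), g⁻¹ * (k : G) * g ∈ Subgroup.centralizer (Q : Set G) := by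
          intro k
          rw [Subgroup.mem_centralizer_iff]
          intro q hq
          have h1 := Subgroup.mem_centralizer_iff.mp k.2 (g * q * g⁻¹) ((Subgroup.mem_normalizer_iff.mp hg q).mp hq)
          calc q * (g⁻¹ * k * g) = g⁻¹ * ((g * q * g⁻¹) * k) * g := by group
            _ = g⁻¹ * ((k : G) * (g * q * g⁻¹)) * g := by rw [h1]
            _ = g⁻¹ * k * g * q := by group
        have hgN' : ∀ k : Subgroup.centralizer (Q : Set G), g * (k : G) * g⁻¹ ∈ Subgroup.centralizer (Q : Set G) := by
          intro k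
          rw [Subgroup.mem_centralizer_iff]
          intro q hq
          have h1 := Subgroup.mem_centralizer_iff.mp k.2 (g⁻¹ * q * g) ((Subgroup.mem_normalizer_iff.mp hg _).mpr (by
            simpa [mul_assoc] using hq))
          calc q * (g * k * g⁻¹) = g * ((g⁻¹ * q * g) * k) * g⁻¹ := by group
            _ = g * ((k : G) * (g⁻¹ * q * g)) * g⁻¹ := by rw [h1]
            _ = g * k * g⁻¹ * q := by group
        let f : Subgroup.centralizer (Q : Set G) ≃* Subgroup.centralizer (Q : Set G) :=
          { toFun := fun k => ⟨g⁻¹ * (k : G) * g, hgN k⟩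
            invFun := fun k => ⟨g * (k : G) * g⁻¹, hgN' k⟩
            left_inv := fun k => Subtype.ext (show g * (g⁻¹ * (k : G) * g) * g⁻¹ = k by group)
            right_inv := fun k => Subtype.ext (show g⁻¹ * (g * (k : G) * g⁻¹) * g = k by group)
            map_mul' := fun a b => Subtype.ext (show g⁻¹ * ((a : G) * b) * g = (g⁻¹ * a * g) * (g⁻¹ * b * g) by group) }
        refine ⟨⟨_, Cfsg.Lib.Characters.isIrrCharacter_comp_surjective χ.2 f.toMonoidHom f.surjective⟩,
          ?_, fun k k' hk => ?_⟩
        · intro c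
          have h1 := hχ (f c)
          rw [Cfsg.centralChar, Cfsg.centralChar] at h1 ⊢
          simp only [one_div, div_one, mul_one] at h1 ⊢
          have hidx : (Subgroup.centralizer ({c} : Set (Subgroup.centralizer (Q : Set G)))).index =
              (Subgroup.centralizer ({f c} : Set (Subgroup.centralizer (Q : Set G)))).index := by
            rw [← Subgroup.index_map_equiv (Subgroup.centralizer ({c} : Set (Subgroup.centralizer (Q : Set G)))) f,
              Subgroup.map_equiv_eq_comap_symm]
            congr 1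
            ext y
            rw [Subgroup.mem_comap, Subgroup.mem_centralizer_singleton_iff, Subgroup.mem_centralizer_singleton_iff]
            constructor
            · intro hh; simpa using congrArg f hh
            · intro hh; simpa using congrArg f.symm hh
          rw [hidx]
          simpa using h1
        · refine congrArg (χ : Subgroup.centralizer (Q : Set G) → ℂ) (Subtype.ext ?_)
          show g⁻¹ * (k' : G) * g = k
          rw [hk]; group
      · exact (Nat.Prime.coprime_iff_not_dvd Fact.out).mp hco.symm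
    obtain ⟨P', N, hN, hcompl⟩ := (Cfsg.Lib.Transfer.frobenius_iff P).mpr hfrob
    haveI := hN
    have hNp : ¬ p ∣ Nat.card N := by
      rw [← hcompl.index_eq_card]; exact P'.not_dvd_index
    have hreg : ∀ x : G, ¬ p ∣ orderOf x → x ∈ N := fun x hx =>
      (Cfsg.Lib.Transfer.mem_iff_coprime_of_complement (Cfsg.Lib.Transfer.coprime_card_of_isComplement' hcompl).1
        (Cfsg.Lib.Transfer.coprime_card_of_isComplement' hcompl).2.choose_spec x).mpr
        ((Nat.Prime.coprime_iff_not_dvd Fact.out).mpr hx).symm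
    have hker : ∀ χ ∈ Cfsg.principalBlock M G, ∀ x, ¬ p ∣ orderOf x →
        (χ : G → ℂ) x = (χ : G → ℂ) 1 := fun χ hχ x hx =>
      Cfsg.Lib.Blocks.principal_ker hM N hNp hχ x (hreg x hx)
    rw [Cfsg.blockRank]
    have hspan : Submodule.span ℂ ((fun χ : Cfsg.IrrCharacter G => Cfsg.pRegularPart p (χ : G → ℂ)) ''
        Cfsg.principalBlock M G) = Submodule.span ℂ {Cfsg.pRegularPart p (fun _ : G => (1 : ℂ))} := by
      refine le_antisymm (Submodule.span_le.mpr ?_) (Submodule.span_mono ?_)
      · rintro _ ⟨χ, hχ, rfl⟩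
        refine Submodule.mem_span_singleton.mpr ⟨(χ : G → ℂ) 1, funext fun x => ?_⟩
        by_cases hx : Cfsg.IsPRegular p x
        · simp [Cfsg.pRegularPart, hx, hker χ hχ x hx]
        · simp [Cfsg.pRegularPart, hx]
      · rintro _ rfl
        exact ⟨Cfsg.Lib.Blocks.trivChar G, Cfsg.Lib.Blocks.trivChar_mem_principal, rfl⟩
    rw [hspan, finrank_span_singleton]
    intro h0
    have := congrFun h0 1
    simp [Cfsg.pRegularPart, Cfsg.IsPRegular, (Fact.out : p.Prime).ne_one] at this
  · intro hrk
    refine ⟨hF, fun Q e he x hx _ hreg => ?_⟩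
    set V := Submodule.span ℂ ((fun χ : Cfsg.IrrCharacter G => Cfsg.pRegularPart p (χ : G → ℂ)) ''
      Cfsg.principalBlock M G)
    have hmem : ∀ χ ∈ Cfsg.principalBlock M G, Cfsg.pRegularPart p (χ : G → ℂ) ∈ V := fun χ hχ =>
      Submodule.subset_span ⟨χ, hχ, rfl⟩
    set u : G → ℂ := Cfsg.pRegularPart p (fun _ : G => (1 : ℂ)) with hu
    have hu0 : u ≠ 0 := fun h0 => by
      have := congrFun h0 1
      simp [hu, Cfsg.pRegularPart, Cfsg.IsPRegular, (Fact.out : p.Prime).ne_one] at this
    have hker : ∀ χ ∈ Cfsg.principalBlock M G, ∀ y, ¬ p ∣ orderOf y →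
        (χ : G → ℂ) y = (χ : G → ℂ) 1 := by
      intro χ hχ y hy
      have hv : (⟨u, hmem _ Cfsg.Lib.Blocks.trivChar_mem_principal⟩ : V) ≠ 0 :=
        fun h0 => hu0 (congrArg Subtype.val h0)
      obtain ⟨c, hc⟩ := (finrank_eq_one_iff_of_nonzero' _ hv).mp hrk ⟨_, hmem χ hχ⟩
      have h1 := congrArg (fun v : V => (v : G → ℂ) y) hc
      have h2 := congrArg (fun v : V => (v : G → ℂ) 1) hc
      have h1r : Cfsg.IsPRegular p (1 : G) := by simp [Cfsg.IsPRegular, (Fact.out : p.Prime).ne_one]
      simp [hu, Cfsg.pRegularPart, h1r, show Cfsg.IsPRegular p y from hy] at h1 h2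
      rw [← h1, ← h2]
    rw [Subgroup.mem_centralizer_iff]
    intro q hq
    have hqQ : q * x * q⁻¹ * x⁻¹ ∈ Q := by
      rw [mul_assoc, mul_assoc, ← mul_assoc x]
      exact Q.mul_mem hq ((Subgroup.mem_normalizer_iff.mp hx _).mp (Q.inv_mem hq))
    by_contra hne
    have hne1 : q * x * q⁻¹ * x⁻¹ ≠ 1 := fun h1 => hne (by
      rw [mul_inv_eq_one, mul_inv_eq_iff_eq_mul] at h1; exact h1)
    obtain ⟨k, hk⟩ := IsPGroup.iff_orderOf.mp he.1.1 ⟨_, hqQ⟩
    rw [Subgroup.orderOf_mk] at hk
    have hpd : p ∣ orderOf (q * x * q⁻¹ * x⁻¹) := by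
      rcases k with - | k
      · exact absurd (orderOf_eq_one_iff.mp (by simpa using hk)) hne1
      · rw [hk]; exact dvd_pow_self p k.succ_ne_zero
    -- it lies in the kernel of the block
    have hall : ∀ χ ∈ Cfsg.principalBlock M G, (χ : G → ℂ) (q * x * q⁻¹ * x⁻¹) = (χ : G → ℂ) 1 := by
      intro χ hχ
      have hkx : (χ : G → ℂ) x = (χ : G → ℂ) 1 := hker χ hχ x hreg
      haveI := Cfsg.Lib.Characters.charKer_normal χ.2.isCharacter
      exact (Cfsg.Lib.Characters.mem_charKer χ.2.isCharacter).mp
        ((Cfsg.Lib.Characters.charKer χ.2.isCharacter).mul_mem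
          (Subgroup.Normal.conj_mem inferInstance x ((Cfsg.Lib.Characters.mem_charKer _).mpr hkx) q)
          ((Cfsg.Lib.Characters.charKer χ.2.isCharacter).inv_mem ((Cfsg.Lib.Characters.mem_charKer _).mpr hkx)))
    have h1r : ¬ p ∣ orderOf (1 : G) := by simpa using (Fact.out : p.Prime).ne_one
    have h0 := Cfsg.Lib.Blocks.kerB_eq_zero_of_regular hM hF h1r hpd
    rw [Cfsg.Lib.Blocks.kerB] at h0
    rw [Finset.sum_congr rfl fun (χ : Cfsg.IrrCharacter G) _ => show
        (if χ ∈ Cfsg.principalBlock M G then (χ : G → ℂ) 1 * (χ : G → ℂ) (q * x * q⁻¹ * x⁻¹)⁻¹ else 0)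
        = ((if χ ∈ Cfsg.principalBlock M G then Complex.normSq ((χ : G → ℂ) 1) else 0 : ℝ) : ℂ) by
      split_ifs with hχ
      · rw [Cfsg.Lib.Characters.char_inv_eq_conj χ.2.isCharacter, hall χ hχ, Complex.mul_conj]
      · simp] at h0
    rw [← Complex.ofReal_sum, Complex.ofReal_eq_zero] at h0
    have h2 := (Finset.sum_eq_zero_iff_of_nonneg fun χ _ => by
      split_ifs
      · exact Complex.normSq_nonneg _
      · exact le_rfl).mp h0 (Cfsg.Lib.Blocks.trivChar G) (Finset.mem_univ _)
    rw [if_pos Cfsg.Lib.Blocks.trivChar_mem_principal] at h2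
    simp at h2

end Cfsg.Agent.S4646
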