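import Cfsg.Statements.S4652
import Mathlib
import Cfsg.Agent.Lib.Blocks.Subpairs

set_option autoImplicit false
open Cfsg

namespace Cfsg.Agent.S4652

/-- Fix a prime p and a maximal ideal M of the algebraic integers containing p. The defect groups of the principal p-block of a finite group G are exactly the Sylow p-subgroups of G: a subgroup D is a defect group of the principal block if and only if D is a Sylow p-subgroup. -/
theorem result {G : Type*} [Group G] [Fintype G] (p : ℕ) [Fact p.Prime] (M : Ideal Cfsg.AlgInt) (hM : Cfsg.IsPModular p M) (D : Subgroup G) : Cfsg.IsDefectGroup p M (Cfsg.principalBlock M G) D ↔ ∃ S : Sylow p G, (S : Subgroup G) = D := by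
  haveI := hM.2.1.isPrime
  classical
  open Cfsg.Lib.Blocks in
  · have hB : Cfsg.IsPBlock M (Cfsg.principalBlock M G) := isPBlock_principal
    have hbr : ∀ S : Sylow p G, BrNe (S : Subgroup G) (bIdem M (Cfsg.principalBlock M G)) := by
      intro S
      by_contra hh
      have h1 := Cfsg.Lib.PrincipalPairs.red_sum_centralizer hM S.2
        (Cfsg.blockCoeff (Cfsg.principalBlock M G)) (blockCoeff_mem_locRing hB)
        (fun x _ g => by simpa using isClassElt_blockE (Cfsg.principalBlock M G) x g)
      rw [red_sum (Finset.univ : Finset (Subgroup.centralizer ((S : Subgroup G) : Set G)))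
          (f := fun c => Cfsg.blockCoeff (Cfsg.principalBlock M G) (c : G)) (fun c _ => blockCoeff_mem_locRing hB _),
        Finset.sum_eq_zero (fun (c : Subgroup.centralizer ((S : Subgroup G) : Set G)) _ => by_contra fun hne => hh ⟨c, c.2, by rwa [coeff_bIdem]⟩)] at h1
      have h2 := omega_blockE (Cfsg.principalBlock M G) (trivChar G)
      rw [if_pos trivChar_mem_principal, omega] at h2
      simp only [trivChar_apply, mul_one, div_one, coeff_blockE] at h2
      rw [h2, red_one] at h1
      exact zero_ne_one h1
    constructor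
    · intro hD
      obtain ⟨S, hS⟩ := (isPGroup_defectGroup hD).exists_le_sylow
      obtain ⟨x, hx⟩ := (brNe_bIdem_iff hM hB hD S.2).mp (hbr S)
      refine ⟨S, le_antisymm ?_ hS⟩
      have h3 := Subgroup.card_le_of_le hx
      rw [card_conjSub] at h3
      exact (Subgroup.eq_of_le_of_card_ge hS h3).ge
    · rintro ⟨S, rfl⟩
      obtain ⟨D, hD⟩ := exists_defectGroup hM hB
      obtain ⟨x, hx⟩ := (brNe_bIdem_iff hM hB hD S.2).mp (hbr S)
      obtain ⟨S', hS'⟩ := (isPGroup_defectGroup hD).exists_le_sylow
      have h4 : conjSub x (S : Subgroup G) = D := by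
        refine Subgroup.eq_of_le_of_card_ge hx ?_
        rw [card_conjSub, S.card_eq_multiplicity, ← S'.card_eq_multiplicity]
        exact Subgroup.card_le_of_le hS'
      have h5 := Cfsg.Lib.Blocks.IsDefectGroup.conjSub hB (h4 ▸ hD) x⁻¹
      rwa [conjSub_conjSub, inv_mul_cancel, conjSub_one] at h5

end Cfsg.Agent.S4652
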