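import Cfsg.Statements.S4654
import Mathlib
import Cfsg.Agent.Lib.Blocks.NormalPSubgroup

set_option autoImplicit false
open Cfsg

namespace Cfsg.Agent.S4654

/-- Fix a prime p and a maximal ideal M of the algebraic integers containing p. Let P be a normal p-subgroup of the finite group G, B a p-block of G and e a p-block of C_G(P) such that (P, e) is a Brauer pair of B (as P is normal, this says that e occurs in the idempotent of B, which is supported on C_G(P)). Let T be the stabilizer of e in G under conjugation. Then the idempotent of e is a block idempotent of T: some block E of T has, at every element of T, the same idempotent coefficient as e (zero off C_G(P)); and the idempotent of B is the sum of the distinct G-conjugates of the idempotent of e: its coefficient at g is the sum over all x in G of the coefficient of e at x⁻¹ g x, divided by the order of T. -/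
theorem result {G : Type*} [Group G] [Fintype G] (p : ℕ) [Fact p.Prime] (M : Ideal Cfsg.AlgInt) (hM : Cfsg.IsPModular p M) (P : Subgroup G) [P.Normal] (hP : IsPGroup p P) (B : Set (Cfsg.IrrCharacter G)) (e : Set (Cfsg.IrrCharacter (Subgroup.centralizer (P : Set G)))) (hBe : Cfsg.IsBrauerPairOf p M B P e) (T : Subgroup G) (hT : ∀ x : G, x ∈ T ↔ Cfsg.StabilizesBlock (Subgroup.centralizer (P : Set G)) e x) : (∃ E : Set (Cfsg.IrrCharacter T), Cfsg.IsPBlock M E ∧ ∀ t : T, Cfsg.blockCoeff E t = Cfsg.subgroupBlockCoeff (Subgroup.centralizer (P : Set G)) e (t : G)) ∧ ∀ g : G, Cfsg.blockCoeff B g = (Nat.card T : ℂ)⁻¹ * ∑ x : G, Cfsg.subgroupBlockCoeff (Subgroup.centralizer (P : Set G)) e (x⁻¹ * g * x) := by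
  haveI := hM.2.1.isPrime
  classical
  open Cfsg.Lib.Blocks in
  · have hN : ∀ x : G, x ∈ Subgroup.normalizer (P : Set G) := fun x => by
      rw [Subgroup.normalizer_eq_top]; exact Subgroup.mem_top x
    have hT' : T = pairStab M ⊤ P e := eq_pairStab hBe.1.2 fun y => by
      rw [hT y]; exact ⟨fun h => ⟨hN y, h⟩, fun h => h.2⟩
    subst hT'
    obtain ⟨E, hE, hcoe, -⟩ := exists_block_stab hM hBe.1 (centralizer_le_pairStab P e)
      (le_pairStab_self le_top e) le_rfl
    exact ⟨⟨E, hE, hcoe⟩, fun g => blockCoeff_eq_average hM hP hBe g⟩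

end Cfsg.Agent.S4654
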