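import Cfsg.Statements.S4657
import Mathlib
import Cfsg.Agent.Lib.Blocks.Subpairs

set_option autoImplicit false
open Cfsg

namespace Cfsg.Agent.S4657

/-- Fix a prime p and a maximal ideal M of the algebraic integers containing p. Every Brauer pair (P, e) of the finite group G is a Brauer pair of exactly one p-block B of G. -/
theorem result {G : Type*} [Group G] [Fintype G] (p : ℕ) [Fact p.Prime] (M : Ideal Cfsg.AlgInt) (hM : Cfsg.IsPModular p M) (P : Subgroup G) (e : Set (Cfsg.IrrCharacter (Subgroup.centralizer (P : Set G)))) (hPe : Cfsg.IsBrauerPair p M P e) : ∃! B : Set (Cfsg.IrrCharacter G), Cfsg.IsBrauerPairOf p M B P e := by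
  haveI := hM.2.1.isPrime
  classical
  open Cfsg.Lib.Blocks in
  · obtain ⟨B, hB⟩ := inducedBlockDefined_centralizer hM hPe.1 hPe.2
    refine ⟨B, (isBrauerPairOf_iff hM).mpr ⟨hPe.1, hB⟩, fun B' hB' => ?_⟩
    obtain ⟨ξ, hξ⟩ := IsPBlock.nonempty hPe.2
    have h1 := lam_resSub_resSub_eq hB hξ hB'.2.1
    rw [lam_resSub_resSub_eq ((isBrauerPairOf_iff hM).mp hB').2 hξ hB'.2.1, if_pos rfl] at h1
    by_contra hne
    rw [if_neg hne] at h1
    exact one_ne_zero h1

end Cfsg.Agent.S4657
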