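import Cfsg.Statements.S4661
import Mathlib
import Cfsg.Agent.Lib.Blocks.SubpairLocal

set_option autoImplicit false
open Cfsg

namespace Cfsg.Agent.S4661

/-- Fix a prime p and a maximal ideal M of the algebraic integers containing p. Let (P, e) be a maximal Brauer pair of the p-block B of the finite group G, Q ≤ P, and f the p-block of C_G(Q) with (Q, f) ≤ (P, e). Then C_P(Q) is contained in a defect group of f (as a block of the group C_G(Q)); and for some x in G the conjugate pair (x Q x⁻¹, conjugate of f) again lies below (P, e) and C_P(x Q x⁻¹) is a defect group of the conjugate of f in C_G(x Q x⁻¹). -/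
theorem result {G : Type*} [Group G] [Fintype G] (p : ℕ) [Fact p.Prime] (M : Ideal Cfsg.AlgInt) (hM : Cfsg.IsPModular p M) (B : Set (Cfsg.IrrCharacter G)) (P Q : Subgroup G) (e : Set (Cfsg.IrrCharacter (Subgroup.centralizer (P : Set G)))) (f : Set (Cfsg.IrrCharacter (Subgroup.centralizer (Q : Set G)))) (hmax : Cfsg.IsMaximalBrauerPair p M B P e) (hQP : Q ≤ P) (hf : Cfsg.IsPBlock M f) (hle : Cfsg.SubpairLE p M Q f P e) : (∃ D : Subgroup (Subgroup.centralizer (Q : Set G)), Cfsg.IsDefectGroup p M f D ∧ (P ⊓ Subgroup.centralizer (Q : Set G)).subgroupOf (Subgroup.centralizer (Q : Set G)) ≤ D) ∧ ∃ x : G, Cfsg.SubpairLE p M (Q.map (MulAut.conj x).toMonoidHom) (Cfsg.conjBlock Q x f) P e ∧ Cfsg.IsDefectGroup p M (Cfsg.conjBlock Q x f) ((P ⊓ Subgroup.centralizer ((Q.map (MulAut.conj x).toMonoidHom) : Set G)).subgroupOf (Subgroup.centralizer ((Q.map (MulAut.conj x).toMonoidHom) : Set G))) := by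
  haveI := hM.2.1.isPrime
  classical
  open Cfsg.Lib.Blocks in
  · have hfB : Cfsg.IsBrauerPairOf p M B Q f := (isBrauerPairOf_of_subpairLE hM hmax.1.1 hle).mpr hmax.1
    refine ⟨?_, ?_⟩
    · obtain ⟨D, hD⟩ := exists_defectGroup hM hf
      have hS : P ⊓ Subgroup.centralizer (Q : Set G) ≤ Subgroup.centralizer (Q : Set G) := inf_le_right
      have hbr := (brNe_subgroupOf_iff hS (fun _ hg => coeff_subE_notMem Q f hg) (bIdem_eq_subE (M := M) Q f)).mpr
        (brNe_centralizer_of_le hM hmax.1.1 hle)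
      obtain ⟨x, hx⟩ := (brNe_bIdem_iff hM hf hD
        ((hmax.1.1.1.to_le inf_le_left).comap_of_injective _ (Subgroup.subtype_injective _))).mp hbr
      exact ⟨conjSub x⁻¹ D, Cfsg.Lib.Blocks.IsDefectGroup.conjSub hf hD x⁻¹, conjSub_le_iff.mp hx⟩
    · obtain ⟨x, hx, hD, -⟩ := exists_conj_brMax_centralizer hM hmax hfB
      exact ⟨x, hx, (isDefectGroup_centralizer_iff hM (isPBlock_conjBlock hf x) inf_le_right).mpr hD⟩

end Cfsg.Agent.S4661
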