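import Cfsg.Statements.S4662
import Mathlib
import Cfsg.Agent.Lib.Blocks.SubpairLocal

set_option autoImplicit false
open Cfsg

namespace Cfsg.Agent.S4662

/-- Fix a prime p and a maximal ideal M of the algebraic integers containing p. Let (P, e) be a maximal Brauer pair of the p-block B of the finite group G, Q ≤ P, and f the p-block of C_G(Q) with (Q, f) ≤ (P, e). Let T be the stabilizer of f in N_G(Q). Then the idempotent of f is a block idempotent of T, and N_P(Q) is contained in a defect group of that block of T; moreover for some x in G the conjugate pair (x Q x⁻¹, conjugate of f) again lies below (P, e) and, with T' the stabilizer of the conjugate of f in N_G(x Q x⁻¹), N_P(x Q x⁻¹) is a defect group of the block of T' whose idempotent is that of the conjugate of f. -/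
theorem result {G : Type*} [Group G] [Fintype G] (p : ℕ) [Fact p.Prime] (M : Ideal Cfsg.AlgInt) (hM : Cfsg.IsPModular p M) (B : Set (Cfsg.IrrCharacter G)) (P Q : Subgroup G) (e : Set (Cfsg.IrrCharacter (Subgroup.centralizer (P : Set G)))) (f : Set (Cfsg.IrrCharacter (Subgroup.centralizer (Q : Set G)))) (hmax : Cfsg.IsMaximalBrauerPair p M B P e) (hQP : Q ≤ P) (hf : Cfsg.IsPBlock M f) (hle : Cfsg.SubpairLE p M Q f P e) (T : Subgroup G) (hT : ∀ y : G, y ∈ T ↔ y ∈ Subgroup.normalizer (Q : Set G) ∧ Cfsg.StabilizesBlock (Subgroup.centralizer (Q : Set G)) f y) : (∃ F : Set (Cfsg.IrrCharacter T), Cfsg.IsPBlock M F ∧ (∀ t : T, Cfsg.blockCoeff F t = Cfsg.subgroupBlockCoeff (Subgroup.centralizer (Q : Set G)) f (t : G)) ∧ ∃ D : Subgroup T, Cfsg.IsDefectGroup p M F D ∧ (P ⊓ Subgroup.normalizer (Q : Set G)).subgroupOf T ≤ D) ∧ ∃ x : G, Cfsg.SubpairLE p M (Q.map (MulAut.conj x).toMonoidHom) (Cfsg.conjBlock Q x f) P e ∧ ∀ (T' : Subgroup G), (∀ y : G, y ∈ T' ↔ y ∈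 Subgroup.normalizer ((Q.map (MulAut.conj x).toMonoidHom) : Set G) ∧ Cfsg.StabilizesBlock (Subgroup.centralizer ((Q.map (MulAut.conj x).toMonoidHom) : Set G)) (Cfsg.conjBlock Q x f) y) → ∃ F' : Set (Cfsg.IrrCharacter T'), Cfsg.IsPBlock M F' ∧ (∀ t : T', Cfsg.blockCoeff F' t = Cfsg.subgroupBlockCoeff (Subgroup.centralizer ((Q.map (MulAut.conj x).toMonoidHom) : Set G)) (Cfsg.conjBlock Q x f) (t : G)) ∧ Cfsg.IsDefectGroup p M F' ((P ⊓ Subgroup.normalizer ((Q.map (MulAut.conj x).toMonoidHom) : Set G)).subgroupOf T') := by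
  haveI := hM.2.1.isPrime
  classical
  open Cfsg.Lib.Blocks in
  · have hfB : Cfsg.IsBrauerPairOf p M B Q f := (isBrauerPairOf_of_subpairLE hM hmax.1.1 hle).mpr hmax.1
    have hTe : T = pairStab M ⊤ Q f := eq_pairStab hf hT
    refine ⟨?_, ?_⟩
    · obtain ⟨F, hF, hFc, hFb⟩ := exists_block_stab hM hfB.1 (hTe ▸ centralizer_le_pairStab Q f)
        (hTe ▸ le_pairStab_self (le_top : Q ≤ ⊤) f) hTe.le
      obtain ⟨h1, h2⟩ := le_pairStab_of_le hM hmax.1.1 hle
      have hS : P ⊓ Subgroup.normalizer (Q : Set G) ≤ T := hTe ▸ h1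
      obtain ⟨D, hD⟩ := exists_defectGroup hM hF
      have ha : ∀ g, g ∉ T → (subE M Q f).coeff g = 0 := fun g hg =>
        coeff_subE_notMem Q f fun h => hg (hTe ▸ centralizer_le_pairStab Q f h)
      obtain ⟨x, hx⟩ := (brNe_bIdem_iff hM hF hD
        ((hmax.1.1.1.to_le inf_le_left).comap_of_injective _ (Subgroup.subtype_injective _))).mp
        ((brNe_subgroupOf_iff hS ha hFb).mpr h2)
      exact ⟨F, hF, hFc, conjSub x⁻¹ D, Cfsg.Lib.Blocks.IsDefectGroup.conjSub hF hD x⁻¹,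
        conjSub_le_iff.mp hx⟩
    · obtain ⟨x, hx, hD, -⟩ := exists_conj_brMax_stab hM hmax hfB
      refine ⟨x, hx, fun T' hT' => ?_⟩
      have hf' := isBrauerPair_conj hfB.1 x
      obtain rfl : T' = pairStab M ⊤ (Q.map (MulAut.conj x).toMonoidHom) (Cfsg.conjBlock Q x f) :=
        eq_pairStab hf'.2 hT'
      obtain ⟨F', hF', hF'c, -⟩ := exists_block_stab hM hf' (centralizer_le_pairStab _ _)
        (le_pairStab_self (le_top : Q.map (MulAut.conj x).toMonoidHom ≤ ⊤) _) le_rfl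
      exact ⟨F', hF', hF'c, (isDefectGroup_stab_iff hM (centralizer_le_pairStab _ _) hF' hF'c hD.2.1).mpr hD⟩

end Cfsg.Agent.S4662
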