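import Cfsg.Statements.S4664
import Cfsg.Agent.Lib.Blocks.Defect
import Cfsg.Agent.Lib.Blocks.Galois

set_option autoImplicit false
open Cfsg
open Cfsg.Lib.Characters Cfsg.Lib.Blocks
open scoped BigOperators ComplexConjugate

namespace Cfsg.Agent.S4664


/-- Fix a prime p and a maximal ideal M of the algebraic integers containing p, and let B be a p-block of the finite group G. Let m be the p'-part of the order of G and η = exp(2πi/m). Then every coefficient of the idempotent of B lies in the cyclotomic field ℚ(η). -/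
theorem result {G : Type*} [Group G] [Fintype G] (p : ℕ) [Fact p.Prime] (M : Ideal Cfsg.AlgInt) (hM : Cfsg.IsPModular p M) (B : Set (Cfsg.IrrCharacter G)) (hB : Cfsg.IsPBlock M B) (g : G) : Cfsg.blockCoeff B g ∈ IntermediateField.adjoin ℚ ({Complex.exp (2 * Real.pi * Complex.I / ((Nat.card G / p ^ (Nat.card G).factorization p : ℕ) : ℂ))} : Set ℂ) := by
  classical
  haveI := hM.2.1.isPrime
  set m := Nat.card G / p ^ (Nat.card G).factorization p with hm
  by_cases hg : p ∣ orderOf g
  · rw [blockCoeff_eq_zero_of_singular hM hB hg]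
    exact zero_mem _
  have hm0 : m ≠ 0 := (Nat.ordCompl_pos p Nat.card_pos.ne').ne'
  have hord : orderOf g ∣ m :=
    (((Fact.out : p.Prime).coprime_iff_not_dvd.mpr hg).pow_left _).symm.dvd_of_dvd_mul_left
      ((Nat.ordProj_mul_ordCompl_eq_self (Nat.card G) p).symm ▸ orderOf_dvd_natCard g)
  have hle : rootField m ≤ IntermediateField.adjoin ℚ ({Complex.exp (2 * Real.pi * Complex.I / (m : ℂ))} : Set ℂ) := by
    rw [rootField]
    refine IntermediateField.adjoin_le_iff.mpr fun z hz => ?_
    haveI : NeZero m := ⟨hm0⟩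
    obtain ⟨i, -, rfl⟩ := (Complex.isPrimitiveRoot_exp m hm0).eq_pow_of_pow_eq_one hz
    exact pow_mem (IntermediateField.subset_adjoin ℚ _ (Set.mem_singleton _)) i
  refine hle ?_
  rw [blockCoeff, finsum_mem_def, finsum_eq_sum_of_fintype]
  refine mul_mem (inv_mem (natCast_mem _ _)) (sum_mem fun χ _ => ?_)
  by_cases hχ : χ ∈ B
  · rw [Set.indicator_of_mem hχ, ← char_inv_eq_conj χ.2.isCharacter]
    exact mul_mem (char_mem_rootField χ.2.isCharacter 1 (by simp))
      (char_mem_rootField χ.2.isCharacter g⁻¹ (by rw [orderOf_inv]; exact hord))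
  · rw [Set.indicator_of_notMem hχ]
    exact zero_mem _

end Cfsg.Agent.S4664
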