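import Cfsg.Statements.S4665
import Mathlib
import Cfsg.Agent.Lib.Blocks.RegInner

set_option autoImplicit false
open Cfsg

namespace Cfsg.Agent.S4665

/-- Fix a prime p, a maximal ideal M of the algebraic integers containing p, and a p-block B of the finite group G, and let p^a be the p-part of the order of G. Let χ be an integer combination of the irreducible characters in B. If the function that agrees with χ on p-regular elements and vanishes on p-singular elements is again an integer combination of the irreducible characters in B, then p^a divides χ(1). -/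
theorem result {G : Type*} [Group G] [Fintype G] (p : ℕ) [Fact p.Prime] (M : Ideal Cfsg.AlgInt) (hM : Cfsg.IsPModular p M) (B : Set (Cfsg.IrrCharacter G)) (hB : Cfsg.IsPBlock M B) (χ : G → ℂ) (hχ : (∃ n : Cfsg.IrrCharacter G → ℤ, ∀ g : G, χ g = ∑ᶠ ψ ∈ B, (n ψ : ℂ) * (ψ : G → ℂ) g)) (h0 : (∃ n : Cfsg.IrrCharacter G → ℤ, ∀ g : G, Cfsg.pRegularPart p χ g = ∑ᶠ ψ ∈ B, (n ψ : ℂ) * (ψ : G → ℂ) g)) : ∃ k : ℤ, χ 1 = (p ^ (Nat.card G).factorization p : ℂ) * k := by
  haveI := hM.2.1.isPrime
  classical
  obtain ⟨n, hn⟩ := hχ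
  obtain ⟨m, hm⟩ := h0
  have hgen : Cfsg.IsGeneralizedCharacter G (Cfsg.pRegularPart p χ) := by
    have he : Cfsg.pRegularPart p χ = ∑ ψ : Cfsg.IrrCharacter G,
        ((if ψ ∈ B then m ψ else 0 : ℤ) : ℂ) • (ψ : G → ℂ) := by
      funext g
      rw [hm g, Finset.sum_apply, finsum_mem_def, finsum_eq_sum_of_fintype]
      refine Finset.sum_congr rfl fun ψ _ => ?_
      rw [Set.indicator_apply, Pi.smul_apply, smul_eq_mul]
      split_ifs <;> simp
    rw [he]
    exact Finset.sum_induction _ (Cfsg.IsGeneralizedCharacter G)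
      (fun _ _ => Cfsg.Lib.Characters.isGeneralized_add)
      (Cfsg.Lib.Characters.isGeneralized_of_isCharacter Cfsg.Lib.Characters.isCharacter_zero)
      fun ψ _ => Cfsg.Lib.Characters.isGeneralized_zsmul
        (Cfsg.Lib.Characters.isGeneralized_of_isCharacter ψ.2.isCharacter) _
  obtain ⟨P⟩ := (inferInstance : Nonempty (Sylow p G))
  obtain ⟨k, hk⟩ := Cfsg.Lib.Characters.classInner_int
    (Cfsg.Lib.Characters.isGeneralized_comp hgen (P : Subgroup G).subtype)
    (Cfsg.Lib.Characters.isGeneralized_of_isCharacter (G := (P : Subgroup G))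
      Cfsg.Lib.Characters.isCharacter_one)
  refine ⟨k, ?_⟩
  rw [Cfsg.classInner, Finset.sum_eq_single (1 : (P : Subgroup G))] at hk
  · rw [map_one, map_one, mul_one, inv_mul_eq_iff_eq_mul₀
      (Nat.cast_ne_zero.mpr Nat.card_pos.ne'), P.card_eq_multiplicity] at hk
    have h1 : Cfsg.pRegularPart p χ (1 : G) = χ 1 := by
      simp [Cfsg.pRegularPart, Cfsg.IsPRegular, (Fact.out : p.Prime).ne_one]
    rw [h1] at hk
    rw [hk]; push_cast; ring
  · intro g _ hg
    obtain ⟨j, hj⟩ := IsPGroup.iff_orderOf.mp P.2 g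
    have : Cfsg.pRegularPart p χ ((P : Subgroup G).subtype g) = 0 := by
      have hd : p ∣ orderOf (g : G) := by
        rw [Subgroup.orderOf_coe, hj]
        refine dvd_pow_self p fun h0 => hg ?_
        rw [← orderOf_eq_one_iff, hj, h0, pow_zero]
      have hd' : p ∣ orderOf ((P : Subgroup G).subtype g) := hd
      have hnr : ¬ Cfsg.IsPRegular p ((P : Subgroup G).subtype g) := fun h => h hd'
      unfold Cfsg.pRegularPart
      exact if_neg hnr
    rw [this, zero_mul]
  · simp

end Cfsg.Agent.S4665
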