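import Cfsg.Statements.S4666
import Mathlib
import Cfsg.Agent.Lib.Blocks.RegInner

set_option autoImplicit false
open Cfsg

namespace Cfsg.Agent.S4666

/-- Fix a prime p and a maximal ideal M of the algebraic integers containing p, and a p-block B of the finite group G of defect d. For every integer combination χ of the irreducible characters in B, p^d times the function that agrees with χ on p-regular elements and vanishes elsewhere is again an integer combination of the irreducible characters in B. -/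
theorem result {G : Type*} [Group G] [Fintype G] (p : ℕ) [Fact p.Prime] (M : Ideal Cfsg.AlgInt) (hM : Cfsg.IsPModular p M) (B : Set (Cfsg.IrrCharacter G)) (hB : Cfsg.IsPBlock M B) (χ : G → ℂ) (hχ : (∃ n : Cfsg.IrrCharacter G → ℤ, ∀ g : G, χ g = ∑ᶠ ψ ∈ B, (n ψ : ℂ) * (ψ : G → ℂ) g)) : (∃ n : Cfsg.IrrCharacter G → ℤ, ∀ g : G, (p ^ Cfsg.blockDefect p B : ℂ) * Cfsg.pRegularPart p χ g = ∑ᶠ ψ ∈ B, (n ψ : ℂ) * (ψ : G → ℂ) g) := by
  haveI := hM.2.1.isPrime
  classical
  obtain ⟨n, hn⟩ := hχ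
  have hp0 : (p : ℂ) ≠ 0 := Nat.cast_ne_zero.mpr (Fact.out : p.Prime).ne_zero
  refine ⟨fun ψ => ∑ φ ∈ Finset.univ.filter (· ∈ B), n φ * Cfsg.Lib.Blocks.blockC p B φ ψ, fun g => ?_⟩
  have hφ : ∀ φ ∈ B, (if p ∣ orderOf g then (0 : ℂ)
      else (p ^ Cfsg.blockDefect p B : ℂ) * (φ : G → ℂ) g)
      = ∑ ψ ∈ Finset.univ.filter (· ∈ B), (Cfsg.Lib.Blocks.blockC p B φ ψ : ℂ) * (ψ : G → ℂ) g := by
    intro φ hφ
    have hle := (Cfsg.Lib.Blocks.inf_le_factorization p hφ).trans
      (Cfsg.Lib.Blocks.charDegree_factorization_le φ)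
    have h := congrFun (Cfsg.Lib.Characters.classFunction_expansion
      (Cfsg.Lib.Blocks.isClassFunction_regular p (p ^ Cfsg.blockDefect p B : ℂ) φ.2.isClassFunction)) g
    rw [h, Finset.sum_apply, ← Finset.sum_subset (Finset.subset_univ (Finset.univ.filter (· ∈ B)))]
    · refine Finset.sum_congr rfl fun ψ _ => ?_
      rw [Pi.smul_apply, smul_eq_mul, Cfsg.Lib.Blocks.classInner_regular_irr,
        Cfsg.Lib.Blocks.blockC_spec hM hB hφ ψ]
      push_cast
      congr 1
      rw [← mul_assoc, div_mul_eq_mul_div, ← pow_add, Cfsg.blockDefect, Nat.sub_add_cancel hle,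
        div_self (pow_ne_zero _ hp0), one_mul]
    · intro ψ _ hψ
      rw [Pi.smul_apply, smul_eq_mul, Cfsg.Lib.Blocks.classInner_regular_irr,
        Cfsg.Lib.Blocks.regN_eq_zero hM fun hs => hψ (Finset.mem_filter.mpr ⟨Finset.mem_univ _,
          Cfsg.Lib.Blocks.IsPBlock.mem_of_sameBlock hB hφ hs⟩)]
      simp
  have hfin : ∀ f : Cfsg.IrrCharacter G → ℂ,
      ∑ᶠ ψ ∈ B, f ψ = ∑ ψ ∈ Finset.univ.filter (· ∈ B), f ψ := fun f =>
    finsum_mem_eq_finite_toFinset_sum f B.toFinite |>.trans (Finset.sum_congr (by ext; simp) fun _ _ => rfl)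
  simp only [hfin, Cfsg.pRegularPart, Cfsg.IsPRegular, ite_not, hn g]
  push_cast
  simp only [Finset.sum_mul, mul_assoc]
  rw [Finset.sum_comm]
  simp only [← Finset.mul_sum]
  refine Eq.trans ?_ (Finset.sum_congr rfl fun φ hφm =>
    congrArg ((n φ : ℂ) * ·) (hφ φ (Finset.mem_filter.mp hφm).2))
  split_ifs
  · simp
  · rw [Finset.mul_sum]; exact Finset.sum_congr rfl fun φ _ => by ring

end Cfsg.Agent.S4666
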