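import Cfsg.Statements.S4667
import Mathlib
import Cfsg.Agent.Lib.Blocks.Rank

set_option autoImplicit false
open Cfsg

namespace Cfsg.Agent.S4667

/-- Fix a prime p and a maximal ideal M of the algebraic integers containing p, and a p-block B of the finite group G. The p-regular rank of B (the number of irreducible Brauer characters in B) times the order of G equals the sum over the p-regular elements x of G of Σ_{χ ∈ B} χ(x) χ(x⁻¹) (written with the restriction of χ to p-regular elements, which vanishes at p-singular x). -/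
theorem result {G : Type*} [Group G] [Fintype G] (p : ℕ) [Fact p.Prime] (M : Ideal Cfsg.AlgInt) (hM : Cfsg.IsPModular p M) (B : Set (Cfsg.IrrCharacter G)) (hB : Cfsg.IsPBlock M B) : (Nat.card G : ℂ) * (Cfsg.blockRank p B : ℂ) = ∑ x : G, ∑ᶠ χ ∈ B, Cfsg.pRegularPart p (χ : G → ℂ) x * (χ : G → ℂ) x⁻¹ := by
  haveI := hM.2.1.isPrime
  classical
  rw [Cfsg.Lib.Blocks.card_mul_blockRank hM hB]
  refine Finset.sum_congr rfl fun x _ => ?_
  simp only [Cfsg.Lib.Blocks.pRegularPart_apply]
  by_cases hx : p ∣ orderOf x
  · simp [hx]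
  · rw [if_neg hx, Cfsg.Lib.Blocks.kerB_eq_finsum]
    simp [hx]

end Cfsg.Agent.S4667
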