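import Cfsg.Statements.S4668
import Mathlib
import Cfsg.Agent.Lib.Blocks.NormalPSubgroup
import Cfsg.Agent.Lib.Solv.Coprime2

set_option autoImplicit false
open Cfsg

namespace Cfsg.Agent.S4668

/-- Fix a prime p and a maximal ideal M of the algebraic integers containing p. Let Q₀ < Q₁ < ⋯ < Q_m be a strictly increasing chain of p-subgroups of the finite group G and N the intersection of their normalizers. Then every block idempotent of N is supported on C_G(Q_m): for every p-block E of N, the idempotent coefficient of E vanishes at every element of N outside C_G(Q_m). -/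
theorem result {G : Type*} [Group G] [Fintype G] (p : ℕ) [Fact p.Prime] (M : Ideal Cfsg.AlgInt) (hM : Cfsg.IsPModular p M) (m : ℕ) (Q : Fin (m + 1) → Subgroup G) (hQ : StrictMono Q) (hQp : ∀ i, IsPGroup p (Q i)) (N : Subgroup G) (hN : ∀ g : G, g ∈ N ↔ ∀ i, g ∈ Subgroup.normalizer (Q i : Set G)) (E : Set (Cfsg.IrrCharacter N)) (hE : Cfsg.IsPBlock M E) (n : N) (hn : (n : G) ∉ Subgroup.centralizer (Q (Fin.last m) : Set G)) : Cfsg.blockCoeff E n = 0 := by
  haveI := hM.2.1.isPrime
  classical
  by_contra hne
  apply hn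
  set R := Q (Fin.last m) ⊓ N with hR
  haveI : (R.subgroupOf N).Normal := by
    refine ⟨fun r hr x => ?_⟩
    have h1 : (r : G) ∈ Q (Fin.last m) := (Subgroup.mem_inf.mp hr).1
    refine Subgroup.mem_inf.mpr ⟨?_, (x * r * x⁻¹).2⟩
    exact ((Subgroup.mem_normalizer_iff.mp ((hN x).mp x.2 (Fin.last m))) (r : G)).mp h1
  have hRp : IsPGroup p (R.subgroupOf N) :=
    ((hQp (Fin.last m)).to_le inf_le_left).comap_of_injective N.subtype N.subtype_injective
  have hnR : ∀ r ∈ R, r * (n : G) = (n : G) * r := by
    have h := by_contra fun h => hne (Cfsg.Lib.Blocks.blockCoeff_eq_zero_of_notMem hM hRp hE h)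
    intro r hr
    exact congrArg Subtype.val (Subgroup.mem_centralizer_iff.mp h ⟨r, hr.2⟩ hr)
  have hreg : ¬ p ∣ orderOf (n : G) := fun h =>
    hne (Cfsg.Lib.Blocks.blockCoeff_eq_zero_of_singular hM hE (by rwa [Subgroup.orderOf_coe] at h))
  have hcop : (Nat.card (Subgroup.zpowers (n : G))).Coprime p := by
    rw [Nat.card_zpowers]
    exact ((Nat.Prime.coprime_iff_not_dvd Fact.out).mpr hreg).symm
  have hkey : ∀ k : Fin (m + 1), (n : G) ∈ Subgroup.centralizer (Q k : Set G) := by
    intro k
    induction k using Fin.induction with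
    | zero =>
      refine Subgroup.mem_centralizer_iff.mpr fun q hq => hnR q ⟨hQ.monotone (Fin.zero_le _) hq, ?_⟩
      exact (hN q).mpr fun i => Subgroup.le_normalizer (hQ.monotone (Fin.zero_le i) hq)
    | succ k ih =>
      have hle : Q k.castSucc ≤ Q k.succ := hQ.monotone (Fin.castSucc_le_succ k)
      refine Cfsg.Lib.Solv.thompson_PxQ (Q k.castSucc) (Subgroup.zpowers (n : G)) (Q k.succ)
        (hQp _) hcop (hQp _) ?_ (hle.trans Subgroup.le_normalizer) ?_ ?_ (Subgroup.mem_zpowers _)
      · exact Subgroup.le_centralizer_iff.1 (Subgroup.zpowers_le.mpr ih)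
      · exact Subgroup.zpowers_le.mpr ((hN n).mp n.2 _)
      · rintro c ⟨hc1, hc2⟩
        have hcN : c ∈ N := (hN c).mpr fun i => by
          rcases le_or_gt i k.castSucc with h | h
          · exact Subgroup.centralizer_le_normalizer _
              (Subgroup.centralizer_le (SetLike.coe_subset_coe.mpr (hQ.monotone h)) hc2)
          · exact Subgroup.le_normalizer (hQ.monotone (Fin.castSucc_lt_iff_succ_le.mp h) hc1)
        rw [Subgroup.mem_centralizer_iff]
        rintro _ ⟨j, rfl⟩
        have h : Commute c (n : G) := hnR c ⟨hQ.monotone (Fin.le_last _) hc1, hcN⟩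
        exact (h.zpow_right j).eq.symm
  exact hkey _

end Cfsg.Agent.S4668
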