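import Cfsg.Statements.S4669
import Cfsg.Agent.Lib.Blocks.CentralProduct
import Cfsg.Agent.Lib.Blocks.KleinFour

set_option autoImplicit false
open Cfsg

namespace Cfsg.Agent.S4669

open Cfsg.Lib.Blocks Cfsg.Lib.Characters
open scoped Classical

theorem result {G : Type*} [Group G] [Fintype G] (p : ℕ) [Fact p.Prime] (M : Ideal Cfsg.AlgInt) (hM : Cfsg.IsPModular p M) (B : Set (Cfsg.IrrCharacter G)) (hB : Cfsg.IsPBlock M B) (P : Subgroup G) (hD : Cfsg.IsDefectGroup p M B P) (hPZ : P ≤ Subgroup.center G) : Cfsg.blockRank p B = 1 := by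
  haveI := hM.2.1.isPrime
  haveI : P.Normal := ⟨fun a ha g => by rwa [Subgroup.mem_center_iff.mp (hPZ ha) g, mul_inv_cancel_right]⟩
  have htop : P ⊔ Subgroup.centralizer (P : Set G) = ⊤ :=
    top_le_iff.mp fun g _ => Subgroup.mem_sup_right (Subgroup.mem_centralizer_iff.mpr fun a ha =>
      (Subgroup.mem_center_iff.mp (hPZ ha) g).symm)
  refine le_antisymm ?_ (one_le_blockRank (IsPBlock.nonempty hB))
  obtain ⟨θ, -, -, hbase⟩ := exists_base hM htop hB hD
  unfold blockRank
  refine le_trans (Submodule.finrank_mono (t := Submodule.span ℂ {pRegularPart p (θ : G → ℂ)}) ?_)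
    ((finrank_span_le_card _).trans (by simp))
  refine Submodule.span_le.mpr ?_
  rintro _ ⟨χ, hχ, rfl⟩
  refine Submodule.mem_span_singleton.mpr ⟨(χ : G → ℂ) 1 / (θ : G → ℂ) 1, ?_⟩
  funext y
  simp only [Pi.smul_apply, smul_eq_mul, pRegularPart_apply]
  split_ifs with h
  · exact mul_zero _
  · rw [div_mul_eq_mul_div, ← hbase χ hχ y h, mul_div_assoc, div_self θ.2.one_ne_zero, mul_one]

end Cfsg.Agent.S4669
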