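import Cfsg.Statements.S4671
import Cfsg.Agent.Lib.Blocks.CoveringDefect

set_option autoImplicit false
open Cfsg

namespace Cfsg.Agent.S4671

open Cfsg.Lib.Blocks Cfsg.Lib.Characters Finset
open scoped Classical

theorem result {G : Type*} [Group G] [Fintype G] (p : ℕ) [Fact p.Prime] (M : Ideal Cfsg.AlgInt) (hM : Cfsg.IsPModular p M) (N : Subgroup G) [N.Normal] [Fintype N] (B : Set (Cfsg.IrrCharacter G)) (hB : Cfsg.IsPBlock M B) (P : Subgroup G) (hP : Cfsg.IsDefectGroup p M B P) : ∃ c : Set (Cfsg.IrrCharacter N), Cfsg.IsPBlock M c ∧ (∀ x ∈ P, Cfsg.StabilizesBlock N c x) ∧ (∃ χ ∈ B, ∃ θ ∈ c, Cfsg.classInner (fun n : N => (χ : G → ℂ) n) (θ : N → ℂ) ≠ 0) ∧ Cfsg.IsDefectGroup p M c ((P ⊓ N).subgroupOf N) := by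
  haveI := hM.2.1.isPrime
  obtain ⟨χ, hχ⟩ := IsPBlock.nonempty hB
  obtain ⟨θ, hc⟩ := exists_res_constituent (N := N) χ
  set b := blockOf M (θ : N → ℂ) with hbdef
  have hb : IsPBlock M b := ⟨θ, rfl⟩
  have hθ : θ ∈ b := mem_blockOf_self M θ
  have hU := cjStable_cjUnion (G := G) b
  have hbu := isBlockUnion_cjUnion (G := G) hb
  set U := cjUnion (G := G) b with hUdef
  have hz := incSub_blockE_mem (M := M) hU hbu
  set E := redG M (incSub N (blockE U)) with hE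
  have hPp := isPGroup_defectGroup hP
  obtain ⟨d, hdC, hdne⟩ := brNe_of_lam_ne_zero hM hB hχ (isClassElt_redG M hz.1 : IsClassElt E) (by
    rw [lam_redG M χ hz, omega_incSub_blockE hU χ θ hc, if_pos (subset_cjUnion b hθ), red_one]
    exact one_ne_zero) hPp (brNe_defectGroup hP)
  have hdN : d ∈ N := by
    by_contra h'
    exact hdne (by rw [coeff_redG, coeff_incSub_notMem _ _ h', red_zero])
  set dN : N := ⟨d, hdN⟩
  rw [coeff_redG, show d = (dN : G) from rfl, coeff_incSub_mem, coeff_blockE, blockCoeff_union hbu,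
    red_sum _ fun b' hb' => blockCoeff_mem_locRing (mem_blocks.mp (Finset.mem_filter.mp hb').1) dN] at hdne
  let Bl := {b' : Set (IrrCharacter N) // b' ∈ (blocks N M).filter (· ⊆ U)}
  have hclosed : ∀ (g : G) (b' : Set (IrrCharacter N)), b' ∈ (blocks N M).filter (· ⊆ U) →
      pullBlock (MulAut.conjNormal g : N ≃* N).symm b' ∈ (blocks N M).filter (· ⊆ U) := by
    intro g b' hb'
    obtain ⟨h1, h2⟩ := Finset.mem_filter.mp hb'
    refine Finset.mem_filter.mpr ⟨mem_blocks.mpr (isPBlock_pull _ (mem_blocks.mp h1)), fun ψ hψ => ?_⟩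
    have h3 : cjIrr ψ g ∈ U := h2 hψ
    have h4 := hU g⁻¹ _ h3
    rwa [cjIrr_cjIrr, mul_inv_cancel, cjIrr_one] at h4
  letI : MulAction P Bl :=
    { smul := fun g b' => ⟨pullBlock (MulAut.conjNormal (g : G) : N ≃* N).symm b'.1, hclosed g b'.1 b'.2⟩
      one_smul := fun b' => Subtype.ext (Set.ext fun ψ => by
        show cjIrr ψ ((1 : P) : G) ∈ b'.1 ↔ ψ ∈ b'.1
        rw [Subgroup.coe_one, cjIrr_one])
      mul_smul := fun g h b' => Subtype.ext (Set.ext fun ψ => by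
        show cjIrr ψ ((g * h : P) : G) ∈ b'.1 ↔ cjIrr (cjIrr ψ (g : G)) (h : G) ∈ b'.1
        rw [cjIrr_cjIrr, Subgroup.coe_mul]) }
  have hsmul : ∀ (g : P) (b' : Bl) (ψ : IrrCharacter N), ψ ∈ (g • b').1 ↔ cjIrr ψ (g : G) ∈ b'.1 :=
    fun g b' ψ => Iff.rfl
  obtain ⟨⟨c, hcU⟩, hfix, hcd⟩ : ∃ b' : Bl, (∀ g : P, g • b' = b') ∧ red M (blockCoeff b'.1 dN) ≠ 0 := by
    by_contra hh
    push Not at hh
    refine hdne ?_
    rw [Finset.sum_subtype ((blocks N M).filter (· ⊆ U)) (fun _ => Iff.rfl) (fun b' => red M (blockCoeff b' dN))]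
    rw [sum_eq_sum_fixed (R := ResF M) hPp (red_p hM) (fun b' : Bl => red M (blockCoeff b'.1 dN)) fun g b' => ?_]
    · exact Finset.sum_eq_zero fun b' hb' => hh b' (Finset.mem_filter.mp hb').2
    · show red M (blockCoeff (pullBlock (MulAut.conjNormal (g : G) : N ≃* N).symm b'.1) dN) = _
      rw [← coeff_bIdem, ← coeff_bIdem, bIdem_pull _ (mem_blocks.mp (Finset.mem_filter.mp b'.2).1), coeff_pullElt]
      congr 1
      apply Subtype.ext
      simp only [MulAut.conjNormal_symm_apply]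
      rw [mul_assoc, ← Subgroup.mem_centralizer_iff.mp hdC g g.2, inv_mul_cancel_left]
  obtain ⟨hcB, hcU'⟩ := Finset.mem_filter.mp hcU
  have hcblock := mem_blocks.mp hcB
  obtain ⟨ψ, hψ⟩ := IsPBlock.nonempty hcblock
  obtain ⟨g, hg⟩ := hcU' hψ
  have hθ' : cjIrr θ g⁻¹ ∈ c := by
    refine IsPBlock.mem_of_sameBlock hcblock hψ ?_
    have h := sameBlock_cjIrr (IsPBlock.sameBlock hb hg hθ) g⁻¹
    rwa [cjIrr_cjIrr, mul_inv_cancel, cjIrr_one] at h
  have hcov : classInner (fun n : N => (χ : G → ℂ) n) (cjIrr θ g⁻¹ : N → ℂ) ≠ 0 := by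
    rwa [classInner_res_cjIrr]
  refine ⟨c, hcblock, fun x hx => ⟨?_, fun η hη => ⟨cjIrr η x⁻¹, ?_, fun k k' hk => ?_⟩⟩,
    ⟨χ, hχ, _, hθ', hcov⟩, ?_⟩
  · exact Subgroup.normalizer_eq_top (H := N) ▸ Subgroup.mem_top x
  · have h1 := congrArg Subtype.val (hfix ⟨x⁻¹, inv_mem hx⟩)
    have h2 : η ∈ ((⟨x⁻¹, inv_mem hx⟩ : P) • (⟨c, hcU⟩ : Bl)).1 := h1.symm ▸ hη
    exact (hsmul _ _ η).mp h2
  · rw [coe_cjIrr, conjFn_apply]
    exact congrArg (η : N → ℂ) (Subtype.ext (show x⁻¹ * (k' : G) * x⁻¹⁻¹ = k by rw [hk]; group))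
  -- the defect group
  obtain ⟨D, hD⟩ := exists_defectGroup hM hcblock
  have hDN : D.map N.subtype ≤ N := Subgroup.map_subtype_le _
  have hDmap : (D.map N.subtype).subgroupOf N = D :=
    Subgroup.comap_map_eq_self_of_injective N.subtype_injective D
  obtain ⟨P₂, hP₂, hinf⟩ := exists_defectGroup_inf_eq hM hB hcblock hDN (by rwa [hDmap]) hχ hθ' hcov
  obtain ⟨y, hy⟩ := defectGroup_conj hM hB hP hP₂
  have hcard : Nat.card D = Nat.card (P ⊓ N : Subgroup G) := by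
    rw [← Subgroup.card_map_of_injective (f := N.subtype) N.subtype_injective, ← hinf, ← hy,
      ← card_conjSub y (P ⊓ N)]
    congr 2
    ext a
    simp only [Subgroup.mem_inf, mem_conjSub]
    exact and_congr_right fun _ => ⟨fun h => by simpa [mul_assoc] using ‹N.Normal›.conj_mem a h y⁻¹,
      fun h => by simpa [mul_assoc] using ‹N.Normal›.conj_mem _ h y⟩
  have hbr : BrNe (P ⊓ N : Subgroup G) (incSub N (bIdem M c)) := by
    refine ⟨(dN : G), Subgroup.centralizer_le (SetLike.coe_subset_coe.mpr inf_le_left) hdC, ?_⟩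
    rw [coeff_incSub_mem, coeff_bIdem]
    exact hcd
  have hR : IsPGroup p ((P ⊓ N).subgroupOf N) :=
    (hPp.to_le inf_le_left).of_equiv (Subgroup.subgroupOfEquivOfLe inf_le_right).symm
  obtain ⟨n, hn⟩ := (brNe_bIdem_iff hM hcblock hD hR).mp
    ((brNe_subgroupOf_iff inf_le_right (fun a ha => coeff_incSub_notMem _ _ ha)
      fun t => (coeff_incSub_mem _ _ t).symm).mpr hbr)
  have hn' : conjSub n ((P ⊓ N).subgroupOf N) = D := by
    refine Subgroup.eq_of_le_of_card_ge hn ?_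
    rw [card_conjSub, card_subgroupOf inf_le_right, hcard]
  have h := IsDefectGroup.conjSub hcblock (hn' ▸ hD) n⁻¹
  rwa [conjSub_conjSub, inv_mul_cancel, conjSub_one] at h

end Cfsg.Agent.S4671
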