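import Cfsg.Statements.S4672
import Cfsg.Agent.Lib.Blocks.AbelianCovering

set_option autoImplicit false
open Cfsg

namespace Cfsg.Agent.S4672

open Cfsg.Lib.Blocks Cfsg.Lib.Characters Finset
open scoped Classical

theorem result {G : Type*} [Group G] [Fintype G] (p : ℕ) [Fact p.Prime] (M : Ideal Cfsg.AlgInt) (hM : Cfsg.IsPModular p M) (N : Subgroup G) [N.Normal] (hN : ∃ k : ℕ, N.index = p ^ k) (c : Set (Cfsg.IrrCharacter N)) (hc : Cfsg.IsPBlock M c) (hst : ∀ x : G, Cfsg.StabilizesBlock N c x) : (∃ B : Set (Cfsg.IrrCharacter G), Cfsg.IsPBlock M B ∧ ∀ g : G, Cfsg.blockCoeff B g = Cfsg.subgroupBlockCoeff N c g) ∧ ∀ B : Set (Cfsg.IrrCharacter G), Cfsg.IsPBlock M B → (∀ g : G, Cfsg.blockCoeff B g = Cfsg.subgroupBlockCoeff N c g) → ∀ P : Subgroup G, Cfsg.IsDefectGroup p M B P → N ⊔ P = ⊤ ∧ Cfsg.IsDefectGroup p M c ((P ⊓ N).subgroupOf N) := by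
  haveI := hM.2.1.isPrime
  haveI := Fintype.ofFinite N
  obtain ⟨k, hk⟩ := hN
  have hU : CjStable (G := G) c := by
    have h := cjStable_cjUnion (G := G) c
    rwa [cjUnion_eq_of_stable hst] at h
  have hcoeff : ∀ g : G, subgroupBlockCoeff N c g = (incSub N (blockE c)).coeff g := by
    intro g
    rw [subgroupBlockCoeff]
    by_cases hg : g ∈ N
    · rw [dif_pos hg]
      conv_rhs => rw [show g = ((⟨g, hg⟩ : N) : G) from rfl, coeff_incSub_mem, coeff_blockE]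
    · rw [dif_neg hg, coeff_incSub_notMem _ _ hg]
  obtain ⟨θ, hθ⟩ := IsPBlock.nonempty hc
  obtain ⟨χ, hχ⟩ := exists_irr_over (G := G) θ
  set B₀ := blockOf M (χ : G → ℂ)
  have hB₀ : IsPBlock M B₀ := ⟨χ, rfl⟩
  have hχB : χ ∈ B₀ := mem_blockOf_self M χ
  have heq : incSub N (blockE c) = blockE B₀ := by
    refine ext_omega (isClassElt_incSub_blockE_cj hU) (isClassElt_blockE B₀) fun ψ => ?_
    obtain ⟨η, hη⟩ := exists_res_constituent (N := N) ψ
    rw [omega_incSub_blockE hU ψ η hη, omega_blockE]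
    refine if_congr ⟨fun h => ?_, fun h => ?_⟩ rfl rfl
    · exact IsPBlock.mem_of_sameBlock hB₀ hχB (sameBlock_of_pPow_index hM ⟨k, hk⟩ hc hθ h hχ hη)
    · rw [← cjUnion_eq_of_stable (G := G) hst]
      exact covered_mem_cjUnion hc (IsPBlock.sameBlock hB₀ hχB h) hθ hχ hη
  refine ⟨⟨B₀, hB₀, fun g => by rw [hcoeff, heq, coeff_blockE]⟩, fun B hB hBc P hP => ?_⟩
  have hBB : B = B₀ := by
    have h : blockE B = blockE B₀ := gr_ext fun g => by
      rw [← heq, ← hcoeff, coeff_blockE, hBc]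
    by_contra hne
    have h1 := omega_blockE B χ
    rw [h, omega_blockE, if_pos hχB, if_neg fun h2 => hne (IsPBlock.eq_of_mem hB hB₀ h2 hχB)] at h1
    exact one_ne_zero h1
  subst hBB
  have hsup := sup_defect_eq_top_of_stable hM hk hc hst hB hχB hθ hχ hP
  exact ⟨hsup, isDefectGroup_inf_of_sup hM hc hB hχB hθ hχ hP hsup⟩

end Cfsg.Agent.S4672
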