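import Cfsg.Statements.S4673
import Cfsg.Agent.Lib.Blocks.CoveringDefect
import Cfsg.Agent.Lib.Blocks.Codegree

set_option autoImplicit false
open Cfsg

namespace Cfsg.Agent.S4673

open Cfsg.Lib.Blocks Cfsg.Lib.Characters Finset
open scoped Classical ComplexConjugate

set_option maxHeartbeats 1600000
set_option linter.style.haveILetI false

variable {p : ℕ} [Fact p.Prime] {M : Ideal Cfsg.AlgInt}

/-- The heart: a height zero character below a character of least degree forces trivial stabiliser. -/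
theorem mem_of_stab {L : Type*} [Group L] [Fintype L] [M.IsPrime] (hM : IsPModular p M) (N : Subgroup L)
    [N.Normal] {k : ℕ} (hk : N.index = p ^ k) {b : Set (IrrCharacter N)} (hb : IsPBlock M b)
    {θ : IrrCharacter N} (hθ : θ ∈ b) (h0 : blockHeight p b (θ : N → ℂ) = 0)
    {B : Set (IrrCharacter L)} (hB : IsPBlock M B) {ψ : IrrCharacter L} (hψ : ψ ∈ B)
    (hover : classInner (fun n : N => (ψ : L → ℂ) n) (θ : N → ℂ) ≠ 0)
    (hinf : (charDegree (θ : N → ℂ)).factorization p + k
      ≤ sInf ((fun χ : IrrCharacter L => (charDegree (χ : L → ℂ)).factorization p) '' B))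
    {x : L} (hx : cjIrr θ x ∈ b) : x ∈ N := by
  have hp : p.Prime := Fact.out
  have hle := inf_le_factorization p hψ
  -- `ψ` is the induced character
  have hind := isCharacter_indFun N θ.2.isCharacter
  have hne : classInner (indFun N (θ : N → ℂ)) (ψ : L → ℂ) ≠ 0 := by
    rw [classInner_indFun N _ ψ.2.isClassFunction, ← conj_classInner]
    exact fun h => hover (by simpa using congrArg conj h)
  have hd1 : indFun N (θ : N → ℂ) 1 = ((p ^ k * charDegree (θ : N → ℂ) : ℕ) : ℂ) := by
    rw [indFun_one_apply, hk, Nat.cast_mul, coe_charDegree]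
  obtain ⟨hle2, heq⟩ := constituent_degree hind ψ.2 hne hd1 (coe_charDegree ψ).symm
  obtain ⟨n, hn⟩ : ∃ n : ℕ, charDegree (ψ : L → ℂ) = n * charDegree (θ : N → ℂ) := by
    obtain ⟨e, he⟩ := classInner_nat (isCharacter_restrict ψ.2.isCharacter N) θ.2.isCharacter
    have hcl := congrFun (clifford ψ.2 θ.2 hover) (1 : N)
    refine ⟨e * (orbitFinset N (θ : N → ℂ)).card, ?_⟩
    have : ((charDegree (ψ : L → ℂ) : ℕ) : ℂ)
        = ((e * (orbitFinset N (θ : N → ℂ)).card * charDegree (θ : N → ℂ) : ℕ) : ℂ) := by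
      rw [coe_charDegree, Nat.cast_mul, Nat.cast_mul, coe_charDegree]
      simp only [Pi.smul_apply, Finset.sum_apply, smul_eq_mul] at hcl
      rw [Finset.sum_congr rfl (fun φ h => show φ 1 = (θ : N → ℂ) 1 by
        obtain ⟨g, rfl⟩ := mem_orbitFinset.mp h
        rw [conjFn_eq_comp]; simp), Finset.sum_const, nsmul_eq_mul, he] at hcl
      calc (ψ : L → ℂ) 1 = _ := hcl
        _ = _ := by ring
    exact_mod_cast this
  have hθpos := charDegree_pos θ
  have hn0 : n ≠ 0 := fun h => (charDegree_pos ψ).ne' (by rw [hn, h, zero_mul])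
  have hkn : p ^ k ≤ n := by
    refine Nat.le_of_dvd (Nat.pos_of_ne_zero hn0) ((hp.pow_dvd_iff_le_factorization hn0).mpr ?_)
    rw [hn, Nat.factorization_mul hn0 hθpos.ne', Finsupp.add_apply] at hle
    omega
  have hdeg : charDegree (ψ : L → ℂ) = p ^ k * charDegree (θ : N → ℂ) :=
    le_antisymm hle2 (hn ▸ Nat.mul_le_mul_right _ hkn)
  have hψeq := heq hdeg.symm
  have hh : blockHeight p B (ψ : L → ℂ) = 0 := by
    rw [blockHeight_eq_zero_iff p hψ]
    refine le_antisymm ?_ hle
    rw [hdeg, Nat.factorization_mul (pow_ne_zero _ hp.ne_zero) hθpos.ne', Finsupp.add_apply,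
      Nat.factorization_pow, Finsupp.smul_apply, hp.factorization_self]
    simp only [smul_eq_mul, mul_one]
    omega
  have hlam := (lam_zc_ne_zero_iff hM hB hψ hψ).mpr hh
  have hzmem := zc_mem_locCenter (M := M) p ψ.2.isCharacter
  rw [lam_redG M ψ hzmem, omega_eq_omega_res ψ θ hover hzmem.1 (fun g hg => by
    rw [coeff_zc, if_pos (not_not.mp fun hd => hg (regular_mem_of_index_pPow hk hd))]), resSub_zc] at hlam
  rw [← lam_redG M θ (zc_mem_locCenter p (isCharacter_restrict ψ.2.isCharacter N)),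
    lam_zc p (isCharacter_restrict ψ.2.isCharacter N)] at hlam
  -- the conjugates
  have hfix : ∀ (g : L) (a : N), cjIrr θ (g * a) = cjIrr θ g := by
    intro g a
    rw [← cjIrr_cjIrr]
    refine Subtype.ext (funext fun m => ?_)
    rw [coe_cjIrr, conjFn_eq_comp]
    refine (congrArg _ (Subtype.ext ?_)).trans ((cjIrr θ g).2.isClassFunction m a)
    simp [MulAut.conjNormal_apply]
  have hN0 : (Nat.card N : ℂ) ≠ 0 := Nat.cast_ne_zero.mpr Nat.card_pos.ne'
  have hres : (fun m : N => (ψ : L → ℂ) m)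
      = ∑ q : L ⧸ N, (1 : ℂ) • (cjIrr θ q.out : N → ℂ) := by
    rw [← hψeq, res_indFun]
    simp only [one_smul]
    have h2 : ∑ g : L, conjFn N (θ : N → ℂ) g
        = ∑ z : (L ⧸ N) × N, (cjIrr θ z.1.out : N → ℂ) := by
      refine Fintype.sum_equiv (Subgroup.groupEquivQuotientProdSubgroup (s := N)) _ _ fun g => ?_
      rw [← coe_cjIrr]
      congr 1
      obtain ⟨a, ha⟩ := QuotientGroup.mk_out_eq_mul N g
      show _ = cjIrr θ ((g : L ⧸ N)).out
      rw [ha, hfix g a]
    rw [h2, Fintype.sum_prod_type, Finset.smul_sum]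
    refine Finset.sum_congr rfl fun q _ => ?_
    dsimp only
    rw [Finset.sum_const, Finset.card_univ, ← Nat.card_eq_fintype_card, ← Nat.cast_smul_eq_nsmul ℂ, smul_smul,
      inv_mul_cancel₀ hN0, one_smul]
  rw [hres, regInner_sum_left, Finset.sum_div] at hlam
  simp only [one_mul] at hlam
  rw [red_sum _ fun q _ => regInner_div_mem p (cjIrr θ q.out).2.isCharacter θ] at hlam
  set l := lam M θ (redG M (zc p (θ : N → ℂ)))
  have hterm : ∀ q : L ⧸ N, red M (regInner p (cjIrr θ q.out : N → ℂ) (θ : N → ℂ) / (θ : N → ℂ) 1)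
      = if cjIrr θ q.out ∈ b then l else 0 := by
    intro q
    split_ifs with hq
    · rw [← lam_zc p (cjIrr θ q.out).2.isCharacter, lam_zc_eq_ratio hM hb hq hθ hθ h0]
      have h1 : (cjIrr θ q.out : N → ℂ) 1 = (θ : N → ℂ) 1 := by
        rw [coe_cjIrr, conjFn_eq_comp]; simp
      rw [h1, div_self θ.2.one_ne_zero, red_one, one_mul]
    · rw [regInner_eq_zero hM fun h => hq (IsPBlock.mem_of_sameBlock hb hθ (sameBlock_symm M h)), zero_div, red_zero]
  rw [Finset.sum_congr rfl fun q _ => hterm q, ← Finset.sum_filter, Finset.sum_const, nsmul_eq_mul] at hlam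
  by_contra hxN
  refine hlam (mul_eq_zero.mpr (Or.inl ?_))
  -- the stabiliser
  let S : Subgroup L :=
    { carrier := {g | cjIrr θ g ∈ b}
      one_mem' := by simpa [cjIrr_one] using hθ
      mul_mem' := fun {a c} ha hc => IsPBlock.mem_of_sameBlock hb hc (by
        have := sameBlock_cjIrr (M := M) (IsPBlock.sameBlock hb hθ ha) c
        rwa [cjIrr_cjIrr] at this)
      inv_mem' := fun {a} ha => IsPBlock.mem_of_sameBlock hb hθ (by
        have := sameBlock_cjIrr (M := M) (IsPBlock.sameBlock hb ha hθ) a⁻¹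
        rwa [cjIrr_cjIrr, mul_inv_cancel, cjIrr_one] at this) }
  set U := S.map (QuotientGroup.mk' N)
  have hSq : ∀ q : L ⧸ N, cjIrr θ q.out ∈ b ↔ q ∈ U := by
    intro q
    refine ⟨fun h => ⟨q.out, h, QuotientGroup.out_eq' q⟩, ?_⟩
    rintro ⟨g, hg, rfl⟩
    obtain ⟨a, ha⟩ := QuotientGroup.mk_out_eq_mul N g
    show cjIrr θ ((g : L ⧸ N)).out ∈ b
    rw [ha, hfix g a]
    exact hg
  have hcard : (univ.filter fun q : L ⧸ N => cjIrr θ q.out ∈ b).card = Nat.card U := by
    rw [Nat.card_eq_fintype_card, Fintype.card_subtype]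
    exact congrArg _ (Finset.filter_congr fun q _ => hSq q)
  rw [hcard]
  have hUp : IsPGroup p U := (IsPGroup.of_card (n := k) (by rw [← Subgroup.index_eq_card, hk])).to_subgroup U
  have hU1 : U ≠ ⊥ := fun h => hxN ((QuotientGroup.eq_one_iff x).mp
    (Subgroup.mem_bot.mp (h ▸ (⟨x, hx, rfl⟩ : (x : L ⧸ N) ∈ U))))
  obtain ⟨j, hj⟩ := hUp.exists_card_eq
  have hj0 : j ≠ 0 := fun h => hU1 (Subgroup.card_eq_one.mp (by rw [hj, h, pow_zero]))
  rw [hj, Nat.cast_pow, red_p hM, zero_pow hj0]

/-- Fix a prime p and a maximal ideal M of the algebraic integers containing p. Let N ≤ L be normal subgroups of the finite group G with L/N a p-group, let B be a p-block of G covering the p-block c of N (some member of B has a constituent in c on restriction to N), and suppose that N contains a defect group of B. Then the stabilizer T of c in G satisfies T ∩ L = N. -/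
theorem result {G : Type*} [Group G] [Fintype G] (p : ℕ) [Fact p.Prime] (M : Ideal Cfsg.AlgInt) (hM : Cfsg.IsPModular p M) (N L : Subgroup G) [N.Normal] [L.Normal] [Fintype N] (hNL : N ≤ L) (hLN : ∃ k : ℕ, (N.subgroupOf L).index = p ^ k) (B : Set (Cfsg.IrrCharacter G)) (hB : Cfsg.IsPBlock M B) (c : Set (Cfsg.IrrCharacter N)) (hc : Cfsg.IsPBlock M c) (hcov : (∃ χ ∈ B, ∃ θ ∈ c, Cfsg.classInner (fun n : N => (χ : G → ℂ) n) (θ : N → ℂ) ≠ 0)) (hD : ∃ D : Subgroup G, Cfsg.IsDefectGroup p M B D ∧ D ≤ N) (T : Subgroup G) (hT : ∀ x : G, x ∈ T ↔ Cfsg.StabilizesBlock N c x) : T ⊓ L = N := by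
  haveI : M.IsPrime := hM.2.1.isPrime
  haveI : Fintype L := Fintype.ofFinite _
  obtain ⟨k, hk⟩ := hLN
  obtain ⟨χ, hχ, θ₀, hθ₀, h₀⟩ := hcov
  obtain ⟨D, hD, hDN⟩ := hD
  -- membership in `T`
  have hTiff : ∀ {θ : IrrCharacter N}, θ ∈ c → ∀ g : G, g ∈ T ↔ cjIrr θ g ∈ c := by
    intro θ hθ g
    have key : g⁻¹ ∈ T ↔ cjIrr θ g ∈ c := by
      rw [hT]
      constructor
      · rintro ⟨-, h⟩
        obtain ⟨φ, hφ, hφc⟩ := h θ hθ
        convert hφ using 1
        refine Subtype.ext (funext fun m => ?_)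
        rw [coe_cjIrr, conjFn_eq_comp]
        exact (hφc (MulAut.conjNormal g m) m (by simp [MulAut.conjNormal_apply, mul_assoc])).symm
      · intro hg
        refine ⟨?_, fun φ hφ => ⟨cjIrr φ g, IsPBlock.mem_of_sameBlock hc hg
          (sameBlock_cjIrr (IsPBlock.sameBlock hc hθ hφ) g), ?_⟩⟩
        · rw [Subgroup.normalizer_eq_top N]; exact Subgroup.mem_top _
        · intro a a' ha
          rw [coe_cjIrr, conjFn_eq_comp]
          refine congrArg _ (Subtype.ext ?_)
          simp [MulAut.conjNormal_apply, ha, mul_assoc]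
    rw [← key, inv_mem_iff]
  -- the defect groups
  have hcardD : ∀ P : Subgroup G, IsDefectGroup p M B P → P ≤ N ∧ Nat.card P = p ^ blockDefect p B := by
    intro P hP
    obtain ⟨g, rfl⟩ := defectGroup_conj hM hB hD hP
    refine ⟨fun y hy => ?_, card_defectGroup hM hB hP⟩
    rw [mem_conjSub] at hy
    have := (inferInstance : N.Normal).conj_mem _ (hDN hy) g
    simpa [mul_assoc] using this
  have hdefc : blockDefect p c = blockDefect p B := by
    obtain ⟨Q₀, hQ₀⟩ := exists_defectGroup hM hc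
    have hQN : Q₀.map N.subtype ≤ N := Subgroup.map_subtype_le _
    have hsub : (Q₀.map N.subtype).subgroupOf N = Q₀ :=
      Subgroup.comap_map_eq_self_of_injective N.subtype_injective _
    obtain ⟨P, hP, hPQ⟩ := exists_defectGroup_inf_eq hM hB hc hQN (by rwa [hsub]) hχ hθ₀ h₀
    obtain ⟨hPN, hPc⟩ := hcardD P hP
    rw [inf_of_le_left hPN] at hPQ
    have h1 := card_defectGroup hM hc hQ₀
    rw [← hsub, card_subgroupOf hQN, ← hPQ, hPc] at h1
    exact Nat.pow_right_injective (Fact.out : p.Prime).two_le h1.symm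
  -- a character of `L` in between
  set e : N.subgroupOf L ≃* N := Subgroup.subgroupOfEquivOfLe hNL
  set c' := pullBlock e c
  have hc' : IsPBlock M c' := isPBlock_pull e hc
  obtain ⟨m, hm⟩ := exists_decomposition (isCharacter_restrict χ.2.isCharacter L)
  obtain ⟨ν, hνm, hνθ⟩ : ∃ ν : IrrCharacter L, m ν ≠ 0 ∧
      classInner (fun a : N.subgroupOf L => (ν : L → ℂ) a) (irrPull e θ₀ : N.subgroupOf L → ℂ) ≠ 0 := by
    by_contra hh
    push Not at hh
    refine h₀ ?_
    have h1 : classInner (fun n : N => (χ : G → ℂ) n) (θ₀ : N → ℂ)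
        = classInner (fun a : N.subgroupOf L => (χ : G → ℂ) ((a : L) : G))
            (irrPull e θ₀ : N.subgroupOf L → ℂ) := by
      simp only [classInner, Nat.card_congr e.toEquiv]
      congr 1
      refine (Fintype.sum_equiv e.toEquiv _ _ fun a => ?_).symm
      rfl
    have h2 : (fun a : N.subgroupOf L => (χ : G → ℂ) ((a : L) : G))
        = ∑ ν : IrrCharacter L, (m ν : ℂ) • fun a : N.subgroupOf L => (ν : L → ℂ) a := by
      funext a
      simpa [Finset.sum_apply] using congrFun hm (a : L)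
    rw [h1, h2, classInner_sum_left]
    refine Finset.sum_eq_zero fun ν _ => ?_
    rw [classInner_smul_left]
    by_cases h : m ν = 0
    · simp [h]
    · rw [hh ν h, mul_zero]
  have hν : classInner (fun a : L => (χ : G → ℂ) a) (ν : L → ℂ) ≠ 0 := by
    rw [hm, classInner_sum_irr]; exact Nat.cast_ne_zero.mpr hνm
  set BL := blockOf M (ν : L → ℂ)
  have hBL : IsPBlock M BL := ⟨ν, rfl⟩
  have hdefL : blockDefect p BL = blockDefect p B := by
    obtain ⟨Q₀, hQ₀⟩ := exists_defectGroup hM hBL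
    have hQL : Q₀.map L.subtype ≤ L := Subgroup.map_subtype_le _
    have hsub : (Q₀.map L.subtype).subgroupOf L = Q₀ :=
      Subgroup.comap_map_eq_self_of_injective L.subtype_injective _
    obtain ⟨P, hP, hPQ⟩ :=
      exists_defectGroup_inf_eq hM hB hBL hQL (by rwa [hsub]) hχ (mem_blockOf_self M ν) hν
    obtain ⟨hPN, hPc⟩ := hcardD P hP
    rw [inf_of_le_left (hPN.trans hNL)] at hPQ
    have h1 := card_defectGroup hM hBL hQ₀
    rw [← hsub, card_subgroupOf hQL, ← hPQ, hPc] at h1
    exact Nat.pow_right_injective (Fact.out : p.Prime).two_le h1.symm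
  -- degrees
  obtain ⟨θ, hθ, hmin⟩ := exists_height_zero p (IsPBlock.nonempty hc)
  have hdegpull : ∀ φ : IrrCharacter N, charDegree (irrPull e φ : N.subgroupOf L → ℂ) = charDegree (φ : N → ℂ) :=
    fun φ => charDegree_eq (by rw [irrPull_apply, map_one, coe_charDegree])
  have hθ' : irrPull e θ ∈ c' := (mem_pullBlock e c θ).mpr hθ
  have hh0 : blockHeight p c' (irrPull e θ : N.subgroupOf L → ℂ) = 0 := by
    rw [blockHeight_eq_zero_iff p hθ']
    refine le_antisymm (le_csInf ⟨_, _, hθ', rfl⟩ ?_) (inf_le_factorization p hθ')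
    rintro _ ⟨φ, hφ, rfl⟩
    show _ ≤ (charDegree (φ : N.subgroupOf L → ℂ)).factorization p
    rw [← irrPull_symm e φ, hdegpull, hdegpull, hmin]
    exact inf_le_factorization p hφ
  have hfac : (Nat.card L).factorization p = (Nat.card N).factorization p + k := by
    rw [← Subgroup.card_mul_index (N.subgroupOf L), hk, Nat.card_congr e.toEquiv,
      Nat.factorization_mul Nat.card_pos.ne' (pow_ne_zero _ (Fact.out : p.Prime).ne_zero)]
    simp [(Fact.out : p.Prime).factorization_self]
  have hboundN : (charDegree (θ : N → ℂ)).factorization p ≤ (Nat.card N).factorization p :=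
    (Nat.factorization_le_iff_dvd (charDegree_pos θ).ne' Nat.card_pos.ne').mpr
      (degree_dvd_card θ.2 (coe_charDegree θ).symm) p
  have hboundL : sInf ((fun φ : IrrCharacter L => (charDegree (φ : L → ℂ)).factorization p) '' BL)
      ≤ (Nat.card L).factorization p :=
    (inf_le_factorization p (mem_blockOf_self M ν)).trans
      ((Nat.factorization_le_iff_dvd (charDegree_pos ν).ne' Nat.card_pos.ne').mpr
        (degree_dvd_card ν.2 (coe_charDegree ν).symm) p)
  obtain ⟨ψ, hψ⟩ := exists_irr_over (G := L) (irrPull e θ)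
  have hψB : ψ ∈ BL := IsPBlock.mem_of_sameBlock hBL (mem_blockOf_self M ν)
    (sameBlock_of_pPow_index hM ⟨k, hk⟩ hc' ((mem_pullBlock e c θ₀).mpr hθ₀) hθ' hνθ hψ)
  refine le_antisymm (fun x hx => ?_) (le_inf (fun x hx => ?_) hNL)
  · have hmem := (hTiff hθ x).mp hx.1
    have := mem_of_stab hM (N.subgroupOf L) hk hc' hθ' hh0 hBL hψB hψ (by
      rw [hdegpull]
      have hd := hdefc.trans hdefL.symm
      rw [blockDefect, blockDefect, ← hmin, hfac] at hd
      omega) (x := ⟨x, hx.2⟩) (by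
      have heq : cjIrr (irrPull e θ) (⟨x, hx.2⟩ : L) = irrPull e (cjIrr θ x) := by
        refine Subtype.ext (funext fun a => ?_)
        rw [coe_cjIrr, irrPull_apply, coe_cjIrr, conjFn_eq_comp, conjFn_eq_comp]
        rfl
      rw [heq, mem_pullBlock]
      exact hmem)
    exact Subgroup.mem_subgroupOf.mp this
  · refine (hTiff hθ x).mpr ?_
    have : cjIrr θ x = θ := Subtype.ext (funext fun m => by
      rw [coe_cjIrr, conjFn_eq_comp]
      exact (congrArg _ (Subtype.ext (by simp [MulAut.conjNormal_apply]))).trans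
        (θ.2.isClassFunction m ⟨x, hx⟩))
    rw [this]; exact hθ

end Cfsg.Agent.S4673
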