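import Cfsg.Statements.S4674
import Cfsg.Agent.Lib.Blocks.HarrisKnorr
import Cfsg.Agent.Lib.Characters.Correspondence

set_option autoImplicit false
open Cfsg
open scoped Classical

namespace Cfsg.Agent.S4674

/-- Fix a prime p and a maximal ideal M of the algebraic integers containing p. Let N be a normal subgroup of the finite group G, Q a p-subgroup of N, H = N_G(Q) and L = H ∩ N = N_N(Q). Let d be a p-block of N with defect group Q and e the p-block of L with defect group Q that induces d inside N (its Brauer correspondent). Then block induction from H to G is a bijection from the p-blocks of H covering e onto the p-blocks of G covering d: every block of H covering e induces exactly one block of G, and that block covers d; and every block of G covering d is induced by exactly one block of H covering e. -/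
theorem result {G : Type*} [Group G] [Fintype G] (p : ℕ) [Fact p.Prime] (M : Ideal Cfsg.AlgInt) (hM : Cfsg.IsPModular p M) (N : Subgroup G) [N.Normal] [Fintype N] (Q : Subgroup G) (hQ : IsPGroup p Q) (hQN : Q ≤ N) [Fintype ↥(Subgroup.normalizer (Q : Set G) ⊓ N)] (d : Set (Cfsg.IrrCharacter N)) (hd : Cfsg.IsPBlock M d) (hdQ : Cfsg.IsDefectGroup p M d (Q.subgroupOf N)) (e : Set (Cfsg.IrrCharacter ↥(Subgroup.normalizer (Q : Set G) ⊓ N))) (he : Cfsg.IsPBlock M e) (heQ : Cfsg.IsDefectGroup p M e (Q.subgroupOf (Subgroup.normalizer (Q : Set G) ⊓ N))) (hed : Cfsg.IsInducedBlockIn M N (Subgroup.normalizer (Q : Set G) ⊓ N) e d) : (∀ c : Set (Cfsg.IrrCharacter ↥(Subgroup.normalizer (Q : Set G))), Cfsg.IsPBlock M c → (∃ ψ ∈ c, ∃ ξ ∈ e, Cfsg.classInner (fun l : ↥(Subgroup.normalizer (Q : Set G) ⊓ N) => (ψ : ↥(Subgroup.normalizer (Q : Set G)) → ℂ) (Subgroup.inclusion inf_le_left l)) (ξ : ↥(Subgroup.normalizer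 (Q : Set G) ⊓ N) → ℂ) ≠ 0) → ∃! B : Set (Cfsg.IrrCharacter G), Cfsg.IsInducedBlock M (Subgroup.normalizer (Q : Set G)) c B ∧ (∃ χ ∈ B, ∃ θ ∈ d, Cfsg.classInner (fun n : N => (χ : G → ℂ) n) (θ : N → ℂ) ≠ 0)) ∧ (∀ B : Set (Cfsg.IrrCharacter G), Cfsg.IsPBlock M B → (∃ χ ∈ B, ∃ θ ∈ d, Cfsg.classInner (fun n : N => (χ : G → ℂ) n) (θ : N → ℂ) ≠ 0) → ∃! c : Set (Cfsg.IrrCharacter ↥(Subgroup.normalizer (Q : Set G))), (Cfsg.IsPBlock M c ∧ ∃ ψ ∈ c, ∃ ξ ∈ e, Cfsg.classInner (fun l : ↥(Subgroup.normalizer (Q : Set G) ⊓ N) => (ψ : ↥(Subgroup.normalizer (Q : Set G)) → ℂ) (Subgroup.inclusion inf_le_left l)) (ξ : ↥(Subgroup.normalizer (Q : Set G) ⊓ N) → ℂ) ≠ 0) ∧ Cfsg.IsInducedBlock M (Subgroup.normalizer (Q : Set G)) c B) := by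
  haveI := hM.2.1.isPrime
  let H := Subgroup.normalizer (Q : Set G)
  let L1 := Subgroup.normalizer ((Q.subgroupOf N : Subgroup N) : Set N)
  let iL : ↥(N.subgroupOf H) ≃* ↥(H ⊓ N) :=
    { toFun := fun x => ⟨((x : H) : G), (x : H).2, x.2⟩
      invFun := fun l => ⟨⟨(l : G), l.2.1⟩, l.2.2⟩
      left_inv := fun _ => rfl
      right_inv := fun _ => rfl
      map_mul' := fun _ _ => rfl }
  let k1 : ↥L1 ≃* ↥(H ⊓ N) := (Cfsg.Lib.Blocks.kN Q hQN).trans iL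
  have he1 : IsPBlock M (Cfsg.Lib.Blocks.pullBlock k1 e) := Cfsg.Lib.Blocks.isPBlock_pull k1 he
  have he1Q : IsDefectGroup p M (Cfsg.Lib.Blocks.pullBlock k1 e) ((Q.subgroupOf N).subgroupOf L1) := by
    have hcom : ((Q.subgroupOf (H ⊓ N)).comap k1.toMonoidHom) = (Q.subgroupOf N).subgroupOf L1 := by
      ext x; rfl
    exact hcom ▸ Cfsg.Lib.Blocks.isDefectGroup_pull hM k1 he heQ
  have he1d : IsInducedBlock M L1 (Cfsg.Lib.Blocks.pullBlock k1 e) d := by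
    refine ⟨he1, hd, fun η hη χ hχ h => ?_⟩
    have heq : inducedCentralChar L1 (η : L1 → ℂ) h
        = inducedCentralCharIn N (H ⊓ N) (Cfsg.Lib.Blocks.irrPull k1.symm η : _ → ℂ) (h : G) := by
      unfold inducedCentralChar inducedCentralCharIn
      refine finsum_mem_eq_of_bijOn k1 ⟨fun x hx => ?_, k1.injective.injOn, fun y hy => ?_⟩ fun x _ => ?_
      · obtain ⟨c, hc⟩ := isConj_iff.mp (IsConj.symm hx)
        exact ⟨c, congrArg Subtype.val hc⟩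
      · obtain ⟨c, hc⟩ := hy
        refine ⟨k1.symm y, ?_, k1.apply_symm_apply y⟩
        exact IsConj.symm (isConj_iff.mpr ⟨c, Subtype.ext hc⟩)
      · simp
    rw [heq]
    exact hed.2.2 _ hη χ hχ h
  have hcv : ∀ (ψ : IrrCharacter H) (ξ : IrrCharacter ↥(H ⊓ N)),
      classInner (fun l : ↥(H ⊓ N) => (ψ : H → ℂ) (Subgroup.inclusion inf_le_left l)) (ξ : _ → ℂ)
        = classInner (fun l : ↥(N.subgroupOf H) => (ψ : H → ℂ) l) (Cfsg.Lib.Blocks.irrPull iL ξ : _ → ℂ) := by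
    intro ψ ξ
    symm
    convert Cfsg.Lib.Characters.classInner_comp_equiv iL
      (fun l : ↥(H ⊓ N) => (ψ : H → ℂ) (Subgroup.inclusion inf_le_left l)) (ξ : _ → ℂ) <;> rfl
  have hdef : ∀ ξ ∈ e, IsDefectGroup p M (blockOf M (Cfsg.Lib.Blocks.irrPull iL ξ : _ → ℂ))
      ((Q.subgroupOf H).subgroupOf (N.subgroupOf H)) := by
    intro ξ hξ
    rw [← Cfsg.Lib.Blocks.pullBlock_blockOf, ← Cfsg.Lib.Blocks.IsPBlock.eq_blockOf he hξ]
    have hcom : ((Q.subgroupOf (H ⊓ N)).comap iL.toMonoidHom) = (Q.subgroupOf H).subgroupOf (N.subgroupOf H) := by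
      ext x; rfl
    exact hcom ▸ Cfsg.Lib.Blocks.isDefectGroup_pull hM iL he heQ
  have hback : ∀ (c : Set (IrrCharacter H)) (B : Set (IrrCharacter G)), IsInducedBlock M H c B →
      (∃ χ ∈ B, ∃ θ ∈ d, classInner (fun n : N => (χ : G → ℂ) n) (θ : N → ℂ) ≠ 0) →
      ∃ ψ ∈ c, ∃ ξ ∈ e, classInner (fun l : ↥(H ⊓ N) => (ψ : H → ℂ) (Subgroup.inclusion inf_le_left l))
        (ξ : _ → ℂ) ≠ 0 := by
    rintro c B hind ⟨χ, hχ, θ, hθ, hne⟩
    obtain ⟨ψ, hψ, ξ, hξ, hc⟩ := Cfsg.Lib.Blocks.covers_correspondent Q hM hQ hQN hd hdQ he1 he1Q he1d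
      hind hχ hθ hne
    refine ⟨ψ, hψ, Cfsg.Lib.Blocks.irrPull iL.symm ξ, ?_, ?_⟩
    · have h0 : Cfsg.Lib.Blocks.irrPull k1.symm (Cfsg.Lib.Blocks.irrPull (Cfsg.Lib.Blocks.kN Q hQN) ξ)
          = Cfsg.Lib.Blocks.irrPull iL.symm ξ := Subtype.ext (funext fun a => by simp [k1])
      exact h0 ▸ hξ
    · rw [hcv, Cfsg.Lib.Blocks.irrPull_symm]
      exact hc
  refine ⟨fun c hc hcov => ?_, fun B hB hcov => ?_⟩
  · obtain ⟨ψ, hψ, ξ, hξ, hne⟩ := hcov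
    rw [hcv] at hne
    obtain ⟨B, hind⟩ := (Cfsg.Lib.Blocks.exists_induced_of_mul hc hψ
      (Cfsg.Lib.Blocks.lam_resSub_mul_local hM hQ Subgroup.le_normalizer
        (Subgroup.centralizer_le_normalizer _) le_rfl ψ)).1
    obtain ⟨θd, hθd⟩ := Cfsg.Lib.Blocks.IsPBlock.nonempty hd
    have hmem : Cfsg.Lib.Blocks.irrPull (Cfsg.Lib.Blocks.kN Q hQN) (Cfsg.Lib.Blocks.irrPull iL ξ)
        ∈ Cfsg.Lib.Blocks.pullBlock k1 e := (Cfsg.Lib.Blocks.mem_pullBlock k1 e ξ).mpr hξ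
    have hI : Cfsg.Lib.Blocks.IndTo M Q (Cfsg.Lib.Blocks.irrPull iL ξ) θd := fun u hu => by
      rw [← Cfsg.Lib.Blocks.lam_pull_kN Q hQN _ hu]
      exact (Cfsg.Lib.Blocks.isInducedBlock_iff he1 hd hmem hθd).mp he1d u hu
    have hB := Cfsg.Lib.Blocks.covers_induced Q hM hQ hQN hind hψ hne hI
    rw [← Cfsg.Lib.Blocks.IsPBlock.eq_blockOf hd hθd] at hB
    exact ⟨B, ⟨hind, hB⟩, fun B' hB' => Cfsg.Lib.Blocks.IsInducedBlock.unique hB'.1 hind⟩
  · obtain ⟨χ, hχ, θ, hθ, hne⟩ := hcov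
    obtain ⟨P, hP, hPN⟩ := Cfsg.Lib.Blocks.exists_defectGroup_inf_eq hM hB hd hQN hdQ hχ hθ hne
    obtain ⟨c, hind⟩ := Cfsg.Lib.Blocks.exists_inducing_block hM hQ Subgroup.le_normalizer
      (Subgroup.centralizer_le_normalizer _) le_rfl hB
      ((Cfsg.Lib.Blocks.brNe_defectGroup hP).mono (hPN ▸ inf_le_left))
    refine ⟨c, ⟨⟨hind.1, hback c B hind ⟨χ, hχ, θ, hθ, hne⟩⟩, hind⟩, ?_⟩
    rintro c' ⟨⟨-, ψ', hψ', ξ', hξ', hc'⟩, hind'⟩
    obtain ⟨ψ, hψ, ξ, hξ, hc⟩ := hback c B hind ⟨χ, hχ, θ, hθ, hne⟩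
    rw [hcv] at hc hc'
    exact Cfsg.Lib.Blocks.induced_unique Q hM hQ hQN hind' hind hψ' hψ hc' hc (hdef ξ' hξ') (hdef ξ hξ)

end Cfsg.Agent.S4674
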