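import Cfsg.Statements.S4675
import Cfsg.Agent.Lib.Blocks.RankOne

set_option autoImplicit false
open Cfsg

namespace Cfsg.Agent.S4675

open Cfsg.Lib.Blocks Cfsg.Lib.Characters Finset
open scoped Classical

theorem result {G : Type*} [Group G] [Fintype G] (p : ℕ) [Fact p.Prime] (M : Ideal Cfsg.AlgInt) (hM : Cfsg.IsPModular p M) (B : Set (Cfsg.IrrCharacter G)) (hB : Cfsg.IsPBlock M B) (P : Subgroup G) (hP : Cfsg.IsDefectGroup p M B P) (hl : Cfsg.blockRank p B = 1) : ∃ φ : G → ℂ, ∃ d : Cfsg.IrrCharacter G → ℕ, (∃ n : Cfsg.IrrCharacter G → ℤ, ∀ x : G, Cfsg.IsPRegular p x → φ x = ∑ᶠ ψ ∈ B, (n ψ : ℂ) * (ψ : G → ℂ) x) ∧ (∀ χ ∈ B, ∀ x : G, Cfsg.IsPRegular p x → (χ : G → ℂ) x = (d χ : ℂ) * φ x) ∧ ∑ᶠ χ ∈ B, d χ ^ 2 = Nat.card P := by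
  haveI := hM.2.1.isPrime
  obtain ⟨g, d, n, hg, hd, hn, -, hsum⟩ := exists_degree_vector hM hB hl
  refine ⟨fun x => ∑ᶠ ψ ∈ B, (n ψ : ℂ) * (ψ : G → ℂ) x, d, ⟨n, fun x _ => rfl⟩, fun χ hχ x hx => ?_, ?_⟩
  · show _ = (d χ : ℂ) * ∑ᶠ ψ ∈ B, (n ψ : ℂ) * (ψ : G → ℂ) x
    rw [finsum_mem_eq_finite_toFinset_sum _ B.toFinite, B.toFinite.toFinset_eq_toFinset,
      show B.toFinset = univ.filter (· ∈ B) by ext; simp, Finset.mul_sum]
    have h1 : (χ : G → ℂ) x = ∑ ψ ∈ univ.filter (· ∈ B), ((n ψ * (d ψ : ℤ) : ℤ) : ℂ) * (χ : G → ℂ) x := by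
      rw [← Finset.sum_mul, ← Int.cast_sum, hn, Int.cast_one, one_mul]
    rw [h1]
    refine Finset.sum_congr rfl fun ψ hψ => ?_
    have h2 := regular_proportional hl hχ (Finset.mem_filter.mp hψ).2 hx
    rw [← coe_charDegree ψ, ← coe_charDegree χ, hd ψ (Finset.mem_filter.mp hψ).2, hd χ hχ] at h2
    have hg' : (g : ℂ) ≠ 0 := Nat.cast_ne_zero.mpr hg.ne'
    refine mul_left_cancel₀ hg' ?_
    push_cast at h2 ⊢
    linear_combination (n ψ : ℂ) * h2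
  · rw [finsum_mem_eq_finite_toFinset_sum _ B.toFinite, B.toFinite.toFinset_eq_toFinset,
      show B.toFinset = univ.filter (· ∈ B) by ext; simp, hsum, card_defectGroup hM hB hP]

end Cfsg.Agent.S4675
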