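import Cfsg.Statements.S4676
import Mathlib
import Cfsg.Agent.Lib.Blocks.RegInner

set_option autoImplicit false
open Cfsg

namespace Cfsg.Agent.S4676

/-- Fix a prime p and a maximal ideal M of the algebraic integers containing p. Let B be a p-block of the finite group G with defect group P. For χ in B, let the height of χ be the exponent of p in the degree of χ minus the least such exponent over the members of B. Then the sum over χ in B of p raised to twice the height of χ is at most the integer part of (order of P)²/4, plus 1; in particular B has at most that many irreducible characters. -/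
theorem result {G : Type*} [Group G] [Fintype G] (p : ℕ) [Fact p.Prime] (M : Ideal Cfsg.AlgInt) (hM : Cfsg.IsPModular p M) (B : Set (Cfsg.IrrCharacter G)) (hB : Cfsg.IsPBlock M B) (P : Subgroup G) (hP : Cfsg.IsDefectGroup p M B P) : ∑ᶠ χ ∈ B, p ^ (2 * Cfsg.blockHeight p B (χ : G → ℂ)) ≤ Nat.card P ^ 2 / 4 + 1 := by
  haveI := hM.2.1.isPrime
  classical
  obtain ⟨χ₀, hχ₀, hmin⟩ := Cfsg.Lib.Blocks.exists_height_zero p
    (Cfsg.Lib.Blocks.IsPBlock.nonempty hB)
  have h0 := (Cfsg.Lib.Blocks.blockHeight_eq_zero_iff p hχ₀).mpr hmin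
  set F := Finset.univ.filter (fun ψ : Cfsg.IrrCharacter G => ψ ∈ B) with hF
  have hmem : χ₀ ∈ F := Finset.mem_filter.mpr ⟨Finset.mem_univ _, hχ₀⟩
  have hsum := Cfsg.Lib.Blocks.sum_blockC_mul hM hB hχ₀ hχ₀
  rw [← Finset.add_sum_erase _ _ hmem] at hsum
  have hge : ((∑ ψ ∈ F.erase χ₀, p ^ (2 * Cfsg.blockHeight p B (ψ : G → ℂ)) : ℕ) : ℤ)
      ≤ ∑ ψ ∈ F.erase χ₀, Cfsg.Lib.Blocks.blockC p B χ₀ ψ * Cfsg.Lib.Blocks.blockC p B χ₀ ψ := by
    rw [Nat.cast_sum]
    refine Finset.sum_le_sum fun ψ hψ => ?_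
    obtain ⟨h1, -, h3⟩ := Cfsg.Lib.Blocks.blockC_dvd hM hB hχ₀
      (Finset.mem_filter.mp (Finset.mem_of_mem_erase hψ)).2
    have habs : ((p ^ Cfsg.blockHeight p B (ψ : G → ℂ) : ℕ) : ℤ)
        ≤ |Cfsg.Lib.Blocks.blockC p B χ₀ ψ| :=
      Int.le_of_dvd (abs_pos.mpr (h3 h0)) ((dvd_abs _ _).mpr h1)
    rw [two_mul, pow_add, Nat.cast_mul, ← abs_mul_abs_self (Cfsg.Lib.Blocks.blockC p B χ₀ ψ)]
    exact mul_le_mul habs habs (Int.natCast_nonneg _) (abs_nonneg _)
  rw [finsum_mem_eq_finite_toFinset_sum _ B.toFinite,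
    show B.toFinite.toFinset = F by ext; simp [hF], ← Finset.add_sum_erase _ _ hmem, h0, mul_zero,
    pow_zero, Cfsg.Lib.Blocks.card_defectGroup hM hB hP]
  set S := ∑ ψ ∈ F.erase χ₀, p ^ (2 * Cfsg.blockHeight p B (ψ : G → ℂ))
  set q := p ^ Cfsg.blockDefect p B with hq
  have h4 : ((4 * S : ℕ) : ℤ) ≤ ((q ^ 2 : ℕ) : ℤ) := by
    push_cast at hge hsum ⊢
    nlinarith [sq_nonneg ((q : ℤ) - 2 * Cfsg.Lib.Blocks.blockC p B χ₀ χ₀)]
  have h4' : 4 * S ≤ q ^ 2 := by exact_mod_cast h4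
  omega

end Cfsg.Agent.S4676
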