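import Cfsg.Statements.S4680
import Mathlib
import Cfsg.Agent.Lib.Blocks.BlockFusion

set_option autoImplicit false
open Cfsg

namespace Cfsg.Agent.S4680

/-- Fix a prime p and a maximal ideal M of the algebraic integers containing p, a p-block B of the finite group G with maximal Brauer pair (P, e), its fusion system F on P, and a Brauer pair (Q, f) ≤ (P, e). Then Q is centric in F if and only if Z(Q) is a defect group of f as a block of C_G(Q). -/
theorem result {G : Type*} [Group G] [Fintype G] (p : ℕ) [Fact p.Prime] (M : Ideal Cfsg.AlgInt) (hM : Cfsg.IsPModular p M) (B : Set (Cfsg.IrrCharacter G)) (P : Subgroup G) (e : Set (Cfsg.IrrCharacter (Subgroup.centralizer (P : Set G)))) (hmax : Cfsg.IsMaximalBrauerPair p M B P e) (F : Cfsg.FusionSystem P) (hF : Cfsg.IsBlockFusionSystemOn p M B P e F) (Q : Subgroup G) (f : Set (Cfsg.IrrCharacter (Subgroup.centralizer (Q : Set G)))) (hQP : Q ≤ P) (hf : Cfsg.IsPBlock M f) (hle : Cfsg.SubpairLE p M Q f P e) : F.IsCentric Q ↔ Cfsg.IsDefectGroup p M f ((Q ⊓ Subgroup.centralizer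 (Q : Set G)).subgroupOf (Subgroup.centralizer (Q : Set G))) := by
  haveI := hM.2.1.isPrime
  classical
  open Cfsg.Lib.Blocks in
  · rw [isDefectGroup_centralizer_iff hM hf inf_le_right]
    have he := hF.1.1.1
    have hfB := pairOf_of_le hM hF hle
    have hbr : BrNe (Q ⊓ Subgroup.centralizer (Q : Set G) : Subgroup G) (subE M Q f) :=
      (brNe_centralizer_of_le hM he hle).mono (inf_le_inf_right _ hQP)
    constructor
    · rintro ⟨-, hcen⟩
      refine ⟨he.1.to_le (inf_le_left.trans hQP), inf_le_right, hbr, fun S hS hSC hbrS => ?_⟩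
      obtain ⟨x, hx, -, hcard⟩ := exists_conj_brMax_centralizer hM hF.1 hfB
      obtain ⟨D, hD⟩ := exists_isBrMax_centralizer (p := p) hM hf
      refine (hD.2.2.2 S hS hSC hbrS).trans ?_
      rw [hcard D hD, ← card_conjSub x (Q ⊓ Subgroup.centralizer (Q : Set G))]
      have h1 := hcen _ ((isConj_iff_block hM hF hle).mpr ⟨x, rfl, hx⟩)
      refine Subgroup.card_le_of_le fun y hy => ?_
      have hyQ := h1 hy
      rw [mem_conjSub]
      refine ⟨mem_map_conj.mp hyQ, (mem_centralizer_map_conj Q x _).mpr ?_⟩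
      rw [show x * (x⁻¹ * y * x) * x⁻¹ = y by group]
      exact hy.2
    · intro hD
      refine ⟨hQP, fun Q' hQ' => ?_⟩
      obtain ⟨g, rfl, hg⟩ := (isConj_iff_block hM hF hle).mp hQ'
      have h1 := card_le_of_conj_centralizer hf hD g (he.1.to_le inf_le_left) inf_le_right
        (brNe_centralizer_of_le hM he hg)
      rw [← card_conjSub g (Q ⊓ Subgroup.centralizer (Q : Set G))] at h1
      have h2 : conjSub g (Q ⊓ Subgroup.centralizer (Q : Set G))
          ≤ P ⊓ Subgroup.centralizer ((Q.map (MulAut.conj g).toMonoidHom : Subgroup G) : Set G) := by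
        intro y hy
        have hy' := mem_conjSub.mp hy
        refine ⟨subpairLE_le hg (mem_map_conj.mpr hy'.1), ?_⟩
        have := (mem_centralizer_map_conj Q g _).mp hy'.2
        rwa [show g * (g⁻¹ * y * g) * g⁻¹ = y by group] at this
      show Cfsg.FusionSystem.centralizerIn P _ ≤ _
      unfold Cfsg.FusionSystem.centralizerIn
      rw [← Subgroup.eq_of_le_of_card_ge h2 h1]
      exact fun y hy => mem_map_conj.mpr (mem_conjSub.mp hy).1

end Cfsg.Agent.S4680
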