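import Cfsg.Statements.S4681
import Cfsg.Agent.Lib.Blocks.PrincipalPairs
-- import your own Cfsg.Agent.* helpers here

set_option autoImplicit false
open Cfsg

namespace Cfsg.Agent.S4681

/-- Fix a prime p and a maximal ideal M of the algebraic integers containing p. Let B₀ be the principal p-block of the finite group G, P a Sylow p-subgroup and e₀ the principal p-block of C_G(P). Then (P, e₀) is a maximal Brauer pair of B₀, and the fusion system of B₀ on (P, e₀) is the fusion system of G on P: its maps from each subgroup of P are exactly the conjugation maps into P by elements of G. -/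
theorem result {G : Type*} [Group G] [Fintype G] (p : ℕ) [Fact p.Prime] (M : Ideal Cfsg.AlgInt) (hM : Cfsg.IsPModular p M) (S : Sylow p G) : Cfsg.IsMaximalBrauerPair p M (Cfsg.principalBlock M G) (S : Subgroup G) (Cfsg.principalBlock M (Subgroup.centralizer ((S : Subgroup G) : Set G))) ∧ ∀ F : Cfsg.FusionSystem (S : Subgroup G), Cfsg.IsBlockFusionSystemOn p M (Cfsg.principalBlock M G) (S : Subgroup G) (Cfsg.principalBlock M (Subgroup.centralizer ((S : Subgroup G) : Set G))) F → ∀ Q : Subgroup G, F.Hom Q = (Cfsg.groupFusionSystem (S : Subgroup G)).Hom Q := by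
  haveI := hM.2.1.isPrime
  refine ⟨⟨Cfsg.Lib.PrincipalPairs.brauerPairOf_principal hM S.isPGroup', fun R g hR hle => ?_⟩, ?_⟩
  · exact S.is_maximal' hR.1.1 (Cfsg.Lib.PrincipalPairs.le_of_subpair hle)
  · intro F hF Q
    ext φ
    rw [hF.2]
    constructor
    · rintro ⟨hQ, g, hg, hle, -⟩
      exact ⟨hQ, fun u => hg u ▸ hle ⟨(u : G), u.2, rfl⟩, g, hg⟩
    · rintro ⟨hQ, hφ, g, hg⟩
      have hle : Q.map (MulAut.conj g).toMonoidHom ≤ (S : Subgroup G) := by
        rintro _ ⟨u, hu, rfl⟩
        have := hφ ⟨u, hu⟩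
        rwa [hg] at this
      refine ⟨hQ, g, hg, hle, _, Cfsg.Lib.PrincipalPairs.subpair_principal hM S.isPGroup' Q hQ, ?_⟩
      rw [Cfsg.Lib.PrincipalPairs.conjBlock_principal]
      exact Cfsg.Lib.PrincipalPairs.subpair_principal hM S.isPGroup' _ hle

end Cfsg.Agent.S4681
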