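import Cfsg.Statements.S4682
import Mathlib
import Cfsg.Agent.Lib.Blocks.BlockNilpotent

set_option autoImplicit false
open Cfsg

namespace Cfsg.Agent.S4682

/-- Fix a prime p and a maximal ideal M of the algebraic integers containing p, a p-block B of the finite group G with maximal Brauer pair (P, e), P abelian, and a Brauer pair (Q, f) ≤ (P, e). Let T_Q be the stabilizer of f in N_G(Q) and T_P the stabilizer of e in N_G(P). Then every element of T_Q is a product of an element of T_P and an element of C_G(Q); and the index of C_G(Q) in T_Q equals the index of T_P ∩ C_G(Q) in T_P ∩ N_G(Q). -/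
theorem result {G : Type*} [Group G] [Fintype G] (p : ℕ) [Fact p.Prime] (M : Ideal Cfsg.AlgInt) (hM : Cfsg.IsPModular p M) (B : Set (Cfsg.IrrCharacter G)) (P : Subgroup G) (e : Set (Cfsg.IrrCharacter (Subgroup.centralizer (P : Set G)))) (hmax : Cfsg.IsMaximalBrauerPair p M B P e) (hab : ∀ x ∈ P, ∀ y ∈ P, x * y = y * x) (Q : Subgroup G) (f : Set (Cfsg.IrrCharacter (Subgroup.centralizer (Q : Set G)))) (hQP : Q ≤ P) (hf : Cfsg.IsPBlock M f) (hle : Cfsg.SubpairLE p M Q f P e) (TQ : Subgroup G) (hTQ : ∀ y : G, y ∈ TQ ↔ y ∈ Subgroup.normalizer (Q : Set G) ∧ Cfsg.StabilizesBlock (Subgroup.centralizer (Q : Set G)) f y) (TP : Subgroup G) (hTP : ∀ y : G, y ∈ TP ↔ y ∈ Subgroup.normalizer (P : Set G) ∧ Cfsg.StabilizesBlock (Subgroup.centralizer (P : Set G)) e y) : (∀ x ∈ TQ, ∃ y ∈ TP, ∃ c ∈ Subgroup.centralizer (Q : Set G), x = y * c) ∧ ((Subgroup.centralizer (Q : Set G)).subgroupOf TQ).index = ((TP ⊓ Subgroup.centralizer (Q : Set G)).subgroupOf (TP ⊓ Subgroup.normalizer (Q : Set G))).index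 := by
  haveI := hM.2.1.isPrime
  classical
  open Cfsg.Lib.Blocks in
  · obtain rfl : TQ = pairStab M ⊤ Q f := eq_pairStab hf hTQ
    obtain rfl : TP = pairStab M ⊤ P e := eq_pairStab hmax.1.1.2 hTP
    obtain ⟨F, hF⟩ := exists_blockFusionSystem hM hmax
    have h1 : ∀ x ∈ pairStab M ⊤ Q f, ∃ y ∈ pairStab M ⊤ P e,
        y⁻¹ * x ∈ Subgroup.centralizer (Q : Set G) := fun x hx => exists_extend_abelian hM hF hab hle hx
    refine ⟨fun x hx => ?_, ?_⟩
    · obtain ⟨y, hy, hc⟩ := h1 x hx
      exact ⟨y, hy, _, hc, (mul_inv_cancel_left y x).symm⟩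
    let A := pairStab M ⊤ P e ⊓ Subgroup.normalizer (Q : Set G)
    have hAT : A ≤ pairStab M ⊤ Q f := by
      intro a ha
      refine ⟨trivial, ha.2, ?_⟩
      have h2 := subpairLE_congr_right (conjBlock_eq_self hmax.1.1.2 ha.1) (subpairLE_conj hM hle a)
      have hQa : Q.map (MulAut.conj a).toMonoidHom = Q := by
        ext u
        rw [mem_map_conj, Subgroup.mem_normalizer_iff.mp ha.2 (a⁻¹ * u * a)]
        simp [mul_assoc]
      rw [← subE_conjBlock hf a]
      exact subE_eq_of_idx (pairIdx_unique hM hmax.1.1 hQa h2 hle)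
    rw [Subgroup.index_eq_card, Subgroup.index_eq_card]
    symm
    have key : ∀ a b : A, (a : G)⁻¹ * b ∈ (Subgroup.centralizer (Q : Set G)) ↔ (a : G)⁻¹ * b ∈ pairStab M ⊤ P e ⊓ (Subgroup.centralizer (Q : Set G)) := fun a b =>
      ⟨fun h => Subgroup.mem_inf.mpr ⟨mul_mem (inv_mem (show (a : G) ∈ pairStab M ⊤ P e from a.2.1))
        (show (b : G) ∈ pairStab M ⊤ P e from b.2.1), h⟩, fun h => h.2⟩
    let φ : A ⧸ (pairStab M ⊤ P e ⊓ (Subgroup.centralizer (Q : Set G))).subgroupOf A → pairStab M ⊤ Q f ⧸ (Subgroup.centralizer (Q : Set G)).subgroupOf (pairStab M ⊤ Q f) :=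
      Quotient.map' (fun a => ⟨(a : G), hAT a.2⟩) fun a b h => by
        rw [QuotientGroup.leftRel_apply] at h ⊢
        exact (key a b).mpr h
    refine Nat.card_congr (Equiv.ofBijective φ ⟨fun q q' h => ?_, fun q => ?_⟩)
    · induction q using QuotientGroup.induction_on with
      | _ a =>
        induction q' using QuotientGroup.induction_on with
        | _ b =>
          refine QuotientGroup.eq.mpr ?_
          have h2 := QuotientGroup.eq.mp h
          exact (key a b).mp h2
    · induction q using QuotientGroup.induction_on with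
      | _ x =>
        obtain ⟨y, hy, hc⟩ := h1 x x.2
        have hyN : y ∈ Subgroup.normalizer (Q : Set G) := by
          have h3 := mul_mem x.2.2.1 (inv_mem (le_normalizer_centralizer_self Q hc))
          simpa using h3
        exact ⟨QuotientGroup.mk ⟨y, hy, hyN⟩, QuotientGroup.eq.mpr hc⟩

end Cfsg.Agent.S4682
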