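import Cfsg.Statements.S4683
import Mathlib
import Cfsg.Agent.Lib.Blocks.Rank
import Cfsg.Agent.Lib.Blocks.Pairs

set_option autoImplicit false
open Cfsg

namespace Cfsg.Agent.S4683

/-- Fix a prime p and a maximal ideal M of the algebraic integers containing p, a p-block B of the finite group G, a p-element u and a p-block e of C = C_G(u) such that (⟨u⟩, e) is a Brauer pair of B (a Brauer element of B). For χ ∈ B let χ_u be the e-part of the class function c ↦ χ(u c) on C and χ_u' the e-part of c ↦ χ(u⁻¹ c). Then the sum over χ ∈ B and over the p-regular elements s of C of χ_u(s)·χ_u'(s⁻¹) equals the order of C times the p-regular rank of e (the number of irreducible Brauer characters of e). -/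
theorem result {G : Type*} [Group G] [Fintype G] (p : ℕ) [Fact p.Prime] (M : Ideal Cfsg.AlgInt) (hM : Cfsg.IsPModular p M) (B : Set (Cfsg.IrrCharacter G)) (u : G) (hu : ∃ k : ℕ, orderOf u = p ^ k) (e : Set (Cfsg.IrrCharacter (Subgroup.centralizer (Subgroup.zpowers u : Set G)))) (hBe : Cfsg.IsBrauerPairOf p M B (Subgroup.zpowers u) e) : ∑ᶠ χ ∈ B, ∑ᶠ s : Subgroup.centralizer (Subgroup.zpowers u : Set G), Cfsg.pRegularPart p (Cfsg.blockPart e (fun c : Subgroup.centralizer (Subgroup.zpowers u : Set G) => (χ : G → ℂ) (u * c))) s * Cfsg.blockPart e (fun c : Subgroup.centralizer (Subgroup.zpowers u : Set G) => (χ : G → ℂ) (u⁻¹ * c)) s⁻¹ = (Nat.card (Subgroup.centralizer (Subgroup.zpowers u : Set G)) : ℂ) * (Cfsg.blockRank p e : ℂ) := by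
  haveI := hM.2.1.isPrime
  classical
  open Cfsg.Lib.Blocks in
  · obtain ⟨-, hind⟩ := (isBrauerPairOf_iff hM).mp hBe
    have he := hind.1
    have hB := hind.2.1
    have hH : Subgroup.centralizer (Subgroup.zpowers u : Set G) = Subgroup.centralizer ({u} : Set G) :=
      centralizer_zpowers u
    have hcu : ∀ c : Subgroup.centralizer (Subgroup.zpowers u : Set G), Commute u (c : G) := fun c =>
      Subgroup.mem_centralizer_iff.mp c.2 u (Subgroup.mem_zpowers u)
    have hN : (Nat.card (Subgroup.centralizer (Subgroup.zpowers u : Set G)) : ℂ) ≠ 0 :=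
      Nat.cast_ne_zero.mpr Nat.card_pos.ne'
    simp only [finsum_eq_sum_of_fintype, pRegularPart_apply, finsum_eq_if]
    have hterm : ∀ s : Subgroup.centralizer (Subgroup.zpowers u : Set G), ¬ p ∣ orderOf s →
        ∑ χ : Cfsg.IrrCharacter G, B.indicator (fun χ : Cfsg.IrrCharacter G =>
          Cfsg.blockPart e (fun c : Subgroup.centralizer (Subgroup.zpowers u : Set G) => (χ : G → ℂ) (u * c)) s *
          Cfsg.blockPart e (fun c : Subgroup.centralizer (Subgroup.zpowers u : Set G) => (χ : G → ℂ) (u⁻¹ * c)) s⁻¹) χ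
        = kerB e s s := by
      intro s hs
      have hs' : ¬ p ∣ orderOf s⁻¹ := by rwa [orderOf_inv]
      have hsub : e ∩ indSet M (Subgroup.centralizer (Subgroup.zpowers u : Set G)) B = e := by
        refine Set.inter_eq_left.mpr fun ξ hξ => ?_
        show Cfsg.IsInducedBlock M _ _ B
        rw [← IsPBlock.eq_blockOf he hξ]
        exact hind
      have hexp : ∀ χ : Cfsg.IrrCharacter G, B.indicator (fun χ : Cfsg.IrrCharacter G =>
          Cfsg.blockPart e (fun c : Subgroup.centralizer (Subgroup.zpowers u : Set G) => (χ : G → ℂ) (u * c)) s *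
          Cfsg.blockPart e (fun c : Subgroup.centralizer (Subgroup.zpowers u : Set G) => (χ : G → ℂ) (u⁻¹ * c)) s⁻¹) χ
          = (Nat.card (Subgroup.centralizer (Subgroup.zpowers u : Set G)) : ℂ)⁻¹ *
            (Nat.card (Subgroup.centralizer (Subgroup.zpowers u : Set G)) : ℂ)⁻¹ *
            ∑ c, ∑ d, kerB e s c * kerB e s⁻¹ d *
              (if χ ∈ B then (χ : G → ℂ) (u * c) * (χ : G → ℂ) (u⁻¹ * d) else 0) := by
        intro χ
        rw [Set.indicator_apply]
        split_ifs with h
        · rw [blockPart_eq_kerB, blockPart_eq_kerB, mul_mul_mul_comm, Finset.sum_mul_sum]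
          congr 1
          exact Finset.sum_congr rfl fun c _ => Finset.sum_congr rfl fun d _ => by ring
        · simp
      rw [Finset.sum_congr rfl fun χ _ => hexp χ, ← Finset.mul_sum, Finset.sum_comm,
        Finset.sum_congr rfl fun c _ => Finset.sum_comm]
      have hinner : ∀ c d : Subgroup.centralizer (Subgroup.zpowers u : Set G),
          ∑ χ : Cfsg.IrrCharacter G, kerB e s c * kerB e s⁻¹ d *
            (if χ ∈ B then (χ : G → ℂ) (u * c) * (χ : G → ℂ) (u⁻¹ * d) else 0)
          = kerB e s⁻¹ d * (kerB e s c *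
              kerB (indSet M (Subgroup.centralizer (Subgroup.zpowers u : Set G)) B) c d⁻¹) := by
        intro c d
        rw [← Finset.mul_sum]
        by_cases hc : p ∣ orderOf c
        · rw [kerB_eq_zero_of_regular hM he hs hc]; ring
        by_cases hd : p ∣ orderOf d
        · rw [kerB_eq_zero_of_regular hM he hs' hd]; ring
        rw [← kerB_mul_eq hM hB hu hH c d⁻¹ hc (by rwa [orderOf_inv])]
        have hk : ∑ χ : Cfsg.IrrCharacter G, (if χ ∈ B then (χ : G → ℂ) (u * c) * (χ : G → ℂ) (u⁻¹ * d) else 0)
            = kerB B (u * (c : G)) (u * ((d⁻¹ : Subgroup.centralizer (Subgroup.zpowers u : Set G)) : G)) := by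
          refine Finset.sum_congr rfl fun χ _ => ?_
          rw [Subgroup.coe_inv, mul_inv_rev, inv_inv, ((hcu d).inv_left).eq]
        rw [hk]; ring
      rw [Finset.sum_congr rfl fun c _ => Finset.sum_congr rfl fun d _ => hinner c d, Finset.sum_comm,
        Finset.sum_congr rfl fun d _ => (Finset.mul_sum ..).symm]
      simp only [sum_kerB_mul, hsub]
      have hsym : ∀ d, kerB e s⁻¹ d = kerB e d⁻¹ s := fun d => by
        refine Finset.sum_congr rfl fun χ _ => ?_
        rw [mul_comm]
      rw [Finset.sum_congr rfl (g := fun d => (Nat.card (Subgroup.centralizer (Subgroup.zpowers u : Set G)) : ℂ) *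
          (kerB e s d⁻¹ * kerB e d⁻¹ s)) fun d _ => by rw [hsym]; ring, ← Finset.mul_sum,
        Fintype.sum_equiv (Equiv.inv (Subgroup.centralizer (Subgroup.zpowers u : Set G)))
          (fun d => kerB e s d⁻¹ * kerB e d⁻¹ s) (fun c => kerB e s c * kerB e c s) (fun d => rfl),
        sum_kerB_mul, Set.inter_self]
      field_simp
    rw [card_mul_blockRank hM he]
    refine Eq.trans ?_ (Finset.sum_congr rfl fun s _ => show (if p ∣ orderOf s then (0 : ℂ)
        else ∑ χ : Cfsg.IrrCharacter G, B.indicator (fun χ : Cfsg.IrrCharacter G =>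
          Cfsg.blockPart e (fun c : Subgroup.centralizer (Subgroup.zpowers u : Set G) => (χ : G → ℂ) (u * c)) s *
          Cfsg.blockPart e (fun c : Subgroup.centralizer (Subgroup.zpowers u : Set G) => (χ : G → ℂ) (u⁻¹ * c)) s⁻¹) χ)
        = if p ∣ orderOf s then 0 else kerB e s s by
      split_ifs with hs
      · rfl
      · exact hterm s hs)
    simp only [Set.indicator_apply]
    rw [Finset.sum_congr rfl (g := fun χ : Cfsg.IrrCharacter G => ∑ s, if p ∣ orderOf s then (0 : ℂ) else
      if χ ∈ B then
        Cfsg.blockPart e (fun c : Subgroup.centralizer (Subgroup.zpowers u : Set G) => (χ : G → ℂ) (u * c)) s *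
        Cfsg.blockPart e (fun c : Subgroup.centralizer (Subgroup.zpowers u : Set G) => (χ : G → ℂ) (u⁻¹ * c)) s⁻¹
      else 0)
      fun χ _ => ?_, Finset.sum_comm]
    · exact Finset.sum_congr rfl fun s _ => by split_ifs <;> simp
    · by_cases hχ : χ ∈ B
      · simp only [if_pos hχ]
        exact Finset.sum_congr rfl fun s _ => by split_ifs <;> simp
      · simp [hχ]

end Cfsg.Agent.S4683
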