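import Cfsg.Statements.S4688
import Mathlib
import Cfsg.Agent.Lib.Blocks.BlockDescent

set_option autoImplicit false
open Cfsg

namespace Cfsg.Agent.S4688

/-- Fix a prime p and a maximal ideal M of the algebraic integers containing p, and a nilpotent p-block B of the finite group G with maximal Brauer pair (P, e). Then for every Brauer pair (Q, f) of B, f is a nilpotent block of C_G(Q); and if moreover (Q, f) ≤ (P, e), then C_P(Q) is a defect group of f as a block of C_G(Q). -/
theorem result {G : Type*} [Group G] [Fintype G] (p : ℕ) [Fact p.Prime] (M : Ideal Cfsg.AlgInt) (hM : Cfsg.IsPModular p M) (B : Set (Cfsg.IrrCharacter G)) (P : Subgroup G) (e : Set (Cfsg.IrrCharacter (Subgroup.centralizer (P : Set G)))) (hmax : Cfsg.IsMaximalBrauerPair p M B P e) (hnil : Cfsg.IsNilpotentBlock p M B) (Q : Subgroup G) (f : Set (Cfsg.IrrCharacter (Subgroup.centralizer (Q : Set G)))) (hQf : Cfsg.IsBrauerPairOf p M B Q f) : Cfsg.IsNilpotentBlock p M f ∧ (Cfsg.SubpairLE p M Q f P e → Cfsg.IsDefectGroup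 p M f ((P ⊓ Subgroup.centralizer (Q : Set G)).subgroupOf (Subgroup.centralizer (Q : Set G)))) := by
  haveI := hM.2.1.isPrime
  classical
  open Cfsg.Lib.Blocks in
  · refine ⟨isNilpotentBlock_centralizer hM hnil hQf, fun hle => ?_⟩
    have hf := hQf.1.2
    rw [isDefectGroup_centralizer_iff hM hf inf_le_right]
    obtain ⟨F, hF⟩ := exists_blockFusionSystem hM hmax
    have hin := (nilpotent_iff_inner hM hF).mp hnil
    rw [← fullyCentralized_iff_brMax hM hF hle]
    refine ⟨subpairLE_le hle, fun Q' hQ' => ?_⟩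
    obtain ⟨φ, hφ, rfl⟩ := hQ'
    rw [hin Q] at hφ
    obtain ⟨-, a, ha, hφa⟩ := hφ
    have hrange : φ.range = Q.map (MulAut.conj a).toMonoidHom := by
      refine le_antisymm ?_ ?_
      · rintro _ ⟨u, rfl⟩
        exact ⟨u, u.2, (hφa u).symm⟩
      · rintro _ ⟨u, hu, rfl⟩
        exact ⟨⟨u, hu⟩, hφa _⟩
    rw [hrange, ← card_conjSub a⁻¹]
    refine Subgroup.card_le_of_le fun y hy => ?_
    rw [mem_conjSub, inv_inv] at hy
    refine ⟨?_, (mem_centralizer_map_conj Q a y).mpr hy.2⟩
    simpa [mul_assoc] using P.mul_mem (P.mul_mem (P.inv_mem ha) hy.1) ha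

end Cfsg.Agent.S4688
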