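import Cfsg.Statements.S4691
import Cfsg.Agent.S4646
-- import your own Cfsg.Agent.* helpers here

set_option autoImplicit false
open Cfsg

namespace Cfsg.Agent.S4691

/-- Fix a prime p and a maximal ideal M of the algebraic integers containing p. A finite group G has a normal p-complement if and only if its principal p-block is nilpotent. -/
theorem result {G : Type*} [Group G] [Fintype G] (p : ℕ) [Fact p.Prime] (M : Ideal Cfsg.AlgInt) (hM : Cfsg.IsPModular p M) : Cfsg.HasNormalPComplement p G ↔ Cfsg.IsNilpotentBlock p M (Cfsg.principalBlock M G) := by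
  classical
  haveI := hM.2.1.isPrime
  have hF : Cfsg.IsPBlock M (Cfsg.principalBlock M G) := Cfsg.Lib.Blocks.isPBlock_principal
  obtain ⟨P⟩ := (Sylow.nonempty : Nonempty (Sylow p G))
  constructor
  · rintro ⟨P', N, hN, hcompl⟩
    haveI := hN
    refine ⟨hF, fun Q e he x hx _ hreg => Subgroup.mem_centralizer_iff.mpr fun q hq => ?_⟩
    have hxN : x ∈ N :=
      (Cfsg.Lib.Transfer.mem_iff_coprime_of_complement (Cfsg.Lib.Transfer.coprime_card_of_isComplement' hcompl).1
        (Cfsg.Lib.Transfer.coprime_card_of_isComplement' hcompl).2.choose_spec x).mpr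
        ((Nat.Prime.coprime_iff_not_dvd Fact.out).mpr hreg).symm
    have hcN : q * x * q⁻¹ * x⁻¹ ∈ N := N.mul_mem (hN.conj_mem x hxN q) (N.inv_mem hxN)
    have hcQ : q * x * q⁻¹ * x⁻¹ ∈ Q := by
      rw [mul_assoc, mul_assoc, ← mul_assoc x]
      exact Q.mul_mem hq ((Subgroup.mem_normalizer_iff.mp hx _).mp (Q.inv_mem hq))
    have hNp : ¬ p ∣ Nat.card N := by
      rw [← hcompl.index_eq_card]; exact P'.not_dvd_index
    have h1 : q * x * q⁻¹ * x⁻¹ = 1 := by
      obtain ⟨k, hk⟩ := IsPGroup.iff_orderOf.mp he.1.1 ⟨_, hcQ⟩
      rw [Subgroup.orderOf_mk] at hk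
      rw [← orderOf_eq_one_iff, hk]
      rcases k with - | k
      · simp
      · exact absurd ((dvd_pow_self p k.succ_ne_zero).trans (hk ▸ N.orderOf_dvd_natCard hcN)) hNp
    rw [mul_inv_eq_one, mul_inv_eq_iff_eq_mul] at h1
    exact h1
  · rintro ⟨-, hnil⟩
    have hfrob : Cfsg.Lib.Transfer.FrobeniusCond P := by
      intro Q hQ g hg hco
      haveI := Fintype.ofFinite (Subgroup.centralizer (Q : Set G))
      refine hnil Q _ (Cfsg.Agent.S4646.principal_pair hM Q (P.isPGroup'.to_le hQ)) g hg ⟨?_, ?_⟩ ?_
      · rw [Subgroup.mem_normalizer_iff]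
        intro c
        simp only [Subgroup.mem_centralizer_iff]
        constructor
        · intro hc q hq
          have h1 := hc (g⁻¹ * q * g) ((Subgroup.mem_normalizer_iff.mp hg _).mpr (by
            simpa [mul_assoc] using hq))
          calc q * (g * c * g⁻¹) = g * ((g⁻¹ * q * g) * c) * g⁻¹ := by group
            _ = g * (c * (g⁻¹ * q * g)) * g⁻¹ := by rw [h1]
            _ = g * c * g⁻¹ * q := by group
        · intro hc q hq
          have h1 := hc (g * q * g⁻¹) ((Subgroup.mem_normalizer_iff.mp hg q).mp hq)
          calc q * c = g⁻¹ * ((g * q * g⁻¹) * (g * c * g⁻¹)) * g := by group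
            _ = g⁻¹ * ((g * c * g⁻¹) * (g * q * g⁻¹)) * g := by rw [h1]
            _ = c * q := by group
      · intro χ hχ
        -- the conjugate character
        have hgN : ∀ k : Subgroup.centralizer (Q : Set G), g⁻¹ * (k : G) * g ∈ Subgroup.centralizer (Q : Set G) := by
          intro k
          rw [Subgroup.mem_centralizer_iff]
          intro q hq
          have h1 := Subgroup.mem_centralizer_iff.mp k.2 (g * q * g⁻¹) ((Subgroup.mem_normalizer_iff.mp hg q).mp hq)
          calc q * (g⁻¹ * k * g) = g⁻¹ * ((g * q * g⁻¹) * k) * g := by group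
            _ = g⁻¹ * ((k : G) * (g * q * g⁻¹)) * g := by rw [h1]
            _ = g⁻¹ * k * g * q := by group
        have hgN' : ∀ k : Subgroup.centralizer (Q : Set G), g * (k : G) * g⁻¹ ∈ Subgroup.centralizer (Q : Set G) := by
          intro k
          rw [Subgroup.mem_centralizer_iff]
          intro q hq
          have h1 := Subgroup.mem_centralizer_iff.mp k.2 (g⁻¹ * q * g) ((Subgroup.mem_normalizer_iff.mp hg _).mpr (by
            simpa [mul_assoc] using hq))
          calc q * (g * k * g⁻¹) = g * ((g⁻¹ * q * g) * k) * g⁻¹ := by group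
            _ = g * ((k : G) * (g⁻¹ * q * g)) * g⁻¹ := by rw [h1]
            _ = g * k * g⁻¹ * q := by group
        let f : Subgroup.centralizer (Q : Set G) ≃* Subgroup.centralizer (Q : Set G) :=
          { toFun := fun k => ⟨g⁻¹ * (k : G) * g, hgN k⟩
            invFun := fun k => ⟨g * (k : G) * g⁻¹, hgN' k⟩
            left_inv := fun k => Subtype.ext (show g * (g⁻¹ * (k : G) * g) * g⁻¹ = k by group)
            right_inv := fun k => Subtype.ext (show g⁻¹ * (g * (k : G) * g⁻¹) * g = k by group)
            map_mul' := fun a b => Subtype.ext (show g⁻¹ * ((a : G) * b) * g = (g⁻¹ * a * g) * (g⁻¹ * b * g) by group) }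
        refine ⟨⟨_, Cfsg.Lib.Characters.isIrrCharacter_comp_surjective χ.2 f.toMonoidHom f.surjective⟩,
          ?_, fun k k' hk => ?_⟩
        · intro c
          have h1 := hχ (f c)
          rw [Cfsg.centralChar, Cfsg.centralChar] at h1 ⊢
          simp only [one_div, div_one, mul_one] at h1 ⊢
          have hidx : (Subgroup.centralizer ({c} : Set (Subgroup.centralizer (Q : Set G)))).index =
              (Subgroup.centralizer ({f c} : Set (Subgroup.centralizer (Q : Set G)))).index := by
            rw [← Subgroup.index_map_equiv (Subgroup.centralizer ({c} : Set (Subgroup.centralizer (Q : Set G)))) f,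
              Subgroup.map_equiv_eq_comap_symm]
            congr 1
            ext y
            rw [Subgroup.mem_comap, Subgroup.mem_centralizer_singleton_iff, Subgroup.mem_centralizer_singleton_iff]
            constructor
            · intro hh; simpa using congrArg f hh
            · intro hh; simpa using congrArg f.symm hh
          rw [hidx]
          simpa using h1
        · refine congrArg (χ : Subgroup.centralizer (Q : Set G) → ℂ) (Subtype.ext ?_)
          show g⁻¹ * (k' : G) * g = k
          rw [hk]; group
      · exact (Nat.Prime.coprime_iff_not_dvd Fact.out).mp hco.symm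
    exact (Cfsg.Lib.Transfer.frobenius_iff P).mpr hfrob

end Cfsg.Agent.S4691
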