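import Cfsg.Statements.S4693
import Mathlib
import Cfsg.Agent.Lib.Blocks.CentricLocal

set_option autoImplicit false
open Cfsg

namespace Cfsg.Agent.S4693

/-- Fix a prime p and a maximal ideal M of the algebraic integers containing p, a p-block B of the finite group G with maximal Brauer pair (P, e) and fusion system F on P, and a Brauer pair (Q, f) ≤ (P, e) with Q centric in F. Suppose every element of G normalizes Q and stabilizes f. Then the idempotent of B agrees with that of f modulo M at every element of G, and f is the idempotent of a nilpotent block of Q·C_G(Q): some p-block of Q·C_G(Q) has the idempotent coefficients of f and is nilpotent. -/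
theorem result {G : Type*} [Group G] [Fintype G] (p : ℕ) [Fact p.Prime] (M : Ideal Cfsg.AlgInt) (hM : Cfsg.IsPModular p M) (B : Set (Cfsg.IrrCharacter G)) (P : Subgroup G) (e : Set (Cfsg.IrrCharacter (Subgroup.centralizer (P : Set G)))) (hmax : Cfsg.IsMaximalBrauerPair p M B P e) (F : Cfsg.FusionSystem P) (hF : Cfsg.IsBlockFusionSystemOn p M B P e F) (Q : Subgroup G) (f : Set (Cfsg.IrrCharacter (Subgroup.centralizer (Q : Set G)))) (hQP : Q ≤ P) (hf : Cfsg.IsPBlock M f) (hle : Cfsg.SubpairLE p M Q f P e) (hcen : F.IsCentric Q) (hG : ∀ x : G, x ∈ Subgroup.normalizer (Q : Set G) ∧ Cfsg.StabilizesBlock (Subgroup.centralizer (Q : Set G)) f x) : (∀ g : G, Cfsg.MemLocalIdeal M (Cfsg.blockCoeff B g - Cfsg.subgroupBlockCoeff (Subgroup.centralizer (Q : Set G)) f g)) ∧ ∃ F' : Set (Cfsg.IrrCharacter ↥(Q ⊔ Subgroup.centralizer (Q : Set G))), Cfsg.IsPBlock M F' ∧ (∀ t : ↥(Q ⊔ Subgroup.centralizer (Q : Set G)), Cfsg.blockCoeff F' t = Cfsg.subgroupBlockCoeff (Subgroup.centralizer (Q : Set G)) f (t : G))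 ∧ Cfsg.IsNilpotentBlock p M F' := by
  haveI := hM.2.1.isPrime
  classical
  open Cfsg.Lib.Blocks in
  · haveI : Q.Normal := ⟨fun n hn x => ((Subgroup.mem_normalizer_iff.mp (hG x).1) n).mp hn⟩
    have hfB := pairOf_of_le hM hF hle
    have hstab : pairStab M ⊤ Q f = ⊤ := eq_top_iff.mpr fun x _ =>
      ⟨trivial, (hG x).1, (stabilizesBlock_iff_cjE hf (hG x).1).mp (hG x).2⟩
    have hB := hfB.2.1
    refine ⟨fun g => ?_, ?_⟩
    · rw [memLocalIdeal_sub_iff (blockCoeff_mem_locRing hB g)
        (Cfsg.Lib.PrincipalPairs.subgroupBlockCoeff_mem hf g), ← coeff_bIdem, ← coeff_subE,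
        bIdem_eq_subE_of_stable hM hfB hstab]
    · obtain ⟨F', hF', hcoe, -⟩ := exists_block_stab hM hfB.1
        (le_sup_right : Subgroup.centralizer (Q : Set G) ≤ Q ⊔ Subgroup.centralizer (Q : Set G))
        le_sup_left (local_le_pairStab Q f)
      exact ⟨F', hF', hcoe, isNilpotentBlock_centric_local hM hfB.1.1 hF' hcoe
        (fun S hS hSC hbr => centric_bound hM hF hle hcen hS hSC hbr) hf⟩

end Cfsg.Agent.S4693
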