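import Cfsg.Statements.S4694
import Cfsg.Agent.S0969
import Cfsg.Agent.S0912
import Cfsg.Agent.Lib.Blocks.CentralInvariant
import Cfsg.Agent.Lib.Blocks.FongReynolds
import Cfsg.Agent.Lib.Characters.Gallagher

set_option autoImplicit false
open Cfsg

namespace Cfsg.Agent.S4694

/-- Fix a prime p and a maximal ideal M of the algebraic integers containing p, a p-block B of the finite group G and a Brauer pair (Q, e) of B. Let T be the stabilizer of e in N_G(Q) and suppose that (Q, e) carries a weight: the block of T whose idempotent is that of e contains an irreducible character χ that is constant on the cosets of Q and whose degree has p-part equal to the p-part of the index of Q in T. Then Z(Q) is a defect group of e as a block of C_G(Q), and Q is the largest normal p-subgroup of T: every p-subgroup of T normalized by T lies in Q. -/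
theorem result {G : Type*} [Group G] [Fintype G] (p : ℕ) [Fact p.Prime] (M : Ideal Cfsg.AlgInt) (hM : Cfsg.IsPModular p M) (B : Set (Cfsg.IrrCharacter G)) (Q : Subgroup G) (e : Set (Cfsg.IrrCharacter (Subgroup.centralizer (Q : Set G)))) (hQe : Cfsg.IsBrauerPairOf p M B Q e) (T : Subgroup G) (hT : ∀ y : G, y ∈ T ↔ y ∈ Subgroup.normalizer (Q : Set G) ∧ Cfsg.StabilizesBlock (Subgroup.centralizer (Q : Set G)) e y) (F' : Set (Cfsg.IrrCharacter T)) (hF' : Cfsg.IsPBlock M F') (hF'e : ∀ t : T, Cfsg.blockCoeff F' t = Cfsg.subgroupBlockCoeff (Subgroup.centralizer (Q : Set G)) e (t : G)) (χ : Cfsg.IrrCharacter T) (hχ : χ ∈ F') (hχQ : ∀ q : G, q ∈ Q → ∀ t : T, ∀ t' : T, (t' : G) = q * (t : G) → (χ : T → ℂ) t' = (χ : T → ℂ) t) (hdeg : (Cfsg.charDegree (χ : T → ℂ)).factorization p + (Nat.card Q).factorization p = (Nat.card T).factorization p) : Cfsg.IsDefectGroup p M e ((Q ⊓ Subgroup.centralizer (Q : Set G)).subgroupOf (Subgroup.centralizer (Q : Set G))) ∧ ∀ R : Subgroup G, R ≤ T → IsPGroup p R → (∀ t ∈ T, t ∈ Subgroup.normalizer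 (R : Set G)) → R ≤ Q := by
  haveI := hM.2.1.isPrime
  classical
  open Cfsg.Lib.Blocks Cfsg.Lib.Characters in
  · have hp : p.Prime := Fact.out
    obtain ⟨⟨hQp, he⟩, -, -⟩ := hQe
    revert e
    generalize hC : Subgroup.centralizer (Q : Set G) = C
    intro e hT hF'e he
    have hCN : C ≤ Subgroup.normalizer (Q : Set G) := by
      intro c hc
      rw [← hC] at hc
      rw [Subgroup.mem_normalizer_iff]
      intro q
      constructor
      · intro hq
        rwa [← Subgroup.mem_centralizer_iff.mp hc q hq, mul_inv_cancel_right]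
      · intro hq
        have := Subgroup.mem_centralizer_iff.mp hc _ hq
        have h2 : c * q * c⁻¹ = q := by
          have h3 : c * q * c⁻¹ * c = c * (c * q * c⁻¹) := this
          have h4 : c * (c * q * c⁻¹) = c * q := by rw [← h3, inv_mul_cancel_right]
          exact mul_left_cancel h4
        rwa [h2] at hq
    have hCT : C ≤ T := by
      intro c hc
      refine (hT c).mpr ⟨hCN hc, Subgroup.le_normalizer hc, fun φ hφ => ⟨φ, hφ, fun x y hxy => ?_⟩⟩
      rw [show y = ⟨c, hc⟩ * x * (⟨c, hc⟩ : C)⁻¹ from Subtype.ext (by simpa using hxy)]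
      exact φ.2.isClassFunction x ⟨c, hc⟩
    have hQN : ∀ q ∈ Q, ∀ x ∈ C, q * x * q⁻¹ ∈ C := fun q hq x hx => by
      rw [← hC, Subgroup.mem_centralizer_iff] at hx ⊢
      intro z hz
      have hz' : q⁻¹ * z * q ∈ Q := mul_mem (mul_mem (inv_mem hq) hz) hq
      calc z * (q * x * q⁻¹) = q * ((q⁻¹ * z * q) * x) * q⁻¹ := by group
        _ = q * (x * (q⁻¹ * z * q)) * q⁻¹ := by rw [hx _ hz']
        _ = q * x * q⁻¹ * z := by group
    -- `e` contains a constituent of `χ`
    obtain ⟨m, hm⟩ := exists_decomposition (isCharacter_comp χ.2.isCharacter (Subgroup.inclusion hCT))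
    have hsum : ∑ c : C, blockCoeff e c * (χ : T → ℂ) (Subgroup.inclusion hCT c) = (χ : T → ℂ) 1 := by
      have h := omega_blockE F' χ
      rw [if_pos hχ, omega, div_eq_one_iff_eq χ.2.one_ne_zero] at h
      simp only [coeff_blockE] at h
      rw [← h, ← Finset.sum_subset (Finset.subset_univ (Finset.univ.filter fun t : T => (t : G) ∈ C))
        fun t _ ht => by
          rw [hF'e, Cfsg.subgroupBlockCoeff, dif_neg (by simpa using ht), zero_mul]]
      refine Finset.sum_bij' (fun c _ => Subgroup.inclusion hCT c)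
        (fun t ht => ⟨(t : G), (Finset.mem_filter.mp ht).2⟩) (fun c _ => by simp) (fun t _ => Finset.mem_univ _)
        (fun c _ => rfl) (fun t _ => Subtype.ext rfl) fun c _ => ?_
      rw [hF'e, Cfsg.subgroupBlockCoeff, dif_pos (show ((Subgroup.inclusion hCT c : T) : G) ∈ C from c.2)]
      rfl
    have hall : ∀ φ : IrrCharacter C, m φ ≠ 0 → φ ∈ e := by
      have h1 : ∑ c : C, blockCoeff e c * (χ : T → ℂ) (Subgroup.inclusion hCT c)
          = ((∑ θ : IrrCharacter C, if θ ∈ e then m θ * charDegree (θ : C → ℂ) else 0 : ℕ) : ℂ) := by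
        have hm' := fun c => congrFun hm c
        simp only [Finset.sum_apply, Pi.smul_apply, smul_eq_mul] at hm'
        simp only [hm', Finset.mul_sum, Nat.cast_sum]
        rw [Finset.sum_comm]
        refine Finset.sum_congr rfl fun θ _ => ?_
        have h := omega_blockE e θ
        rw [omega, div_eq_iff θ.2.one_ne_zero] at h
        simp only [coeff_blockE] at h
        rw [Finset.sum_congr rfl (g := fun c => (m θ : ℂ) * (blockCoeff e c * (θ : C → ℂ) c)) fun c _ => by ring,
          ← Finset.mul_sum, h]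
        split_ifs <;> simp [coe_charDegree]
      rw [hsum] at h1
      have h2 : (χ : T → ℂ) 1 = ((∑ φ : IrrCharacter C, m φ * charDegree (φ : C → ℂ) : ℕ) : ℂ) := by
        have h := congrFun hm 1
        simp only [Finset.sum_apply, Pi.smul_apply, smul_eq_mul, map_one] at h
        rw [h]; push_cast
        exact Finset.sum_congr rfl fun φ _ => by rw [coe_charDegree]
      rw [h2, Nat.cast_inj] at h1
      intro φ hφ
      by_contra hn
      have hlt : ∑ θ : IrrCharacter C, (if θ ∈ e then m θ * charDegree (θ : C → ℂ) else 0)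
          < ∑ θ : IrrCharacter C, m θ * charDegree (θ : C → ℂ) := by
        refine Finset.sum_lt_sum (fun θ _ => by split_ifs <;> simp) ⟨φ, Finset.mem_univ _, ?_⟩
        rw [if_neg hn]
        exact Nat.mul_pos (Nat.pos_of_ne_zero hφ) (charDegree_pos φ)
      omega
    -- the quotient by `Q`
    have hcomm : ∀ q ∈ Q, ∀ x ∈ C, q * x = x * q := fun q hq x hx => by
      rw [← hC, Subgroup.mem_centralizer_iff] at hx; exact hx q hq
    have hQT : Q ≤ T := by
      intro q hq
      refine (hT q).mpr ⟨Subgroup.le_normalizer hq, ?_, fun φ hφ => ⟨φ, hφ, fun x y hxy => ?_⟩⟩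
      · rw [Subgroup.mem_normalizer_iff]
        intro x
        constructor
        · intro hx
          rwa [hcomm q hq x hx, mul_inv_cancel_right]
        · intro hx
          have h := hcomm q⁻¹ (inv_mem hq) _ hx
          have h2 : q * x * q⁻¹ = x := by
            have h3 : q⁻¹ * (q * x * q⁻¹) = q * x * q⁻¹ * q⁻¹ := h
            have h4 : x * q⁻¹ = q * x * q⁻¹ * q⁻¹ := by rw [← h3]; group
            exact (mul_right_cancel h4).symm
          rwa [h2] at hx
      · exact congrArg (φ : C → ℂ) (Subtype.ext (by rw [hxy, hcomm q hq x x.2, mul_inv_cancel_right]))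
    set QT := Q.subgroupOf T with hQTdef
    haveI : QT.Normal := by
      refine ⟨fun x hx t => ?_⟩
      rw [hQTdef, Subgroup.mem_subgroupOf] at hx ⊢
      simpa using (Subgroup.mem_normalizer_iff.mp ((hT t).mp t.2).1 _).mp hx
    haveI : (C.subgroupOf T).Normal := by
      refine ⟨fun x hx t => ?_⟩
      rw [Subgroup.mem_subgroupOf] at hx ⊢
      simpa using (Subgroup.mem_normalizer_iff.mp ((hT t).mp t.2).2.1 _).mp hx
    obtain ⟨χb, hχb⟩ := exists_descend_surjective (QuotientGroup.mk'_surjective QT) χ.2 (fun k hk => by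
      rw [QuotientGroup.ker_mk'] at hk
      exact hχQ (k : G) hk 1 k (by simp))
    have hχb1 : charDegree (χb : T ⧸ QT → ℂ) = charDegree (χ : T → ℂ) := by
      rw [← Nat.cast_inj (R := ℂ), coe_charDegree, coe_charDegree, ← hχb 1, map_one]
    have hcardQT : Nat.card QT = Nat.card Q := Nat.card_congr (Subgroup.subgroupOfEquivOfLe hQT).toEquiv
    have hfacT : (Nat.card (T ⧸ QT)).factorization p + (Nat.card Q).factorization p
        = (Nat.card T).factorization p := by
      rw [← hcardQT, ← Finsupp.add_apply, ← Nat.factorization_mul Nat.card_pos.ne' Nat.card_pos.ne',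
        ← Subgroup.index_eq_card, mul_comm, Subgroup.card_mul_index]
    haveI : Fintype (T ⧸ QT) := Fintype.ofFinite _
    refine ⟨?_, ?_⟩
    swap
    · intro R hRT hRp hRn
      have hb := Cfsg.Agent.S0969.result p M hM (⊥ : Subgroup (T ⧸ QT)) IsPGroup.of_bot bot_le χb (by
        rw [hχb1, Subgroup.index_bot]; omega)
      have hle := Cfsg.Agent.S0912.result p M hM (blockOf M (χb : T ⧸ QT → ℂ)) ⟨χb, rfl⟩ ⊥ hb.1
      have hRb : (R.subgroupOf T).map (QuotientGroup.mk' QT) ≤ Cfsg.pCore p (T ⧸ QT) := by
        refine le_sSup ⟨?_, ?_⟩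
        · haveI : (R.subgroupOf T).Normal := ⟨fun x hx t => by
            rw [Subgroup.mem_subgroupOf] at hx ⊢
            simpa using (Subgroup.mem_normalizer_iff.mp (hRn t t.2) _).mp hx⟩
          exact Subgroup.Normal.map inferInstance _ (QuotientGroup.mk'_surjective QT)
        · exact (hRp.of_equiv (Subgroup.subgroupOfEquivOfLe hRT).symm).map _
      intro r hr
      have h := hle (hRb ⟨⟨r, hRT hr⟩, hr, rfl⟩)
      rw [Subgroup.mem_bot, QuotientGroup.mk'_apply, QuotientGroup.eq_one_iff] at h
      exact h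
    -- the constituent on `C`
    set Cb := (C.subgroupOf T).map (QuotientGroup.mk' QT)
    haveI : Cb.Normal := Subgroup.Normal.map inferInstance _ (QuotientGroup.mk'_surjective QT)
    let π : C →* Cb := ((QuotientGroup.mk' QT).comp (Subgroup.inclusion hCT)).codRestrict Cb
      fun c => ⟨Subgroup.inclusion hCT c, c.2, rfl⟩
    have hπ : Function.Surjective π := by
      rintro ⟨_, t, ht, rfl⟩
      exact ⟨⟨(t : G), ht⟩, Subtype.ext rfl⟩
    obtain ⟨ψ, hψ⟩ := exists_res_constituent (N := Cb) χb
    have hθirr := isIrrCharacter_comp_surjective ψ.2 π hπ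
    have hθe : (⟨_, hθirr⟩ : IrrCharacter C) ∈ e := by
      refine hall _ fun h0 => hψ ?_
      have h1 : classInner (fun c : C => (χ : T → ℂ) (Subgroup.inclusion hCT c))
          (fun c : C => (ψ : Cb → ℂ) (π c)) = 0 := by
        rw [show (fun c : C => (χ : T → ℂ) (Subgroup.inclusion hCT c))
          = ∑ φ : IrrCharacter C, (m φ : ℂ) • (φ : C → ℂ) from hm]
        exact (classInner_sum_irr (fun φ => (m φ : ℂ)) ⟨_, hθirr⟩).trans (by rw [h0, Nat.cast_zero])
      simp only [← hχb] at h1
      have hfib : ∀ x : Cb, (Finset.univ.filter fun c : C => π c = x).card = Nat.card π.ker := fun x => by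
        obtain ⟨c₀, rfl⟩ := hπ x
        rw [Nat.card_eq_fintype_card, ← Finset.card_univ (α := π.ker)]
        refine Finset.card_bij' (fun c hc => ⟨c₀⁻¹ * c, ?_⟩) (fun k _ => c₀ * (k : C)) (fun c _ => Finset.mem_univ _)
          (fun k _ => ?_) (fun c _ => by simp) (fun k _ => by simp)
        · rw [MonoidHom.mem_ker, map_mul, map_inv, (Finset.mem_filter.mp hc).2, inv_mul_cancel]
        · simp [MonoidHom.mem_ker.mp k.2]
      rw [classInner, ← Finset.sum_fiberwise Finset.univ π,
        Finset.sum_congr rfl (g := fun x : Cb => (Nat.card π.ker : ℂ) * ((χb : T ⧸ QT → ℂ) x * (starRingEnd ℂ) ((ψ : Cb → ℂ) x)))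
          fun x _ => by
            rw [← hfib x, ← nsmul_eq_mul, ← Finset.sum_const]
            refine Finset.sum_congr rfl fun c hc => ?_
            rw [← (Finset.mem_filter.mp hc).2]
            rfl, ← Finset.mul_sum, Subgroup.card_eq_card_quotient_mul_card_subgroup π.ker,
        Nat.card_congr (QuotientGroup.quotientKerEquivOfSurjective π hπ).toEquiv] at h1
      have hk : (Nat.card π.ker : ℂ) ≠ 0 := Nat.cast_ne_zero.mpr Nat.card_pos.ne'
      rw [classInner, ← h1]
      push_cast
      field_simp
    obtain ⟨hd1, hd2⟩ := degree_dvd_of_normal ψ.2 χb.2 hψ (coe_charDegree χb).symm (coe_charDegree ψ).symm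
    have hψle : (charDegree (ψ : Cb → ℂ)).factorization p ≤ (Nat.card Cb).factorization p :=
      (Nat.factorization_le_iff_dvd (charDegree_pos ψ).ne' Nat.card_pos.ne').mpr
        (degree_dvd_card ψ.2 (coe_charDegree ψ).symm) p
    obtain ⟨k, hk⟩ := hd2
    have hk0 : charDegree (χb : T ⧸ QT → ℂ) / charDegree (ψ : Cb → ℂ) ≠ 0 :=
      (Nat.div_pos (Nat.le_of_dvd (charDegree_pos χb) hd1) (charDegree_pos ψ)).ne'
    have hidx : ((charDegree (χb : T ⧸ QT → ℂ)) / charDegree (ψ : Cb → ℂ)).factorization p
        ≤ Cb.index.factorization p :=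
      (Nat.factorization_le_iff_dvd hk0 Subgroup.index_ne_zero_of_finite).mpr ⟨k, hk⟩ p
    rw [Nat.factorization_div hd1, Finsupp.tsub_apply, hχb1] at hidx
    have hd1p : (charDegree (ψ : Cb → ℂ)).factorization p ≤ (charDegree (χ : T → ℂ)).factorization p :=
      hχb1 ▸ (Nat.factorization_le_iff_dvd (charDegree_pos ψ).ne' (charDegree_pos χb).ne').mpr hd1 p
    have hsplit : (Nat.card Cb).factorization p + Cb.index.factorization p = (Nat.card (T ⧸ QT)).factorization p := by
      rw [← Finsupp.add_apply, ← Nat.factorization_mul Nat.card_pos.ne' Subgroup.index_ne_zero_of_finite,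
        Subgroup.card_mul_index]
    set Z := (Q ⊓ C).subgroupOf C
    have hker : π.ker = Z := by
      ext c
      rw [MonoidHom.mem_ker, Subtype.ext_iff]
      show ((Subgroup.inclusion hCT c : T) : T ⧸ QT) = 1 ↔ _
      rw [QuotientGroup.eq_one_iff, hQTdef, Subgroup.mem_subgroupOf, Subgroup.mem_subgroupOf, Subgroup.mem_inf]
      exact ⟨fun h => ⟨h, c.2⟩, fun h => h.1⟩
    have hZidx : Z.index = Nat.card Cb := by
      rw [← hker, Subgroup.index_ker, MonoidHom.range_eq_top.mpr hπ, Subgroup.card_top]
    have h969 := Cfsg.Agent.S0969.result p M hM Z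
      ((hQp.to_le inf_le_left).of_equiv (Subgroup.subgroupOfEquivOfLe inf_le_right).symm)
      (fun z hz => by
        rw [Subgroup.mem_center_iff]
        intro x
        exact Subtype.ext (hcomm (z : G) (Subgroup.mem_subgroupOf.mp hz).1 x x.2).symm)
      ⟨_, hθirr⟩ (by
        have e1 : charDegree (fun c : C => (ψ : Cb → ℂ) (π c)) = charDegree (ψ : Cb → ℂ) := by
          rw [← Nat.cast_inj (R := ℂ), coe_charDegree ⟨_, hθirr⟩, coe_charDegree ψ]
          simp
        rw [hZidx, e1]
        omega)
    rw [IsPBlock.eq_blockOf he hθe]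
    exact h969.1

end Cfsg.Agent.S4694
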