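import Cfsg.Statements.S4702
import Cfsg.Agent.Lib.PermGroup.SharpThreeOdd

set_option autoImplicit false
open Cfsg

namespace Cfsg.Agent.S4702

/-- Let G be a triply transitive permutation group on a finite set of odd size m ≥ 3 in which only the identity fixes three or more points. Then m = 2^a + 1 for some a ≥ 1 and G is isomorphic to SL(2, 2^a). -/
theorem result {α : Type*} [Fintype α] [DecidableEq α] (hm : 3 ≤ Fintype.card α) (hodd : Odd (Fintype.card α)) (G : Subgroup (Equiv.Perm α)) (h3 : MulAction.IsMultiplyPretransitive G α 3) (hfix : ∀ g : G, 3 ≤ Nat.card (MulAction.fixedBy α g) → g = 1) : ∃ a : ℕ, 1 ≤ a ∧ Fintype.card α = 2 ^ a + 1 ∧ ∃ (F : Type) (_ : Field F) (_ : Fintype F), Fintype.card F = 2 ^ a ∧ Nonempty (G ≃* Matrix.SpecialLinearGroup (Fin 2) F) := by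
  classical
  have hsh : ∀ g : G, ∀ x y z : α, x ≠ y → x ≠ z → y ≠ z → g • x = x → g • y = y → g • z = z → g = 1 := by
    intro g x y z hxy hxz hyz gx gy gz
    refine hfix g ?_
    have h3c : ({x, y, z} : Finset α).card = 3 := Finset.card_eq_three.2 ⟨x, y, z, hxy, hxz, hyz, rfl⟩
    rw [Nat.card_eq_fintype_card, ← Set.toFinset_card, ← h3c]
    refine Finset.card_le_card fun w hw => ?_
    simp only [Finset.mem_insert, Finset.mem_singleton] at hw
    rcases hw with rfl | rfl | rfl <;> simp [gx, gy, gz]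
  obtain ⟨f, hf, hcard, F, i1, i2, hF, ⟨iso⟩⟩ := Cfsg.Lib.SharpThreeOdd.exists_iso h3 hsh hodd hm
  refine ⟨f, hf, hcard, F, i1, i2, hF, ⟨iso.trans (MulEquiv.ofBijective
    (Matrix.SpecialLinearGroup.toPGL (n := Fin 2) (R := F)) ⟨?_, ?_⟩).symm⟩⟩
  · have h2 : ringChar F = 2 := by
      obtain ⟨n, hp, hn⟩ := FiniteField.card F (ringChar F)
      have h := hn.symm.trans hF
      have hd : ringChar F ∣ 2 ^ f := h ▸ dvd_pow_self _ n.pos.ne'
      exact (Nat.prime_dvd_prime_iff_eq hp Nat.prime_two).1 (hp.dvd_of_dvd_pow hd)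
    refine (injective_iff_map_eq_one _).2 fun A hA => ?_
    have hAc : A ∈ Subgroup.center (Matrix.SpecialLinearGroup (Fin 2) F) := by
      rw [← Matrix.SpecialLinearGroup.toPGL_ker]; exact hA
    obtain ⟨r, hr, hA'⟩ := Matrix.SpecialLinearGroup.mem_center_iff.1 hAc
    haveI : CharP F 2 := ringChar.eq_iff.1 h2
    have hr1 : r = 1 := by
      rw [Fintype.card_fin] at hr
      exact CharTwo.sq_inj.1 (hr.trans (one_pow 2).symm)
    refine Subtype.ext ?_
    rw [← hA', hr1, map_one]; rfl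
  · intro g
    obtain ⟨A, hA⟩ := Matrix.ProjectiveSpecialLinearGroup.toPGL_surj_of_roots (n := Fin 2) (R := F) (fun r => by
      have h2 : ringChar F = 2 := by
        obtain ⟨n, hp, hn⟩ := FiniteField.card F (ringChar F)
        have h := hn.symm.trans hF
        have hd : ringChar F ∣ 2 ^ f := h ▸ dvd_pow_self _ n.pos.ne'
        exact (Nat.prime_dvd_prime_iff_eq hp Nat.prime_two).1 (hp.dvd_of_dvd_pow hd)
      obtain ⟨k, hk⟩ := FiniteField.isSquare_of_char_two h2 (r : F)
      have hk0 : k ≠ 0 := fun h => r.ne_zero (by rw [hk, h, mul_zero])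
      exact ⟨Units.mk0 k hk0, Units.ext (by simp [hk, pow_two])⟩) g
    obtain ⟨B, rfl⟩ := QuotientGroup.mk_surjective A
    exact ⟨B, hA⟩

end Cfsg.Agent.S4702
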