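import Cfsg.Statements.S4708
import Cfsg.Agent.Lib.Blocks.PrincipalSums
-- import your own Cfsg.Agent.* helpers here

set_option autoImplicit false
open Cfsg

namespace Cfsg.Agent.S4708

/-- Let p be a prime, M a maximal ideal of the algebraic integers containing p, G a finite group and H a normal subgroup. Write λ(X) for the sum of the squares of the degrees of the irreducible characters in the principal p-block of a group X. Then λ(H) ≤ λ(G) ≤ [G : H]·λ(H). -/
theorem result {G : Type*} [Group G] [Finite G] (p : ℕ) [Fact p.Prime] (M : Ideal Cfsg.AlgInt) (hM : Cfsg.IsPModular p M) (H : Subgroup G) [H.Normal] : (∑ᶠ θ ∈ Cfsg.principalBlock M H, Cfsg.charDegree (θ : H → ℂ) ^ 2) ≤ (∑ᶠ χ ∈ Cfsg.principalBlock M G, Cfsg.charDegree (χ : G → ℂ) ^ 2) ∧ (∑ᶠ χ ∈ Cfsg.principalBlock M G, Cfsg.charDegree (χ : G → ℂ) ^ 2) ≤ H.index * ∑ᶠ θ ∈ Cfsg.principalBlock M H, Cfsg.charDegree (θ : H → ℂ) ^ 2 := by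
  classical
  haveI := Fintype.ofFinite G
  haveI := Fintype.ofFinite H
  haveI := hM.2.1.isPrime
  open Cfsg.Lib.Characters Cfsg.Lib.Blocks in
  choose a ha using fun (χ : Cfsg.IrrCharacter G) (θ : Cfsg.IrrCharacter H) =>
    classInner_nat (isCharacter_restrict χ.2.isCharacter H) θ.2.isCharacter
  open Cfsg.Lib.Characters in
  choose dG hdG using fun χ : Cfsg.IrrCharacter G => exists_degree χ.2.isCharacter
  open Cfsg.Lib.Characters in
  choose dH hdH using fun θ : Cfsg.IrrCharacter H => exists_degree θ.2.isCharacter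
  rw [finsum_mem_eq_finite_toFinset_sum _ (Set.toFinite _), finsum_mem_eq_finite_toFinset_sum _ (Set.toFinite _)]
  simp only [Cfsg.Lib.Blocks.charDegree_eq (hdG _), Cfsg.Lib.Blocks.charDegree_eq (hdH _)]
  set S := (Set.toFinite (Cfsg.principalBlock M G)).toFinset
  set s := (Set.toFinite (Cfsg.principalBlock M H)).toFinset
  have hres : ∀ χ ∈ S, dG χ = ∑ θ ∈ s, a χ θ * dH θ := by
    intro χ hχ
    obtain ⟨m, hm⟩ := Cfsg.Lib.Characters.exists_decomposition
      (Cfsg.Lib.Characters.isCharacter_restrict χ.2.isCharacter H)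
    have hma : ∀ θ, m θ = a χ θ := fun θ => by
      have h := ha χ θ
      rw [hm, Cfsg.Lib.Characters.classInner_sum_irr (fun φ => (m φ : ℂ)) θ] at h
      exact_mod_cast h
    have h1 := congr_fun hm 1
    simp only [OneMemClass.coe_one, Finset.sum_apply, Pi.smul_apply, smul_eq_mul, hdG, hdH, hma] at h1
    have h2 : dG χ = ∑ θ, a χ θ * dH θ := by exact_mod_cast h1
    rw [h2]
    refine (Finset.sum_subset (Finset.subset_univ s) fun θ _ hθ => ?_).symm
    rw [mul_eq_zero]
    left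
    by_contra hne
    apply hθ
    rw [Set.Finite.mem_toFinset]
    refine Cfsg.Lib.Blocks.constituent_mem_principal H ((Set.Finite.mem_toFinset _).1 hχ) ?_
    rw [ha]
    exact Nat.cast_ne_zero.2 hne
  have hind : ∀ θ, ∑ χ, a χ θ * dG χ = H.index * dH θ := by
    intro θ
    obtain ⟨m, hm⟩ := Cfsg.Lib.Characters.exists_decomposition
      (Cfsg.Lib.Characters.isCharacter_indFun H θ.2.isCharacter)
    have hma : ∀ χ, m χ = a χ θ := fun χ => by
      have h : Cfsg.classInner (Cfsg.indFun H (θ : H → ℂ)) (χ : G → ℂ) = m χ := by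
        rw [hm]; exact Cfsg.Lib.Characters.classInner_sum_irr (fun φ => (m φ : ℂ)) χ
      rw [Cfsg.Lib.Characters.classInner_indFun H _ χ.2.isClassFunction,
        ← Cfsg.Lib.Characters.conj_classInner, ha, map_natCast] at h
      exact_mod_cast h.symm
    have h1 := congr_fun hm 1
    simp only [Cfsg.Lib.Characters.indFun_one_apply, Finset.sum_apply, Pi.smul_apply, smul_eq_mul, hdG, hdH, hma] at h1
    exact_mod_cast h1.symm
  have hsq : ∑ χ ∈ S, dG χ ^ 2 = ∑ θ ∈ s, dH θ * ∑ χ ∈ S, a χ θ * dG χ := by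
    simp only [Finset.mul_sum]
    rw [Finset.sum_comm]
    refine Finset.sum_congr rfl fun χ hχ => ?_
    rw [pow_two]
    nth_rewrite 1 [hres χ hχ]
    rw [Finset.sum_mul]
    exact Finset.sum_congr rfl fun θ _ => by ring
  rw [hsq]
  constructor
  · refine Finset.sum_le_sum fun θ hθ => ?_
    rw [pow_two]
    refine Nat.mul_le_mul_left _ ?_
    obtain ⟨χ, hχ, hne⟩ := Cfsg.Lib.Blocks.exists_principal_over hM H ((Set.Finite.mem_toFinset _).1 hθ)
    rw [ha] at hne
    have ha1 : 1 ≤ a χ θ := Nat.one_le_iff_ne_zero.2 fun h => hne (by rw [h, Nat.cast_zero])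
    have hχS : χ ∈ S := (Set.Finite.mem_toFinset _).2 hχ
    calc dH θ ≤ a χ θ * dH θ := Nat.le_mul_of_pos_left _ ha1
      _ ≤ ∑ ψ ∈ s, a χ ψ * dH ψ := Finset.single_le_sum (f := fun ψ => a χ ψ * dH ψ) (fun _ _ => Nat.zero_le _) hθ
      _ = dG χ := (hres χ hχS).symm
      _ ≤ a χ θ * dG χ := Nat.le_mul_of_pos_left _ ha1
      _ ≤ _ := Finset.single_le_sum (f := fun ψ => a ψ θ * dG ψ) (fun _ _ => Nat.zero_le _) hχS
  · rw [Finset.mul_sum]
    refine Finset.sum_le_sum fun θ _ => ?_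
    calc dH θ * ∑ χ ∈ S, a χ θ * dG χ ≤ dH θ * ∑ χ, a χ θ * dG χ :=
          Nat.mul_le_mul_left _ (Finset.sum_le_univ_sum_of_nonneg fun _ => Nat.zero_le _)
      _ = H.index * dH θ ^ 2 := by rw [hind]; ring

end Cfsg.Agent.S4708
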