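import Cfsg.Statements.S4709
import Cfsg.Agent.Lib.Blocks.FreeNormalizer
-- import your own Cfsg.Agent.* helpers here

set_option autoImplicit false
open Cfsg

namespace Cfsg.Agent.S4709

/-- Let p be a prime, M a maximal ideal of the algebraic integers containing p, and G a finite group with a nontrivial abelian Sylow p-subgroup P; put N = N_G(P), C = C_G(P). Suppose N/C is cyclic of order m with 1 < m < #P − 1 (C has index m in N and N is generated by C and one element), and C_G(y) ∩ N = C for every non-identity y ∈ P. Put r = (#P − 1)/m. Then there is s ≤ m such that the principal p-block is the disjoint union of a set X of s characters containing the principal character and a set Y of r characters, with integers a_χ ≠ 0 (χ ∈ X), d and a sign δ = ±1, such that: every χ ∈ X takes the value a_χ at every element whose p-part is a non-identity element of P; there is a map ζ from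 the non-principal linear characters ψ of P onto Y, constant on N-conjugacy classes, with ζ_ψ(z) = d + δ·Σ ψ'(y) for every z whose p-part y is a non-identity element of P, the sum running over the N-conjugates ψ' of ψ; (d − δ)^2 + (r − 1) d^2 + Σ_{χ ∈ X} a_χ^2 = m + 1; all members of Y agree on p-regular elements; and (r d − δ) η(g) + Σ_{χ ∈ X} a_χ χ(g) = 0 for every η ∈ Y and every p-regular g. -/
theorem result {G : Type*} [Group G] [Finite G] (p : ℕ) [Fact p.Prime] (M : Ideal Cfsg.AlgInt) (hM : Cfsg.IsPModular p M) (P : Sylow p G) (hab : IsMulCommutative P) (hP1 : Nat.card P ≠ 1) (m : ℕ) (hm1 : 1 < m) (hm2 : m + 1 < Nat.card P) (hCN : (Subgroup.centralizer ((P : Subgroup G) : Set G)).relIndex (Subgroup.normalizer ((P : Subgroup G) : Set G)) = m) (hcyc : ∃ g : G, g ∈ Subgroup.normalizer ((P : Subgroup G) : Set G) ∧ Subgroup.centralizer ((P : Subgroup G) : Set G) ⊔ Subgroup.zpowers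 g = Subgroup.normalizer ((P : Subgroup G) : Set G)) (hfrob : ∀ y : G, y ∈ (P : Subgroup G) → y ≠ 1 → Subgroup.centralizer ({y} : Set G) ⊓ Subgroup.normalizer ((P : Subgroup G) : Set G) = Subgroup.centralizer ((P : Subgroup G) : Set G)) : ∃ (s : ℕ) (X Y : Set (Cfsg.IrrCharacter G)), s ≤ m ∧ Cfsg.principalBlock M G = X ∪ Y ∧ Disjoint X Y ∧ Nat.card X = s ∧ Nat.card Y = (Nat.card P - 1) / m ∧ (∃ χ₁ ∈ X, (χ₁ : G → ℂ) = fun _ => 1) ∧ ∃ (a : Cfsg.IrrCharacter G → ℤ) (d δ : ℤ) (ζ : (↥(P : Subgroup G) →* ℂˣ) → Cfsg.IrrCharacter G), (δ = 1 ∨ δ = -1) ∧ (∀ χ ∈ X, a χ ≠ 0 ∧ ∀ z y : G, Cfsg.IsPPart p z y → y ∈ (P : Subgroup G) → y ≠ 1 → (χ : G → ℂ) z = (a χ : ℂ)) ∧ (∀ ψ : ↥(P : Subgroup G) →* ℂˣ, ψ ≠ 1 → ζ ψ ∈ Y) ∧ (∀ η ∈ Y, ∃ ψ : ↥(P : Subgroup G) →* ℂˣ, ψ ≠ 1 ∧ ζ ψ = η) ∧ (∀ ψ ψ' : ↥(P : Subgroup G) →* ℂˣ, ψ ≠ 1 → (∃ n : G, n ∈ Subgroup.normalizer ((P : Subgroup G) : Set G) ∧ ∀ w w' :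 ↥(P : Subgroup G), (w' : G) = n * w * n⁻¹ → ψ' w' = ψ w) → ζ ψ' = ζ ψ) ∧ (∀ ψ : ↥(P : Subgroup G) →* ℂˣ, ψ ≠ 1 → ∀ (z : G) (y : ↥(P : Subgroup G)), Cfsg.IsPPart p z (y : G) → (y : G) ≠ 1 → (ζ ψ : G → ℂ) z = (d : ℂ) + (δ : ℂ) * ∑ᶠ ψ' ∈ {ψ' : ↥(P : Subgroup G) →* ℂˣ | ∃ n : G, n ∈ Subgroup.normalizer ((P : Subgroup G) : Set G) ∧ ∀ w w' : ↥(P : Subgroup G), (w' : G) = n * w * n⁻¹ → ψ' w' = ψ w}, ((ψ' y : ℂˣ) : ℂ)) ∧ ((d - δ) ^ 2 + ((Nat.card P - 1) / m - 1 : ℤ) * d ^ 2 + ∑ᶠ χ ∈ X, a χ ^ 2 = (m : ℤ) + 1) ∧ (∀ η ∈ Y, ∀ η' ∈ Y, ∀ g : G, ¬ p ∣ orderOf g → (η : G → ℂ) g = (η' : G → ℂ) g) ∧ (∀ η ∈ Y, ∀ g : G, ¬ p ∣ orderOf g → ((((Nat.card P - 1) / m : ℕ) : ℂ) * d - δ) * (η : G → ℂ) g + ∑ᶠ χ ∈ X, (a χ : ℂ) * (χ : G → ℂ) g = 0) := by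
  classical
  haveI := hM.2.1.isPrime
  letI := Fintype.ofFinite G
  open Cfsg.Lib.FreeNormalizer in
  have h : Hyp P := ⟨fun a b => hab.is_comm.comm a b, hfrob⟩
  haveI := Cfsg.Lib.FreeNormalizer.finite_hom_of_comm h.comm
  letI := Fintype.ofFinite (↥(P : Subgroup G) →* ℂˣ)
  have hcA : Nat.card (Cfsg.Lib.FreeNormalizer.aut P) = m := by
    rw [Cfsg.Lib.FreeNormalizer.card_aut, hCN]
  obtain ⟨E⟩ := Cfsg.Lib.FreeNormalizer.exists_exc h hM (by rw [hcA]; exact hm2)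
  have hP : 1 < Nat.card ↥(P : Subgroup G) := by omega
  have hmul := E.card_excS_mul h
  rw [hcA] at hmul
  have hr : E.excS.card = (Nat.card P - 1) / m := by
    rw [← hmul, Nat.mul_div_cancel _ (by omega)]
  have hr2 : 2 ≤ E.excS.card := by
    by_contra hlt
    have : E.excS.card * m ≤ 1 * m := Nat.mul_le_mul_right m (by omega)
    omega
  have hnorm := E.norm_id h hM hP
  rw [hcA] at hnorm
  have hsgn : E.sgn ^ 2 = 1 := by rcases E.sgn_sq with e | e <;> simp [e]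
  haveI : Nontrivial ↥(P : Subgroup G) := Finite.one_lt_card_iff_nontrivial.mp hP
  obtain ⟨w₀, hw₀⟩ := exists_ne (1 : ↥(P : Subgroup G))
  have hne0 : ∀ χ ∈ E.oth, E.av χ ≠ 0 := fun χ hχ => by
    by_cases ht : χ = Cfsg.Lib.Blocks.trivChar G
    · rw [ht, E.av_triv hw₀]; norm_num
    · exact E.av_ne_zero h hM hχ ht
  have hs : E.oth.card ≤ m := by
    have hge : (E.oth.card : ℤ) ≤ ∑ χ ∈ E.oth, E.av χ ^ 2 := by
      rw [Finset.card_eq_sum_ones, Nat.cast_sum, Nat.cast_one]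
      refine Finset.sum_le_sum fun χ hχ => ?_
      have := hne0 χ hχ
      nlinarith [Int.one_le_abs this, sq_abs (E.av χ)]
    have h3 : (2 : ℤ) ≤ E.excS.card := by exact_mod_cast hr2
    have hd2 : 0 ≤ (E.excS.card : ℤ) * E.dd ^ 2 - 2 * E.sgn * E.dd := by
      rcases eq_or_ne E.dd 0 with hd | hd
      · simp [hd]
      · have h4 : 1 ≤ E.dd ^ 2 := by nlinarith [Int.one_le_abs hd, sq_abs E.dd]
        have h5 : 2 * E.sgn * E.dd ≤ 2 * E.dd ^ 2 := by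
          rcases E.sgn_sq with e | e <;> rw [e] <;> nlinarith [Int.one_le_abs hd, le_abs_self E.dd, neg_abs_le E.dd, sq_abs E.dd]
        nlinarith
    omega
  have hcast : ((Nat.card P - 1) / m - 1 : ℤ) = (E.excS.card : ℤ) - 1 := by
    rw [hr]; push_cast [Nat.cast_sub (by omega : 1 ≤ Nat.card P)]; rfl
  have hset : ∀ ψ : ↥(P : Subgroup G) →* ℂˣ,
      {ψ' : ↥(P : Subgroup G) →* ℂˣ | ∃ n : G, n ∈ Subgroup.normalizer ((P : Subgroup G) : Set G) ∧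
        ∀ w w' : ↥(P : Subgroup G), (w' : G) = n * w * n⁻¹ → ψ' w' = ψ w}
      = {ψ' | ∃ e : Cfsg.Lib.FreeNormalizer.aut P, Cfsg.Lib.FreeNormalizer.cmp ψ e = ψ'} := by
    intro ψ
    exact Set.ext fun ψ' => Cfsg.Lib.FreeNormalizer.conj_rel_iff ψ ψ'
  refine ⟨E.oth.card, ↑E.oth, ↑E.excS, hs, ?_, ?_, ?_, ?_, ?_, E.av, E.dd, E.sgn, E.mu, E.sgn_sq,
    ?_, ?_, ?_, ?_, ?_, ?_, ?_, ?_⟩
  · ext χ
    rw [Set.mem_union, Finset.mem_coe, Finset.mem_coe, Cfsg.Lib.FreeNormalizer.Exc.oth,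
      Finset.mem_sdiff, ← Cfsg.Lib.FreeNormalizer.mem_B0]
    have : χ ∈ E.excS → χ ∈ Cfsg.Lib.FreeNormalizer.B0 M := fun hh => E.excS_sub hh
    tauto
  · rw [Finset.disjoint_coe]; exact Finset.sdiff_disjoint
  · simp
  · simp [hr]
  · exact ⟨_, E.triv_mem_oth, rfl⟩
  · intro χ hχ
    refine ⟨hne0 χ hχ, fun z y hzy hy hy1 => ?_⟩
    obtain ⟨hB, hne⟩ := E.mem_oth.mp hχ
    rw [Cfsg.Lib.FreeNormalizer.apply_section h hM (Cfsg.Lib.FreeNormalizer.mem_B0.mp hB) hzy hy hy1]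
    exact E.val_X χ hB hne ⟨y, hy⟩ fun hh => hy1 (congrArg Subtype.val hh)
  · exact fun ψ hψ => E.mem_excS.mpr ⟨ψ, hψ, rfl⟩
  · exact fun η hη => E.mem_excS.mp hη
  · intro ψ ψ' hψ hrel
    obtain ⟨e, rfl⟩ := (Set.ext_iff.mp (hset ψ) ψ').mp hrel
    exact ((E.mu_eq ψ _ hψ (Cfsg.Lib.FreeNormalizer.cmp_ne_one hψ e)).mpr ⟨e, rfl⟩).symm
  · intro ψ hψ z y hzy hy1
    rw [Cfsg.Lib.FreeNormalizer.apply_section h hM
      (Cfsg.Lib.FreeNormalizer.mem_B0.mp (E.mu_mem ψ hψ)) hzy y.2 hy1,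
      E.val_Y ψ hψ y fun hh => hy1 (congrArg Subtype.val hh), hset ψ,
      Cfsg.Lib.FreeNormalizer.finsum_orbit h hψ]
  · rw [finsum_mem_coe_finset, hcast]
    linear_combination hnorm + hsgn
  · exact fun η hη η' hη' g hg => E.excS_regular h hM hη hη' hg
  · intro η hη g hg
    rw [finsum_mem_coe_finset, ← hr]
    exact E.regular_rel h hM hP hη hg

end Cfsg.Agent.S4709
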