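import Cfsg.Statements.S4711
import Cfsg.Agent.Lib.Blocks.PrincipalSums
import Cfsg.Agent.Lib.Blocks.Principal
import Cfsg.Agent.Lib.Blocks.GaloisConjDegrees
import Cfsg.Agent.Lib.Blocks.Covering
import Cfsg.Agent.Lib.Blocks.CentralInvariant
import Cfsg.Agent.Lib.Solv.PLengthOneCons
import Cfsg.Agent.Lib.PLocal.PLengthOne
import Cfsg.Agent.Lib.Transfer.Frobenius

set_option autoImplicit false
open Cfsg

namespace Cfsg.Agent.S4711

open Cfsg.Lib.Characters Cfsg.Lib.Blocks
open scoped Classical ComplexConjugate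

universe u

/-- Extracting a multiplicity of a restriction. -/
theorem res_eq_sum {G : Type u} [Group G] [Fintype G] (H : Subgroup G) [Fintype H] (χ : IrrCharacter G) :
    ∃ m : IrrCharacter H → ℕ, (∀ h : H, (χ : G → ℂ) h = ∑ φ, (m φ : ℂ) * (φ : H → ℂ) h) ∧
      ∀ φ : IrrCharacter H, classInner (fun h : H => (χ : G → ℂ) h) (φ : H → ℂ) = m φ := by
  obtain ⟨m, hm⟩ := exists_decomposition (isCharacter_restrict χ.2.isCharacter H)
  refine ⟨m, fun h => ?_, fun φ => ?_⟩
  · have := congrFun hm h
    simpa [Finset.sum_apply] using this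
  · rw [show (fun h : H => (χ : G → ℂ) h) = ∑ φ, (m φ : ℂ) • (φ : H → ℂ) from hm, classInner_sum_irr]

/-- An irreducible character with a fixed vector of a normal subgroup is trivial on it. -/
theorem trivial_of_fixed {N : Type u} [Group N] [Fintype N] (P : Subgroup N) [P.Normal] [Fintype P] (η : IrrCharacter N)
    (h : classInner (fun x : P => (η : N → ℂ) x) (trivChar P : P → ℂ) ≠ 0) (x : P) :
    (η : N → ℂ) x = (η : N → ℂ) 1 := by
  obtain ⟨m, hm, hmc⟩ := res_eq_sum P η
  have hsupp : ∀ φ, m φ ≠ 0 → φ = trivChar P := fun φ hφ => by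
    obtain ⟨g, hg⟩ := exists_cjIrr_of_constituents η h (ψ := φ) (by rw [hmc]; exact_mod_cast hφ)
    rw [hg]
    exact Subtype.ext (by rw [coe_cjIrr]; funext y; rw [conjFn_apply]; rfl)
  have e : ∀ y : P, (η : N → ℂ) y = (m (trivChar P) : ℂ) := fun y => by
    rw [hm, Finset.sum_eq_single (trivChar P) (fun φ _ hne => ?_) (fun h => absurd (Finset.mem_univ _) h), trivChar_apply, mul_one]
    rw [show m φ = 0 from by_contra fun h => hne (hsupp φ h), Nat.cast_zero, zero_mul]
  rw [e x, ← e 1]
  rfl

/-- Let p be a prime, M a maximal ideal of the algebraic integers containing p, G a finite group, P a Sylow p-subgroup and N = N_G(P). Then G has p-length 1 (G = O_{p',p,p'}(G)) if and only if every irreducible character in the principal p-block of G restricts to an irreducible character of N. -/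
theorem result {G : Type*} [Group G] [Finite G] (p : ℕ) [Fact p.Prime] (M : Ideal Cfsg.AlgInt) (hM : Cfsg.IsPModular p M) (P : Sylow p G) : Cfsg.PLengthLE p 1 G ↔ ∀ χ ∈ Cfsg.principalBlock M G, Cfsg.IsIrrCharacter ↥(Subgroup.normalizer ((P : Subgroup G) : Set G)) (fun n : ↥(Subgroup.normalizer ((P : Subgroup G) : Set G)) => (χ : G → ℂ) n) := by
  haveI : Fintype G := Fintype.ofFinite G
  haveI := hM.2.1.isPrime
  set K := pPrimeCore p G with hKdef
  have hKp : ¬ p ∣ Nat.card K := Cfsg.Lib.Solv.not_dvd_card_pPrimeCore p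
  set N := Subgroup.normalizer ((P : Subgroup G) : Set G) with hNdef
  constructor
  · intro h χ hχ
    let q := QuotientGroup.mk' K
    have hT : ((P : Subgroup G) ⊔ K).Normal := by
      have h1 := Cfsg.Lib.Solv.map_sylow_eq_pCore h P
      have h2 : ((P : Subgroup G).map q).Normal := h1 ▸ inferInstance
      have h3 := h2.comap q
      rwa [Subgroup.comap_map_eq, QuotientGroup.ker_mk'] at h3
    haveI := hT
    have hNK : N ⊔ K = ⊤ := by
      have h1 := P.normalizer_sup_eq_top' (N := (P : Subgroup G) ⊔ K) le_sup_left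
      refine eq_top_iff.2 (h1.ge.trans (sup_le le_sup_left (sup_le ?_ le_sup_right)))
      exact Subgroup.le_normalizer.trans le_sup_left
    obtain ⟨η, hη⟩ := exists_descend_surjective (QuotientGroup.mk'_surjective K) χ.2 fun k hk =>
      principal_ker hM K hKp hχ k (by rwa [QuotientGroup.ker_mk'] at hk)
    have hs : Function.Surjective (q.comp N.subtype) := fun x => by
      obtain ⟨g, rfl⟩ := QuotientGroup.mk'_surjective K x
      obtain ⟨n, hn, k, hk, rfl⟩ := Subgroup.mem_sup_of_normal_right.1 (hNK ▸ Subgroup.mem_top g)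
      refine ⟨⟨n, hn⟩, ?_⟩
      show q n = q (n * k)
      rw [map_mul, show q k = 1 from (QuotientGroup.eq_one_iff k).2 hk, mul_one]
    have := isIrrCharacter_comp_surjective η.2 (q.comp N.subtype) hs
    convert this using 1
    funext n
    exact (hη n).symm
  · intro hres
    -- a principal character with a fixed vector of P is trivial on P
    have hfixG : ∀ χ ∈ principalBlock M G, classInner (fun x : (P : Subgroup G) => (χ : G → ℂ) x) (trivChar (P : Subgroup G) : ↥(P : Subgroup G) → ℂ) ≠ 0 →
        ∀ x ∈ (P : Subgroup G), (χ : G → ℂ) x = (χ : G → ℂ) 1 := by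
      intro χ hχ hne x hx
      haveI : ((P : Subgroup G).subgroupOf N).Normal := Subgroup.normal_in_normalizer
      haveI : Fintype ((P : Subgroup G).subgroupOf N) := Fintype.ofFinite _
      let e := Subgroup.subgroupOfEquivOfLe (H := (P : Subgroup G)) (K := N) Subgroup.le_normalizer
      refine trivial_of_fixed ((P : Subgroup G).subgroupOf N) ⟨_, hres χ hχ⟩ ?_ ⟨⟨x, Subgroup.le_normalizer hx⟩, hx⟩
      convert hne using 1
      simp only [classInner, trivChar_apply, map_one, mul_one]
      rw [Nat.card_congr e.toEquiv]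
      congr 1
      exact Fintype.sum_equiv e.toEquiv _ _ fun y => rfl
    set L := Subgroup.normalClosure ((P : Subgroup G) : Set G) with hLdef
    haveI : L.Normal := Subgroup.normalClosure_normal
    have hPL : (P : Subgroup G) ≤ L := Subgroup.le_normalClosure
    let PL : Sylow p L := P.subtype hPL
    set P' := (PL : Subgroup L) with hP'
    have hP'mem : ∀ x : L, x ∈ P' ↔ (x : G) ∈ (P : Subgroup G) := fun x => Iff.rfl
    have hfixL : ∀ θ ∈ principalBlock M L, classInner (fun x : P' => (θ : L → ℂ) x) (trivChar P' : P' → ℂ) ≠ 0 → θ = trivChar L := by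
      intro θ hθ hne
      obtain ⟨χ, hχ, hχθ⟩ := exists_principal_over hM L hθ
      obtain ⟨m, hm, hmc⟩ := res_eq_sum L χ
      choose k hk using fun φ : IrrCharacter L => classInner_nat (isCharacter_restrict φ.2.isCharacter P') (trivChar P').2.isCharacter
      have hP : classInner (fun x : (P : Subgroup G) => (χ : G → ℂ) x) (trivChar (P : Subgroup G) : ↥(P : Subgroup G) → ℂ) = ((∑ φ, m φ * k φ : ℕ) : ℂ) := by
        push_cast
        simp only [← hk, classInner, trivChar_apply, map_one, mul_one, Finset.mul_sum]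
        rw [Finset.sum_comm]
        let eL : P' ≃* ↥(P : Subgroup G) := Subgroup.subgroupOfEquivOfLe hPL
        refine (Fintype.sum_equiv eL.toEquiv _ _ fun x => ?_).symm
        rw [← Nat.card_congr eL.toEquiv]
        show _ = _ * (χ : G → ℂ) ((x : L) : G)
        rw [hm, Finset.mul_sum]
        exact Finset.sum_congr rfl fun φ _ => by ring
      have hne' : classInner (fun x : (P : Subgroup G) => (χ : G → ℂ) x) (trivChar (P : Subgroup G) : ↥(P : Subgroup G) → ℂ) ≠ 0 := by
        rw [hP, Nat.cast_ne_zero]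
        intro h0
        rcases Nat.mul_eq_zero.1 (Finset.sum_eq_zero_iff.1 h0 θ (Finset.mem_univ _)) with h1 | h1
        · exact hχθ (by rw [hmc, h1, Nat.cast_zero])
        · exact hne (by rw [← Nat.cast_zero, ← h1]; exact hk θ)
      haveI := charKer_normal χ.2.isCharacter
      have hker : L ≤ charKer χ.2.isCharacter := Subgroup.normalClosure_le_normal fun x hx => hfixG χ hχ hne' x hx
      by_contra hθ1
      refine hχθ ?_
      rw [show (fun n : L => (χ : G → ℂ) n) = (χ : G → ℂ) 1 • (trivChar L : L → ℂ) from funext fun n => by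
        rw [Pi.smul_apply, trivChar_apply, smul_eq_mul, mul_one]; exact hker n.2]
      rw [classInner_smul_left, classInner_irr_ne (trivChar L).2 θ.2 (fun h => hθ1 (Subtype.ext h.symm)), mul_zero]
    -- degrees
    set B := principalBlock M L with hBdef
    choose dg hdg using fun θ : IrrCharacter L => exists_degree θ.2.isCharacter
    choose m hm hmc using fun θ : IrrCharacter L => res_eq_sum P' θ
    have hzero : ∀ u : P', u ≠ 1 → ∑ θ : IrrCharacter L, (if θ ∈ B then (θ : L → ℂ) 1 * (θ : L → ℂ) u else 0) = 0 := by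
      intro u hu
      obtain ⟨k, hk⟩ := IsPGroup.iff_orderOf.1 PL.isPGroup' u
      have hd : p ∣ orderOf ((u : L)⁻¹) := by
        rw [orderOf_inv, Subgroup.orderOf_coe, hk]
        refine dvd_pow_self p fun h0 => hu ?_
        rwa [h0, pow_zero, orderOf_eq_one_iff] at hk
      have h := kerB_eq_zero_of_regular hM (isPBlock_principal (M := M) (G := L)) (g := 1) (h := (u : L)⁻¹)
        (by rw [orderOf_one]; exact (Fact.out : p.Prime).not_dvd_one) hd
      rw [kerB] at h
      refine Eq.trans (Finset.sum_congr rfl fun θ _ => ?_) h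
      by_cases hθ : θ ∈ B
      · rw [if_pos hθ, if_pos hθ, inv_inv]
      · rw [if_neg hθ, if_neg hθ]
    have hmult : ∀ φ : IrrCharacter P', (Nat.card P' : ℂ) * ∑ θ : IrrCharacter L, (if θ ∈ B then (θ : L → ℂ) 1 * (m θ φ : ℂ) else 0) =
        (∑ θ : IrrCharacter L, (if θ ∈ B then (θ : L → ℂ) 1 * (θ : L → ℂ) 1 else 0)) * conj ((φ : P' → ℂ) 1) := by
      intro φ
      have e : ∀ θ : IrrCharacter L, (Nat.card P' : ℂ) * (if θ ∈ B then (θ : L → ℂ) 1 * (m θ φ : ℂ) else 0) =
          ∑ x : P', (if θ ∈ B then (θ : L → ℂ) 1 * (θ : L → ℂ) x else 0) * conj ((φ : P' → ℂ) x) := fun θ => by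
        split_ifs
        · rw [← hmc θ φ, classInner, mul_left_comm, mul_inv_cancel_left₀ (Nat.cast_ne_zero.2 Nat.card_pos.ne'), Finset.mul_sum]
          exact Finset.sum_congr rfl fun x _ => by ring
        · simp
      rw [Finset.mul_sum, Finset.sum_congr rfl fun θ _ => e θ, Finset.sum_comm, Finset.sum_eq_single (1 : P')]
      · rw [← Finset.sum_mul]; rfl
      · intro u _ hu
        rw [← Finset.sum_mul, hzero u hu, zero_mul]
      · exact fun h => absurd (Finset.mem_univ _) h
    have htriv : ∀ θ ∈ B, θ ≠ trivChar L → m θ (trivChar P') = 0 := fun θ hθ hne => by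
      by_contra h0
      exact hne (hfixL θ hθ (by rw [hmc]; exact_mod_cast h0))
    have hmt : m (trivChar L) (trivChar P') = 1 := by
      have h1 := hmc (trivChar L) (trivChar P')
      rw [show (fun x : P' => (trivChar L : L → ℂ) x) = (trivChar P' : P' → ℂ) from rfl, classInner_irr_self (trivChar P').2] at h1
      exact_mod_cast h1.symm
    have hT := hmult (trivChar P')
    rw [Finset.sum_eq_single (trivChar L) (fun θ _ hne => ?_) (fun h => absurd (Finset.mem_univ _) h),
      if_pos trivChar_mem_principal, hmt, trivChar_apply, trivChar_apply, map_one, Nat.cast_one, mul_one, mul_one, mul_one] at hT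
    swap
    · split_ifs with hθ
      · rw [htriv θ hθ hne, Nat.cast_zero, mul_zero]
      · rfl
    have hsum : ∀ φ : IrrCharacter P', ∑ θ : IrrCharacter L, (if θ ∈ B then dg θ * m θ φ else 0) = charDegree (φ : P' → ℂ) := by
      intro φ
      have h1 := hmult φ
      rw [← hT, Cfsg.Lib.Blocks.GaloisConj.deg_spec φ.2.isCharacter, map_natCast] at h1
      have h2 := mul_left_cancel₀ (Nat.cast_ne_zero.2 Nat.card_pos.ne') h1
      simp only [hdg] at h2
      exact_mod_cast h2
    have hresB : ∀ φ : IrrCharacter P', ∃ θ : IrrCharacter L, ∀ x : P', (θ : L → ℂ) x = (φ : P' → ℂ) x := by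
      intro φ
      obtain ⟨θ, -, hθ⟩ := Finset.exists_ne_zero_of_sum_ne_zero (show ∑ θ : IrrCharacter L, (if θ ∈ B then dg θ * m θ φ else 0) ≠ 0 by
        rw [hsum]; exact (charDegree_pos φ).ne')
      refine ⟨θ, ?_⟩
      split_ifs at hθ with hB
      swap
      · exact absurd rfl hθ
      have hle := Finset.single_le_sum (f := fun θ : IrrCharacter L => if θ ∈ B then dg θ * m θ φ else 0) (fun _ _ => Nat.zero_le _) (Finset.mem_univ θ)
      rw [hsum, if_pos hB] at hle
      have hd : dg θ = ∑ ψ, m θ ψ * charDegree (ψ : P' → ℂ) := by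
        have := hm θ 1
        simp only [OneMemClass.coe_one, hdg, Cfsg.Lib.Blocks.GaloisConj.deg_spec (IsIrrCharacter.isCharacter (Subtype.prop _))] at this
        exact_mod_cast this
      have hle2 := Finset.single_le_sum (f := fun ψ : IrrCharacter P' => m θ ψ * charDegree (ψ : P' → ℂ)) (fun _ _ => Nat.zero_le _) (Finset.mem_univ φ)
      rw [← hd] at hle2
      have hm0 : m θ φ ≠ 0 := fun h => hθ (by rw [h, mul_zero])
      have hd0 := charDegree_pos φ
      have h1 : m θ φ = 1 := by nlinarith [Nat.one_le_iff_ne_zero.2 hm0]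
      rw [h1, one_mul] at hle2
      rw [h1, mul_one] at hle
      intro x
      rw [hm, Finset.sum_eq_single φ (fun ψ _ hne => ?_) (fun h => absurd (Finset.mem_univ _) h), h1, Nat.cast_one, one_mul]
      have h3 : m θ φ * charDegree (φ : P' → ℂ) + m θ ψ * charDegree (ψ : P' → ℂ) ≤ dg θ := by
        rw [hd, ← Finset.sum_pair (f := fun ψ : IrrCharacter P' => m θ ψ * charDegree (ψ : P' → ℂ)) hne.symm]
        exact Finset.sum_le_sum_of_subset (Finset.subset_univ _)
      rw [h1, one_mul] at h3
      have h4 : m θ ψ * charDegree (ψ : P' → ℂ) = 0 := by omega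
      rw [(Nat.mul_eq_zero.1 h4).resolve_right (charDegree_pos ψ).ne', Nat.cast_zero, zero_mul]
    have hctrl : Cfsg.Lib.Transfer.ControlsOwnFusion PL := by
      intro x hx y hy hxy
      obtain ⟨c, hc⟩ := isConj_iff.1 ((isConj_iff_forall_irr (⟨x, hx⟩ : P') ⟨y, hy⟩).2 fun φ => by
        obtain ⟨θ, hθ⟩ := hresB φ
        rw [← hθ, ← hθ]
        exact isClassFunction_iff_isConj.mp θ.2.isClassFunction x y (isConj_iff.2 hxy))
      exact ⟨c, c.2, congrArg Subtype.val hc⟩
    obtain ⟨Q, W, hWn, hW⟩ := Cfsg.Lib.Transfer.hasNormalPComplement_of_controls hctrl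
    obtain ⟨hWc, k, hWk⟩ := Cfsg.Lib.Transfer.coprime_card_of_isComplement' hW
    set C := pPrimeCore p L with hC
    have hWC : W ≤ C := Cfsg.Lib.Solv.le_pPrimeCore hWn hWc
    have hCP : C ⊔ P' = ⊤ := by
      rw [← Subgroup.index_eq_one]
      refine Nat.eq_one_of_dvd_coprimes (Nat.Coprime.pow_left k ((Fact.out : p.Prime).coprime_iff_not_dvd.2 PL.not_dvd_index))
        (hWk ▸ Subgroup.index_dvd_of_le (hWC.trans le_sup_left)) (Subgroup.index_dvd_of_le le_sup_right)
    haveI : (C.map L.subtype).Normal := ConjAct.normal_of_characteristic_of_normal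
    have hCK : C.map L.subtype ≤ K := Cfsg.Lib.Solv.le_pPrimeCore inferInstance (by
      rw [Subgroup.card_map_of_injective L.subtype_injective]
      exact Cfsg.Lib.Solv.coprime_pPrimeCore p)
    have hLle : L ≤ (P : Subgroup G) ⊔ K := fun x hx => by
      have hx' : (⟨x, hx⟩ : L) ∈ C ⊔ P' := hCP ▸ Subgroup.mem_top _
      have h2 : x ∈ (C ⊔ P').map L.subtype := ⟨_, hx', rfl⟩
      rw [Subgroup.map_sup] at h2
      exact (sup_le (hCK.trans le_sup_right) (Subgroup.map_le_iff_le_comap.2 fun z hz => Subgroup.mem_sup_left hz)) h2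
    refine Cfsg.Lib.PLocal.PLengthOne.pLengthLE_one fun U _ hU => ?_
    subst hU
    let q := QuotientGroup.mk' (pPrimeCore p G)
    have hmap : (P : Subgroup G).map q = L.map q := by
      refine le_antisymm (Subgroup.map_mono hPL) ((Subgroup.map_mono hLle).trans ?_)
      rw [Subgroup.map_sup]
      refine sup_le le_rfl ?_
      rw [hKdef, (Subgroup.map_eq_bot_iff _).2 (by rw [QuotientGroup.ker_mk'])]
      exact bot_le
    have hn : ((P : Subgroup G).map q).Normal := hmap ▸ (inferInstance : L.Normal).map q (QuotientGroup.mk'_surjective _)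
    have hle := Cfsg.Lib.Solv.le_pCore hn (P.isPGroup'.map q)
    intro hd
    exact P.not_dvd_index ((hd.trans (Subgroup.index_dvd_of_le hle)).trans (Subgroup.index_map_dvd (H := (P : Subgroup G)) (QuotientGroup.mk'_surjective _)))

end Cfsg.Agent.S4711
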