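import Cfsg.Statements.S4714
import Cfsg.Agent.Lib.Blocks.CentralProduct
-- import your own Cfsg.Agent.* helpers here

set_option autoImplicit false
open Cfsg

namespace Cfsg.Agent.S4714

open Cfsg.Lib.Blocks

theorem param {G : Type*} [Group G] [Fintype G] {p : ℕ} [Fact p.Prime] {M : Ideal Cfsg.AlgInt} [M.IsPrime]
    (hM : Cfsg.IsPModular p M) (D : Subgroup G) [D.Normal] (hG : D ⊔ Subgroup.centralizer (D : Set G) = ⊤)
    {B : Set (Cfsg.IrrCharacter G)} (hB : Cfsg.IsPBlock M B) (hBD : Cfsg.IsDefectGroup p M B D)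
    {χ : Cfsg.IrrCharacter G} (hχ : χ ∈ B) (hχD : ∀ y ∈ D, (χ : G → ℂ) y = (χ : G → ℂ) 1) :
    ∃ Φ : B ≃ Cfsg.IrrCharacter D, ∀ ψ : B,
      (∀ (y : D) (x : G), ¬ p ∣ orderOf x → Commute (y : G) x →
        ((ψ : Cfsg.IrrCharacter G) : G → ℂ) ((y : G) * x) = (Φ ψ : D → ℂ) y * (χ : G → ℂ) x) ∧
      (∀ z : G, (∀ y : G, Cfsg.IsPPart p z y → y ∉ D) → ((ψ : Cfsg.IrrCharacter G) : G → ℂ) z = 0) := by
  have hP := isPGroup_defectGroup hBD
  obtain ⟨θ, hθB, hθk, hreg⟩ := exists_base hM hG hB hBD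
  obtain ⟨θ', hθ'B, hθ'k, Φ, hΦ⟩ := exists_irr_param hM hG hB hBD
  have e1 : χ = θ := eq_of_ker hM hG hB hBD hχ hθB hχD hθk
  have e2 : θ' = θ := eq_of_ker hM hG hB hBD hθ'B hθB hθ'k hθk
  refine ⟨Φ, fun ψ => ⟨fun y x hx _ => ?_, fun z hz => ?_⟩⟩
  · have h1 := char_mul_cent hG (ψ : Cfsg.IrrCharacter G) y.2 (regular_mem_cent hP hG hx)
    have h2 := hΦ ψ y
    have h3 := hreg _ ψ.2 x hx
    rw [e2] at h2
    rw [h2] at h1
    rw [e1]
    refine mul_right_cancel₀ (ψ : Cfsg.IrrCharacter G).2.one_ne_zero ?_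
    linear_combination h1 + (Φ ψ : D → ℂ) y * h3
  · obtain ⟨h1, h2, h3, h4⟩ := cpPart_spec (p := p) z
    refine char_eq_zero_of_notMem_defect hM _ (x := cpPart p z) ⟨crPart p z, h1, h2, h3, h4⟩ fun E hE => ?_
    rw [← IsPBlock.eq_blockOf hB ψ.2] at hE
    rw [eq_of_isDefectGroup_normal hM hB hBD hE]
    exact hz _ ⟨crPart p z, h1, h2, h3, h4⟩


/-- Let p be a prime, M a maximal ideal of the algebraic integers containing p, D a p-subgroup of the finite group G with G = D·C_G(D), and B a p-block with defect group D. Let χ be a member of B having D in its kernel (there is exactly one, the canonical character of B). Then the irreducible characters in B are exactly the functions θ on G for which there is an irreducible character ζ of D such that θ(yx) = ζ(y)χ(x) whenever y ∈ D, x has order prime to p and x commutes with y, and θ(z) = 0 whenever the p-part of z does not lie in D. -/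
theorem result {G : Type*} [Group G] [Finite G] (p : ℕ) [Fact p.Prime] (M : Ideal Cfsg.AlgInt) (hM : Cfsg.IsPModular p M) (D : Subgroup G) (hD : IsPGroup p D) (hG : D ⊔ Subgroup.centralizer (D : Set G) = ⊤) (B : Set (Cfsg.IrrCharacter G)) (hB : Cfsg.IsPBlock M B) (hBD : Cfsg.IsDefectGroup p M B D) (χ : Cfsg.IrrCharacter G) (hχ : χ ∈ B) (hχD : ∀ y ∈ D, (χ : G → ℂ) y = (χ : G → ℂ) 1) : (∀ θ : Cfsg.IrrCharacter G, θ ∈ B ↔ ∃ ζ : Cfsg.IrrCharacter D, (∀ (y : D) (x : G), ¬ p ∣ orderOf x → Commute (y : G) x → (θ : G → ℂ) ((y : G) * x) = (ζ : D → ℂ) y * (χ : G → ℂ) x) ∧ (∀ z : G, (∀ y : G, Cfsg.IsPPart p z y → y ∉ D) → (θ : G → ℂ) z = 0)) ∧ ∀ ζ : Cfsg.IrrCharacter D, ∃ θ ∈ B, (∀ (y : D) (x : G), ¬ p ∣ orderOf x → Commute (y : G) x → (θ : G → ℂ) ((y : G) * x) = (ζ : D → ℂ) y * (χ : G → ℂ) x) ∧ (∀ z : G, (∀ y : G, Cfsg.IsPPart p z y → y ∉ D) → (θ : G → ℂ) z = 0) := by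
  classical
  haveI := Fintype.ofFinite G
  haveI := hM.2.1.isPrime
  haveI : D.Normal := Subgroup.normalizer_eq_top_iff.mp (top_le_iff.mp (hG ▸ sup_le Subgroup.le_normalizer
    (Subgroup.centralizer_le_normalizer _)))
  obtain ⟨Φ, hΦ⟩ := param hM D hG hB hBD hχ hχD
  refine ⟨fun θ => ⟨fun hθ => ⟨Φ ⟨θ, hθ⟩, hΦ ⟨θ, hθ⟩⟩, fun ⟨ζ, hv, h0⟩ => ?_⟩, fun ζ => ⟨_, (Φ.symm ζ).2, ?_⟩⟩
  · obtain ⟨hv', h0'⟩ := hΦ (Φ.symm ζ)
    have e : θ = (Φ.symm ζ : Cfsg.IrrCharacter G) := by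
      apply Subtype.ext
      funext z
      obtain ⟨h1, h2, h3, h4⟩ := Cfsg.Lib.Blocks.cpPart_spec (p := p) z
      by_cases hy : Cfsg.Lib.Blocks.cpPart p z ∈ D
      · rw [← h1]
        rw [hv ⟨_, hy⟩ _ h4 h2, hv' ⟨_, hy⟩ _ h4 h2, Φ.apply_symm_apply]
      · have hz : ∀ y : G, Cfsg.IsPPart p z y → y ∉ D := by
          rintro y ⟨w, rfl, hc, hy', hw⟩
          rwa [(Cfsg.Lib.Blocks.cpPart_mul hc hy' hw).1] at hy
        rw [h0 z hz, h0' z hz]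
    rw [e]
    exact (Φ.symm ζ).2
  · have := hΦ (Φ.symm ζ)
    rwa [Φ.apply_symm_apply] at this

end Cfsg.Agent.S4714
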