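import Cfsg.Statements.S4715
import Mathlib
import Cfsg.Agent.Lib.Blocks.HeightBound

set_option autoImplicit false
open Cfsg

namespace Cfsg.Agent.S4715

/-- Let p be a prime, M a maximal ideal of the algebraic integers containing p, B a p-block of the finite group G with defect group D of order p^d, H = D·C_G(D), b a block of H inducing B, T the stabilizer of b in N_G(D) and e = [T : H] the inertial index of B; let n be the integer with p^n ≤ e < p^(n+1) and p^c the order of the centre of D. Then every irreducible character in B has height h with h + c ≤ n + d. -/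
theorem result {G : Type*} [Group G] [Finite G] (p : ℕ) [Fact p.Prime] (M : Ideal Cfsg.AlgInt) (hM : Cfsg.IsPModular p M) (B : Set (Cfsg.IrrCharacter G)) (hB : Cfsg.IsPBlock M B) (D : Subgroup G) (hBD : Cfsg.IsDefectGroup p M B D) (d : ℕ) (hDd : Nat.card D = p ^ d) (H : Subgroup G) (hH : H = D ⊔ Subgroup.centralizer (D : Set G)) (b : Set (Cfsg.IrrCharacter H)) (hind : Cfsg.IsInducedBlock M H b B) (T : Subgroup G) (hT : ∀ g : G, g ∈ T ↔ (g ∈ Subgroup.normalizer (D : Set G) ∧ ∀ θ ∈ b, ∀ θ' : Cfsg.IrrCharacter H, (∀ h h' : H, (h' : G) = g * h * g⁻¹ → (θ' : H → ℂ) h' = (θ : H → ℂ) h) → θ' ∈ b)) (e : ℕ) (he : H.relIndex T = e) (n : ℕ) (hn : p ^ n ≤ e ∧ e < p ^ (n + 1)) (c : ℕ) (hc : Nat.card (Subgroup.center D) = p ^ c) : ∀ χ ∈ B, Cfsg.blockHeight p B (χ : G → ℂ) + c ≤ n + d := by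
  haveI := hM.2.1.isPrime
  haveI := Fintype.ofFinite G
  subst hH
  open Cfsg.Lib.Blocks Cfsg.Lib.Characters in
  · intro χ hχ
    have hp := isPGroup_defectGroup hBD
    obtain ⟨e₀, he₀, hbe, -⟩ := exists_pair_of_localBlock hM hp hind.1
    have hpair := (inducedBlock_local_iff hM hp hind.1 he₀ hbe hB).mp hind
    have hle := height_add_center_le hM hBD hpair (T := T) (fun y hy => (hT y).mpr ⟨hy.2.1, by
      have hn := conj_mem_local hy.2.1
      have hpull := (pullBlock_local_iff hind.1 hind.1 hbe hbe hn).mpr hy.2.2.symm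
      obtain ⟨-, hst⟩ := (stabilizesBlock_iff b y).mpr ⟨hn, hpull⟩
      intro θ hθ θ' hθ'
      obtain ⟨θ'', hθ''b, hθ''⟩ := hst θ hθ
      have : θ' = θ'' := by
        refine Subtype.ext (funext fun k' => ?_)
        have hk : y⁻¹ * (k' : G) * y ∈ D ⊔ Subgroup.centralizer (D : Set G) := by
          simpa using (Subgroup.mem_normalizer_iff.mp (inv_mem hn) _).mp k'.2
        rw [hθ' ⟨_, hk⟩ k' (by group), hθ'' ⟨_, hk⟩ k' (by group)]
      exact this ▸ hθ''b⟩) hχ
    have hd : Cfsg.blockDefect p B = d := Nat.pow_right_injective (Fact.out : p.Prime).two_le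
      ((card_defectGroup hM hB hBD).symm.trans hDd)
    rw [hc, he, hd, ← pow_add] at hle
    have h1 : p ^ (c + Cfsg.blockHeight p B (χ : G → ℂ)) < p ^ (n + 1 + d) := by
      rw [pow_add _ (n + 1)]
      exact hle.trans_lt (Nat.mul_lt_mul_of_pos_right hn.2 (pow_pos (Fact.out : p.Prime).pos _))
    have h2 := (Nat.pow_lt_pow_iff_right (Fact.out : p.Prime).one_lt).mp h1
    omega

end Cfsg.Agent.S4715
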