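import Cfsg.Statements.S4717
import Mathlib
import Cfsg.Agent.Lib.Blocks.DeficiencyClass

set_option autoImplicit false
open Cfsg

namespace Cfsg.Agent.S4717

/-- Let p be a prime, M a maximal ideal of the algebraic integers containing p, and r a natural number; say that a finite group X has deficiency class r when X has no non-principal p-block of defect ≥ r. If G has deficiency class r then so does the centralizer of every p-element of G; conversely, if r > 0 and the centralizer of every element of order p has deficiency class r, then G has deficiency class r. -/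
theorem result {G : Type*} [Group G] [Finite G] (p : ℕ) [Fact p.Prime] (M : Ideal Cfsg.AlgInt) (hM : Cfsg.IsPModular p M) (r : ℕ) : ((∀ B' : Set (Cfsg.IrrCharacter G), Cfsg.IsPBlock M B' → B' ≠ Cfsg.principalBlock M G → Cfsg.blockDefect p B' < r) → ∀ y : G, (∃ k : ℕ, orderOf y = p ^ k) → (∀ B' : Set (Cfsg.IrrCharacter ↥(Subgroup.centralizer ({y} : Set G))), Cfsg.IsPBlock M B' → B' ≠ Cfsg.principalBlock M ↥(Subgroup.centralizer ({y} : Set G)) → Cfsg.blockDefect p B' < r)) ∧ (0 < r → (∀ y : G, orderOf y = p → (∀ B' : Set (Cfsg.IrrCharacter ↥(Subgroup.centralizer ({y} : Set G))), Cfsg.IsPBlock M B' → B' ≠ Cfsg.principalBlock M ↥(Subgroup.centralizer ({y} : Set G)) → Cfsg.blockDefect p B' < r)) → (∀ B' : Set (Cfsg.IrrCharacter G), Cfsg.IsPBlock M B' → B' ≠ Cfsg.principalBlock M G → Cfsg.blockDefect p B' < r)) := by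
  haveI := hM.2.1.isPrime
  haveI := Fintype.ofFinite G
  classical
  open Cfsg.Lib.Blocks in
  · refine ⟨fun h y hy b hb hne => ?_, fun hr h B hB hne => ?_⟩
    · obtain ⟨B, hB, hne', hle⟩ := exists_nonprincipal_of_centralizer hM hy rfl hb hne
      exact lt_of_le_of_lt hle (h B hB hne')
    · by_contra hlt
      obtain ⟨y, hy, b, hb, hbne, hle⟩ :=
        exists_nonprincipal_centralizer hM hB hne (lt_of_lt_of_le hr (not_lt.mp hlt))
      exact hlt (lt_of_le_of_lt hle (h y hy b hb hbne))

end Cfsg.Agent.S4717
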