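import Cfsg.Statements.S4718
import Mathlib
import Cfsg.Agent.Lib.Blocks.ClassNumber
import Cfsg.Agent.Lib.Blocks.Principal

set_option autoImplicit false
universe u
open Cfsg

namespace Cfsg.Agent.S4718

/-- Let p be a prime and a a natural number. There is a bound N such that every finite group whose Sylow p-subgroups have order p^a and whose only p-block (relative to a maximal ideal of the algebraic integers containing p) is the principal block has order at most N. -/
theorem result (p : ℕ) [Fact p.Prime] (a : ℕ) : ∃ N : ℕ, ∀ (G : Type u) [Group G] [Finite G] (M : Ideal Cfsg.AlgInt), Cfsg.IsPModular p M → (Nat.card G).factorization p = a → (∀ B : Set (Cfsg.IrrCharacter G), Cfsg.IsPBlock M B → B = Cfsg.principalBlock M G) → Nat.card G ≤ N := by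
  obtain ⟨N, hN⟩ := Cfsg.Lib.Blocks.landau.{u} (p ^ (2 * a))
  refine ⟨N, fun G _ _ M hM ha hone => hN G ?_⟩
  haveI := hM.2.1.isPrime
  haveI := Fintype.ofFinite G
  classical
  open Cfsg.Lib.Blocks Cfsg.Lib.Characters in
  · have hB := isPBlock_principal (G := G) (M := M)
    have hall : ∀ ψ : Cfsg.IrrCharacter G, ψ ∈ Cfsg.principalBlock M G := fun ψ =>
      hone (Cfsg.blockOf M (ψ : G → ℂ)) ⟨ψ, rfl⟩ ▸ mem_blockOf_self M ψ
    have h1 : Nat.card (Cfsg.IrrCharacter G) = Nat.card ↥(Cfsg.principalBlock M G) :=
      Nat.card_congr (Equiv.subtypeUnivEquiv hall).symm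
    rw [← card_irr_eq_card_conjClasses, h1]
    refine (card_block_le hM hB).trans (Nat.pow_le_pow_right (Fact.out : p.Prime).pos ?_)
    rw [← ha, Cfsg.blockDefect]
    omega

end Cfsg.Agent.S4718
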