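import Cfsg.Statements.S4719
import Mathlib
import Cfsg.Agent.Lib.Blocks.DeficiencyBound

set_option autoImplicit false
universe u
open Cfsg

namespace Cfsg.Agent.S4719

/-- For every natural number a there is a bound N with the following property. Let G be a finite group with Sylow 2-subgroups of order 2^a and r ≥ 0 such that G has no non-principal 2-block (relative to a maximal ideal of the algebraic integers containing 2) of defect ≥ r, and suppose a Sylow 2-subgroup of G contains an elementary abelian subgroup of order 2^(r+1). Then the order of G is at most N. -/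
theorem result (a : ℕ) : ∃ N : ℕ, ∀ (G : Type u) [Group G] [Finite G] (M : Ideal Cfsg.AlgInt) (r : ℕ) (P : Sylow 2 G), Cfsg.IsPModular 2 M → Nat.card P = 2 ^ a → (∀ B : Set (Cfsg.IrrCharacter G), Cfsg.IsPBlock M B → B ≠ Cfsg.principalBlock M G → Cfsg.blockDefect 2 B < r) → (∃ E : Subgroup G, E ≤ (P : Subgroup G) ∧ IsMulCommutative E ∧ (∀ x ∈ E, x * x = 1) ∧ Nat.card E = 2 ^ (r + 1)) → Nat.card G ≤ N := by
  obtain ⟨N, hN⟩ := Cfsg.Lib.Blocks.deficiency_bound.{u} a
  refine ⟨N, fun G _ _ M r P hM hP hdef hE => hN G M r hM ?_ hdef ?_⟩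
  · rw [P.card_eq_multiplicity] at hP
    exact le_of_eq (Nat.pow_right_injective le_rfl hP)
  · obtain ⟨E, -, hEc, hE2, hEcard⟩ := hE
    exact ⟨E, hEc, hE2, hEcard⟩

end Cfsg.Agent.S4719
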