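import Cfsg.Statements.S4720
import Mathlib
import Cfsg.Agent.Lib.Blocks.Principal
import Cfsg.Agent.Lib.Blocks.DefectZero
import Cfsg.Agent.Lib.Characters.Induction

set_option autoImplicit false
open Cfsg

namespace Cfsg.Agent.S4720

/-- Let p be a prime, M a maximal ideal of the algebraic integers containing p, P a p-subgroup of the finite group G, N a subgroup with P ≤ N ≤ N_G(P), and U a nonempty subset of P normalized by N such that an element of U and an element of P that are conjugate in G are already conjugate in N, and such that λ(C_G(y)) = w·#C_N(y) for every y ∈ U with one rational number w, where λ(X) denotes the sum of the squares of the degrees of the irreducible characters in the principal p-block of X. For a complex function θ on P and χ in the principal block of G put a_χ(θ) = #P⁻¹ Σ_{y ∈ P} χ(y) θ(y⁻¹). Then for generalized characters θ, η of P with θ vanishing outside U, Σ_χ a_χ(θ)·conj(a_χ(η)) = (w/#P²)·Σ_{y ∈ P} θ(y)·conj(Σ_{x ∈ N} η(x y x⁻¹)) (η extended by zero off P; the conjugates lie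 in P), the first sum over the principal p-block of G. -/
theorem result {G : Type*} [Group G] [Finite G] (p : ℕ) [Fact p.Prime] (M : Ideal Cfsg.AlgInt) (hM : Cfsg.IsPModular p M) (P : Subgroup G) (hP : IsPGroup p P) (N : Subgroup G) (hPN : P ≤ N) (hNN : N ≤ Subgroup.normalizer (P : Set G)) (U : Set G) (hUne : U.Nonempty) (hUP : U ⊆ (P : Set G)) (hUN : ∀ n ∈ N, ∀ u ∈ U, n * u * n⁻¹ ∈ U) (hfus : ∀ u ∈ U, ∀ g : G, g * u * g⁻¹ ∈ (P : Set G) → ∃ n ∈ N, n * u * n⁻¹ = g * u * g⁻¹) (w : ℚ) (hw : ∀ y ∈ U, ((∑ᶠ ψ ∈ Cfsg.principalBlock M ↥(Subgroup.centralizer ({y} : Set G)), Cfsg.charDegree (ψ : ↥(Subgroup.centralizer ({y} : Set G)) → ℂ) ^ 2) : ℚ) = w * Nat.card ↥(N ⊓ Subgroup.centralizer ({y} : Set G))) (θ η : ↥P → ℂ) (hθ : Cfsg.IsGeneralizedCharacter ↥P θ) (hη : Cfsg.IsGeneralizedCharacter ↥P η) (hθU : ∀ y : ↥P, (y : G) ∉ U → θ y = 0) : ∑ᶠ χ ∈ Cfsg.principalBlock M G, ((Nat.card ↥P : ℂ)⁻¹ * ∑ᶠ y : ↥P, (χ : G → ℂ) (y : G) * θ y⁻¹) * (starRingEnd ℂ) ((Nat.card ↥P : ℂ)⁻¹ * ∑ᶠ y : ↥P, (χ : G → ℂ) (y : G) * η y⁻¹) = ((w :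 ℂ) / ((Nat.card ↥P : ℂ) ^ 2)) * ∑ᶠ y : ↥P, θ y * (starRingEnd ℂ) (∑ᶠ x : ↥N, Cfsg.extendByZero P η ((x : G) * (y : G) * (x : G)⁻¹)) := by
  haveI := hM.2.1.isPrime
  haveI := Fintype.ofFinite G
  classical
  open Cfsg.Lib.Blocks Cfsg.Lib.Characters in
  · set B := principalBlock M G with hBdef
    have hB : IsPBlock M B := isPBlock_principal
    have hpow : ∀ y : ↥P, ∃ k : ℕ, orderOf (y : G) = p ^ k := fun y => by
      obtain ⟨k, hk⟩ := IsPGroup.iff_orderOf.mp hP y
      exact ⟨k, by rw [Subgroup.orderOf_coe, hk]⟩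
    have hnp : ¬ p ∣ orderOf (1 : G) := by simpa using (Fact.out : p.Prime).ne_one
    have hker : ∀ y z : ↥P, (y : G) ∈ U →
        kerB B (z : G) (y : G) = if IsConj (y : G) (z : G) then
          (w : ℂ) * (Nat.card ↥(N ⊓ Subgroup.centralizer ({(y : G)} : Set G)) : ℂ) else 0 := by
      intro y z hy
      split_ifs with hc
      · rw [kerB_congr_isConj B hc.symm (IsConj.refl (y : G))]
        set H := Subgroup.centralizer ({(y : G)} : Set G) with hH
        have h := kerB_principal hM (hpow y) hH 1 1 (by simpa using (Fact.out : p.Prime).ne_one)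
          (by simpa using (Fact.out : p.Prime).ne_one)
        simp only [OneMemClass.coe_one, mul_one] at h
        rw [h, kerB_eq_finsum]
        have h2 := congrArg (fun q : ℚ => (q : ℂ)) (hw _ hy)
        simp only [Rat.cast_mul, Rat.cast_natCast] at h2
        rw [← hH] at h2
        rw [← h2]
        rw [finsum_mem_def, finsum_mem_def, finsum_eq_sum_of_fintype, finsum_eq_sum_of_fintype]
        push_cast
        refine Finset.sum_congr rfl fun ψ _ => ?_
        simp only [Set.indicator_apply]
        split_ifs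
        · push_cast
          rw [inv_one, coe_charDegree ψ]; ring
        · simp
      · refine kerB_eq_zero_of_not_isConj hM hB (x := (z : G)) (x' := (y : G))
          ⟨1, mul_one _, Commute.one_right _, hpow z, hnp⟩
          ⟨1, mul_one _, Commute.one_right _, hpow y, hnp⟩ fun h => hc h.symm
    have hcount : ∀ y z : ↥P, (y : G) ∈ U →
        ((Finset.univ.filter fun x : ↥N => (x : G) * (y : G) * (x : G)⁻¹ = (z : G)).card : ℂ)
          = if IsConj (y : G) (z : G) then
              (Nat.card ↥(N ⊓ Subgroup.centralizer ({(y : G)} : Set G)) : ℂ) else 0 := by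
      intro y z hy
      split_ifs with hc
      · obtain ⟨g, hg⟩ := isConj_iff.mp hc
        obtain ⟨n, hn, hne⟩ := hfus _ hy g (by rw [hg]; exact z.2)
        rw [hg] at hne
        congr 1
        rw [Nat.card_eq_fintype_card, ← Finset.card_univ]
        symm
        refine Finset.card_bij (fun c _ => (⟨n * (c : G), mul_mem hn c.2.1⟩ : ↥N)) ?_ ?_ ?_
        · intro c _
          rw [Finset.mem_filter]
          refine ⟨Finset.mem_univ _, ?_⟩
          have hc2 : (c : G) * (y : G) = (y : G) * (c : G) :=
            Subgroup.mem_centralizer_singleton_iff.mp c.2.2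
          calc n * (c : G) * (y : G) * (n * (c : G))⁻¹ = n * ((c : G) * (y : G)) * (c : G)⁻¹ * n⁻¹ := by group
            _ = n * (y : G) * n⁻¹ := by rw [hc2]; group
            _ = (z : G) := hne
        · intro c _ c' _ h
          exact Subtype.ext (mul_left_cancel (congrArg Subtype.val h))
        · intro x hx
          have hx' := (Finset.mem_filter.mp hx).2
          have hm : n⁻¹ * (x : G) ∈ N ⊓ Subgroup.centralizer ({(y : G)} : Set G) := by
            refine Subgroup.mem_inf.mpr ⟨mul_mem (inv_mem hn) x.2, ?_⟩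
            rw [Subgroup.mem_centralizer_singleton_iff]
            calc n⁻¹ * (x : G) * (y : G) = n⁻¹ * ((x : G) * (y : G) * (x : G)⁻¹) * (x : G) := by group
              _ = n⁻¹ * (n * (y : G) * n⁻¹) * (x : G) := by rw [hx', hne]
              _ = (y : G) * (n⁻¹ * (x : G)) := by group
          exact ⟨⟨_, hm⟩, Finset.mem_univ _, Subtype.ext (by simp)⟩
      · rw [Nat.cast_eq_zero, Finset.card_eq_zero, Finset.filter_eq_empty_iff]
        exact fun x _ hx => hc (isConj_iff.mpr ⟨x, hx⟩)
    have hconjP : ∀ (y : ↥P) (x : ↥N), (x : G) * (y : G) * (x : G)⁻¹ ∈ P := fun y x =>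
      (Subgroup.mem_normalizer_iff.mp (hNN x.2) (y : G)).mp y.2
    have hRHS : ∀ y : ↥P, (y : G) ∈ U →
        (w : ℂ) * (starRingEnd ℂ) (∑ x : ↥N, extendByZero P η ((x : G) * (y : G) * (x : G)⁻¹))
          = ∑ z : ↥P, (starRingEnd ℂ) (η z) * kerB B (z : G) (y : G) := by
      intro y hy
      have e : ∑ x : ↥N, extendByZero P η ((x : G) * (y : G) * (x : G)⁻¹)
          = ∑ z : ↥P, η z * ((Finset.univ.filter
              fun x : ↥N => (x : G) * (y : G) * (x : G)⁻¹ = (z : G)).card : ℂ) := by
        rw [← Finset.sum_fiberwise Finset.univ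
          (fun x : ↥N => (⟨_, hconjP y x⟩ : ↥P)) (fun x => extendByZero P η ((x : G) * (y : G) * (x : G)⁻¹))]
        refine Finset.sum_congr rfl fun z _ => ?_
        rw [Finset.sum_congr rfl (g := fun _ => η z) fun x hx => ?_, Finset.sum_const, nsmul_eq_mul, mul_comm]
        · congr 3
          ext x
          simp [Subtype.ext_iff]
        · have := (Finset.mem_filter.mp hx).2
          rw [show (x : G) * (y : G) * (x : G)⁻¹ = (z : G) from congrArg Subtype.val this,
            extendByZero_coe]
      rw [e, map_sum, Finset.mul_sum]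
      refine Finset.sum_congr rfl fun z _ => ?_
      rw [hker y z hy, map_mul, hcount y z hy]
      split_ifs
      · rw [Complex.conj_natCast]; ring
      · simp
    have hconjθ : ∀ (f : ↥P → ℂ), IsGeneralizedCharacter ↥P f → ∀ z, (starRingEnd ℂ) (f z) = f z⁻¹ := by
      intro f hf z
      obtain ⟨c, hc, -⟩ := exists_coeff hf
      rw [hc]
      simp only [Finset.sum_apply, Pi.smul_apply, smul_eq_mul, map_sum, map_mul]
      refine Finset.sum_congr rfl fun φ _ => ?_
      rw [char_inv_eq_conj φ.2.isCharacter]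
      simp
    calc _ = ∑ χ : IrrCharacter G, (if χ ∈ B then ((Nat.card ↥P : ℂ)⁻¹) ^ 2 *
          ∑ y : ↥P, ∑ z : ↥P, θ y * (starRingEnd ℂ) (η z) *
            ((χ : G → ℂ) (z : G) * (χ : G → ℂ) (y : G)⁻¹) else 0) := by
          rw [finsum_mem_def, finsum_eq_sum_of_fintype]
          refine Finset.sum_congr rfl fun χ _ => ?_
          rw [Set.indicator_apply]
          split_ifs
          · simp only [finsum_eq_sum_of_fintype, map_mul, map_sum, map_inv₀, Complex.conj_natCast]
            rw [← Equiv.sum_comp (Equiv.inv ↥P) (fun y : ↥P => (χ : G → ℂ) (y : G) * θ y⁻¹),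
              ← Equiv.sum_comp (Equiv.inv ↥P)
                (fun z : ↥P => (starRingEnd ℂ) ((χ : G → ℂ) (z : G)) * (starRingEnd ℂ) (η z⁻¹))]
            rw [show ∀ a A B : ℂ, a * A * (a * B) = a ^ 2 * (A * B) from fun a A B => by ring,
              Finset.sum_mul_sum]
            congr 1
            refine Finset.sum_congr rfl fun y _ => Finset.sum_congr rfl fun z _ => ?_
            simp only [Equiv.inv_apply, inv_inv, InvMemClass.coe_inv]
            rw [← char_inv_eq_conj χ.2.isCharacter, inv_inv]
            ring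
          · rfl
      _ = ((Nat.card ↥P : ℂ)⁻¹) ^ 2 * ∑ y : ↥P, θ y *
            ∑ z : ↥P, (starRingEnd ℂ) (η z) * kerB B (z : G) (y : G) := by
          simp only [kerB, Finset.mul_sum]
          symm
          calc _ = ∑ χ : IrrCharacter G, ∑ y : ↥P, ∑ z : ↥P, ((Nat.card ↥P : ℂ)⁻¹) ^ 2 *
                (θ y * ((starRingEnd ℂ) (η z) *
                  if χ ∈ B then (χ : G → ℂ) (z : G) * (χ : G → ℂ) (y : G)⁻¹ else 0)) := by
                rw [Finset.sum_comm (s := (Finset.univ : Finset (IrrCharacter G)))]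
                exact Finset.sum_congr rfl fun y _ => Finset.sum_comm
            _ = _ := by
                refine Finset.sum_congr rfl fun χ _ => ?_
                split_ifs
                · exact Finset.sum_congr rfl fun y _ => Finset.sum_congr rfl fun z _ => by ring
                · simp
      _ = _ := by
          rw [finsum_eq_sum_of_fintype, Finset.mul_sum, Finset.mul_sum]
          refine Finset.sum_congr rfl fun y _ => ?_
          by_cases hy : (y : G) ∈ U
          · rw [← hRHS y hy, finsum_eq_sum_of_fintype]; ring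
          · rw [hθU y hy]; ring

end Cfsg.Agent.S4720
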