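import Cfsg.Statements.S4721
import Cfsg.Agent.Lib.Blocks.FreeNormalizerInvolution
-- import your own Cfsg.Agent.* helpers here

set_option autoImplicit false
open Cfsg

namespace Cfsg.Agent.S4721

/-- Let p be a prime, M a maximal ideal of the algebraic integers containing p, and G a finite group with a nontrivial abelian Sylow p-subgroup P, N = N_G(P), C = C_G(P), such that N/C is cyclic of order 3, #P > 4, and C_G(y) ∩ N = C for every non-identity y ∈ P. Then the principal p-block is the disjoint union of a set X of exactly 3 characters containing the principal character and a set Y of (#P − 1)/3 characters, with signs a_χ = ±1 (χ ∈ X, a = 1 at the principal character) and δ = ±1 such that every χ ∈ X takes the value a_χ at every element whose p-part is a non-identity element of P, and there is a map ζ from the non-principal linear characters of P onto Y, constant on N-conjugacy classes, with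 ζ_ψ(z) = δ·Σ ψ'(y) over the N-orbit of ψ, for z with p-part y ≠ 1 in P. If moreover G has an involution lying in no proper normal subgroup of G, then exactly two of the three numbers −δ and a_χ (χ ∈ X non-principal) equal −1, and the product of the degrees of the two non-principal members of X and of any member of Y is a perfect square. -/
theorem result {G : Type*} [Group G] [Finite G] (p : ℕ) [Fact p.Prime] (M : Ideal Cfsg.AlgInt) (hM : Cfsg.IsPModular p M) (P : Sylow p G) (hab : IsMulCommutative P) (hP1 : Nat.card P ≠ 1) (hCN : (Subgroup.centralizer ((P : Subgroup G) : Set G)).relIndex (Subgroup.normalizer ((P : Subgroup G) : Set G)) = 3) (hcyc : ∃ g : G, g ∈ Subgroup.normalizer ((P : Subgroup G) : Set G) ∧ Subgroup.centralizer ((P : Subgroup G) : Set G) ⊔ Subgroup.zpowers g = Subgroup.normalizer ((P : Subgroup G) : Set G)) (hm2 : 3 + 1 < Nat.card P) (hfrob : ∀ y : G, y ∈ (P : Subgroup G)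 → y ≠ 1 → Subgroup.centralizer ({y} : Set G) ⊓ Subgroup.normalizer ((P : Subgroup G) : Set G) = Subgroup.centralizer ((P : Subgroup G) : Set G)) : ∃ (X Y : Set (Cfsg.IrrCharacter G)), Cfsg.principalBlock M G = X ∪ Y ∧ Disjoint X Y ∧ Nat.card X = 3 ∧ Nat.card Y = (Nat.card P - 1) / 3 ∧ (∃ χ₁ ∈ X, (χ₁ : G → ℂ) = fun _ => 1) ∧ ∃ (a : Cfsg.IrrCharacter G → ℤ) (δ : ℤ) (ζ : (↥(P : Subgroup G) →* ℂˣ) → Cfsg.IrrCharacter G), (δ = 1 ∨ δ = -1) ∧ (∀ χ ∈ X, (a χ = 1 ∨ a χ = -1) ∧ ∀ z y : G, Cfsg.IsPPart p z y → y ∈ (P : Subgroup G) → y ≠ 1 → (χ : G → ℂ) z = (a χ : ℂ)) ∧ (∀ ψ : ↥(P : Subgroup G) →* ℂˣ, ψ ≠ 1 → ζ ψ ∈ Y) ∧ (∀ η ∈ Y, ∃ ψ : ↥(P : Subgroup G) →* ℂˣ, ψ ≠ 1 ∧ ζ ψ = η) ∧ (∀ ψ ψ' : ↥(P : Subgroup G) →* ℂˣ, ψ ≠ 1 → (∃ n : G, n ∈ Subgroup.normalizer ((P : Subgroup G) : Set G) ∧ ∀ w w' : ↥(P : Subgroup G), (w' : G) = n * w * n⁻¹ → ψ' w' = ψ w) → ζ ψ' = ζ ψ) ∧ (∀ ψ : ↥(P : Subgroup G) →* ℂˣ, ψ ≠ 1 → ∀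 (z : G) (y : ↥(P : Subgroup G)), Cfsg.IsPPart p z (y : G) → (y : G) ≠ 1 → (ζ ψ : G → ℂ) z = (δ : ℂ) * ∑ᶠ ψ' ∈ {ψ' : ↥(P : Subgroup G) →* ℂˣ | ∃ n : G, n ∈ Subgroup.normalizer ((P : Subgroup G) : Set G) ∧ ∀ w w' : ↥(P : Subgroup G), (w' : G) = n * w * n⁻¹ → ψ' w' = ψ w}, ((ψ' y : ℂˣ) : ℂ)) ∧ ((∃ t : G, orderOf t = 2 ∧ ∀ K : Subgroup G, K.Normal → t ∈ K → K = ⊤) → Nat.card {χ : Cfsg.IrrCharacter G // χ ∈ X ∧ (χ : G → ℂ) ≠ (fun _ => 1) ∧ a χ = -1} + (if δ = 1 then 1 else 0) = 2 ∧ ∀ η ∈ Y, IsSquare (Cfsg.charDegree (η : G → ℂ) * ∏ᶠ χ ∈ {χ : Cfsg.IrrCharacter G | χ ∈ X ∧ (χ : G → ℂ) ≠ fun _ => 1}, Cfsg.charDegree (χ : G → ℂ))) := by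
  classical
  haveI := hM.2.1.isPrime
  letI := Fintype.ofFinite G
  have h : Cfsg.Lib.FreeNormalizer.Hyp P := ⟨fun a b => hab.is_comm.comm a b, hfrob⟩
  haveI := Cfsg.Lib.FreeNormalizer.finite_hom_of_comm h.comm
  letI := Fintype.ofFinite (↥(P : Subgroup G) →* ℂˣ)
  have hcA : Nat.card (Cfsg.Lib.FreeNormalizer.aut P) = 3 := by
    rw [Cfsg.Lib.FreeNormalizer.card_aut, hCN]
  obtain ⟨E, hd, hoth, hone⟩ := Cfsg.Lib.FreeNormalizer.exists_exc_three h hM hcA hm2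
  have hmul := E.card_excS_mul h
  rw [hcA] at hmul
  have hset : ∀ ψ : ↥(P : Subgroup G) →* ℂˣ,
      {ψ' : ↥(P : Subgroup G) →* ℂˣ | ∃ n : G, n ∈ Subgroup.normalizer ((P : Subgroup G) : Set G) ∧
        ∀ w w' : ↥(P : Subgroup G), (w' : G) = n * w * n⁻¹ → ψ' w' = ψ w}
      = {ψ' | ∃ e : Cfsg.Lib.FreeNormalizer.aut P, Cfsg.Lib.FreeNormalizer.cmp ψ e = ψ'} := by
    intro ψ
    exact Set.ext fun ψ' => Cfsg.Lib.FreeNormalizer.conj_rel_iff ψ ψ'
  refine ⟨↑E.oth, ↑E.excS, ?_, ?_, ?_, ?_, ?_, E.av, E.sgn, E.mu, E.sgn_sq,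
    ?_, ?_, ?_, ?_, ?_, ?_⟩
  · ext χ
    rw [Set.mem_union, Finset.mem_coe, Finset.mem_coe, Cfsg.Lib.FreeNormalizer.Exc.oth,
      Finset.mem_sdiff, ← Cfsg.Lib.FreeNormalizer.mem_B0]
    have : χ ∈ E.excS → χ ∈ Cfsg.Lib.FreeNormalizer.B0 M := fun hh => E.excS_sub hh
    tauto
  · rw [Finset.disjoint_coe]; exact Finset.sdiff_disjoint
  · simp [hoth]
  · simp only [SetLike.coe_sort_coe, Nat.card_eq_fintype_card, Fintype.card_coe]
    simp only [Nat.card_eq_fintype_card] at hmul ⊢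
    omega
  · exact ⟨_, E.triv_mem_oth, rfl⟩
  · intro χ hχ
    refine ⟨hone χ hχ, fun z y hzy hy hy1 => ?_⟩
    obtain ⟨hB, hne⟩ := E.mem_oth.mp hχ
    rw [Cfsg.Lib.FreeNormalizer.apply_section h hM (Cfsg.Lib.FreeNormalizer.mem_B0.mp hB) hzy hy hy1]
    exact E.val_X χ hB hne ⟨y, hy⟩ fun hh => hy1 (congrArg Subtype.val hh)
  · exact fun ψ hψ => E.mem_excS.mpr ⟨ψ, hψ, rfl⟩
  · exact fun η hη => E.mem_excS.mp hη
  · intro ψ ψ' hψ hrel
    obtain ⟨e, rfl⟩ := (Set.ext_iff.mp (hset ψ) ψ').mp hrel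
    exact ((E.mu_eq ψ _ hψ (Cfsg.Lib.FreeNormalizer.cmp_ne_one hψ e)).mpr ⟨e, rfl⟩).symm
  · intro ψ hψ z y hzy hy1
    rw [Cfsg.Lib.FreeNormalizer.apply_section h hM
      (Cfsg.Lib.FreeNormalizer.mem_B0.mp (E.mu_mem ψ hψ)) hzy y.2 hy1,
      E.val_Y ψ hψ y fun hh => hy1 (congrArg Subtype.val hh), hset ψ,
      Cfsg.Lib.FreeNormalizer.finsum_orbit h hψ, hd]
    simp
  · rintro ⟨t, ht, hgen⟩
    obtain ⟨χ₂, χ₃, h23, hpair⟩ := Finset.card_eq_two.mp (show (E.oth.erase (Cfsg.Lib.Blocks.trivChar G)).card = 2 by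
      rw [Finset.card_erase_of_mem E.triv_mem_oth, hoth])
    have hothset : E.oth = {Cfsg.Lib.Blocks.trivChar G, χ₂, χ₃} := by
      rw [← Finset.insert_erase E.triv_mem_oth, hpair]
    have hm2' : χ₂ ∈ E.oth.erase (Cfsg.Lib.Blocks.trivChar G) := by rw [hpair]; simp
    have hm3' : χ₃ ∈ E.oth.erase (Cfsg.Lib.Blocks.trivChar G) := by rw [hpair]; simp
    have h2t := (Finset.mem_erase.mp hm2').1
    have h3t := (Finset.mem_erase.mp hm3').1
    obtain ⟨hsum, hsq⟩ := Cfsg.Lib.FreeNormalizer.involution_clause h hM hcA hm2 E hd hone h23 hothset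
      h2t h3t ht hgen
    have hset2 : {χ : Cfsg.IrrCharacter G | χ ∈ (↑E.oth : Set (Cfsg.IrrCharacter G)) ∧
        (χ : G → ℂ) ≠ fun _ => 1} = ↑({χ₂, χ₃} : Finset (Cfsg.IrrCharacter G)) := by
      ext χ
      rw [← hpair, Finset.mem_coe, Finset.mem_erase, Set.mem_ofPred_eq, Finset.mem_coe, and_comm]
      exact and_congr_left fun _ => not_congr ⟨fun hh => Subtype.ext hh, fun hh => hh ▸ rfl⟩
    refine ⟨?_, fun η hη => ?_⟩
    · have hcount : Nat.card {χ : Cfsg.IrrCharacter G // χ ∈ (↑E.oth : Set (Cfsg.IrrCharacter G)) ∧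
          (χ : G → ℂ) ≠ (fun _ => 1) ∧ E.av χ = -1} =
          (({χ₂, χ₃} : Finset (Cfsg.IrrCharacter G)).filter fun χ => E.av χ = -1).card := by
        rw [← Nat.card_eq_finsetCard]
        refine Nat.card_congr (Equiv.subtypeEquivRight fun χ => ?_)
        rw [Finset.mem_filter, ← Finset.mem_coe (s := ({χ₂, χ₃} : Finset (Cfsg.IrrCharacter G))), ← hset2,
          Set.mem_ofPred_eq, and_assoc]
      rw [hcount]
      rcases hone χ₂ (Finset.mem_erase.mp hm2').2 with e2 | e2 <;>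
        rcases hone χ₃ (Finset.mem_erase.mp hm3').2 with e3 | e3 <;>
        rcases E.sgn_sq with e4 | e4 <;> rw [e2, e3, e4] at hsum <;>
        simp [Finset.filter_insert, Finset.filter_singleton, e2, e3, e4, h23] <;> omega
    · rw [hset2, finprod_mem_coe_finset, Finset.prod_pair h23]
      exact hsq η hη

end Cfsg.Agent.S4721
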