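import Cfsg.Statements.S4722
import Mathlib
import Cfsg.Agent.Lib.Blocks.Columns
import Cfsg.Agent.Lib.Blocks.DefectZero

set_option autoImplicit false
open Cfsg

namespace Cfsg.Agent.S4722

/-- Let M be a maximal ideal of the algebraic integers containing 2, P a 2-subgroup of the finite group G, U a subset of P, and t an involution of G such that no element of U is inverted by any conjugate of t. Let θ be a generalized character of P vanishing outside U, and for χ in the principal 2-block B₀ put a_χ = #P⁻¹ Σ_{y ∈ P} χ(y) θ(y⁻¹). Then Σ_{χ ∈ B₀} a_χ χ(t)^2/χ(1) = 0, Σ_{χ ∈ B₀} a_χ χ(1) = 0 and Σ_{χ ∈ B₀} a_χ χ(t) = 0. If moreover #P⁻¹ Σ_{y ∈ P} θ(y) ≠ 0, then either at least two of the a_χ have positive real part and at least two have negative real part, or G has a proper normal subgroup containing O_2'(G) and t. -/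
theorem result {G : Type*} [Group G] [Finite G] (M : Ideal Cfsg.AlgInt) (hM : Cfsg.IsPModular 2 M) (P : Subgroup G) (hP : IsPGroup 2 P) (U : Set G) (hUP : U ⊆ (P : Set G)) (t : G) (ht : orderOf t = 2) (hinv : ∀ u ∈ U, ∀ g : G, (g * t * g⁻¹) * u * (g * t * g⁻¹)⁻¹ ≠ u⁻¹) (θ : ↥P → ℂ) (hθ : Cfsg.IsGeneralizedCharacter ↥P θ) (hθU : ∀ y : ↥P, (y : G) ∉ U → θ y = 0) : (∑ᶠ χ ∈ Cfsg.principalBlock M G, ((Nat.card ↥P : ℂ)⁻¹ * ∑ᶠ y : ↥P, (χ : G → ℂ) (y : G) * θ y⁻¹) * (χ : G → ℂ) t ^ 2 / (χ : G → ℂ) 1 = 0) ∧ (∑ᶠ χ ∈ Cfsg.principalBlock M G, ((Nat.card ↥P : ℂ)⁻¹ * ∑ᶠ y : ↥P, (χ : G → ℂ) (y : G) * θ y⁻¹) * (χ : G → ℂ) 1 = 0) ∧ (∑ᶠ χ ∈ Cfsg.principalBlock M G, ((Nat.card ↥P : ℂ)⁻¹ * ∑ᶠ y : ↥P, (χ : G → ℂ) (y : G) * θ y⁻¹) * (χ : G → ℂ) t = 0) ∧ ((Nat.card ↥P : ℂ)⁻¹ * ∑ᶠ y : ↥P, θ y ≠ 0 → (2 ≤ Nat.card {χ : Cfsg.IrrCharacter G // χ ∈ Cfsg.principalBlock M G ∧ 0 < (((Nat.card ↥P : ℂ)⁻¹ * ∑ᶠ y : ↥P, (χ : G → ℂ) (y : G) * θ y⁻¹)).re} ∧ 2 ≤ Nat.card {χ : Cfsg.IrrCharacter G //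 χ ∈ Cfsg.principalBlock M G ∧ (((Nat.card ↥P : ℂ)⁻¹ * ∑ᶠ y : ↥P, (χ : G → ℂ) (y : G) * θ y⁻¹)).re < 0}) ∨ ∃ K : Subgroup G, K.Normal ∧ K ≠ ⊤ ∧ Cfsg.pPrimeCore 2 G ≤ K ∧ t ∈ K) := by
  haveI := hM.2.1.isPrime
  haveI := Fintype.ofFinite G
  classical
  open Cfsg.Lib.Blocks Cfsg.Lib.Characters in
  · haveI : Fact (Nat.Prime 2) := ⟨Nat.prime_two⟩
    set B := principalBlock M G with hBdef
    have hB : IsPBlock M B := isPBlock_principal
    have ht2 : t * t = 1 := by
      have := pow_orderOf_eq_one t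
      rwa [ht, pow_two] at this
    have htinv : t⁻¹ = t := inv_eq_of_mul_eq_one_right ht2
    set a : IrrCharacter G → ℂ := fun χ =>
      (Nat.card ↥P : ℂ)⁻¹ * ∑ᶠ y : ↥P, (χ : G → ℂ) (y : G) * θ y⁻¹ with hadef
    have key : ∀ z : MonoidAlgebra ℂ G,
        (∀ g : G, z.coeff g ≠ 0 → ∀ x : G, IsPPart 2 g⁻¹ x → ∀ u ∈ U, ¬ IsConj u⁻¹ x) →
        ∑ᶠ χ ∈ B, a χ * (omega χ z * (χ : G → ℂ) 1) = 0 := by
      intro z hz
      have e : ∑ᶠ χ ∈ B, a χ * (omega χ z * (χ : G → ℂ) 1)
          = (Nat.card ↥P : ℂ)⁻¹ * ∑ y : ↥P, θ y⁻¹ * ∑ χ : IrrCharacter G,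
            (if χ ∈ B then (χ : G → ℂ) (y : G) * (omega χ z * (χ : G → ℂ) 1) else 0) := by
        rw [finsum_mem_def, finsum_eq_sum_of_fintype]
        simp only [hadef, finsum_eq_sum_of_fintype, Set.indicator_apply]
        simp only [Finset.mul_sum]
        rw [Finset.sum_comm]
        refine Finset.sum_congr rfl fun χ _ => ?_
        split_ifs
        · rw [Finset.sum_mul]
          exact Finset.sum_congr rfl fun y _ => by ring
        · simp
      rw [e, Finset.sum_eq_zero, mul_zero]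
      intro y _
      by_cases hy : ((y⁻¹ : ↥P) : G) ∈ U
      · rw [sum_block_omega_mul_eq_zero hM hB ?_ z ?_, mul_zero]
        · obtain ⟨k, hk⟩ := IsPGroup.iff_orderOf.mp hP y
          exact ⟨k, by rw [Subgroup.orderOf_coe, hk]⟩
        · intro g hg x hx
          have := hz g hg x hx _ hy
          simpa using this
      · rw [hθU _ hy, zero_mul]
    have hone : ∀ u ∈ U, u ≠ 1 := fun u hu hu1 => hinv u hu 1 (by rw [hu1]; group)
    have k1 : ∑ᶠ χ ∈ B, a χ * (χ : G → ℂ) 1 = 0 := by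
      rw [← key 1 ?_]
      · exact finsum_mem_congr rfl fun χ _ => by rw [omega_one, one_mul]
      · intro g hg x hx u hu hconj
        have hg1 : g = 1 := by
          by_contra hne
          apply hg
          rw [gr_one_apply, if_neg hne]
        subst hg1
        rw [inv_one] at hx
        obtain ⟨y, hxy, -, ⟨k, hk⟩, hy⟩ := hx
        have hox : orderOf x = orderOf y := by
          rw [show x = y⁻¹ from eq_inv_of_mul_eq_one_left hxy, orderOf_inv]
        have hx1 : x = 1 := by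
          rcases k with _ | k
          · exact orderOf_eq_one_iff.mp (by simpa using hk)
          · exact absurd (hox ▸ hk ▸ dvd_pow_self 2 (Nat.succ_ne_zero k)) hy
        rw [hx1] at hconj
        exact hone u hu (inv_eq_one.mp (isConj_one_left.mp hconj))
    have hinv' : ∀ u ∈ U, ∀ x b : G, IsConj t b → IsConj u⁻¹ x → b * x * b⁻¹ ≠ x⁻¹ := by
      intro u hu x b hb hux hbx
      obtain ⟨g, hg⟩ := isConj_iff.mp hb
      obtain ⟨c, hc⟩ := isConj_iff.mp hux
      refine hinv u hu (c⁻¹ * g) ?_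
      have e2 : c⁻¹ * g * t * (c⁻¹ * g)⁻¹ = c⁻¹ * b * c := by rw [← hg]; group
      rw [e2]
      have h3 : u = (c⁻¹ * x * c)⁻¹ := by rw [← hc]; group
      rw [h3]
      calc c⁻¹ * b * c * (c⁻¹ * x * c)⁻¹ * (c⁻¹ * b * c)⁻¹
          = c⁻¹ * (b * x * b⁻¹)⁻¹ * c := by group
        _ = (c⁻¹ * x * c)⁻¹⁻¹ := by rw [hbx]; group
    have hconjt : ∀ b : G, IsConj t b → b * b = 1 := by
      intro b hb
      obtain ⟨g, rfl⟩ := isConj_iff.mp hb
      calc g * t * g⁻¹ * (g * t * g⁻¹) = g * (t * t) * g⁻¹ := by group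
        _ = 1 := by rw [ht2]; group
    have hmulc : ∀ (c : ℂ) (F : IrrCharacter G → ℂ), ∑ᶠ χ ∈ B, c * F χ = c * ∑ᶠ χ ∈ B, F χ := fun c F => by
      rw [finsum_mem_def, finsum_mem_def, finsum_eq_sum_of_fintype, finsum_eq_sum_of_fintype, Finset.mul_sum]
      exact Finset.sum_congr rfl fun χ _ => by by_cases hχ : χ ∈ B <;> simp [hχ]
    have hcl : ∀ χ : IrrCharacter G, omega χ (classSum ℂ t)
        = ((Subgroup.centralizer ({t} : Set G)).index : ℂ) * (χ : G → ℂ) t / (χ : G → ℂ) 1 := fun χ => by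
      rw [omega_classSum]; rfl
    have hidx : ((Subgroup.centralizer ({t} : Set G)).index : ℂ) ≠ 0 :=
      Nat.cast_ne_zero.mpr Subgroup.index_ne_zero_of_finite
    have k3 : ∑ᶠ χ ∈ B, a χ * (χ : G → ℂ) t = 0 := by
      have h := key (classSum ℂ t) (by
        intro g hg x hx u hu hconj
        have hgt : IsConj t g := by
          by_contra hne
          apply hg
          rw [coeff_classSum, if_neg hne]
        refine hinv' u hu x g hgt hconj ?_
        refine conj_pPart_of_conj_eq_inv hx ?_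
        have := hconjt g hgt
        simp [inv_eq_of_mul_eq_one_right this, this])
      rw [finsum_mem_congr (s := B) rfl (g := fun χ => ((Subgroup.centralizer ({t} : Set G)).index : ℂ) *
        (a χ * (χ : G → ℂ) t)) fun χ _ => by
          rw [hcl, div_mul_cancel₀ _ χ.2.one_ne_zero]; ring, hmulc] at h
      exact (mul_eq_zero.mp h).resolve_left hidx
    have k2 : ∑ᶠ χ ∈ B, a χ * (χ : G → ℂ) t ^ 2 / (χ : G → ℂ) 1 = 0 := by
      have h := key (classSum ℂ t * classSum ℂ t) (by
        intro g hg x hx u hu hconj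
        obtain ⟨b, hb1, hb2⟩ : ∃ b : G, IsConj t b ∧ IsConj t (b⁻¹ * g) := by
          by_contra hne
          apply hg
          rw [gr_mul_apply]
          refine Finset.sum_eq_zero fun b _ => ?_
          by_cases h1 : IsConj t b
          · have : ¬ IsConj t (b⁻¹ * g) := fun h2 => hne ⟨b, h1, h2⟩
            simp only [coeff_classSum, if_neg this, mul_zero]
          · simp only [coeff_classSum, if_neg h1, zero_mul]
        refine hinv' u hu x b hb1 hconj ?_
        refine conj_pPart_of_conj_eq_inv hx ?_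
        have e1 := hconjt b hb1
        have e2 := hconjt _ hb2
        have hbi : b⁻¹ = b := inv_eq_of_mul_eq_one_right e1
        rw [hbi] at e2 ⊢
        rw [inv_inv]
        have e3 : g⁻¹ = b * g * b := by
          refine inv_eq_of_mul_eq_one_right ?_
          have : g * (b * g * b) = b * (b * g * (b * g)) * b := by
            rw [← mul_assoc b (b * g), ← mul_assoc b b, e1, one_mul]; group
          rw [this, e2, mul_one, e1]
        rw [e3]
        calc b * (b * g * b) * b = (b * b) * g * (b * b) := by group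
          _ = g := by rw [e1]; group)
      rw [finsum_mem_congr (s := B) rfl (g := fun χ => ((Subgroup.centralizer ({t} : Set G)).index : ℂ) ^ 2 *
        (a χ * (χ : G → ℂ) t ^ 2 / (χ : G → ℂ) 1)) fun χ _ => by
          rw [omega_mul χ (isClassElt_classSum ℂ t) (isClassElt_classSum ℂ t), hcl]
          have := χ.2.one_ne_zero
          field_simp, hmulc] at h
      exact (mul_eq_zero.mp h).resolve_left (pow_ne_zero _ hidx)
    refine ⟨k2, k1, k3, fun hθ1 => ?_⟩
    by_cases hK : ∃ K : Subgroup G, K.Normal ∧ K ≠ ⊤ ∧ pPrimeCore 2 G ≤ K ∧ t ∈ K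
    · exact Or.inr hK
    refine Or.inl ?_
    have hint : ∀ χ : IrrCharacter G, ∃ n : ℤ, a χ = n := by
      intro χ
      obtain ⟨n, hn⟩ := classInner_int
        (isGeneralized_of_isCharacter (isCharacter_restrict χ.2.isCharacter P)) hθ
      refine ⟨n, ?_⟩
      rw [← hn]
      simp only [hadef, classInner, finsum_eq_sum_of_fintype]
      rw [Nat.card_eq_fintype_card]
      congr 1
      refine Finset.sum_congr rfl fun y _ => ?_
      obtain ⟨c, hc, -⟩ := exists_coeff hθ
      rw [hc]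
      simp only [Finset.sum_apply, Pi.smul_apply, smul_eq_mul, map_sum, map_mul]
      congr 1
      refine Finset.sum_congr rfl fun φ _ => ?_
      rw [char_inv_eq_conj φ.2.isCharacter]
      simp
    have hreal : ∀ χ : IrrCharacter G, (((χ : G → ℂ) t).re : ℂ) = (χ : G → ℂ) t := by
      intro χ
      have := char_inv_eq_conj χ.2.isCharacter t
      rw [htinv] at this
      exact Complex.conj_eq_iff_re.mp this.symm
    set s := Finset.univ.filter (fun χ : IrrCharacter G => χ ∈ B) with hs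
    have hsum : ∀ (F : IrrCharacter G → ℂ), ∑ᶠ χ ∈ B, F χ = ∑ χ ∈ s, F χ := fun F => by
      rw [← finsum_mem_coe_finset]
      exact finsum_mem_congr (by ext; simp [hs]) fun _ _ => rfl
    have ha1 : (a (trivChar G)).re ≠ 0 := by
      intro h0
      obtain ⟨n, hn⟩ := hint (trivChar G)
      rw [hn, Complex.intCast_re, Int.cast_eq_zero] at h0
      rw [h0, Int.cast_zero] at hn
      apply hθ1
      rw [← hn]
      simp only [hadef]
      congr 1
      rw [finsum_eq_sum_of_fintype, finsum_eq_sum_of_fintype]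
      refine (Fintype.sum_equiv (Equiv.inv ↥P) _ _ fun y => ?_).symm
      simp
    have htr : trivChar G ∈ s := by simp [hs, hBdef, trivChar_mem_principal]
    have hdeg : ∀ χ : IrrCharacter G, (χ : G → ℂ) 1 = ((charDegree (χ : G → ℂ) : ℕ) : ℂ) :=
      fun χ => (coe_charDegree χ).symm
    have main : ∀ ε : ℝ, ε ≠ 0 → (s.filter fun χ => 0 < ε * (a χ).re).card ≤ 1 → False := by
      intro ε hε hcard
      have hx : ∀ χ ∈ s, 0 < (charDegree (χ : G → ℂ) : ℝ) := fun χ _ => Nat.cast_pos.mpr (charDegree_pos χ)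
      have hcast : ∀ χ : IrrCharacter G, ((a χ).re : ℂ) = a χ := fun χ => by
        obtain ⟨n, hn⟩ := hint χ
        rw [hn, Complex.intCast_re]; simp
      have e1 : ∑ χ ∈ s, ε * (a χ).re * (charDegree (χ : G → ℂ) : ℝ) = 0 := by
        apply Complex.ofReal_injective
        push_cast
        rw [hsum] at k1
        rw [Finset.sum_congr rfl (g := fun χ => (ε : ℂ) * (a χ * (χ : G → ℂ) 1)) fun χ _ => by
          rw [hcast, ← hdeg]; ring, ← Finset.mul_sum, k1, mul_zero]
      have e2 : ∑ χ ∈ s, ε * (a χ).re * ((χ : G → ℂ) t).re ^ 2 / (charDegree (χ : G → ℂ) : ℝ) = 0 := by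
        apply Complex.ofReal_injective
        push_cast
        rw [hsum] at k2
        rw [Finset.sum_congr rfl (g := fun χ => (ε : ℂ) * (a χ * (χ : G → ℂ) t ^ 2 / (χ : G → ℂ) 1))
          fun χ _ => by rw [hcast, hreal, ← hdeg]; ring, ← Finset.mul_sum, k2, mul_zero]
      have e3 : ∑ χ ∈ s, ε * (a χ).re * ((χ : G → ℂ) t).re = 0 := by
        apply Complex.ofReal_injective
        push_cast
        rw [hsum] at k3
        rw [Finset.sum_congr rfl (g := fun χ => (ε : ℂ) * (a χ * (χ : G → ℂ) t))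
          fun χ _ => by rw [hcast, hreal]; ring, ← Finset.mul_sum, k3, mul_zero]
      have hv0 : ((trivChar G : G → ℂ) t).re = (charDegree (trivChar G : G → ℂ) : ℝ) := by
        rw [charDegree_eq (d := 1) (by simp)]; simp
      have hall := eq_of_moments s _ _ _ hx e1 e2 e3 htr (mul_ne_zero hε ha1) hv0 hcard
      obtain ⟨ψ, hψs, hψne, hψa⟩ : ∃ ψ ∈ s, ψ ≠ trivChar G ∧ (a ψ).re ≠ 0 := by
        by_contra hcon
        simp only [not_exists, not_and, not_not] at hcon
        rw [Finset.sum_eq_single_of_mem _ htr fun χ hχ hne => by rw [hcon χ hχ hne]; ring] at e1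
        exact mul_ne_zero (mul_ne_zero hε ha1) (hx _ htr).ne' e1
      have hψt : (ψ : G → ℂ) t = (ψ : G → ℂ) 1 := by
        rw [← hreal ψ, hall ψ hψs (mul_ne_zero hε hψa), hdeg]; simp
      refine hK ⟨charKer ψ.2.isCharacter, charKer_normal _, fun htop => ?_, fun n hn => ?_,
        (mem_charKer _).mpr hψt⟩
      · have hconst : ∀ g : G, (ψ : G → ℂ) g = (ψ : G → ℂ) 1 := fun g =>
          (mem_charKer _).mp (htop ▸ Subgroup.mem_top g)
        have h0 : classInner (ψ : G → ℂ) (trivChar G : G → ℂ) = 0 := by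
          rw [classInner_irr ψ.2 (trivChar G).2, if_neg fun h => hψne (Subtype.ext h)]
        rw [classInner] at h0
        simp only [hconst] at h0
        simp [Nat.cast_ne_zero, ψ.2.one_ne_zero] at h0
      · refine (mem_charKer _).mpr (principal_ker hM _ (Cfsg.Lib.Solv.not_dvd_card_pPrimeCore 2) ?_ n hn)
        exact (Finset.mem_filter.mp hψs).2
    constructor
    · by_contra h
      refine main 1 one_ne_zero ?_
      rw [not_le, Nat.lt_succ_iff, Nat.card_eq_fintype_card, Fintype.card_subtype] at h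
      refine le_trans (le_of_eq ?_) h
      rw [hs, Finset.filter_filter]
      simp [hadef]
    · by_contra h
      refine main (-1) (by norm_num) ?_
      rw [not_le, Nat.lt_succ_iff, Nat.card_eq_fintype_card, Fintype.card_subtype] at h
      refine le_trans (le_of_eq ?_) h
      rw [hs, Finset.filter_filter]
      simp [hadef]

end Cfsg.Agent.S4722
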