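import Cfsg.Statements.S4723
import Cfsg.Agent.Lib.Blocks.CoveringDefect
import Cfsg.Agent.Lib.Blocks.Heights
import Cfsg.Agent.Lib.Characters.Gallagher

set_option autoImplicit false
open Cfsg

namespace Cfsg.Agent.S4723

open Cfsg.Lib.Characters Cfsg.Lib.Blocks
open scoped ComplexConjugate Classical

universe u

set_option maxHeartbeats 1000000 in
/-- An invariant block of a normal subgroup of prime power index has an invariant height zero character. -/
theorem core {X : Type u} [Group X] [Fintype X] {N : Subgroup X} [N.Normal] [Fintype N] {p : ℕ} [Fact p.Prime]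
    {M : Ideal Cfsg.AlgInt} [M.IsPrime] (hM : IsPModular p M) (hN : ∃ k : ℕ, N.index = p ^ k)
    {b : Set (IrrCharacter N)} (hb : IsPBlock M b) (hst : ∀ g : X, ∀ θ ∈ b, cjIrr θ g ∈ b) :
    ∃ θ ∈ b, blockHeight p b (θ : N → ℂ) = 0 ∧ ∀ g : X, cjIrr θ g = θ := by
  obtain ⟨θ₀, hθ₀⟩ := IsPBlock.nonempty hb
  obtain ⟨χ₀, hχ₀⟩ := exists_irr_over (G := X) θ₀
  set B := blockOf M (χ₀ : X → ℂ) with hBdef
  have hB : IsPBlock M B := ⟨χ₀, rfl⟩
  have hU : CjStable b := fun g θ hθ => hst g θ hθ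
  have hiff : ∀ (χ : IrrCharacter X) (θ : IrrCharacter N),
      classInner (fun n : N => (χ : X → ℂ) n) (θ : N → ℂ) ≠ 0 → (θ ∈ b ↔ χ ∈ B) := by
    intro χ θ hne
    constructor
    · exact fun hθ => sameBlock_of_pPow_index hM hN hb hθ₀ hθ hχ₀ hne
    · exact fun hχ => (mem_iff_of_sameBlock hU (IsPBlock.isBlockUnion hb) hχ hχ₀ hne).mp hθ₀
  have hE : incSub N (blockE b) = blockE B := by
    refine ext_omega (isClassElt_incSub_blockE_cj hU) (isClassElt_blockE B) fun χ => ?_
    obtain ⟨θ, hθ⟩ := exists_res_constituent (N := N) χ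
    rw [omega_incSub_blockE hU χ θ hθ, omega_blockE]
    simp only [hiff χ θ hθ]
  obtain ⟨D, hD⟩ := exists_defectGroup hM hB
  obtain ⟨g, hg, hgS⟩ := isDefectGroup_iff.mp hD
  obtain ⟨-, hcne, hωne⟩ := exists_defectClass_data hg
  have hgN : g ∈ N := by
    by_contra h
    rw [← coeff_blockE, ← hE, coeff_incSub_notMem _ _ h, red_zero] at hcne
    exact hcne rfl
  have hcb : red M (blockCoeff b ⟨g, hgN⟩) ≠ 0 := by
    rwa [← coeff_blockE, ← coeff_incSub_mem N (blockE b) ⟨g, hgN⟩, hE, coeff_blockE]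
  -- all the classes of `N` inside the class of `g` look alike
  have hlike : ∀ n : N, IsConj g (n : X) →
      red M (centralChar (θ₀ : N → ℂ) n) = red M (centralChar (θ₀ : N → ℂ) ⟨g, hgN⟩) ∧
      (Subgroup.centralizer ({n} : Set N)).index = (Subgroup.centralizer ({(⟨g, hgN⟩ : N)} : Set N)).index := by
    intro n hn
    obtain ⟨x, hx⟩ := isConj_iff.mp hn
    have hn' : n = (MulAut.conjNormal x : N ≃* N) ⟨g, hgN⟩ :=
      Subtype.ext (by rw [MulAut.conjNormal_apply]; exact hx.symm)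
    refine ⟨?_, ?_⟩
    · have hs := (sameBlock_iff M θ₀ (cjIrr θ₀ x)).mp (IsPBlock.sameBlock hb hθ₀ (hst x θ₀ hθ₀)) ⟨g, hgN⟩
      rw [hs, hn']
      exact congrArg (red M) (centralChar_pull (MulAut.conjNormal x : N ≃* N) (θ₀ : N → ℂ) ⟨g, hgN⟩).symm
    · rw [hn', ← card_conj_eq_index, ← card_conj_eq_index]
      exact (Nat.card_congr ((MulAut.conjNormal x : N ≃* N).toEquiv.subtypeEquiv fun y =>
        ⟨fun h => (MulAut.conjNormal x : N ≃* N).toMonoidHom.map_isConj h, fun h => by
          simpa using (MulAut.conjNormal x : N ≃* N).symm.toMonoidHom.map_isConj h⟩)).symm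
  set T : Finset (ConjClasses N) := Finset.univ.filter fun C => IsConj g ((cOut C : N) : X) with hT
  have hz : IsClassElt (resSub N (classSum ℂ g)) := (isClassElt_classSum ℂ g).resSub _
  have hzl : ∀ m : N, (resSub N (classSum ℂ g)).coeff m ∈ locRing M := fun m => by
    rw [coeff_resSub]; exact isLoc_classSum M _ _
  have hω : red M (centralChar (χ₀ : X → ℂ) g)
      = (T.card : ResF M) * red M (centralChar (θ₀ : N → ℂ) ⟨g, hgN⟩) := by
    rw [← omega_classSum, omega_eq_omega_res χ₀ θ₀ hχ₀ (isClassElt_classSum ℂ g) (fun y hy => by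
      rw [coeff_classSum, if_neg fun h => hy (isConj_mem_normal (n := ⟨g, hgN⟩) h)]),
      omega_eq_sum_classes θ₀ hz]
    refine (red_sum _ ?_).trans ?_
    · exact fun C _ => mul_mem (hzl _) (centralChar_mem_locRing M _ _)
    refine Eq.trans ?_ ((Finset.sum_const (s := T) (red M (centralChar (θ₀ : N → ℂ) ⟨g, hgN⟩))).trans (nsmul_eq_mul _ _))
    rw [hT, Finset.sum_filter]
    refine Finset.sum_congr (by ext; simp) fun C _ => ?_
    rw [coeff_resSub, coeff_classSum]
    split_ifs with h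
    · rw [one_mul, (hlike _ h).1]
    · rw [zero_mul, red_zero]
  have hne := hωne χ₀ (mem_blockOf_self M χ₀)
  rw [hω] at hne
  have hTp : ¬ p ∣ T.card := fun h => left_ne_zero_of_mul hne ((natCast_resF_eq_zero hM _).mpr h)
  have hωb := right_ne_zero_of_mul hne
  have hclass : IsDefectClass M b (⟨g, hgN⟩ : N) := by
    refine ⟨blockCoeff_mem_locRing hb _, (not_memLocalIdeal_iff (blockCoeff_mem_locRing hb _)).mpr hcb,
      fun ψ hψ => ?_⟩
    rw [not_memLocalIdeal_iff (centralChar_mem_locRing M ψ _),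
      ← (sameBlock_iff M θ₀ ψ).mp (IsPBlock.sameBlock hb hθ₀ hψ)]
    exact hωb
  -- the class of `g` has the same `p`-part in `N` and in `X`
  have hsize : (Subgroup.centralizer ({g} : Set X)).index
      = T.card * (Subgroup.centralizer ({(⟨g, hgN⟩ : N)} : Set N)).index := by
    have h1 := sum_classes (fun n : N => if IsConj g (n : X) then (1 : ℕ) else 0) fun a c hac => by
      have : IsConj (a : X) (c : X) := N.subtype.map_isConj hac
      exact if_congr ⟨fun h => h.trans this, fun h => h.trans this.symm⟩ rfl rfl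
    rw [Finset.sum_congr rfl (g := fun C : ConjClasses N => if IsConj g ((cOut C : N) : X) then
      (Subgroup.centralizer ({(⟨g, hgN⟩ : N)} : Set N)).index else 0) fun C _ => by
        split_ifs with h
        · rw [Nat.cast_id, mul_one, (hlike _ h).2]
        · rw [mul_zero], ← Finset.sum_filter, ← Finset.sum_filter, Finset.sum_const, Finset.sum_const,
      smul_eq_mul, smul_eq_mul, mul_one] at h1
    rw [hT]
    have h2 : (Finset.univ.filter fun x : X => IsConj g x).card
        = (Finset.univ.filter fun n : N => IsConj g (n : X)).card := by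
      refine Eq.symm (Finset.card_bij (fun n _ => (n : X)) (fun n hn => ?_) (fun a _ c _ h => Subtype.ext h)
        fun y hy => ⟨⟨y, isConj_mem_normal (n := ⟨g, hgN⟩) (Finset.mem_filter.mp hy).2⟩, ?_, rfl⟩)
      · exact Finset.mem_filter.mpr ⟨Finset.mem_univ _, (Finset.mem_filter.mp hn).2⟩
      · exact Finset.mem_filter.mpr ⟨Finset.mem_univ _, (Finset.mem_filter.mp hy).2⟩
    refine ((card_filter_isConj g).symm.trans (h2.trans h1)).trans ?_
    exact congrArg (fun s : Finset (ConjClasses N) => s.card * _) (Finset.ext fun C => by simp)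
  obtain ⟨Q, hQ⟩ := exists_isSylCent p (⟨g, hgN⟩ : N)
  have hQd : IsDefectGroup p M b Q := isDefectGroup_iff.mpr ⟨_, hclass, hQ⟩
  have hdX : blockDefect p B = (Nat.card (Subgroup.centralizer ({g} : Set X))).factorization p :=
    (Nat.pow_right_injective (Fact.out : p.Prime).two_le) ((card_defectGroup hM hB hD).symm.trans hgS.card_eq)
  have hdN : blockDefect p b = (Nat.card (Subgroup.centralizer ({(⟨g, hgN⟩ : N)} : Set N))).factorization p :=
    (Nat.pow_right_injective (Fact.out : p.Prime).two_le) ((card_defectGroup hM hb hQd).symm.trans hQ.card_eq)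
  have hX := index_factorization (p := p) g
  have hNf := index_factorization (p := p) (⟨g, hgN⟩ : N)
  have hi : (Subgroup.centralizer ({g} : Set X)).index.factorization p
      = (Subgroup.centralizer ({(⟨g, hgN⟩ : N)} : Set N)).index.factorization p := by
    rw [hsize, Nat.factorization_mul (fun h => hTp (by rw [h]; exact dvd_zero p)) Subgroup.index_ne_zero_of_finite,
      Finsupp.add_apply, Nat.factorization_eq_zero_of_not_dvd hTp, zero_add]
  obtain ⟨χ₁, hχ₁, hmin⟩ := exists_height_zero p (IsPBlock.nonempty hB)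
  obtain ⟨φ, hφ, hφmin⟩ := exists_height_zero p (IsPBlock.nonempty hb)
  obtain ⟨θ, hθ⟩ := exists_res_constituent (N := N) χ₁
  have hθb := (hiff χ₁ θ hθ).mpr hχ₁
  have hlow := inf_le_factorization p hθb
  obtain ⟨hd1, hd2⟩ := degree_dvd_of_normal θ.2 χ₁.2 hθ (coe_charDegree χ₁).symm (coe_charDegree θ).symm
  obtain ⟨k, hk⟩ := hN
  rw [hk] at hd2
  obtain ⟨j, -, hj⟩ := (Nat.dvd_prime_pow (Fact.out : p.Prime)).mp hd2
  have hχθ : charDegree (χ₁ : X → ℂ) = p ^ j * charDegree (θ : N → ℂ) := by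
    rw [← hj, Nat.div_mul_cancel hd1]
  have hv : (charDegree (χ₁ : X → ℂ)).factorization p = j + (charDegree (θ : N → ℂ)).factorization p := by
    rw [hχθ, Nat.factorization_mul (pow_ne_zero _ (Fact.out : p.Prime).ne_zero) (charDegree_pos θ).ne',
      Finsupp.add_apply, (Fact.out : p.Prime).factorization_pow, Finsupp.single_eq_same]
  have hchi : (charDegree (χ₁ : X → ℂ)).factorization p ≤ (Nat.card X).factorization p :=
    (Nat.factorization_le_iff_dvd (charDegree_pos χ₁).ne' Nat.card_pos.ne').mpr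
      (degree_dvd_card χ₁.2 (coe_charDegree χ₁).symm) p
  have hphi : (charDegree (φ : N → ℂ)).factorization p ≤ (Nat.card N).factorization p :=
    (Nat.factorization_le_iff_dvd (charDegree_pos φ).ne' Nat.card_pos.ne').mpr
      (degree_dvd_card φ.2 (coe_charDegree φ).symm) p
  simp only [blockDefect, ← hmin, ← hφmin] at hdX hdN
  have hj0 : j = 0 := by omega
  refine ⟨θ, hθb, (blockHeight_eq_zero_iff p hθb).mpr (by omega), fun x => Subtype.ext ?_⟩
  obtain ⟨m, hm⟩ := exists_decomposition (isCharacter_comp χ₁.2.isCharacter N.subtype)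
  have hdeg : ∑ ψ : IrrCharacter N, m ψ * charDegree (ψ : N → ℂ) = charDegree (θ : N → ℂ) := by
    have h : (χ₁ : X → ℂ) 1 = ∑ ψ : IrrCharacter N, (m ψ : ℂ) * (ψ : N → ℂ) 1 := by
      have h := congrFun hm 1
      simpa using h
    rw [← coe_charDegree, hχθ, hj0, pow_zero, one_mul] at h
    rw [← Nat.cast_inj (R := ℂ), Nat.cast_sum, h]
    exact Finset.sum_congr rfl fun ψ _ => by rw [Nat.cast_mul, coe_charDegree]
  have hmθ : m θ ≠ 0 := fun h0 => hθ (by
    rw [show (fun n : N => (χ₁ : X → ℂ) n) = ∑ ψ : IrrCharacter N, (m ψ : ℂ) • (ψ : N → ℂ) from hm]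
    exact (classInner_sum_irr (fun ψ => (m ψ : ℂ)) θ).trans (by rw [h0, Nat.cast_zero]))
  have hsplit := (Finset.add_sum_erase Finset.univ (fun ψ => m ψ * charDegree (ψ : N → ℂ)) (Finset.mem_univ θ)).symm
  have hpos := charDegree_pos θ
  have hm1 : m θ = 1 := by
    by_contra h
    have : 2 * charDegree (θ : N → ℂ) ≤ m θ * charDegree (θ : N → ℂ) := Nat.mul_le_mul_right _ (by omega)
    omega
  have hrest : ∀ ψ, ψ ≠ θ → m ψ = 0 := by
    intro ψ hne
    rw [hm1, one_mul] at hsplit
    have h0 : ∑ ψ ∈ Finset.univ.erase θ, m ψ * charDegree (ψ : N → ℂ) = 0 := by omega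
    have := (Finset.sum_eq_zero_iff.mp h0) ψ (by simp [hne])
    exact (Nat.mul_eq_zero.mp this).resolve_right (charDegree_pos ψ).ne'
  have hres : ∀ n : N, (θ : N → ℂ) n = (χ₁ : X → ℂ) n := fun n => by
    have h := congrFun hm n
    rw [Finset.sum_apply, Finset.sum_eq_single θ (fun ψ _ hne => by simp [hrest ψ hne]) (by simp)] at h
    simpa [hm1] using h.symm
  funext n
  rw [coe_cjIrr, conjFn_apply, hres, hres]
  exact χ₁.2.isClassFunction (n : X) x

/-- Let p be a prime, M a maximal ideal of the algebraic integers containing p, H a normal subgroup of the finite group G and b a p-block of H. Let T be the stabilizer of b in G. Then b contains a character θ of height zero whose own stabilizer in G (the elements g with θ(g h g⁻¹) = θ(h) for all h ∈ H) has index prime to p in T, i.e. contains a Sylow p-subgroup of T. -/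
theorem result {G : Type*} [Group G] [Finite G] (p : ℕ) [Fact p.Prime] (M : Ideal Cfsg.AlgInt) (hM : Cfsg.IsPModular p M) (H : Subgroup G) [H.Normal] (b : Set (Cfsg.IrrCharacter ↥H)) (hb : Cfsg.IsPBlock M b) (T : Subgroup G) (hT : (∀ g : G, g ∈ T ↔ ∀ θ ∈ b, ∀ θ' : Cfsg.IrrCharacter ↥H, (∀ h h' : ↥H, (h' : G) = g * h * g⁻¹ → (θ' : ↥H → ℂ) h' = (θ : ↥H → ℂ) h) → θ' ∈ b)) : ∃ θ ∈ b, Cfsg.blockHeight p b (θ : ↥H → ℂ) = 0 ∧ ∃ S : Subgroup G, S ≤ T ∧ (∀ g : G, g ∈ S ↔ (g ∈ T ∧ ∀ h h' : ↥H, (h' : G) = g * h * g⁻¹ → (θ : ↥H → ℂ) h' = (θ : ↥H → ℂ) h)) ∧ ¬ p ∣ S.relIndex T := by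
  haveI : Fintype G := Fintype.ofFinite G
  haveI := hM.2.1.isPrime
  haveI : Fintype H := Fintype.ofFinite _
  have hTc' : ∀ g : G, g ∈ T ↔ ∀ θ ∈ b, cjIrr θ g⁻¹ ∈ b := by
    intro g
    rw [hT]
    constructor
    · intro h θ hθ
      refine h θ hθ _ fun n n' hn => ?_
      rw [coe_cjIrr, conjFn_apply]
      refine congrArg (θ : H → ℂ) (Subtype.ext ?_)
      show g⁻¹ * (n' : G) * g⁻¹⁻¹ = n
      rw [hn]
      group
    · intro h θ hθ θ' hθ'
      rw [show θ' = cjIrr θ g⁻¹ from Subtype.ext (funext fun n => by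
        rw [coe_cjIrr, conjFn_apply]
        exact hθ' ⟨g⁻¹ * n * g⁻¹⁻¹, _⟩ n (by group))]
      exact h θ hθ
  have hTc : ∀ g : G, g ∈ T ↔ ∀ θ ∈ b, cjIrr θ g ∈ b := fun g => by
    have := hTc' g⁻¹
    rwa [inv_inv, inv_mem_iff] at this
  have hHT : H ≤ T := fun g hg => (hTc g).mpr fun θ hθ => by
    rwa [show cjIrr θ g = θ from Subtype.ext (by rw [coe_cjIrr]; exact conjFn_mem θ.2.isClassFunction ⟨g, hg⟩)]
  obtain ⟨P⟩ : Nonempty (Sylow p T) := inferInstance
  set P' := (P : Subgroup T).map T.subtype with hP'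
  have hP'T : P' ≤ T := Subgroup.map_subtype_le _
  set X := P' ⊔ H with hX
  have hXT : X ≤ T := sup_le hP'T hHT
  haveI : Fintype X := Fintype.ofFinite _
  set N := H.subgroupOf X with hNdef
  haveI : Fintype N := Fintype.ofFinite _
  have hHX : H ≤ X := le_sup_right
  set f : N ≃* H := Subgroup.subgroupOfEquivOfLe hHX
  have hst : ∀ g : X, ∀ θ ∈ pullBlock f b, cjIrr θ g ∈ pullBlock f b := by
    intro g θ hθ
    have h1 := (hTc (g : G)).mp (hXT g.2) _ hθ
    show irrPull f.symm (cjIrr θ g) ∈ b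
    convert h1 using 1
    refine Subtype.ext (funext fun n => ?_)
    rfl
  have hidx : ∃ k : ℕ, N.index = p ^ k := by
    have h1 : N.index = H.relIndex P' := by
      show H.relIndex X = _
      exact Subgroup.relIndex_sup_right P' H
    have h2 : H.relIndex P' ∣ Nat.card P' := Subgroup.index_dvd_card _
    obtain ⟨k, hk⟩ := (P.isPGroup'.map T.subtype).exists_card_eq
    rw [hk] at h2
    obtain ⟨j, -, hj⟩ := (Nat.dvd_prime_pow (Fact.out : p.Prime)).mp h2
    exact ⟨j, h1.trans hj⟩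
  obtain ⟨θ', hθ', hht, hinv⟩ := core hM hidx (isPBlock_pull f hb) hst
  refine ⟨irrPull f.symm θ', hθ', ?_, ?_⟩
  · have hθ'' : irrPull f.symm θ' ∈ b := hθ'
    rw [blockHeight_eq_zero_iff p hθ'']
    rw [blockHeight_eq_zero_iff p (show θ' ∈ pullBlock f b from hθ')] at hht
    have hdeg : ∀ ψ : IrrCharacter N, charDegree (irrPull f.symm ψ : H → ℂ) = charDegree (ψ : N → ℂ) := fun ψ => by
      rw [← Nat.cast_inj (R := ℂ), coe_charDegree, coe_charDegree, irrPull_apply, map_one]
    rw [hdeg, hht]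
    congr 1
    ext v
    constructor
    · rintro ⟨ψ, hψ, rfl⟩; exact ⟨_, hψ, congrArg (fun d => d.factorization p) (hdeg ψ)⟩
    · rintro ⟨ψ, hψ, rfl⟩
      refine ⟨irrPull f ψ, (mem_pullBlock f b ψ).mpr hψ, ?_⟩
      show (charDegree (irrPull f ψ : N → ℂ)).factorization p = _
      rw [← hdeg (irrPull f ψ), symm_irrPull]
  · set θ := irrPull f.symm θ' with hθdef
    let S : Subgroup G :=
      { carrier := {g | g ∈ T ∧ cjIrr θ g = θ}
        one_mem' := ⟨one_mem T, cjIrr_one θ⟩
        mul_mem' := fun {a c} ha hc => ⟨mul_mem ha.1 hc.1, by rw [← cjIrr_cjIrr, ha.2, hc.2]⟩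
        inv_mem' := fun {a} ha => ⟨inv_mem ha.1, by
          conv_lhs => rw [← ha.2]
          rw [cjIrr_cjIrr, mul_inv_cancel, cjIrr_one]⟩ }
    refine ⟨S, fun g hg => hg.1, fun g => ?_, ?_⟩
    · show (g ∈ T ∧ cjIrr θ g = θ) ↔ _
      refine and_congr_right fun _ => ⟨fun h n n' hn => ?_, fun h => ?_⟩
      · conv_rhs => rw [← h, coe_cjIrr, conjFn_apply]
        exact congrArg (θ : H → ℂ) (Subtype.ext hn)
      · refine Subtype.ext (funext fun n => ?_)
        rw [coe_cjIrr, conjFn_apply]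
        exact h n _ rfl
    · intro hdvd
      have hPS : P' ≤ S := fun g hg => ⟨hP'T hg, by
        have h1 := hinv ⟨g, le_sup_left (b := H) hg⟩
        conv_rhs => rw [hθdef, ← h1]
        exact Subtype.ext (funext fun n => rfl)⟩
      refine P.not_dvd_index (hdvd.trans ?_)
      show (S.subgroupOf T).index ∣ _
      exact Subgroup.index_dvd_of_le fun t ht => hPS ⟨t, ht, rfl⟩

end Cfsg.Agent.S4723
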