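import Cfsg.Statements.S4725
import Mathlib
import Cfsg.Agent.Lib.Blocks.Restriction

set_option autoImplicit false
open Cfsg

namespace Cfsg.Agent.S4725

/-- Let p be a prime, M a maximal ideal of the algebraic integers containing p, H a subgroup of the finite group G, and b a p-block of H inducing the p-block B of G, with b and B of the same defect. Then for every height-zero ζ ∈ b there is a height-zero χ ∈ B whose multiplicity in the character induced from ζ is not divisible by p. -/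
theorem result {G : Type*} [Group G] [Fintype G] (p : ℕ) [Fact p.Prime] (M : Ideal Cfsg.AlgInt) (hM : Cfsg.IsPModular p M) (H : Subgroup G) (b : Set (Cfsg.IrrCharacter ↥H)) (B : Set (Cfsg.IrrCharacter G)) (hind : Cfsg.IsInducedBlock M H b B) (hdef : Cfsg.blockDefect p b = Cfsg.blockDefect p B) (ζ : Cfsg.IrrCharacter ↥H) (hζ : ζ ∈ b) (hζ0 : Cfsg.blockHeight p b (ζ : ↥H → ℂ) = 0) : ∃ χ ∈ B, Cfsg.blockHeight p B (χ : G → ℂ) = 0 ∧ ∃ a : ℕ, Cfsg.classInner (Cfsg.indFun H (ζ : ↥H → ℂ)) (χ : G → ℂ) = (a : ℂ) ∧ ¬ p ∣ a := by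
  haveI := hM.2.1.isPrime
  classical
  obtain ⟨n, hn, hn1, -⟩ := Cfsg.Lib.Blocks.exists_nat_blockPart_indFun hM hind hζ hind.2.1
  obtain ⟨hn0, hnv⟩ := hn1 rfl
  obtain ⟨hD, hD0⟩ := Cfsg.Lib.Blocks.charDegree_indFun H ζ
  choose a ha using fun χ : Cfsg.IrrCharacter G => Cfsg.Lib.Characters.classInner_nat
    (Cfsg.Lib.Characters.isCharacter_indFun H ζ.2.isCharacter) χ.2.isCharacter
  have hn' : n = ∑ χ ∈ Finset.univ.filter (· ∈ B), a χ * Cfsg.charDegree (χ : G → ℂ) := by
    rw [Cfsg.Lib.Blocks.blockPart_one_eq_sum] at hn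
    apply Nat.cast_injective (R := ℂ)
    rw [← hn, Nat.cast_sum]
    exact Finset.sum_congr rfl fun χ _ => by rw [ha, Nat.cast_mul, Cfsg.Lib.Blocks.coe_charDegree]
  by_contra hh
  push Not at hh
  have hdeg : Cfsg.charDegree (Cfsg.indFun H (ζ : H → ℂ)) = H.index * Cfsg.charDegree (ζ : H → ℂ) :=
    Cfsg.Lib.Blocks.charDegree_eq (by
      rw [Cfsg.Lib.Characters.indFun_one_apply, Nat.cast_mul, Cfsg.Lib.Blocks.coe_charDegree])
  obtain ⟨χ₀, hχ₀, -⟩ := Cfsg.Lib.Blocks.exists_height_zero p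
    (Cfsg.Lib.Blocks.IsPBlock.nonempty hind.2.1)
  set m := sInf ((fun χ : Cfsg.IrrCharacter G => (Cfsg.charDegree (χ : G → ℂ)).factorization p) '' B)
    with hm
  have hζm := (Cfsg.Lib.Blocks.blockHeight_eq_zero_iff p hζ).mp hζ0
  have hmle : m ≤ (Nat.card G).factorization p :=
    (Cfsg.Lib.Blocks.inf_le_factorization p hχ₀).trans (Cfsg.Lib.Blocks.charDegree_factorization_le χ₀)
  have hζle := Cfsg.Lib.Blocks.charDegree_factorization_le (p := p) ζ
  have hidx : H.index.factorization p + (Nat.card H).factorization p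
      = (Nat.card G).factorization p := by
    rw [← Finsupp.add_apply, ← Nat.factorization_mul H.index_ne_zero_of_finite Nat.card_pos.ne',
      H.index_mul_card]
  have hnm : n.factorization p = m := by
    rw [hnv, hdeg, Nat.factorization_mul H.index_ne_zero_of_finite
      (Cfsg.Lib.Blocks.charDegree_pos ζ).ne', Finsupp.add_apply]
    unfold Cfsg.blockDefect at hdef
    rw [← hm, ← hζm] at hdef
    omega
  have hdvd : p ^ (m + 1) ∣ n := by
    rw [hn']
    refine Finset.dvd_sum fun χ hχ => ?_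
    have hχB := (Finset.mem_filter.mp hχ).2
    have hle := Cfsg.Lib.Blocks.inf_le_factorization p hχB
    rw [← hm] at hle
    by_cases hp' : p ∣ a χ
    · rw [pow_succ']
      exact Nat.mul_dvd_mul hp' (((Fact.out : p.Prime).pow_dvd_iff_le_factorization
        (Cfsg.Lib.Blocks.charDegree_pos χ).ne').mpr hle)
    · refine Dvd.dvd.mul_left (((Fact.out : p.Prime).pow_dvd_iff_le_factorization
        (Cfsg.Lib.Blocks.charDegree_pos χ).ne').mpr ?_) _
      rcases lt_or_eq_of_le hle with h | h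
      · exact h
      · exact absurd (hh χ hχB ((Cfsg.Lib.Blocks.blockHeight_eq_zero_iff p hχB).mpr h.symm) (a χ) (ha χ)) hp'
  rw [(Fact.out : p.Prime).pow_dvd_iff_le_factorization hn0] at hdvd
  omega

end Cfsg.Agent.S4725
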