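import Cfsg.Statements.S4726
import Cfsg.Agent.Lib.Blocks.SubpairMax
import Cfsg.Agent.Lib.Blocks.SubpairLocal

set_option autoImplicit false
set_option linter.style.haveILetI false
open Cfsg

namespace Cfsg.Agent.S4726

open Cfsg.Lib.Blocks Cfsg.Lib.Characters
open scoped Classical

set_option maxHeartbeats 1000000

/-- Let p be a prime, M a maximal ideal of the algebraic integers containing p, H a subgroup of the finite group G and b a p-block of H with defect group D₀ such that C_G(D₀) ≤ H. Then b induces a block of G, and for every block B of G induced by b there is a defect group D of B with Z(D) ≤ Z(D₀) ≤ D₀ ≤ D (as subgroups of G). In particular, if the defect groups of B are abelian then D₀ is a defect group of B. -/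
theorem result {G : Type*} [Group G] [Finite G] (p : ℕ) [Fact p.Prime] (M : Ideal Cfsg.AlgInt) (hM : Cfsg.IsPModular p M) (H : Subgroup G) (b : Set (Cfsg.IrrCharacter ↥H)) (hb : Cfsg.IsPBlock M b) (D₀ : Subgroup ↥H) (hD₀ : Cfsg.IsDefectGroup p M b D₀) (hC : Subgroup.centralizer ((D₀.map H.subtype : Subgroup G) : Set G) ≤ H) : Cfsg.InducedBlockDefined M H b ∧ ∀ B : Set (Cfsg.IrrCharacter G), Cfsg.IsInducedBlock M H b B → (∃ D : Subgroup G, Cfsg.IsDefectGroup p M B D ∧ (Subgroup.center ↥D).map D.subtype ≤ ((Subgroup.center ↥D₀).map D₀.subtype).map H.subtype ∧ ((Subgroup.center ↥D₀).map D₀.subtype).map H.subtype ≤ D₀.map H.subtype ∧ D₀.map H.subtype ≤ D) ∧ (∀ D : Subgroup G, Cfsg.IsDefectGroup p M B D → IsMulCommutative ↥D → Cfsg.IsDefectGroup p M B (D₀.map H.subtype)) := by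
  haveI : M.IsPrime := hM.2.1.isPrime
  haveI : Fintype G := Fintype.ofFinite G
  set D' := D₀.map H.subtype with hD'
  set C := Subgroup.centralizer ((D' : Subgroup G) : Set G) with hCdef
  have hD'H : D' ≤ H := Subgroup.map_subtype_le _
  have hsub : D'.subgroupOf H = D₀ := Subgroup.comap_map_eq_self_of_injective H.subtype_injective _
  have hD'p : IsPGroup p D' := (isPGroup_defectGroup hD₀).map _
  have hstab : ∀ w : classRing H (ResF M), IsStableUnder H (incSub H (w : MonoidAlgebra (ResF M) H)) :=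
    fun w => isStableUnder_incSub w.2
  have hclC : ∀ w : classRing H (ResF M), IsClassElt (resSub C (incSub H (w : MonoidAlgebra (ResF M) H))) :=
    fun w => ((hstab w).mono hC).isClassElt_resSub
  let u : classRing H (ResF M) := ⟨bIdem M b, isClassElt_bIdem b⟩
  have hmulC : ∀ w w' : classRing H (ResF M), resSub C (incSub H ((w * w' : classRing H (ResF M)) : MonoidAlgebra (ResF M) H))
      = resSub C (incSub H (w : MonoidAlgebra (ResF M) H)) * resSub C (incSub H (w' : MonoidAlgebra (ResF M) H)) :=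
    fun w w' => by
      rw [Subring.coe_mul, map_mul, resSub_mul (red_p hM) hD'p ((hstab w).mono hD'H) ((hstab w').mono hD'H)]
  -- a block of the centralizer below `b`
  have hne0 : resSub C (incSub H (bIdem M b)) ≠ 0 := (brNe_iff _ _).mp
    ((brNe_subgroupOf_iff hD'H (fun g hg => coeff_incSub_notMem _ _ hg)
      fun t => (coeff_incSub_mem _ _ t).symm).mp (hsub.symm ▸ brNe_defectGroup hD₀))
  have hsq := hmulC u u
  rw [show u * u = u from Subtype.ext (bIdem_sq hb)] at hsq
  obtain ⟨ξ₀, hξ₀⟩ : ∃ ξ : IrrCharacter C, lam M ξ (resSub C (incSub H (bIdem M b))) ≠ 0 := by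
    by_contra hh
    push Not at hh
    exact hne0 (idem_eq_of_lam (hclC u) IsClassElt.zero hsq.symm (zero_mul _)
      fun ξ => by rw [hh, lam_zero])
  have hξone : lam M ξ₀ (resSub C (incSub H (bIdem M b))) = 1 := by
    have h2 := congrArg (lam M ξ₀) hsq
    rw [lam_mul M ξ₀ (hclC u) (hclC u)] at h2
    exact mul_left_cancel₀ hξ₀ (h2.symm.trans (mul_one _).symm)
  -- the central character of `b` factors through the centralizer
  let ψ : classRing H (ResF M) →+* ResF M :=
    { toFun := fun w => lam M ξ₀ (resSub C (incSub H (w : MonoidAlgebra (ResF M) H)))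
      map_one' := by
        rw [Subring.coe_one, map_one, resSub_one, lam_one]
      map_mul' := fun w w' => by rw [hmulC, lam_mul M ξ₀ (hclC w) (hclC w')]
      map_zero' := by rw [Subring.coe_zero, map_zero, map_zero, lam_zero]
      map_add' := fun w w' => by rw [Subring.coe_add, map_add, map_add, lam_add] }
  have hψ : ∀ w, ψ w = lam M ξ₀ (resSub C (incSub H (w : MonoidAlgebra (ResF M) H))) := fun w => rfl
  have hψconst : ∀ c : ResF M, ψ (kConst (G := H) M c) = c := by
    intro c
    rw [hψ]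
    have h1 : resSub C (incSub H ((kConst (G := H) M c : classRing H (ResF M)) : MonoidAlgebra (ResF M) H))
        = c • (1 : MonoidAlgebra (ResF M) C) := by
      refine gr_ext fun k => ?_
      rw [coeff_resSub, show (k : G) = (((⟨k, hC k.2⟩ : H)) : G) from rfl, coeff_incSub_mem, kConst,
        gr_smul_apply, gr_smul_apply, gr_one_apply, gr_one_apply]
      congr 1
      refine if_congr ?_ rfl rfl
      rw [Subtype.ext_iff, Subtype.ext_iff]
      rfl
    rw [h1, lam_smul, lam_one, mul_one]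
  obtain ⟨φ, hφ⟩ := exists_lam_eq_of_hom ψ hψconst
  have hφb : φ ∈ b := by
    have h1 : lam M φ (bIdem M b) = 1 := (hφ u).symm.trans hξone
    rw [lam_bIdem hb] at h1
    by_contra hh
    rw [if_neg hh] at h1
    exact zero_ne_one h1
  have key : ∀ (v : MonoidAlgebra (ResF M) G), IsClassElt v → ∀ ξ ∈ b,
      lam M ξ (resSub H v) = lam M ξ₀ (resSub C v) := by
    intro v hv ξ hξ
    rw [IsPBlock.lam_eq hb hξ hφb, ← hφ ⟨resSub H v, hv.resSub H⟩]
    show lam M ξ₀ (resSub C (incSub H (resSub H v))) = _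
    rw [resSub_incSub_resSub hC]
  have hmul : ∀ u v : MonoidAlgebra (ResF M) G, IsClassElt u → IsClassElt v →
      lam M φ (resSub H (u * v)) = lam M φ (resSub H u) * lam M φ (resSub H v) := fun u v hu hv => by
    rw [key _ (hu.mul hv) φ hφb, key _ hu φ hφb, key _ hv φ hφb,
      lam_resSub_centralizer_mul hM hD'p ξ₀ u v hu hv]
  refine ⟨(exists_induced_of_mul hb hφb hmul).1, fun B hind => ?_⟩
  have hB := hind.2.1
  obtain ⟨χ, hχ⟩ := IsPBlock.nonempty hB
  set β := blockOf M (ξ₀ : C → ℂ)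
  have hβB : IsBrauerPairOf p M B D' β := (isBrauerPairOf_iff hM).mpr
    ⟨hD'p, (isInducedBlock_iff ⟨ξ₀, rfl⟩ hB (mem_blockOf_self M ξ₀) hχ).mpr fun v hv => by
      rw [← key v hv φ hφb]; exact (isInducedBlock_iff hb hB hφb hχ).mp hind v hv⟩
  obtain ⟨D, e, hmax, hle⟩ := exists_maximal_above hM hβB
  have hD : IsDefectGroup p M B D := isDefectGroup_maximal hM hmax
  have hD'D : D' ≤ D := subpairLE_le hle
  have hZ : ∀ z ∈ D, (∀ d ∈ D, d * z = z * d) → z ∈ D' := by
    intro z hz hzc
    have hzC : z ∈ C := Subgroup.mem_centralizer_iff.mpr fun d hd => hzc d (hD'D hd)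
    set Q := D' ⊔ Subgroup.zpowers z with hQ
    have hQD : Q ≤ D := sup_le hD'D (Subgroup.zpowers_le.mpr hz)
    have hQH : Q ≤ H := sup_le hD'H (Subgroup.zpowers_le.mpr (hC hzC))
    have hQp : IsPGroup p Q := (hmax.1.1.1).to_le hQD
    obtain ⟨f, hf, hfle⟩ := exists_subpair hM hmax.1.1 hQD
    have hQN : Q ≤ Subgroup.normalizer (D' : Set G) := sup_le Subgroup.le_normalizer
      (Subgroup.zpowers_le.mpr (Subgroup.centralizer_le_normalizer _ hzC))
    have hns := isNormalSubpair_of_le hM hf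
      (subpair_le_of_le hM hmax.1.1 le_sup_left hle hfle) hQN
    obtain ⟨η, hη⟩ := IsPBlock.nonempty hf.2
    have hQC : Subgroup.centralizer (Q : Set G) ≤ C := Subgroup.centralizer_le (le_sup_left : D' ≤ Q)
    have hwQ : IsStableUnder Q (incSub C (resSub C (incSub H (bIdem M b)))) := by
      intro x hx a
      have hxC := normalizer_le_normalizer_centralizer' D' (hQN hx)
      have hm : a ∈ C ↔ x * a * x⁻¹ ∈ C := Subgroup.mem_normalizer_iff.mp hxC a
      by_cases ha : a ∈ C
      · rw [show a = ((⟨a, ha⟩ : C) : G) from rfl, coeff_incSub_mem,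
          show x * a * x⁻¹ = ((⟨_, hm.mp ha⟩ : C) : G) from rfl, coeff_incSub_mem, coeff_resSub, coeff_resSub]
        exact hstab u x (hQH hx) a
      · rw [coeff_incSub_notMem _ _ ha, coeff_incSub_notMem _ _ fun h => ha (hm.mpr h)]
    have h1 := lam_resSub_incSub hM hns (hclC u) hwQ hη (mem_blockOf_self M ξ₀)
    rw [resSub_incSub_resSub hQC, hξone] at h1
    have hbr : BrNe (Q.subgroupOf H) (bIdem M b) :=
      (brNe_subgroupOf_iff hQH (fun g hg => coeff_incSub_notMem _ _ hg)
        fun t => (coeff_incSub_mem _ _ t).symm).mpr ((brNe_iff _ _).mpr fun h0 => by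
          rw [show resSub (Subgroup.centralizer (Q : Set G)) (incSub H (bIdem M b)) = 0 from h0, lam_zero] at h1
          exact zero_ne_one h1)
    obtain ⟨x, hx⟩ := (brNe_bIdem_iff hM hb hD₀
      (hQp.of_equiv (Subgroup.subgroupOfEquivOfLe hQH).symm)).mp hbr
    have hcard := Subgroup.card_le_of_le hx
    rw [card_conjSub, ← hsub, card_subgroupOf hQH, card_subgroupOf hD'H] at hcard
    rw [Subgroup.eq_of_le_of_card_ge (le_sup_left : D' ≤ Q) hcard]
    exact Subgroup.mem_sup_right (Subgroup.mem_zpowers z)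
  refine ⟨⟨D, hD, ?_, Subgroup.map_mono (Subgroup.map_subtype_le _), hD'D⟩, fun E hE hEc => ?_⟩
  · rintro _ ⟨z, hz, rfl⟩
    have hz' : ∀ d ∈ D, d * (z : G) = z * d := fun d hd =>
      congrArg Subtype.val (Subgroup.mem_center_iff.mp hz ⟨d, hd⟩)
    obtain ⟨a, ha, haz⟩ := hZ _ z.2 hz'
    refine ⟨a, ⟨⟨a, ha⟩, Subgroup.mem_center_iff.mpr fun d => ?_, rfl⟩, haz⟩
    refine Subtype.ext (Subtype.ext ?_)
    show ((d : H) : G) * (a : G) = (a : G) * ((d : H) : G)
    have haz' : (a : G) = (z : G) := haz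
    rw [haz']
    exact hz' _ (hD'D ⟨(d : H), d.2, rfl⟩)
  · obtain ⟨x, hx⟩ := defectGroup_conj hM hB hE hD
    have hDD' : D ≤ D' := fun z hz => hZ z hz fun d hd => by
      rw [← hx, mem_conjSub] at hz hd
      have h1 : (x⁻¹ * d * x) * (x⁻¹ * z * x) = (x⁻¹ * z * x) * (x⁻¹ * d * x) :=
        congrArg Subtype.val (mul_comm' (⟨_, hd⟩ : E) ⟨_, hz⟩)
      calc d * z = x * ((x⁻¹ * d * x) * (x⁻¹ * z * x)) * x⁻¹ := by group
        _ = x * ((x⁻¹ * z * x) * (x⁻¹ * d * x)) * x⁻¹ := by rw [h1]
        _ = z * d := by group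
    rwa [← le_antisymm hDD' hD'D]

end Cfsg.Agent.S4726
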