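import Cfsg.Statements.S4729
import Cfsg.Agent.Lib.Blocks.Principal
import Cfsg.Agent.Lib.Blocks.DefectZero
import Cfsg.Agent.Lib.Characters.Basic

set_option autoImplicit false
set_option linter.style.haveILetI false
open Cfsg

namespace Cfsg.Agent.S4729

open Cfsg.Lib.Characters Cfsg.Lib.Blocks Finset
open scoped Classical ComplexConjugate

/-- Let p be a prime, M a maximal ideal of the algebraic integers containing p, G a finite perfect group and P a Sylow p-subgroup. If the principal p-block of G contains a faithful irreducible character of degree less than 2p, then the centralizer of P is a p-group. -/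
theorem result {G : Type*} [Group G] [Finite G] (p : ℕ) [Fact p.Prime] (M : Ideal Cfsg.AlgInt) (hM : Cfsg.IsPModular p M) (hperf : commutator G = ⊤) (P : Sylow p G) (χ : Cfsg.IrrCharacter G) (hχ : χ ∈ Cfsg.principalBlock M G) (hfaith : ∀ g : G, (χ : G → ℂ) g = (χ : G → ℂ) 1 → g = 1) (hdeg : Cfsg.charDegree (χ : G → ℂ) < 2 * p) : IsPGroup p ↥(Subgroup.centralizer ((P : Subgroup G) : Set G)) := by
  haveI : Fintype G := Fintype.ofFinite G
  haveI : M.IsPrime := hM.2.1.isPrime
  have hpr : p.Prime := Fact.out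
  suffices key : ∀ z ∈ Subgroup.centralizer ((P : Subgroup G) : Set G), ¬ p ∣ orderOf z → z = 1 by
    rintro ⟨g, hg⟩
    obtain ⟨k, hk⟩ : ∃ k, orderOf g = p ^ k := by
      set k := (orderOf g).factorization p with hk
      have h1 := key (g ^ p ^ k) (Subgroup.pow_mem _ hg _) (by
        rw [orderOf_pow' g (pow_ne_zero _ hpr.ne_zero), Nat.gcd_eq_right (Nat.ordProj_dvd _ _)]
        exact Nat.not_dvd_ordCompl hpr (orderOf_pos g).ne')
      obtain ⟨j, -, hj⟩ := (Nat.dvd_prime_pow hpr).mp (orderOf_dvd_of_pow_eq_one h1)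
      exact ⟨j, hj⟩
    exact ⟨k, Subtype.ext (by rw [Subgroup.coe_pow]; exact hk ▸ pow_orderOf_eq_one g)⟩
  intro z hz hzr
  obtain ⟨χ, hirr⟩ := χ
  obtain ⟨n, ρ, hρ, rfl⟩ := id hirr
  simp only at hfaith hdeg
  set χ : IrrCharacter G := ⟨ρ.character, hirr⟩ with hχdef
  have hn1 : ρ.character 1 = (n : ℂ) := by simp [Representation.char_one]
  rw [charDegree_eq hn1] at hdeg
  obtain ⟨b, μ, hb, hμ⟩ := exists_eigenbasis ρ z
  set m := orderOf z with hm
  -- the values at the powers
  have hval : ∀ k : ℕ, ρ.character (z ^ k) = ∑ i, μ i ^ k := by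
    intro k
    refine trace_eq_sum_of_eigenbasis _ b (fun i => μ i ^ k) fun i => ?_
    induction k with
    | zero => simp
    | succ k ih =>
      simp only [map_pow] at ih ⊢
      rw [pow_succ', Module.End.mul_apply, ih, map_smul, hb, smul_smul, ← pow_succ]
  -- congruence from the principal block
  have hcong : ∀ k : ℕ, red M (ρ.character (z ^ k)) = (n : ResF M) := by
    intro k
    set y := z ^ k with hy
    have hyC : y ∈ Subgroup.centralizer ((P : Subgroup G) : Set G) := Subgroup.pow_mem _ hz k
    set c := (Subgroup.centralizer ({y} : Set G)).index with hc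
    have hpc : ¬ p ∣ c := fun hd => P.not_dvd_index (hd.trans (Subgroup.index_dvd_of_le fun x hx =>
      Subgroup.mem_centralizer_singleton_iff.mpr (Subgroup.mem_centralizer_iff.mp hyC x hx)))
    have h := (sameBlock_iff M (trivChar G) χ).mp hχ y
    have h1 : centralChar (trivChar G : G → ℂ) y = (c : ℂ) := by
      show (c : ℂ) * 1 / 1 = _
      simp
    rw [h1, red_natCast] at h
    have h2 : centralChar (χ : G → ℂ) y * (n : ℂ) = (c : ℂ) * ρ.character y := by
      show (c : ℂ) * ρ.character y / ρ.character 1 * n = _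
      rw [← hn1, div_mul_cancel₀ _ hirr.one_ne_zero]
    have h3 := congrArg (red M) h2
    rw [red_mul (centralChar_mem_locRing M χ y) (isIntegral_mem_locRing M (by
        rw [← hn1]; exact char_isIntegral hirr.isCharacter 1)),
      red_mul (isIntegral_mem_locRing M (isIntegral_natCast c)) (char_mem_locRing M χ y), ← h, red_natCast, red_natCast] at h3
    exact (mul_left_cancel₀ (fun h0 => hpc ((natCast_resF_eq_zero hM c).mp h0)) h3).symm
  -- multiplicities of the eigenvalues
  set S : ℂ → Finset (Fin (Module.finrank ℂ (Fin n → ℂ))) := fun ζ => univ.filter fun i => μ i = ζ with hS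
  have hmult : ∀ ζ : ℂ, ζ ^ m = 1 → ζ ≠ 1 → p ∣ (S ζ).card := by
    intro ζ hζ hζ1
    have hm0 : m ≠ 0 := (orderOf_pos z).ne'
    have hζi : ∀ k : ℕ, IsIntegral ℤ (ζ⁻¹ ^ k) := fun k =>
      (IsIntegral.of_pow (Nat.pos_of_ne_zero hm0) (by rw [inv_pow, hζ, inv_one]; exact isIntegral_one)).pow k
    have hsum : ∑ k ∈ range m, ζ⁻¹ ^ k * ρ.character (z ^ k) = ((m * (S ζ).card : ℕ) : ℂ) := by
      simp only [hval, Finset.mul_sum, ← mul_pow]
      rw [Finset.sum_comm, Finset.sum_congr rfl (g := fun i => if μ i = ζ then (m : ℂ) else 0) fun i _ => ?_,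
        ← Finset.sum_filter, Finset.sum_const, nsmul_eq_mul, Nat.cast_mul, mul_comm]
      have hζ0 : ζ ≠ 0 := fun h => by rw [h, zero_pow hm0] at hζ; exact zero_ne_one hζ
      split_ifs with hi
      · rw [Finset.sum_congr rfl fun k _ => by rw [hi, inv_mul_cancel₀ hζ0, one_pow]]
        simp
      · rw [geom_sum_eq (fun h => hi ((inv_mul_eq_one₀ hζ0).mp h).symm), mul_pow, hμ i, inv_pow, hζ, inv_one, one_mul,
          sub_self, zero_div]
    have h0 : red M (∑ k ∈ range m, ζ⁻¹ ^ k * ρ.character (z ^ k)) = (n : ResF M) * red M (∑ k ∈ range m, ζ⁻¹ ^ k) := by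
      rw [red_sum _ fun k _ => mul_mem (isIntegral_mem_locRing M (hζi k)) (char_mem_locRing M χ _),
        red_sum _ fun k _ => isIntegral_mem_locRing M (hζi k), Finset.mul_sum]
      refine Finset.sum_congr rfl fun k _ => ?_
      rw [red_mul (isIntegral_mem_locRing M (hζi k)) (char_mem_locRing M χ _), hcong k, mul_comm]
    rw [geom_sum_eq (inv_ne_one.mpr hζ1), inv_pow, hζ, inv_one, sub_self, zero_div, red_zero, mul_zero, hsum,
      red_natCast, natCast_resF_eq_zero hM] at h0
    exact (hpr.dvd_mul.mp h0).resolve_left hzr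
  by_cases hall : ∀ i, μ i = 1
  · refine hfaith z ?_
    show ρ.character z = ρ.character 1
    rw [← pow_one z, hval 1, hn1, Finset.sum_congr rfl fun i _ => by rw [hall i, one_pow]]
    simp
  · exfalso
    push Not at hall
    obtain ⟨i₀, hi₀⟩ := hall
    set ζ := μ i₀ with hζdef
    have hfr : Fintype.card (Fin (Module.finrank ℂ (Fin n → ℂ))) = n := by simp
    have hmem : i₀ ∈ S ζ := Finset.mem_filter.mpr ⟨Finset.mem_univ _, rfl⟩
    have hle : (S ζ).card ≤ n := le_of_le_of_eq (Finset.card_le_univ _) hfr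
    have hcard : (S ζ).card = p := by
      obtain ⟨c, hc⟩ := hmult ζ (hμ i₀) hi₀
      have hpos := Finset.card_pos.mpr ⟨i₀, hmem⟩
      rcases c with _ | _ | c
      · omega
      · omega
      · nlinarith
    have hrest : ∀ i, i ∉ S ζ → μ i = 1 := by
      intro i hi
      by_contra hne
      obtain ⟨c, hc⟩ := hmult (μ i) (hμ i) hne
      have hd : Disjoint (S ζ) (S (μ i)) := Finset.disjoint_left.mpr fun j h1 h2 => hi (Finset.mem_filter.mpr
        ⟨Finset.mem_univ _, (Finset.mem_filter.mp h2).2.symm.trans (Finset.mem_filter.mp h1).2⟩)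
      have hsum := le_of_le_of_eq (Finset.card_le_univ (S ζ ∪ S (μ i))) hfr
      rw [Finset.card_union_of_disjoint hd, hcard] at hsum
      have hpos : 0 < (S (μ i)).card := Finset.card_pos.mpr ⟨i, Finset.mem_filter.mpr ⟨Finset.mem_univ _, rfl⟩⟩
      rcases c with _ | c
      · omega
      · nlinarith
    -- the determinant
    have hdet : LinearMap.det (ρ z) = ζ ^ p := by
      rw [← LinearMap.det_toMatrix b, show LinearMap.toMatrix b b (ρ z) = Matrix.diagonal μ from ?_, Matrix.det_diagonal,
        ← Finset.prod_filter_mul_prod_filter_not univ (fun i => μ i = ζ)]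
      · rw [Finset.prod_congr rfl fun i hi => (Finset.mem_filter.mp hi).2, Finset.prod_const,
          Finset.prod_eq_one (s := univ.filter fun i => ¬ μ i = ζ) (f := μ) fun i hi => hrest i fun h => (Finset.mem_filter.mp hi).2 (Finset.mem_filter.mp h).2, mul_one]
        exact congrArg (ζ ^ ·) hcard
      · ext i j
        rw [LinearMap.toMatrix_apply, hb, map_smul, Module.Basis.repr_self, Finsupp.smul_single, smul_eq_mul, mul_one]
        by_cases hij : i = j
        · subst hij; simp
        · simp [Matrix.diagonal_apply_ne _ hij, Finsupp.single_apply, Ne.symm hij]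
    let D : G →* ℂˣ := (LinearMap.det.comp ρ).toHomUnits
    have hD1 : D z = 1 := by
      have h := Abelianization.commutator_subset_ker D
      rw [hperf] at h
      exact h (Subgroup.mem_top z)
    have hζp : ζ ^ p = 1 := by
      rw [← hdet]
      exact congrArg Units.val hD1
    have hcop : p.Coprime m := (Nat.Prime.coprime_iff_not_dvd hpr).mpr hzr
    have := pow_gcd_eq_one.mpr ⟨hζp, hμ i₀⟩
    rw [hcop.gcd_eq_one, pow_one] at this
    exact hi₀ this

end Cfsg.Agent.S4729
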