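import Cfsg.Statements.S4730
import Mathlib
import Cfsg.Agent.Lib.Blocks.DefectZero
import Cfsg.Agent.Lib.Blocks.Idempotents
import Cfsg.Agent.Lib.Blocks.Exists
import Cfsg.Agent.Lib.Characters.Burnside

set_option autoImplicit false
open Cfsg

namespace Cfsg.Agent.S4730

/-- Let p be a prime, M a maximal ideal of the algebraic integers containing p, and G a finite group with trivial centre, Sylow p-subgroup P of order p^a and centre Z(P) of order p^b. If χ is a faithful irreducible character of G whose degree is a power of p, then the p-block of χ has defect at most a − b; in particular, if P is abelian then χ lies in a block of defect zero. -/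
theorem result {G : Type*} [Group G] [Finite G] (p : ℕ) [Fact p.Prime] (M : Ideal Cfsg.AlgInt) (hM : Cfsg.IsPModular p M) (hZ : Subgroup.center G = ⊥) (P : Sylow p G) (a b : ℕ) (ha : Nat.card P = p ^ a) (hb : Nat.card (Subgroup.center ↥(P : Subgroup G)) = p ^ b) (χ : Cfsg.IrrCharacter G) (hfaith : ∀ g : G, (χ : G → ℂ) g = (χ : G → ℂ) 1 → g = 1) (n : ℕ) (hdeg : Cfsg.charDegree (χ : G → ℂ) = p ^ n) : Cfsg.blockDefect p (Cfsg.blockOf M (χ : G → ℂ)) ≤ a - b ∧ (IsMulCommutative ↥(P : Subgroup G) → Cfsg.blockDefect p (Cfsg.blockOf M (χ : G → ℂ)) = 0) := by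
  classical
  haveI := hM.2.1.isPrime
  haveI := Fintype.ofFinite G
  open Cfsg.Lib.Blocks Cfsg.Lib.Characters in
  · have hp := (Fact.out : p.Prime)
    set Z : Subgroup G := (Subgroup.center ↥(P : Subgroup G)).map (P : Subgroup G).subtype with hZdef
    have hZc : Nat.card Z = p ^ b := by
      rw [hZdef, Nat.card_congr (Subgroup.equivMapOfInjective _ _ (Subtype.val_injective)).toEquiv.symm, hb]
    have hidx : ∀ z ∈ Z, ¬ p ∣ (Subgroup.centralizer ({z} : Set G)).index := by
      intro z hz hd
      refine P.not_dvd_index (hd.trans (Subgroup.index_dvd_of_le fun v hv => ?_))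
      obtain ⟨w, hw, rfl⟩ := hz
      exact Subgroup.mem_centralizer_singleton_iff.2 (congrArg Subtype.val (Subgroup.mem_center_iff.1 hw ⟨v, hv⟩))
    have hvan : ∀ z ∈ Z, z ≠ 1 → (χ : G → ℂ) z = 0 := by
      intro z hz hz1
      have hd : (χ : G → ℂ) 1 = ((p ^ n : ℕ) : ℂ) := by rw [← hdeg, coe_charDegree]
      refine (zero_or_norm_of_coprime χ.2 z hd ?_).resolve_right fun h => hz1 ?_
      · rw [card_conj_eq_index]
        exact Nat.Coprime.pow_left n (hp.coprime_iff_not_dvd.2 (hidx z hz))
      · have h1 := mem_center_of_norm_eq χ.2 hfaith hd h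
        rwa [hZ, Subgroup.mem_bot] at h1
    -- every member of the block has degree divisible by the order of the centre of P
    have hlow : ∀ ψ ∈ Cfsg.blockOf M (χ : G → ℂ), b ≤ (Cfsg.charDegree (ψ : G → ℂ)).factorization p := by
      intro ψ hψ
      by_contra hlt
      push_neg at hlt
      set v := (Cfsg.charDegree (ψ : G → ℂ)).factorization p
      set q := Cfsg.charDegree (ψ : G → ℂ) / p ^ v
      have hpv : ((p ^ v : ℕ) : ℂ) ≠ 0 := Nat.cast_ne_zero.2 (pow_ne_zero _ hp.ne_zero)
      have hsplit : (ψ : G → ℂ) 1 = ((p ^ v : ℕ) : ℂ) * (q : ℂ) := by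
        rw [← Nat.cast_mul, Nat.ordProj_mul_ordCompl_eq_self, coe_charDegree]
      set f := fun z : G => (ψ : G → ℂ) z / ((p ^ v : ℕ) : ℂ)
      have hf : ∀ z ∈ Z, z ≠ 1 → f z ∈ locRing M ∧ red M (f z) = 0 := by
        intro z hz hz1
        have h0 : red M (centralChar (ψ : G → ℂ) z) = 0 := by
          rw [← (sameBlock_iff M χ ψ).1 hψ z, Cfsg.centralChar, hvan z hz hz1, mul_zero, zero_div, red_zero]
        set i := (Subgroup.centralizer ({z} : Set G)).index
        have hi : red M (i : ℂ) ≠ 0 := by
          rw [red_natCast, ne_eq, natCast_resF_eq_zero hM]; exact hidx z hz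
        have him : (i : ℂ) ∈ locRing M := natCast_mem _ _
        obtain ⟨hinv, -⟩ := inv_mem_of_red_ne_zero him hi
        have hq : (q : ℂ) ∈ locRing M := natCast_mem _ _
        have hi0 : (i : ℂ) ≠ 0 := Nat.cast_ne_zero.2 Subgroup.index_ne_zero_of_finite
        have he : f z = centralChar (ψ : G → ℂ) z * ((q : ℂ) * (i : ℂ)⁻¹) := by
          have hq0 : (q : ℂ) ≠ 0 := by
            intro h; rw [h, mul_zero] at hsplit; exact ψ.2.one_ne_zero hsplit
          simp only [f, Cfsg.centralChar, hsplit, i]
          field_simp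
          exact (mul_div_cancel_right₀ _ hi0).symm
        rw [he]
        refine ⟨mul_mem (centralChar_mem_locRing M ψ z) (mul_mem hq hinv), ?_⟩
        rw [red_mul (centralChar_mem_locRing M ψ z) (mul_mem hq hinv), h0, zero_mul]
      haveI := Fintype.ofFinite Z
      obtain ⟨m, hm⟩ := classInner_nat (isCharacter_restrict ψ.2.isCharacter Z) (isCharacter_one (G := Z))
      have hsum : ∑ z : Z, f z = ((p ^ (b - v) * m : ℕ) : ℂ) := by
        have h1 : ∑ z : Z, (ψ : G → ℂ) z = (Nat.card Z : ℂ) * m := by
          rw [← hm, Cfsg.classInner, ← mul_assoc, mul_inv_cancel₀ (Nat.cast_ne_zero.2 Nat.card_pos.ne'), one_mul]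
          simp
        simp only [f]
        rw [← Finset.sum_div, h1, hZc, div_eq_iff hpv, ← Nat.cast_mul, ← Nat.cast_mul]
        congr 1
        rw [mul_comm (p ^ (b - v)) m, mul_assoc, ← pow_add, show b - v + v = b by omega, mul_comm]
      have hall : ∀ z : Z, f z ∈ locRing M := by
        intro z
        by_cases h1 : (z : G) = 1
        · simp only [f, h1, hsplit]
          rw [mul_div_cancel_left₀ _ hpv]
          exact natCast_mem _ _
        · exact (hf z z.2 h1).1
      have h2 := congrArg (red M) hsum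
      rw [red_sum _ fun z _ => hall z, Finset.sum_eq_single (1 : Z) (fun z _ hz => (hf z z.2 fun h => hz (Subtype.ext h)).2) (by simp), red_natCast] at h2
      simp only [f, Subgroup.coe_one, hsplit] at h2
      rw [mul_div_cancel_left₀ _ hpv, red_natCast] at h2
      have h3 : ((p ^ (b - v) * m : ℕ) : ResF M) = 0 := by
        rw [natCast_resF_eq_zero hM]; exact Dvd.dvd.mul_right (dvd_pow_self p (by omega)) m
      rw [h3, natCast_resF_eq_zero hM] at h2
      exact Nat.not_dvd_ordCompl hp (charDegree_pos ψ).ne' h2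
    have hA : (Nat.card G).factorization p = a := by
      rw [P.card_eq_multiplicity] at ha
      exact Nat.pow_right_injective hp.two_le ha
    have hmain : Cfsg.blockDefect p (Cfsg.blockOf M (χ : G → ℂ)) ≤ a - b := by
      rw [Cfsg.blockDefect, hA]
      refine Nat.sub_le_sub_left (le_csInf (Set.Nonempty.image _ ⟨χ, mem_blockOf_self M χ⟩) ?_) a
      rintro _ ⟨ψ, hψ, rfl⟩
      exact hlow ψ hψ
    refine ⟨hmain, fun hab => ?_⟩
    haveI := hab
    have htop : Subgroup.center ↥(P : Subgroup G) = ⊤ := by
      rw [Subgroup.eq_top_iff']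
      exact fun w => Subgroup.mem_center_iff.2 fun v => IsMulCommutative.is_comm.comm v w
    rw [htop, Subgroup.card_top, ha] at hb
    have := Nat.pow_right_injective hp.two_le hb
    omega

end Cfsg.Agent.S4730
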