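import Cfsg.Statements.S4731
import Cfsg.Agent.Lib.Blocks.Sections
import Cfsg.Agent.Lib.Blocks.DefectZero
import Cfsg.Agent.Lib.Blocks.Integral
import Cfsg.Agent.Lib.Characters.Integrality
import Cfsg.Agent.S4498

set_option autoImplicit false
open Cfsg
open Cfsg.Lib.Characters Cfsg.Lib.Blocks
open scoped BigOperators ComplexConjugate

namespace Cfsg.Agent.S4731


/-- Let p ≠ q be primes, M_p and M_q maximal ideals of the algebraic integers containing p and q respectively, and G a finite group with no element of order pq; let q^b be the q-part of the order of G. For a p-block B_p (relative to M_p), a q-block B_q (relative to M_q) and a p-singular element y, the sum of χ(1)χ(y) over the irreducible characters χ lying in both B_p and B_q is q^b times an algebraic integer. -/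
theorem result {G : Type*} [Group G] [Finite G] (p q : ℕ) [Fact p.Prime] [Fact q.Prime] (hpq : p ≠ q) (Mp Mq : Ideal Cfsg.AlgInt) (hMp : Cfsg.IsPModular p Mp) (hMq : Cfsg.IsPModular q Mq) (hno : ∀ g : G, orderOf g ≠ p * q) (b : ℕ) (hb : (Nat.card G).factorization q = b) (Bp : Set (Cfsg.IrrCharacter G)) (hBp : Cfsg.IsPBlock Mp Bp) (Bq : Set (Cfsg.IrrCharacter G)) (hBq : Cfsg.IsPBlock Mq Bq) (y : G) (hy : p ∣ orderOf y) : ∃ ω : Cfsg.AlgInt, ∑ᶠ χ ∈ Bp ∩ Bq, (Cfsg.charDegree (χ : G → ℂ) : ℂ) * (χ : G → ℂ) y = (q : ℂ) ^ b * (ω : ℂ) := by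
  classical
  haveI := hMp.2.1.isPrime
  haveI := hMq.2.1.isPrime
  haveI := Fintype.ofFinite G
  obtain ⟨S⟩ : Nonempty (Sylow q G) := inferInstance
  have hcard : Nat.card (S : Subgroup G) = q ^ b := by rw [Sylow.card_eq_multiplicity, hb]
  have hsum : ∑ u : (S : Subgroup G), kerB (Bp ∩ Bq) y (u : G) = kerB (Bp ∩ Bq) y 1 := by
    rw [Fintype.sum_eq_single 1 fun u hu => ?_, OneMemClass.coe_one]
    refine Cfsg.Agent.S4498.kerB_inter_eq_zero hpq hno hMp hMq hBp hBq hy ?_
    obtain ⟨k, hk⟩ := (IsPGroup.iff_orderOf.mp S.isPGroup') u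
    rw [Subgroup.orderOf_coe, hk]
    rcases k with - | k
    · exact absurd (orderOf_eq_one_iff.mp (by simpa using hk)) hu
    · exact dvd_pow_self q (Nat.succ_ne_zero k)
  have hF : IsIntegral ℤ ((Nat.card (S : Subgroup G) : ℂ)⁻¹ *
      ∑ u : (S : Subgroup G), kerB (Bp ∩ Bq) y (u : G)) := by
    simp only [kerB]
    rw [Finset.sum_comm, Finset.mul_sum]
    refine IsIntegral.sum _ fun χ _ => ?_
    by_cases hχ : χ ∈ Bp ∩ Bq
    · simp only [if_pos hχ, char_inv_eq_conj χ.2.isCharacter, ← Finset.mul_sum]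
      rw [mul_left_comm]
      refine (char_isIntegral χ.2.isCharacter y).mul ?_
      have h1 := isIntegral_conj (isIntegral_average χ.2.isCharacter 1 (S : Subgroup G)
        fun u _ => Commute.one_left u)
      simpa [map_mul, map_sum] using h1
    · simp only [if_neg hχ, Finset.sum_const_zero, mul_zero, isIntegral_zero]
  rw [hsum, hcard] at hF
  refine ⟨⟨_, hF⟩, ?_⟩
  push_cast
  rw [mul_inv_cancel_left₀ (pow_ne_zero _ (Nat.cast_ne_zero.mpr (Fact.out : q.Prime).ne_zero)),
    kerB_eq_finsum]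
  refine finsum_mem_congr rfl fun χ _ => ?_
  rw [inv_one, coe_charDegree, mul_comm]

end Cfsg.Agent.S4731
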