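import Cfsg.Statements.S4733
import Mathlib
import Cfsg.Agent.Lib.Blocks.KleinFour
import Cfsg.Agent.Lib.Blocks.DefectZero
import Cfsg.Agent.Lib.Blocks.Rank
import Cfsg.Agent.Lib.Blocks.Principal

set_option autoImplicit false
open Cfsg

namespace Cfsg.Agent.S4733

/-- Let p be a prime, M a maximal ideal of the algebraic integers containing p, and B a p-block of the finite group G with k irreducible characters and p-regular rank l (the number of irreducible Brauer characters). Then l ≤ k, and the following are equivalent: B has defect 0; k = l = 1; k = l. -/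
theorem result {G : Type*} [Group G] [Finite G] (p : ℕ) [Fact p.Prime] (M : Ideal Cfsg.AlgInt) (hM : Cfsg.IsPModular p M) (B : Set (Cfsg.IrrCharacter G)) (hB : Cfsg.IsPBlock M B) : Cfsg.blockRank p B ≤ Nat.card B ∧ (Cfsg.blockDefect p B = 0 ↔ (Nat.card B = 1 ∧ Cfsg.blockRank p B = 1)) ∧ (Cfsg.blockDefect p B = 0 ↔ Nat.card B = Cfsg.blockRank p B) := by
  classical
  haveI := Fintype.ofFinite G
  haveI := hM.2.1.isPrime
  have hne := Cfsg.Lib.Blocks.IsPBlock.nonempty hB
  have hle : Cfsg.blockRank p B ≤ Nat.card B := by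
    set f := fun χ : Cfsg.IrrCharacter G => Cfsg.pRegularPart p (χ : G → ℂ)
    have h1 := finrank_span_le_card (R := ℂ) (f '' B)
    refine h1.trans ?_
    rw [← Set.ncard_eq_toFinset_card', Nat.card_coe_set_eq]
    exact Set.ncard_image_le (Set.toFinite _)
  have hzero : Cfsg.blockDefect p B = 0 ↔ ∀ χ ∈ B, (Cfsg.charDegree (χ : G → ℂ)).factorization p = (Nat.card G).factorization p := by
    unfold Cfsg.blockDefect
    rw [Nat.sub_eq_zero_iff_le]
    refine ⟨fun h χ hχ => le_antisymm (Cfsg.Lib.Blocks.charDegree_factorization_le χ)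
      (h.trans (Nat.sInf_le ⟨χ, hχ, rfl⟩)), fun h => ?_⟩
    obtain ⟨χ, hχ⟩ := hne
    refine le_csInf ⟨_, χ, hχ, rfl⟩ ?_
    rintro _ ⟨ψ, hψ, rfl⟩
    exact (h ψ hψ).ge
  have h0 : Cfsg.blockDefect p B = 0 → Nat.card B = 1 ∧ Cfsg.blockRank p B = 1 := by
    intro h
    obtain ⟨χ, hχ⟩ := hne
    have hB1 : B = {χ} := by
      rw [Cfsg.Lib.Blocks.IsPBlock.eq_blockOf hB hχ, Cfsg.Lib.Blocks.blockOf_eq_singleton hM χ (hzero.1 h χ hχ)]
    have hc : Nat.card B = 1 := by rw [hB1, Nat.card_coe_set_eq, Set.ncard_singleton]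
    exact ⟨hc, le_antisymm (hc ▸ hle) (Cfsg.Lib.Blocks.one_le_blockRank (Cfsg.Lib.Blocks.IsPBlock.nonempty hB))⟩
  have h2 : Nat.card B = Cfsg.blockRank p B → Cfsg.blockDefect p B = 0 := by
    intro h
    rw [hzero]
    intro χ hχ
    refine Cfsg.Lib.Blocks.factorization_eq_of_vanish hM χ fun x hx => ?_
    have hr := Cfsg.Lib.Blocks.card_mul_blockRank hM hB
    set S := Finset.univ.filter fun ψ : Cfsg.IrrCharacter G => ψ ∈ B with hS
    have hk : ∀ g : G, Cfsg.Lib.Blocks.kerB B g g = ((∑ ψ ∈ S, ‖(ψ : G → ℂ) g‖ ^ 2 : ℝ) : ℂ) := by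
      intro g
      rw [Cfsg.Lib.Blocks.kerB_eq_filter]
      push_cast
      refine Finset.sum_congr rfl fun ψ _ => ?_
      rw [Cfsg.Lib.Characters.char_inv_eq_conj ψ.2.isCharacter, Complex.mul_conj']
    have hr' : (Nat.card G : ℝ) * Cfsg.blockRank p B =
        ∑ s : G, if p ∣ orderOf s then 0 else ∑ ψ ∈ S, ‖(ψ : G → ℂ) s‖ ^ 2 := by
      apply Complex.ofReal_injective
      push_cast
      rw [hr]
      refine Finset.sum_congr rfl fun s _ => ?_
      rw [hk]
      split_ifs <;> push_cast <;> rfl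
    have htot : ∑ s : G, ∑ ψ ∈ S, ‖(ψ : G → ℂ) s‖ ^ 2 = (Nat.card G : ℝ) * S.card := by
      rw [Finset.sum_comm, Finset.sum_congr rfl fun ψ _ => ?_, Finset.sum_const, nsmul_eq_mul, mul_comm]
      have h := Cfsg.Lib.Characters.classInner_irr_self ψ.2
      rw [classInner, inv_mul_eq_iff_eq_mul₀ (Nat.cast_ne_zero.2 Nat.card_pos.ne'), mul_one] at h
      apply Complex.ofReal_injective
      push_cast
      rw [← h]
      exact Finset.sum_congr rfl fun g _ => (Complex.mul_conj' _).symm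
    have hSc : S.card = Nat.card B := by
      rw [Nat.card_eq_fintype_card, Fintype.card_subtype]
    rw [hSc, h, hr'] at htot
    have hxp : p ∣ orderOf x := hx ▸ dvd_rfl
    have hsub := sub_eq_zero.2 htot
    rw [← Finset.sum_sub_distrib] at hsub
    have hall := (Finset.sum_eq_zero_iff_of_nonneg fun s _ => sub_nonneg.2 (by
      split_ifs
      · exact Finset.sum_nonneg fun ψ _ => sq_nonneg _
      · exact le_rfl)).1 hsub x (Finset.mem_univ x)
    rw [if_pos hxp, sub_zero] at hall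
    have h3 := (Finset.sum_eq_zero_iff_of_nonneg fun ψ _ => sq_nonneg _).1 hall χ (by simp [hS, hχ])
    exact norm_eq_zero.1 (pow_eq_zero_iff two_ne_zero |>.1 h3)
  exact ⟨hle, ⟨h0, fun h => h2 (h.1.trans h.2.symm)⟩, ⟨fun h => (h0 h).1.trans (h0 h).2.symm, h2⟩⟩

end Cfsg.Agent.S4733
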