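import Cfsg.Statements.S4735
import Cfsg.Agent.Lib.Blocks.PrincipalSums
import Cfsg.Agent.Lib.Blocks.InflationBijection
import Cfsg.Agent.Lib.Solv.Cores
-- import your own Cfsg.Agent.* helpers here

set_option autoImplicit false
open Cfsg

namespace Cfsg.Agent.S4735

open scoped ComplexConjugate
open Cfsg.Lib.Characters Cfsg.Lib.Blocks

variable {G : Type*} [Group G] [Fintype G] {M : Ideal Cfsg.AlgInt} [M.IsPrime] {p : ℕ} [Fact p.Prime]

theorem exists_int (hM : Cfsg.IsPModular p M) (x : G) :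
    ∃ n : ℕ, 0 < n ∧ ∑ᶠ χ ∈ Cfsg.principalBlock M G, Complex.normSq ((χ : G → ℂ) x) = n := by
  classical
  set S := (Set.toFinite (Cfsg.principalBlock M G)).toFinset with hS
  rw [finsum_mem_eq_finite_toFinset_sum _ (Set.toFinite _), ← hS]
  have hchar : ∀ y : G, (((∑ χ ∈ S, Complex.normSq ((χ : G → ℂ) y)) : ℝ) : ℂ) =
      (∑ χ ∈ S, fun g : G => (χ : G → ℂ) g * conj ((χ : G → ℂ) g)) y := by
    intro y
    rw [Finset.sum_apply]
    push_cast
    exact Finset.sum_congr rfl fun χ _ => (Complex.mul_conj _).symm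
  have hc : Cfsg.IsCharacter G (∑ χ ∈ S, fun g : G => (χ : G → ℂ) g * conj ((χ : G → ℂ) g)) :=
    isCharacter_sum _ _ fun χ _ => isCharacter_mul χ.2.isCharacter (isCharacter_conj χ.2.isCharacter)
  have hfix : ∀ k : ℕ, k.Coprime (Nat.card G) →
      (∑ χ ∈ S, fun g : G => (χ : G → ℂ) g * conj ((χ : G → ℂ) g)) (x ^ k) =
      (∑ χ ∈ S, fun g : G => (χ : G → ℂ) g * conj ((χ : G → ℂ) g)) x := by
    intro k hk
    simp only [Finset.sum_apply]
    let φ : Cfsg.IrrCharacter G → Cfsg.IrrCharacter G := fun χ => ⟨_, isIrrCharacter_comp_pow χ.2 hk.symm⟩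
    have hinj : Function.Injective φ := fun a b h => by
      apply Subtype.ext
      funext g
      obtain ⟨y, rfl⟩ := (powCoprime hk.symm).surjective g
      exact congr_fun (congrArg Subtype.val h) y
    have hmap : S.image φ = S := by
      refine Finset.eq_of_subset_of_card_le ?_ (Finset.card_image_of_injective _ hinj).ge
      intro ψ hψ
      obtain ⟨χ, hχ, rfl⟩ := Finset.mem_image.1 hψ
      exact (Set.Finite.mem_toFinset _).2 (comp_pow_mem_principal hM hk.symm ((Set.Finite.mem_toFinset _).1 hχ))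
    conv_rhs => rw [← hmap, Finset.sum_image fun a _ b _ h => hinj h]
  obtain ⟨q, hq⟩ := char_rat_of_pow hc x hfix
  have hint : IsIntegral ℤ ((q : ℂ)) := hq ▸ char_isIntegral hc x
  obtain ⟨n, hn⟩ := exists_int_of_isIntegral hint
  have hr : (∑ χ ∈ S, Complex.normSq ((χ : G → ℂ) x)) = (n : ℝ) := by
    apply Complex.ofReal_injective
    rw [hchar, hq, hn]
    simp
  have h1 : (1 : ℝ) ≤ ∑ χ ∈ S, Complex.normSq ((χ : G → ℂ) x) := by
    refine le_trans ?_ (Finset.single_le_sum (fun χ _ => Complex.normSq_nonneg _)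
      ((Set.Finite.mem_toFinset _).2 (trivChar_mem_principal (G := G))))
    simp
  rw [hr] at h1
  have hn1 : (1 : ℤ) ≤ n := by exact_mod_cast h1
  refine ⟨n.toNat, by omega, ?_⟩
  rw [hr]
  have : ((n.toNat : ℤ) : ℝ) = (n : ℝ) := by rw [Int.toNat_of_nonneg (by omega)]
  exact_mod_cast this.symm

theorem regular_mk_iff (x : G) : p ∣ orderOf (x : G ⧸ Cfsg.pPrimeCore p G) ↔ p ∣ orderOf x := by
  refine ⟨fun h => h.trans (orderOf_map_dvd (QuotientGroup.mk' _) x), fun h => ?_⟩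
  have h1 : x ^ orderOf (x : G ⧸ Cfsg.pPrimeCore p G) ∈ Cfsg.pPrimeCore p G := by
    rw [← QuotientGroup.eq_one_iff, QuotientGroup.mk_pow, pow_orderOf_eq_one]
  have h2 : orderOf x ∣ orderOf (x : G ⧸ Cfsg.pPrimeCore p G) * Nat.card (Cfsg.pPrimeCore p G) := by
    refine orderOf_dvd_of_pow_eq_one ?_
    rw [pow_mul]
    exact congrArg Subtype.val (pow_card_eq_one' (x := (⟨_, h1⟩ : Cfsg.pPrimeCore p G)))
  rcases (Fact.out : p.Prime).dvd_mul.1 (h.trans h2) with h3 | h3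
  · exact h3
  · exact absurd h3 (Cfsg.Lib.Solv.not_dvd_card_pPrimeCore p)

/-- The principal characters are exactly the inflations of the principal characters of the quotient. -/
theorem sum_inflate [Fintype (G ⧸ Cfsg.pPrimeCore p G)] (hM : Cfsg.IsPModular p M) (x : G) :
    ∑ᶠ χ ∈ Cfsg.principalBlock M G, Complex.normSq ((χ : G → ℂ) x) =
      ∑ᶠ ψ ∈ Cfsg.principalBlock M (G ⧸ Cfsg.pPrimeCore p G),
        Complex.normSq ((ψ : G ⧸ Cfsg.pPrimeCore p G → ℂ) (QuotientGroup.mk x)) := by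
  classical
  set H := Cfsg.pPrimeCore p G
  have hsum : ∀ F : G ⧸ H → ℂ, ∑ g : G, F g = (Nat.card H : ℂ) * ∑ q, F q := by
    intro F
    rw [← Finset.sum_fiberwise Finset.univ (fun g : G => (g : G ⧸ H)) (fun g => F g), Finset.mul_sum]
    refine Finset.sum_congr rfl fun q _ => ?_
    rw [Finset.sum_congr rfl (fun g hg => by rw [(Finset.mem_filter.mp hg).2]), Finset.sum_const, nsmul_eq_mul]
    congr 2
    rw [← Fintype.card_subtype, ← Nat.card_eq_fintype_card]
    obtain ⟨g₀, rfl⟩ := QuotientGroup.mk_surjective q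
    exact Nat.card_congr
      { toFun := fun g => ⟨g₀⁻¹ * g.1, QuotientGroup.eq.mp g.2.symm⟩
        invFun := fun z => ⟨g₀ * z.1, (QuotientGroup.eq.mpr (by simp [z.2])).symm⟩
        left_inv := fun g => by simp
        right_inv := fun z => by simp }
  let inf : Cfsg.IrrCharacter (G ⧸ H) → Cfsg.IrrCharacter G := fun φ =>
    ⟨fun g => (φ : G ⧸ H → ℂ) (QuotientGroup.mk' H g),
      isIrrCharacter_comp_surjective φ.2 _ (QuotientGroup.mk'_surjective H)⟩
  have hiff : ∀ φ, inf φ ∈ Cfsg.principalBlock M G ↔ φ ∈ Cfsg.principalBlock M (G ⧸ H) := by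
    intro φ
    have e : ∑ g : G, (if p ∣ orderOf g then 0 else (inf φ : G → ℂ) g) =
        (Nat.card H : ℂ) * ∑ q : G ⧸ H, (if p ∣ orderOf q then 0 else (φ : G ⧸ H → ℂ) q) := by
      rw [← hsum fun q => if p ∣ orderOf q then 0 else (φ : G ⧸ H → ℂ) q]
      refine Finset.sum_congr rfl fun g _ => ?_
      exact if_congr (regular_mk_iff g).symm rfl rfl
    constructor
    · intro h
      have h1 := sum_regular_ne_zero hM h
      rw [e] at h1
      exact mem_principal_of_sum_ne hM (right_ne_zero_of_mul h1)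
    · intro h
      refine mem_principal_of_sum_ne hM ?_
      rw [e]
      exact mul_ne_zero (Nat.cast_ne_zero.2 Nat.card_pos.ne') (sum_regular_ne_zero hM h)
  rw [finsum_mem_eq_finite_toFinset_sum _ (Set.toFinite _), finsum_mem_eq_finite_toFinset_sum _ (Set.toFinite _)]
  refine (Finset.sum_bij (fun φ _ => inf φ) (fun φ hφ => ?_) (fun a _ b _ h => ?_) (fun χ hχ => ?_)
    (fun φ _ => rfl)).symm
  · exact (Set.Finite.mem_toFinset _).2 ((hiff φ).2 ((Set.Finite.mem_toFinset _).1 hφ))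
  · apply Subtype.ext
    funext q
    obtain ⟨g, rfl⟩ := QuotientGroup.mk'_surjective H q
    exact congr_fun (congrArg Subtype.val h) g
  · rw [Set.Finite.mem_toFinset] at hχ
    obtain ⟨φ, hφ⟩ := exists_descend (P := H) χ.2
      (principal_ker hM H (Cfsg.Lib.Solv.not_dvd_card_pPrimeCore p) hχ)
    have he : inf φ = χ := Subtype.ext hφ.symm
    exact ⟨φ, (Set.Finite.mem_toFinset _).2 ((hiff φ).1 (he ▸ hχ)), he⟩


set_option maxHeartbeats 1000000 in
/-- Let p be a prime, M a maximal ideal of the algebraic integers containing p, G a finite group, H = O_p'(G) and Ḡ = G/H. For x ∈ G write λ(G, x) for the sum of |χ(x)|^2 over the irreducible characters χ in the principal p-block of G. Then λ(G, x) is a positive integer, λ(G, x) = λ(Ḡ, x̄) where x̄ is the image of x, and λ(G, x) ≤ #C_Ḡ(x̄). Moreover λ(G, 1) = [G : H] if and only if the principal block is the only p-block of Ḡ. -/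
theorem result {G : Type*} [Group G] [Finite G] (p : ℕ) [Fact p.Prime] (M : Ideal Cfsg.AlgInt) (hM : Cfsg.IsPModular p M) (x : G) : (∃ n : ℕ, 0 < n ∧ ∑ᶠ χ ∈ Cfsg.principalBlock M G, Complex.normSq ((χ : G → ℂ) x) = n) ∧ ∑ᶠ χ ∈ Cfsg.principalBlock M G, Complex.normSq ((χ : G → ℂ) x) = ∑ᶠ ψ ∈ Cfsg.principalBlock M (G ⧸ Cfsg.pPrimeCore p G), Complex.normSq ((ψ : G ⧸ Cfsg.pPrimeCore p G → ℂ) (QuotientGroup.mk x)) ∧ ∑ᶠ χ ∈ Cfsg.principalBlock M G, Complex.normSq ((χ : G → ℂ) x) ≤ (Nat.card ↥(Subgroup.centralizer ({(QuotientGroup.mk x : G ⧸ Cfsg.pPrimeCore p G)} : Set (G ⧸ Cfsg.pPrimeCore p G))) : ℝ) ∧ ((∑ᶠ χ ∈ Cfsg.principalBlock M G, Cfsg.charDegree (χ : G → ℂ) ^ 2) = (Cfsg.pPrimeCore p G).index ↔ ∀ B : Set (Cfsg.IrrCharacter (G ⧸ Cfsg.pPrimeCore p G)), Cfsg.IsPBlock M B → B = Cfsg.principalBlock M (G ⧸ Cfsg.pPrimeCore p G)) := by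
  classical
  haveI := Fintype.ofFinite G
  haveI := hM.2.1.isPrime
  haveI := Fintype.ofFinite (G ⧸ Cfsg.pPrimeCore p G)
  have hnorm : ∀ ψ : Cfsg.IrrCharacter (G ⧸ Cfsg.pPrimeCore p G), ∀ q,
      ((Complex.normSq ((ψ : G ⧸ Cfsg.pPrimeCore p G → ℂ) q) : ℝ) : ℂ) =
        (ψ : G ⧸ Cfsg.pPrimeCore p G → ℂ) q * (starRingEnd ℂ) ((ψ : G ⧸ Cfsg.pPrimeCore p G → ℂ) q) :=
    fun ψ q => (Complex.mul_conj _).symm
  have hcol : ∀ q : G ⧸ Cfsg.pPrimeCore p G,
      ∑ ψ : Cfsg.IrrCharacter (G ⧸ Cfsg.pPrimeCore p G), Complex.normSq ((ψ : G ⧸ Cfsg.pPrimeCore p G → ℂ) q) =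
        (Nat.card (Subgroup.centralizer ({q} : Set (G ⧸ Cfsg.pPrimeCore p G))) : ℝ) := by
    intro q
    apply Complex.ofReal_injective
    push_cast
    simp only [hnorm]
    rw [Cfsg.Lib.Characters.column_orthogonality, if_pos (IsConj.refl q)]
  have hle : ∀ q : G ⧸ Cfsg.pPrimeCore p G,
      ∑ᶠ ψ ∈ Cfsg.principalBlock M (G ⧸ Cfsg.pPrimeCore p G), Complex.normSq ((ψ : G ⧸ Cfsg.pPrimeCore p G → ℂ) q) ≤
        (Nat.card (Subgroup.centralizer ({q} : Set (G ⧸ Cfsg.pPrimeCore p G))) : ℝ) := by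
    intro q
    rw [← hcol q, finsum_mem_eq_finite_toFinset_sum _ (Set.toFinite _)]
    exact Finset.sum_le_univ_sum_of_nonneg fun _ => Complex.normSq_nonneg _
  refine ⟨exists_int hM x, sum_inflate hM x, (sum_inflate hM x).trans_le (hle _), ?_⟩
  open Cfsg.Lib.Characters in
  choose d hd using fun χ : Cfsg.IrrCharacter G => exists_degree χ.2.isCharacter
  have hd2 : ((∑ᶠ χ ∈ Cfsg.principalBlock M G, Cfsg.charDegree (χ : G → ℂ) ^ 2 : ℕ) : ℝ) =
      ∑ᶠ χ ∈ Cfsg.principalBlock M G, Complex.normSq ((χ : G → ℂ) 1) := by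
    rw [finsum_mem_eq_finite_toFinset_sum _ (Set.toFinite _), finsum_mem_eq_finite_toFinset_sum _ (Set.toFinite _),
      Nat.cast_sum]
    refine Finset.sum_congr rfl fun χ _ => ?_
    rw [Cfsg.Lib.Blocks.charDegree_eq (hd χ), hd χ, Complex.normSq_natCast, Nat.cast_pow, pow_two]
  have hc1 : Nat.card (Subgroup.centralizer ({(1 : G ⧸ Cfsg.pPrimeCore p G)} : Set (G ⧸ Cfsg.pPrimeCore p G))) =
      (Cfsg.pPrimeCore p G).index := by
    rw [Subgroup.centralizer_eq_top_iff_subset.mpr (by simp), Subgroup.card_top, Subgroup.index_eq_card]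
  rw [← Nat.cast_inj (R := ℝ), hd2, sum_inflate hM, QuotientGroup.mk_one, ← hc1, ← hcol,
    finsum_mem_eq_finite_toFinset_sum _ (Set.toFinite _)]
  constructor
  · intro h B hB
    have hall : ∀ ψ : Cfsg.IrrCharacter (G ⧸ Cfsg.pPrimeCore p G),
        ψ ∈ Cfsg.principalBlock M (G ⧸ Cfsg.pPrimeCore p G) := by
      intro ψ
      by_contra hψ
      refine absurd h (ne_of_lt (Finset.sum_lt_sum_of_subset (Finset.subset_univ _) (i := ψ)
        (Finset.mem_univ _) (fun h' => hψ ((Set.Finite.mem_toFinset _).1 h'))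
        (Complex.normSq_pos.2 ψ.2.one_ne_zero) fun _ _ _ => Complex.normSq_nonneg _))
    obtain ⟨χ, rfl⟩ := hB
    have hP : Cfsg.IsPBlock M (Cfsg.principalBlock M (G ⧸ Cfsg.pPrimeCore p G)) :=
      ⟨Cfsg.Lib.Blocks.trivChar _, Cfsg.Lib.Blocks.principalBlock_eq⟩
    exact (Cfsg.Lib.Blocks.IsPBlock.eq_blockOf hP (hall χ)).symm
  · intro h
    have hS : (Set.toFinite (Cfsg.principalBlock M (G ⧸ Cfsg.pPrimeCore p G))).toFinset = Finset.univ := by
      refine Finset.eq_univ_of_forall fun ψ => (Set.Finite.mem_toFinset _).2 ?_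
      rw [← h _ ⟨ψ, rfl⟩]
      exact Cfsg.Lib.Blocks.mem_blockOf_self M ψ
    rw [hS]

end Cfsg.Agent.S4735
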