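import Cfsg.Statements.S4736
import Cfsg.Agent.S4713
import Cfsg.Agent.Lib.Blocks.PrincipalTypeCore
import Cfsg.Agent.Lib.Blocks.Principal
import Cfsg.Agent.Lib.Blocks.Heights
import Cfsg.Agent.Lib.Blocks.InflationBijection

set_option autoImplicit false
open Cfsg Cfsg.Lib.Characters Cfsg.Lib.Blocks
open scoped Classical

namespace Cfsg.Agent.S4736

/-- Let p be a prime, M a maximal ideal of the algebraic integers containing p, and G a finite p-solvable group with Sylow p-subgroup P. Then P is abelian if and only if every irreducible character in the principal p-block of G has height zero. -/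
theorem result {G : Type*} [Group G] [Finite G] (p : ℕ) [Fact p.Prime] (M : Ideal Cfsg.AlgInt) (hM : Cfsg.IsPModular p M) (hsolv : Cfsg.IsPSolvable p G) (P : Sylow p G) : IsMulCommutative P ↔ ∀ χ ∈ Cfsg.principalBlock M G, Cfsg.blockHeight p (Cfsg.principalBlock M G) (χ : G → ℂ) = 0 := by
  classical
  haveI := Fintype.ofFinite G
  haveI := hM.2.1.isPrime
  haveI hKn := Cfsg.Lib.Transfer.pPrimeCore_normal (G := G) p
  set K := Cfsg.pPrimeCore p G with hK
  haveI := Fintype.ofFinite K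
  obtain ⟨B, hB, hiff, -⟩ := constrained_block (θ := trivChar K) hM
    (isPConstrained_of_pSolvable hsolv) hK (fun g => Subtype.ext (funext fun k => rfl))
  have htriv : trivChar G ∈ B := by
    rw [hiff]
    show classInner (fun _ : K => (1 : ℂ)) (fun _ => (1 : ℂ)) ≠ 0
    rw [classInner_irr_self isIrrCharacter_one]
    exact one_ne_zero
  have hBeq : B = Cfsg.principalBlock M G := IsPBlock.eq_of_mem hB isPBlock_principal htriv trivChar_mem_principal
  subst hBeq
  have hmin : sInf ((fun ψ : Cfsg.IrrCharacter G => (Cfsg.charDegree (ψ : G → ℂ)).factorization p) ''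
      Cfsg.principalBlock M G) = 0 :=
    Nat.le_zero.mp (Nat.sInf_le ⟨trivChar G, trivChar_mem_principal, by
      show (Cfsg.charDegree (trivChar G : G → ℂ)).factorization p = 0
      rw [charDegree_eq (χ := (trivChar G : G → ℂ)) (d := 1) (by simp), Nat.factorization_one]; rfl⟩)
  have hh : ∀ χ ∈ Cfsg.principalBlock M G, (Cfsg.blockHeight p (Cfsg.principalBlock M G) (χ : G → ℂ) = 0 ↔
      ¬ p ∣ Cfsg.charDegree (χ : G → ℂ)) := by
    intro χ hχ
    rw [Cfsg.blockHeight, hmin, Nat.sub_zero, Nat.factorization_eq_zero_iff]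
    have := charDegree_pos χ
    simp [(Fact.out : p.Prime), this.ne']
  set π := QuotientGroup.mk' K with hπ
  have hsurj : Function.Surjective π := QuotientGroup.mk'_surjective K
  have hKp : (Nat.card K).Coprime p := (Cfsg.Lib.Transfer.coprime_card_pPrimeCore p)
  have hinfl : ∀ β : Cfsg.IrrCharacter (G ⧸ K), ∃ χ ∈ Cfsg.principalBlock M G,
      Cfsg.charDegree (χ : G → ℂ) = Cfsg.charDegree (β : G ⧸ K → ℂ) := by
    intro β
    refine ⟨⟨_, isIrrCharacter_comp_surjective β.2 π hsurj⟩, (hiff _).mpr ?_, charDegree_eq (by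
      show (β : G ⧸ K → ℂ) (π 1) = _
      rw [map_one, coe_charDegree])⟩
    show classInner (fun k : K => (β : G ⧸ K → ℂ) (π k)) (fun _ => (1 : ℂ)) ≠ 0
    rw [show (fun k : K => (β : G ⧸ K → ℂ) (π k)) = (β : G ⧸ K → ℂ) 1 • fun _ : K => (1 : ℂ) from
      funext fun k => by rw [Pi.smul_apply, smul_eq_mul, mul_one, show π k = 1 from (QuotientGroup.eq_one_iff _).mpr k.2],
      classInner_smul_left, classInner_irr_self isIrrCharacter_one, mul_one]
    exact β.2.one_ne_zero
  have hdown : ∀ χ ∈ Cfsg.principalBlock M G, ∃ β : Cfsg.IrrCharacter (G ⧸ K),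
      Cfsg.charDegree (χ : G → ℂ) = Cfsg.charDegree (β : G ⧸ K → ℂ) := by
    intro χ hχ
    obtain ⟨β, hβ⟩ := exists_descend (P := K) χ.2 (principal_ker hM K
      ((Fact.out : p.Prime).coprime_iff_not_dvd.mp hKp.symm) hχ)
    refine ⟨β, charDegree_eq ?_⟩
    rw [hβ, Function.comp_apply, QuotientGroup.mk_one, coe_charDegree]
  have hsq := Cfsg.Lib.PLocal.IsPSolvable.of_surjective π hsurj hsolv
  have hker : Function.Injective (π.comp (P : Subgroup G).subtype) := by
    rw [← MonoidHom.ker_eq_bot_iff, eq_bot_iff]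
    intro x hx
    have h1 : (x : G) ∈ K := (QuotientGroup.eq_one_iff _).mp (MonoidHom.mem_ker.mp hx)
    obtain ⟨e, he⟩ := IsPGroup.iff_card.mp P.isPGroup'
    have h2 : orderOf (x : G) ∣ Nat.card K := by
      rw [← Subgroup.orderOf_mk (x : G) h1]; exact orderOf_dvd_natCard _
    have h3 : orderOf (x : G) ∣ p ^ e := by
      rw [Subgroup.orderOf_coe, ← he]; exact orderOf_dvd_natCard _
    exact Subgroup.mem_bot.mpr (Subtype.ext (orderOf_eq_one_iff.mp
      (Nat.eq_one_of_dvd_coprimes (hKp.pow_right e) h2 h3)))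
  constructor
  · intro hab χ hχ
    rw [hh χ hχ]
    obtain ⟨β, hβ⟩ := hdown χ hχ
    rw [hβ]
    have hab' : IsMulCommutative ↥((P.mapSurjective hsurj : Sylow p (G ⧸ K)) : Subgroup (G ⧸ K)) := by
      refine ⟨⟨fun a b => Subtype.ext ?_⟩⟩
      have ha : (a : G ⧸ K) ∈ (P : Subgroup G).map π := by rw [← Sylow.coe_mapSurjective hsurj]; exact a.2
      have hb : (b : G ⧸ K) ∈ (P : Subgroup G).map π := by rw [← Sylow.coe_mapSurjective hsurj]; exact b.2
      obtain ⟨x, hx, hxa⟩ := ha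
      obtain ⟨y, hy, hyb⟩ := hb
      show (a : G ⧸ K) * b = b * a
      rw [← hxa, ← hyb, ← map_mul, ← map_mul]
      exact congrArg π (congrArg Subtype.val (mul_comm' (⟨x, hx⟩ : (P : Subgroup G)) ⟨y, hy⟩))
    have hsc := Cfsg.Lib.PLocal.selfCentralizingCore_of_pSolvable hsq (Cfsg.Lib.Solv.pPrimeCore_quotient_eq_bot p)
    have hle := Cfsg.Lib.Transfer.pCore_le_sylow (P.mapSurjective hsurj)
    have heq : ((P.mapSurjective hsurj : Sylow p (G ⧸ K)) : Subgroup (G ⧸ K)) = Cfsg.pCore p (G ⧸ K) := by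
      refine le_antisymm (fun a ha => hsc (Subgroup.mem_centralizer_iff.mpr fun x hx => ?_)) hle
      exact congrArg Subtype.val (mul_comm'
        (⟨x, hle hx⟩ : ↥((P.mapSurjective hsurj : Sylow p (G ⧸ K)) : Subgroup (G ⧸ K))) ⟨a, ha⟩)
    exact (Cfsg.Agent.S4713.result p hsq (P.mapSurjective hsurj)).mp
      ⟨heq.symm ▸ Cfsg.Lib.Transfer.pCore_normal (G := G ⧸ K) p, hab'⟩ β
  · intro hall
    have h1 : ∀ β : Cfsg.IrrCharacter (G ⧸ K), ¬ p ∣ Cfsg.charDegree (β : G ⧸ K → ℂ) := by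
      intro β
      obtain ⟨χ, hχ, he⟩ := hinfl β
      rw [← he]
      exact (hh χ hχ).mp (hall χ hχ)
    have h2 := ((Cfsg.Agent.S4713.result p hsq (P.mapSurjective hsurj)).mpr h1).2
    haveI := h2
    refine ⟨⟨fun a b => hker ?_⟩⟩
    have hmem : ∀ x : (P : Subgroup G), π x ∈ ((P.mapSurjective hsurj : Sylow p (G ⧸ K)) : Subgroup (G ⧸ K)) :=
      fun x => by rw [Sylow.coe_mapSurjective]; exact Subgroup.mem_map_of_mem π x.2
    rw [map_mul, map_mul]
    exact congrArg Subtype.val (mul_comm'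
      (⟨π a, hmem a⟩ : ↥((P.mapSurjective hsurj : Sylow p (G ⧸ K)) : Subgroup (G ⧸ K))) ⟨π b, hmem b⟩)

end Cfsg.Agent.S4736
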