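import Cfsg.Statements.S4955
import Cfsg.Agent.Lib.Blocks.NormalPInflation
import Cfsg.Agent.Lib.Blocks.Galois
import Cfsg.Agent.Lib.Blocks.Exists
import Cfsg.Agent.Lib.Characters.Degree

set_option autoImplicit false
set_option linter.style.haveILetI false
open Cfsg

namespace Cfsg.Agent.S4955

open Cfsg.Lib.Blocks Cfsg.Lib.Characters Finset
open scoped Classical ComplexConjugate

/-- Let X be a finite group with an abelian normal Sylow p-subgroup V (a normal p-subgroup of index prime to p in which any two elements commute), and let G be a complement to V in X. Then for every v in V, writing C for the centralizer of v in G, the number k(X) of conjugacy classes of X satisfies k(X) ≤ (order of C)·(order of V) − ((order of G) − k(G)); the statement is written with the subtracted term moved to the left. In particular, if some v in V is centralized by no nonidentity element of G, then k(X) is at most the order of V. -/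
theorem result {X : Type*} [Group X] [Finite X] (p : ℕ) [Fact p.Prime] (V : Subgroup X) [V.Normal] (hVp : IsPGroup p V) (hidx : ¬ p ∣ V.index) (hab : ∀ a ∈ V, ∀ b ∈ V, a * b = b * a) (G : Subgroup X) (hGV : Subgroup.IsComplement' V G) (v : X) (hv : v ∈ V) : Nat.card (ConjClasses X) + Nat.card G ≤ Nat.card ↥(G ⊓ Subgroup.centralizer ({v} : Set X)) * Nat.card V + Nat.card (ConjClasses G) := by
  haveI : Fintype X := Fintype.ofFinite X
  haveI : Fintype (X ⧸ V) := Fintype.ofFinite _
  haveI : IsMulCommutative V := ⟨⟨fun a b => Subtype.ext (hab _ a.2 _ b.2)⟩⟩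
  obtain ⟨M, hM⟩ := exists_isPModular p
  haveI : M.IsPrime := hM.2.1.isPrime
  set C := Subgroup.centralizer ({v} : Set X) with hC
  have hVC : V ≤ C := fun a ha => Subgroup.mem_centralizer_singleton_iff.mpr (hab a ha v hv)
  have hcard : Nat.card C = Nat.card ↥(G ⊓ C) * Nat.card V := by
    rw [mul_comm, ← Nat.card_prod]
    refine (Nat.card_congr (Equiv.ofBijective (fun z : V × ↥(G ⊓ C) =>
      (⟨(z.1 : X) * z.2, mul_mem (hVC z.1.2) (Subgroup.mem_inf.mp z.2.2).2⟩ : C)) ⟨?_, ?_⟩)).symm
    · intro z z' h
      have h1 : ((z.1, (⟨z.2, (Subgroup.mem_inf.mp z.2.2).1⟩ : G)) : V × G)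
          = (z'.1, ⟨z'.2, (Subgroup.mem_inf.mp z'.2.2).1⟩) := hGV.1 (congrArg Subtype.val h)
      obtain ⟨e1, e2⟩ := Prod.ext_iff.mp h1
      exact Prod.ext e1 (Subtype.ext (congrArg Subtype.val e2 :))
    · rintro ⟨c, hc⟩
      obtain ⟨⟨⟨a, ha⟩, ⟨b, hb⟩⟩, hab'⟩ := hGV.2 c
      have hbC : b ∈ C := by
        have hab2 : a * b = c := hab'
        rw [show b = a⁻¹ * c by rw [← hab2, inv_mul_cancel_left]]
        exact mul_mem (inv_mem (hVC ha)) hc
      exact ⟨(⟨a, ha⟩, ⟨b, Subgroup.mem_inf.mpr ⟨hb, hbC⟩⟩), Subtype.ext hab'⟩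
  -- the quotient is isomorphic to the complement
  have e : G ≃* X ⧸ V := MulEquiv.ofBijective ((QuotientGroup.mk' V).comp G.subtype) ⟨fun a b h => by
      have hm : (a : X)⁻¹ * b ∈ V := QuotientGroup.eq.mp h
      have h1 : (((⟨_, hm⟩ : V), (1 : G)) : V × G) = ((1 : V), a⁻¹ * b) :=
        hGV.1 (by simp)
      have h2 := (Prod.ext_iff.mp h1).2
      exact (inv_mul_eq_one.mp h2.symm),
    fun q => by
      obtain ⟨x, rfl⟩ := QuotientGroup.mk_surjective q
      obtain ⟨⟨⟨a, ha⟩, b⟩, rfl⟩ := hGV.2 x
      refine ⟨b, QuotientGroup.eq.mpr ?_⟩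
      have := (inferInstance : V.Normal).conj_mem a ha (b : X)⁻¹
      simpa [mul_assoc] using this⟩
  set T : Finset (IrrCharacter X) := univ.image (inflIrr V) with hT
  have hTcard : T.card = Nat.card (ConjClasses G) := by
    rw [hT, Finset.card_image_of_injective _ inflIrr_injective, Finset.card_univ, ← Nat.card_eq_fintype_card,
      card_irr_eq_card_conjClasses]
    exact Nat.card_congr
      { toFun := ConjClasses.map e.symm.toMonoidHom
        invFun := ConjClasses.map e.toMonoidHom
        left_inv := fun c => Quotient.inductionOn c fun a => congrArg ConjClasses.mk (e.apply_symm_apply a)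
        right_inv := fun c => Quotient.inductionOn c fun a => congrArg ConjClasses.mk (e.symm_apply_apply a) }
  have hsumT : ∑ χ ∈ T, (χ : X → ℂ) v * conj ((χ : X → ℂ) v) = (Nat.card G : ℂ) := by
    rw [hT, Finset.sum_image fun a _ b _ h => inflIrr_injective h, Nat.card_congr e.toEquiv, ← sum_sq_degree]
    refine Finset.sum_congr rfl fun φ _ => ?_
    rw [coe_inflIrr, Function.comp_apply, (QuotientGroup.eq_one_iff v).mpr hv, ← coe_charDegree φ,
      map_natCast, sq]
  have hne : ∀ χ : IrrCharacter X, (χ : X → ℂ) v ≠ 0 := by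
    intro χ h0
    have h1 : ¬ p ∣ charDegree (χ : X → ℂ) := fun hd =>
      hidx (hd.trans (degree_dvd_index_of_abelian χ.2 V (coe_charDegree χ).symm))
    obtain ⟨k, hk⟩ := IsPGroup.iff_orderOf.mp hVp ⟨v, hv⟩
    have h2 := red_char_mul_pPart hM χ (Commute.one_right v) ⟨k, by rw [← hk, Subgroup.orderOf_mk]⟩
      (by rw [orderOf_one]; exact (Fact.out : p.Prime).not_dvd_one)
    rw [mul_one, h0, red_zero, ← coe_charDegree χ, red_natCast, eq_comm, natCast_resF_eq_zero hM] at h2
    exact h1 h2
  have hall : ∑ χ : IrrCharacter X, (χ : X → ℂ) v * conj ((χ : X → ℂ) v) = (Nat.card C : ℂ) := by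
    rw [column_orthogonality, if_pos (IsConj.refl v)]
  have hle : Nat.card G ≤ Nat.card C := by
    have h1 : ((Nat.card G : ℝ) : ℝ) ≤ Nat.card C := by
      have hre := congrArg Complex.re hsumT
      have hre' := congrArg Complex.re hall
      simp only [Complex.re_sum, Complex.mul_conj, Complex.ofReal_re, Complex.natCast_re] at hre hre'
      rw [← hre, ← hre']
      exact Finset.sum_le_sum_of_subset_of_nonneg (Finset.subset_univ _) fun χ _ _ => Complex.normSq_nonneg _
    exact_mod_cast h1
  have hbound := card_le_of_sum_mul_conj (N := Nat.card X) Nat.card_pos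
    (fun χ : {χ : IrrCharacter X // χ ∉ T} => (χ.1 : X → ℂ) v)
    (fun χ => char_mem_rootField χ.1.2.isCharacter v (orderOf_dvd_natCard v))
    (fun χ => char_isIntegral χ.1.2.isCharacter v) (fun χ => hne χ.1) (Nat.card C - Nat.card G) (by
      rw [← Finset.sum_subtype (univ \ T) (fun χ => by simp) fun χ : IrrCharacter X =>
          (χ : X → ℂ) v * conj ((χ : X → ℂ) v),
        Finset.sum_sdiff_eq_sub (Finset.subset_univ _), hall, hsumT, Nat.cast_sub hle])
  have hsplit : Fintype.card {χ : IrrCharacter X // χ ∉ T} + T.card = Nat.card (ConjClasses X) := by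
    rw [← card_irr_eq_card_conjClasses, Nat.card_eq_fintype_card, Fintype.card_subtype_compl,
      Fintype.card_coe]
    have : T.card ≤ Fintype.card (IrrCharacter X) := Finset.card_le_univ T
    omega
  omega

end Cfsg.Agent.S4955
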