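import Cfsg.Statements.S4956
import Mathlib
-- import your own Cfsg.Agent.* helpers here

set_option autoImplicit false
open Cfsg

namespace Cfsg.Agent.S4956


/-- In a coprime extension of an abelian group a torsion lift is conjugate to its image. -/
theorem exists_conj_eq {X : Type*} [Group X] (V : Subgroup X) [V.Normal] [Finite V]
    (hab : ∀ a ∈ V, ∀ b ∈ V, a * b = b * a) {o : ℕ} (hcop : (Nat.card V).Coprime o) {g : X} (hg : g ^ o = 1)
    {v : X} (hv : v ∈ V) (hvg : (v * g) ^ o = 1) : ∃ u ∈ V, u * g * u⁻¹ = v * g := by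
  letI : CommGroup V := { (inferInstance : Group V) with mul_comm := fun a b => Subtype.ext (hab _ a.2 _ b.2) }
  let β : V →* V := (MulAut.conjNormal g).toMonoidHom
  let v' : V := ⟨v, hv⟩
  let P : ℕ → V := Nat.rec 1 (fun n Q => Q * (β^[n] v'))
  let W : ℕ → V := Nat.rec 1 (fun n Q => Q * (β^[n] v') ^ n)
  have hP : ∀ n, Subtype.val (P n) * g ^ n = (v * g) ^ n := by
    intro n
    induction n with
    | zero => simp [P]
    | succ n ih =>
      have hb : ∀ (n : ℕ), ((β^[n] v' : V) : X) = g ^ n * v * (g ^ n)⁻¹ := by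
        intro n
        induction n with
        | zero => simp [v']
        | succ n ihn =>
          rw [Function.iterate_succ_apply', show ((β (β^[n] v') : V) : X) = g * (β^[n] v' : V) * g⁻¹ from
            MulAut.conjNormal_apply g _, ihn, pow_succ' g n]
          group
      show ((P n * (β^[n] v') : V) : X) * g ^ (n + 1) = _
      rw [Subgroup.coe_mul, hb n, pow_succ (v * g) n, ← ih, pow_succ g n]
      group
  have hW : ∀ n, W (n + 1) * v' = β (W n) * P (n + 1) := by
    intro n
    induction n with
    | zero => simp [W, P]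
    | succ n ih =>
      show W (n + 1) * (β^[n + 1] v') ^ (n + 1) * v' = β (W n * (β^[n] v') ^ n) * (P (n + 1) * (β^[n + 1] v'))
      rw [mul_right_comm, ih, map_mul, map_pow, ← Function.iterate_succ_apply' (f := β), pow_succ,
        mul_mul_mul_comm]
  have hPo : P o = 1 := Subtype.ext (by
    have := hP o
    rw [hvg, hg, mul_one] at this
    exact this)
  have hβo : β^[o] v' = v' := by
    have hb : ∀ (n : ℕ), ((β^[n] v' : V) : X) = g ^ n * v * (g ^ n)⁻¹ := by
      intro n
      induction n with
      | zero => simp [v']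
      | succ n ihn =>
        rw [Function.iterate_succ_apply', show ((β (β^[n] v') : V) : X) = g * (β^[n] v' : V) * g⁻¹ from
          MulAut.conjNormal_apply g _, ihn, pow_succ' g n]
        group
    exact Subtype.ext (by rw [hb, hg]; simp [v'])
  have key : W o * v' ^ o = β (W o) := by
    have h := hW o
    change W o * (β^[o] v') ^ o * v' = β (W o) * (P o * (β^[o] v')) at h
    rw [hPo, hβo, one_mul] at h
    exact mul_right_cancel h
  obtain ⟨c, hc⟩ : ∃ c : ℕ, (v' ^ o) ^ c = v' := exists_pow_eq_self_of_coprime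
    (hcop.symm.coprime_dvd_right (orderOf_dvd_natCard v'))
  let u : V := (W o)⁻¹ ^ c
  have hu : u * (β u)⁻¹ = v' := by
    simp only [u, map_pow, map_inv, ← key, inv_inv, ← inv_pow, ← mul_pow]
    rw [inv_mul_cancel_left, hc]
  refine ⟨u, u.2, ?_⟩
  have h2 := congrArg Subtype.val hu
  rw [Subgroup.coe_mul, Subgroup.coe_inv, show ((β u : V) : X) = g * (u : X) * g⁻¹ from
    MulAut.conjNormal_apply g u] at h2
  rw [show v = (u : X) * (g * (u : X) * g⁻¹)⁻¹ from h2.symm]
  group

/-- Let X be a finite group, V an abelian normal subgroup of X (any two elements of V commute) and G a complement to V in X whose order is coprime to that of V. Let S be a set of representatives of the orbits of G on V under conjugation: S lies in V and every element of V is conjugate under G to exactly one member of S. Then the number of conjugacy classes of X equals the sum, over s in S, of the number of conjugacy classes of the centralizer of s in G. -/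
theorem result {X : Type*} [Group X] [Finite X] (V : Subgroup X) [V.Normal] (hab : ∀ a ∈ V, ∀ b ∈ V, a * b = b * a) (G : Subgroup X) (hGV : Subgroup.IsComplement' V G) (hcop : (Nat.card V).Coprime (Nat.card G)) (S : Finset X) (hSV : ∀ s ∈ S, s ∈ V) (hrep : ∀ v ∈ V, ∃! s, s ∈ S ∧ ∃ g ∈ G, g * v * g⁻¹ = s) : Nat.card (ConjClasses X) = ∑ s ∈ S, Nat.card (ConjClasses ↥(G ⊓ Subgroup.centralizer ({s} : Set X))) := by
  classical
  haveI := Fintype.ofFinite X
  obtain ⟨e, he1, he0⟩ := Nat.chineseRemainder hcop 1 0
  have heV : ∀ a ∈ V, a ^ e = a := fun a ha => by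
    conv_rhs => rw [← pow_one a]
    exact pow_eq_pow_iff_modEq.mpr (he1.of_dvd (Subgroup.orderOf_dvd_natCard V ha))
  have heG : ∀ a ∈ G, a ^ e = 1 := fun a ha =>
    orderOf_dvd_iff_pow_eq_one.mp ((Subgroup.orderOf_dvd_natCard G ha).trans (Nat.modEq_zero_iff_dvd.mp he0))
  have hX : Nat.card X = Nat.card V * Nat.card G := hGV.card_mul.symm
  let C : S → Subgroup X := fun s => G ⊓ Subgroup.centralizer ({(s : X)} : Set X)
  have hCcomm : ∀ (s : S) (c : C s), Commute (s : X) c := fun s c =>
    (Subgroup.mem_centralizer_iff.mp c.2.2) (s : X) rfl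
  let f : (Σ s : S, ConjClasses (C s)) → ConjClasses X := fun q =>
    Quotient.liftOn q.2 (fun c => ConjClasses.mk ((q.1 : X) * (c : X))) (fun c d hcd => by
      obtain ⟨t, ht⟩ := isConj_iff.mp (show IsConj c d from hcd)
      refine ConjClasses.mk_eq_mk_iff_isConj.mpr (isConj_iff.mpr ⟨(t : X), ?_⟩)
      rw [← ht, Subgroup.coe_mul, Subgroup.coe_mul, Subgroup.coe_inv, ← mul_assoc, (hCcomm q.1 t).symm.eq]
      group)
  have hbij : Function.Bijective f := by
    constructor
    · rintro ⟨s, q⟩ ⟨s', q'⟩ h
      induction q using Quotient.inductionOn with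
      | h c =>
        induction q' using Quotient.inductionOn with
        | h c' =>
          change ConjClasses.mk ((s : X) * c) = ConjClasses.mk ((s' : X) * c') at h
          obtain ⟨t, ht⟩ := isConj_iff.mp (ConjClasses.mk_eq_mk_iff_isConj.mp h)
          obtain ⟨⟨v, g⟩, hvg⟩ := hGV.surjective t
          have hvg' : (v : X) * g = t := hvg
          have hse : ∀ (s : S) (c : C s), ((s : X) * c) ^ e = s := fun s c => by
            rw [(hCcomm s c).mul_pow, heV _ (hSV _ s.2), heG _ c.2.1, mul_one]
          have h1 : t * (s : X) * t⁻¹ = s' := by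
            rw [← hse s c, ← conj_pow, ht, hse]
          have hgs : (g : X) * s * (g : X)⁻¹ ∈ V := ‹V.Normal›.conj_mem _ (hSV _ s.2) _
          have h2 : (g : X) * s * (g : X)⁻¹ = s' := by
            rw [← h1, ← hvg']
            calc (g : X) * s * (g : X)⁻¹ = (v : X) * ((g : X) * s * (g : X)⁻¹) * (v : X)⁻¹ := by
                  rw [hab _ v.2 _ hgs, mul_inv_cancel_right]
              _ = _ := by group
          obtain ⟨r, -, huniq⟩ := hrep (s : X) (hSV _ s.2)
          have hss : s = s' := Subtype.ext ((huniq _ ⟨s.2, 1, one_mem _, by simp⟩).trans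
            (huniq _ ⟨s'.2, g, g.2, h2⟩).symm)
          subst hss
          have hgC : (g : X) ∈ Subgroup.centralizer ({(s : X)} : Set X) := by
            rw [Subgroup.mem_centralizer_iff]
            intro y hy
            rw [Set.mem_singleton_iff] at hy
            rw [hy]
            conv_lhs => rw [← h2]
            rw [inv_mul_cancel_right]
          have h3 : t * (c : X) * t⁻¹ = c' := by
            refine mul_left_cancel (a := t * (s : X) * t⁻¹) ?_
            conv_rhs => rw [h1, ← ht]
            group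
          have hd : (g : X) * c * (g : X)⁻¹ ∈ G := mul_mem (mul_mem g.2 c.2.1) (inv_mem g.2)
          have hmemV : (c' : X) * ((g : X) * c * (g : X)⁻¹)⁻¹ ∈ V := by
            rw [← h3, ← hvg', show (v : X) * g * c * ((v : X) * g)⁻¹ * ((g : X) * c * (g : X)⁻¹)⁻¹
              = (v : X) * (((g : X) * c * (g : X)⁻¹) * (v : X)⁻¹ * ((g : X) * c * (g : X)⁻¹)⁻¹) by group]
            exact mul_mem v.2 (‹V.Normal›.conj_mem _ (inv_mem v.2) _)
          have h4 : (c' : X) = (g : X) * c * (g : X)⁻¹ :=
            mul_inv_eq_one.mp (Subgroup.disjoint_def.mp hGV.disjoint hmemV (mul_mem c'.2.1 (inv_mem hd)))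
          refine Sigma.ext rfl (heq_of_eq (Quotient.sound ?_))
          exact isConj_iff.mpr ⟨⟨g, g.2, hgC⟩, Subtype.ext (by simpa using h4.symm)⟩
    · intro q
      induction q using Quotient.inductionOn with
      | h x =>
        have ha : x ^ e ∈ V := by
          rw [← QuotientGroup.eq_one_iff, QuotientGroup.mk_pow]
          refine orderOf_dvd_iff_pow_eq_one.mp ((orderOf_dvd_natCard _).trans ?_)
          rw [← Subgroup.index_eq_card, hGV.symm.index_eq_card]
          exact Nat.modEq_zero_iff_dvd.mp he0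
        have hbo : (x * (x ^ e)⁻¹) ^ Nat.card G = 1 := by
          have hc : Commute x (x ^ e)⁻¹ := ((Commute.refl x).pow_right e).inv_right
          rw [hc.mul_pow, inv_pow, mul_inv_eq_one, ← pow_mul]
          refine pow_eq_pow_iff_modEq.mpr (Nat.ModEq.of_dvd (orderOf_dvd_natCard x) ?_)
          rw [hX]
          have := (he1.mul_right' (Nat.card G)).symm
          simpa [mul_comm] using this
        obtain ⟨⟨v, g⟩, hvg⟩ := hGV.surjective (x * (x ^ e)⁻¹)
        have hvg' : (v : X) * g = x * (x ^ e)⁻¹ := hvg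
        have hgo : (g : X) ^ Nat.card G = 1 :=
          orderOf_dvd_iff_pow_eq_one.mp (Subgroup.orderOf_dvd_natCard G g.2)
        obtain ⟨u, hu, hug⟩ := exists_conj_eq V hab hcop hgo v.2 (hvg'.symm ▸ hbo)
        have hag : Commute (x ^ e) (g : X) := by
          have hc : Commute (x ^ e) (u * g * u⁻¹) := by
            rw [hug, hvg']
            exact ((Commute.refl x).pow_left e).mul_right (Commute.refl (x ^ e)).inv_right
          have hcu : Commute (x ^ e) u := hab _ ha _ hu
          have := (hcu.inv_right.mul_right hc).mul_right hcu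
          rwa [show u⁻¹ * (u * (g : X) * u⁻¹) * u = g by group] at this
        obtain ⟨s, ⟨hs, g₁, hg₁, hgs⟩, -⟩ := hrep _ ha
        have hcC : g₁ * (g : X) * g₁⁻¹ ∈ C ⟨s, hs⟩ := by
          refine Subgroup.mem_inf.mpr ⟨G.mul_mem (G.mul_mem hg₁ g.2) (G.inv_mem hg₁), ?_⟩
          show g₁ * (g : X) * g₁⁻¹ ∈ Subgroup.centralizer ({s} : Set X)
          rw [Subgroup.mem_centralizer_iff]
          intro y hy
          rw [Set.mem_singleton_iff] at hy
          rw [hy, ← hgs]
          exact (Commute.conj_iff g₁).mpr hag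
        refine ⟨⟨⟨s, hs⟩, ConjClasses.mk ⟨_, hcC⟩⟩, ?_⟩
        show ConjClasses.mk (s * (g₁ * (g : X) * g₁⁻¹)) = ConjClasses.mk x
        refine (ConjClasses.mk_eq_mk_iff_isConj.mpr (isConj_iff.mpr ⟨g₁ * u⁻¹, ?_⟩)).symm
        have hx : x = x ^ e * (u * g * u⁻¹) := by
          rw [hug, hvg', ← mul_assoc, (Commute.refl x).pow_left e |>.eq, mul_inv_cancel_right]
        conv_lhs => rw [hx]
        calc g₁ * u⁻¹ * (x ^ e * (u * g * u⁻¹)) * (g₁ * u⁻¹)⁻¹
            = g₁ * (u⁻¹ * x ^ e * u) * g * g₁⁻¹ := by group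
          _ = g₁ * x ^ e * g * g₁⁻¹ := by rw [mul_assoc u⁻¹, hab _ ha _ hu, inv_mul_cancel_left]
          _ = s * (g₁ * g * g₁⁻¹) := by rw [← hgs]; group
  rw [← Nat.card_congr (Equiv.ofBijective f hbij), Nat.card_sigma, Finset.sum_coe_sort S
    (fun s => Nat.card (ConjClasses ↥(G ⊓ Subgroup.centralizer ({s} : Set X))))]

end Cfsg.Agent.S4956
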