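import Cfsg.Statements.S4964
import Cfsg.Agent.Lib.Blocks.NormalPInflation
import Cfsg.Agent.Lib.Solv.Coprime2
import Cfsg.Agent.Lib.Transfer.PGroupFrattini
-- import your own Cfsg.Agent.* helpers here

set_option autoImplicit false
open Cfsg

namespace Cfsg.Agent.S4964

/-- Let D be a normal p-subgroup of the finite group G, let D′ be its commutator subgroup (normal in G), and fix a maximal ideal M of the algebraic integers containing p. Then (i) two irreducible characters of G ⧸ D′ lie in the same p-block if and only if their inflations to G do, and (ii) every p-block of G contains the inflation of some irreducible character of G ⧸ D′; so inflation induces a bijection between the p-blocks of G ⧸ D′ and the p-blocks of G. -/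
theorem result {G : Type*} [Group G] [Finite G] (p : ℕ) [Fact p.Prime] (M : Ideal Cfsg.AlgInt) (hM : Cfsg.IsPModular p M) (D : Subgroup G) [D.Normal] (hD : IsPGroup p D) : (∀ χ ψ : Cfsg.IrrCharacter (G ⧸ ⁅D, D⁆), Cfsg.SameBlock M (χ : G ⧸ ⁅D, D⁆ → ℂ) (ψ : G ⧸ ⁅D, D⁆ → ℂ) ↔ Cfsg.SameBlock M ((χ : G ⧸ ⁅D, D⁆ → ℂ) ∘ QuotientGroup.mk) ((ψ : G ⧸ ⁅D, D⁆ → ℂ) ∘ QuotientGroup.mk)) ∧ ∀ B : Set (Cfsg.IrrCharacter G), Cfsg.IsPBlock M B → ∃ χ : Cfsg.IrrCharacter (G ⧸ ⁅D, D⁆), ∃ θ ∈ B, (θ : G → ℂ) = (χ : G ⧸ ⁅D, D⁆ → ℂ) ∘ QuotientGroup.mk := by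
  classical
  haveI := Fintype.ofFinite G
  haveI := hM.2.1.isPrime
  haveI := Fintype.ofFinite (G ⧸ ⁅D, D⁆)
  have hle : ⁅D, D⁆ ≤ D := Subgroup.commutator_le_left D D
  have hK : IsPGroup p ↥⁅D, D⁆ := hD.to_le hle
  have hfr : ⁅D, D⁆ ≤ (frattini D).map D.subtype := by
    rw [← Subgroup.map_subtype_commutator]
    exact Subgroup.map_mono (Cfsg.Lib.Transfer.commutator_le_frattini hD)
  have hcent : Subgroup.centralizer (D : Set G) ≤ Subgroup.centralizer ((⁅D, D⁆ : Subgroup G) : Set G) :=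
    Subgroup.centralizer_le hle
  set Dbar := D.map (QuotientGroup.mk' ⁅D, D⁆)
  haveI : Dbar.Normal := Subgroup.Normal.map ‹_› _ (QuotientGroup.mk'_surjective _)
  refine ⟨fun χ ψ => ⟨fun h => Cfsg.Lib.Blocks.sameBlock_inflIrr hM hK h, fun h => ?_⟩, fun B hB => ?_⟩
  · refine Cfsg.Lib.Blocks.sameBlock_of_regular_centralizing hM Dbar (hD.map _) fun q hq hqD => ?_
    obtain ⟨x, rfl, hx⟩ := Cfsg.Lib.Blocks.exists_regular_lift hq
    have hxD : x ∈ Subgroup.centralizer (D : Set G) := by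
      have hA := Cfsg.Lib.Solv.centralizes_of_frattini (Subgroup.zpowers x) D
        (fun a _ => by rw [Subgroup.normalizer_eq_top]; exact Subgroup.mem_top a) ?_ ?_
      · exact hA (Subgroup.mem_zpowers x)
      · obtain ⟨k, hk⟩ := IsPGroup.iff_card.1 (hD.to_subgroup (frattini D))
        rw [Nat.card_zpowers, hk]
        exact Nat.Coprime.pow_right k (((Fact.out : p.Prime).coprime_iff_not_dvd.2 hx).symm)
      · intro a ha d hd
        apply hfr
        rw [← QuotientGroup.eq_one_iff]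
        obtain ⟨i, rfl⟩ := Subgroup.mem_zpowers_iff.1 ha
        have hc := Subgroup.mem_centralizer_iff.1 (Subgroup.zpow_mem _ hqD i) (d : G ⧸ ⁅D, D⁆) ⟨d, hd, rfl⟩
        simp only [QuotientGroup.mk_mul, QuotientGroup.mk_inv, QuotientGroup.mk_zpow]
        rw [← hc]
        group
    have h2 := h x
    rwa [Cfsg.Lib.Blocks.centralChar_inflate_of_centralizing hK _ hx (hcent hxD),
      Cfsg.Lib.Blocks.centralChar_inflate_of_centralizing hK _ hx (hcent hxD)] at h2
  · obtain ⟨φ, hφ⟩ := Cfsg.Lib.Blocks.exists_inflIrr_mem (P := ⁅D, D⁆) hM hK hB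
    exact ⟨φ, _, hφ, rfl⟩

end Cfsg.Agent.S4964
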