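import Cfsg.Statements.S4965
import Mathlib.GroupTheory.CommutingProbability
import Mathlib.GroupTheory.SemidirectProduct
-- import your own Cfsg.Agent.* helpers here

set_option autoImplicit false
open Cfsg

namespace Cfsg.Agent.S4965

/-- Let X be a finite group with an abelian normal subgroup V (any two elements of V commute), and let φ be the action of X ⧸ V on V induced by conjugation (well defined because V is abelian; the hypothesis hφ says that the class of x acts as conjugation by x). Then X has at most as many conjugacy classes as the semidirect product of V by X ⧸ V formed with this action: the split extension has the largest class number among extensions with the given action. -/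
theorem result {X : Type*} [Group X] [Finite X] (V : Subgroup X) [V.Normal] (hab : ∀ a ∈ V, ∀ b ∈ V, a * b = b * a) (φ : X ⧸ V →* MulAut ↥V) (hφ : ∀ (x : X) (v : ↥V), ((φ (QuotientGroup.mk x) v : ↥V) : X) = x * v * x⁻¹) : Nat.card (ConjClasses X) ≤ Nat.card (ConjClasses (SemidirectProduct ↥V (X ⧸ V) φ)) := by
  classical
  haveI : Finite (SemidirectProduct ↥V (X ⧸ V) φ) := Finite.of_equiv _ SemidirectProduct.equivProd.symm
  have hcard : Nat.card (SemidirectProduct ↥V (X ⧸ V) φ) = Nat.card X := by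
    rw [Nat.card_congr SemidirectProduct.equivProd, Nat.card_prod,
      Subgroup.card_eq_card_quotient_mul_card_subgroup V, mul_comm]
  refine Nat.le_of_mul_le_mul_right ?_ (Nat.card_pos (α := X))
  conv_rhs => rw [← hcard]
  rw [← card_comm_eq_card_conjClasses_mul_card, ← card_comm_eq_card_conjClasses_mul_card]
  let E : (X ⧸ V) → (X ⧸ V) → Prop := fun a b =>
    ∃ q : X × X, (q.1 : X ⧸ V) = a ∧ (q.2 : X ⧸ V) = b ∧ Commute q.1 q.2
  have hE : ∀ p : {p : X × X // Commute p.1 p.2}, E (p.1.1 : X ⧸ V) (p.1.2 : X ⧸ V) :=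
    fun p => ⟨p.1, rfl, rfl, p.2⟩
  let base : (X ⧸ V) → (X ⧸ V) → X × X := fun a b => if h : E a b then h.choose else (1, 1)
  have hbase : ∀ a b, E a b → ((base a b).1 : X ⧸ V) = a ∧ ((base a b).2 : X ⧸ V) = b ∧
      Commute (base a b).1 (base a b).2 := fun a b h => by
    simp only [base, dif_pos h]; exact h.choose_spec
  have hmem : ∀ x x₀ : X, (x₀ : X ⧸ V) = (x : X ⧸ V) → x * x₀⁻¹ ∈ V := fun x x₀ h => by
    rw [← QuotientGroup.eq_one_iff, QuotientGroup.mk_mul, QuotientGroup.mk_inv, h, mul_inv_cancel]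
  let f : {p : X × X // Commute p.1 p.2} →
      {p : SemidirectProduct ↥V (X ⧸ V) φ × SemidirectProduct ↥V (X ⧸ V) φ // Commute p.1 p.2} := fun p =>
    ⟨(⟨⟨p.1.1 * (base (p.1.1 : X ⧸ V) (p.1.2 : X ⧸ V)).1⁻¹, hmem _ _ (hbase _ _ (hE p)).1⟩, (p.1.1 : X ⧸ V)⟩,
      ⟨⟨p.1.2 * (base (p.1.1 : X ⧸ V) (p.1.2 : X ⧸ V)).2⁻¹, hmem _ _ (hbase _ _ (hE p)).2.1⟩, (p.1.2 : X ⧸ V)⟩),
      by
        obtain ⟨⟨x, y⟩, hxy⟩ := p
        obtain ⟨h1, h2, h0⟩ := hbase _ _ (hE ⟨(x, y), hxy⟩)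
        have hxy' : Commute x y := hxy
        set x₀ := (base (x : X ⧸ V) (y : X ⧸ V)).1
        set y₀ := (base (x : X ⧸ V) (y : X ⧸ V)).2
        have a1 : ∀ v : V, ((φ (x : X ⧸ V) v : V) : X) = x₀ * v * x₀⁻¹ := fun v =>
          (congrArg (fun q => ((φ q v : V) : X)) h1.symm).trans (hφ x₀ v)
        have a2 : ∀ v : V, ((φ (y : X ⧸ V) v : V) : X) = y₀ * v * y₀⁻¹ := fun v =>
          (congrArg (fun q => ((φ q v : V) : X)) h2.symm).trans (hφ y₀ v)
        refine SemidirectProduct.ext (Subtype.ext ?_) ?_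
        · show (x * x₀⁻¹) * (φ (x : X ⧸ V) ⟨y * y₀⁻¹, _⟩ : ↥V) = (y * y₀⁻¹) * (φ (y : X ⧸ V) ⟨x * x₀⁻¹, _⟩ : ↥V)
          rw [a1, a2]
          show x * x₀⁻¹ * (x₀ * (y * y₀⁻¹) * x₀⁻¹) = y * y₀⁻¹ * (y₀ * (x * x₀⁻¹) * y₀⁻¹)
          rw [show x * x₀⁻¹ * (x₀ * (y * y₀⁻¹) * x₀⁻¹) = x * y * (x₀ * y₀)⁻¹ by group,
            show y * y₀⁻¹ * (y₀ * (x * x₀⁻¹) * y₀⁻¹) = y * x * (y₀ * x₀)⁻¹ by group, hxy'.eq, h0.eq]
        · show (x : X ⧸ V) * (y : X ⧸ V) = (y : X ⧸ V) * (x : X ⧸ V)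
          rw [← QuotientGroup.mk_mul, hxy'.eq, QuotientGroup.mk_mul]⟩
  refine Nat.card_le_card_of_injective f fun p q h => ?_
  have h' := congrArg Subtype.val h
  simp only [f, Prod.mk.injEq, SemidirectProduct.ext_iff, Subtype.mk.injEq] at h'
  obtain ⟨⟨e1, r1⟩, e2, r2⟩ := h'
  rw [r1, r2, mul_left_inj] at e1 e2
  exact Subtype.ext (Prod.ext e1 e2)

end Cfsg.Agent.S4965
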