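import Cfsg.Statements.S4966
import Mathlib

set_option autoImplicit false
open Cfsg

namespace Cfsg.Agent.S4966

variable {F : Type*} [Field F] {G : Type*} [Group G] [Finite G] {V : Type*} [AddCommGroup V]
  [Module F V] [FiniteDimensional F V]

/-- An invariant subspace. -/
def Inv (ρ : Representation F G V) (X : Submodule F V) : Prop := ∀ g : G, ∀ x ∈ X, ρ g x ∈ X

/-- An irreducible invariant subspace. -/
def Irr (ρ : Representation F G V) (X : Submodule F V) : Prop :=
  Inv ρ X ∧ X ≠ ⊥ ∧ ∀ Y : Submodule F V, Inv ρ Y → Y ≤ X → Y = ⊥ ∨ Y = X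

theorem exists_irr (ρ : Representation F G V) : ∀ (n : ℕ) (X : Submodule F V), Module.finrank F X ≤ n → Inv ρ X → X ≠ ⊥ →
    ∃ Y, Y ≤ X ∧ Irr ρ Y := by
  intro n
  induction n with
  | zero =>
    intro X hX _ hne
    exact absurd (Submodule.finrank_eq_zero.mp (Nat.le_zero.mp hX)) hne
  | succ n ih =>
    intro X hX hinv hne
    by_cases h : ∀ Y : Submodule F V, Inv ρ Y → Y ≤ X → Y = ⊥ ∨ Y = X
    · exact ⟨X, le_rfl, hinv, hne, h⟩
    · push Not at h
      obtain ⟨Y, hYi, hYX, hY0, hYne⟩ := h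
      have := Submodule.finrank_lt_finrank_of_lt (lt_of_le_of_ne hYX hYne)
      obtain ⟨Z, hZ, hZi⟩ := ih Y (by omega) hYi hY0
      exact ⟨Z, hZ.trans hYX, hZi⟩

omit [FiniteDimensional F V] in
theorem rho_inv_apply (ρ : Representation F G V) (g : G) (x : V) : ρ g (ρ g⁻¹ x) = x := by
  rw [← Module.End.mul_apply, ← map_mul, mul_inv_cancel, map_one, Module.End.one_apply]

/-- An equivariant projection onto an invariant subspace. -/
theorem exists_projection (ρ : Representation F G V) (hG : (Nat.card G : F) ≠ 0) (K : Submodule F V) (hK : Inv ρ K) :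
    ∃ f : V →ₗ[F] V, (∀ x, f x ∈ K) ∧ (∀ x ∈ K, f x = x) ∧ ∀ g x, f (ρ g x) = ρ g (f x) := by
  classical
  haveI := Fintype.ofFinite G
  obtain ⟨C, hC⟩ := Submodule.exists_isCompl K
  set π : V →ₗ[F] V := K.subtype ∘ₗ K.projectionOnto C hC with hπ
  have hπK : ∀ x ∈ K, π x = x := fun x hx => by
    simpa [hπ] using congrArg Subtype.val (Submodule.projectionOnto_apply_left hC ⟨x, hx⟩)
  refine ⟨(Nat.card G : F)⁻¹ • ∑ g : G, ρ g ∘ₗ π ∘ₗ ρ g⁻¹, fun x => ?_, fun x hx => ?_, fun g x => ?_⟩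
  · simp only [LinearMap.smul_apply, LinearMap.sum_apply, LinearMap.comp_apply]
    exact K.smul_mem _ (K.sum_mem fun g _ => hK g _ (Submodule.coe_mem _))
  · simp only [LinearMap.smul_apply, LinearMap.sum_apply, LinearMap.comp_apply]
    rw [Finset.sum_congr rfl fun g _ => by rw [hπK _ (hK g⁻¹ x hx), rho_inv_apply], Finset.sum_const, Finset.card_univ,
      ← Nat.card_eq_fintype_card, ← Nat.cast_smul_eq_nsmul F, smul_smul, inv_mul_cancel₀ hG, one_smul]
  · simp only [LinearMap.smul_apply, LinearMap.sum_apply, LinearMap.comp_apply, map_smul, map_sum]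
    congr 1
    refine Fintype.sum_equiv (Equiv.mulLeft g⁻¹) _ _ fun h => ?_
    simp only [Equiv.coe_mulLeft, ← Module.End.mul_apply, ← mul_assoc, ← map_mul, mul_inv_rev, inv_inv, mul_inv_cancel, one_mul]

/-- A projection for two disjoint subspaces. -/
theorem exists_proj_pair (Y Z : Submodule F V) (h : Disjoint Y Z) :
    ∃ f : V →ₗ[F] V, (∀ y ∈ Y, f y = y) ∧ ∀ z ∈ Z, f z = 0 := by
  obtain ⟨C, hC⟩ := Submodule.exists_isCompl (Y ⊔ Z)
  have hcompl : IsCompl Y (Z ⊔ C) := by
    refine ⟨?_, codisjoint_iff.mpr (by rw [← sup_assoc]; exact codisjoint_iff.mp hC.2)⟩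
    exact h.disjoint_sup_right_of_disjoint_sup_left hC.1
  refine ⟨Y.subtype ∘ₗ Y.projectionOnto _ hcompl, fun y hy => ?_, fun z hz => ?_⟩
  · simpa using congrArg Subtype.val (Submodule.projectionOnto_apply_left hcompl ⟨y, hy⟩)
  · simpa using congrArg Subtype.val ((Submodule.projectionOnto_apply_eq_zero_iff hcompl).mpr (Submodule.mem_sup_left hz))

/-- A subspace carrying an invariant nondegenerate form of the given parity. -/
def Good (ρ : Representation F G V) (P : LinearMap.BilinForm F V → Prop) (U : Submodule F V) : Prop :=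
  ∃ A : LinearMap.BilinForm F V, P A ∧ (∀ g : G, ∀ x ∈ U, ∀ y ∈ U, A (ρ g x) (ρ g y) = A x y) ∧
    ∀ x ∈ U, (∀ y ∈ U, A x y = 0) → x = 0

theorem good_sup (ρ : Representation F G V) (P : LinearMap.BilinForm F V → Prop)
    (hP : ∀ (A₁ A₂ : LinearMap.BilinForm F V) (f₁ f₂ : V →ₗ[F] V), P A₁ → P A₂ → P (A₁.compl₁₂ f₁ f₁ + A₂.compl₁₂ f₂ f₂))
    (U₁ U₂ : Submodule F V) (h₁ : Inv ρ U₁) (h₂ : Inv ρ U₂) (hd : Disjoint U₁ U₂) (g₁ : Good ρ P U₁) (g₂ : Good ρ P U₂) :
    Good ρ P (U₁ ⊔ U₂) := by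
  obtain ⟨A₁, p₁, i₁, n₁⟩ := g₁
  obtain ⟨A₂, p₂, i₂, n₂⟩ := g₂
  obtain ⟨f₁, a₁, b₁⟩ := exists_proj_pair U₁ U₂ hd
  obtain ⟨f₂, a₂, b₂⟩ := exists_proj_pair U₂ U₁ hd.symm
  refine ⟨_, hP A₁ A₂ f₁ f₂ p₁ p₂, ?_, ?_⟩
  · intro g x hx y hy
    obtain ⟨x₁, hx₁, x₂, hx₂, rfl⟩ := Submodule.mem_sup.mp hx
    obtain ⟨y₁, hy₁, y₂, hy₂, rfl⟩ := Submodule.mem_sup.mp hy
    simp only [LinearMap.add_apply, LinearMap.compl₁₂_apply, map_add, a₁ _ hx₁, a₁ _ hy₁, b₁ _ hx₂, b₁ _ hy₂,
      a₂ _ hx₂, a₂ _ hy₂, b₂ _ hx₁, b₂ _ hy₁, a₁ _ (h₁ g _ hx₁), a₁ _ (h₁ g _ hy₁), b₁ _ (h₂ g _ hx₂),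
      b₁ _ (h₂ g _ hy₂), a₂ _ (h₂ g _ hx₂), a₂ _ (h₂ g _ hy₂), b₂ _ (h₁ g _ hx₁), b₂ _ (h₁ g _ hy₁), add_zero, zero_add,
      i₁ g _ hx₁ _ hy₁, i₂ g _ hx₂ _ hy₂, LinearMap.zero_apply, map_zero]
  · intro x hx hzero
    obtain ⟨x₁, hx₁, x₂, hx₂, rfl⟩ := Submodule.mem_sup.mp hx
    have e₁ : x₁ = 0 := n₁ x₁ hx₁ fun y hy => by
      have := hzero y (Submodule.mem_sup_left hy)
      simpa only [LinearMap.add_apply, LinearMap.compl₁₂_apply, map_add, a₁ _ hx₁, b₁ _ hx₂, a₁ _ hy, b₂ _ hy,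
        LinearMap.zero_apply, add_zero, zero_add, map_zero] using this
    have e₂ : x₂ = 0 := n₂ x₂ hx₂ fun y hy => by
      have := hzero y (Submodule.mem_sup_right hy)
      simpa only [LinearMap.add_apply, LinearMap.compl₁₂_apply, map_add, b₁ _ hy, a₂ _ hx₂, b₂ _ hx₁, a₂ _ hy,
        LinearMap.zero_apply, add_zero, zero_add, map_zero] using this
    rw [e₁, e₂, add_zero]

/-- The right kernel is trivial. -/
def RNondeg (B : LinearMap.BilinForm F V) (X : Submodule F V) : Prop :=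
  ∀ y ∈ X, (∀ x ∈ X, B x y = 0) → y = 0

/-- The orthogonal complement of a nondegenerate invariant subspace. -/
theorem exists_orth (ρ : Representation F G V) (B : LinearMap.BilinForm F V) (hBinv : ∀ g : G, ∀ x y : V, B (ρ g x) (ρ g y) = B x y)
    (X Y : Submodule F V) (hX : Inv ρ X) (hY : Inv ρ Y) (hYX : Y ≤ X) (hXn : RNondeg B X) (hYn : RNondeg B Y) :
    ∃ Z, Inv ρ Z ∧ RNondeg B Z ∧ Disjoint Y Z ∧ Y ⊔ Z = X := by
  let Z : Submodule F V :=
    { carrier := {x | x ∈ X ∧ ∀ s ∈ Y, B s x = 0}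
      add_mem' := fun {a b} ha hb => ⟨X.add_mem ha.1 hb.1, fun s hs => by rw [map_add, ha.2 s hs, hb.2 s hs, add_zero]⟩
      zero_mem' := ⟨X.zero_mem, fun s _ => map_zero _⟩
      smul_mem' := fun c a ha => ⟨X.smul_mem c ha.1, fun s hs => by rw [map_smul, ha.2 s hs, smul_zero]⟩ }
  have hsup : Y ⊔ Z = X := by
    refine le_antisymm (sup_le hYX fun x hx => hx.1) fun x hx => ?_
    let L : Y →ₗ[F] Module.Dual F Y :=
      LinearMap.mk₂ F (fun (a b : Y) => B (b : V) (a : V)) (fun a a' b => by simp) (fun c a b => by simp)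
        (fun a b b' => by simp) (fun c a b => by simp)
    have hinj : Function.Injective L := by
      rw [injective_iff_map_eq_zero]
      intro a ha
      exact Subtype.ext (hYn a a.2 fun b hb => LinearMap.congr_fun ha ⟨b, hb⟩)
    have hsurj : Function.Surjective L :=
      (LinearMap.injective_iff_surjective_of_finrank_eq_finrank Subspace.dual_finrank_eq.symm).mp hinj
    obtain ⟨a, ha⟩ := hsurj ((B.flip x).comp Y.subtype)
    have : x - a ∈ Z := ⟨X.sub_mem hx (hYX a.2), fun s hs => by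
      have h1 : B s (a : V) = B s x := LinearMap.congr_fun ha ⟨s, hs⟩
      rw [map_sub, h1, sub_self]⟩
    exact Submodule.mem_sup.mpr ⟨a, a.2, _, this, by abel⟩
  refine ⟨Z, fun g x hx => ⟨hX g x hx.1, fun s hs => ?_⟩, fun y hy hzero => ?_, ?_, hsup⟩
  · rw [← rho_inv_apply ρ g s, hBinv]
    exact hx.2 _ (hY g⁻¹ s hs)
  · refine hXn y hy.1 fun x hx => ?_
    rw [← hsup] at hx
    obtain ⟨a, ha, b, hb, rfl⟩ := Submodule.mem_sup.mp hx
    rw [map_add, LinearMap.add_apply, hy.2 a ha, hzero b hb, add_zero]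
  · exact Submodule.disjoint_def.mpr fun y hy hy' => hYn y hy fun x hx => hy'.2 x hx

/-- The left kernel on an irreducible subspace. -/
theorem left_zero (ρ : Representation F G V) (B : LinearMap.BilinForm F V) (hBinv : ∀ g : G, ∀ x y : V, B (ρ g x) (ρ g y) = B x y)
    (S T : Submodule F V) (hS : Irr ρ S) (hT : Inv ρ T) (hne : ¬ ∀ s ∈ S, ∀ t ∈ T, B s t = 0) :
    ∀ s ∈ S, (∀ t ∈ T, B s t = 0) → s = 0 := by
  let K : Submodule F V :=
    { carrier := {x | x ∈ S ∧ ∀ t ∈ T, B x t = 0}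
      add_mem' := fun {a b} ha hb => ⟨S.add_mem ha.1 hb.1, fun t ht => by
        rw [map_add, LinearMap.add_apply, ha.2 t ht, hb.2 t ht, add_zero]⟩
      zero_mem' := ⟨S.zero_mem, fun t _ => by rw [map_zero, LinearMap.zero_apply]⟩
      smul_mem' := fun c a ha => ⟨S.smul_mem c ha.1, fun t ht => by
        rw [map_smul, LinearMap.smul_apply, ha.2 t ht, smul_zero]⟩ }
  have hKi : Inv ρ K := fun g x hx => ⟨hS.1 g x hx.1, fun t ht => by
    rw [← rho_inv_apply ρ g t, hBinv]; exact hx.2 _ (hT g⁻¹ t ht)⟩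
  intro s hs h
  rcases hS.2.2 K hKi (fun x hx => hx.1) with e | e
  · have : s ∈ K := ⟨hs, h⟩
    rw [e, Submodule.mem_bot] at this
    exact this
  · exact absurd (fun x hx t ht => ((e.symm ▸ hx : x ∈ K)).2 t ht) hne

/-- Let F be a finite field of characteristic p, G a finite group of order prime to p, and V a finite-dimensional representation of G over F carrying a nondegenerate G-invariant bilinear form (equivalently, V is self-dual). Then V is the direct sum of two G-invariant subspaces U and W such that U carries a G-invariant alternating bilinear form that is nondegenerate on U and W carries a G-invariant symmetric bilinear form that is nondegenerate on W; moreover when p = 2 the decomposition can be chosen with G acting trivially on W. -/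
theorem result {F : Type*} [Field F] [Fintype F] (p : ℕ) [Fact p.Prime] [CharP F p] {G : Type*} [Group G] [Finite G] (hcop : ¬ p ∣ Nat.card G) {V : Type*} [AddCommGroup V] [Module F V] [FiniteDimensional F V] (ρ : Representation F G V) (B : LinearMap.BilinForm F V) (hB : B.Nondegenerate) (hBinv : ∀ g : G, ∀ x y : V, B (ρ g x) (ρ g y) = B x y) : ∃ U W : Submodule F V, IsCompl U W ∧ (∀ g : G, ∀ u ∈ U, ρ g u ∈ U) ∧ (∀ g : G, ∀ w ∈ W, ρ g w ∈ W) ∧ (∃ A : LinearMap.BilinForm F V, (∀ x : V, A x x = 0) ∧ (∀ g : G, ∀ x ∈ U, ∀ y ∈ U, A (ρ g x) (ρ g y) = A x y) ∧ (∀ x ∈ U, (∀ y ∈ U, A x y = 0) → x = 0)) ∧ (∃ S : LinearMap.BilinForm F V, (∀ x y : V, S x y = S y x) ∧ (∀ g : G, ∀ x ∈ W, ∀ y ∈ W, S (ρ g x) (ρ g y) = S x y) ∧ (∀ x ∈ W, (∀ y ∈ W, S x y = 0) → x = 0)) ∧ (p = 2 → ∀ g : G, ∀ w ∈ W, ρ g w = w) := by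
  classical
  have hG : (Nat.card G : F) ≠ 0 := fun h => hcop ((CharP.cast_eq_zero_iff F p _).mp h)
  have hflip : ∀ g : G, ∀ x y : V, B.flip (ρ g x) (ρ g y) = B.flip x y := fun g x y => hBinv g y x
  let Alt : LinearMap.BilinForm F V → Prop := fun A => ∀ x, A x x = 0
  let Sym : LinearMap.BilinForm F V → Prop := fun A => ∀ x y, A x y = A y x
  let Triv : Submodule F V → Prop := fun W => p = 2 → ∀ g : G, ∀ w ∈ W, ρ g w = w
  have hPalt : ∀ (A₁ A₂ : LinearMap.BilinForm F V) (f₁ f₂ : V →ₗ[F] V), Alt A₁ → Alt A₂ → Alt (A₁.compl₁₂ f₁ f₁ + A₂.compl₁₂ f₂ f₂) :=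
    fun A₁ A₂ f₁ f₂ h₁ h₂ x => by simp [LinearMap.compl₁₂_apply, h₁ (f₁ x), h₂ (f₂ x)]
  have hPsym : ∀ (A₁ A₂ : LinearMap.BilinForm F V) (f₁ f₂ : V →ₗ[F] V), Sym A₁ → Sym A₂ → Sym (A₁.compl₁₂ f₁ f₁ + A₂.compl₁₂ f₂ f₂) :=
    fun A₁ A₂ f₁ f₂ h₁ h₂ x y => by simp [LinearMap.compl₁₂_apply, h₁ (f₁ x) (f₁ y), h₂ (f₂ x) (f₂ y)]
  -- one orthogonal summand
  have hpiece : ∀ X : Submodule F V, Inv ρ X → X ≠ ⊥ → RNondeg B X → ∃ Y ≤ X, Inv ρ Y ∧ Y ≠ ⊥ ∧ RNondeg B Y ∧
      (Good ρ Alt Y ∨ (Good ρ Sym Y ∧ Triv Y)) := by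
    intro X hX hX0 hXn
    by_cases hex : ∃ S ≤ X, Irr ρ S ∧ ¬ ∀ s ∈ S, ∀ t ∈ S, B s t = 0
    · obtain ⟨S, hSX, hS, hne⟩ := hex
      have hne' : ¬ ∀ s ∈ S, ∀ t ∈ S, B.flip s t = 0 := fun h => hne fun s hs t ht => h t ht s hs
      refine ⟨S, hSX, hS.1, hS.2.1, fun y hy h => left_zero ρ B.flip hflip S S hS hS.1 hne' y hy h, ?_⟩
      have hAinv : ∀ g : G, ∀ x y : V, (B + B.flip) (ρ g x) (ρ g y) = (B + B.flip) x y := fun g x y => by
        simp only [LinearMap.add_apply, hflip, hBinv]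
      by_cases hp2 : p = 2
      · have h2 : (2 : F) = 0 := by
          have h : ((2 : ℕ) : F) = 0 := (CharP.cast_eq_zero_iff F p 2).mpr hp2.dvd
          exact_mod_cast h
        by_cases h0 : ∀ s ∈ S, ∀ t ∈ S, (B + B.flip) s t = 0
        · have hsym : ∀ s ∈ S, ∀ t ∈ S, B s t = B t s := fun s hs t ht => by
            have h := h0 s hs t ht
            simp only [LinearMap.add_apply, LinearMap.BilinForm.flip_apply, LinearMap.flip_apply] at h
            linear_combination h - B t s * h2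
          let L : Submodule F V :=
            { carrier := {x | x ∈ S ∧ B x x = 0}
              add_mem' := fun {a b} ha hb => ⟨S.add_mem ha.1 hb.1, by
                simp only [map_add, LinearMap.add_apply, ha.2, hb.2, hsym b hb.1 a ha.1]
                linear_combination B a b * h2⟩
              zero_mem' := ⟨S.zero_mem, by simp⟩
              smul_mem' := fun c a ha => ⟨S.smul_mem c ha.1, by simp [ha.2]⟩ }
          rcases hS.2.2 L (fun g x hx => ⟨hS.1 g x hx.1, by rw [hBinv]; exact hx.2⟩) (fun x hx => hx.1) with e | e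
          · refine Or.inr ⟨?_, fun _ g w hw => ?_⟩
            · obtain ⟨f, hfS, hf, -⟩ := exists_projection ρ hG S hS.1
              refine ⟨B.compl₁₂ f f, fun x y => hsym _ (hfS x) _ (hfS y), fun g x hx y hy => ?_, fun x hx h => ?_⟩
              · simp only [LinearMap.compl₁₂_apply, hf _ hx, hf _ hy, hf _ (hS.1 g x hx), hf _ (hS.1 g y hy), hBinv]
              · refine left_zero ρ B hBinv S S hS hS.1 hne x hx fun t ht => ?_
                have := h t ht
                rwa [LinearMap.compl₁₂_apply, hf _ hx, hf _ ht] at this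
            · have hmem : ρ g w - w ∈ L := ⟨S.sub_mem (hS.1 g w hw) hw, by
                simp only [map_sub, LinearMap.sub_apply, hsym w hw _ (hS.1 g w hw)]
                rw [hBinv g w w]
                linear_combination (B w w - B (ρ g w) w) * h2⟩
              rw [e, Submodule.mem_bot, sub_eq_zero] at hmem
              exact hmem
          · obtain ⟨f, hfS, hf, -⟩ := exists_projection ρ hG S hS.1
            refine Or.inl ⟨B.compl₁₂ f f, fun x => ((e.symm ▸ hfS x : f x ∈ L)).2, fun g x hx y hy => ?_, fun x hx h => ?_⟩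
            · simp only [LinearMap.compl₁₂_apply, hf _ hx, hf _ hy, hf _ (hS.1 g x hx), hf _ (hS.1 g y hy), hBinv]
            · refine left_zero ρ B hBinv S S hS hS.1 hne x hx fun t ht => ?_
              have := h t ht
              rwa [LinearMap.compl₁₂_apply, hf _ hx, hf _ ht] at this
        · refine Or.inl ⟨B + B.flip, fun x => ?_, fun g x _ y _ => hAinv g x y, fun x hx h =>
            left_zero ρ _ hAinv S S hS hS.1 h0 x hx h⟩
          simp only [LinearMap.add_apply, LinearMap.BilinForm.flip_apply, LinearMap.flip_apply]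
          linear_combination B x x * h2
      · have h2 : (2 : F) ≠ 0 := fun h => hp2 (by
          have h' : ((2 : ℕ) : F) = 0 := by exact_mod_cast h
          exact (Nat.prime_dvd_prime_iff_eq (Fact.out : p.Prime) Nat.prime_two).mp ((CharP.cast_eq_zero_iff F p 2).mp h'))
        by_cases h0 : ∀ s ∈ S, ∀ t ∈ S, (B + B.flip) s t = 0
        · obtain ⟨f, hfS, hf, -⟩ := exists_projection ρ hG S hS.1
          refine Or.inl ⟨B.compl₁₂ f f, fun x => ?_, fun g x hx y hy => ?_, fun x hx h => ?_⟩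
          · have h := h0 _ (hfS x) _ (hfS x)
            simp only [LinearMap.add_apply, LinearMap.BilinForm.flip_apply, LinearMap.flip_apply, ← two_mul, mul_eq_zero, h2, false_or] at h
            exact h
          · simp only [LinearMap.compl₁₂_apply, hf _ hx, hf _ hy, hf _ (hS.1 g x hx), hf _ (hS.1 g y hy), hBinv]
          · refine left_zero ρ B hBinv S S hS hS.1 hne x hx fun t ht => ?_
            have := h t ht
            rwa [LinearMap.compl₁₂_apply, hf _ hx, hf _ ht] at this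
        · exact Or.inr ⟨⟨B + B.flip, fun x y => by simp [add_comm], fun g x _ y _ => hAinv g x y, fun x hx h =>
            left_zero ρ _ hAinv S S hS hS.1 h0 x hx h⟩, fun h => absurd h hp2⟩
    · push Not at hex
      obtain ⟨S, hSX, hS⟩ := exists_irr ρ _ X le_rfl hX hX0
      obtain ⟨s₀, hs₀, hs₀'⟩ := Submodule.exists_mem_ne_zero_of_ne_bot hS.2.1
      -- a partner not orthogonal on one side
      have hside : ∀ C : LinearMap.BilinForm F V, (∀ g : G, ∀ x y : V, C (ρ g x) (ρ g y) = C x y) →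
          (∃ x ∈ X, C s₀ x ≠ 0) → ∃ T ≤ X, Irr ρ T ∧ ¬ ∀ s ∈ S, ∀ t ∈ T, C s t = 0 := by
        intro C hC hx
        obtain ⟨x, hx, hx0⟩ := hx
        let K : Submodule F V :=
          { carrier := {y | ∀ s ∈ S, C s y = 0}
            add_mem' := fun {a b} ha hb s hs => by rw [map_add, ha s hs, hb s hs, add_zero]
            zero_mem' := fun s _ => map_zero _
            smul_mem' := fun c a ha s hs => by rw [map_smul, ha s hs, smul_zero] }
        have hKi : Inv ρ K := fun g y hy s hs => by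
          rw [← rho_inv_apply ρ g s, hC]; exact hy _ (hS.1 g⁻¹ s hs)
        have hXK : Inv ρ (X ⊓ K) := fun g y hy => ⟨hX g y hy.1, hKi g y hy.2⟩
        obtain ⟨f, hfm, hf, hfe⟩ := exists_projection ρ hG (X ⊓ K) hXK
        have hCi : Inv ρ (X ⊓ LinearMap.ker f) := fun g y hy => ⟨hX g y hy.1, by
          show f (ρ g y) = 0
          rw [hfe, show f y = 0 from hy.2, map_zero]⟩
        have hne : X ⊓ LinearMap.ker f ≠ ⊥ := by
          intro e
          have h1 : x - f x ∈ X ⊓ LinearMap.ker f := ⟨X.sub_mem hx (hfm x).1, by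
            show f (x - f x) = 0
            rw [map_sub, hf _ (hfm x), sub_self]⟩
          rw [e, Submodule.mem_bot, sub_eq_zero] at h1
          exact hx0 (h1 ▸ (hfm x).2 s₀ hs₀)
        obtain ⟨T, hTle, hT⟩ := exists_irr ρ _ _ le_rfl hCi hne
        refine ⟨T, hTle.trans inf_le_left, hT, fun h => ?_⟩
        obtain ⟨t, ht, ht0⟩ := Submodule.exists_mem_ne_zero_of_ne_bot hT.2.1
        have h1 : f t = t := hf t ⟨(hTle ht).1, fun s hs => h s hs t ht⟩
        exact ht0 (h1.symm.trans (LinearMap.mem_ker.mp (hTle ht).2))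
      have hXl : ∃ x ∈ X, B s₀ x ≠ 0 := by
        by_contra h
        push Not at h
        have hinj : Function.Injective (LinearMap.mk₂ F (fun (a b : X) => B (b : V) (a : V)) (fun a a' b => by simp)
            (fun c a b => by simp) (fun a b b' => by simp) (fun c a b => by simp)) := by
          rw [injective_iff_map_eq_zero]
          intro a ha
          exact Subtype.ext (hXn a a.2 fun b hb => LinearMap.congr_fun ha ⟨b, hb⟩)
        have hsurj := (LinearMap.injective_iff_surjective_of_finrank_eq_finrank Subspace.dual_finrank_eq.symm).mp hinj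
        have h1 : ∀ φ : Module.Dual F X, φ ⟨s₀, hSX hs₀⟩ = 0 := fun φ => by
          obtain ⟨a, rfl⟩ := hsurj φ
          exact h a a.2
        exact hs₀' (congrArg Subtype.val ((Module.forall_dual_apply_eq_zero_iff F (⟨s₀, hSX hs₀⟩ : X)).mp h1))
      have hXr : ∃ x ∈ X, B.flip s₀ x ≠ 0 := by
        by_contra h
        push Not at h
        exact hs₀' (hXn s₀ (hSX hs₀) fun x hx => h x hx)
      obtain ⟨T, hTX, hT, hST, hTS⟩ : ∃ T ≤ X, Irr ρ T ∧ (¬ ∀ s ∈ S, ∀ t ∈ T, B s t = 0) ∧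
          ¬ ∀ t ∈ T, ∀ s ∈ S, B t s = 0 := by
        obtain ⟨T₁, hT₁X, hT₁, h₁⟩ := hside B hBinv hXl
        obtain ⟨T₂, hT₂X, hT₂, h₂⟩ := hside B.flip hflip hXr
        by_cases c₁ : ∀ t ∈ T₁, ∀ s ∈ S, B t s = 0
        swap
        · exact ⟨T₁, hT₁X, hT₁, h₁, c₁⟩
        by_cases c₂ : ∀ s ∈ S, ∀ t ∈ T₂, B s t = 0
        swap
        · exact ⟨T₂, hT₂X, hT₂, c₂, fun h => h₂ fun s hs t ht => h t ht s hs⟩
        -- the two partners are isomorphic; take the diagonal
        let m₁ : T₁ →ₗ[F] Module.Dual F S := LinearMap.mk₂ F (fun (t : T₁) (s : S) => B (s : V) (t : V))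
          (fun a a' b => by simp) (fun c a b => by simp) (fun a b b' => by simp) (fun c a b => by simp)
        let m₂ : T₂ →ₗ[F] Module.Dual F S := LinearMap.mk₂ F (fun (t : T₂) (s : S) => B (t : V) (s : V))
          (fun a a' b => by simp) (fun c a b => by simp) (fun a b b' => by simp) (fun c a b => by simp)
        have h₁' : ¬ ∀ t ∈ T₁, ∀ s ∈ S, B.flip t s = 0 := fun h => h₁ fun s hs t ht => h t ht s hs
        have h₂' : ¬ ∀ t ∈ T₂, ∀ s ∈ S, B t s = 0 := fun h => h₂ fun s hs t ht => h t ht s hs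
        have i₁ : Function.Injective m₁ := by
          rw [injective_iff_map_eq_zero]
          exact fun a ha => Subtype.ext (left_zero ρ B.flip hflip T₁ S hT₁ hS.1 h₁' a a.2 fun s hs => LinearMap.congr_fun ha ⟨s, hs⟩)
        have i₂ : Function.Injective m₂ := by
          rw [injective_iff_map_eq_zero]
          exact fun a ha => Subtype.ext (left_zero ρ B hBinv T₂ S hT₂ hS.1 h₂' a a.2 fun s hs => LinearMap.congr_fun ha ⟨s, hs⟩)
        have d₂ : Module.finrank F T₂ = Module.finrank F (Module.Dual F S) := by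
          refine le_antisymm (LinearMap.finrank_le_finrank_of_injective i₂) ?_
          rw [Subspace.dual_finrank_eq, ← Subspace.dual_finrank_eq (K := F) (V := T₂)]
          refine LinearMap.finrank_le_finrank_of_injective (f := LinearMap.mk₂ F (fun (s : S) (t : T₂) => B (t : V) (s : V))
            (fun a a' b => by simp) (fun c a b => by simp) (fun a b b' => by simp) (fun c a b => by simp)) ?_
          rw [injective_iff_map_eq_zero]
          exact fun a ha => Subtype.ext (left_zero ρ B.flip hflip S T₂ hS hT₂.1 h₂ a a.2 fun t ht => LinearMap.congr_fun ha ⟨t, ht⟩)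
        let e₂ := LinearEquiv.ofBijective m₂ ⟨i₂, (LinearMap.injective_iff_surjective_of_finrank_eq_finrank d₂).mp i₂⟩
        let φ : T₁ →ₗ[F] T₂ := e₂.symm.toLinearMap ∘ₗ m₁
        have hφ : ∀ (t : T₁), ∀ s ∈ S, B (φ t : V) s = B s (t : V) := fun t s hs =>
          LinearMap.congr_fun (e₂.apply_symm_apply (m₁ t)) ⟨s, hs⟩
        have hφe : ∀ g (t : T₁), (φ ⟨ρ g t, hT₁.1 g t t.2⟩ : V) = ρ g (φ t : V) := by
          intro g t
          refine sub_eq_zero.mp (left_zero ρ B hBinv T₂ S hT₂ hS.1 h₂' _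
            (T₂.sub_mem (Submodule.coe_mem _) (hT₂.1 g _ (Submodule.coe_mem _))) fun s hs => ?_)
          rw [map_sub, LinearMap.sub_apply, hφ _ s hs, ← rho_inv_apply ρ g s, hBinv, hBinv,
            hφ t _ (hS.1 g⁻¹ s hs), sub_self]
        let T₃ : Submodule F V := LinearMap.range (T₁.subtype + T₂.subtype ∘ₗ φ)
        have hval : ∀ t : T₁, ∀ s ∈ S, B s ((t : V) + φ t) = B s (t : V) := fun t s hs => by
          rw [map_add, c₂ s hs _ (φ t).2, add_zero]
        have hval' : ∀ t : T₁, ∀ s ∈ S, B ((t : V) + φ t) s = B s (t : V) := fun t s hs => by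
          rw [map_add, LinearMap.add_apply, c₁ _ t.2 s hs, zero_add, hφ t s hs]
        refine ⟨T₃, ?_, ⟨?_, ?_, ?_⟩, ?_, ?_⟩
        · rintro _ ⟨t, rfl⟩
          exact X.add_mem (hT₁X t.2) (hT₂X (φ t).2)
        · rintro g _ ⟨t, rfl⟩
          exact ⟨⟨ρ g t, hT₁.1 g t t.2⟩, by simp [hφe g t]⟩
        · intro e
          refine h₁ fun s hs t ht => ?_
          have h : ((⟨t, ht⟩ : T₁) : V) + φ ⟨t, ht⟩ ∈ T₃ := ⟨⟨t, ht⟩, rfl⟩
          rw [e, Submodule.mem_bot] at h
          rw [← hval ⟨t, ht⟩ s hs, h, map_zero]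
        · intro Y hY hYle
          let P : Submodule F V := (Y.comap (T₁.subtype + T₂.subtype ∘ₗ φ)).map T₁.subtype
          have hPi : Inv ρ P := by
            rintro g _ ⟨t, ht, rfl⟩
            refine ⟨⟨ρ g t, hT₁.1 g t t.2⟩, ?_, rfl⟩
            have := hY g _ ht
            simpa [hφe g t] using this
          rcases hT₁.2.2 P hPi (by rintro _ ⟨t, -, rfl⟩; exact t.2) with e | e
          · refine Or.inl (Submodule.eq_bot_iff _ |>.mpr fun y hy => ?_)
            obtain ⟨t, rfl⟩ := hYle hy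
            have : (t : V) ∈ P := ⟨t, hy, rfl⟩
            rw [e, Submodule.mem_bot] at this
            rw [Submodule.coe_eq_zero.mp this, map_zero]
          · refine Or.inr (le_antisymm hYle ?_)
            rintro _ ⟨t, rfl⟩
            obtain ⟨t', ht', h⟩ := (e.symm ▸ t.2 : (t : V) ∈ P)
            rw [← Subtype.ext (h : (t' : V) = t)]
            exact ht'
        · intro h
          refine h₁ fun s hs t ht => ?_
          rw [← hval ⟨t, ht⟩ s hs]
          exact h s hs _ ⟨⟨t, ht⟩, rfl⟩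
        · intro h
          refine h₁ fun s hs t ht => ?_
          rw [← hval' ⟨t, ht⟩ s hs]
          exact h _ ⟨⟨t, ht⟩, rfl⟩ s hs
      have hSiso : ∀ s ∈ S, ∀ t ∈ S, B s t = 0 := fun s hs t ht => hex S hSX hS s hs t ht
      have hTiso : ∀ s ∈ T, ∀ t ∈ T, B s t = 0 := fun s hs t ht => hex T hTX hT s hs t ht
      have hd : Disjoint S T := by
        rw [Submodule.disjoint_def]
        intro x hxS hxT
        exact left_zero ρ B hBinv S T hS hT.1 hST x hxS fun t ht => hTiso x hxT t ht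
      obtain ⟨fS, aS, bS⟩ := exists_proj_pair S T hd
      obtain ⟨fT, aT, bT⟩ := exists_proj_pair T S hd.symm
      have hn : RNondeg B (S ⊔ T) := by
        intro y hy h
        obtain ⟨a, ha, b, hb, rfl⟩ := Submodule.mem_sup.mp hy
        have e1 : b = 0 := left_zero ρ B.flip hflip T S hT hS.1 (fun h => hST fun s hs t ht => h t ht s hs) b hb fun s hs => by
          have := h s (Submodule.mem_sup_left hs)
          rwa [map_add, hSiso s hs a ha, zero_add] at this
        have e2 : a = 0 := left_zero ρ B.flip hflip S T hS hT.1 (fun h => hTS fun t ht s hs => h s hs t ht) a ha fun t ht => by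
          have := h t (Submodule.mem_sup_right ht)
          rwa [map_add, hTiso t ht b hb, add_zero] at this
        rw [e1, e2, add_zero]
      have hSTi : Inv ρ (S ⊔ T) := fun g x hx => by
        obtain ⟨a, ha, b, hb, rfl⟩ := Submodule.mem_sup.mp hx
        rw [map_add]; exact Submodule.add_mem_sup (hS.1 g a ha) (hT.1 g b hb)
      refine ⟨S ⊔ T, sup_le hSX hTX, hSTi, fun e => hS.2.1 (eq_bot_iff.mpr (le_sup_left.trans e.le)), hn, Or.inl
        ⟨B.compl₁₂ fS fT - (B.compl₁₂ fS fT).flip, fun x => ?_, fun g x hx y hy => ?_, fun x hx h => ?_⟩⟩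
      · simp
      · obtain ⟨a, ha, b, hb, rfl⟩ := Submodule.mem_sup.mp hx
        obtain ⟨a', ha', b', hb', rfl⟩ := Submodule.mem_sup.mp hy
        simp only [LinearMap.sub_apply, LinearMap.add_apply, LinearMap.zero_apply, map_zero, sub_zero, zero_sub, LinearMap.BilinForm.flip_apply, LinearMap.flip_apply, LinearMap.compl₁₂_apply, map_add, aS _ ha, bS _ hb, aS _ ha',
          bS _ hb', aT _ hb, bT _ ha, aT _ hb', bT _ ha', aS _ (hS.1 g _ ha), aS _ (hS.1 g _ ha'), bS _ (hT.1 g _ hb),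
          bS _ (hT.1 g _ hb'), aT _ (hT.1 g _ hb), aT _ (hT.1 g _ hb'), bT _ (hS.1 g _ ha), bT _ (hS.1 g _ ha'),
          add_zero, zero_add, hBinv]
      · obtain ⟨a, ha, b, hb, rfl⟩ := Submodule.mem_sup.mp hx
        have e1 : a = 0 := left_zero ρ B hBinv S T hS hT.1 hST a ha fun t ht => by
          have := h t (Submodule.mem_sup_right ht)
          simpa only [LinearMap.sub_apply, LinearMap.add_apply, LinearMap.zero_apply, map_zero, sub_zero, zero_sub, neg_zero, LinearMap.BilinForm.flip_apply, LinearMap.flip_apply, LinearMap.compl₁₂_apply, map_add, aS _ ha, bS _ hb,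
            bS _ ht, aT _ ht, map_zero, LinearMap.zero_apply, add_zero, sub_zero] using this
        have e2 : b = 0 := left_zero ρ B.flip hflip T S hT hS.1 (fun h => hST fun s hs t ht => h t ht s hs) b hb fun s hs => by
          have := h s (Submodule.mem_sup_left hs)
          simpa only [LinearMap.sub_apply, LinearMap.add_apply, LinearMap.zero_apply, map_zero, sub_zero, zero_sub, neg_zero, LinearMap.BilinForm.flip_apply, LinearMap.flip_apply, LinearMap.compl₁₂_apply, map_add, bT _ ha, aT _ hb,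
            aS _ hs, bT _ hs, map_zero, zero_sub, zero_add, neg_eq_zero] using this
        rw [e1, e2, add_zero]
  -- induction
  have key : ∀ (n : ℕ) (X : Submodule F V), Module.finrank F X ≤ n → Inv ρ X → RNondeg B X →
      ∃ U W : Submodule F V, Inv ρ U ∧ Inv ρ W ∧ Disjoint U W ∧ U ⊔ W = X ∧ Good ρ Alt U ∧ Good ρ Sym W ∧ Triv W := by
    intro n
    induction n using Nat.strong_induction_on with
    | _ n ih =>
      intro X hn hX hXn
      by_cases hX0 : X = ⊥
      · refine ⟨⊥, ⊥, ?_, ?_, disjoint_bot_left, by rw [sup_idem, hX0], ⟨0, fun x => rfl, fun g x _ y _ => rfl, ?_⟩,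
          ⟨0, fun x y => rfl, fun g x _ y _ => rfl, ?_⟩, fun _ g w hw => by
            rw [(Submodule.mem_bot F).mp hw, map_zero]⟩
        · exact fun g x hx => by rw [(Submodule.mem_bot F).mp hx, map_zero]; exact Submodule.zero_mem _
        · exact fun g x hx => by rw [(Submodule.mem_bot F).mp hx, map_zero]; exact Submodule.zero_mem _
        · exact fun x hx _ => (Submodule.mem_bot F).mp hx
        · exact fun x hx _ => (Submodule.mem_bot F).mp hx
      obtain ⟨Y, hYX, hYi, hY0, hYn, hgood⟩ := hpiece X hX hX0 hXn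
      obtain ⟨Z, hZi, hZn, hd, hsup⟩ := exists_orth ρ B hBinv X Y hX hYi hYX hXn hYn
      have hlt : Module.finrank F Z < Module.finrank F X := by
        refine Submodule.finrank_lt_finrank_of_lt (lt_of_le_of_ne (le_sup_right.trans hsup.le) fun e => hY0 ?_)
        rw [e] at hd
        exact disjoint_self.mp (hd.mono_right hYX)
      obtain ⟨U, W, hU, hW, hUW, hUWZ, gU, gW, tW⟩ := ih (Module.finrank F Z) (by omega) Z le_rfl hZi hZn
      have hUZ : U ≤ Z := le_sup_left.trans hUWZ.le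
      have hWZ : W ≤ Z := le_sup_right.trans hUWZ.le
      rcases hgood with gY | ⟨gY, tY⟩
      · refine ⟨Y ⊔ U, W, fun g x hx => ?_, hW, ?_, by rw [sup_assoc, hUWZ, hsup],
          good_sup ρ Alt hPalt Y U hYi hU (hd.mono_right hUZ) gY gU, gW, tW⟩
        · obtain ⟨a, ha, b, hb, rfl⟩ := Submodule.mem_sup.mp hx
          rw [map_add]; exact Submodule.add_mem_sup (hYi g a ha) (hU g b hb)
        · exact hUW.disjoint_sup_left_of_disjoint_sup_right (hUWZ.symm ▸ hd)
      · refine ⟨U, Y ⊔ W, hU, fun g x hx => ?_, ?_, by rw [sup_left_comm, hUWZ, hsup], gU,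
          good_sup ρ Sym hPsym Y W hYi hW (hd.mono_right hWZ) gY gW, fun h2 g w hw => ?_⟩
        · obtain ⟨a, ha, b, hb, rfl⟩ := Submodule.mem_sup.mp hx
          rw [map_add]; exact Submodule.add_mem_sup (hYi g a ha) (hW g b hb)
        · rw [sup_comm Y W]
          exact hUW.disjoint_sup_right_of_disjoint_sup_left (hUWZ.symm ▸ hd.symm)
        · obtain ⟨a, ha, b, hb, rfl⟩ := Submodule.mem_sup.mp hw
          rw [map_add, tY h2 g a ha, tW h2 g b hb]
  obtain ⟨U, W, hU, hW, hd, hsup, gU, gW, tW⟩ := key _ ⊤ le_rfl (fun _ _ _ => Submodule.mem_top)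
    (fun y _ h => hB.2 y fun x => h x Submodule.mem_top)
  exact ⟨U, W, ⟨hd, codisjoint_iff.mpr hsup⟩, hU, hW, gU, gW, tW⟩

end Cfsg.Agent.S4966
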