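import Cfsg.Statements.S4967
import Mathlib

set_option autoImplicit false
set_option linter.style.haveILetI false
open Cfsg

namespace Cfsg.Agent.S4967

/-- An involutive non-trivial automorphism of a finite extension is a power of Frobenius. -/
theorem involution_eq_frobenius {F L : Type*} [Field F] [Fintype F] [Field L] [Finite L] [Algebra F L]
    (σ : L →ₐ[F] L) (h2 : ∀ a, σ (σ a) = a) (h1 : ∃ a, σ a ≠ a) :
    Even (Module.finrank F L) ∧ ∀ a, σ a = a ^ (Fintype.card F ^ (Module.finrank F L / 2)) := by
  haveI : Module.Finite F L := Module.Finite.of_finite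
  have hf : ∀ (k : ℕ) (a : L), (FiniteField.frobeniusAlgHom F L ^ k) a = a ^ (Fintype.card F ^ k) := by
    intro k
    induction k with
    | zero => intro a; simp
    | succ k ih =>
      intro a
      rw [pow_succ', AlgHom.mul_apply, ih, FiniteField.coe_frobeniusAlgHom, pow_succ, pow_mul]
  obtain ⟨⟨i, hi⟩, hσ⟩ := (FiniteField.bijective_frobeniusAlgHom_pow F L).2 σ
  simp only at hσ
  have h2' : FiniteField.frobeniusAlgHom F L ^ (2 * i) = 1 := by
    rw [two_mul, pow_add, hσ]
    exact AlgHom.ext h2
  have hd := orderOf_dvd_of_pow_eq_one h2'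
  rw [FiniteField.orderOf_frobeniusAlgHom] at hd
  have hi0 : i ≠ 0 := by
    rintro rfl
    obtain ⟨a, ha⟩ := h1
    exact ha (by rw [← hσ, hf]; simp)
  obtain ⟨c, hc⟩ := hd
  have hc1 : c = 1 := by
    rcases c with _ | _ | c
    · omega
    · rfl
    · nlinarith
  rw [hc1, mul_one] at hc
  refine ⟨⟨i, by omega⟩, fun a => ?_⟩
  rw [← hσ, hf, show Module.finrank F L / 2 = i by omega]

/-- Let F be a finite field with r elements and of characteristic p, H a finite abelian group of order prime to p, and V a faithful irreducible representation of H over F of dimension n (faithful: distinct elements act differently; irreducible: the only H-invariant subspaces are 0 and V). Call V self-dual when it carries a nondegenerate H-invariant bilinear form. If n = 1 and V is self-dual then H has order at most 2. If n ≥ 2 then V is self-dual if and only if n is even and the order of H divides r^(n/2) + 1. -/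
theorem result {F : Type*} [Field F] [Fintype F] (p : ℕ) [Fact p.Prime] [CharP F p] {H : Type*} [CommGroup H] [Finite H] (hcop : ¬ p ∣ Nat.card H) {V : Type*} [AddCommGroup V] [Module F V] [FiniteDimensional F V] (ρ : Representation F H V) (hfaith : Function.Injective ρ) (hirr : ∀ U : Submodule F V, (∀ h : H, ∀ u ∈ U, ρ h u ∈ U) → U = ⊥ ∨ U = ⊤) : (Module.finrank F V = 1 → (∃ B : LinearMap.BilinForm F V, B.Nondegenerate ∧ ∀ h : H, ∀ x y : V, B (ρ h x) (ρ h y) = B x y) → Nat.card H ≤ 2) ∧ (2 ≤ Module.finrank F V → ((∃ B : LinearMap.BilinForm F V, B.Nondegenerate ∧ ∀ h : H, ∀ x y : V, B (ρ h x) (ρ h y) = B x y) ↔ (Even (Module.finrank F V) ∧ Nat.card H ∣ Fintype.card F ^ (Module.finrank F V / 2) + 1))) := by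
  classical
  by_cases hn0 : Module.finrank F V = 0
  · exact ⟨fun h => by omega, fun h => by omega⟩
  haveI : Nontrivial V := Module.nontrivial_of_finrank_pos (R := F) (Nat.pos_of_ne_zero hn0)
  obtain ⟨v, hv⟩ := exists_ne (0 : V)
  haveI : Finite V := Module.finite_of_finite F
  haveI : Finite (Module.End F V) := Finite.of_injective (fun f => (f : V → V)) DFunLike.coe_injective
  set S := Algebra.adjoin F (Set.range ρ) with hS
  have hgen : ∀ a ∈ Set.range ρ, ∀ b ∈ Set.range ρ, a * b = b * a := by
    rintro _ ⟨a, rfl⟩ _ ⟨b, rfl⟩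
    rw [← map_mul, ← map_mul, mul_comm]
  letI : CommRing S := Algebra.adjoinCommRingOfComm F hgen
  let e : H →* S :=
    { toFun := fun h => ⟨ρ h, Algebra.subset_adjoin ⟨h, rfl⟩⟩
      map_one' := Subtype.ext (map_one ρ)
      map_mul' := fun a b => Subtype.ext (map_mul ρ a b) }
  have he : Function.Injective e := fun a b h => hfaith (congrArg Subtype.val h)
  have hcommS : ∀ a ∈ S, ∀ b ∈ S, a * b = b * a := fun a ha b hb =>
    congrArg Subtype.val (mul_comm (⟨a, ha⟩ : S) ⟨b, hb⟩)
  -- non-zero elements are injective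
  have hinj : ∀ a : S, a ≠ 0 → ∀ x : V, (a : Module.End F V) x = 0 → x = 0 := by
    intro a ha x hx
    rcases hirr (LinearMap.ker (a : Module.End F V)) (fun h u hu => by
      rw [LinearMap.mem_ker] at hu ⊢
      rw [← Module.End.mul_apply, hcommS (a : Module.End F V) a.2 (ρ h) (e h).2, Module.End.mul_apply, hu, map_zero]) with h | h
    · have := LinearMap.mem_ker.mpr hx
      rwa [h, Submodule.mem_bot] at this
    · exact absurd (Subtype.ext (LinearMap.ker_eq_top.mp h) : a = 0) ha
  haveI : Nontrivial S := ⟨⟨1, 0, fun h => hv (by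
    have := LinearMap.congr_fun (congrArg Subtype.val h) v
    simpa using this)⟩⟩
  haveI : NoZeroDivisors S := ⟨fun {a b} hab => by
    by_cases ha : a = 0
    · exact Or.inl ha
    · exact Or.inr (Subtype.ext (LinearMap.ext fun x => hinj a ha _ (by
        rw [← Module.End.mul_apply]; exact LinearMap.congr_fun (congrArg Subtype.val hab) x)))⟩
  haveI : IsDomain S := NoZeroDivisors.to_isDomain S
  haveI : Finite S := Subtype.finite
  letI : Field S := (Finite.isField_of_domain S).toField
  -- the space is a line over the field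
  let ev : S →ₗ[F] V :=
    { toFun := fun a => (a : Module.End F V) v
      map_add' := fun a b => rfl
      map_smul' := fun c a => rfl }
  have hev : Function.Bijective ev := by
    refine ⟨?_, ?_⟩
    · rw [injective_iff_map_eq_zero]
      intro a ha
      by_contra hne
      exact hv (hinj a hne v ha)
    · rcases hirr (LinearMap.range ev) (fun h u hu => by
        obtain ⟨a, rfl⟩ := hu
        exact ⟨e h * a, rfl⟩) with h | h
      · have : ev 1 = 0 := (Submodule.eq_bot_iff _).mp h _ ⟨1, rfl⟩
        exact absurd (by simpa [ev] using this) hv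
      · exact LinearMap.range_eq_top.mp h
  have hdim : Module.finrank F S = Module.finrank F V := (LinearEquiv.ofBijective ev hev).finrank_eq
  haveI hcyc : IsCyclic H := isCyclic_of_subgroup_isDomain e he
  -- the adjoint of a form
  have hadj : ∀ B : LinearMap.BilinForm F V, B.Nondegenerate → (∀ h : H, ∀ x y : V, B (ρ h x) (ρ h y) = B x y) →
      ∃ σ : S →ₐ[F] S, (∀ a, σ (σ a) = a) ∧ ∀ h, σ (e h) = e h⁻¹ := by
    intro B hB hBi
    have hh : ∀ h : H, ∀ x y : V, B (ρ h x) y = B x (ρ h⁻¹ y) := fun h x y => by
      conv_lhs => rw [show y = ρ h (ρ h⁻¹ y) by rw [← Module.End.mul_apply, ← map_mul, mul_inv_cancel, map_one]; rfl]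
      exact hBi h x _
    have hex : ∀ a ∈ S, ∃ b ∈ S, (∀ x y, B (a x) y = B x (b y)) ∧ ∀ x y, B (b x) y = B x (a y) := by
      intro a ha
      induction ha using Algebra.adjoin_induction with
      | mem z hz =>
        obtain ⟨h, rfl⟩ := hz
        exact ⟨ρ h⁻¹, Algebra.subset_adjoin ⟨_, rfl⟩, hh h, fun x y => by simpa using hh h⁻¹ x y⟩
      | algebraMap c =>
        exact ⟨algebraMap F _ c, S.algebraMap_mem c, fun x y => by simp, fun x y => by simp⟩
      | add a b _ _ ha hb =>
        obtain ⟨a', ha', h1, h2⟩ := ha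
        obtain ⟨b', hb', h3, h4⟩ := hb
        exact ⟨a' + b', add_mem ha' hb', fun x y => by simp [h1, h3], fun x y => by simp [h2, h4]⟩
      | mul a b ham hbm ha hb =>
        obtain ⟨a', ha', h1, h2⟩ := ha
        obtain ⟨b', hb', h3, h4⟩ := hb
        refine ⟨b' * a', mul_mem hb' ha', fun x y => by simp [h1, h3], fun x y => ?_⟩
        simp only [Module.End.mul_apply, h2, h4]
    choose f hf hf1 hf2 using fun a : S => hex a a.2
    have huniq : ∀ (a : S) (b : Module.End F V), (∀ x y, B ((a : Module.End F V) x) y = B x (b y)) → f a = b := by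
      intro a b hb
      refine LinearMap.ext fun y => sub_eq_zero.mp (hB.2 _ fun x => ?_)
      rw [map_sub, ← hf1 a x y, ← hb x y, sub_self]
    let σ : S →ₐ[F] S :=
      { toFun := fun a => ⟨f a, hf a⟩
        map_one' := Subtype.ext (huniq 1 1 fun x y => by simp)
        map_mul' := fun a b => Subtype.ext (huniq (a * b) (f a * f b) fun x y => by
          rw [show ((a * b : S) : Module.End F V) = (b : Module.End F V) * (a : Module.End F V) from by
            rw [show ((a * b : S) : Module.End F V) = (a : Module.End F V) * (b : Module.End F V) from rfl, hcommS _ a.2 _ b.2],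
            Module.End.mul_apply, hf1 b, hf1 a, Module.End.mul_apply])
        map_zero' := Subtype.ext (huniq 0 0 fun x y => by simp)
        map_add' := fun a b => Subtype.ext (huniq (a + b) (f a + f b) fun x y => by simp [hf1])
        commutes' := fun c => Subtype.ext (huniq _ _ fun x y => by simp) }
    refine ⟨σ, fun a => Subtype.ext (huniq (σ a) a (hf2 a)), fun h => Subtype.ext (huniq (e h) _ (hh h))⟩
  -- the trivial case
  have hsmall : (∀ h : H, e h = e h⁻¹) → Module.finrank F V = 1 ∧ Nat.card H ≤ 2 := by
    intro hall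
    have hpm : ∀ h, e h = 1 ∨ e h = -1 := fun h => by
      refine mul_self_eq_one_iff.mp ?_
      conv_lhs => arg 2; rw [hall h]
      rw [← map_mul, mul_inv_cancel, map_one]
    refine ⟨?_, ?_⟩
    · have hscal : ∀ h, ∃ c : F, ρ h = algebraMap F _ c := fun h => by
        rcases hpm h with h' | h'
        · exact ⟨1, by rw [map_one]; exact congrArg Subtype.val h'⟩
        · exact ⟨-1, by rw [map_neg, map_one]; exact congrArg Subtype.val h'⟩
      rcases hirr (Submodule.span F {v}) (fun h u hu => by
        obtain ⟨c, hc⟩ := hscal h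
        rw [hc]
        exact Submodule.smul_mem _ c hu) with h | h
      · exact absurd ((Submodule.span_singleton_eq_bot).mp h) hv
      · rw [← finrank_top, ← h, finrank_span_singleton hv]
    · have hle : Nat.card H ≤ Nat.card ({1, -1} : Finset S) :=
        Nat.card_le_card_of_injective (fun h => ⟨e h, by rcases hpm h with h' | h' <;> simp [h']⟩)
          fun a b h => he (congrArg Subtype.val h :)
      rw [Nat.card_eq_finsetCard] at hle
      exact hle.trans Finset.card_le_two
  refine ⟨fun hn ⟨B, hB, hBi⟩ => ?_, fun hn => ⟨fun ⟨B, hB, hBi⟩ => ?_, fun ⟨hev2, hdvd⟩ => ?_⟩⟩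
  · obtain ⟨σ, -, hσe⟩ := hadj B hB hBi
    refine (hsmall fun h => ?_).2
    obtain ⟨c, hc⟩ := (finrank_eq_one_iff_of_nonzero' (1 : S) one_ne_zero).mp (hdim.trans hn) (e h)
    rw [← hσe h, ← hc, map_smul, map_one]
  · obtain ⟨σ, hσ2, hσe⟩ := hadj B hB hBi
    obtain ⟨heven, hpow⟩ := involution_eq_frobenius σ hσ2 (by
      by_contra hall
      push Not at hall
      have := (hsmall fun h => (hall (e h)).symm.trans (hσe h)).1
      omega)
    rw [hdim] at heven hpow
    refine ⟨heven, ?_⟩
    obtain ⟨g, hg⟩ := hcyc.exists_ofOrder_eq_natCard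
    rw [← hg]
    refine orderOf_dvd_of_pow_eq_one (he ?_)
    rw [map_pow, pow_succ, ← hpow, hσe, ← map_mul, inv_mul_cancel]
  · set k := Module.finrank F V / 2
    have hf : ∀ (j : ℕ) (a : S), (FiniteField.frobeniusAlgHom F S ^ j) a = a ^ (Fintype.card F ^ j) := by
      intro j
      induction j with
      | zero => intro a; simp
      | succ j ih =>
        intro a
        rw [pow_succ', AlgHom.mul_apply, ih, FiniteField.coe_frobeniusAlgHom, pow_succ, pow_mul]
    set τ := FiniteField.frobeniusAlgHom F S ^ k
    have hτ : ∀ h, e h * τ (e h) = 1 := fun h => by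
      rw [hf, ← map_pow, ← map_mul, ← pow_succ', orderOf_dvd_iff_pow_eq_one.mp ((orderOf_dvd_natCard h).trans hdvd), map_one]
    obtain ⟨φ, hφ⟩ : ∃ φ : Module.Dual F V, φ v ≠ 0 := by
      by_contra hall
      push Not at hall
      exact hv ((Module.forall_dual_apply_eq_zero_iff F v).mp hall)
    let E := (LinearEquiv.ofBijective ev hev).symm
    let μ : S →ₗ[F] S →ₗ[F] F := LinearMap.mk₂ F (fun a b => φ (ev (a * τ b))) (fun a a' b => by simp [add_mul])
      (fun c a b => by simp [smul_mul_assoc]) (fun a b b' => by simp [mul_add]) (fun c a b => by simp [mul_smul_comm])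
    refine ⟨μ.compl₁₂ E.toLinearMap E.toLinearMap, ⟨fun x hx => ?_, fun y hy => ?_⟩, fun h x y => ?_⟩
    · by_contra hne
      have hx0 : E x ≠ 0 := fun h0 => hne (E.map_eq_zero_iff.mp h0)
      obtain ⟨b, hb⟩ : ∃ b, τ b = (E x)⁻¹ := by
        exact (Finite.injective_iff_surjective.mp (τ : S →+* S).injective) _
      have := hx (E.symm b)
      simp only [LinearMap.compl₁₂_apply, LinearEquiv.coe_coe, LinearEquiv.apply_symm_apply, μ, LinearMap.mk₂_apply,
        hb, mul_inv_cancel₀ hx0] at this
      exact hφ this
    · by_contra hne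
      have hy0 : τ (E y) ≠ 0 := fun h0 => hne (E.map_eq_zero_iff.mp ((τ : S →+* S).injective (h0.trans (map_zero _).symm)))
      have := hy (E.symm (τ (E y))⁻¹)
      simp only [LinearMap.compl₁₂_apply, LinearEquiv.coe_coe, LinearEquiv.apply_symm_apply, μ, LinearMap.mk₂_apply,
        inv_mul_cancel₀ hy0] at this
      exact hφ this
    · have hE : ∀ z, E (ρ h z) = e h * E z := fun z => by
        apply (LinearEquiv.ofBijective ev hev).injective
        rw [LinearEquiv.apply_symm_apply]
        show _ = (e h : Module.End F V) ((E z : Module.End F V) v)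
        rw [show (E z : Module.End F V) v = z from (LinearEquiv.ofBijective ev hev).apply_symm_apply z]
        rfl
      simp only [LinearMap.compl₁₂_apply, LinearEquiv.coe_coe, μ, LinearMap.mk₂_apply, hE, map_mul]
      rw [mul_mul_mul_comm, hτ, one_mul]

end Cfsg.Agent.S4967
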