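import Cfsg.Statements.S5014
import Cfsg.Agent.Lib.RootSub.RankOne
-- import your own Cfsg.Agent.* helpers here

set_option autoImplicit false
open Cfsg

namespace Cfsg.Agent.S5014

/-- Let X = ⟨A, B⟩ be a rank one group with unipotent subgroups A and B and let Ω be the set of conjugates of A under X. Then Ω has at least three members, X acts doubly transitively on Ω by conjugation (any two ordered pairs of distinct members are carried to one another by a single element of X), and A acts regularly on Ω with A removed: for C, D in Ω different from A there is exactly one element of A conjugating C to D. -/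
theorem result {G : Type*} [Group G] {A B : Subgroup G} (h : Cfsg.IsRankOnePair A B) :
    (∃ C₁ ∈ Cfsg.unipotentSubgroups A B, ∃ C₂ ∈ Cfsg.unipotentSubgroups A B, ∃ C₃ ∈ Cfsg.unipotentSubgroups A B,
      C₁ ≠ C₂ ∧ C₁ ≠ C₃ ∧ C₂ ≠ C₃) ∧
    (∀ C₁ ∈ Cfsg.unipotentSubgroups A B, ∀ C₂ ∈ Cfsg.unipotentSubgroups A B, ∀ D₁ ∈ Cfsg.unipotentSubgroups A B,
      ∀ D₂ ∈ Cfsg.unipotentSubgroups A B, C₁ ≠ C₂ → D₁ ≠ D₂ →
        ∃ x ∈ A ⊔ B, Cfsg.conjBy C₁ x = D₁ ∧ Cfsg.conjBy C₂ x = D₂) ∧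
    (∀ C ∈ Cfsg.unipotentSubgroups A B, ∀ D ∈ Cfsg.unipotentSubgroups A B, C ≠ A → D ≠ A →
      ∃! a : G, a ∈ A ∧ Cfsg.conjBy C a = D) := by
  have h' := Cfsg.RankOnePair_symm h
  have hAle : A ≤ A ⊔ B := le_sup_left
  have hBle : B ≤ A ⊔ B := le_sup_right
  obtain ⟨a₁, ha₁, ha₁1⟩ := Cfsg.Lib.RootSub.RankOne.exists_ne_one h
  obtain ⟨b₁, hb₁, -, e₁⟩ := Cfsg.Lib.RootSub.RankOne.exists_left h ha₁ ha₁1
  have hBconj : B = Cfsg.conjBy A (a₁⁻¹ * b₁) := Cfsg.Lib.RootSub.RankOne.eq_of_conjBy e₁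
  have hBmem : ∀ a ∈ A, Cfsg.conjBy B a ∈ Cfsg.unipotentSubgroups A B := fun a ha =>
    ⟨a * (a₁⁻¹ * b₁), mul_mem (hAle ha) (mul_mem (inv_mem (hAle ha₁)) (hBle hb₁)),
      by rw [hBconj, Cfsg.Lib.RootSub.RankOne.conjBy_conjBy]⟩
  have hcases : ∀ C ∈ Cfsg.unipotentSubgroups A B, C ≠ A → ∃ a ∈ A, C = Cfsg.conjBy B a := by
    rintro C ⟨x, hx, rfl⟩ hC
    rcases Cfsg.Lib.RootSub.RankOne.conjBy_left_mem h hx with e | ⟨a, ha, e⟩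
    · exact absurd e hC
    · exact ⟨a, ha, e⟩
  have hne : ∀ a ∈ A, Cfsg.conjBy B a ≠ A := fun a ha => Cfsg.Lib.RootSub.RankOne.left_ne h ha
  refine ⟨⟨A, ⟨1, one_mem _, by simp⟩, B, by simpa using hBmem 1 A.one_mem, _, hBmem a₁ ha₁, h.ne,
    (hne a₁ ha₁).symm, fun e => ha₁1 (Cfsg.Lib.RootSub.RankOne.eq_one h ha₁ e.symm)⟩, ?_, ?_⟩
  · have hto : ∀ C₁ ∈ Cfsg.unipotentSubgroups A B, ∀ C₂ ∈ Cfsg.unipotentSubgroups A B, C₁ ≠ C₂ →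
        ∃ x ∈ A ⊔ B, Cfsg.conjBy C₁ x = A ∧ Cfsg.conjBy C₂ x = B := by
      rintro C₁ ⟨x, hx, rfl⟩ C₂ ⟨y, hy, rfl⟩ hne'
      have hy' : Cfsg.conjBy A (x⁻¹ * y) ≠ A := by
        intro e
        apply hne'
        rw [← Cfsg.Lib.RootSub.RankOne.conjBy_inj (g := x⁻¹), Cfsg.Lib.RootSub.RankOne.conjBy_conjBy, Cfsg.Lib.RootSub.RankOne.conjBy_conjBy, inv_mul_cancel, e, Cfsg.Lib.RootSub.RankOne.conjBy_one]
      obtain ⟨a, ha, e⟩ := hcases _ ⟨_, mul_mem (inv_mem hx) hy, rfl⟩ hy'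
      refine ⟨a⁻¹ * x⁻¹, mul_mem (inv_mem (hAle ha)) (inv_mem hx), ?_, ?_⟩
      · rw [Cfsg.Lib.RootSub.RankOne.conjBy_conjBy, inv_mul_cancel_right]
        exact Cfsg.Lib.RootSub.RankOne.conjBy_self (inv_mem ha)
      · rw [Cfsg.Lib.RootSub.RankOne.conjBy_conjBy, mul_assoc, ← Cfsg.Lib.RootSub.RankOne.conjBy_conjBy, e, Cfsg.Lib.RootSub.RankOne.conjBy_conjBy, inv_mul_cancel, Cfsg.Lib.RootSub.RankOne.conjBy_one]
    intro C₁ hC₁ C₂ hC₂ D₁ hD₁ D₂ hD₂ hC hD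
    obtain ⟨x, hx, x1, x2⟩ := hto C₁ hC₁ C₂ hC₂ hC
    obtain ⟨y, hy, y1, y2⟩ := hto D₁ hD₁ D₂ hD₂ hD
    refine ⟨y⁻¹ * x, mul_mem (inv_mem hy) hx, ?_, ?_⟩
    · rw [← Cfsg.Lib.RootSub.RankOne.conjBy_conjBy, x1, ← y1, Cfsg.Lib.RootSub.RankOne.conjBy_conjBy, inv_mul_cancel, Cfsg.Lib.RootSub.RankOne.conjBy_one]
    · rw [← Cfsg.Lib.RootSub.RankOne.conjBy_conjBy, x2, ← y2, Cfsg.Lib.RootSub.RankOne.conjBy_conjBy, inv_mul_cancel, Cfsg.Lib.RootSub.RankOne.conjBy_one]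
  · intro C hC D hD hCA hDA
    obtain ⟨c, hc, rfl⟩ := hcases C hC hCA
    obtain ⟨d, hd, rfl⟩ := hcases D hD hDA
    refine ⟨d * c⁻¹, ⟨mul_mem hd (inv_mem hc), by rw [Cfsg.Lib.RootSub.RankOne.conjBy_conjBy, inv_mul_cancel_right]⟩, ?_⟩
    rintro a ⟨ha, e⟩
    rw [Cfsg.Lib.RootSub.RankOne.conjBy_conjBy] at e
    have e2 := Cfsg.Lib.RootSub.RankOne.eq_of_conjBy e
    have h2 := Cfsg.Lib.RootSub.RankOne.eq_one h (mul_mem (inv_mem (mul_mem ha hc)) hd) e2.symm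
    rw [inv_mul_eq_one] at h2
    rw [← h2, mul_inv_cancel_right]

end Cfsg.Agent.S5014
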