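import Cfsg.Statements.S5015
import Cfsg.Agent.Lib.RootSub.RankOne
-- import your own Cfsg.Agent.* helpers here

set_option autoImplicit false
open Cfsg

namespace Cfsg.Agent.S5015

/-- Let a group Y act doubly transitively on a set Ω with at least three points, and suppose that the stabilizer of a point α contains a nilpotent subgroup A, normalized by that stabilizer, which acts regularly on the points other than α. Then for any y in Y moving α, the subgroups A and y A y⁻¹ are the unipotent subgroups of a rank one group, and the normal closure of A in Y (the subgroup generated by all conjugates of A) is generated by A and y A y⁻¹ alone. -/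
theorem result {Y Ω : Type*} [Group Y] [MulAction Y Ω]
    (h2 : MulAction.IsMultiplyPretransitive Y Ω 2) (hΩ : 3 ≤ ENat.card Ω) (α : Ω) (A : Subgroup Y)
    (hA : A ≤ MulAction.stabilizer Y α) (hAn : ∀ y ∈ MulAction.stabilizer Y α, Cfsg.conjBy A y = A)
    (hnil : Group.IsNilpotent A) (hreg : ∀ β γ : Ω, β ≠ α → γ ≠ α → ∃! a : Y, a ∈ A ∧ a • β = γ)
    (y : Y) (hy : y ∉ MulAction.stabilizer Y α) :
    Cfsg.IsRankOnePair A (Cfsg.conjBy A y) ∧ Subgroup.normalClosure (A : Set Y) = A ⊔ Cfsg.conjBy A y := by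
  set β := y • α with hβ
  have hβα : β ≠ α := fun e => hy e
  have hsame : ∀ z w : Y, z • α = w • α → Cfsg.conjBy A z = Cfsg.conjBy A w := by
    intro z w e
    have hm : z⁻¹ * w ∈ MulAction.stabilizer Y α := by
      rw [MulAction.mem_stabilizer_iff, mul_smul, ← e, inv_smul_smul]
    rw [← hAn _ hm, Cfsg.Lib.RootSub.RankOne.conjBy_conjBy, mul_inv_cancel_left, hAn _ hm]
  have hfixA : ∀ a ∈ A, a • α = α := fun a ha => hA ha
  set B := Cfsg.conjBy A y with hB
  have hfixB : ∀ b ∈ B, b • β = β := by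
    intro b hb
    rw [hB, Cfsg.Lib.RootSub.RankOne.mem_conjBy] at hb
    have h1 := hfixA _ hb
    rw [mul_smul, mul_smul, inv_smul_eq_iff] at h1
    exact h1
  have hregB : ∀ γ δ : Ω, γ ≠ β → δ ≠ β → ∃ b ∈ B, b • γ = δ := by
    intro γ δ hγ hδ
    have h1 : y⁻¹ • γ ≠ α := fun e => hγ (by rw [hβ, ← e, smul_inv_smul])
    have h2 : y⁻¹ • δ ≠ α := fun e => hδ (by rw [hβ, ← e, smul_inv_smul])
    obtain ⟨a, ⟨ha, e⟩, -⟩ := hreg _ _ h1 h2
    refine ⟨y * a * y⁻¹, ?_, ?_⟩
    · rw [hB, Cfsg.Lib.RootSub.RankOne.mem_conjBy]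
      simpa [mul_assoc] using ha
    · rw [mul_smul, mul_smul, e, smul_inv_smul]
  have hfree : ∀ a ∈ A, a • β = β → a = 1 := fun a ha e =>
    (hreg β β hβα hβα).unique ⟨ha, e⟩ ⟨A.one_mem, one_smul _ _⟩
  have hfreeB : ∀ b ∈ B, b • α = α → b = 1 := by
    intro b hb e
    have hα : y⁻¹ • α ≠ α := fun e' => hy (by rw [inv_smul_eq_iff] at e'; exact e'.symm)
    rw [hB, Cfsg.Lib.RootSub.RankOne.mem_conjBy] at hb
    have h1 := (hreg _ _ hα hα).unique ⟨hb, by rw [mul_smul, mul_smul, smul_inv_smul, e]⟩ ⟨A.one_mem, one_smul _ _⟩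
    simpa [mul_assoc] using congrArg (fun x => y * x * y⁻¹) h1
  obtain ⟨γ, hγα, hγβ⟩ : ∃ γ : Ω, γ ≠ α ∧ γ ≠ β := by
    by_contra! hno
    have hle : (Set.univ : Set Ω).encard ≤ 2 := by
      refine (Set.encard_le_encard (t := {α, β}) fun x _ => ?_).trans ((Set.encard_insert_le _ _).trans (by simp; norm_num))
      by_cases hx : x = α
      · exact Or.inl hx
      · exact Or.inr (hno x hx)
    rw [Set.encard_univ] at hle
    exact absurd (hΩ.trans hle) (by norm_num)
  refine ⟨⟨?_, hnil, ?_, ?_, ?_⟩, ?_⟩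
  · intro e
    obtain ⟨a, ⟨ha, ea⟩, -⟩ := hreg β γ hβα hγα
    exact hγβ (by rw [← ea, hfixB a (e ▸ ha)])
  · exact Group.nilpotent_of_mulEquiv (Subgroup.equivMapOfInjective A _ (MulEquiv.injective _))
  · intro a ha ha1
    have h1 : a⁻¹ • β ≠ β := fun e => ha1 (inv_eq_one.1 (hfree _ (inv_mem ha) e))
    obtain ⟨b, hb, eb⟩ := hregB α (a⁻¹ • β) hβα.symm h1
    refine ⟨b⁻¹, inv_mem hb, ?_, ?_⟩
    · intro e
      have hb1 : b = 1 := inv_eq_one.1 e
      rw [hb1, one_smul] at eb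
      exact hβα (by rw [← hfixA a ha, eb, smul_inv_smul])
    · rw [inv_inv, Cfsg.Lib.RootSub.RankOne.conjBy_conjBy]
      exact hsame _ _ (by rw [mul_smul, eb])
  · intro b hb hb1
    have h1 : b⁻¹ • α ≠ α := fun e => hb1 (inv_eq_one.1 (hfreeB _ (inv_mem hb) e))
    obtain ⟨a, ⟨ha, ea⟩, -⟩ := hreg β (b⁻¹ • α) hβα h1
    refine ⟨a⁻¹, inv_mem ha, ?_, ?_⟩
    · intro e
      have ha1 : a = 1 := inv_eq_one.1 e
      rw [ha1, one_smul] at ea
      exact hβα (by rw [← hfixB b hb, ea, smul_inv_smul])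
    · rw [inv_inv, Cfsg.Lib.RootSub.RankOne.conjBy_conjBy]
      exact hsame _ _ (by rw [mul_smul]; exact ea)
  · refine le_antisymm ?_ (sup_le Subgroup.le_normalClosure ?_)
    · rw [Subgroup.normalClosure, Subgroup.closure_le]
      intro x hx
      obtain ⟨a, ha, hax⟩ := Group.mem_conjugatesOfSet_iff.1 hx
      obtain ⟨c, rfl⟩ := isConj_iff.1 hax
      have hmem : c * a * c⁻¹ ∈ Cfsg.conjBy A c := by
        rw [Cfsg.Lib.RootSub.RankOne.mem_conjBy]
        simpa [mul_assoc] using ha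
      by_cases hcα : c • α = α
      · rw [hAn c hcα] at hmem
        exact Subgroup.mem_sup_left hmem
      · obtain ⟨a', ⟨ha', e⟩, -⟩ := hreg β (c • α) hβα hcα
        rw [hsame c (a' * y) (by rw [mul_smul]; exact e.symm), ← Cfsg.Lib.RootSub.RankOne.conjBy_conjBy, Cfsg.Lib.RootSub.RankOne.mem_conjBy] at hmem
        have hA' : a' ∈ A ⊔ B := Subgroup.mem_sup_left ha'
        have h1 := mul_mem (mul_mem hA' (Subgroup.mem_sup_right hmem)) (inv_mem hA')
        simpa [mul_assoc] using h1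
    · intro b hb
      rw [hB, Cfsg.Lib.RootSub.RankOne.mem_conjBy] at hb
      have h1 := Subgroup.normalClosure_normal.conj_mem _ (Subgroup.subset_normalClosure (s := (A : Set Y)) hb) y
      simpa [mul_assoc] using h1

end Cfsg.Agent.S5015
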