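import Cfsg.Statements.S5016
import Cfsg.Agent.Lib.RootSub.SL2RankOne
-- import your own Cfsg.Agent.* helpers here

set_option autoImplicit false
open Cfsg

namespace Cfsg.Agent.S5016

/-- For any field k, the special linear group SL₂(k) is a special rank one group with abelian unipotent subgroups, the unipotent subgroups being the group of lower unitriangular matrices and the group of upper unitriangular matrices. -/
theorem result (k : Type*) [Field k] :
    Cfsg.IsRankOneGroup (Matrix.SpecialLinearGroup (Fin 2) k) (Cfsg.lowerUnipotentSL2 k) (Cfsg.upperUnipotentSL2 k) ∧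
    Cfsg.IsSpecialRankOnePair (Cfsg.lowerUnipotentSL2 k) (Cfsg.upperUnipotentSL2 k) ∧
    Cfsg.HasAbelianUnipotents (Cfsg.lowerUnipotentSL2 k) (Cfsg.upperUnipotentSL2 k) := by
  refine ⟨⟨SL2RankOne.sup_eq_top, SL2RankOne.rankOnePair⟩, ⟨SL2RankOne.rankOnePair, ?_⟩,
    SL2RankOne.lower_comm, SL2RankOne.upper_comm⟩
  intro a ha ha1 b hb _ h
  obtain ⟨x, rfl⟩ := SL2RankOne.mem_lower.1 ha
  obtain ⟨y, rfl⟩ := SL2RankOne.mem_upper.1 hb
  have hx : x ≠ 0 := fun h' => ha1 (by rw [h', SL2RankOne.lo_zero])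
  have hxy := SL2RankOne.eq_inv_of_conjBy h hx
  rw [SL2RankOne.up_inv, SL2RankOne.lo_inv]
  exact SL2RankOne.conj_eq hxy (by linear_combination (-x) * hxy)

end Cfsg.Agent.S5016
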