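import Cfsg.Statements.S5017
import Cfsg.Agent.Lib.RootSub.RankOne
-- import your own Cfsg.Agent.* helpers here

set_option autoImplicit false
open Cfsg

namespace Cfsg.Agent.S5017

/-- Let X be a rank one group with unipotent subgroups A and B and N a normal subgroup of X. Then either X = N A or N lies in the centre of X. Consequently a perfect rank one group is quasisimple. -/
theorem result {X : Type*} [Group X] {A B : Subgroup X} (h : Cfsg.IsRankOneGroup X A B) :
    (∀ N : Subgroup X, N.Normal → N ⊔ A = ⊤ ∨ N ≤ Subgroup.center X) ∧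
    (Group.IsPerfect X → Cfsg.IsQuasisimple X) := by
  obtain ⟨hgen, hp⟩ := h
  have hdich : ∀ N : Subgroup X, N.Normal → N ⊔ A = ⊤ ∨ N ≤ Subgroup.center X := by
    intro N hN
    rcases Cfsg.Lib.RootSub.RankOne.normal_dichotomy hp hgen N with ⟨z, hz, a, ha, e⟩ | hle
    swap
    · exact Or.inr hle
    left
    rw [eq_top_iff, ← hgen]
    refine sup_le le_sup_right fun b hb => ?_
    have hy : a * b * a⁻¹ ∈ Cfsg.conjBy A z := by
      rw [e, Cfsg.Lib.RootSub.RankOne.mem_conjBy]
      simpa [mul_assoc] using hb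
    rw [Cfsg.Lib.RootSub.RankOne.mem_conjBy] at hy
    have hzN : z ∈ N ⊔ A := Subgroup.mem_sup_left hz
    have haN : a ∈ N ⊔ A := Subgroup.mem_sup_right ha
    have h1 := mul_mem (mul_mem (mul_mem (mul_mem (inv_mem haN) hzN) (Subgroup.mem_sup_right hy)) (inv_mem hzN)) haN
    simpa [mul_assoc] using h1
  refine ⟨hdich, fun hperf => ⟨hperf, ?_⟩⟩
  obtain ⟨a₀, ha₀, ha₀1⟩ := Cfsg.Lib.RootSub.RankOne.exists_ne_one hp
  have hcne : Subgroup.center X ≠ ⊤ := by
    intro hall
    refine ha₀1 (Cfsg.Lib.RootSub.RankOne.eq_one hp ha₀ (Cfsg.Lib.RootSub.RankOne.mem_normalizer_iff.1 ?_))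
    exact Subgroup.center_le_normalizer _ (by rw [hall]; trivial)
  have : Nontrivial (X ⧸ Subgroup.center X) := QuotientGroup.nontrivial_iff.2 hcne
  refine ⟨fun K hK => ?_⟩
  set N := K.comap (QuotientGroup.mk' (Subgroup.center X)) with hN
  have hNn : N.Normal := hK.comap _
  have hKN : N.map (QuotientGroup.mk' (Subgroup.center X)) = K :=
    Subgroup.map_comap_eq_self_of_surjective (QuotientGroup.mk'_surjective _) K
  rcases hdich N hNn with htop | hle
  · right
    suffices N = ⊤ by rw [← hKN, this, Subgroup.map_top_of_surjective _ (QuotientGroup.mk'_surjective _)]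
    have hsurj : Function.Surjective ((QuotientGroup.mk' N).comp A.subtype) := by
      intro q
      obtain ⟨x, rfl⟩ := QuotientGroup.mk'_surjective N q
      obtain ⟨n, hn, a, ha, rfl⟩ := Subgroup.mem_sup_of_normal_left.1 (htop ▸ Subgroup.mem_top x)
      refine ⟨⟨a, ha⟩, ?_⟩
      simpa using hn
    have := hp.nilpotent_left
    have : Group.IsNilpotent (X ⧸ N) := Group.nilpotent_of_surjective _ hsurj
    by_contra hne
    have : Nontrivial (X ⧸ N) := QuotientGroup.nontrivial_iff.2 hne
    have : Group.IsPerfect (X ⧸ N) := by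
      rw [Group.isPerfect_def, eq_top_iff, ← Subgroup.map_top_of_surjective _ (QuotientGroup.mk'_surjective N),
        ← Group.isPerfect_def.1 hperf, commutator_def, Subgroup.map_commutator,
        Subgroup.map_top_of_surjective _ (QuotientGroup.mk'_surjective N), ← commutator_def]
    exact Group.IsPerfect.not_isNilpotent _ ‹Group.IsNilpotent (X ⧸ N)›
  · left
    rw [← hKN, Subgroup.map_eq_bot_iff, QuotientGroup.ker_mk']
    exact hle

end Cfsg.Agent.S5017
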