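import Cfsg.Statements.S5018
import Cfsg.Agent.Lib.RootSub.RankOne
-- import your own Cfsg.Agent.* helpers here

set_option autoImplicit false
open Cfsg

namespace Cfsg.Agent.S5018

/-- A rank one group is not nilpotent, and its second centre equals its centre. -/
theorem result {X : Type*} [Group X] {A B : Subgroup X} (h : Cfsg.IsRankOneGroup X A B) :
    Subgroup.upperCentralSeries X 2 = Subgroup.center X ∧ ¬ Group.IsNilpotent X := by
  obtain ⟨hgen, hp⟩ := h
  obtain ⟨a₀, ha₀, ha₀1⟩ := Cfsg.Lib.RootSub.RankOne.exists_ne_one hp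
  obtain ⟨b₀, hb₀, hb₀1⟩ := Cfsg.Lib.RootSub.RankOne.exists_ne_one (Cfsg.RankOnePair_symm hp)
  have hcomm : ¬ Subgroup.center X = ⊤ := by
    intro hall
    refine ha₀1 (Cfsg.Lib.RootSub.RankOne.eq_one hp ha₀ (Cfsg.Lib.RootSub.RankOne.mem_normalizer_iff.1 ?_))
    exact Subgroup.center_le_normalizer _ (by rw [hall]; trivial)
  have hZ : Subgroup.upperCentralSeries X 2 = Subgroup.center X := by
    refine le_antisymm ?_ ?_
    swap
    · rw [← Subgroup.upperCentralSeries_one]
      exact Subgroup.upperCentralSeries_mono X (by norm_num)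
    rcases Cfsg.Lib.RootSub.RankOne.normal_dichotomy hp hgen (Subgroup.upperCentralSeries X 2) with ⟨z, hz, a, ha, e⟩ | hle
    swap
    · exact hle
    exfalso
    have hcen : ∀ y : X, z * y * z⁻¹ * y⁻¹ ∈ Subgroup.center X := by
      rw [Subgroup.mem_upperCentralSeries_succ_iff] at hz
      intro y
      simpa [Subgroup.upperCentralSeries_one, commutatorElement_def] using hz y
    have hn : ∀ y ∈ Cfsg.conjBy A z, y ∈ Subgroup.normalizer (A : Set X) := by
      intro y hy
      rw [Cfsg.Lib.RootSub.RankOne.mem_conjBy] at hy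
      have h1 := mul_mem (Subgroup.center_le_normalizer _ (hcen (z⁻¹ * y * z))) (Subgroup.le_normalizer hy)
      simpa [mul_assoc] using h1
    have hb : b₀ ∈ Subgroup.normalizer (A : Set X) := by
      have hy : a * b₀ * a⁻¹ ∈ Cfsg.conjBy A z := by
        rw [e, Cfsg.Lib.RootSub.RankOne.mem_conjBy]
        simpa [mul_assoc] using hb₀
      have h1 := mul_mem (mul_mem (inv_mem (Subgroup.le_normalizer ha)) (hn _ hy)) (Subgroup.le_normalizer ha)
      simpa [mul_assoc] using h1
    exact hb₀1 (Cfsg.Lib.RootSub.RankOne.eq_one (Cfsg.RankOnePair_symm hp) hb₀ (Cfsg.Lib.RootSub.RankOne.mem_normalizer_iff.1 hb))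
  refine ⟨hZ, fun hnil => hcomm ?_⟩
  have hstab : ∀ k, Subgroup.upperCentralSeries X (k + 1) = Subgroup.center X := by
    intro k
    induction k with
    | zero => simp [Subgroup.upperCentralSeries_one]
    | succ k ih =>
      ext x
      rw [Subgroup.mem_upperCentralSeries_succ_iff, ← hZ, Subgroup.mem_upperCentralSeries_succ_iff,
        Subgroup.upperCentralSeries_one, ih]
  obtain ⟨k, hk⟩ := (Group.isNilpotent_iff X).1 hnil
  rw [eq_top_iff, ← hstab k, ← hk]
  exact Subgroup.upperCentralSeries_mono X (Nat.le_succ k)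

end Cfsg.Agent.S5018
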