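import Cfsg.Statements.S5021
import Cfsg.Agent.Lib.RootSub.RankOneLead

set_option autoImplicit false
open Cfsg

namespace Cfsg.Agent.S5021

open Cfsg.Lib.RootSub.RankOneLead

variable {G : Type*} [Group G]

/-- right conjugation of a subgroup -/
abbrev rc (C : Subgroup G) (g : G) : Subgroup G := conjBy C g⁻¹

theorem rc_mul (C : Subgroup G) (g k : G) : rc (rc C g) k = rc C (g * k) := by
  show conjBy (conjBy C g⁻¹) k⁻¹ = conjBy C (g * k)⁻¹
  rw [cB_mul, mul_inv_rev]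

/-- a special rank one pair with abelian sides -/
structure Sp (A B : Subgroup G) : Prop where
  pair : IsRankOnePair A B
  special : ∀ a ∈ A, a ≠ 1 → ∀ b ∈ B, b ≠ 1 → rc A b = rc B a → b⁻¹ * a * b = a⁻¹ * b⁻¹ * a
  commA : ∀ x ∈ A, ∀ y ∈ A, x * y = y * x
  commB : ∀ x ∈ B, ∀ y ∈ B, x * y = y * x

theorem Sp.symm {A B : Subgroup G} (h : Sp A B) : Sp B A where
  pair := RankOnePair_symm h.pair
  special b hb hb1 a ha ha1 e := by
    have := congrArg (·⁻¹) (h.special a ha ha1 b hb hb1 e.symm)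
    simp only [mul_inv_rev, inv_inv, ← mul_assoc] at this
    exact this.symm
  commA := h.commB
  commB := h.commA

/-- corresponding elements -/
def Cor (A B : Subgroup G) (a b : G) : Prop := a ∈ A ∧ a ≠ 1 ∧ b ∈ B ∧ b ≠ 1 ∧ rc A b = rc B a

variable {A B : Subgroup G}

theorem Cor.symm {a b : G} (c : Cor A B a b) : Cor B A b a := ⟨c.2.2.1, c.2.2.2.1, c.1, c.2.1, c.2.2.2.2.symm⟩

theorem cor_exists (h : Sp A B) {a : G} (ha : a ∈ A) (h1 : a ≠ 1) : ∃ b, Cor A B a b := by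
  obtain ⟨b, hb, hb1, e⟩ := h.pair.cond_left a ha h1
  exact ⟨b, ha, h1, hb, hb1, e⟩

theorem inj_right (h : Sp A B) {x y : G} (hx : x ∈ B) (hy : y ∈ B) (e : rc A x = rc A y) : x = y := by
  have e2 : rc A (x * y⁻¹) = A := by
    rw [← rc_mul, e, rc_mul, mul_inv_cancel]
    show conjBy A 1⁻¹ = A
    rw [inv_one, cB_one]
  exact mul_inv_eq_one.1 (inv_eq_one.1 (no_norm (RankOnePair_symm h.pair) (inv_mem (mul_mem hx (inv_mem hy))) e2))

theorem cor_uniq (h : Sp A B) {a b b' : G} (c : Cor A B a b) (c' : Cor A B a b') : b = b' :=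
  inj_right h c.2.2.1 c'.2.2.1 (c.2.2.2.2.trans c'.2.2.2.2.symm)

theorem cor_inv (h : Sp A B) {a b : G} (c : Cor A B a b) : Cor A B a⁻¹ b⁻¹ := by
  obtain ⟨ha, ha1, hb, hb1, e⟩ := c
  refine ⟨inv_mem ha, inv_ne_one.2 ha1, inv_mem hb, inv_ne_one.2 hb1, ?_⟩
  have hs := h.special a ha ha1 b hb hb1 e
  have hkey : b * a * b⁻¹ = a * b⁻¹ * a⁻¹ := by
    calc b * a * b⁻¹ = a * (a⁻¹ * b⁻¹ * a)⁻¹ * b⁻¹ := by group
      _ = a * (b⁻¹ * a * b)⁻¹ * b⁻¹ := by rw [hs]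
      _ = a * b⁻¹ * a⁻¹ := by group
  show rc A b⁻¹ = rc B a⁻¹
  have hP : rc A b⁻¹ ∈ unipotentSubgroups A B := mem_conj left_mem (inv_mem (inv_mem (Subgroup.mem_sup_right hb)))
  have hQ : rc B a⁻¹ ∈ unipotentSubgroups A B :=
    mem_conj (right_mem h.pair) (inv_mem (inv_mem (Subgroup.mem_sup_left ha)))
  by_contra hne
  have h0 := inf_bot (pair_points h.pair hP hQ hne)
  have m1 : b * a * b⁻¹ ∈ rc A b⁻¹ := by
    show _ ∈ conjBy A b⁻¹⁻¹
    rw [inv_inv]; exact ⟨a, ha, rfl⟩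
  have m2 : b * a * b⁻¹ ∈ rc B a⁻¹ := by
    show _ ∈ conjBy B a⁻¹⁻¹
    rw [inv_inv, hkey]; exact ⟨b⁻¹, inv_mem hb, rfl⟩
  have m3 : b * a * b⁻¹ ∈ rc A b⁻¹ ⊓ rc B a⁻¹ := ⟨m1, m2⟩
  rw [h0] at m3
  exact ha1 (conj_eq_one_iff.1 (Subgroup.mem_bot.1 m3))

theorem pow_eq_one_iff' (h : Sp A B) {a b : G} (c : Cor A B a b) (m : ℕ) : a ^ m = 1 ↔ b ^ m = 1 := by
  obtain ⟨ha, ha1, hb, hb1, e⟩ := c
  have hs := congrArg (· ^ m) (h.special a ha ha1 b hb hb1 e)
  have e1 : (b⁻¹ * a * b) ^ m = b⁻¹ * a ^ m * b := by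
    simpa using conj_pow (a := b⁻¹) (b := a) (i := m)
  have e2 : (a⁻¹ * b⁻¹ * a) ^ m = a⁻¹ * (b ^ m)⁻¹ * a := by
    simpa using conj_pow (a := a⁻¹) (b := b⁻¹) (i := m)
  simp only [e1, e2] at hs
  constructor <;> intro h'
  · rw [h'] at hs
    have : a⁻¹ * (b ^ m)⁻¹ * a = 1 := by rw [← hs]; group
    calc b ^ m = a * (a⁻¹ * (b ^ m)⁻¹ * a)⁻¹ * a⁻¹ := by group
      _ = 1 := by rw [this]; group
  · rw [h'] at hs
    calc a ^ m = b * (b⁻¹ * a ^ m * b) * b⁻¹ := by group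
      _ = 1 := by rw [hs]; group

theorem cor_decomp (h : Sp A B) {a b : G} (c : Cor A B a b) : a = b⁻¹ * a * b⁻¹ * a⁻¹ * b := by
  have hs := h.special a c.1 c.2.1 b c.2.2.1 c.2.2.2.1 c.2.2.2.2
  calc a = b⁻¹ * a * b⁻¹ * (b * a⁻¹ * b * a) := by group
    _ = b⁻¹ * a * b⁻¹ * (b * (a⁻¹ * b⁻¹ * a)⁻¹) := by group
    _ = b⁻¹ * a * b⁻¹ * (b * (b⁻¹ * a * b)⁻¹) := by rw [hs]
    _ = _ := by group

theorem rc_mem {C : Subgroup G} {x : G} (hx : x ∈ C) : rc C x = C := cB_mem_self (inv_mem hx)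

/-- the chain computing the point of `x * a` -/
theorem chain (h : Sp A B) {a b x rx z y2 ru v rv : G} (ca : Cor A B a b) (cx : Cor A B x rx)
    (cz : Cor A B z (rx * b⁻¹)) (c2 : Cor A B (z * a) y2) (cu : Cor A B ru (y2 * b⁻¹))
    (hv : v = ru * a⁻¹) (cv : Cor A B v rv) : rc A (rv * b) = rc B (x * a) := by
  have e := cor_decomp h ca
  calc rc A (rv * b) = rc (rc A rv) b := (rc_mul _ _ _).symm
    _ = rc (rc (rc B ru) a⁻¹) b := by rw [cv.2.2.2.2, hv, ← rc_mul]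
    _ = rc (rc (rc (rc B (z * a)) b⁻¹) a⁻¹) b := by
        rw [← cu.2.2.2.2, ← c2.2.2.2.2, rc_mul A y2]
    _ = rc (rc (rc (rc (rc (rc A rx) b⁻¹) a) b⁻¹) a⁻¹) b := by
        rw [rc_mul A rx, cz.2.2.2.2, rc_mul B z]
    _ = rc (rc A rx) (b⁻¹ * a * b⁻¹ * a⁻¹ * b) := by simp only [rc_mul, mul_assoc]
    _ = rc B (x * a) := by rw [← e, cx.2.2.2.2, rc_mul]

theorem chain_two (h : Sp A B) {a b v rv : G} (ca : Cor A B a b) (hv : v = (a * a)⁻¹) (cv : Cor A B v rv) :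
    rc A (rv * b) = rc B (a * a) := by
  have e := cor_decomp h ca
  calc rc A (rv * b) = rc (rc A rv) b := (rc_mul _ _ _).symm
    _ = rc (rc (rc B a⁻¹) a⁻¹) b := by rw [cv.2.2.2.2, hv, mul_inv_rev, rc_mul B a⁻¹]
    _ = rc (rc (rc (rc A a) b⁻¹) a⁻¹) b := by rw [← (cor_inv h ca).2.2.2.2, rc_mem ca.1]
    _ = rc (rc A b) (b⁻¹ * a * b⁻¹ * a⁻¹ * b) := by simp only [rc_mul, ← mul_assoc, mul_inv_cancel, one_mul]
    _ = rc B (a * a) := by rw [← e, ca.2.2.2.2, rc_mul]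

theorem main : ∀ n : ℕ, 1 ≤ n → ∀ (A B : Subgroup G), Sp A B → ∀ x rx q : G, Cor A B x rx → x ^ n ≠ 1 →
    Cor A B (x ^ n) q → q ^ n = rx := by
  intro n
  induction n using Nat.strong_induction_on with
  | _ n IH =>
  intro hn A B h x rx q cx hxn cq
  have hxA := cx.1
  rcases Nat.lt_or_ge n 2 with h2 | h2
  · obtain rfl : n = 1 := by omega
    rw [pow_one] at cq ⊢
    exact cor_uniq h cq cx
  rcases Nat.lt_or_ge n 3 with h3 | h3
  · obtain rfl : n = 2 := by omega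
    rw [pow_two] at cq ⊢
    have e := chain_two h cx rfl (cor_inv h cq)
    rw [← cq.2.2.2.2] at e
    have := inj_right h (mul_mem (inv_mem cq.2.2.1) cx.2.2.1) cq.2.2.1 e
    calc q * q = q * (q⁻¹ * rx) := by rw [this]
      _ = rx := mul_inv_cancel_left q rx
  obtain ⟨m, rfl⟩ : ∃ m, n = m + 1 := ⟨n - 1, by omega⟩
  -- powers prime to `m`
  have cop : ∀ (C D : Subgroup G), Sp C D → ∀ y ry : G, Cor C D y ry → y ^ m ≠ 1 → ∀ i, y ^ (m * i) = 1 → y ^ i = 1 := by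
    intro C D hCD y ry cy hy i hi
    obtain ⟨q', cq'⟩ := cor_exists hCD (pow_mem cy.1 m) hy
    have e := IH m (by omega) (by omega) C D hCD y ry q' cy hy cq'
    have h1 : q' ^ i = 1 := (pow_eq_one_iff' hCD cq' i).1 (by rw [← pow_mul]; exact hi)
    refine (pow_eq_one_iff' hCD cy i).2 ?_
    rw [← e, ← pow_mul, mul_comm, pow_mul, h1, one_pow]
  by_cases hxm : x ^ m = 1
  · rw [pow_succ, hxm, one_mul] at cq
    rw [cor_uniq h cq cx, pow_succ, (pow_eq_one_iff' h cx m).1 hxm, one_mul]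
  by_cases hxm1 : x ^ (m - 1) = 1
  · have e1 : x ^ (m + 1) = x ^ 2 := by
      rw [show m + 1 = (m - 1) + 2 by omega, pow_add, hxm1, one_mul]
    rw [e1] at cq hxn
    have e := IH 2 (by omega) (by omega) A B h x rx q cx hxn cq
    have hq : q ^ (m - 1) = 1 := (pow_eq_one_iff' h cq _).1 (by rw [← pow_mul, mul_comm, pow_mul, hxm1, one_pow])
    rw [show m + 1 = (m - 1) + 2 by omega, pow_add, hq, one_mul, e]
  -- `a = x ^ m`
  obtain ⟨y', ca⟩ := cor_exists h (pow_mem hxA m) hxm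
  have hy'B := ca.2.2.1
  have hrx : y' ^ m = rx := IH m (by omega) (by omega) A B h x rx y' cx hxm ca
  have hy : y' ^ (m - 1) = rx * y'⁻¹ := by
    rw [← hrx, ← pow_sub_one_mul (show m ≠ 0 by omega) y', mul_inv_cancel_right]
  have hyne : y' ^ (m - 1) ≠ 1 := by
    rw [hy]; intro e
    have e' : rx = y' := mul_inv_eq_one.1 e
    rw [e'] at cx
    have h' := cor_uniq h.symm cx.symm ca.symm
    rw [← pow_sub_one_mul (show m ≠ 0 by omega) x, eq_comm, mul_eq_right] at h'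
    exact hxm1 h'
  obtain ⟨z, cz0⟩ := cor_exists h.symm (pow_mem hy'B (m - 1)) hyne
  have hz : z ^ (m - 1) = x ^ m := IH (m - 1) (by omega) (by omega) B A h.symm y' (x ^ m) z ca.symm hyne cz0
  have hza : z * x ^ m = z ^ m := by
    rw [← hz, ← pow_succ', show m - 1 + 1 = m by omega]
  have hzm : z ^ m ≠ 1 := by
    intro e
    have h1 := (pow_eq_one_iff' h.symm cz0 m).2 e
    rw [← pow_mul, mul_comm] at h1
    exact hyne (cop B A h.symm y' (x ^ m) ca.symm (by rw [hrx]; exact cx.2.2.2.1) (m - 1) h1)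
  obtain ⟨y2, c2⟩ := cor_exists h (show z ^ m ∈ A from pow_mem cz0.2.2.1 m) hzm
  have hy2 : y2 ^ m = y' ^ (m - 1) := IH m (by omega) (by omega) A B h z _ y2 cz0.symm hzm c2
  have hu : (y2 * y'⁻¹) ^ m = y'⁻¹ := by
    rw [(show Commute y2 y'⁻¹ from h.commB _ c2.2.2.1 _ (inv_mem hy'B)).mul_pow, hy2, inv_pow,
      ← pow_sub_one_mul (show m ≠ 0 by omega) y']
    group
  have hum : (y2 * y'⁻¹) ^ m ≠ 1 := by rw [hu]; exact inv_ne_one.2 ca.2.2.2.1
  have hu1 : y2 * y'⁻¹ ≠ 1 := fun e => hum (by rw [e, one_pow])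
  obtain ⟨ru, cu⟩ := cor_exists h.symm (show y2 * y'⁻¹ ∈ B from mul_mem c2.2.2.1 (inv_mem hy'B)) hu1
  have hru : ((x ^ m)⁻¹) ^ m = ru :=
    IH m (by omega) (by omega) B A h.symm _ ru (x ^ m)⁻¹ cu hum (by rw [hu]; exact (cor_inv h ca).symm)
  have hv : ru * (x ^ m)⁻¹ = (((x ^ (m + 1)) ^ m))⁻¹ := by
    rw [← hru, inv_pow, ← mul_inv_rev, ← pow_mul, ← pow_mul, ← pow_add, show m + m * m = (m + 1) * m by ring]
  have hxmm : (x ^ (m + 1)) ^ m ≠ 1 := by
    rw [← pow_mul, mul_comm]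
    exact fun e => hxn (cop A B h x rx cx hxm (m + 1) e)
  obtain ⟨Q, cQ⟩ := cor_exists h (pow_mem cq.1 m) hxmm
  have hQ : Q ^ m = q := IH m (by omega) (by omega) A B h (x ^ (m + 1)) q Q cq hxmm cQ
  have e := chain h ca cx (z := z) (y2 := y2) (ru := ru) (by rw [← hy]; exact cz0.symm) (by rw [hza]; exact c2)
    cu.symm rfl (v := ru * (x ^ m)⁻¹) (rv := Q⁻¹) (by rw [hv]; exact cor_inv h cQ)
  rw [← pow_succ', ← cq.2.2.2.2] at e
  have hq' := inj_right h (mul_mem (inv_mem cQ.2.2.1) hy'B) cq.2.2.1 e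
  calc q ^ (m + 1) = q ^ m * q := pow_succ q m
    _ = (Q⁻¹ * y') ^ m * q := by rw [hq']
    _ = (Q ^ m)⁻¹ * y' ^ m * q := by
        rw [(show Commute Q⁻¹ y' from h.commB _ (inv_mem cQ.2.2.1) _ hy'B).mul_pow, inv_pow]
    _ = rx := by rw [hQ, hrx, mul_assoc, h.commB _ cx.2.2.1 _ cq.2.2.1, inv_mul_cancel_left]

/-- In a special rank one group with abelian unipotent subgroups A and B, either A is an elementary abelian p-group for some prime p, or A is torsion-free and divisible (every element of A has an n-th root in A for every positive n). -/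
theorem result {X : Type*} [Group X] {A B : Subgroup X} (h : Cfsg.IsRankOneGroup X A B)
    (hs : Cfsg.IsSpecialRankOnePair A B) (hab : Cfsg.HasAbelianUnipotents A B) :
    (∃ p : ℕ, p.Prime ∧ Cfsg.IsElementaryAbelian p A) ∨
    ((∀ a ∈ A, a ≠ 1 → ¬ IsOfFinOrder a) ∧ ∀ a ∈ A, ∀ n : ℕ, 0 < n → ∃ c ∈ A, c ^ n = a) := by
  have hA := hab.1
  have hB := hab.2
  have S : Sp A B :=
    { pair := hs.1
      special := hs.2
      commA := fun x hx y hy => congrArg Subtype.val (mul_comm' (⟨x, hx⟩ : A) ⟨y, hy⟩)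
      commB := fun x hx y hy => congrArg Subtype.val (mul_comm' (⟨x, hx⟩ : B) ⟨y, hy⟩) }
  have hord : ∀ a ∈ A, a ≠ 1 → ∀ p : ℕ, p.Prime → ∀ i : ℕ, a ^ p ≠ 1 → a ^ (p * i) = 1 → a ^ i = 1 := by
    intro a ha ha1 p hp i hap hi
    obtain ⟨b, cb⟩ := cor_exists S ha ha1
    obtain ⟨q, cq⟩ := cor_exists S (pow_mem ha p) hap
    have e := main p hp.one_lt.le A B S a b q cb hap cq
    refine (pow_eq_one_iff' S cb i).2 ?_
    rw [← e, ← pow_mul, mul_comm, pow_mul, (pow_eq_one_iff' S cq i).1 (by rw [← pow_mul]; exact hi), one_pow]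
  have hprime : ∀ a ∈ A, a ≠ 1 → IsOfFinOrder a → (orderOf a).Prime := by
    intro a ha ha1 hfin
    have h0 := hfin.orderOf_pos
    have h1 : orderOf a ≠ 1 := fun e => ha1 (orderOf_eq_one_iff.1 e)
    obtain ⟨p, hp, k, hk⟩ := Nat.exists_prime_and_dvd h1
    by_contra hnp
    have hap : a ^ p ≠ 1 := by
      intro e
      rcases (Nat.dvd_prime hp).1 (orderOf_dvd_of_pow_eq_one e) with e1 | e1
      · exact h1 e1
      · exact hnp (e1 ▸ hp)
    have := Nat.le_of_dvd (by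
      rcases Nat.eq_zero_or_pos k with rfl | hk0
      · omega
      · exact hk0) (orderOf_dvd_of_pow_eq_one (hord a ha ha1 p hp k hap (by rw [← hk]; exact pow_orderOf_eq_one a)))
    rw [hk] at this h0
    have := hp.two_le
    nlinarith
  by_cases hex : ∃ a ∈ A, a ≠ 1 ∧ IsOfFinOrder a
  · obtain ⟨a, ha, ha1, hfin⟩ := hex
    have hp := hprime a ha ha1 hfin
    refine Or.inl ⟨orderOf a, hp, hA, fun y hy => ?_⟩
    by_contra hyp
    have hc : Commute a y := S.commA a ha y hy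
    have hap : (a * y) ^ orderOf a ≠ 1 := by rw [hc.mul_pow, pow_orderOf_eq_one, one_mul]; exact hyp
    by_cases hy1 : IsOfFinOrder y
    · have hyne : y ≠ 1 := fun e => hyp (by rw [e, one_pow])
      have hq := hprime y hy hyne hy1
      have hne : a * y ≠ 1 := fun e => hap (by rw [e, one_pow])
      have h1 := hord (a * y) (mul_mem ha hy) hne _ hp (orderOf y) hap
        (by rw [hc.mul_pow, pow_mul, pow_orderOf_eq_one, one_pow, one_mul, mul_comm, pow_mul, pow_orderOf_eq_one, one_pow])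
      rw [hc.mul_pow, pow_orderOf_eq_one, mul_one] at h1
      rcases (Nat.dvd_prime hq).1 (orderOf_dvd_of_pow_eq_one h1) with e | e
      · exact ha1 (orderOf_eq_one_iff.1 e)
      · exact hyp (by rw [e]; exact pow_orderOf_eq_one y)
    · -- take `p`-th roots
      have hroot : ∀ w ∈ A, ¬ IsOfFinOrder w → ∃ c ∈ A, c ^ orderOf a = w := by
        intro w hw hwf
        have hw1 : w ≠ 1 := fun e => hwf (e ▸ IsOfFinOrder.one)
        obtain ⟨b, cb⟩ := cor_exists S hw hw1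
        have hb : b ^ orderOf a ≠ 1 := fun e => hwf (isOfFinOrder_iff_pow_eq_one.2 ⟨_, hp.pos, (pow_eq_one_iff' S cb _).2 e⟩)
        obtain ⟨c, cc⟩ := cor_exists S.symm (pow_mem cb.2.2.1 (orderOf a)) hb
        exact ⟨c, cc.2.2.1, main _ hp.one_lt.le B A S.symm b w c cb.symm hb cc⟩
      have hayf : ¬ IsOfFinOrder (a * y) := by
        intro hf
        apply hy1
        have := (hc.inv_left.mul_right (Commute.refl a⁻¹)).symm
        have h' : y = a⁻¹ * (a * y) := by group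
        rw [h']
        exact Commute.isOfFinOrder_mul (Commute.inv_left ((Commute.refl a).mul_right hc)) (by simpa using hfin) hf
      obtain ⟨c, hcA, hc1⟩ := hroot (a * y) (mul_mem ha hy) hayf
      obtain ⟨d, hdA, hd1⟩ := hroot y hy hy1
      have hu : (c * d⁻¹) ^ orderOf a = a := by
        rw [(show Commute c d⁻¹ from S.commA c hcA _ (inv_mem hdA)).mul_pow, hc1, inv_pow, hd1, mul_inv_cancel_right]
      have hu1 : c * d⁻¹ ≠ 1 := fun e => ha1 (by rw [← hu, e, one_pow])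
      have h1 := hord (c * d⁻¹) (mul_mem hcA (inv_mem hdA)) hu1 _ hp (orderOf a) (by rw [hu]; exact ha1)
        (by rw [pow_mul, hu, pow_orderOf_eq_one])
      exact ha1 (by rw [← hu, h1])
  · push Not at hex
    refine Or.inr ⟨hex, fun a ha n hn => ?_⟩
    by_cases ha1 : a = 1
    · exact ⟨1, one_mem _, by rw [ha1, one_pow]⟩
    obtain ⟨b, cb⟩ := cor_exists S ha ha1
    have hb : b ^ n ≠ 1 := fun e => hex a ha ha1 (isOfFinOrder_iff_pow_eq_one.2 ⟨n, hn, (pow_eq_one_iff' S cb n).2 e⟩)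
    obtain ⟨c, cc⟩ := cor_exists S.symm (pow_mem cb.2.2.1 n) hb
    exact ⟨c, cc.2.2.1, main n hn B A S.symm b a c cb.symm hb cc⟩

end Cfsg.Agent.S5021
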