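import Cfsg.Statements.S5023
import Cfsg.Agent.Lib.RootSub.Quadratic
-- import your own Cfsg.Agent.* helpers here

set_option autoImplicit false
open Cfsg

namespace Cfsg.Agent.S5023

/-- Let X be a rank one group with unipotent subgroups A and B that acts faithfully on an abelian group V (written additively) with A acting quadratically: a' • (a • v − v) = a • v − v for all a, a' in A and v in V. Then A is either torsion-free or an elementary abelian p-group for some prime p. -/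
theorem result {X : Type*} [Group X] {A B : Subgroup X} (h : Cfsg.IsRankOneGroup X A B)
    {V : Type*} [AddCommGroup V] [DistribMulAction X V] (hf : ∀ x : X, (∀ v : V, x • v = v) → x = 1)
    (hq : ∀ a ∈ A, ∀ a' ∈ A, ∀ v : V, a' • (a • v - v) = a • v - v) :
    (∀ a ∈ A, a ≠ 1 → ¬ IsOfFinOrder a) ∨ ∃ p : ℕ, p.Prime ∧ Cfsg.IsElementaryAbelian p A := by
  obtain ⟨hgen, hp⟩ := h
  obtain ⟨a₁, ha₁, ha₁1⟩ := Cfsg.Lib.RootSub.RankOne.exists_ne_one hp
  obtain ⟨b₁, hb₁, -, e₁⟩ := Cfsg.Lib.RootSub.RankOne.exists_left hp ha₁ ha₁1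
  have hB := Cfsg.Lib.RootSub.Quadratic.quadratic_conj hq (a₁⁻¹ * b₁)
  rw [← Cfsg.Lib.RootSub.RankOne.eq_of_conjBy e₁] at hB
  by_cases hfin : ∀ a ∈ A, a ≠ 1 → ¬ IsOfFinOrder a
  · exact Or.inl hfin
  right
  push Not at hfin
  obtain ⟨a, ha, ha1, hao⟩ := hfin
  have hord : orderOf a ≠ 1 := fun e => ha1 (orderOf_eq_one_iff.1 e)
  obtain ⟨p, hp', hpd⟩ := Nat.exists_prime_and_dvd hord
  have h0 : 0 < orderOf a := hao.orderOf_pos
  have ho : orderOf (a ^ (orderOf a / p)) = p := by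
    rw [orderOf_pow' _ (Nat.div_pos (Nat.le_of_dvd h0 hpd) hp'.pos).ne', Nat.gcd_eq_right (Nat.div_dvd_of_dvd hpd),
      Nat.div_div_self hpd h0.ne']
  refine ⟨p, hp', ⟨⟨fun x y => Subtype.ext ?_⟩⟩, fun x hx => ?_⟩
  · refine mul_inv_eq_one.1 (hf _ fun v => ?_)
    have h1 := hq (y : X) y.2 (x : X) x.2 ((y.1 * x.1)⁻¹ • v)
    have h2 := hq (x : X) x.2 (y : X) y.2 ((y.1 * x.1)⁻¹ • v)
    rw [smul_sub] at h1 h2
    show (x.1 * y.1 * (y.1 * x.1)⁻¹) • v = v
    conv_rhs => rw [← smul_inv_smul (y.1 * x.1) v]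
    rw [mul_smul, mul_smul, mul_smul]
    linear_combination (norm := abel) h1 - h2
  · have hpw : (a ^ (orderOf a / p)) ^ p = 1 := by
      have h3 := pow_orderOf_eq_one (a ^ (orderOf a / p))
      rwa [ho] at h3
    refine Cfsg.Lib.RootSub.Quadratic.exponent hq hB hgen hp hf (pow_mem ha (orderOf a / p)) ?_ hpw hx
    · intro e
      rw [e, orderOf_one] at ho
      exact hp'.ne_one ho.symm

end Cfsg.Agent.S5023
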