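import Cfsg.Statements.S5024
import Cfsg.Agent.Lib.RootSub.RankOneLead

set_option autoImplicit false
open Cfsg

namespace Cfsg.Agent.S5024

open Cfsg.Lib.RootSub.RankOneLead

/-- Let S be a set of abstract root subgroups of G, A and C members of S, B a rank one partner of A in S and D a rank one partner of C in S. If the rank one group ⟨A, B⟩ is contained in ⟨C, D⟩ then the two coincide, and C and D are conjugates of A inside ⟨A, B⟩. -/
theorem result {G : Type*} [Group G] {S : Set (Subgroup G)} (hS : Cfsg.IsRootSubgroupSet S)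
    {A B C D : Subgroup G} (hA : A ∈ S) (hC : C ∈ S) (hB : B ∈ Cfsg.rankOnePartners S A) (hD : D ∈ Cfsg.rankOnePartners S C)
    (hle : A ⊔ B ≤ C ⊔ D) : A ⊔ B = C ⊔ D ∧ C ∈ Cfsg.unipotentSubgroups A B ∧ D ∈ Cfsg.unipotentSubgroups A B := by
  obtain ⟨hBS, hAB⟩ := hB
  obtain ⟨hDS, hCD⟩ := hD
  have h1 := mem_points hS hA hC hDS hAB hCD hle
  have h2 := mem_points hS hBS hC hDS (RankOnePair_symm hAB) hCD (sup_comm A B ▸ hle)
  obtain ⟨x, hx, e1, e2⟩ := two_transitive hCD h1 h2 hAB.ne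
  have heq : A ⊔ B = C ⊔ D := by
    refine le_antisymm hle fun g hg => ?_
    have : x * (x⁻¹ * g * x) * x⁻¹ ∈ conjBy (C ⊔ D) x :=
      ⟨_, mul_mem (mul_mem (inv_mem hx) hg) hx, rfl⟩
    rw [conjBy, Subgroup.map_sup] at this
    rw [show x * (x⁻¹ * g * x) * x⁻¹ = g by group] at this
    rw [← e1, ← e2]
    exact this
  refine ⟨heq, ⟨x⁻¹, ?_, ?_⟩, ?_⟩
  · rw [heq]; exact inv_mem hx
  · exact eq_cB_inv e1
  obtain ⟨y, hy, e⟩ := right_mem hCD
  exact ⟨y * x⁻¹, heq ▸ mul_mem hy (inv_mem hx), by rw [e, eq_cB_inv e1, cB_mul]⟩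

end Cfsg.Agent.S5024
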