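import Cfsg.Statements.S5026
import Cfsg.Agent.Lib.RootSub.RankOne
-- import your own Cfsg.Agent.* helpers here

set_option autoImplicit false
open Cfsg

namespace Cfsg.Agent.S5026

/-- Let S be a degenerate set of abstract root subgroups of G (a set of abstract transvection groups) and let a, b be commuting non-identity elements of members of S with a b ≠ 1. Then the members of S centralizing a b are exactly those centralizing both a and b. -/
theorem result {G : Type*} [Group G] {S : Set (Subgroup G)} (hS : Cfsg.IsRootSubgroupSet S) (hdeg : Cfsg.IsDegenerateRootSet S)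
    {a b : G} (ha : a ∈ Cfsg.rootElements S) (hb : b ∈ Cfsg.rootElements S) (hab : a * b = b * a) (hab1 : a * b ≠ 1) :
    Cfsg.centralizingMembers S (Subgroup.zpowers (a * b)) =
      Cfsg.centralizingMembers S (Subgroup.zpowers a) ∩ Cfsg.centralizingMembers S (Subgroup.zpowers b) := by
  obtain ⟨ha1, A, hA, haA⟩ := ha
  obtain ⟨hb1, B, hB, hbB⟩ := hb
  ext E
  simp only [Cfsg.centralizingMembers, Set.mem_setOf_eq, Set.mem_inter_iff, Subgroup.zpowers_eq_closure, Subgroup.centralizer_closure]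
  constructor
  swap
  · rintro ⟨⟨hE, h1⟩, -, h2⟩
    refine ⟨hE, fun x hx => Subgroup.mem_centralizer_singleton_iff.2 ?_⟩
    exact (Commute.mul_right (Subgroup.mem_centralizer_singleton_iff.1 (h1 hx)) (Subgroup.mem_centralizer_singleton_iff.1 (h2 hx)) :)
  rintro ⟨hE, h12⟩
  have hab' : ∀ x ∈ E, x * (a * b) = a * b * x := fun x hx => Subgroup.mem_centralizer_singleton_iff.1 (h12 hx)
  suffices key : ∀ x ∈ E, x * a = a * x by
    refine ⟨⟨hE, fun x hx => Subgroup.mem_centralizer_singleton_iff.2 (key x hx)⟩, hE, fun x hx => Subgroup.mem_centralizer_singleton_iff.2 ?_⟩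
    have h1 := hab' x hx
    rw [← mul_assoc, key x hx, mul_assoc, mul_assoc] at h1
    exact mul_left_cancel h1
  rcases hS.pair E hE A hA with h0 | h0 | h0
  · intro x hx
    exact (Subgroup.mem_centralizer_iff.1 (Subgroup.commutator_eq_bot_iff_le_centralizer.1 h0 hx) a haA).symm
  swap
  · exact absurd h0 (hdeg E hE A hA)
  exfalso
  have h0' := Cfsg.RankOnePair_symm h0
  have hfix : Cfsg.conjBy E (a * b) = E := by
    refine Cfsg.Lib.RootSub.RankOne.mem_normalizer_iff.1 (Subgroup.centralizer_le_normalizer _ ?_)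
    exact Subgroup.mem_centralizer_iff.2 fun x hx => hab' x hx
  rcases hS.pair E hE B hB with h3 | h3 | h3
  · have hb' : Cfsg.conjBy E b = E := by
      refine Cfsg.Lib.RootSub.RankOne.mem_normalizer_iff.1 (Subgroup.centralizer_le_normalizer _ ?_)
      exact Subgroup.mem_centralizer_iff.2 fun x hx =>
        (Subgroup.mem_centralizer_iff.1 (Subgroup.commutator_eq_bot_iff_le_centralizer.1 h3 hx) b hbB).symm
    rw [← Cfsg.Lib.RootSub.RankOne.conjBy_conjBy, hb'] at hfix
    exact ha1 (Cfsg.Lib.RootSub.RankOne.eq_one h0' haA hfix)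
  swap
  · exact absurd h3 (hdeg E hE B hB)
  obtain ⟨e₁, he₁, -, f₁⟩ := Cfsg.Lib.RootSub.RankOne.exists_left h0' (inv_mem haA) (inv_ne_one.2 ha1)
  obtain ⟨e₂, he₂, -, f₂⟩ := Cfsg.Lib.RootSub.RankOne.exists_left (Cfsg.RankOnePair_symm h3) hbB hb1
  have f3 : Cfsg.conjBy E a⁻¹ = Cfsg.conjBy E b := by
    conv_lhs => rw [← hfix, Cfsg.Lib.RootSub.RankOne.conjBy_conjBy, inv_mul_cancel_left]
  have f4 : B = Cfsg.conjBy A (e₂⁻¹ * e₁) := Cfsg.Lib.RootSub.RankOne.eq_of_conjBy (by rw [← f₂, ← f3, f₁])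
  by_cases hε : e₂⁻¹ * e₁ = 1
  · rw [hε, Cfsg.Lib.RootSub.RankOne.conjBy_one] at f4
    subst f4
    exact hab1 (Cfsg.Lib.RootSub.RankOne.eq_one h0' (mul_mem haA hbB) hfix)
  · obtain ⟨a', ha', -, f5⟩ := Cfsg.Lib.RootSub.RankOne.exists_left h0 (mul_mem (inv_mem he₂) he₁) hε
    rw [f5] at f4
    have hbC : b ∈ Cfsg.conjBy E a' := f4 ▸ hbB
    obtain ⟨e₃, he₃, rfl⟩ : ∃ e ∈ E, a' * e * a'⁻¹ = b := by
      obtain ⟨e, he, hh⟩ := hbC
      exact ⟨e, he, by simpa using hh⟩
    have he₃1 : e₃ ≠ 1 := by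
      rintro rfl
      simp at hb1
    have h4 := hab' e₃ he₃
    have hcomm := hS.commutative A hA
    have haa : a * a' = a' * a := Subtype.ext_iff.1 (hcomm.is_comm.comm ⟨a, haA⟩ ⟨a', ha'⟩)
    have h5 : a * e₃ = e₃ * a := by
      have h6 : a' * (a * e₃) * a'⁻¹ = a' * (e₃ * a) * a'⁻¹ := by
        calc a' * (a * e₃) * a'⁻¹ = a' * a * e₃ * a'⁻¹ := by group
          _ = a * (a' * e₃ * a'⁻¹) := by rw [← haa]; group
          _ = a' * e₃ * a'⁻¹ * a := hab
          _ = a' * e₃ * (a'⁻¹ * a * a') * a'⁻¹ := by group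
          _ = a' * (e₃ * a) * a'⁻¹ := by rw [mul_assoc a'⁻¹ a a', haa]; group
      exact mul_left_cancel (mul_right_cancel h6)
    refine he₃1 (Cfsg.Lib.RootSub.RankOne.eq_one h0 he₃ ?_)
    by_contra hne
    have h7 : a ∈ Cfsg.conjBy A e₃ := by
      rw [Cfsg.Lib.RootSub.RankOne.mem_conjBy, mul_assoc, h5, inv_mul_cancel_left]
      exact haA
    obtain ⟨a'', ha'', -, f6⟩ := Cfsg.Lib.RootSub.RankOne.exists_left h0 he₃ he₃1
    rw [f6] at h7
    exact ha1 (Cfsg.Lib.RootSub.RankOne.inf_conjBy h0' ha'' haA h7)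

end Cfsg.Agent.S5026
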