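import Cfsg.Statements.S5027
import Cfsg.Agent.Lib.RootSub.RankOne
-- import your own Cfsg.Agent.* helpers here

set_option autoImplicit false
open Cfsg

namespace Cfsg.Agent.S5027

/-- Let S be a set of abstract root subgroups of G such that every member of S has a rank one partner in S (the graph of rank one pairs on S has no isolated vertex). Then the second centre of G equals its centre. -/
theorem result {G : Type*} [Group G] {S : Set (Subgroup G)} (hS : Cfsg.IsRootSubgroupSet S)
    (hF : ∀ A ∈ S, ¬ Cfsg.IsIsolatedIn (Cfsg.FAdj S) S A) : Subgroup.upperCentralSeries G 2 = Subgroup.center G := by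
  refine le_antisymm ?_ ?_
  swap
  · rw [← Subgroup.upperCentralSeries_one]
    exact Subgroup.upperCentralSeries_mono G (by norm_num)
  intro z hz
  have hcen : ∀ y : G, z * y * z⁻¹ * y⁻¹ ∈ Subgroup.center G := by
    rw [Subgroup.mem_upperCentralSeries_succ_iff] at hz
    intro y
    simpa [Subgroup.upperCentralSeries_one, commutatorElement_def] using hz y
  rw [← Subgroup.centralizer_univ, ← Subgroup.coe_top, ← hS.generates]
  rw [Subgroup.mem_centralizer_iff]
  intro x hx
  have hle : (⨆ A ∈ S, A) ≤ Subgroup.centralizer ({z} : Set G) := by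
    refine iSup₂_le fun A hA a ha => Subgroup.mem_centralizer_singleton_iff.2 ?_
    by_cases ha1 : a = 1
    · simp [ha1]
    obtain ⟨B, hB, hAB⟩ : ∃ B ∈ S, Cfsg.IsRankOnePair A B := by
      by_contra! hno
      refine hF A hA ⟨hA, fun C => ⟨fun hadj => hno C hadj.2.1 hadj.2.2, fun hadj => hno C hadj.1 (Cfsg.RankOnePair_symm hadj.2.2)⟩⟩
    have hc := hcen a
    have hmem : z * a * z⁻¹ * a⁻¹ * a ∈ Cfsg.conjBy A z := by
      rw [Cfsg.Lib.RootSub.RankOne.mem_conjBy]
      simpa [mul_assoc] using ha
    have h1 := (Cfsg.Lib.RootSub.RankOne.root_element hS hB hAB (Subgroup.center_le_centralizer _ hc) ha ha1 (hS.conj_mem A hA z) hmem).1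
    rw [mul_inv_eq_one, mul_inv_eq_iff_eq_mul] at h1
    exact h1.symm
  exact (Subgroup.mem_centralizer_singleton_iff.1 (hle hx))

end Cfsg.Agent.S5027
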