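import Cfsg.Statements.S5028
import Cfsg.Agent.Lib.RootSub.RankOne
-- import your own Cfsg.Agent.* helpers here

set_option autoImplicit false
open Cfsg

namespace Cfsg.Agent.S5028

/-- Let S be a set of abstract root subgroups of G and A a member of S having a rank one partner in S. Then A meets every other member of S trivially. -/
theorem result {G : Type*} [Group G] {S : Set (Subgroup G)} (hS : Cfsg.IsRootSubgroupSet S)
    {A : Subgroup G} (hA : ¬ Cfsg.IsIsolatedIn (Cfsg.FAdj S) S A) (hAS : A ∈ S) : ∀ B ∈ S, A ⊓ B = ⊥ ∨ A = B := by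
  intro B hB
  by_contra! hne
  obtain ⟨hbot, hAB⟩ := hne
  obtain ⟨d, hd, hd1⟩ := (Subgroup.bot_or_exists_ne_one (A ⊓ B)).resolve_left hbot
  obtain ⟨C, hC, hAC⟩ : ∃ C ∈ S, Cfsg.IsRankOnePair A C := by
    by_contra! hno
    refine hA ⟨hAS, fun C => ⟨fun hadj => hno C hadj.2.1 hadj.2.2, fun hadj => hno C hadj.1 (Cfsg.RankOnePair_symm hadj.2.2)⟩⟩
  exact hAB (Cfsg.Lib.RootSub.RankOne.root_element hS hC hAC (z := 1) (one_mem _) hd.1 hd1 hB (by simpa using hd.2)).2.symm

end Cfsg.Agent.S5028
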