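import Cfsg.Statements.S5030
import Mathlib
import Cfsg.Agent.Lib.RootSub.RankOne
import Cfsg.Agent.Lib.RootSub.Commutator

set_option autoImplicit false
open Cfsg
open scoped Pointwise commutatorElement

namespace Cfsg.Agent.S5030

open Cfsg.Lib.RootSub.Commutator

variable {G : Type*} [Group G]

lemma comm_closure_le {s : Set G} {K D : Subgroup G} (hn : ∀ x ∈ s, x ∈ Subgroup.normalizer (D : Set G))
    (h : ∀ x ∈ s, ∀ k ∈ K, ⁅x, k⁆ ∈ D) : ⁅Subgroup.closure s, K⁆ ≤ D := by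
  refine Subgroup.commutator_le.2 fun x hx k hk => ?_
  suffices H : x ∈ Subgroup.normalizer (D : Set G) ∧ ⁅x, k⁆ ∈ D from H.2
  induction hx using Subgroup.closure_induction with
  | mem y hy => exact ⟨hn y hy, h y hy k hk⟩
  | one => exact ⟨one_mem _, by simp [commutatorElement_def]⟩
  | mul y z _ _ hy hz =>
    refine ⟨mul_mem hy.1 hz.1, ?_⟩
    have h1 : y * ⁅z, k⁆ * y⁻¹ ∈ D := (Subgroup.mem_normalizer_iff.1 hy.1 _).1 hz.2
    have e : ⁅y * z, k⁆ = (y * ⁅z, k⁆ * y⁻¹) * ⁅y, k⁆ := by simp only [commutatorElement_def]; group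
    rw [e]; exact mul_mem h1 hy.2
  | inv y _ hy =>
    refine ⟨inv_mem hy.1, ?_⟩
    have h1 := (Subgroup.mem_normalizer_iff.1 (inv_mem hy.1) _).1 (inv_mem hy.2)
    have e : ⁅y⁻¹, k⁆ = y⁻¹ * ⁅y, k⁆⁻¹ * y⁻¹⁻¹ := by simp only [commutatorElement_def]; group
    rw [e]; exact h1

lemma comm_sup_le {H₁ H₂ K D : Subgroup G} (n₁ : H₁ ≤ Subgroup.normalizer (D : Set G))
    (n₂ : H₂ ≤ Subgroup.normalizer (D : Set G)) (h₁ : ⁅H₁, K⁆ ≤ D) (h₂ : ⁅H₂, K⁆ ≤ D) : ⁅H₁ ⊔ H₂, K⁆ ≤ D := by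
  rw [Subgroup.sup_eq_closure]
  exact comm_closure_le (fun x hx => hx.elim (fun h => n₁ h) (fun h => n₂ h))
    fun x hx k hk => hx.elim (fun h => h₁ (Subgroup.commutator_mem_commutator h hk))
      (fun h => h₂ (Subgroup.commutator_mem_commutator h hk))

lemma normalizer_of_comm {H K : Subgroup G} (h : ⁅H, K⁆ ≤ K) : H ≤ Subgroup.normalizer (K : Set G) := by
  have key : ∀ x ∈ H, ∀ k ∈ K, x * k * x⁻¹ ∈ K := fun x hx k hk => by
    have h1 := mul_mem (h (Subgroup.commutator_mem_commutator hx hk)) hk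
    rwa [show ⁅x, k⁆ * k = x * k * x⁻¹ by simp only [commutatorElement_def]; group] at h1
  intro x hx
  refine Subgroup.mem_normalizer_iff.2 fun k => ⟨key x hx k, fun hk => ?_⟩
  simpa [mul_assoc] using key x⁻¹ (inv_mem hx) _ hk

lemma cen_iff {H K : Subgroup G} : H ≤ Subgroup.centralizer (K : Set G) ↔ ∀ h ∈ H, ∀ k ∈ K, h * k = k * h :=
  ⟨fun h x hx k hk => (h hx k hk).symm, fun h x hx k hk => (h x hx k hk).symm⟩

lemma cen_symm {H K : Subgroup G} (h : H ≤ Subgroup.centralizer (K : Set G)) : K ≤ Subgroup.centralizer (H : Set G) :=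
  Subgroup.le_centralizer_iff.1 h

lemma cen_sup {H K₁ K₂ : Subgroup G} (h₁ : H ≤ Subgroup.centralizer (K₁ : Set G))
    (h₂ : H ≤ Subgroup.centralizer (K₂ : Set G)) : H ≤ Subgroup.centralizer ((K₁ ⊔ K₂ : Subgroup G) : Set G) :=
  cen_symm (sup_le (cen_symm h₁) (cen_symm h₂))

lemma cen_bot {H K : Subgroup G} : ⁅H, K⁆ = ⊥ ↔ H ≤ Subgroup.centralizer (K : Set G) :=
  Subgroup.commutator_eq_bot_iff_le_centralizer

lemma cen_norm {H K : Subgroup G} (h : H ≤ Subgroup.centralizer (K : Set G)) : H ≤ Subgroup.normalizer (K : Set G) :=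
  h.trans (Subgroup.centralizer_le_normalizer _)

lemma cen_commutator {H A B : Subgroup G} (h₁ : H ≤ Subgroup.centralizer (A : Set G))
    (h₂ : H ≤ Subgroup.centralizer (B : Set G)) : H ≤ Subgroup.centralizer ((⁅A, B⁆ : Subgroup G) : Set G) :=
  (cen_sup h₁ h₂).trans (Subgroup.centralizer_le (Subgroup.commutator_le_sup _ _))

lemma self_cen {S : Set (Subgroup G)} (hS : IsRootSubgroupSet S) {A : Subgroup G} (hA : A ∈ S) :
    A ≤ Subgroup.centralizer (A : Set G) :=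
  cen_iff.2 fun x hx y hy => congrArg Subtype.val ((hS.commutative A hA).is_comm.comm ⟨x, hx⟩ ⟨y, hy⟩)

lemma abelian_of_cen {K : Subgroup G} (h : K ≤ Subgroup.centralizer (K : Set G)) : IsMulCommutative ↥K :=
  ⟨⟨fun x y => Subtype.ext (cen_iff.1 h x x.2 y y.2)⟩⟩

variable {S : Set (Subgroup G)}

lemma half (hS : IsRootSubgroupSet S) {A B C : Subgroup G} (hA : A ∈ S) (hB : B ∈ S) (hC : C ∈ S)
    (hAB : ⁅A, B⁆ ∈ S) (hBC : ⁅B, C⁆ ∈ S) (hAC : A ≤ Subgroup.centralizer (C : Set G)) :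
    (A ≤ Subgroup.centralizer ((⁅A, ⁅B, C⁆⁆ : Subgroup G) : Set G) ∧
      ⁅B, C⁆ ≤ Subgroup.centralizer ((⁅A, ⁅B, C⁆⁆ : Subgroup G) : Set G) ∧
      C ≤ Subgroup.centralizer ((⁅A, ⁅B, C⁆⁆ : Subgroup G) : Set G)) ∧
    (A ≤ Subgroup.centralizer ((⁅B, C⁆ : Subgroup G) : Set G) →
      ⁅A, B⁆ ≤ Subgroup.centralizer (C : Set G)) := by
  have hc := comm_case hS hB hC hBC
  have hQC : ⁅B, C⁆ ≤ Subgroup.centralizer (C : Set G) :=
    cen_iff.2 fun q hq c hc' => hc.2.1 q hq c (Subgroup.mem_sup_right hc')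
  have hQB : ⁅B, C⁆ ≤ Subgroup.centralizer (B : Set G) :=
    cen_iff.2 fun q hq c hc' => hc.2.1 q hq c (Subgroup.mem_sup_left hc')
  constructor
  · refine (fun (h : A ≤ Subgroup.centralizer ((⁅A, ⁅B, C⁆⁆ : Subgroup G) : Set G) ∧
        ⁅B, C⁆ ≤ Subgroup.centralizer ((⁅A, ⁅B, C⁆⁆ : Subgroup G) : Set G)) =>
      ⟨h.1, h.2, cen_commutator (cen_symm hAC) (cen_symm hQC)⟩) ?_
    rcases hS.pair A hA _ hBC with e | e | e
    · rw [e]
      exact ⟨cen_iff.2 fun x _ k hk => by rw [Subgroup.mem_bot.1 hk, mul_one, one_mul],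
        cen_iff.2 fun x _ k hk => by rw [Subgroup.mem_bot.1 hk, mul_one, one_mul]⟩
    swap
    · exact ⟨cen_iff.2 fun x hx k hk => (e.2.1 k hk x (Subgroup.mem_sup_left hx)).symm,
        cen_iff.2 fun x hx k hk => (e.2.1 k hk x (Subgroup.mem_sup_right hx)).symm⟩
    · exfalso
      obtain ⟨b, hb, hb1⟩ := (Subgroup.bot_or_exists_ne_one B).resolve_left (hS.ne_bot B hB)
      refine hS.ne_bot _ hBC ?_
      rw [← hc.2.2.1 b⁻¹ (inv_mem hb) (inv_ne_one.2 hb1), Subgroup.closure_eq_bot_iff]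
      rintro _ ⟨c, hc', rfl⟩
      show b⁻¹ * c * b⁻¹⁻¹ * c⁻¹ = 1
      by_contra hq1
      have hq : b⁻¹ * c * b⁻¹⁻¹ * c⁻¹ ∈ ⁅B, C⁆ := Subgroup.commutator_mem_commutator (inv_mem hb) hc'
      have hmem : c * (b⁻¹ * c * b⁻¹⁻¹ * c⁻¹) ∈ conjBy C b⁻¹ := by
        rw [← cen_iff.1 hQC _ hq c hc']
        exact ⟨c, hc', by simp [mul_assoc]⟩
      have hz : c ∈ Subgroup.centralizer ((⁅B, C⁆ ⊔ A : Subgroup G) : Set G) :=
        cen_sup (cen_symm hQC) (cen_symm hAC) hc'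
      have h1 := (Cfsg.Lib.RootSub.RankOne.root_element hS hA (Cfsg.RankOnePair_symm e) hz hq hq1
        (hS.conj_mem C hC _) hmem).1
      exact hq1 (by rw [h1]; group)
  · intro hAQ
    refine Subgroup.commutator_le.2 fun a ha b hb => Subgroup.mem_centralizer_iff.2 fun c hc' => ?_
    have hq : b⁻¹ * c * b⁻¹⁻¹ * c⁻¹ ∈ ⁅B, C⁆ := Subgroup.commutator_mem_commutator (inv_mem hb) hc'
    set q := c * b * c⁻¹ * b⁻¹ with hqdef
    have hq' : q ∈ ⁅B, C⁆ := by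
      rw [Subgroup.commutator_comm]; exact Subgroup.commutator_mem_commutator hc' hb
    have k1 : a * q = q * a := cen_iff.1 hAQ a ha q hq'
    have k2 : q * b = b * q := cen_iff.1 hQB q hq' b hb
    have k3 : a * c = c * a := cen_iff.1 hAC a ha c hc'
    have e1 : c * ⁅a, b⁆ * c⁻¹ = ⁅c * a * c⁻¹, c * b * c⁻¹⁆ := by simp only [commutatorElement_def]; group
    have e2 : c * a * c⁻¹ = a := by rw [← k3, mul_inv_cancel_right]
    have e3 : c * b * c⁻¹ = q * b := by rw [hqdef]; group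
    rw [e2, e3] at e1
    have e4 : ⁅a, q * b⁆ = ⁅a, b⁆ := by
      calc ⁅a, q * b⁆ = (a * q) * b * a⁻¹ * (b⁻¹ * q⁻¹) := by simp only [commutatorElement_def]; group
        _ = (q * a) * b * a⁻¹ * (q * b)⁻¹ := by rw [k1]; group
        _ = q * ⁅a, b⁆ * q⁻¹ := by simp only [commutatorElement_def]; group
        _ = ⁅a, b⁆ := by
          have hx : ⁅a, b⁆ ∈ Subgroup.centralizer ({q} : Set G) := by
            have ha' : a ∈ Subgroup.centralizer ({q} : Set G) := Subgroup.mem_centralizer_singleton_iff.2 k1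
            have hb' : b ∈ Subgroup.centralizer ({q} : Set G) := Subgroup.mem_centralizer_singleton_iff.2 k2.symm
            simp only [commutatorElement_def]
            exact mul_mem (mul_mem (mul_mem ha' hb') (inv_mem ha')) (inv_mem hb')
          rw [← Subgroup.mem_centralizer_singleton_iff.1 hx, mul_inv_cancel_right]
    rw [e4, mul_inv_eq_iff_eq_mul] at e1
    exact e1

lemma nilpotent_of_chain (R : Subgroup G) (K : ℕ → Subgroup G) (h0 : R ≤ K 0) (hstep : ∀ i, ⁅K i, R⁆ ≤ K (i + 1))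
    (n : ℕ) (hn : K n = ⊥) : Group.IsNilpotent ↥R := by
  have key : ∀ i, ((⊤ : Subgroup ↥R).lowerCentralSeries i).map R.subtype ≤ K i := by
    intro i
    induction i with
    | zero => exact (Subgroup.map_subtype_le _).trans h0
    | succ i ih =>
      rw [Subgroup.lowerCentralSeries_succ, Subgroup.map_commutator, ← MonoidHom.range_eq_map, Subgroup.range_subtype]
      exact (Subgroup.commutator_mono ih le_rfl).trans (hstep i)
  refine Subgroup.nilpotent_iff_lowerCentralSeries.2 ⟨n, ?_⟩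
  have h := key n
  rw [hn, le_bot_iff, Subgroup.map_eq_bot_iff_of_injective _ R.subtype_injective] at h
  exact h


/-- Let S be a set of abstract root subgroups of G and A, B, C ∈ S with ⁅A, B⁆ ∈ S and ⁅B, C⁆ ∈ S, where A and C are different and commute. For a non-identity b ∈ B put X = ⟨A, b⁻¹ C b⟩ and Y = ⟨b⁻¹ A b, C⟩ and R = ⟨A, B, C⟩. Then X and Y are either both abelian or both nilpotent of class exactly two; X and Y commute elementwise; XY is normal in R with R = (XY) B; and R is nilpotent. -/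
theorem result {G : Type*} [Group G] {S : Set (Subgroup G)} (hS : Cfsg.IsRootSubgroupSet S)
    {A B C : Subgroup G} (hA : A ∈ S) (hB : B ∈ S) (hC : C ∈ S) (hAB : ⁅A, B⁆ ∈ S) (hBC : ⁅B, C⁆ ∈ S)
    (hAC : C ∈ Cfsg.commutingPartners S A)
    {b : G} (hb : b ∈ B) (hb1 : b ≠ 1) :
    ((IsMulCommutative ↥(A ⊔ Cfsg.conjBy C b⁻¹) ∧ IsMulCommutative ↥(Cfsg.conjBy A b⁻¹ ⊔ C)) ∨
      ((¬ IsMulCommutative ↥(A ⊔ Cfsg.conjBy C b⁻¹) ∧
          ⁅⁅A ⊔ Cfsg.conjBy C b⁻¹, A ⊔ Cfsg.conjBy C b⁻¹⁆, A ⊔ Cfsg.conjBy C b⁻¹⁆ = ⊥) ∧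
        (¬ IsMulCommutative ↥(Cfsg.conjBy A b⁻¹ ⊔ C) ∧
          ⁅⁅Cfsg.conjBy A b⁻¹ ⊔ C, Cfsg.conjBy A b⁻¹ ⊔ C⁆, Cfsg.conjBy A b⁻¹ ⊔ C⁆ = ⊥))) ∧
    ⁅A ⊔ Cfsg.conjBy C b⁻¹, Cfsg.conjBy A b⁻¹ ⊔ C⁆ = ⊥ ∧
    (∀ r ∈ A ⊔ B ⊔ C, Cfsg.conjBy ((A ⊔ Cfsg.conjBy C b⁻¹) ⊔ (Cfsg.conjBy A b⁻¹ ⊔ C)) r =
      (A ⊔ Cfsg.conjBy C b⁻¹) ⊔ (Cfsg.conjBy A b⁻¹ ⊔ C)) ∧
    ((A ⊔ Cfsg.conjBy C b⁻¹) ⊔ (Cfsg.conjBy A b⁻¹ ⊔ C)) ⊔ B = A ⊔ B ⊔ C ∧
    Group.IsNilpotent ↥(A ⊔ B ⊔ C) := by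
  have hcAB := comm_case hS hA hB hAB
  have hcBC := comm_case hS hB hC hBC
  have cAC : A ≤ Subgroup.centralizer (C : Set G) := cen_bot.1 hAC.2.2
  obtain ⟨⟨hAU, hQU, hCU⟩, hUT⟩ := half hS hA hB hC hAB hBC cAC
  obtain ⟨⟨hCT', hPT', hAT'⟩, hTU⟩ := half hS hC hB hA (by rw [Subgroup.commutator_comm]; exact hBC)
    (by rw [Subgroup.commutator_comm]; exact hAB) (cen_symm cAC)
  set P := ⁅A, B⁆ with hP
  set Q := ⁅B, C⁆ with hQ
  rw [Subgroup.commutator_comm B A, ← hP, Subgroup.commutator_comm C P] at hCT' hPT' hAT'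
  rw [Subgroup.commutator_comm B A, ← hP, Subgroup.commutator_comm C B, ← hQ] at hTU
  set U := ⁅A, Q⁆ with hU
  set T := ⁅P, C⁆ with hT
  set Ab := conjBy A b⁻¹ with hAb
  set Cb := conjBy C b⁻¹ with hCb
  have cPA : P ≤ Subgroup.centralizer (A : Set G) :=
    cen_iff.2 fun x hx a ha => hcAB.2.1 x hx a (Subgroup.mem_sup_left ha)
  have cPB : P ≤ Subgroup.centralizer (B : Set G) :=
    cen_iff.2 fun x hx a ha => hcAB.2.1 x hx a (Subgroup.mem_sup_right ha)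
  have cQB : Q ≤ Subgroup.centralizer (B : Set G) :=
    cen_iff.2 fun x hx a ha => hcBC.2.1 x hx a (Subgroup.mem_sup_left ha)
  have cQC : Q ≤ Subgroup.centralizer (C : Set G) :=
    cen_iff.2 fun x hx a ha => hcBC.2.1 x hx a (Subgroup.mem_sup_right ha)
  have mAb : ∀ a ∈ A, b⁻¹ * a * b ∈ Ab := fun a ha => ⟨a, ha, by simp⟩
  have mCb : ∀ c ∈ C, b⁻¹ * c * b ∈ Cb := fun a ha => ⟨a, ha, by simp⟩
  have hAbP : Ab ≤ A ⊔ P := by
    rintro _ ⟨a, ha, rfl⟩
    show b⁻¹ * a * b⁻¹⁻¹ ∈ A ⊔ P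
    have h1 : ⁅b⁻¹, a⁆ ∈ P := by
      rw [hP, Subgroup.commutator_comm]; exact Subgroup.commutator_mem_commutator (inv_mem hb) ha
    have h2 := mul_mem (Subgroup.mem_sup_right (S := A) h1) (Subgroup.mem_sup_left (T := P) ha)
    rwa [show ⁅b⁻¹, a⁆ * a = b⁻¹ * a * b⁻¹⁻¹ by simp only [commutatorElement_def]; group] at h2
  have hCbQ : Cb ≤ C ⊔ Q := by
    rintro _ ⟨a, ha, rfl⟩
    show b⁻¹ * a * b⁻¹⁻¹ ∈ C ⊔ Q
    have h1 : ⁅b⁻¹, a⁆ ∈ Q := Subgroup.commutator_mem_commutator (inv_mem hb) ha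
    have h2 := mul_mem (Subgroup.mem_sup_right (S := C) h1) (Subgroup.mem_sup_left (T := Q) ha)
    rwa [show ⁅b⁻¹, a⁆ * a = b⁻¹ * a * b⁻¹⁻¹ by simp only [commutatorElement_def]; group] at h2
  have hPle : P ≤ A ⊔ Ab := by
    conv_lhs => rw [hP, ← hcAB.2.2.2 b⁻¹ (inv_mem hb) (inv_ne_one.2 hb1)]
    rw [Subgroup.closure_le]
    rintro _ ⟨a, ha, rfl⟩
    show a * b⁻¹ * a⁻¹ * b⁻¹⁻¹ ∈ A ⊔ Ab
    rw [show a * b⁻¹ * a⁻¹ * b⁻¹⁻¹ = a * (b⁻¹ * a⁻¹ * b) by group]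
    exact mul_mem (Subgroup.mem_sup_left ha) (Subgroup.mem_sup_right (mAb _ (inv_mem ha)))
  have hQle : Q ≤ C ⊔ Cb := by
    conv_lhs => rw [hQ, ← hcBC.2.2.1 b⁻¹ (inv_mem hb) (inv_ne_one.2 hb1)]
    rw [Subgroup.closure_le]
    rintro _ ⟨a, ha, rfl⟩
    show b⁻¹ * a * b⁻¹⁻¹ * a⁻¹ ∈ C ⊔ Cb
    rw [inv_inv]
    exact mul_mem (Subgroup.mem_sup_right (mCb _ ha)) (Subgroup.mem_sup_left (inv_mem ha))
  have cA := self_cen hS hA
  have cC := self_cen hS hC
  have cAAb : A ≤ Subgroup.centralizer (Ab : Set G) :=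
    (cen_sup cA (cen_symm cPA)).trans (Subgroup.centralizer_le hAbP)
  have cCCb : C ≤ Subgroup.centralizer (Cb : Set G) :=
    (cen_sup cC (cen_symm cQC)).trans (Subgroup.centralizer_le hCbQ)
  have cAbCb : Ab ≤ Subgroup.centralizer (Cb : Set G) := by
    rw [← cen_bot]
    show ⁅A.map _, C.map _⁆ = ⊥
    rw [← Subgroup.map_commutator, cen_bot.2 cAC, Subgroup.map_bot]
  set X := A ⊔ Cb with hX
  set Y := Ab ⊔ C with hY
  have cXY : X ≤ Subgroup.centralizer (Y : Set G) :=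
    sup_le (cen_sup cAAb cAC) (cen_sup (cen_symm cAbCb) (cen_symm cCCb))
  have cUCb : Cb ≤ Subgroup.centralizer (U : Set G) := hCbQ.trans (sup_le hCU hQU)
  have cUX : X ≤ Subgroup.centralizer (U : Set G) := sup_le hAU cUCb
  have cTAb : Ab ≤ Subgroup.centralizer (T : Set G) := hAbP.trans (sup_le hAT' hPT')
  have cTY : Y ≤ Subgroup.centralizer (T : Set G) := sup_le cTAb hCT'
  have hACb : ⁅A, Cb⁆ ≤ U := by
    rw [Subgroup.commutator_comm]
    refine (Subgroup.commutator_mono hCbQ le_rfl).trans (comm_sup_le (cen_norm hCU) (cen_norm hQU) ?_ ?_)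
    · rw [cen_bot.2 (cen_symm cAC)]; exact bot_le
    · rw [Subgroup.commutator_comm]
  have hAbC : ⁅Ab, C⁆ ≤ T := by
    refine (Subgroup.commutator_mono hAbP le_rfl).trans (comm_sup_le (cen_norm hAT') (cen_norm hPT') ?_ le_rfl)
    rw [cen_bot.2 cAC]; exact bot_le
  have hUACb : U ≤ ⁅A, Cb⁆ := by
    rw [hU, Subgroup.commutator_comm]
    refine (Subgroup.commutator_mono hQle le_rfl).trans (comm_sup_le (cen_norm (cen_commutator (cen_symm cAC) cCCb))
      (Subgroup.normalizer_commutator_ge_right _ _) ?_ ?_)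
    · rw [cen_bot.2 (cen_symm cAC)]; exact bot_le
    · rw [Subgroup.commutator_comm]
  have hTAbC : T ≤ ⁅Ab, C⁆ := by
    refine (Subgroup.commutator_mono hPle le_rfl).trans (comm_sup_le (cen_norm (cen_commutator cAAb cAC))
      (Subgroup.normalizer_commutator_ge_left _ _) ?_ le_rfl)
    rw [cen_bot.2 cAC]; exact bot_le
  have hUX : U ≤ X := hUACb.trans (Subgroup.commutator_le_sup _ _)
  have hTY : T ≤ Y := hTAbC.trans (Subgroup.commutator_le_sup _ _)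
  have cCbCb : Cb ≤ Subgroup.centralizer (Cb : Set G) := self_cen hS (hS.conj_mem C hC _)
  have cAbAb : Ab ≤ Subgroup.centralizer (Ab : Set G) := self_cen hS (hS.conj_mem A hA _)
  have hXX : ⁅X, X⁆ ≤ U := by
    refine comm_sup_le (cen_norm hAU) (cen_norm cUCb) ?_ ?_ <;> rw [Subgroup.commutator_comm] <;>
      refine comm_sup_le (cen_norm hAU) (cen_norm cUCb) ?_ ?_
    · rw [cen_bot.2 cA]; exact bot_le
    · rw [Subgroup.commutator_comm]; exact hACb
    · exact hACb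
    · rw [cen_bot.2 cCbCb]; exact bot_le
  have hYY : ⁅Y, Y⁆ ≤ T := by
    refine comm_sup_le (cen_norm cTAb) (cen_norm hCT') ?_ ?_ <;> rw [Subgroup.commutator_comm] <;>
      refine comm_sup_le (cen_norm cTAb) (cen_norm hCT') ?_ ?_
    · rw [cen_bot.2 cAbAb]; exact bot_le
    · rw [Subgroup.commutator_comm]; exact hAbC
    · exact hAbC
    · rw [cen_bot.2 cC]; exact bot_le
  have hXab : IsMulCommutative ↥X ↔ A ≤ Subgroup.centralizer (Q : Set G) := by
    constructor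
    · intro h
      refine (cen_sup cAC (cen_iff.2 fun a ha c hc => ?_)).trans (Subgroup.centralizer_le hQle)
      exact congrArg Subtype.val (h.is_comm.comm ⟨a, Subgroup.mem_sup_left ha⟩ ⟨c, Subgroup.mem_sup_right hc⟩)
    · intro h
      refine abelian_of_cen ?_
      rw [← cen_bot, eq_bot_iff, ← cen_bot.2 h]
      exact hXX
  have hYab : IsMulCommutative ↥Y ↔ P ≤ Subgroup.centralizer (C : Set G) := by
    constructor
    · intro h
      refine hPle.trans (sup_le cAC (cen_iff.2 fun a ha c hc => ?_))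
      exact congrArg Subtype.val (h.is_comm.comm ⟨a, Subgroup.mem_sup_left ha⟩ ⟨c, Subgroup.mem_sup_right hc⟩)
    · intro h
      refine abelian_of_cen ?_
      rw [← cen_bot, eq_bot_iff, ← cen_bot.2 h]
      exact hYY
  have hiff : IsMulCommutative ↥X ↔ IsMulCommutative ↥Y := by
    rw [hXab, hYab]
    exact ⟨hUT, fun h => cen_symm (hTU (cen_symm h))⟩
  set N := X ⊔ Y with hN
  set D := U ⊔ T with hD
  have hXUY : Y ≤ Subgroup.centralizer (U : Set G) := (cen_symm cXY).trans (Subgroup.centralizer_le hUX)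
  have hYTX : X ≤ Subgroup.centralizer (T : Set G) := cXY.trans (Subgroup.centralizer_le hTY)
  have cND : N ≤ Subgroup.centralizer (D : Set G) := sup_le (cen_sup cUX hYTX) (cen_sup hXUY cTY)
  have hDN : D ≤ N := sup_le (hUX.trans le_sup_left) (hTY.trans le_sup_right)
  have nX : X ≤ Subgroup.normalizer (D : Set G) := cen_norm (le_sup_left.trans cND)
  have nY : Y ≤ Subgroup.normalizer (D : Set G) := cen_norm (le_sup_right.trans cND)
  have hNN : ⁅N, N⁆ ≤ D := by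
    refine comm_sup_le nX nY ?_ ?_ <;> rw [Subgroup.commutator_comm] <;> refine comm_sup_le nX nY ?_ ?_
    · exact hXX.trans le_sup_left
    · rw [cen_bot.2 (cen_symm cXY)]; exact bot_le
    · rw [cen_bot.2 cXY]; exact bot_le
    · exact hYY.trans le_sup_right
  have hPN : P ≤ N := hPle.trans (sup_le (le_sup_left.trans le_sup_left) (le_sup_left.trans le_sup_right))
  have hQN : Q ≤ N := hQle.trans (sup_le (le_sup_right.trans le_sup_right) (le_sup_right.trans le_sup_left))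
  set W := ⁅P, Q⁆ with hW
  have hWD : W ≤ D := (Subgroup.commutator_mono hPN hQN).trans hNN
  have cNW : N ≤ Subgroup.centralizer (W : Set G) := cND.trans (Subgroup.centralizer_le hWD)
  have cBW : B ≤ Subgroup.centralizer (W : Set G) := cen_commutator (cen_symm cPB) (cen_symm cQB)
  have hAN : A ≤ N := le_sup_left.trans le_sup_left
  have hCN : C ≤ N := le_sup_right.trans le_sup_right
  have hUB : ⁅U, B⁆ ≤ W := by
    rw [hU, Subgroup.commutator_def A Q]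
    refine comm_closure_le ?_ ?_
    · rintro _ ⟨a, ha, q, hq, rfl⟩
      exact cen_norm cNW (hDN (Subgroup.mem_sup_left (Subgroup.commutator_mem_commutator ha hq)))
    · rintro _ ⟨a, ha, q, hq, rfl⟩ b' hb'
      have hu : ⁅a, q⁆ ∈ N := hDN (Subgroup.mem_sup_left (Subgroup.commutator_mem_commutator ha hq))
      have hp : ⁅b', a⁆ ∈ P := by
        rw [hP, Subgroup.commutator_comm]; exact Subgroup.commutator_mem_commutator hb' ha
      have hw : ⁅⁅b', a⁆, q⁆ ∈ W := Subgroup.commutator_mem_commutator hp hq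
      have k1 : ⁅b', a⁆ * ⁅a, q⁆ = ⁅a, q⁆ * ⁅b', a⁆ :=
        cen_iff.1 cND _ (hPN hp) _ (Subgroup.mem_sup_left (Subgroup.commutator_mem_commutator ha hq))
      have k2 : b'⁻¹ * q = q * b'⁻¹ := (cen_iff.1 cQB q hq _ (inv_mem hb')).symm
      have e1 : b' * ⁅a, q⁆ * b'⁻¹ = ⁅a, q⁆ * ⁅⁅b', a⁆, q⁆ := by
        calc b' * ⁅a, q⁆ * b'⁻¹ = (b' * a) * q * (a⁻¹ * (q⁻¹ * b'⁻¹)) := by simp only [commutatorElement_def]; group
          _ = (b' * a * b'⁻¹) * (b' * q * b'⁻¹) * (b' * a * b'⁻¹)⁻¹ * (b' * q * b'⁻¹)⁻¹ := by group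
          _ = (⁅b', a⁆ * a) * q * (⁅b', a⁆ * a)⁻¹ * q⁻¹ := by
            rw [show b' * q * b'⁻¹ = q by rw [mul_assoc, ← k2, mul_inv_cancel_left]]
            simp only [commutatorElement_def]; group
          _ = ⁅b', a⁆ * ⁅a, q⁆ * ⁅b', a⁆⁻¹ * ⁅⁅b', a⁆, q⁆ := by simp only [commutatorElement_def]; group
          _ = _ := by rw [k1, mul_inv_cancel_right]
      have e2 : ⁅⁅a, q⁆, b'⁆ = ⁅⁅b', a⁆, q⁆⁻¹ := by
        calc ⁅⁅a, q⁆, b'⁆ = ⁅a, q⁆ * (b' * ⁅a, q⁆ * b'⁻¹)⁻¹ := by simp only [commutatorElement_def]; group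
          _ = ⁅a, q⁆ * ⁅⁅b', a⁆, q⁆⁻¹ * ⁅a, q⁆⁻¹ := by rw [e1]; group
          _ = _ := by rw [cen_iff.1 cNW _ hu _ (inv_mem hw), mul_inv_cancel_right]
      rw [e2]; exact inv_mem hw
  have hTB : ⁅T, B⁆ ≤ W := by
    rw [hT, Subgroup.commutator_def P C]
    refine comm_closure_le ?_ ?_
    · rintro _ ⟨a, ha, q, hq, rfl⟩
      exact cen_norm cNW (hDN (Subgroup.mem_sup_right (Subgroup.commutator_mem_commutator ha hq)))
    · rintro _ ⟨p, hp, c, hc, rfl⟩ b' hb'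
      have ht : ⁅p, c⁆ ∈ N := hDN (Subgroup.mem_sup_right (Subgroup.commutator_mem_commutator hp hc))
      have hq : ⁅b', c⁆ ∈ Q := Subgroup.commutator_mem_commutator hb' hc
      have hw : ⁅p, ⁅b', c⁆⁆ ∈ W := Subgroup.commutator_mem_commutator hp hq
      have k1 : ⁅b', c⁆ * ⁅p, c⁆ = ⁅p, c⁆ * ⁅b', c⁆ :=
        cen_iff.1 cND _ (hQN hq) _ (Subgroup.mem_sup_right (Subgroup.commutator_mem_commutator hp hc))
      have k2 : b' * p * b'⁻¹ = p := by rw [← cen_iff.1 cPB p hp b' hb', mul_inv_cancel_right]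
      have e1 : b' * ⁅p, c⁆ * b'⁻¹ = ⁅p, ⁅b', c⁆⁆ * ⁅p, c⁆ := by
        calc b' * ⁅p, c⁆ * b'⁻¹ = (b' * p * b'⁻¹) * (b' * c * b'⁻¹) * (b' * p * b'⁻¹)⁻¹ * (b' * c * b'⁻¹)⁻¹ := by
              simp only [commutatorElement_def]; group
          _ = p * (⁅b', c⁆ * c) * p⁻¹ * (⁅b', c⁆ * c)⁻¹ := by rw [k2]; simp only [commutatorElement_def]; group
          _ = ⁅p, ⁅b', c⁆⁆ * (⁅b', c⁆ * ⁅p, c⁆ * ⁅b', c⁆⁻¹) := by simp only [commutatorElement_def]; group
          _ = _ := by rw [k1, mul_inv_cancel_right]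
      have e2 : ⁅⁅p, c⁆, b'⁆ = ⁅p, ⁅b', c⁆⁆⁻¹ := by
        calc ⁅⁅p, c⁆, b'⁆ = ⁅p, c⁆ * (b' * ⁅p, c⁆ * b'⁻¹)⁻¹ := by simp only [commutatorElement_def]; group
          _ = _ := by rw [e1]; group
      rw [e2]; exact inv_mem hw
  have hDB : ⁅D, B⁆ ≤ W :=
    comm_sup_le (cen_norm ((hUX.trans le_sup_left).trans cNW)) (cen_norm ((hTY.trans le_sup_right).trans cNW)) hUB hTB
  set K₂ := P ⊔ Q ⊔ D with hK₂
  have hK₂N : K₂ ≤ N := sup_le (sup_le hPN hQN) hDN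
  have hDK : D ≤ K₂ := le_sup_right
  have hnB : B ≤ Subgroup.normalizer (D : Set G) := by
    refine normalizer_of_comm ?_
    rw [Subgroup.commutator_comm]
    exact hDB.trans hWD
  have nN : N ≤ Subgroup.normalizer (D : Set G) := cen_norm cND
  have hKB : ⁅K₂, B⁆ ≤ D := by
    refine comm_sup_le ((sup_le hPN hQN).trans nN) (hDN.trans nN) (comm_sup_le (hPN.trans nN) (hQN.trans nN) ?_ ?_)
      (hDB.trans hWD)
    · rw [cen_bot.2 cPB]; exact bot_le
    · rw [cen_bot.2 cQB]; exact bot_le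
  have nK : N ≤ Subgroup.normalizer (K₂ : Set G) :=
    normalizer_of_comm ((Subgroup.commutator_mono le_rfl hK₂N).trans (hNN.trans hDK))
  have nKB : B ≤ Subgroup.normalizer (K₂ : Set G) := by
    refine normalizer_of_comm ?_
    rw [Subgroup.commutator_comm]
    exact hKB.trans hDK
  have hNgen : N ≤ (A ⊔ C) ⊔ (P ⊔ Q) :=
    sup_le (sup_le (le_sup_left.trans le_sup_left) (hCbQ.trans (sup_le_sup le_sup_right le_sup_right)))
      (sup_le (hAbP.trans (sup_le_sup le_sup_left le_sup_left)) (le_sup_right.trans le_sup_left))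
  have hNB : ⁅N, B⁆ ≤ K₂ := by
    refine (Subgroup.commutator_mono hNgen le_rfl).trans (comm_sup_le ((sup_le hAN hCN).trans nK)
      ((sup_le hPN hQN).trans nK) (comm_sup_le (hAN.trans nK) (hCN.trans nK) ?_ ?_)
      ((Subgroup.commutator_mono le_sup_left le_rfl).trans (hKB.trans hDK)))
    · exact (le_sup_left.trans le_sup_left : P ≤ K₂)
    · rw [Subgroup.commutator_comm]; exact (le_sup_right.trans le_sup_left : Q ≤ K₂)
  have hBnN : B ≤ Subgroup.normalizer (N : Set G) := by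
    refine normalizer_of_comm ?_
    rw [Subgroup.commutator_comm]
    exact hNB.trans hK₂N
  have hR : N ⊔ B = A ⊔ B ⊔ C := by
    have lP : P ≤ A ⊔ B ⊔ C := (Subgroup.commutator_le_sup _ _).trans le_sup_left
    have lQ : Q ≤ A ⊔ B ⊔ C := (Subgroup.commutator_le_sup _ _).trans (sup_le (le_sup_right.trans le_sup_left) le_sup_right)
    refine le_antisymm (sup_le (hNgen.trans (sup_le (sup_le (le_sup_left.trans le_sup_left) le_sup_right) (sup_le lP lQ)))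
      (le_sup_right.trans le_sup_left)) ?_
    exact sup_le (sup_le (hAN.trans le_sup_left) le_sup_right) (hCN.trans le_sup_left)
  refine ⟨?_, cen_bot.2 cXY, ?_, hR, ?_⟩
  · by_cases h : IsMulCommutative ↥X
    · exact Or.inl ⟨h, hiff.1 h⟩
    · refine Or.inr ⟨⟨h, ?_⟩, fun h' => h (hiff.2 h'), ?_⟩
      · rw [eq_bot_iff, ← cen_bot.2 (cen_symm cUX)]
        exact Subgroup.commutator_mono hXX le_rfl
      · rw [eq_bot_iff, ← cen_bot.2 (cen_symm cTY)]
        exact Subgroup.commutator_mono hYY le_rfl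
  · intro r hr
    rw [← hR] at hr
    exact Cfsg.Lib.RootSub.RankOne.mem_normalizer_iff.1 (sup_le Subgroup.le_normalizer hBnN hr)
  · rw [← hR]
    let K : ℕ → Subgroup G := fun i => match i with
      | 0 => N ⊔ B
      | 1 => N
      | 2 => K₂
      | 3 => D
      | 4 => W
      | _ => ⊥
    refine nilpotent_of_chain (N ⊔ B) K le_rfl (fun i => ?_) 5 rfl
    match i with
    | 0 =>
      show ⁅N ⊔ B, N ⊔ B⁆ ≤ N
      refine comm_sup_le Subgroup.le_normalizer hBnN ?_ ?_ <;> rw [Subgroup.commutator_comm] <;>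
        refine comm_sup_le Subgroup.le_normalizer hBnN ?_ ?_
      · exact hNN.trans hDN
      · rw [Subgroup.commutator_comm]; exact hNB.trans hK₂N
      · exact hNB.trans hK₂N
      · rw [cen_bot.2 (self_cen hS hB)]; exact bot_le
    | 1 =>
      show ⁅N, N ⊔ B⁆ ≤ K₂
      rw [Subgroup.commutator_comm]
      refine comm_sup_le nK nKB (hNN.trans hDK) ?_
      rw [Subgroup.commutator_comm]; exact hNB
    | 2 =>
      show ⁅K₂, N ⊔ B⁆ ≤ D
      rw [Subgroup.commutator_comm]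
      refine comm_sup_le nN hnB ((Subgroup.commutator_mono le_rfl hK₂N).trans hNN) ?_
      rw [Subgroup.commutator_comm]; exact hKB
    | 3 =>
      show ⁅D, N ⊔ B⁆ ≤ W
      rw [Subgroup.commutator_comm]
      refine comm_sup_le (cen_norm cNW) (cen_norm cBW) ?_ ?_
      · rw [cen_bot.2 cND]; exact bot_le
      · rw [Subgroup.commutator_comm]; exact hDB
    | 4 =>
      show ⁅W, N ⊔ B⁆ ≤ ⊥
      rw [cen_bot.2 (cen_sup (cen_symm cNW) (cen_symm cBW))]
    | n + 5 =>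
      show ⁅(⊥ : Subgroup G), N ⊔ B⁆ ≤ ⊥
      rw [Subgroup.commutator_bot_left]

end Cfsg.Agent.S5030
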