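import Cfsg.Statements.S5031
import Cfsg.Agent.Lib.RootSub.Connect

set_option autoImplicit false
open Cfsg

namespace Cfsg.Agent.S5031

open Cfsg.Lib.RootSub.RankOneLead Cfsg.Lib.RootSub.Connect

/-- Let S be a set of abstract root subgroups of G and let A, B ∈ S lie in different connected components of the graph of rank one pairs on S, each component having more than one member. Then B is not a line partner of A. -/
theorem result {G : Type*} [Group G] {S : Set (Subgroup G)} (hS : Cfsg.IsRootSubgroupSet S)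
    {A B : Subgroup G} (hA : A ∈ S) (hB : B ∈ S)
    (hne : Cfsg.componentOf (Cfsg.FAdj S) S A ≠ Cfsg.componentOf (Cfsg.FAdj S) S B)
    (hA2 : ∃ A' ∈ Cfsg.componentOf (Cfsg.FAdj S) S A, A' ≠ A) (hB2 : ∃ B' ∈ Cfsg.componentOf (Cfsg.FAdj S) S B, B' ≠ B) :
    B ∉ Cfsg.linePartners S A := by
  intro hL
  obtain ⟨⟨-, hBA, hcomm⟩, hpart⟩ := hL
  obtain ⟨a, ha, ha1⟩ := (Subgroup.bot_or_exists_ne_one A).resolve_left (hS.ne_bot A hA)
  obtain ⟨b, hb, hb1⟩ := (Subgroup.bot_or_exists_ne_one B).resolve_left (hS.ne_bot B hB)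
  have partner : ∀ X : Subgroup G, (∃ X' ∈ componentOf (FAdj S) S X, X' ≠ X) → ∃ P ∈ S, IsRankOnePair X P := by
    rintro X ⟨X', ⟨-, hr⟩, hne'⟩
    rcases hr.cases_head with e | ⟨P, hP, -⟩
    · exact absurd e.symm hne'
    · exact ⟨P, hP.2.1, hP.2.2⟩
  obtain ⟨A', hA', hAA'⟩ := partner A hA2
  obtain ⟨B', hB', hBB'⟩ := partner B hB2
  have habne : b * a ≠ 1 := by
    intro e
    have hab : a = b⁻¹ := eq_inv_of_mul_eq_one_right e
    rcases inf_eq_bot_or_eq hS hA hA' hB hAA' with e0 | e0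
    · exact ha1 (Subgroup.mem_bot.1 (e0 ▸ (⟨ha, hab ▸ B.inv_mem hb⟩ : a ∈ A ⊓ B)))
    · exact hBA e0.symm
  obtain ⟨C, hC, hc⟩ := hpart.2.1 (b * a) (mul_mem (Subgroup.mem_sup_right hb) (Subgroup.mem_sup_left ha)) habne
  have hba : ∀ x ∈ B, ∀ y ∈ A, x * y = y * x := fun x hx y hy => (commute_of_bot hcomm hy hx).symm
  have hab : ∀ x ∈ A, ∀ y ∈ B, x * y = y * x := fun x hx y hy => commute_of_bot hcomm hx hy
  have sym : ∀ {X Y : Subgroup G}, Relation.ReflTransGen (FAdj S) X Y → Relation.ReflTransGen (FAdj S) Y X :=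
    fun h => reach_symm h
  apply hne
  have hAC : Relation.ReflTransGen (FAdj S) A B ∨ Relation.ReflTransGen (FAdj S) A C := by
    rcases eq_or_adj hS hA hA' hB hC.1 hAA' hba hb ha ha1 hc with e | e | e
    · right; rw [e]
    · exact Or.inr (.tail (.single ⟨hA, hA', hAA'⟩) ⟨hA', hC.1, e⟩)
    · exact Or.inl (.tail (.single ⟨hA, hA', hAA'⟩) ⟨hA', hB, e⟩)
  have hBC : Relation.ReflTransGen (FAdj S) B A ∨ Relation.ReflTransGen (FAdj S) B C := by
    rcases eq_or_adj hS hB hB' hA hC.1 hBB' hab ha hb hb1 (by rw [hab a ha b hb]; exact hc) with e | e | e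
    · right; rw [e]
    · exact Or.inr (.tail (.single ⟨hB, hB', hBB'⟩) ⟨hB', hC.1, e⟩)
    · exact Or.inl (.tail (.single ⟨hB, hB', hBB'⟩) ⟨hB', hA, e⟩)
  have hr : Relation.ReflTransGen (FAdj S) A B := by
    rcases hAC with h1 | h1
    · exact h1
    rcases hBC with h2 | h2
    · exact sym h2
    · exact h1.trans (sym h2)
  ext X
  exact ⟨fun ⟨hX, h⟩ => ⟨hX, (sym hr).trans h⟩, fun ⟨hX, h⟩ => ⟨hX, hr.trans h⟩⟩

end Cfsg.Agent.S5031
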