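import Cfsg.Statements.S5032
import Cfsg.Agent.Lib.RootSub.Connect

set_option autoImplicit false
open Cfsg

namespace Cfsg.Agent.S5032

open Cfsg.Lib.RootSub.RankOneLead Cfsg.Lib.RootSub.Connect

/-- Let S be a set of abstract root subgroups of G with more than one member. Then the graph of rank one pairs on S is connected if and only if S is a single conjugacy class of G and some member of S has a rank one partner in S. -/
theorem result {G : Type*} [Group G] {S : Set (Subgroup G)} (hS : Cfsg.IsRootSubgroupSet S) (h2 : ∃ A ∈ S, ∃ B ∈ S, A ≠ B) :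
    Cfsg.IsConnectedFamily (Cfsg.FAdj S) S ↔
      (Cfsg.IsConjClassOfSubgroups S ∧ ∃ A ∈ S, ¬ Cfsg.IsIsolatedIn (Cfsg.FAdj S) S A) := by
  constructor
  · intro hconn
    obtain ⟨A₀, hA₀, B₀, hB₀, hne⟩ := h2
    refine ⟨⟨⟨A₀, hA₀⟩, fun A hA B hB => ?_⟩, A₀, hA₀, fun hiso => ?_⟩
    · induction hconn A hA B hB with
      | refl => exact ⟨1, (cB_one A).symm⟩
      | @tail X Y _ hXY ih =>
        obtain ⟨g, hg⟩ := ih hXY.1
        obtain ⟨x, -, hx⟩ := right_mem hXY.2.2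
        exact ⟨x * g, by rw [hx, hg, cB_mul]⟩
    · rcases (hconn A₀ hA₀ B₀ hB₀).cases_head with e | ⟨P, hP, -⟩
      · exact hne e
      · exact (hiso.2 P).1 hP
  · rintro ⟨⟨-, hconj⟩, A₀, hA₀, hiso⟩ A hA B hB
    obtain ⟨P, hP⟩ : ∃ P, FAdj S A₀ P := by
      by_contra hno
      exact hiso ⟨hA₀, fun P => ⟨fun h => hno ⟨P, h⟩, fun h => hno ⟨P, adj_symm h⟩⟩⟩
    have hp : ∀ X ∈ S, ∃ Y ∈ S, IsRankOnePair X Y := by
      intro X hX
      obtain ⟨g, rfl⟩ := hconj A₀ hA₀ X hX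
      exact ⟨conjBy P g, hS.conj_mem P hP.2.1 g, map_conj hP.2.2 g⟩
    obtain ⟨g, rfl⟩ := hconj A hA B hB
    exact reach_all hS hp g A hA

end Cfsg.Agent.S5032
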