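import Cfsg.Statements.S5036
import Cfsg.Agent.Lib.RootSub.Commutator

set_option autoImplicit false
open Cfsg

namespace Cfsg.Agent.S5036

open Cfsg.Lib.RootSub.RankOneLead Cfsg.Lib.RootSub.Commutator
open scoped commutatorElement

/-- Let S be a set of abstract root subgroups of G, A, B ∈ S with C = ⁅A, B⁆ ∈ S, and D ∈ S with ⁅D, C⁆ = A. Put X = ⟨B, D⟩ and N = AC. Then B, D form a rank one pair; the conjugates of A under X are the conjugates of C under X, namely the conjugates of A by elements of B together with C, equally the conjugates of C by elements of D together with A, and they partition N; and the centralizer of N in X is central in X. -/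
theorem result {G : Type*} [Group G] {S : Set (Subgroup G)} (hS : Cfsg.IsRootSubgroupSet S)
    {A B D : Subgroup G} (hA : A ∈ S) (hB : B ∈ S) (hC : ⁅A, B⁆ ∈ S) (hD : D ∈ S) (hDC : ⁅D, ⁅A, B⁆⁆ = A) :
    Cfsg.IsRankOnePair B D ∧
    {E | ∃ x ∈ B ⊔ D, E = Cfsg.conjBy A x} = {E | ∃ x ∈ B ⊔ D, E = Cfsg.conjBy ⁅A, B⁆ x} ∧
    {E | ∃ x ∈ B ⊔ D, E = Cfsg.conjBy A x} = (fun b : G => Cfsg.conjBy A b) '' (B : Set G) ∪ {⁅A, B⁆} ∧
    {E | ∃ x ∈ B ⊔ D, E = Cfsg.conjBy A x} = (fun d : G => Cfsg.conjBy ⁅A, B⁆ d) '' (D : Set G) ∪ {A} ∧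
    Cfsg.IsSubgroupPartition (A ⊔ ⁅A, B⁆) {E | ∃ x ∈ B ⊔ D, E = Cfsg.conjBy A x} ∧
    ∀ x ∈ (B ⊔ D) ⊓ Subgroup.centralizer ((A ⊔ ⁅A, B⁆ : Subgroup G) : Set G), ∀ y ∈ B ⊔ D, x * y = y * x := by
  have hc := comm_case hS hA hB hC
  set C := ⁅A, B⁆ with hCdef
  have hc' : RootCommutatorCase S D C := comm_case hS hD hC (by rw [hDC]; exact hA)
  have hBC : ∀ x ∈ B, ∀ y ∈ C, x * y = y * x := fun x hx y hy => (hc.2.1 y hy x (Subgroup.mem_sup_right hx)).symm
  have hAC : ∀ x ∈ A, ∀ y ∈ C, x * y = y * x := fun x hx y hy => (hc.2.1 y hy x (Subgroup.mem_sup_left hx)).symm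
  have hDA : ∀ x ∈ D, ∀ y ∈ A, x * y = y * x := fun x hx y hy =>
    (hc'.2.1 y (by rw [hDC]; exact hy) x (Subgroup.mem_sup_left hx)).symm
  have kerA : ∀ α ∈ A, (∀ b ∈ B, α * b = b * α) → α = 1 := by
    intro α hα h
    by_contra h1
    refine hS.ne_bot _ hc.1 ?_
    rw [← hc.2.2.1 α hα h1, Subgroup.closure_eq_bot_iff]
    rintro _ ⟨b, hb, rfl⟩
    show α * b * α⁻¹ * b⁻¹ = 1
    rw [h b hb, mul_inv_cancel_right, mul_inv_cancel]
  have kerB : ∀ β ∈ B, (∀ a ∈ A, a * β = β * a) → β = 1 := by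
    intro β hβ h
    by_contra h1
    refine hS.ne_bot _ hc.1 ?_
    rw [← hc.2.2.2 β hβ h1, Subgroup.closure_eq_bot_iff]
    rintro _ ⟨a, ha, rfl⟩
    show a * β * a⁻¹ * β⁻¹ = 1
    rw [h a ha, mul_inv_cancel_right, mul_inv_cancel]
  have kerC : ∀ c ∈ C, (∀ d ∈ D, d * c = c * d) → c = 1 := by
    intro c hc1 h
    by_contra h1
    refine hS.ne_bot _ hc'.1 ?_
    rw [← hc'.2.2.2 c hc1 h1, Subgroup.closure_eq_bot_iff]
    rintro _ ⟨d, hd, rfl⟩
    show d * c * d⁻¹ * c⁻¹ = 1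
    rw [h d hd, mul_inv_cancel_right, mul_inv_cancel]
  have kerD : ∀ d ∈ D, (∀ c ∈ C, d * c = c * d) → d = 1 := by
    intro d hd h
    by_contra h1
    refine hS.ne_bot _ hc'.1 ?_
    rw [← hc'.2.2.1 d hd h1, Subgroup.closure_eq_bot_iff]
    rintro _ ⟨c, hc1, rfl⟩
    show d * c * d⁻¹ * c⁻¹ = 1
    rw [h c hc1, mul_inv_cancel_right, mul_inv_cancel]
  have hinter : A ⊓ C = ⊥ := by
    rw [eq_bot_iff]
    exact fun x hx => kerA x hx.1 fun b hb => (hBC b hb x hx.2).symm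
  have hmC : ∀ b ∈ B, ∀ α ∈ A, b * α * b⁻¹ * α⁻¹ ∈ C := by
    intro b hb α hα
    rw [hCdef, Subgroup.commutator_comm]; exact Subgroup.commutator_mem_commutator hb hα
  have hmA : ∀ d ∈ D, ∀ c ∈ C, d * c * d⁻¹ * c⁻¹ ∈ A := by
    intro d hd c hc1
    have := Subgroup.commutator_mem_commutator hd hc1
    rw [hDC] at this; exact this
  -- rank one
  have hBD : IsRankOnePair B D := by
    rcases hS.pair B hB D hD with e | e | e
    · exfalso
      refine hS.ne_bot A hA ((Subgroup.eq_bot_iff_forall _).2 fun α hα => kerA α hα fun b hb => ?_)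
      have hle : ⁅D, C⁆ ≤ Subgroup.centralizer ({b} : Set G) := by
        have hd : ∀ d ∈ D, d ∈ Subgroup.centralizer ({b} : Set G) := fun d hd =>
          Subgroup.mem_centralizer_singleton_iff.2 (commute_of_bot e hb hd).symm
        have hcc : ∀ c ∈ C, c ∈ Subgroup.centralizer ({b} : Set G) := fun c hc1 =>
          Subgroup.mem_centralizer_singleton_iff.2 (hBC b hb c hc1).symm
        exact (Subgroup.commutator_le_sup _ _).trans (sup_le hd hcc)
      rw [hDC] at hle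
      exact Subgroup.mem_centralizer_singleton_iff.1 (hle hα)
    · exact e
    · exfalso
      obtain ⟨b, hb, hb1⟩ := (Subgroup.bot_or_exists_ne_one B).resolve_left (hS.ne_bot B hB)
      obtain ⟨d, hd, hd1⟩ := (Subgroup.bot_or_exists_ne_one D).resolve_left (hS.ne_bot D hD)
      have hy : d * b * d⁻¹ * b = b * (d * b * d⁻¹) :=
        commutator_case_commute hS hB e hd _ ⟨b, hb, rfl⟩ b hb
      -- the composite commutator map is onto
      have honto : ∀ a ∈ A, ∃ α ∈ A, ∃ c ∈ C, ∃ α' ∈ A, ∃ c' ∈ C, b * α * b⁻¹ * α⁻¹ = c ∧ d * c * d⁻¹ * c⁻¹ = α' ∧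
          b * α' * b⁻¹ * α'⁻¹ = c' ∧ d * c' * d⁻¹ * c'⁻¹ = a := by
        have s1 : ∀ c ∈ C, ∃ α ∈ A, b * α * b⁻¹ * α⁻¹ = c := by
          intro c hc1
          have hc2 : ⁅B, A⁆ ∈ S := by rw [Subgroup.commutator_comm]; exact hC
          obtain ⟨α, hα⟩ := chom_surjective (comm_case hS hB hA hc2) hb hb1
            ⟨c, by rw [Subgroup.commutator_comm]; exact hc1⟩
          exact ⟨α, α.2, congrArg Subtype.val hα⟩
        have s2 : ∀ a ∈ A, ∃ c ∈ C, d * c * d⁻¹ * c⁻¹ = a := by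
          intro a ha
          obtain ⟨c, hc1⟩ := chom_surjective hc' hd hd1 ⟨a, by rw [hDC]; exact ha⟩
          exact ⟨c, c.2, congrArg Subtype.val hc1⟩
        intro a ha
        obtain ⟨c', hc1', e4⟩ := s2 a ha
        obtain ⟨α', hα', e3⟩ := s1 c' hc1'
        obtain ⟨c, hc1, e2⟩ := s2 α' hα'
        obtain ⟨α, hα, e1⟩ := s1 c hc1
        exact ⟨α, hα, c, hc1, α', hα', c', hc1', e1, e2, e3, e4⟩
      refine hS.ne_bot A hA ((Subgroup.eq_bot_iff_forall _).2 fun a ha => ?_)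
      obtain ⟨α, hα, c, hc1, α', hα', c', hc1', e1, e2, e3, e4⟩ := honto a ha
      have k1 : Commute α c := hAC α hα c hc1
      have k2 : Commute α' c := hAC α' hα' c hc1
      have k3 : Commute a c := hAC a ha c hc1
      have k4 : Commute a c' := hAC a ha c' hc1'
      have k5 : Commute α' c' := hAC α' hα' c' hc1'
      have k6 : Commute c c' := self_commute hS hC hc1 hc1'
      have k7 : Commute d α := hDA d hd α hα
      have k8 : Commute b c := hBC b hb c hc1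
      have k9 : Commute d α' := hDA d hd α' hα'
      have k10 : Commute a α := self_commute hS hA ha hα
      have k11 : Commute a α' := self_commute hS hA ha hα'
      have k12 : Commute α α' := self_commute hS hA hα hα'
      have k13 : Commute α c' := hAC α hα c' hc1'
      have k14 : Commute b c' := hBC b hb c' hc1'
      let cb : MulAut G := MulAut.conj b
      let cd : MulAut G := MulAut.conj d
      have a1 : cb α = c * α := by show b * α * b⁻¹ = _; rw [← e1]; group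
      have a2 : cb c = c := by show b * c * b⁻¹ = _; rw [k8.eq, mul_inv_cancel_right]
      have a3 : cd c = α' * c := by show d * c * d⁻¹ = _; rw [← e2]; group
      have a4 : cd α = α := by show d * α * d⁻¹ = _; rw [k7.eq, mul_inv_cancel_right]
      have a5 : cd α' = α' := by show d * α' * d⁻¹ = _; rw [k9.eq, mul_inv_cancel_right]
      have a6 : cb α' = c' * α' := by show b * α' * b⁻¹ = _; rw [← e3]; group
      have a7 : cb c' = c' := by show b * c' * b⁻¹ = _; rw [k14.eq, mul_inv_cancel_right]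
      have a8 : cd c' = a * c' := by show d * c' * d⁻¹ = _; rw [← e4]; group
      have i1 : ∀ x, cd.symm (cd x) = x := fun x => cd.symm_apply_apply x
      have a3' : cd.symm c = α'⁻¹ * c := by
        rw [MulEquiv.symm_apply_eq, map_mul, map_inv, a5, a3, inv_mul_cancel_left]
      have a4' : cd.symm α = α := by rw [MulEquiv.symm_apply_eq, a4]
      let y : MulAut G := MulAut.conj (d * b * d⁻¹)
      have hyx : ∀ x, y x = cd (cb (cd.symm x)) := fun x => by
        simp [y, cd, cb, mul_assoc]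
      have hcomm : y (cb α) = cb (y α) := by
        show (d * b * d⁻¹) * (b * α * b⁻¹) * (d * b * d⁻¹)⁻¹ = b * ((d * b * d⁻¹) * α * (d * b * d⁻¹)⁻¹) * b⁻¹
        calc (d * b * d⁻¹) * (b * α * b⁻¹) * (d * b * d⁻¹)⁻¹
            = ((d * b * d⁻¹) * b) * α * ((d * b * d⁻¹) * b)⁻¹ := by group
          _ = (b * (d * b * d⁻¹)) * α * (b * (d * b * d⁻¹))⁻¹ := by rw [hy]
          _ = _ := by group
      have yα : y α = α' * c * α := by rw [hyx, a4', a1, map_mul, a3, a4]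
      have yc : y c = a⁻¹ * c'⁻¹ * c := by
        rw [hyx, a3', map_mul, map_inv, a6, a2, map_mul, map_inv, map_mul, a8, a5, a3]
        rw [mul_inv_rev, mul_inv_rev, ← mul_assoc]
        calc α'⁻¹ * (c'⁻¹ * a⁻¹) * α' * c = α'⁻¹ * (α' * (c'⁻¹ * a⁻¹)) * c := by
              rw [mul_assoc α'⁻¹ (c'⁻¹ * a⁻¹) α', (k5.symm.inv_left.mul_left k11.inv_left).eq]
          _ = _ := by rw [inv_mul_cancel_left, (k4.symm.inv_left.inv_right).eq]
      rw [a1, map_mul, yc, yα, map_mul, map_mul, a6, a2, a1] at hcomm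
      have hsq : a⁻¹ * c'⁻¹ = c' := by
        have l : a⁻¹ * c'⁻¹ * c * (α' * c * α) = (a⁻¹ * c'⁻¹) * (α' * c * (c * α)) := by
          rw [mul_assoc (a⁻¹ * c'⁻¹), ← mul_assoc c, ← mul_assoc c, k2.symm.eq, mul_assoc α' c c, mul_assoc α' (c * c) α,
            mul_assoc α' c, mul_assoc c c α]
        have r : c' * α' * c * (c * α) = c' * (α' * c * (c * α)) := by simp only [mul_assoc]
        rw [l, r] at hcomm
        exact mul_right_cancel hcomm
      have hA' : c'⁻¹ * c'⁻¹ = a := by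
        calc c'⁻¹ * c'⁻¹ = c'⁻¹ * (a⁻¹ * c'⁻¹)⁻¹ := by rw [hsq]
          _ = c'⁻¹ * (c' * a) := by group
          _ = a := by group
      have hmem : a ∈ A ⊓ C := ⟨ha, hA' ▸ C.mul_mem (C.inv_mem hc1') (C.inv_mem hc1')⟩
      rw [hinter] at hmem
      exact Subgroup.mem_bot.1 hmem
  -- the subgroup `N = A C`
  have hsplit : ∀ x ∈ A ⊔ C, ∃ a ∈ A, ∃ c ∈ C, x = a * c := by
    intro x hx
    rw [Subgroup.sup_eq_closure] at hx
    induction hx using Subgroup.closure_induction with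
    | mem y hy =>
      rcases hy with hy | hy
      · exact ⟨y, hy, 1, one_mem _, (mul_one y).symm⟩
      · exact ⟨1, one_mem _, y, hy, (one_mul y).symm⟩
    | one => exact ⟨1, one_mem _, 1, one_mem _, (one_mul 1).symm⟩
    | mul y z _ _ hy hz =>
      obtain ⟨a, ha, c, hc1, rfl⟩ := hy
      obtain ⟨a', ha', c', hc2, rfl⟩ := hz
      refine ⟨a * a', mul_mem ha ha', c * c', mul_mem hc1 hc2, ?_⟩
      rw [mul_assoc, ← mul_assoc c, ← hAC a' ha' c hc1, mul_assoc a', ← mul_assoc]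
    | inv y _ hy =>
      obtain ⟨a, ha, c, hc1, rfl⟩ := hy
      exact ⟨a⁻¹, inv_mem ha, c⁻¹, inv_mem hc1, by rw [hAC a ha c hc1, mul_inv_rev]⟩
  have hfixB : ∀ n ∈ A ⊔ C, (∀ b ∈ B, n * b = b * n) → n ∈ C := by
    intro n hn h
    obtain ⟨a, ha, c, hc1, rfl⟩ := hsplit n hn
    have : a = 1 := kerA a ha fun b hb => by
      have h1 := h b hb
      rw [mul_assoc, ← hBC b hb c hc1, ← mul_assoc, ← mul_assoc] at h1
      exact mul_right_cancel h1
    rw [this, one_mul]; exact hc1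
  have hfixD : ∀ n ∈ A ⊔ C, (∀ d ∈ D, d * n = n * d) → n ∈ A := by
    intro n hn h
    obtain ⟨a, ha, c, hc1, rfl⟩ := hsplit n hn
    have : c = 1 := kerC c hc1 fun d hd => by
      have h1 := h d hd
      rw [← mul_assoc, hDA d hd a ha, mul_assoc, mul_assoc] at h1
      exact mul_left_cancel h1
    rw [this, mul_one]; exact ha
  have hNB : ∀ b ∈ B, ∀ n ∈ A ⊔ C, b * n * b⁻¹ ∈ A ⊔ C := by
    intro b hb n hn
    obtain ⟨a, ha, c, hc1, rfl⟩ := hsplit n hn
    rw [show b * (a * c) * b⁻¹ = (b * a * b⁻¹ * a⁻¹) * a * (b * c * b⁻¹) by group, hBC b hb c hc1, mul_inv_cancel_right]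
    exact mul_mem (mul_mem (Subgroup.mem_sup_right (hmC b hb a ha)) (Subgroup.mem_sup_left ha)) (Subgroup.mem_sup_right hc1)
  have hND : ∀ d ∈ D, ∀ n ∈ A ⊔ C, d * n * d⁻¹ ∈ A ⊔ C := by
    intro d hd n hn
    obtain ⟨a, ha, c, hc1, rfl⟩ := hsplit n hn
    rw [show d * (a * c) * d⁻¹ = (d * a * d⁻¹) * ((d * c * d⁻¹ * c⁻¹) * c) by group, hDA d hd a ha, mul_inv_cancel_right]
    exact mul_mem (Subgroup.mem_sup_left ha) (mul_mem (Subgroup.mem_sup_left (hmA d hd c hc1)) (Subgroup.mem_sup_right hc1))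
  -- the images of `C` under `D` are those of `A` under `B`
  have hkey : ∀ d ∈ D, d ≠ 1 → ∀ b ∈ B, conjBy B d = conjBy D b → conjBy C d = conjBy A b := by
    intro d hd hd1 b hb e
    apply le_antisymm
    · rintro _ ⟨c, hc1, rfl⟩
      show d * c * d⁻¹ ∈ _
      rw [mem_cB]
      refine hfixD _ ?_ ?_
      · simpa using hNB _ (inv_mem hb) _ (hND d hd c (Subgroup.mem_sup_right hc1))
      · intro x hx
        have hm : b * x * b⁻¹ ∈ conjBy B d := e ▸ ⟨x, hx, rfl⟩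
        rw [mem_cB] at hm
        have h1 := hBC _ hm c hc1
        calc x * (b⁻¹ * (d * c * d⁻¹) * b) = b⁻¹ * d * ((d⁻¹ * (b * x * b⁻¹) * d) * c) * d⁻¹ * b := by group
          _ = b⁻¹ * d * (c * (d⁻¹ * (b * x * b⁻¹) * d)) * d⁻¹ * b := by rw [h1]
          _ = _ := by group
    · rintro _ ⟨a, ha, rfl⟩
      show b * a * b⁻¹ ∈ _
      rw [mem_cB]
      refine hfixB _ ?_ ?_
      · simpa using hND _ (inv_mem hd) _ (hNB b hb a (Subgroup.mem_sup_left ha))
      · intro x hx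
        have hm : d * x * d⁻¹ ∈ conjBy D b := e ▸ ⟨x, hx, rfl⟩
        rw [mem_cB] at hm
        have h1 := hDA _ hm a ha
        calc d⁻¹ * (b * a * b⁻¹) * d * x = d⁻¹ * b * (a * (b⁻¹ * (d * x * d⁻¹) * b)) * b⁻¹ * d := by group
          _ = d⁻¹ * b * ((b⁻¹ * (d * x * d⁻¹) * b) * a) * b⁻¹ * d := by rw [h1]
          _ = _ := by group
  have hCfixB : ∀ b ∈ B, conjBy C b = C := fun b hb => cB_of_commute fun x hx => hBC b hb x hx
  have hAfixD : ∀ d ∈ D, conjBy A d = A := fun d hd => cB_of_commute fun x hx => hDA d hd x hx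
  have hd2b : ∀ d ∈ D, d ≠ 1 → ∃ b ∈ B, b ≠ 1 ∧ conjBy C d = conjBy A b := by
    intro d hd hd1
    obtain ⟨b, hb, hb1, e⟩ := cr hBD hd hd1
    exact ⟨b, hb, hb1, hkey d hd hd1 b hb e⟩
  have hb2d : ∀ b ∈ B, b ≠ 1 → ∃ d ∈ D, d ≠ 1 ∧ conjBy A b = conjBy C d := by
    intro b hb hb1
    obtain ⟨d, hd, hd1, e⟩ := cl hBD hb hb1
    exact ⟨d, hd, hd1, (hkey d hd hd1 b hb e.symm).symm⟩
  have hX : ∀ x ∈ B ⊔ D, (∀ b ∈ B, ∃ b' ∈ B, conjBy (conjBy A b) x = conjBy A b' ∨ conjBy (conjBy A b) x = C) ∧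
      (∃ b' ∈ B, conjBy C x = conjBy A b' ∨ conjBy C x = C) := by
    intro x hx
    rw [Subgroup.sup_eq_closure] at hx
    induction hx using Subgroup.closure_induction'' with
    | mem z hz =>
      rcases hz with hz | hz
      · exact ⟨fun b hb => ⟨z * b, mul_mem hz hb, Or.inl (cB_mul _ _ _)⟩, 1, one_mem _, Or.inr (hCfixB z hz)⟩
      · have hC' : ∃ b' ∈ B, conjBy C z = conjBy A b' ∨ conjBy C z = C := by
          by_cases hz1 : z = 1
          · exact ⟨1, one_mem _, Or.inr (by rw [hz1, cB_one])⟩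
          · obtain ⟨b', hb', -, e⟩ := hd2b z hz hz1; exact ⟨b', hb', Or.inl e⟩
        refine ⟨fun b hb => ?_, hC'⟩
        by_cases hb1 : b = 1
        · exact ⟨1, one_mem _, Or.inl (by rw [hb1, cB_one, hAfixD z hz])⟩
        obtain ⟨d, hd, -, e⟩ := hb2d b hb hb1
        rw [e, cB_mul]
        by_cases hzd : z * d = 1
        · exact ⟨1, one_mem _, Or.inr (by rw [hzd, cB_one])⟩
        · obtain ⟨b', hb', -, e'⟩ := hd2b (z * d) (mul_mem hz hd) hzd; exact ⟨b', hb', Or.inl e'⟩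
    | inv_mem z hz =>
      rcases hz with hz | hz
      · exact ⟨fun b hb => ⟨z⁻¹ * b, mul_mem (inv_mem hz) hb, Or.inl (cB_mul _ _ _)⟩, 1, one_mem _, Or.inr (hCfixB _ (inv_mem hz))⟩
      · have hz' := D.inv_mem hz
        have hC' : ∃ b' ∈ B, conjBy C z⁻¹ = conjBy A b' ∨ conjBy C z⁻¹ = C := by
          by_cases hz1 : z⁻¹ = 1
          · exact ⟨1, one_mem _, Or.inr (by rw [hz1, cB_one])⟩
          · obtain ⟨b', hb', -, e⟩ := hd2b _ hz' hz1; exact ⟨b', hb', Or.inl e⟩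
        refine ⟨fun b hb => ?_, hC'⟩
        by_cases hb1 : b = 1
        · exact ⟨1, one_mem _, Or.inl (by rw [hb1, cB_one, hAfixD _ hz'])⟩
        obtain ⟨d, hd, -, e⟩ := hb2d b hb hb1
        rw [e, cB_mul]
        by_cases hzd : z⁻¹ * d = 1
        · exact ⟨1, one_mem _, Or.inr (by rw [hzd, cB_one])⟩
        · obtain ⟨b', hb', -, e'⟩ := hd2b _ (mul_mem hz' hd) hzd; exact ⟨b', hb', Or.inl e'⟩
    | one => exact ⟨fun b hb => ⟨b, hb, Or.inl (cB_one _)⟩, 1, one_mem _, Or.inr (cB_one _)⟩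
    | mul z z' _ _ h1 h2 =>
      refine ⟨fun b hb => ?_, ?_⟩
      · obtain ⟨b', hb', e | e⟩ := h2.1 b hb <;> rw [← cB_mul, e]
        exacts [h1.1 b' hb', h1.2]
      · obtain ⟨b', hb', e | e⟩ := h2.2 <;> rw [← cB_mul, e]
        exacts [h1.1 b' hb', h1.2]
  obtain ⟨d0, hd0, hd01⟩ := (Subgroup.bot_or_exists_ne_one D).resolve_left (hS.ne_bot D hD)
  obtain ⟨b0, hb0, -, e0⟩ := hd2b d0 hd0 hd01
  have hCorb : ∃ x ∈ B ⊔ D, C = conjBy A x :=
    ⟨d0⁻¹ * b0, mul_mem (inv_mem (Subgroup.mem_sup_right hd0)) (Subgroup.mem_sup_left hb0), by rw [← cB_mul, ← e0, cB_mul, inv_mul_cancel, cB_one]⟩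
  have hset : {E | ∃ x ∈ B ⊔ D, E = conjBy A x} = (fun b : G => conjBy A b) '' (B : Set G) ∪ {C} := by
    ext E
    constructor
    · rintro ⟨x, hx, rfl⟩
      obtain ⟨b', hb', e | e⟩ := (hX x hx).1 1 (one_mem _) <;> rw [cB_one] at e
      · exact Or.inl ⟨b', hb', e.symm⟩
      · exact Or.inr e
    · rintro (⟨b, hb, rfl⟩ | rfl)
      · exact ⟨b, Subgroup.mem_sup_left hb, rfl⟩
      · exact hCorb
  have hneAC : A ≠ C := fun e => hS.ne_bot A hA (by rw [← hinter, ← e, inf_idem])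
  have hdisj : ∀ b ∈ B, conjBy A b ⊓ C = ⊥ ∧ (A ⊓ conjBy A b = ⊥ ∨ A = conjBy A b) := by
    intro b hb
    constructor
    · rw [eq_bot_iff]
      rintro x ⟨⟨a, ha, rfl⟩, hx⟩
      change b * a * b⁻¹ ∈ C at hx
      have : a ∈ A ⊓ C := ⟨ha, by rw [← hCfixB _ (inv_mem hb)]; exact ⟨_, hx, by simp [mul_assoc]⟩⟩
      rw [hinter, Subgroup.mem_bot] at this
      simp [this]
    · by_cases hb1 : b = 1
      · right; rw [hb1, cB_one]
      left
      obtain ⟨d, hd, -, e⟩ := hb2d b hb hb1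
      rw [eq_bot_iff, e]
      rintro x ⟨hxA, c, hc1, rfl⟩
      change d * c * d⁻¹ ∈ A at hxA
      have : c ∈ A ⊓ C := ⟨by rw [← hAfixD _ (inv_mem hd)]; exact ⟨_, hxA, by simp [mul_assoc]⟩, hc1⟩
      rw [hinter, Subgroup.mem_bot] at this
      simp [this]
  have hpart : IsSubgroupPartition (A ⊔ C) {E | ∃ x ∈ B ⊔ D, E = conjBy A x} := by
    rw [hset]
    refine ⟨?_, ?_, ?_⟩
    · rintro E (⟨b, hb, rfl⟩ | rfl)
      · rintro _ ⟨a, ha, rfl⟩; exact hNB b hb a (Subgroup.mem_sup_left ha)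
      · exact le_sup_right
    · intro x hx hx1
      obtain ⟨a, ha, c, hc1, rfl⟩ := hsplit x hx
      by_cases ha1 : a = 1
      · exact ⟨C, Or.inr rfl, by rw [ha1, one_mul]; exact hc1⟩
      obtain ⟨b, hb⟩ := chom_surjective hc ha ha1 ⟨c⁻¹, inv_mem hc1⟩
      have hb' : a * (b : G) * a⁻¹ * (b : G)⁻¹ = c⁻¹ := congrArg Subtype.val hb
      refine ⟨_, Or.inl ⟨b, b.2, rfl⟩, a, ha, ?_⟩
      show (b : G) * a * (b : G)⁻¹ = a * c
      calc (b : G) * a * (b : G)⁻¹ = (a * (b : G) * a⁻¹ * (b : G)⁻¹)⁻¹ * a := by group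
        _ = c * a := by rw [hb', inv_inv]
        _ = a * c := (hAC a ha c hc1).symm
    · rintro E (⟨b, hb, rfl⟩ | rfl) F (⟨b', hb', rfl⟩ | rfl) hne
      · rw [eq_bot_iff]
        rintro x ⟨⟨a, ha, rfl⟩, hx⟩
        rcases (hdisj (b⁻¹ * b') (mul_mem (inv_mem hb) hb')).2 with h0 | h0
        · change b * a * b⁻¹ ∈ conjBy A b' at hx
          rw [mem_cB] at hx
          have : a ∈ A ⊓ conjBy A (b⁻¹ * b') := ⟨ha, mem_cB.2 (by simpa [mul_assoc] using hx)⟩
          rw [h0, Subgroup.mem_bot] at this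
          simp [this]
        · exact absurd (by show conjBy A b = conjBy A b'; conv_lhs => rw [h0, cB_mul, mul_inv_cancel_left]) hne
      · exact (hdisj b hb).1
      · rw [inf_comm]; exact (hdisj b' hb').1
      · exact absurd rfl hne
  have heqC : {E | ∃ x ∈ B ⊔ D, E = conjBy A x} = {E | ∃ x ∈ B ⊔ D, E = conjBy C x} := by
    obtain ⟨g, hg, e⟩ := hCorb
    ext E
    constructor
    · rintro ⟨x, hx, rfl⟩
      exact ⟨x * g⁻¹, mul_mem hx (inv_mem hg), by rw [e, cB_mul, inv_mul_cancel_right]⟩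
    · rintro ⟨x, hx, rfl⟩
      exact ⟨x * g, mul_mem hx hg, by rw [e, cB_mul]⟩
  refine ⟨hBD, heqC, hset, ?_, hpart, ?_⟩
  · rw [hset]
    ext E
    constructor
    · rintro (⟨b, hb, rfl⟩ | rfl)
      · by_cases hb1 : b = 1
        · exact Or.inr (by rw [hb1]; exact cB_one A)
        · obtain ⟨d, hd, -, e⟩ := hb2d b hb hb1
          exact Or.inl ⟨d, hd, e.symm⟩
      · exact Or.inl ⟨1, one_mem _, cB_one _⟩
    · rintro (⟨d, hd, rfl⟩ | rfl)
      · by_cases hd1 : d = 1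
        · exact Or.inr (by rw [hd1]; exact cB_one C)
        · obtain ⟨b, hb, -, e⟩ := hd2b d hd hd1
          exact Or.inl ⟨b, hb, e.symm⟩
      · exact Or.inl ⟨1, one_mem _, cB_one _⟩
  · rintro x ⟨hxX, hxc⟩
    have hxC : ∀ n ∈ A ⊔ C, x * n = n * x := fun n hn => (Subgroup.mem_centralizer_iff.1 hxc n hn).symm
    have hB' : conjBy B x = B := by
      by_contra hne
      have hm : conjBy B x ∈ unipotentSubgroups B D := mem_conj left_mem hxX
      obtain ⟨d, hd, e⟩ := ((mem_iff hBD).1 hm).resolve_left hne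
      refine hS.ne_bot C hC ((Subgroup.eq_bot_iff_forall _).2 fun c hc1 => kerC c hc1 fun t ht => ?_)
      have hm2 : d * t * d⁻¹ ∈ conjBy B x := e ▸ ⟨t, ht, rfl⟩
      rw [mem_cB] at hm2
      have h1 := hBC _ hm2 c hc1
      have h2 : (d * t * d⁻¹) * c = c * (d * t * d⁻¹) := by
        have hx := hxC c (Subgroup.mem_sup_right hc1)
        calc (d * t * d⁻¹) * c = x * ((x⁻¹ * (d * t * d⁻¹) * x) * (x⁻¹ * c * x)) * x⁻¹ := by group
          _ = x * ((x⁻¹ * (d * t * d⁻¹) * x) * c) * x⁻¹ := by rw [mul_assoc x⁻¹ c x, ← hx, inv_mul_cancel_left]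
          _ = x * (c * (x⁻¹ * (d * t * d⁻¹) * x)) * x⁻¹ := by rw [h1]
          _ = (x * c) * x⁻¹ * (d * t * d⁻¹) := by group
          _ = _ := by rw [hx, mul_inv_cancel_right]
      have h3 := hBC d hd c hc1
      calc t * c = d⁻¹ * ((d * t * d⁻¹) * (d * c)) := by group
        _ = d⁻¹ * ((d * t * d⁻¹) * c * d) := by rw [h3]; group
        _ = d⁻¹ * (c * (d * t * d⁻¹) * d) := by rw [h2]
        _ = d⁻¹ * (c * d) * t := by group
        _ = c * t := by rw [← h3, inv_mul_cancel_left]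
    have hD' : conjBy D x = D := by
      by_contra hne
      have hm : conjBy D x ∈ unipotentSubgroups D B := by
        exact mem_conj left_mem (sup_comm B D ▸ hxX)
      obtain ⟨b, hb, e⟩ := ((mem_iff (RankOnePair_symm hBD)).1 hm).resolve_left hne
      refine hS.ne_bot A hA ((Subgroup.eq_bot_iff_forall _).2 fun a ha => kerA a ha fun t ht => ?_)
      have hm2 : b * t * b⁻¹ ∈ conjBy D x := e ▸ ⟨t, ht, rfl⟩
      rw [mem_cB] at hm2
      have h1 := hDA _ hm2 a ha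
      have hx := hxC a (Subgroup.mem_sup_left ha)
      have h2 : (b * t * b⁻¹) * a = a * (b * t * b⁻¹) := by
        calc (b * t * b⁻¹) * a = x * ((x⁻¹ * (b * t * b⁻¹) * x) * (x⁻¹ * a * x)) * x⁻¹ := by group
          _ = x * ((x⁻¹ * (b * t * b⁻¹) * x) * a) * x⁻¹ := by rw [mul_assoc x⁻¹ a x, ← hx, inv_mul_cancel_left]
          _ = x * (a * (x⁻¹ * (b * t * b⁻¹) * x)) * x⁻¹ := by rw [h1]
          _ = (x * a) * x⁻¹ * (b * t * b⁻¹) := by group
          _ = _ := by rw [hx, mul_inv_cancel_right]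
      have h3 := hDA b hb a ha
      calc a * t = b⁻¹ * (b * a) * t := by group
        _ = b⁻¹ * (a * (b * t * b⁻¹)) * b := by rw [h3]; group
        _ = b⁻¹ * ((b * t * b⁻¹) * a) * b := by rw [h2]
        _ = t * (b⁻¹ * (a * b)) := by group
        _ = t * a := by rw [← h3, inv_mul_cancel_left]
    have hcb : ∀ b ∈ B, x * b = b * x := by
      intro b hb
      have hm : x * b * x⁻¹ * b⁻¹ ∈ B :=
        mul_mem (by have hm : x * b * x⁻¹ ∈ conjBy B x := ⟨b, hb, rfl⟩; rwa [hB'] at hm) (inv_mem hb)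
      refine mul_inv_eq_iff_eq_mul.1 (mul_inv_eq_one.1 (kerB _ hm fun a ha => ?_))
      have h1 := hxC _ (hNB _ (inv_mem hb) a (Subgroup.mem_sup_left ha))
      have h2 := hxC a (Subgroup.mem_sup_left ha)
      symm
      calc x * b * x⁻¹ * b⁻¹ * a = x * b * x⁻¹ * ((b⁻¹ * a * b⁻¹⁻¹) * x) * x⁻¹ * b⁻¹ := by group
        _ = x * b * x⁻¹ * (x * (b⁻¹ * a * b⁻¹⁻¹)) * x⁻¹ * b⁻¹ := by rw [h1]
        _ = (x * a) * b * x⁻¹ * b⁻¹ := by group
        _ = _ := by rw [h2]; group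
    have hcd : ∀ d ∈ D, x * d = d * x := by
      intro d hd
      have hm : x * d * x⁻¹ * d⁻¹ ∈ D :=
        mul_mem (by have hm : x * d * x⁻¹ ∈ conjBy D x := ⟨d, hd, rfl⟩; rwa [hD'] at hm) (inv_mem hd)
      refine mul_inv_eq_iff_eq_mul.1 (mul_inv_eq_one.1 (kerD _ hm fun c hc1 => ?_))
      have h1 := hxC _ (hND _ (inv_mem hd) c (Subgroup.mem_sup_right hc1))
      have h2 := hxC c (Subgroup.mem_sup_right hc1)
      calc x * d * x⁻¹ * d⁻¹ * c = x * d * x⁻¹ * ((d⁻¹ * c * d⁻¹⁻¹) * x) * x⁻¹ * d⁻¹ := by group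
        _ = x * d * x⁻¹ * (x * (d⁻¹ * c * d⁻¹⁻¹)) * x⁻¹ * d⁻¹ := by rw [h1]
        _ = (x * c) * d * x⁻¹ * d⁻¹ := by group
        _ = _ := by rw [h2]; group
    intro y hy
    have hle : B ⊔ D ≤ Subgroup.centralizer ({x} : Set G) :=
      sup_le (fun b hb => Subgroup.mem_centralizer_singleton_iff.2 (hcb b hb).symm)
        (fun d hd => Subgroup.mem_centralizer_singleton_iff.2 (hcd d hd).symm)
    exact (Subgroup.mem_centralizer_singleton_iff.1 (hle hy)).symm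

end Cfsg.Agent.S5036
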