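import Cfsg.Statements.S5034
import Cfsg.Agent.Lib.RootSub.Line
import Cfsg.Agent.S5029
import Cfsg.Agent.S5036

set_option autoImplicit false
open Cfsg
open scoped Pointwise commutatorElement

namespace Cfsg.Agent.S5034

open Cfsg.Lib.RootSub.RankOneLead Cfsg.Lib.RootSub.Commutator Cfsg.Lib.RootSub.Line
open scoped commutatorElement

theorem exists_commutator_line {G : Type*} [Group G] {S : Set (Subgroup G)} (hS : IsRootSubgroupSet S)
    (hp : ∀ A ∈ S, ∃ B ∈ S, IsRankOnePair A B) {A B A2 : Subgroup G} (hA : A ∈ S) (hB : B ∈ S)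
    (h : IsRankOnePair A B) (h2 : A2 ∈ linePartners S A) :
    ∃ C ∈ linePartners S A, RootCommutatorCase S B C := by
  obtain ⟨⟨hA2, hne, hbot⟩, hcovL⟩ := h2
  have hAB : ∀ x ∈ A, ∀ y ∈ A2, x * y = y * x := fun x hx y hy => commute_of_bot hbot hx hy
  rcases hS.pair B hB A2 hA2 with e | e | e
  · exfalso
    obtain ⟨a, ha, ha1⟩ := (Subgroup.bot_or_exists_ne_one A).resolve_left (hS.ne_bot A hA)
    obtain ⟨b, hb, hb1⟩ := (Subgroup.bot_or_exists_ne_one A2).resolve_left (hS.ne_bot A2 hA2)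
    have hba : b * a ≠ 1 := fun e0 => hne (eq_of_mem hS hp hA2 hA hb
      (eq_inv_of_mul_eq_one_left e0 ▸ A.inv_mem ha) hb1)
    obtain ⟨M, ⟨hM, -⟩, hmM⟩ := hcovL.2.1 _ (mul_mem (Subgroup.mem_sup_right hb) (Subgroup.mem_sup_left ha)) hba
    exact hb1 (eq_of_mul_mem hS hA hB hM h (fun x hx => (hAB x hx b hb).symm)
      (fun x hx => (commute_of_bot e hx hb).symm) ha ha1 hmM).2
  · obtain ⟨b, hb, hb1⟩ := (Subgroup.bot_or_exists_ne_one A2).resolve_left (hS.ne_bot A2 hA2)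
    obtain ⟨a, ha, ha1, hptb⟩ := cl (RankOnePair_symm e) hb hb1
    obtain ⟨α, hα, hα1, hpta⟩ := cr h ha ha1
    have hcomm : ∀ x ∈ conjBy B α, ∀ y ∈ conjBy B b, x * y = y * x := by
      rw [hptb, ← hpta]
      rintro _ ⟨x, hx, rfl⟩ _ ⟨y, hy, rfl⟩
      show a * x * a⁻¹ * (a * y * a⁻¹) = a * y * a⁻¹ * (a * x * a⁻¹)
      calc a * x * a⁻¹ * (a * y * a⁻¹) = a * (x * y) * a⁻¹ := by group
        _ = a * (y * x) * a⁻¹ := by rw [hAB x hx y hy]
        _ = _ := by group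
    have hnept : conjBy B α ≠ conjBy B b := by
      rw [hptb, ← hpta]; exact fun e0 => hne (cB_inj e0).symm
    have hx1 : α⁻¹ * b ≠ 1 := fun e0 => hnept (by rw [inv_mul_eq_one.1 e0])
    obtain ⟨M, ⟨hM, hle⟩, hxM⟩ := hcovL.2.1 _
      (mul_mem (Subgroup.mem_sup_left (inv_mem hα)) (Subgroup.mem_sup_right hb)) hx1
    have hc : RootCommutatorCase S B M := by
      rcases hS.pair B hB M hM with e' | e' | e'
      · exfalso
        have hfix : conjBy B (α⁻¹ * b) = B := cB_of_commute fun x hx => (commute_of_bot e' hx hxM).symm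
        exact hnept (by conv_lhs => rw [← hfix]
                        rw [cB_mul, mul_inv_cancel_left])
      · exfalso
        obtain ⟨m, hm, -, hptm⟩ := cl (RankOnePair_symm e') hxM hx1
        refine not_commute e' (bot_of_commute fun x hx y hy => ?_)
        have h2 : conjBy B (α⁻¹ * b) = conjBy M m := hptm
        have hy' : m * y * m⁻¹ ∈ conjBy B (α⁻¹ * b) := h2 ▸ ⟨y, hy, rfl⟩
        rw [mem_cB] at hy'
        have hy'' : α * (m * y * m⁻¹) * α⁻¹ ∈ conjBy B b := by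
          rw [mem_cB]; simpa [mul_assoc] using hy'
        have h4 := hcomm (α * (m * x * m⁻¹) * α⁻¹) ⟨m * x * m⁻¹, B.mul_mem (B.mul_mem hm hx) (B.inv_mem hm), rfl⟩ _ hy''
        calc x * y = m⁻¹ * α⁻¹ * ((α * (m * x * m⁻¹) * α⁻¹) * (α * (m * y * m⁻¹) * α⁻¹)) * α * m := by group
          _ = m⁻¹ * α⁻¹ * ((α * (m * y * m⁻¹) * α⁻¹) * (α * (m * x * m⁻¹) * α⁻¹)) * α * m := by rw [h4]
          _ = y * x := by group
      · exact e'
    have hAM : ∀ x ∈ A, ∀ y ∈ M, x * y = y * x := by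
      intro x hx y hy
      have hle' : A ⊔ A2 ≤ Subgroup.centralizer ({x} : Set G) :=
        sup_le (fun z hz => Subgroup.mem_centralizer_singleton_iff.2 (self_commute hS hA hz hx))
          (fun z hz => Subgroup.mem_centralizer_singleton_iff.2 (hAB x hx z hz).symm)
      exact (Subgroup.mem_centralizer_singleton_iff.1 (hle' (hle hy))).symm
    obtain ⟨hcA, hcM⟩ := mover hS hp hA hB hM h hAM hc fun x hx hx1 => by
      obtain ⟨E, ⟨hE, -⟩, hxE⟩ := hcovL.2.1 x (sup_le le_sup_left hle hx) hx1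
      exact ⟨E, hE, hxE⟩
    have hiso : ¬ IsIsolatedIn (FAdj S) S A := fun hh => (hh.2 B).1 ⟨hA, hB, h⟩
    have h3 := (S5029.result hS hiso hA hc.1 (by rw [hcM]; exact hM)).2.2.1
    rw [hcM] at h3
    refine ⟨M, ⟨⟨hM, h3.1.2.1.symm, bot_of_commute hAM⟩, ?_⟩, hc⟩
    rw [sup_comm]; exact h3.2
  · exact ⟨A2, ⟨⟨hA2, hne, hbot⟩, hcovL⟩, e⟩


/-- Let S be a non-degenerate class of abstract root subgroups of G, A ∈ S and B a rank one partner of A. Then some line partner C of A has ⁅B, C⁆ ∈ S, and the rank one pair A, B is special. -/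
theorem result {G : Type*} [Group G] {S : Set (Subgroup G)} (hS : Cfsg.IsRootSubgroupClass S) (hnd : Cfsg.IsNondegenerateRootSet S)
    {A B : Subgroup G} (hA : A ∈ S) (hB : B ∈ Cfsg.rankOnePartners S A) :
    (∃ C ∈ Cfsg.linePartners S A, C ∈ Cfsg.commutatorPartners S B) ∧ Cfsg.IsSpecialRankOnePair A B := by
  obtain ⟨hS, hcl⟩ := hS
  obtain ⟨hBS, h⟩ := hB
  have hp : ∀ E ∈ S, ∃ F ∈ S, IsRankOnePair E F := by
    intro E hE
    obtain ⟨g, rfl⟩ := hcl.2 A hA E hE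
    exact ⟨conjBy B g, hS.conj_mem B hBS g, map_conj h g⟩
  obtain ⟨A0, hA0, B0, hB0, hc0⟩ := hnd.2.2
  obtain ⟨E0, hE0, h0⟩ := hp A0 hA0
  obtain ⟨hmem0, hpart0, hlp0, -⟩ := S5029.result hS (fun hh => (hh.2 E0).1 ⟨hA0, hE0, h0⟩) hA0 hB0 hc0.1
  obtain ⟨g, hg⟩ := hcl.2 _ hc0.1 A hA
  have h2 : conjBy A0 g ∈ linePartners S A := by
    obtain ⟨⟨-, hne, hbot⟩, -, hcov, hdis⟩ := hlp0
    refine ⟨⟨hS.conj_mem A0 hA0 g, fun e => hne (cB_inj (e.trans hg)), ?_⟩, fun E hE => hE.2, fun x hx hx1 => ?_,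
      fun E hE F hF hEF => inf_bot_of_ne hS hp hE.1 hF.1 hEF⟩
    · rw [hg, ← Subgroup.map_commutator, hbot, Subgroup.map_bot]
    · rw [hg, ← Subgroup.map_sup] at hx
      obtain ⟨x', hx', rfl⟩ := hx
      obtain ⟨E, ⟨hE, hle⟩, hxE⟩ := hcov x' hx' fun e => hx1 (by rw [e, map_one])
      refine ⟨conjBy E g, ⟨hS.conj_mem E hE g, ?_⟩, x', hxE, rfl⟩
      rw [hg, ← Subgroup.map_sup]; exact Subgroup.map_mono hle
  obtain ⟨C, hCL, hcC⟩ := exists_commutator_line hS hp hA hBS h h2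
  refine ⟨⟨C, hCL, hCL.1.1, hcC.1⟩, h, fun a ha ha1 b hb hb1 e => ?_⟩
  have hC : C ∈ S := hCL.1.1
  have hAC : ∀ x ∈ A, ∀ y ∈ C, x * y = y * x := fun x hx y hy => commute_of_bot hCL.1.2.2 hx hy
  obtain ⟨hcA, hcM⟩ := mover hS hp hA hBS hC h hAC hcC fun x hx hx1 => by
    obtain ⟨E, ⟨hE, -⟩, hxE⟩ := hCL.2.2.1 x hx hx1
    exact ⟨E, hE, hxE⟩
  obtain ⟨D, hDdef⟩ : ∃ D, D = ⁅B, C⁆ := ⟨_, rfl⟩
  rw [← hDdef] at hcA hcM
  have hD : D ∈ S := hDdef ▸ hcC.1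
  have hBD : ∀ x ∈ B, ∀ y ∈ D, x * y = y * x := fun x hx y hy =>
    (hcC.2.1 y (hDdef ▸ hy) x (Subgroup.mem_sup_left hx)).symm
  have hCD : ∀ x ∈ C, ∀ y ∈ D, x * y = y * x := fun x hx y hy =>
    (hcC.2.1 y (hDdef ▸ hy) x (Subgroup.mem_sup_right hx)).symm
  have hDA : ⁅D, A⁆ = C := by rw [Subgroup.commutator_comm]; exact hcM
  obtain ⟨-, -, -, -, -, hcen⟩ := S5036.result hS hD hA (hDA ▸ hC) hBS (by rw [hDA, ← hDdef])
  rw [hDA] at hcen
  -- the conjugations by `a` and `b`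
  let p : MulAut G := MulAut.conj a
  let q : MulAut G := MulAut.conj b
  have pC : ∀ x ∈ C, p x = x := fun x hx => by
    show a * x * a⁻¹ = x
    rw [hAC a ha x hx, mul_inv_cancel_right]
  have pC' : ∀ x ∈ C, p.symm x = x := fun x hx => by rw [MulEquiv.symm_apply_eq, pC x hx]
  have qD : ∀ y ∈ D, q y = y := fun y hy => by
    show b * y * b⁻¹ = y
    rw [hBD b hb y hy, mul_inv_cancel_right]
  have qD' : ∀ y ∈ D, q.symm y = y := fun y hy => by rw [MulEquiv.symm_apply_eq, qD y hy]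
  have hD1 : ∀ y ∈ D, ∃ c ∈ C, p.symm y = y * c ∧ q.symm c = y * c := by
    intro y hy
    refine ⟨⁅y⁻¹, a⁻¹⁆, hDA ▸ Subgroup.commutator_mem_commutator (inv_mem hy) (inv_mem ha), ?_, ?_⟩
    · simp [p, commutatorElement_def, mul_assoc]
    have hc : ⁅y⁻¹, a⁻¹⁆ ∈ C := hDA ▸ Subgroup.commutator_mem_commutator (inv_mem hy) (inv_mem ha)
    obtain ⟨a0, ha0, ha01⟩ := (Subgroup.bot_or_exists_ne_one A).resolve_left (hS.ne_bot A hA)
    have hd : ⁅b, ⁅y⁻¹, a⁻¹⁆⁆ ∈ D := hDdef ▸ Subgroup.commutator_mem_commutator hb hc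
    have e1 : q (p.symm y) = y * ⁅b, ⁅y⁻¹, a⁻¹⁆⁆ * ⁅y⁻¹, a⁻¹⁆ := by
      have : p.symm y = y * ⁅y⁻¹, a⁻¹⁆ := by simp [p, commutatorElement_def, mul_assoc]
      rw [this, map_mul, qD y hy]
      simp [q, commutatorElement_def, mul_assoc]
    have ht : a * (b⁻¹ * a0 * b) * a⁻¹ ∈ B := by
      have : b⁻¹ * a0 * b ∈ conjBy A b⁻¹ := by rw [mem_cB]; simpa [mul_assoc] using ha0
      rw [e, mem_cB, inv_inv] at this
      exact this
    have h4 : a0 * q (p.symm y) = q (p.symm y) * a0 := by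
      have h5 := (show Commute (a * (b⁻¹ * a0 * b) * a⁻¹) y from hBD _ ht y hy)
      have h6 := (h5.map p.symm).map q
      have e5 : q (p.symm (a * (b⁻¹ * a0 * b) * a⁻¹)) = a0 := by simp [p, q, mul_assoc]
      rw [e5] at h6
      exact h6.eq
    rw [e1] at h4
    have h7 : y * ⁅b, ⁅y⁻¹, a⁻¹⁆⁆ = 1 := by
      refine eq_one_of_commute hS hA hBS h hcA ha0 ha01 (mul_mem hy hd) ?_
      refine mul_right_cancel (b := ⁅y⁻¹, a⁻¹⁆) ?_
      rw [mul_assoc, h4, mul_assoc _ _ a0, ← hAC a0 ha0 _ hc, ← mul_assoc]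
    rw [MulEquiv.symm_apply_eq, map_mul, qD y hy]
    have e2 : q ⁅y⁻¹, a⁻¹⁆ = ⁅b, ⁅y⁻¹, a⁻¹⁆⁆ * ⁅y⁻¹, a⁻¹⁆ := by simp [q, commutatorElement_def, mul_assoc]
    rw [e2, ← mul_assoc, h7, one_mul]
  have hC1 : ∀ x ∈ C, ∃ d ∈ D, q.symm x = x * d ∧ p.symm d = x * d := by
    intro x hx
    have hd : ⁅x⁻¹, b⁻¹⁆ ∈ D := by
      rw [hDdef, Subgroup.commutator_comm]
      exact Subgroup.commutator_mem_commutator (inv_mem hx) (inv_mem hb)
    have e0 : q.symm x = x * ⁅x⁻¹, b⁻¹⁆ := by simp [q, commutatorElement_def, mul_assoc]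
    refine ⟨_, hd, e0, ?_⟩
    obtain ⟨b0, hb0, hb01⟩ := (Subgroup.bot_or_exists_ne_one B).resolve_left (hS.ne_bot B hBS)
    have hc : ⁅a, ⁅x⁻¹, b⁻¹⁆⁆ ∈ C := hcM ▸ Subgroup.commutator_mem_commutator ha hd
    have e2 : p ⁅x⁻¹, b⁻¹⁆ = ⁅a, ⁅x⁻¹, b⁻¹⁆⁆ * ⁅x⁻¹, b⁻¹⁆ := by simp [p, commutatorElement_def, mul_assoc]
    have e1 : p (q.symm x) = x * ⁅a, ⁅x⁻¹, b⁻¹⁆⁆ * ⁅x⁻¹, b⁻¹⁆ := by
      rw [e0, map_mul, pC x hx, e2, ← mul_assoc]
    have ht : b * (a⁻¹ * b0 * a) * b⁻¹ ∈ A := by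
      have : a⁻¹ * b0 * a ∈ conjBy B a⁻¹ := by rw [mem_cB]; simpa [mul_assoc] using hb0
      rw [← e, mem_cB, inv_inv] at this
      exact this
    have h4 : b0 * p (q.symm x) = p (q.symm x) * b0 := by
      have h5 := (show Commute (b * (a⁻¹ * b0 * a) * b⁻¹) x from hAC _ ht x hx)
      have h6 := (h5.map q.symm).map p
      have e5 : p (q.symm (b * (a⁻¹ * b0 * a) * b⁻¹)) = b0 := by simp [p, q, mul_assoc]
      rw [e5] at h6
      exact h6.eq
    rw [e1] at h4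
    have h7 : x * ⁅a, ⁅x⁻¹, b⁻¹⁆⁆ = 1 := by
      refine eq_one_of_commute hS hBS hA (RankOnePair_symm h) hcC hb0 hb01 (mul_mem hx hc) ?_
      refine mul_right_cancel (b := ⁅x⁻¹, b⁻¹⁆) ?_
      rw [mul_assoc, h4, mul_assoc _ _ b0, ← hBD b0 hb0 _ hd, ← mul_assoc]
    rw [MulEquiv.symm_apply_eq, map_mul, pC x hx, e2, ← mul_assoc, h7, one_mul]
  have key : ∀ n, (n ∈ D ∨ n ∈ C) → q.symm (p (q n)) = p.symm (q.symm (p n)) := by
    rintro n (hn | hn)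
    · obtain ⟨c, hc, e1, e2⟩ := hD1 n hn
      have e3 : p n = n * c⁻¹ := by
        have h1 : p (p.symm n) = n := p.apply_symm_apply n
        rw [e1, map_mul, pC c hc] at h1
        exact eq_mul_inv_iff_mul_eq.2 h1
      have e4 : q.symm (p n) = c⁻¹ := by
        rw [e3, map_mul, map_inv, qD' n hn, e2, ← hCD c hc n hn, mul_inv_rev, mul_inv_cancel_left]
      rw [qD n hn, e4, map_inv, pC' c hc]
    · obtain ⟨d, hd, e1, e2⟩ := hC1 n hn
      have e3 : q n = n * d⁻¹ := by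
        have h1 : q (q.symm n) = n := q.apply_symm_apply n
        rw [e1, map_mul, qD d hd] at h1
        exact eq_mul_inv_iff_mul_eq.2 h1
      have e4 : p d = n⁻¹ * d := by
        have h1 : p (p.symm d) = d := p.apply_symm_apply d
        rw [e2, map_mul, pC n hn] at h1
        rw [eq_inv_mul_iff_mul_eq]; exact h1
      simp only [pC n hn, e3, map_mul, map_inv, e4, e1, pC' n hn, e2, qD' d hd]
      group
  obtain ⟨z, hzdef⟩ : ∃ z, z = (a⁻¹ * b⁻¹ * a)⁻¹ * (b⁻¹ * a * b) := ⟨_, rfl⟩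
  have hz : ∀ n ∈ D ⊔ C, z * n = n * z := by
    have hgen : ∀ n, (n ∈ D ∨ n ∈ C) → z * n = n * z := by
      intro n hn
      have k := key n hn
      simp only [p, q, MulAut.conj_apply, MulAut.conj_symm_apply] at k
      calc z * n = (a⁻¹ * b⁻¹ * a)⁻¹ * (b⁻¹ * (a * (b * n * b⁻¹) * a⁻¹) * b) * (b⁻¹ * a * b) := by
            rw [hzdef]; group
        _ = (a⁻¹ * b⁻¹ * a)⁻¹ * (a⁻¹ * (b⁻¹ * (a * n * a⁻¹) * b) * a) * (b⁻¹ * a * b) := by rw [k]
        _ = n * z := by rw [hzdef]; group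
    intro n hn
    have hle : D ⊔ C ≤ Subgroup.centralizer ({z} : Set G) :=
      sup_le (fun m hm => Subgroup.mem_centralizer_singleton_iff.2 (hgen m (Or.inl hm)).symm)
        (fun m hm => Subgroup.mem_centralizer_singleton_iff.2 (hgen m (Or.inr hm)).symm)
    exact (Subgroup.mem_centralizer_singleton_iff.1 (hle hn)).symm
  have haX : a ∈ A ⊔ B := Subgroup.mem_sup_left ha
  have hbX : b ∈ A ⊔ B := Subgroup.mem_sup_right hb
  have hzX : z ∈ A ⊔ B := by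
    rw [hzdef]
    exact mul_mem (inv_mem (mul_mem (mul_mem (inv_mem haX) (inv_mem hbX)) haX))
      (mul_mem (mul_mem (inv_mem hbX) haX) hbX)
  have hcz := hcen z ⟨hzX, Subgroup.mem_centralizer_iff.2 fun n hn => (hz n hn).symm⟩
  have hzP : z ∈ conjBy A b⁻¹ := by
    rw [hzdef]
    refine mul_mem (inv_mem ?_) ?_
    · rw [e, mem_cB]; simpa [mul_assoc] using hb
    · rw [mem_cB]; simpa [mul_assoc] using ha
  rw [mem_cB, inv_inv, ← hcz b hbX, mul_inv_cancel_right] at hzP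
  have hz1 := no_norm h hzP (cB_of_commute fun x hx => hcz x (Subgroup.mem_sup_right hx))
  rw [hzdef, inv_mul_eq_one] at hz1
  exact hz1.symm

end Cfsg.Agent.S5034
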