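import Cfsg.Statements.S5035
import Cfsg.Agent.Lib.RootSub.RankOneLead

set_option autoImplicit false
open Cfsg

namespace Cfsg.Agent.S5035

open Cfsg.Lib.RootSub.RankOneLead

/-- Let S be a set of abstract root subgroups of G whose graph of rank one pairs is connected, and f a homomorphism from G onto a group H. Then either the images of the members of S form a set of abstract root subgroups of H whose graph of rank one pairs is again connected, or H equals the image of a member of S. -/
theorem result {G H : Type*} [Group G] [Group H] {S : Set (Subgroup G)} (hS : Cfsg.IsRootSubgroupSet S)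
    (hc : Cfsg.IsConnectedFamily (Cfsg.FAdj S) S) (f : G →* H) (hf : Function.Surjective f) :
    (Cfsg.IsRootSubgroupSet ((fun A : Subgroup G => A.map f) '' S) ∧
      Cfsg.IsConnectedFamily (Cfsg.FAdj ((fun A : Subgroup G => A.map f) '' S)) ((fun A : Subgroup G => A.map f) '' S)) ∨
    ∃ A ∈ S, A.map f = ⊤ := by
  have hmapconj : ∀ (A : Subgroup G) (g : G), (conjBy A g).map f = conjBy (A.map f) (f g) := by
    intro A g
    rw [conjBy, conjBy, Subgroup.map_map, Subgroup.map_map]
    congr 1
    ext x; simp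
  by_cases hex : ∃ A ∈ S, A.map f = ⊤
  · exact Or.inr hex
  left
  push Not at hex
  have htop : (⨆ A ∈ S, A.map f) = ⊤ := by
    rw [← Subgroup.map_top_of_surjective f hf, ← hS.generates]
    simp only [Subgroup.map_iSup]
  have hconjim : ∀ A ∈ S, ∀ B ∈ S, Relation.ReflTransGen (FAdj S) A B → ∃ g : G, B = conjBy A g := by
    intro A hA B hB h
    clear hB
    induction h with
    | refl => exact ⟨1, (cB_one A).symm⟩
    | @tail X Y _ hXY ih =>
      obtain ⟨g, hg⟩ := ih
      obtain ⟨x, -, hx⟩ := right_mem hXY.2.2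
      exact ⟨x * g, by rw [hx, hg, cB_mul]⟩
  have hne : ∀ A ∈ S, A.map f ≠ ⊥ := by
    intro A hA h
    apply hex A hA
    rw [h]
    have hall : (⨆ B ∈ S, B.map f) ≤ ⊥ := by
      refine iSup₂_le fun B hB => ?_
      obtain ⟨g, rfl⟩ := hconjim A hA B hB (hc A hA B hB)
      rw [hmapconj, h]
      exact (Subgroup.map_bot _).le
    rw [htop] at hall
    exact le_antisymm bot_le hall
  have hrank : ∀ A B : Subgroup G, IsRankOnePair A B → A.map f ≠ B.map f → IsRankOnePair (A.map f) (B.map f) := by
    intro A B h hne'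
    haveI := h.nilpotent_left
    haveI := h.nilpotent_right
    have key : ∀ A B : Subgroup G, IsRankOnePair A B → A.map f ≠ B.map f → RankOneCondition (A.map f) (B.map f) := by
      rintro A B h hne' _ ⟨a, ha, rfl⟩ h1
      obtain ⟨b, hb, -, e⟩ := h.cond_left a ha (fun e => h1 (by rw [e, map_one]))
      have e' := congrArg (fun K : Subgroup G => K.map f) e
      simp only [hmapconj, map_inv] at e'
      refine ⟨f b, ⟨b, hb, rfl⟩, fun hb1 => hne' ?_, e'⟩
      rw [hb1, inv_one, cB_one] at e'
      have e2 : conjBy (A.map f) (f a)⁻¹ = A.map f := cB_mem_self (inv_mem ⟨a, ha, rfl⟩)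
      exact cB_inj (e2.trans e')
    refine ⟨hne', ?_, ?_, key A B h hne', key B A (RankOnePair_symm h) hne'.symm⟩
    · exact Group.nilpotent_of_surjective (f.subgroupMap A) (f.subgroupMap_surjective A)
    · exact Group.nilpotent_of_surjective (f.subgroupMap B) (f.subgroupMap_surjective B)
  refine ⟨⟨?_, ?_, ?_, ?_, ?_⟩, ?_⟩
  · rintro _ ⟨A, hA, rfl⟩
    refine ⟨⟨?_⟩⟩
    rintro ⟨_, x, hx, rfl⟩ ⟨_, y, hy, rfl⟩
    exact Subtype.ext (by show f x * f y = f y * f x; rw [← map_mul, ← map_mul, self_commute hS hA hx hy])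
  · rintro _ ⟨A, hA, rfl⟩; exact hne A hA
  · rw [iSup_image]; exact htop
  · rintro _ ⟨A, hA, rfl⟩ g
    obtain ⟨g, rfl⟩ := hf g
    exact ⟨conjBy A g, hS.conj_mem A hA g, hmapconj A g⟩
  · rintro _ ⟨A, hA, rfl⟩ _ ⟨B, hB, rfl⟩
    show ⁅A.map f, B.map f⁆ = ⊥ ∨ _
    rcases hS.pair A hA B hB with e | e | e
    · left; rw [← Subgroup.map_commutator, e, Subgroup.map_bot]
    · by_cases he : A.map f = B.map f
      · left
        rw [← he]
        exact bot_of_commute fun x hx y hy => by
          obtain ⟨x, hx, rfl⟩ := hx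
          obtain ⟨y, hy, rfl⟩ := hy
          rw [← map_mul, ← map_mul, self_commute hS hA hx hy]
      · exact Or.inr (Or.inl (hrank A B e he))
    · refine Or.inr (Or.inr ⟨?_, ?_, ?_, ?_⟩)
      · exact ⟨⁅A, B⁆, e.1, Subgroup.map_commutator _ _ f⟩
      · intro c hc' x hx
        rw [← Subgroup.map_commutator] at hc'
        rw [← Subgroup.map_sup] at hx
        obtain ⟨c, hc', rfl⟩ := hc'
        obtain ⟨x, hx, rfl⟩ := hx
        rw [← map_mul, ← map_mul, e.2.1 c hc' x hx]
      · rintro _ ⟨a, ha, rfl⟩ h1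
        rw [← Subgroup.map_commutator, ← e.2.2.1 a ha (fun h => h1 (by rw [h, map_one])), MonoidHom.map_closure,
          Subgroup.coe_map, Set.image_image, Set.image_image]
        simp
      · rintro _ ⟨b, hb, rfl⟩ h1
        rw [← Subgroup.map_commutator, ← e.2.2.2 b hb (fun h => h1 (by rw [h, map_one])), MonoidHom.map_closure,
          Subgroup.coe_map, Set.image_image, Set.image_image]
        simp
  · rintro _ ⟨A, hA, rfl⟩ _ ⟨B, hB, rfl⟩
    have h := hc A hA B hB
    induction h with
    | refl => exact .refl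
    | @tail X Y _ hXY ih =>
      have ih' := ih hXY.1
      by_cases he : X.map f = Y.map f
      · show Relation.ReflTransGen _ _ (Y.map f)
        rw [← he]; exact ih'
      · exact .tail ih' ⟨⟨X, hXY.1, rfl⟩, ⟨Y, hXY.2.1, rfl⟩, hrank X Y hXY.2.2 he⟩

end Cfsg.Agent.S5035
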