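import Cfsg.Statements.S5038
import Cfsg.Agent.Lib.RootSub.Line
import Cfsg.Agent.S5036

set_option autoImplicit false
open Cfsg

namespace Cfsg.Agent.S5038

open Cfsg.Lib.RootSub.RankOneLead Cfsg.Lib.RootSub.Commutator Cfsg.Lib.RootSub.Line
open scoped commutatorElement

/-- Let S be a set of abstract root subgroups of G in which every member has a rank one partner, A ∈ S and B a line partner of A. Then the subgroup generated by the members of S normalizing AB permutes the members of S inside AB doubly transitively by conjugation. -/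
theorem result {G : Type*} [Group G] {S : Set (Subgroup G)} (hS : Cfsg.IsRootSubgroupSet S)
    (hF : ∀ A ∈ S, ¬ Cfsg.IsIsolatedIn (Cfsg.FAdj S) S A) {A B : Subgroup G} (hA : A ∈ S) (hB : B ∈ Cfsg.linePartners S A) :
    ∀ C₁ ∈ Cfsg.membersIn S (A ⊔ B), ∀ C₂ ∈ Cfsg.membersIn S (A ⊔ B), ∀ D₁ ∈ Cfsg.membersIn S (A ⊔ B),
      ∀ D₂ ∈ Cfsg.membersIn S (A ⊔ B), C₁ ≠ C₂ → D₁ ≠ D₂ →
        ∃ x ∈ ⨆ E ∈ Cfsg.normalizingMembers S (A ⊔ B), E, Cfsg.conjBy C₁ x = D₁ ∧ Cfsg.conjBy C₂ x = D₂ := by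
  have hp : ∀ A ∈ S, ∃ B ∈ S, IsRankOnePair A B := by
    intro X hX
    have h := hF X hX
    simp only [IsIsolatedIn, not_and, not_forall] at h
    obtain ⟨Y, hY⟩ := h hX
    by_cases hXY : FAdj S X Y
    · exact ⟨Y, hXY.2.1, hXY.2.2⟩
    · have hYX := Classical.not_not.1 (hY hXY)
      exact ⟨Y, hYX.1, RankOnePair_symm hYX.2.2⟩
  obtain ⟨⟨hBS, hBA, hAB⟩, hle, hcov, -⟩ := hB
  obtain ⟨C, D, hC, hD, hcD, hCeq, hL⟩ := line_step hS hp hA hBS (Ne.symm hBA)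
    (fun x hx y hy => commute_of_bot hAB hx hy) (fun x hx hx1 => by
      obtain ⟨M, hM, hxM⟩ := hcov x hx hx1
      exact ⟨M, hM.1, hM.2, hxM⟩)
  have hAC : ∀ x ∈ A, ∀ y ∈ C, x * y = y * x := fun x hx y hy =>
    (hcD.2.1 y (hCeq ▸ hy) x (Subgroup.mem_sup_left hx)).symm
  have hCne : C ≠ A := hCeq ▸ ne_comm hS hcD
  -- the opposite mover
  obtain ⟨D2, hD2, hD2C⟩ : ∃ D2 ∈ S, ⁅D2, C⁆ = A := by
    obtain ⟨M, E, hM, hE, hcE, hEeq, hLM⟩ := line_step hS hp hC hA hCne (fun x hx y hy => (hAC y hy x hx).symm)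
      (fun x hx hx1 => by
        obtain ⟨M, hM, hxM⟩ := hcov x (by rw [← hL, sup_comm]; exact hx) hx1
        exact ⟨M, hM.1, by rw [sup_comm, hL]; exact hM.2, hxM⟩)
    obtain ⟨m, hm, hm1⟩ := (Subgroup.bot_or_exists_ne_one M).resolve_left (hS.ne_bot M hM)
    have hmL : m ∈ A ⊔ ⁅A, D⁆ := by
      rw [hCeq, sup_comm, ← hLM]; exact Subgroup.mem_sup_right hm
    rcases members_cover hcD hmL with h | ⟨δ, hδ, a, ha, -, h⟩
    · rw [hCeq] at h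
      exact absurd (eq_of_mem hS hp hM hC hm h hm1) (hEeq ▸ ne_comm hS hcE)
    · have hMeq : M = conjBy A δ := eq_of_mem hS hp hM (hS.conj_mem A hA δ) hm ⟨a, ha, h.symm⟩ hm1
      have hCfix : conjBy C δ⁻¹ = C := cB_of_commute fun x hx =>
        (hcD.2.1 x (hCeq ▸ hx) δ⁻¹ (Subgroup.mem_sup_right (inv_mem hδ))).symm
      refine ⟨conjBy E δ⁻¹, hS.conj_mem E hE _, ?_⟩
      conv_lhs => rw [← hCfix]
      show ⁅E.map _, C.map _⁆ = A
      rw [← Subgroup.map_commutator, Subgroup.commutator_comm, hEeq, hMeq]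
      show conjBy (conjBy A δ) δ⁻¹ = A
      rw [cB_mul, inv_mul_cancel, cB_one]
  obtain ⟨hrk, hsetC, hsetB, hsetD, ⟨hple, hpcov, -⟩, -⟩ :=
    Cfsg.Agent.S5036.result hS hA hD hcD.1 hD2 (by rw [hCeq]; exact hD2C)
  rw [hCeq] at hsetC hsetB hsetD hple hpcov
  set Ω := {E | ∃ x ∈ D ⊔ D2, E = conjBy A x} with hΩ
  set N := ⨆ E ∈ normalizingMembers S (A ⊔ B), E with hNdef
  have hΩS : ∀ E ∈ Ω, E ∈ S := by rintro E ⟨x, -, rfl⟩; exact hS.conj_mem A hA x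
  have hmem : ∀ E ∈ membersIn S (A ⊔ B), E ∈ Ω := by
    rintro E ⟨hES, hEle⟩
    obtain ⟨e, he, he1⟩ := (Subgroup.bot_or_exists_ne_one E).resolve_left (hS.ne_bot E hES)
    obtain ⟨E', hE', heE'⟩ := hpcov e (hL ▸ hEle he) he1
    rwa [eq_of_mem hS hp hES (hΩS E' hE') he heE' he1]
  have hnorm : ∀ z ∈ D ⊔ D2, z ∈ Subgroup.normalizer ((A ⊔ B : Subgroup G) : Set G) := by
    intro z hz
    have key : ∀ z ∈ D ⊔ D2, ∀ n ∈ A ⊔ B, z * n * z⁻¹ ∈ A ⊔ B := by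
      intro z hz n hn
      by_cases hn1 : n = 1
      · subst hn1; simpa using one_mem (A ⊔ B)
      obtain ⟨E, hE, hnE⟩ := hpcov n (hL ▸ hn) hn1
      obtain ⟨x, hx, rfl⟩ := hE
      rw [← hL]
      exact hple (conjBy A (z * x)) ⟨_, mul_mem hz hx, rfl⟩ (by rw [← cB_mul]; exact ⟨n, hnE, rfl⟩)
    rw [Subgroup.mem_normalizer_iff]
    exact fun n => ⟨key z hz n, fun hn => by simpa [mul_assoc] using key z⁻¹ (inv_mem hz) _ hn⟩
  have hXN : D ⊔ D2 ≤ N := sup_le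
    (le_iSup₂_of_le D ⟨hD, fun z hz => hnorm z (Subgroup.mem_sup_left hz)⟩ le_rfl)
    (le_iSup₂_of_le D2 ⟨hD2, fun z hz => hnorm z (Subgroup.mem_sup_right hz)⟩ le_rfl)
  -- every pair of members goes to `(C, A)`
  have hpair : ∀ E₁ ∈ Ω, ∀ E₂ ∈ Ω, E₁ ≠ E₂ → ∃ x ∈ D ⊔ D2, conjBy C x = E₁ ∧ conjBy A x = E₂ := by
    intro E₁ h1 E₂ h2 hne
    have h1' : E₁ ∈ {E | ∃ x ∈ D ⊔ D2, E = conjBy C x} := hsetC ▸ h1
    obtain ⟨x, hx, rfl⟩ := h1'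
    have h3 : conjBy E₂ x⁻¹ ∈ Ω := by
      obtain ⟨y, hy, rfl⟩ := h2
      exact ⟨x⁻¹ * y, mul_mem (inv_mem hx) hy, cB_mul _ _ _⟩
    rw [hsetB] at h3
    rcases h3 with ⟨d, hd, he⟩ | he
    · refine ⟨x * d, mul_mem hx (Subgroup.mem_sup_left hd), ?_, ?_⟩
      · rw [← cB_mul, cB_of_commute (g := d) fun y hy =>
          (hcD.2.1 y (hCeq ▸ hy) d (Subgroup.mem_sup_right hd)).symm]
      · rw [← cB_mul]
        show conjBy (conjBy A d) x = E₂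
        rw [show conjBy A d = conjBy E₂ x⁻¹ from he, cB_mul, mul_inv_cancel, cB_one]
    · exact absurd (by rw [← he, cB_mul, mul_inv_cancel, cB_one]) hne
  intro C₁ h1 C₂ h2 D₁ h3 D₂ h4 hne hne'
  obtain ⟨x, hx, rfl, rfl⟩ := hpair C₁ (hmem _ h1) C₂ (hmem _ h2) hne
  obtain ⟨y, hy, rfl, rfl⟩ := hpair D₁ (hmem _ h3) D₂ (hmem _ h4) hne'
  exact ⟨y * x⁻¹, hXN (mul_mem hy (inv_mem hx)), by rw [cB_mul, inv_mul_cancel_right],
    by rw [cB_mul, inv_mul_cancel_right]⟩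

end Cfsg.Agent.S5038
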