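import Cfsg.Statements.S5041
import Cfsg.Agent.Lib.RootSub.LinePartner
import Cfsg.Agent.S5034

set_option autoImplicit false
open Cfsg
open scoped Pointwise commutatorElement

namespace Cfsg.Agent.S5041

open Cfsg.Lib.RootSub.RankOneLead Cfsg.Lib.RootSub.Commutator Cfsg.Lib.RootSub.LinePartner


/-- Let S be a non-degenerate class of abstract root subgroups of G. Then the graph on S joining A to its line partners, and the commuting graph on S, are both connected. -/
theorem result {G : Type*} [Group G] {S : Set (Subgroup G)} (hS : Cfsg.IsRootSubgroupClass S) (hnd : Cfsg.IsNondegenerateRootSet S) :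
    Cfsg.IsConnectedFamily (Cfsg.EAdj S S) S ∧ Cfsg.IsConnectedFamily (Cfsg.DAdj S) S := by
  have hS' := hS
  obtain ⟨hS, hcl⟩ := hS
  have hp : ∀ E ∈ S, ∃ F ∈ S, IsRankOnePair E F := by
    intro E hE
    obtain ⟨A, hA, B, hB, h⟩ := hnd.2.1
    obtain ⟨g, rfl⟩ := hcl.2 A hA E hE
    exact ⟨conjBy B g, hS.conj_mem B hB g, map_conj h g⟩
  have hconn : IsConnectedFamily (EAdj S S) S := by
    have hadj : ∀ {X Y : Subgroup G}, EAdj S S X Y → EAdj S S Y X := fun h => ⟨h.2.1, h.1, lp_symm h.1 h.2.2⟩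
    have hsymm : ∀ {X Y : Subgroup G}, Relation.ReflTransGen (EAdj S S) X Y →
        Relation.ReflTransGen (EAdj S S) Y X := by
      intro X Y h
      induction h with
      | refl => exact .refl
      | tail _ h2 ih => exact ih.head (hadj h2)
    have hconj : ∀ (g : G) {X Y : Subgroup G}, Relation.ReflTransGen (EAdj S S) X Y →
        Relation.ReflTransGen (EAdj S S) (conjBy X g) (conjBy Y g) := by
      intro g X Y h
      induction h with
      | refl => exact .refl
      | tail _ h2 ih =>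
        exact ih.tail ⟨hS.conj_mem _ h2.1 g, hS.conj_mem _ h2.2.1 g, lp_conj hS hp h2.2.2 g⟩
    have hcase : ∀ X ∈ S, ∀ Y ∈ S, ⁅X, Y⁆ ∈ S → Relation.ReflTransGen (EAdj S S) X Y := by
      intro X hX Y hY hc
      have h1 := lp_of_comm hS hp hX hY hc
      have hc' : ⁅Y, X⁆ ∈ S := by rwa [Subgroup.commutator_comm]
      have h2 := lp_of_comm hS hp hY hX hc'
      rw [Subgroup.commutator_comm] at h2
      exact (Relation.ReflTransGen.single (hadj ⟨hc, hX, h1⟩)).tail ⟨hc, hY, h2⟩
    have hnc : ∀ X ∈ S, ∀ Y ∈ S, ⁅X, Y⁆ ≠ ⊥ → Relation.ReflTransGen (EAdj S S) X Y := by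
      intro X hX Y hY hne
      rcases hS.pair X hX Y hY with e | e | e
      · exact absurd e hne
      · obtain ⟨⟨C, hC, hCY⟩, -⟩ := S5034.result hS' hnd hX ⟨hY, e⟩
        exact (hsymm (hcase Y hY C hCY.1 hCY.2)).head ⟨hX, hCY.1, hC⟩
      · exact hcase X hX Y hY e.1
    intro A hA X hX
    obtain ⟨g, rfl⟩ := hcl.2 A hA X hX
    have hg : g ∈ ⨆ Z : {Z // Z ∈ S}, (Z : Subgroup G) := by
      have htop := hS.generates
      rw [iSup_subtype'] at htop
      exact htop.symm ▸ Subgroup.mem_top g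
    have key : ∀ Y ∈ S, Relation.ReflTransGen (EAdj S S) A Y → Relation.ReflTransGen (EAdj S S) A (conjBy Y g) := by
      refine Subgroup.iSup_induction (C := fun g => ∀ Y ∈ S, Relation.ReflTransGen (EAdj S S) A Y →
        Relation.ReflTransGen (EAdj S S) A (conjBy Y g)) _ hg ?_ ?_ ?_
      · intro Z z hz Y hY hr
        by_cases e : ⁅(Z : Subgroup G), Y⁆ = ⊥
        · rwa [cB_of_commute fun y hy => commute_of_bot e hz hy]
        · have h1 := hsymm (hnc Z Z.2 Y hY e)
          have h2 := hconj z (hsymm h1)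
          rw [cB_mem_self hz] at h2
          exact hr.trans (h1.trans h2)
      · intro Y hY hr; rwa [cB_one]
      · intro x y hx hy Y hY hr
        rw [← cB_mul]; exact hx _ (hS.conj_mem Y hY y) (hy Y hY hr)
    exact key A hA .refl
  refine ⟨hconn, fun A hA X hX => Relation.ReflTransGen.mono (fun Y Z h => ?_) _ _ (hconn A hA X hX)⟩
  exact ⟨h.1, h.2.1, h.2.2.1.2.1.symm, h.2.2.1.2.2⟩

end Cfsg.Agent.S5041
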