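import Cfsg.Statements.S5042
import Cfsg.Agent.Lib.RootSub.LinePartner
import Cfsg.Agent.S5036
import Cfsg.Agent.S5041

set_option autoImplicit false
open Cfsg
open scoped Pointwise commutatorElement

namespace Cfsg.Agent.S5042

open Cfsg.Lib.RootSub.RankOneLead Cfsg.Lib.RootSub.Commutator Cfsg.Lib.RootSub.LinePartner


/-- Let S be a non-degenerate class of abstract root subgroups of G, A ∈ S and B a rank one partner of A. Then G is generated by the line partners of A together with B. -/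
theorem result {G : Type*} [Group G] {S : Set (Subgroup G)} (hS : Cfsg.IsRootSubgroupClass S) (hnd : Cfsg.IsNondegenerateRootSet S)
    {A B : Subgroup G} (hA : A ∈ S) (hB : B ∈ Cfsg.rankOnePartners S A) :
    (⨆ C ∈ Cfsg.linePartners S A, C) ⊔ B = ⊤ := by
  have hconn := (S5041.result hS hnd).1
  obtain ⟨hS, hcl⟩ := hS
  obtain ⟨hBS, h⟩ := hB
  have hp : ∀ E ∈ S, ∃ F ∈ S, IsRankOnePair E F := by
    intro E hE
    obtain ⟨g, rfl⟩ := hcl.2 A hA E hE
    exact ⟨conjBy B g, hS.conj_mem B hBS g, map_conj h g⟩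
  obtain ⟨R, hR⟩ : ∃ R, R = (⨆ C ∈ linePartners S A, C) ⊔ B := ⟨_, rfl⟩
  rw [← hR]
  have hL : ∀ C ∈ linePartners S A, C ≤ R := fun C hC => hR ▸ le_sup_of_le_left (le_iSup₂_of_le C hC le_rfl)
  have hBR : B ≤ R := hR ▸ le_sup_right
  have hconj : ∀ g ∈ R, ∀ K ≤ R, conjBy K g ≤ R := by
    rintro g hg K hK _ ⟨x, hx, rfl⟩
    exact mul_mem (mul_mem hg (hK hx)) (inv_mem hg)
  -- the step along a line
  have hstep : ∀ g ∈ R, ∀ Y ∈ linePartners S (conjBy A g),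
      ∃ M, M ∈ linePartners S (conjBy A g) ∧ ∃ D ≤ R, RootCommutatorCase S (conjBy A g) D ∧
        ⁅conjBy A g, D⁆ = M ∧ D ∈ S ∧ ((∃ δ ∈ D, Y = conjBy (conjBy A g) δ) ∨ Y = M) := by
    intro g hg Y hY
    have hLg : ∀ C ∈ linePartners S (conjBy A g), C ≤ R := by
      intro C hC
      have h1 := lp_conj hS hp hC g⁻¹
      rw [cB_mul, inv_mul_cancel, cB_one] at h1
      have h2 := hconj g hg _ (hL _ h1)
      rwa [cB_mul, mul_inv_cancel, cB_one] at h2
    obtain ⟨M, hM, hc, b, hb, hb1, hbM⟩ :=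
      exists_commutator_line hS hp (hS.conj_mem A hA g) (hS.conj_mem B hBS g) (map_conj h g) hY
    obtain ⟨hcA, hcM⟩ := Cfsg.Lib.RootSub.Line.mover hS hp (hS.conj_mem A hA g) (hS.conj_mem B hBS g) hM.1.1
      (map_conj h g) (fun x hx y hy => commute_of_bot hM.1.2.2 hx hy) hc fun x hx hx1 => by
        obtain ⟨E, ⟨hE, -⟩, hxE⟩ := hM.2.2.1 x hx hx1
        exact ⟨E, hE, hxE⟩
    refine ⟨M, hM, _, ?_, hcA, hcM, hc.1, ?_⟩
    · exact (Subgroup.commutator_le_sup _ _).trans (sup_le (hconj g hg B hBR) (hLg M hM))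
    rw [← hcM] at hbM
    rcases Cfsg.Lib.RootSub.Line.members_cover hcA hbM with h' | ⟨δ, hδ, x, hx, -, h'⟩
    · rw [hcM] at h'
      exact Or.inr (Cfsg.Lib.RootSub.Line.eq_of_mem hS hp hY.1.1 hM.1.1 hb h' hb1)
    · exact Or.inl ⟨δ, hδ, Cfsg.Lib.RootSub.Line.eq_of_mem hS hp hY.1.1 (hS.conj_mem _ (hS.conj_mem A hA g) δ) hb
        ⟨x, hx, h'.symm⟩ hb1⟩
  have hAR : A ≤ R := by
    obtain ⟨⟨C, hC, -⟩, -⟩ := S5034.result ⟨hS, hcl⟩ hnd hA ⟨hBS, h⟩
    obtain ⟨M, hM, D, -, hc, he, -, -⟩ := hstep 1 (one_mem _) C (by rwa [cB_one])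
    rw [cB_one] at hM hc he
    obtain ⟨E, hE, hEM⟩ := back hS hp hA hM hc he
    rw [← hEM]
    exact (Subgroup.commutator_le_sup _ _).trans (sup_le (hL E hE) (hL M hM))
  have hall : ∀ X ∈ S, ∃ g ∈ R, X = conjBy A g := by
    intro X hX
    induction hconn A hA X hX with
    | refl => exact ⟨1, one_mem _, (cB_one A).symm⟩
    | tail _ h2 ih =>
      obtain ⟨g, hg, rfl⟩ := ih h2.1
      obtain ⟨M, hM, D, hDR, hc, he, hD, ⟨δ, hδ, e⟩ | e⟩ := hstep g hg _ h2.2.2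
      · exact ⟨δ * g, mul_mem (hDR hδ) hg, by rw [e, cB_mul]⟩
      · obtain ⟨E, hE, hEM⟩ := back hS hp h2.1 hM hc he
        have hER : E ≤ R := by
          have h1 := lp_conj hS hp hE g⁻¹
          rw [cB_mul, inv_mul_cancel, cB_one] at h1
          have h2 := hconj g hg _ (hL _ h1)
          rwa [cB_mul, mul_inv_cancel, cB_one] at h2
        obtain ⟨-, heq, -⟩ := S5036.result hS h2.1 hD hc.1 hE.1.1 (by rw [he]; exact hEM)
        rw [he] at heq
        obtain ⟨x, hx, hxe⟩ : M ∈ {F | ∃ x ∈ D ⊔ E, F = conjBy (conjBy A g) x} := by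
          rw [heq]; exact ⟨1, one_mem _, (cB_one M).symm⟩
        exact ⟨x * g, mul_mem ((sup_le hDR hER : D ⊔ E ≤ R) hx) hg, by rw [e, hxe, cB_mul]⟩
  rw [eq_top_iff, ← hS.generates]
  refine iSup₂_le fun X hX => ?_
  obtain ⟨g, hg, rfl⟩ := hall X hX
  exact hconj g hg A hAR

end Cfsg.Agent.S5042
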