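import Cfsg.Statements.S5040
import Cfsg.Agent.Lib.RootSub.LinePartner
import Cfsg.Agent.S5042

set_option autoImplicit false
open Cfsg
open scoped Pointwise commutatorElement

namespace Cfsg.Agent.S5040

open Cfsg.Lib.RootSub.RankOneLead Cfsg.Lib.RootSub.Commutator Cfsg.Lib.RootSub.LinePartner


/-- Let S be a non-degenerate class of abstract root subgroups of G and Δ a weak TI-subset of S. Then the members of Δ commute with one another elementwise. -/
theorem result {G : Type*} [Group G] {S : Set (Subgroup G)} (hS : Cfsg.IsRootSubgroupClass S) (hnd : Cfsg.IsNondegenerateRootSet S)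
    {Δ : Set (Subgroup G)} (hΔ : Cfsg.IsWeakTISubset S Δ) : Cfsg.IsAbelianFamily Δ := by
  obtain ⟨hS', hcl⟩ := hS
  obtain ⟨hsub, -, hne, hTI⟩ := hΔ
  have hp : ∀ E ∈ S, ∃ F ∈ S, IsRankOnePair E F := by
    intro E hE
    obtain ⟨A, hA, B, hB, h⟩ := hnd.2.1
    obtain ⟨g, rfl⟩ := hcl.2 A hA E hE
    exact ⟨conjBy B g, hS'.conj_mem B hB g, map_conj h g⟩
  obtain ⟨K, hK⟩ : ∃ K : Subgroup G, K = Subgroup.closure {g | (fun A => conjBy A g) '' Δ = Δ} := ⟨_, rfl⟩
  have hinv : ∀ g ∈ K, (fun A => conjBy A g) '' Δ = Δ := by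
    intro g hg
    rw [hK] at hg
    induction hg using Subgroup.closure_induction with
    | mem x hx => exact hx
    | one => ext; simp [cB_one]
    | mul x y _ _ hx hy =>
      conv_rhs => rw [← hx, ← hy, Set.image_image]
      simp [cB_mul]
    | inv x _ hx =>
      conv_lhs => rw [← hx, Set.image_image]
      ext; simp [cB_mul, cB_one]
  -- members commuting with a member of `Δ` stabilize `Δ`
  have hstab : ∀ A ∈ Δ, ∀ C ∈ S, (∀ x ∈ C, ∀ y ∈ A, x * y = y * x) → C ≤ K := by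
    intro A hA C hC hcomm d hd
    by_cases hd1 : d = 1
    · rw [hd1]; exact one_mem _
    rw [hK]
    refine Subgroup.subset_closure ((hTI d ⟨hd1, C, hC, hd⟩).resolve_right fun hdis => ?_)
    exact Set.disjoint_left.1 hdis ⟨A, hA, cB_of_commute fun y hy => hcomm d hd y hy⟩ hA
  have hr1 : ∀ A ∈ Δ, ∀ B ∈ Δ, ¬ IsRankOnePair A B := by
    intro A hA B hB h
    refine hne ?_
    have htop : K = ⊤ := by
      rw [eq_top_iff, ← S5042.result ⟨hS', hcl⟩ hnd (hsub hA) ⟨hsub hB, h⟩]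
      refine sup_le (iSup₂_le fun C hC => hstab A hA C hC.1.1 fun x hx y hy => (commute_of_bot hC.1.2.2 hy hx).symm)
        (hstab B hB B (hsub hB) fun x hx y hy => self_commute hS' (hsub hB) hx hy)
    refine Set.Subset.antisymm hsub fun X hX => ?_
    obtain ⟨g, rfl⟩ := hcl.2 A (hsub hA) X hX
    rw [← hinv g (htop ▸ Subgroup.mem_top g)]
    exact ⟨A, hA, rfl⟩
  intro A hA B hB
  rcases hS'.pair A (hsub hA) B (hsub hB) with e | e | e
  · exact fun a ha b hb => commute_of_bot e ha hb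
  · exact absurd e (hr1 A hA B hB)
  exfalso
  obtain ⟨D, hD, hDE⟩ := back hS' hp (hsub hA) (lp_symm e.1 (lp_of_comm hS' hp (hsub hA) (hsub hB) e.1)) e rfl
  obtain ⟨h, -⟩ := S5036.result hS' (hsub hA) (hsub hB) e.1 hD.1.1 hDE
  obtain ⟨d, hd, hd1⟩ := (Subgroup.bot_or_exists_ne_one D).resolve_left (hS'.ne_bot D hD.1.1)
  obtain ⟨b, hb, -, hb'⟩ := cr h hd hd1
  have hBd : conjBy B d ∈ Δ := by
    rw [← hinv d (hstab A hA D hD.1.1 (fun x hx y hy => (commute_of_bot hD.1.2.2 hy hx).symm) hd)]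
    exact ⟨B, hB, rfl⟩
  have h2 := map_conj h b
  rw [cB_mem_self hb, ← hb'] at h2
  exact hr1 B hB _ hBd h2

end Cfsg.Agent.S5040
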