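import Cfsg.Statements.S5058
import Cfsg.Agent.Lib.Classical.Transvection
import Cfsg.Agent.Lib.LinAlg.TransvCent

set_option autoImplicit false
open Matrix
open Cfsg

namespace Cfsg.Agent.S5058

open Matrix Cfsg.Lib.Classical

variable {F : Type*} [Field F] {n : ℕ}

local notation "𝕀" => Fin (n + 3)
local notation "𝕊" => Matrix.SpecialLinearGroup (Fin (n + 3)) F

/-- the transvection set -/
def IsT (t : Matrix.SpecialLinearGroup (Fin (n + 3)) F) : Prop :=
  ∃ v φ : Fin (n + 3) → F, v ≠ 0 ∧ φ ≠ 0 ∧ φ ⬝ᵥ v = 0 ∧ (t : Matrix (Fin (n + 3)) (Fin (n + 3)) F) = tv v φ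

theorem std_isT (c : F) (hc : c ≠ 0) :
    ∃ v φ : 𝕀 → F, v ≠ 0 ∧ φ ≠ 0 ∧ φ ⬝ᵥ v = 0 ∧ Matrix.transvection (0 : 𝕀) 1 c = tv v φ := by
  refine ⟨Pi.single 0 1, c • Pi.single 1 1, fun h => by simpa using congrFun h 0, ?_, ?_, transvection_eq_tv 0 1 c⟩
  · intro h; exact hc (by simpa using congrFun h 1)
  · simp [smul_dotProduct]

theorem rank_one {v φ : 𝕀 → F} (hv : v ≠ 0) (hφ : φ ≠ 0) : (vecMulVec v φ).rank = 1 := by
  refine le_antisymm (Matrix.rank_vecMulVec_le v φ) ?_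
  rw [Nat.one_le_iff_ne_zero]
  intro h
  obtain ⟨i, hi⟩ := Function.ne_iff.1 hv
  obtain ⟨j, hj⟩ := Function.ne_iff.1 hφ
  have h' : Module.finrank F (LinearMap.range (vecMulVec v φ).mulVecLin) = 0 := h
  rw [Submodule.finrank_eq_zero, LinearMap.range_eq_bot] at h'
  have := congrFun (DFunLike.congr_fun h' (Pi.single j 1)) i
  rw [Matrix.mulVecLin_apply, Matrix.mulVec_single_one] at this
  exact mul_ne_zero hi hj (by simpa [vecMulVec_apply] using this)

theorem isConj_of_isT {a b : 𝕊} (ha : IsT a) (hb : IsT b) : IsConj a b := by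
  classical
  let e : LinAlg.Transv.Idx (n + 1) ≃ 𝕀 := Fintype.equivFinOfCardEq (by simp; omega)
  let R := Matrix.reindexAlgEquiv F F e.symm
  have key : ∀ t : 𝕊, IsT t → ∃ P : GL (LinAlg.Transv.Idx (n + 1)) F,
      R ((t : Matrix 𝕀 𝕀 F) - 1) * (P : Matrix _ _ F) = (P : Matrix _ _ F) * LinAlg.Transv.std F (n + 1) := by
    rintro t ⟨v, φ, hv, hφ, h0, ht⟩
    refine LinAlg.Transv.exists_conj_std ?_ ?_
    · rw [show R ((t : Matrix 𝕀 𝕀 F) - 1) = ((t : Matrix 𝕀 𝕀 F) - 1).submatrix e e from rfl, Matrix.rank_submatrix,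
        ht, tv, add_sub_cancel_left, rank_one hv hφ]
    · rw [← map_mul, ht, tv, add_sub_cancel_left, vecMulVec_mul_vecMulVec, h0, zero_smul]
      simp
  obtain ⟨P, hP⟩ := key a ha
  obtain ⟨Q, hQ⟩ := key b hb
  set δ := (P : Matrix (LinAlg.Transv.Idx (n + 1)) (LinAlg.Transv.Idx (n + 1)) F).det /
    (Q : Matrix (LinAlg.Transv.Idx (n + 1)) (LinAlg.Transv.Idx (n + 1)) F).det with hδ
  have hQd : (Q : Matrix (LinAlg.Transv.Idx (n + 1)) (LinAlg.Transv.Idx (n + 1)) F).det ≠ 0 :=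
    ((Matrix.isUnit_iff_isUnit_det _).1 Q.isUnit).ne_zero
  have hPd : (P : Matrix (LinAlg.Transv.Idx (n + 1)) (LinAlg.Transv.Idx (n + 1)) F).det ≠ 0 :=
    ((Matrix.isUnit_iff_isUnit_det _).1 P.isUnit).ne_zero
  set C := LinAlg.Transv.commMat (k := n + 1) (1 : F) (Matrix.diagonal (Function.update 1 0 δ)) 0 0 0 with hCdef
  have hCd : C.det = δ := by
    rw [hCdef, LinAlg.Transv.det_commMat, Matrix.det_diagonal, Finset.prod_update_of_mem (Finset.mem_univ _)]
    simp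
  set M := (Q : Matrix (LinAlg.Transv.Idx (n + 1)) (LinAlg.Transv.Idx (n + 1)) F) * C *
    ((P⁻¹ : GL (LinAlg.Transv.Idx (n + 1)) F) : Matrix (LinAlg.Transv.Idx (n + 1)) (LinAlg.Transv.Idx (n + 1)) F) with hM
  have hMd : (R.symm M).det = 1 := by
    have h1 : (R.symm M).det = M.det := Matrix.det_reindex_self _ _
    rw [h1, hM, Matrix.det_mul, Matrix.det_mul, hCd, hδ, Matrix.coe_units_inv, Matrix.det_nonsing_inv,
      Ring.inverse_eq_inv']
    field_simp
  have hMc : M * R ((a : Matrix 𝕀 𝕀 F) - 1) = R ((b : Matrix 𝕀 𝕀 F) - 1) * M := by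
    have hC := LinAlg.Transv.commute_commMat (k := n + 1) (1 : F) (Matrix.diagonal (Function.update 1 0 δ)) 0 0 0
    have hP' : ((P⁻¹ : GL (LinAlg.Transv.Idx (n + 1)) F) : Matrix _ _ F) * R ((a : Matrix 𝕀 𝕀 F) - 1) =
        LinAlg.Transv.std F (n + 1) * ((P⁻¹ : GL (LinAlg.Transv.Idx (n + 1)) F) : Matrix _ _ F) := by
      calc _ = ((P⁻¹ : GL (LinAlg.Transv.Idx (n + 1)) F) : Matrix _ _ F) * (R ((a : Matrix 𝕀 𝕀 F) - 1) * (P : Matrix _ _ F)) *
            ((P⁻¹ : GL (LinAlg.Transv.Idx (n + 1)) F) : Matrix _ _ F) := by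
              rw [mul_assoc, mul_assoc (R _), Units.mul_inv, mul_one]
        _ = _ := by rw [hP, ← mul_assoc, Units.inv_mul, one_mul]
    calc M * R ((a : Matrix 𝕀 𝕀 F) - 1) = (Q : Matrix _ _ F) * (C * LinAlg.Transv.std F (n + 1)) *
          ((P⁻¹ : GL (LinAlg.Transv.Idx (n + 1)) F) : Matrix _ _ F) := by rw [hM, mul_assoc, hP']; simp only [mul_assoc]
      _ = ((Q : Matrix _ _ F) * LinAlg.Transv.std F (n + 1)) * C * ((P⁻¹ : GL (LinAlg.Transv.Idx (n + 1)) F) : Matrix _ _ F) := by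
          rw [← hC.eq]; simp only [mul_assoc, hCdef]
      _ = _ := by rw [← hQ, hM]; simp only [mul_assoc]
  refine isConj_iff.mpr ⟨⟨R.symm M, hMd⟩, mul_inv_eq_of_eq_mul (Subtype.ext ?_)⟩
  show R.symm M * (a : Matrix 𝕀 𝕀 F) = (b : Matrix 𝕀 𝕀 F) * R.symm M
  have h := congrArg R.symm hMc
  simp only [map_mul, AlgEquiv.symm_apply_apply, mul_sub, sub_mul, mul_one, one_mul] at h
  exact sub_left_inj.1 h

theorem isT_conj {a : 𝕊} (ha : IsT a) (g : 𝕊) : IsT (g * a * g⁻¹) := by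
  obtain ⟨v, φ, hv, hφ, h0, ht⟩ := ha
  let G : GL 𝕀 F := Matrix.SpecialLinearGroup.toGL g
  refine ⟨(G : Matrix 𝕀 𝕀 F) *ᵥ v, φ ᵥ* ((G⁻¹ : GL 𝕀 F) : Matrix 𝕀 𝕀 F), mulVec_ne_zero G hv, ?_, ?_, ?_⟩
  · intro h
    apply hφ
    have := congrArg (fun x => x ᵥ* (G : Matrix 𝕀 𝕀 F)) h
    simpa only [Matrix.vecMul_vecMul, Units.inv_mul, Matrix.vecMul_one, Matrix.zero_vecMul] using this
  · rw [← dotProduct_mulVec, inv_mulVec_mulVec, h0]
  · rw [← conj_tv, ← ht]
    simp only [G, Matrix.SpecialLinearGroup.coe_mul, ← map_inv]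
    rfl

theorem isT_mem_iff {t : 𝕊} :
    (∃ c : F, c ≠ 0 ∧ ∃ g : 𝕊, ((g⁻¹ * t * g : 𝕊) : Matrix 𝕀 𝕀 F) = Matrix.transvection 0 1 c) ↔ IsT t := by
  constructor
  · rintro ⟨c, hc, g, hg⟩
    obtain ⟨v, φ, h⟩ := std_isT (n := n) c hc
    have := isT_conj (a := g⁻¹ * t * g) ⟨v, φ, h.1, h.2.1, h.2.2.1, hg.trans h.2.2.2⟩ g
    rwa [show g * (g⁻¹ * t * g) * g⁻¹ = t by group] at this
  · intro ht
    obtain ⟨v, φ, h⟩ := std_isT (n := n) (1 : F) one_ne_zero
    let e : 𝕊 := ⟨Matrix.transvection 0 1 1, Matrix.det_transvection_of_ne 0 1 (Fin.ne_of_lt (by simp [Fin.lt_def])) 1⟩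
    obtain ⟨g, hg⟩ := isConj_iff.1 (isConj_of_isT ht (b := e) ⟨v, φ, h⟩)
    exact ⟨1, one_ne_zero, g⁻¹, by rw [inv_inv, hg]⟩

theorem add_self_zero [CharP F 2] (X : Matrix 𝕀 𝕀 F) : X + X = 0 := by
  rw [← two_smul F X, CharTwo.two_eq_zero, zero_smul]

/-- The product of two transvections with both pairings nonzero is killed by a separable cubic. -/
theorem aeval_prod [CharP F 2] {v φ w ψ : 𝕀 → F} (hv : φ ⬝ᵥ v = 0) (hw : ψ ⬝ᵥ w = 0) :
    let M := tv v φ * tv w ψ
    (M - 1) * (M * M + (φ ⬝ᵥ w * (ψ ⬝ᵥ v)) • M + 1) = 0 := by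
  intro M
  set c := φ ⬝ᵥ w * (ψ ⬝ᵥ v) with hc
  set A := vecMulVec v φ with hA
  set B := vecMulVec w ψ with hB
  have hAA : A * A = 0 := by rw [hA, vecMulVec_mul_vecMulVec, hv, zero_smul]; simp
  have hBB : B * B = 0 := by rw [hB, vecMulVec_mul_vecMulVec, hw, zero_smul]; simp
  have hABA : A * (B * A) = c • A := by
    ext i j
    simp [hA, hB, hc, vecMulVec_mul_vecMulVec, vecMulVec_apply]
    ring
  have hBAB : B * (A * B) = c • B := by
    ext i j
    simp [hA, hB, hc, vecMulVec_mul_vecMulVec, vecMulVec_apply]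
    ring
  have hAAX : ∀ X, A * (A * X) = 0 := fun X => by rw [← mul_assoc, hAA, zero_mul]
  have hBBX : ∀ X, B * (B * X) = 0 := fun X => by rw [← mul_assoc, hBB, zero_mul]
  set K := A + B + A * B with hK
  have hM : M = 1 + K := by simp only [M, tv, hK, ← hA, ← hB]; noncomm_ring
  have hKK : K * K = A * B + B * A + c • B + c • A + c • (A * B) := by
    simp only [hK, add_mul, mul_add, mul_assoc, hAA, hBB, hAAX, hBBX, hABA, hBAB, mul_zero, mul_smul_comm,
      zero_add, add_zero]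
    abel
  have hQ : M * M + c • M + 1 = c • (1 : Matrix 𝕀 𝕀 F) + A * B + B * A := by
    rw [hM]
    simp only [mul_add, add_mul, mul_one, one_mul, smul_add, hKK]
    simp only [hK, smul_add]
    have e := add_self_zero (1 + (A + B + A * B) + c • A + c • B + c • (A * B))
    linear_combination (norm := abel) e
  have h0 : K * (c • (1 : Matrix 𝕀 𝕀 F) + A * B + B * A) = 0 := by
    simp only [hK, add_mul, mul_add, mul_assoc, hAA, hBB, hAAX, hBBX, hABA, hBAB, mul_zero, mul_smul_comm,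
      zero_add, add_zero, mul_one, smul_zero]
    have e := add_self_zero (c • A + c • B + c • (A * B))
    simp only [smul_add] at e ⊢
    linear_combination (norm := abel) e
  rw [hQ, hM, add_sub_cancel_left, h0]

theorem odd_order [CharP F 2] {a : 𝕊} {c : F} (hc : c ≠ 0)
    (h : ((a : Matrix 𝕀 𝕀 F) - 1) * ((a : Matrix 𝕀 𝕀 F) * a + c • (a : Matrix 𝕀 𝕀 F) + 1) = 0)
    (hfin : 0 < orderOf a) : Odd (orderOf a) := by
  classical
  open Polynomial in
  have h2 : (2 : F) = 0 := CharTwo.two_eq_zero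
  have h2' : (2 : F[X]) = 0 := by rw [← map_ofNat Polynomial.C 2, h2, map_zero]
  set M := (a : Matrix 𝕀 𝕀 F) with hM
  let f : F[X] := Polynomial.X ^ 2 + Polynomial.C c * Polynomial.X + 1
  have hq : (Polynomial.C c⁻¹ : F[X]) * Polynomial.C c = 1 := by rw [← map_mul, inv_mul_cancel₀ hc, map_one]
  have hf : f.Separable := by
    refine ⟨0, Polynomial.C c⁻¹, ?_⟩
    simp only [f, zero_mul, zero_add, Polynomial.derivative_add, Polynomial.derivative_X_pow,
      Polynomial.derivative_mul, Polynomial.derivative_C, Polynomial.derivative_X, Polynomial.derivative_one,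
      Nat.cast_ofNat, map_ofNat, h2', mul_one, add_zero]
    simpa using hq
  have hco : IsCoprime (Polynomial.X - Polynomial.C (1 : F)) f := by
    refine ⟨-(Polynomial.C c⁻¹ * (Polynomial.X + Polynomial.C (1 + c))), Polynomial.C c⁻¹, ?_⟩
    simp only [f, map_add, map_one]
    linear_combination hq + (Polynomial.C c⁻¹) * h2'
  have hsep : ((Polynomial.X - Polynomial.C (1 : F)) * f).Separable :=
    Polynomial.separable_X_sub_C.mul hf hco
  have hdvd : minpoly F M ∣ (Polynomial.X - Polynomial.C (1 : F)) * f := by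
    refine minpoly.dvd F M ?_
    simpa [f, pow_two, Algebra.smul_def] using h
  have hrad : IsRadical (minpoly F M) := (hsep.squarefree.squarefree_of_dvd hdvd).isRadical
  rcases Nat.even_or_odd (orderOf a) with ⟨k, hk⟩ | ho
  · exfalso
    have e : M ^ (k + k) = 1 := by
      rw [hM, ← Matrix.SpecialLinearGroup.coe_pow, ← hk, pow_orderOf_eq_one]; rfl
    have h3 : minpoly F M ∣ (Polynomial.X ^ k - 1) ^ 2 := by
      refine minpoly.dvd F M ?_
      have h2M : (2 : Matrix 𝕀 𝕀 F) = 0 := by rw [← one_add_one_eq_two, add_self_zero]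
      simp only [map_pow, map_sub, Polynomial.aeval_X, map_one]
      rw [pow_two, sub_mul, mul_sub, one_mul, mul_one, ← pow_add, e]
      linear_combination (norm := abel) add_self_zero (1 - M ^ k)
    have h4 := minpoly.aeval F M
    obtain ⟨r, hr⟩ := hrad 2 _ h3
    have h5 : M ^ k = 1 := by
      have := congrArg (Polynomial.aeval M) hr
      rw [map_mul, h4, zero_mul] at this
      simpa [sub_eq_zero] using this
    have h6 : a ^ k = 1 := Subtype.ext (by rw [Matrix.SpecialLinearGroup.coe_pow, ← hM, h5]; rfl)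
    have := Nat.le_of_dvd (by omega) (orderOf_dvd_of_pow_eq_one h6)
    omega
  · exact ho

/-- Let F be a finite field of characteristic 2 and n a natural number. Then the transvections of SL_{n+3}(F) (so in every dimension at least 3) (the conjugates of the elementary matrices 1 + c E₁₂, c ≠ 0) form a class of root involutions of SL_{n+3}(F); when F has two elements they form a class of {3,4}⁺-transpositions (every product of odd order has order 1 or 3). -/
theorem result (F : Type*) [Field F] [Fintype F] [CharP F 2] (n : ℕ) :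
    Cfsg.IsRootInvolutionClass {t : Matrix.SpecialLinearGroup (Fin (n + 3)) F | ∃ c : F, c ≠ 0 ∧
        ∃ g : Matrix.SpecialLinearGroup (Fin (n + 3)) F, ((g⁻¹ * t * g : Matrix.SpecialLinearGroup (Fin (n + 3)) F) :
          Matrix (Fin (n + 3)) (Fin (n + 3)) F) = Matrix.transvection 0 1 c} ∧
    (Fintype.card F = 2 → Cfsg.IsThreeFourPlusTranspositionSet {t : Matrix.SpecialLinearGroup (Fin (n + 3)) F | ∃ c : F, c ≠ 0 ∧
        ∃ g : Matrix.SpecialLinearGroup (Fin (n + 3)) F, ((g⁻¹ * t * g : Matrix.SpecialLinearGroup (Fin (n + 3)) F) :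
          Matrix (Fin (n + 3)) (Fin (n + 3)) F) = Matrix.transvection 0 1 c}) := by
  classical
  have hD : {t : (Matrix.SpecialLinearGroup (Fin (n + 3)) F) | ∃ c : F, c ≠ 0 ∧ ∃ g : (Matrix.SpecialLinearGroup (Fin (n + 3)) F), ((g⁻¹ * t * g : (Matrix.SpecialLinearGroup (Fin (n + 3)) F)) : Matrix (Fin (n + 3)) (Fin (n + 3)) F) = Matrix.transvection 0 1 c} =
      {t : (Matrix.SpecialLinearGroup (Fin (n + 3)) F) | IsT t} := Set.ext fun t => isT_mem_iff
  rw [hD]
  have hsq : ∀ t : (Matrix.SpecialLinearGroup (Fin (n + 3)) F), IsT t → t * t = 1 := by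
    rintro t ⟨v, φ, hv, hφ, h0, ht⟩
    refine Subtype.ext ?_
    rw [Matrix.SpecialLinearGroup.coe_mul, ht, tv_mul_left v v φ h0, Matrix.SpecialLinearGroup.coe_one]
    have : v + v = 0 := funext fun i => CharTwo.add_self_eq_zero (v i)
    rw [this, tv_zero_left]
  have hne : ∀ t : (Matrix.SpecialLinearGroup (Fin (n + 3)) F), IsT t → t ≠ 1 := by
    rintro t ⟨v, φ, hv, hφ, h0, ht⟩ rfl
    have h1 := rank_one hv hφ
    have : vecMulVec v φ = 0 := by simpa [tv] using ht.symm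
    rw [this, Matrix.rank_zero] at h1
    exact one_ne_zero h1.symm
  have hord : ∀ t : (Matrix.SpecialLinearGroup (Fin (n + 3)) F), IsT t → orderOf t = 2 := fun t ht =>
    orderOf_eq_prime (by rw [pow_two]; exact hsq t ht) (hne t ht)
  have hinv : ∀ t : (Matrix.SpecialLinearGroup (Fin (n + 3)) F), IsT t → t⁻¹ = t := fun t ht => inv_eq_of_mul_eq_one_right (hsq t ht)
  have four : ∀ a b : (Matrix.SpecialLinearGroup (Fin (n + 3)) F), ∀ v φ w ψ, v ≠ 0 → φ ≠ 0 → ψ ≠ 0 → φ ⬝ᵥ v = 0 → ψ ⬝ᵥ w = 0 →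
      (a : Matrix (Fin (n + 3)) (Fin (n + 3)) F) = tv v φ → (b : Matrix (Fin (n + 3)) (Fin (n + 3)) F) = tv w ψ → φ ⬝ᵥ w ≠ 0 → ψ ⬝ᵥ v = 0 →
      orderOf (a * b) = 4 ∧ IsT ((a * b) ^ 2) := by
    intro a b v φ w ψ hv hφ hψ hv0 hw0 hat hbt hx hy
    have hT : IsT ((a * b) ^ 2) := by
      refine ⟨v, (φ ⬝ᵥ w) • ψ, hv, smul_ne_zero hx hψ, by rw [smul_dotProduct, hy, smul_zero], ?_⟩
      rw [Matrix.SpecialLinearGroup.coe_pow, Matrix.SpecialLinearGroup.coe_mul, hat, hbt, pow_two]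
      refine ext_mulVec fun u => ?_
      simp only [← Matrix.mulVec_mulVec, tv_mulVec, dotProduct_add, dotProduct_smul, smul_eq_mul, hy, hv0, hw0]
      ext i
      simp
      linear_combination (norm := ring_nf) (φ ⬝ᵥ u * v i + ψ ⬝ᵥ u * w i + ψ ⬝ᵥ u * (φ ⬝ᵥ w) * v i) *
        (CharTwo.two_eq_zero : (2 : F) = 0)
    refine ⟨?_, hT⟩
    refine orderOf_eq_prime_pow (p := 2) (n := 1) ?_ ?_
    · rw [pow_one]; exact hne _ hT
    · rw [show (2 : ℕ) ^ (1 + 1) = 2 * 2 from rfl, pow_mul, pow_two]; exact hsq _ hT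
  have key : ∀ a b : (Matrix.SpecialLinearGroup (Fin (n + 3)) F), IsT a → IsT b → a * b = b * a ∨
      (orderOf (a * b) = 4 ∧ IsT ((a * b) ^ 2)) ∨ ∃ c : F, c ≠ 0 ∧
        (((a * b : (Matrix.SpecialLinearGroup (Fin (n + 3)) F)) : Matrix (Fin (n + 3)) (Fin (n + 3)) F) - 1) * (((a * b : (Matrix.SpecialLinearGroup (Fin (n + 3)) F)) : Matrix (Fin (n + 3)) (Fin (n + 3)) F) * (a * b : (Matrix.SpecialLinearGroup (Fin (n + 3)) F)) +
          c • ((a * b : (Matrix.SpecialLinearGroup (Fin (n + 3)) F)) : Matrix (Fin (n + 3)) (Fin (n + 3)) F) + 1) = 0 := by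
    intro a b ha hb
    have ha' := ha
    have hb' := hb
    obtain ⟨v, φ, hv, hφ, hv0, hat⟩ := ha'
    obtain ⟨w, ψ, hw, hψ, hw0, hbt⟩ := hb'
    by_cases hx : φ ⬝ᵥ w = 0
    · by_cases hy : ψ ⬝ᵥ v = 0
      · left
        refine Subtype.ext ?_
        rw [Matrix.SpecialLinearGroup.coe_mul, Matrix.SpecialLinearGroup.coe_mul, hat, hbt]
        refine ext_mulVec fun u => ?_
        simp only [← Matrix.mulVec_mulVec, tv_mulVec, dotProduct_add, dotProduct_smul, hx, hy, smul_zero, add_zero]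
        abel
      · right; left
        obtain ⟨h1, h2⟩ := four b a w ψ v φ hw hψ hφ hw0 hv0 hbt hat hy hx
        have e : a * b = (b * a)⁻¹ := by rw [_root_.mul_inv_rev, hinv a ha, hinv b hb]
        rw [e, orderOf_inv, inv_pow, hinv _ h2]
        exact ⟨h1, h2⟩
    · by_cases hy : ψ ⬝ᵥ v = 0
      · exact Or.inr (Or.inl (four a b v φ w ψ hv hφ hψ hv0 hw0 hat hbt hx hy))
      · right; right
        refine ⟨φ ⬝ᵥ w * (ψ ⬝ᵥ v), mul_ne_zero hx hy, ?_⟩
        rw [Matrix.SpecialLinearGroup.coe_mul, hat, hbt]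
        exact aeval_prod hv0 hw0
  have hset : IsRootInvolutionSet {t : (Matrix.SpecialLinearGroup (Fin (n + 3)) F) | IsT t} := by
    refine ⟨hord, ?_, fun d hd g => isT_conj hd g, fun a ha b hb => ?_⟩
    · refine eq_top_iff.2 fun g _ => ?_
      have hH := ker_det_le_of_tvGL_mem ((Subgroup.closure {t : (Matrix.SpecialLinearGroup (Fin (n + 3)) F) | IsT t}).map Matrix.SpecialLinearGroup.toGL) ?_
      · obtain ⟨g', hg', e⟩ := Subgroup.mem_map.1 (hH (x := Matrix.SpecialLinearGroup.toGL g)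
          (by rw [MonoidHom.mem_ker]; exact Units.ext g.2))
        have : g' = g := Subtype.ext (congrArg Units.val e)
        rwa [← this]
      · intro v φ h0 hv hφ
        refine ⟨⟨tv v φ, by rw [det_tv, h0, add_zero]⟩, Subgroup.subset_closure ⟨v, φ, hv, hφ, h0, rfl⟩, ?_⟩
        exact Units.ext (by rfl)
    · rcases key a b ha hb with h | h | ⟨c, hc, h⟩
      · exact Or.inl h
      · exact Or.inr (Or.inr h)
      · exact Or.inr (Or.inl (odd_order hc h (orderOf_pos _)))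
  obtain ⟨v₀, φ₀, hstd⟩ := std_isT (n := n) (1 : F) one_ne_zero
  refine ⟨⟨hset, ⟨⟨Matrix.transvection 0 1 1, Matrix.det_transvection_of_ne 0 1 (Fin.ne_of_lt (by simp [Fin.lt_def])) 1⟩,
    v₀, φ₀, hstd⟩, fun a ha b hb => ?_⟩, fun hcard => ⟨hset, fun a ha b hb hodd => ?_⟩⟩
  · obtain ⟨g, hg⟩ := isConj_iff.1 (isConj_of_isT ha hb)
    exact ⟨g, hg.symm⟩
  · rcases key a b ha hb with h | h | ⟨c, hc, h⟩
    · left
      have h2 : (a * b) ^ 2 = 1 := by
        rw [(show Commute a b from h).mul_pow, pow_two, pow_two, hsq a ha, hsq b hb, mul_one]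
      rcases (Nat.dvd_prime Nat.prime_two).1 (orderOf_dvd_of_pow_eq_one h2) with h3 | h3
      · exact h3
      · rw [h3] at hodd; exact absurd hodd (by decide)
    · rw [h.1] at hodd; exact absurd hodd (by decide)
    · have hc1 : c = 1 := by
        have := FiniteField.pow_card_sub_one_eq_one c hc
        simpa [hcard] using this
      subst hc1
      have h3 : (a * b) ^ 3 = 1 := by
        refine Subtype.ext ?_
        rw [Matrix.SpecialLinearGroup.coe_pow, Matrix.SpecialLinearGroup.coe_one]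
        rw [one_smul] at h
        generalize ((a * b : (Matrix.SpecialLinearGroup (Fin (n + 3)) F)) : Matrix (Fin (n + 3)) (Fin (n + 3)) F) = M at h ⊢
        rw [← sub_eq_zero, ← h]
        noncomm_ring
      exact (Nat.dvd_prime Nat.prime_three).1 (orderOf_dvd_of_pow_eq_one h3)

end Cfsg.Agent.S5058
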