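import Cfsg.Statements.S5043
import Cfsg.Agent.Lib.RootSub.Transv
import Cfsg.Agent.S5058

set_option autoImplicit false
open Matrix
open Cfsg Cfsg.Lib.RootSub Cfsg.Lib.Classical

namespace Cfsg.Agent.S5043

/-- Let k be a field and n a natural number. In SL_{n+3}(k) (so in every dimension at least 3) the conjugates of the root subgroup of elementary transvections 1 + c E₁₂ (c ∈ k) — that is, the groups of transvections attached to an incident point–hyperplane pair — form a non-degenerate class of abstract k-root subgroups of SL_{n+3}(k) whose graph of rank one pairs is connected. -/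
theorem result (k : Type*) [Field k] (n : ℕ) :
    Cfsg.IsRootSubgroupClass {A : Subgroup (Matrix.SpecialLinearGroup (Fin (n + 3)) k) |
        ∃ g : Matrix.SpecialLinearGroup (Fin (n + 3)) k,
          A = Cfsg.conjBy (Subgroup.closure {t : Matrix.SpecialLinearGroup (Fin (n + 3)) k |
            ∃ c : k, (t : Matrix (Fin (n + 3)) (Fin (n + 3)) k) = Matrix.transvection 0 1 c}) g} ∧
    Cfsg.IsNondegenerateRootSet {A : Subgroup (Matrix.SpecialLinearGroup (Fin (n + 3)) k) |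
        ∃ g : Matrix.SpecialLinearGroup (Fin (n + 3)) k,
          A = Cfsg.conjBy (Subgroup.closure {t : Matrix.SpecialLinearGroup (Fin (n + 3)) k |
            ∃ c : k, (t : Matrix (Fin (n + 3)) (Fin (n + 3)) k) = Matrix.transvection 0 1 c}) g} ∧
    Cfsg.IsKRootSubgroupSet k {A : Subgroup (Matrix.SpecialLinearGroup (Fin (n + 3)) k) |
        ∃ g : Matrix.SpecialLinearGroup (Fin (n + 3)) k,
          A = Cfsg.conjBy (Subgroup.closure {t : Matrix.SpecialLinearGroup (Fin (n + 3)) k |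
            ∃ c : k, (t : Matrix (Fin (n + 3)) (Fin (n + 3)) k) = Matrix.transvection 0 1 c}) g} ∧
    Cfsg.IsConnectedFamily (Cfsg.FAdj {A : Subgroup (Matrix.SpecialLinearGroup (Fin (n + 3)) k) |
        ∃ g : Matrix.SpecialLinearGroup (Fin (n + 3)) k,
          A = Cfsg.conjBy (Subgroup.closure {t : Matrix.SpecialLinearGroup (Fin (n + 3)) k |
            ∃ c : k, (t : Matrix (Fin (n + 3)) (Fin (n + 3)) k) = Matrix.transvection 0 1 c}) g})
      {A : Subgroup (Matrix.SpecialLinearGroup (Fin (n + 3)) k) |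
        ∃ g : Matrix.SpecialLinearGroup (Fin (n + 3)) k,
          A = Cfsg.conjBy (Subgroup.closure {t : Matrix.SpecialLinearGroup (Fin (n + 3)) k |
            ∃ c : k, (t : Matrix (Fin (n + 3)) (Fin (n + 3)) k) = Matrix.transvection 0 1 c}) g} := by
  classical
  have hset : {A : Subgroup (Matrix.SpecialLinearGroup (Fin (n + 3)) k) |
        ∃ g : Matrix.SpecialLinearGroup (Fin (n + 3)) k,
          A = Cfsg.conjBy (Subgroup.closure {t : Matrix.SpecialLinearGroup (Fin (n + 3)) k |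
            ∃ c : k, (t : Matrix (Fin (n + 3)) (Fin (n + 3)) k) = Matrix.transvection 0 1 c}) g} =
      {A | ∃ v φ : Fin (n + 3) → k, v ≠ 0 ∧ φ ≠ 0 ∧ φ ⬝ᵥ v = 0 ∧ A = T v φ} := by
    have h01 : (Pi.single (1 : Fin (n + 3)) (1 : k)) ⬝ᵥ (Pi.single (0 : Fin (n + 3)) (1 : k)) = 0 := by simp
    have hbase : Subgroup.closure {t : Matrix.SpecialLinearGroup (Fin (n + 3)) k |
        ∃ c : k, (t : Matrix (Fin (n + 3)) (Fin (n + 3)) k) = Matrix.transvection 0 1 c} =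
        T (Pi.single 0 1) (Pi.single 1 1) := by
      refine congrArg Subgroup.closure (Set.ext fun t => exists_congr fun c => ?_)
      rw [transvection_eq_tv, ← tv_smul]
    ext A
    constructor
    · rintro ⟨g, rfl⟩
      refine ⟨(g : Matrix (Fin (n + 3)) (Fin (n + 3)) k) *ᵥ Pi.single 0 1,
        Pi.single 1 1 ᵥ* ((g⁻¹ : Matrix.SpecialLinearGroup (Fin (n + 3)) k) : Matrix (Fin (n + 3)) (Fin (n + 3)) k),
        ?_, ?_, ?_, ?_⟩
      · exact fun h => by
          have := mulVec_ne_zero (Matrix.SpecialLinearGroup.toGL g) (x := Pi.single (0 : Fin (n + 3)) (1 : k)) (by simp)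
          exact this h
      · intro h
        have h' := congrArg (fun z => z ᵥ* (g : Matrix (Fin (n + 3)) (Fin (n + 3)) k)) h
        simp only [Matrix.vecMul_vecMul, ← Matrix.SpecialLinearGroup.coe_mul, inv_mul_cancel,
          Matrix.SpecialLinearGroup.coe_one, Matrix.vecMul_one, Matrix.zero_vecMul] at h'
        simp at h'
      · obtain ⟨h1, -⟩ := conj_el g (Pi.single 0 1) (Pi.single 1 1) 1 h01
        exact h1
      · rw [hbase, conjBy_T _ _ _ h01]
    · rintro ⟨v, φ, hv, hφ, h0, rfl⟩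
      have ha : Cfsg.Agent.S5058.IsT (el (Pi.single (0 : Fin (n + 3)) (1 : k)) (Pi.single 1 1) h01 1) :=
        ⟨Pi.single 0 1, Pi.single 1 1, by simp, by simp, h01, by simp⟩
      have hb : Cfsg.Agent.S5058.IsT (el v φ h0 1) := ⟨v, φ, hv, hφ, h0, by simp⟩
      obtain ⟨g, hg⟩ := isConj_iff.1 (Cfsg.Agent.S5058.isConj_of_isT ha hb)
      refine ⟨g, ?_⟩
      rw [hbase, conjBy_T _ _ _ h01]
      obtain ⟨h1, e⟩ := conj_el g (Pi.single 0 1) (Pi.single 1 1) 1 h01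
      rw [e] at hg
      refine T_eq_of_tensor ?_
      have h' := congrArg (fun t : Matrix.SpecialLinearGroup (Fin (n + 3)) k => (t : Matrix (Fin (n + 3)) (Fin (n + 3)) k)) hg
      simpa [tv] using h'.symm
  rw [hset]
  have hconjc : ∀ A ∈ {A : Subgroup (Matrix.SpecialLinearGroup (Fin (n + 3)) k) |
      ∃ v φ : Fin (n + 3) → k, v ≠ 0 ∧ φ ≠ 0 ∧ φ ⬝ᵥ v = 0 ∧ A = T v φ},
      ∀ B ∈ {A : Subgroup (Matrix.SpecialLinearGroup (Fin (n + 3)) k) |
      ∃ v φ : Fin (n + 3) → k, v ≠ 0 ∧ φ ≠ 0 ∧ φ ⬝ᵥ v = 0 ∧ A = T v φ}, ∃ g, B = Cfsg.conjBy A g := by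
    intro A hA B hB
    rw [← hset] at hA hB
    obtain ⟨a, rfl⟩ := hA
    obtain ⟨b, rfl⟩ := hB
    refine ⟨b * a⁻¹, ?_⟩
    rw [Cfsg.conjBy, Cfsg.conjBy, Cfsg.conjBy, Subgroup.map_map]
    congr 1
    ext x
    simp [mul_assoc]
  have hroot : Cfsg.IsRootSubgroupSet {A : Subgroup (Matrix.SpecialLinearGroup (Fin (n + 3)) k) |
      ∃ v φ : Fin (n + 3) → k, v ≠ 0 ∧ φ ≠ 0 ∧ φ ⬝ᵥ v = 0 ∧ A = T v φ} := by
    refine ⟨?_, ?_, ?_, ?_, ?_⟩
    · rintro A ⟨v, φ, -, -, h0, rfl⟩; exact comm_T h0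
    · rintro A ⟨v, φ, hv, hφ, h0, rfl⟩; exact ne_bot_T hv hφ h0
    · refine eq_top_iff.2 fun g _ => ?_
      have hgl := ker_det_le_of_tvGL_mem ((⨆ A ∈ {A : Subgroup (Matrix.SpecialLinearGroup (Fin (n + 3)) k) |
        ∃ v φ : Fin (n + 3) → k, v ≠ 0 ∧ φ ≠ 0 ∧ φ ⬝ᵥ v = 0 ∧ A = T v φ}, A).map Matrix.SpecialLinearGroup.toGL) ?_
      · obtain ⟨g', hg', e⟩ := Subgroup.mem_map.1 (hgl (x := Matrix.SpecialLinearGroup.toGL g)
          (by rw [MonoidHom.mem_ker]; exact Units.ext g.2))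
        have : g' = g := Subtype.ext (congrArg Units.val e)
        rwa [← this]
      · intro v φ h0 hv hφ
        refine ⟨el v φ h0 1, ?_, Units.ext (show tv ((1 : k) • v) φ = tv v φ by rw [one_smul])⟩
        exact Subgroup.mem_iSup_of_mem (T v φ) (Subgroup.mem_iSup_of_mem ⟨v, φ, hv, hφ, h0, rfl⟩ (el_mem _ _ _ _))
    · intro A hA g
      rw [← hset] at hA ⊢
      obtain ⟨a, rfl⟩ := hA
      refine ⟨g * a, ?_⟩
      rw [Cfsg.conjBy, Cfsg.conjBy, Cfsg.conjBy, Subgroup.map_map]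
      congr 1
      ext x
      simp [mul_assoc]
    · rintro A ⟨v, φ, hv, hφ, h0, rfl⟩ B ⟨w, ψ, hw, hψ, h0', rfl⟩
      by_cases hx : φ ⬝ᵥ w = 0
      · by_cases hy : ψ ⬝ᵥ v = 0
        · exact Or.inl (commute_case h0 h0' hx hy)
        · right; right
          obtain ⟨c1, c2, c3, c4⟩ := commutator_case h0' h0 hx hy
          have e : ⁅T v φ, T w ψ⁆ = T w φ := by rw [Subgroup.commutator_comm, c1]
          refine ⟨e ▸ ⟨w, φ, hw, hφ, hx, rfl⟩, fun c hc x hxm => c2 c (e ▸ hc) x (sup_comm (T w ψ) (T v φ) ▸ hxm),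
            fun a ha ha1 => ?_, fun b hb hb1 => ?_⟩
          · rw [e, ← c4 a ha ha1]
            apply le_antisymm <;> rw [Subgroup.closure_le] <;> rintro _ ⟨z, hz, rfl⟩ <;>
              rw [SetLike.mem_coe, ← inv_mem_iff] <;>
              refine Subgroup.subset_closure ⟨z, hz, ?_⟩ <;> group
          · rw [e, ← c3 b hb hb1]
            apply le_antisymm <;> rw [Subgroup.closure_le] <;> rintro _ ⟨z, hz, rfl⟩ <;>
              rw [SetLike.mem_coe, ← inv_mem_iff] <;>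
              refine Subgroup.subset_closure ⟨z, hz, ?_⟩ <;> group
      · by_cases hy : ψ ⬝ᵥ v = 0
        · right; right
          obtain ⟨c1, c2, c3, c4⟩ := commutator_case h0 h0' hy hx
          exact ⟨c1 ▸ ⟨v, ψ, hv, hψ, hy, rfl⟩, fun c hc => c2 c (c1 ▸ hc), fun a ha ha1 => (c3 a ha ha1).trans c1.symm,
            fun b hb hb1 => (c4 b hb hb1).trans c1.symm⟩
        · exact Or.inr (Or.inl (rankOne_pair hv hφ hw hψ h0 h0' hx hy))
  have hbase_mem : ∀ i j : Fin (n + 3), i ≠ j → T (Pi.single i (1 : k)) (Pi.single j 1) ∈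
      {A : Subgroup (Matrix.SpecialLinearGroup (Fin (n + 3)) k) |
      ∃ v φ : Fin (n + 3) → k, v ≠ 0 ∧ φ ≠ 0 ∧ φ ⬝ᵥ v = 0 ∧ A = T v φ} :=
    fun i j hij => ⟨_, _, by simp, by simp, by simp [hij, hij.symm], rfl⟩
  refine ⟨⟨hroot, ⟨_, hbase_mem 0 1 Fin.zero_ne_one⟩, hconjc⟩, ?_, ⟨hroot, ?_⟩, ?_⟩
  · have h01 : (0 : Fin (n + 3)) ≠ 1 := Fin.zero_ne_one
    have h02 : (0 : Fin (n + 3)) ≠ 2 := by simp [Fin.ext_iff, Nat.mod_eq_of_lt (show 2 < n + 3 by omega)]
    have h12 : (1 : Fin (n + 3)) ≠ 2 := by simp [Fin.ext_iff, Nat.mod_eq_of_lt (show 2 < n + 3 by omega)]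
    refine ⟨⟨_, hbase_mem 0 1 h01, _, hbase_mem 0 2 h02, fun h => ?_, commute_case (by simp) (by simp [h02]) (by simp) (by simp [h02])⟩,
      ⟨_, hbase_mem 0 1 h01, _, hbase_mem 1 0 h01.symm,
        rankOne_pair (by simp) (by simp) (by simp) (by simp) (by simp) (by simp) (by simp) (by simp)⟩,
      ⟨_, hbase_mem 0 1 h01, _, hbase_mem 1 2 h12, ?_⟩⟩
    · obtain ⟨c, hc⟩ := (mem_T (v := Pi.single (0 : Fin (n + 3)) (1 : k)) (φ := Pi.single 2 1) (by simp [h02])).1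
        (h ▸ el_mem (Pi.single (0 : Fin (n + 3)) (1 : k)) (Pi.single 1 1) (by simp) 1)
      have h' := congrArg (fun g : Matrix.SpecialLinearGroup (Fin (n + 3)) k => (g : Matrix (Fin (n + 3)) (Fin (n + 3)) k) 0 1) hc
      simp [tv, Matrix.vecMulVec_apply, h01, h12, Ne.symm h12] at h'
    · obtain ⟨c1, c2, c3, c4⟩ := commutator_case (v := Pi.single (0 : Fin (n + 3)) (1 : k)) (φ := Pi.single 1 1)
        (w := Pi.single 1 1) (ψ := Pi.single 2 1) (by simp) (by simp [h12]) (by simp [h02]) (by simp)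
      exact ⟨c1 ▸ hbase_mem 0 2 h02, fun c hc => c2 c (c1 ▸ hc), fun a ha ha1 => (c3 a ha ha1).trans c1.symm,
        fun b hb hb1 => (c4 b hb hb1).trans c1.symm⟩
  · rintro A ⟨v, φ, hv, hφ, h0, rfl⟩ B ⟨w, ψ, hw, hψ, h0', rfl⟩ hR
    refine psl2_pair h0 h0' (fun hx => ?_) (fun hy => not_rankOne hv hφ h0 h0' hy hR)
    exact not_rankOne hw hψ h0' h0 hx (Cfsg.RankOnePair_symm hR)
  · rintro A ⟨v, φ, hv, hφ, h0, rfl⟩ B ⟨w, ψ, hw, hψ, h0', rfl⟩
    let Lf : (Fin (n + 3) → k) → ((Fin (n + 3) → k) →ₗ[k] k) := fun a =>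
      { toFun := fun u => a ⬝ᵥ u, map_add' := fun _ _ => dotProduct_add _ _ _, map_smul' := fun c u => dotProduct_smul c a u }
    have hLf : ∀ a, a ≠ 0 → Lf a ≠ 0 := by
      intro a ha h
      obtain ⟨i, hi⟩ := Function.ne_iff.1 ha
      have := DFunLike.congr_fun h (Pi.single i 1)
      simp [Lf] at this
      exact hi this
    obtain ⟨u, hu1, hu2⟩ := exists_both (Lf φ) (Lf ψ) (hLf φ hφ) (hLf ψ hψ)
    change φ ⬝ᵥ u ≠ 0 at hu1
    change ψ ⬝ᵥ u ≠ 0 at hu2
    have hu : u ≠ 0 := fun h => hu1 (by rw [h, dotProduct_zero])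
    let W := LinearMap.ker (Lf u)
    have key : ∀ (v φ : Fin (n + 3) → k), v ≠ 0 → φ ⬝ᵥ v = 0 → φ ⬝ᵥ u ≠ 0 →
        (Lf v).comp W.subtype ≠ 0 := by
      intro v φ hv h0 hu1 h
      -- otherwise v would be a multiple of u
      obtain ⟨i, hi⟩ := Function.ne_iff.1 hu
      have hv' : ∀ j, v j = (v i / u i) * u j := by
        intro j
        have hm : Lf u (Pi.single j 1 - (u j / u i) • Pi.single i 1) = 0 := by
          simp [Lf, map_sub, dotProduct_sub, dotProduct_smul]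
          field_simp [show u i ≠ 0 from hi]
          ring
        have h2 := DFunLike.congr_fun h ⟨_, LinearMap.mem_ker.2 hm⟩
        simp [Lf, dotProduct_sub, dotProduct_smul] at h2
        rw [sub_eq_zero] at h2
        rw [h2]; ring
      have e : v = (v i / u i) • u := funext fun j => by simpa using hv' j
      rw [e, dotProduct_smul, smul_eq_mul, mul_eq_zero] at h0
      rcases h0 with h0 | h0
      · exact hv (by rw [e, h0, zero_smul])
      · exact hu1 h0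
    obtain ⟨⟨η, hη⟩, h1, h2⟩ := exists_both ((Lf v).comp W.subtype) ((Lf w).comp W.subtype)
      (key v φ hv h0 hu1) (key w ψ hw h0' hu2)
    have hη0 : η ⬝ᵥ u = 0 := by rw [dotProduct_comm]; exact LinearMap.mem_ker.1 hη
    change v ⬝ᵥ η ≠ 0 at h1
    change w ⬝ᵥ η ≠ 0 at h2
    rw [dotProduct_comm] at h1 h2
    have hη' : η ≠ 0 := fun h => h1 (by rw [h, zero_dotProduct])
    have mC : T u η ∈ {A : Subgroup (Matrix.SpecialLinearGroup (Fin (n + 3)) k) |
      ∃ v φ : Fin (n + 3) → k, v ≠ 0 ∧ φ ≠ 0 ∧ φ ⬝ᵥ v = 0 ∧ A = T v φ} := ⟨u, η, hu, hη', hη0, rfl⟩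
    refine Relation.ReflTransGen.head ⟨⟨v, φ, hv, hφ, h0, rfl⟩, mC, rankOne_pair hv hφ hu hη' h0 hη0 hu1 h1⟩
      (Relation.ReflTransGen.single ⟨mC, ⟨w, ψ, hw, hψ, h0', rfl⟩, rankOne_pair hu hη' hw hψ hη0 h0' h2 hu2⟩)

end Cfsg.Agent.S5043
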