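import Cfsg.Statements.S5049
import Cfsg.Agent.Lib.Solv.Cores
-- import your own Cfsg.Agent.* helpers here

set_option autoImplicit false
open Cfsg
open scoped commutatorElement

namespace Cfsg.Agent.S5049

/-- Let G be a finite group generated by a set D of odd transpositions (root involutions with no product of order 4), Q = O₂(G), and for a ∈ D let Q_a be the commutator subgroup of Q with a. Then every member of D commuting with a centralizes Q_a; and for b ∈ D with ab of odd order greater than 1, the centralizer of ab in Q is the intersection of the centralizers of a and b in Q. -/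
theorem result {G : Type*} [Group G] [Finite G] {D : Set G} (hD : Cfsg.IsOddTranspositionSet D) {a : G} (ha : a ∈ D) :
    (∀ e ∈ Cfsg.commutingMembers D a, ∀ q ∈ ⁅Cfsg.pCore 2 G, Subgroup.zpowers a⁆, e * q = q * e) ∧
    (∀ b ∈ Cfsg.oddPartners D a,
      Cfsg.pCore 2 G ⊓ Subgroup.centralizer {a * b} = Cfsg.pCore 2 G ⊓ Subgroup.centralizer {a} ⊓ Subgroup.centralizer {b}) := by
  obtain ⟨hR, h4⟩ := hD
  set O := Cfsg.pCore 2 G with hOdef
  have hO : IsPGroup 2 O := Cfsg.Lib.Solv.isPGroup_pCore 2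
  have hOn : O.Normal := inferInstance
  have hoddone : ∀ x ∈ O, Odd (orderOf x) → x = 1 := by
    intro x hx ho
    obtain ⟨k, hk⟩ := IsPGroup.iff_orderOf.1 hO ⟨x, hx⟩
    rw [Subgroup.orderOf_mk] at hk
    rcases Nat.eq_zero_or_pos k with rfl | hk0
    · rwa [pow_zero, orderOf_eq_one_iff] at hk
    · rw [hk] at ho
      exact absurd ho (Nat.not_odd_iff_even.2 ((Nat.even_pow).2 ⟨even_two, hk0.ne'⟩))
  have hsq : ∀ d ∈ D, d * d = 1 := fun d hd => by
    rw [← pow_two, ← hR.orderOf_eq d hd]; exact pow_orderOf_eq_one d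
  have hinv : ∀ d ∈ D, d⁻¹ = d := fun d hd => inv_eq_of_mul_eq_one_right (hsq d hd)
  have hpair : ∀ x ∈ D, ∀ y ∈ D, x * y = y * x ∨ Odd (orderOf (x * y)) := by
    intro x hx y hy
    rcases hR.pair x hx y hy with h | h | h
    · exact Or.inl h
    · exact Or.inr h
    · exact absurd h.1 (h4 x hx y hy)
  -- a member commuting with `a` commutes with every conjugate of `a` by an element of the 2-core
  have key : ∀ e ∈ Cfsg.commutingMembers D a, ∀ n ∈ O, e * (n * a * n⁻¹) = n * a * n⁻¹ * e := by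
    rintro e ⟨he, hea⟩ n hn
    have hm : n * a * n⁻¹ ∈ D := hR.conj_mem a ha n
    rcases hpair e he _ hm with h | h
    · exact h
    suffices h1 : e * (n * a * n⁻¹) ∈ O by
      have h2 := hoddone _ h1 h
      have h3 : n * a * n⁻¹ = e⁻¹ := eq_inv_of_mul_eq_one_right h2
      rw [h3, mul_inv_cancel, inv_mul_cancel]
    have hq : ((e * (n * a * n⁻¹) : G) : G ⧸ O) = ((e * a : G) : G ⧸ O) := by
      simp [(QuotientGroup.eq_one_iff n).2 hn]
    have hea2 : (e * a) ^ 2 = 1 := by
      rw [pow_two, mul_assoc, ← mul_assoc a e a, ← hea, mul_assoc e a a, hsq a ha, mul_one, hsq e he]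
    rw [← QuotientGroup.eq_one_iff]
    obtain ⟨j, hj⟩ := h
    have h1 : ((e * (n * a * n⁻¹) : G) : G ⧸ O) ^ (2 * j + 1) = 1 := by
      rw [← QuotientGroup.mk_pow, ← hj, pow_orderOf_eq_one, QuotientGroup.mk_one]
    rw [hq] at h1 ⊢
    rwa [pow_succ, pow_mul, ← QuotientGroup.mk_pow, hea2, QuotientGroup.mk_one, one_pow, one_mul] at h1
  have hgen : ∀ e ∈ Cfsg.commutingMembers D a, ∀ q ∈ ⁅O, Subgroup.zpowers a⁆, e * q = q * e := by
    intro e he q hq
    suffices hle : ⁅O, Subgroup.zpowers a⁆ ≤ Subgroup.centralizer ({e} : Set G) from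
      (Subgroup.mem_centralizer_singleton_iff.1 (hle hq)).symm
    refine Subgroup.commutator_le.2 fun n hn y hy => ?_
    rw [Subgroup.mem_centralizer_singleton_iff]
    have ha2 : a ^ (2 : ℤ) = 1 := by rw [zpow_two, hsq a ha]
    obtain ⟨k, rfl⟩ := Subgroup.mem_zpowers_iff.1 hy
    rcases Int.even_or_odd k with ⟨j, rfl⟩ | ⟨j, rfl⟩
    · simp [← two_mul, zpow_mul, ha2, commutatorElement_def]
    · rw [zpow_add, zpow_mul, ha2, one_zpow, one_mul, zpow_one, commutatorElement_def]
      have h1 := key e he n hn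
      have h2 : e * a = a * e := he.2
      rw [hinv a ha]
      calc n * a * n⁻¹ * a * e = n * a * n⁻¹ * (e * a) := by rw [h2, mul_assoc]
        _ = e * (n * a * n⁻¹) * a := by rw [← mul_assoc, h1]
        _ = e * (n * a * n⁻¹ * a) := by rw [mul_assoc]
  refine ⟨hgen, ?_⟩
  rintro b ⟨hb, hba, hodd⟩
  ext q
  simp only [Subgroup.mem_inf, Subgroup.mem_centralizer_singleton_iff]
  constructor
  swap
  · rintro ⟨⟨hq, h1⟩, h2⟩
    exact ⟨hq, (Commute.mul_right h1 h2 :)⟩
  rintro ⟨hq, hqab⟩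
  suffices hqa : q * a = a * q by
    refine ⟨⟨hq, hqa⟩, ?_⟩
    rw [← mul_assoc, hqa, mul_assoc, mul_assoc] at hqab
    exact mul_left_cancel hqab
  set c := q * a * q⁻¹ * a with hc
  have hcO : c ∈ O := by
    have h1 := mul_mem hq (hOn.conj_mem _ (inv_mem hq) a)
    rw [hinv a ha] at h1
    simpa [hc, mul_assoc] using h1
  have hcam : c * a = q * a * q⁻¹ := by rw [hc, mul_assoc, hsq a ha, mul_one]
  have hca : c * a = a * c := by
    have h1 := key a ⟨ha, rfl⟩ q hq
    rw [hcam, hc, ← mul_assoc, h1, mul_assoc (q * a * q⁻¹) a a, hsq a ha, mul_one]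
  have hcc : c * c = 1 := by
    have h1 := hsq _ (hR.conj_mem a ha q)
    rwa [← hcam, show c * a * (c * a) = c * (a * c) * a by group, ← hca, mul_assoc c, mul_assoc c a a, hsq a ha,
      mul_one] at h1
  have hqb : q * b * q⁻¹ = c * b := by
    have h1 : q * a * q⁻¹ * (q * b * q⁻¹) = a * b := by
      rw [show q * a * q⁻¹ * (q * b * q⁻¹) = q * (a * b) * q⁻¹ by group, hqab, mul_inv_cancel_right]
    rw [← hcam] at h1
    calc q * b * q⁻¹ = (c * a)⁻¹ * (c * a * (q * b * q⁻¹)) := by group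
      _ = (c * a)⁻¹ * (a * b) := by rw [h1]
      _ = c⁻¹ * b := by rw [hca, mul_inv_rev]; group
      _ = c * b := by rw [inv_eq_of_mul_eq_one_right hcc]
  have hcb : c * b = b * c := by
    have h1 := hsq _ (hR.conj_mem b hb q)
    rw [hqb] at h1
    calc c * b = (c * b)⁻¹ := (inv_eq_of_mul_eq_one_right h1).symm
      _ = b * c := by rw [mul_inv_rev, hinv b hb, inv_eq_of_mul_eq_one_right hcc]
  suffices hc1 : c = 1 by
    rw [hc1, one_mul] at hcam
    exact (mul_inv_eq_iff_eq_mul.1 hcam.symm)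
  rcases hpair _ (hR.conj_mem a ha q) b hb with h | h <;> rw [← hcam] at h
  · exfalso
    have h1 : a * b = b * a := by
      rw [mul_assoc, ← mul_assoc b c a, ← hcb, mul_assoc c b a] at h
      exact mul_left_cancel h
    obtain ⟨j, hj⟩ := hodd
    have h2 : (a * b) ^ 2 = 1 := by
      rw [pow_two, mul_assoc, ← mul_assoc b a b, ← h1, mul_assoc a b b, hsq b hb, mul_one, hsq a ha]
    have h3 := pow_orderOf_eq_one (a * b)
    rw [hj, pow_succ, pow_mul, h2, one_pow, one_mul] at h3
    exact hba ((eq_inv_of_mul_eq_one_right h3).trans (hinv a ha))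
  · obtain ⟨j, hj⟩ := h
    have hcomm : Commute c (a * b) := Commute.mul_right (show Commute c a from hca) (show Commute c b from hcb)
    have h3 := pow_orderOf_eq_one (c * a * b)
    rw [hj, mul_assoc, hcomm.mul_pow, pow_succ, pow_mul, pow_two, hcc, one_pow, one_mul] at h3
    obtain ⟨i, hi⟩ := hodd
    have h4 : c ^ (2 * i + 1) = 1 := by
      have hc' : c = ((a * b) ^ (2 * j + 1))⁻¹ := eq_inv_of_mul_eq_one_left h3
      rw [hc', inv_pow, ← pow_mul, mul_comm, pow_mul, ← hi, pow_orderOf_eq_one, one_pow, inv_one]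
    rwa [pow_succ, pow_mul, pow_two, hcc, one_pow, one_mul] at h4

end Cfsg.Agent.S5049
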