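import Cfsg.Statements.S5057
import Cfsg.Agent.Lib.Perm.AltOrders
-- import your own Cfsg.Agent.* helpers here

set_option autoImplicit false
open Cfsg

namespace Cfsg.Agent.S5057

/-- The involutions of the alternating group of degree 6 form a class of root involutions (a single conjugacy class of involutions generating the group, any two of which commute, have product of odd order, or have product of order 4 whose square is again an involution of the class), and the product of any two of them has order at most 5. -/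
theorem result :
    Cfsg.IsRootInvolutionClass {g : ↥(alternatingGroup (Fin 6)) | orderOf g = 2} ∧
    ∀ d ∈ {g : ↥(alternatingGroup (Fin 6)) | orderOf g = 2}, ∀ e ∈ {g : ↥(alternatingGroup (Fin 6)) | orderOf g = 2},
      orderOf (d * e) ≤ 5 := by
  classical
  have hord : ∀ x : ↥(alternatingGroup (Fin 6)), orderOf x ≤ 5 := by
    intro x
    obtain ⟨m, hl, hsum, h2, hev⟩ := Cfsg.Lib.Perm.AltOrders.type_of_mem ⟨x, rfl⟩
    rw [← hl]
    clear hl
    have hc : Multiset.card m ≤ 3 := by
      have h3 := Multiset.card_nsmul_le_sum h2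
      simp at h3
      omega
    rw [Nat.even_iff] at hev
    interval_cases h : Multiset.card m
    · rw [Multiset.card_eq_zero.1 h]; simp
    · obtain ⟨a, rfl⟩ := Multiset.card_eq_one.1 h
      simp at hsum hev h2 ⊢
      omega
    · obtain ⟨a, b, rfl⟩ := Multiset.card_eq_two.1 h
      simp at hsum hev h2
      obtain ⟨ha, hb⟩ := h2
      have ha' : a ≤ 4 := by omega
      have hb' : b ≤ 4 := by omega
      interval_cases a <;> interval_cases b <;> first | omega | decide
    · obtain ⟨a, b, c, rfl⟩ := Multiset.card_eq_three.1 h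
      simp at hsum hev h2
      obtain ⟨ha, hb, hc⟩ := h2
      omega
  have h2ne : ∃ x : ↥(alternatingGroup (Fin 6)), orderOf x = 2 :=
    ⟨⟨Equiv.swap 0 1 * Equiv.swap 2 3, Equiv.Perm.mem_alternatingGroup.2 (by decide)⟩, orderOf_eq_prime (by decide) (by decide)⟩
  set D := {g : ↥(alternatingGroup (Fin 6)) | orderOf g = 2}
  have hconj : ∀ a ∈ D, ∀ b ∈ D, ∃ g, b = g * a * g⁻¹ := by
    intro a ha b hb
    have hct : ∀ a : ↥(alternatingGroup (Fin 6)), orderOf a = 2 → (a : Equiv.Perm (Fin 6)).cycleType = {2, 2} := by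
      intro a ha
      rw [← Subgroup.orderOf_coe] at ha
      obtain ⟨k, hk⟩ := Equiv.Perm.cycleType_prime_order (σ := (a : Equiv.Perm (Fin 6))) (ha ▸ Nat.prime_two)
      rw [ha] at hk
      have hs := Equiv.Perm.mem_alternatingGroup.1 a.2
      rw [Equiv.Perm.sign_of_cycleType, neg_one_pow_eq_one_iff_even (by decide), hk, Nat.even_iff] at hs
      have hsum := Equiv.Perm.sum_cycleType_le (a : Equiv.Perm (Fin 6))
      rw [hk] at hsum
      simp at hs hsum
      obtain rfl : k = 1 := by omega
      rw [hk]; rfl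
    have hi : IsConj (a : Equiv.Perm (Fin 6)) (b : Equiv.Perm (Fin 6)) := by
      rw [Equiv.Perm.isConj_iff_cycleType_eq, hct a ha, hct b hb]
    have := alternatingGroup.isConj_of hi (by
      rw [← Equiv.Perm.sum_cycleType, hct a ha]; simp)
    obtain ⟨g, hg⟩ := isConj_iff.1 this
    exact ⟨g, hg.symm⟩
  have hcl : ∀ d ∈ D, ∀ g : ↥(alternatingGroup (Fin 6)), g * d * g⁻¹ ∈ D := fun d hd g => by
    show orderOf (MulAut.conj g d) = 2
    rw [MulEquiv.orderOf_eq]; exact hd
  refine ⟨⟨⟨fun d hd => hd, ?_, hcl, fun a ha b hb => ?_⟩, h2ne, hconj⟩, fun d _ e _ => hord _⟩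
  · haveI : IsSimpleGroup ↥(alternatingGroup (Fin 6)) := alternatingGroup.isSimpleGroup (by simp)
    have hn : (Subgroup.closure D).Normal := by
      refine ⟨fun x hx g => ?_⟩
      have hmap : (Subgroup.closure D).map (MulAut.conj g).toMonoidHom ≤ Subgroup.closure D := by
        rw [MonoidHom.map_closure]
        exact Subgroup.closure_mono (by rintro _ ⟨d, hd, rfl⟩; exact hcl d hd g)
      exact hmap ⟨x, hx, rfl⟩
    refine hn.eq_bot_or_eq_top.resolve_left fun h => ?_
    obtain ⟨x, hx⟩ := h2ne
    have := h ▸ Subgroup.subset_closure (show x ∈ D from hx)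
    rw [SetLike.mem_coe, Subgroup.mem_bot] at this
    rw [this, orderOf_one] at hx
    omega
  · have h5 := hord (a * b)
    have h0 := orderOf_pos (a * b)
    interval_cases h : orderOf (a * b)
    · exact Or.inr (Or.inl odd_one)
    · left
      have e : (a * b) * (a * b) = 1 := by rw [← pow_two, ← h, pow_orderOf_eq_one]
      have ea : a * a = 1 := by rw [← pow_two]; exact (show orderOf a = 2 from ha) ▸ pow_orderOf_eq_one a
      have eb : b * b = 1 := by rw [← pow_two]; exact (show orderOf b = 2 from hb) ▸ pow_orderOf_eq_one b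
      calc a * b = (a * b)⁻¹ := eq_inv_of_mul_eq_one_left e
        _ = b * a := by rw [mul_inv_rev, inv_eq_of_mul_eq_one_right ea, inv_eq_of_mul_eq_one_right eb]
    · exact Or.inr (Or.inl (by decide))
    · exact Or.inr (Or.inr ⟨rfl, by show orderOf ((a * b) ^ 2) = 2; rw [orderOf_pow, h]; rfl⟩)
    · exact Or.inr (Or.inl (by decide))

end Cfsg.Agent.S5057
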