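import Cfsg.Statements.S5059

-- import your own Cfsg.Agent.* helpers here

set_option autoImplicit false
universe u
open Cfsg

namespace Cfsg.Agent.S5059

/-- Let k be a field of characteristic not 2 with k not of order 3, M a finite-dimensional k-vector space and G ≤ GL(M) such that (G, M) is a quadratic pair (M irreducible for G, and G generated by its quadratically acting elements σ whose scalar family 1 + c(σ − 1), c ∈ k, lies in G). Write 𝒬_d for the quadratic elements of G of minimal commutator rank, E(σ) for the subgroup generated by the members of 𝒬_d with the same fixed space and commutator space as σ, and Σ for the set of these subgroups. Then for σ ∈ 𝒬_d the subgroup E(σ) consists exactly of those members together with the identity, it is abelian, and if k has prime characteristic p every element of E(σ) has order dividing p. -/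
theorem result {k : Type u} [Field k] (hk2 : ringChar k ≠ 2) (hk3 : Nat.card k ≠ 3)
    {M : Type u} [AddCommGroup M] [Module k M] [FiniteDimensional k M]
    {G : Subgroup (LinearMap.GeneralLinearGroup k M)} (hG : Cfsg.IsQuadraticPair G)
    {σ : LinearMap.GeneralLinearGroup k M} (hσ : σ ∈ Cfsg.minimalQuadraticElements G) :
    (Cfsg.sameActionSubgroup G σ : Set (LinearMap.GeneralLinearGroup k M)) = Cfsg.sameActionClass G σ ∪ {1} ∧
    IsMulCommutative ↥(Cfsg.sameActionSubgroup G σ) ∧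
    (∀ p : ℕ, p.Prime → ringChar k = p → ∀ x ∈ Cfsg.sameActionSubgroup G σ, x ^ p = 1) := by
  classical
  set s : M →ₗ[k] M := (σ : M →ₗ[k] M) - 1 with hs
  obtain ⟨⟨hσG, ⟨hσ2, hσ0⟩, hσF⟩, hmin⟩ := hσ
  have hUC : LinearMap.range s ≤ LinearMap.ker s := by
    rintro _ ⟨m, rfl⟩
    exact LinearMap.mem_ker.2 (LinearMap.congr_fun hσ2 m)
  -- elements acting like `σ`, the identity included
  let P : LinearMap.GeneralLinearGroup k M → Prop := fun u => (∀ c : k, ∃ v ∈ G, ((v : LinearMap.GeneralLinearGroup k M) : M →ₗ[k] M) = 1 + c • ((u : M →ₗ[k] M) - 1)) ∧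
    LinearMap.range ((u : M →ₗ[k] M) - 1) ≤ LinearMap.range s ∧ LinearMap.ker s ≤ LinearMap.ker ((u : M →ₗ[k] M) - 1)
  have hz : ∀ u v, P u → P v → ((u : M →ₗ[k] M) - 1) * ((v : M →ₗ[k] M) - 1) = 0 := fun u v hu hv =>
    LinearMap.ext fun m => LinearMap.mem_ker.1 (hu.2.2 (hUC (hv.2.1 (LinearMap.mem_range_self _ m))))
  have hprod : ∀ u v, P u → P v → ((u * v : LinearMap.GeneralLinearGroup k M) : M →ₗ[k] M) - 1 =
      ((u : M →ₗ[k] M) - 1) + ((v : M →ₗ[k] M) - 1) := fun u v hu hv => by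
    have h := hz u v hu hv
    rw [Units.val_mul]
    calc (u : M →ₗ[k] M) * (v : M →ₗ[k] M) - 1 = ((u : M →ₗ[k] M) - 1) * ((v : M →ₗ[k] M) - 1) + (((u : M →ₗ[k] M) - 1) + ((v : M →ₗ[k] M) - 1)) := by
          simp only [mul_sub, sub_mul, one_mul, mul_one]; abel
      _ = _ := by rw [h, zero_add]
  have hP1 : P 1 := ⟨fun c => ⟨1, one_mem G, by simp⟩, by simp, by simp⟩
  have hPmul : ∀ u v, P u → P v → P (u * v) := fun u v hu hv => by
    refine ⟨fun c => ?_, ?_, ?_⟩
    · obtain ⟨a, ha, ea⟩ := hu.1 c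
      obtain ⟨b, hb, eb⟩ := hv.1 c
      refine ⟨a * b, mul_mem ha hb, ?_⟩
      rw [Units.val_mul, ea, eb, hprod u v hu hv, smul_add, mul_add, add_mul, add_mul, one_mul, one_mul, mul_one,
        smul_mul_smul_comm, hz u v hu hv, smul_zero, add_zero, add_assoc]
    · rw [hprod u v hu hv]
      rintro _ ⟨m, rfl⟩
      exact add_mem (hu.2.1 (LinearMap.mem_range_self _ m)) (hv.2.1 (LinearMap.mem_range_self _ m))
    · intro m hm
      rw [LinearMap.mem_ker, hprod u v hu hv, LinearMap.add_apply, LinearMap.mem_ker.1 (hu.2.2 hm), LinearMap.mem_ker.1 (hv.2.2 hm), add_zero]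
  have hPinv : ∀ u, P u → P u⁻¹ := fun u hu => by
    have h := hz u u hu hu
    have e : ((u⁻¹ : LinearMap.GeneralLinearGroup k M) : M →ₗ[k] M) - 1 = -((u : M →ₗ[k] M) - 1) := by
      have e1 : (u : M →ₗ[k] M) * (1 - ((u : M →ₗ[k] M) - 1)) = 1 := by
        calc (u : M →ₗ[k] M) * (1 - ((u : M →ₗ[k] M) - 1)) = 1 - ((u : M →ₗ[k] M) - 1) * ((u : M →ₗ[k] M) - 1) := by
              simp only [mul_sub, sub_mul, one_mul, mul_one]; abel
          _ = 1 := by rw [h, sub_zero]
      rw [Units.inv_eq_of_mul_eq_one_right e1]; abel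
    refine ⟨fun c => ?_, ?_, ?_⟩
    · obtain ⟨a, ha, ea⟩ := hu.1 (-c)
      exact ⟨a, ha, by rw [ea, e, smul_neg, neg_smul]⟩
    · rw [e, LinearMap.range_neg]; exact hu.2.1
    · intro m hm
      rw [LinearMap.mem_ker, e, LinearMap.neg_apply, LinearMap.mem_ker.1 (hu.2.2 hm), neg_zero]
  let H : Subgroup (LinearMap.GeneralLinearGroup k M) :=
    { carrier := {u | P u}, one_mem' := hP1, mul_mem' := fun {a b} ha hb => hPmul a b ha hb, inv_mem' := fun {a} ha => hPinv a ha }
  have hclass : ∀ u ∈ Cfsg.sameActionClass G σ, P u := by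
    rintro u ⟨⟨⟨-, -, hF⟩, -⟩, hk', hr'⟩
    refine ⟨fun c => ?_, hr'.le, hk'.ge⟩
    have hmul : IsUnit (1 + c • ((u : M →ₗ[k] M) - 1)) := by
      have h2 : ((u : M →ₗ[k] M) - 1) * ((u : M →ₗ[k] M) - 1) = 0 :=
        LinearMap.ext fun m => LinearMap.mem_ker.1 (hk'.ge (hUC (hr'.le (LinearMap.mem_range_self _ m))))
      exact IsNilpotent.isUnit_one_add ⟨2, by rw [pow_two, smul_mul_smul_comm, h2, smul_zero]⟩
    exact ⟨hmul.unit, hF ⟨c, hmul.unit_spec⟩, hmul.unit_spec⟩
  have hback : ∀ u, P u → u ≠ 1 → u ∈ Cfsg.sameActionClass G σ := by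
    intro u hu hu1
    obtain ⟨a, ha, ea⟩ := hu.1 1
    rw [one_smul, add_sub_cancel] at ea
    have hau : a = u := Units.ext ea
    have hn : (u : M →ₗ[k] M) - 1 ≠ 0 := fun h => hu1 (Units.ext (sub_eq_zero.1 h))
    have hQ : u ∈ Cfsg.quadraticElements G := ⟨hau ▸ ha, ⟨hz u u hu hu, hn⟩, by
      rintro v ⟨c, hv⟩
      obtain ⟨b, hb, eb⟩ := hu.1 c
      rw [show v = b from Units.ext (hv.trans eb.symm)]; exact hb⟩
    have hd := hmin u hQ
    have hr : LinearMap.range ((u : M →ₗ[k] M) - 1) = LinearMap.range s := Submodule.eq_of_le_of_finrank_le hu.2.1 hd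
    have e1 := LinearMap.finrank_range_add_finrank_ker ((u : M →ₗ[k] M) - 1)
    have e2 := LinearMap.finrank_range_add_finrank_ker s
    rw [hr] at e1
    have hk' : LinearMap.ker s = LinearMap.ker ((u : M →ₗ[k] M) - 1) := Submodule.eq_of_le_of_finrank_le hu.2.2 (by omega)
    refine ⟨⟨hQ, fun τ hτ => ?_⟩, hk'.symm, hr⟩
    have h3 := hmin τ hτ
    unfold Cfsg.commutatorRank at h3 ⊢
    rw [hr]; exact h3
  have hle : Cfsg.sameActionSubgroup G σ ≤ H := (Subgroup.closure_le H).2 hclass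
  refine ⟨Set.Subset.antisymm (fun u hu => ?_) ?_, ⟨⟨fun a b => Subtype.ext (Units.ext ?_)⟩⟩, fun p hp hchar x hx => ?_⟩
  · by_cases h : u = 1
    · exact Or.inr h
    · exact Or.inl (hback u (hle hu) h)
  · rintro u (hu | hu)
    · exact Subgroup.subset_closure hu
    · rw [Set.mem_singleton_iff] at hu; rw [hu]; exact one_mem _
  · have e1 := hprod a b (hle a.2) (hle b.2)
    have e2 := hprod b a (hle b.2) (hle a.2)
    rw [add_comm, ← e1] at e2
    exact (sub_left_inj.1 e2).symm
  · have hx' : P x := hle hx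
    have hpow : ∀ n : ℕ, ((x ^ n : LinearMap.GeneralLinearGroup k M) : M →ₗ[k] M) - 1 = n • ((x : M →ₗ[k] M) - 1) := by
      intro n
      induction n with
      | zero => simp
      | succ n ih => rw [pow_succ, hprod _ _ (hle (Subgroup.pow_mem _ hx n)) hx', ih, succ_nsmul]
    refine Units.ext (sub_eq_zero.1 ?_)
    have hp0 : (p : k) = 0 := by rw [← hchar]; exact ringChar.Nat.cast_ringChar
    show ((x ^ p : LinearMap.GeneralLinearGroup k M) : M →ₗ[k] M) - 1 = 0
    rw [hpow, ← Nat.cast_smul_eq_nsmul k, hp0, zero_smul]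

end Cfsg.Agent.S5059
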