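import Cfsg.Statements.S5061
-- import your own Cfsg.Agent.* helpers here

set_option autoImplicit false
open Cfsg

namespace Cfsg.Agent.S5061

open Pointwise

section Algebra
variable {k R : Type*} [Field k] [Ring R] [Algebra k R]

/-- nilpotency of a subspace -/
def IsNil (V : Submodule k R) : Prop := ∃ n : ℕ, V ^ n = ⊥

theorem IsNil.mono {V V' : Submodule k R} (h : V ≤ V') : IsNil V' → IsNil V := fun ⟨n, hn⟩ =>
  ⟨n, eq_bot_iff.2 (hn ▸ pow_le_pow_left' h n)⟩

/-- the multiplicatively closed hull -/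
def hull (V : Submodule k R) : Submodule k R := ⨆ j : ℕ, V ^ (j + 1)

theorem le_hull (V : Submodule k R) : V ≤ hull V := le_iSup_of_le 0 (by simp)

theorem hull_mul_hull (V : Submodule k R) : hull V * hull V ≤ hull V := by
  simp only [hull, Submodule.iSup_mul, Submodule.mul_iSup]
  refine iSup_le fun i => iSup_le fun j => ?_
  rw [← pow_add]
  exact le_iSup_of_le (i + 1 + j) (le_of_eq (congrArg (V ^ ·) (by ring)))

theorem hull_mono {V V' : Submodule k R} (h : V ≤ V') : hull V ≤ hull V' :=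
  iSup_mono fun _ => pow_le_pow_left' h _

theorem hull_le {V T : Submodule k R} (h : V ≤ T) (hT : T * T ≤ T) : hull V ≤ T := by
  refine iSup_le fun j => ?_
  induction j with
  | zero => simpa using h
  | succ j ih => rw [pow_succ]; exact le_trans (mul_le_mul' ih h) hT

theorem hull_pow (V : Submodule k R) (n : ℕ) : hull V ^ (n + 1) ≤ ⨆ j : ℕ, V ^ (j + (n + 1)) := by
  induction n with
  | zero => simp [hull]
  | succ n ih =>
    rw [pow_succ]
    refine le_trans (mul_le_mul' ih le_rfl) ?_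
    simp only [hull, Submodule.iSup_mul, Submodule.mul_iSup]
    refine iSup_le fun i => iSup_le fun j => ?_
    rw [← pow_add]
    exact le_of_eq_of_le (congrArg (V ^ ·) (show _ = (i + j) + (n + 1 + 1) by ring))
      (le_iSup (fun j : ℕ => V ^ (j + (n + 1 + 1))) (i + j))

theorem isNil_hull {V : Submodule k R} : IsNil V → IsNil (hull V) := fun ⟨n, hn⟩ => by
  refine ⟨n + 1, eq_bot_iff.2 (le_trans (hull_pow V n) (iSup_le fun j => ?_))⟩
  rw [show j + (n + 1) = n + (j + 1) by ring, pow_add, hn, Submodule.bot_mul]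

theorem isNil_sup {V T : Submodule k R} (hV : IsNil V) (hT : IsNil T) (hTT : T * T ≤ T)
    (hVT : V * T ≤ T * (Algebra.adjoin k (V : Set R)).toSubmodule) : IsNil (V ⊔ T) := by
  set P := (Algebra.adjoin k (V : Set R)).toSubmodule with hP
  have hone : (1 : Submodule k R) ≤ P := by
    rw [Submodule.one_le]; exact (Algebra.adjoin k (V : Set R)).one_mem
  have hPP : P * P ≤ P := Submodule.mul_le.2 fun a ha b hb => (Algebra.adjoin k (V : Set R)).mul_mem ha hb
  have hVP : V ≤ P := fun v hv => Algebra.subset_adjoin hv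
  have hPT : P * T ≤ T * P := by
    refine Submodule.mul_le.2 fun a ha t ht => ?_
    have ha' : a ∈ Algebra.adjoin k (V : Set R) := ha
    clear ha
    revert t
    induction ha' using Algebra.adjoin_induction with
    | mem x hx => exact fun t ht => hVT (Submodule.mul_mem_mul hx ht)
    | algebraMap r =>
      intro t ht
      rw [← Algebra.smul_def]
      refine Submodule.smul_mem _ r ?_
      simpa using Submodule.mul_mem_mul ht (hone (Submodule.one_le.1 le_rfl))
    | add x y _ _ hx hy => intro t ht; rw [add_mul]; exact add_mem (hx t ht) (hy t ht)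
    | mul x y _ _ hx hy =>
      intro t ht
      rw [mul_assoc]
      have h1 : x * (y * t) ∈ (T * P) * P := by
        refine Submodule.mul_induction_on (hy t ht) (fun t' ht' p hp => ?_) (fun a b ha hb => by rw [mul_add]; exact add_mem ha hb)
        rw [← mul_assoc]
        exact Submodule.mul_mem_mul (hx t' ht') hp
      rw [mul_assoc] at h1
      exact mul_le_mul' le_rfl hPP h1
  obtain ⟨m, hm⟩ := hV
  obtain ⟨n, hn⟩ := hT
  have h1 : ∀ i, (V ⊔ T) ^ i ≤ V ^ i ⊔ T * P := by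
    intro i
    induction i with
    | zero => simp
    | succ i ih =>
      rw [pow_succ', pow_succ']
      refine le_trans (mul_le_mul' le_rfl ih) ?_
      simp only [Submodule.sup_mul, Submodule.mul_sup]
      refine sup_le (sup_le le_sup_left ?_) (sup_le ?_ ?_) <;> refine le_trans ?_ le_sup_right
      · refine mul_le_mul' le_rfl ?_
        clear ih
        induction i with
        | zero => simpa using hone
        | succ i ih => rw [pow_succ]; exact le_trans (mul_le_mul' ih hVP) hPP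
      · rw [← mul_assoc]
        exact le_trans (mul_le_mul' hVT le_rfl) (by rw [mul_assoc]; exact mul_le_mul' le_rfl hPP)
      · rw [← mul_assoc]; exact mul_le_mul' hTT le_rfl
  have h2 : ∀ i, (T * P) ^ (i + 1) ≤ T ^ (i + 1) * P := by
    intro i
    induction i with
    | zero => simp
    | succ i ih =>
      rw [pow_succ, pow_succ T]
      refine le_trans (mul_le_mul' ih le_rfl) ?_
      calc T ^ (i + 1) * P * (T * P) = T ^ (i + 1) * (P * T) * P := by simp only [mul_assoc]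
        _ ≤ T ^ (i + 1) * (T * P) * P := mul_le_mul' (mul_le_mul' le_rfl hPT) le_rfl
        _ = T ^ (i + 1) * T * (P * P) := by simp only [mul_assoc]
        _ ≤ T ^ (i + 1) * T * P := mul_le_mul' le_rfl hPP
  refine ⟨m * (n + 1), eq_bot_iff.2 ?_⟩
  rw [pow_mul]
  refine le_trans (pow_le_pow_left' (h1 m) _) ?_
  rw [hm, bot_sup_eq]
  refine le_trans (h2 n) ?_
  rw [pow_succ, hn, Submodule.bot_mul, Submodule.bot_mul]

end Algebra

variable {k : Type*} [Field k] {M : Type*} [AddCommGroup M] [Module k M]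

/-- the span of the `a - 1` -/
def aug (Δ : Set (Subgroup (LinearMap.GeneralLinearGroup k M))) : Submodule k (M →ₗ[k] M) :=
  Submodule.span k {x | ∃ A ∈ Δ, ∃ a ∈ A, x = (a : M →ₗ[k] M) - 1}

theorem aug_mono {Δ Δ' : Set (Subgroup (LinearMap.GeneralLinearGroup k M))} (h : Δ ⊆ Δ') : aug Δ ≤ aug Δ' :=
  Submodule.span_mono fun _ ⟨A, hA, r⟩ => ⟨A, h hA, r⟩

theorem isNil_of_unipotent {Δ : Set (Subgroup (LinearMap.GeneralLinearGroup k M))}
    {H : Subgroup (LinearMap.GeneralLinearGroup k M)} (hle : ∀ A ∈ Δ, A ≤ H) (hH : Cfsg.IsUnipotentOn H) :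
    IsNil (aug Δ) := by
  obtain ⟨n, hn⟩ := hH
  refine ⟨n, ?_⟩
  rw [aug, Submodule.span_pow, Submodule.span_eq_bot]
  intro x hx
  obtain ⟨f, rfl⟩ := Set.mem_pow.1 hx
  choose A hA a ha hfa using fun i => (f i).2
  have := hn (List.ofFn a) (fun g hg => by
    obtain ⟨i, rfl⟩ := List.mem_ofFn.1 hg
    exact hle _ (hA i) (ha i)) (List.length_ofFn)
  simp only [List.bind_eq_flatMap, List.pure_def, ← List.map_eq_flatMap, List.map_map, List.map_ofFn] at this
  rw [show (fun i => (f i : M →ₗ[k] M)) = (fun g : LinearMap.GeneralLinearGroup k M => (g : M →ₗ[k] M) - 1) ∘ a from funext hfa]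
  exact this

theorem unipotent_of_isNil {W : Set (Subgroup (LinearMap.GeneralLinearGroup k M))} (h : IsNil (aug W)) :
    Cfsg.IsUnipotentOn (⨆ A ∈ W, A) := by
  obtain ⟨n, hn⟩ := isNil_hull h
  have hmem : ∀ g ∈ (⨆ A ∈ W, A), (g : M →ₗ[k] M) - 1 ∈ hull (aug W) := by
    intro g hg
    have hsub : (⨆ A ∈ W, A) ≤ Subgroup.closure (⋃ A ∈ W, (A : Set (LinearMap.GeneralLinearGroup k M))) :=
      iSup₂_le fun A hA a ha => Subgroup.subset_closure (Set.mem_biUnion hA ha)
    have hg' := hsub hg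
    induction hg' using Subgroup.closure_induction'' with
    | mem x hx =>
      obtain ⟨A, hA, hxA⟩ := Set.mem_iUnion₂.1 hx
      exact le_hull _ (Submodule.subset_span ⟨A, hA, x, hxA, rfl⟩)
    | inv_mem x hx =>
      obtain ⟨A, hA, hxA⟩ := Set.mem_iUnion₂.1 hx
      exact le_hull _ (Submodule.subset_span ⟨A, hA, x⁻¹, inv_mem hxA, rfl⟩)
    | one => simp
    | mul x y hx' hy' hx hy =>
      have hx1 : x ∈ (⨆ A ∈ W, A) := (Subgroup.closure_le _).2 (Set.iUnion₂_subset fun A hA _ ha => Subgroup.mem_iSup_of_mem A (Subgroup.mem_iSup_of_mem hA ha)) hx'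
      have hy1 : y ∈ (⨆ A ∈ W, A) := (Subgroup.closure_le _).2 (Set.iUnion₂_subset fun A hA _ ha => Subgroup.mem_iSup_of_mem A (Subgroup.mem_iSup_of_mem hA ha)) hy'
      have e : ((x * y : LinearMap.GeneralLinearGroup k M) : M →ₗ[k] M) - 1 =
          ((x : M →ₗ[k] M) - 1) + ((y : M →ₗ[k] M) - 1) + ((x : M →ₗ[k] M) - 1) * ((y : M →ₗ[k] M) - 1) := by
        rw [Units.val_mul]; noncomm_ring
      rw [e]
      exact add_mem (add_mem (hx hx1) (hy hy1)) (hull_mul_hull _ (Submodule.mul_mem_mul (hx hx1) (hy hy1)))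
  refine ⟨n, fun l hl hlen => ?_⟩
  subst hlen
  have : ∀ l : List (LinearMap.GeneralLinearGroup k M), (∀ g ∈ l, g ∈ (⨆ A ∈ W, A)) →
      (l.map fun g => (g : M →ₗ[k] M) - 1).prod ∈ hull (aug W) ^ l.length := by
    intro l
    induction l with
    | nil => intro _; simp [Submodule.one_le.1 le_rfl]
    | cons g l ih =>
      intro h'
      simp only [List.bind_eq_flatMap, List.pure_def, ← List.map_eq_flatMap, List.map_map] at ih ⊢
      rw [List.map_cons, List.prod_cons, List.length_cons, pow_succ']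
      exact Submodule.mul_mem_mul (hmem g (h' g (by simp))) (ih fun x hx => h' x (by simp [hx]))
  have h0 := this l hl
  rw [hn, Submodule.mem_bot] at h0
  exact h0

theorem normal_mul {Δ : Set (Subgroup (LinearMap.GeneralLinearGroup k M))} {T : Submodule k (M →ₗ[k] M)}
    (h : ∀ A ∈ Δ, ∀ e ∈ A, ∀ t ∈ T, (e : M →ₗ[k] M) * t * (↑(e⁻¹) : M →ₗ[k] M) ∈ T) :
    aug Δ * T ≤ T * (Algebra.adjoin k (aug Δ : Set (M →ₗ[k] M))).toSubmodule := by
  set P := Algebra.adjoin k (aug Δ : Set (M →ₗ[k] M))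
  refine Submodule.mul_le.2 fun x hx t ht => ?_
  induction hx using Submodule.span_induction with
  | mem y hy =>
    obtain ⟨A, hA, e, he, rfl⟩ := hy
    have h1 := h A hA e he t ht
    have e1 : ((e : M →ₗ[k] M) - 1) * t =
        ((e : M →ₗ[k] M) * t * (↑(e⁻¹) : M →ₗ[k] M)) * (e : M →ₗ[k] M) - t * 1 := by
      rw [mul_one, mul_assoc _ (↑(e⁻¹) : M →ₗ[k] M), Units.inv_mul, mul_one, sub_mul, one_mul]
    rw [e1]
    have he' : (e : M →ₗ[k] M) ∈ P := by
      rw [← sub_add_cancel (e : M →ₗ[k] M) 1]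
      exact P.add_mem (Algebra.subset_adjoin (Submodule.subset_span ⟨A, hA, e, he, rfl⟩)) P.one_mem
    exact sub_mem (Submodule.mul_mem_mul h1 he') (Submodule.mul_mem_mul ht P.one_mem)
  | zero => simp
  | add y z _ _ hy hz => rw [add_mul]; exact add_mem hy hz
  | smul r y _ hy => rw [smul_mul_assoc]; exact Submodule.smul_mem _ r hy

theorem normalizing_step {G : Subgroup (LinearMap.GeneralLinearGroup k M)}
    {W : Set (Subgroup (LinearMap.GeneralLinearGroup k M))} (hWG : ∀ A ∈ W, A ≤ G)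
    (hWconj : ∀ A ∈ W, ∀ g ∈ G, Cfsg.conjBy A g ∈ W)
    {U D : Set (Subgroup (LinearMap.GeneralLinearGroup k M))} (hUW : U ⊆ W) (hU : IsNil (aug U)) (hsub : D ⊆ U)
    (hne : D ≠ U) (hclU : ∀ A ∈ W, (∀ a ∈ A, (a : M →ₗ[k] M) - 1 ∈ hull (aug U)) → A ∈ U) (hcl : {A | A ∈ W ∧ ∀ a ∈ A, (a : M →ₗ[k] M) - 1 ∈ hull (aug D)} = D) :
    ∃ E ∈ U, E ∉ D ∧ ∀ e ∈ E, ∀ t ∈ hull (aug D), (e : M →ₗ[k] M) * t * (↑(e⁻¹) : M →ₗ[k] M) ∈ hull (aug D) := by
  classical
  set T := hull (aug D) with hTdef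
  set S := hull (aug U) with hSdef
  have hTS : T ≤ S := hull_mono (aug_mono hsub)
  obtain ⟨n, hn⟩ := isNil_hull hU
  let R : ℕ → Prop := fun j => ∃ E ∈ U, E ∉ D ∧ ∀ e ∈ E, (e : M →ₗ[k] M) - 1 ∈ T ⊔ S ^ j
  obtain ⟨E₀, hE₀, hE₀D⟩ : ∃ E ∈ U, E ∉ D := by
    by_contra hc; push Not at hc; exact hne (subset_antisymm hsub hc)
  have hR1 : R 1 := ⟨E₀, hE₀, hE₀D, fun e he => Submodule.mem_sup_right (by
    rw [pow_one]; exact le_hull _ (Submodule.subset_span ⟨E₀, hE₀, e, he, rfl⟩))⟩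
  have hbound : ∀ j, R j → j < n := by
    rintro j ⟨E, hE, hED, h⟩
    by_contra hj
    refine hED (hcl ▸ ⟨hUW hE, fun a ha => ?_⟩)
    have := h a ha
    rw [show j = n + (j - n) by omega, pow_add, hn, Submodule.bot_mul, sup_bot_eq] at this
    exact this
  set j := Nat.findGreatest R n with hj
  have hjspec : R j := Nat.findGreatest_spec (hbound 1 hR1).le hR1
  have hj1 : 1 ≤ j := Nat.le_findGreatest (hbound 1 hR1).le hR1
  have hmax : ¬ R (j + 1) := fun h => by
    have := Nat.le_findGreatest (hbound _ h).le h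
    omega
  obtain ⟨E, hE, hED, hEj⟩ := hjspec
  refine ⟨E, hE, hED, fun e he => ?_⟩
  set Z := T ⊔ S ^ (j + 1) with hZ
  have m1 : ∀ x ∈ T ⊔ S ^ j, ∀ t ∈ T, x * t ∈ Z ∧ t * x ∈ Z := by
    intro x hx t ht
    obtain ⟨a, ha, b, hb, rfl⟩ := Submodule.mem_sup.1 hx
    constructor
    · rw [add_mul]
      exact add_mem (Submodule.mem_sup_left (hull_mul_hull _ (Submodule.mul_mem_mul ha ht)))
        (Submodule.mem_sup_right (by rw [pow_succ]; exact Submodule.mul_mem_mul hb (hTS ht)))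
    · rw [mul_add]
      exact add_mem (Submodule.mem_sup_left (hull_mul_hull _ (Submodule.mul_mem_mul ht ha)))
        (Submodule.mem_sup_right (by rw [pow_succ']; exact Submodule.mul_mem_mul (hTS ht) hb))
  have hSS : ∀ m, 1 ≤ m → S ^ m ≤ S := by
    intro m hm
    induction m with
    | zero => omega
    | succ m ih =>
      rcases Nat.eq_zero_or_pos m with rfl | hm0
      · simp
      · rw [pow_succ]; exact le_trans (mul_le_mul' (ih hm0) le_rfl) (hull_mul_hull _)
  have hjS : T ⊔ S ^ j ≤ S := sup_le hTS (hSS j hj1)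
  have conjZ : ∀ f ∈ E, ∀ y ∈ T, (f : M →ₗ[k] M) * y * (↑(f⁻¹) : M →ₗ[k] M) ∈ Z := by
    intro f hf y hy
    have e1 : (f : M →ₗ[k] M) * y * (↑(f⁻¹) : M →ₗ[k] M) = y + ((f : M →ₗ[k] M) - 1) * y +
        y * ((↑(f⁻¹) : M →ₗ[k] M) - 1) + ((f : M →ₗ[k] M) - 1) * y * ((↑(f⁻¹) : M →ₗ[k] M) - 1) := by noncomm_ring
    rw [e1]
    obtain ⟨p, hp, q, hq, hpq⟩ := Submodule.mem_sup.1 (m1 _ (hEj f hf) y hy).1
    refine add_mem (add_mem (add_mem (Submodule.mem_sup_left hy) (m1 _ (hEj f hf) y hy).1)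
      (m1 _ (hEj _ (inv_mem hf)) y hy).2) ?_
    rw [← hpq, add_mul]
    refine add_mem (m1 _ (hEj _ (inv_mem hf)) p hp).2 (Submodule.mem_sup_right ?_)
    have hq' : q * ((↑(f⁻¹) : M →ₗ[k] M) - 1) ∈ S ^ (j + 1) * S := Submodule.mul_mem_mul hq (hjS (hEj _ (inv_mem hf)))
    refine (show S ^ (j + 1) * S ≤ S ^ (j + 1) from ?_) hq'
    rw [pow_succ, mul_assoc]
    exact mul_le_mul' le_rfl (hull_mul_hull _)
  -- the family `D` is invariant
  have hDinv : ∀ X ∈ D, Cfsg.conjBy X e ∈ D := by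
    intro X hX
    have hXW : X ∈ W := hUW (hsub hX)
    have heG : e ∈ G := hWG E (hUW hE) he
    have hXe : ∀ g ∈ Cfsg.conjBy X e, (g : M →ₗ[k] M) - 1 ∈ Z := by
      rintro _ ⟨x, hx, rfl⟩
      have hxT : (x : M →ₗ[k] M) - 1 ∈ T := le_hull _ (Submodule.subset_span ⟨X, hX, x, hx, rfl⟩)
      have := conjZ e he _ hxT
      rw [mul_sub, sub_mul, mul_one, Units.mul_inv] at this
      exact this
    have hcW : Cfsg.conjBy X e ∈ W := hWconj X hXW e heG
    by_contra hnot
    -- the conjugate lies in `U`'s hull; show it is in `U`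
    apply hmax
    exact ⟨Cfsg.conjBy X e, (hclU _ hcW (fun g hg => sup_le hTS (hSS (j + 1) (by omega)) (hXe g hg))), hnot, hXe⟩
  intro t ht
  have hgen : ∀ x ∈ aug D, (e : M →ₗ[k] M) * x * (↑(e⁻¹) : M →ₗ[k] M) ∈ aug D := by
    intro x hx
    induction hx using Submodule.span_induction with
    | mem y hy =>
      obtain ⟨X, hX, x, hx, rfl⟩ := hy
      refine Submodule.subset_span ⟨_, hDinv X hX, _, ⟨x, hx, rfl⟩, ?_⟩
      rw [mul_sub, sub_mul, mul_one, Units.mul_inv]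
      rfl
    | zero => simp
    | add y z _ _ hy hz => rw [mul_add, add_mul]; exact add_mem hy hz
    | smul r y _ hy => rw [mul_smul_comm, smul_mul_assoc]; exact Submodule.smul_mem _ r hy
  let c : (M →ₗ[k] M) →ₐ[k] (M →ₗ[k] M) :=
    { toFun := fun x => (e : M →ₗ[k] M) * x * (↑(e⁻¹) : M →ₗ[k] M)
      map_one' := by rw [mul_one, Units.mul_inv]
      map_mul' := fun x y => by simp [mul_assoc]
      map_zero' := by simp
      map_add' := fun x y => by rw [mul_add, add_mul]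
      commutes' := fun r => by rw [← Algebra.commutes r (e : M →ₗ[k] M), mul_assoc, Units.mul_inv, mul_one] }
  have h1 : (hull (aug D)).map c.toLinearMap ≤ hull (aug D) := by
    rw [hull, Submodule.map_iSup]
    refine iSup_mono fun i => ?_
    rw [Submodule.map_pow]
    exact pow_le_pow_left' (Submodule.map_le_iff_le_comap.2 hgen) _
  exact h1 ⟨t, ht, rfl⟩

/-- Let M be a finite-dimensional vector space over a field k, G ≤ GL(M), and 𝒲 a set of subgroups of G, invariant under conjugation by G, such that any two members of 𝒲 generate a subgroup acting unipotently on M (for some n all products of n endomorphisms g − 1 from it vanish). Then the subgroup generated by all members of 𝒲 acts unipotently on M and is normal in G. -/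
theorem result {k : Type*} [Field k] {M : Type*} [AddCommGroup M] [Module k M] [FiniteDimensional k M]
    {G : Subgroup (LinearMap.GeneralLinearGroup k M)} {W : Set (Subgroup (LinearMap.GeneralLinearGroup k M))} (hWG : ∀ A ∈ W, A ≤ G)
    (hWW : ∀ A ∈ W, ∀ B ∈ W, Cfsg.IsUnipotentOn (A ⊔ B)) (hWconj : ∀ A ∈ W, ∀ g ∈ G, Cfsg.conjBy A g ∈ W) :
    Cfsg.IsUnipotentOn (⨆ A ∈ W, A) ∧ ∀ g ∈ G, Cfsg.conjBy (⨆ A ∈ W, A) g = ⨆ A ∈ W, A := by
  classical
  refine ⟨?_, fun g hg => ?_⟩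
  · let U (T : Submodule k (M →ₗ[k] M)) : Set (Subgroup (LinearMap.GeneralLinearGroup k M)) :=
      {A | A ∈ W ∧ ∀ a ∈ A, (a : M →ₗ[k] M) - 1 ∈ T}
    -- a closed family
    let tr (Δ : Set (Subgroup (LinearMap.GeneralLinearGroup k M))) : Submodule k (M →ₗ[k] M) := hull (aug Δ)
    have hnil_mono : ∀ {Δ Δ' : Set (Subgroup (LinearMap.GeneralLinearGroup k M))}, Δ ⊆ Δ' → IsNil (aug Δ') → IsNil (aug Δ) :=
      fun h hn => IsNil.mono (aug_mono h) hn
    have hU : ∀ Δ, IsNil (aug Δ) → IsNil (aug (U (tr Δ))) ∧ tr (U (tr Δ)) ≤ tr Δ := by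
      intro Δ hn
      have hle : aug (U (tr Δ)) ≤ tr Δ := by
        rw [aug, Submodule.span_le]
        rintro x ⟨A, hA, a, ha, rfl⟩
        exact hA.2 a ha
      exact ⟨IsNil.mono hle (isNil_hull hn), hull_le hle (hull_mul_hull _)⟩
    have hsubU : ∀ Δ ⊆ W, Δ ⊆ U (tr Δ) := fun Δ hΔ A hA =>
      ⟨hΔ hA, fun a ha => le_hull _ (Submodule.subset_span ⟨A, hA, a, ha, rfl⟩)⟩
    -- maximal families
    let Max (Δ : Set (Subgroup (LinearMap.GeneralLinearGroup k M))) : Prop :=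
      Δ ⊆ W ∧ IsNil (aug Δ) ∧ ∀ Δ' ⊆ W, IsNil (aug Δ') → Δ ⊆ Δ' → Δ' = Δ
    have hext : ∀ Δ₀ ⊆ W, IsNil (aug Δ₀) → ∃ Δ, Max Δ ∧ Δ₀ ⊆ Δ := by
      intro Δ₀ h0 hn0
      let P : ℕ → Prop := fun d => ∃ Δ ⊆ W, IsNil (aug Δ) ∧ Δ₀ ⊆ Δ ∧ Module.finrank k (tr Δ) = d
      have hb : ∀ d, P d → d ≤ Module.finrank k (M →ₗ[k] M) := by
        rintro d ⟨Δ, -, -, -, rfl⟩; exact Submodule.finrank_le _
      have hP0 : P (Module.finrank k (tr Δ₀)) := ⟨Δ₀, h0, hn0, subset_rfl, rfl⟩
      obtain ⟨Δ, hΔW, hΔn, hΔ0, hd⟩ : P (Nat.findGreatest P (Module.finrank k (M →ₗ[k] M))) :=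
        Nat.findGreatest_spec (hb _ hP0) hP0
      refine ⟨U (tr Δ), ⟨fun A hA => hA.1, (hU Δ hΔn).1, fun Δ' hW' hn' hsub => ?_⟩, hΔ0.trans (hsubU Δ hΔW)⟩
      refine subset_antisymm (fun A hA => ?_) hsub
      have h1 : tr Δ ≤ tr Δ' := hull_mono (aug_mono ((hsubU Δ hΔW).trans hsub))
      have h2 : Module.finrank k (tr Δ') ≤ Module.finrank k (tr Δ) := by
        have hP : P (Module.finrank k (tr Δ')) := ⟨Δ', hW', hn', hΔ0.trans ((hsubU Δ hΔW).trans hsub), rfl⟩
        rw [hd]; exact Nat.le_findGreatest (hb _ hP) hP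
      rw [Submodule.eq_of_le_of_finrank_le h1 h2]
      exact hsubU Δ' hW' hA
    -- all of `W` is nilpotent
    have hall : IsNil (aug W) := by
      by_contra hno
      obtain ⟨U₀, hU₀, -⟩ := hext ∅ (Set.empty_subset _) ⟨1, by rw [pow_one, aug, Submodule.span_eq_bot]; rintro x ⟨A, hA, -⟩; exact absurd hA (Set.notMem_empty A)⟩
      obtain ⟨B, hB, hB0⟩ : ∃ B ∈ W, B ∉ U₀ := by
        by_contra hc
        push Not at hc
        exact hno (hnil_mono hc hU₀.2.1)
      obtain ⟨UB, hUB, hBU⟩ := hext {B} (Set.singleton_subset_iff.2 hB) (by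
        obtain ⟨n, hn⟩ := hWW B hB B hB
        exact isNil_of_unipotent (fun A hA => by rw [Set.mem_singleton_iff] at hA; subst hA; exact le_sup_left) ⟨n, hn⟩)
      let Q : ℕ → Prop := fun d => ∃ U₁ U₂, Max U₁ ∧ Max U₂ ∧ U₁ ≠ U₂ ∧ Module.finrank k (tr (U₁ ∩ U₂)) = d
      have hb : ∀ d, Q d → d ≤ Module.finrank k (M →ₗ[k] M) := by
        rintro d ⟨_, _, -, -, -, rfl⟩; exact Submodule.finrank_le _
      have hQ0 : Q (Module.finrank k (tr (U₀ ∩ UB))) :=
        ⟨U₀, UB, hU₀, hUB, fun e => hB0 (e ▸ hBU rfl), rfl⟩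
      obtain ⟨U₁, U₂, h1, h2, hne, hd⟩ : Q (Nat.findGreatest Q (Module.finrank k (M →ₗ[k] M))) :=
        Nat.findGreatest_spec (hb _ hQ0) hQ0
      set D := U₁ ∩ U₂ with hDdef
      have hDW : D ⊆ W := fun A hA => h1.1 hA.1
      have hclosed : ∀ Δ, Max Δ → U (tr Δ) = Δ := fun Δ hΔ =>
        hΔ.2.2 _ (fun A hA => hA.1) (hU Δ hΔ.2.1).1 (hsubU Δ hΔ.1)
      have hDcl : U (tr D) = D := by
        refine subset_antisymm (fun A hA => ⟨?_, ?_⟩) (hsubU D hDW)
        · rw [← hclosed U₁ h1]; exact ⟨hA.1, fun a ha => hull_mono (aug_mono Set.inter_subset_left) (hA.2 a ha)⟩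
        · rw [← hclosed U₂ h2]; exact ⟨hA.1, fun a ha => hull_mono (aug_mono Set.inter_subset_right) (hA.2 a ha)⟩
      have hstep : ∀ U', Max U' → D ⊆ U' → D ≠ U' → ∃ E ∈ U', E ∉ D ∧
          ∀ e ∈ E, ∀ t ∈ tr D, (e : M →ₗ[k] M) * t * (↑(e⁻¹) : M →ₗ[k] M) ∈ tr D := by
        intro U' hU' hsub hne'
        exact normalizing_step hWG hWconj hU'.1 hU'.2.1 hsub hne' (fun A hA h => by rw [← hclosed U' hU']; exact ⟨hA, h⟩) hDcl
      obtain ⟨E₁, hE₁, hE₁D, hn₁⟩ := hstep U₁ h1 Set.inter_subset_left (fun e => hne (by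
        have : U₁ ⊆ U₂ := fun A hA => ((e.symm ▸ hA : A ∈ D)).2
        exact (h1.2.2 U₂ h2.1 h2.2.1 this).symm))
      obtain ⟨E₂, hE₂, hE₂D, hn₂⟩ := hstep U₂ h2 Set.inter_subset_right (fun e => hne (by
        have : U₂ ⊆ U₁ := fun A hA => ((e.symm ▸ hA : A ∈ D)).1
        exact h2.2.2 U₁ h1.1 h1.2.1 this))
      have hE : IsNil (aug ({E₁, E₂} : Set _)) :=
        isNil_of_unipotent (fun A hA => by
          rcases hA with rfl | rfl
          exacts [le_sup_left, le_sup_right]) (hWW E₁ (h1.1 hE₁) E₂ (h2.1 hE₂))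
      have hjoin : IsNil (aug (D ∪ {E₁, E₂})) := by
        have hT : IsNil (tr D) := isNil_hull (hnil_mono Set.inter_subset_left h1.2.1)
        refine IsNil.mono ?_ (isNil_sup hE hT (hull_mul_hull _) ?_)
        · rw [aug, Submodule.span_le]
          rintro x ⟨A, hA | hA, a, ha, rfl⟩
          · exact Submodule.mem_sup_right (le_hull _ (Submodule.subset_span ⟨A, hA, a, ha, rfl⟩))
          · exact Submodule.mem_sup_left (Submodule.subset_span ⟨A, hA, a, ha, rfl⟩)
        · refine normal_mul (fun A hA e he => ?_)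
          rcases hA with rfl | rfl
          exacts [hn₁ e he, hn₂ e he]
      obtain ⟨U₃, h3, hsub3⟩ := hext (D ∪ {E₁, E₂}) (Set.union_subset hDW (by
        rintro A (rfl | rfl)
        exacts [h1.1 hE₁, h2.1 hE₂])) hjoin
      have hne13 : U₁ ≠ U₃ := fun e => hE₂D ⟨e ▸ hsub3 (Or.inr (Or.inr rfl)), hE₂⟩
      have hQ : Q (Module.finrank k (tr (U₁ ∩ U₃))) := ⟨U₁, U₃, h1, h3, hne13, rfl⟩
      have hle : Module.finrank k (tr (U₁ ∩ U₃)) ≤ Module.finrank k (tr D) := by
        rw [hd]; exact Nat.le_findGreatest (hb _ hQ) hQ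
      have hmono : tr D ≤ tr (U₁ ∩ U₃) := hull_mono (aug_mono fun A hA => ⟨hA.1, hsub3 (Or.inl hA)⟩)
      have heq := Submodule.eq_of_le_of_finrank_le hmono hle
      refine hE₁D ?_
      rw [← hDcl]
      refine ⟨h1.1 hE₁, fun a ha => ?_⟩
      rw [heq]
      exact le_hull _ (Submodule.subset_span ⟨E₁, ⟨hE₁, hsub3 (Or.inr (Or.inl rfl))⟩, a, ha, rfl⟩)
    exact unipotent_of_isNil hall
  · apply le_antisymm
    · rw [conjBy, Subgroup.map_iSup]
      refine iSup_le fun A => ?_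
      rw [Subgroup.map_iSup]
      exact iSup_le fun hA => le_iSup₂_of_le (conjBy A g) (hWconj A hA g hg) le_rfl
    · refine iSup₂_le fun A hA a ha => ?_
      rw [Subgroup.mem_map_equiv]
      exact Subgroup.mem_iSup_of_mem (conjBy A g⁻¹)
        (Subgroup.mem_iSup_of_mem (hWconj A hA g⁻¹ (inv_mem hg)) ⟨a, ha, by simp⟩)

end Cfsg.Agent.S5061
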