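import Cfsg.Statements.S5067
import Mathlib.GroupTheory.Nilpotent
-- import your own Cfsg.Agent.* helpers here

set_option autoImplicit false
open Cfsg

open scoped commutatorElement

namespace Cfsg.Agent.S5067

/-- Let P be a non-abelian nilpotent p-group (every element of p-power order; P possibly infinite) generated by two abelian subgroups E and F. Then the normal closure of E in P, and likewise that of F, has nilpotency class strictly smaller than that of P. -/
theorem result {P : Type*} [Group P] {p : ℕ} [Fact p.Prime] (hP : IsPGroup p P) [Group.IsNilpotent P]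
    (hna : ¬ IsMulCommutative P) {E F : Subgroup P} (hE : IsMulCommutative ↥E) (hF : IsMulCommutative ↥F) (hgen : E ⊔ F = ⊤) :
    Group.nilpotencyClass ↥(Subgroup.normalClosure (E : Set P)) < Group.nilpotencyClass P ∧
    Group.nilpotencyClass ↥(Subgroup.normalClosure (F : Set P)) < Group.nilpotencyClass P := by
  suffices key : ∀ E : Subgroup P, IsMulCommutative ↥E →
      Group.nilpotencyClass ↥(Subgroup.normalClosure (E : Set P)) < Group.nilpotencyClass P from ⟨key E hE, key F hF⟩
  intro E hE
  have hc : 2 ≤ Group.nilpotencyClass P := by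
    by_contra! hlt
    refine hna ⟨⟨fun x y => ?_⟩⟩
    have h1 : Subgroup.lowerCentralSeries (⊤ : Subgroup P) 1 = ⊥ := by
      rw [eq_bot_iff, ← Subgroup.lowerCentralSeries_nilpotencyClass (G := P)]
      exact Subgroup.lowerCentralSeries_antitone _ (by omega)
    rw [Subgroup.lowerCentralSeries_one, eq_bot_iff] at h1
    have := h1 (Subgroup.commutator_mem_commutator (Subgroup.mem_top x) (Subgroup.mem_top y))
    exact commutatorElement_eq_one_iff_mul_comm.1 (Subgroup.mem_bot.1 this)
  set H := E ⊔ commutator P with hH
  have hHn : H.Normal := Subgroup.Normal.of_commutator_le _ le_sup_right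
  have hle : Subgroup.normalClosure (E : Set P) ≤ H := Subgroup.normalClosure_le_normal (le_sup_left : E ≤ H)
  have h2 : ⁅H, H⁆ ≤ Subgroup.lowerCentralSeries (⊤ : Subgroup P) 2 := by
    set L := Subgroup.lowerCentralSeries (⊤ : Subgroup P) 2 with hL
    have hcen : ∀ c ∈ commutator P, ∀ x : P, (c : P ⧸ L) * x = x * c := by
      intro c hc x
      rw [← QuotientGroup.mk_mul, ← QuotientGroup.mk_mul, QuotientGroup.eq]
      have : x⁻¹ * c⁻¹ * x * c ∈ L := by
        suffices h : ⁅x⁻¹, c⁻¹⁆ ∈ L by simpa [commutatorElement_def] using h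
        rw [hL, Subgroup.lowerCentralSeries_succ, Subgroup.lowerCentralSeries_one, Subgroup.commutator_comm]
        exact Subgroup.commutator_mem_commutator (Subgroup.mem_top _) (inv_mem hc)
      simpa [mul_assoc] using this
    have hmap : ∀ u ∈ H, ∀ v ∈ H, (u : P ⧸ L) * v = v * u := by
      have hEv : ∀ u ∈ E, H ≤ (Subgroup.centralizer ({(u : P ⧸ L)} : Set (P ⧸ L))).comap (QuotientGroup.mk' L) := by
        intro u hu
        refine sup_le (fun v hv => ?_) (fun c hc => ?_)
        · refine Subgroup.mem_centralizer_singleton_iff.2 ?_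
          show (v : P ⧸ L) * u = u * v
          have hvu : v * u = u * v := Subtype.ext_iff.1 (hE.is_comm.comm (⟨v, hv⟩ : E) ⟨u, hu⟩)
          rw [← QuotientGroup.mk_mul, ← QuotientGroup.mk_mul, hvu]
        · exact Subgroup.mem_centralizer_singleton_iff.2 (hcen c hc u)
      intro u hu v hv
      have hu' : H ≤ (Subgroup.centralizer ({(v : P ⧸ L)} : Set (P ⧸ L))).comap (QuotientGroup.mk' L) := by
        refine sup_le (fun w hw => ?_) (fun c hc => ?_)
        · exact Subgroup.mem_centralizer_singleton_iff.2 (Subgroup.mem_centralizer_singleton_iff.1 (hEv w hw hv)).symm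
        · exact Subgroup.mem_centralizer_singleton_iff.2 (hcen c hc v)
      exact Subgroup.mem_centralizer_singleton_iff.1 (hu' hu)
    refine Subgroup.commutator_le.2 fun u hu v hv => ?_
    have h := hmap v⁻¹ (inv_mem hv) u⁻¹ (inv_mem hu)
    rw [← QuotientGroup.mk_mul, ← QuotientGroup.mk_mul, QuotientGroup.eq] at h
    simpa [commutatorElement_def, mul_assoc] using h
  set N := Subgroup.normalClosure (E : Set P) with hN
  have h3 : ∀ k, (Subgroup.lowerCentralSeries (⊤ : Subgroup N) (k + 1)).map N.subtype ≤
      Subgroup.lowerCentralSeries (⊤ : Subgroup P) (k + 2) := by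
    intro k
    induction k with
    | zero =>
      rw [Subgroup.lowerCentralSeries_one, commutator_def, Subgroup.map_commutator, ← MonoidHom.range_eq_map, Subgroup.range_subtype]
      exact (Subgroup.commutator_mono hle hle).trans h2
    | succ k ih =>
      rw [Subgroup.lowerCentralSeries_succ, Subgroup.map_commutator, Subgroup.lowerCentralSeries_succ _ (k + 2)]
      exact Subgroup.commutator_mono ih le_top
  have hNc : Group.nilpotencyClass ↥N ≤ Group.nilpotencyClass P - 1 := by
    rw [← Subgroup.lowerCentralSeries_eq_bot_iff_nilpotencyClass_le, ← Subgroup.map_eq_bot_iff_of_injective _ N.subtype_injective,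
      eq_bot_iff]
    have := h3 (Group.nilpotencyClass P - 2)
    rw [show Group.nilpotencyClass P - 2 + 1 = Group.nilpotencyClass P - 1 by omega,
      show Group.nilpotencyClass P - 2 + 2 = Group.nilpotencyClass P by omega,
      Subgroup.lowerCentralSeries_nilpotencyClass] at this
    exact this
  omega

end Cfsg.Agent.S5067
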