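import Cfsg.Statements.S5070
import Cfsg.Agent.Lib.RootSub.Transv
import Cfsg.Agent.Lib.Classical.PSpAut.Image

set_option autoImplicit false
open Matrix
open Cfsg

namespace Cfsg.Agent.S5070

open Cfsg.Lib.RootSub
open Cfsg.Lib.Classical (tv tv_mulVec sympBilin sympBilin_isAlt sympBilin_nondegenerate sTGL spToGL coe_spToGL spToGL_range mem_spGL_iff det_eq_one_of_isometry spGL_le_of_sTGL_mem ext_mulVec)
open Cfsg.Lib.Classical.PSpAut (tS tS_mulVec ext_sp exists_eq_one conj_tS exists_move swap self)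
open scoped commutatorElement

variable {F : Type*} [Field F] {m : ℕ}

theorem commutative_of_map {G H : Type*} [Group G] [Group H] {f : G →* H} (hf : Function.Injective f)
    {A : Subgroup G} (h : IsMulCommutative (A.map f)) : IsMulCommutative A :=
  ⟨⟨fun a b => Subtype.ext (hf (by
    simpa using congrArg Subtype.val (h.is_comm.comm ⟨f a, a, a.2, rfl⟩ ⟨f b, b, b.2, rfl⟩)))⟩⟩

theorem rankOne_pullback {G H : Type*} [Group G] [Group H] {f : G →* H} (hf : Function.Injective f)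
    {A B : Subgroup G} (h : IsRankOnePair (A.map f) (B.map f)) : IsRankOnePair A B := by
  have key : ∀ (C : Subgroup G) (x : G), conjBy (C.map f) (f x) = (conjBy C x).map f := by
    intro C x
    rw [conjBy, conjBy, Subgroup.map_map, Subgroup.map_map]
    congr 1
    ext y
    simp
  have hc : ∀ C D : Subgroup G, RankOneCondition (C.map f) (D.map f) → RankOneCondition C D := by
    intro C D hCD a ha ha1
    obtain ⟨_, ⟨b, hb, rfl⟩, hb1, e⟩ := hCD (f a) ⟨a, ha, rfl⟩ (fun e => ha1 (hf (e.trans (map_one f).symm)))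
    rw [← map_inv, ← map_inv, key, key] at e
    exact ⟨b, hb, fun e' => hb1 (by rw [e', map_one]), Subgroup.map_injective hf e⟩
  have hn : ∀ C : Subgroup G, Group.IsNilpotent (C.map f) → Group.IsNilpotent C := fun C hC =>
    Group.nilpotent_of_mulEquiv (G := C.map f) (C.equivMapOfInjective f hf).symm
  exact ⟨fun e => h.ne (by rw [e]), hn A h.nilpotent_left, hn B h.nilpotent_right, hc A B h.cond_left,
    hc B A h.cond_right⟩

theorem psl2_pullback {G H : Type*} [Group G] [Group H] {f : G →* H} (hf : Function.Injective f)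
    {k : Type*} [Field k] {A B : Subgroup G} (h : IsPSL2PairOver k (A.map f) (B.map f)) :
    IsPSL2PairOver k A B := by
  obtain ⟨Φ, hr, hk, hu, hl⟩ := h
  have hmem : ∀ x, Φ x ∈ f.range := fun x => by
    have : Φ x ∈ A.map f ⊔ B.map f := hr ▸ ⟨x, rfl⟩
    rw [← Subgroup.map_sup] at this
    obtain ⟨y, -, e⟩ := this
    exact ⟨y, e⟩
  let Ψ : Matrix.SpecialLinearGroup (Fin 2) k →* G :=
    (MonoidHom.ofInjective hf).symm.toMonoidHom.comp (Φ.codRestrict f.range hmem)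
  have hΨ : f.comp Ψ = Φ := MonoidHom.ext fun x => by
    show f ((MonoidHom.ofInjective hf).symm ⟨Φ x, hmem x⟩) = Φ x
    rw [MonoidHom.apply_ofInjective_symm hf]
  refine ⟨Ψ, Subgroup.map_injective hf ?_, fun x hx => hk ?_, Subgroup.map_injective hf ?_, Subgroup.map_injective hf ?_⟩
  · rw [MonoidHom.map_range, hΨ, hr, Subgroup.map_sup]
  · rw [MonoidHom.mem_ker] at hx ⊢
    rw [← hΨ, MonoidHom.comp_apply, hx, map_one]
  · rw [Subgroup.map_map, hΨ, hu]
  · rw [Subgroup.map_map, hΨ, hl]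

theorem not_commCase {ι : Type*} [Fintype ι] [DecidableEq ι] {v φ w ψ : ι → F}
    (h0 : φ ⬝ᵥ v = 0) (h0' : ψ ⬝ᵥ w = 0) (hφ : φ ≠ 0) (hx : φ ⬝ᵥ w ≠ 0) (hy : ψ ⬝ᵥ v ≠ 0) :
    ⁅el v φ h0 1, el w ψ h0' 1⁆ * el v φ h0 1 ≠ el v φ h0 1 * ⁅el v φ h0 1, el w ψ h0' 1⁆ := by
  intro e
  obtain ⟨h1, e1⟩ := conj_el ⁅el v φ h0 1, el w ψ h0' 1⁆ v φ 1 h0
  rw [e, mul_inv_cancel_right] at e1
  have hT : T v φ = T ((⁅el v φ h0 1, el w ψ h0' 1⁆ : Matrix.SpecialLinearGroup ι F) *ᵥ v)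
      (φ ᵥ* ((⁅el v φ h0 1, el w ψ h0' 1⁆⁻¹ : Matrix.SpecialLinearGroup ι F) : Matrix ι ι F)) := by
    refine T_eq_of_tensor ?_
    have := congrArg Subtype.val e1
    simpa [tv] using this
  by_cases hne : (φ ᵥ* ((⁅el v φ h0 1, el w ψ h0' 1⁆⁻¹ : Matrix.SpecialLinearGroup ι F) : Matrix ι ι F)) = 0
  · apply hφ
    have := congrArg (fun z => z ᵥ* ((⁅el v φ h0 1, el w ψ h0' 1⁆ : Matrix.SpecialLinearGroup ι F) : Matrix ι ι F)) hne
    simpa only [Matrix.vecMul_vecMul, ← Matrix.SpecialLinearGroup.coe_mul, inv_mul_cancel,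
      Matrix.SpecialLinearGroup.coe_one, Matrix.vecMul_one, Matrix.zero_vecMul] using this
  obtain ⟨c, hc⟩ := prop_of_eq hne h1 h0 hT.symm
  have hk : φ ⬝ᵥ ((⁅el v φ h0 1, el w ψ h0' 1⁆ : Matrix.SpecialLinearGroup ι F) *ᵥ v) =
      φ ⬝ᵥ w * (φ ⬝ᵥ w) * (ψ ⬝ᵥ v) * (ψ ⬝ᵥ v) := by
    rw [commutatorElement_def, el_inv, el_inv]
    show φ ⬝ᵥ ((tv ((1 : F) • v) φ * tv ((1 : F) • w) ψ * tv ((-1 : F) • v) φ * tv ((-1 : F) • w) ψ) *ᵥ v) = _
    simp only [← Matrix.mulVec_mulVec, tv_mulVec, dotProduct_add, dotProduct_smul, smul_eq_mul, h0, h0']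
    ring
  rw [hc, dotProduct_smul, h0, smul_zero] at hk
  rcases mul_eq_zero.1 hk.symm with h | h
  · rcases mul_eq_zero.1 h with h | h
    · rcases mul_eq_zero.1 h with h | h <;> exact hx h
    · exact hy h
  · exact hy h

/-- the inclusion of the symplectic group in the special linear group -/
noncomputable def incl : ↥(Matrix.symplecticGroup (Fin m) F) →* Matrix.SpecialLinearGroup (Fin m ⊕ Fin m) F where
  toFun g := ⟨g.1, by
    have h : spToGL g ∈ Cfsg.spGL m F := spToGL_range (F := F) (m := m) ▸ ⟨g, rfl⟩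
    have := congrArg Units.val (det_eq_one_of_isometry _ (sympBilin_isAlt F m) (sympBilin_nondegenerate F m) _
      (mem_spGL_iff.1 h))
    simpa using this⟩
  map_one' := rfl
  map_mul' _ _ := rfl

theorem incl_injective : Function.Injective (incl (F := F) (m := m)) := fun a b h =>
  Subtype.ext (congrArg Subtype.val h :)

/-- the transvection group at a point -/
def S (p : Fin m ⊕ Fin m → F) : Subgroup ↥(Matrix.symplecticGroup (Fin m) F) :=
  Subgroup.closure {g | ∃ c : F, ∀ v, (g : Matrix (Fin m ⊕ Fin m) (Fin m ⊕ Fin m) F) *ᵥ v =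
    v + (c * (v ⬝ᵥ (Matrix.J (Fin m) F *ᵥ p))) • p}

theorem omega_eq (x p : Fin m ⊕ Fin m → F) : sympBilin F m x p = x ⬝ᵥ (Matrix.J (Fin m) F *ᵥ p) :=
  Matrix.toBilin'_apply' _ _ _

theorem tS_mem (p : Fin m ⊕ Fin m → F) (c : F) : tS p c ∈ S p :=
  Subgroup.subset_closure ⟨c, fun v => by rw [tS_mulVec, omega_eq]⟩

theorem S_eq (p : Fin m ⊕ Fin m → F) : S p = Subgroup.closure (Set.range (tS p)) := by
  refine congrArg Subgroup.closure (Set.ext fun g => ⟨fun ⟨c, hc⟩ => ⟨c, ext_sp fun x => ?_⟩, ?_⟩)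
  · rw [tS_mulVec, omega_eq, hc]
  · rintro ⟨c, rfl⟩
    exact ⟨c, fun v => by rw [tS_mulVec, omega_eq]⟩

/-- the functional of a point -/
def phi (p : Fin m ⊕ Fin m → F) : Fin m ⊕ Fin m → F := Matrix.J (Fin m) F *ᵥ p

theorem phi_dot (p x : Fin m ⊕ Fin m → F) : phi p ⬝ᵥ x = sympBilin F m x p := by
  rw [omega_eq, dotProduct_comm]; rfl

theorem phi_self (p : Fin m ⊕ Fin m → F) : phi p ⬝ᵥ p = 0 := by rw [phi_dot, self]

theorem phi_ne {p : Fin m ⊕ Fin m → F} (hp : p ≠ 0) : phi p ≠ 0 := fun h => by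
  obtain ⟨z, hz⟩ := exists_eq_one hp
  rw [← phi_dot, h, zero_dotProduct] at hz
  exact zero_ne_one hz

theorem incl_tS (p : Fin m ⊕ Fin m → F) (c : F) : incl (tS p c) = el p (phi p) (phi_self p) c := by
  refine Subtype.ext (ext_mulVec fun x => ?_)
  show (tS p c).1 *ᵥ x = tv (c • p) (phi p) *ᵥ x
  rw [tS_mulVec, tv_mulVec, phi_dot, smul_smul, mul_comm]

theorem map_S (p : Fin m ⊕ Fin m → F) : (S p).map incl = T p (phi p) := by
  rw [S_eq, MonoidHom.map_closure, T]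
  refine congrArg Subgroup.closure (Set.ext fun t => ?_)
  constructor
  · rintro ⟨_, ⟨c, rfl⟩, rfl⟩
    exact ⟨c, by rw [incl_tS]; rfl⟩
  · rintro ⟨c, hc⟩
    exact ⟨tS p c, ⟨c, rfl⟩, (incl_tS p c).trans (Subtype.ext hc.symm)⟩

theorem conjBy_S (g : ↥(Matrix.symplecticGroup (Fin m) F)) (p : Fin m ⊕ Fin m → F) :
    conjBy (S p) g = S ((g : Matrix (Fin m ⊕ Fin m) (Fin m ⊕ Fin m) F) *ᵥ p) := by
  rw [conjBy, S_eq, S_eq, MonoidHom.map_closure, ← Set.range_comp]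
  congr 2
  funext c
  exact conj_tS g p c

/-- Let F be a field, m a natural number and V = F^{2(m+1)} with the standard non-degenerate alternating form f(u, v) = uᵀ J v. For a non-zero vector p let T(p) be the group of symplectic transvections v ↦ v + c f(v, p) p, c ∈ F. Then the subgroups T(p), p ≠ 0, generate the symplectic group Sp_{2(m+1)}(F) and form a degenerate class of abstract F-root subgroups of it (any two of them either commute elementwise or are the unipotent subgroups of a rank one group that is an image of SL₂(F) with central kernel, never the commutator case), and their graph of rank one pairs is connected. -/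
theorem result (F : Type*) [Field F] (m : ℕ) :
    Cfsg.IsRootSubgroupClass {A : Subgroup ↥(Matrix.symplecticGroup (Fin (m + 1)) F) | ∃ p : Fin (m + 1) ⊕ Fin (m + 1) → F, p ≠ 0 ∧
        A = Subgroup.closure {g : ↥(Matrix.symplecticGroup (Fin (m + 1)) F) | ∃ c : F, ∀ v : Fin (m + 1) ⊕ Fin (m + 1) → F,
          (g : Matrix (Fin (m + 1) ⊕ Fin (m + 1)) (Fin (m + 1) ⊕ Fin (m + 1)) F) *ᵥ v =
            v + (c * (v ⬝ᵥ (Matrix.J (Fin (m + 1)) F *ᵥ p))) • p}} ∧
    Cfsg.IsDegenerateRootSet {A : Subgroup ↥(Matrix.symplecticGroup (Fin (m + 1)) F) | ∃ p : Fin (m + 1) ⊕ Fin (m + 1) → F, p ≠ 0 ∧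
        A = Subgroup.closure {g : ↥(Matrix.symplecticGroup (Fin (m + 1)) F) | ∃ c : F, ∀ v : Fin (m + 1) ⊕ Fin (m + 1) → F,
          (g : Matrix (Fin (m + 1) ⊕ Fin (m + 1)) (Fin (m + 1) ⊕ Fin (m + 1)) F) *ᵥ v =
            v + (c * (v ⬝ᵥ (Matrix.J (Fin (m + 1)) F *ᵥ p))) • p}} ∧
    Cfsg.IsKRootSubgroupSet F {A : Subgroup ↥(Matrix.symplecticGroup (Fin (m + 1)) F) | ∃ p : Fin (m + 1) ⊕ Fin (m + 1) → F, p ≠ 0 ∧
        A = Subgroup.closure {g : ↥(Matrix.symplecticGroup (Fin (m + 1)) F) | ∃ c : F, ∀ v : Fin (m + 1) ⊕ Fin (m + 1) → F,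
          (g : Matrix (Fin (m + 1) ⊕ Fin (m + 1)) (Fin (m + 1) ⊕ Fin (m + 1)) F) *ᵥ v =
            v + (c * (v ⬝ᵥ (Matrix.J (Fin (m + 1)) F *ᵥ p))) • p}} ∧
    Cfsg.IsConnectedFamily (Cfsg.FAdj {A : Subgroup ↥(Matrix.symplecticGroup (Fin (m + 1)) F) | ∃ p : Fin (m + 1) ⊕ Fin (m + 1) → F, p ≠ 0 ∧
        A = Subgroup.closure {g : ↥(Matrix.symplecticGroup (Fin (m + 1)) F) | ∃ c : F, ∀ v : Fin (m + 1) ⊕ Fin (m + 1) → F,
          (g : Matrix (Fin (m + 1) ⊕ Fin (m + 1)) (Fin (m + 1) ⊕ Fin (m + 1)) F) *ᵥ v =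
            v + (c * (v ⬝ᵥ (Matrix.J (Fin (m + 1)) F *ᵥ p))) • p}})
      {A : Subgroup ↥(Matrix.symplecticGroup (Fin (m + 1)) F) | ∃ p : Fin (m + 1) ⊕ Fin (m + 1) → F, p ≠ 0 ∧
        A = Subgroup.closure {g : ↥(Matrix.symplecticGroup (Fin (m + 1)) F) | ∃ c : F, ∀ v : Fin (m + 1) ⊕ Fin (m + 1) → F,
          (g : Matrix (Fin (m + 1) ⊕ Fin (m + 1)) (Fin (m + 1) ⊕ Fin (m + 1)) F) *ᵥ v =
            v + (c * (v ⬝ᵥ (Matrix.J (Fin (m + 1)) F *ᵥ p))) • p}} := by
  show IsRootSubgroupClass {A | ∃ p, p ≠ 0 ∧ A = S p} ∧ IsDegenerateRootSet {A | ∃ p, p ≠ 0 ∧ A = S p} ∧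
    IsKRootSubgroupSet F {A | ∃ p, p ≠ 0 ∧ A = S p} ∧
    IsConnectedFamily (FAdj {A | ∃ p, p ≠ 0 ∧ A = S p}) {A | ∃ p, p ≠ 0 ∧ A = S p}
  have hcomm : ∀ p q : Fin (m + 1) ⊕ Fin (m + 1) → F, sympBilin F (m + 1) q p = 0 → ⁅S p, S q⁆ = ⊥ := by
    intro p q h
    apply Subgroup.map_injective incl_injective
    rw [Subgroup.map_commutator, map_S, map_S, Subgroup.map_bot]
    exact commute_case (phi_self p) (phi_self q) (by rw [phi_dot, h]) (by rw [phi_dot, swap q p, h, neg_zero])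
  have hy : ∀ p q : Fin (m + 1) ⊕ Fin (m + 1) → F, sympBilin F (m + 1) q p ≠ 0 → phi q ⬝ᵥ p ≠ 0 := fun p q h => by
    rw [phi_dot, swap q p]; simpa using h
  have hr1 : ∀ p q : Fin (m + 1) ⊕ Fin (m + 1) → F, p ≠ 0 → q ≠ 0 → sympBilin F (m + 1) q p ≠ 0 →
      IsRankOnePair (S p) (S q) := by
    intro p q hp hq h
    refine rankOne_pullback incl_injective ?_
    rw [map_S, map_S]
    exact rankOne_pair hp (phi_ne hp) hq (phi_ne hq) (phi_self p) (phi_self q) (by rwa [phi_dot]) (hy p q h)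
  have hset : IsRootSubgroupSet {A : Subgroup ↥(Matrix.symplecticGroup (Fin (m + 1)) F) | ∃ p, p ≠ 0 ∧ A = S p} := by
    refine ⟨?_, ?_, ?_, ?_, ?_⟩
    · rintro A ⟨p, hp, rfl⟩
      exact commutative_of_map incl_injective (by rw [map_S]; exact comm_T (phi_self p))
    · rintro A ⟨p, hp, rfl⟩ e
      refine ne_bot_T hp (phi_ne hp) (phi_self p) ?_
      rw [← map_S, e, Subgroup.map_bot]
    · refine eq_top_iff.2 fun g _ => ?_
      have hle := spGL_le_of_sTGL_mem (F := F) (m := m + 1)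
        (H := (⨆ A ∈ {A : Subgroup ↥(Matrix.symplecticGroup (Fin (m + 1)) F) | ∃ p, p ≠ 0 ∧ A = S p}, A).map spToGL)
        (fun v c => ?_)
      · have h : spToGL g ∈ Cfsg.spGL (m + 1) F := spToGL_range (F := F) (m := m + 1) ▸ ⟨g, rfl⟩
        obtain ⟨g', hg', e⟩ := Subgroup.mem_map.1 (hle h)
        have : g' = g := Subtype.ext (by
          have := congrArg Units.val e
          simpa using this)
        rwa [← this]
      · refine ⟨tS v c, ?_, Units.ext (by simp [tS])⟩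
        by_cases hv : v = 0
        · rw [hv, Cfsg.Lib.Classical.PSpAut.tS_zero_left]; exact one_mem _
        · exact Subgroup.mem_iSup_of_mem (S v) (Subgroup.mem_iSup_of_mem ⟨v, hv, rfl⟩ (tS_mem v c))
    · rintro A ⟨p, hp, rfl⟩ g
      exact ⟨_, Cfsg.Lib.Classical.PSpAut.mulVec_ne_zero g hp, conjBy_S g p⟩
    · rintro A ⟨p, hp, rfl⟩ B ⟨q, hq, rfl⟩
      by_cases h : sympBilin F (m + 1) q p = 0
      · exact Or.inl (hcomm p q h)
      · exact Or.inr (Or.inl (hr1 p q hp hq h))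
  refine ⟨⟨hset, ?_, ?_⟩, ?_, ⟨hset, ?_⟩, ?_⟩
  · exact ⟨_, Pi.single (Sum.inl 0) 1, by simp, rfl⟩
  · rintro A ⟨p, hp, rfl⟩ B ⟨q, hq, rfl⟩
    obtain ⟨g, hg⟩ := exists_move hp hq
    exact ⟨g, by rw [conjBy_S, hg]⟩
  · rintro A ⟨p, hp, rfl⟩ B ⟨q, hq, rfl⟩ ⟨hmem, hcent, -, -⟩
    by_cases h : sympBilin F (m + 1) q p = 0
    · rw [hcomm p q h] at hmem
      exact hset.ne_bot _ hmem rfl
    · have e := hcent _ (Subgroup.commutator_mem_commutator (tS_mem p 1) (tS_mem q 1)) _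
        (Subgroup.mem_sup_left (tS_mem p 1))
      have e' := congrArg incl e
      simp only [map_mul, map_commutatorElement, incl_tS] at e'
      exact not_commCase (phi_self p) (phi_self q) (phi_ne hp) (by rwa [phi_dot]) (hy p q h) e'
  · rintro A ⟨p, hp, rfl⟩ B ⟨q, hq, rfl⟩ hR
    have h : sympBilin F (m + 1) q p ≠ 0 := by
      intro h
      obtain ⟨b, hb, -, e⟩ := hR.cond_left _ (tS_mem p 1) (fun e => by
        refine el_ne_one hp (phi_ne hp) (phi_self p) one_ne_zero ?_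
        rw [← incl_tS, e, map_one])
      have hfix : ∀ C D : Subgroup ↥(Matrix.symplecticGroup (Fin (m + 1)) F), ⁅C, D⁆ = ⊥ → ∀ x ∈ D,
          conjBy C x = C := by
        intro C D hCD x hx
        have hh : ∀ y ∈ C, x * y * x⁻¹ = y := fun y hy => by
          have := Subgroup.mem_centralizer_iff.1 (Subgroup.commutator_eq_bot_iff_le_centralizer.1 hCD hy) x hx
          rw [this, mul_inv_cancel_right]
        ext y
        constructor
        · rintro ⟨z, hz, rfl⟩; show x * z * x⁻¹ ∈ C; rwa [hh z hz]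
        · exact fun hy => ⟨y, hy, hh y hy⟩
      rw [hfix _ _ (hcomm p q h) _ (inv_mem hb),
        hfix _ _ ((Subgroup.commutator_comm _ _).trans (hcomm p q h)) _ (inv_mem (tS_mem p 1))] at e
      exact hR.ne e
    refine psl2_pullback incl_injective ?_
    rw [map_S, map_S]
    exact psl2_pair (phi_self p) (phi_self q) (by rwa [phi_dot]) (hy p q h)
  · rintro A ⟨p, hp, rfl⟩ B ⟨q, hq, rfl⟩
    obtain ⟨u, h1, h2⟩ := Cfsg.Lib.Classical.SpSimple.exists_ne_zero_ne_zero hp hq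
    have hu : u ≠ 0 := fun e => h1 (by simp [e])
    have a1 : sympBilin F (m + 1) u p ≠ 0 := by
      first | exact h1 | (rw [swap p u]; simpa using h1)
    have a2 : sympBilin F (m + 1) q u ≠ 0 := by
      first | exact h2 | (rw [swap u q]; simpa using h2)
    exact Relation.ReflTransGen.head ⟨⟨p, hp, rfl⟩, ⟨u, hu, rfl⟩, hr1 p u hp hu a1⟩
      (Relation.ReflTransGen.single ⟨⟨u, hu, rfl⟩, ⟨q, hq, rfl⟩, hr1 u q hu hq a2⟩)

end Cfsg.Agent.S5070
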