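import Cfsg.Statements.S5077
import Mathlib
import Cfsg.Agent.Lib.Fusion.Saturation

set_option autoImplicit false
open Cfsg

namespace Cfsg.Agent.S5077

/-- A fusion system over a finite p-group S is saturated if and only if (Sylow axiom) every fully normalized subgroup is fully centralized and fully automized, and (extension axiom) every fully centralized subgroup is receptive. -/
theorem result {Ω : Type*} [Group Ω] {S : Subgroup Ω} [Finite S] (p : ℕ) [Fact p.Prime] (hS : IsPGroup p S) (F : Cfsg.FusionSystem S) : F.IsSaturated p ↔ ((∀ P : Subgroup Ω, F.IsFullyNormalized P → F.IsFullyCentralized P ∧ F.IsFullyAutomized p P) ∧ (∀ P : Subgroup Ω, F.IsFullyCentralized P → F.IsReceptive P)) := by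
  constructor
  · intro hF
    exact ⟨fun P hP => Lib.Fusion.fullyNormalized_axiom hS hF hP,
      fun P hP => Lib.Fusion.fullyCentralized_axiom hS hF hP⟩
  · rintro ⟨h1, h2⟩
    exact Lib.Fusion.saturated_of_axioms (fun P hP => (h1 P hP).2) fun P hP => h2 P (h1 P hP).1

end Cfsg.Agent.S5077
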