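import Cfsg.Statements.S5081
import Mathlib
import Cfsg.Agent.Lib.Fusion.Essential

set_option autoImplicit false
open Cfsg

namespace Cfsg.Agent.S5081

/-- Let F be a saturated fusion system over a finite p-group S, P a proper subgroup of S that is fully normalized, and H the subgroup of Aut_F(P) generated by the automorphisms that extend to maps of the system defined on strictly larger subgroups of S. Then either P is not essential and H is all of Aut_F(P), or P is essential and the image of H in Out_F(P) = Aut_F(P)/Inn(P) is strongly p-embedded there. -/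
theorem result {Ω : Type*} [Group Ω] {S : Subgroup Ω} [Finite S] (p : ℕ) [Fact p.Prime] (hS : IsPGroup p S) (F : Cfsg.FusionSystem S) (hF : F.IsSaturated p) (P : Subgroup Ω) (hPS : P < S) (hPn : F.IsFullyNormalized P) (H : Subgroup (MulAut P)) (hH : H = Subgroup.closure {α : MulAut P | ∃ (Q : Subgroup Ω) (hPQ : P < Q) (φ : Q →* Ω), φ ∈ F.Hom Q ∧ ∀ x : P, φ (Subgroup.inclusion hPQ.le x) = α x}) : (¬ F.IsEssential p P ∧ H = F.autGroup P) ∨ (F.IsEssential p P ∧ ∃ _ : ((Cfsg.Inn P).subgroupOf (F.autGroup P)).Normal, Cfsg.IsStronglyPEmbedded p ((H.subgroupOf (F.autGroup P)).map (QuotientGroup.mk' ((Cfsg.Inn P).subgroupOf (F.autGroup P))))) := by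
  have hH' : H = Lib.Fusion.extAut F P := by
    rw [hH, Lib.Fusion.extAut]
    congr 1
    ext α
    constructor
    · rintro ⟨Q, hPQ, φ, hφ, he⟩
      refine ⟨Q, Lib.Fusion.extFun φ, hPQ, Lib.Fusion.mor_extFun hφ, fun x hx => ?_⟩
      rw [Lib.Fusion.extFun_apply φ (hPQ.le hx), Lib.Fusion.autFun_apply α hx]
      exact he ⟨x, hx⟩
    · rintro ⟨Q, k, hPQ, hk, hke⟩
      obtain ⟨φ, hφ, he⟩ := hk.exists_hom
      refine ⟨Q, hPQ, φ, hφ, fun x => ?_⟩
      rw [he, ← Lib.Fusion.autFun_coe α x]
      exact hke x x.2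
  subst hH'
  by_cases he : F.IsEssential p P
  · refine Or.inr ⟨he, Lib.Fusion.innOf_normal F P, ?_⟩
    exact (Lib.Fusion.stronglyEmbedded_of_extAut_ne hS hF hPn hPS
      (Lib.Fusion.extAut_ne_of_essential hS hF he)).2
  · refine Or.inl ⟨he, ?_⟩
    by_contra hne
    exact he (Lib.Fusion.essential_of_extAut_ne hS hF hPn hPS hne)

end Cfsg.Agent.S5081
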