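import Cfsg.Statements.S5083
import Mathlib
import Cfsg.Agent.Lib.Fusion.Alperin

set_option autoImplicit false
open Cfsg

namespace Cfsg.Agent.S5083

/-- If F is a saturated fusion system over a finite p-group S in which Aut_F(P) is a p-group for every P ≤ S, then F is the inner fusion system of S (all its maps are conjugations by elements of S). -/
theorem result {Ω : Type*} [Group Ω] {S : Subgroup Ω} [Finite S] (p : ℕ) [Fact p.Prime] (hS : IsPGroup p S) (F : Cfsg.FusionSystem S) (hF : F.IsSaturated p) (h : ∀ P : Subgroup Ω, P ≤ S → IsPGroup p (F.autGroup P)) : F = Cfsg.innerFusionSystem S := by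
  refine Lib.Fusion.system_ext fun P => Lib.Fusion.hom_eq_iff.2 fun f => ⟨fun hf => ?_, ?_⟩
  · refine Lib.Fusion.mor_le_of_autGroup hS hF (fun Q hQ _ α hα => ?_) P f hf
    have hle : Subgroup.closure {a : MulAut Q | a ∈ F.autGroup Q} ≤ Cfsg.autInducedBy S Q := by
      rw [show {a : MulAut Q | a ∈ F.autGroup Q} = (F.autGroup Q : Set (MulAut Q)) from rfl,
        Subgroup.closure_eq]
      exact Lib.Fusion.le_autInducedBy_of_normal (Lib.Fusion.fullyNormalized_axiom hS hF hQ).2
        le_rfl (h Q hQ.1) fun γ hγ a ha => mul_mem (mul_mem hγ ha) (inv_mem hγ)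
    exact (Lib.Fusion.mem_autGroup_iff hQ.1).1
      (Lib.Fusion.autInducedBy_le_autGroup hQ.1 (hle (Subgroup.subset_closure hα)))
  · rintro ⟨φ, ⟨hP, c, hc, he⟩, hφe⟩
    exact (Lib.Fusion.mor_conj hP hc).congr fun x hx => (he ⟨x, hx⟩).symm.trans (hφe ⟨x, hx⟩)

end Cfsg.Agent.S5083
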