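import Cfsg.Statements.S5087
import Mathlib
import Cfsg.Agent.Lib.Fusion.NormalCriteria
import Cfsg.Agent.Lib.Fusion.Essential

set_option autoImplicit false
open Cfsg

namespace Cfsg.Agent.S5087

/-- In a saturated fusion system over a finite p-group S, a subgroup Q is normal in the system if and only if every subgroup P that equals S or is essential contains Q and every element of Aut_F(P) maps Q onto itself. -/
theorem result {Ω : Type*} [Group Ω] {S : Subgroup Ω} [Finite S] (p : ℕ) [Fact p.Prime] (hS : IsPGroup p S) (F : Cfsg.FusionSystem S) (hF : F.IsSaturated p) (Q : Subgroup Ω) : F.IsNormal Q ↔ ∀ P : Subgroup Ω, (P = S ∨ F.IsEssential p P) → (Q ≤ P ∧ ∀ α ∈ F.autGroup P, (Q.subgroupOf P).map α.toMonoidHom = Q.subgroupOf P) := by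
  constructor
  · intro h P hP
    have hQP : Q ≤ P := by
      rcases hP with rfl | hP
      · exact h.1
      · exact Lib.Fusion.le_of_isNormal_of_centricRadical hS h hP.1
          (Lib.Fusion.radical_of_essential hS hP)
    refine ⟨hQP, fun α hα => ?_⟩
    have hPS : P ≤ S := by
      rcases hP with rfl | hP
      · exact le_rfl
      · exact hP.1.1
    obtain ⟨k, hk, hke, hkQ⟩ := (Lib.Fusion.isNormal_iff.1 h).2 P _
      ((Lib.Fusion.mem_autGroup_iff hPS).1 hα)
    refine le_antisymm ?_ fun x hx => ?_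
    · rintro _ ⟨x, hx, rfl⟩
      rw [Subgroup.mem_subgroupOf]
      have h1 := Lib.Fusion.mem_img_of_mem (f := k) (x := (x : Ω)) hx
      rw [hkQ, hke _ x.2, Lib.Fusion.autFun_coe] at h1
      exact h1
    · have h1 : (x : Ω) ∈ Lib.Fusion.img Q k := by rw [hkQ]; exact hx
      obtain ⟨y, hy, hye⟩ := (hk.restrict le_sup_right).mem_img.1 h1
      refine ⟨⟨y, hQP hy⟩, hy, Subtype.ext ?_⟩
      rw [hke _ (hQP hy), Lib.Fusion.autFun_apply α (hQP hy)] at hye
      exact hye
  · intro h
    obtain ⟨hQS, htop⟩ := h S (Or.inl rfl)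
    have hSN : S ≤ Cfsg.FusionSystem.normalizerIn S Q := by
      intro c hc
      refine Lib.Fusion.mem_normalizerIn_of_conj hQS hc fun x hx => ?_
      have hcN : c ∈ Cfsg.FusionSystem.normalizerIn S S := by
        rw [Lib.Fusion.normalizerIn_self]; exact hc
      have hin : Lib.Fusion.conjAut S S ⟨c, hcN⟩ ∈ Cfsg.autInducedBy S S :=
        Lib.Fusion.range_conjAut S S ▸ ⟨⟨c, hcN⟩, rfl⟩
      have h1 := htop _ (Lib.Fusion.autInducedBy_le_autGroup (F := F) le_rfl hin)
      have h2 : (Lib.Fusion.conjAut S S ⟨c, hcN⟩) ⟨x, hQS hx⟩ ∈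
          (Q.subgroupOf S).map (Lib.Fusion.conjAut S S ⟨c, hcN⟩).toMonoidHom :=
        ⟨⟨x, hQS hx⟩, hx, rfl⟩
      rw [h1] at h2
      exact h2
    refine Lib.Fusion.isNormal_of_extends hQS hSN
      (Lib.Fusion.mor_le_of_essential hS hF fun P hP α hα => ?_)
    obtain ⟨hQP, hPQ⟩ := h P hP
    have hPS : P ≤ S := by
      rcases hP with rfl | hP
      · exact le_rfl
      · exact hP.1.1
    have hα' := (Lib.Fusion.mem_autGroup_iff hPS).1 hα
    refine Lib.Fusion.mor_normalizerExt_iff.2 ⟨hPS, fun x hx => hα'.mem hx, _,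
      hα'.source_congr (sup_eq_left.2 hQP).symm, fun x _ => rfl, ?_⟩
    refine (hα'.restrict hQP).img_eq_of_card_le hQS (fun x hx => ?_) le_rfl
    rw [Lib.Fusion.autFun_apply α (hQP hx)]
    have h2 : α ⟨x, hQP hx⟩ ∈ (Q.subgroupOf P).map α.toMonoidHom := ⟨⟨x, hQP hx⟩, hx, rfl⟩
    rw [hPQ α hα] at h2
    exact h2

end Cfsg.Agent.S5087
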