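import Cfsg.Statements.S5088
import Mathlib
import Cfsg.Agent.Lib.Fusion.NormalCriteria

set_option autoImplicit false
open Cfsg

namespace Cfsg.Agent.S5088

/-- In a saturated fusion system over a finite p-group, a subgroup Q is normal in the system if and only if there is a chain of subgroups 1 = Q₀ ≤ Q₁ ≤ ⋯ ≤ Qₙ = Q such that each Qᵢ with i ≥ 1 is strongly closed in the system and [Q, Qᵢ] ≤ Qᵢ₋₁. -/
theorem result {Ω : Type*} [Group Ω] {S : Subgroup Ω} [Finite S] (p : ℕ) [Fact p.Prime] (hS : IsPGroup p S) (F : Cfsg.FusionSystem S) (hF : F.IsSaturated p) (Q : Subgroup Ω) : F.IsNormal Q ↔ ∃ (n : ℕ) (Qs : Fin (n + 1) → Subgroup Ω), Qs 0 = ⊥ ∧ Qs (Fin.last n) = Q ∧ Monotone Qs ∧ ∀ i : Fin n, F.StronglyClosed (Qs i.succ) ∧ ⁅Q, Qs i.succ⁆ ≤ Qs (Fin.castSucc i) := by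
  constructor
  · intro h
    obtain ⟨n, hn⟩ := Lib.Fusion.exists_lowerCentralSeries_eq_bot hS h.1
    refine ⟨n, fun i => Q.lowerCentralSeries (n - i), by simpa using hn, by simp, ?_, fun i => ⟨?_, ?_⟩⟩
    · intro i j hij
      exact Q.lowerCentralSeries_antitone (Nat.sub_le_sub_left hij n)
    · exact Lib.Fusion.stronglyClosed_of_isNormal (Lib.Fusion.isNormal_lowerCentralSeries h _)
    · simp only [Fin.val_castSucc, Fin.val_succ]
      have h1 : n - i = (n - (i + 1)) + 1 := by omega
      rw [h1, Subgroup.lowerCentralSeries_succ, Subgroup.commutator_comm]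
  · rintro ⟨n, Qs, h0, hlast, -, hQs⟩
    set W : ℕ → Subgroup Ω := fun i => if h : i < n + 1 then Qs ⟨i, h⟩ else Q with hW
    have hW0 : W 0 = ⊥ := by simp only [hW, Nat.succ_pos, dite_true]; exact h0
    refine Lib.Fusion.isNormal_of_series hS hF W n hW0 ?_ ?_ ?_
    · simp only [hW, Nat.lt_succ_self, dite_true]
      exact hlast
    · intro i hi
      rcases i with _ | i
      · rw [hW0]
        exact Lib.Fusion.stronglyClosed_of_isNormal Lib.Fusion.isNormal_bot
      · simp only [hW, Nat.lt_succ_of_le hi, dite_true]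
        exact (hQs ⟨i, hi⟩).1
    · intro i hi a ha x hx
      simp only [hW, Nat.succ_lt_succ hi, dite_true] at hx
      simp only [hW, Nat.lt_succ_of_lt hi, dite_true]
      refine (hQs ⟨i, hi⟩).2 ?_
      rw [Subgroup.commutator_comm]
      have h1 := Subgroup.commutator_mem_commutator (Subgroup.inv_mem _ hx) ha
      simpa [commutatorElement_def, mul_assoc] using h1

end Cfsg.Agent.S5088
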