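import Cfsg.Statements.S5089
import Mathlib
import Cfsg.Agent.Lib.Fusion.NormalCriteria

set_option autoImplicit false
open Cfsg

namespace Cfsg.Agent.S5089

/-- A saturated fusion system over a finite p-group has a nontrivial subgroup that is normal in the system (O_p(F) ≠ 1) if and only if some nontrivial abelian subgroup is strongly closed in the system. -/
theorem result {Ω : Type*} [Group Ω] {S : Subgroup Ω} [Finite S] (p : ℕ) [Fact p.Prime] (hS : IsPGroup p S) (F : Cfsg.FusionSystem S) (hF : F.IsSaturated p) : F.core ≠ ⊥ ↔ ∃ Q : Subgroup Ω, Q ≠ ⊥ ∧ IsMulCommutative Q ∧ F.StronglyClosed Q := by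
  constructor
  · intro h
    have hn := Lib.Fusion.isNormal_core F
    have := Lib.Fusion.finite_of_le hn.1
    have hnt : Nontrivial F.core := (Subgroup.nontrivial_iff_ne_bot _).2 h
    have hZ : Nontrivial (Subgroup.center F.core) :=
      (Lib.Fusion.isPGroup_of_le hS hn.1).center_nontrivial
    set Z := (Subgroup.center F.core).map F.core.subtype with hZdef
    have hsub : Z.subgroupOf F.core = Subgroup.center F.core := by
      rw [hZdef, Subgroup.subgroupOf,
        Subgroup.comap_map_eq_self_of_injective F.core.subtype_injective]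
    refine ⟨Z, ?_, ?_, Lib.Fusion.stronglyClosed_of_isNormal
      (Lib.Fusion.isNormal_of_characteristic hn (Subgroup.map_subtype_le _) ?_)⟩
    · rw [hZdef, Ne, Subgroup.map_eq_bot_iff_of_injective _ F.core.subtype_injective]
      exact (Subgroup.nontrivial_iff_ne_bot _).1 hZ
    · refine ⟨⟨?_⟩⟩
      rintro ⟨_, a, ha, rfl⟩ ⟨_, b, hb, rfl⟩
      exact Subtype.ext (congrArg F.core.subtype ((Subgroup.mem_center_iff.1 hb) a))
    · rw [hsub]
      infer_instance
  · rintro ⟨Q, hQ, hab, hQc⟩
    have hn : F.IsNormal Q := by
      refine Lib.Fusion.isNormal_of_series hS hF (fun i => if i = 0 then ⊥ else Q) 1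
        (by simp) (by simp) ?_ ?_
      · intro i hi
        by_cases h0 : i = 0
        · simp only [h0, if_true]
          exact Lib.Fusion.stronglyClosed_of_isNormal Lib.Fusion.isNormal_bot
        · simp only [h0, if_false]
          exact hQc
      · intro i hi a ha x hx
        obtain rfl : i = 0 := by omega
        simp only [Nat.zero_add, one_ne_zero, if_false] at hx
        have h1 := congrArg Subtype.val (hab.is_comm.comm ⟨a, ha⟩ ⟨x, hx⟩)
        simp only [Subgroup.coe_mul] at h1
        rw [h1]
        simp
    exact fun h => hQ (le_bot_iff.1 (h ▸ le_sSup hn))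

end Cfsg.Agent.S5089
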