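import Cfsg.Statements.S5094
import Cfsg.Agent.Lib.ZStar.RankOne
import Cfsg.Agent.Lib.Fusion.Normal
import Cfsg.Agent.Lib.Transfer.Basic

set_option autoImplicit false
open Cfsg

namespace Cfsg.Agent.S5094

universe u

/-- Every power of `x` is weakly closed in `P` with respect to `G`. -/
def PowIso {G : Type*} [Group G] (P : Subgroup G) (x : G) : Prop :=
  x ∈ P ∧ ∀ (k : ℕ) (g : G), g * x ^ k * g⁻¹ ∈ P → g * x ^ k * g⁻¹ = x ^ k

theorem powIso_map {G H : Type u} [Group G] [Group H] [Finite G] {P : Sylow 2 G} {x : G}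
    (h : PowIso (P : Subgroup G) x) {f : G →* H} (hf : Function.Surjective f)
    (hker : Odd (Nat.card f.ker) ∨ f.ker ≤ (P : Subgroup G)) :
    PowIso ((P.mapSurjective hf : Sylow 2 H) : Subgroup H) (f x) := by
  refine ⟨by rw [Sylow.coe_mapSurjective]; exact ⟨x, h.1, rfl⟩, fun k g' hg' => ?_⟩
  obtain ⟨g, rfl⟩ := hf g'
  rw [Sylow.coe_mapSurjective, ← map_pow, ← map_inv, ← map_mul, ← map_mul,
    ← Subgroup.mem_comap, Subgroup.comap_map_eq] at hg'
  rw [← map_pow, ← map_inv, ← map_mul, ← map_mul]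
  set y := g * x ^ k * g⁻¹ with hy
  haveI : Fact (Nat.Prime 2) := ⟨Nat.prime_two⟩
  rcases hker with hodd | hle
  · set M := (P : Subgroup G) ⊔ f.ker
    have hyM : y ∈ M := hg'
    have hp : IsPGroup 2 (Subgroup.zpowers (⟨y, hyM⟩ : M)) := by
      obtain ⟨j, hj⟩ := P.isPGroup' ⟨x, h.1⟩
      have hj' : x ^ 2 ^ j = 1 := by simpa using congrArg Subtype.val hj
      rintro ⟨z, hz⟩
      obtain ⟨i, rfl⟩ := Subgroup.mem_zpowers_iff.mp hz
      refine ⟨j, Subtype.ext ?_⟩
      show ((⟨y, hyM⟩ : M) ^ i) ^ (2 ^ j) = 1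
      rw [← zpow_natCast, ← zpow_mul, mul_comm, zpow_mul, zpow_natCast]
      have : (⟨y, hyM⟩ : M) ^ 2 ^ j = 1 := Subtype.ext (by
        show y ^ 2 ^ j = 1
        rw [hy, conj_pow, ← pow_mul, mul_comm, pow_mul, hj', one_pow, mul_one, mul_inv_cancel])
      rw [this, one_zpow]
    obtain ⟨T, hT⟩ := hp.exists_le_sylow
    obtain ⟨m, hm⟩ := MulAction.exists_smul_eq M T (P.subtype (le_sup_left : (P : Subgroup G) ≤ M))
    have hmy : (m : G) * y * (m : G)⁻¹ ∈ (P : Subgroup G) := by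
      have h2 : m * ⟨y, hyM⟩ * m⁻¹ ∈ ((m • T : Sylow 2 M) : Subgroup M) :=
        ⟨_, hT (Subgroup.mem_zpowers _), rfl⟩
      rw [hm] at h2
      exact h2
    obtain ⟨a, ha, b, hb, hab⟩ : ∃ a ∈ (P : Subgroup G), ∃ b ∈ f.ker, a * b = (m : G) :=
      Subgroup.mem_sup_of_normal_right.mp m.2
    have hby : b * y * b⁻¹ ∈ (P : Subgroup G) := by
      have h2 := mul_mem (mul_mem (inv_mem ha) hmy) ha
      rw [← hab] at h2
      convert h2 using 1
      group
    have e := h.2 k (b * g) (by convert hby using 1; rw [hy]; group)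
    have e2 := congrArg f e
    simp only [map_mul, map_inv, f.mem_ker.mp hb, one_mul, inv_one, mul_one] at e2
    rw [hy, map_mul, map_mul, map_inv]
    exact e2
  · rw [sup_eq_left.mpr hle] at hg'
    rw [hy, h.2 k g hg']

theorem central_of_powIso (n : ℕ) : ∀ (G : Type u) [Group G] [Finite G], Nat.card G = n →
    ∀ (P : Sylow 2 G) (x : G), PowIso (P : Subgroup G) x → ∀ g : G,
      g * x * g⁻¹ * x⁻¹ ∈ Cfsg.oddCore G := by
  induction n using Nat.strong_induction_on with
  | _ n IH =>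
  intro G _ _ hn P x hx g
  haveI : Fact (Nat.Prime 2) := ⟨Nat.prime_two⟩
  -- reduce to a trivial odd core
  suffices key : ∀ (H : Type u) [Group H] [Finite H], Nat.card H ≤ n → Cfsg.oddCore H = ⊥ →
      ∀ (Q : Sylow 2 H) (y : H), PowIso (Q : Subgroup H) y → ∀ h : H, h * y * h⁻¹ * y⁻¹ = 1 by
    haveI : (Cfsg.oddCore G).Normal := Cfsg.Lib.Transfer.pPrimeCore_normal 2
    set f := QuotientGroup.mk' (Cfsg.oddCore G) with hf
    have hodd : Odd (Nat.card f.ker) := by
      rw [hf, QuotientGroup.ker_mk', Cfsg.Lib.ZStar.odd_card_iff_coprime]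
      exact Cfsg.Lib.Solv.coprime_pPrimeCore 2
    have h1 := key (G ⧸ Cfsg.oddCore G) (hn ▸ Nat.card_le_card_of_surjective f
      (QuotientGroup.mk'_surjective _)) (Cfsg.Lib.Solv.pPrimeCore_quotient_eq_bot 2)
      (P.mapSurjective (QuotientGroup.mk'_surjective _)) (f x)
      (powIso_map hx (QuotientGroup.mk'_surjective _) (Or.inl hodd)) (f g)
    rw [← map_inv, ← map_inv, ← map_mul, ← map_mul, ← map_mul] at h1
    exact (QuotientGroup.eq_one_iff _).mp h1
  intro H _ _ hH hO Q y hy h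
  by_cases hy1 : y = 1
  · simp [hy1]
  obtain ⟨j, hj⟩ := IsPGroup.iff_orderOf.mp Q.isPGroup' ⟨y, hy.1⟩
  rw [Subgroup.orderOf_mk] at hj
  obtain ⟨i, rfl⟩ : ∃ i, j = i + 1 := by
    rcases j with _ | i
    · exact absurd (orderOf_eq_one_iff.mp (by simpa using hj)) hy1
    · exact ⟨i, rfl⟩
  set z := y ^ 2 ^ i with hz
  have hzo : orderOf z = 2 := by
    rw [hz, orderOf_pow_of_dvd (by positivity) (by rw [hj]; exact pow_dvd_pow 2 i.le_succ), hj,
      pow_succ]
    exact Nat.mul_div_cancel_left 2 (by positivity)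
  have hzc : ∀ a : H, Commute z a := fun a =>
    Cfsg.Lib.ZStar.commute_iff_comm_mem_bot.mp (Subgroup.mem_bot.mp (hO ▸
      Cfsg.Lib.ZStar.zstar_sylow Q z hzo (Subgroup.pow_mem _ hy.1 _) (hy.2 (2 ^ i)) a))
  set U := Subgroup.zpowers z with hU
  haveI : U.Normal := ⟨fun u hu a => by
    obtain ⟨e, rfl⟩ := Subgroup.mem_zpowers_iff.mp hu
    rw [((hzc a).symm.zpow_right e).eq, mul_inv_cancel_right]
    exact hu⟩
  have hUcard : Nat.card U = 2 := by rw [hU, Nat.card_zpowers, hzo]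
  set f := QuotientGroup.mk' U with hf
  have hlt : Nat.card (H ⧸ U) < n := by
    have h1 := Subgroup.card_eq_card_quotient_mul_card_subgroup U
    have h2 : 0 < Nat.card (H ⧸ U) := Nat.card_pos
    rw [hUcard] at h1
    omega
  have hUQ : U ≤ (Q : Subgroup H) := Subgroup.zpowers_le.mpr (Subgroup.pow_mem _ hy.1 _)
  have h1 := IH _ hlt (H ⧸ U) rfl (Q.mapSurjective (QuotientGroup.mk'_surjective _)) (f y)
    (powIso_map hy (QuotientGroup.mk'_surjective _) (Or.inr (by rw [QuotientGroup.ker_mk']; exact hUQ)))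
    (f h)
  haveI : (Cfsg.oddCore (H ⧸ U)).Normal := Cfsg.Lib.Transfer.pPrimeCore_normal 2
  set M := (Cfsg.oddCore (H ⧸ U)).comap f with hM
  have hUM : U ≤ M := fun u hu => by
    rw [hM, Subgroup.mem_comap, hf, QuotientGroup.mk'_apply, (QuotientGroup.eq_one_iff u).mpr hu]
    exact one_mem _
  have hrel : Odd (U.relIndex M) := by
    have e : U = (⊥ : Subgroup (H ⧸ U)).comap f := by
      rw [MonoidHom.comap_bot, hf, QuotientGroup.ker_mk']
    rw [e, hM, Subgroup.relIndex_comap, Subgroup.map_comap_eq_self_of_surjective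
      (QuotientGroup.mk'_surjective _), Subgroup.relIndex_bot_left,
      Cfsg.Lib.ZStar.odd_card_iff_coprime]
    exact Cfsg.Lib.Solv.coprime_pPrimeCore 2
  have hMcard : Nat.card M = 2 * U.relIndex M := by
    rw [← hUcard, ← Nat.card_congr (Subgroup.subgroupOfEquivOfLe hUM).toEquiv]
    exact (Subgroup.card_mul_index (U.subgroupOf M)).symm
  have hsq : ∀ m : M, m ^ 2 = 1 := fun m => Subtype.ext <| by
    refine Cfsg.Lib.ZStar.odd_elements_trivial hO U hUcard M hUM hrel (M.pow_mem m.2 2) ?_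
    refine hrel.of_dvd_nat ?_
    apply orderOf_dvd_of_pow_eq_one
    rw [SubmonoidClass.coe_pow, ← pow_mul, ← hMcard]
    exact congrArg Subtype.val (pow_card_eq_one' (x := m))
  have hM2 : IsPGroup 2 M := fun m => ⟨1, by rw [pow_one]; exact hsq m⟩
  obtain ⟨r, hr⟩ := hM2.exists_card_eq
  have hr1 : U.relIndex M = 1 := Nat.eq_one_of_dvd_coprimes
    (Nat.Coprime.pow_right r (Nat.coprime_two_right.mpr hrel)) (dvd_refl _)
    (by rw [← hr, hMcard]; exact Dvd.intro_left 2 rfl)
  have hMU : M ≤ U := Subgroup.relIndex_eq_one.mp hr1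
  have hmem : h * y * h⁻¹ * y⁻¹ ∈ U := hMU (by
    rw [hM, Subgroup.mem_comap, map_mul, map_mul, map_mul, map_inv, map_inv]; exact h1)
  have hQ : h * y * h⁻¹ ∈ (Q : Subgroup H) := by
    simpa [mul_assoc] using mul_mem (hUQ hmem) hy.1
  have := hy.2 1 h (by simpa using hQ)
  rw [pow_one] at this
  rw [this, mul_inv_cancel]

/-- Glauberman's Z*-Theorem in fusion language: for a finite group G with Sylow 2-subgroup S, the centre of the fusion system of G on S is the set of elements of S whose image in G/O(G) is central, O(G) being the largest normal subgroup of odd order. -/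
theorem result {G : Type*} [Group G] [Finite G] (S : Sylow 2 G) : (Cfsg.groupFusionSystem (S : Subgroup G)).center = (S : Subgroup G) ⊓ (Subgroup.center (G ⧸ Cfsg.oddCore G)).comap (QuotientGroup.mk' (Cfsg.oddCore G)) := by
  classical
  haveI : Fact (Nat.Prime 2) := ⟨Nat.prime_two⟩
  set F := Cfsg.groupFusionSystem (S : Subgroup G) with hF
  set O := Cfsg.oddCore G with hOdef
  haveI : O.Normal := Cfsg.Lib.Transfer.pPrimeCore_normal 2
  set Z := (S : Subgroup G) ⊓ (Subgroup.center (G ⧸ O)).comap (QuotientGroup.mk' O) with hZ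
  have hoddO : Nat.Coprime (Nat.card O) 2 := Cfsg.Lib.Solv.coprime_pPrimeCore 2
  apply le_antisymm
  · intro x hx
    have hc := Cfsg.Lib.Fusion.isCentral_center F
    have hxS : x ∈ (S : Subgroup G) := hc.1 hx
    have hiso : PowIso (S : Subgroup G) x := ⟨hxS, fun k g hg => by
      have hxk : x ^ k ∈ F.center := pow_mem hx k
      set P := Subgroup.zpowers (x ^ k)
      have hPS : P ≤ (S : Subgroup G) := Subgroup.zpowers_le.mpr (hc.1 hxk)
      have hφ : Cfsg.conjHom P g ∈ F.Hom P := by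
        refine ⟨hPS, fun a => ?_, g, fun a => rfl⟩
        obtain ⟨e, he⟩ := Subgroup.mem_zpowers_iff.mp a.2
        show g * (a : G) * g⁻¹ ∈ (S : Subgroup G)
        rw [← he, ← conj_zpow]
        exact zpow_mem hg e
      obtain ⟨ψ, hψ, h1, h2⟩ := hc.2 P _ hφ
      have e1 := h1 ⟨x ^ k, Subgroup.mem_zpowers _⟩
      have e2 := h2 ⟨x ^ k, hxk⟩
      exact e1.symm.trans e2⟩
    refine Subgroup.mem_inf.mpr ⟨hxS, ?_⟩
    rw [Subgroup.mem_comap, Subgroup.mem_center_iff]
    intro q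
    obtain ⟨g, rfl⟩ := QuotientGroup.mk_surjective q
    have := central_of_powIso _ G rfl S x hiso g
    rw [QuotientGroup.mk'_apply, ← mul_inv_eq_one, mul_inv_rev, ← mul_assoc]
    exact (QuotientGroup.eq_one_iff _).mpr this
  · refine le_sSup ?_
    refine ⟨inf_le_left, ?_⟩
    rintro P φ ⟨hPS, hφS, g, hg⟩
    set Q := P ⊔ Z with hQ
    have hQS : Q ≤ (S : Subgroup G) := sup_le hPS inf_le_left
    set π := QuotientGroup.mk' O
    have hSinj : ∀ a ∈ (S : Subgroup G), ∀ b ∈ (S : Subgroup G), π a = π b → a = b := by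
      intro a ha b hb hab
      have h1 : a⁻¹ * b ∈ (S : Subgroup G) ⊓ O :=
        Subgroup.mem_inf.mpr ⟨mul_mem (inv_mem ha) hb, QuotientGroup.eq.mp hab⟩
      have h2 : (S : Subgroup G) ⊓ O = ⊥ := by
        refine Subgroup.inf_eq_bot_of_coprime ?_
        obtain ⟨r, hr⟩ := S.isPGroup'.exists_card_eq
        rw [hr]
        exact Nat.Coprime.pow_left r hoddO.symm
      rw [h2, Subgroup.mem_bot] at h1
      exact inv_mul_eq_one.mp h1
    -- the conjugate of `Q` lies in `S O`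
    set M := (S : Subgroup G) ⊔ O
    set Q' := Q.map (MulAut.conj g).toMonoidHom
    have hQ'M : Q' ≤ M := by
      rw [Subgroup.map_le_iff_le_comap]
      refine sup_le (fun a ha => ?_) (fun a ha => ?_)
      · have := hφS ⟨a, ha⟩
        rw [hg] at this
        exact Subgroup.mem_sup_left this
      · have h1 : g * a * g⁻¹ = (g * a * g⁻¹ * a⁻¹) * a := by group
        show g * a * g⁻¹ ∈ M
        rw [h1]
        refine mul_mem (Subgroup.mem_sup_right ?_) (Subgroup.mem_sup_left ha.1)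
        refine (QuotientGroup.eq_one_iff _).mp ?_
        show π (g * a * g⁻¹ * a⁻¹) = 1
        have hca := Subgroup.mem_center_iff.mp ha.2 (π g)
        rw [map_mul, map_mul, map_mul, map_inv, map_inv, hca, mul_inv_cancel_right, mul_inv_cancel]
    have hQ'2 : IsPGroup 2 (Q'.subgroupOf M) :=
      ((S.isPGroup'.to_le hQS).map _).comap_of_injective _ M.subtype_injective
    obtain ⟨T, hT⟩ := hQ'2.exists_le_sylow
    obtain ⟨m, hm⟩ := MulAction.exists_smul_eq M T (S.subtype (le_sup_left : (S : Subgroup G) ≤ M))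
    obtain ⟨a, ha, b, hb, hab⟩ : ∃ a ∈ (S : Subgroup G), ∃ b ∈ O, a * b = (m : G) :=
      Subgroup.mem_sup_of_normal_right.mp m.2
    have hbQ : ∀ y ∈ Q, (b * g) * y * (b * g)⁻¹ ∈ (S : Subgroup G) := by
      intro y hy
      have hyQ : g * y * g⁻¹ ∈ Q' := ⟨y, hy, rfl⟩
      have h2 : m * ⟨g * y * g⁻¹, hQ'M hyQ⟩ * m⁻¹ ∈ ((m • T : Sylow 2 M) : Subgroup M) :=
        ⟨_, hT (show (⟨g * y * g⁻¹, hQ'M hyQ⟩ : M) ∈ Q'.subgroupOf M from hyQ), rfl⟩
      rw [hm] at h2
      have h3 : (m : G) * (g * y * g⁻¹) * (m : G)⁻¹ ∈ (S : Subgroup G) := h2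
      have h4 := mul_mem (mul_mem (inv_mem ha) h3) ha
      rw [← hab] at h4
      convert h4 using 1
      group
    have hπb : π b = 1 := (QuotientGroup.eq_one_iff _).mpr hb
    refine ⟨Cfsg.conjHom Q (b * g), ⟨hQS, fun y => hbQ y y.2, b * g, fun y => rfl⟩,
      fun y => ?_, fun y => ?_⟩
    · rw [hg]
      show (b * g) * (y : G) * (b * g)⁻¹ = _
      refine hSinj _ (hbQ _ (Subgroup.mem_sup_left y.2)) _ (by rw [← hg]; exact hφS y) ?_
      simp only [map_mul, map_inv, hπb, one_mul]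
    · show (b * g) * (y : G) * (b * g)⁻¹ = _
      refine hSinj _ (hbQ _ (Subgroup.mem_sup_right y.2)) _ y.2.1 ?_
      simp only [map_mul, map_inv, hπb, one_mul]
      rw [Subgroup.mem_center_iff.mp y.2.2 (π g), mul_inv_cancel_right]

end Cfsg.Agent.S5094
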