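import Cfsg.Statements.S5102
import Mathlib
import Cfsg.Agent.Lib.Fusion.GroupSystem
import Cfsg.Agent.Lib.Fusion.Normal
import Cfsg.Agent.Lib.Solv.Cores

set_option autoImplicit false
open Cfsg

namespace Cfsg.Agent.S5102

/-- A normal p-subgroup of a finite group G is normal in the fusion system of G on a Sylow p-subgroup. -/
theorem result {G : Type*} [Group G] [Finite G] (p : ℕ) [Fact p.Prime] (S : Sylow p G) (R : Subgroup G) [R.Normal] (hR : IsPGroup p R) : (Cfsg.groupFusionSystem (S : Subgroup G)).IsNormal R := by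
  have hRS : R ≤ (S : Subgroup G) :=
    (Lib.Solv.le_pCore inferInstance hR).trans (Lib.Solv.pCore_le_sylow p S)
  refine Lib.Fusion.isNormal_iff.2 ⟨hRS, fun P f hf => ?_⟩
  obtain ⟨hP, c, hc⟩ := Lib.Fusion.mor_group_iff.1 hf
  have hcR : R.map (MulAut.conj c).toMonoidHom = R := by
    refine le_antisymm ?_ fun x hx => ?_
    · rintro _ ⟨x, hx, rfl⟩
      exact Subgroup.Normal.conj_mem inferInstance x hx c
    · exact ⟨c⁻¹ * x * c⁻¹⁻¹, Subgroup.Normal.conj_mem inferInstance x hx c⁻¹,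
        by simp [mul_assoc]⟩
  refine ⟨_, Lib.Fusion.mor_group_conj (sup_le hP hRS) fun x hx => ?_,
    fun x hx => ((hc x hx).1).symm, (Lib.Fusion.img_conj R c).trans hcR⟩
  have h1 : (P ⊔ R).map (MulAut.conj c).toMonoidHom ≤ (S : Subgroup G) := by
    rw [Subgroup.map_sup, hcR]
    refine sup_le ?_ hRS
    rintro _ ⟨y, hy, rfl⟩
    exact (hc y hy).2
  exact h1 ⟨x, hx, rfl⟩

end Cfsg.Agent.S5102
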