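import Cfsg.Statements.S5104
import Mathlib
import Cfsg.Agent.Lib.Fusion.Saturation

set_option autoImplicit false
open Cfsg

namespace Cfsg.Agent.S5104

/-- In a saturated fusion system over a finite p-group S, a fully centralized subgroup U with C_S(U) ≤ U is centric. -/
theorem result {Ω : Type*} [Group Ω] {S : Subgroup Ω} [Finite S] (p : ℕ) [Fact p.Prime] (hS : IsPGroup p S) (F : Cfsg.FusionSystem S) (hF : F.IsSaturated p) (U : Subgroup Ω) (hU : F.IsFullyCentralized U) (hC : Cfsg.FusionSystem.centralizerIn S U ≤ U) : F.IsCentric U := by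
  refine ⟨hU.1, fun Q hQ c hc => ?_⟩
  obtain ⟨f, hf, hi⟩ := Lib.Fusion.isConj_iff.1 (Lib.Fusion.isConj_symm hQ)
  obtain ⟨k, hk, hke⟩ := (Lib.Fusion.isReceptive_iff.1
    (Lib.Fusion.fullyCentralized_axiom hS hF hU)).2 Q f hf hi
  have hcN := Lib.Fusion.centralizerIn_le_extN (f := f) hc
  have h1 := hk.mem_centralizerIn hf.le_extN hcN hc
  rw [Lib.Fusion.img_congr hke, hi] at h1
  have h2 := hC h1
  rw [← hi] at h2
  obtain ⟨x, hx, hxe⟩ := hf.mem_img.1 h2
  rw [← hke x hx] at hxe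
  exact hk.eq_of_eq (hf.le_extN hx) hcN hxe ▸ hx

end Cfsg.Agent.S5104
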