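import Cfsg.Statements.S5105
import Mathlib
import Cfsg.Agent.Lib.Transfer.Basic
-- import your own Cfsg.Agent.* helpers here

set_option autoImplicit false
open Cfsg

namespace Cfsg.Agent.S5105

open Cfsg.FusionSystem

/-- Model Theorem, rigidity: if G is a model of a constrained fusion system over a finite p-group S (through ι : S → G), then every automorphism of G fixing ι(S) elementwise is conjugation by ι(z) for some z in the centre of S. -/
theorem result {Ω : Type*} [Group Ω] {S : Subgroup Ω} [Finite S] (p : ℕ) [Fact p.Prime] (hS : IsPGroup p S) (F : Cfsg.FusionSystem S) (hF : F.IsConstrained p) {G : Type*} [Group G] (ι : S →* G) (hG : F.IsModel p G ι) (ψ : G ≃* G) (hψ : ∀ x : S, ψ (ι x) = ι x) : ∃ z : S, z ∈ Subgroup.center S ∧ ∀ g : G, ψ g = ι z * g * (ι z)⁻¹ := by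
  obtain ⟨hfin, ⟨hinj, -⟩, ⟨T, hT⟩, hC⟩ := hG
  set Q := Cfsg.pCore p G with hQdef
  have hQn : Q.Normal := Cfsg.Lib.Transfer.pCore_normal p
  have hQT : Q ≤ (T : Subgroup G) := Cfsg.Lib.Transfer.pCore_le_sylow T
  have hTfix : ∀ t ∈ (T : Subgroup G), ψ t = t := by
    intro t ht
    rw [hT] at ht
    obtain ⟨x, rfl⟩ := ht
    exact hψ x
  set A := Subgroup.centralizer (Q : Set G) with hA
  haveI hAn : A.Normal := Subgroup.normal_centralizer
  have hAQ : A ≤ Q := hC
  let c : G → G := fun g => g⁻¹ * ψ g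
  have hcA : ∀ g, c g ∈ A := fun g => by
    refine Subgroup.mem_centralizer_iff.2 fun q hq => ?_
    have h1 : g * q * g⁻¹ ∈ Q := hQn.conj_mem q hq g
    have h2 := hTfix _ (hQT h1)
    rw [map_mul, map_mul, map_inv, hTfix q (hQT hq)] at h2
    show q * (g⁻¹ * ψ g) = g⁻¹ * ψ g * q
    calc q * (g⁻¹ * ψ g) = g⁻¹ * (g * q * g⁻¹) * ψ g := by group
      _ = g⁻¹ * ψ g * q := by rw [← h2]; group
  have hcomm : ∀ a b : A, a * b = b * a := fun a b => Subtype.ext
    (Subgroup.mem_centralizer_iff.1 b.2 _ (hAQ a.2))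
  let _ : CommGroup A := { (inferInstance : Group A) with mul_comm := hcomm }
  have hc_mul : ∀ g h, c (g * h) = h⁻¹ * c g * h * c h := fun g h => by
    simp only [c, map_mul]; group
  have hct : ∀ t ∈ (T : Subgroup G), c t = 1 := fun t ht => by simp [c, hTfix t ht]
  let d : G ⧸ (T : Subgroup G) → A := Quotient.lift (fun g => (⟨c g⁻¹, hcA _⟩ : A)) fun a b hab => by
    have hab := QuotientGroup.leftRel_apply.1 hab
    refine Subtype.ext ?_
    show c a⁻¹ = c b⁻¹
    have h1 : b⁻¹ = (a⁻¹ * b)⁻¹ * a⁻¹ := by group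
    rw [h1, hc_mul _ a⁻¹, hct _ (Subgroup.inv_mem _ hab)]
    group
  have hd : ∀ (h : G) (x : G ⧸ (T : Subgroup G)),
      ((d (h⁻¹ • x) : A) : G) = h⁻¹ * (d x : G) * h * c h := fun h x => by
    induction x using Quotient.inductionOn with
    | h g =>
      show c (h⁻¹ * g)⁻¹ = h⁻¹ * c g⁻¹ * h * c h
      rw [mul_inv_rev, inv_inv, hc_mul]
  have := Fintype.ofFinite (G ⧸ (T : Subgroup G))
  set P : A := ∏ x : G ⧸ (T : Subgroup G), d x with hP
  set m := Fintype.card (G ⧸ (T : Subgroup G)) with hm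
  let conjA : G → A →* A := fun h =>
    { toFun := fun a => ⟨h⁻¹ * (a : G) * h, by simpa using hAn.conj_mem _ a.2 h⁻¹⟩
      map_one' := Subtype.ext (by simp)
      map_mul' := fun a b => Subtype.ext (by simp [mul_assoc]) }
  have key : ∀ h : G, P = conjA h P * (⟨c h, hcA h⟩ : A) ^ m := fun h => by
    conv_lhs => rw [hP, ← Equiv.prod_comp (MulAction.toPerm h⁻¹) d]
    rw [hP, map_prod, hm, ← Finset.card_univ, ← Finset.prod_const, ← Finset.prod_mul_distrib]
    refine Finset.prod_congr rfl fun x _ => Subtype.ext ?_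
    show ((d (h⁻¹ • x) : A) : G) = h⁻¹ * (d x : G) * h * c h
    exact hd h x
  have hAp : IsPGroup p A := (Cfsg.Lib.Transfer.pCore_isPGroup p).to_le hAQ
  obtain ⟨a, ha⟩ := IsPGroup.iff_card.1 hAp
  have hmp : m.Coprime (Nat.card A) := by
    rw [ha, hm, ← Nat.card_eq_fintype_card]
    refine Nat.Coprime.pow_right a (((Fact.out : p.Prime).coprime_iff_not_dvd.2 ?_).symm)
    exact T.not_dvd_index
  obtain ⟨e, he⟩ : ∃ e : ℕ, ∀ x : A, (x ^ m) ^ e = x := by
    refine ⟨(Nat.gcdA m (Nat.card A) % (Nat.card A : ℤ)).toNat, ?_⟩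
    · intro x
      have hb := Nat.gcd_eq_gcd_ab m (Nat.card A)
      rw [hmp.gcd_eq_one] at hb
      have hpos : (0 : ℤ) < Nat.card A := by exact_mod_cast Nat.card_pos
      rw [← pow_mul, ← zpow_natCast, Nat.cast_mul, Int.toNat_of_nonneg (Int.emod_nonneg _ hpos.ne')]
      conv_rhs => rw [← zpow_one x]
      refine zpow_eq_zpow_iff_modEq.2 ?_
      refine Int.ModEq.of_dvd (Int.natCast_dvd_natCast.2 (orderOf_dvd_natCard x)) ?_
      refine (Int.ModEq.mul_left (m : ℤ) (Int.mod_modEq _ _)).trans ?_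
      rw [Int.modEq_iff_dvd]
      exact ⟨Nat.gcdB m (Nat.card A), by push_cast at hb; linarith⟩
  set z := (P ^ e)⁻¹ with hz
  have hψe : ∀ g, ψ g = (z : G) * g * (z : G)⁻¹ := fun g => by
    have h1 := congrArg (fun u : A => ((conjA g P)⁻¹ * u) ^ e) (key g)
    simp only [inv_mul_cancel_left, he, mul_pow, inv_pow, ← map_pow] at h1
    have h2 : g⁻¹ * ψ g = (g⁻¹ * ((P ^ e : A) : G) * g)⁻¹ * ((P ^ e : A) : G) :=
      (congrArg Subtype.val h1).symm
    calc ψ g = g * (g⁻¹ * ψ g) := by group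
      _ = (z : G) * g * (z : G)⁻¹ := by
        rw [h2, hz, Subgroup.coe_inv]
        group
  have hzT : (z : G) ∈ (T : Subgroup G) := hQT (hAQ z.2)
  rw [hT] at hzT
  obtain ⟨s, hs⟩ := hzT
  refine ⟨s, Subgroup.mem_center_iff.2 fun x => hinj ?_, fun g => by rw [hψe, hs]⟩
  have h1 := (hψe (ι x)).symm.trans (hψ x)
  rw [← hs] at h1
  rw [map_mul, map_mul]
  exact (mul_inv_eq_iff_eq_mul.1 h1).symm

end Cfsg.Agent.S5105
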