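import Cfsg.Statements.S5106
import Mathlib
import Cfsg.Agent.Lib.Fusion.NormalCriteria

set_option autoImplicit false
open Cfsg

namespace Cfsg.Agent.S5106

/-- In a saturated fusion system over a finite p-group S, a subgroup R ≤ S is normal in the system if and only if every map of the system whose source is a subgroup of R is the restriction of an element of Aut_F(R). -/
theorem result {Ω : Type*} [Group Ω] {S : Subgroup Ω} [Finite S] (p : ℕ) [Fact p.Prime] (hS : IsPGroup p S) (F : Cfsg.FusionSystem S) (hF : F.IsSaturated p) (R : Subgroup Ω) (hRS : R ≤ S) : F.IsNormal R ↔ ∀ (P : Subgroup Ω) (hPR : P ≤ R) (φ : P →* Ω), φ ∈ F.Hom P → ∃ α ∈ F.autGroup R, ∀ x : P, ((α (Subgroup.inclusion hPR x) : R) : Ω) = φ x := by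
  constructor
  · intro h P hPR φ hφ
    obtain ⟨k, hk, hke, hkR⟩ := (Lib.Fusion.isNormal_iff.1 h).2 P _ (Lib.Fusion.mor_extFun hφ)
    obtain ⟨α, hα, hαe⟩ := (hk.restrict le_sup_right).exists_aut hkR
    refine ⟨α, hα, fun x => ?_⟩
    rw [← Lib.Fusion.extFun_coe φ x, ← hke x x.2, ← hαe x (hPR x.2),
      Lib.Fusion.autFun_apply α (hPR x.2)]
    rfl
  · intro h
    refine Lib.Fusion.isNormal_of_maps_extend hS hF hRS fun P f hf hPR => ?_
    obtain ⟨φ, hφ, he⟩ := hf.exists_hom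
    obtain ⟨α, hα, hαe⟩ := h P hPR φ hφ
    refine ⟨α, hα, fun x hx => ?_⟩
    rw [Lib.Fusion.autFun_apply α (hPR hx), ← he ⟨x, hx⟩, ← hαe ⟨x, hx⟩]
    rfl

end Cfsg.Agent.S5106
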