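import Cfsg.Statements.S5107
import Mathlib
import Cfsg.Agent.Lib.Fusion.ChainCriterion
import Cfsg.Agent.Lib.Fusion.GroupSystem
-- import your own Cfsg.Agent.* helpers here

set_option autoImplicit false
open Cfsg

namespace Cfsg.Agent.S5107

/-- If a Sylow p-subgroup S of a finite group G has nilpotency class at most two and its centre is strongly closed in S with respect to G, then every map of the fusion system of G on S is conjugation by an element of N_G(S), and S is the largest subgroup normal in that fusion system. -/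
theorem result {G : Type*} [Group G] [Finite G] (p : ℕ) [Fact p.Prime] (S : Sylow p G) (hcl : ⁅(S : Subgroup G), (S : Subgroup G)⁆ ≤ (S : Subgroup G) ⊓ Subgroup.centralizer ((S : Subgroup G) : Set G)) (hZ : Cfsg.IsStronglyClosed ((S : Subgroup G) ⊓ Subgroup.centralizer ((S : Subgroup G) : Set G)) (S : Subgroup G)) : (∀ (P : Subgroup G) (φ : P →* G), φ ∈ (Cfsg.groupFusionSystem (S : Subgroup G)).Hom P → ∃ g ∈ Subgroup.normalizer ((S : Subgroup G) : Set G), ∀ x : P, φ x = g * (x : G) * g⁻¹) ∧ (Cfsg.groupFusionSystem (S : Subgroup G)).core = S := by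
  open Cfsg.Lib.Fusion in
  set F := Cfsg.groupFusionSystem (S : Subgroup G)
  set Z := (S : Subgroup G) ⊓ Subgroup.centralizer ((S : Subgroup G) : Set G)
  have hcomm : ∀ a ∈ (S : Subgroup G), ∀ x ∈ (S : Subgroup G), x⁻¹ * (a * x * a⁻¹) ∈ Z := by
    intro a ha x hx
    have h := hcl (Subgroup.commutator_mem_commutator ((S : Subgroup G).inv_mem hx) ha)
    simpa [commutatorElement_def, mul_assoc] using h
  have hWb : F.WeaklyClosed ⊥ := by
    refine ⟨bot_le, fun φ _ => le_antisymm ?_ bot_le⟩
    rintro y ⟨x, rfl⟩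
    rw [Subgroup.mem_bot, show x = 1 from Subtype.ext (Subgroup.mem_bot.1 x.2), map_one]
  have hWZ : F.WeaklyClosed Z := by
    refine ⟨inf_le_left, fun φ hφ => ?_⟩
    obtain ⟨hP, hφS, g, hg⟩ := hφ
    refine Subgroup.eq_of_le_of_card_ge ?_ ?_
    · rintro y ⟨x, rfl⟩
      rw [hg x]
      exact hZ.2 x x.2 g (hg x ▸ hφS x)
    · exact le_of_eq (Nat.card_congr (MonoidHom.ofInjective (fun a b h => Subtype.ext (by
        rw [hg a, hg b] at h; simpa using h))).toEquiv)
  have hS : F.IsNormal (S : Subgroup G) := by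
    refine isNormal_of_weak_series S.2 (saturated_group S)
      (stronglyClosed_iff.2 ⟨le_rfl, fun R f hf x hx _ => hf.mem hx⟩)
      (fun i => if i = 0 then ⊥ else if i = 1 then Z else (S : Subgroup G)) 2 rfl rfl ?_ ?_ ?_ ?_
    · intro i hi; rcases i with _ | _ | i <;> simp [Z]
    · intro i j hij hj
      rcases i with _ | _ | i <;> rcases j with _ | _ | j <;> simp_all [Z]
    · intro i hi
      rcases i with _ | _ | i
      · simpa using hWb
      · simpa using hWZ
      · omega
    · intro i hi a ha x hx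
      rcases i with _ | _ | i
      · simp only [zero_add, if_true, if_false, one_ne_zero] at hx ⊢
        rw [Subgroup.mem_bot, show a * x * a⁻¹ = x by
          rw [Subgroup.mem_centralizer_iff.1 hx.2 a ha, mul_inv_cancel_right], inv_mul_cancel]
      · simp only [zero_add, if_true, if_false, one_ne_zero, Nat.reduceAdd, OfNat.ofNat_ne_zero, OfNat.ofNat_ne_one] at hx ⊢
        exact hcomm a ha x hx
      · omega
  refine ⟨fun P φ hφ => ?_, le_antisymm (sSup_le fun Q hQ => hQ.1) (le_sSup hS)⟩
  obtain ⟨k, hk, hk1, hk2⟩ := (isNormal_iff.1 hS).2 P _ (mor_extFun hφ)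
  obtain ⟨-, g, hg⟩ := mor_group_iff.1 hk
  refine ⟨g, Subgroup.mem_normalizer_fintype fun x hx => (hg x (Subgroup.mem_sup_right hx)).2, fun x => ?_⟩
  rw [← extFun_coe φ x, ← hk1 x x.2, (hg x (Subgroup.mem_sup_left x.2)).1]

end Cfsg.Agent.S5107
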