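import Cfsg.Statements.S5111
import Mathlib
import Cfsg.Agent.Lib.Fusion.Saturation

set_option autoImplicit false
open Cfsg

namespace Cfsg.Agent.S5111

/-- A fusion system over a finite p-group S is saturated if and only if the inner automorphisms of S form a Sylow p-subgroup of Aut_F(S) and every fully normalized subgroup of S is receptive. -/
theorem result {Ω : Type*} [Group Ω] {S : Subgroup Ω} [Finite S] (p : ℕ) [Fact p.Prime] (hS : IsPGroup p S) (F : Cfsg.FusionSystem S) : F.IsSaturated p ↔ (F.IsFullyAutomized p S ∧ ∀ P : Subgroup Ω, F.IsFullyNormalized P → F.IsReceptive P) := by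
  constructor
  · intro hF
    exact ⟨(Lib.Fusion.fullyNormalized_axiom hS hF Lib.Fusion.fullyNormalized_top).2,
      fun P hP => Lib.Fusion.receptive_of_fullyNormalized hS hF hP⟩
  · rintro ⟨h1, h2⟩
    exact Lib.Fusion.saturated_of_axioms
      (fun P hP => Lib.Fusion.fullyAutomized_of_top_and_receptive hS h1 h2 hP) h2

end Cfsg.Agent.S5111
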