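import Cfsg.Statements.S5119
import Cfsg.Agent.Lib.Fusion.Alperin

set_option autoImplicit false
open Cfsg

namespace Cfsg.Agent.S5119

open Cfsg.FusionSystem Cfsg.Lib.Fusion

variable {Ω : Type*} [Group Ω] {S T : Subgroup Ω} {F : FusionSystem S} {E : FusionSystem T}
  {P Q R : Subgroup Ω} {f g u : Ω → Ω}

/-- Strong invariance, for maps given as functions. -/
def Strong (F : FusionSystem S) (E : FusionSystem T) : Prop :=
  ∀ (P Q : Subgroup Ω) (φ ψ : Ω → Ω), P ≤ Q → Q ≤ T → Mor E P φ → (∀ x ∈ P, φ x ∈ Q) →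
    Mor F Q ψ → ∃ χ, Mor E (img P ψ) χ ∧ ∀ x ∈ P, χ (ψ x) = ψ (φ x)

/-- A map with source `P` that is an automorphism of `T` composed with a map of `E`. -/
def Good (F : FusionSystem S) (E : FusionSystem T) (P : Subgroup Ω) (f : Ω → Ω) : Prop :=
  ∃ a ∈ F.autGroup T, ∃ u, Mor E P u ∧ ∀ x ∈ P, f x = autFun a (u x)

theorem Good.congr (h : Good F E P f) (e : ∀ x ∈ P, f x = g x) : Good F E P g := by
  obtain ⟨a, ha, u, hu, he⟩ := h
  exact ⟨a, ha, u, hu, fun x hx => (e x hx).symm.trans (he x hx)⟩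

theorem Good.restrict (h : Good F E P f) (hR : R ≤ P) : Good F E R f := by
  obtain ⟨a, ha, u, hu, he⟩ := h
  exact ⟨a, ha, u, hu.restrict hR, fun x hx => he x (hR hx)⟩

theorem transport (hTS : T ≤ S) (hs : Strong F E) {a : MulAut T} (ha : a ∈ F.autGroup T)
    (hu : Mor E P u) :
    ∃ χ, Mor E (img P (autFun a)) χ ∧ ∀ x ∈ P, χ (autFun a x) = autFun a (u x) :=
  hs P T u (autFun a) hu.le le_rfl hu (fun _ hx => hu.mem hx) ((mem_autGroup_iff hTS).1 ha)

theorem autFun_inv_cancel {a : MulAut T} {x : Ω} (hx : x ∈ T) :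
    autFun a⁻¹ (autFun a x) = x := by
  rw [← autFun_mul a⁻¹ a hx, inv_mul_cancel, autFun_apply (1 : MulAut T) hx, MulAut.one_apply]

theorem autFun_cancel_inv {a : MulAut T} {x : Ω} (hx : x ∈ T) :
    autFun a (autFun a⁻¹ x) = x := by
  rw [← autFun_mul a a⁻¹ hx, mul_inv_cancel, autFun_apply (1 : MulAut T) hx, MulAut.one_apply]

theorem good_comp (hTS : T ≤ S) (hs : Strong F E) (hf : Good F E P f) (hg : Good F E Q g)
    (h : ∀ x ∈ P, f x ∈ Q) : Good F E P (fun x => g (f x)) := by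
  obtain ⟨a, ha, u, hu, he⟩ := hf
  obtain ⟨b, hb, v, hv, hge⟩ := hg
  obtain ⟨χ, hχ, hχe⟩ := transport hTS hs ((F.autGroup T).inv_mem ha) hv
  have hux : ∀ x ∈ P, autFun a⁻¹ (f x) = u x := fun x hx => by
    rw [he x hx, autFun_inv_cancel (hu.mem hx)]
  have hmaps : ∀ x ∈ P, u x ∈ img Q (autFun a⁻¹) := fun x hx =>
    hux x hx ▸ mem_img_of_mem (h x hx)
  refine ⟨b * a, (F.autGroup T).mul_mem hb ha, fun x => χ (u x), hχ.comp hu hmaps,
    fun x hx => ?_⟩
  show g (f x) = autFun (b * a) (χ (u x))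
  have h1 : χ (u x) = autFun a⁻¹ (v (f x)) := by
    rw [← hux x hx, hχe _ (h x hx)]
  have hvT : v (f x) ∈ T := hv.mem (h x hx)
  rw [h1, autFun_mul b a (autFun_mem a⁻¹ hvT), autFun_cancel_inv hvT, hge _ (h x hx)]

theorem good_inv (hTS : T ≤ S) (hs : Strong F E) (hf : Good F E P f) :
    ∃ k, Good F E (img P f) k ∧ ∀ x ∈ P, k (f x) = x := by
  obtain ⟨a, ha, u, hu, he⟩ := hf
  obtain ⟨j, hj, hj1, -, -⟩ := hu.exists_inv
  obtain ⟨χ, hχ, hχe⟩ := transport hTS hs ha hj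
  have himg : img (img P u) (autFun a) = img P f := by
    rw [← hu.img_comp]
    exact img_congr fun x hx => (he x hx).symm
  rw [himg] at hχ
  refine ⟨fun y => autFun a⁻¹ (χ y), ⟨a⁻¹, (F.autGroup T).inv_mem ha, χ, hχ, fun _ _ => rfl⟩,
    fun x hx => ?_⟩
  show autFun a⁻¹ (χ (f x)) = x
  rw [he x hx, hχe _ (mem_img_of_mem hx), hj1 x hx, autFun_inv_cancel (hu.le hx)]

/-- Frattini condition from strong invariance. -/
theorem good_all [Finite S] {p : ℕ} [Fact p.Prime] (hS : IsPGroup p S) (hF : F.IsSaturated p)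
    (hsub : E.IsSubsystemOf F) (hT : F.StronglyClosed T) (hs : Strong F E) :
    ∀ (P : Subgroup Ω) (f : Ω → Ω), P ≤ T → Mor F P f → Good F E P f := by
  have hTS : T ≤ S := hT.1
  have hfin : Finite T := finite_of_le hTS
  have hclosed : ∀ {R : Subgroup Ω} {h : Ω → Ω}, R ≤ T → Mor F R h → ∀ x ∈ R, h x ∈ T := by
    intro R h hR hh x hx
    obtain ⟨φ, hφ, hφe⟩ := hh.exists_hom
    rw [← hφe ⟨x, hx⟩]
    exact hT.2 R hR φ hφ ⟨x, hx⟩
  intro P f hPT hf
  induction' hn : Nat.card T - Nat.card P using Nat.strong_induction_on with n ih generalizing P f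
  rcases eq_or_lt_of_le hPT with rfl | hlt
  · obtain ⟨a, ha, hae⟩ := hf.exists_aut
      (hf.img_eq_of_card_le hTS (hclosed le_rfl hf) le_rfl)
    exact ⟨a, ha, fun x => x, mor_id le_rfl, fun x hx => (hae x hx).symm⟩
  have hbig : ∀ (R : Subgroup Ω) (h : Ω → Ω), R ≤ T → Nat.card P < Nat.card R → Mor F R h →
      Good F E R h := fun R h hRT hlt' hh => by
    have := card_le_of_le (S := S) hTS hRT
    exact ih _ (by omega) R h hRT hh rfl
  -- a fully normalized conjugate inside `T`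
  obtain ⟨Q, hQ, hnQ⟩ := exists_fullyNormalized F hf.le
  have hQT : Q ≤ T := by
    obtain ⟨h, hh, rfl⟩ := isConj_iff.1 hQ
    exact img_le (hclosed hPT hh)
  have hfT : img P f ≤ T := img_le (hclosed hPT hf)
  have hgood : ∀ (R : Subgroup Ω), R ≤ T → Nat.card R = Nat.card P → F.IsConj R Q →
      ∃ k, Good F E R k ∧ Mor F R k ∧ img R k = Q := by
    intro R hRT hcR hRQ
    obtain ⟨k, hk, -, hki⟩ := exists_normalizerIn_map_of_fullyNormalized hS hF hnQ hRQ
    have hRlt : R < T := lt_of_le_of_ne hRT fun e => by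
      have := card_lt_of_lt (S := S) hTS hlt
      subst e; omega
    have hN : R < normalizerIn T R := normalizer_growth (isPGroup_of_le hS hTS) le_rfl hRlt
    have hle : normalizerIn T R ≤ normalizerIn S R := inf_le_inf_right _ hTS
    have hkR := hk.restrict hle
    refine ⟨k, ?_, hk.restrict (le_normalizerIn (hRT.trans hTS)), hki⟩
    exact (hbig _ k normalizerIn_le
      (hcR ▸ card_lt_of_lt (S := S) (inf_le_left.trans hTS) hN) hkR).restrict hN.le
  obtain ⟨k₁, hg₁, hk₁, hi₁⟩ := hgood P hPT rfl hQ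
  obtain ⟨k₂, hg₂, hk₂, hi₂⟩ :=
    hgood (img P f) hfT hf.card_img (isConj_trans (isConj_symm hf.isConj) hQ)
  obtain ⟨j, hj, hj1, hj2, -⟩ := hk₁.exists_inv
  rw [hi₁] at hj hj2
  have hfj : Mor F Q (fun y => f (j y)) := hf.comp hj fun y hy => (hj2 y hy).2
  have ha : Mor F Q (fun y => k₂ (f (j y))) :=
    hk₂.comp hfj fun y hy => mem_img_of_mem (hj2 y hy).2
  have hQS : Q ≤ S := hQT.trans hTS
  have hai : img Q (fun y => k₂ (f (j y))) = Q := ha.img_eq_of_card_le hQS (fun y hy => by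
    have h1 := mem_img_of_mem (f := k₂) (mem_img_of_mem (f := f) (hj2 y hy).2)
    rwa [hi₂] at h1) le_rfl
  obtain ⟨α, hα, hαe⟩ := ha.exists_aut hai
  have hcQ : Nat.card Q = Nat.card P := isConj_card hQ
  have hQlt : Q < T := lt_of_le_of_ne hQT fun e => by
    have := card_lt_of_lt (S := S) hTS hlt
    subst e; omega
  -- the automorphism of `Q` is good
  have hmid : Good F E Q (autFun α) := by
    obtain ⟨hc, hauto⟩ := fullyNormalized_axiom hS hF hnQ
    have := finite_mulAut_of_le hQS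
    have hEF : E.autGroup Q ≤ F.autGroup Q := fun a ha' =>
      (mem_autGroup_iff hQS).2 (((mem_autGroup_iff hQT).1 ha').of_subsystem hsub)
    have hconj : ∀ γ ∈ F.autGroup Q, ∀ a ∈ E.autGroup Q, γ * a * γ⁻¹ ∈ E.autGroup Q := by
      intro γ hγ a ha'
      obtain ⟨χ, hχ, hχe⟩ := hs Q Q (autFun a) (autFun γ) le_rfl hQT
        ((mem_autGroup_iff hQT).1 ha') (fun x hx => autFun_mem a hx)
        ((mem_autGroup_iff hQS).1 hγ)
      rw [img_autFun] at hχ
      refine (mem_autGroup_iff hQT).2 (hχ.congr fun y hy => ?_)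
      have h1 := hχe _ (autFun_mem γ⁻¹ hy)
      rw [← autFun_mul γ γ⁻¹ hy, mul_inv_cancel, autFun_apply (1 : MulAut Q) hy,
        MulAut.one_apply] at h1
      rw [h1, autFun_mul (γ * a) γ⁻¹ hy, autFun_mul γ a (autFun_mem γ⁻¹ hy)]
    obtain ⟨-, R, hR⟩ := hauto
    let G := F.autGroup Q
    let N : Subgroup G := (E.autGroup Q).subgroupOf G
    have hNn : N.Normal := ⟨fun a ha' γ => hconj γ γ.2 a ha'⟩
    -- `R ∩ N` is a Sylow subgroup of `N`
    obtain ⟨U, hU⟩ := (R.2.comap_of_injective N.subtype Subtype.val_injective).exists_le_sylow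
    obtain ⟨R₂, hR₂⟩ := U.exists_comap_subtype_eq
    obtain ⟨c, hc2⟩ := MulAction.exists_smul_eq G R₂ R
    have hUeq : (U : Subgroup N) = (R : Subgroup G).comap N.subtype := by
      refine (Subgroup.eq_of_le_of_card_ge hU ?_).symm
      let m : U → ((R : Subgroup G).comap N.subtype) := fun x =>
        ⟨⟨c * ((x : N) : G) * c⁻¹, hNn.conj_mem _ (x : N).2 c⟩, by
          show c * ((x : N) : G) * c⁻¹ ∈ (R : Subgroup G)
          rw [← hc2, Sylow.coe_subgroup_smul]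
          exact ⟨((x : N) : G), by
            have hx := x.2
            change (x : N) ∈ (U : Subgroup N) at hx
            rw [← hR₂] at hx
            exact hx, rfl⟩⟩
      refine Nat.card_le_card_of_injective m fun x y hxy => ?_
      have h1 := congrArg (fun z : (R : Subgroup G).comap N.subtype => ((z : N) : G)) hxy
      exact Subtype.ext (Subtype.ext (mul_left_cancel (mul_right_cancel h1)))
    -- Frattini argument
    let γ : G := ⟨α, hα⟩
    obtain ⟨V, hV⟩ := ((R.2.map (MulAut.conj γ).toMonoidHom).comap_of_injective N.subtype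
      Subtype.val_injective).exists_le_sylow
    obtain ⟨δ, hδ⟩ := MulAction.exists_smul_eq N V U
    set β : MulAut Q := (((δ : G) * γ : G) : MulAut Q)
    have hm : β ∈ G := ((δ : G) * γ).2
    have hN : normalizerIn T Q ≤ extN S Q (autFun β) := fun c₁ hc₁ => by
      have hc₁S : c₁ ∈ normalizerIn S Q := ⟨hTS hc₁.1, hc₁.2⟩
      refine mem_extN_of_conj_mem hc₁S ?_
      set t := conjAut S Q ⟨c₁, hc₁S⟩
      have htS : t ∈ autInducedBy S Q := range_conjAut S Q ▸ ⟨_, rfl⟩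
      have htE : t ∈ E.autGroup Q := (mem_autGroup_iff hQT).2
        ((mor_conj hQT hc₁.1).congr fun x hx => (autFun_conjAut ⟨c₁, hc₁S⟩ hx).symm)
      have htG : t ∈ G := hEF htE
      have htR : (⟨t, htG⟩ : G) ∈ (R : Subgroup G) := by
        rw [hR]; exact htS
      let y : N := ⟨γ * ⟨t, htG⟩ * γ⁻¹, hNn.conj_mem _ htE γ⟩
      have hy : y ∈ (V : Subgroup N) := hV ⟨⟨t, htG⟩, htR, rfl⟩
      have h1 : δ * y * δ⁻¹ ∈ (U : Subgroup N) := by
        rw [← hδ, Sylow.coe_subgroup_smul]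
        exact ⟨y, hy, rfl⟩
      rw [hUeq, Subgroup.mem_comap] at h1
      have h2 : N.subtype (δ * y * δ⁻¹) ∈ (autInducedBy S Q).subgroupOf G := hR ▸ h1
      rw [Subgroup.mem_subgroupOf] at h2
      convert h2 using 1
      simp [β, y, γ, t, mul_assoc]
    have hgrow : Q < normalizerIn T Q := normalizer_growth (isPGroup_of_le hS hTS) le_rfl hQlt
    obtain ⟨hrQ, hrec⟩ := isReceptive_iff.1 (fullyCentralized_axiom hS hF hc)
    obtain ⟨k, hk, hke⟩ := hrec Q _ ((mem_autGroup_iff hQS).1 hm) (img_autFun β)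
    have hgβ : Good F E Q (autFun β) :=
      ((hbig _ k normalizerIn_le
        (hcQ ▸ card_lt_of_lt (S := S) (inf_le_left.trans hTS) hgrow)
        (hk.restrict hN)).restrict hgrow.le).congr hke
    have hδE : (((δ : G) : MulAut Q))⁻¹ ∈ E.autGroup Q := (E.autGroup Q).inv_mem δ.2
    have hgδ : Good F E Q (autFun (((δ : G) : MulAut Q))⁻¹) :=
      ⟨1, (F.autGroup T).one_mem, autFun (((δ : G) : MulAut Q))⁻¹,
        (mem_autGroup_iff hQT).1 hδE, fun x hx => by
          rw [autFun_apply (1 : MulAut T) (hQT (autFun_mem _ hx)), MulAut.one_apply]⟩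
    refine (good_comp hTS hs hgβ hgδ fun x hx => autFun_mem β hx).congr fun x hx => ?_
    rw [← autFun_mul _ _ hx]
    simp [β, γ]
  obtain ⟨j₂, hj₂, hj₂1⟩ := good_inv hTS hs hg₂
  rw [hi₂] at hj₂
  have hk₁Q : ∀ x ∈ P, k₁ x ∈ Q := fun x hx => hi₁ ▸ mem_img_of_mem hx
  have hmid' : Good F E Q (fun y => k₂ (f (j y))) := hmid.congr hαe
  refine (good_comp hTS hs (good_comp hTS hs hg₁ hmid' hk₁Q) hj₂ fun x hx => ?_).congr
    fun x hx => ?_
  · show k₂ (f (j (k₁ x))) ∈ Q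
    rw [hj1 x hx]
    exact hi₂ ▸ mem_img_of_mem (mem_img_of_mem hx)
  · show j₂ (k₂ (f (j (k₁ x)))) = f x
    rw [hj1 x hx]
    exact hj₂1 _ (mem_img_of_mem hx)

/-- Let F be a saturated fusion system over a finite p-group S and E a subsystem of F over a subgroup T that is strongly closed in F. Then E is invariant in F (invariance under Aut_F(T) plus the Frattini condition) if and only if the strong invariance condition holds: for P ≤ Q ≤ T, every map φ of E from P into Q and every map ψ of F with source Q, the transported map ψ φ ψ⁻¹ on ψ(P) is a map of E. -/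
theorem result {Ω : Type*} [Group Ω] {S : Subgroup Ω} [Finite S] (p : ℕ) [Fact p.Prime] (hS : IsPGroup p S) (F : Cfsg.FusionSystem S) (hF : F.IsSaturated p) {T : Subgroup Ω} (E : Cfsg.FusionSystem T) (hE : E.IsSubsystemOf F) (hT : F.StronglyClosed T) : E.IsInvariantIn F ↔ ∀ (P Q : Subgroup Ω) (hPQ : P ≤ Q) (_ : Q ≤ T) (φ : P →* Ω) (_ : φ ∈ E.Hom P) (hφQ : ∀ x : P, φ x ∈ Q) (ψ : Q →* Ω) (_ : ψ ∈ F.Hom Q), ∃ χ ∈ E.Hom ((P.subgroupOf Q).map ψ), ∀ (x : P) (hx : ψ (Subgroup.inclusion hPQ x) ∈ (P.subgroupOf Q).map ψ), χ ⟨ψ (Subgroup.inclusion hPQ x), hx⟩ = ψ ⟨φ x, hφQ x⟩ := by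
  constructor
  · intro hinv P Q hPQ hQT φ hφ hφQ ψ hψ
    obtain ⟨χ, hχ, hχe⟩ := Mor.conj_of_invariant hinv hPQ hQT (mor_extFun hφ)
      (fun x hx => by rw [extFun_apply φ hx]; exact hφQ _) (mor_extFun hψ)
    obtain ⟨χ', hχ', hχ'e⟩ := (hχ.source_congr (map_subgroupOf_eq_img (mor_extFun hψ) hPQ
      (fun x => (extFun_coe ψ x).symm)).symm).exists_hom
    refine ⟨χ', hχ', fun x hx => ?_⟩
    rw [hχ'e]
    have h1 := hχe x x.2
    rw [extFun_apply ψ (hPQ x.2), extFun_apply φ x.2, extFun_apply ψ (hφQ _)] at h1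
    exact h1
  · intro hs'
    have hs : Strong F E := by
      intro P Q φ ψ hPQ hQT hφ hφQ hψ
      obtain ⟨φ', hφ', hφe⟩ := hφ.exists_hom
      obtain ⟨ψ', hψ', hψe⟩ := hψ.exists_hom
      obtain ⟨χ, hχ, hχe⟩ := hs' P Q hPQ hQT φ' hφ'
        (fun x => (hφe x).symm ▸ hφQ x x.2) ψ' hψ'
      have hmap := map_subgroupOf_eq_img hψ hPQ hψe
      refine ⟨extFun χ, (mor_extFun hχ).source_congr hmap, fun x hx => ?_⟩
      have hm : ψ' (Subgroup.inclusion hPQ ⟨x, hx⟩) ∈ (P.subgroupOf Q).map ψ' :=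
        ⟨⟨x, hPQ hx⟩, hx, rfl⟩
      have h1 := hχe ⟨x, hx⟩ hm
      have h2 : ψ' (Subgroup.inclusion hPQ ⟨x, hx⟩) = ψ x := hψe _
      rw [← h2, extFun_apply χ hm, h1, hψe]
      exact congrArg ψ (hφe ⟨x, hx⟩)
    refine ⟨hE, hT, fun P hPT φ hφ α hα => ?_, fun P hPT φ hφ => ?_⟩
    · obtain ⟨χ, hχ, hχe⟩ := hs' P T hPT le_rfl φ hφ (fun x => (E.le_of_mem hφ).2 x)
        (T.subtype.comp α.toMonoidHom) ((mem_autGroup_iff_hom hT.1).1 hα)
      exact ⟨χ, hχ, fun x _ hx => hχe x hx⟩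
    · obtain ⟨a, ha, u, hu, he⟩ := good_all hS hF hE hT hs P (extFun φ) hPT (mor_extFun hφ)
      obtain ⟨φ₀, hφ₀, hφ₀e⟩ := hu.exists_hom
      refine ⟨a, ha, φ₀, hφ₀, fun x hx => ?_⟩
      have h1 := he x x.2
      rw [extFun_coe, ← hφ₀e x, autFun_apply a hx] at h1
      exact h1

end Cfsg.Agent.S5119
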