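import Cfsg.Statements.S5122
import Mathlib
import Cfsg.Agent.Lib.Fusion.GroupSystem

set_option autoImplicit false
open Cfsg

namespace Cfsg.Agent.S5122

/-- Let G be a finite group with Sylow p-subgroup S. Every subgroup P of S has a G-conjugate Q ≤ S such that N_S(Q) is a Sylow p-subgroup of N_G(Q); and for any Q ≤ S with that property, C_S(Q) is a Sylow p-subgroup of C_G(Q) and the automorphisms of Q induced by N_S(Q) form a Sylow p-subgroup of those induced by N_G(Q). -/
theorem result {G : Type*} [Group G] [Finite G] (p : ℕ) [Fact p.Prime] (S : Sylow p G) : (∀ P : Subgroup G, P ≤ S → ∃ g : G, P.map (MulAut.conj g).toMonoidHom ≤ S ∧ (∃ R : Sylow p ↥(Subgroup.normalizer ((P.map (MulAut.conj g).toMonoidHom : Subgroup G) : Set G)), (R : Subgroup ↥(Subgroup.normalizer ((P.map (MulAut.conj g).toMonoidHom : Subgroup G) : Set G))) = (Cfsg.FusionSystem.normalizerIn (S : Subgroup G) (P.map (MulAut.conj g).toMonoidHom)).subgroupOf (Subgroup.normalizer ((P.map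 (MulAut.conj g).toMonoidHom : Subgroup G) : Set G)))) ∧ ∀ Q : Subgroup G, Q ≤ S → (∃ R : Sylow p ↥(Subgroup.normalizer (Q : Set G)), (R : Subgroup ↥(Subgroup.normalizer (Q : Set G))) = (Cfsg.FusionSystem.normalizerIn (S : Subgroup G) Q).subgroupOf (Subgroup.normalizer (Q : Set G))) → (∃ R : Sylow p ↥(Subgroup.centralizer (Q : Set G)), (R : Subgroup ↥(Subgroup.centralizer (Q : Set G))) = (Cfsg.FusionSystem.centralizerIn (S : Subgroup G) Q).subgroupOf (Subgroup.centralizer (Q : Set G))) ∧ (∃ R : Sylow p ↥(Cfsg.autInducedBy ⊤ Q), (R : Subgroup ↥(Cfsg.autInducedBy ⊤ Q)) = (Cfsg.autInducedBy (S : Subgroup G) Q).subgroupOf (Cfsg.autInducedBy ⊤ Q)) := by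
  refine ⟨fun P hP => ?_, fun Q _ h => ?_⟩
  · obtain ⟨c, hc, hcard⟩ := Lib.Fusion.exists_conj_normalizer_sylow S hP
    exact ⟨c, hc, (Lib.Fusion.exists_sylow_eq_iff Lib.Fusion.normalizerIn_le_normalizer).2 hcard⟩
  · rw [Lib.Fusion.exists_sylow_eq_iff Lib.Fusion.normalizerIn_le_normalizer] at h
    obtain ⟨h1, h2⟩ := Lib.Fusion.sylow_centralizer_of_sylow_normalizer S h
    refine ⟨(Lib.Fusion.exists_sylow_eq_iff Lib.Fusion.centralizerIn_le_centralizer).2 h1, ?_⟩
    have : Finite (MulAut Q) :=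
      Finite.of_injective (fun α : MulAut Q => (α : Q → Q)) DFunLike.coe_injective
    have hle : Cfsg.autInducedBy (S : Subgroup G) Q ≤ Cfsg.autInducedBy ⊤ Q :=
      Lib.Fusion.autInducedBy_mono le_top
    exact ⟨Sylow.ofCard _ ((Nat.card_congr (Subgroup.subgroupOfEquivOfLe hle).toEquiv).trans h2), rfl⟩

end Cfsg.Agent.S5122
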