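import Cfsg.Statements.S5123
import Mathlib
import Cfsg.Agent.Lib.Fusion.GroupSystem

set_option autoImplicit false
open Cfsg

namespace Cfsg.Agent.S5123

/-- Let G be a finite group with Sylow p-subgroup S, P, Q ≤ S and g ∈ G with gPg⁻¹ = Q, and suppose N_S(Q) is a Sylow p-subgroup of N_G(Q). Let N be the set of x ∈ N_S(P) with gxg⁻¹ ∈ N_S(Q)C_G(Q). Then some h ∈ C_G(Q) satisfies (hg)N(hg)⁻¹ ≤ S. -/
theorem result {G : Type*} [Group G] [Finite G] (p : ℕ) [Fact p.Prime] (S : Sylow p G) (P Q : Subgroup G) (hP : P ≤ S) (hQ : Q ≤ S) (g : G) (hg : P.map (MulAut.conj g).toMonoidHom = Q) (hN : (∃ R : Sylow p ↥(Subgroup.normalizer (Q : Set G)), (R : Subgroup ↥(Subgroup.normalizer (Q : Set G))) = (Cfsg.FusionSystem.normalizerIn (S : Subgroup G) Q).subgroupOf (Subgroup.normalizer (Q : Set G)))) : ∃ h ∈ Subgroup.centralizer (Q : Set G), ((Cfsg.FusionSystem.normalizerIn (S : Subgroup G) P) ⊓ (Cfsg.FusionSystem.normalizerIn (S : Subgroup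 G) Q ⊔ Subgroup.centralizer (Q : Set G)).comap (MulAut.conj g).toMonoidHom).map (MulAut.conj (h * g)).toMonoidHom ≤ S := by
  rw [Lib.Fusion.exists_sylow_eq_iff Lib.Fusion.normalizerIn_le_normalizer] at hN
  obtain ⟨z, hz, hzA⟩ := Lib.Fusion.exists_centralizer_conj S
    (A := ((Cfsg.FusionSystem.normalizerIn (S : Subgroup G) P) ⊓
      (Cfsg.FusionSystem.normalizerIn (S : Subgroup G) Q ⊔ Subgroup.centralizer (Q : Set G)).comap
        (MulAut.conj g).toMonoidHom).map (MulAut.conj g).toMonoidHom)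
    hN ((Lib.Fusion.isPGroup_of_le S.2 (inf_le_left.trans Lib.Fusion.normalizerIn_le)).map _)
    ((Subgroup.map_mono inf_le_right).trans (Subgroup.map_comap_le _ _))
  refine ⟨z, hz, ?_⟩
  rintro _ ⟨x, hx, rfl⟩
  have h1 := Lib.Fusion.normalizerIn_le (hzA _ ⟨x, hx, rfl⟩)
  simpa [mul_assoc] using h1

end Cfsg.Agent.S5123
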