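import Cfsg.Statements.S5133
import Mathlib
import Cfsg.Agent.Lib.Fusion.FactorSystem
-- import your own Cfsg.Agent.* helpers here

set_option autoImplicit false
open Cfsg

namespace Cfsg.Agent.S5133

open Cfsg.FusionSystem Cfsg.Lib.Fusion

/-- Let F be a saturated fusion system over a finite p-group S, F' a fusion system over S', and α : S → S' a surjective morphism of fusion systems from F to F' (α maps S onto S' and every map of F' with source P' ≤ S' is induced along α by a map of F on the full preimage of P'). Then F' is saturated. -/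
theorem result {Ω : Type*} [Group Ω] {S : Subgroup Ω} [Finite S] (p : ℕ) [Fact p.Prime] (hS : IsPGroup p S) (F : Cfsg.FusionSystem S) (hF : F.IsSaturated p) {Ω' : Type*} [Group Ω'] {S' : Subgroup Ω'} (F' : Cfsg.FusionSystem S') (α : S →* Ω') (hα : F.IsSurjectiveMorphism F' α) : F'.IsSaturated p := by
  obtain ⟨⟨hαS, hmor⟩, hrange, hsurj⟩ := hα
  set T : Subgroup Ω := (α.ker).map S.subtype with hTdef
  have hker : ∀ s : S, α s = 1 ↔ (s : Ω) ∈ T := fun s => by
    rw [hTdef]
    constructor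
    · exact fun h => ⟨s, h, rfl⟩
    · rintro ⟨t, ht, hte⟩
      exact Subtype.ext hte ▸ ht
  have hT : F.StronglyClosed T := stronglyClosed_iff.2 ⟨Subgroup.map_subtype_le _, fun R f hf x hxR hx => by
    obtain ⟨φ, hφ, hφe⟩ := hf.exists_hom
    obtain ⟨φ', hφ', hind⟩ := hmor R φ hφ
    obtain ⟨h1, h2⟩ := (inducedAlong_iff hf.le hφe fun z hz => hf.mem hz).1 hind x hxR
    have hx1 : iotaFun α x = 1 := (iotaFun_eq_one_iff hker (hf.le hxR)).2 hx
    rw [extFun_apply φ' h1] at h2
    refine (iotaFun_eq_one_iff hker (hf.mem hxR)).1 (h2.symm.trans ?_)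
    rw [show (⟨iotaFun α x, h1⟩ : ↥(imageAlong α R)) = 1 from Subtype.ext hx1, map_one]⟩
  refine saturated_factor hS hF hT (E := F') ⟨hT.1, hker, hrange, fun P' φ' => ⟨fun hφ' => ?_, ?_⟩⟩
  · exact ⟨(F'.le_of_mem hφ').1, hsurj P' (F'.le_of_mem hφ').1 φ' hφ'⟩
  · rintro ⟨hle, φ, hφ, hind⟩
    obtain ⟨ψ, hψ, hind'⟩ := hmor _ φ hφ
    have him := imageAlong_preimageAlong (θ := α) (hrange.symm ▸ hle : P' ≤ α.range)
    refine ((mor_extFun hψ).source_congr him).mem_hom fun y => ?_
    obtain ⟨x, hx, hxy⟩ := (mem_imageAlong (preimageAlong_le (θ := α) (P' := P'))).1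
      (show (y : Ω') ∈ imageAlong α (preimageAlong α P') by rw [him]; exact y.2)
    rw [← extFun_coe φ' y, ← hxy, ((inducedAlong_iff' hφ).1 hind x hx).2,
      ((inducedAlong_iff' hφ).1 hind' x hx).2]

end Cfsg.Agent.S5133
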