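import Cfsg.Statements.S5147
import Cfsg.Agent.Lib.Fusion.CentralQuotient
import Cfsg.Agent.S5115
-- import your own Cfsg.Agent.* helpers here

set_option autoImplicit false
open Cfsg

namespace Cfsg.Agent.S5147

/-- Let G be a finite group with Sylow 2-subgroup S whose 2-fusion system on S is constrained, and L a component of G (a subnormal quasisimple subgroup). Then the 2-fusion system of L/Z(L) on the image of S ∩ L is constrained. -/
theorem result {G : Type*} [Group G] [Finite G] (S : Sylow 2 G) (hF : (Cfsg.groupFusionSystem (S : Subgroup G)).IsConstrained 2) (L : Subgroup G) (hL : Cfsg.IsComponent L) : (Cfsg.groupFusionSystem (((S : Subgroup G).subgroupOf L).map (QuotientGroup.mk' (Subgroup.center L)))).IsConstrained 2 := by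
  obtain ⟨Q, hQ⟩ := Cfsg.Lib.Solv.sylow_inf_subnormal hL.1 S
  have heq : (Q : Subgroup L) = (S : Subgroup G).subgroupOf L := by
    rw [hQ]
  have hc := Cfsg.Agent.S5115.result S hF L hL.1
  rw [← heq] at hc ⊢
  exact Cfsg.Lib.Fusion.CentralQuotient.constrained_quotient Q hc (Subgroup.center L) le_rfl

end Cfsg.Agent.S5147
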