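import Cfsg.Statements.S5159
import Mathlib
import Cfsg.Agent.Lib.Fusion.SolvableSystem
import Cfsg.Agent.Lib.Fusion.Alperin
-- import your own Cfsg.Agent.* helpers here

set_option autoImplicit false
open Cfsg

namespace Cfsg.Agent.S5159

open Cfsg.FusionSystem Cfsg.Lib.Fusion

/-- Let F be a saturated fusion system over a finite p-group S, E a normal subsystem over T, and D the factor system of F modulo T (read through any homomorphism on S with kernel T). Then F is solvable if and only if E and D are solvable (solvable, for a system over a subgroup S: for every subgroup R other than S that is strongly closed in F, the factor system of F modulo R has a nontrivial subgroup normal in it). -/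
theorem result {Ω : Type*} [Group Ω] {S : Subgroup Ω} [Finite S] (p : ℕ) [Fact p.Prime] (hS : IsPGroup p S) (F : Cfsg.FusionSystem S) (hF : F.IsSaturated p) {T : Subgroup Ω} (E : Cfsg.FusionSystem T) (hE : E.IsNormalIn F p) {Ω' : Type*} [Group Ω'] {S' : Subgroup Ω'} (θ : S →* Ω') (D : Cfsg.FusionSystem S') (hD : F.IsFactorSystem T θ D) : F.IsSolvableSystem ↔ (E.IsSolvableSystem ∧ D.IsSolvableSystem) := by
  obtain ⟨⟨hEs, -, hinv⟩, -⟩ := hE
  obtain ⟨hsub, hTc, -, hfr⟩ := id hinv
  obtain ⟨-, hker, hrange, -⟩ := id hD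
  have hDs := saturated_factor hS hF hTc hD
  have hTfin : Finite T := finite_of_le hTc.1
  have hTp : IsPGroup p T := isPGroup_of_le hS hTc.1
  have : Finite θ.range := Finite.of_surjective θ.rangeRestrict θ.rangeRestrict_surjective
  have : Finite S' := hrange ▸ this
  have hS'p : IsPGroup p S' := hrange ▸ hS.of_surjective θ.rangeRestrict θ.rangeRestrict_surjective
  have hbot : ∀ {W : Subgroup Ω} {A : Cfsg.FusionSystem W}, A.StronglyClosed ⊥ := fun {W A} =>
    stronglyClosed_of_isNormal isNormal_bot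
  constructor
  · intro h
    obtain ⟨n, C, hC0, hCn, hCc, hCs⟩ := abSeries_of_solvable hS hF h ⊥ hbot
    refine ⟨solvable_of_abSeries hTp hEs ⟨n, fun i => C i ⊓ T, by simp [hC0], ?_,
      fun i hi => stronglyClosed_iff.2 ⟨inf_le_right, fun R f hf x hxR hx =>
        ⟨StronglyClosed.mem (hCc i hi) (hf.of_subsystem hsub) hxR hx.1, hf.mem hxR⟩⟩,
      fun i hi => ⟨inf_le_inf_right _ (hCs i hi).1,
        le_inf ((Subgroup.commutator_mono inf_le_left inf_le_left).trans (hCs i hi).2)
          ((Subgroup.commutator_mono inf_le_right inf_le_right).trans T.commutator_le_self)⟩⟩, ?_⟩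
    · simp [hCn, hTc.1]
    refine solvable_of_abSeries hS'p hDs ⟨n, fun i => imageAlong θ (C i), ?_, ?_,
      fun i hi => stronglyClosed_imageAlong hD hTc (hCc i hi), fun i hi => ⟨?_, ?_⟩⟩
    · simp [hC0, imageAlong]
    · simp [hCn, imageAlong, ← hrange, MonoidHom.range_eq_map]
    · exact Subgroup.map_mono (Subgroup.comap_mono (hCs i hi).1)
    · show ⁅((C (i + 1)).subgroupOf S).map θ, ((C (i + 1)).subgroupOf S).map θ⁆ ≤ ((C i).subgroupOf S).map θ
      rw [← Subgroup.map_commutator]
      refine Subgroup.map_mono ?_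
      rw [Subgroup.commutator_le]
      exact fun a ha b hb => (hCs i hi).2 (Subgroup.commutator_mem_commutator
        (Subgroup.mem_subgroupOf.1 ha) (Subgroup.mem_subgroupOf.1 hb))
  rintro ⟨hEsol, hDsol⟩
  obtain ⟨n, C, hC0, hCn, hCc, hCs⟩ := abSeries_of_solvable hTp hEs hEsol ⊥ hbot
  obtain ⟨m, B, hB0, hBm, hBc, hBs⟩ := abSeries_of_solvable hS'p hDs hDsol ⊥ (stronglyClosed_of_isNormal isNormal_bot)
  let K : ℕ → Subgroup Ω := fun i =>
    Nat.rec T (fun _ W => sInf {X : Subgroup Ω | E.StronglyClosed X ∧ ⁅W, W⁆ ≤ X}) i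
  have hKsucc : ∀ i, K (i + 1) = sInf {X : Subgroup Ω | E.StronglyClosed X ∧ ⁅K i, K i⁆ ≤ X} :=
    fun i => rfl
  have hK : ∀ i, E.StronglyClosed (K i) := by
    intro i
    induction i with
    | zero => exact stronglyClosed_top
    | succ i ih =>
      have hT' : T ∈ {X : Subgroup Ω | E.StronglyClosed X ∧ ⁅K i, K i⁆ ≤ X} :=
        ⟨stronglyClosed_top, (Subgroup.commutator_mono ih.1 ih.1).trans T.commutator_le_self⟩
      rw [hKsucc]
      exact stronglyClosed_iff.2 ⟨sInf_le hT', fun R f hf x hxR hx => Subgroup.mem_sInf.2 fun X hX =>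
        StronglyClosed.mem hX.1 hf hxR (Subgroup.mem_sInf.1 hx X hX)⟩
  have hKα : ∀ i, ∀ α ∈ F.autGroup T, ∀ x ∈ K i, autFun α x ∈ K i := by
    intro i
    induction i with
    | zero => exact fun α _ x hx => autFun_mem α hx
    | succ i ih =>
      intro α hα x hx
      have hxT : x ∈ T := (hK (i + 1)).1 hx
      rw [hKsucc] at hx ⊢
      refine Subgroup.mem_sInf.2 fun X ⟨hXc, hXle⟩ => ?_
      have hαm := (mem_autGroup_iff hTc.1).1 hα
      -- the inverse image of `X`
      set Y : Subgroup Ω := ((X.subgroupOf T).comap α.toMonoidHom).map T.subtype with hY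
      have hYmem : ∀ {y : Ω}, y ∈ Y ↔ y ∈ T ∧ autFun α y ∈ X := fun {y} => by
        constructor
        · rintro ⟨⟨u, hu⟩, huX, rfl⟩
          exact ⟨hu, (autFun_apply α hu).symm ▸ huX⟩
        · rintro ⟨hy, hyX⟩
          rw [autFun_apply α hy] at hyX
          exact ⟨⟨y, hy⟩, hyX, rfl⟩
      have hYc : E.StronglyClosed Y := stronglyClosed_iff.2 ⟨Subgroup.map_subtype_le _,
        fun R f hf y hyR hy => by
          obtain ⟨χ, hχ, hχe⟩ := Mor.conj_of_invariant hinv hf.le le_rfl hf (fun z hz => hf.mem hz) hαm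
          refine hYmem.2 ⟨hf.mem hyR, ?_⟩
          rw [← hχe y hyR]
          exact StronglyClosed.mem hXc hχ (mem_img_of_mem hyR) (hYmem.1 hy).2⟩
      have hYle : ⁅K i, K i⁆ ≤ Y := by
        rw [Subgroup.commutator_le]
        intro a ha b hb
        have haT := (hK i).1 ha
        have hbT := (hK i).1 hb
        refine hYmem.2 ⟨T.commutator_le_self (Subgroup.commutator_mem_commutator haT hbT), ?_⟩
        rw [commutatorElement_def, hαm.map_mul (T.mul_mem (T.mul_mem haT hbT) (T.inv_mem haT)) (T.inv_mem hbT),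
          hαm.map_conj haT hbT, hαm.map_inv hbT, ← commutatorElement_def]
        exact hXle (Subgroup.commutator_mem_commutator (ih α hα a ha) (ih α hα b hb))
      exact (hYmem.1 (Subgroup.mem_sInf.1 hx Y ⟨hYc, hYle⟩)).2
  have hKF : ∀ i, F.StronglyClosed (K i) := fun i => stronglyClosed_iff.2
    ⟨(hK i).1.trans hTc.1, fun R f hf x hxR hx => by
      have hxT := (hK i).1 hx
      obtain ⟨φ, hφ, hφe⟩ := (hf.restrict (inf_le_left : R ⊓ T ≤ R)).exists_hom
      obtain ⟨α, hα, φ₀, hφ₀, he⟩ := hfr _ inf_le_right φ hφ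
      have hmem := (E.le_of_mem hφ₀).2 ⟨x, hxR, hxT⟩
      rw [← hφe ⟨x, hxR, hxT⟩, he _ hmem, ← autFun_apply α hmem]
      refine hKα i α hα _ ?_
      rw [← extFun_coe φ₀]
      exact StronglyClosed.mem (hK i) (mor_extFun hφ₀) (⟨hxR, hxT⟩ : x ∈ R ⊓ T) hx⟩
  have hKC : ∀ i, i ≤ n → K i ≤ C (n - i) := by
    intro i
    induction i with
    | zero => intro _; exact le_of_eq (by simp [K, hCn])
    | succ i ih =>
      intro hi
      rw [hKsucc]
      refine sInf_le ⟨hCc _ (by omega), ?_⟩
      have h1 := (hCs (n - (i + 1)) (by omega)).2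
      rw [show n - (i + 1) + 1 = n - i by omega] at h1
      exact (Subgroup.commutator_mono (ih (by omega)) (ih (by omega))).trans h1
  have hKn : K n = ⊥ := eq_bot_iff.2 ((hKC n le_rfl).trans (by simp [hC0]))
  have hKstep : ∀ i, K (i + 1) ≤ K i ∧ ⁅K i, K i⁆ ≤ K (i + 1) := fun i => by
    rw [hKsucc]
    exact ⟨sInf_le ⟨hK i, (K i).commutator_le_self⟩, le_sInf fun X hX => hX.2⟩
  refine solvable_of_abSeries hS hF ⟨n + m, fun i => if i ≤ n then K (n - i) else preimageAlong θ (B (i - n)),
    by simp [hKn], ?_, fun i hi => ?_, fun i hi => ?_⟩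
  · rcases Nat.eq_zero_or_pos m with rfl | hm
    · have hS'bot : S' = ⊥ := hBm.symm.trans hB0
      show (if n + 0 ≤ n then K (n - (n + 0)) else _) = S
      rw [if_pos (by omega), show n - (n + 0) = 0 by omega]
      refine le_antisymm hTc.1 fun x hx => ?_
      have h1 : θ ⟨x, hx⟩ ∈ S' := hrange ▸ ⟨_, rfl⟩
      rw [hS'bot, Subgroup.mem_bot] at h1
      exact (hker _).1 h1
    · show (if n + m ≤ n then _ else preimageAlong θ (B (n + m - n))) = S
      rw [if_neg (by omega), show n + m - n = m by omega, hBm]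
      refine le_antisymm preimageAlong_le fun x hx => mem_preimageAlong.2 ⟨hx, ?_⟩
      rw [iotaFun_apply θ hx, ← hrange]
      exact ⟨_, rfl⟩
  · dsimp only
    split_ifs with h
    · exact hKF _
    · exact stronglyClosed_preimageAlong hS hF hD hTc (hBc _ (by omega))
  · dsimp only
    rcases Nat.lt_or_ge i n with h | h
    · rw [if_pos (by omega), if_pos (by omega)]
      have := hKstep (n - (i + 1))
      rwa [show n - (i + 1) + 1 = n - i by omega] at this
    · obtain ⟨j, rfl⟩ : ∃ j, i = n + j := ⟨i - n, by omega⟩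
      have hj := hBs j (by omega)
      rw [if_neg (show ¬ n + j + 1 ≤ n by omega), show n + j + 1 - n = j + 1 by omega]
      have hcomm : ⁅preimageAlong θ (B (j + 1)), preimageAlong θ (B (j + 1))⁆ ≤ preimageAlong θ (B j) := by
        rw [Subgroup.commutator_le]
        intro a ha b hb
        obtain ⟨haS, ha'⟩ := mem_preimageAlong.1 ha
        obtain ⟨hbS, hb'⟩ := mem_preimageAlong.1 hb
        refine mem_preimageAlong.2 ⟨S.commutator_le_self (Subgroup.commutator_mem_commutator haS hbS), ?_⟩
        rw [commutatorElement_def, iotaFun_mul θ (S.mul_mem (S.mul_mem haS hbS) (S.inv_mem haS)) (S.inv_mem hbS),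
          iotaFun_conj θ haS hbS, iotaFun_inv θ hbS, ← commutatorElement_def]
        exact hj.2 (Subgroup.commutator_mem_commutator ha' hb')
      have hmono : preimageAlong θ (B j) ≤ preimageAlong θ (B (j + 1)) := fun x hx =>
        mem_preimageAlong.2 ⟨(mem_preimageAlong.1 hx).1, hj.1 (mem_preimageAlong.1 hx).2⟩
      rcases Nat.eq_zero_or_pos j with rfl | hj0
      · have h0 : preimageAlong θ (B 0) = T := by
          refine le_antisymm (fun x hx => ?_) (le_preimageAlong hker hTc.1)
          obtain ⟨hxS, hx'⟩ := mem_preimageAlong.1 hx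
          rw [hB0, Subgroup.mem_bot] at hx'
          exact (iotaFun_eq_one_iff hker hxS).1 hx'
        rw [if_pos (show n + 0 ≤ n by omega), show n - (n + 0) = 0 by omega]
        rw [h0] at hcomm hmono
        exact ⟨hmono, hcomm⟩
      · rw [if_neg (show ¬ n + j ≤ n by omega), show n + j - n = j by omega]
        exact ⟨hmono, hcomm⟩

end Cfsg.Agent.S5159
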