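import Cfsg.Statements.S5160
import Mathlib
import Cfsg.Agent.Lib.Fusion.GroupSystem
import Cfsg.Agent.Lib.Fusion.Alperin

set_option autoImplicit false
open Cfsg

namespace Cfsg.Agent.S5160

/-- Let G be a finite group with nontrivial Sylow p-subgroup S and F its fusion system on S. Suppose (a) no nontrivial proper subgroup of S is strongly closed in F, and (b) the automorphisms of S induced by G are generated by those induced, for R running over the fully normalized radical centric subgroups of F, by the subgroup of N_G(R) generated by its elements of p-power order. Then F is simple. -/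
theorem result {G : Type*} [Group G] [Finite G] (p : ℕ) [Fact p.Prime] (S : Sylow p G) (hS1 : (S : Subgroup G) ≠ ⊥) (ha : ∀ T : Subgroup G, (Cfsg.groupFusionSystem (S : Subgroup G)).StronglyClosed T → T = ⊥ ∨ T = (S : Subgroup G)) (hb : Cfsg.autInducedBy ⊤ (S : Subgroup G) = ⨆ (R : Subgroup G) (_ : (Cfsg.groupFusionSystem (S : Subgroup G)).IsFullyNormalized R ∧ (Cfsg.groupFusionSystem (S : Subgroup G)).IsRadical p R ∧ (Cfsg.groupFusionSystem (S : Subgroup G)).IsCentric R), Cfsg.autInducedBy (Subgroup.closure {g : G | g ∈ Subgroup.normalizer (R : Set G) ∧ ∃ k : ℕ, orderOf g = p ^ k}) (S : Subgroup G)) : (Cfsg.groupFusionSystem (S : Subgroup G)).IsSimple p := by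
  set F := Cfsg.groupFusionSystem (S : Subgroup G) with hFdef
  have hF : F.IsSaturated p := Lib.Fusion.saturated_group S
  refine Lib.Fusion.isSimple_of_stronglyClosed S.2 hF hS1 ha fun E hE => ?_
  obtain ⟨⟨hEsat, -, hinv⟩, -⟩ := hE
  rw [Lib.Fusion.autGroup_group S le_rfl, hb]
  refine iSup₂_le fun R ⟨hRn, _, hRc⟩ => ?_
  intro α hα
  obtain ⟨c, hc, hce⟩ := Lib.Fusion.mem_autInducedBy_iff.1 hα
  have hRS : R ≤ (S : Subgroup G) := hRn.1
  have : Finite (MulAut R) :=
    Finite.of_injective (fun β : MulAut R => (β : R → R)) DFunLike.coe_injective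
  -- the conjugation by `c` on `R` is a map of `E`
  have hcl : Subgroup.closure {g : G | g ∈ Subgroup.normalizer (R : Set G) ∧
      ∃ k : ℕ, orderOf g = p ^ k} ≤
      (((E.autGroup R).comap (Lib.Fusion.conjAut ⊤ R)).map
        (Cfsg.FusionSystem.normalizerIn ⊤ R).subtype) := by
    rw [Subgroup.closure_le]
    rintro g ⟨hg, k, hk⟩
    have hg' : g ∈ Cfsg.FusionSystem.normalizerIn ⊤ R :=
      Lib.Fusion.normalizerIn_top R ▸ hg
    refine ⟨⟨g, hg'⟩, ?_, rfl⟩
    show Lib.Fusion.conjAut ⊤ R ⟨g, hg'⟩ ∈ E.autGroup R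
    set β := Lib.Fusion.conjAut ⊤ R ⟨g, hg'⟩ with hβdef
    have hβ : β ∈ F.autGroup R := by
      rw [Lib.Fusion.autGroup_group S hRS, ← Lib.Fusion.range_conjAut]
      exact ⟨_, rfl⟩
    have hpow : β ^ p ^ k = 1 := by
      rw [hβdef, ← map_pow, show (⟨g, hg'⟩ : Cfsg.FusionSystem.normalizerIn ⊤ R) ^ p ^ k = 1 from
        Subtype.ext (show g ^ p ^ k = 1 by rw [← hk, pow_orderOf_eq_one]), map_one]
    obtain ⟨m, -, hm⟩ := (Nat.dvd_prime_pow (Fact.out : p.Prime)).1 (orderOf_dvd_of_pow_eq_one hpow)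
    obtain ⟨γ, hγ, hγA⟩ := Lib.Fusion.exists_conj_le_autInducedBy
      (Lib.Fusion.fullyNormalized_axiom S.2 hF hRn).2 (A := Subgroup.zpowers β)
      (Subgroup.zpowers_le.2 hβ) (IsPGroup.of_card (n := m) (by rw [Nat.card_zpowers, hm]))
    have h1 := Lib.Fusion.autGroup_conj_mem_of_invariant hinv hRS
      (inv_mem hγ) (Lib.Fusion.autInducedBy_le_autGroup (F := E) hRS
        (hγA β (Subgroup.mem_zpowers β)))
    simpa [mul_assoc] using h1
  obtain ⟨⟨c', hc'⟩, hcE, rfl⟩ := hcl hc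
  have hfull : Lib.Fusion.Mor F (S : Subgroup G) (Lib.Fusion.autFun α) := by
    refine (Lib.Fusion.mem_autGroup_iff le_rfl).1 ?_
    rw [Lib.Fusion.autGroup_group S le_rfl]
    exact Lib.Fusion.mem_autInducedBy_iff.2 ⟨_, Subgroup.mem_top _, hce⟩
  refine (Lib.Fusion.mem_autGroup_iff le_rfl).2
    (hfull.of_centric_restrict S.2 hF hEsat (fun P f h => h.of_subsystem hinv.1) hRc hRS ?_)
  refine ((Lib.Fusion.mem_autGroup_iff hRS).1 hcE).congr fun x hx => ?_
  rw [Lib.Fusion.autFun_conjAut _ hx, hce x (hRS hx)]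
  rfl

end Cfsg.Agent.S5160
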