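import Cfsg.Statements.S5164
-- import your own Cfsg.Agent.* helpers here

set_option autoImplicit false
open Cfsg

namespace Cfsg.Agent.S5164

variable {p : ℕ} [Fact p.Prime]

/-- permutations of the square which shift the first coordinate and shift fibres -/
def square (p : ℕ) [Fact p.Prime] : Subgroup (Equiv.Perm (ZMod p × ZMod p)) where
  carrier := {σ | ∃ (a : ZMod p) (f : ZMod p → ZMod p), ∀ z, σ z = (z.1 + a, z.2 + f z.1)}
  one_mem' := ⟨0, 0, fun z => by simp⟩
  mul_mem' := by
    rintro σ τ ⟨a, f, hσ⟩ ⟨b, g, hτ⟩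
    refine ⟨b + a, fun i => g i + f (i + b), fun z => ?_⟩
    rw [Equiv.Perm.mul_apply, hτ, hσ]
    simp [add_assoc]
  inv_mem' := by
    rintro σ ⟨a, f, hσ⟩
    refine ⟨-a, fun i => -f (i - a), fun z => ?_⟩
    rw [Equiv.Perm.inv_eq_iff_eq, hσ]
    simp [sub_eq_add_neg]

theorem square_isPGroup : IsPGroup p (square p) := by
  rintro ⟨σ, a, f, hσ⟩
  have h1 : ∀ (k : ℕ), ∃ g : ZMod p → ZMod p, ∀ z, (σ ^ k) z = (z.1 + k • a, z.2 + g z.1) := by
    intro k
    induction k with
    | zero => exact ⟨0, fun z => by simp⟩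
    | succ k ih =>
      obtain ⟨g, hg⟩ := ih
      refine ⟨fun i => g i + f (i + k • a), fun z => ?_⟩
      rw [pow_succ', Equiv.Perm.mul_apply, hg, hσ, succ_nsmul]
      simp [add_assoc]
  obtain ⟨g, hg⟩ := h1 p
  have hg' : ∀ z, (σ ^ p) z = (z.1, z.2 + g z.1) := fun z => by rw [hg, ZModModule.char_nsmul_eq_zero p, add_zero]
  refine ⟨2, Subtype.ext ?_⟩
  show σ ^ p ^ 2 = 1
  rw [pow_two, pow_mul]
  have h3 : ∀ (k : ℕ) z, ((σ ^ p) ^ k) z = (z.1, z.2 + k • g z.1) := by
    intro k
    induction k with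
    | zero => simp
    | succ k ih =>
      intro z
      rw [pow_succ', Equiv.Perm.mul_apply, ih, hg', succ_nsmul]
      simp [add_assoc]
  exact Equiv.ext fun z => by rw [h3, ZModModule.char_nsmul_eq_zero p, add_zero]; rfl

/-- first generator -/
def gx (p : ℕ) [Fact p.Prime] : Equiv.Perm (ZMod p × ZMod p) where
  toFun z := (z.1 + 1, z.2)
  invFun z := (z.1 - 1, z.2)
  left_inv z := by simp
  right_inv z := by simp

/-- second generator -/
def gy (p : ℕ) [Fact p.Prime] : Equiv.Perm (ZMod p × ZMod p) where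
  toFun z := (z.1, z.2 + if z.1 = 0 then 1 else 0)
  invFun z := (z.1, z.2 - if z.1 = 0 then 1 else 0)
  left_inv z := by simp
  right_inv z := by simp

theorem square_noncomm : ∃ x ∈ square p, ∃ y ∈ square p, x * y ≠ y * x :=
  ⟨gx p, ⟨1, 0, fun z => Prod.ext rfl (add_zero _).symm⟩,
    gy p, ⟨0, fun i => if i = 0 then 1 else 0, fun z => Prod.ext (add_zero _).symm rfl⟩, fun h => by
    simpa [gx, gy] using congrArg Prod.snd (Equiv.congr_fun h (0, 0))⟩

/-- the sign as a permutation of two points -/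
def flip2 : ℤˣ →* Equiv.Perm Bool :=
  MonoidHom.mk' (fun u => if u = 1 then 1 else Equiv.swap false true) (by decide)

theorem sign_flip2 : ∀ u : ℤˣ, Equiv.Perm.sign (flip2 u) = u := by decide

theorem embed_square {n : ℕ} (hn : 6 ≤ n) (h : p ^ 2 ≤ n) :
    ∃ θ : square p →* alternatingGroup (Fin n), Function.Injective θ := by
  classical
  have hcard : Fintype.card (ZMod p × ZMod p) = p ^ 2 := by simp [pow_two]
  rcases eq_or_ne p 2 with rfl | hp2
  · let ι : (ZMod 2 × ZMod 2) ⊕ Bool ↪ Fin n :=
      (Function.Embedding.nonempty_of_card_le (by simp; omega)).some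
    let ψ : Equiv.Perm (ZMod 2 × ZMod 2) →* Equiv.Perm (Fin n) :=
      ((Equiv.Perm.viaEmbeddingHom ι).comp (Equiv.Perm.sumCongrHom _ _)).comp
        ((MonoidHom.id _).prod (flip2.comp Equiv.Perm.sign))
    refine ⟨(ψ.comp (square 2).subtype).codRestrict _ fun σ => ?_, fun a b e => Subtype.ext ?_⟩
    · show Equiv.Perm.sign (ψ σ.1) = 1
      show Equiv.Perm.sign (Equiv.Perm.viaEmbedding (Equiv.Perm.sumCongr σ.1 (flip2 (Equiv.Perm.sign σ.1))) ι) = 1
      rw [Equiv.Perm.viaEmbedding, Equiv.Perm.sign_extendDomain, Equiv.Perm.sign_sumCongr, sign_flip2,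
        Int.units_mul_self]
    · have h1 := Equiv.Perm.sumCongrHom_injective (Equiv.Perm.viaEmbeddingHom_injective ι (congrArg Subtype.val e))
      exact congrArg Prod.fst h1
  · let ι : ZMod p × ZMod p ↪ Fin n := (Function.Embedding.nonempty_of_card_le (by simpa [hcard])).some
    refine ⟨((Equiv.Perm.viaEmbeddingHom ι).comp (square p).subtype).codRestrict _ fun σ => ?_, fun a b e =>
      Subtype.ext (Equiv.Perm.viaEmbeddingHom_injective ι (congrArg Subtype.val e))⟩
    obtain ⟨k, hk⟩ := square_isPGroup σ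
    show Equiv.Perm.sign (((Equiv.Perm.viaEmbeddingHom ι).comp (square p).subtype) σ) = 1
    have h1 := congrArg (Equiv.Perm.sign.comp ((Equiv.Perm.viaEmbeddingHom ι).comp (square p).subtype)) hk
    rw [map_pow, map_one, MonoidHom.comp_apply] at h1
    have hodd : Odd (p ^ k) := ((Fact.out : p.Prime).odd_of_ne_two hp2).pow
    rcases Int.units_eq_one_or (Equiv.Perm.sign (((Equiv.Perm.viaEmbeddingHom ι).comp (square p).subtype) σ)) with h2 | h2
    · exact h2
    · rw [h2, hodd.neg_one_pow] at h1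
      exact absurd h1 (by decide)

/-- translations on disjoint blocks -/
def blocks (p k : ℕ) : (Fin k → Multiplicative (ZMod p)) →* Equiv.Perm (Fin k × ZMod p) where
  toFun v :=
    { toFun := fun z => (z.1, z.2 + (v z.1).toAdd)
      invFun := fun z => (z.1, z.2 - (v z.1).toAdd)
      left_inv := fun z => by simp
      right_inv := fun z => by simp }
  map_one' := Equiv.ext fun z => by simp
  map_mul' v w := Equiv.ext fun z => by simp [Equiv.Perm.mul_apply, add_assoc, add_comm (v z.1).toAdd]

theorem blocks_injective (p k : ℕ) : Function.Injective (blocks p k) := fun v w h =>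
  funext fun i => by simpa [blocks] using congrArg Prod.snd (Equiv.congr_fun h (i, 0))

/-- For n ≥ 6 and a prime p, a nontrivial Sylow p-subgroup of the alternating group of degree n is abelian if and only if n < p². -/
theorem result (n p : ℕ) (hn : 6 ≤ n) [Fact p.Prime] (S : Sylow p (alternatingGroup (Fin n))) (hS : (S : Subgroup (alternatingGroup (Fin n))) ≠ ⊥) : IsMulCommutative S ↔ n < p ^ 2 := by
  classical
  haveI : Nontrivial (Fin n) := Fin.nontrivial_iff_two_le.mpr (by omega)
  constructor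
  · intro hc
    by_contra hge
    obtain ⟨θ, hθ⟩ := embed_square hn (Nat.le_of_not_lt hge)
    obtain ⟨Q, hQ⟩ := (IsPGroup.map (square_isPGroup.to_subgroup ⊤) θ).exists_le_sylow
    obtain ⟨x, hx, y, hy, hxy⟩ := square_noncomm (p := p)
    apply hxy
    let e := Sylow.equiv Q S
    have hmem : ∀ z, θ z ∈ (Q : Subgroup (alternatingGroup (Fin n))) := fun z => hQ ⟨z, trivial, rfl⟩
    have h1 : e ⟨θ ⟨x, hx⟩, hmem _⟩ * e ⟨θ ⟨y, hy⟩, hmem _⟩ = e ⟨θ ⟨y, hy⟩, hmem _⟩ * e ⟨θ ⟨x, hx⟩, hmem _⟩ :=
      hc.is_comm.comm _ _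
    rw [← map_mul, ← map_mul, e.apply_eq_iff_eq] at h1
    have h2 : θ (⟨x, hx⟩ * ⟨y, hy⟩) = θ (⟨y, hy⟩ * ⟨x, hx⟩) := by
      rw [map_mul, map_mul]; exact congrArg Subtype.val h1
    exact congrArg Subtype.val (hθ h2)
  · intro hlt
    have hp := (Fact.out : p.Prime)
    have hp2 : p ≠ 2 := by rintro rfl; omega
    set k := n / p with hk
    let ι : Fin k × ZMod p ↪ Fin n :=
      (Function.Embedding.nonempty_of_card_le (by simpa [hk] using Nat.div_mul_le_self n p)).some
    let Φ := (Equiv.Perm.viaEmbeddingHom ι).comp (blocks p k)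
    have hodd := hp.odd_of_ne_two hp2
    have hev : ∀ v, Φ v ∈ alternatingGroup (Fin n) := fun v => by
      have h1 : v ^ p = 1 := funext fun i => by
        apply Multiplicative.toAdd.injective
        simp [ZModModule.char_nsmul_eq_zero p]
      have h2 := congrArg (Equiv.Perm.sign.comp Φ) h1
      rw [map_pow, map_one, MonoidHom.comp_apply] at h2
      show Equiv.Perm.sign (Φ v) = 1
      rcases Int.units_eq_one_or (Equiv.Perm.sign (Φ v)) with h3 | h3
      · exact h3
      · rw [h3, hodd.neg_one_pow] at h2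
        exact absurd h2 (by decide)
    let Ψ := Φ.codRestrict _ hev
    have hΨ : Function.Injective Ψ := fun v w e =>
      blocks_injective p k (Equiv.Perm.viaEmbeddingHom_injective ι (congrArg Subtype.val e))
    have hcard : Nat.card Ψ.range = p ^ (Nat.card (alternatingGroup (Fin n))).factorization p := by
      rw [Nat.card_congr (MonoidHom.ofInjective hΨ).toEquiv.symm, Nat.card_fun, Nat.card_fin]
      have h4 : Nat.card (Multiplicative (ZMod p)) = p :=
        (Nat.card_congr Multiplicative.toAdd).trans (Nat.card_zmod p)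
      rw [h4]
      congr 1
      have h5 : 2 * Nat.card (alternatingGroup (Fin n)) = n.factorial := by
        rw [Nat.card_eq_fintype_card, two_mul_card_alternatingGroup, Fintype.card_perm, Fintype.card_fin]
      have h6 : n.factorial.factorization p = n / p := by
        rw [Nat.factorization_def _ hp, padicValNat_factorial (b := 2) (Nat.log_lt_of_lt_pow (by omega) hlt)]
        simp
      rw [← h5, Nat.factorization_mul (by omega) Nat.card_pos.ne', Finsupp.add_apply,
        Nat.factorization_eq_zero_of_not_dvd (fun h => hp2 ((Nat.prime_dvd_prime_iff_eq hp Nat.prime_two).mp h)),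
        zero_add] at h6
      exact h6.symm
    let Q : Sylow p (alternatingGroup (Fin n)) := Sylow.ofCard Ψ.range hcard
    let e := Sylow.equiv S Q
    refine ⟨⟨fun a b => e.injective ?_⟩⟩
    obtain ⟨v, hv⟩ : ((e a : Q) : alternatingGroup (Fin n)) ∈ Ψ.range := (e a).2
    obtain ⟨w, hw⟩ : ((e b : Q) : alternatingGroup (Fin n)) ∈ Ψ.range := (e b).2
    rw [map_mul, map_mul]
    refine Subtype.ext ?_
    show ((e a : Q) : alternatingGroup (Fin n)) * (e b : Q) = (e b : Q) * (e a : Q)
    rw [← hv, ← hw, ← map_mul, ← map_mul, mul_comm]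

end Cfsg.Agent.S5164
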