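import Cfsg.Statements.S5166
import Cfsg.Agent.Lib.FusionCert.Groups
import Cfsg.Agent.Lib.FusionCert.Cert
import Cfsg.Agent.Lib.FusionCert.DataM11

set_option autoImplicit false
open Cfsg

namespace Cfsg.Agent.S5166

theorem data_ok : Lib.FusionCert.DataM11.data.ok Lib.FusionCert.inM11 = true := by decide +kernel

theorem data_len : Lib.FusionCert.DataM11.data.S.tree.keys.length = 2 ^ 4 := by decide +kernel

/-- The 2-fusion system of the Mathieu group M₁₁ (as the explicit permutation group carved out of the automorphism group of the binary Golay code) on a Sylow 2-subgroup is simple: saturated, over a nontrivial 2-group, with no normal subsystem other than the trivial one and itself. -/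
theorem result (S : Sylow 2 Cfsg.Spor.M11) : (Cfsg.groupFusionSystem (S : Subgroup Cfsg.Spor.M11)).IsSimple 2 := by
  refine Lib.FusionCert.isSimple_of_data _ _ _ Lib.FusionCert.inM11_sound data_ok data_len
    (by norm_num) (n := 495) (by norm_num) ?_ S
  rw [Lib.FusionCert.card_M11]; norm_num

end Cfsg.Agent.S5166
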