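import Cfsg.Statements.S5345
import Mathlib
import Cfsg.Agent.Lib.ThreeT.Basic

set_option autoImplicit false
open Cfsg

namespace Cfsg.Agent.S5345

/-- Let D be a conjugation-invariant generating set of 3-transpositions of a finite group G and T a Sylow 2-subgroup of G. Then the members of D lying in T generate an abelian subgroup, and their number is the width of D (the largest number of pairwise commuting members of D). -/
theorem result {G : Type*} [Group G] [Finite G] {D : Set G} (hD : Cfsg.IsThreeTranspositionGroup D) (T : Sylow 2 G) : IsMulCommutative (Subgroup.closure {d : G | d ∈ D ∧ d ∈ T}) ∧ {d : G | d ∈ D ∧ d ∈ T}.ncard = Cfsg.commutingWidth D := by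
  classical
  haveI : Fact (Nat.Prime 2) := ⟨Nat.prime_two⟩
  obtain ⟨hS, hc, -⟩ := hD
  have hcomm : ∀ a ∈ {d : G | d ∈ D ∧ d ∈ T}, ∀ b ∈ {d : G | d ∈ D ∧ d ∈ T}, a * b = b * a := by
    rintro a ⟨ha, haT⟩ b ⟨hb, hbT⟩
    refine ((Lib.ThreeT.commute_iff_sq (hS.1 a ha) (hS.1 b hb)).2 ?_).eq
    rcases hS.2 a ha b hb with h | h
    · exact h
    · obtain ⟨k, hk⟩ := (IsPGroup.iff_orderOf.1 T.isPGroup') ⟨a * b, T.mul_mem haT hbT⟩
      rw [Subgroup.orderOf_mk] at hk
      have h1 : orderOf (a * b) = 1 := by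
        rcases (Nat.dvd_prime Nat.prime_three).1 (orderOf_dvd_of_pow_eq_one h) with h' | h'
        · exact h'
        · have := (hk ▸ h' : 2 ^ k = 3)
          cases k with
          | zero => simp at this
          | succ k => rw [pow_succ] at this; omega
      rw [orderOf_eq_one_iff.1 h1, one_pow]
  refine ⟨Subgroup.isMulCommutative_closure hcomm, ?_⟩
  refine le_antisymm ?_ ?_
  · refine le_csSup ⟨Nat.card G, ?_⟩ ⟨_, fun x hx => hx.1, Set.toFinite _, hcomm, rfl⟩
    rintro n ⟨E, -, -, -, rfl⟩
    rw [← Set.ncard_univ]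
    exact Set.ncard_le_ncard (Set.subset_univ E)
  · refine csSup_le ⟨0, ∅, Set.empty_subset _, Set.finite_empty, by simp, by simp⟩ ?_
    rintro n ⟨E, hE, -, hEc, rfl⟩
    haveI : IsMulCommutative (Subgroup.closure E) :=
      Subgroup.isMulCommutative_closure fun a ha b hb => (hEc a ha b hb).eq
    have h2 : ∀ x ∈ Subgroup.closure E, x ^ 2 = 1 := by
      intro x hx
      induction hx using Subgroup.closure_induction with
      | mem x hx => rw [← hS.1 x (hE hx)]; exact pow_orderOf_eq_one x
      | one => simp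
      | mul x y hx hy h1 h2 =>
        rw [Commute.mul_pow ?_, h1, h2, one_mul]
        exact congrArg Subtype.val (mul_comm' (⟨x, hx⟩ : Subgroup.closure E) ⟨y, hy⟩)
      | inv x _ h => rw [inv_pow, h, inv_one]
    have hp : IsPGroup 2 (Subgroup.closure E) := fun x => ⟨1, Subtype.ext (by simpa using h2 x x.2)⟩
    obtain ⟨Q, hQ⟩ := hp.exists_le_sylow
    obtain ⟨g, rfl⟩ := MulAction.exists_smul_eq G T Q
    rw [← Set.ncard_image_of_injective E (MulAut.conj g⁻¹).injective]
    refine Set.ncard_le_ncard ?_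
    rintro _ ⟨x, hx, rfl⟩
    refine ⟨by simpa using hc g⁻¹ x (hE hx), ?_⟩
    have h := hQ (Subgroup.subset_closure hx)
    rw [Sylow.coe_subgroup_smul, Subgroup.mem_pointwise_smul_iff_inv_smul_mem, ← map_inv] at h
    exact h

end Cfsg.Agent.S5345
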