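import Cfsg.Statements.S5347
import Mathlib
import Cfsg.Agent.Lib.ThreeT.Basic

set_option autoImplicit false
open Cfsg

namespace Cfsg.Agent.S5347

/-- Let D be a conjugation-invariant generating set of 3-transpositions of a finite group G, p a prime bigger than 3, and P a p-subgroup of G. If a member d of D normalizes P then d centralizes P. -/
theorem result {G : Type*} [Group G] [Finite G] {D : Set G} (hD : Cfsg.IsThreeTranspositionGroup D) {p : ℕ} (hp : p.Prime) (hp3 : 3 < p) (P : Subgroup G) (hP : IsPGroup p P) {d : G} (hd : d ∈ D) (hnorm : d ∈ Subgroup.normalizer (P : Set G)) : ∀ x ∈ P, Commute d x := by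
  haveI : Fact p.Prime := ⟨hp⟩
  intro x hx
  obtain ⟨hS, hc, -⟩ := hD
  have h1 : d * x * d⁻¹ * x⁻¹ ∈ P := P.mul_mem ((Subgroup.mem_normalizer_iff.1 hnorm x).1 hx) (P.inv_mem hx)
  obtain ⟨k, hk⟩ := (IsPGroup.iff_orderOf.1 hP) ⟨_, h1⟩
  rw [Subgroup.orderOf_mk] at hk
  have he : d * x * d⁻¹ * x⁻¹ = d * (x * d⁻¹ * x⁻¹) := by group
  rw [Lib.ThreeT.inv_self (hS.1 d hd)] at he hk
  have h6 : orderOf (d * x * d * x⁻¹) ∣ 6 := by
    rw [he]
    rcases hS.2 d hd _ (hc x d hd) with h | h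
    · exact (orderOf_dvd_of_pow_eq_one h).trans (by norm_num)
    · exact (orderOf_dvd_of_pow_eq_one h).trans (by norm_num)
  have hcop : (p ^ k).Coprime 6 := by
    refine Nat.Coprime.pow_left k ((Nat.Prime.coprime_iff_not_dvd hp).2 fun h => ?_)
    have := Nat.le_of_dvd (by norm_num) h
    interval_cases p <;> norm_num at *
  rw [hk] at h6
  have h0 : orderOf (d * x * d * x⁻¹) = 1 := hk.trans (hcop.eq_one_of_dvd h6)
  rw [orderOf_eq_one_iff, mul_inv_eq_one] at h0
  show d * x = x * d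
  conv_rhs => rw [← h0]
  rw [mul_assoc, mul_assoc, Lib.ThreeT.mul_self (hS.1 d hd), mul_one]

end Cfsg.Agent.S5347
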