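import Cfsg.Statements.S5348
import Mathlib
import Cfsg.Agent.Lib.ThreeT.Basic

set_option autoImplicit false
open Cfsg

namespace Cfsg.Agent.S5348

/-- Let D be a conjugation-invariant generating set of 3-transpositions of a finite group G and d a member of D. Let V be the set of members of D commuting with exactly the same members of D as d, and W the set of members w of D such that the members of D other than w commuting with w are precisely the members of D other than d commuting with d. Then V = {d} or W = {d}. -/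
theorem result {G : Type*} [Group G] [Finite G] {D : Set G} (hD : Cfsg.IsThreeTranspositionGroup D) {d : G} (hd : d ∈ D) : {v : G | v ∈ D ∧ ∀ e ∈ D, Commute v e ↔ Commute d e} = {d} ∨ {w : G | w ∈ D ∧ {y : G | y ∈ D ∧ y ≠ d ∧ Commute d y} = {y : G | y ∈ D ∧ y ≠ w ∧ Commute w y}} = {d} := by
  by_cases h1 : ∀ v ∈ D, (∀ e ∈ D, Commute v e ↔ Commute d e) → v = d
  · left
    ext v
    simp only [Set.mem_setOf_eq, Set.mem_singleton_iff]
    exact ⟨fun h => h1 v h.1 h.2, by rintro rfl; exact ⟨hd, fun e _ => Iff.rfl⟩⟩
  · right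
    push Not at h1
    obtain ⟨v, hv, hve, hvd⟩ := h1
    ext w
    simp only [Set.mem_setOf_eq, Set.mem_singleton_iff]
    refine ⟨fun ⟨hw, he⟩ => ?_, by rintro rfl; exact ⟨hd, rfl⟩⟩
    by_contra hwd
    have hdv : Commute d v := (hve v hv).1 (Commute.refl v)
    by_cases hdw : Commute d w
    · have : w ∈ {y : G | y ∈ D ∧ y ≠ d ∧ Commute d y} := ⟨hw, hwd, hdw⟩
      rw [he] at this
      exact this.2.1 rfl
    · have : v ∈ {y : G | y ∈ D ∧ y ≠ d ∧ Commute d y} := ⟨hv, hvd, hdv⟩
      rw [he] at this
      exact hdw ((hve w hw).1 this.2.2.symm)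

end Cfsg.Agent.S5348
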