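import Cfsg.Statements.S5357
import Cfsg.Agent.Lib.Classical.ReflTriples
import Cfsg.Agent.Lib.Classical.QuadOrders
import Cfsg.Agent.Lib.Classical.Spinor

set_option autoImplicit false
open scoped MatrixGroups
open Cfsg

namespace Cfsg.Agent.S5357

/-- Let Q be a non-degenerate quadratic form on the n-dimensional coordinate space over the field with three elements, n ≥ 5, and c a non-zero scalar. In the subgroup of the isometry group of Q generated by the reflections in vectors v with Q(v) = c, these reflections form a single conjugacy class of 3-transpositions generating that subgroup. -/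
theorem result (n : ℕ) (hn : 5 ≤ n) (Q : QuadraticForm (ZMod 3) (Fin n → ZMod 3)) (hQ : (QuadraticMap.polarBilin Q).Nondegenerate) (c : ZMod 3) (hc : c ≠ 0) : Cfsg.IsThreeTranspositionClass {g : ↥(Cfsg.reflectionSubgroup (⇑Q) c) | (g : ↥(Cfsg.isometryGroup (ZMod 3) (⇑Q))) ∈ Cfsg.reflectionsOfNorm (⇑Q) c} := by
  classical
  let e := Cfsg.Lib.Classical.OrthMatrix.eI (f := ⇑Q) (Q := Q) (fun _ => rfl)
  let B := QuadraticMap.polarBilin Q
  have hsq : ∀ x : ZMod 3, x = 0 ∨ x * x = 1 := by decide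
  have h2 : (2 : ZMod 3) ≠ 0 := by decide
  have hD : ∀ g, g ∈ Cfsg.reflectionsOfNorm (⇑Q) c ↔ ∃ v, Q v = c ∧ e g = Cfsg.Lib.Classical.Reflections.refl Q v :=
    fun g => exists_congr fun v => and_congr_right fun _ =>
      (Cfsg.Lib.Classical.OrthMatrix.eI_eq_refl_iff (f := ⇑Q) (Q := Q) (fun _ => rfl) g v).symm
  set H := Cfsg.reflectionSubgroup (⇑Q) c with hH
  have hmem : ∀ g ∈ Cfsg.reflectionsOfNorm (⇑Q) c, g ∈ H := fun g hg => Subgroup.subset_closure hg
  have hbraid : ∀ a b : H, a * a = 1 → b * b = 1 → (a * b) ^ 3 = 1 → IsConj a b := by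
    intro a b ha hb h3
    have h1 : a * b * a * b * a * b = 1 := by simpa [pow_succ, mul_assoc] using h3
    refine isConj_iff.mpr ⟨a * b, ?_⟩
    rw [mul_inv_rev, inv_eq_of_mul_eq_one_right hb, inv_eq_of_mul_eq_one_right ha]
    calc a * b * a * (b * a) = a * b * a * b * a * (b * b) := by rw [hb, mul_one]; simp only [mul_assoc]
      _ = (a * b * a * b * a * b) * b := by simp only [mul_assoc]
      _ = b := by rw [h1, one_mul]
  have hinv : ∀ g ∈ Cfsg.reflectionsOfNorm (⇑Q) c, g * g = 1 := fun g hg => by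
    obtain ⟨v, -, h⟩ := (hD g).1 hg
    exact e.injective (by rw [map_mul, h, Cfsg.Lib.Classical.Reflections.refl_mul_self, map_one])
  have hpair : ∀ g ∈ Cfsg.reflectionsOfNorm (⇑Q) c, ∀ g' ∈ Cfsg.reflectionsOfNorm (⇑Q) c,
      (g * g') ^ 2 = 1 ∨ (g * g') ^ 3 = 1 := by
    intro g hg g' hg'
    obtain ⟨u, hu, h⟩ := (hD g).1 hg
    obtain ⟨v, hv, h'⟩ := (hD g').1 hg'
    rcases Cfsg.Lib.Classical.ReflTriples.refl_pair (Q := Q) (u := u) (v := v) (by rw [hu, hv])
      ((hsq _).imp_left fun e0 => (mul_eq_zero.1 e0).resolve_left (inv_ne_zero (hu ▸ hc))) with h1 | h1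
    · exact Or.inl (e.injective (by rw [map_pow, map_mul, h, h', h1, map_one]))
    · exact Or.inr (e.injective (by rw [map_pow, map_mul, h, h', h1, map_one]))
  have hconj : ∀ (g g' : H) (u v : Fin n → ZMod 3), Q u = c → Q v = c →
      e g = Cfsg.Lib.Classical.Reflections.refl Q u → e g' = Cfsg.Lib.Classical.Reflections.refl Q v →
      B u v ≠ 0 → IsConj g g' := by
    intro g g' u v hu hv h h' huv
    have hgD : (g : Cfsg.isometryGroup (ZMod 3) ⇑Q) ∈ Cfsg.reflectionsOfNorm (⇑Q) c := (hD _).2 ⟨u, hu, h⟩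
    have hgD' : (g' : Cfsg.isometryGroup (ZMod 3) ⇑Q) ∈ Cfsg.reflectionsOfNorm (⇑Q) c := (hD _).2 ⟨v, hv, h'⟩
    refine hbraid g g' (Subtype.ext (hinv _ hgD)) (Subtype.ext (hinv _ hgD')) (Subtype.ext ?_)
    refine e.injective ?_
    simp only [SubmonoidClass.coe_pow, Subgroup.coe_mul, map_pow, map_mul, h, h', OneMemClass.coe_one, map_one]
    exact Cfsg.Lib.Classical.ReflTriples.refl_cube (by rw [hu, hv])
      ((hsq _).resolve_left (mul_ne_zero (inv_ne_zero (hu ▸ hc)) huv))
  have hperp : ∀ u v : Fin n → ZMod 3, Q u = c → Q v = c → B u v = 0 →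
      ∃ z, Q z = c ∧ B u z ≠ 0 ∧ B z v ≠ 0 := by
    intro u v hu hv huv
    have hvu : B v u = 0 := (Cfsg.Lib.Classical.Witt.polar_symm' Q v u).trans huv
    set W := LinearMap.ker (B u) ⊓ LinearMap.ker (B v) with hW
    have h2c : (2 : ZMod 3) * c ≠ 0 := mul_ne_zero h2 hc
    have huu : B u u = 2 * c := by rw [← hu]; exact Cfsg.Lib.Classical.Witt.polar_self' Q u
    have hvv : B v v = 2 * c := by rw [← hv]; exact Cfsg.Lib.Classical.Witt.polar_self' Q v
    have hdec : ∀ y, y - (B u y / (2 * c)) • u - (B v y / (2 * c)) • v ∈ W := fun y => by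
      simp only [hW, Submodule.mem_inf, LinearMap.mem_ker, map_sub, map_smul, smul_eq_mul, huu, hvv, huv, hvu,
        mul_zero, sub_zero, div_mul_cancel₀ _ h2c, sub_self, true_and]
    have hsup : W ⊔ Submodule.span (ZMod 3) {u, v} = ⊤ := by
      refine eq_top_iff.2 fun y _ => Submodule.mem_sup.2
        ⟨_, hdec y, (B u y / (2 * c)) • u + (B v y / (2 * c)) • v, ?_, by abel⟩
      exact Submodule.mem_span_pair.2 ⟨_, _, rfl⟩
    have hdim : 2 ≤ Module.finrank (ZMod 3) W := by
      have h1 := Submodule.finrank_add_le_finrank_add_finrank W (Submodule.span (ZMod 3) {u, v})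
      have h3 : Module.finrank (ZMod 3) (Submodule.span (ZMod 3) ({u, v} : Set (Fin n → ZMod 3))) ≤ 2 := by
        rw [show ({u, v} : Set (Fin n → ZMod 3)) = (({u, v} : Finset (Fin n → ZMod 3)) : Set (Fin n → ZMod 3)) by simp]
        exact (finrank_span_finset_le_card _).trans Finset.card_le_two
      rw [hsup, finrank_top, Module.finrank_fintype_fun_eq_card, Fintype.card_fin] at h1
      omega
    have hBW : (QuadraticMap.polarBilin (Q.comp W.subtype)).Nondegenerate := by
      refine Cfsg.Lib.Classical.QuadOrders.nondeg_of_left (fun x y => Cfsg.Lib.Classical.Witt.polar_symm' _ x y)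
        fun x hx => Subtype.ext (hQ.1 _ fun y => ?_)
      have hyW := hdec y
      have h1 := hx ⟨_, hyW⟩
      simp only [QuadraticMap.polarBilin_apply_apply, QuadraticMap.polar, QuadraticMap.comp_apply, map_add,
        Submodule.subtype_apply] at h1
      have h4 : B x.1 (y - (B u y / (2 * c)) • u - (B v y / (2 * c)) • v) = 0 := h1
      have hxu : B x.1 u = 0 := (Cfsg.Lib.Classical.Witt.polar_symm' Q x.1 u).trans x.2.1
      have hxv : B x.1 v = 0 := (Cfsg.Lib.Classical.Witt.polar_symm' Q x.1 v).trans x.2.2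
      rw [map_sub, map_sub, map_smul, map_smul, hxu, hxv, smul_zero, smul_zero, sub_zero, sub_zero] at h4
      exact h4
    obtain ⟨w, hw⟩ := Cfsg.Lib.Classical.Spinor.exists_value hBW h2 hdim (-c)
    have hwu : B u w.1 = 0 := w.2.1
    have hwv : B v w.1 = 0 := w.2.2
    refine ⟨u + v + w.1, ?_, ?_, ?_⟩
    · rw [Cfsg.Lib.Classical.Witt.quad_add, Cfsg.Lib.Classical.Witt.quad_add, map_add, LinearMap.add_apply, hu, hv]
      change c + c + B u v + Q w.1 + (B u w.1 + B v w.1) = c
      rw [show Q w.1 = -c from hw, huv, hwu, hwv]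
      ring
    · rw [map_add, map_add, huv, hwu, huu, add_zero, add_zero]
      exact h2c
    · rw [map_add, map_add, LinearMap.add_apply, LinearMap.add_apply, huv, hvv,
        show B w.1 v = 0 from (Cfsg.Lib.Classical.Witt.polar_symm' Q _ v).trans hwv, zero_add, add_zero]
      exact h2c
  refine ⟨⟨fun d hd => ?_, fun d hd d' hd' => ?_⟩, ?_, ?_⟩
  · obtain ⟨v, hv, h⟩ := (hD _).1 hd
    refine orderOf_eq_prime (Subtype.ext ?_) fun h1 => ?_
    · rw [SubmonoidClass.coe_pow, pow_two]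
      exact hinv _ hd
    · rw [h1, OneMemClass.coe_one, map_one] at h
      exact Cfsg.Lib.Classical.ReflTriples.refl_ne_one hQ (by rwa [hv]) h.symm
  · exact (hpair _ hd _ hd').imp (fun h => Subtype.ext h) (fun h => Subtype.ext h)
  · obtain ⟨v0, hv0⟩ := Cfsg.Lib.Classical.Spinor.exists_value hQ h2
      (by rw [Module.finrank_fintype_fun_eq_card, Fintype.card_fin]; omega) c
    have hd0 : e.symm (Cfsg.Lib.Classical.Reflections.refl Q v0) ∈ Cfsg.reflectionsOfNorm (⇑Q) c :=
      (hD _).2 ⟨v0, hv0, e.apply_symm_apply _⟩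
    refine ⟨⟨_, hmem _ hd0⟩, hd0, Set.ext fun d => ⟨fun hd => ?_, fun hd => ?_⟩⟩
    · obtain ⟨v, hv, h⟩ := (hD _).1 hd
      by_cases hb : B v0 v = 0
      · obtain ⟨z, hz, hz1, hz2⟩ := hperp v0 v hv0 hv hb
        have hgz : e.symm (Cfsg.Lib.Classical.Reflections.refl Q z) ∈ Cfsg.reflectionsOfNorm (⇑Q) c :=
          (hD _).2 ⟨z, hz, e.apply_symm_apply _⟩
        exact (hconj ⟨_, hmem _ hd0⟩ ⟨_, hmem _ hgz⟩ v0 z hv0 hz (e.apply_symm_apply _) (e.apply_symm_apply _) hz1).trans
          (hconj _ d z v hz hv (e.apply_symm_apply _) h hz2)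
      · exact hconj _ d v0 v hv0 hv (e.apply_symm_apply _) h hb
    · obtain ⟨k, rfl⟩ := isConj_iff.mp hd
      refine (hD _).2 ⟨(e k.1).1 v0, ?_, ?_⟩
      · rw [(e k.1).2 v0]; exact hv0
      · simp only [Subgroup.coe_mul, Subgroup.coe_inv, map_mul, map_inv, e.apply_symm_apply,
          Cfsg.Lib.Classical.Reflections.conj_refl]
  · exact Subgroup.closure_closure_coe_preimage

end Cfsg.Agent.S5357
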