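import Cfsg.Statements.S5358
import Mathlib
import Cfsg.Agent.Lib.Classical.Transvection

set_option autoImplicit false
open scoped MatrixGroups
open Cfsg

namespace Cfsg.Agent.S5358

/-- Let Q be a non-degenerate quadratic form on the n-dimensional coordinate space over the field with three elements and u, v vectors of the same non-zero norm Q(u) = Q(v) spanning different lines (v ≠ u and v ≠ −u). Then the reflection matrices of u and v commute if and only if u and v are orthogonal for the polar form of Q. -/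
theorem result (n : ℕ) (Q : QuadraticForm (ZMod 3) (Fin n → ZMod 3)) (hQ : (QuadraticMap.polarBilin Q).Nondegenerate) (u v : Fin n → ZMod 3) (hu : Q u ≠ 0) (huv : Q u = Q v) (h1 : v ≠ u) (h2 : v ≠ -u) : Commute (Cfsg.reflectionMatrix (⇑Q) u) (Cfsg.reflectionMatrix (⇑Q) v) ↔ QuadraticMap.polar (⇑Q) u v = 0 := by
  classical
  set φ : (Fin n → ZMod 3) → Fin n → ZMod 3 := fun w => Cfsg.polarVec ⇑Q w with hφ
  have hdot : ∀ w x, φ w ⬝ᵥ x = QuadraticMap.polar ⇑Q w x := by
    intro w x
    conv_rhs => rw [pi_eq_sum_univ' x]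
    change _ = QuadraticMap.polarBilin Q w _
    rw [map_sum]
    simp [φ, Cfsg.polarVec, dotProduct, mul_comm]
  have hmv : ∀ w x, (Cfsg.reflectionMatrix ⇑Q w).mulVec x =
      x + (-((Q w)⁻¹ * QuadraticMap.polar ⇑Q w x)) • w := by
    intro w x
    rw [Cfsg.reflectionMatrix, Matrix.sub_mulVec, Matrix.one_mulVec, Matrix.smul_mulVec,
      Matrix.vecMulVec_mulVec, op_smul_eq_smul, hdot, smul_smul, neg_smul, sub_eq_add_neg]
  have hcomp : ∀ w z x, (Cfsg.reflectionMatrix ⇑Q w * Cfsg.reflectionMatrix ⇑Q z).mulVec x =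
      x + (-((Q z)⁻¹ * QuadraticMap.polar ⇑Q z x)) • z + (-((Q w)⁻¹ * QuadraticMap.polar ⇑Q w x)) • w
      + ((Q w)⁻¹ * (Q z)⁻¹ * QuadraticMap.polar ⇑Q z x * QuadraticMap.polar ⇑Q w z) • w := by
    intro w z x
    rw [← Matrix.mulVec_mulVec, hmv, hmv, QuadraticMap.polar_add_right, QuadraticMap.polar_smul_right]
    simp only [smul_eq_mul]
    module
  constructor
  · intro hc
    by_contra h0
    have h := congrArg (fun M => Matrix.mulVec M u) hc.eq
    simp only [hcomp] at h
    have hself : QuadraticMap.polar ⇑Q u u = 2 * Q u := by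
      rw [QuadraticMap.polar_self, nsmul_eq_mul]; norm_num
    rw [hself, QuadraticMap.polar_comm _ v u, ← huv] at h
    set a := (Q u)⁻¹ with ha
    set f := QuadraticMap.polar ⇑Q u v with hf
    have hQQ : a * Q u = 1 := inv_mul_cancel₀ hu
    have h' : (a * a * f * f) • u = (a * a * (2 * Q u) * f) • v := by
      have := sub_eq_zero.2 h
      rw [← sub_eq_zero, ← this]
      module
    have hne : a * a * (2 * Q u) * f ≠ 0 := by
      refine mul_ne_zero (mul_ne_zero (mul_ne_zero ?_ ?_) (mul_ne_zero (by decide) hu)) h0 <;>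
        exact inv_ne_zero hu
    have hv : v = ((a * a * (2 * Q u) * f)⁻¹ * (a * a * f * f)) • u := by
      rw [← smul_smul, h', smul_smul, inv_mul_cancel₀ hne, one_smul]
    set c := (a * a * (2 * Q u) * f)⁻¹ * (a * a * f * f) with hc'
    have hc0 : c ≠ 0 := mul_ne_zero (inv_ne_zero hne)
      (mul_ne_zero (mul_ne_zero (mul_ne_zero (inv_ne_zero hu) (inv_ne_zero hu)) h0) h0)
    have h3 : ∀ c : ZMod 3, c ≠ 0 → c = 1 ∨ c = -1 := by decide
    rcases h3 c hc0 with e | e
    · exact h1 (by rw [hv, e, one_smul])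
    · exact h2 (by rw [hv, e, neg_one_smul])
  · intro h0
    refine Cfsg.Lib.Classical.ext_mulVec fun x => ?_
    rw [hcomp, hcomp, h0, QuadraticMap.polar_comm _ v u, h0]
    simp only [mul_zero, zero_smul, add_zero]
    abel

end Cfsg.Agent.S5358
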