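import Cfsg.Statements.S5359
import Mathlib
import Cfsg.Agent.Lib.Classical.Spinor
import Cfsg.Agent.Lib.Classical.OrthMatrix

set_option autoImplicit false
open scoped MatrixGroups
open Cfsg
open scoped Pointwise commutatorElement

namespace Cfsg.Agent.S5359

open Cfsg.Lib.Classical Cfsg.Lib.Classical.Reflections

section

variable {V : Type*} [AddCommGroup V] [Module (ZMod 3) V] [FiniteDimensional (ZMod 3) V] {Q : QuadraticForm (ZMod 3) V}

local notation "β" => QuadraticMap.polarBilin Q

/-- A subspace orthogonal to an anisotropic vector contains an anisotropic vector unless it is small. -/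
lemma exists_aniso (hB : (QuadraticMap.polarBilin Q).Nondegenerate) (A U : Submodule (ZMod 3) V)
    (hAU : ∀ a ∈ A, ∀ x ∈ U, (∀ y ∈ U, Q y = 0) → β a x = 0)
    (hdim : Module.finrank (ZMod 3) V < Module.finrank (ZMod 3) U + Module.finrank (ZMod 3) A) :
    ∃ x ∈ U, Q x ≠ 0 := by
  by_contra! hall
  have hle : U ≤ LinearMap.BilinForm.orthogonal β A := fun x hx a ha => hAU a ha x hx hall
  have h1 := Submodule.finrank_mono hle
  rw [LinearMap.BilinForm.finrank_orthogonal hB] at h1
  have h2 := A.finrank_le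
  omega

lemma finrank_inf_ker (U : Submodule (ZMod 3) V) (f : V →ₗ[ZMod 3] ZMod 3) :
    Module.finrank (ZMod 3) U ≤ Module.finrank (ZMod 3) (U ⊓ LinearMap.ker f : Submodule (ZMod 3) V) + 1 := by
  have h1 := (f.comp U.subtype).finrank_range_add_finrank_ker
  have h2 := (LinearMap.range (f.comp U.subtype)).finrank_le
  rw [Module.finrank_self] at h2
  have h3 : (LinearMap.ker (f.comp U.subtype)).map U.subtype ≤ U ⊓ LinearMap.ker f := by
    rintro x ⟨y, hy, rfl⟩
    exact ⟨y.2, hy⟩
  have h4 := Submodule.finrank_mono h3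
  rw [Submodule.finrank_map_subtype_eq] at h4
  omega

/-- A vector of any prescribed nonzero value orthogonal to two given anisotropic vectors. -/
lemma exists_orth_value (hB : (QuadraticMap.polarBilin Q).Nondegenerate) (hn : 5 ≤ Module.finrank (ZMod 3) V)
    (v w : V) (hv : Q v ≠ 0) (d : ZMod 3) (hd : d ≠ 0) : ∃ z, Q z = d ∧ β v z = 0 ∧ β w z = 0 := by
  set W := LinearMap.ker (β v) ⊓ LinearMap.ker (β w) with hW
  have htop : Module.finrank (ZMod 3) (⊤ : Submodule (ZMod 3) V) = Module.finrank (ZMod 3) V := finrank_top _ _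
  have hW1 : Module.finrank (ZMod 3) V ≤ Module.finrank (ZMod 3) W + 2 := by
    have e1 := finrank_inf_ker (⊤ : Submodule (ZMod 3) V) (β v)
    rw [top_inf_eq, htop] at e1
    have e2 := finrank_inf_ker (LinearMap.ker (β v)) (β w)
    rw [← hW] at e2
    omega
  have hsing : ∀ U : Submodule (ZMod 3) V, (∀ y ∈ U, Q y = 0) → ∀ x ∈ U, ∀ y ∈ U, β x y = 0 := by
    intro U h x hx y hy
    have h1 := Witt.quad_add Q x y
    rw [h _ (add_mem hx hy), h _ hx, h _ hy, zero_add, zero_add] at h1
    exact h1.symm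
  have hvW : v ∉ W := fun h => hv (by
    have h1 : β v v = 0 := h.1
    rw [Witt.polar_self'] at h1
    exact (mul_eq_zero.1 h1).resolve_left (by decide))
  have hWv : Module.finrank (ZMod 3) W + 1 ≤
      Module.finrank (ZMod 3) (W ⊔ Submodule.span (ZMod 3) {v} : Submodule (ZMod 3) V) :=
    Submodule.finrank_lt_finrank_of_lt (lt_of_le_of_ne le_sup_left fun h => hvW (by
      rw [h]; exact Submodule.mem_sup_right (Submodule.mem_span_singleton_self v)))
  have hvperp : ∀ x ∈ W, ∀ a ∈ Submodule.span (ZMod 3) {v}, β a x = 0 := by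
    intro x hx a ha
    obtain ⟨t, rfl⟩ := Submodule.mem_span_singleton.1 ha
    rw [map_smul, LinearMap.smul_apply, show β v x = 0 from hx.1, smul_zero]
  obtain ⟨p, hp, hp0⟩ := exists_aniso hB (W ⊔ Submodule.span (ZMod 3) {v}) W (fun a ha x hx h => by
    obtain ⟨a1, ha1, a2, ha2, rfl⟩ := Submodule.mem_sup.1 ha
    rw [map_add, LinearMap.add_apply, hsing W h a1 ha1 x hx, hvperp x hx a2 ha2, add_zero]) (by omega)
  set U := W ⊓ LinearMap.ker (β p) with hU
  have hU1 := finrank_inf_ker W (β p)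
  rw [← hU] at hU1
  have hpp : β p p ≠ 0 := by rw [Witt.polar_self']; exact mul_ne_zero (by decide) hp0
  obtain ⟨q, hq, hq0⟩ := exists_aniso hB (W ⊔ Submodule.span (ZMod 3) {v}) U (fun a ha x hx h => by
    obtain ⟨a1, ha1, a2, ha2, rfl⟩ := Submodule.mem_sup.1 ha
    rw [map_add, LinearMap.add_apply, hvperp x hx.1 a2 ha2, add_zero]
    have hy : a1 - (β p a1 / β p p) • p ∈ U :=
      ⟨W.sub_mem ha1 (W.smul_mem _ hp), show β p (a1 - (β p a1 / β p p) • p) = 0 by
        rw [map_sub, map_smul, smul_eq_mul, div_mul_cancel₀ _ hpp, sub_self]⟩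
    have h1 := hsing U h _ hy x hx
    rw [map_sub, map_smul, LinearMap.sub_apply, LinearMap.smul_apply, show β p x = 0 from hx.2, smul_zero,
      sub_zero] at h1
    exact h1) (by omega)
  have hthree : ∀ a e : ZMod 3, a ≠ 0 → e ≠ 0 → a ≠ e → a = -e := by decide
  by_cases hpd : Q p = d
  · exact ⟨p, hpd, hp.1, hp.2⟩
  by_cases hqd : Q q = d
  · exact ⟨q, hqd, hq.1.1, hq.1.2⟩
  refine ⟨p + q, ?_, ?_, ?_⟩
  · rw [Witt.quad_add, show β p q = 0 from hq.2, hthree _ _ hp0 hd hpd, hthree _ _ hq0 hd hqd]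
    clear * - d
    revert d
    decide
  · rw [map_add, show β v p = 0 from hp.1, show β v q = 0 from hq.1.1, add_zero]
  · rw [map_add, show β w p = 0 from hp.2, show β w q = 0 from hq.1.2, add_zero]

/-- Two orthogonal reflections of one norm are two orthogonal reflections of the other norm. -/
lemma refl_mul_refl_orth {v w : V} (h : Q v = Q w) (hq : Q v ≠ 0) (hvw : β v w = 0) :
    refl Q v * refl Q w = refl Q (v + w) * refl Q (v - w) := by
  have hwv : β w v = 0 := (Witt.polar_symm' Q w v).trans hvw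
  have e1 : Q (v + w) = 2 * Q v := by rw [Witt.quad_add, hvw, ← h]; ring
  have e2 : Q (v - w) = 2 * Q v := by
    rw [sub_eq_add_neg, Witt.quad_add, QuadraticMap.map_neg, map_neg, hvw, ← h]; ring
  refine Subtype.ext (LinearEquiv.ext fun x => ?_)
  show (refl Q v).1 ((refl Q w).1 x) = (refl Q (v + w)).1 ((refl Q (v - w)).1 x)
  rw [refl_apply Q w x, refl_apply Q v, refl_apply Q (v - w) x, refl_apply Q (v + w)]
  simp only [e1, e2, ← h, map_sub, map_add, map_smul, LinearMap.add_apply, LinearMap.sub_apply, smul_eq_mul,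
    hvw, hwv, Witt.polar_self']
  have h2 : (2 : ZMod 3)⁻¹ = 2 := inv_eq_of_mul_eq_one_right (by decide)
  rw [mul_inv, h2]
  have h3 : (3 : ZMod 3) = 0 := by decide
  match_scalars <;> ring_nf <;> reduce_mod_char

lemma isSquare_iff : ∀ c : ZMod 3, c ≠ 0 → (IsSquare c ↔ ¬ IsSquare (-c)) := by decide

theorem refl_closure_index (hB : (QuadraticMap.polarBilin Q).Nondegenerate) [Finite V]
    (hn : 5 ≤ Module.finrank (ZMod 3) V) (c : ZMod 3) (hc : c ≠ 0) :
    (Subgroup.closure {g : Witt.quadIso Q | ∃ v, Q v = c ∧ g = refl Q v}).index = 2 := by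
  set H := Subgroup.closure {g : Witt.quadIso Q | ∃ v, Q v = c ∧ g = refl Q v} with hH
  have h2 : (2 : ZMod 3) ≠ 0 := by decide
  have hthree : ∀ a e : ZMod 3, a ≠ 0 → e ≠ 0 → a ≠ e → a = -e := by decide
  have hex : (∃ c : ZMod 3, c ≠ 0 ∧ c ≠ 1) ∨ Module.finrank (ZMod 3) V ≠ 4 := Or.inl ⟨2, by decide, by decide⟩
  have hmem : ∀ v, Q v = c → refl Q v ∈ H := fun v hv => Subgroup.subset_closure ⟨v, hv, rfl⟩
  have hnorm : H.Normal := by
    rw [hH, ← Subgroup.normalizer_eq_top_iff, eq_top_iff]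
    intro g _
    have key : ∀ g : Witt.quadIso Q, ∀ x ∈ H, g * x * g⁻¹ ∈ H := by
      intro g x hx
      have h1 : H ≤ H.comap (MulAut.conj g).toMonoidHom := by
        rw [hH, Subgroup.closure_le]
        rintro _ ⟨v, hv, rfl⟩
        show g * refl Q v * g⁻¹ ∈ H
        rw [conj_refl]
        exact hmem _ (by rw [g.2 v, hv])
      exact h1 hx
    refine Subgroup.mem_normalizer_iff.2 fun x => ⟨key g x, fun h => ?_⟩
    have := key g⁻¹ _ h
    simpa [mul_assoc] using this
  have horth : ∀ v w, Q v = -c → Q w = -c → QuadraticMap.polarBilin Q v w = 0 → refl Q v * refl Q w ∈ H := by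
    intro v w hv hw hvw
    rw [refl_mul_refl_orth (hv.trans hw.symm) (by rw [hv]; exact neg_ne_zero.2 hc) hvw]
    have e : ∀ c : ZMod 3, -c + -c = c := by decide
    refine H.mul_mem (hmem _ ?_) (hmem _ ?_)
    · rw [Witt.quad_add, hv, hw, hvw, add_zero]; exact e c
    · rw [sub_eq_add_neg, Witt.quad_add, QuadraticMap.map_neg, map_neg, hv, hw, hvw, neg_zero, add_zero]; exact e c
  have hpair : ∀ v w, Q v = -c → Q w = -c → refl Q v * refl Q w ∈ H := by
    intro v w hv hw
    obtain ⟨z, hz, hvz, hwz⟩ := exists_orth_value hB hn v w (by rw [hv]; exact neg_ne_zero.2 hc) (-c) (neg_ne_zero.2 hc)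
    have := H.mul_mem (horth v z hv hz hvz) (horth z w hz hw ((Witt.polar_symm' Q z w).trans hwz))
    rwa [mul_assoc, ← mul_assoc (refl Q z), refl_mul_self, one_mul] at this
  obtain ⟨v0, hv0⟩ := Spinor.exists_value hB h2 (by omega) (-c)
  obtain ⟨χ, hχc, hχ0⟩ : ∃ χ : Witt.quadIso Q →* ℤˣ, (∀ v, Q v = c → χ (refl Q v) = 1) ∧ χ (refl Q v0) = -1 := by
    have hth : ∀ v, Q v ≠ 0 → ¬ IsSquare (Q v) → Spinor.theta (refl Q v) = 1 := fun v hv hs =>
      (Int.units_eq_one_or _).resolve_right fun h => hs ((Spinor.theta_refl h2 hv).1 h)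
    by_cases hs : IsSquare c
    · refine ⟨Spinor.delta hB hex * Spinor.theta, fun v hv => ?_, ?_⟩
      · rw [MonoidHom.mul_apply, Spinor.delta_refl hB hex (by rw [hv]; exact hc),
          (Spinor.theta_refl h2 (by rw [hv]; exact hc)).2 (hv ▸ hs)]
        rfl
      · rw [MonoidHom.mul_apply, Spinor.delta_refl hB hex (by rw [hv0]; exact neg_ne_zero.2 hc),
          hth v0 (by rw [hv0]; exact neg_ne_zero.2 hc) ?_]
        · rfl
        · rw [hv0]
          exact fun h' => (isSquare_iff c hc).1 hs h'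
    · refine ⟨Spinor.theta, fun v hv => hth v (by rw [hv]; exact hc) (hv ▸ hs), ?_⟩
      refine (Spinor.theta_refl h2 (by rw [hv0]; exact neg_ne_zero.2 hc)).2 ?_
      rw [hv0]
      exact not_not.1 fun h' => hs ((isSquare_iff c hc).2 h')
  have hle : H ≤ χ.ker := by
    rw [hH, Subgroup.closure_le]
    rintro _ ⟨v, hv, rfl⟩
    exact hχc v hv
  have hcov : ∀ g, g ∈ H ∨ refl Q v0 * g ∈ H := by
    refine Spinor.induction_refl hB hex (Or.inl H.one_mem) fun v g hv ih => ?_
    by_cases hvc : Q v = c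
    · rcases ih with h | h
      · exact Or.inl (H.mul_mem (hmem v hvc) h)
      · refine Or.inr ?_
        have h1 := H.mul_mem (hnorm.conj_mem _ (hmem v hvc) (refl Q v0)) h
        rwa [refl_inv, mul_assoc, ← mul_assoc (refl Q v0) (refl Q v0) g, refl_mul_self, one_mul, mul_assoc] at h1
    · have hv' := hthree _ _ hv hc hvc
      rcases ih with h | h
      · refine Or.inr ?_
        rw [← mul_assoc]
        exact H.mul_mem (hpair v0 v hv0 hv') h
      · refine Or.inl ?_
        have h1 := H.mul_mem (hpair v v0 hv' hv0) h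
        rwa [mul_assoc, ← mul_assoc (refl Q v0) (refl Q v0) g, refl_mul_self, one_mul] at h1
  have hker : H = χ.ker := le_antisymm hle fun g hg => (hcov g).resolve_right fun h => by
    have h1 : χ (refl Q v0 * g) = 1 := hle h
    rw [map_mul, hχ0, show χ g = 1 from hg, mul_one] at h1
    exact absurd h1 (by decide)
  have hsurj : Function.Surjective χ := fun u => by
    rcases Int.units_eq_one_or u with rfl | rfl
    · exact ⟨1, map_one χ⟩
    · exact ⟨_, hχ0⟩
  rw [hker, Subgroup.index_ker, MonoidHom.range_eq_top.2 hsurj, Subgroup.card_top, Nat.card_eq_fintype_card]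
  rfl

end


/-- Let Q be a non-degenerate quadratic form on the n-dimensional coordinate space over the field with three elements, n odd and at least 5, and c a non-zero scalar. Then the subgroup of the isometry group of Q generated by the reflections in vectors of norm c has index 2 in the isometry group. -/
theorem result (n : ℕ) (hn : 5 ≤ n) (hodd : Odd n) (Q : QuadraticForm (ZMod 3) (Fin n → ZMod 3)) (hQ : (QuadraticMap.polarBilin Q).Nondegenerate) (c : ZMod 3) (hc : c ≠ 0) : (Cfsg.reflectionSubgroup (⇑Q) c).index = 2 := by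
  classical
  let e := OrthMatrix.eI (f := ⇑Q) (Q := Q) (fun _ => rfl)
  have h := refl_closure_index hQ (by rw [Module.finrank_fintype_fun_eq_card, Fintype.card_fin]; omega) c hc
  have heq : (Cfsg.reflectionSubgroup (⇑Q) c).map e.toMonoidHom =
      Subgroup.closure {g : Witt.quadIso Q | ∃ v, Q v = c ∧ g = refl Q v} := by
    rw [Cfsg.reflectionSubgroup, MonoidHom.map_closure]
    congr 1
    ext g
    constructor
    · rintro ⟨x, ⟨v, hv, hx⟩, rfl⟩
      exact ⟨v, hv, (OrthMatrix.eI_eq_refl_iff (f := ⇑Q) (Q := Q) (fun _ => rfl) x v).2 hx⟩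
    · rintro ⟨v, hv, rfl⟩
      exact ⟨e.symm (refl Q v), ⟨v, hv,
        (OrthMatrix.eI_eq_refl_iff (f := ⇑Q) (Q := Q) (fun _ => rfl) _ v).1 (e.apply_symm_apply _)⟩, e.apply_symm_apply _⟩
  rw [← heq] at h
  exact (Subgroup.index_map_equiv _ e).symm.trans h

end Cfsg.Agent.S5359
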