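import Cfsg.Statements.S5363
import Mathlib
import Cfsg.Agent.Lib.ThreeT.Basic

set_option autoImplicit false
open Cfsg

namespace Cfsg.Agent.S5363

/-- Let D be a conjugation-invariant set of involutions of a finite group G. Then every product of two members of D has odd order or order 2 if and only if, for every a in D and every b in D different from a and commuting with a, the members of D commuting with a b are exactly those commuting with both a and b. -/
theorem result {G : Type*} [Group G] [Finite G] {D : Set G} (hinv : ∀ d ∈ D, orderOf d = 2) (hconj : ∀ g : G, ∀ d ∈ D, g * d * g⁻¹ ∈ D) : (∀ a ∈ D, ∀ b ∈ D, Odd (orderOf (a * b)) ∨ orderOf (a * b) = 2) ↔ ∀ a ∈ D, ∀ b ∈ D, b ≠ a → Commute a b → {y : G | y ∈ D ∧ Commute (a * b) y} = {y : G | y ∈ D ∧ Commute a y} ∩ {y : G | y ∈ D ∧ Commute b y} := by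
  constructor
  · intro h a ha b hb hba hab
    ext y
    simp only [Set.mem_setOf_eq, Set.mem_inter_iff]
    constructor
    · rintro ⟨hy, hcy⟩
      exact ⟨⟨hy, (Lib.ThreeT.commute_left_of_commute_mul (hinv a ha) (hinv b hb) (hinv y hy)
        hba.symm hab (h y hy a ha) (h y hy b hb) hcy.symm).symm⟩, hy,
        (Lib.ThreeT.commute_left_of_commute_mul (hinv b hb) (hinv a ha) (hinv y hy)
        hba hab.symm (h y hy b hb) (h y hy a ha) (hab.eq ▸ hcy.symm)).symm⟩
    · rintro ⟨⟨hy, h1⟩, -, h2⟩
      exact ⟨hy, h1.mul_left h2⟩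
  · intro h a ha b hb
    rcases Nat.even_or_odd (orderOf (a * b)) with ⟨m, hm⟩ | hodd
    swap
    · exact Or.inl hodd
    right
    have ha2 := Lib.ThreeT.mul_self (hinv a ha)
    have hb2 := Lib.ThreeT.mul_self (hinv b hb)
    have hai := Lib.ThreeT.inv_self (hinv a ha)
    have hbi := Lib.ThreeT.inv_self (hinv b hb)
    set r := a * b with hr
    have hm0 : 0 < m := by have := orderOf_pos r; omega
    set z := r ^ m with hz
    have hzz : z * z = 1 := by rw [hz, ← pow_add, ← hm, pow_orderOf_eq_one]
    have hz1 : z ≠ 1 := pow_ne_one_of_lt_orderOf hm0.ne' (by omega)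
    have hrinv : ∀ k : ℕ, a * r ^ k * a = (r ^ k)⁻¹ := by
      intro k
      have h := conj_pow (i := k) (a := a) (b := r)
      rw [hai] at h
      rw [← h, ← inv_pow, hr, mul_inv_rev, hai, hbi, ← mul_assoc, ha2, one_mul]
    have hza : Commute z a := by
      show z * a = a * z
      calc z * a = a * (a * z * a) := by simp only [mul_assoc, Lib.ThreeT.cancel ha2]
        _ = a * z := by rw [hz, hrinv, ← hz, inv_eq_of_mul_eq_one_right hzz]
    have hzb : Commute z b := by
      have : b = a * r := by rw [hr, Lib.ThreeT.cancel ha2]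
      rw [this]
      exact hza.mul_right ((Commute.refl r).pow_left m)
    have hshift : ∀ k : ℕ, r ^ k * a * (r ^ k)⁻¹ = r ^ (k + k) * a := by
      intro k
      rw [← hrinv k, pow_add]; simp only [mul_assoc, Lib.ThreeT.cancel ha2]
    have hazD : z * a ∈ D := by
      rcases Nat.even_or_odd m with ⟨k, hk⟩ | ⟨k, hk⟩
      · rw [hz, hk, ← hshift k]
        exact hconj _ _ ha
      · have h1 : r ^ (k + 1) * b * (r ^ (k + 1))⁻¹ ∈ D := hconj _ _ hb
        have hb' : b = r⁻¹ * a := by rw [hr, mul_inv_rev, hai, hbi, mul_assoc, ha2, mul_one]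
        rw [hb', ← mul_assoc, mul_assoc _ a, pow_succ r k] at h1
        have : r ^ k * r * r⁻¹ * (a * (r ^ k * r)⁻¹) = r ^ m * a := by
          rw [mul_inv_cancel_right, ← pow_succ, ← hrinv (k + 1), hk,
            show 2 * k + 1 = k + (k + 1) by omega, pow_add r k (k + 1)]
          simp only [mul_assoc, Lib.ThreeT.cancel ha2]
        rw [this] at h1
        exact h1
    have hset := h a ha (z * a) hazD (by simpa using hz1) ((hza.symm).mul_right (Commute.refl a))
    have hazz : a * (z * a) = z := by rw [hza.eq, Lib.ThreeT.cancel ha2]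
    have hb' : b ∈ {y : G | y ∈ D ∧ Commute (a * (z * a)) y} := ⟨hb, by rw [hazz]; exact hzb⟩
    rw [hset] at hb'
    have hab : Commute a b := hb'.1.2
    have h2 : r ^ 2 = 1 := by rw [hr]; exact (Lib.ThreeT.commute_iff_sq (hinv a ha) (hinv b hb)).1 hab
    rcases (Nat.dvd_prime Nat.prime_two).1 (orderOf_dvd_of_pow_eq_one h2) with h3 | h3
    · omega
    · exact h3

end Cfsg.Agent.S5363
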