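import Cfsg.Statements.S5364
import Mathlib
import Cfsg.Agent.Lib.ThreeT.Basic

set_option autoImplicit false
open Cfsg

namespace Cfsg.Agent.S5364

/-- Let D be a conjugation-invariant set of involutions of a finite group G and t an involution in the centre of G such that d t does not lie in D for any d in D. If the images of the members of D in G modulo the subgroup generated by t satisfy the 3-transposition order conditions (each has order 2 and any two have product of order at most 3), then so do the members of D. -/
theorem result {G : Type*} [Group G] [Finite G] {D : Set G} (hinv : ∀ d ∈ D, orderOf d = 2) (hconj : ∀ g : G, ∀ d ∈ D, g * d * g⁻¹ ∈ D) (t : G) (ht : orderOf t = 2) (htZ : t ∈ Subgroup.center G) (hDt : ∀ d ∈ D, d * t ∉ D) [(Subgroup.zpowers t).Normal] (himg : Cfsg.IsThreeTranspositionSet ((QuotientGroup.mk : G → G ⧸ Subgroup.zpowers t) '' D)) : Cfsg.IsThreeTranspositionSet D := by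
  refine ⟨hinv, fun d hd e he => ?_⟩
  have hdd := Lib.ThreeT.mul_self (hinv d hd)
  have hee := Lib.ThreeT.mul_self (hinv e he)
  have hdi := Lib.ThreeT.inv_self (hinv d hd)
  have hei := Lib.ThreeT.inv_self (hinv e he)
  have htt := Lib.ThreeT.mul_self ht
  have htc : ∀ g : G, g * t = t * g := fun g => Subgroup.mem_center_iff.1 htZ g
  have hmem : ∀ x : G, (x : G ⧸ Subgroup.zpowers t) = 1 → x = 1 ∨ x = t := by
    intro x hx
    rw [QuotientGroup.eq_one_iff] at hx
    obtain ⟨k, rfl⟩ := hx
    rcases Int.even_or_odd k with ⟨j, rfl⟩ | ⟨j, rfl⟩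
    · left; show t ^ (j + j) = 1
      rw [← two_mul, zpow_mul, zpow_two, htt, one_zpow]
    · right; show t ^ (2 * j + 1) = t
      rw [zpow_add, zpow_mul, zpow_two, htt, one_zpow, one_mul, zpow_one]
  rcases himg.2 _ ⟨d, hd, rfl⟩ _ ⟨e, he, rfl⟩ with h | h
  · rcases hmem ((d * e) ^ 2) (by simpa using h) with h' | h'
    · exact Or.inl h'
    · exfalso
      refine hDt d hd ?_
      have : d * t = e * d * e⁻¹ := by
        rw [← h', sq, hei]; simp only [mul_assoc, Lib.ThreeT.cancel hdd]
      rw [this]; exact hconj e d hd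
  · rcases hmem ((d * e) ^ 3) (by simpa using h) with h' | h'
    · exact Or.inr h'
    · exfalso
      refine hDt _ (hconj d e he) ?_
      have : d * e * d⁻¹ * t = e * d * e⁻¹ := by
        rw [← h', pow_succ, pow_succ, pow_one, hdi, hei]
        simp only [mul_assoc, Lib.ThreeT.cancel hdd, Lib.ThreeT.cancel hee]
      rw [this]; exact hconj e d hd

end Cfsg.Agent.S5364
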