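import Cfsg.Statements.S5366
import Cfsg.Agent.Lib.Fischer.Space

set_option autoImplicit false
open Cfsg

namespace Cfsg.Agent.S5366

/-- Let L be a nondegenerate Fischer space on the point type X (every point on a line). Then for every point x the map t(x) — sending a point collinear with x to the third point of their common line and fixing every other point — is a permutation of X of order 2 and an automorphism of the line system; and the set of all t(x) satisfies the 3-transposition order conditions in the permutation group of X (any two have product of order at most 3). -/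
theorem result {X : Type*} (L : Set (Set X)) (hL : Cfsg.IsFischerSpace L) (hnd : Cfsg.LineSystem.IsNondegenerate L) : (∀ x : X, ∃ σ : Equiv.Perm X, ⇑σ = Cfsg.LineSystem.lineMap L x ∧ orderOf σ = 2 ∧ Cfsg.LineSystem.IsIso L L σ) ∧ Cfsg.IsThreeTranspositionSet {σ : Equiv.Perm X | ∃ x : X, ⇑σ = Cfsg.LineSystem.lineMap L x} := by
  classical
  obtain ⟨hP, h3, hplane⟩ := hL
  have hinv := fun x => Cfsg.Lib.Fischer.lineMap_involutive hP h3 x
  have himg : ∀ x : X, ∀ l ∈ L, Cfsg.LineSystem.lineMap L x '' l ∈ L := by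
    intro x l hl
    by_cases hxl : x ∈ l
    · have hsub : Cfsg.LineSystem.lineMap L x '' l ⊆ l := by
        rintro _ ⟨y, hy, rfl⟩
        by_cases hxy : x = y
        · rw [← hxy, Cfsg.Lib.Fischer.lineMap_self]; exact hxl
        · exact (Cfsg.Lib.Fischer.lineMap_line hP h3 hl hxl hy hxy).1
      have : Cfsg.LineSystem.lineMap L x '' l = l := by
        refine Set.Subset.antisymm hsub fun z hz => ⟨Cfsg.LineSystem.lineMap L x z, ?_, hinv x z⟩
        exact hsub ⟨z, hz, rfl⟩
      rwa [this]
    · by_cases hc : ∃ y ∈ l, Cfsg.LineSystem.Collinear L x y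
      · obtain ⟨y, hyl, hne, m, hm, hxm, hym⟩ := hc
        have hlm : l ≠ m := fun h => hxl (h ▸ hxm)
        have hsub := Cfsg.Lib.Fischer.subset_span (L := L) (l ∪ m)
        rcases hplane l hl m hm hlm ⟨y, hyl, hym⟩ with hi | hi
        · exact Cfsg.Lib.Fischer.image_mem_of_model Cfsg.Lib.Fischer.dualThird_op hP h3
            (Cfsg.Lib.Fischer.isSubspace_span _) hi (hsub (Or.inr hxm)) hl fun z hz => hsub (Or.inl hz)
        · exact Cfsg.Lib.Fischer.image_mem_of_model Cfsg.Lib.Fischer.affThird_op hP h3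
            (Cfsg.Lib.Fischer.isSubspace_span _) hi (hsub (Or.inr hxm)) hl fun z hz => hsub (Or.inl hz)
      · push Not at hc
        have : Cfsg.LineSystem.lineMap L x '' l = l := by
          ext z
          constructor
          · rintro ⟨y, hy, rfl⟩; rw [Cfsg.Lib.Fischer.lineMap_of_not (hc y hy)]; exact hy
          · exact fun hz => ⟨z, hz, Cfsg.Lib.Fischer.lineMap_of_not (hc z hz)⟩
        rwa [this]
  let t : X → Equiv.Perm X := fun x => Function.Involutive.toPerm _ (hinv x)
  have hiso : ∀ x, Cfsg.LineSystem.IsIso L L (t x) := by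
    intro x l
    refine ⟨fun hl => himg x l hl, fun hl => ?_⟩
    have := himg x _ hl
    rwa [show Cfsg.LineSystem.lineMap L x '' (⇑(t x) '' l) = l by
      show Cfsg.LineSystem.lineMap L x '' (Cfsg.LineSystem.lineMap L x '' l) = l
      rw [Set.image_image]; simp only [hinv x _]; exact Set.image_id' l] at this
  have hsq : ∀ x, t x * t x = 1 := fun x => Equiv.ext (hinv x)
  have hconj : ∀ (σ : Equiv.Perm X), Cfsg.LineSystem.IsIso L L σ → ∀ y, σ * t y * σ⁻¹ = t (σ y) := by
    intro σ hσ y
    refine mul_inv_eq_of_eq_mul (Equiv.ext fun v => ?_)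
    show σ (Cfsg.LineSystem.lineMap L y v) = Cfsg.LineSystem.lineMap L (σ y) (σ v)
    by_cases h : Cfsg.LineSystem.Collinear L y v
    · obtain ⟨hne, l, hl, hy, hv⟩ := h
      obtain ⟨h1, h2, h2'⟩ := Cfsg.Lib.Fischer.lineMap_line hP h3 hl hy hv hne
      exact (Cfsg.Lib.Fischer.lineMap_of_line hP h3 ((hσ l).1 hl) ⟨y, hy, rfl⟩ ⟨v, hv, rfl⟩ ⟨_, h1, rfl⟩
        (σ.injective.ne hne) (σ.injective.ne h2) (σ.injective.ne h2')).symm
    · rw [Cfsg.Lib.Fischer.lineMap_of_not h, Cfsg.Lib.Fischer.lineMap_of_not]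
      rintro ⟨hne, l, hl, hy, hv⟩
      refine h ⟨fun e => hne (e ▸ rfl), σ ⁻¹' l, (hσ _).2 ?_, hy, hv⟩
      rwa [Set.image_preimage_eq _ σ.surjective]
  have hti : ∀ x, (t x)⁻¹ = t x := fun x => inv_eq_of_mul_eq_one_right (hsq x)
  have hord : ∀ x, orderOf (t x) = 2 := by
    intro x
    refine orderOf_eq_prime (by rw [pow_two]; exact hsq x) fun h => ?_
    obtain ⟨l, hl, hxl⟩ := hnd x
    obtain ⟨y, hy, hyx, -⟩ := Cfsg.Lib.Fischer.exists_third h3 hl x x
    exact (Cfsg.Lib.Fischer.lineMap_line hP h3 hl hxl hy hyx.symm).2.2 (DFunLike.congr_fun h y)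
  refine ⟨fun x => ⟨t x, rfl, hord x, hiso x⟩, ?_, ?_⟩
  · rintro σ ⟨x, hx⟩
    rw [show σ = t x from DFunLike.coe_injective hx]
    exact hord x
  · rintro σ ⟨x, hx⟩ τ ⟨y, hy⟩
    rw [show σ = t x from DFunLike.coe_injective hx, show τ = t y from DFunLike.coe_injective hy]
    have hxy := hconj (t x) (hiso x) y
    have hyx := hconj (t y) (hiso y) x
    rw [hti] at hxy hyx
    by_cases h : Cfsg.LineSystem.Collinear L x y
    · right
      obtain ⟨hne, l, hl, hxl, hyl⟩ := h
      obtain ⟨h1, h2, h2'⟩ := Cfsg.Lib.Fischer.lineMap_line hP h3 hl hxl hyl hne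
      have he : Cfsg.LineSystem.lineMap L y x = Cfsg.LineSystem.lineMap L x y :=
        Cfsg.Lib.Fischer.lineMap_of_line hP h3 hl hyl hxl h1 hne.symm h2' h2
      have he' : t y * t x * t y = t x * t y * t x :=
        hyx.trans ((congrArg t he).trans hxy.symm)
      calc (t x * t y) ^ 3 = t x * t y * t x * (t y * t x * t y) := by rw [pow_three]; group
        _ = t x * t y * (t x * t x) * t y * t x := by rw [he']; group
        _ = 1 := by rw [hsq, mul_one, mul_assoc (t x), hsq, mul_one, hsq]
    · left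
      have hfix : t x * t y * t x = t y := hxy.trans (congrArg t (Cfsg.Lib.Fischer.lineMap_of_not h))
      rw [pow_two, ← mul_assoc, hfix, hsq]

end Cfsg.Agent.S5366
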