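import Cfsg.Statements.S5367
-- import your own Cfsg.Agent.* helpers here

set_option autoImplicit false
open Cfsg

namespace Cfsg.Agent.S5367

open Cfsg.LineSystem

variable {G : Type*} [Group G] {D : Set G}

def ln (x y : D) : Set D :=
  {z : D | (z : G) = x ∨ (z : G) = y ∨ (z : G) = (y : G) * (x : G) * (y : G)⁻¹}

theorem sq_one (hD : IsThreeTranspositionGroup D) (x : D) : (x : G) * x = 1 := by
  rw [← pow_two, ← hD.1.1 x x.2, pow_orderOf_eq_one]

theorem inv_self (hD : IsThreeTranspositionGroup D) (x : D) : (x : G)⁻¹ = x :=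
  inv_eq_of_mul_eq_one_right (sq_one hD x)

theorem sq_cancel (hD : IsThreeTranspositionGroup D) (x : D) (g : G) : (x : G) * ((x : G) * g) = g := by
  rw [← mul_assoc, sq_one hD, one_mul]

/-- conjugate of `q` by `p` -/
def cj (hD : IsThreeTranspositionGroup D) (p q : D) : D :=
  ⟨(p : G) * q * (p : G)⁻¹, hD.2.1 p q q.2⟩

theorem cj_coe (hD : IsThreeTranspositionGroup D) (p q : D) : (cj hD p q : G) = (p : G) * q * p := by
  show (p : G) * q * (p : G)⁻¹ = _
  rw [inv_self hD]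

theorem cj_cj (hD : IsThreeTranspositionGroup D) (p q : D) : cj hD p (cj hD p q) = q := by
  refine Subtype.ext ?_
  simp only [cj_coe, mul_assoc, sq_cancel hD, sq_one hD, mul_one]

theorem cj_distrib (hD : IsThreeTranspositionGroup D) (p q r : D) :
    cj hD p (cj hD q r) = cj hD (cj hD p q) (cj hD p r) := by
  refine Subtype.ext ?_
  simp only [cj_coe, mul_assoc, sq_cancel hD]

theorem cj_of_comm (hD : IsThreeTranspositionGroup D) {p q : D} (h : Commute (p : G) q) : cj hD p q = q := by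
  refine Subtype.ext ?_
  rw [cj_coe, h.eq, mul_assoc, sq_one hD, mul_one]

theorem comm_of_cj (hD : IsThreeTranspositionGroup D) {p q : D} (h : cj hD p q = q) : Commute (p : G) q := by
  have h' : (p : G) * q * p = q := by rw [← cj_coe hD, h]
  calc (p : G) * q = (p : G) * q * p * p := by rw [mul_assoc, sq_one hD, mul_one]
    _ = q * p := by rw [h']

theorem braid (hD : IsThreeTranspositionGroup D) {p q : D} (h : ¬ Commute (p : G) q) :
    cj hD p q = cj hD q p := by
  refine Subtype.ext ?_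
  rcases hD.1.2 p p.2 q q.2 with h2 | h3
  · exfalso
    refine h ?_
    calc (p : G) * q = ((p : G) * q)⁻¹ := eq_inv_of_mul_eq_one_left (by rw [← pow_two, h2])
      _ = q * p := by rw [_root_.mul_inv_rev, inv_self hD, inv_self hD]
  · rw [cj_coe, cj_coe]
    have e : ((p : G) * q * p) * ((q : G) * p * q) = 1 := by rw [← h3, pow_three]; group
    calc (p : G) * q * p = ((q : G) * p * q)⁻¹ := eq_inv_of_mul_eq_one_left e
      _ = q * p * q := by simp only [_root_.mul_inv_rev, inv_self hD, mul_assoc]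

theorem not_comm_cj (hD : IsThreeTranspositionGroup D) (p : D) {q r : D} (h : ¬ Commute (q : G) r) :
    ¬ Commute (cj hD p q : G) (cj hD p r) := fun hc =>
  h (comm_of_cj hD (by
    have := congrArg (cj hD p) (cj_of_comm hD hc)
    rwa [cj_distrib, cj_cj, cj_cj] at this))

theorem not_comm_self_cj (hD : IsThreeTranspositionGroup D) {p q : D} (h : ¬ Commute (p : G) q) :
    ¬ Commute (p : G) (cj hD p q) := fun hc => by
  refine h (comm_of_cj hD ?_)
  have h1 := cj_of_comm hD hc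
  rw [cj_cj] at h1
  exact h1.symm

theorem cj_ne_left (hD : IsThreeTranspositionGroup D) {p q : D} (h : ¬ Commute (p : G) q) :
    cj hD p q ≠ p := fun e => not_comm_self_cj hD h (by rw [e])

theorem cj_ne_right (hD : IsThreeTranspositionGroup D) {p q : D} (h : ¬ Commute (p : G) q) :
    cj hD p q ≠ q := fun e => h (comm_of_cj hD e)

theorem mem_ln (hD : IsThreeTranspositionGroup D) {x y z : D} :
    z ∈ ln x y ↔ z = x ∨ z = y ∨ z = cj hD y x := by
  simp only [ln, Set.mem_setOf_eq, Subtype.ext_iff, cj]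

theorem ln_eq_of_mem (hD : IsThreeTranspositionGroup D) {x y : D} (h : ¬ Commute (x : G) y) {a b : D}
    (ha : a ∈ ln x y) (hb : b ∈ ln x y) (hab : a ≠ b) : ¬ Commute (a : G) b ∧ ln a b = ln x y := by
  have hyx : ¬ Commute (y : G) x := fun h' => h h'.symm
  have e0 := braid hD h
  have n1 : ¬ Commute (x : G) (cj hD y x) := by rw [← e0]; exact not_comm_self_cj hD h
  have n2 : ¬ Commute (y : G) (cj hD y x) := not_comm_self_cj hD hyx
  have e1 : cj hD (cj hD y x) x = y := by rw [← braid hD n1, ← e0, cj_cj]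
  have e2 : cj hD (cj hD y x) y = x := by rw [← braid hD n2, cj_cj]
  have e3 : cj hD x (cj hD y x) = y := by rw [← e0, cj_cj]
  rw [mem_ln hD] at ha hb
  rcases ha with rfl | rfl | rfl <;> rcases hb with rfl | rfl | rfl <;> first | exact absurd rfl hab | skip
  · exact ⟨h, rfl⟩
  · refine ⟨n1, Set.ext fun z => ?_⟩; rw [mem_ln hD, mem_ln hD, e1]; tauto
  · refine ⟨hyx, Set.ext fun z => ?_⟩; rw [mem_ln hD, mem_ln hD, e0]; tauto
  · refine ⟨n2, Set.ext fun z => ?_⟩; rw [mem_ln hD, mem_ln hD, e2]; tauto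
  · refine ⟨fun h' => n1 h'.symm, Set.ext fun z => ?_⟩; rw [mem_ln hD, mem_ln hD, e3]; tauto
  · refine ⟨fun h' => n2 h'.symm, Set.ext fun z => ?_⟩; rw [mem_ln hD, mem_ln hD, cj_cj]; tauto

theorem left_mem_ln (x y : D) : x ∈ ln x y := Or.inl rfl
theorem right_mem_ln (x y : D) : y ∈ ln x y := Or.inr (Or.inl rfl)

/-- relations propagate to conjugates -/
theorem propagate {ι : Type*} (hD : IsThreeTranspositionGroup D) (v : ι → D) (R : ι → ι → ι) {g i k : ι}
    (hk : R g i = k) (hR : ∀ j, R k j = R g (R i (R g j)))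
    (hg : ∀ j, cj hD (v g) (v j) = v (R g j)) (hi : ∀ j, cj hD (v i) (v j) = v (R i j)) :
    ∀ j, cj hD (v k) (v j) = v (R k j) := by
  intro j
  rw [hR, ← hg, ← hi, ← hg, cj_distrib hD (v g) (v i), cj_cj, hg i, hk]

/-- non-commutation propagates to conjugates -/
theorem propagate_ne {ι : Type*} (hD : IsThreeTranspositionGroup D) (v : ι → D) (R : ι → ι → ι) {g i k : ι}
    (hk : R g i = k) (hR : ∀ j, R k j ≠ j → R i (R g j) ≠ R g j ∧ R g (R g j) = j)
    (hg : ∀ j, cj hD (v g) (v j) = v (R g j)) (hi : ∀ j, R i j ≠ j → ¬ Commute (v i : G) (v j)) :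
    ∀ j, R k j ≠ j → ¬ Commute (v k : G) (v j) := by
  intro j hj
  obtain ⟨h1, h2⟩ := hR j hj
  have := not_comm_cj hD (v g) (hi _ h1)
  rwa [hg, hg, h2, hk] at this

/-- A configuration closed under conjugation carrying the structure of a model plane. -/
theorem plane_iso {ι P : Type*} (hD : IsThreeTranspositionGroup D) (v : ι → D) (R : ι → ι → ι)
    (hv : Function.Injective v) (hop : ∀ i j, cj hD (v i) (v j) = v (R i j))
    (M : Set (Set P)) (e : ι ≃ P)
    (hM : ∀ m, m ∈ M ↔ ∃ i j, R i j ≠ j ∧ m = e '' {r | r = i ∨ r = j ∨ r = R j i})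
    (T : Set D) (hT : T = Set.range v) :
    Isomorphic (restrict (threeTranspositionLines D) T) M := by
  subst hT
  have hnc : ∀ i j, R i j ≠ j → ¬ Commute (v i : G) (v j) := fun i j h hc =>
    h (hv (by rw [← hop, cj_of_comm hD hc]))
  have hln : ∀ i j, ln (v i) (v j) = v '' {r | r = i ∨ r = j ∨ r = R j i} := by
    intro i j
    ext z
    rw [mem_ln hD, hop]
    simp [or_and_right, exists_or, eq_comm]
  refine ⟨(Equiv.ofInjective v hv).symm.trans e, fun k => ?_⟩
  have himg : ∀ A : Set ι, ((Equiv.ofInjective v hv).symm.trans e) '' {z | (z : D) ∈ v '' A} = e '' A := by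
    intro A
    ext p
    simp only [Set.mem_image, Set.mem_setOf_eq, Equiv.trans_apply]
    constructor
    · rintro ⟨z, ⟨i, hi, hz⟩, rfl⟩
      refine ⟨i, hi, congrArg e ?_⟩
      rw [Equiv.eq_symm_apply]
      exact Subtype.ext hz
    · rintro ⟨i, hi, rfl⟩
      exact ⟨⟨v i, i, rfl⟩, ⟨i, hi, rfl⟩, congrArg e ((Equiv.symm_apply_eq _).2 rfl)⟩
  constructor
  · rintro ⟨l, ⟨x, y, hxy, rfl⟩, hsub, rfl⟩
    obtain ⟨i, rfl⟩ := hsub (left_mem_ln x y)
    obtain ⟨j, rfl⟩ := hsub (right_mem_ln (v i) y)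
    refine (hM _).2 ⟨i, j, fun h => hxy (comm_of_cj hD (by rw [hop, h])), ?_⟩
    rw [← himg, ← hln]
    rfl
  · intro hk
    obtain ⟨i, j, hij, hm⟩ := (hM _).1 hk
    refine ⟨ln (v i) (v j), ⟨v i, v j, hnc i j hij, rfl⟩, ?_, ?_⟩
    · rw [hln]; exact Set.image_subset_range _ _
    · rw [← himg, ← hln] at hm
      exact ((Equiv.ofInjective v hv).symm.trans e).injective.image_injective hm

theorem span_eq_range {ι : Type*} (hD : IsThreeTranspositionGroup D) (v : ι → D) (R : ι → ι → ι)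
    (hop : ∀ i j, cj hD (v i) (v j) = v (R i j)) {S : Set D} (hS : S ⊆ Set.range v)
    (hgen : ∀ T : Set D, S ⊆ T → IsSubspace (threeTranspositionLines D) T → ∀ i, v i ∈ T) :
    span (threeTranspositionLines D) S = Set.range v := by
  refine Set.Subset.antisymm (fun z hz => Set.mem_sInter.1 hz _ ⟨hS, ?_⟩) ?_
  · rintro l ⟨x, y, hxy, rfl⟩ a ha b hb hab hal hbl
    obtain ⟨-, e⟩ := ln_eq_of_mem hD hxy hal hbl hab
    obtain ⟨i, rfl⟩ := ha
    obtain ⟨j, rfl⟩ := hb
    show ln x y ⊆ _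
    rw [← e]
    intro z hz
    rw [mem_ln hD, hop] at hz
    rcases hz with rfl | rfl | rfl <;> exact Set.mem_range_self _
  · rintro _ ⟨i, rfl⟩
    exact Set.mem_sInter.2 fun T hT => hgen T hT.1 hT.2 i

theorem cj_mem {T : Set D} (hD : IsThreeTranspositionGroup D)
    (hT : IsSubspace (threeTranspositionLines D) T) {p q : D} (hp : p ∈ T) (hq : q ∈ T)
    (h : ¬ Commute (p : G) q) : cj hD p q ∈ T := by
  refine hT (ln p q) ⟨p, q, h, rfl⟩ p hp q hq (fun e => h (e ▸ Commute.refl _)) (left_mem_ln _ _)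
    (right_mem_ln _ _) ?_
  rw [mem_ln hD, braid hD h]
  tauto

def tblDual : Fin 6 → Fin 6 → Fin 6 :=
  ![![0, 3, 4, 1, 2, 5], ![3, 1, 2, 0, 5, 4], ![4, 1, 2, 5, 0, 3], ![1, 0, 5, 3, 4, 2], ![2, 5, 0, 3, 4, 1],
    ![0, 4, 3, 2, 1, 5]]

def ptDual : Fin 6 → DualAffinePoint :=
  ![⟨{1, 2}, by decide⟩, ⟨{0, 1}, by decide⟩, ⟨{2, 3}, by decide⟩, ⟨{0, 2}, by decide⟩, ⟨{1, 3}, by decide⟩,
    ⟨{0, 3}, by decide⟩]

theorem ptDual_bij : Function.Bijective ptDual := by
  refine ⟨?_, ?_⟩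
  · unfold Function.Injective; decide +kernel
  · unfold Function.Surjective; decide +kernel

theorem dual_line : ∀ i j, tblDual i j ≠ j → ∃ a : Fin 4, ∀ r,
    (a ∉ (ptDual r).val ↔ r = i ∨ r = j ∨ r = tblDual j i) := by decide +kernel

theorem dual_line' : ∀ a : Fin 4, ∃ i j, tblDual i j ≠ j ∧ ∀ r,
    (a ∉ (ptDual r).val ↔ r = i ∨ r = j ∨ r = tblDual j i) := by decide +kernel

theorem dual_lines (m : Set DualAffinePoint) : m ∈ dualAffinePlaneTwo ↔
    ∃ i j, tblDual i j ≠ j ∧ m = Equiv.ofBijective _ ptDual_bij '' {r | r = i ∨ r = j ∨ r = tblDual j i} := by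
  have key : ∀ (a : Fin 4) i j, (∀ r, (a ∉ (ptDual r).val ↔ r = i ∨ r = j ∨ r = tblDual j i)) →
      {s : DualAffinePoint | a ∉ s.val} =
        Equiv.ofBijective _ ptDual_bij '' {r | r = i ∨ r = j ∨ r = tblDual j i} := by
    intro a i j h
    ext s
    obtain ⟨r, rfl⟩ := ptDual_bij.2 s
    simp only [Set.mem_setOf_eq, h r]
    exact ((Equiv.ofBijective _ ptDual_bij).injective.mem_set_image (s := {r | r = i ∨ r = j ∨ r = tblDual j i})).symm
  constructor
  · rintro ⟨a, rfl⟩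
    obtain ⟨i, j, h1, h2⟩ := dual_line' a
    exact ⟨i, j, h1, key a i j h2⟩
  · rintro ⟨i, j, h1, rfl⟩
    obtain ⟨a, h2⟩ := dual_line i j h1
    exact ⟨a, (key a i j h2).symm⟩

def tblAff : Fin 9 → Fin 9 → Fin 9 :=
  ![![0, 3, 4, 1, 2, 6, 5, 8, 7], ![3, 1, 5, 0, 8, 2, 7, 6, 4], ![4, 5, 2, 7, 0, 1, 8, 3, 6],
    ![1, 0, 7, 3, 6, 8, 4, 2, 5], ![2, 8, 0, 6, 4, 7, 3, 5, 1], ![6, 2, 1, 8, 7, 5, 0, 4, 3],
    ![5, 7, 8, 4, 3, 0, 6, 1, 2], ![8, 6, 3, 2, 5, 4, 1, 7, 0], ![7, 4, 6, 5, 1, 3, 2, 0, 8]]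

def ptAff : Fin 9 → (Fin 2 → ZMod 3) :=
  ![![0, 0], ![1, 0], ![0, 1], ![2, 0], ![0, 2], ![2, 2], ![1, 1], ![1, 2], ![2, 1]]

theorem ptAff_bij : Function.Bijective ptAff := by
  refine ⟨?_, ?_⟩
  · unfold Function.Injective; decide +kernel
  · unfold Function.Surjective; decide +kernel

theorem aff_third : ∀ i j, ptAff (tblAff i j) = fun k => -ptAff i k - ptAff j k := by decide +kernel

theorem aff_ne : ∀ i j, i ≠ j → tblAff i j ≠ j := by decide +kernel

theorem aff_lines (m : Set (Fin 2 → ZMod 3)) : m ∈ affinePlaneThree ↔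
    ∃ i j, tblAff i j ≠ j ∧ m = Equiv.ofBijective _ ptAff_bij '' {r | r = i ∨ r = j ∨ r = tblAff j i} := by
  have h3 : (3 : ZMod 3) = 0 := by decide
  have key : ∀ i j, Equiv.ofBijective _ ptAff_bij '' {r | r = i ∨ r = j ∨ r = tblAff j i} =
      {x | ∃ c : ZMod 3, x = ptAff i + c • (ptAff j - ptAff i)} := by
    intro i j
    ext x
    constructor
    · rintro ⟨r, rfl | rfl | rfl, rfl⟩
      · exact ⟨0, by simp⟩
      · exact ⟨1, by simp⟩
      · refine ⟨2, funext fun k => ?_⟩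
        simp only [Equiv.ofBijective_apply, aff_third, Pi.add_apply, Pi.smul_apply, Pi.sub_apply, smul_eq_mul]
        linear_combination -(ptAff j k) * h3
    · rintro ⟨c, rfl⟩
      have hc : c = 0 ∨ c = 1 ∨ c = 2 := by revert c; decide
      rcases hc with rfl | rfl | rfl
      · exact ⟨i, Or.inl rfl, by simp⟩
      · exact ⟨j, Or.inr (Or.inl rfl), by simp⟩
      · refine ⟨_, Or.inr (Or.inr rfl), funext fun k => ?_⟩
        simp only [Equiv.ofBijective_apply, aff_third, Pi.add_apply, Pi.smul_apply, Pi.sub_apply, smul_eq_mul]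
        linear_combination -(ptAff j k) * h3
  constructor
  · rintro ⟨v, w, hw, rfl⟩
    obtain ⟨i, hi⟩ := ptAff_bij.2 v
    obtain ⟨j, hj⟩ := ptAff_bij.2 (v + w)
    refine ⟨i, j, aff_ne i j fun h => hw ?_, ?_⟩
    · rw [h, hj] at hi; simpa using hi
    · rw [key, hi, hj, add_sub_cancel_left]
  · rintro ⟨i, j, hij, rfl⟩
    refine ⟨ptAff i, ptAff j - ptAff i, sub_ne_zero.2 fun h => hij ?_, key i j⟩
    have : j = i := ptAff_bij.1 h
    subst this
    revert j; decide

theorem plane_dual (hD : IsThreeTranspositionGroup D) {x y z : D} (hxy : ¬ Commute (x : G) y)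
    (hxz : ¬ Commute (x : G) z) (hyz : Commute (y : G) z) (hne : ln x y ≠ ln x z) :
    Isomorphic (restrict (threeTranspositionLines D) (span (threeTranspositionLines D) (ln x y ∪ ln x z)))
      dualAffinePlaneTwo := by
  have hyx : ¬ Commute (y : G) x := fun h => hxy h.symm
  have hzx : ¬ Commute (z : G) x := fun h => hxz h.symm
  obtain ⟨a, ha⟩ : ∃ a, a = cj hD y x := ⟨_, rfl⟩
  obtain ⟨b, hb⟩ : ∃ b, b = cj hD z x := ⟨_, rfl⟩
  obtain ⟨c, hc⟩ : ∃ c, c = cj hD y b := ⟨_, rfl⟩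
  have hxa : cj hD x y = a := by rw [ha, braid hD hxy]
  have hxb : cj hD x z = b := by rw [hb, braid hD hxz]
  have hyz' : cj hD y z = z := cj_of_comm hD hyz
  have hzy' : cj hD z y = y := cj_of_comm hD hyz.symm
  have hza : cj hD z a = c := by rw [ha, cj_distrib, hzy', ← hb, hc]
  have hxc : cj hD x c = c := by
    rw [hc, cj_distrib, hxa, hb, cj_distrib hD x z x, hxb, cj_of_comm hD (Commute.refl _)]
    have haz : ¬ Commute (a : G) z := by
      have := not_comm_cj hD y hxz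
      rwa [← ha, hyz'] at this
    have : cj hD b x = z := by
      rw [← braid hD (q := b), ← hxb, cj_cj]
      rw [← hxb]; exact not_comm_self_cj hD hxz
    rw [this, braid hD haz, hza, hc, hb]
  let v : Fin 6 → D := ![x, y, z, a, b, c]
  have r0 : ∀ j, cj hD (v 0) (v j) = v (tblDual 0 j) := by
    intro j; fin_cases j <;> simp [v, tblDual, cj_of_comm hD (Commute.refl _)]
    · exact hxa
    · exact hxb
    · rw [← hxa, cj_cj]
    · rw [← hxb, cj_cj]
    · exact hxc
  have r1 : ∀ j, cj hD (v 1) (v j) = v (tblDual 1 j) := by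
    intro j; fin_cases j <;> simp [v, tblDual, cj_of_comm hD (Commute.refl _)]
    · exact ha.symm
    · exact hyz'
    · rw [ha, cj_cj]
    · exact hc.symm
    · rw [hc, cj_cj]
  have r2 : ∀ j, cj hD (v 2) (v j) = v (tblDual 2 j) := by
    intro j; fin_cases j <;> simp [v, tblDual, cj_of_comm hD (Commute.refl _)]
    · exact hb.symm
    · exact hzy'
    · exact hza
    · rw [hb, cj_cj]
    · rw [← hza, cj_cj]
  have r3 := propagate hD v tblDual (g := 0) (i := 1) (k := 3) rfl (by decide) r0 r1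
  have r4 := propagate hD v tblDual (g := 0) (i := 2) (k := 4) rfl (by decide) r0 r2
  have r5 := propagate hD v tblDual (g := 1) (i := 4) (k := 5) rfl (by decide) r1 r4
  have hop : ∀ i j, cj hD (v i) (v j) = v (tblDual i j) := by intro i; fin_cases i <;> assumption
  have n0 : ∀ j, tblDual 0 j ≠ j → ¬ Commute (v 0 : G) (v j) := by
    intro j hj; fin_cases j <;> simp [v, tblDual] at hj ⊢
    · exact hxy
    · exact hxz
    · rw [← hxa]; exact not_comm_self_cj hD hxy
    · rw [← hxb]; exact not_comm_self_cj hD hxz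
  have n1 := propagate_ne hD v tblDual (g := 3) (i := 0) (k := 1) rfl (by decide) r3 n0
  have n2 := propagate_ne hD v tblDual (g := 4) (i := 0) (k := 2) rfl (by decide) r4 n0
  have n3 := propagate_ne hD v tblDual (g := 1) (i := 0) (k := 3) rfl (by decide) r1 n0
  have n4 := propagate_ne hD v tblDual (g := 2) (i := 0) (k := 4) rfl (by decide) r2 n0
  have n5 := propagate_ne hD v tblDual (g := 1) (i := 4) (k := 5) rfl (by decide) r1 n4
  have hnc : ∀ i j, tblDual i j ≠ j → ¬ Commute (v i : G) (v j) := by intro i; fin_cases i <;> assumption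
  have hyz_ne : y ≠ z := fun e => hne (by rw [e])
  have hab_ne : a ≠ b := fun e => hne (by
    have hax : a ≠ x := by rw [← hxa]; exact cj_ne_left hD hxy
    have h1 : a ∈ ln x y := (mem_ln hD).2 (Or.inr (Or.inr ha))
    have h2 : a ∈ ln x z := (mem_ln hD).2 (Or.inr (Or.inr (e.trans hb)))
    rw [← (ln_eq_of_mem hD hxy (left_mem_ln x y) h1 hax.symm).2,
      (ln_eq_of_mem hD hxz (left_mem_ln x z) h2 hax.symm).2])
  have hxc_ne : x ≠ c := fun e => hab_ne (by
    have h1 : cj hD y x = cj hD y c := by rw [← e]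
    rw [hc, cj_cj, ← ha] at h1
    exact h1)
  have hcases : ∀ i j : Fin 6, i ≠ j → tblDual i j ≠ j ∨ (i = 0 ∧ j = 5) ∨ (i = 5 ∧ j = 0) ∨ (i = 1 ∧ j = 2) ∨
      (i = 2 ∧ j = 1) ∨ (i = 3 ∧ j = 4) ∨ (i = 4 ∧ j = 3) := by decide
  have hinj : Function.Injective v := by
    intro i j hij
    by_contra hne'
    rcases hcases i j hne' with h | ⟨rfl, rfl⟩ | ⟨rfl, rfl⟩ | ⟨rfl, rfl⟩ | ⟨rfl, rfl⟩ | ⟨rfl, rfl⟩ | ⟨rfl, rfl⟩
    · exact hnc i j h (by rw [hij])
    · exact hxc_ne hij
    · exact hxc_ne hij.symm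
    · exact hyz_ne hij
    · exact hyz_ne hij.symm
    · exact hab_ne hij
    · exact hab_ne hij.symm
  refine plane_iso hD v tblDual hinj hop _ _ dual_lines _ (span_eq_range hD v tblDual hop ?_ ?_)
  · intro w hw
    rw [Set.mem_union, mem_ln hD, mem_ln hD, ← ha, ← hb] at hw
    rcases hw with (rfl | rfl | rfl) | (rfl | rfl | rfl)
    exacts [⟨0, rfl⟩, ⟨1, rfl⟩, ⟨3, rfl⟩, ⟨0, rfl⟩, ⟨2, rfl⟩, ⟨4, rfl⟩]
  · intro T hS hT
    have h0 : x ∈ T := hS (Or.inl (left_mem_ln x y))
    have h1 : y ∈ T := hS (Or.inl (right_mem_ln x y))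
    have h2 : z ∈ T := hS (Or.inr (right_mem_ln x z))
    have h4 : b ∈ T := hS (Or.inr ((mem_ln hD).2 (Or.inr (Or.inr hb))))
    have h3 : a ∈ T := hS (Or.inl ((mem_ln hD).2 (Or.inr (Or.inr ha))))
    have h5 : c ∈ T := hc ▸ cj_mem hD hT h1 h4 (hnc 1 4 (by decide))
    intro i; fin_cases i <;> assumption

theorem plane_aff (hD : IsThreeTranspositionGroup D) {x y z : D} (hxy : ¬ Commute (x : G) y)
    (hxz : ¬ Commute (x : G) z)
    (hall : ∀ p ∈ ln x y, ∀ q ∈ ln x z, p ≠ x → q ≠ x → ¬ Commute (p : G) q) :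
    Isomorphic (restrict (threeTranspositionLines D) (span (threeTranspositionLines D) (ln x y ∪ ln x z)))
      affinePlaneThree := by
  obtain ⟨a, ha⟩ : ∃ a, a = cj hD y x := ⟨_, rfl⟩
  obtain ⟨b, hb⟩ : ∃ b, b = cj hD z x := ⟨_, rfl⟩
  obtain ⟨d, hd⟩ : ∃ d, d = cj hD y z := ⟨_, rfl⟩
  obtain ⟨e, he⟩ : ∃ e, e = cj hD x d := ⟨_, rfl⟩
  obtain ⟨f, hf⟩ : ∃ f, f = cj hD z a := ⟨_, rfl⟩
  obtain ⟨g, hg⟩ : ∃ g, g = cj hD y b := ⟨_, rfl⟩
  have hxa : cj hD x y = a := by rw [ha, braid hD hxy]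
  have hxb : cj hD x z = b := by rw [hb, braid hD hxz]
  have hax : a ≠ x := by rw [← hxa]; exact cj_ne_left hD hxy
  have hbx : b ≠ x := by rw [← hxb]; exact cj_ne_left hD hxz
  have hyx : y ≠ x := fun h => hxy (by rw [h])
  have hzx : z ≠ x := fun h => hxz (by rw [h])
  have m1 : y ∈ ln x y := right_mem_ln x y
  have m3 : a ∈ ln x y := (mem_ln hD).2 (Or.inr (Or.inr ha))
  have m2 : z ∈ ln x z := right_mem_ln x z
  have m4 : b ∈ ln x z := (mem_ln hD).2 (Or.inr (Or.inr hb))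
  have hyz := hall y m1 z m2 hyx hzx
  have haz := hall a m3 z m2 hax hzx
  have hyb := hall y m1 b m4 hyx hbx
  have hab := hall a m3 b m4 hax hbx
  have hxg : cj hD x g = f := by
    rw [hg, cj_distrib, hxa, hf, ← hxb, cj_cj, ← braid hD haz]
  have hxf : cj hD x f = g := by rw [← hxg, cj_cj]
  have hye : cj hD y e = f := by
    rw [he, cj_distrib, ← ha, hd, cj_cj, hf, braid hD haz]
  have hze : cj hD z e = g := by
    rw [he, cj_distrib, ← hb, hd, braid hD hyz, cj_cj, hg, braid hD hyb]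
  let v : Fin 9 → D := ![x, y, z, a, b, d, e, f, g]
  have r0 : ∀ j, cj hD (v 0) (v j) = v (tblAff 0 j) := by
    intro j; fin_cases j <;> simp [v, tblAff, cj_of_comm hD (Commute.refl _)]
    · exact hxa
    · exact hxb
    · rw [← hxa, cj_cj]
    · rw [← hxb, cj_cj]
    · exact he.symm
    · rw [he, cj_cj]
    · exact hxf
    · exact hxg
  have r1 : ∀ j, cj hD (v 1) (v j) = v (tblAff 1 j) := by
    intro j; fin_cases j <;> simp [v, tblAff, cj_of_comm hD (Commute.refl _)]
    · exact ha.symm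
    · exact hd.symm
    · rw [ha, cj_cj]
    · exact hg.symm
    · rw [hd, cj_cj]
    · exact hye
    · rw [← hye, cj_cj]
    · rw [hg, cj_cj]
  have r2 : ∀ j, cj hD (v 2) (v j) = v (tblAff 2 j) := by
    intro j; fin_cases j <;> simp [v, tblAff, cj_of_comm hD (Commute.refl _)]
    · exact hb.symm
    · rw [hd, braid hD hyz]
    · exact hf.symm
    · rw [hb, cj_cj]
    · rw [hd, braid hD hyz, cj_cj]
    · exact hze
    · rw [hf, cj_cj]
    · rw [← hze, cj_cj]
  have r3 := propagate hD v tblAff (g := 0) (i := 1) (k := 3) rfl (by decide) r0 r1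
  have r4 := propagate hD v tblAff (g := 0) (i := 2) (k := 4) rfl (by decide) r0 r2
  have r5 := propagate hD v tblAff (g := 1) (i := 2) (k := 5) rfl (by decide) r1 r2
  have r6 := propagate hD v tblAff (g := 0) (i := 5) (k := 6) rfl (by decide) r0 r5
  have r7 := propagate hD v tblAff (g := 2) (i := 3) (k := 7) rfl (by decide) r2 r3
  have r8 := propagate hD v tblAff (g := 1) (i := 4) (k := 8) rfl (by decide) r1 r4
  have hop : ∀ i j, cj hD (v i) (v j) = v (tblAff i j) := by intro i; fin_cases i <;> assumption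
  have n0 : ∀ j, tblAff 0 j ≠ j → ¬ Commute (v 0 : G) (v j) := by
    intro j hj
    have hy' : ∀ {p q : D}, ¬ Commute (p : G) q → ¬ Commute (cj hD y p : G) (cj hD y q) := not_comm_cj hD y
    have hxd : ¬ Commute (x : G) d := by
      have := hy' haz
      rwa [ha, cj_cj, ← hd] at this
    have hxg' : ¬ Commute (x : G) g := by
      have := hy' hab
      rwa [ha, cj_cj, ← hg] at this
    fin_cases j <;> simp [v, tblAff] at hj ⊢
    · exact hxy
    · exact hxz
    · rw [← hxa]; exact not_comm_self_cj hD hxy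
    · rw [← hxb]; exact not_comm_self_cj hD hxz
    · exact hxd
    · rw [he]; exact not_comm_self_cj hD hxd
    · rw [← hxg]; exact not_comm_self_cj hD hxg'
    · exact hxg'
  have n1 := propagate_ne hD v tblAff (g := 3) (i := 0) (k := 1) rfl (by decide) r3 n0
  have n2 := propagate_ne hD v tblAff (g := 4) (i := 0) (k := 2) rfl (by decide) r4 n0
  have n3 := propagate_ne hD v tblAff (g := 0) (i := 1) (k := 3) rfl (by decide) r0 n1
  have n4 := propagate_ne hD v tblAff (g := 0) (i := 2) (k := 4) rfl (by decide) r0 n2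
  have n5 := propagate_ne hD v tblAff (g := 1) (i := 2) (k := 5) rfl (by decide) r1 n2
  have n6 := propagate_ne hD v tblAff (g := 0) (i := 5) (k := 6) rfl (by decide) r0 n5
  have n7 := propagate_ne hD v tblAff (g := 2) (i := 3) (k := 7) rfl (by decide) r2 n3
  have n8 := propagate_ne hD v tblAff (g := 1) (i := 4) (k := 8) rfl (by decide) r1 n4
  have hnc : ∀ i j, tblAff i j ≠ j → ¬ Commute (v i : G) (v j) := by intro i; fin_cases i <;> assumption
  have hinj : Function.Injective v := by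
    intro i j hij
    by_contra hne'
    exact hnc i j (aff_ne i j hne') (by rw [hij])
  refine plane_iso hD v tblAff hinj hop _ _ aff_lines _ (span_eq_range hD v tblAff hop ?_ ?_)
  · intro w hw
    rw [Set.mem_union, mem_ln hD, mem_ln hD, ← ha, ← hb] at hw
    rcases hw with (rfl | rfl | rfl) | (rfl | rfl | rfl)
    exacts [⟨0, rfl⟩, ⟨1, rfl⟩, ⟨3, rfl⟩, ⟨0, rfl⟩, ⟨2, rfl⟩, ⟨4, rfl⟩]
  · intro T hS hT
    have h0 : x ∈ T := hS (Or.inl (left_mem_ln x y))
    have h1 : y ∈ T := hS (Or.inl m1)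
    have h2 : z ∈ T := hS (Or.inr m2)
    have h3 : a ∈ T := hS (Or.inl m3)
    have h4 : b ∈ T := hS (Or.inr m4)
    have h5 : d ∈ T := hd ▸ cj_mem hD hT h1 h2 hyz
    have h6 : e ∈ T := he ▸ cj_mem hD hT h0 h5 (hnc 0 5 (by decide))
    have h7 : f ∈ T := hf ▸ cj_mem hD hT h2 h3 (fun h => haz h.symm)
    have h8 : g ∈ T := hg ▸ cj_mem hD hT h1 h4 hyb
    intro i; fin_cases i <;> assumption

/-- Let D be a conjugation-invariant generating set of 3-transpositions of a finite group G. Then the line system on D whose lines are the triples {x, y, y x y⁻¹} for non-commuting members x, y of D is a Fischer space: two points lie on at most one line, lines have three points, and two different meeting lines generate a subspace isomorphic to the dual affine plane of order two or to the affine plane of order three. -/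
theorem result {G : Type*} [Group G] [Finite G] {D : Set G} (hD : Cfsg.IsThreeTranspositionGroup D) : Cfsg.IsFischerSpace (Cfsg.threeTranspositionLines D) := by
  refine ⟨?_, ?_, ?_⟩
  · rintro l ⟨x, y, hxy, rfl⟩ m ⟨u, w, huw, rfl⟩ p q hpq hpl hql hpm hqm
    exact (ln_eq_of_mem hD hxy hpl hql hpq).2.symm.trans (ln_eq_of_mem hD huw hpm hqm hpq).2
  · rintro l ⟨x, y, hxy, rfl⟩
    show (ln x y).ncard = 3
    refine Set.ncard_eq_three.2 ⟨x, y, cj hD y x, fun h => hxy (by rw [h]), ?_, ?_, Set.ext fun z => ?_⟩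
    · rw [← braid hD hxy]; exact (cj_ne_left hD hxy).symm
    · exact (cj_ne_left hD fun h => hxy h.symm).symm
    · rw [mem_ln hD]; simp
  · rintro _ ⟨x₁, y₁, h₁, rfl⟩ _ ⟨x₂, y₂, h₂, rfl⟩ hne ⟨x, hxl, hxm⟩
    change Isomorphic (restrict _ (span _ (ln x₁ y₁ ∪ ln x₂ y₂))) _ ∨
      Isomorphic (restrict _ (span _ (ln x₁ y₁ ∪ ln x₂ y₂))) _
    have hne' : ln x₁ y₁ ≠ ln x₂ y₂ := hne
    have hex : ∀ {p q : D}, ¬ Commute (p : G) q → x ∈ ln p q → ∃ r, r ∈ ln p q ∧ r ≠ x := by
      intro p q hpq _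
      by_cases hp : p = x
      · exact ⟨q, right_mem_ln p q, fun h => hpq (by rw [hp, h])⟩
      · exact ⟨p, left_mem_ln p q, hp⟩
    by_cases hc : ∃ y ∈ ln x₁ y₁, ∃ z ∈ ln x₂ y₂, y ≠ x ∧ z ≠ x ∧ Commute (y : G) z
    · obtain ⟨y, hy, z, hz, hyx, hzx, hyz⟩ := hc
      obtain ⟨n1, e1⟩ := ln_eq_of_mem hD h₁ hxl hy hyx.symm
      obtain ⟨n2, e2⟩ := ln_eq_of_mem hD h₂ hxm hz hzx.symm
      rw [← e1, ← e2] at hne' ⊢
      exact Or.inl (plane_dual hD n1 n2 hyz hne')
    · obtain ⟨y, hy, hyx⟩ := hex h₁ hxl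
      obtain ⟨z, hz, hzx⟩ := hex h₂ hxm
      obtain ⟨n1, e1⟩ := ln_eq_of_mem hD h₁ hxl hy hyx.symm
      obtain ⟨n2, e2⟩ := ln_eq_of_mem hD h₂ hxm hz hzx.symm
      rw [← e1, ← e2] at hc ⊢
      push Not at hc
      exact Or.inr (plane_aff hD n1 n2 fun p hp q hq hpx hqx => hc p hp q hq hpx hqx)

end Cfsg.Agent.S5367
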