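import Cfsg.Statements.S5394
import Cfsg.Agent.Lib.Golay.Elements
import Cfsg.Agent.Lib.Golay.ElementCounts

set_option autoImplicit false
open scoped Pointwise
open Cfsg

namespace Cfsg.Agent.S5394

/-- The automorphism group of the length-24 code built from the squares modulo 23 has exactly two conjugacy classes of involutions: an involution either fixes exactly the eight points of an octad or has no fixed points, both kinds occur, and any two involutions of the same kind are conjugate in the group. -/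
theorem result : (∀ g ∈ Cfsg.M24, orderOf g = 2 → (Finset.univ.filter fun p => g p = p) ∈ Cfsg.octads ∨ ∀ p, g p ≠ p) ∧ (∃ g ∈ Cfsg.M24, orderOf g = 2 ∧ (Finset.univ.filter fun p => g p = p) ∈ Cfsg.octads) ∧ (∃ g ∈ Cfsg.M24, orderOf g = 2 ∧ ∀ p, g p ≠ p) ∧ ∀ g ∈ Cfsg.M24, ∀ h ∈ Cfsg.M24, orderOf g = 2 → orderOf h = 2 → ((∀ p, g p ≠ p) ↔ (∀ p, h p ≠ p)) → ∃ k ∈ Cfsg.M24, k * g * k⁻¹ = h := by
  have hcard : ∀ g : Equiv.Perm Cfsg.GolayPt,
      (∀ p, g p ≠ p) ↔ (Cfsg.Lib.Golay.fixPts g).card = 0 := by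
    intro g
    rw [Finset.card_eq_zero, Finset.eq_empty_iff_forall_notMem]
    simp [Cfsg.Lib.Golay.mem_fixPts]
  have hoct : (Cfsg.Lib.Golay.fixPts (Cfsg.Lib.Golay.permOf Cfsg.Lib.Golay.Elements.repInvFix)) ∈ Cfsg.octads := by
    have h := Cfsg.Lib.Golay.Elements.rep_perm.2.1
    have e : Cfsg.Lib.Golay.fixPts (Cfsg.Lib.Golay.permOf Cfsg.Lib.Golay.Elements.repInvFix) =
        ((Cfsg.Lib.Golay.fixIdx Cfsg.Lib.Golay.Elements.repInvFix).map Cfsg.Lib.Golay.pt).toFinset := by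
      ext p
      simp only [Cfsg.Lib.Golay.mem_fixPts, List.mem_toFinset, List.mem_map, Cfsg.Lib.Golay.fixIdx, List.mem_filter,
        List.mem_range, beq_iff_eq]
      constructor
      · intro hp
        refine ⟨Cfsg.Lib.Golay.idx p, ⟨Cfsg.Lib.Golay.idx_lt p, ?_⟩, Cfsg.Lib.Golay.pt_idx p⟩
        rw [← Cfsg.Lib.Golay.idx_permOf h, hp]
      · rintro ⟨i, ⟨hi, e⟩, rfl⟩
        rw [Cfsg.Lib.Golay.permOf_pt h hi, e]
    rw [e, Cfsg.Lib.Golay.mem_octads_iff]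
    decide +kernel
  obtain ⟨⟨m0, o0, f0⟩, ⟨m8, o8, f8⟩, -, -⟩ := Cfsg.Lib.Golay.Elements.rep_spec
  refine ⟨fun g hg h2 => ?_, ⟨_, m8, o8, hoct⟩, ⟨_, m0, o0, (hcard _).2 f0⟩, fun g hg h hh hg2 hh2 hiff => ?_⟩
  · obtain ⟨k, hk, ⟨hc, -⟩ | ⟨-, e⟩⟩ := Cfsg.Lib.Golay.Elements.involution_fix hg h2
    · exact Or.inr ((hcard g).2 hc)
    · refine Or.inl ?_
      show Cfsg.Lib.Golay.fixPts g ∈ Cfsg.octads
      have hh := Cfsg.Lib.Golay.smul_mem_words (Cfsg.M24.inv_mem hk) hoct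
      suffices e2 : Cfsg.Lib.Golay.fixPts g = k⁻¹ • Cfsg.Lib.Golay.fixPts (Cfsg.Lib.Golay.permOf Cfsg.Lib.Golay.Elements.repInvFix) by
        rw [e2]; exact hh
      ext p
      rw [Cfsg.Lib.Golay.mem_fixPts, ← Finset.smul_mem_smul_finset_iff k, smul_inv_smul, Cfsg.Lib.Golay.mem_fixPts, ← e]
      simp [Equiv.Perm.smul_def]
  · obtain ⟨a, ha, hA⟩ := Cfsg.Lib.Golay.Elements.involution_fix hg hg2
    obtain ⟨b, hb, hB⟩ := Cfsg.Lib.Golay.Elements.involution_fix hh hh2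
    rw [hcard, hcard] at hiff
    have key : a * g * a⁻¹ = b * h * b⁻¹ := by
      rcases hA with ⟨c, e⟩ | ⟨c, e⟩ <;> rcases hB with ⟨c', e'⟩ | ⟨c', e'⟩
      · rw [e, e']
      · have := hiff.1 c; omega
      · have := hiff.2 c'; omega
      · rw [e, e']
    refine ⟨b⁻¹ * a, Cfsg.M24.mul_mem (Cfsg.M24.inv_mem hb) ha, ?_⟩
    calc b⁻¹ * a * g * (b⁻¹ * a)⁻¹ = b⁻¹ * (a * g * a⁻¹) * b := by group
      _ = h := by rw [key]; group

end Cfsg.Agent.S5394
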