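import Cfsg.Statements.S5395
import Mathlib
import Cfsg.Agent.Lib.Solv.Cores
import Cfsg.Agent.Lib.Transfer.ExtraspecialClass

set_option autoImplicit false
open Cfsg
open scoped commutatorElement Pointwise

namespace Cfsg.Agent.S5395

/-- For a finite extraspecial 2-group E, an automorphism of E that induces the identity on E modulo its centre is inner (so these automorphisms form exactly the inner automorphism group, an elementary abelian 2-group of order |E|/2). -/
theorem result {E : Type*} [Group E] [Finite E] (hE : Cfsg.IsExtraspecial 2 E) (φ : E ≃* E) (hφ : ∀ x : E, φ x * x⁻¹ ∈ Subgroup.center E) : ∃ g : E, ∀ x : E, φ x = g * x * g⁻¹ := by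
  classical
  haveI : Fact (Nat.Prime 2) := ⟨Nat.prime_two⟩
  have hes := Cfsg.Lib.Transfer.ExtraspecialClass.ES.of_extraspecial hE
  set Z := Subgroup.center E
  have hz2 : ∀ z : Z, z * z = 1 := fun z => by
    rw [← sq, ← hes.cardZ]; exact pow_card_eq_one'
  have hsq : ∀ z ∈ Z, z * z = 1 := fun z h => congrArg Subtype.val (hz2 ⟨z, h⟩)
  -- homomorphisms to the centre
  let f : E →* Z :=
    { toFun := fun x => ⟨φ x * x⁻¹, hφ x⟩
      map_one' := Subtype.ext (by simp)
      map_mul' := fun x y => Subtype.ext (by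
        change φ (x * y) * (x * y)⁻¹ = φ x * x⁻¹ * (φ y * y⁻¹)
        rw [map_mul, mul_inv_rev, mul_assoc, ← mul_assoc (φ y)]
        rw [← Subgroup.mem_center_iff.mp (hφ y) x⁻¹]
        simp only [mul_assoc]) }
  let c : E → (E →* Z) := fun g =>
    { toFun := fun x => ⟨g * x * g⁻¹ * x⁻¹, hes.comm g x⟩
      map_one' := Subtype.ext (by simp)
      map_mul' := fun x y => Subtype.ext (by
        change g * (x * y) * g⁻¹ * (x * y)⁻¹ = g * x * g⁻¹ * x⁻¹ * (g * y * g⁻¹ * y⁻¹)
        have hc : g * y * g⁻¹ * y⁻¹ ∈ Z := hes.comm g y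
        have h := Subgroup.mem_center_iff.mp hc x⁻¹
        calc g * (x * y) * g⁻¹ * (x * y)⁻¹ = g * x * g⁻¹ * ((g * y * g⁻¹ * y⁻¹) * x⁻¹) := by group
          _ = g * x * g⁻¹ * x⁻¹ * (g * y * g⁻¹ * y⁻¹) := by rw [← h]; group) }
  -- every homomorphism to the centre kills it
  have hkill : ∀ (u : E →* Z), Z ≤ u.ker := by
    intro u
    have hd : commutator E ≤ u.ker := by
      rw [commutator_eq_closure, Subgroup.closure_le]
      rintro _ ⟨a, b, rfl⟩
      rw [SetLike.mem_coe, MonoidHom.mem_ker, map_commutatorElement, commutatorElement_eq_one_iff_commute]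
      exact Subtype.ext (Subgroup.mem_center_iff.mp (u b).2 (u a : E))
    exact hE.1.2.2.symm.trans_le hd
  letI : CommGroup (E ⧸ Z) :=
    { (inferInstance : Group (E ⧸ Z)) with
      mul_comm := fun a b => by
        induction a using QuotientGroup.induction_on with | H a => ?_
        induction b using QuotientGroup.induction_on with | H b => ?_
        rw [← QuotientGroup.mk_mul, ← QuotientGroup.mk_mul, QuotientGroup.eq]
        rw [show (a * b)⁻¹ * (b * a) = b⁻¹ * a⁻¹ * b * a by group]
        have := hes.comm b⁻¹ a⁻¹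
        rwa [commutatorElement_def, inv_inv, inv_inv] at this }
  obtain ⟨w, hw, hwu⟩ : ∃ w : Z, w ≠ 1 ∧ ∀ z : Z, z = 1 ∨ z = w := by
    haveI : Fintype Z := Fintype.ofFinite _
    have h2 : Fintype.card Z = 2 := by rw [← Nat.card_eq_fintype_card]; exact hes.cardZ
    obtain ⟨a, b, hab, huniv⟩ := Finset.card_eq_two.mp (h2 ▸ Finset.card_univ (α := Z))
    by_cases ha : a = 1
    · exact ⟨b, fun e => hab (ha.trans e.symm), fun z => by have := huniv ▸ Finset.mem_univ z; simpa [ha] using this⟩
    · refine ⟨a, ha, fun z => ?_⟩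
      have h1 := huniv ▸ Finset.mem_univ (1 : Z)
      have hb : b = 1 := by simp at h1; rcases h1 with e | e; exacts [absurd e.symm ha, e.symm]
      have := huniv ▸ Finset.mem_univ z
      simp [hb] at this; tauto
  let sgn : Z →* ℂˣ :=
    { toFun := fun z => if z = 1 then 1 else -1
      map_one' := if_pos rfl
      map_mul' := fun a b => by
        rcases hwu a with rfl | rfl <;> rcases hwu b with rfl | rfl <;> simp [hw, hz2] }
  have hsgn : Function.Injective sgn := by
    intro a b h
    rcases hwu a with rfl | rfl <;> rcases hwu b with rfl | rfl <;> simp [sgn, hw] at h ⊢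
    all_goals
      have h' := congrArg (fun u : ℂˣ => (u : ℂ)) h
      norm_num at h'
  let lift : (E →* Z) → (E ⧸ Z →* ℂˣ) := fun u => sgn.comp (QuotientGroup.lift Z u (hkill u))
  have hlift : Function.Injective lift := by
    intro u v h
    refine MonoidHom.ext fun x => hsgn ?_
    exact DFunLike.congr_fun h (QuotientGroup.mk x)
  haveI : Finite (E ⧸ Z →* ℂˣ) := by
    obtain ⟨e⟩ := CommGroup.monoidHom_mulEquiv_of_hasEnoughRootsOfUnity (E ⧸ Z) ℂ
    exact Finite.of_equiv _ e.symm.toEquiv
  have hle : Nat.card (E →* Z) ≤ Nat.card (E ⧸ Z) :=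
    (Nat.card_le_card_of_injective lift hlift).trans (CommGroup.card_monoidHom_of_hasEnoughRootsOfUnity (E ⧸ Z) ℂ).le
  haveI : Finite (E →* Z) := Finite.of_injective lift hlift
  let c' : E ⧸ Z → (E →* Z) := fun q => c q.out
  have hc' : Function.Injective c' := by
    intro p q h
    rw [← QuotientGroup.out_eq' p, ← QuotientGroup.out_eq' q, QuotientGroup.eq]
    refine Subgroup.mem_center_iff.mpr fun x => ?_
    have h1 : p.out * x * p.out⁻¹ * x⁻¹ = q.out * x * q.out⁻¹ * x⁻¹ := congrArg Subtype.val (DFunLike.congr_fun h x)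
    have h2 := mul_right_cancel h1
    calc x * (p.out⁻¹ * q.out) = p.out⁻¹ * (p.out * x * p.out⁻¹) * q.out := by group
      _ = p.out⁻¹ * (q.out * x * q.out⁻¹) * q.out := by rw [h2]
      _ = p.out⁻¹ * q.out * x := by group
  have hbij : Function.Bijective c' := (Nat.bijective_iff_injective_and_card c').mpr
    ⟨hc', le_antisymm (Nat.card_le_card_of_injective c' hc') hle⟩
  obtain ⟨q, hq⟩ := hbij.2 f
  refine ⟨q.out, fun x => ?_⟩
  have h1 : q.out * x * q.out⁻¹ * x⁻¹ = φ x * x⁻¹ := congrArg Subtype.val (DFunLike.congr_fun hq x)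
  exact (mul_right_cancel h1).symm

end Cfsg.Agent.S5395
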