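import Cfsg.Statements.S5396
import Cfsg.Agent.Lib.PLocal.ExtraspecialModels

set_option autoImplicit false
open Cfsg

namespace Cfsg.Agent.S5396

/-- For every n ≥ 1 there exist finite extraspecial 2-groups of order 2^(2n+1) whose 2-rank (the largest rank of an elementary abelian subgroup) is n, and ones whose 2-rank is n + 1 (so for each such order there are two non-isomorphic extraspecial 2-groups, told apart by their 2-rank). -/
theorem result (n : ℕ) (hn : 1 ≤ n) : ∀ r ∈ ({n, n + 1} : Set ℕ), ∃ (E : Type) (_ : Group E) (_ : Finite E), Cfsg.IsExtraspecial 2 E ∧ Nat.card E = 2 ^ (2 * n + 1) ∧ sSup {k : ℕ | ∃ A : Subgroup E, Cfsg.IsElementaryAbelian 2 A ∧ Nat.card A = 2 ^ k} = r := by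
  intro r hr
  obtain ⟨k, rfl⟩ : ∃ k, n = k + 1 := ⟨n - 1, by omega⟩
  have main : ∀ (e : ZMod 2) (r : ℕ),
      Nat.card ↥(Lib.ExtraspecialModels.wit k e) = 2 ^ r →
      (∀ A : Subgroup (Lib.ExtraspecialModels.Ext k e), Cfsg.IsElementaryAbelian 2 A →
        Nat.card A ≤ 2 ^ r) →
      ∃ (E : Type) (_ : Group E) (_ : Finite E), Cfsg.IsExtraspecial 2 E ∧
        Nat.card E = 2 ^ (2 * (k + 1) + 1) ∧
        sSup {j : ℕ | ∃ A : Subgroup E, Cfsg.IsElementaryAbelian 2 A ∧ Nat.card A = 2 ^ j} = r := by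
    intro e r hw hb
    refine ⟨Lib.ExtraspecialModels.Ext k e, inferInstance, inferInstance,
      Lib.ExtraspecialModels.isExtraspecial, Lib.ExtraspecialModels.card_ext, ?_⟩
    refine IsGreatest.csSup_eq ⟨⟨_, Lib.ExtraspecialModels.wit_elem, hw⟩, ?_⟩
    rintro j ⟨A, hA, hc⟩
    exact (Nat.pow_le_pow_iff_right (by norm_num : 1 < 2)).1 (hc ▸ hb A hA)
  rcases hr with rfl | hr
  · refine main 1 _ (by rw [Lib.ExtraspecialModels.card_wit, if_neg one_ne_zero]) fun A hA => ?_
    obtain ⟨hle, -⟩ := Lib.ExtraspecialModels.elem_card_le A hA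
    haveI : Fact (Nat.Prime 2) := ⟨Nat.prime_two⟩
    obtain ⟨j, hj⟩ := (Lib.ExtraspecialModels.isPGroup.to_subgroup A).exists_card_eq
    rw [hj] at hle ⊢
    refine Nat.pow_le_pow_right (by norm_num) ?_
    have hj2 := (Nat.pow_le_pow_iff_right (by norm_num : 1 < 2)).1 hle
    by_contra hcon
    have hje : j = k + 2 := by omega
    have h1 := Lib.ExtraspecialModels.sum_χ_pos A hA (hje ▸ hj)
    have h2 := Lib.ExtraspecialModels.sum_χ_neg (k := k)
    omega
  · rw [Set.mem_singleton_iff] at hr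
    subst hr
    exact main 0 _ (by rw [Lib.ExtraspecialModels.card_wit, if_pos rfl]) fun A hA =>
      (Lib.ExtraspecialModels.elem_card_le A hA).1

end Cfsg.Agent.S5396
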