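import Cfsg.Statements.S5420
import Mathlib
import Cfsg.Agent.Lib.Solv.Cores
import Cfsg.Agent.Lib.Transfer.ExtraspecialClass

set_option autoImplicit false
open Cfsg
open scoped commutatorElement Pointwise

namespace Cfsg.Agent.S5420

/-- Let Q be an extraspecial 2-subgroup of the finite group G whose centralizer in G is its centre Z and which is normal in the centralizer of Z. If Z lies in the largest normal 2-subgroup of G, then Q is a large extraspecial 2-subgroup of G: it normalizes no non-trivial subgroup of G of odd order. -/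
theorem result {G : Type*} [Group G] [Finite G] (Q : Subgroup G) (hL1 : Cfsg.IsExtraspecial 2 ↥Q) (hL2 : Subgroup.centralizer (Q : Set G) = ((Subgroup.center ↥Q).map Q.subtype)) (hL3 : Subgroup.centralizer (((Subgroup.center ↥Q).map Q.subtype) : Set G) ≤ Subgroup.normalizer (Q : Set G)) (hZ : ((Subgroup.center ↥Q).map Q.subtype) ≤ Cfsg.pCore 2 G) : Cfsg.IsLargeExtraspecial Q := by
  classical
  refine ⟨hL1, hL2, hL3, fun K hK hQK => ?_⟩
  set Z := (Subgroup.center ↥Q).map Q.subtype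
  have hZQ : Z ≤ Q := Subgroup.map_subtype_le _
  have hcop : ∀ H : Subgroup G, IsPGroup 2 H → ∀ x, x ∈ K → x ∈ H → x = 1 := by
    intro H hH x hxK hxH
    have h1 : orderOf x ∣ Nat.card K := Subgroup.orderOf_dvd_natCard K hxK
    obtain ⟨k, hk⟩ := hH ⟨x, hxH⟩
    have h2 : orderOf x ∣ 2 ^ k := orderOf_dvd_of_pow_eq_one (by simpa using congrArg Subtype.val hk)
    obtain ⟨j, -, hj⟩ := (Nat.dvd_prime_pow Nat.prime_two).mp h2
    rcases Nat.eq_zero_or_pos j with rfl | hj0
    · exact orderOf_eq_one_iff.mp (by simpa using hj)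
    · exfalso
      exact (Nat.not_even_iff_odd.mpr hK) (even_iff_two_dvd.mpr ((dvd_pow_self 2 hj0.ne').trans (hj ▸ h1)))
  haveI : Fact (Nat.Prime 2) := ⟨Nat.prime_two⟩
  have hO : IsPGroup 2 (Cfsg.pCore 2 G) := Cfsg.Lib.Solv.isPGroup_pCore 2
  have hKC : K ≤ Subgroup.centralizer (Z : Set G) := by
    intro k hk
    rw [Subgroup.mem_centralizer_iff]
    intro u hu
    have h1 : u * k * u⁻¹ * k⁻¹ ∈ K :=
      K.mul_mem ((Subgroup.mem_normalizer_iff.mp (hQK (hZQ hu)) k).mp hk) (K.inv_mem hk)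
    have h2 : u * k * u⁻¹ * k⁻¹ ∈ Cfsg.pCore 2 G := by
      have hn : (Cfsg.pCore 2 G).Normal := inferInstance
      have := hn.conj_mem u⁻¹ ((Cfsg.pCore 2 G).inv_mem (hZ hu)) k
      rw [show u * k * u⁻¹ * k⁻¹ = u * (k * u⁻¹ * k⁻¹) by group]
      exact (Cfsg.pCore 2 G).mul_mem (hZ hu) this
    have := hcop _ hO _ h1 h2
    calc u * k = (u * k * u⁻¹ * k⁻¹) * (k * u) := by group
      _ = k * u := by rw [this, one_mul]
  rw [Subgroup.eq_bot_iff_forall]
  intro k hk
  have hkQ : k ∈ Subgroup.centralizer (Q : Set G) := by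
    rw [Subgroup.mem_centralizer_iff]
    intro q hq
    have h1 : q * k * q⁻¹ * k⁻¹ ∈ K :=
      K.mul_mem ((Subgroup.mem_normalizer_iff.mp (hQK hq) k).mp hk) (K.inv_mem hk)
    have h2 : q * k * q⁻¹ * k⁻¹ ∈ Q := by
      have := (Subgroup.mem_normalizer_iff.mp (hL3 (hKC hk)) q⁻¹).mp (Q.inv_mem hq)
      rw [show q * k * q⁻¹ * k⁻¹ = q * (k * q⁻¹ * k⁻¹) by group]
      exact Q.mul_mem hq this
    have := hcop Q hL1.1.1 _ h1 h2
    calc q * k = (q * k * q⁻¹ * k⁻¹) * (k * q) := by group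
      _ = k * q := by rw [this, one_mul]
  rw [hL2] at hkQ
  exact hcop Q hL1.1.1 k hk (hZQ hkQ)

end Cfsg.Agent.S5420
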