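import Cfsg.Statements.S5421
import Cfsg.Agent.Lib.PLocal.LocalMisc4

set_option autoImplicit false
open Cfsg

namespace Cfsg.Agent.S5421

open scoped commutatorElement
open Subgroup

/-- Let Q be an extraspecial 2-subgroup of the finite group G whose centralizer in G is its centre Z and which is normal in the centralizer of Z. If some involution b of Q outside Z has Z inside the largest normal 2-subgroup of the centralizer of b, then Q is a large extraspecial 2-subgroup of G. -/
theorem result {G : Type*} [Group G] [Finite G] (Q : Subgroup G) (hL1 : Cfsg.IsExtraspecial 2 ↥Q) (hL2 : Subgroup.centralizer (Q : Set G) = ((Subgroup.center ↥Q).map Q.subtype)) (hL3 : Subgroup.centralizer (((Subgroup.center ↥Q).map Q.subtype) : Set G) ≤ Subgroup.normalizer (Q : Set G)) (b : G) (hbQ : b ∈ Q) (hbZ : b ∉ ((Subgroup.center ↥Q).map Q.subtype)) (hb : orderOf b = 2) (hZ : ((Subgroup.center ↥Q).map Q.subtype) ≤ (Cfsg.pCore 2 ↥(Subgroup.centralizer ({b} : Set G))).map (Subgroup.centralizer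 ({b} : Set G)).subtype) : Cfsg.IsLargeExtraspecial Q := by
  classical
  haveI : Fact (Nat.Prime 2) := ⟨Nat.prime_two⟩
  refine ⟨hL1, hL2, hL3, fun K hKodd hQK => ?_⟩
  set Z := (center ↥Q).map Q.subtype with hZdef
  have hQ2 : IsPGroup 2 Q := hL1.1.1
  have hK2 : ¬ 2 ∣ Nat.card K := fun h => (Nat.not_even_iff_odd.2 hKodd) (even_iff_two_dvd.2 h)
  have hKQ : K ⊓ Q = ⊥ := by
    obtain ⟨n, hn⟩ := IsPGroup.iff_card.1 (hQ2.to_le (inf_le_right : K ⊓ Q ≤ Q))
    rcases n with _ | n
    · exact card_eq_one.1 (by rw [hn, pow_zero])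
    · exact absurd ((dvd_pow_self 2 (Nat.succ_ne_zero n)).trans (hn ▸ card_dvd_of_le inf_le_left)) hK2
  have hZc : Nat.card Z = 2 := by
    rw [hZdef, ← Nat.card_congr ((center ↥Q).equivMapOfInjective Q.subtype Q.subtype_injective).toEquiv]
    exact hL1.2
  obtain ⟨z, hzZ, hz1⟩ := (bot_or_exists_ne_one Z).resolve_left fun h => by
    rw [h, card_bot] at hZc; omega
  have hZz : ∀ w ∈ Z, w = 1 ∨ w = z := by
    intro w hw
    obtain ⟨u, v, -, hu⟩ := Nat.card_eq_two_iff.1 hZc
    have h2 : ∀ w : Z, w = u ∨ w = v := fun w => (Set.eq_univ_iff_forall.1 hu) w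
    by_contra h
    push Not at h
    rcases h2 ⟨w, hw⟩ with e1 | e1 <;> rcases h2 ⟨z, hzZ⟩ with e2 | e2 <;> rcases h2 1 with e3 | e3 <;>
      first
      | exact h.2 (congrArg Subtype.val (e1.trans e2.symm))
      | exact h.1 (congrArg Subtype.val (e1.trans e3.symm))
      | exact hz1 (congrArg Subtype.val (e2.trans e3.symm))
  have hzQ : z ∈ Q := map_subtype_le _ hzZ
  have hzq : ∀ q ∈ Q, z * q = q * z := by
    intro q hq
    obtain ⟨z', hz', rfl⟩ := hzZ
    exact (congrArg Subtype.val (mem_center_iff.1 hz' ⟨q, hq⟩)).symm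
  have hzz : z * z = 1 := by
    have := pow_card_eq_one' (G := Z) (x := ⟨z, hzZ⟩)
    rw [hZc, pow_two] at this
    exact congrArg Subtype.val this
  have hbb : b * b = 1 := by rw [← pow_two, ← hb]; exact pow_orderOf_eq_one b
  obtain ⟨q, hqQ, hq⟩ : ∃ q ∈ Q, q * b ≠ b * q := by
    by_contra h
    push Not at h
    exact hbZ ⟨⟨b, hbQ⟩, mem_center_iff.2 fun q => Subtype.ext (h q q.2), rfl⟩
  have hconj : q * b * q⁻¹ = z * b := by
    have hm : ⁅q, b⁆ ∈ Z :=
      ⟨⁅(⟨q, hqQ⟩ : Q), ⟨b, hbQ⟩⁆, hL1.1.2.2 ▸ commutator_mem_commutator (mem_top _) (mem_top _),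
        by simp [commutatorElement_def]⟩
    have h := (hZz _ hm).resolve_left fun e => hq (commutatorElement_eq_one_iff_mul_comm.1 e)
    calc q * b * q⁻¹ = ⁅q, b⁆ * b := by simp only [commutatorElement_def]; group
      _ = z * b := by rw [h]
  -- `z` centralizes the fixed points of `b`
  have hkey : ∀ k ∈ K, k * b = b * k → k * z = z * k := by
    intro k hk hkb
    have hkC : k ∈ centralizer ({b} : Set G) := mem_centralizer_singleton_iff.2 hkb
    obtain ⟨zc, hzc, hzce⟩ := hZ hzZ
    set P := Cfsg.pCore 2 ↥(centralizer ({b} : Set G))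
    haveI hPn : P.Normal := inferInstance
    have hP2 : IsPGroup 2 P := Cfsg.Lib.Solv.isPGroup_pCore _
    have hm : ⁅(⟨k, hkC⟩ : centralizer ({b} : Set G)), zc⁆ ∈ P :=
      mul_mem (hPn.conj_mem _ hzc _) (inv_mem hzc)
    have hmK : ⁅k, z⁆ ∈ K := by
      have h1 : z * k⁻¹ * z⁻¹ ∈ K := (mem_normalizer_iff.1 (hQK hzQ) _).1 (inv_mem hk)
      simpa [commutatorElement_def, mul_assoc] using mul_mem hk h1
    have he : (⁅(⟨k, hkC⟩ : centralizer ({b} : Set G)), zc⁆ : centralizer ({b} : Set G)) = (⁅k, z⁆ : G) := by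
      simp [commutatorElement_def, ← hzce]
    have hone : orderOf ⁅k, z⁆ = 1 := by
      obtain ⟨j, hj⟩ := hP2 ⟨_, hm⟩
      have hj' : ⁅k, z⁆ ^ (2 ^ j) = 1 := by
        rw [← he]; simpa using congrArg (fun x : P => ((x : centralizer ({b} : Set G)) : G)) hj
      have h1 : orderOf ⁅k, z⁆ ∣ 2 ^ j := orderOf_dvd_of_pow_eq_one hj'
      have h2 : orderOf ⁅k, z⁆ ∣ Nat.card K := by
        have := orderOf_dvd_natCard (⟨_, hmK⟩ : K)
        rwa [Subgroup.orderOf_mk] at this
      exact Nat.eq_one_of_dvd_coprimes ((Nat.prime_two.coprime_iff_not_dvd.2 hK2).pow_left j) h1 h2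
    exact commutatorElement_eq_one_iff_mul_comm.1 (orderOf_eq_one_iff.1 hone)
  let U : Subgroup G :=
    { carrier := {x | x = 1 ∨ x = z ∨ x = b ∨ x = z * b}
      one_mem' := Or.inl rfl
      inv_mem' := by
        rintro x (rfl | rfl | rfl | rfl)
        · simp
        · exact Or.inr (Or.inl (inv_eq_of_mul_eq_one_left hzz))
        · exact Or.inr (Or.inr (Or.inl (inv_eq_of_mul_eq_one_left hbb)))
        · refine Or.inr (Or.inr (Or.inr ?_))
          rw [mul_inv_rev, inv_eq_of_mul_eq_one_left hbb, inv_eq_of_mul_eq_one_left hzz]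
          exact (hzq b hbQ).symm
      mul_mem' := by
        have e := hzq b hbQ
        have e1 : z * (z * b) = b := by rw [← mul_assoc, hzz, one_mul]
        have e2 : b * (z * b) = z := by rw [e, ← mul_assoc, hbb, one_mul]
        have e3 : z * b * z = b := by rw [e, mul_assoc, hzz, mul_one]
        have e4 : z * b * b = z := by rw [mul_assoc, hbb, mul_one]
        have e5 : z * b * (z * b) = 1 := by rw [← mul_assoc, e3, hbb]
        rintro x y (rfl | rfl | rfl | rfl) (rfl | rfl | rfl | rfl) <;>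
          simp [hzz, hbb, e.symm, e1, e2, e3, e4, e5] }
  have hUmem : ∀ x ∈ U, x = 1 ∨ x = z ∨ x = b ∨ x = z * b := fun x hx => hx
  have hUQ : U ≤ Q := by
    intro x hx
    rcases hUmem x hx with rfl | rfl | rfl | rfl
    exacts [one_mem _, hzQ, hbQ, mul_mem hzQ hbQ]
  have hU : Cfsg.IsElementaryAbelian 2 U := by
    refine ⟨⟨⟨fun x y => Subtype.ext ?_⟩⟩, fun x hx => ?_⟩
    · obtain ⟨x, hx⟩ := x
      obtain ⟨y, hy⟩ := y
      show x * y = y * x
      have e := hzq b hbQ
      rcases hUmem x hx with rfl | rfl | rfl | rfl <;> rcases hUmem y hy with rfl | rfl | rfl | rfl <;>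
        simp [e, mul_assoc] <;> simp [← mul_assoc, e]
    · rcases hUmem x hx with rfl | rfl | rfl | rfl
      · simp
      · rw [pow_two, hzz]
      · rw [pow_two, hbb]
      · rw [pow_two]
        calc z * b * (z * b) = z * (b * z) * b := by group
          _ = z * (z * b) * b := by rw [hzq b hbQ]
          _ = 1 := by rw [← mul_assoc, hzz, one_mul, hbb]
  have hKz : K ≤ centralizer ({z} : Set G) := by
    refine Cfsg.Lib.PLocal.LocalMisc4.coprime_generation hU hK2 (hUQ.trans hQK) _ fun B hB hi => ?_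
    obtain ⟨u, huB, hu1⟩ := (bot_or_exists_ne_one B).resolve_left (by
      rintro rfl
      rw [relIndex_bot_left] at hi
      have h3 : ({⟨1, one_mem U⟩, ⟨z, Or.inr (Or.inl rfl)⟩, ⟨b, Or.inr (Or.inr (Or.inl rfl))⟩} : Finset U).card = 3 :=
        Finset.card_eq_three.mpr ⟨_, _, _, fun e => hz1 (congrArg Subtype.val e).symm,
          fun e => hbZ (by
            have e' : (1 : G) = b := congrArg Subtype.val e
            exact e' ▸ one_mem Z), fun e => hbZ (by
            have e' : z = b := congrArg Subtype.val e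
            exact e' ▸ hzZ), rfl⟩
      haveI : Fintype U := Fintype.ofFinite _
      have h4 := Finset.card_le_univ ({⟨1, one_mem U⟩, ⟨z, Or.inr (Or.inl rfl)⟩, ⟨b, Or.inr (Or.inr (Or.inl rfl))⟩} : Finset U)
      rw [← Nat.card_eq_fintype_card, h3] at h4
      omega)
    rintro k ⟨hk, hkB⟩
    rw [mem_centralizer_singleton_iff]
    have hku : k * u = u * k := (mem_centralizer_iff.1 hkB u huB).symm
    rcases hUmem u (hB huB) with rfl | rfl | rfl | rfl
    · exact absurd rfl hu1
    · exact hku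
    · exact hkey k hk hku
    · have hk' : q⁻¹ * k * q ∈ K := by
        simpa using (mem_normalizer_iff.1 (inv_mem (hQK hqQ)) k).1 hk
      have h1 : q⁻¹ * k * q * b = b * (q⁻¹ * k * q) := by
        rw [← hconj] at hku
        calc q⁻¹ * k * q * b = q⁻¹ * (k * (q * b * q⁻¹)) * q := by group
          _ = q⁻¹ * ((q * b * q⁻¹) * k) * q := by rw [hku]
          _ = _ := by group
      have h2 := hkey _ hk' h1
      calc k * z = q * (q⁻¹ * k * q * (q⁻¹ * z * q)) * q⁻¹ := by group
        _ = q * (q⁻¹ * k * q * z) * q⁻¹ := by rw [mul_assoc q⁻¹ z q, hzq q hqQ, inv_mul_cancel_left]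
        _ = q * (z * (q⁻¹ * k * q)) * q⁻¹ := by rw [h2]
        _ = z * k := by rw [← mul_assoc q z, ← hzq q hqQ]; group
  have hKC : K ≤ centralizer (Q : Set G) := by
    intro k hk
    have hkN : k ∈ normalizer (Q : Set G) := hL3 (by
      rw [mem_centralizer_iff]
      intro w hw
      rcases hZz w hw with rfl | rfl
      · simp
      · exact (mem_centralizer_singleton_iff.1 (hKz hk)).symm)
    rw [mem_centralizer_iff]
    intro x hx
    have hm : ⁅k, x⁆ ∈ K ⊓ Q := by
      refine ⟨?_, Q.mul_mem ((mem_normalizer_iff.1 hkN x).1 hx) (Q.inv_mem hx)⟩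
      have h1 : x * k⁻¹ * x⁻¹ ∈ K := (mem_normalizer_iff.1 (hQK hx) _).1 (inv_mem hk)
      simpa [commutatorElement_def, mul_assoc] using mul_mem hk h1
    rw [hKQ, mem_bot, commutatorElement_eq_one_iff_mul_comm] at hm
    exact hm.symm
  rw [eq_bot_iff, ← hKQ]
  exact le_inf le_rfl ((hKC.trans hL2.le).trans (map_subtype_le _))

end Cfsg.Agent.S5421
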