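import Cfsg.Statements.S5423
import Cfsg.Agent.Lib.PLocal.AffineEmbedding
import Cfsg.Agent.Lib.PLocal.AffineLarge

set_option autoImplicit false
open Cfsg

namespace Cfsg.Agent.S5423

/-- Let G be a finite group that is the split extension of an elementary abelian normal subgroup U of order 2^(n+1), n ≥ 1, by its full automorphism group: U has a complement M in G whose conjugation action on U is faithful and realizes every automorphism of U. Let Z be a subgroup of U of order 2 and Q the largest normal 2-subgroup of the centralizer C of Z. Then Q is extraspecial of order 2^(2n+1) with an elementary abelian subgroup of order 2^(n+1) (plus type), Q is a large extraspecial 2-subgroup of G, and C is the split extension of Q by the general linear group of degree n over the field with two elements. -/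
theorem result {G : Type*} [Group G] [Finite G] (n : ℕ) (hn : 1 ≤ n) (U M : Subgroup G) [U.Normal] (hU : Cfsg.IsElementaryAbelian 2 U) (hUcard : Nat.card ↥U = 2 ^ (n + 1)) (hUM : U ⊓ M = ⊥) (hUM' : U ⊔ M = ⊤) (hfaith : ∀ m ∈ M, (∀ u ∈ U, m * u * m⁻¹ = u) → m = 1) (hfull : ∀ φ : ↥U ≃* ↥U, ∃ m ∈ M, ∀ u : ↥U, ((φ u : ↥U) : G) = m * u * m⁻¹) (Z : Subgroup G) (hZU : Z ≤ U) (hZ : Nat.card ↥Z = 2) (Q : Subgroup G) (hQ : Q = (Cfsg.pCore 2 ↥(Subgroup.centralizer (Z : Set G))).map (Subgroup.centralizer (Z : Set G)).subtype) : Cfsg.IsExtraspecial 2 ↥Q ∧ Nat.card ↥Q = 2 ^ (2 * n + 1) ∧ (∃ E : Subgroup G, E ≤ Q ∧ Cfsg.IsElementaryAbelian 2 E ∧ Nat.card ↥E = 2 ^ (n + 1)) ∧ Cfsg.IsLargeExtraspecial Q ∧ ∃ K : Subgroup G, K ≤ Subgroup.centralizer (Z : Set G) ∧ Q ⊓ K = ⊥ ∧ Q ⊔ K = Subgroup.centralizer (Z : Set G) ∧ Nonempty (↥K ≃* Matrix.GeneralLinearGroup (Fin n) (ZMod 2)) := by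
  classical
  obtain ⟨k, rfl⟩ : ∃ k, n = k + 1 := ⟨n - 1, by omega⟩
  obtain ⟨z, hzZ, hz⟩ : ∃ z ∈ Z, z ≠ 1 := by
    by_contra hall
    push Not at hall
    have : Z = ⊥ := (Subgroup.eq_bot_iff_forall Z).2 hall
    rw [this, Subgroup.card_bot] at hZ
    omega
  have hZc : Subgroup.centralizer (Z : Set G) = Subgroup.centralizer ({z} : Set G) := by
    refine le_antisymm (Subgroup.centralizer_le (Set.singleton_subset_iff.2 hzZ)) fun g hg x hx => ?_
    obtain ⟨a, b, hab, huniv⟩ := Nat.card_eq_two_iff.1 hZ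
    have hmem : ∀ w : ↥Z, w = a ∨ w = b := fun w => by
      simpa using Set.eq_univ_iff_forall.1 huniv w
    have hx' : x = 1 ∨ x = z := by
      rcases hmem ⟨x, hx⟩ with h | h <;> rcases hmem ⟨z, hzZ⟩ with h' | h' <;>
        rcases hmem 1 with h'' | h'' <;>
        first
          | exact Or.inl (congrArg Subtype.val (h.trans h''.symm))
          | exact Or.inr (congrArg Subtype.val (h.trans h'.symm))
          | exact absurd (congrArg Subtype.val (h'.trans h''.symm)) hz
    rcases hx' with rfl | rfl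
    · simp
    · exact (Subgroup.mem_centralizer_singleton_iff.1 hg).symm
  obtain ⟨f, hf, hfz, hC⟩ := Lib.AffineEmbedding.exists_embedding k U M hU hUcard hUM hUM' hfaith
    hfull z (hZU hzZ) hz
  rw [hZc] at hQ ⊢
  rw [Lib.AffineLarge.pCore_eq_comap f hf hC hfz] at hQ
  subst hQ
  set Q := (Lib.TransvectionCentralizer.ι (k := k)).range.comap f with hQd
  set K := (Lib.TransvectionCentralizer.σ (k := k)).range.comap f with hKd
  have hQm : Q.map f = (Lib.TransvectionCentralizer.ι (k := k)).range :=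
    Lib.AffineLarge.comap_map f hC Lib.TransvectionCentralizer.range_ι_le
  have hσC : (Lib.TransvectionCentralizer.σ (k := k)).range ≤ Lib.TransvectionCentralizer.C k :=
    le_sup_right.trans Lib.TransvectionCentralizer.sup_eq.le
  have hKm : K.map f = (Lib.TransvectionCentralizer.σ (k := k)).range :=
    Lib.AffineLarge.comap_map f hC hσC
  have hLarge := Lib.AffineLarge.isLarge_comap f hf hC hfz
  have hιinj := Lib.TransvectionCentralizer.ι_inj (k := k)
  obtain ⟨eGL⟩ := Lib.AffineLarge.sl_equiv_gl (k + 1)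
  refine ⟨hLarge.1, ?_, ?_, hLarge, K, ?_, ?_, ?_,
    ⟨((K.equivMapOfInjective f hf).trans ((MulEquiv.subgroupCongr hKm).trans
      (MonoidHom.ofInjective Lib.TransvectionCentralizer.σ_inj).symm)).trans eGL⟩⟩
  · rw [← Subgroup.card_map_of_injective hf, hQm,
      ← Nat.card_congr (MonoidHom.ofInjective hιinj).toEquiv]
    exact Lib.ExtraspecialModels.card_ext
  · have hW := Lib.ExtraspecialModels.wit_elem (k := k) (e := 0)
    set E := ((Lib.ExtraspecialModels.wit k 0).map Lib.TransvectionCentralizer.ι).comap f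
    have hEC : (Lib.ExtraspecialModels.wit k 0).map Lib.TransvectionCentralizer.ι ≤
        Lib.TransvectionCentralizer.C k :=
      le_trans (Subgroup.map_le_range _ _) Lib.TransvectionCentralizer.range_ι_le
    refine ⟨E, Subgroup.comap_mono (Subgroup.map_le_range _ _), ⟨⟨⟨?_⟩⟩, ?_⟩, ?_⟩
    · rintro ⟨a, x, hx, hax⟩ ⟨b, y, hy, hby⟩
      refine Subtype.ext (hf ?_)
      show f (a * b) = f (b * a)
      rw [map_mul, map_mul, ← hax, ← hby, ← map_mul, ← map_mul]
      exact congrArg _ (congrArg Subtype.val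
        (hW.1.is_comm.comm (⟨x, hx⟩ : Lib.ExtraspecialModels.wit k 0) ⟨y, hy⟩))
    · rintro a ⟨x, hx, hax⟩
      exact hf (by rw [map_pow, ← hax, ← map_pow, hW.2 x hx, map_one, map_one])
    · rw [← Subgroup.card_map_of_injective hf, Lib.AffineLarge.comap_map f hC hEC,
        Subgroup.card_map_of_injective hιinj, Lib.ExtraspecialModels.card_wit, if_pos rfl]
  · rw [Lib.AffineLarge.centralizer_eq_comap f hf hfz]
    exact Subgroup.comap_mono hσC
  · rw [hQd, hKd, ← Subgroup.comap_inf, Lib.TransvectionCentralizer.inf_eq, MonoidHom.comap_bot]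
    exact f.ker_eq_bot_iff.2 hf
  · apply Subgroup.map_injective hf
    rw [Subgroup.map_sup, hQm, hKm, Lib.TransvectionCentralizer.sup_eq,
      Lib.AffineLarge.centralizer_eq_comap f hf hfz, Lib.AffineLarge.comap_map f hC le_rfl]

end Cfsg.Agent.S5423
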