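import Cfsg.Statements.S5424
import Cfsg.Agent.Lib.PLocal.TransvectionCentralizer

set_option autoImplicit false
open Cfsg

namespace Cfsg.Agent.S5424

/-- Let G be the special linear group of degree n + 2 over the field with two elements, n ≥ 2, let z be a transvection, and let Q be the largest normal 2-subgroup of the centralizer C of z. Then Q is extraspecial of order 2^(2n+1) with an elementary abelian subgroup of order 2^(n+1) (plus type), Q is a large extraspecial 2-subgroup of G, and C is the split extension of Q by the special linear group of degree n over the field with two elements. -/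
theorem result (n : ℕ) (hn : 2 ≤ n) (z : Matrix.SpecialLinearGroup (Fin (n + 2)) (ZMod 2)) (hz : (z : Matrix (Fin (n + 2)) (Fin (n + 2)) (ZMod 2)) = Matrix.transvection 0 1 1) (Q : Subgroup (Matrix.SpecialLinearGroup (Fin (n + 2)) (ZMod 2))) (hQ : Q = (Cfsg.pCore 2 ↥(Subgroup.centralizer ({z} : Set (Matrix.SpecialLinearGroup (Fin (n + 2)) (ZMod 2))))).map (Subgroup.centralizer ({z} : Set (Matrix.SpecialLinearGroup (Fin (n + 2)) (ZMod 2)))).subtype) : Cfsg.IsExtraspecial 2 ↥Q ∧ Nat.card ↥Q = 2 ^ (2 * n + 1) ∧ (∃ E : Subgroup (Matrix.SpecialLinearGroup (Fin (n + 2)) (ZMod 2)), E ≤ Q ∧ Cfsg.IsElementaryAbelian 2 E ∧ Nat.card ↥E = 2 ^ (n + 1)) ∧ Cfsg.IsLargeExtraspecial Q ∧ ∃ K : Subgroup (Matrix.SpecialLinearGroup (Fin (n + 2)) (ZMod 2)), K ≤ Subgroup.centralizer ({z} : Set (Matrix.SpecialLinearGroup (Fin (n + 2)) (ZMod 2))) ∧ Q ⊓ K = ⊥ ∧ Q ⊔ K = Subgroup.centralizer ({z} : Set (Matrix.SpecialLinearGroup (Fin (n + 2)) (ZMod 2))) ∧ Nonempty (↥K ≃* Matrix.SpecialLinearGroup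 (Fin n) (ZMod 2)) := by
  obtain ⟨k, rfl⟩ : ∃ k, n = k + 1 := ⟨n - 1, by omega⟩
  have hzz : z = Lib.TransvectionCentralizer.z₀ k :=
    Subtype.ext (hz.trans Lib.TransvectionCentralizer.z₀_val.symm)
  subst hzz
  have hQ' : Q = (Lib.TransvectionCentralizer.ι (k := k)).range :=
    hQ.trans Lib.TransvectionCentralizer.pCore_map_eq
  subst hQ'
  have hinj := Lib.TransvectionCentralizer.ι_inj (k := k)
  refine ⟨Lib.TransvectionCentralizer.isLarge.1, ?_, ?_, Lib.TransvectionCentralizer.isLarge,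
    (Lib.TransvectionCentralizer.σ (k := k)).range, ?_, Lib.TransvectionCentralizer.inf_eq,
    Lib.TransvectionCentralizer.sup_eq,
    ⟨(MonoidHom.ofInjective Lib.TransvectionCentralizer.σ_inj).symm⟩⟩
  · rw [← Nat.card_congr (MonoidHom.ofInjective hinj).toEquiv]
    exact Lib.ExtraspecialModels.card_ext
  · refine ⟨(Lib.ExtraspecialModels.wit k 0).map Lib.TransvectionCentralizer.ι, ?_, ⟨?_, ?_⟩, ?_⟩
    · rintro _ ⟨x, -, rfl⟩; exact ⟨x, rfl⟩
    · obtain ⟨hc, -⟩ := Lib.ExtraspecialModels.wit_elem (k := k) (e := 0)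
      refine ⟨⟨?_⟩⟩
      rintro ⟨_, x, hx, rfl⟩ ⟨_, y, hy, rfl⟩
      refine Subtype.ext ?_
      show _ * _ = _ * _
      rw [← map_mul, ← map_mul]
      exact congrArg _ (congrArg Subtype.val
        (hc.is_comm.comm (⟨x, hx⟩ : Lib.ExtraspecialModels.wit k 0) ⟨y, hy⟩))
    · rintro _ ⟨x, hx, rfl⟩
      rw [← map_pow, (Lib.ExtraspecialModels.wit_elem (k := k) (e := 0)).2 x hx, map_one]
    · rw [Subgroup.card_map_of_injective hinj, Lib.ExtraspecialModels.card_wit, if_pos rfl]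
  · exact le_sup_right.trans Lib.TransvectionCentralizer.sup_eq.le

end Cfsg.Agent.S5424
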