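import Cfsg.Statements.S5425
import Cfsg.Agent.S5423
import Cfsg.Agent.Lib.Golay.OctadStab
import Cfsg.Agent.Lib.Solv.Coprime2

set_option autoImplicit false
open Cfsg

namespace Cfsg.Agent.S5425

open Cfsg.Lib.Golay
open scoped Pointwise

/-- An elementary abelian group of order `16` has at most `20160` automorphisms. -/
theorem card_mulAut_le {G : Type*} [Group G] [Finite G] (U : Subgroup G)
    (hU : Cfsg.IsElementaryAbelian 2 U) (hUcard : Nat.card ↥U = 2 ^ 4) :
    Nat.card (↥U ≃* ↥U) ≤ 20160 := by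
  classical
  obtain ⟨z, hz⟩ : ∃ z : ↥U, z ≠ 1 := by
    haveI : Nontrivial ↥U := (Finite.one_lt_card_iff_nontrivial).1 (by omega)
    exact exists_ne 1
  obtain ⟨ψ, hψ, hψmul, -⟩ := Cfsg.Lib.AffineEmbedding.exists_coords (n := 3) U hU hUcard z hz
  obtain ⟨ψi, hψl, hψr⟩ := Function.bijective_iff_has_inverse.1 hψ
  have hψi_add : ∀ a b, ψi (a + b) = ψi a * ψi b := fun a b => hψ.1 (by rw [hψmul, hψr, hψr, hψr])
  have hA : ∀ φ : ↥U ≃* ↥U, ∃ A : Matrix (Fin 4) (Fin 4) (ZMod 2),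
      ∀ w, Matrix.vecMul w A = ψ (φ (ψi w)) := fun φ =>
    Cfsg.Lib.AffineEmbedding.exists_vecMul_matrix (AddMonoidHom.mk' (fun w => ψ (φ (ψi w)))
      fun a b => by rw [hψi_add, map_mul, hψmul])
  choose A hA using hA
  have hinv : ∀ φ, A φ * A φ.symm = 1 := fun φ => Cfsg.Lib.AffineEmbedding.matrix_ext fun w => by
    rw [← Matrix.vecMul_vecMul, hA, hA, Matrix.vecMul_one, hψl, MulEquiv.symm_apply_apply, hψr]
  let F : (↥U ≃* ↥U) → Matrix.GeneralLinearGroup (Fin 4) (ZMod 2) := fun φ =>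
    ⟨A φ, A φ.symm, hinv φ, by simpa using hinv φ.symm⟩
  have hF : Function.Injective F := fun φ φ' h => by
    refine MulEquiv.ext fun u => hψ.1 ?_
    have h' : A φ = A φ' := congrArg Units.val h
    have h1 := hA φ (ψ u)
    rw [h', hA φ' (ψ u), hψl] at h1
    exact h1.symm
  refine (Nat.card_le_card_of_injective F hF).trans (le_of_eq ?_)
  rw [Matrix.card_GL_field]
  simp [Fin.prod_univ_four, ZMod.card]

theorem isExtraspecial_map {G G' : Type*} [Group G] [Group G'] (f : G →* G')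
    (hf : Function.Injective f) {Q : Subgroup G} (h : Cfsg.IsExtraspecial 2 ↥Q) :
    Cfsg.IsExtraspecial 2 ↥(Q.map f) :=
  Cfsg.Lib.TransvectionCentralizer.isExtraspecial_of_equiv (Q.equivMapOfInjective f hf) h

/-- In the Mathieu group of degree 24 (the automorphism group of the length-24 binary Golay code, acting on the 24 coordinates), let z be an involution whose fixed points form an octad (the support of a code word of weight 8), and let Q be the largest normal 2-subgroup of the centralizer C of z. Then Q is extraspecial of order 2^7 with an elementary abelian subgroup of order 16 (plus type), Q is a large extraspecial 2-subgroup, and C is the split extension of Q by the special linear group of degree 3 over the field with two elements. -/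
theorem result (z : ↥Cfsg.M24) (hz : orderOf z = 2) (hfix : (Finset.univ.filter fun p : Cfsg.GolayPt => (z : Equiv.Perm Cfsg.GolayPt) p = p) ∈ Cfsg.octads) (Q : Subgroup ↥Cfsg.M24) (hQ : Q = (Cfsg.pCore 2 ↥(Subgroup.centralizer ({z} : Set ↥Cfsg.M24))).map (Subgroup.centralizer ({z} : Set ↥Cfsg.M24)).subtype) : Cfsg.IsExtraspecial 2 ↥Q ∧ Nat.card ↥Q = 2 ^ 7 ∧ (∃ E : Subgroup ↥Cfsg.M24, E ≤ Q ∧ Cfsg.IsElementaryAbelian 2 E ∧ Nat.card ↥E = 2 ^ 4) ∧ Cfsg.IsLargeExtraspecial Q ∧ ∃ K : Subgroup ↥Cfsg.M24, K ≤ Subgroup.centralizer ({z} : Set ↥Cfsg.M24) ∧ Q ⊓ K = ⊥ ∧ Q ⊔ K = Subgroup.centralizer ({z} : Set ↥Cfsg.M24) ∧ Nonempty (↥K ≃* Matrix.SpecialLinearGroup (Fin 3) (ZMod 2)) := by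
  classical
  haveI : Fact (Nat.Prime 2) := ⟨Nat.prime_two⟩
  set o := Finset.univ.filter fun p : Cfsg.GolayPt => (z : Equiv.Perm Cfsg.GolayPt) p = p with ho'
  have ho : o ∈ Cfsg.octads := hfix
  have hfixo : ∀ x, x ∈ o ↔ (z : Equiv.Perm Cfsg.GolayPt) x = x := fun x => by simp [o]
  set H : Subgroup ↥Cfsg.M24 := (OctadStab.octStab o).subgroupOf Cfsg.M24
  set U₀ : Subgroup ↥Cfsg.M24 := (fixer o).subgroupOf Cfsg.M24
  set U : Subgroup ↥H := U₀.subgroupOf H
  have hU₀H : U₀ ≤ H := fun g hg => OctadStab.fixer_le_octStab o hg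
  obtain ⟨p, hp⟩ : ∃ p, p ∉ o := by
    by_contra hall
    push Not at hall
    have h1 : o = Finset.univ := Finset.eq_univ_of_forall hall
    have h2 := ho.2
    rw [h1, Finset.card_univ] at h2
    simp [Cfsg.GolayPt] at h2
  set M : Subgroup ↥H := (MulAction.stabilizer (Equiv.Perm Cfsg.GolayPt) p).comap
    (Cfsg.M24.subtype.comp H.subtype)
  have hUmem : ∀ g : ↥H, g ∈ U ↔ ∀ a ∈ o, g.1.1 a = a := fun g =>
    ⟨fun h => h.2, fun h => ⟨g.1.2, h⟩⟩
  have hHmem : ∀ (g : ↥H) x, g.1.1 x ∈ o ↔ x ∈ o := fun g x =>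
    OctadStab.mem_iff_of_stab g.2.2 x
  haveI : U.Normal := ⟨fun n hn g => (hUmem _).2 fun a ha => by
    show g.1.1 (n.1.1 ((g.1.1)⁻¹ a)) = a
    have h1 : (g.1.1)⁻¹ a ∈ o := by
      rw [← hHmem g]; simpa using ha
    rw [(hUmem n).1 hn _ h1]; simp⟩
  have hU₀card : Nat.card ↥U₀ = 16 := by
    rw [Nat.card_congr (Subgroup.subgroupOfEquivOfLe (fixer_le_M24 o)).toEquiv, (OctKer.fixer_octad ho).1]
  have hUcard : Nat.card ↥U = 2 ^ (3 + 1) := by
    rw [Nat.card_congr (Subgroup.subgroupOfEquivOfLe hU₀H).toEquiv, hU₀card]; norm_num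
  have hsq : ∀ g ∈ U, g * g = 1 := fun g hg =>
    Subtype.ext (Subtype.ext ((OctKer.fixer_octad ho).2 _ hg))
  have hcomm2 : ∀ g ∈ U, ∀ h ∈ U, g * h = h * g := fun g hg h hh => by
    have h1 := inv_eq_of_mul_eq_one_right (hsq g hg)
    have h2 := inv_eq_of_mul_eq_one_right (hsq h hh)
    have h3 := inv_eq_of_mul_eq_one_right (hsq _ (U.mul_mem hg hh))
    rw [mul_inv_rev, h1, h2] at h3
    exact h3.symm
  have hU : Cfsg.IsElementaryAbelian 2 U :=
    ⟨⟨⟨fun a b => Subtype.ext (hcomm2 a a.2 b b.2)⟩⟩, fun a ha => by rw [pow_two]; exact hsq a ha⟩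
  have hUM : U ⊓ M = ⊥ := by
    rw [Subgroup.eq_bot_iff_forall]
    intro g ⟨hgU, hgM⟩
    exact Subtype.ext (Subtype.ext (OctadStab.eq_one_of_fixer ho hp hgU hgM))
  have hUM' : U ⊔ M = ⊤ := by
    rw [eq_top_iff]
    intro g _
    obtain ⟨u, hu, hup⟩ := OctadStab.fixer_transitive ho hp
      (fun h => hp ((hHmem g p).1 h))
    let u' : ↥H := ⟨⟨u, fixer_le_M24 o hu⟩, OctadStab.fixer_le_octStab o hu⟩
    rw [show g = u' * (u'⁻¹ * g) by group]
    refine Subgroup.mul_mem_sup hu ?_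
    show (u⁻¹ * g.1.1) p = p
    rw [Equiv.Perm.mul_apply, ← hup]; simp
  have hfaith : ∀ m ∈ M, (∀ u ∈ U, m * u * m⁻¹ = u) → m = 1 := by
    intro m hm hc
    refine Subtype.ext (Subtype.ext (eq_one_of_fix m.1.2 ?_))
    have hsub : oᶜ ⊆ fixPts m.1.1 := fun q hq => by
      rw [mem_fixPts]
      obtain ⟨u, hu, rfl⟩ := OctadStab.fixer_transitive ho hp (Finset.mem_compl.1 hq)
      let u' : ↥H := ⟨⟨u, fixer_le_M24 o hu⟩, OctadStab.fixer_le_octStab o hu⟩
      have h := hc u' hu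
      rw [mul_inv_eq_iff_eq_mul] at h
      have h' : m.1.1 * u = u * m.1.1 := congrArg (fun t : ↥H => t.1.1) h
      have hm' : m.1.1 p = p := hm
      rw [← Equiv.Perm.mul_apply, h', Equiv.Perm.mul_apply, hm']
    refine le_trans ?_ (Finset.card_le_card hsub)
    rw [Finset.card_compl, ho.2]
    simp [Cfsg.GolayPt]
  have hMcard : Nat.card ↥M = 20160 := by
    have hc : Subgroup.IsComplement' U M := Subgroup.isComplement'_of_disjoint_and_mul_eq_univ
      (disjoint_iff.2 hUM) (by rw [← Subgroup.normal_mul, hUM', Subgroup.coe_top])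
    have h := hc.card_mul
    rw [hUcard, Nat.card_congr (Subgroup.subgroupOfEquivOfLe (fun g hg => hg.1 :
      OctadStab.octStab o ≤ Cfsg.M24)).toEquiv, OctadStab.card_octStab ho] at h
    omega
  have hfull : ∀ φ : ↥U ≃* ↥U, ∃ m ∈ M, ∀ u : ↥U, ((φ u : ↥U) : ↥H) = m * u * m⁻¹ := by
    let cM : ↥M → (↥U ≃* ↥U) := fun m =>
      { toFun := fun u => ⟨(m : ↥H) * u * (m : ↥H)⁻¹, Subgroup.Normal.conj_mem inferInstance _ u.2 _⟩
        invFun := fun u => ⟨(m : ↥H)⁻¹ * u * (m : ↥H), by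
          simpa using Subgroup.Normal.conj_mem (inferInstance : U.Normal) _ u.2 (m : ↥H)⁻¹⟩
        left_inv := fun u => Subtype.ext (by
          show (m : ↥H)⁻¹ * ((m : ↥H) * u * (m : ↥H)⁻¹) * m = u; group)
        right_inv := fun u => Subtype.ext (by
          show (m : ↥H) * ((m : ↥H)⁻¹ * u * m) * (m : ↥H)⁻¹ = u; group)
        map_mul' := fun u v => Subtype.ext (by
          show (m : ↥H) * (u * v : ↥U) * (m : ↥H)⁻¹ =
            ((m : ↥H) * u * (m : ↥H)⁻¹) * ((m : ↥H) * v * (m : ↥H)⁻¹)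
          rw [Subgroup.coe_mul]; group) }
    have hinj : Function.Injective cM := fun m m' h => by
      have h1 : ((m'⁻¹ * m : ↥M) : ↥H) = 1 := by
        refine hfaith _ (m'⁻¹ * m).2 fun u hu => ?_
        have h2 : (m : ↥H) * u * (m : ↥H)⁻¹ = (m' : ↥H) * u * (m' : ↥H)⁻¹ :=
          congrArg Subtype.val (DFunLike.congr_fun h ⟨u, hu⟩)
        simp only [Subgroup.coe_mul, Subgroup.coe_inv]
        calc (m' : ↥H)⁻¹ * m * u * ((m' : ↥H)⁻¹ * m)⁻¹
            = (m' : ↥H)⁻¹ * ((m : ↥H) * u * (m : ↥H)⁻¹) * m' := by group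
          _ = u := by rw [h2]; group
      exact (inv_mul_eq_one.1 (Subtype.ext h1)).symm
    haveI : Finite (↥U ≃* ↥U) := Finite.of_injective
      (fun φ => (φ : ↥U → ↥U)) DFunLike.coe_injective
    have hsurj : Function.Surjective cM :=
      ((Nat.bijective_iff_injective_and_card cM).2 ⟨hinj, le_antisymm
        (Nat.card_le_card_of_injective cM hinj) (by
          rw [hMcard]; exact card_mulAut_le U hU hUcard)⟩).2
    intro φ
    obtain ⟨m, hm⟩ := hsurj φ
    exact ⟨m, m.2, fun u => by rw [← hm]; rfl⟩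
  have hzU₀ : z ∈ U₀ := ⟨z.2, fun a ha => (hfixo a).1 ha⟩
  set zH : ↥H := ⟨z, hU₀H hzU₀⟩
  have hCH : ∀ u ∈ U₀, u ≠ 1 → Subgroup.centralizer ({u} : Set ↥Cfsg.M24) ≤ H := by
    intro u hu hu1 g hg
    refine ⟨g.2, Finset.eq_of_subset_of_card_le ?_ (by rw [Finset.card_smul_finset])⟩
    intro x hx
    obtain ⟨a, ha, rfl⟩ := Finset.mem_smul_finset.1 hx
    rw [Equiv.Perm.smul_def]
    by_contra hga
    refine hu1 (Subtype.ext (OctadStab.eq_one_of_fixer ho hga hu ?_))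
    have h : g.1 * u.1 = u.1 * g.1 :=
      congrArg Subtype.val (Subgroup.mem_centralizer_singleton_iff.1 hg)
    have h' := Equiv.Perm.ext_iff.1 h a
    rw [Equiv.Perm.mul_apply, Equiv.Perm.mul_apply, show u.1 a = a from hu.2 a ha] at h'
    exact h'.symm
  have hz1 : z ≠ 1 := fun h => by rw [h, orderOf_one] at hz; omega
  set Z : Subgroup ↥H := Subgroup.zpowers zH
  have hzH : orderOf zH = 2 := by rw [← hz]; exact (Subgroup.orderOf_coe zH).symm
  have hZU : Z ≤ U := Subgroup.zpowers_le.2 (show zH ∈ U from hzU₀)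
  have hZcard : Nat.card ↥Z = 2 := by rw [Nat.card_zpowers, hzH]
  set CH := Subgroup.centralizer (Z : Set ↥H) with hCHd
  set C := Subgroup.centralizer ({z} : Set ↥Cfsg.M24) with hCd
  have hCle : C ≤ H := hCH z hzU₀ hz1
  have hCmap : CH.map H.subtype = C := by
    ext g
    constructor
    · rintro ⟨g, hg, rfl⟩
      exact Subgroup.mem_centralizer_singleton_iff.2
        (congrArg Subtype.val (hg zH (Subgroup.mem_zpowers _))).symm
    · intro hg
      refine ⟨⟨g, hCle hg⟩, ?_, rfl⟩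
      rw [hCHd, SetLike.mem_coe, Subgroup.mem_centralizer_iff]
      rintro y ⟨i, rfl⟩
      have hc : Commute (⟨g, hCle hg⟩ : ↥H) zH :=
        Subtype.ext (Subgroup.mem_centralizer_singleton_iff.1 hg)
      exact (hc.zpow_right i).symm
  set QH := (Cfsg.pCore 2 ↥CH).map CH.subtype with hQHd
  obtain ⟨hes, hcard, ⟨E, hEQ, hE, hEcard⟩, ⟨-, hL2, hL3, hL4⟩, K, hKC, hQK, hQK', ⟨eK⟩⟩ :=
    Cfsg.Agent.S5423.result 3 (by norm_num) U M hU hUcard hUM hUM' hfaith hfull Z hZU hZcard QH rfl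
  have hinj : Function.Injective H.subtype := H.subtype_injective
  have hQmap : QH.map H.subtype = Q := by
    rw [hQ, hQHd, Subgroup.map_map,
      ← Cfsg.Lib.AffineLarge.pCore_map_equiv
        ((CH.equivMapOfInjective H.subtype hinj).trans (MulEquiv.subgroupCongr hCmap)),
      Subgroup.map_map]
    rfl
  subst hQmap
  have hesQ := isExtraspecial_map H.subtype hinj hes
  refine ⟨hesQ, by rw [Subgroup.card_map_of_injective hinj, hcard],
    ⟨E.map H.subtype, Subgroup.map_mono hEQ, ⟨⟨⟨?_⟩⟩, ?_⟩,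
      by rw [Subgroup.card_map_of_injective hinj, hEcard]⟩,
    ⟨hesQ, ?_, ?_, ?_⟩, K.map H.subtype, ?_, ?_, ?_, ?_⟩
  · rintro ⟨_, a, ha, rfl⟩ ⟨_, b, hb, rfl⟩
    exact Subtype.ext (congrArg (fun t : ↥E => ((t : ↥H) : ↥Cfsg.M24))
      (hE.1.is_comm.comm ⟨a, ha⟩ ⟨b, hb⟩))
  · rintro _ ⟨a, ha, rfl⟩
    rw [← map_pow, hE.2 a ha, map_one]
  · have hzQ : zH ∈ QH := by
      have hzC : zH ∈ Subgroup.centralizer (QH : Set ↥H) := fun y hy => by
        obtain ⟨y, -, rfl⟩ := hy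
        exact (y.2 zH (Subgroup.mem_zpowers _)).symm
      rw [hL2] at hzC
      exact Subgroup.map_subtype_le _ hzC
    ext g
    rw [Cfsg.Lib.TransvectionCentralizer.center_map]
    constructor
    · intro hg
      have hgH : g ∈ H := hCle (Subgroup.mem_centralizer_singleton_iff.2
        (hg z ⟨zH, hzQ, rfl⟩).symm)
      have h1 : (⟨g, hgH⟩ : ↥H) ∈ Subgroup.centralizer (QH : Set ↥H) := fun y hy =>
        Subtype.ext (hg y.1 ⟨y, hy, rfl⟩)
      rw [hL2, Cfsg.Lib.TransvectionCentralizer.center_map] at h1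
      exact ⟨⟨_, h1.1, rfl⟩, fun h hh => hg h hh⟩
    · exact fun hg y hy => hg.2 y hy
  · intro g hg
    have hzc : z ∈ (Subgroup.center ↥(QH.map H.subtype)).map (QH.map H.subtype).subtype := by
      rw [Cfsg.Lib.TransvectionCentralizer.center_map]
      have hzC : zH ∈ Subgroup.centralizer (QH : Set ↥H) := fun y hy => by
        obtain ⟨y, -, rfl⟩ := hy
        exact (y.2 zH (Subgroup.mem_zpowers _)).symm
      have hzC' := hzC
      rw [hL2, Cfsg.Lib.TransvectionCentralizer.center_map] at hzC'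
      refine ⟨⟨zH, hzC'.1, rfl⟩, ?_⟩
      rintro _ ⟨y, hy, rfl⟩
      exact congrArg Subtype.val (hzC y hy)
    have hgH : g ∈ H := hCle (Subgroup.mem_centralizer_singleton_iff.2 (hg z hzc).symm)
    have h1 : (⟨g, hgH⟩ : ↥H) ∈ Subgroup.normalizer (QH : Set ↥H) := by
      refine hL3 fun y hy => ?_
      rw [SetLike.mem_coe, Cfsg.Lib.TransvectionCentralizer.center_map] at hy
      refine Subtype.ext (hg y.1 ?_)
      rw [SetLike.mem_coe, Cfsg.Lib.TransvectionCentralizer.center_map]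
      refine ⟨⟨y, hy.1, rfl⟩, ?_⟩
      rintro _ ⟨w, hw, rfl⟩
      exact congrArg Subtype.val (hy.2 w hw)
    exact Subgroup.le_normalizer_map H.subtype ⟨_, h1, rfl⟩
  · intro K' hK' hQK
    have hU0Q : U₀ ≤ QH.map H.subtype := by
      intro u hu
      let u' : ↥H := ⟨u, hU₀H hu⟩
      have hu' : u' ∈ CH := by
        refine Subgroup.mem_centralizer_iff.2 ?_
        intro y hy
        exact hcomm2 y (hZU hy) u' hu
      refine ⟨u', ⟨⟨u', hu'⟩, ?_, rfl⟩, rfl⟩
      refine Cfsg.Lib.Solv.le_pCore (N := U.subgroupOf CH) inferInstance ?_ (show u' ∈ U from hu)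
      exact (IsPGroup.of_card hUcard).comap_subtype
    haveI hU₀c : IsMulCommutative ↥U₀ := ⟨⟨fun a b => Subtype.ext (congrArg (fun t : ↥H => (t : ↥Cfsg.M24))
      (hcomm2 ⟨a.1, hU₀H a.2⟩ a.2 ⟨b.1, hU₀H b.2⟩ b.2))⟩⟩
    have hnc : ¬ IsCyclic ↥U₀ := fun hc => by
      have h1 : Monoid.exponent ↥U₀ = 16 := by
        rw [IsCyclic.exponent_eq_card, hU₀card]
      have h2 : Monoid.exponent ↥U₀ ∣ 2 := Monoid.exponent_dvd_of_forall_pow_eq_one fun a =>
        Subtype.ext (congrArg (fun t : ↥H => (t : ↥Cfsg.M24)) (hU.2 ⟨a.1, hU₀H a.2⟩ a.2))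
      rw [h1] at h2
      omega
    have hK'H : K' ≤ H := Cfsg.Lib.Solv.le_of_fixed_le U₀ K' H hnc (hU0Q.trans hQK)
      (by rw [hU₀card]; exact Nat.Coprime.pow_left 4 (Nat.coprime_two_left.2 hK'))
      fun a ha ha1 => inf_le_right.trans (hCH a ha ha1)
    have h1 : K'.subgroupOf H = ⊥ := by
      refine hL4 _ (by rwa [Nat.card_congr (Subgroup.subgroupOfEquivOfLe hK'H).toEquiv]) ?_
      intro y hy
      rw [Subgroup.mem_normalizer_iff]
      intro x
      exact Subgroup.mem_normalizer_iff.1 (hQK ⟨y, hy, rfl⟩) x.1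
    rw [Subgroup.subgroupOf_eq_bot] at h1
    exact le_bot_iff.1 (h1 le_rfl hK'H)
  · rw [← hCmap]; exact Subgroup.map_mono hKC
  · rw [← Subgroup.map_inf _ _ _ hinj, hQK, Subgroup.map_bot]
  · rw [← Subgroup.map_sup, hQK', hCmap]
  · obtain ⟨e⟩ := Cfsg.Lib.AffineLarge.sl_equiv_gl 3
    exact ⟨((K.equivMapOfInjective _ hinj).symm.trans eK).trans e.symm⟩

end Cfsg.Agent.S5425
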