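import Cfsg.Statements.S5433
import Mathlib
import Cfsg.Agent.Lib.Solv.Cores
import Cfsg.Agent.Lib.Transfer.ExtraspecialClass

set_option autoImplicit false
open Cfsg
open scoped commutatorElement Pointwise

namespace Cfsg.Agent.S5433

/-- Let Q be a large extraspecial 2-subgroup of the finite group G (extraspecial; centralizer equal to its centre; normal in the centralizer of its centre; normalizing no non-trivial subgroup of odd order), and L a normal subgroup of G containing Q. Then G is the product of L and the normalizer of Q. -/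
theorem result {G : Type*} [Group G] [Finite G] (Q : Subgroup G) (hQ : Cfsg.IsLargeExtraspecial Q) (L : Subgroup G) [L.Normal] (hQL : Q ≤ L) : L ⊔ Subgroup.normalizer (Q : Set G) = ⊤ := by
  classical
  haveI : Fact (Nat.Prime 2) := ⟨Nat.prime_two⟩
  obtain ⟨hE, hC, hN, -⟩ := hQ
  set Z := (Subgroup.center ↥Q).map Q.subtype
  have hZc : Nat.card Z = 2 := by
    rw [← Nat.card_congr ((Subgroup.center ↥Q).equivMapOfInjective Q.subtype Q.subtype_injective).toEquiv]
    exact hE.2
  have hp : IsPGroup 2 (Q.subgroupOf L) := IsPGroup.of_equiv hE.1.1 (Subgroup.subgroupOfEquivOfLe hQL).symm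
  obtain ⟨T, hT⟩ := hp.exists_le_sylow
  set T' := (T : Subgroup L).map L.subtype
  have hQT : Q ≤ T' := by
    intro q hq
    exact ⟨⟨q, hQL hq⟩, hT hq, rfl⟩
  have htop := Sylow.normalizer_sup_eq_top (N := L) T
  rw [eq_top_iff, ← htop]
  refine sup_le ?_ le_sup_left
  refine le_trans ?_ le_sup_right
  refine le_trans ?_ hN
  -- the centre of T lies in Z
  haveI : Nontrivial T' := by
    rw [Subgroup.nontrivial_iff_ne_bot]
    intro e
    have h2 := Subgroup.card_le_of_le (show Z ≤ T' from (Subgroup.map_subtype_le _).trans hQT)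
    rw [hZc, e, Subgroup.card_bot] at h2
    omega
  haveI := (T.isPGroup'.map L.subtype).center_nontrivial (G := T')
  obtain ⟨⟨⟨c, hcT⟩, hc⟩, hc1⟩ := exists_ne (1 : Subgroup.center T')
  have hcZ : c ∈ Z := by
    rw [← hC, Subgroup.mem_centralizer_iff]
    exact fun q hq => congrArg Subtype.val (Subgroup.mem_center_iff.mp hc ⟨q, hQT hq⟩)
  have hc1' : c ≠ 1 := fun e => hc1 (Subtype.ext (Subtype.ext e))
  have hpair : ∀ z ∈ Z, z = 1 ∨ z = c := by
    intro z hz
    by_contra h
    push Not at h
    haveI : Fintype Z := Fintype.ofFinite _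
    have h3 : ({⟨1, Z.one_mem⟩, ⟨c, hcZ⟩, ⟨z, hz⟩} : Finset Z).card = 3 :=
      Finset.card_eq_three.mpr ⟨_, _, _, fun e => hc1' (congrArg Subtype.val e).symm,
        fun e => h.1 (congrArg Subtype.val e).symm, fun e => h.2 (congrArg Subtype.val e).symm, rfl⟩
    have := Finset.card_le_univ ({⟨1, Z.one_mem⟩, ⟨c, hcZ⟩, ⟨z, hz⟩} : Finset Z)
    rw [← Nat.card_eq_fintype_card, hZc, h3] at this
    omega
  have key : ∀ n ∈ Subgroup.normalizer (T' : Set G), n * c * n⁻¹ = c := by
    intro n hn
    have hm : n * c * n⁻¹ ∈ Z := by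
      rw [← hC, Subgroup.mem_centralizer_iff]
      intro q hq
      have hq' : n⁻¹ * q * n ∈ T' := by
        have := (Subgroup.mem_normalizer_iff.mp (inv_mem hn) q).mp (hQT hq)
        rwa [inv_inv] at this
      have h : n⁻¹ * q * n * c = c * (n⁻¹ * q * n) :=
        congrArg Subtype.val (Subgroup.mem_center_iff.mp hc ⟨_, hq'⟩)
      calc q * (n * c * n⁻¹) = n * (n⁻¹ * q * n * c) * n⁻¹ := by group
        _ = n * c * n⁻¹ * q := by rw [h]; group
    rcases hpair _ hm with e | e
    · exact absurd (by simpa using e) hc1'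
    · exact e
  intro n hn
  rw [Subgroup.mem_centralizer_iff]
  intro z hz
  rcases hpair z hz with rfl | rfl
  · simp
  · exact (mul_inv_eq_iff_eq_mul.mp (key n hn)).symm

end Cfsg.Agent.S5433
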