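import Cfsg.Statements.S5434
import Cfsg.Agent.Lib.Solv.Coprime
import Cfsg.Agent.Lib.Solv.PGroupBasic

set_option autoImplicit false
open Cfsg

namespace Cfsg.Agent.S5434

open scoped commutatorElement
open Subgroup Cfsg.Lib.Solv

theorem key {G : Type*} [Group G] [Finite G] (Q : Subgroup G) (hE : Cfsg.IsExtraspecial 2 Q) (R T : Subgroup G)
    (hRQ : R ≤ Q) (hRT : R ⊔ T = Q) (hc : ∀ x ∈ R, ∀ y ∈ T, x * y = y * x)
    (hna : ¬ IsMulCommutative R) : Cfsg.IsExtraspecial 2 R := by
  haveI : Fact (Nat.Prime 2) := ⟨Nat.prime_two⟩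
  obtain ⟨⟨hP, hΦ, hD⟩, hcard⟩ := hE
  have hPR : IsPGroup 2 R := hP.to_le hRQ
  set Z := (center ↥Q).map Q.subtype with hZ
  have hZc : Nat.card Z = 2 := by
    rw [hZ, ← Nat.card_congr ((center ↥Q).equivMapOfInjective Q.subtype Q.subtype_injective).toEquiv]
    exact hcard
  have hcenZ : (center ↥R).map R.subtype ≤ Z := by
    rintro _ ⟨r, hr, rfl⟩
    refine ⟨⟨r, hRQ r.2⟩, mem_center_iff.2 fun q => Subtype.ext ?_, rfl⟩
    have hle : R ⊔ T ≤ centralizer ({(r : G)} : Set G) :=
      sup_le (fun x hx => mem_centralizer_singleton_iff.2 (congrArg Subtype.val (mem_center_iff.1 hr ⟨x, hx⟩)))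
        (fun y hy => mem_centralizer_singleton_iff.2 (hc r r.2 y hy).symm)
    exact mem_centralizer_singleton_iff.1 (hle (hRT ▸ q.2))
  haveI : Nontrivial R := by
    rw [Subgroup.nontrivial_iff_ne_bot]
    intro e
    exact hna ⟨⟨fun x y => by
      subst e
      exact Subsingleton.elim _ _⟩⟩
  have hcR : Nat.card (center ↥R) = 2 := by
    have h1 : Nat.card ((center ↥R).map R.subtype) ∣ 2 := hZc ▸ card_dvd_of_le hcenZ
    rw [← Nat.card_congr ((center ↥R).equivMapOfInjective R.subtype R.subtype_injective).toEquiv] at h1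
    rcases (Nat.dvd_prime Nat.prime_two).1 h1 with h | h
    · exact absurd (card_eq_one.1 h) (Subgroup.nontrivial_iff_ne_bot _ |>.1 hPR.center_nontrivial)
    · exact h
  have hcZ : (center ↥R).map R.subtype = Z := by
    refine eq_of_le_of_card_ge hcenZ ?_
    rw [hZc, ← Nat.card_congr ((center ↥R).equivMapOfInjective R.subtype R.subtype_injective).toEquiv, hcR]
  have hlift : ∀ r : R, (r : G) ∈ Z → r ∈ center ↥R := by
    intro r hr
    rw [← hcZ] at hr
    obtain ⟨r', h', e⟩ := hr
    rwa [← Subtype.ext e]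
  have hcomm : _root_.commutator R ≤ center ↥R := by
    rw [_root_.commutator_def, commutator_le]
    intro a _ b _
    refine hlift _ ⟨⁅(⟨a, hRQ a.2⟩ : Q), ⟨b, hRQ b.2⟩⁆, hD ▸ ?_, by simp [commutatorElement_def]⟩
    exact commutator_mem_commutator (mem_top _) (mem_top _)
  have hDR : _root_.commutator R = center ↥R := by
    refine eq_of_le_of_card_ge hcomm ?_
    rw [hcR]
    rcases Nat.lt_or_ge (Nat.card (_root_.commutator R)) 2 with h | h
    · exfalso
      have h0 : _root_.commutator R = ⊥ := card_eq_one.1 (by have := Nat.card_pos (α := _root_.commutator R); omega)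
      exact hna ⟨⟨fun a b => by
        have : ⁅a, b⁆ ∈ _root_.commutator R := commutator_mem_commutator (mem_top _) (mem_top _)
        rw [h0, mem_bot] at this
        exact commutatorElement_eq_one_iff_mul_comm.1 this⟩⟩
    · exact h
  refine ⟨⟨hPR, le_antisymm ?_ (hDR ▸ Cfsg.Lib.Solv.commutator_le_frattini hPR), hDR⟩, hcR⟩
  refine frattini_le_of_elementary_quotient (p := 2) _ hcomm fun x => hlift _ ⟨(⟨x, hRQ x.2⟩ : Q) ^ 2, ?_, by simp⟩
  exact hΦ ▸ Cfsg.Lib.Solv.pow_mem_frattini hP _

/-- Let Q be a large extraspecial 2-subgroup of the finite group G (extraspecial; centralizer equal to its centre; normal in the centralizer of its centre; normalizing no non-trivial subgroup of odd order), and A a non-trivial subgroup of odd order of the normalizer of Q. Then Q is the central product of the centralizer of A in Q and the commutator subgroup [Q, A] (they generate Q and commute elementwise), [Q, A] is extraspecial, and the centralizer of A in Q is either the centre of Q or extraspecial.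 -/
theorem result {G : Type*} [Group G] [Finite G] (Q : Subgroup G) (hQ : Cfsg.IsLargeExtraspecial Q) (A : Subgroup G) (hA : A ≤ Subgroup.normalizer (Q : Set G)) (hAodd : Odd (Nat.card ↥A)) (hA1 : A ≠ ⊥) : (Q ⊓ Subgroup.centralizer (A : Set G)) ⊔ ⁅Q, A⁆ = Q ∧ (∀ x ∈ Q ⊓ Subgroup.centralizer (A : Set G), ∀ y ∈ ⁅Q, A⁆, x * y = y * x) ∧ Cfsg.IsExtraspecial 2 ↥⁅Q, A⁆ ∧ (Q ⊓ Subgroup.centralizer (A : Set G) = ((Subgroup.center ↥Q).map Q.subtype) ∨ Cfsg.IsExtraspecial 2 ↥(Q ⊓ Subgroup.centralizer (A : Set G))) := by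
  obtain ⟨hE, hC, -, -⟩ := hQ
  haveI : Fact (Nat.Prime 2) := ⟨Nat.prime_two⟩
  obtain ⟨n, hn⟩ := IsPGroup.iff_card.1 hE.1.1
  have hcop : (Nat.card A).Coprime (Nat.card Q) := by
    rw [hn]; exact ((Nat.coprime_two_right).2 hAodd).pow_right n
  have hsQ : Group.IsSolvable Q := by
    have := hE.1.1.isNilpotent
    infer_instance
  set C := Q ⊓ centralizer (A : Set G) with hCdef
  set D := ⁅Q, A⁆ with hDdef
  have hDQ : D ≤ Q := commutator_le_of_normalizes hA
  have hsup : C ⊔ D = Q := by
    rw [sup_comm]; exact commutator_sup_centralizer A Q hA hcop (Or.inr hsQ)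
  set Z := (center ↥Q).map Q.subtype with hZ
  have hZQ : ∀ x ∈ Z, ∀ q ∈ Q, x * q = q * x := by
    rintro _ ⟨z, hz, rfl⟩ q hq
    exact (congrArg Subtype.val (mem_center_iff.1 hz ⟨q, hq⟩)).symm
  have hQQ : ⁅Q, Q⁆ ≤ Z := by
    rw [commutator_le]
    intro a ha b hb
    refine ⟨⁅(⟨a, ha⟩ : Q), ⟨b, hb⟩⁆, hE.1.2.2 ▸ commutator_mem_commutator (mem_top _) (mem_top _), ?_⟩
    simp [commutatorElement_def]
  have hAZ : ∀ a ∈ A, ∀ x ∈ Z, a * x = x * a := by
    intro a ha x hx
    have hmem : a * x * a⁻¹ ∈ Z := by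
      rw [← hC, mem_centralizer_iff]
      intro q hq
      have hq' : a⁻¹ * q * a ∈ Q := by
        simpa using (mem_normalizer_iff.1 (inv_mem (hA ha)) q).1 hq
      have h := hZQ x hx _ hq'
      calc q * (a * x * a⁻¹) = a * (a⁻¹ * q * a * x) * a⁻¹ := by group
        _ = a * (x * (a⁻¹ * q * a)) * a⁻¹ := by rw [h]
        _ = _ := by group
    have hZc : Nat.card Z = 2 := by
      rw [hZ, ← Nat.card_congr ((center ↥Q).equivMapOfInjective Q.subtype Q.subtype_injective).toEquiv]
      exact hE.2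
    obtain ⟨u, v, huv, hu⟩ := Nat.card_eq_two_iff.1 hZc
    have h2 : ∀ w : Z, w = u ∨ w = v := fun w => (Set.eq_univ_iff_forall.1 hu) w
    by_cases hx1 : x = 1
    · subst hx1; simp
    have hne : a * x * a⁻¹ ≠ 1 := fun e => hx1 (conj_eq_one_iff.1 e)
    have heq : a * x * a⁻¹ = x := by
      rcases h2 ⟨_, hmem⟩ with e1 | e1 <;> rcases h2 ⟨x, hx⟩ with e2 | e2 <;> rcases h2 1 with e3 | e3 <;>
        first
        | exact congrArg Subtype.val (e1.trans e2.symm)
        | exact absurd (congrArg Subtype.val (e1.trans e3.symm)) hne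
        | exact absurd (congrArg Subtype.val (e2.trans e3.symm)) hx1
    exact mul_inv_eq_iff_eq_mul.1 heq
  -- three subgroups
  have hCD : ∀ x ∈ C, ∀ y ∈ D, x * y = y * x := by
    have h1 : ⁅⁅A, C⁆, Q⁆ = ⊥ := by
      rw [show ⁅A, C⁆ = ⊥ from ?_, commutator_bot_left]
      rw [commutator_comm, commutator_eq_bot_iff_le_centralizer]
      exact inf_le_right
    have h2 : ⁅⁅C, Q⁆, A⁆ = ⊥ := by
      rw [commutator_eq_bot_iff_le_centralizer]
      intro x hx
      rw [mem_centralizer_iff]
      exact fun a ha => hAZ a ha x (((commutator_mono inf_le_left le_rfl).trans hQQ) hx)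
    have h3 := commutator_commutator_eq_bot_of_rotate h1 h2
    intro x hx y hy
    exact mem_centralizer_iff.1 (commutator_eq_bot_iff_le_centralizer.1 h3 hy) x hx
  have hDne : ¬ IsMulCommutative D := by
    intro hcm
    have hDZ : D ≤ Z := by
      intro y hy
      rw [← hC, mem_centralizer_iff]
      intro q hq
      have hle : C ⊔ D ≤ centralizer ({y} : Set G) :=
        sup_le (fun x hx => mem_centralizer_singleton_iff.2 (hCD x hx y hy))
          (fun x hx => mem_centralizer_singleton_iff.2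
            (congrArg Subtype.val (mul_comm' (⟨x, hx⟩ : D) ⟨y, hy⟩)))
      exact mem_centralizer_singleton_iff.1 (hle (hsup.symm ▸ hq))
    have hbot : D = ⊥ := by
      rw [hDdef, ← commutator_commutator_eq A Q hA hcop (Or.inr hsQ), commutator_eq_bot_iff_le_centralizer]
      intro y hy
      rw [mem_centralizer_iff]
      exact fun a ha => hAZ a ha y (hDZ hy)
    have hAC : A ≤ centralizer (Q : Set G) := by
      rw [← commutator_eq_bot_iff_le_centralizer, commutator_comm, ← hDdef, hbot]
    rw [hC] at hAC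
    have hAQ : A ≤ Q := hAC.trans (map_subtype_le _)
    exact hA1 (card_eq_one.1 (Nat.Coprime.eq_one_of_dvd hcop (card_dvd_of_le hAQ)))
  refine ⟨hsup, hCD, key Q hE D C hDQ (by rw [sup_comm]; exact hsup) (fun x hx y hy => (hCD y hy x hx).symm) hDne, ?_⟩
  by_cases hCc : IsMulCommutative C
  · left
    refine le_antisymm ?_ (le_inf (map_subtype_le _) ?_)
    · intro x hx
      rw [← hC, mem_centralizer_iff]
      intro q hq
      have hle : C ⊔ D ≤ centralizer ({x} : Set G) :=
        sup_le (fun y hy => mem_centralizer_singleton_iff.2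
            (congrArg Subtype.val (mul_comm' (⟨y, hy⟩ : C) ⟨x, hx⟩)))
          (fun y hy => mem_centralizer_singleton_iff.2 (hCD x hx y hy).symm)
      exact mem_centralizer_singleton_iff.1 (hle (hsup.symm ▸ hq))
    · intro x hx
      rw [mem_centralizer_iff]
      exact fun a ha => hAZ a ha x hx
  · exact Or.inr (key Q hE C D inf_le_left hsup hCD hCc)

end Cfsg.Agent.S5434
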