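import Cfsg.Statements.S5435
import Cfsg.Agent.S4216
import Cfsg.Agent.Lib.Solv.PGroupBasic
import Cfsg.Agent.Lib.TwoFus.Presentations

set_option autoImplicit false
open Cfsg

namespace Cfsg.Agent.S5435

open scoped commutatorElement

/-- Let L be a finite non-abelian simple group with an involution z whose centralizer R is a Sylow 2-subgroup of L whose Frattini subgroup is the subgroup generated by z. Then R is dihedral of order 8. -/
theorem result {L : Type*} [Group L] [Finite L] [IsSimpleGroup L] (hL : ¬ IsMulCommutative L) (z : L) (hz : orderOf z = 2) (R : Sylow 2 L) (hR : (R : Subgroup L) = Subgroup.centralizer ({z} : Set L)) (hΦ : (frattini ↥(R : Subgroup L)).map (R : Subgroup L).subtype = Subgroup.zpowers z) : Nonempty (↥(R : Subgroup L) ≃* DihedralGroup 4) := by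
  haveI : Fact (Nat.Prime 2) := ⟨Nat.prime_two⟩
  set P := (R : Subgroup L) with hPdef
  have hP2 : IsPGroup 2 P := R.isPGroup'
  have hmR : ∀ x : L, x ∈ P ↔ x * z = z * x := fun x => by
    rw [hR, Subgroup.mem_centralizer_singleton_iff]
  have hzz : z * z = 1 := by rw [← pow_two, ← hz]; exact pow_orderOf_eq_one z
  have hz1 : z ≠ 1 := fun e => by rw [e, orderOf_one] at hz; omega
  have hzP : z ∈ P := (hmR z).2 rfl
  have hF : ∀ x ∈ Subgroup.zpowers z, x = 1 ∨ x = z := by
    intro x hx
    obtain ⟨k, rfl⟩ := Subgroup.mem_zpowers_iff.1 hx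
    rcases Int.even_or_odd k with ⟨m, hm⟩ | ⟨m, hm⟩
    · left; rw [hm, ← two_mul, zpow_mul, zpow_ofNat, pow_two, hzz, one_zpow]
    · right; rw [hm, zpow_add, zpow_one, zpow_mul, zpow_ofNat, pow_two, hzz, one_zpow, one_mul]
  have hsq : ∀ x ∈ P, x * x = 1 ∨ x * x = z := by
    intro x hx
    refine hF _ ?_
    rw [← hΦ]
    exact ⟨_, Cfsg.Lib.Solv.pow_mem_frattini hP2 (⟨x, hx⟩ : P), by simp [pow_two]⟩
  have hcomm : ∀ x ∈ P, ∀ w ∈ P, ⁅x, w⁆ = 1 ∨ ⁅x, w⁆ = z := by
    intro x hx w hw
    refine hF _ ?_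
    rw [← hΦ]
    refine ⟨⁅(⟨x, hx⟩ : P), ⟨w, hw⟩⁆, Cfsg.Lib.Solv.commutator_le_frattini hP2 ?_, by simp [commutatorElement_def]⟩
    exact Subgroup.commutator_mem_commutator (Subgroup.mem_top _) (Subgroup.mem_top _)
  obtain ⟨r0, hr0, hr0z⟩ : ∃ x ∈ P, x * x = z := by
    by_contra hno
    push Not at hno
    have hbot : frattini ↥P = ⊥ := by
      refine le_bot_iff.1 (Cfsg.Lib.Solv.frattini_le_of_elementary_quotient (p := 2) ⊥ ?_ ?_)
      · rw [commutator_def, Subgroup.commutator_le]
        intro a _ b _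
        rw [Subgroup.mem_bot, commutatorElement_eq_one_iff_mul_comm]
        have inv : ∀ c : P, c⁻¹ = c := fun c => inv_eq_of_mul_eq_one_left
          (Subtype.ext ((hsq c c.2).resolve_right (hno c c.2)))
        calc a * b = (a * b)⁻¹ := (inv _).symm
          _ = b * a := by rw [mul_inv_rev, inv, inv]
      · intro x
        rw [Subgroup.mem_bot, pow_two]
        exact Subtype.ext ((hsq x x.2).resolve_right (hno x x.2))
    rw [hbot, Subgroup.map_bot] at hΦ
    exact hz1 (Subgroup.mem_bot.1 (hΦ ▸ Subgroup.mem_zpowers z))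
  -- the normalizer of `R` is `R`
  have hN : Subgroup.normalizer (P : Set L) ≤ P := by
    intro n hn
    have hx : n * r0 * n⁻¹ ∈ P := (Subgroup.mem_normalizer_iff.1 hn r0).1 hr0
    have h1 : n * r0 * n⁻¹ * (n * r0 * n⁻¹) = n * z * n⁻¹ := by rw [← hr0z]; group
    rcases hsq _ hx with h | h <;> rw [h1] at h
    · exact absurd (conj_eq_one_iff.1 h) hz1
    · exact (hmR n).2 (mul_inv_eq_iff_eq_mul.1 h)
  -- conjugates of `z` with the same centralizer are equal
  have huniq : ∀ g h : L, (∀ x, x * (g * z * g⁻¹) = (g * z * g⁻¹) * x → x * (h * z * h⁻¹) = (h * z * h⁻¹) * x) →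
      h * z * h⁻¹ = g * z * g⁻¹ := by
    intro g h himp
    have key : ∀ x ∈ P, (h⁻¹ * g) * x * (h⁻¹ * g)⁻¹ ∈ P := by
      intro x hx
      have hxz := (hmR x).1 hx
      have h1 := himp (g * x * g⁻¹) (by
        calc g * x * g⁻¹ * (g * z * g⁻¹) = g * (x * z) * g⁻¹ := by group
          _ = _ := by rw [hxz]; group)
      rw [hmR]
      calc h⁻¹ * g * x * (h⁻¹ * g)⁻¹ * z = h⁻¹ * (g * x * g⁻¹ * (h * z * h⁻¹)) * h := by group
        _ = h⁻¹ * ((h * z * h⁻¹) * (g * x * g⁻¹)) * h := by rw [h1]
        _ = _ := by group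
    have hn : h⁻¹ * g ∈ Subgroup.normalizer (P : Set L) := by
      rw [Subgroup.mem_normalizer_iff_map_conj_eq]
      refine Subgroup.eq_of_le_of_card_ge ?_ ?_
      · rintro _ ⟨x, hx, rfl⟩; exact key x hx
      · rw [Subgroup.card_map_of_injective (MulEquiv.injective _)]
    have h2 := (hmR _).1 (hN hn)
    calc h * z * h⁻¹ = h * (z * (h⁻¹ * g)) * g⁻¹ := by group
      _ = h * ((h⁻¹ * g) * z) * g⁻¹ := by rw [h2]
      _ = _ := by group
  -- conjugates of `z` in `R`
  set M := Subgroup.closure {y : L | y ∈ P ∧ ∃ g : L, y = g * z * g⁻¹} with hMdef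
  have hzM : z ∈ M := Subgroup.subset_closure ⟨hzP, 1, by simp⟩
  have hMP : M = P := by
    refine le_antisymm ((Subgroup.closure_le _).2 fun y hy => hy.1) ?_
    have hG : commutator L = ⊤ := by
      rcases IsSimpleGroup.eq_bot_or_eq_top_of_normal (commutator L) inferInstance with h | h
      · refine absurd ⟨⟨fun a b => ?_⟩⟩ hL
        have : ⁅a, b⁆ ∈ commutator L := Subgroup.commutator_mem_commutator (Subgroup.mem_top a) (Subgroup.mem_top b)
        rw [h, Subgroup.mem_bot] at this
        exact commutatorElement_eq_one_iff_mul_comm.1 this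
      · exact h
    have hg := Cfsg.Agent.S4216.result R
    rw [hG, inf_top_eq] at hg
    refine le_trans hg.le ?_
    refine sup_le ?_ (iSup_le fun g => ?_)
    · refine inf_le_right.trans (le_trans (Subgroup.commutator_mono hN hN) ?_)
      rw [Subgroup.commutator_le]
      intro a ha b hb
      rcases hcomm a ha b hb with h | h <;> rw [h]
      exacts [one_mem _, hzM]
    · rintro x ⟨hxP, y, hy, rfl⟩
      have hyF : y ∈ Subgroup.zpowers z := by
        refine (Subgroup.commutator_le.2 ?_) hy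
        intro a ha b hb
        rcases hcomm a ha b hb with h | h <;> rw [h]
        exacts [one_mem _, Subgroup.mem_zpowers z]
      rcases hF y hyF with rfl | rfl
      · simp
      · exact Subgroup.subset_closure ⟨hxP, g, rfl⟩
  -- the centralizer in `R` of a conjugate of `z`
  have struct : ∀ y ∈ P, (∃ g : L, y = g * z * g⁻¹) → y ≠ z →
      (∃ t ∈ P, t * y ≠ y * t) ∧
      (∀ a ∈ P, a * y = y * a → a * a = 1) ∧
      (∀ a ∈ P, a * y = y * a → ∀ b ∈ P, b * y = y * b → a * b = b * a) ∧
      (∀ y' ∈ P, (∃ g : L, y' = g * z * g⁻¹) → y' * y = y * y' → y' = z ∨ y' = y ∨ y' = y * z) := by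
    rintro y hyP ⟨g, rfl⟩ hne
    set y := g * z * g⁻¹ with hy
    have hyz : y * z = z * y := (hmR y).1 hyP
    have hconj : ∀ a, a * y = y * a → g⁻¹ * a * g ∈ P := fun a ha => by
      rw [hmR]
      calc g⁻¹ * a * g * z = g⁻¹ * (a * y) * g := by rw [hy]; group
        _ = g⁻¹ * (y * a) * g := by rw [ha]
        _ = _ := by rw [hy]; group
    have hA1 : ∀ a ∈ P, a * y = y * a → a * a = 1 := by
      intro a ha hay
      refine (hsq a ha).resolve_right fun h => ?_
      rcases hsq _ (hconj a hay) with h' | h'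
      · have : a * a = 1 := by
          calc a * a = g * (g⁻¹ * a * g * (g⁻¹ * a * g)) * g⁻¹ := by group
            _ = 1 := by rw [h']; group
        exact hz1 (h ▸ this)
      · refine hne ?_
        rw [← h, hy, ← h']; group
    have hA2 : ∀ a ∈ P, a * y = y * a → ∀ b ∈ P, b * y = y * b → a * b = b * a := by
      intro a ha hay b hb hby
      rw [← commutatorElement_eq_one_iff_mul_comm]
      refine (hcomm a ha b hb).resolve_right fun h => ?_
      rcases hcomm _ (hconj a hay) _ (hconj b hby) with h' | h'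
      · refine hz1 (h ▸ ?_)
        calc ⁅a, b⁆ = g * ⁅g⁻¹ * a * g, g⁻¹ * b * g⁆ * g⁻¹ := by simp only [commutatorElement_def]; group
          _ = 1 := by rw [h']; group
      · refine hne ?_
        rw [← h, hy, ← h']; simp only [commutatorElement_def]; group
    have hcen : ∃ t ∈ P, t * y ≠ y * t := by
      by_contra hall
      push Not at hall
      have hall' : ∀ x, x * (1 * z * 1⁻¹) = 1 * z * 1⁻¹ * x → x * y = y * x := fun x hx => by
        simp only [one_mul, inv_one, mul_one] at hx
        exact hall x ((hmR x).2 hx)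
      have := huniq 1 g hall'
      simp only [one_mul, inv_one, mul_one] at this
      exact hne this
    refine ⟨hcen, hA1, hA2, ?_⟩
    rintro y' hy'P ⟨g', rfl⟩ hy'y
    by_cases hy'z : g' * z * g'⁻¹ = z
    · exact Or.inl hy'z
    obtain ⟨t, ht, hty⟩ := hcen
    set y' := g' * z * g'⁻¹ with hy'
    have htcy : t * y * t⁻¹ = y * z := by
      have h := (hcomm t ht y hyP).resolve_left fun e => hty (commutatorElement_eq_one_iff_mul_comm.1 e)
      calc t * y * t⁻¹ = ⁅t, y⁆ * y := by simp only [commutatorElement_def]; group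
        _ = y * z := by rw [h, hyz]
    -- `t` moves `y'` as well
    have hcase : t * y' * t⁻¹ = y' * z := by
      have hy'z' : y' * z = z * y' := (hmR y').1 hy'P
      rcases hcomm t ht y' hy'P with h | h
      · exfalso
        have ht' := commutatorElement_eq_one_iff_mul_comm.1 h
        -- all of `R` would centralize `y'`
        refine hy'z ?_
        have hall' : ∀ x, x * (1 * z * 1⁻¹) = 1 * z * 1⁻¹ * x → x * y' = y' * x := fun x hx => by
          simp only [one_mul, inv_one, mul_one] at hx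
          have hxP := (hmR x).2 hx
          by_cases hxy : x * y = y * x
          · exact hA2 x hxP hxy y' hy'P hy'y
          · have hxcy : x * y * x⁻¹ = y * z := by
              have h := (hcomm x hxP y hyP).resolve_left fun e => hxy (commutatorElement_eq_one_iff_mul_comm.1 e)
              calc x * y * x⁻¹ = ⁅x, y⁆ * y := by simp only [commutatorElement_def]; group
                _ = y * z := by rw [h, hyz]
            have hw : (t⁻¹ * x) * y = y * (t⁻¹ * x) := by
              calc (t⁻¹ * x) * y = t⁻¹ * (x * y * x⁻¹) * x := by group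
                _ = t⁻¹ * (t * y * t⁻¹) * x := by rw [hxcy, htcy]
                _ = _ := by group
            have h2 := hA2 _ (P.mul_mem (P.inv_mem ht) hxP) hw y' hy'P hy'y
            calc x * y' = t * ((t⁻¹ * x) * y') := by group
              _ = t * (y' * (t⁻¹ * x)) := by rw [h2]
              _ = (t * y') * (t⁻¹ * x) := by group
              _ = y' * x := by rw [ht']; group
        have := huniq 1 g' hall'
        simpa only [one_mul, inv_one, mul_one] using this
      · calc t * y' * t⁻¹ = ⁅t, y'⁆ * y' := by simp only [commutatorElement_def]; group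
          _ = y' * z := by rw [h, hy'z']
    -- `k = y⁻¹ y'` and `k z` : one is central in the centralizer of `y`
    have hk : ∀ s, s * y = y * s → s * y' = y' * s ∨ s * (y' * z) = y' * z * s := by
      intro s hs
      have hcy : g⁻¹ * y * g = z := by rw [hy]; group
      have hsP := hconj s hs
      have hy'P2 := hconj y' hy'y
      have hzP2 := hconj z hyz.symm
      by_cases hs' : s * y' = y' * s
      · exact Or.inl hs'
      right
      have hsz : s * z ≠ z * s := fun e => hs' (hA2 s ((hmR s).2 e) hs y' hy'P hy'y)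
      have h1 : ∀ w, g⁻¹ * w * g ∈ P → s * w ≠ w * s → s * w * s⁻¹ = w * y := by
        intro w hwP hsw
        rcases hcomm _ hsP _ hwP with h | h
        · refine absurd ?_ hsw
          rw [← commutatorElement_eq_one_iff_mul_comm]
          calc ⁅s, w⁆ = g * ⁅g⁻¹ * s * g, g⁻¹ * w * g⁆ * g⁻¹ := by simp only [commutatorElement_def]; group
            _ = 1 := by rw [h]; group
        · have hwy : y * w = w * y := by
            have hw2 := (hmR _).1 hwP
            calc y * w = g * (z * (g⁻¹ * w * g)) * g⁻¹ := by rw [hy]; group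
              _ = g * ((g⁻¹ * w * g) * z) * g⁻¹ := by rw [hw2]
              _ = _ := by rw [hy]; group
          calc s * w * s⁻¹ = g * ⁅g⁻¹ * s * g, g⁻¹ * w * g⁆ * g⁻¹ * w := by simp only [commutatorElement_def]; group
            _ = w * y := by rw [h, ← hwy]
      have e1 := h1 y' hy'P2 hs'
      have e2 := h1 z hzP2 hsz
      have hyy : y * y = 1 := hA1 y hyP rfl
      refine mul_inv_eq_iff_eq_mul.1 ?_
      calc s * (y' * z) * s⁻¹ = (s * y' * s⁻¹) * (s * z * s⁻¹) := by group
        _ = y' * (y * z) * y := by rw [e1, e2]; group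
        _ = y' * z * (y * y) := by rw [hyz]; group
        _ = y' * z := by rw [hyy, mul_one]
    by_cases hall : ∀ s, s * y = y * s → s * y' = y' * s
    · right; left
      exact huniq g g' hall
    · right; right
      push Not at hall
      obtain ⟨s, hs, hs'⟩ := hall
      have hall2 : ∀ x, x * y = y * x → x * (y' * z) = y' * z * x := by
        intro x hx
        rcases hk x hx with h | h
        · -- then `s * x` moves `y'`
          have hsx : (s * x) * y = y * (s * x) := by rw [mul_assoc, hx, ← mul_assoc, hs, mul_assoc]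
          rcases hk _ hsx with h' | h'
          · refine absurd ?_ hs'
            calc s * y' = s * (y' * x) * x⁻¹ := by group
              _ = (s * x * y') * x⁻¹ := by rw [← h]; group
              _ = y' * s := by rw [h']; group
          · have h2 := (hk s hs).resolve_left hs'
            calc x * (y' * z) = s⁻¹ * (s * x * (y' * z)) := by group
              _ = s⁻¹ * (y' * z * s) * x := by rw [h']; group
              _ = s⁻¹ * (s * (y' * z)) * x := by rw [h2]
              _ = y' * z * x := by group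
        · exact h
      have e3 : y' * z = (t * g') * z * (t * g')⁻¹ := by rw [← hcase, hy']; group
      have h3 := huniq g (t * g') (fun x hx => e3 ▸ hall2 x hx)
      rw [← e3, ← hy] at h3
      calc y' = y' * (z * z) := by rw [hzz, mul_one]
        _ = y * z := by rw [← mul_assoc, h3]
  obtain ⟨y₁, hy₁P, hy₁c, hy₁z⟩ : ∃ y ∈ P, (∃ g : L, y = g * z * g⁻¹) ∧ y ≠ z := by
    by_contra hno
    push Not at hno
    have hle : M ≤ Subgroup.zpowers z := (Subgroup.closure_le _).2 fun y hy => by
      rw [hno y hy.1 hy.2]; exact Subgroup.mem_zpowers z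
    rcases hF r0 (hle (hMP.symm ▸ hr0)) with h | h <;> rw [h] at hr0z
    · exact hz1 (by rw [← hr0z, one_mul])
    · exact hz1 (by rw [← hr0z, hzz])
  obtain ⟨⟨t, ht, hty⟩, hA1, hA2, hfus⟩ := struct y₁ hy₁P hy₁c hy₁z
  obtain ⟨y₂, hy₂P, hy₂c, hne⟩ : ∃ y ∈ P, (∃ g : L, y = g * z * g⁻¹) ∧ y * y₁ ≠ y₁ * y := by
    by_contra hno
    push Not at hno
    have hle : M ≤ Subgroup.centralizer ({y₁} : Set L) := (Subgroup.closure_le _).2 fun y hy =>
      Subgroup.mem_centralizer_singleton_iff.2 (hno y hy.1 hy.2)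
    exact hty (Subgroup.mem_centralizer_singleton_iff.1 (hle (hMP.symm ▸ ht)))
  have hy₂z : y₂ ≠ z := fun e => hne (by rw [e]; exact ((hmR y₁).1 hy₁P).symm)
  obtain ⟨-, hB1, -, hfus2⟩ := struct y₂ hy₂P hy₂c hy₂z
  have h11 : y₁ * y₁ = 1 := hA1 y₁ hy₁P rfl
  have h22 : y₂ * y₂ = 1 := hB1 y₂ hy₂P rfl
  set D := Subgroup.closure ({y₁ * y₂, y₁} : Set L) with hD
  have hy₁D : y₁ ∈ D := Subgroup.subset_closure (Or.inr rfl)
  have hy₂D : y₂ ∈ D := by
    have := D.mul_mem (D.inv_mem hy₁D) (Subgroup.subset_closure (Or.inl rfl) : y₁ * y₂ ∈ D)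
    rwa [inv_mul_cancel_left] at this
  have hsq2 : (y₁ * y₂) * (y₁ * y₂) = z := by
    refine (hsq _ (P.mul_mem hy₁P hy₂P)).resolve_left fun h => hne ?_
    have hi : (y₁ * y₂)⁻¹ = y₁ * y₂ := inv_eq_of_mul_eq_one_left h
    rw [mul_inv_rev, inv_eq_of_mul_eq_one_left h11, inv_eq_of_mul_eq_one_left h22] at hi
    exact hi
  have hzD : z ∈ D := hsq2 ▸ D.mul_mem (D.mul_mem hy₁D hy₂D) (D.mul_mem hy₁D hy₂D)
  have hDP : D = P := by
    refine le_antisymm ((Subgroup.closure_le _).2 ?_) ?_
    · rintro x (rfl | rfl)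
      exacts [P.mul_mem hy₁P hy₂P, hy₁P]
    rw [← hMP, hMdef, Subgroup.closure_le]
    rintro y ⟨hyP, hyc⟩
    by_cases h1 : y * y₁ = y₁ * y
    · rcases hfus y hyP hyc h1 with rfl | rfl | rfl
      exacts [hzD, hy₁D, D.mul_mem hy₁D hzD]
    · have hyz' : y ≠ z := fun e => h1 (by rw [e]; exact ((hmR y₁).1 hy₁P).symm)
      obtain ⟨-, hC1, -, -⟩ := struct y hyP hyc hyz'
      have hw : (y * y₂) * y₁ = y₁ * (y * y₂) := by
        have m1 : y * y₁ * y⁻¹ = y₂ * y₁ * y₂⁻¹ := by
          have a1 := (hcomm y hyP y₁ hy₁P).resolve_left fun e => h1 (commutatorElement_eq_one_iff_mul_comm.1 e)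
          have a2 := (hcomm y₂ hy₂P y₁ hy₁P).resolve_left fun e => hne (commutatorElement_eq_one_iff_mul_comm.1 e)
          calc y * y₁ * y⁻¹ = ⁅y, y₁⁆ * y₁ := by simp only [commutatorElement_def]; group
            _ = ⁅y₂, y₁⁆ * y₁ := by rw [a1, a2]
            _ = _ := by simp only [commutatorElement_def]; group
        have hi2 := inv_eq_of_mul_eq_one_left h22
        calc y * y₂ * y₁ = y * (y₂ * y₁ * y₂⁻¹) * y₂ := by group
          _ = y * (y * y₁ * y⁻¹) * y₂ := by rw [m1]
          _ = (y * y) * y₁ * (y⁻¹ * y₂) := by group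
          _ = y₁ * (y * y₂) := by
            rw [hC1 y hyP rfl, one_mul, inv_eq_of_mul_eq_one_left (hC1 y hyP rfl)]
      have hcomm2 : y * y₂ = y₂ * y := by
        have h := hA1 _ (P.mul_mem hyP hy₂P) hw
        have hi : (y * y₂)⁻¹ = y * y₂ := inv_eq_of_mul_eq_one_left h
        rw [mul_inv_rev, inv_eq_of_mul_eq_one_left (hC1 y hyP rfl), inv_eq_of_mul_eq_one_left h22] at hi
        exact hi.symm
      rcases hfus2 y hyP hyc hcomm2 with rfl | rfl | rfl
      exacts [hzD, hy₂D, D.mul_mem hy₂D hzD]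
  have hord : orderOf (y₁ * y₂) = 4 := by
    refine orderOf_eq_prime_pow (p := 2) (n := 1) ?_ ?_
    · rw [pow_one, pow_two, hsq2]; exact hz1
    · show (y₁ * y₂) ^ 4 = 1
      rw [show (4 : ℕ) = 2 * 2 from rfl, pow_mul, pow_two (y₁ * y₂), hsq2, pow_two, hzz]
  have hinv : y₁ * (y₁ * y₂) * y₁⁻¹ = (y₁ * y₂)⁻¹ := by
    rw [mul_inv_rev, inv_eq_of_mul_eq_one_left h11, inv_eq_of_mul_eq_one_left h22, ← mul_assoc, h11, one_mul]
  have hnot : y₁ ∉ Subgroup.zpowers (y₁ * y₂) := by
    intro h
    obtain ⟨k, hk⟩ := Subgroup.mem_zpowers_iff.1 h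
    have hc := ((Commute.refl (y₁ * y₂)).zpow_left k).eq
    rw [hk] at hc
    refine hne ?_
    calc y₂ * y₁ = y₁ * (y₁ * y₂ * y₁) := by rw [← mul_assoc, ← mul_assoc, h11, one_mul]
      _ = y₁ * y₂ := by rw [← hc, ← mul_assoc, h11, one_mul]
  obtain ⟨e⟩ := Cfsg.Lib.TwoFus.nonempty_dihedral hord h11 hinv hnot
  exact ⟨(MulEquiv.subgroupCongr hDP.symm).trans e⟩

end Cfsg.Agent.S5435
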