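import Cfsg.Statements.S5437
import Mathlib
import Cfsg.Agent.Lib.Solv.Cores
import Cfsg.Agent.Lib.Transfer.ExtraspecialClass

set_option autoImplicit false
open Cfsg
open scoped commutatorElement Pointwise

namespace Cfsg.Agent.S5437

/-- Let I be a set of involutions of the finite group G closed under conjugation, and H a subgroup of G. The following are equivalent: (1) for every member x of I lying in H, the conjugates of x lying in H form a single H-class and the centralizer of x lies in H; (2) for every g outside H, no member of I lies in both H and g H g⁻¹; (3) every member of I lying in H fixes exactly one coset in the action of G on the cosets of H. -/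
theorem result {G : Type*} [Group G] [Finite G] (I : Set G) (hI : ∀ x ∈ I, orderOf x = 2) (hIc : ∀ g : G, ∀ x ∈ I, g * x * g⁻¹ ∈ I) (H : Subgroup G) : ((∀ x ∈ I, x ∈ H → (∀ g : G, g * x * g⁻¹ ∈ H → ∃ h ∈ H, h * x * h⁻¹ = g * x * g⁻¹) ∧ Subgroup.centralizer ({x} : Set G) ≤ H) ↔ (∀ g : G, g ∉ H → ∀ x ∈ I, ¬ (x ∈ H ∧ x ∈ (H : Subgroup G).map (MulAut.conj g).toMonoidHom))) ∧ ((∀ g : G, g ∉ H → ∀ x ∈ I, ¬ (x ∈ H ∧ x ∈ (H : Subgroup G).map (MulAut.conj g).toMonoidHom)) ↔ ∀ x ∈ I, x ∈ H → ∃! c : G ⧸ H, x • c = c) := by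
  have hfix : ∀ (g x : G), x • (QuotientGroup.mk g : G ⧸ H) = QuotientGroup.mk g ↔ g⁻¹ * x * g ∈ H := by
    intro g x
    change QuotientGroup.mk (x * g) = (QuotientGroup.mk g : G ⧸ H) ↔ _
    rw [QuotientGroup.eq, show (x * g)⁻¹ * g = (g⁻¹ * x * g)⁻¹ by group, H.inv_mem_iff]
  have hmap : ∀ g x : G, x ∈ (H : Subgroup G).map (MulAut.conj g).toMonoidHom ↔ g⁻¹ * x * g ∈ H := by
    intro g x
    constructor
    · rintro ⟨y, hy, rfl⟩
      simpa [MulAut.conj_apply, mul_assoc] using hy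
    · intro h
      exact ⟨_, h, by simp [MulAut.conj_apply, mul_assoc]⟩
  refine ⟨⟨fun hA g hg x hx => ?_, fun hB x hx hxH => ⟨fun g hgx => ?_, fun c hc => ?_⟩⟩, ⟨fun hB x hx hxH => ?_, fun hU g hg x hx => ?_⟩⟩
  · rintro ⟨hxH, hxg⟩
    rw [hmap] at hxg
    obtain ⟨hfus, hcent⟩ := hA x hx hxH
    obtain ⟨h, hh, he⟩ := hfus g⁻¹ (by rwa [inv_inv])
    rw [inv_inv] at he
    have hmem : g * h ∈ H := hcent (Subgroup.mem_centralizer_singleton_iff.mpr (by
      calc g * h * x = g * (h * x * h⁻¹) * h := by group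
        _ = x * (g * h) := by rw [he]; group))
    exact hg ((H.mul_mem_cancel_right hh).mp hmem)
  · by_cases hg : g ∈ H
    · exact ⟨g, hg, rfl⟩
    · refine absurd ⟨hxH, (hmap _ _).mpr ?_⟩ (hB g⁻¹ (fun h => hg (by simpa using H.inv_mem h)) x hx)
      rwa [inv_inv]
  · by_contra hcH
    refine hB c hcH x hx ⟨hxH, (hmap _ _).mpr ?_⟩
    rwa [show c⁻¹ * x * c = c⁻¹ * (x * c) by group, ← Subgroup.mem_centralizer_singleton_iff.mp hc,
      inv_mul_cancel_left]
  · refine ⟨QuotientGroup.mk 1, (hfix 1 x).mpr (by simpa using hxH), fun c hc => ?_⟩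
    induction c using QuotientGroup.induction_on with | H c => ?_
    rw [QuotientGroup.eq, mul_one, H.inv_mem_iff]
    by_contra hcH
    exact hB c hcH x hx ⟨hxH, (hmap _ _).mpr ((hfix c x).mp hc)⟩
  · rintro ⟨hxH, hxg⟩
    obtain ⟨c, -, hu⟩ := hU x hx hxH
    have h1 := hu _ ((hfix 1 x).mpr (by simpa using hxH))
    have h2 := hu _ ((hfix g x).mpr ((hmap _ _).mp hxg))
    have := QuotientGroup.eq.mp (h1.trans h2.symm)
    exact hg (by simpa using this)

end Cfsg.Agent.S5437
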