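import Cfsg.Statements.S5438
import Mathlib

set_option autoImplicit false
open Cfsg
open scoped Pointwise

namespace Cfsg.Agent.S5438

/-- Let z be a 2-central involution of the finite group G (an involution central in some Sylow 2-subgroup) and H a subgroup containing z such that the coset H is the only coset of H fixed by z (in the action of G on the cosets of H). Then H has odd index in G, and for every 2-element x of H the conjugates of x lying in H form a single H-class. -/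
theorem result {G : Type*} [Group G] [Finite G] (z : G) (hz : Cfsg.IsTwoCentralInvolution z) (H : Subgroup G) (hzH : z ∈ H) (hfix : ∀ g : G, g⁻¹ * z * g ∈ H → g ∈ H) : Odd H.index ∧ ∀ x ∈ H, (∃ k : ℕ, orderOf x = 2 ^ k) → ∀ g : G, g * x * g⁻¹ ∈ H → ∃ h ∈ H, h * x * h⁻¹ = g * x * g⁻¹ := by
  classical
  haveI : Fact (Nat.Prime 2) := ⟨Nat.prime_two⟩
  obtain ⟨hz2, P, hzP, hzc⟩ := hz
  have hstab : ∀ (K : Subgroup G) (L : Subgroup K) (t g : K),
      t • (QuotientGroup.mk g : K ⧸ L) = QuotientGroup.mk g ↔ g⁻¹ * t * g ∈ L := by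
    intro K L t g
    change QuotientGroup.mk (t * g) = (QuotientGroup.mk g : K ⧸ L) ↔ _
    rw [QuotientGroup.eq, show (t * g)⁻¹ * g = (g⁻¹ * t * g)⁻¹ by group, L.inv_mem_iff]
  have hpar : ∀ (K : Subgroup G) (L : Subgroup K) (t : K), t ^ 2 = 1 →
      L.index % 2 = Nat.card {c : K ⧸ L // t • c = c} % 2 := by
    intro K L t ht
    have hP2 : IsPGroup 2 (Subgroup.zpowers t) := by
      rintro ⟨y, k, rfl⟩
      refine ⟨1, Subtype.ext ?_⟩
      change (t ^ k) ^ (2 ^ 1) = 1
      rw [pow_one, ← zpow_natCast, ← zpow_mul, mul_comm, zpow_mul, zpow_natCast, ht, one_zpow]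
    refine (hP2.card_modEq_card_fixedPoints (α := K ⧸ L)).trans (congrArg (· % 2) (Nat.card_congr
      (Equiv.subtypeEquivRight fun c => ⟨fun h => h ⟨t, Subgroup.mem_zpowers t⟩, fun h y => ?_⟩)))
    have hle : Subgroup.zpowers t ≤ MulAction.stabilizer K c := Subgroup.zpowers_le.mpr h
    exact hle y.2
  -- a conjugate-invariant count: one fixed coset forces odd index
  have hz' : (⟨z, Subgroup.mem_top z⟩ : (⊤ : Subgroup G)) ^ 2 = 1 := by
    refine Subtype.ext ?_
    change z ^ 2 = 1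
    rw [← hz2, pow_orderOf_eq_one]
  refine ⟨?_, fun x hxH hx2 g hgx => ?_⟩
  · have h := hpar ⊤ (H.subgroupOf ⊤) ⟨z, Subgroup.mem_top z⟩ hz'
    have hidx : (H.subgroupOf (⊤ : Subgroup G)).index = H.index := H.relIndex_top_right
    have hone : Nat.card {c : (⊤ : Subgroup G) ⧸ H.subgroupOf ⊤ // (⟨z, Subgroup.mem_top z⟩ : (⊤ : Subgroup G)) • c = c} = 1 := by
      rw [Nat.card_eq_one_iff_unique]
      refine ⟨⟨fun c d => ?_⟩, ⟨⟨QuotientGroup.mk 1, (hstab _ _ _ _).mpr (by simpa [Subgroup.mem_subgroupOf] using hzH)⟩⟩⟩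
      obtain ⟨c, hc⟩ := c; obtain ⟨d, hd⟩ := d
      induction c using QuotientGroup.induction_on with | H c => ?_
      induction d using QuotientGroup.induction_on with | H d => ?_
      rw [hstab, Subgroup.mem_subgroupOf] at hc hd
      refine Subtype.ext (QuotientGroup.eq.mpr ?_)
      rw [Subgroup.mem_subgroupOf]
      exact H.mul_mem (H.inv_mem (hfix _ hc)) (hfix _ hd)
    rw [hone, hidx] at h
    exact Nat.odd_iff.mpr (by omega)
  · -- a Sylow subgroup with central z lies in H, and one may assume it contains x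
    have hCH : Subgroup.centralizer ({z} : Set G) ≤ H := fun c hc => hfix c (by
      rw [show c⁻¹ * z * c = c⁻¹ * (z * c) by group, ← Subgroup.mem_centralizer_singleton_iff.mp hc, inv_mul_cancel_left]
      exact hzH)
    have hPC : (P : Subgroup G) ≤ Subgroup.centralizer ({z} : Set G) := fun y hy =>
      Subgroup.mem_centralizer_singleton_iff.mpr (hzc y hy)
    have hPH : (P : Subgroup G) ≤ H := hPC.trans hCH
    obtain ⟨k, hk⟩ := hx2
    obtain ⟨S, hS⟩ := (IsPGroup.of_card (p := 2) (n := k) (G := Subgroup.zpowers (⟨x, hxH⟩ : H))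
      (by rw [Nat.card_zpowers, Subgroup.orderOf_mk, hk])).exists_le_sylow
    obtain ⟨u, hu⟩ := MulAction.exists_smul_eq H (P.subtype hPH) S
    have hxu : (u : G)⁻¹ * x * u ∈ (P : Subgroup G) := by
      have h := hS (Subgroup.mem_zpowers _)
      rw [← hu] at h
      have : (⟨x, hxH⟩ : H) ∈ MulAut.conj u • (P.subtype hPH : Subgroup H) := h
      rw [Subgroup.mem_pointwise_smul_iff_inv_smul_mem] at this
      simpa [MulAut.conj_apply, mul_assoc, Subgroup.mem_subgroupOf] using this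
    set x' := (u : G)⁻¹ * x * u with hx'
    set g' := g * u with hg'
    have hgx' : g' * x' * g'⁻¹ = g * x * g⁻¹ := by rw [hx', hg']; group
    obtain ⟨v, hv⟩ : ∃ v ∈ H, v * (g * x * g⁻¹) * v⁻¹ ∈ (P : Subgroup G) := by
      have hord : orderOf (g * x * g⁻¹) = 2 ^ k := by
        rw [show g * x * g⁻¹ = MulAut.conj g x from rfl, MulEquiv.orderOf_eq, hk]
      obtain ⟨S', hS'⟩ := (IsPGroup.of_card (p := 2) (n := k) (G := Subgroup.zpowers (⟨_, hgx⟩ : H))
        (by rw [Nat.card_zpowers, Subgroup.orderOf_mk, hord])).exists_le_sylow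
      obtain ⟨w, hw⟩ := MulAction.exists_smul_eq H (P.subtype hPH) S'
      refine ⟨(w : G)⁻¹, H.inv_mem w.2, ?_⟩
      have h := hS' (Subgroup.mem_zpowers _)
      rw [← hw] at h
      have : (⟨_, hgx⟩ : H) ∈ MulAut.conj w • (P.subtype hPH : Subgroup H) := h
      rw [Subgroup.mem_pointwise_smul_iff_inv_smul_mem] at this
      simpa [MulAut.conj_apply, mul_assoc, Subgroup.mem_subgroupOf] using this
    obtain ⟨hvH, hvP⟩ := hv
    set g₂ := v * g' with hg₂
    -- both z and its conjugate centralise x'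
    set C := Subgroup.centralizer ({x'} : Set G)
    have hzC : z ∈ C := Subgroup.mem_centralizer_singleton_iff.mpr (hzc x' hxu).symm
    have hz'C : g₂⁻¹ * z * g₂ ∈ C := by
      rw [Subgroup.mem_centralizer_singleton_iff]
      have h := hzc _ hvP
      rw [← hgx', show v * (g' * x' * g'⁻¹) * v⁻¹ = g₂ * x' * g₂⁻¹ by rw [hg₂]; group] at h
      calc g₂⁻¹ * z * g₂ * x' = g₂⁻¹ * (z * (g₂ * x' * g₂⁻¹)) * g₂ := by group
        _ = x' * (g₂⁻¹ * z * g₂) := by rw [← h]; group
    have hodd : ((H.subgroupOf C)).index % 2 = 1 := by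
      rw [hpar C (H.subgroupOf C) ⟨z, hzC⟩ (Subtype.ext (show z ^ 2 = 1 by rw [← hz2, pow_orderOf_eq_one]))]
      have : Nat.card {c : C ⧸ H.subgroupOf C // (⟨z, hzC⟩ : C) • c = c} = 1 := by
        rw [Nat.card_eq_one_iff_unique]
        refine ⟨⟨fun c d => ?_⟩, ⟨⟨QuotientGroup.mk 1, (hstab _ _ _ _).mpr (by simpa [Subgroup.mem_subgroupOf] using hzH)⟩⟩⟩
        obtain ⟨c, hc⟩ := c; obtain ⟨d, hd⟩ := d
        induction c using QuotientGroup.induction_on with | H c => ?_
        induction d using QuotientGroup.induction_on with | H d => ?_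
        rw [hstab, Subgroup.mem_subgroupOf] at hc hd
        refine Subtype.ext (QuotientGroup.eq.mpr ?_)
        rw [Subgroup.mem_subgroupOf]
        exact H.mul_mem (H.inv_mem (hfix _ hc)) (hfix _ hd)
      rw [this]
    rw [hpar C (H.subgroupOf C) ⟨_, hz'C⟩ (Subtype.ext (show (g₂⁻¹ * z * g₂) ^ 2 = 1 by
      rw [sq, show g₂⁻¹ * z * g₂ * (g₂⁻¹ * z * g₂) = g₂⁻¹ * z ^ 2 * g₂ by rw [sq]; group, ← hz2, pow_orderOf_eq_one]
      simp))] at hodd
    obtain ⟨⟨c, hc⟩⟩ : Nonempty {c : C ⧸ H.subgroupOf C // (⟨_, hz'C⟩ : C) • c = c} := by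
      refine not_isEmpty_iff.mp fun h => ?_
      rw [Nat.card_of_isEmpty] at hodd
      omega
    induction c using QuotientGroup.induction_on with | H c => ?_
    rw [hstab, Subgroup.mem_subgroupOf] at hc
    have hmem : g₂ * (c : G) ∈ H := hfix _ (by
      have : (g₂ * (c : G))⁻¹ * z * (g₂ * c) = (c : G)⁻¹ * (g₂⁻¹ * z * g₂) * c := by group
      rw [this]; exact hc)
    refine ⟨v⁻¹ * (g₂ * (c : G)) * (u : G)⁻¹, H.mul_mem (H.mul_mem (H.inv_mem hvH) hmem) (H.inv_mem u.2), ?_⟩
    have hcx := Subgroup.mem_centralizer_singleton_iff.mp c.2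
    calc v⁻¹ * (g₂ * (c : G)) * (u : G)⁻¹ * x * (v⁻¹ * (g₂ * (c : G)) * (u : G)⁻¹)⁻¹
        = g' * ((c : G) * x' * (c : G)⁻¹) * g'⁻¹ := by rw [hg₂, hx']; group
      _ = g * x * g⁻¹ := by rw [hcx, mul_inv_cancel_right, hgx']

end Cfsg.Agent.S5438
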