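import Cfsg.Statements.S5439
import Mathlib

set_option autoImplicit false
open Cfsg
open scoped Pointwise

namespace Cfsg.Agent.S5439

/-- Let I and J be two different conjugacy classes of involutions of the finite group G and H a subgroup such that every member of I ∪ J fixes exactly one coset in the action on the cosets of H, and such that for every a in I ∩ H and every b in (I ∪ J) ∩ H different from a and commuting with it, the centralizer of a b lies in H. Then H = G. -/
theorem result {G : Type*} [Group G] [Finite G] (I J : Set G) (a₀ b₀ : G) (ha₀ : orderOf a₀ = 2) (hb₀ : orderOf b₀ = 2) (hI : I = {x | IsConj a₀ x}) (hJ : J = {x | IsConj b₀ x}) (hIJ : I ≠ J) (H : Subgroup G) (hfix : ∀ x ∈ I ∪ J, ∃! c : G ⧸ H, x • c = c) (hcent : ∀ a ∈ I, a ∈ H → ∀ b ∈ I ∪ J, b ∈ H → a ≠ b → a * b = b * a → Subgroup.centralizer ({a * b} : Set G) ≤ H) : H = ⊤ := by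
  classical
  have hfx : ∀ (g x : G), x • (QuotientGroup.mk g : G ⧸ H) = QuotientGroup.mk g ↔ g⁻¹ * x * g ∈ H := by
    intro g x
    change QuotientGroup.mk (x * g) = (QuotientGroup.mk g : G ⧸ H) ↔ _
    rw [QuotientGroup.eq, show (x * g)⁻¹ * g = (g⁻¹ * x * g)⁻¹ by group, H.inv_mem_iff]
  subst hI hJ
  have hord : ∀ (a₁ x : G), orderOf a₁ = 2 → IsConj a₁ x → x * x = 1 ∧ x ≠ 1 := by
    intro a₁ x ha hx
    obtain ⟨c, rfl⟩ := isConj_iff.mp hx
    have h1 : a₁ * a₁ = 1 := by rw [← sq, ← ha, pow_orderOf_eq_one]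
    refine ⟨by rw [show c * a₁ * c⁻¹ * (c * a₁ * c⁻¹) = c * (a₁ * a₁) * c⁻¹ by group, h1]; group, fun e => ?_⟩
    have : a₁ = 1 := by simpa using e
    rw [this, orderOf_one] at ha
    omega
  -- I meets H
  obtain ⟨a, haI, haH⟩ : ∃ a, IsConj a₀ a ∧ a ∈ H := by
    obtain ⟨c, hc, -⟩ := hfix a₀ (Or.inl (IsConj.refl a₀))
    induction c using QuotientGroup.induction_on with | H c => ?_
    exact ⟨c⁻¹ * a₀ * c, isConj_iff.mpr ⟨c⁻¹, by group⟩, (hfx c a₀).mp hc⟩
  obtain ⟨haa, ha1⟩ := hord a₀ a ha₀ haI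
  -- every member of J lies in H
  have hJH : ∀ b, IsConj b₀ b → b ∈ H := by
    intro b hb
    obtain ⟨hbb, hb1⟩ := hord b₀ b hb₀ hb
    have hnc : ¬ IsConj a b := fun h => hIJ (by
      ext x
      exact ⟨fun hx => hb.trans (h.symm.trans (haI.symm.trans hx)), fun hx => haI.trans (h.trans (hb.symm.trans hx))⟩)
    have hainv : a⁻¹ = a := inv_eq_of_mul_eq_one_right haa
    have hbinv : b⁻¹ = b := inv_eq_of_mul_eq_one_right hbb
    set r := a * b with hr
    have har : a * r * a⁻¹ = r⁻¹ := by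
      rw [hr, mul_inv_rev, hainv, hbinv, ← mul_assoc, haa, one_mul]
    have hak : ∀ j : ℕ, a * r ^ j = (r ^ j)⁻¹ * a := by
      intro j
      have h : a * r ^ j * a⁻¹ = (r ^ j)⁻¹ := by rw [← conj_pow, har, inv_pow]
      rw [← h]; group
    have hodd : ∀ j : ℕ, a * r ^ (2 * j + 1) = (r ^ j)⁻¹ * b * r ^ j := by
      intro j
      calc a * r ^ (2 * j + 1) = a * r ^ j * r * r ^ j := by
            rw [mul_assoc, mul_assoc, ← pow_succ', ← pow_add]; congr 2; omega
        _ = (r ^ j)⁻¹ * (a * a) * b * r ^ j := by rw [hak, hr]; group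
        _ = (r ^ j)⁻¹ * b * r ^ j := by rw [haa, mul_one]
    have heven : ∀ j : ℕ, a * r ^ (2 * j) = (r ^ j)⁻¹ * a * r ^ j := by
      intro j
      rw [two_mul, pow_add, ← mul_assoc, hak]
    obtain ⟨k, hk⟩ : ∃ k, orderOf r = 2 * k := by
      rcases Nat.even_or_odd' (orderOf r) with ⟨k, hk | hk⟩
      · exact ⟨k, hk⟩
      · exfalso
        refine hnc (isConj_iff.mpr ⟨r ^ k, ?_⟩)
        have h := hodd k
        rw [← hk, pow_orderOf_eq_one, mul_one] at h
        rw [h]; group
    have hk0 : k ≠ 0 := fun e => by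
      have := orderOf_pos r; omega
    set t := r ^ k with ht
    have ht2 : t * t = 1 := by rw [ht, ← pow_add, ← two_mul, ← hk, pow_orderOf_eq_one]
    have htinv : t⁻¹ = t := inv_eq_of_mul_eq_one_right ht2
    have hta : a * t = t * a := by rw [ht, hak, ← ht, htinv]
    have ht1 : t ≠ 1 := fun e => by
      have := Nat.le_of_dvd (Nat.pos_of_ne_zero hk0) (orderOf_dvd_of_pow_eq_one e); omega
    -- the other involution a * t
    have hclass : IsConj a₀ (a * t) ∨ IsConj b₀ (a * t) := by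
      rcases Nat.even_or_odd' k with ⟨j, hj | hj⟩
      · left
        rw [ht, hj, heven]
        exact haI.trans (isConj_iff.mpr ⟨(r ^ j)⁻¹, by group⟩)
      · right
        rw [ht, hj, hodd]
        exact hb.trans (isConj_iff.mpr ⟨(r ^ j)⁻¹, by group⟩)
    have hcomm : a * (a * t) = a * t * a := by
      rw [mul_assoc a t a, ← hta]
    have hatH : a * t ∈ H := by
      obtain ⟨c, hc, hu⟩ := hfix a (Or.inl haI)
      have h1 : c = QuotientGroup.mk 1 := (hu _ ((hfx 1 a).mpr (by simpa using haH))).symm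
      subst h1
      have h2 : a • ((a * t) • (QuotientGroup.mk 1 : G ⧸ H)) = (a * t) • (QuotientGroup.mk 1 : G ⧸ H) := by
        rw [smul_smul, hcomm, mul_smul, hc]
      have h3 := hu _ h2
      have := (hfx 1 (a * t)).mp h3
      simpa using this
    have hne : a ≠ a * t := fun e => ht1 (mul_eq_left.mp e.symm)
    have hC := hcent a haI haH (a * t) hclass hatH hne hcomm
    rw [← mul_assoc, haa, one_mul] at hC
    apply hC
    rw [Subgroup.mem_centralizer_singleton_iff]
    have hrt : r * t = t * r := by rw [ht, ← pow_succ, ← pow_succ']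
    have hb' : b = a * r := by rw [hr, ← mul_assoc, haa, one_mul]
    rw [hb', mul_assoc, hrt, ← mul_assoc, hta, mul_assoc]
  rw [eq_top_iff]
  intro g _
  obtain ⟨c, -, hu⟩ := hfix b₀ (Or.inr (IsConj.refl b₀))
  have h1 := hu (QuotientGroup.mk 1) ((hfx 1 b₀).mpr (by simpa using hJH b₀ (IsConj.refl b₀)))
  have h2 := hu (QuotientGroup.mk g) ((hfx g b₀).mpr (hJH _ (isConj_iff.mpr ⟨g⁻¹, by group⟩)))
  have := QuotientGroup.eq.mp (h1.trans h2.symm)
  simpa using this

end Cfsg.Agent.S5439
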