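import Cfsg.Statements.S5459
import Mathlib

set_option autoImplicit false
open Cfsg

namespace Cfsg.Agent.S5459

/-- Let G be a finite group with a quasisimple normal subgroup L and an involution d such that G is generated by L and d, the centre of L has odd order, and d inverts every element of the centre of L. If the commuting graph on the conjugacy class of the image of d in G modulo the centre of L is connected, then the commuting graph on the conjugacy class of d is connected. -/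
theorem result {G : Type*} [Group G] [Finite G] (L : Subgroup G) [L.Normal] (hL : Cfsg.IsQuasisimple ↥L) (d : G) (hd : orderOf d = 2) (hgen : L ⊔ Subgroup.zpowers d = ⊤) (hodd : Odd (Nat.card ↥(Subgroup.center ↥L))) (hinv : ∀ c ∈ (Subgroup.center ↥L).map L.subtype, d * c * d⁻¹ = c⁻¹) [hn : ((Subgroup.center ↥L).map L.subtype).Normal] (hconn : (Cfsg.commutingGraph (conjugatesOf (QuotientGroup.mk d : G ⧸ (Subgroup.center ↥L).map L.subtype))).Connected) : (Cfsg.commutingGraph (conjugatesOf d)).Connected := by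
  classical
  set Z := (Subgroup.center ↥L).map L.subtype with hZ
  have hcardZ : Nat.card Z = Nat.card (Subgroup.center ↥L) :=
    (Nat.card_congr ((Subgroup.center ↥L).equivMapOfInjective L.subtype L.subtype_injective).toEquiv).symm
  have hsqrt : ∀ z ∈ Z, ∃ c ∈ Z, c * c = z := by
    intro z hz
    obtain ⟨j, hj⟩ := hodd
    refine ⟨z ^ (j + 1), Z.pow_mem hz _, ?_⟩
    have h1 : z ^ Nat.card Z = 1 := congrArg Subtype.val (pow_card_eq_one' (x := (⟨z, hz⟩ : Z)))
    rw [hcardZ, hj] at h1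
    rw [← pow_add, show j + 1 + (j + 1) = 2 * j + 1 + 1 by ring, pow_succ, h1, one_mul]
  have hdd : d * d = 1 := by rw [← sq, ← hd, pow_orderOf_eq_one]
  have hdi : d⁻¹ = d := inv_eq_of_mul_eq_one_right hdd
  let V := ↥(conjugatesOf d)
  let base : V := ⟨d, mem_conjugatesOf_self⟩
  let act : G → V → V := fun g v => ⟨g * v.1 * g⁻¹, by
    obtain ⟨k, hk⟩ := isConj_iff.1 (show IsConj d v.1 from v.2)
    exact (isConj_iff.2 ⟨g * k, by rw [← hk]; group⟩)⟩
  have hadj : ∀ u v : V, (Cfsg.commutingGraph (conjugatesOf d)).Adj u v ↔ u ≠ v ∧ Commute (u : G) v := by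
    intro u v
    rw [Cfsg.commutingGraph, SimpleGraph.fromRel_adj]
    exact ⟨fun ⟨h1, h2⟩ => ⟨h1, h2.elim id (fun h => h.symm)⟩, fun ⟨h1, h2⟩ => ⟨h1, Or.inl h2⟩⟩
  have hmul : ∀ g h v, act (g * h) v = act g (act h v) := fun g h v => Subtype.ext (by simp [act, mul_assoc])
  have hmap : ∀ g u v, (Cfsg.commutingGraph (conjugatesOf d)).Reachable u v →
      (Cfsg.commutingGraph (conjugatesOf d)).Reachable (act g u) (act g v) := by
    intro g u v h
    refine h.map ⟨act g, fun {u v} huv => ?_⟩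
    rw [hadj] at huv ⊢
    refine ⟨fun e => huv.1 (Subtype.ext ?_), ?_⟩
    · have e' : g * u.1 * g⁻¹ = g * v.1 * g⁻¹ := congrArg Subtype.val e
      exact mul_left_cancel (mul_right_cancel e')
    · change g * u.1 * g⁻¹ * (g * v.1 * g⁻¹) = g * v.1 * g⁻¹ * (g * u.1 * g⁻¹)
      simp only [mul_assoc, inv_mul_cancel_left]
      rw [← mul_assoc u.1, huv.2.eq, mul_assoc]
  have hact1 : ∀ v, act 1 v = v := fun v => Subtype.ext (by simp [act])
  let S : Subgroup G :=
    { carrier := {g | (Cfsg.commutingGraph (conjugatesOf d)).Reachable base (act g base)}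
      one_mem' := by change (Cfsg.commutingGraph (conjugatesOf d)).Reachable base (act 1 base); rw [hact1]
      mul_mem' := fun {g h} hg hh => hg.trans ((hmul g h base).symm ▸ hmap g _ _ hh)
      inv_mem' := fun {g} hg => by
        have := hmap g⁻¹ _ _ hg
        rw [← hmul, inv_mul_cancel, hact1] at this
        exact this.symm }
  have hmemS : ∀ g, g ∈ S ↔ (Cfsg.commutingGraph (conjugatesOf d)).Reachable base (act g base) := fun g => Iff.rfl
  have hconjv : ∀ v : V, ∃ g, act g base = v := fun v => by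
    obtain ⟨k, hk⟩ := isConj_iff.1 (show IsConj d v.1 from v.2)
    exact ⟨k, Subtype.ext hk⟩
  -- lifting adjacency
  have hlift : ∀ u v : V, (QuotientGroup.mk u.1 : G ⧸ Z) ≠ QuotientGroup.mk v.1 →
      Commute (QuotientGroup.mk u.1 : G ⧸ Z) (QuotientGroup.mk v.1) →
      ∃ v' : V, (QuotientGroup.mk v'.1 : G ⧸ Z) = QuotientGroup.mk v.1 ∧
        (Cfsg.commutingGraph (conjugatesOf d)).Adj u v' := by
    intro u v hne hc
    have hinvV : ∀ (w : V) c, c ∈ Z → w.1 * c * w.1⁻¹ = c⁻¹ := by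
      intro w c hc'
      obtain ⟨k, hk⟩ := hconjv w
      rw [← hk]
      have h1 := hinv (k⁻¹ * c * k) (by simpa using hn.conj_mem c hc' k⁻¹)
      change k * d * k⁻¹ * c * (k * d * k⁻¹)⁻¹ = c⁻¹
      calc k * d * k⁻¹ * c * (k * d * k⁻¹)⁻¹ = k * (d * (k⁻¹ * c * k) * d⁻¹) * k⁻¹ := by group
        _ = k * (k⁻¹ * c * k)⁻¹ * k⁻¹ := by rw [h1]
        _ = c⁻¹ := by group
    have hinvol : ∀ w : V, w.1 * w.1 = 1 := by
      intro w
      obtain ⟨k, hk⟩ := hconjv w
      rw [← hk]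
      change k * d * k⁻¹ * (k * d * k⁻¹) = 1
      rw [show k * d * k⁻¹ * (k * d * k⁻¹) = k * (d * d) * k⁻¹ by group, hdd]; group
    have hz : v.1⁻¹ * (u.1 * v.1 * u.1) ∈ Z := by
      rw [← QuotientGroup.eq, QuotientGroup.mk_mul, QuotientGroup.mk_mul, hc.eq, mul_assoc, ← QuotientGroup.mk_mul,
        hinvol, QuotientGroup.mk_one, mul_one]
    obtain ⟨c, hcZ, hc2⟩ := hsqrt _ hz
    obtain ⟨e, heZ, he2⟩ := hsqrt c⁻¹ (Z.inv_mem hcZ)
    -- `v * c` is a conjugate of `v`
    have hvc : e * v.1 * e⁻¹ = v.1 * c := by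
      have h := hinvV v e heZ
      rw [inv_eq_of_mul_eq_one_right (hinvol v)] at h
      have he' : e * v.1 = v.1 * e⁻¹ := by
        calc e * v.1 = v.1 * (v.1 * e * v.1) := by rw [← mul_assoc, ← mul_assoc, hinvol, one_mul]
          _ = v.1 * e⁻¹ := by rw [h]
      rw [he', mul_assoc, ← mul_inv_rev, he2, inv_inv]
    refine ⟨act e v, ?_, (hadj _ _).2 ⟨fun heq => hne ?_, ?_⟩⟩
    · change (QuotientGroup.mk (e * v.1 * e⁻¹) : G ⧸ Z) = QuotientGroup.mk v.1
      rw [hvc, QuotientGroup.mk_mul, (QuotientGroup.eq_one_iff c).2 hcZ, mul_one]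
    · rw [heq]
      change (QuotientGroup.mk (e * v.1 * e⁻¹) : G ⧸ Z) = QuotientGroup.mk v.1
      rw [hvc, QuotientGroup.mk_mul, (QuotientGroup.eq_one_iff c).2 hcZ, mul_one]
    · change u.1 * (e * v.1 * e⁻¹) = e * v.1 * e⁻¹ * u.1
      rw [hvc]
      have h1 : u.1 * v.1 * u.1 = v.1 * (c * c) := by rw [hc2, mul_inv_cancel_left]
      have h2 : u.1 * c * u.1 = c⁻¹ := by
        have := hinvV u c hcZ
        rwa [inv_eq_of_mul_eq_one_right (hinvol u)] at this
      have h3 : u.1 * v.1 = v.1 * (c * c) * u.1 := by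
        rw [← h1, mul_assoc, hinvol, mul_one]
      have h4 : u.1 * c = c⁻¹ * u.1 := by rw [← h2, mul_assoc, hinvol, mul_one]
      calc u.1 * (v.1 * c) = v.1 * (c * c) * (u.1 * c) := by rw [← mul_assoc, h3, mul_assoc]
        _ = v.1 * (c * c) * (c⁻¹ * u.1) := by rw [h4]
        _ = v.1 * c * u.1 := by simp [mul_assoc]
  -- every fibre meets the component of `d`
  have hfib : ∀ g : G, ∃ s ∈ S, (QuotientGroup.mk (act g base).1 : G ⧸ Z) = QuotientGroup.mk (act s base).1 := by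
    intro g
    let tb : ↥(conjugatesOf (QuotientGroup.mk d : G ⧸ Z)) := ⟨QuotientGroup.mk d, mem_conjugatesOf_self⟩
    let tg : ↥(conjugatesOf (QuotientGroup.mk d : G ⧸ Z)) := ⟨QuotientGroup.mk (act g base).1,
      (isConj_iff.2 ⟨QuotientGroup.mk g, by
        rw [← QuotientGroup.mk_inv, ← QuotientGroup.mk_mul, ← QuotientGroup.mk_mul]⟩)⟩
    suffices ∀ t, Relation.ReflTransGen (Cfsg.commutingGraph (conjugatesOf (QuotientGroup.mk d : G ⧸ Z))).Adj tb t →
        ∃ s ∈ S, (t : G ⧸ Z) = QuotientGroup.mk (act s base).1 from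
      this tg ((SimpleGraph.reachable_iff_reflTransGen _ _).1 (hconn.preconnected tb tg))
    intro t ht
    induction ht with
    | refl => exact ⟨1, S.one_mem, by rw [hact1]⟩
    | @tail t t' _ hedge ih =>
      obtain ⟨s, hs, hst⟩ := ih
      rw [Cfsg.commutingGraph, SimpleGraph.fromRel_adj] at hedge
      obtain ⟨hne, hcm⟩ := hedge
      obtain ⟨k, hk⟩ := isConj_iff.1 (show IsConj (QuotientGroup.mk d : G ⧸ Z) t'.1 from t'.2)
      obtain ⟨k, rfl⟩ := QuotientGroup.mk_surjective k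
      have hk' : (t' : G ⧸ Z) = QuotientGroup.mk (act k base).1 := by
        rw [← hk, ← QuotientGroup.mk_inv, ← QuotientGroup.mk_mul, ← QuotientGroup.mk_mul]
      obtain ⟨v', hv', hadj'⟩ := hlift (act s base) (act k base)
        (fun e => hne (Subtype.ext (hst.trans (e.trans hk'.symm))))
        (by rw [← hst, ← hk']; exact hcm.elim id fun h => h.symm)
      obtain ⟨s', hs'⟩ := hconjv v'
      exact ⟨s', (hmemS _).2 (hs' ▸ ((hmemS s).1 hs).trans hadj'.reachable), by rw [hs', hv', hk']⟩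
  -- the stabiliser and `Z` generate `G`
  have hcd : ∀ g : G, (QuotientGroup.mk (act g base).1 : G ⧸ Z) = QuotientGroup.mk d → g ∈ S ⊔ Z := by
    intro g hg
    have hz : d⁻¹ * (g * d * g⁻¹) ∈ Z := by rw [← QuotientGroup.eq]; exact hg.symm
    obtain ⟨c, hcZ, hc2⟩ := hsqrt _ hz
    have hdc : c⁻¹ * d * c = g * d * g⁻¹ := by
      have h := hinv c⁻¹ (Z.inv_mem hcZ)
      rw [hdi, inv_inv] at h
      have : c⁻¹ * d = d * c := by
        calc c⁻¹ * d = d * (d * c⁻¹ * d) := by rw [← mul_assoc, ← mul_assoc, hdd, one_mul]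
          _ = d * c := by rw [h]
      rw [this, mul_assoc, hc2, mul_inv_cancel_left]
    have hfix : c * g ∈ S := (hmemS _).2 (by
      have : act (c * g) base = base := Subtype.ext (by
        change c * g * d * (c * g)⁻¹ = d
        calc c * g * d * (c * g)⁻¹ = c * (g * d * g⁻¹) * c⁻¹ := by group
          _ = c * (c⁻¹ * d * c) * c⁻¹ := by rw [hdc]
          _ = d := by group)
      rw [this])
    rw [show g = c⁻¹ * (c * g) by group]
    exact (S ⊔ Z).mul_mem (Subgroup.mem_sup_right (Z.inv_mem hcZ)) (Subgroup.mem_sup_left hfix)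
  have htop : ∀ g : G, g ∈ S ⊔ Z := by
    intro g
    obtain ⟨s, hs, he⟩ := hfib g
    have : s⁻¹ * g ∈ S ⊔ Z := hcd _ (by
      rw [hmul]
      have key : ∀ a : G, (QuotientGroup.mk (s⁻¹ * a * s⁻¹⁻¹) : G ⧸ Z) =
          QuotientGroup.mk s⁻¹ * QuotientGroup.mk a * (QuotientGroup.mk s⁻¹)⁻¹ := fun a => by
        rw [QuotientGroup.mk_mul, QuotientGroup.mk_mul, QuotientGroup.mk_inv Z s⁻¹]
      change (QuotientGroup.mk (s⁻¹ * (act g base).1 * s⁻¹⁻¹) : G ⧸ Z) = _
      rw [key, he, ← key]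
      change (QuotientGroup.mk (s⁻¹ * (s * d * s⁻¹) * s⁻¹⁻¹) : G ⧸ Z) = _
      congr 1
      group)
    simpa using (S ⊔ Z).mul_mem (Subgroup.mem_sup_left hs) this
  have hLS : L ≤ S := by
    intro l hl
    have hperf : commutator ↥L = ⊤ := hL.1.commutator_eq_top
    have hmem : (⟨l, hl⟩ : L) ∈ commutator ↥L := hperf ▸ Subgroup.mem_top _
    rw [commutator_def] at hmem
    revert hmem
    suffices ⁅(⊤ : Subgroup L), (⊤ : Subgroup L)⁆ ≤ S.subgroupOf L from fun h => this h
    rw [Subgroup.commutator_le]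
    intro a _ b _
    have hdec : ∀ a : L, ∃ s ∈ S, ∃ z ∈ Z, (a : G) = s * z := by
      intro a
      have := htop (a : G)
      rw [Subgroup.mem_sup_of_normal_right] at this
      obtain ⟨s, hs, z, hz, e⟩ := this
      exact ⟨s, hs, z, hz, e.symm⟩
    obtain ⟨s, hs, z, hz, ha⟩ := hdec a
    obtain ⟨t, ht, w, hw, hb⟩ := hdec b
    have hcen : ∀ z ∈ Z, ∀ x ∈ L, z * x = x * z := by
      rintro _ ⟨z, hz, rfl⟩ x hx
      exact congrArg Subtype.val (Subgroup.mem_center_iff.1 hz ⟨x, hx⟩).symm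
    have hZL : Z ≤ L := Subgroup.map_subtype_le _
    have hsL : s ∈ L := by
      rw [show s = (a : G) * z⁻¹ by rw [ha]; group]; exact L.mul_mem a.2 (L.inv_mem (hZL hz))
    have htL : t ∈ L := by
      rw [show t = (b : G) * w⁻¹ by rw [hb]; group]; exact L.mul_mem b.2 (L.inv_mem (hZL hw))
    rw [Subgroup.mem_subgroupOf]
    rw [commutatorElement_def]
    have : ((a * b * a⁻¹ * b⁻¹ : L) : G) = s * t * s⁻¹ * t⁻¹ := by
      simp only [Subgroup.coe_mul, InvMemClass.coe_inv, ha, hb]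
      calc s * z * (t * w) * (s * z)⁻¹ * (t * w)⁻¹
          = s * (z * t) * (w * z⁻¹) * s⁻¹ * w⁻¹ * t⁻¹ := by group
        _ = s * (t * z) * (z⁻¹ * w) * s⁻¹ * w⁻¹ * t⁻¹ := by
          rw [hcen z hz t htL, (hcen w hw z⁻¹ (L.inv_mem (hZL hz)))]
        _ = s * t * (w * s⁻¹) * w⁻¹ * t⁻¹ := by group
        _ = s * t * (s⁻¹ * w) * w⁻¹ * t⁻¹ := by rw [hcen w hw s⁻¹ (L.inv_mem hsL)]
        _ = s * t * s⁻¹ * t⁻¹ := by group
    rw [this]
    exact S.mul_mem (S.mul_mem (S.mul_mem hs ht) (S.inv_mem hs)) (S.inv_mem ht)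
  have hall : ∀ g : G, g ∈ S := fun g => by
    have := htop g
    rwa [sup_eq_left.2 ((Subgroup.map_subtype_le _).trans hLS)] at this
  haveI : Nonempty V := ⟨base⟩
  exact SimpleGraph.Connected.mk fun u v => by
    obtain ⟨g, rfl⟩ := hconjv u
    obtain ⟨h, rfl⟩ := hconjv v
    exact ((hmemS g).1 (hall g)).symm.trans ((hmemS h).1 (hall h))

end Cfsg.Agent.S5459
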