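import Cfsg.Statements.S5541
import Mathlib

set_option autoImplicit false
open Cfsg

namespace Cfsg.Agent.S5541

/-- Let ρ be a representation of a group H on a finite-dimensional real vector space U whose only ρ-invariant subspaces are the zero subspace and U, and suppose U carries a non-zero ρ-invariant symmetric bilinear form. Then the following are equivalent: (1) there is a non-zero ρ-equivariant commutative bilinear product on U of which every ρ-equivariant bilinear product is a scalar multiple; (2) there is a non-zero ρ-invariant trilinear form on U that is symmetric under all permutations of its arguments and of which every ρ-invariant trilinear form is a scalar multiple. -/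
theorem result {H : Type*} [Group H] {U : Type*} [AddCommGroup U] [Module ℝ U] [FiniteDimensional ℝ U] (ρ : Representation ℝ H U) (hirr : ∀ W : Submodule ℝ U, (∀ g : H, W.map (ρ g) ≤ W) → W = ⊥ ∨ W = ⊤) (B : LinearMap.BilinForm ℝ U) (hB0 : B ≠ 0) (hBs : ∀ u v, B u v = B v u) (hBi : ∀ (g : H) (u v : U), B (ρ g u) (ρ g v) = B u v) : (∃ m : U →ₗ[ℝ] U →ₗ[ℝ] U, m ≠ 0 ∧ (∀ u v, m u v = m v u) ∧ (∀ (g : H) (u v : U), m (ρ g u) (ρ g v) = ρ g (m u v)) ∧ ∀ m' : U →ₗ[ℝ] U →ₗ[ℝ] U, (∀ (g : H) (u v : U), m' (ρ g u) (ρ g v) = ρ g (m' u v)) → ∃ c : ℝ, m' = c • m) ↔ (∃ t : U →ₗ[ℝ] U →ₗ[ℝ] U →ₗ[ℝ] ℝ, t ≠ 0 ∧ (∀ u v w, t u v w = t v u w ∧ t u v w = t u w v) ∧ (∀ (g : H) (u v w : U), t (ρ g u) (ρ g v) (ρ g w) = t u v w) ∧ ∀ t' : U →ₗ[ℝ] U →ₗ[ℝ] U →ₗ[ℝ] ℝ, (∀ (g : H) (u v w : U), t' (ρ g u) (ρ g v) (ρ g w) = t' u v w) → ∃ c : ℝ, t' = c • t) := by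
  have hinj : Function.Injective B := by
    rw [← LinearMap.ker_eq_bot]
    refine (hirr (LinearMap.ker B) fun g => ?_).resolve_right fun h => hB0 (LinearMap.ker_eq_top.1 h)
    rintro _ ⟨x, hx, rfl⟩
    rw [SetLike.mem_coe, LinearMap.mem_ker] at hx
    rw [LinearMap.mem_ker]
    refine LinearMap.ext fun v => ?_
    have h := hBi g x (ρ g⁻¹ v)
    rw [← Module.End.mul_apply, ← map_mul, mul_inv_cancel, map_one, Module.End.one_apply, hx] at h
    exact h
  have hsurj : Function.Surjective B :=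
    (LinearMap.injective_iff_surjective_of_finrank_eq_finrank (Subspace.dual_finrank_eq).symm).1 hinj
  let Φ : U ≃ₗ[ℝ] Module.Dual ℝ U := LinearEquiv.ofBijective B ⟨hinj, hsurj⟩
  have hcan : ∀ x y : U, (∀ w, B x w = B y w) → x = y := fun x y h => hinj (LinearMap.ext h)
  have hsym : ∀ f w, B (Φ.symm f) w = f w := fun f w => LinearMap.congr_fun (Φ.apply_symm_apply f) w
  have hg : ∀ (g : H) (w : U), ρ g (ρ g⁻¹ w) = w := fun g w => by
    rw [← Module.End.mul_apply, ← map_mul, mul_inv_cancel, map_one, Module.End.one_apply]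
  let toT : (U →ₗ[ℝ] U →ₗ[ℝ] U) → (U →ₗ[ℝ] U →ₗ[ℝ] U →ₗ[ℝ] ℝ) := fun m => m.compr₂ B
  let toM : (U →ₗ[ℝ] U →ₗ[ℝ] U →ₗ[ℝ] ℝ) → (U →ₗ[ℝ] U →ₗ[ℝ] U) := fun t => t.compr₂ Φ.symm.toLinearMap
  have hT : ∀ m u v w, toT m u v w = B (m u v) w := fun m u v w => rfl
  have hM : ∀ t u v w, B (toM t u v) w = t u v w := fun t u v w => hsym (t u v) w
  have hTeq : ∀ m, (∀ (g : H) (u v : U), m (ρ g u) (ρ g v) = ρ g (m u v)) →
      ∀ (g : H) (u v w : U), toT m (ρ g u) (ρ g v) (ρ g w) = toT m u v w := fun m hm g u v w => by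
    rw [hT, hT, hm, hBi]
  have hMeq : ∀ t, (∀ (g : H) (u v w : U), t (ρ g u) (ρ g v) (ρ g w) = t u v w) →
      ∀ (g : H) (u v : U), toM t (ρ g u) (ρ g v) = ρ g (toM t u v) := fun t ht g u v => hcan _ _ fun w => by
    conv_lhs => rw [← hg g w]
    conv_rhs => rw [← hg g w]
    rw [hM, ht, hBi, hM]
  constructor
  · rintro ⟨m, hm0, hmc, hme, hmu⟩
    have huniq : ∀ t', (∀ (g : H) (u v w : U), t' (ρ g u) (ρ g v) (ρ g w) = t' u v w) →
        ∃ c : ℝ, t' = c • toT m := by
      intro t' ht'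
      obtain ⟨c, hc⟩ := hmu (toM t') (hMeq t' ht')
      refine ⟨c, LinearMap.ext fun u => LinearMap.ext fun v => LinearMap.ext fun w => ?_⟩
      rw [← hM t', hc]
      simp [hT]
    have ht0 : toT m ≠ 0 := fun h => hm0 (LinearMap.ext fun u => LinearMap.ext fun v => hcan _ _ fun w => by
      rw [← hT, h]; simp)
    have h12 : ∀ u v w, toT m u v w = toT m v u w := fun u v w => by rw [hT, hT, hmc]
    obtain ⟨c, hc⟩ := huniq (LinearMap.lflip.toLinearMap ∘ₗ toT m) fun g u v w => hTeq m hme g u w v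
    have hc' : ∀ u v w, toT m u w v = c * toT m u v w := fun u v w => by
      have := LinearMap.congr_fun (LinearMap.congr_fun (LinearMap.congr_fun hc u) v) w
      simpa using this
    refine ⟨toT m, ht0, fun u v w => ⟨h12 u v w, ?_⟩, hTeq m hme, huniq⟩
    obtain ⟨x, y, z, hxyz⟩ : ∃ x y z, toT m x y z ≠ 0 := by
      by_contra h; push Not at h
      exact ht0 (LinearMap.ext fun x => LinearMap.ext fun y => LinearMap.ext fun z => h x y z)
    have h11 : c * c = 1 := by
      refine mul_right_cancel₀ hxyz ?_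
      rw [one_mul, mul_assoc, ← hc', ← hc']
    rcases mul_self_eq_one_iff.1 h11 with rfl | rfl
    · simpa using (hc' u v w).symm
    · exfalso
      apply hxyz
      have a1 := hc' x y z; have a2 := hc' y z x; have a3 := hc' z x y
      have b1 := h12 x y z; have b2 := h12 y z x; have b3 := h12 z x y
      linarith
  · rintro ⟨t, ht0, hts, hte, htu⟩
    refine ⟨toM t, fun h => ht0 (LinearMap.ext fun u => LinearMap.ext fun v => LinearMap.ext fun w => ?_),
      fun u v => hcan _ _ fun w => by rw [hM, hM, (hts u v w).1], hMeq t hte, fun m' hm' => ?_⟩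
    · rw [← hM t, h]; simp
    · obtain ⟨c, hc⟩ := htu (toT m') (hTeq m' hm')
      refine ⟨c, LinearMap.ext fun u => LinearMap.ext fun v => hcan _ _ fun w => ?_⟩
      rw [← hT, hc]
      simp [hM]

end Cfsg.Agent.S5541
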