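import Cfsg.Statements.S5543
import Mathlib

set_option autoImplicit false
open Cfsg

namespace Cfsg.Agent.S5543

/-- Let V be a finite-dimensional real vector space with a commutative bilinear product and a positive-definite symmetric bilinear form that associates with the product and satisfies the Norton inequality (the Majorana setting of the definitions). Let X be a group of linear automorphisms of V in which every element squares to the identity, and suppose every non-identity element x of X is a Majorana involution with an axial vector a(x) of squared length 1, such that for any two distinct non-identity x, y the product a(x) ∘ a(y) equals (1/8)(a(x) + a(y) − a(xy)) (the dihedral subalgebra of type 2A whose third axis belongs to the involution xy). Then X has order at most 4. -/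
theorem result {V : Type*} [AddCommGroup V] [Module ℝ V] [FiniteDimensional ℝ V] (mul : V →ₗ[ℝ] V →ₗ[ℝ] V) (B : LinearMap.BilinForm ℝ V) (hV : Cfsg.Axial.IsMajoranaAmbient mul B) (X : Subgroup (V ≃ₗ[ℝ] V)) (hX : ∀ x ∈ X, x * x = 1) (ax : (V ≃ₗ[ℝ] V) → V) (hax : ∀ x ∈ X, x ≠ 1 → Cfsg.Axial.IsMajoranaPair mul B x (ax x)) (h1 : ∀ x ∈ X, x ≠ 1 → B (ax x) (ax x) = 1) (h2A : ∀ x ∈ X, ∀ y ∈ X, x ≠ 1 → y ≠ 1 → x ≠ y → mul (ax x) (ax y) = (1 / 8 : ℝ) • (ax x + ax y - ax (x * y))) : Nat.card ↥X ≤ 4 := by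
  classical
  by_contra hlt
  rw [not_le] at hlt
  haveI : Finite X := Nat.finite_of_card_ne_zero (by omega)
  have hpick : ∀ s : Finset ↥X, s.card ≤ 4 → ∃ x, x ∉ s := by
    intro s hs
    haveI := Fintype.ofFinite X
    by_contra h
    push Not at h
    have := Finset.card_le_card (fun x _ => h x : (Finset.univ : Finset ↥X) ⊆ s)
    rw [Finset.card_univ, ← Nat.card_eq_fintype_card] at this
    omega
  obtain ⟨x, hx⟩ := hpick {1} (by simp)
  obtain ⟨y, hy⟩ := hpick {1, x} (Finset.card_le_two.trans (by norm_num))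
  obtain ⟨z, hz⟩ := hpick {1, x, y, x * y} Finset.card_le_four
  simp only [Finset.mem_insert, Finset.mem_singleton, not_or] at hx hy hz
  have hsq : ∀ u : ↥X, u * u = 1 := fun u => Subtype.ext (hX u u.2)
  have hinv : ∀ u : ↥X, u⁻¹ = u := fun u => inv_eq_of_mul_eq_one_right (hsq u)
  have hcomm : ∀ u v : ↥X, u * v = v * u := fun u v => by
    calc u * v = (u * v)⁻¹ := (hinv _).symm
      _ = v * u := by rw [mul_inv_rev, hinv, hinv]
  have hlc : ∀ u v : ↥X, u * (u * v) = v := fun u v => by rw [← mul_assoc, hsq, one_mul]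
  have hprod : ∀ u v : ↥X, u ≠ 1 → v ≠ 1 → u ≠ v →
      mul (ax u.1) (ax v.1) = (1 / 8 : ℝ) • (ax u.1 + ax v.1 - ax (u * v).1) := fun u v hu hv huv =>
    h2A u.1 u.2 v.1 v.2 (fun e => hu (Subtype.ext e)) (fun e => hv (Subtype.ext e)) (fun e => huv (Subtype.ext e))
  have n1 : x * y ≠ 1 := fun e => hy.2 (by rw [← hlc x y, e, mul_one])
  have n2 : x * z ≠ 1 := fun e => hz.2.1 (by rw [← hlc x z, e, mul_one])
  have n3 : y * z ≠ 1 := fun e => hz.2.2.1 (by rw [← hlc y z, e, mul_one])
  have n4 : x * (y * z) ≠ 1 := fun e => hz.2.2.2 (by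
    have h := congrArg (x * ·) e
    simp only [hlc, mul_one] at h
    rw [← hlc y z, h, hcomm])
  have n5 : y * z ≠ x * (y * z) := fun e => hx (by
    have h := congrArg (· * (y * z)) e
    simp only [mul_assoc, hsq, mul_one] at h
    exact h.symm)
  set a := ax x.1 with ha
  obtain ⟨-, -, ⟨⟨ha0, hidem, -, hfus⟩, -⟩, -⟩ := hax x.1 x.2 fun e => hx (Subtype.ext e)
  have hxy : x ≠ y := fun e => hy.2 e.symm
  have hxxy : x ≠ x * y := fun e => hy.1 (by rw [← hlc x y, ← e, hsq])
  have hxz : x ≠ z := fun e => hz.2.1 e.symm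
  have hxxz : x ≠ x * z := fun e => hz.1 (by rw [← hlc x z, ← e, hsq])
  have hv : ∀ u : ↥X, u ≠ 1 → x ≠ u → x * u ≠ 1 → x ≠ x * u →
      ax u.1 - ax (x * u).1 ∈ Cfsg.Axial.eigen mul a (1 / 4) := by
    intro u hu hxu hxu1 hxxu
    rw [Cfsg.Axial.eigen, Module.End.mem_eigenspace_iff, map_sub, hprod x u hx hu hxu,
      hprod x (x * u) hx hxu1 hxxu, hlc]
    module
  have hq := hfus (1 / 4) (by simp [Cfsg.Axial.majoranaSpectrum]) (1 / 4) (by simp [Cfsg.Axial.majoranaSpectrum])
    _ (hv y hy.1 hxy n1 hxxy) _ (hv z hz.1 hxz n2 hxxz)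
  have e1 : (x * y) * (x * z) = y * z := by rw [mul_assoc, ← mul_assoc y x z, hcomm y x, mul_assoc, hlc]
  have e2 : (x * y) * z = x * (y * z) := mul_assoc _ _ _
  have e3 : y * (x * z) = x * (y * z) := by rw [← mul_assoc, hcomm y x, mul_assoc]
  have d1 : y ≠ z := fun e => hz.2.2.1 e.symm
  have d2 : y ≠ x * z := fun e => hz.2.2.2 (by rw [e, hlc])
  have d3 : x * y ≠ z := fun e => hz.2.2.2 e.symm
  have d4 : x * y ≠ x * z := fun e => d1 (mul_left_cancel e)
  set w := ax (x * (y * z)).1 - ax (y * z).1 with hw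
  have hval : mul (ax y.1 - ax (x * y).1) (ax z.1 - ax (x * z).1) = (1 / 4 : ℝ) • w := by
    simp only [map_sub, LinearMap.sub_apply, hprod y z hy.1 hz.1 d1, hprod y (x * z) hy.1 n2 d2,
      hprod (x * y) z n1 hz.1 d3, hprod (x * y) (x * z) n1 n2 d4, e1, e2, e3, hw]
    module
  rw [hval] at hq
  have hle : Cfsg.Axial.eigenSum mul a (Cfsg.Axial.monsterLaw (1 / 4) (1 / 32) (1 / 4) (1 / 4)) ≤
      Cfsg.Axial.eigen mul a 1 ⊔ Cfsg.Axial.eigen mul a 0 := by
    refine iSup₂_le fun c hc => ?_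
    norm_num [Cfsg.Axial.monsterLaw] at hc
    rcases hc with rfl | rfl
    · exact le_sup_left
    · exact le_sup_right
  obtain ⟨w1, hw1, w0, hw0, hsum⟩ := Submodule.mem_sup.1 (hle hq)
  rw [Cfsg.Axial.eigen, Module.End.mem_eigenspace_iff] at hw1 hw0
  have hxe : x ≠ y * z := fun e => hz.2.2.2 (by rw [← hlc y z, ← e, hcomm])
  have hwe : w ∈ Cfsg.Axial.eigen mul a (1 / 4) := by
    have hxne : x ≠ x * (y * z) := fun e => n3 (mul_left_cancel (e.symm.trans (mul_one x).symm))
    have := Submodule.neg_mem _ (hv (y * z) n3 hxe n4 hxne)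
    rwa [neg_sub] at this
  rw [Cfsg.Axial.eigen, Module.End.mem_eigenspace_iff] at hwe
  have hmw : mul a ((1 / 4 : ℝ) • w) = w1 := by rw [← hsum, map_add, hw1, hw0, one_smul, zero_smul, add_zero]
  have hw10 : w1 = (1 / 16 : ℝ) • w := by rw [← hmw, map_smul, hwe, smul_smul]; norm_num
  have h64 : mul a w1 = (1 / 64 : ℝ) • w := by rw [hw10, map_smul, hwe, smul_smul]; norm_num
  have hzero : w = 0 := by
    rw [hw1, one_smul, hw10] at h64
    have h' : ((1 / 16 : ℝ) - 1 / 64) • w = 0 := by rw [sub_smul, h64, sub_self]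
    exact (smul_eq_zero.1 h').resolve_left (by norm_num)
  have heq : ax (y * z).1 = ax (x * (y * z)).1 := (sub_eq_zero.1 hzero).symm
  -- two distinct axes cannot coincide
  have hp := hprod (y * z) (x * (y * z)) n3 n4 n5
  rw [← heq, show y * z * (x * (y * z)) = x by rw [hcomm x (y * z), hlc]] at hp
  obtain ⟨-, -, ⟨⟨-, hidem', -, -⟩, -⟩, -⟩ := hax (y * z).1 (y * z).2 fun e => n3 (Subtype.ext e)
  rw [hidem', ← ha] at hp
  have haE : ax (y * z).1 = (-1 / 6 : ℝ) • a := by
    have h : (6 : ℝ) • ax (y * z).1 + a = 0 := by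
      have h8 := congrArg ((8 : ℝ) • ·) hp
      simp only [smul_smul] at h8
      rw [show (8 : ℝ) * (1 / 8) = 1 by norm_num, one_smul, ← sub_eq_zero] at h8
      rw [← h8]; module
    calc ax (y * z).1 = (1 / 6 : ℝ) • ((6 : ℝ) • ax (y * z).1 + a) + (-1 / 6 : ℝ) • a := by module
      _ = _ := by rw [h, smul_zero, zero_add]
  rw [haE] at hidem'
  simp only [map_smul, LinearMap.smul_apply, hidem, smul_smul] at hidem'
  rw [show mul a a = a from hidem, ← sub_eq_zero, ← sub_smul, smul_eq_zero] at hidem'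
  rcases hidem' with h | h
  · norm_num at h
  · exact ha0 h

end Cfsg.Agent.S5543
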