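import Cfsg.Statements.S5545


set_option autoImplicit false
open Cfsg

namespace Cfsg.Agent.S5545

open Cfsg.Axial

section

variable {V : Type*} [AddCommGroup V] [Module ℝ V] {mul : V →ₗ[ℝ] V →ₗ[ℝ] V} {B : LinearMap.BilinForm ℝ V}

theorem eigen_iff {a v : V} {c : ℝ} : v ∈ eigen mul a c ↔ mul a v = c • v :=
  Module.End.mem_eigenspace_iff

theorem three_sep {a x y w : V} (hx : mul a x = x) (hy : mul a y = 0) (hw : mul a w = (1 / 4 : ℝ) • w)
    (h : x + y + w = 0) : x = 0 ∧ y = 0 ∧ w = 0 := by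
  have h1 : x + (1 / 4 : ℝ) • w = 0 := by
    have := congrArg (mul a) h
    simpa [hx, hy, hw] using this
  have h2 : x + ((1 / 4 : ℝ) * (1 / 4)) • w = 0 := by
    have := congrArg (mul a) h1
    simpa [hx, hw, smul_smul] using this
  have h3 : ((1 / 4 : ℝ) - (1 / 4) * (1 / 4)) • w = 0 := by
    rw [sub_smul, sub_eq_zero]
    exact add_left_cancel (h1.trans h2.symm)
  have hw0 : w = 0 := (smul_eq_zero.1 h3).resolve_left (by norm_num)
  subst hw0
  simp only [smul_zero, add_zero] at h1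
  subst h1
  exact ⟨rfl, by simpa using h, rfl⟩

/-- A fixed vector of a Majorana involution avoids the `1/32` eigenspace. -/
theorem fixed_decomp (hV : IsMajoranaAmbient mul B) {μ : V ≃ₗ[ℝ] V} {a b : V}
    (h : IsMajoranaPair mul B μ a) (hn : B a a = 1) (hb : μ b = b) :
    ∃ u v : V, mul a u = 0 ∧ mul a v = (1 / 4 : ℝ) • v ∧ b = B a b • a + u + v := by
  obtain ⟨hcomm, hsymm, -, hassoc, -⟩ := hV
  obtain ⟨-, -, ⟨⟨-, hid, htop, -⟩, h1⟩, hfix, hneg⟩ := h
  have hmem : b ∈ eigenSum mul a majoranaSpectrum := htop ▸ Submodule.mem_top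
  simp only [eigenSum, majoranaSpectrum, iSup_insert, iSup_singleton] at hmem
  obtain ⟨x, hx, r, hr, rfl⟩ := Submodule.mem_sup.1 hmem
  obtain ⟨y, hy, r', hr', rfl⟩ := Submodule.mem_sup.1 hr
  obtain ⟨w, hw, q, hq, rfl⟩ := Submodule.mem_sup.1 hr'
  have hp : μ (x + y + w) = x + y + w := by
    refine hfix _ ?_
    simp only [eigenSum, iSup_insert, iSup_singleton]
    exact add_mem (add_mem (Submodule.mem_sup_left hx) (Submodule.mem_sup_right (Submodule.mem_sup_left hy)))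
      (Submodule.mem_sup_right (Submodule.mem_sup_right hw))
  have hq' : μ q = -q := hneg q hq
  have hq0 : q = 0 := by
    rw [show x + (y + (w + q)) = (x + y + w) + q by abel, map_add, hp, hq', add_right_inj] at hb
    have h2 : (2 : ℝ) • q = 0 := by
      rw [two_smul]; nth_rw 1 [← hb]; exact neg_add_cancel q
    exact (smul_eq_zero.1 h2).resolve_left (by norm_num)
  subst hq0
  rw [h1, Submodule.mem_span_singleton] at hx
  obtain ⟨α, rfl⟩ := hx
  rw [eigen_iff, zero_smul] at hy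
  rw [eigen_iff] at hw
  have o1 : B a y = 0 := by
    nth_rw 1 [← hid]
    rw [← hassoc, hy, map_zero]
  have o2 : B a w = 0 := by
    have : B a w = (1 / 4 : ℝ) * B a w := by
      nth_rw 1 [← hid]
      rw [← hassoc, hw, map_smul, smul_eq_mul]
    linarith
  have hα : B a (α • a + (y + (w + 0))) = α := by
    simp [map_add, o1, o2, hn]
  exact ⟨y, w, hy, hw, by rw [hα]; abel⟩

theorem main (hV : IsMajoranaAmbient mul B) {μ₀ μ₁ : V ≃ₗ[ℝ] V} {a₀ a₁ : V}
    (h₀ : IsMajoranaPair mul B μ₀ a₀) (h₁ : IsMajoranaPair mul B μ₁ a₁) (hn₀ : B a₀ a₀ = 1) (hn₁ : B a₁ a₁ = 1)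
    (hf₀ : μ₀ a₁ = a₁) (hf₁ : μ₁ a₀ = a₀) (hne : a₀ ≠ a₁) :
    (B a₀ a₁ = 0 ∧ mul a₀ a₁ = 0) ∨ (B a₀ a₁ = 1 / 8 ∧
      mul (a₀ + a₁ - (8 : ℝ) • mul a₀ a₁) (a₀ + a₁ - (8 : ℝ) • mul a₀ a₁) = a₀ + a₁ - (8 : ℝ) • mul a₀ a₁ ∧
      mul a₀ (a₀ + a₁ - (8 : ℝ) • mul a₀ a₁) = (1 / 8 : ℝ) • (a₀ + (a₀ + a₁ - (8 : ℝ) • mul a₀ a₁) - a₁)) := by
  obtain ⟨u, v, hu, hv, hd⟩ := fixed_decomp hV h₀ hn₀ hf₀
  obtain ⟨u', v', hu', hv', hd'⟩ := fixed_decomp hV h₁ hn₁ hf₁
  obtain ⟨hcomm, hsymm, hpos, hassoc, -⟩ := hV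
  obtain ⟨-, -, ⟨⟨-, hid, -, hfus⟩, heig1⟩, -, -⟩ := h₀
  obtain ⟨-, -, ⟨⟨-, hid₁, -, -⟩, -⟩, -, -⟩ := h₁
  rw [hsymm a₁ a₀] at hd'
  set α := B a₀ a₁ with hα
  have m0 : (0 : ℝ) ∈ majoranaSpectrum := by simp [majoranaSpectrum]
  have m4 : (1 / 4 : ℝ) ∈ majoranaSpectrum := by simp [majoranaSpectrum]
  have eu : u ∈ eigen mul a₀ 0 := by rw [eigen_iff, zero_smul]; exact hu
  have ev : v ∈ eigen mul a₀ (1 / 4) := eigen_iff.2 hv
  have huu : mul a₀ (mul u u) = 0 := by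
    have := hfus 0 m0 0 m0 u eu u eu
    simp only [eigenSum, monsterLaw] at this
    norm_num at this
    rw [eigen_iff, zero_smul] at this
    exact this
  have huv : mul a₀ (mul u v) = (1 / 4 : ℝ) • mul u v := by
    have := hfus 0 m0 (1 / 4) m4 u eu v ev
    simp only [eigenSum, monsterLaw] at this
    norm_num at this
    rw [eigen_iff] at this
    convert this using 2
  obtain ⟨c, z, hz, hvv⟩ : ∃ (c : ℝ) (z : V), mul a₀ z = 0 ∧ mul v v = c • a₀ + z := by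
    have := hfus (1 / 4) m4 (1 / 4) m4 v ev v ev
    simp only [eigenSum, monsterLaw] at this
    norm_num [iSup_insert, iSup_or, iSup_sup_eq] at this
    obtain ⟨p, hp, z, hz, e⟩ := Submodule.mem_sup.1 this
    rw [heig1, Submodule.mem_span_singleton] at hp
    obtain ⟨c, rfl⟩ := hp
    rw [eigen_iff, zero_smul] at hz
    exact ⟨c, z, hz, e.symm⟩
  have hua : mul u a₀ = 0 := by rw [hcomm, hu]
  have hva : mul v a₀ = (1 / 4 : ℝ) • v := by rw [hcomm, hv]
  have hvu : mul v u = mul u v := hcomm v u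
  have hp : mul a₀ a₁ = α • a₀ + (1 / 4 : ℝ) • v := by
    rw [hd]; simp [map_add, hid, hu, hv]
  -- first equation
  have e1 : (α * α + c - α) • a₀ + (mul u u + z - u) + ((α / 2 - 1) • v + (2 : ℝ) • mul u v) = 0 := by
    have h := hid₁
    rw [hd] at h
    simp only [map_add, map_smul, LinearMap.add_apply, LinearMap.smul_apply, hid, hu, hv, hua, hva, hvu, hvv,
      smul_add, smul_smul, smul_zero, zero_add, add_zero] at h
    rw [← sub_eq_zero] at h
    rw [← h]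
    module
  obtain ⟨c1, c2, c3⟩ := three_sep (mul := mul) (a := a₀) (by simp [hid]) (by simp [huu, hz, hu]) (by
    simp only [map_add, map_smul, hv, huv]; module) e1
  have huv' : mul u v = (1 / 2 - α / 4) • v := by
    have : (2 : ℝ) • (mul u v - (1 / 2 - α / 4) • v) = 0 := by rw [← c3]; module
    exact sub_eq_zero.1 ((smul_eq_zero.1 this).resolve_left (by norm_num))
  -- second equation
  have hL : mul a₁ (mul a₁ a₀) = α • a₁ + (1 / 4 : ℝ) • ((mul a₁ a₀) - α • a₁) := by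
    have h := congrArg (mul a₁) hd'
    simp only [map_add, map_smul, hid₁, hu', hv', add_zero] at h
    rw [h]
    simp only [map_add, map_smul, hid₁, hv', smul_smul]
    module
  rw [hcomm a₁ a₀, hp, hd] at hL
  simp only [map_add, map_smul, LinearMap.add_apply, LinearMap.smul_apply, hid, hu, hv, hua, hva, hvu, hvv,
    huv', smul_add, smul_smul, smul_zero, zero_add, add_zero] at hL
  rw [← sub_eq_zero] at hL
  have e2 : (α * α + c / 4 - (α * α * (3 / 4) + α / 4)) • a₀ + ((1 / 4 : ℝ) • z - (α * 3 / 4) • u) +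
      ((1 / 16 - α / 2) • v) = 0 := by
    rw [← hL]; module
  obtain ⟨d1, d2, d3⟩ := three_sep (mul := mul) (a := a₀) (by simp [hid]) (by simp [hz, hu]) (by simp only [map_smul, hv]; module) e2
  by_cases hv0 : v = 0
  · subst hv0
    simp only [map_zero, LinearMap.zero_apply] at hvv
    have hc : c = 0 := by
      have h0 : c • a₀ + z + 0 = 0 := by rw [add_zero, ← hvv]
      have := (three_sep (mul := mul) (a := a₀) (by simp [hid]) hz (by simp) h0).1
      exact (smul_eq_zero.1 this).resolve_right fun e => by rw [e] at hn₀; simp at hn₀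
    rw [hc] at c1
    have hα' : α * α + 0 - α = 0 := (smul_eq_zero.1 c1).resolve_right fun e => by rw [e] at hn₀; simp at hn₀
    have : α * (α - 1) = 0 := by linarith
    rcases mul_eq_zero.1 this with e | e
    · left
      refine ⟨e, ?_⟩
      rw [hp, e, zero_smul, smul_zero, add_zero]
    · exfalso
      have hα1 : α = 1 := by linarith
      have hu0 : B u u = 0 := by
        have o1 : B a₀ u = 0 := by
          nth_rw 1 [← hid]
          rw [← hassoc, hu, map_zero]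
        have := hn₁
        rw [hd, hα1] at this
        simp only [one_smul, add_zero, map_add, LinearMap.add_apply, hn₀, o1, hsymm u a₀] at this
        linarith
      have : u = 0 := by
        by_contra hne'
        exact (hpos u hne').ne' hu0
      rw [this, hα1, one_smul, add_zero, add_zero] at hd
      exact hne hd.symm
  right
  have hα8 : α = 1 / 8 := by
    have := (smul_eq_zero.1 d3).resolve_right hv0
    linarith
  have ha2 : a₀ + a₁ - (8 : ℝ) • mul a₀ a₁ = α • a₀ + u - v := by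
    rw [hp, hd, hα8]; module
  refine ⟨hα8, ?_, ?_⟩
  · rw [ha2]
    have h := hid₁
    rw [hd] at h
    simp only [map_add, map_sub, map_smul, LinearMap.add_apply, LinearMap.sub_apply, LinearMap.smul_apply, hid, hu,
      hv, hua, hva, hvu, huv', smul_add, smul_sub, smul_smul, smul_zero, zero_add, add_zero, sub_zero] at h ⊢
    rw [← sub_eq_zero] at h ⊢
    rw [← h, hα8]
    module
  · rw [ha2, hd]
    simp only [map_add, map_sub, map_smul, hid, hu, hv]
    rw [hα8]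
    module

end

/-- Let V be a finite-dimensional real vector space with a commutative bilinear product and a positive-definite symmetric bilinear form that associates with the product and satisfies the Norton inequality (the Majorana setting of the definitions). Let μ₀, μ₁ be commuting Majorana involutions with distinct axial vectors a₀ ≠ a₁ of squared length 1, each involution having no other axial vector. Then either a₀ and a₁ are orthogonal with a₀ ∘ a₁ = 0 (type 2B), or their inner product is 1/8 and, with a₂ = a₀ + a₁ − 8 a₀ ∘ a₁, the vector a₂ is an idempotent and a₀ ∘ a₂ = (1/8)(a₀ + a₂ − a₁), a₁ ∘ a₂ = (1/8)(a₁ + a₂ − a₀) (type 2A: the three idempotents span a subalgebra with aᵢ ∘ aⱼ = (1/8)(aᵢ + aⱼ − aₖ)). -/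
theorem result {V : Type*} [AddCommGroup V] [Module ℝ V] [FiniteDimensional ℝ V] (mul : V →ₗ[ℝ] V →ₗ[ℝ] V) (B : LinearMap.BilinForm ℝ V) (hV : Cfsg.Axial.IsMajoranaAmbient mul B) (μ₀ μ₁ : V ≃ₗ[ℝ] V) (a₀ a₁ : V) (h₀ : Cfsg.Axial.IsMajoranaPair mul B μ₀ a₀) (h₁ : Cfsg.Axial.IsMajoranaPair mul B μ₁ a₁) (hu₀ : ∀ a : V, Cfsg.Axial.IsMajoranaPair mul B μ₀ a → a = a₀) (hu₁ : ∀ a : V, Cfsg.Axial.IsMajoranaPair mul B μ₁ a → a = a₁) (hn₀ : B a₀ a₀ = 1) (hn₁ : B a₁ a₁ = 1) (hc : μ₀ * μ₁ = μ₁ * μ₀) (hne : a₀ ≠ a₁) : (B a₀ a₁ = 0 ∧ mul a₀ a₁ = 0) ∨ (B a₀ a₁ = 1 / 8 ∧ mul (a₀ + a₁ - (8 : ℝ) • mul a₀ a₁) (a₀ + a₁ - (8 : ℝ) • mul a₀ a₁) = a₀ + a₁ - (8 : ℝ) • mul a₀ a₁ ∧ mul a₀ (a₀ + a₁ - (8 : ℝ) • mul a₀ a₁) = (1 / 8 : ℝ) • (a₀ + (a₀ + a₁ - (8 : ℝ) • mul a₀ a₁) - a₁) ∧ mul a₁ (a₀ + a₁ - (8 : ℝ) • mul a₀ a₁) = (1 / 8 : ℝ) • (a₁ + (a₀ + a₁ - (8 : ℝ) • mul a₀ a₁) - a₀)) := by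
  have hcomm := hV.1
  have conj_fix : ∀ (μ ν : V ≃ₗ[ℝ] V) (a b : V), Cfsg.Axial.IsMajoranaPair mul B μ a →
      Cfsg.Axial.IsMajoranaPair mul B ν b → (∀ x : V, Cfsg.Axial.IsMajoranaPair mul B ν x → x = b) → μ * ν = ν * μ →
      μ b = b := by
    intro μ ν a b hμ hν huniq hc'
    refine huniq (μ b) ?_
    obtain ⟨hm, hB, ⟨⟨hb0, hid, htop, hfus⟩, h1⟩, hfix, hneg⟩ := hν
    obtain ⟨hm', hB', -, -⟩ := hμ
    have hcm : ∀ x, μ (ν x) = ν (μ x) := fun x => LinearEquiv.congr_fun hc' x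
    have heig : ∀ c : ℝ, Cfsg.Axial.eigen mul (μ b) c = (Cfsg.Axial.eigen mul b c).map (μ : V →ₗ[ℝ] V) := by
      intro c
      ext x
      rw [eigen_iff, Submodule.mem_map]
      constructor
      · intro hx
        refine ⟨μ.symm x, eigen_iff.2 (μ.injective ?_), μ.apply_symm_apply x⟩
        rw [hm', μ.apply_symm_apply, hx, map_smul, μ.apply_symm_apply]
      · rintro ⟨y, hy, rfl⟩
        show mul (μ b) (μ y) = c • μ y
        rw [← hm', eigen_iff.1 hy, map_smul]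
    have hsum : ∀ S : Set ℝ, Cfsg.Axial.eigenSum mul (μ b) S = (Cfsg.Axial.eigenSum mul b S).map (μ : V →ₗ[ℝ] V) := by
      intro S
      simp only [Cfsg.Axial.eigenSum, Submodule.map_iSup, heig]
    refine ⟨hm, hB, ⟨⟨fun e => hb0 (μ.map_eq_zero_iff.1 e), by rw [← hm', hid], ?_, ?_⟩, ?_⟩, ?_, ?_⟩
    · rw [hsum, htop, Submodule.map_top, LinearEquiv.range]
    · intro c hc1 d hd1 x hx y hy
      rw [heig] at hx hy
      obtain ⟨x, hx, rfl⟩ := hx
      obtain ⟨y, hy, rfl⟩ := hy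
      rw [hsum]
      exact ⟨mul x y, hfus c hc1 d hd1 x hx y hy, hm' x y⟩
    · rw [heig, h1, Submodule.map_span, Set.image_singleton]; rfl
    · intro x hx
      rw [hsum] at hx
      obtain ⟨x, hx, rfl⟩ := hx
      show ν (μ x) = μ x
      rw [← hcm]
      exact congrArg μ (hfix x hx)
    · intro x hx
      rw [heig] at hx
      obtain ⟨x, hx, rfl⟩ := hx
      show ν (μ x) = -(μ x)
      rw [← hcm, ← map_neg]
      exact congrArg μ (hneg x hx)
  have hf₀ : μ₀ a₁ = a₁ := conj_fix μ₀ μ₁ a₀ a₁ h₀ h₁ hu₁ hc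
  have hf₁ : μ₁ a₀ = a₀ := conj_fix μ₁ μ₀ a₁ a₀ h₁ h₀ hu₀ hc.symm
  rcases main hV h₀ h₁ hn₀ hn₁ hf₀ hf₁ hne with h | ⟨hα, h2, h3⟩
  · exact Or.inl h
  rcases main hV h₁ h₀ hn₁ hn₀ hf₁ hf₀ hne.symm with h' | ⟨-, -, h4⟩
  · exfalso
    rw [hV.2.1 a₁ a₀, hα] at h'
    norm_num at h'
  rw [hcomm a₁ a₀, add_comm a₁ a₀] at h4
  exact Or.inr ⟨hα, h2, h3, h4⟩

end Cfsg.Agent.S5545
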