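import Mathlib
import Cfsg.Statements.S5546
import Cfsg.Agent.Lib.Leech.Monomial

set_option autoImplicit false
open Cfsg

namespace Cfsg.Agent.S5546

open Cfsg.Lib.Leech Matrix

/-- The element of `Co0` under a member of `Co2`. -/
noncomputable def lift0 (g : ↥Cfsg.Spor.Co2) : ↥Cfsg.Co0 := ⟨g.1, g.2.1⟩

theorem lift0_fix (g : ↥Cfsg.Spor.Co2) : lift0 g • Cfsg.Spor.leechU = Cfsg.Spor.leechU := g.2.2

/-- Reduction of a vector modulo 13. -/
def cast13 (v : ↥Cfsg.leechLattice) : GolayPt → ZMod 13 := fun i => ((v : GolayPt → ℤ) i : ZMod 13)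

/-- The matrix modulo 13 in the coordinates. -/
noncomputable def mat (g : ↥Cfsg.Co0) : Matrix GolayPt GolayPt (ZMod 13) :=
  Matrix.of fun i j => (5 : ZMod 13) * cast13 (g • eight j) i

theorem five_mul_eight : (5 : ZMod 13) * 8 = 1 := by decide

theorem mat_mulVec (g : ↥Cfsg.Co0) (v : ↥Cfsg.leechLattice) : mat g *ᵥ cast13 v = cast13 (g • v) := by
  funext i
  have e : g • ((8 : ℤ) • v) = ∑ j, ((v : GolayPt → ℤ) j) • (g • eight j) := by
    rw [eight_decomp, co0_sum]
    exact Finset.sum_congr rfl fun j _ => co0_zsmul _ _ _
  rw [co0_zsmul] at e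
  have e' := congrArg (fun z : ↥Cfsg.leechLattice => cast13 z i) e
  simp only [cast13, AddSubgroup.coe_zsmul, AddSubgroup.val_finsetSum, Finset.sum_apply, Pi.smul_apply,
    smul_eq_mul, Int.cast_mul, Int.cast_sum, Int.cast_ofNat] at e'
  simp only [Matrix.mulVec, dotProduct, mat, cast13, Matrix.of_apply]
  calc ∑ j, (5 : ZMod 13) * (((g • eight j : ↥Cfsg.leechLattice) : GolayPt → ℤ) i : ZMod 13) *
        ((v : GolayPt → ℤ) j : ZMod 13)
      = 5 * ∑ j, ((v : GolayPt → ℤ) j : ZMod 13) * (((g • eight j : ↥Cfsg.leechLattice) : GolayPt → ℤ) i : ZMod 13) := by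
        rw [Finset.mul_sum]; exact Finset.sum_congr rfl fun j _ => by ring
    _ = _ := by rw [← e', ← mul_assoc, five_mul_eight, one_mul]

theorem mat_mul (g h : ↥Cfsg.Co0) : mat (g * h) = mat g * mat h := by
  ext i j
  have := congrFun (mat_mulVec g (h • eight j)) i
  rw [← mul_smul] at this
  simp only [mat, Matrix.of_apply, Matrix.mul_apply, ← this, Matrix.mulVec, dotProduct, Finset.mul_sum]
  exact Finset.sum_congr rfl fun k _ => by ring

theorem mat_one : mat 1 = 1 := by
  ext i j
  simp only [mat, Matrix.of_apply, one_smul, cast13, eight_apply, Matrix.one_apply]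
  split
  · norm_num; exact five_mul_eight
  · norm_num

theorem cast_U : cast13 Cfsg.Spor.leechU =
    fun i => if i = none then 4 else if i = some 0 then 4 else 0 := by decide +kernel

/-- The invariant functional. -/
def ell (x : GolayPt → ZMod 13) : ZMod 13 := x none + x (some 0)

theorem U_check : ∀ i : GolayPt, ((Cfsg.Spor.leechU : ↥Cfsg.leechLattice) : GolayPt → ℤ) i =
    (if i = none then 4 else 0) + (if i = some 0 then 4 else 0) := by decide +kernel

theorem dot_U (w : ↥Cfsg.leechLattice) :
    dotInt ((Cfsg.Spor.leechU : ↥Cfsg.leechLattice) : GolayPt → ℤ) (w : GolayPt → ℤ) =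
      4 * ((w : GolayPt → ℤ) none + (w : GolayPt → ℤ) (some 0)) := by
  rw [dotInt, Finset.sum_congr rfl fun i _ => by rw [U_check i]]
  simp [add_mul, Finset.sum_add_distrib, ite_mul, zero_mul]
  ring

theorem ell_mat (g : ↥Cfsg.Spor.Co2) (x : GolayPt → ZMod 13) : ell (mat (lift0 g) *ᵥ x) = ell x := by
  have hcol : ∀ j, mat (lift0 g) none j + mat (lift0 g) (some 0) j =
      (if j = none then 1 else 0) + (if j = some 0 then 1 else 0) := by
    intro j
    have h := co0_dot (lift0 g) Cfsg.Spor.leechU (eight j)
    rw [lift0_fix, dot_U, dot_U] at h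
    have h' : ((lift0 g • eight j : ↥Cfsg.leechLattice) : GolayPt → ℤ) none +
        ((lift0 g • eight j : ↥Cfsg.leechLattice) : GolayPt → ℤ) (some 0) =
        ((eight j : ↥Cfsg.leechLattice) : GolayPt → ℤ) none + ((eight j : ↥Cfsg.leechLattice) : GolayPt → ℤ) (some 0) := by
      omega
    simp only [mat, Matrix.of_apply, cast13, ← mul_add, ← Int.cast_add, h', eight_apply]
    by_cases h1 : j = none
    · subst h1; simp; exact five_mul_eight
    · by_cases h2 : j = some 0
      · subst h2; simp; exact five_mul_eight
      · simp [h1, h2, Ne.symm h1, Ne.symm h2]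
  simp only [ell, Matrix.mulVec, dotProduct, ← Finset.sum_add_distrib, ← add_mul, hcol]
  simp [add_mul, Finset.sum_add_distrib, ite_mul, zero_mul]

/-- The points other than the extra one. -/
def emb (k : Fin 23) : GolayPt := some k

/-- A basis of the invariant hyperplane, as columns. -/
def colMat : Matrix GolayPt (Fin 23) (ZMod 13) :=
  Matrix.of fun i k => if i = emb k then 1 else if i = none ∧ k = 0 then -1 else 0

/-- The coordinates off the extra point. -/
def rowMat : Matrix (Fin 23) GolayPt (ZMod 13) := Matrix.of fun k i => if i = emb k then 1 else 0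

theorem col_eq : ∀ (k : Fin 23) (i : GolayPt), colMat i k =
    (if i = emb k then (1 : ZMod 13) else 0) - if i = none then (if k = 0 then 1 else 0) else 0 := by decide +kernel

theorem row_col : rowMat * colMat = 1 := by decide +kernel

theorem ell_col : ∀ k : Fin 23, ell (fun i => colMat i k) = 0 := by decide +kernel

theorem col_row {n : Type*} (X : Matrix GolayPt n (ZMod 13))
    (h : ∀ k, X none k + X (some 0) k = 0) : colMat * (rowMat * X) = X := by
  have e : colMat * rowMat =
      Matrix.of fun i j : GolayPt => if i = none then (if j = some 0 then -1 else 0) else if i = j then 1 else 0 := by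
    decide +kernel
  rw [← Matrix.mul_assoc, e]
  ext i k
  simp only [Matrix.mul_apply, Matrix.of_apply]
  by_cases hi : i = none
  · subst hi
    simp only [if_true, ite_mul, zero_mul, Finset.sum_ite_eq', Finset.mem_univ]
    linear_combination -(h k)
  · simp [hi, ite_mul, zero_mul, Finset.sum_ite_eq]

/-- The representation on the hyperplane. -/
noncomputable def small (g : ↥Cfsg.Spor.Co2) : Matrix (Fin 23) (Fin 23) (ZMod 13) :=
  rowMat * (mat (lift0 g) * colMat)

theorem small_key (g : ↥Cfsg.Spor.Co2) : colMat * small g = mat (lift0 g) * colMat :=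
  col_row _ fun k => by
    have h : ell (mat (lift0 g) *ᵥ fun i => colMat i k) = 0 := (ell_mat g _).trans (ell_col k)
    exact h

/-- The homomorphism. -/
noncomputable def rep : ↥Cfsg.Spor.Co2 →* Matrix (Fin 23) (Fin 23) (ZMod 13) where
  toFun := small
  map_one' := by
    have : lift0 (1 : ↥Cfsg.Spor.Co2) = 1 := Subtype.ext rfl
    rw [small, this, mat_one, Matrix.one_mul, row_col]
  map_mul' g h := by
    have : lift0 (g * h) = lift0 g * lift0 h := Subtype.ext rfl
    show small (g * h) = small g * small h
    simp only [small, this, mat_mul, Matrix.mul_assoc]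
    rw [show colMat * (rowMat * (mat (lift0 h) * colMat)) = mat (lift0 h) * colMat from small_key h]

theorem rep_injective (g : ↥Cfsg.Spor.Co2) (hg : small g = 1) : g = 1 := by
  have hk : mat (lift0 g) * colMat = colMat := by rw [← small_key, hg, Matrix.mul_one]
  have hU : mat (lift0 g) *ᵥ cast13 Cfsg.Spor.leechU = cast13 Cfsg.Spor.leechU := by rw [mat_mulVec, lift0_fix]
  have hcolk : ∀ (k : Fin 23) i, mat (lift0 g) i (emb k) -
      (if k = 0 then mat (lift0 g) i none else 0) = colMat i k := by
    intro k i
    have h := congrFun (congrFun hk i) k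
    rw [← h, Matrix.mul_apply]
    simp only [col_eq k, mul_sub, Finset.sum_sub_distrib, mul_ite, mul_one, mul_zero, Finset.sum_ite_eq',
      Finset.mem_univ, if_true]
  have hall : mat (lift0 g) = 1 := by
    have h0 : ∀ i, mat (lift0 g) i (some 0) + mat (lift0 g) i none =
        (if i = none then 1 else 0) + (if i = some 0 then 1 else 0) := by
      intro i
      have h := congrFun hU i
      rw [cast_U] at h
      simp only [Matrix.mulVec, dotProduct, Fintype.sum_option] at h
      simp [Finset.sum_ite_eq'] at h
      have h4 : (10 : ZMod 13) * 4 = 1 := by decide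
      by_cases a : i = none
      · subst a; simp at h ⊢; linear_combination 10 * h + (1 - mat (lift0 g) none (some 0) - mat (lift0 g) none none) * h4
      · by_cases b : i = some 0
        · subst b; simp at h ⊢; linear_combination 10 * h + (1 - mat (lift0 g) (some 0) (some 0) - mat (lift0 g) (some 0) none) * h4
        · simp [a, b] at h ⊢
          linear_combination 10 * h + (0 - mat (lift0 g) i (some 0) - mat (lift0 g) i none) * h4
    have h2 : (7 : ZMod 13) * 2 = 1 := by decide
    ext i j
    cases j with
    | none =>
      have a := hcolk 0 i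
      have b := h0 i
      rw [if_pos rfl, show emb 0 = (some 0 : GolayPt) from rfl] at a
      simp only [colMat, Matrix.of_apply, show emb 0 = (some 0 : GolayPt) from rfl, Matrix.one_apply] at a ⊢
      by_cases c : i = none
      · subst c; simp at a b ⊢; linear_combination 7 * b - 7 * a + (1 - mat (lift0 g) none none) * h2
      · simp [c] at a b ⊢; linear_combination 7 * b - 7 * a - mat (lift0 g) i none * h2
    | some k =>
      change Fin 23 at k
      by_cases k0 : k = 0
      · subst k0
        have a := hcolk 0 i
        have b := h0 i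
        rw [if_pos rfl, show emb 0 = (some 0 : GolayPt) from rfl] at a
        simp only [colMat, Matrix.of_apply, show emb 0 = (some 0 : GolayPt) from rfl, Matrix.one_apply] at a
        show mat (lift0 g) i (some 0) = (1 : Matrix GolayPt GolayPt (ZMod 13)) i (some 0)
        rw [Matrix.one_apply]
        by_cases c : i = none
        · subst c; simp at a b ⊢; linear_combination 7 * b + 7 * a - mat (lift0 g) none (some 0) * h2
        · by_cases d : i = some 0
          · subst d; simp at a b ⊢; linear_combination 7 * b + 7 * a + (1 - mat (lift0 g) (some 0) (some 0)) * h2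
          · simp [c, d] at a b ⊢; linear_combination 7 * b + 7 * a - mat (lift0 g) i (some 0) * h2
      · have a := hcolk k i
        rw [if_neg k0, sub_zero] at a
        show mat (lift0 g) i (emb k) = (1 : Matrix GolayPt GolayPt (ZMod 13)) i (emb k)
        rw [a, Matrix.one_apply]
        simp [colMat, k0]
  have key : lift0 g = 1 := co0_ext_eight fun j => by
    rw [one_smul]
    set w := lift0 g • eight j with hw
    have hn : sqNorm ((w : ↥Cfsg.leechLattice) : GolayPt → ℤ) = 64 := by rw [hw, co0_norm, eight_norm]
    have hb : ∀ i, (w : GolayPt → ℤ) i ≤ 8 ∧ -8 ≤ (w : GolayPt → ℤ) i := fun i => by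
      have h5 : (w : GolayPt → ℤ) i ^ 2 ≤ 64 := hn ▸
        Finset.single_le_sum (f := fun i => (w : GolayPt → ℤ) i ^ 2) (fun i _ => sq_nonneg _) (Finset.mem_univ i)
      constructor <;> nlinarith
    have hcast : ∀ i, (((w : GolayPt → ℤ) i - if i = j then 8 else 0 : ℤ) : ZMod 13) = 0 := fun i => by
      have h := congrFun (congrFun hall i) j
      simp only [mat, Matrix.of_apply, cast13, Matrix.one_apply, ← hw] at h
      have h5 : (8 : ZMod 13) * 5 = 1 := by decide
      by_cases hi : i = j
      · rw [if_pos hi] at h ⊢; push_cast; linear_combination 8 * h - ((w : GolayPt → ℤ) i : ZMod 13) * h5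
      · rw [if_neg hi] at h ⊢; push_cast; linear_combination 8 * h - ((w : GolayPt → ℤ) i : ZMod 13) * h5
    have hd : ∀ i, (13 : ℤ) ∣ (w : GolayPt → ℤ) i - if i = j then 8 else 0 := fun i =>
      (ZMod.intCast_zmod_eq_zero_iff_dvd _ 13).1 (hcast i)
    have hz : ∀ i, i ≠ j → (w : GolayPt → ℤ) i = 0 := fun i hi => by
      have := hd i; have := hb i; rw [if_neg hi] at *; omega
    have hj : (w : GolayPt → ℤ) j = 8 := by
      have := hd j; have := hb j; rw [if_pos rfl] at *
      have hs : sqNorm ((w : ↥Cfsg.leechLattice) : GolayPt → ℤ) = (w : GolayPt → ℤ) j ^ 2 :=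
        Finset.sum_eq_single j (fun i _ hi => by simp [hz i hi]) (fun h => absurd (Finset.mem_univ j) h)
      rw [hn] at hs
      have : (w : GolayPt → ℤ) j = 8 ∨ (w : GolayPt → ℤ) j = -5 := by omega
      rcases this with h | h
      · exact h
      · rw [h] at hs; norm_num at hs
    refine Subtype.ext (funext fun i => ?_)
    rw [eight_apply]
    by_cases hi : i = j
    · subst hi; rw [if_pos rfl, hj]
    · rw [if_neg hi, hz i hi]
  exact Subtype.ext (congrArg (fun x : ↥Cfsg.Co0 => x.1) key)

/-- The second Conway group (the stabilizer in the Leech lattice automorphism group of the short vector fixed in the definitions) is isomorphic to a subgroup of the general linear group of degree 23 over the field with 13 elements: there is an injective homomorphism into it. -/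
theorem result : ∃ f : ↥Cfsg.Spor.Co2 →* GL (Fin 23) (ZMod 13), Function.Injective f := by
  refine ⟨rep.toHomUnits, (injective_iff_map_eq_one _).2 fun g hg => rep_injective g ?_⟩
  rw [Units.ext_iff, MonoidHom.coe_toHomUnits, Units.val_one] at hg
  exact hg

end Cfsg.Agent.S5546
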