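import Cfsg.Statements.S5549
import Mathlib
import Cfsg.Agent.Lib.Golay.LinOrb.Main

set_option autoImplicit false
open Cfsg

namespace Cfsg.Agent.S5549

/-- Let X be a group of linear automorphisms of the length-24 binary Golay code of the definitions that fix the all-ones word, containing the coordinate-permutation action of every element of the code's automorphism group (the Mathieu group of degree 24), and such that every element of X sends each codeword into its orbit under that Mathieu group up to adding the all-ones word (X has the same orbits as the Mathieu group on the code modulo the all-ones word). Then every element of X agrees, modulo the all-ones word, with the action of a single element of the Mathieu group: X induces exactly the Mathieu group on the code modulo the all-ones word. -/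
theorem result (X : Subgroup (↥Cfsg.golayCode ≃ₗ[ZMod 2] ↥Cfsg.golayCode)) (h1 : ∀ x ∈ X, ∀ e : ↥Cfsg.golayCode, (e : (Cfsg.GolayPt → ZMod 2)) = (fun _ => (1 : ZMod 2)) → x e = e) (hM : ∀ σ ∈ Cfsg.M24, ∃ x ∈ X, ∀ c : ↥Cfsg.golayCode, ((x c : ↥Cfsg.golayCode) : (Cfsg.GolayPt → ZMod 2)) = fun p => (c : (Cfsg.GolayPt → ZMod 2)) (σ.symm p)) (horb : ∀ x ∈ X, ∀ c : ↥Cfsg.golayCode, ∃ σ ∈ Cfsg.M24, ((x c : ↥Cfsg.golayCode) : (Cfsg.GolayPt → ZMod 2)) = (fun p => (c : (Cfsg.GolayPt → ZMod 2)) (σ.symm p)) ∨ ((x c : ↥Cfsg.golayCode) : (Cfsg.GolayPt → ZMod 2)) = (fun p => (c : (Cfsg.GolayPt → ZMod 2)) (σ.symm p)) + fun _ => (1 : ZMod 2)) (x : ↥Cfsg.golayCode ≃ₗ[ZMod 2] ↥Cfsg.golayCode) (hx : x ∈ X) : ∃ σ ∈ Cfsg.M24, ∀ c : ↥Cfsg.golayCode, ((x c : ↥Cfsg.golayCode) : (Cfsg.GolayPt → ZMod 2)) = (fun p => (c : (Cfsg.GolayPt → ZMod 2)) (σ.symm p)) ∨ ((x c : ↥Cfsg.golayCode) : (Cfsg.GolayPt → ZMod 2)) = (fun p => (c : (Cfsg.GolayPt → ZMod 2)) (σ.symm p)) + fun _ => (1 : ZMod 2) := by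
  classical
  open Cfsg.Lib.Golay in
  refine Cfsg.Lib.Golay.LinOrb.exists_mathieu x (fun e he => h1 x hx e he) fun c => ?_
  obtain ⟨σ, -, h⟩ := horb x hx c
  have hp : (Cfsg.support₂ fun p => (c : Cfsg.GolayPt → ZMod 2) (σ.symm p)).card =
      (Cfsg.support₂ (c : Cfsg.GolayPt → ZMod 2)).card := by
    refine Eq.trans ?_ (Finset.card_map σ.toEmbedding)
    refine congrArg Finset.card (Finset.ext fun p => ?_)
    simp [Cfsg.support₂, Finset.mem_map_equiv]
  rcases h with h | h
  · exact Or.inl (by rw [h, hp])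
  · refine Or.inr ?_
    rw [h, show (fun _ : Cfsg.GolayPt => (1 : ZMod 2)) = (1 : Cfsg.GolayPt → ZMod 2) from rfl,
      Cfsg.Lib.Golay.LinOrb.supp_compl, hp]

end Cfsg.Agent.S5549
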