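import Cfsg.Statements.S5552
import Mathlib
import Cfsg.Agent.Lib.Leech.Global
import Cfsg.Agent.Lib.Leech.FrameSingular

set_option autoImplicit false
open Cfsg

namespace Cfsg.Agent.S5552

/-- On the Leech lattice of the definitions, let Q be a function to the field with two elements that is constant on cosets of twice the lattice, is a quadratic form there (Q(u+v+w) + Q(u) + Q(v) + Q(w) = Q(u+v) + Q(u+w) + Q(v+w) for all u, v, w), is invariant under every lattice automorphism, and is not identically zero. Then Q(v) is the squared length of v divided by 16, reduced modulo 2, for every lattice vector v (squared lengths of lattice vectors are multiples of 16). -/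
theorem result (Q : ↥Cfsg.leechLattice → ZMod 2) (hcoset : ∀ v w : ↥Cfsg.leechLattice, Q (v + (w + w)) = Q v) (hquad : ∀ u v w : ↥Cfsg.leechLattice, Q (u + v + w) + Q u + Q v + Q w = Q (u + v) + Q (u + w) + Q (v + w)) (hinv : ∀ (g : ↥Cfsg.Co0) (v : ↥Cfsg.leechLattice), Q (g • v) = Q v) (hne : ∃ v : ↥Cfsg.leechLattice, Q v ≠ 0) (v : ↥Cfsg.leechLattice) : Q v = ((Cfsg.sqNorm (v : Cfsg.GolayPt → ℤ) / 16 : ℤ) : ZMod 2) := by
  have hchar : ∀ a : ZMod 2, a + a = 0 := by decide
  have q00 : Q 0 = 0 := by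
    have h := hquad 0 0 0
    simp only [add_zero] at h
    revert h; generalize Q 0 = a; revert a; decide
  let bf : ↥leechLattice → ↥leechLattice → ZMod 2 := fun a b => Q (a + b) + Q a + Q b
  have hQ : Lib.Leech.InvQuad Q bf := by
    refine ⟨fun a b => ?_, fun a b c => ?_, hcoset, hinv⟩
    · show Q (a + b) = Q a + Q b + (Q (a + b) + Q a + Q b)
      generalize Q (a + b) = p; generalize Q a = r; generalize Q b = s
      revert p r s; decide
    · show Q (a + (b + c)) + Q a + Q (b + c) = (Q (a + b) + Q a + Q b) + (Q (a + c) + Q a + Q c)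
      have h := hquad a b c
      rw [← add_assoc]
      revert h
      generalize Q (a + b + c) = p1; generalize Q (a + b) = p2; generalize Q (a + c) = p3
      generalize Q (b + c) = p4; generalize Q a = r; generalize Q b = s; generalize Q c = t
      revert p1 p2 p3 p4 r s t; decide
  have h2 : ∀ a : ↥leechLattice, sqNorm (a : GolayPt → ℤ) = 32 → Q a = 0 := by
    intro a ha
    obtain ⟨g, hg⟩ := Lib.Leech.trans32 ha Lib.Leech.baseVec_norm
    rw [← hinv g a, hg]
    have e : Lib.Leech.baseVec = Lib.Leech.pairVec none (some 0) := Subtype.ext (funext fun i => rfl)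
    rw [e]
    exact hQ.pair_zero (by simp)
  have h4 : ∀ a : ↥leechLattice, sqNorm (a : GolayPt → ℤ) = 64 → Q a = 0 := by
    intro a ha
    obtain ⟨g, hg⟩ := Lib.Leech.trans_cross ha (Lib.Leech.eight_norm none)
    rw [← hinv g a, hg]
    have e : Lib.Leech.eight none = Lib.Leech.InvQuad.eightVec none := Subtype.ext (funext fun i => by
      rw [Lib.Leech.eight_apply]
      show _ = Lib.Leech.single none 4 i + Lib.Leech.single none 4 i
      unfold Lib.Leech.single
      split <;> norm_num)
    rw [e]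
    exact hQ.eight_zero none
  have hrep : ∀ a : ↥leechLattice, ∃ y : ↥leechLattice, sqNorm (y : GolayPt → ℤ) ≤ 64 ∧ Q a = Q y ∧
      ((sqNorm (a : GolayPt → ℤ) / 16 : ℤ) : ZMod 2) = ((sqNorm (y : GolayPt → ℤ) / 16 : ℤ) : ZMod 2) := by
    intro a
    obtain ⟨y, hy, e⟩ := Lib.Leech.class_data.1 a
    refine ⟨y, hy, ?_, Lib.Leech.norm_mod_two a y e⟩
    obtain ⟨z, hz, ez⟩ := Lib.Leech.cls_eq_iff.1 e
    have : a = y + (⟨z, hz⟩ + ⟨z, hz⟩) := Subtype.ext (by
      rw [AddSubgroup.coe_add, AddSubgroup.coe_add, ← two_nsmul]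
      show (a : GolayPt → ℤ) = (y : GolayPt → ℤ) + 2 • z
      rw [← ez]; abel)
    rw [this, hcoset]
  have hcases : ∀ y : ↥leechLattice, sqNorm (y : GolayPt → ℤ) ≤ 64 →
      y = 0 ∨ sqNorm (y : GolayPt → ℤ) = 32 ∨ sqNorm (y : GolayPt → ℤ) = 48 ∨ sqNorm (y : GolayPt → ℤ) = 64 := by
    intro y hy
    by_cases h : (y : GolayPt → ℤ) = 0
    · exact Or.inl (Subtype.ext h)
    · have := Lib.Leech.min_norm y.2 h
      have := Lib.Leech.norm_dvd y.2
      omega
  have h3 : ∀ a : ↥leechLattice, sqNorm (a : GolayPt → ℤ) = 48 → Q a = 1 := by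
    intro a ha
    obtain ⟨u, hu⟩ := hne
    obtain ⟨y, hy, e, -⟩ := hrep u
    rcases hcases y hy with h | h | h | h
    · exact absurd (e.trans (h ▸ q00)) hu
    · exact absurd (e.trans (h2 y h)) hu
    · obtain ⟨g, hg⟩ := Lib.Leech.trans48 ha h
      rw [← hinv g a, hg, ← e]
      revert hu; generalize Q u = c; revert c; decide
    · exact absurd (e.trans (h4 y h)) hu
  obtain ⟨y, hy, e, ey⟩ := hrep v
  rw [e, ey]
  rcases hcases y hy with h | h | h | h
  · subst h; rw [q00]; simp [sqNorm]
  · rw [h2 y h, h]; rfl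
  · rw [h3 y h, h]; rfl
  · rw [h4 y h, h]; rfl

end Cfsg.Agent.S5552
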