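import Cfsg.Statements.S5599
import Cfsg.Agent.Lib.Golay.Outer
-- import your own Cfsg.Agent.* helpers here

set_option autoImplicit false
open scoped Pointwise
open Cfsg

namespace Cfsg.Agent.S5599

/-- In the automorphism group of the length-24 code, the two-point Mathieu group (permutations of the code's group fixing the extra point and the residue 0) has index 2 in the setwise stabiliser of that pair of points, and an element of the code's group interchanging the two points normalises the two-point group and induces on it, by conjugation, an automorphism that is not inner. -/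
theorem result (g : Equiv.Perm Cfsg.GolayPt) (hg : g ∈ Cfsg.M24) (h₁ : g none = some 0) (h₂ : g (some 0) = none) : Cfsg.Spor.M22.relIndex (Cfsg.M24 ⊓ MulAction.stabilizer (Equiv.Perm Cfsg.GolayPt) ({none, some 0} : Finset Cfsg.GolayPt)) = 2 ∧ (∀ x ∈ Cfsg.Spor.M22, g * x * g⁻¹ ∈ Cfsg.Spor.M22) ∧ ¬ ∃ h ∈ Cfsg.Spor.M22, ∀ x ∈ Cfsg.Spor.M22, g * x * g⁻¹ = h * x * h⁻¹ := by
  classical
  open Cfsg.Lib.Golay in
  exact by
    have hmem : ∀ x, x ∈ Cfsg.Spor.M22 ↔ x ∈ Cfsg.M24 ∧ x none = none ∧ x (some 0) = some 0 := by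
      intro x
      rw [M22_eq_fixer, mem_fixer]
      simp
    have hpair : ∀ x : Equiv.Perm Cfsg.GolayPt, x • ({none, some 0} : Finset Cfsg.GolayPt) = {none, some 0} →
        (x none = none ∧ x (some 0) = some 0) ∨ (x none = some 0 ∧ x (some 0) = none) := by
      intro x hx
      have h1 : x • (none : Cfsg.GolayPt) ∈ ({none, some 0} : Finset Cfsg.GolayPt) := hx ▸ Finset.smul_mem_smul_finset (by simp)
      have h2 : x • (some 0 : Cfsg.GolayPt) ∈ ({none, some 0} : Finset Cfsg.GolayPt) := hx ▸ Finset.smul_mem_smul_finset (by simp)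
      simp only [Equiv.Perm.smul_def, Finset.mem_insert, Finset.mem_singleton] at h1 h2
      rcases h1 with h1 | h1 <;> rcases h2 with h2 | h2
      · exact absurd (x.injective (h1.trans h2.symm)) (by simp)
      · exact Or.inl ⟨h1, h2⟩
      · exact Or.inr ⟨h1, h2⟩
      · exact absurd (x.injective (h1.trans h2.symm)) (by simp)
    have hgs : g • ({none, some 0} : Finset Cfsg.GolayPt) = {none, some 0} := by
      rw [Finset.smul_finset_insert, Finset.smul_finset_singleton, Equiv.Perm.smul_def, Equiv.Perm.smul_def, h₁, h₂,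
        Finset.pair_comm]
    refine ⟨?_, fun x hx => ?_, ?_⟩
    · rw [Subgroup.relIndex, Subgroup.index_eq_two_iff]
      refine ⟨⟨g, hg, hgs⟩, fun b => ?_⟩
      rw [Subgroup.mem_subgroupOf, Subgroup.mem_subgroupOf, hmem, hmem, Subgroup.coe_mul]
      simp only [Equiv.Perm.mul_apply, h₁, h₂]
      rcases hpair b.1 b.2.2 with ⟨e1, e2⟩ | ⟨e1, e2⟩
      · exact Or.inr ⟨⟨b.2.1, e1, e2⟩, fun h => by rw [e2] at h; simp at h⟩
      · exact Or.inl ⟨⟨Cfsg.M24.mul_mem b.2.1 hg, e2, e1⟩, fun h => by rw [e1] at h; simp at h⟩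
    · rw [hmem] at hx ⊢
      refine ⟨Cfsg.M24.mul_mem (Cfsg.M24.mul_mem hg hx.1) (Cfsg.M24.inv_mem hg), ?_, ?_⟩
      · rw [Equiv.Perm.mul_apply, Equiv.Perm.mul_apply, show g⁻¹ none = some 0 from Equiv.Perm.inv_eq_iff_eq.2 h₂.symm, hx.2.2, h₂]
      · rw [Equiv.Perm.mul_apply, Equiv.Perm.mul_apply, show g⁻¹ (some 0) = none from Equiv.Perm.inv_eq_iff_eq.2 h₁.symm, hx.2.1, h₁]
    · rintro ⟨h, hh, hc⟩
      have hcomm : ∀ k ∈ fixer {none, some 0}, (h⁻¹ * g) * k = k * (h⁻¹ * g) := by
        intro k hk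
        have e := hc k (M22_eq_fixer ▸ hk)
        calc h⁻¹ * g * k = h⁻¹ * (g * k * g⁻¹) * g := by group
          _ = k * (h⁻¹ * g) := by rw [e]; group
      have h9 : 9 ≤ (fixPts (h⁻¹ * g)).card := by
        refine le_trans ?_ (Finset.card_le_card (s := ({none, some 0} : Finset Cfsg.GolayPt)ᶜ) fun p hp =>
          mem_fixPts.2 (centralizes_fixer_pair hcomm p (Finset.mem_compl.1 hp)))
        rw [Finset.card_compl, Fintype.card_option, ZMod.card]
        decide
      have hone := eq_one_of_fix (Subgroup.mul_mem _ (Subgroup.inv_mem _ ((hmem h).1 hh).1) hg) h9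
      rw [inv_mul_eq_one] at hone
      have e := ((hmem h).1 hh).2.1
      rw [hone, h₁] at e
      simp at e

end Cfsg.Agent.S5599
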