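import Cfsg.Statements.S5600
import Cfsg.Agent.Lib.Golay.OctKer

set_option autoImplicit false
open scoped Pointwise
open Cfsg

namespace Cfsg.Agent.S5600

/-- Although the group of the length-24 code is only 5-transitive on the 24 points, it induces the full symmetric group on every 6-element subset: every permutation of a 6-set E is the restriction of an element of the group mapping E to itself. The pointwise stabiliser of E has order 16 when E lies in an octad and order 3 otherwise; in the latter case the setwise stabiliser of E has order 2160. -/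
theorem result (E : Finset Cfsg.GolayPt) (hE : E.card = 6) : (∀ σ : Equiv.Perm ↥E, ∃ g ∈ Cfsg.M24, ∀ p : ↥E, g p = σ p) ∧ ((∃ o ∈ Cfsg.octads, E ⊆ o) → Nat.card {g : Equiv.Perm Cfsg.GolayPt // g ∈ Cfsg.M24 ∧ ∀ p ∈ E, g p = p} = 16) ∧ ((¬ ∃ o ∈ Cfsg.octads, E ⊆ o) → Nat.card {g : Equiv.Perm Cfsg.GolayPt // g ∈ Cfsg.M24 ∧ ∀ p ∈ E, g p = p} = 3 ∧ Nat.card ↥(MulAction.stabilizer Cfsg.M24 E) = 2160) := by
  classical
  have h16 := Cfsg.Lib.Golay.OctKer.card_fixer_six hE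
  have hcard : ∀ P : Prop, P → Nat.card {g : Equiv.Perm Cfsg.GolayPt // g ∈ Cfsg.M24 ∧ ∀ p ∈ E, g p = p} =
      Nat.card (Cfsg.Lib.Golay.fixer E) := fun _ _ => rfl
  obtain ⟨e⟩ : Nonempty (Fin 6 ≃ E) := ⟨(Fintype.equivFinOfCardEq (by simp [hE])).symm⟩
  have hsym : ∀ σ : Equiv.Perm ↥E, ∃ g ∈ Cfsg.M24, ∀ p : ↥E, g p = σ p := by
    intro σ
    let x : Fin 6 ↪ Cfsg.GolayPt := e.toEmbedding.trans ⟨Subtype.val, Subtype.val_injective⟩
    let y : Fin 6 ↪ Cfsg.GolayPt := (e.trans σ).toEmbedding.trans ⟨Subtype.val, Subtype.val_injective⟩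
    have key : ∃ b : Fin 6 → Cfsg.GolayPt, (∃ s ∈ Cfsg.M24, ∀ i, s (x i) = b i) ∧ ∃ t ∈ Cfsg.M24, ∀ i, t (y i) = b i := by
      by_cases ho : ∃ o ∈ Cfsg.octads, E ⊆ o
      · obtain ⟨o, ho, hs⟩ := ho
        exact ⟨_, (Cfsg.Lib.Golay.OctKer.six_to_base x).1 o ho fun i => hs (e i).2,
          (Cfsg.Lib.Golay.OctKer.six_to_base y).1 o ho fun i => hs (σ (e i)).2⟩
      · have hn : ∀ z : Fin 6 ≃ ↥E, ¬ ∃ o ∈ Cfsg.octads, ∀ i, ((z i : ↥E) : Cfsg.GolayPt) ∈ o :=
          fun z ⟨o, hoo, h⟩ => ho ⟨o, hoo, fun a ha => by simpa using h (z.symm ⟨a, ha⟩)⟩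
        exact ⟨_, (Cfsg.Lib.Golay.OctKer.six_to_base x).2 (hn e), (Cfsg.Lib.Golay.OctKer.six_to_base y).2 (hn (e.trans σ))⟩
    obtain ⟨b, ⟨s, hs, hsx⟩, t, ht, hty⟩ := key
    refine ⟨t⁻¹ * s, Cfsg.M24.mul_mem (Cfsg.M24.inv_mem ht) hs, fun p => ?_⟩
    obtain ⟨i, rfl⟩ := e.surjective p
    have h1 := hsx i
    have h2 := hty i
    simp only [x, y, Function.Embedding.trans_apply, Equiv.coe_toEmbedding, Equiv.trans_apply, Function.Embedding.coeFn_mk] at h1 h2
    rw [Equiv.Perm.mul_apply, h1, ← h2]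
    exact t.symm_apply_apply _
  refine ⟨hsym, fun ⟨o, ho, hs⟩ => (hcard True trivial).trans (h16.1 o ho hs), fun hno => ⟨(hcard True trivial).trans (h16.2 hno), ?_⟩⟩
  have hmemE : ∀ g : MulAction.stabilizer Cfsg.M24 E, ∀ p, ((g : Cfsg.M24) : Equiv.Perm Cfsg.GolayPt) p ∈ E ↔ p ∈ E := by
    intro g p
    have hg : ((g : Cfsg.M24) : Equiv.Perm Cfsg.GolayPt) • E = E := g.2
    have h := Finset.smul_mem_smul_finset_iff (s := E) (b := p) ((g : Cfsg.M24) : Equiv.Perm Cfsg.GolayPt)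
    rwa [hg] at h
  let φ : MulAction.stabilizer Cfsg.M24 E →* Equiv.Perm ↥E :=
    { toFun := fun g => Equiv.Perm.subtypePerm ((g : Cfsg.M24) : Equiv.Perm Cfsg.GolayPt) (hmemE g)
      map_one' := Equiv.ext fun _ => rfl
      map_mul' := fun _ _ => Equiv.ext fun _ => rfl }
  have hsurj : Function.Surjective φ := by
    intro σ
    obtain ⟨g, hg, hgp⟩ := hsym σ
    have hst : g • E = E := by
      refine Finset.eq_of_subset_of_card_le (fun q hq => ?_) (Finset.card_smul_finset _ _).ge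
      obtain ⟨p, hp, rfl⟩ := Finset.mem_smul_finset.1 hq
      rw [Equiv.Perm.smul_def, hgp ⟨p, hp⟩]
      exact (σ ⟨p, hp⟩).2
    exact ⟨⟨⟨g, hg⟩, hst⟩, Equiv.ext fun p => Subtype.ext (hgp p)⟩
  have hker : Nat.card φ.ker = 3 := by
    rw [← h16.2 hno]
    refine Nat.card_congr
      { toFun := fun g => ⟨(((g : MulAction.stabilizer Cfsg.M24 E) : Cfsg.M24) : Equiv.Perm Cfsg.GolayPt),
          ((g : MulAction.stabilizer Cfsg.M24 E) : Cfsg.M24).2, fun p hp =>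
            congrArg Subtype.val (Equiv.ext_iff.1 g.2 ⟨p, hp⟩)⟩
        invFun := fun g => ⟨⟨⟨(g : Equiv.Perm Cfsg.GolayPt), g.2.1⟩, ?_⟩, ?_⟩
        left_inv := fun _ => rfl
        right_inv := fun _ => rfl }
    · show (g : Equiv.Perm Cfsg.GolayPt) • E = E
      refine Finset.eq_of_subset_of_card_le (fun q hq => ?_) (Finset.card_smul_finset _ _).ge
      obtain ⟨p, hp, rfl⟩ := Finset.mem_smul_finset.1 hq
      rw [Equiv.Perm.smul_def, g.2.2 p hp]
      exact hp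
    · exact Equiv.ext fun p => Subtype.ext (g.2.2 p p.2)
  have h := Subgroup.card_mul_index φ.ker
  rw [hker, Subgroup.index_ker, MonoidHom.range_eq_top.2 hsurj, Subgroup.card_top, Nat.card_eq_fintype_card,
    Fintype.card_perm, Fintype.card_coe, hE] at h
  rw [← h]
  rfl

end Cfsg.Agent.S5600
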