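import Cfsg.Statements.S5601
import Cfsg.Agent.Lib.Golay.Elements

set_option autoImplicit false
open scoped Pointwise
open Cfsg

namespace Cfsg.Agent.S5601

/-- The group of the length-24 code has exactly two conjugacy classes of subgroups of order 3: a subgroup of order 3 fixes either exactly 6 of the 24 points or none of them, both cases occur, and two subgroups of order 3 with the same number of fixed points are conjugate. -/
theorem result : (∀ X : Subgroup ↥Cfsg.M24, Nat.card X = 3 → {p : Cfsg.GolayPt | ∀ x ∈ X, ((x : ↥Cfsg.M24) : Equiv.Perm Cfsg.GolayPt) p = p}.ncard = 6 ∨ {p : Cfsg.GolayPt | ∀ x ∈ X, ((x : ↥Cfsg.M24) : Equiv.Perm Cfsg.GolayPt) p = p}.ncard = 0) ∧ (∃ X : Subgroup ↥Cfsg.M24, Nat.card X = 3 ∧ {p : Cfsg.GolayPt | ∀ x ∈ X, ((x : ↥Cfsg.M24) : Equiv.Perm Cfsg.GolayPt) p = p}.ncard = 6) ∧ (∃ X : Subgroup ↥Cfsg.M24, Nat.card X = 3 ∧ {p : Cfsg.GolayPt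 | ∀ x ∈ X, ((x : ↥Cfsg.M24) : Equiv.Perm Cfsg.GolayPt) p = p}.ncard = 0) ∧ ∀ X Y : Subgroup ↥Cfsg.M24, Nat.card X = 3 → Nat.card Y = 3 → {p : Cfsg.GolayPt | ∀ x ∈ X, ((x : ↥Cfsg.M24) : Equiv.Perm Cfsg.GolayPt) p = p}.ncard = {p : Cfsg.GolayPt | ∀ x ∈ Y, ((x : ↥Cfsg.M24) : Equiv.Perm Cfsg.GolayPt) p = p}.ncard → ∃ k : ↥Cfsg.M24, MulAut.conj k • X = Y := by
  classical
  haveI : Fact (Nat.Prime 3) := ⟨Nat.prime_three⟩
  have hgen : ∀ X : Subgroup ↥Cfsg.M24, Nat.card X = 3 → ∃ x : ↥Cfsg.M24, orderOf (x : Equiv.Perm Cfsg.GolayPt) = 3 ∧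
      X = Subgroup.zpowers x ∧ {p : Cfsg.GolayPt | ∀ y ∈ X, ((y : ↥Cfsg.M24) : Equiv.Perm Cfsg.GolayPt) p = p}.ncard =
        (Cfsg.Lib.Golay.fixPts (x : Equiv.Perm Cfsg.GolayPt)).card := by
    intro X hX
    obtain ⟨x, hx⟩ := exists_prime_orderOf_dvd_card' (G := X) 3 (dvd_of_eq hX.symm)
    have hord : orderOf ((x : ↥Cfsg.M24) : Equiv.Perm Cfsg.GolayPt) = 3 := by
      rw [Subgroup.orderOf_coe, Subgroup.orderOf_coe, hx]
    have hXe : X = Subgroup.zpowers (x : ↥Cfsg.M24) := by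
      refine (Subgroup.eq_of_le_of_card_ge (Subgroup.zpowers_le.2 x.2) ?_).symm
      rw [Nat.card_zpowers, Subgroup.orderOf_coe, hx, hX]
    refine ⟨x, hord, hXe, ?_⟩
    rw [← Set.ncard_coe_finset]
    congr 1
    ext p
    simp only [Set.mem_ofPred_eq, Finset.mem_coe, Cfsg.Lib.Golay.mem_fixPts]
    constructor
    · exact fun h => h x x.2
    · intro h y hy
      rw [hXe] at hy
      obtain ⟨i, rfl⟩ := Subgroup.mem_zpowers_iff.1 hy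
      exact Equiv.Perm.zpow_apply_eq_self_of_apply_eq_self h i
  obtain ⟨-, -, ⟨m6, o6, f6⟩, m0, o0, f0⟩ := Cfsg.Lib.Golay.Elements.rep_spec
  have hex : ∀ (r : Equiv.Perm Cfsg.GolayPt) (m : r ∈ Cfsg.M24), orderOf r = 3 → ∀ n, (Cfsg.Lib.Golay.fixPts r).card = n →
      ∃ X : Subgroup ↥Cfsg.M24, Nat.card X = 3 ∧
        {p : Cfsg.GolayPt | ∀ x ∈ X, ((x : ↥Cfsg.M24) : Equiv.Perm Cfsg.GolayPt) p = p}.ncard = n := by
    intro r m o n f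
    have hc : Nat.card (Subgroup.zpowers (⟨r, m⟩ : ↥Cfsg.M24)) = 3 := by
      rw [Nat.card_zpowers, Subgroup.orderOf_mk, o]
    refine ⟨_, hc, ?_⟩
    rw [← f, ← Set.ncard_coe_finset]
    congr 1
    ext p
    simp only [Set.mem_ofPred_eq, Finset.mem_coe, Cfsg.Lib.Golay.mem_fixPts]
    refine ⟨fun h => h _ (Subgroup.mem_zpowers _), fun h y hy => ?_⟩
    obtain ⟨i, rfl⟩ := Subgroup.mem_zpowers_iff.1 hy
    exact Equiv.Perm.zpow_apply_eq_self_of_apply_eq_self h i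
  refine ⟨fun X hX => ?_, hex _ m6 o6 _ f6, hex _ m0 o0 _ f0, fun X Y hX hY hXY => ?_⟩
  · obtain ⟨x, hx, -, e⟩ := hgen X hX
    rw [e]
    obtain ⟨k, -, ⟨c, -⟩ | ⟨c, -⟩⟩ := Cfsg.Lib.Golay.Elements.three_fix x.2 hx
    · exact Or.inl c
    · exact Or.inr c
  · obtain ⟨x, hx, rfl, ex⟩ := hgen X hX
    obtain ⟨y, hy, rfl, ey⟩ := hgen Y hY
    rw [ex, ey] at hXY
    obtain ⟨a, ha, hA⟩ := Cfsg.Lib.Golay.Elements.three_fix x.2 hx
    obtain ⟨b, hb, hB⟩ := Cfsg.Lib.Golay.Elements.three_fix y.2 hy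
    have key : a * (x : Equiv.Perm Cfsg.GolayPt) * a⁻¹ = b * (y : Equiv.Perm Cfsg.GolayPt) * b⁻¹ := by
      rcases hA with ⟨c, e⟩ | ⟨c, e⟩ <;> rcases hB with ⟨c', e'⟩ | ⟨c', e'⟩ <;> first | (exfalso; omega) | rw [e, e']
    refine ⟨⟨b⁻¹ * a, Cfsg.M24.mul_mem (Cfsg.M24.inv_mem hb) ha⟩, ?_⟩
    show Subgroup.map (MulAut.conj _).toMonoidHom _ = _
    rw [MonoidHom.map_zpowers]
    congr 1
    refine Subtype.ext ?_
    show b⁻¹ * a * (x : Equiv.Perm Cfsg.GolayPt) * (b⁻¹ * a)⁻¹ = y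
    calc b⁻¹ * a * (x : Equiv.Perm Cfsg.GolayPt) * (b⁻¹ * a)⁻¹ = b⁻¹ * (a * x * a⁻¹) * b := by group
      _ = y := by rw [key]; group

end Cfsg.Agent.S5601
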