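import Cfsg.Statements.S5602
import Cfsg.Agent.Lib.Golay.ElementCounts

set_option autoImplicit false
open scoped Pointwise
open Cfsg

namespace Cfsg.Agent.S5602

/-- An element of order 3 of the group of the length-24 code having exactly 6 fixed points maps to themselves exactly 21 octads, exactly 15 trios, exactly 16 sextets and exactly 20 dodecads. -/
theorem result (g : Equiv.Perm Cfsg.GolayPt) (hg : g ∈ Cfsg.M24) (h₃ : orderOf g = 3) (h₆ : (Finset.univ.filter fun p => g p = p).card = 6) : {o : Finset Cfsg.GolayPt | o ∈ Cfsg.octads ∧ g • o = o}.ncard = 21 ∧ {T : Finset (Finset Cfsg.GolayPt) | T ∈ Cfsg.trios ∧ g • T = T}.ncard = 15 ∧ {S : Finset (Finset Cfsg.GolayPt) | S ∈ Cfsg.sextets ∧ g • S = S}.ncard = 16 ∧ {d : Finset Cfsg.GolayPt | d ∈ Cfsg.dodecads ∧ g • d = d}.ncard = 20 := by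
  obtain ⟨k, hk, hcase⟩ := Cfsg.Lib.Golay.Elements.three_fix hg h₃
  have hf : (Cfsg.Lib.Golay.fixPts g).card = 6 := by
    exact h₆
  have e : k * g * k⁻¹ = Cfsg.Lib.Golay.permOf Cfsg.Lib.Golay.Elements.repThreeFix := by
    rcases hcase with ⟨h, e⟩ | ⟨h, e⟩ <;> first | exact e | (exfalso; omega)
  have hr := Cfsg.Lib.Golay.Elements.rep_perm
  have c0 := (Cfsg.Lib.Golay.Elements.ncard_fixed_conj Cfsg.octads (fun _ h _ hx => Cfsg.Lib.Golay.smul_mem_words h hx) (g := g) hk).symm.trans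
    (e ▸ Cfsg.Lib.Golay.Elements.octads_fixed hr.2.2.1 Cfsg.Lib.Golay.Elements.threeFix_octads)
  have c1 := (Cfsg.Lib.Golay.Elements.ncard_fixed_conj Cfsg.trios Cfsg.Lib.Golay.Dec.trios_invar (g := g) hk).symm.trans
    (e ▸ Cfsg.Lib.Golay.Elements.trios_fixed hr.2.2.1 Cfsg.Lib.Golay.Elements.threeFix_trios)
  have c2 := (Cfsg.Lib.Golay.Elements.ncard_fixed_conj Cfsg.sextets Cfsg.Lib.Golay.Dec.sextets_invar (g := g) hk).symm.trans
    (e ▸ Cfsg.Lib.Golay.Elements.sextets_fixed hr.2.2.1 Cfsg.Lib.Golay.Elements.threeFix_sextets)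
  have c3 := (Cfsg.Lib.Golay.Elements.ncard_fixed_conj Cfsg.dodecads (fun _ h _ hx => Cfsg.Lib.Golay.smul_mem_words h hx) (g := g) hk).symm.trans
    (e ▸ Cfsg.Lib.Golay.Elements.dodecads_fixed hr.2.2.1 Cfsg.Lib.Golay.Elements.threeFix_dodecads)
  exact ⟨c0, c1, c2, c3⟩

end Cfsg.Agent.S5602
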