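import Cfsg.Statements.S5603
import Cfsg.Agent.Lib.Golay.ElementCounts

set_option autoImplicit false
open scoped Pointwise
open Cfsg

namespace Cfsg.Agent.S5603

/-- A fixed-point-free element of order 3 of the group of the length-24 code maps to themselves exactly 7 sextets and exactly 15 trios. -/
theorem result (g : Equiv.Perm Cfsg.GolayPt) (hg : g ∈ Cfsg.M24) (h₃ : orderOf g = 3) (h₀ : ∀ p, g p ≠ p) : {S : Finset (Finset Cfsg.GolayPt) | S ∈ Cfsg.sextets ∧ g • S = S}.ncard = 7 ∧ {T : Finset (Finset Cfsg.GolayPt) | T ∈ Cfsg.trios ∧ g • T = T}.ncard = 15 := by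
  obtain ⟨k, hk, hcase⟩ := Cfsg.Lib.Golay.Elements.three_fix hg h₃
  have hf : (Cfsg.Lib.Golay.fixPts g).card = 0 := by
    rw [Finset.card_eq_zero]; ext p; simp [Cfsg.Lib.Golay.mem_fixPts, h₀ p]
  have e : k * g * k⁻¹ = Cfsg.Lib.Golay.permOf Cfsg.Lib.Golay.Elements.repThreeFree := by
    rcases hcase with ⟨h, e⟩ | ⟨h, e⟩ <;> first | exact e | (exfalso; omega)
  have hr := Cfsg.Lib.Golay.Elements.rep_perm
  have c0 := (Cfsg.Lib.Golay.Elements.ncard_fixed_conj Cfsg.sextets Cfsg.Lib.Golay.Dec.sextets_invar (g := g) hk).symm.trans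
    (e ▸ Cfsg.Lib.Golay.Elements.sextets_fixed hr.2.2.2 Cfsg.Lib.Golay.Elements.threeFree_sextets)
  have c1 := (Cfsg.Lib.Golay.Elements.ncard_fixed_conj Cfsg.trios Cfsg.Lib.Golay.Dec.trios_invar (g := g) hk).symm.trans
    (e ▸ Cfsg.Lib.Golay.Elements.trios_fixed hr.2.2.2 Cfsg.Lib.Golay.Elements.threeFree_trios)
  exact ⟨c0, c1⟩

end Cfsg.Agent.S5603
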