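import Cfsg.Statements.S5604
import Cfsg.Agent.Lib.Golay.SevenNormalizer

set_option autoImplicit false
open scoped Pointwise
open Cfsg

namespace Cfsg.Agent.S5604

/-- For a subgroup S of order 7 of the group of the length-24 code (a Sylow 7-subgroup): the normaliser of S has order 126, the centraliser of S has order 42 and is non-abelian, and the whole normaliser leaves some trio invariant. (These are the orders of a Frobenius group of order 21 times a symmetric group of degree 3; the isomorphism type itself is not asserted here.) -/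
theorem result (S : Subgroup ↥Cfsg.M24) (hS : Nat.card S = 7) : Nat.card ↥(Subgroup.normalizer (S : Set ↥Cfsg.M24)) = 126 ∧ Nat.card ↥(Subgroup.centralizer (S : Set ↥Cfsg.M24)) = 42 ∧ (∃ x ∈ Subgroup.centralizer (S : Set ↥Cfsg.M24), ∃ y ∈ Subgroup.centralizer (S : Set ↥Cfsg.M24), x * y ≠ y * x) ∧ ∃ T ∈ Cfsg.trios, ∀ n ∈ Subgroup.normalizer (S : Set ↥Cfsg.M24), ((n : ↥Cfsg.M24) : Equiv.Perm Cfsg.GolayPt) • T = T := by
  classical
  haveI : Fact (Nat.Prime 7) := ⟨by norm_num⟩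
  set S₀ := Subgroup.zpowers Cfsg.Lib.Golay.SevenNorm.x₀
  obtain ⟨hN, hC, ⟨a, ha, b, hb, hab⟩, hT⟩ := Cfsg.Lib.Golay.SevenNorm.spec
  have h0 : Nat.card ↥S₀ = 7 := by
    rw [Nat.card_zpowers, ← Cfsg.Lib.Golay.SevenNorm.orderOf_x]
    exact (Subgroup.orderOf_coe Cfsg.Lib.Golay.SevenNorm.x₀).symm
  have hfac : (Nat.card ↥Cfsg.M24).factorization 7 = 1 := by
    rw [Cfsg.Lib.Golay.card_M24, show 244823040 = 7 * 34974720 by norm_num,
      Nat.factorization_mul (by norm_num) (by norm_num), Finsupp.add_apply,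
      Nat.Prime.factorization_self (by norm_num), Nat.factorization_eq_zero_of_not_dvd (by norm_num)]
  let P : Sylow 7 ↥Cfsg.M24 := Sylow.ofCard S (by rw [hS, hfac, pow_one])
  let P₀ : Sylow 7 ↥Cfsg.M24 := Sylow.ofCard S₀ (by rw [h0, hfac, pow_one])
  obtain ⟨g, hg⟩ := MulAction.exists_smul_eq ↥Cfsg.M24 P₀ P
  set e := MulAut.conj g with he
  have hSe : S₀.map e.toMonoidHom = S := by
    rw [show S = (P : Subgroup ↥Cfsg.M24) from rfl, ← hg]
    rfl
  have hNe : (Subgroup.normalizer (S₀ : Set ↥Cfsg.M24)).map e.toMonoidHom =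
      Subgroup.normalizer (S : Set ↥Cfsg.M24) := by
    rw [← hSe]
    exact Subgroup.map_equiv_normalizer_eq S₀ e
  have hCe : (Subgroup.centralizer (S₀ : Set ↥Cfsg.M24)).map e.toMonoidHom =
      Subgroup.centralizer (S : Set ↥Cfsg.M24) := by
    rw [← hSe]
    ext n
    constructor
    · rintro ⟨n, hn, rfl⟩ _ ⟨m, hm, rfl⟩
      rw [← map_mul, ← map_mul, hn m hm]
    · intro hn
      refine ⟨e.symm n, fun m hm => e.injective ?_, e.apply_symm_apply n⟩
      rw [map_mul, map_mul, e.apply_symm_apply]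
      exact hn (e m) ⟨m, hm, rfl⟩
  refine ⟨?_, ?_, ⟨e a, ?_, e b, ?_, fun h => hab (e.injective (by rwa [map_mul, map_mul]))⟩,
    ((g : ↥Cfsg.M24) : Equiv.Perm Cfsg.GolayPt) • Cfsg.Lib.Golay.SevenNorm.trio, ?_, ?_⟩
  · rw [← hNe, Subgroup.card_map_of_injective e.injective, hN]
  · rw [← hCe, Subgroup.card_map_of_injective e.injective, hC]
  · rw [← hCe]; exact ⟨a, ha, rfl⟩
  · rw [← hCe]; exact ⟨b, hb, rfl⟩
  · obtain ⟨h1, h2, h3⟩ := Cfsg.Lib.Golay.SevenNorm.trio_mem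
    refine ⟨by rw [Finset.card_smul_finset, h1], fun o ho => ?_, fun o ho o' ho' hne => ?_⟩
    · obtain ⟨o1, ho1, rfl⟩ := Finset.mem_smul_finset.1 ho
      exact Cfsg.Lib.Golay.smul_mem_words g.2 (h2 o1 ho1)
    · obtain ⟨o1, ho1, rfl⟩ := Finset.mem_smul_finset.1 ho
      obtain ⟨o2, ho2, rfl⟩ := Finset.mem_smul_finset.1 ho'
      rw [Finset.disjoint_iff_inter_eq_empty, ← Finset.smul_finset_inter,
        Finset.disjoint_iff_inter_eq_empty.1 (h3 o1 ho1 o2 ho2 (fun h => hne (by rw [h]))), Finset.smul_finset_empty]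
  · intro n hn
    rw [← hNe] at hn
    obtain ⟨n, hn, rfl⟩ := hn
    show ((g * n * g⁻¹ : ↥Cfsg.M24) : Equiv.Perm Cfsg.GolayPt) • _ = _
    rw [Subgroup.coe_mul, Subgroup.coe_mul, Subgroup.coe_inv, mul_smul, mul_smul, inv_smul_smul, hT n hn]

end Cfsg.Agent.S5604
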