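import Cfsg.Statements.S5607
import Cfsg.Agent.Lib.Golay.InvFreeCent
-- import your own Cfsg.Agent.* helpers here

set_option autoImplicit false
open scoped Pointwise
open Cfsg

namespace Cfsg.Agent.S5607

/-- For a fixed-point-free involution t of the group of the length-24 code: its centraliser in that group has order 7680, is transitive on the 24 points, and is contained, together with t, in the stabiliser of some sextet. -/
theorem result (t : Equiv.Perm Cfsg.GolayPt) (ht : t ∈ Cfsg.M24) (h₂ : orderOf t = 2) (h₀ : ∀ p, t p ≠ p) : Nat.card {c : Equiv.Perm Cfsg.GolayPt // c ∈ Cfsg.M24 ∧ c * t = t * c} = 7680 ∧ (∀ p q : Cfsg.GolayPt, ∃ c ∈ Cfsg.M24, c * t = t * c ∧ c p = q) ∧ ∃ S ∈ Cfsg.sextets, t • S = S ∧ ∀ c ∈ Cfsg.M24, c * t = t * c → c • S = S := by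
  have hf : (Cfsg.Lib.Golay.fixPts t).card = 0 := by
    rw [Finset.card_eq_zero, Finset.eq_empty_iff_forall_notMem]
    exact fun p hp => h₀ p (Cfsg.Lib.Golay.mem_fixPts.1 hp)
  obtain ⟨k, hk, hcase⟩ := Cfsg.Lib.Golay.Elements.involution_fix ht h₂
  have e : k * t * k⁻¹ = Cfsg.Lib.Golay.permOf Cfsg.Lib.Golay.Elements.repInvFree := by
    rcases hcase with ⟨-, e⟩ | ⟨h, -⟩
    · exact e
    · omega
  set r := Cfsg.Lib.Golay.permOf Cfsg.Lib.Golay.Elements.repInvFree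
  have hiff : ∀ c, (c * t = t * c) ↔ (k * c * k⁻¹) * r = r * (k * c * k⁻¹) := by
    intro c
    rw [← e, show k * c * k⁻¹ * (k * t * k⁻¹) = k * (c * t) * k⁻¹ by group,
      show k * t * k⁻¹ * (k * c * k⁻¹) = k * (t * c) * k⁻¹ by group]
    simp
  refine ⟨?_, ?_, ?_⟩
  · rw [← Cfsg.Lib.Golay.Elements.card_cent_free]
    refine Nat.card_congr ((MulAut.conj k).toEquiv.subtypeEquiv fun c => ?_)
    rw [hiff c]
    refine and_congr ⟨fun h => Cfsg.M24.mul_mem (Cfsg.M24.mul_mem hk h) (Cfsg.M24.inv_mem hk), fun h => ?_⟩ Iff.rfl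
    have := Cfsg.M24.mul_mem (Cfsg.M24.mul_mem (Cfsg.M24.inv_mem hk) h) hk
    rwa [show k⁻¹ * (MulAut.conj k).toEquiv c * k = c by simp [mul_assoc]] at this
  · intro p q
    obtain ⟨c, hc, hcr, hpq⟩ := Cfsg.Lib.Golay.Elements.cent_free_trans (k p) (k q)
    refine ⟨k⁻¹ * c * k, Cfsg.M24.mul_mem (Cfsg.M24.mul_mem (Cfsg.M24.inv_mem hk) hc) hk, ?_, ?_⟩
    · rw [hiff, show k * (k⁻¹ * c * k) * k⁻¹ = c by group]; exact hcr
    · rw [Equiv.Perm.mul_apply, Equiv.Perm.mul_apply, hpq]; exact k.symm_apply_apply q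
  · obtain ⟨S, hS⟩ := Set.ncard_eq_one.1 Cfsg.Lib.Golay.Elements.unique_sextet
    have hSm : S ∈ Cfsg.sextets ∧ ∀ X ∈ S, r • X = X :=
      hS.ge rfl
    have hU : ∀ T, T ∈ Cfsg.sextets → (∀ X ∈ T, r • X = X) → T = S := fun T h1 h2 =>
      hS.le (show T ∈ {T | T ∈ Cfsg.sextets ∧ ∀ X ∈ T, r • X = X} from ⟨h1, h2⟩)
    have hfix : ∀ X ∈ k⁻¹ • S, t • X = X := by
      intro X hX
      rw [Finset.mem_inv_smul_finset_iff] at hX
      have hx := hSm.2 _ hX
      rw [← e, ← mul_smul, show k * t * k⁻¹ * k = k * t by group, mul_smul] at hx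
      exact MulAction.injective k hx
    refine ⟨k⁻¹ • S, Cfsg.Lib.Golay.Dec.sextets_invar _ (Cfsg.M24.inv_mem hk) _ hSm.1, ?_, ?_⟩
    · refine Finset.eq_of_subset_of_card_le (fun X hX => ?_) (by simp [Finset.card_smul_finset])
      obtain ⟨Y, hY, rfl⟩ := Finset.mem_smul_finset.1 hX
      rwa [hfix Y hY]
    · intro c hc hcomm
      have hck := Cfsg.M24.mul_mem (Cfsg.M24.mul_mem hk hc) (Cfsg.M24.inv_mem hk)
      have := hU ((k * c * k⁻¹) • S) (Cfsg.Lib.Golay.Dec.sextets_invar _ hck _ hSm.1) fun X hX => by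
        obtain ⟨Y, hY, rfl⟩ := Finset.mem_smul_finset.1 hX
        rw [← mul_smul, ← (hiff c).1 hcomm, mul_smul, hSm.2 Y hY]
      calc c • k⁻¹ • S = k⁻¹ • ((k * c * k⁻¹) • S) := by
            rw [← mul_smul, ← mul_smul]; congr 1; group
        _ = k⁻¹ • S := by rw [this]

end Cfsg.Agent.S5607
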