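import Cfsg.Statements.S5608
import Cfsg.Agent.Lib.Golay.Commute23
-- import your own Cfsg.Agent.* helpers here

set_option autoImplicit false
open scoped Pointwise
open Cfsg

namespace Cfsg.Agent.S5608

/-- If an element of order 3 and an involution of the group of the length-24 code commute, then either the element of order 3 has exactly 6 fixed points and the involution exactly 8, or both are fixed-point-free. -/
theorem result (x s : Equiv.Perm Cfsg.GolayPt) (hx : x ∈ Cfsg.M24) (hs : s ∈ Cfsg.M24) (h₃ : orderOf x = 3) (h₂ : orderOf s = 2) (hc : Commute x s) : ((Finset.univ.filter fun p => x p = p).card = 6 ∧ (Finset.univ.filter fun p => s p = p).card = 8) ∨ ((Finset.univ.filter fun p => x p = p).card = 0 ∧ (Finset.univ.filter fun p => s p = p).card = 0) := by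
  have hfix : ∀ g : Equiv.Perm Cfsg.GolayPt, (Finset.univ.filter fun p => g p = p) = Cfsg.Lib.Golay.fixPts g := fun g => rfl
  rw [hfix, hfix]
  obtain ⟨k, -, hcx⟩ := Cfsg.Lib.Golay.Elements.three_fix hx h₃
  obtain ⟨l, -, hcs⟩ := Cfsg.Lib.Golay.Elements.involution_fix hs h₂
  rcases hcx with ⟨cx, -⟩ | ⟨cx, -⟩ <;> rcases hcs with ⟨cs, -⟩ | ⟨cs, -⟩
  · exact absurd hc (Cfsg.Lib.Golay.Elements.three_fix_not_commute_free hx h₃ cx ⟨hs, h₂, cs⟩)
  · exact Or.inl ⟨cx, cs⟩
  · exact Or.inr ⟨cx, cs⟩
  · exact absurd hc (Cfsg.Lib.Golay.Elements.three_free_not_commute_fix h₃ cx cs)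

end Cfsg.Agent.S5608
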