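import Cfsg.Statements.S5609
import Cfsg.Agent.Lib.Golay.Dec.OctOct
import Cfsg.Agent.Lib.Golay.Dec.Use
import Cfsg.Agent.Lib.Golay.Cosets

set_option autoImplicit false
open scoped Pointwise
open Cfsg.Lib.Golay.Dec
open Cfsg

namespace Cfsg.Agent.S5609

/-- In the graph on the 759 octads of the length-24 code in which two octads are adjacent when they are disjoint, the graph is connected (of diameter 3) and two distinct octads are at distance 1, 2 or 3 exactly when they meet in 0, 4 or 2 points respectively. -/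
theorem result (o o' : Finset Cfsg.GolayPt) (ho : o ∈ Cfsg.octads) (ho' : o' ∈ Cfsg.octads) (hne : o ≠ o') : (Cfsg.blockGraph Cfsg.octads).Connected ∧ ((Cfsg.blockGraph Cfsg.octads).dist ⟨o, ho⟩ ⟨o', ho'⟩ = 1 ↔ (o ∩ o').card = 0) ∧ ((Cfsg.blockGraph Cfsg.octads).dist ⟨o, ho⟩ ⟨o', ho'⟩ = 2 ↔ (o ∩ o').card = 4) ∧ ((Cfsg.blockGraph Cfsg.octads).dist ⟨o, ho⟩ ⟨o', ho'⟩ = 3 ↔ (o ∩ o').card = 2) := by
  have hadj : ∀ a b : {x // x ∈ Cfsg.octads}, (Cfsg.blockGraph Cfsg.octads).Adj a b ↔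
      a ≠ b ∧ Disjoint (a : Finset Cfsg.GolayPt) b := by
    intro a b
    rw [Cfsg.blockGraph, SimpleGraph.fromRel_adj]
    exact ⟨fun ⟨h, h'⟩ => ⟨h, h'.elim id (fun d => d.symm)⟩, fun ⟨h, h'⟩ => ⟨h, Or.inl h'⟩⟩
  have hd0 : ∀ a b : Finset Cfsg.GolayPt, Disjoint a b ↔ (a ∩ b).card = 0 := fun a b => by
    rw [Finset.card_eq_zero, Finset.disjoint_iff_inter_eq_empty]
  have hnoo := hne
  clear hne
  have hne : ∀ a b, a ∈ Cfsg.octads → Disjoint a b → a ≠ b := by
    intro a b ha hd e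
    subst e
    have h0 := (hd0 a a).1 hd
    rw [Finset.inter_self, Cfsg.Lib.Golay.card_octad ha] at h0
    omega
  have third := Cfsg.Agent.S1557.result.1
  -- a common neighbour forces an intersection of size different from two
  have hmid : ∀ a b c, a ∈ Cfsg.octads → b ∈ Cfsg.octads → c ∈ Cfsg.octads → Disjoint a c → Disjoint c b →
      (a ∩ b).card ≠ 2 := by
    intro a b c ha hb hc h1 h2 h
    have hr := third a c ha hc h1
    have h6 : (b ∩ (a ∪ c)ᶜ).card = 6 := by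
      have e : b ∩ (a ∪ c)ᶜ = b \ a := by
        ext p
        simp only [Finset.mem_inter, Finset.mem_compl, Finset.mem_union, Finset.mem_sdiff]
        exact ⟨fun ⟨x, y⟩ => ⟨x, fun z => y (Or.inl z)⟩, fun ⟨x, y⟩ => ⟨x, fun z => z.elim y fun w =>
          Finset.disjoint_left.1 h2 w x⟩⟩
      rw [e, Finset.card_sdiff, h, Cfsg.Lib.Golay.card_octad hb]
    by_cases hbr : b = (a ∪ c)ᶜ
    · rw [← hbr, Finset.inter_self, Cfsg.Lib.Golay.card_octad hb] at h6; omega
    · have := Cfsg.Lib.Golay.octad_inter hb hr hbr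
      omega
  have four_path : ∀ a b, a ∈ Cfsg.octads → b ∈ Cfsg.octads → (a ∩ b).card = 4 →
      ∃ c ∈ Cfsg.octads, Disjoint a c ∧ Disjoint c b := by
    intro a b ha hb h
    set t := a ∩ b with ht
    open Cfsg.Lib.Golay in
    have hmem : ∀ x, x ∈ Cfsg.octads → t ⊆ x → x \ t ∈ sextetOf t := by
      intro x hx htx
      rw [mem_sextetOf h]
      exact Or.inr ⟨Finset.disjoint_sdiff, by rwa [Finset.union_sdiff_of_subset htx]⟩
    open Cfsg.Lib.Golay in
    have h3 : 2 ≤ (((sextetOf t).erase t).erase (a \ t) |>.erase (b \ t)).card := by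
      have := card_sextetOf h
      have e1 := Finset.pred_card_le_card_erase (s := sextetOf t) (a := t)
      have e2 := Finset.pred_card_le_card_erase (s := (sextetOf t).erase t) (a := a \ t)
      have e3 := Finset.pred_card_le_card_erase (s := ((sextetOf t).erase t).erase (a \ t)) (a := b \ t)
      omega
    obtain ⟨u, hu, v, hv, huv⟩ := Finset.one_lt_card.1 (show 1 < _ from h3)
    simp only [Finset.mem_erase] at hu hv
    open Cfsg.Lib.Golay in
    have hut : ∀ w x, x ∈ Cfsg.octads → t ⊆ x → w ∈ sextetOf t → w ≠ t → w ≠ x \ t → Disjoint w x := by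
      intro w x hx htx hw hwt hwx
      have d1 := (pair_sextetOf h hw ((mem_sextetOf h).2 (Or.inl rfl)) hwt).1
      have d2 := (pair_sextetOf h hw (hmem x hx htx) hwx).1
      rw [← Finset.union_sdiff_of_subset htx]
      exact Finset.disjoint_union_right.2 ⟨d1, d2⟩
    open Cfsg.Lib.Golay in
    refine ⟨u ∪ v, (pair_sextetOf h hu.2.2.2 hv.2.2.2 huv).2, ?_, ?_⟩
    · exact (Finset.disjoint_union_left.2 ⟨hut u a ha Finset.inter_subset_left hu.2.2.2 hu.2.2.1 hu.2.1,
        hut v a ha Finset.inter_subset_left hv.2.2.2 hv.2.2.1 hv.2.1⟩).symm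
    · exact Finset.disjoint_union_left.2 ⟨hut u b hb Finset.inter_subset_right hu.2.2.2 hu.2.2.1 hu.1,
        hut v b hb Finset.inter_subset_right hv.2.2.2 hv.2.2.1 hv.1⟩
  have two_path : ∀ a b, a ∈ Cfsg.octads → b ∈ Cfsg.octads → (a ∩ b).card = 2 →
      ∃ c ∈ Cfsg.octads, Disjoint a c ∧ (c ∩ b).card = 4 := by
    intro a b ha hb h
    obtain ⟨c, hc, hdc⟩ : ∃ c ∈ Cfsg.octads, Disjoint a c := by
      have hn := ncard_fibre OctOct.isDecomp isEmb_single octCls_surj (S := {a}) ⟨a, ha, rfl⟩ (n := 30) (v := 1) (by decide)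
      obtain ⟨c, hc1, hc2⟩ := Set.nonempty_of_ncard_ne_zero (hn.trans_ne (by norm_num))
      rw [profS_single] at hc2
      exact ⟨c, single_mem_octCls.1 hc1, (hd0 a c).2 (Nat.pow_right_injective (by norm_num : 2 ≤ 16) (hc2.trans (pow_zero 16).symm))⟩
    set r := (a ∪ c)ᶜ with hrdef
    have hr : r ∈ Cfsg.octads := third a c ha hc hdc
    have hsum : (b ∩ c).card + (b ∩ r).card = 6 := by
      rw [← Finset.card_union_of_disjoint]
      · have e : b ∩ c ∪ b ∩ r = b \ a := by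
          ext p
          simp only [hrdef, Finset.mem_union, Finset.mem_inter, Finset.mem_compl, Finset.mem_sdiff]
          constructor
          · rintro (⟨x, y⟩ | ⟨x, y⟩)
            · exact ⟨x, fun z => Finset.disjoint_left.1 hdc z y⟩
            · exact ⟨x, fun z => y (Or.inl z)⟩
          · rintro ⟨x, y⟩
            by_cases z : p ∈ c
            · exact Or.inl ⟨x, z⟩
            · exact Or.inr ⟨x, fun w => w.elim y z⟩
        rw [e, Finset.card_sdiff, h, Cfsg.Lib.Golay.card_octad hb]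
      · exact Finset.disjoint_of_subset_left Finset.inter_subset_right
          (Finset.disjoint_of_subset_right Finset.inter_subset_right
            (disjoint_compl_right.mono_left Finset.subset_union_right))
    have hbc : b ≠ c := fun e => by
      subst e; rw [(hd0 a b).1 hdc] at h; omega
    have hbr : b ≠ r := fun e => by
      have : Disjoint a b := e ▸ disjoint_compl_right.mono_left Finset.subset_union_left
      rw [(hd0 a b).1 this] at h; omega
    have i1 := Cfsg.Lib.Golay.octad_inter hb hc hbc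
    have i2 := Cfsg.Lib.Golay.octad_inter hb hr hbr
    rcases (show (b ∩ c).card = 4 ∨ (b ∩ r).card = 4 by omega) with e | e
    · exact ⟨c, hc, hdc, by rw [Finset.inter_comm]; exact e⟩
    · exact ⟨r, hr, disjoint_compl_right.mono_left Finset.subset_union_left, by rw [Finset.inter_comm]; exact e⟩
  let mkAdj : ∀ {a b : Finset Cfsg.GolayPt} (ha : a ∈ Cfsg.octads) (hb : b ∈ Cfsg.octads), Disjoint a b →
      (Cfsg.blockGraph Cfsg.octads).Adj ⟨a, ha⟩ ⟨b, hb⟩ := fun {a b} ha hb hd =>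
    (hadj ⟨a, ha⟩ ⟨b, hb⟩).2 ⟨fun e => hne a b ha hd (Subtype.ext_iff.1 e), hd⟩
  have hwalk : ∀ a b (ha : a ∈ Cfsg.octads) (hb : b ∈ Cfsg.octads), a ≠ b →
      ∃ w : (Cfsg.blockGraph Cfsg.octads).Walk ⟨a, ha⟩ ⟨b, hb⟩,
        ((a ∩ b).card = 0 ∧ w.length = 1) ∨ ((a ∩ b).card = 4 ∧ w.length = 2) ∨ ((a ∩ b).card = 2 ∧ w.length = 3) := by
    intro a b ha hb hab
    rcases Cfsg.Lib.Golay.octad_inter ha hb hab with e | e | e
    · exact ⟨.cons (mkAdj ha hb ((hd0 a b).2 e)) .nil, Or.inl ⟨e, rfl⟩⟩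
    · obtain ⟨c, hc, h1, h2⟩ := two_path a b ha hb e
      obtain ⟨d, hd, h3, h4⟩ := four_path c b hc hb h2
      exact ⟨.cons (mkAdj ha hc h1) (.cons (mkAdj hc hd h3) (.cons (mkAdj hd hb h4) .nil)), Or.inr (Or.inr ⟨e, rfl⟩)⟩
    · obtain ⟨c, hc, h1, h2⟩ := four_path a b ha hb e
      exact ⟨.cons (mkAdj ha hc h1) (.cons (mkAdj hc hb h2) .nil), Or.inr (Or.inl ⟨e, rfl⟩)⟩
  have hconn : (Cfsg.blockGraph Cfsg.octads).Connected := by
    haveI : Nonempty {x // x ∈ Cfsg.octads} := ⟨⟨o, ho⟩⟩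
    refine ⟨fun ⟨a, ha⟩ ⟨b, hb⟩ => ?_⟩
    by_cases hab : a = b
    · subst hab; exact SimpleGraph.Reachable.refl _
    · obtain ⟨w, -⟩ := hwalk a b ha hb hab
      exact w.reachable
  refine ⟨hconn, ?_⟩
  obtain ⟨w, hw⟩ := hwalk o o' ho ho' hnoo
  have hle := SimpleGraph.dist_le w
  have hpos : (Cfsg.blockGraph Cfsg.octads).dist ⟨o, ho⟩ ⟨o', ho'⟩ ≠ 0 := fun h => hnoo (Subtype.ext_iff.1 ((hconn _ _).dist_eq_zero_iff.1 h))
  have h1 : (Cfsg.blockGraph Cfsg.octads).dist ⟨o, ho⟩ ⟨o', ho'⟩ = 1 → (o ∩ o').card = 0 := fun h =>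
    (hd0 o o').1 ((hadj _ _).1 (SimpleGraph.dist_eq_one_iff_adj.1 h)).2
  have h2 : (Cfsg.blockGraph Cfsg.octads).dist ⟨o, ho⟩ ⟨o', ho'⟩ = 2 → (o ∩ o').card ≠ 2 := by
    intro h
    obtain ⟨p, hp⟩ := (hconn ⟨o, ho⟩ ⟨o', ho'⟩).exists_walk_length_eq_dist
    rw [h] at hp
    cases p with
    | nil => simp at hp
    | cons a q =>
      cases q with
      | nil => simp at hp
      | cons b r =>
        cases r with
        | nil => exact hmid _ _ _ ho ho' (Subtype.prop _) ((hadj _ _).1 a).2 ((hadj _ _).1 b).2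
        | cons c s => simp at hp
  rcases hw with ⟨e, l⟩ | ⟨e, l⟩ | ⟨e, l⟩
  · have : (Cfsg.blockGraph Cfsg.octads).dist ⟨o, ho⟩ ⟨o', ho'⟩ = 1 := by omega
    exact ⟨⟨fun _ => e, fun _ => this⟩, ⟨fun h => by omega, fun h => by omega⟩, ⟨fun h => by omega, fun h => by omega⟩⟩
  · have : (Cfsg.blockGraph Cfsg.octads).dist ⟨o, ho⟩ ⟨o', ho'⟩ = 2 := by
      by_contra h
      have := h1 (by omega)
      omega
    exact ⟨⟨fun h => by omega, fun h => by omega⟩, ⟨fun _ => e, fun _ => this⟩, ⟨fun h => by omega, fun h => by omega⟩⟩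
  · have : (Cfsg.blockGraph Cfsg.octads).dist ⟨o, ho⟩ ⟨o', ho'⟩ = 3 := by
      by_contra h
      by_cases h' : (Cfsg.blockGraph Cfsg.octads).dist ⟨o, ho⟩ ⟨o', ho'⟩ = 1
      · have := h1 h'; omega
      · exact h2 (by omega) e
    exact ⟨⟨fun h => by omega, fun h => by omega⟩, ⟨fun h => by omega, fun h => by omega⟩, ⟨fun _ => e, fun _ => this⟩⟩

end Cfsg.Agent.S5609
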