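import Cfsg.Statements.S5610
import Cfsg.Agent.Lib.Golay.Dec.Use
import Cfsg.Agent.Lib.Golay.Dec.OctTrio
import Cfsg.Agent.Lib.Golay.Dec.OctSextet

set_option autoImplicit false
open scoped Pointwise
open Cfsg.Lib.Golay.Dec
open Cfsg

namespace Cfsg.Agent.S5610

/-- The stabiliser of an octad in the group of the length-24 code has exactly three orbits on the 3795 trios, of sizes 15, 420 and 3360, and exactly three orbits on the 1771 sextets, of sizes 35, 840 and 896. -/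
theorem result (o : Finset Cfsg.GolayPt) (ho : o ∈ Cfsg.octads) : (∃ X₁ ∈ Cfsg.trios, ∃ X₂ ∈ Cfsg.trios, ∃ X₃ ∈ Cfsg.trios, (MulAction.orbit ↥(MulAction.stabilizer Cfsg.M24 o) X₁).ncard = 15 ∧ (MulAction.orbit ↥(MulAction.stabilizer Cfsg.M24 o) X₂).ncard = 420 ∧ (MulAction.orbit ↥(MulAction.stabilizer Cfsg.M24 o) X₃).ncard = 3360 ∧ Cfsg.trios = MulAction.orbit ↥(MulAction.stabilizer Cfsg.M24 o) X₁ ∪ MulAction.orbit ↥(MulAction.stabilizer Cfsg.M24 o) X₂ ∪ MulAction.orbit ↥(MulAction.stabilizer Cfsg.M24 o) X₃) ∧ (∃ Y₁ ∈ Cfsg.sextets, ∃ Y₂ ∈ Cfsg.sextets, ∃ Y₃ ∈ Cfsg.sextets, (MulAction.orbit ↥(MulAction.stabilizer Cfsg.M24 o) Y₁).ncard = 35 ∧ (MulAction.orbit ↥(MulAction.stabilizer Cfsg.M24 o) Y₂).ncard = 840 ∧ (MulAction.orbit ↥(MulAction.stabilizer Cfsg.M24 o) Y₃).ncard = 896 ∧ Cfsg.sextets = MulAction.orbit ↥(MulAction.stabilizer Cfsg.M24 o) Y₁ ∪ MulAction.orbit ↥(MulAction.stabilizer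 Cfsg.M24 o) Y₂ ∪ MulAction.orbit ↥(MulAction.stabilizer Cfsg.M24 o) Y₃) := by
  have hA : ({o} : Obj) ∈ octCls := ⟨o, ho, rfl⟩
  refine ⟨?_, ?_⟩
  · obtain ⟨X₁, mX₁, -, oX₁, cX₁⟩ := exists_orbit OctTrio.isDecomp trios_invar isEmb_single isEmb_id obj_surj (x := o) hA (n := 15) (v := 4294967298) (by decide) (by norm_num)
    obtain ⟨X₂, mX₂, -, oX₂, cX₂⟩ := exists_orbit OctTrio.isDecomp trios_invar isEmb_single isEmb_id obj_surj (x := o) hA (n := 420) (v := 131073) (by decide) (by norm_num)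
    obtain ⟨X₃, mX₃, -, oX₃, cX₃⟩ := exists_orbit OctTrio.isDecomp trios_invar isEmb_single isEmb_id obj_surj (x := o) hA (n := 3360) (v := 66048) (by decide) (by norm_num)
    refine ⟨X₁, mX₁, X₂, mX₂, X₃, mX₃, cX₁, cX₂, cX₃, ?_⟩
    refine (eq_three OctTrio.isDecomp (e := (fun s => ({s} : Obj))) (f := id) hA (fun z => Iff.rfl) oX₁ oX₃ oX₂).trans ?_
    ac_rfl
  · obtain ⟨Y₁, mY₁, -, oY₁, cY₁⟩ := exists_orbit OctSextet.isDecomp sextets_invar isEmb_single isEmb_id obj_surj (x := o) hA (n := 35) (v := 131076) (by decide) (by norm_num)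
    obtain ⟨Y₂, mY₂, -, oY₂, cY₂⟩ := exists_orbit OctSextet.isDecomp sextets_invar isEmb_single isEmb_id obj_surj (x := o) hA (n := 840) (v := 1026) (by decide) (by norm_num)
    obtain ⟨Y₃, mY₃, -, oY₃, cY₃⟩ := exists_orbit OctSextet.isDecomp sextets_invar isEmb_single isEmb_id obj_surj (x := o) hA (n := 896) (v := 4176) (by decide) (by norm_num)
    refine ⟨Y₁, mY₁, Y₂, mY₂, Y₃, mY₃, cY₁, cY₂, cY₃, ?_⟩
    refine (eq_three OctSextet.isDecomp (e := (fun s => ({s} : Obj))) (f := id) hA (fun z => Iff.rfl) oY₁ oY₃ oY₂).trans ?_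
    ac_rfl

end Cfsg.Agent.S5610
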