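import Cfsg.Statements.S5611
import Cfsg.Agent.Lib.Golay.Dec.Use
import Cfsg.Agent.Lib.Golay.Dec.SextetOct
import Cfsg.Agent.Lib.Golay.Dec.SextetTrio

set_option autoImplicit false
open scoped Pointwise
open Cfsg.Lib.Golay.Dec
open Cfsg

namespace Cfsg.Agent.S5611

/-- The stabiliser of a sextet in the group of the length-24 code has exactly three orbits on the 759 octads, of sizes 15, 360 and 384, and exactly four orbits on the 3795 trios, of sizes 15, 180, 720 and 2880. -/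
theorem result (S : Finset (Finset Cfsg.GolayPt)) (hS : S ∈ Cfsg.sextets) : (∃ X₁ ∈ Cfsg.octads, ∃ X₂ ∈ Cfsg.octads, ∃ X₃ ∈ Cfsg.octads, (MulAction.orbit ↥(MulAction.stabilizer Cfsg.M24 S) X₁).ncard = 15 ∧ (MulAction.orbit ↥(MulAction.stabilizer Cfsg.M24 S) X₂).ncard = 360 ∧ (MulAction.orbit ↥(MulAction.stabilizer Cfsg.M24 S) X₃).ncard = 384 ∧ Cfsg.octads = MulAction.orbit ↥(MulAction.stabilizer Cfsg.M24 S) X₁ ∪ MulAction.orbit ↥(MulAction.stabilizer Cfsg.M24 S) X₂ ∪ MulAction.orbit ↥(MulAction.stabilizer Cfsg.M24 S) X₃) ∧ (∃ Y₁ ∈ Cfsg.trios, ∃ Y₂ ∈ Cfsg.trios, ∃ Y₃ ∈ Cfsg.trios, ∃ Y₄ ∈ Cfsg.trios, (MulAction.orbit ↥(MulAction.stabilizer Cfsg.M24 S) Y₁).ncard = 15 ∧ (MulAction.orbit ↥(MulAction.stabilizer Cfsg.M24 S) Y₂).ncard = 180 ∧ (MulAction.orbit ↥(MulAction.stabilizer Cfsg.M24 S) Y₃).ncard = 720 ∧ (MulAction.orbit ↥(MulAction.stabilizer Cfsg.M24 S) Y₄).ncard = 2880 ∧ Cfsg.trios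 = MulAction.orbit ↥(MulAction.stabilizer Cfsg.M24 S) Y₁ ∪ MulAction.orbit ↥(MulAction.stabilizer Cfsg.M24 S) Y₂ ∪ MulAction.orbit ↥(MulAction.stabilizer Cfsg.M24 S) Y₃ ∪ MulAction.orbit ↥(MulAction.stabilizer Cfsg.M24 S) Y₄) := by
  have hA : S ∈ Cfsg.sextets := hS
  refine ⟨?_, ?_⟩
  · obtain ⟨X₁, mX₁, -, oX₁, cX₁⟩ := exists_orbit SextetOct.isDecomp octCls_invar isEmb_id isEmb_single octCls_surj (x := S) hA (n := 15) (v := 131076) (by decide) (by norm_num)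
    obtain ⟨X₂, mX₂, -, oX₂, cX₂⟩ := exists_orbit SextetOct.isDecomp octCls_invar isEmb_id isEmb_single octCls_surj (x := S) hA (n := 360) (v := 1026) (by decide) (by norm_num)
    obtain ⟨X₃, mX₃, -, oX₃, cX₃⟩ := exists_orbit SextetOct.isDecomp octCls_invar isEmb_id isEmb_single octCls_surj (x := S) hA (n := 384) (v := 4176) (by decide) (by norm_num)
    refine ⟨X₁, (single_mem_octCls.1 mX₁), X₂, (single_mem_octCls.1 mX₂), X₃, (single_mem_octCls.1 mX₃), cX₁, cX₂, cX₃, ?_⟩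
    refine (eq_three SextetOct.isDecomp (e := id) (f := (fun s => ({s} : Obj))) hA (fun z => single_mem_octCls.symm) oX₁ oX₃ oX₂).trans ?_
    ac_rfl
  · obtain ⟨Y₁, mY₁, -, oY₁, cY₁⟩ := exists_orbit SextetTrio.isDecomp trios_invar isEmb_id isEmb_id obj_surj (x := S) hA (n := 15) (v := 393228) (by decide) (by norm_num)
    obtain ⟨Y₂, mY₂, -, oY₂, cY₂⟩ := exists_orbit SextetTrio.isDecomp trios_invar isEmb_id isEmb_id obj_surj (x := S) hA (n := 180) (v := 133128) (by decide) (by norm_num)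
    obtain ⟨Y₃, mY₃, -, oY₃, cY₃⟩ := exists_orbit SextetTrio.isDecomp trios_invar isEmb_id isEmb_id obj_surj (x := S) hA (n := 720) (v := 3078) (by decide) (by norm_num)
    obtain ⟨Y₄, mY₄, -, oY₄, cY₄⟩ := exists_orbit SextetTrio.isDecomp trios_invar isEmb_id isEmb_id obj_surj (x := S) hA (n := 2880) (v := 9378) (by decide) (by norm_num)
    refine ⟨Y₁, mY₁, Y₂, mY₂, Y₃, mY₃, Y₄, mY₄, cY₁, cY₂, cY₃, cY₄, ?_⟩
    refine (eq_four SextetTrio.isDecomp (e := id) (f := id) hA (fun z => Iff.rfl) oY₂ oY₁ oY₄ oY₃).trans ?_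
    ac_rfl

end Cfsg.Agent.S5611
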