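import Cfsg.Statements.S5612
import Cfsg.Agent.Lib.Golay.Dec.Use
import Cfsg.Agent.Lib.Golay.Dec.TrioOct
import Cfsg.Agent.Lib.Golay.Dec.TrioSextet

set_option autoImplicit false
open scoped Pointwise
open Cfsg.Lib.Golay.Dec
open Cfsg

namespace Cfsg.Agent.S5612

/-- The stabiliser of a trio in the group of the length-24 code has exactly three orbits on the 759 octads, of sizes 3, 84 and 672, and exactly four orbits on the 1771 sextets, of sizes 7, 84, 336 and 1344. -/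
theorem result (T : Finset (Finset Cfsg.GolayPt)) (hT : T ∈ Cfsg.trios) : (∃ X₁ ∈ Cfsg.octads, ∃ X₂ ∈ Cfsg.octads, ∃ X₃ ∈ Cfsg.octads, (MulAction.orbit ↥(MulAction.stabilizer Cfsg.M24 T) X₁).ncard = 3 ∧ (MulAction.orbit ↥(MulAction.stabilizer Cfsg.M24 T) X₂).ncard = 84 ∧ (MulAction.orbit ↥(MulAction.stabilizer Cfsg.M24 T) X₃).ncard = 672 ∧ Cfsg.octads = MulAction.orbit ↥(MulAction.stabilizer Cfsg.M24 T) X₁ ∪ MulAction.orbit ↥(MulAction.stabilizer Cfsg.M24 T) X₂ ∪ MulAction.orbit ↥(MulAction.stabilizer Cfsg.M24 T) X₃) ∧ (∃ Y₁ ∈ Cfsg.sextets, ∃ Y₂ ∈ Cfsg.sextets, ∃ Y₃ ∈ Cfsg.sextets, ∃ Y₄ ∈ Cfsg.sextets, (MulAction.orbit ↥(MulAction.stabilizer Cfsg.M24 T) Y₁).ncard = 7 ∧ (MulAction.orbit ↥(MulAction.stabilizer Cfsg.M24 T) Y₂).ncard = 84 ∧ (MulAction.orbit ↥(MulAction.stabilizer Cfsg.M24 T) Y₃).ncard = 336 ∧ (MulAction.orbit ↥(MulAction.stabilizer Cfsg.M24 T) Y₄).ncard = 1344 ∧ Cfsg.sextets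 = MulAction.orbit ↥(MulAction.stabilizer Cfsg.M24 T) Y₁ ∪ MulAction.orbit ↥(MulAction.stabilizer Cfsg.M24 T) Y₂ ∪ MulAction.orbit ↥(MulAction.stabilizer Cfsg.M24 T) Y₃ ∪ MulAction.orbit ↥(MulAction.stabilizer Cfsg.M24 T) Y₄) := by
  have hA : T ∈ Cfsg.trios := hT
  refine ⟨?_, ?_⟩
  · obtain ⟨X₁, mX₁, -, oX₁, cX₁⟩ := exists_orbit TrioOct.isDecomp octCls_invar isEmb_id isEmb_single octCls_surj (x := T) hA (n := 3) (v := 4294967298) (by decide) (by norm_num)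
    obtain ⟨X₂, mX₂, -, oX₂, cX₂⟩ := exists_orbit TrioOct.isDecomp octCls_invar isEmb_id isEmb_single octCls_surj (x := T) hA (n := 84) (v := 131073) (by decide) (by norm_num)
    obtain ⟨X₃, mX₃, -, oX₃, cX₃⟩ := exists_orbit TrioOct.isDecomp octCls_invar isEmb_id isEmb_single octCls_surj (x := T) hA (n := 672) (v := 66048) (by decide) (by norm_num)
    refine ⟨X₁, (single_mem_octCls.1 mX₁), X₂, (single_mem_octCls.1 mX₂), X₃, (single_mem_octCls.1 mX₃), cX₁, cX₂, cX₃, ?_⟩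
    refine (eq_three TrioOct.isDecomp (e := id) (f := (fun s => ({s} : Obj))) hA (fun z => single_mem_octCls.symm) oX₁ oX₃ oX₂).trans ?_
    ac_rfl
  · obtain ⟨Y₁, mY₁, -, oY₁, cY₁⟩ := exists_orbit TrioSextet.isDecomp sextets_invar isEmb_id isEmb_id obj_surj (x := T) hA (n := 7) (v := 393228) (by decide) (by norm_num)
    obtain ⟨Y₂, mY₂, -, oY₂, cY₂⟩ := exists_orbit TrioSextet.isDecomp sextets_invar isEmb_id isEmb_id obj_surj (x := T) hA (n := 84) (v := 133128) (by decide) (by norm_num)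
    obtain ⟨Y₃, mY₃, -, oY₃, cY₃⟩ := exists_orbit TrioSextet.isDecomp sextets_invar isEmb_id isEmb_id obj_surj (x := T) hA (n := 336) (v := 3078) (by decide) (by norm_num)
    obtain ⟨Y₄, mY₄, -, oY₄, cY₄⟩ := exists_orbit TrioSextet.isDecomp sextets_invar isEmb_id isEmb_id obj_surj (x := T) hA (n := 1344) (v := 9378) (by decide) (by norm_num)
    refine ⟨Y₁, mY₁, Y₂, mY₂, Y₃, mY₃, Y₄, mY₄, cY₁, cY₂, cY₃, cY₄, ?_⟩
    refine (eq_four TrioSextet.isDecomp (e := id) (f := id) hA (fun z => Iff.rfl) oY₂ oY₁ oY₄ oY₃).trans ?_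
    ac_rfl

end Cfsg.Agent.S5612
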