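import Cfsg.Statements.S5613
import Cfsg.Agent.Lib.Golay.Dec.OctOct
import Cfsg.Agent.Lib.Golay.Dec.Use

set_option autoImplicit false
open scoped Pointwise
open Cfsg.Lib.Golay.Dec
open Cfsg

namespace Cfsg.Agent.S5613

/-- In the group of the length-24 code, the joint stabiliser of two octads has order 10752, 1152 or 720 according as the octads meet in 0, 4 or 2 points. -/
theorem result (o o' : Finset Cfsg.GolayPt) (ho : o ∈ Cfsg.octads) (ho' : o' ∈ Cfsg.octads) : ((o ∩ o').card = 0 → Nat.card ↥(MulAction.stabilizer Cfsg.M24 o ⊓ MulAction.stabilizer Cfsg.M24 o') = 10752) ∧ ((o ∩ o').card = 4 → Nat.card ↥(MulAction.stabilizer Cfsg.M24 o ⊓ MulAction.stabilizer Cfsg.M24 o') = 1152) ∧ ((o ∩ o').card = 2 → Nat.card ↥(MulAction.stabilizer Cfsg.M24 o ⊓ MulAction.stabilizer Cfsg.M24 o') = 720) := by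
  have hA : ({o} : Obj) ∈ octCls := ⟨o, ho, rfl⟩
  have key : ∀ k n N : ℕ, (n, 16 ^ k) ∈ [(1, 4294967296), (280, 65536), (448, 256), (30, 1)] →
      759 * n * N = 244823040 → (o ∩ o').card = k →
      Nat.card ↥(MulAction.stabilizer Cfsg.M24 o ⊓ MulAction.stabilizer Cfsg.M24 o') = N := by
    intro k n N hnv hN hk
    have hidx := index_stabilizer_eq isEmb_single OctCls.isCls (x := o) hA
    have horb : (MulAction.orbit (MulAction.stabilizer Cfsg.M24 o) o').ncard = n := by
      rw [orbit_eq OctOct.isDecomp octCls_invar isEmb_single isEmb_single octCls_surj (x := o) hA (single_mem_octCls.2 ho')]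
      refine Eq.trans (congrArg Set.ncard ?_) (ncard_fibre OctOct.isDecomp isEmb_single octCls_surj (S := {o}) hA hnv)
      rw [profS_single o o', hk]
    have hrel : (MulAction.stabilizer Cfsg.M24 o ⊓ MulAction.stabilizer Cfsg.M24 o').relIndex
        (MulAction.stabilizer Cfsg.M24 o) = n := by
      rw [Subgroup.inf_relIndex_left, ← horb, ← MulAction.index_stabilizer]
      rfl
    have hmul := Subgroup.relIndex_mul_index
      (inf_le_left : MulAction.stabilizer Cfsg.M24 o ⊓ MulAction.stabilizer Cfsg.M24 o' ≤ MulAction.stabilizer Cfsg.M24 o)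
    rw [hrel, hidx] at hmul
    have hc := Subgroup.card_mul_index (MulAction.stabilizer Cfsg.M24 o ⊓ MulAction.stabilizer Cfsg.M24 o')
    rw [← hmul, Cfsg.Lib.Golay.card_M24] at hc
    have h759 : 0 < n * 759 := by
      rcases Nat.eq_zero_or_pos n with rfl | hn
      · simp at hN
      · omega
    apply Nat.eq_of_mul_eq_mul_right h759
    rw [hc, ← hN]; ring
  exact ⟨key 0 30 10752 (by decide) (by norm_num), key 4 280 1152 (by decide) (by norm_num),
    key 2 448 720 (by decide) (by norm_num)⟩

end Cfsg.Agent.S5613
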