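import Cfsg.Statements.S5615
import Cfsg.Agent.Lib.Golay.OctTrios
-- import your own Cfsg.Agent.* helpers here

set_option autoImplicit false
open scoped Pointwise
open Cfsg

namespace Cfsg.Agent.S5615

/-- An octad of the length-24 code lies in exactly 15 trios; the stabiliser of the octad in the code's group acts doubly transitively on these 15 trios, and the kernel of this action is the pointwise stabiliser of the octad. -/
theorem result (o : Finset Cfsg.GolayPt) (ho : o ∈ Cfsg.octads) : {T : Finset (Finset Cfsg.GolayPt) | T ∈ Cfsg.trios ∧ o ∈ T}.ncard = 15 ∧ (∀ T₁ T₂ T₁' T₂' : Finset (Finset Cfsg.GolayPt), T₁ ∈ Cfsg.trios → T₂ ∈ Cfsg.trios → T₁' ∈ Cfsg.trios → T₂' ∈ Cfsg.trios → o ∈ T₁ → o ∈ T₂ → o ∈ T₁' → o ∈ T₂' → T₁ ≠ T₂ → T₁' ≠ T₂' → ∃ g ∈ Cfsg.M24, g • o = o ∧ g • T₁ = T₁' ∧ g • T₂ = T₂') ∧ ∀ g ∈ Cfsg.M24, g • o = o → ((∀ T ∈ Cfsg.trios, o ∈ T → g • T = T) ↔ ∀ p ∈ o, g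 p = p) := by
  classical
  obtain ⟨τ, hτ, hτo⟩ := Cfsg.Lib.Golay.exists_to_baseO ho
  have hto : ∀ T, T ∈ Cfsg.trios → o ∈ T → τ • T ∈ Cfsg.Lib.Golay.OctTrios.thru Cfsg.Lib.Golay.baseO := by
    intro T hT hoT
    exact ⟨Cfsg.Lib.Golay.Dec.trios_invar _ hτ _ hT, hτo ▸ Finset.smul_mem_smul_finset hoT⟩
  have hback : ∀ S ∈ Cfsg.Lib.Golay.OctTrios.thru Cfsg.Lib.Golay.baseO, τ⁻¹ • S ∈ Cfsg.trios ∧ o ∈ τ⁻¹ • S := by
    intro S hS
    refine ⟨Cfsg.Lib.Golay.Dec.trios_invar _ (Cfsg.M24.inv_mem hτ) _ hS.1, ?_⟩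
    rw [Finset.mem_inv_smul_finset_iff, hτo]
    exact hS.2
  have hconj : ∀ g : Equiv.Perm Cfsg.GolayPt, g ∈ Cfsg.Lib.Golay.OctadStab.octStab Cfsg.Lib.Golay.baseO →
      τ⁻¹ * g * τ ∈ Cfsg.M24 ∧ (τ⁻¹ * g * τ) • o = o := by
    intro g hg
    refine ⟨Cfsg.M24.mul_mem (Cfsg.M24.mul_mem (Cfsg.M24.inv_mem hτ) hg.1) hτ, ?_⟩
    rw [mul_smul, mul_smul, hτo, hg.2, ← hτo, inv_smul_smul]
  refine ⟨?_, ?_, ?_⟩
  · rw [← Cfsg.Lib.Golay.OctTrios.ncard_thru_base]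
    refine Set.ncard_congr (fun T _ => τ • T) (fun T hT => hto T hT.1 hT.2)
      (fun a b _ _ e => MulAction.injective τ e) (fun S hS => ⟨τ⁻¹ • S, hback S hS, smul_inv_smul τ S⟩)
  · intro T₁ T₂ T₁' T₂' h1 h2 h3 h4 m1 m2 m3 m4 hne hne'
    obtain ⟨g, hg, e1, e2⟩ := Cfsg.Lib.Golay.OctTrios.two_transitive (hto _ h1 m1) (hto _ h2 m2) (hto _ h3 m3)
      (hto _ h4 m4) (fun e => hne (MulAction.injective τ e)) (fun e => hne' (MulAction.injective τ e))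
    refine ⟨τ⁻¹ * g * τ, (hconj g hg).1, (hconj g hg).2, ?_, ?_⟩
    · rw [mul_smul, mul_smul, e1, inv_smul_smul]
    · rw [mul_smul, mul_smul, e2, inv_smul_smul]
  · intro g hg hgo
    have hg' : τ * g * τ⁻¹ ∈ Cfsg.Lib.Golay.OctadStab.octStab Cfsg.Lib.Golay.baseO := by
      refine ⟨Cfsg.M24.mul_mem (Cfsg.M24.mul_mem hτ hg) (Cfsg.M24.inv_mem hτ), ?_⟩
      show (τ * g * τ⁻¹) • Cfsg.Lib.Golay.baseO = Cfsg.Lib.Golay.baseO
      rw [← hτo, ← mul_smul, inv_mul_cancel_right, mul_smul, hgo]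
    constructor
    · intro h p hp
      have hk := Cfsg.Lib.Golay.OctTrios.kernel_eq hg' fun S hS => by
        obtain ⟨hS1, hS2⟩ := hback S hS
        rw [mul_smul, mul_smul, h _ hS1 hS2, smul_inv_smul]
      have hp' : τ p ∈ Cfsg.Lib.Golay.baseO := hτo ▸ Finset.smul_mem_smul_finset hp
      have e := hk.2 _ hp'
      rw [Equiv.Perm.mul_apply, Equiv.Perm.mul_apply, show τ⁻¹ (τ p) = p from τ.symm_apply_apply p] at e
      exact τ.injective e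
    · intro h T hT hoT
      have hk : τ * g * τ⁻¹ ∈ Cfsg.Lib.Golay.fixer Cfsg.Lib.Golay.baseO := by
        refine ⟨hg'.1, fun a ha => ?_⟩
        have hq : τ⁻¹ a ∈ o := by
          rw [← hτo] at ha
          obtain ⟨q, hq, rfl⟩ := Finset.mem_smul_finset.1 ha
          rw [Equiv.Perm.smul_def, show τ⁻¹ (τ q) = q from τ.symm_apply_apply q]
          exact hq
        rw [Equiv.Perm.mul_apply, Equiv.Perm.mul_apply, h _ hq]
        exact τ.apply_symm_apply a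
      have e := Cfsg.Lib.Golay.OctTrios.fixer_fixes hk (hto T hT hoT)
      rw [← mul_smul, inv_mul_cancel_right, mul_smul] at e
      exact MulAction.injective τ e

end Cfsg.Agent.S5615
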