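import Cfsg.Statements.S5616
import Cfsg.Agent.Lib.Golay.Dec.TripleSextet
import Cfsg.Agent.Lib.Golay.Dec.Use

set_option autoImplicit false
open scoped Pointwise
open Cfsg.Lib.Golay.Dec
open Cfsg

namespace Cfsg.Agent.S5616

/-- Let Y be a set of 3 of the 24 points. The sextets of the length-24 code whose tetrads meeting Y number 1, 2 or 3 are respectively 21, 630 and 1120 in number, and two sextets with the same number of tetrads meeting Y are conjugate under the setwise stabiliser of Y in the code's group. -/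
theorem result (Y : Finset Cfsg.GolayPt) (hY : Y.card = 3) : {S : Finset (Finset Cfsg.GolayPt) | S ∈ Cfsg.sextets ∧ (S.filter fun t => (t ∩ Y).Nonempty).card = 1}.ncard = 21 ∧ {S : Finset (Finset Cfsg.GolayPt) | S ∈ Cfsg.sextets ∧ (S.filter fun t => (t ∩ Y).Nonempty).card = 2}.ncard = 630 ∧ {S : Finset (Finset Cfsg.GolayPt) | S ∈ Cfsg.sextets ∧ (S.filter fun t => (t ∩ Y).Nonempty).card = 3}.ncard = 1120 ∧ ∀ S S' : Finset (Finset Cfsg.GolayPt), S ∈ Cfsg.sextets → S' ∈ Cfsg.sextets → (S.filter fun t => (t ∩ Y).Nonempty).card = (S'.filter fun t => (t ∩ Y).Nonempty).card → ∃ g ∈ Cfsg.M24, g • Y = Y ∧ g • S = S' := by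
  have hval : ∀ S : Finset (Finset Cfsg.GolayPt), meetS {Y} S = (S.filter fun t => (t ∩ Y).Nonempty).card := by
    intro S
    simp only [meetS, Finset.sup_singleton, id]
  have hc : ∀ n v, (n, v) ∈ [(21, 1), (630, 2), (1120, 3)] →
      {S : Finset (Finset Cfsg.GolayPt) | S ∈ Cfsg.sextets ∧ (S.filter fun t => (t ∩ Y).Nonempty).card = v}.ncard = n := by
    intro n v h
    have := ncard_fibre TripleSextet.isDecomp isEmb_id obj_surj (S := {Y}) ⟨Y, hY, rfl⟩ h
    simpa only [id, hval] using this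
  refine ⟨hc 21 1 (by decide), hc 630 2 (by decide), hc 1120 3 (by decide), fun S S' hS hS' h => ?_⟩
  obtain ⟨σ, hσ, h1, h2⟩ := TripleSextet.isDecomp.trans {Y} ⟨Y, hY, rfl⟩ S hS S' hS' (by rw [hval, hval, h])
  rw [Finset.smul_finset_singleton, Finset.singleton_inj] at h1
  exact ⟨σ, hσ, h1, h2⟩

end Cfsg.Agent.S5616
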