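import Cfsg.Statements.S5617
import Cfsg.Agent.Lib.Golay.Dec.Use
import Cfsg.Agent.Lib.Golay.Dec.DodPairSextet

set_option autoImplicit false
open scoped Pointwise
open Cfsg.Lib.Golay.Dec
open Cfsg

namespace Cfsg.Agent.S5617

/-- The setwise stabiliser, in the group of the length-24 code, of a complementary pair of dodecads has exactly three orbits on the 1771 sextets, of sizes 396, 495 and 880. -/
theorem result (d : Finset Cfsg.GolayPt) (hd : d ∈ Cfsg.dodecads) : ∃ X₁ ∈ Cfsg.sextets, ∃ X₂ ∈ Cfsg.sextets, ∃ X₃ ∈ Cfsg.sextets, (MulAction.orbit ↥(MulAction.stabilizer Cfsg.M24 ({d, Finset.univ \ d} : Finset (Finset Cfsg.GolayPt))) X₁).ncard = 396 ∧ (MulAction.orbit ↥(MulAction.stabilizer Cfsg.M24 ({d, Finset.univ \ d} : Finset (Finset Cfsg.GolayPt))) X₂).ncard = 495 ∧ (MulAction.orbit ↥(MulAction.stabilizer Cfsg.M24 ({d, Finset.univ \ d} : Finset (Finset Cfsg.GolayPt))) X₃).ncard = 880 ∧ Cfsg.sextets = MulAction.orbit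 ↥(MulAction.stabilizer Cfsg.M24 ({d, Finset.univ \ d} : Finset (Finset Cfsg.GolayPt))) X₁ ∪ MulAction.orbit ↥(MulAction.stabilizer Cfsg.M24 ({d, Finset.univ \ d} : Finset (Finset Cfsg.GolayPt))) X₂ ∪ MulAction.orbit ↥(MulAction.stabilizer Cfsg.M24 ({d, Finset.univ \ d} : Finset (Finset Cfsg.GolayPt))) X₃ := by
  have hA : ({d, Finset.univ \ d} : Obj) ∈ dodPairCls := ⟨d, hd, by rw [Finset.compl_eq_univ_sdiff]⟩
  obtain ⟨X₁, mX₁, -, oX₁, cX₁⟩ := exists_orbit DodPairSextet.isDecomp sextets_invar isEmb_id isEmb_id obj_surj (x := ({d, Finset.univ \ d} : Obj)) hA (n := 396) (v := 3072) (by decide) (by norm_num)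
  obtain ⟨X₂, mX₂, -, oX₂, cX₂⟩ := exists_orbit DodPairSextet.isDecomp sextets_invar isEmb_id isEmb_id obj_surj (x := ({d, Finset.univ \ d} : Obj)) hA (n := 495) (v := 133122) (by decide) (by norm_num)
  obtain ⟨X₃, mX₃, -, oX₃, cX₃⟩ := exists_orbit DodPairSextet.isDecomp sextets_invar isEmb_id isEmb_id obj_surj (x := ({d, Finset.univ \ d} : Obj)) hA (n := 880) (v := 24672) (by decide) (by norm_num)
  refine ⟨X₁, mX₁, X₂, mX₂, X₃, mX₃, cX₁, cX₂, cX₃, ?_⟩
  refine (eq_three DodPairSextet.isDecomp (e := id) (f := id) hA (fun z => Iff.rfl) oX₃ oX₂ oX₁).trans ?_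
  ac_rfl

end Cfsg.Agent.S5617
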