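import Cfsg.Statements.S5620
import Cfsg.Agent.Lib.Golay.DodGroups
import Cfsg.Agent.Lib.FusionCert.Groups
import Cfsg.Agent.Lib.Golay.Dec.Classes
-- import your own Cfsg.Agent.* helpers here

set_option autoImplicit false
open scoped Pointwise
open Cfsg

namespace Cfsg.Agent.S5620

/-- Inside the stabiliser of the dodecad of squares (a Mathieu group of degree 12), the stabiliser of the residue 0 (a point of the dodecad) and the stabiliser of the extra point (a point outside the dodecad) are isomorphic but not conjugate; conjugation by a suitable element of the code's group that maps the dodecad of squares onto its complement carries the first onto the second. -/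
theorem result : Nonempty (↥(Cfsg.Spor.M12 ⊓ MulAction.stabilizer (Equiv.Perm Cfsg.GolayPt) (none : Cfsg.GolayPt)) ≃* ↥Cfsg.Spor.M11) ∧ (¬ ∃ k ∈ Cfsg.Spor.M12, MulAut.conj k • Cfsg.Spor.M11 = Cfsg.Spor.M12 ⊓ MulAction.stabilizer (Equiv.Perm Cfsg.GolayPt) (none : Cfsg.GolayPt)) ∧ ∃ g ∈ Cfsg.M24, g • Cfsg.Spor.squareDodecad = Finset.univ \ Cfsg.Spor.squareDodecad ∧ MulAut.conj g • Cfsg.Spor.M11 = Cfsg.Spor.M12 ⊓ MulAction.stabilizer (Equiv.Perm Cfsg.GolayPt) (none : Cfsg.GolayPt) := by
  classical
  open Cfsg.Lib.Golay Cfsg.Lib.Golay.Chain in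
  exact by
    have hd : toSet baseDod = Cfsg.Spor.squareDodecad := Cfsg.Lib.FusionCert.toSet_baseDod
    have hpt : pt dodPt = (some 0 : Cfsg.GolayPt) := by decide +kernel
    have h12 : Cfsg.Spor.M12 = G12 := by rw [G12, hd]; rfl
    have h11 : Cfsg.Spor.M11 = G11 := by rw [G11, ← h12, hpt]; rfl
    have hnone : (none : Cfsg.GolayPt) ∉ toSet baseDod := by decide +kernel
    obtain ⟨g, hg, hgd, hgp⟩ := exists_move (Dec.dodecad_compl baseDod_mem) (Finset.mem_compl.2 hnone)
    have hgp' : g (some 0) = none := by rw [← hpt]; exact hgp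
    have key : MulAut.conj g • Cfsg.Spor.M11 = Cfsg.Spor.M12 ⊓ MulAction.stabilizer (Equiv.Perm Cfsg.GolayPt) (none : Cfsg.GolayPt) := by
      rw [h11, h12, G11, hpt]
      ext x
      rw [Subgroup.mem_pointwise_smul_iff_inv_smul_mem, MulAut.smul_def, ← map_inv, MulAut.conj_apply, inv_inv]
      have e1 : g⁻¹ * x * g ∈ Cfsg.M24 ↔ x ∈ Cfsg.M24 := by
        rw [Cfsg.M24.mul_mem_cancel_right hg, Cfsg.M24.mul_mem_cancel_left (Cfsg.M24.inv_mem hg)]
      have e2 : (g⁻¹ * x * g) • toSet baseDod = toSet baseDod ↔ x • toSet baseDod = toSet baseDod := by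
        rw [mul_smul, mul_smul, hgd, inv_smul_eq_iff, hgd, Dec.smul_compl', compl_inj_iff]
      have e3 : (g⁻¹ * x * g) • (some 0 : Cfsg.GolayPt) = some 0 ↔ x • (none : Cfsg.GolayPt) = none := by
        rw [mul_smul, mul_smul, inv_smul_eq_iff, Equiv.Perm.smul_def g, hgp']
      exact and_congr (and_congr e1 e2) e3
    refine ⟨?_, ?_, g, hg, ?_, key⟩
    · rw [← key]
      exact ⟨(Subgroup.equivSMul _ _).symm⟩
    · rintro ⟨k, hk, e⟩
      rw [h12] at hk
      have hfix : ∀ x ∈ Cfsg.Spor.M11, x (k⁻¹ none) = k⁻¹ none := by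
        intro x hx
        have hm : k * x * k⁻¹ ∈ MulAut.conj k • Cfsg.Spor.M11 := Subgroup.smul_mem_pointwise_smul x (MulAut.conj k) _ hx
        rw [e] at hm
        have hn : (k * x * k⁻¹) none = none := hm.2
        rw [Equiv.Perm.mul_apply, Equiv.Perm.mul_apply] at hn
        exact k.injective (hn.trans (k.apply_symm_apply none).symm)
      have hkn : k⁻¹ none ∉ toSet baseDod := fun h => hnone (by
        have h' := apply_mem_of_fix (show k • toSet baseDod = toSet baseDod from hk.2) h
        rwa [show k (k⁻¹ none) = none from k.apply_symm_apply none] at h')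
      obtain ⟨a, ha, hab⟩ := Finset.exists_mem_notMem_of_card_lt_card (t := (toSet baseDod)ᶜ) (s := {k⁻¹ none})
        (by rw [Finset.card_compl, Finset.card_singleton, card_baseDod]; simp [Cfsg.GolayPt])
      obtain ⟨b, hb, hbb⟩ := Finset.exists_mem_notMem_of_card_lt_card (t := (toSet baseDod)ᶜ) (s := {k⁻¹ none, a})
        (lt_of_le_of_lt Finset.card_le_two (by rw [Finset.card_compl, card_baseDod]; simp [Cfsg.GolayPt]))
      simp only [Finset.mem_singleton, Finset.mem_insert, not_or] at hab hbb
      rw [Finset.mem_compl] at ha hb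
      let u : Fin 3 ↪ Cfsg.GolayPt := ⟨![k⁻¹ none, a, b], by
        intro i j e'
        fin_cases i <;> fin_cases j <;> first
          | rfl
          | exact absurd e' hab | exact absurd e' (Ne.symm hab)
          | exact absurd e' hbb.1 | exact absurd e' (Ne.symm hbb.1)
          | exact absurd e' hbb.2 | exact absurd e' (Ne.symm hbb.2)⟩
      let v : Fin 3 ↪ Cfsg.GolayPt := ⟨![a, k⁻¹ none, b], by
        intro i j e'
        fin_cases i <;> fin_cases j <;> first
          | rfl
          | exact absurd e' hab | exact absurd e' (Ne.symm hab)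
          | exact absurd e' hbb.1 | exact absurd e' (Ne.symm hbb.1)
          | exact absurd e' hbb.2 | exact absurd e' (Ne.symm hbb.2)⟩
      obtain ⟨x, hx, hxe⟩ := trans11out u v (fun i => by fin_cases i <;> assumption) (fun i => by fin_cases i <;> assumption)
      have h1 := hfix x (h11 ▸ hx)
      have h2 : x (k⁻¹ none) = a := hxe 0
      exact hab (h2.symm.trans h1)
    · rw [← hd, hgd, Finset.compl_eq_univ_sdiff]

end Cfsg.Agent.S5620
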