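import Cfsg.Statements.S5622
import Cfsg.Agent.Lib.Code.AbstractGolay

set_option autoImplicit false
open Cfsg

namespace Cfsg.Agent.S5622

/-- Let C be a self-dual binary code of length 24 with minimum weight at least 8 (a 12-dimensional subspace of the 24-dimensional space over the field with two elements, any two of whose words have dot product zero, with no non-zero word of weight below 8 — an abstract extended binary Golay code). Then the minimum weight of C is exactly 8, and the supports of the words of weight 8 (the octads) form a Steiner system S(5, 8, 24) on the 24 coordinates: every 5 coordinates lie in the support of exactly one word of weight 8. -/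
theorem result (C : Submodule (ZMod 2) (Fin 24 → ZMod 2)) (hdim : Module.finrank (ZMod 2) C = 12) (horth : ∀ v ∈ C, ∀ w ∈ C, ∑ i, v i * w i = 0) (hmin : ∀ w ∈ C, w ≠ 0 → 8 ≤ hammingNorm w) : (∃ w ∈ C, hammingNorm w = 8) ∧ Cfsg.IsSteinerSystem 5 8 (Cfsg.wordsOfWeight (C : Set (Fin 24 → ZMod 2)) 8) := by
  open Cfsg.Lib.Code.AbstractGolay in
  have hmem : ∀ O, O ∈ Cfsg.wordsOfWeight (C : Set (Fin 24 → ZMod 2)) 8 ↔ IsOctad C O := by
    intro O
    constructor
    · rintro ⟨⟨v, hv, rfl⟩, h8⟩
      exact ⟨by have := ind_supp v; rw [show Cfsg.support₂ v = supp v from rfl, this]; exact hv, h8⟩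
    · rintro ⟨h, h8⟩
      exact ⟨⟨_, h, supp_ind O⟩, h8⟩
  open Cfsg.Lib.Code.AbstractGolay in
  refine ⟨?_, fun b hb => hb.2, fun s hs => ?_⟩
  · obtain ⟨s, -, hs⟩ := Finset.exists_subset_card_eq (s := (Finset.univ : Finset (Fin 24))) (n := 5) (by simp)
    obtain ⟨O, hO, -⟩ := Cfsg.Lib.Code.AbstractGolay.exists_octad hdim hmin hs
    exact ⟨_, hO.1, by rw [Cfsg.Lib.Code.AbstractGolay.hammingNorm_eq, Cfsg.Lib.Code.AbstractGolay.supp_ind, hO.2]⟩
  · obtain ⟨O, hO, hsO⟩ := Cfsg.Lib.Code.AbstractGolay.exists_octad hdim hmin hs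
    exact ⟨O, ⟨(hmem O).2 hO, hsO⟩, fun O' hO' =>
      Cfsg.Lib.Code.AbstractGolay.octad_unique hmin ((hmem O').1 hO'.1) hO (le_of_eq hs.symm) hO'.2 hsO⟩

end Cfsg.Agent.S5622
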