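import Cfsg.Statements.S5625
import Cfsg.Agent.Lib.Steiner.Counts

set_option autoImplicit false
open Cfsg

namespace Cfsg.Agent.S5625

/-- In any Steiner system S(5, 8, 24) and for any set Y of three points, the blocks meeting Y in exactly 3, 2, 1 and 0 points number 21, 168, 360 and 210 respectively (so there are 759 blocks in all). -/
theorem result (α : Type*) [Fintype α] [DecidableEq α] (hα : Fintype.card α = 24) (B : Set (Finset α)) (hB : Cfsg.IsSteinerSystem 5 8 B) (Y : Finset α) (hY : Y.card = 3) : {b : Finset α | b ∈ B ∧ (b ∩ Y).card = 3}.ncard = 21 ∧ {b : Finset α | b ∈ B ∧ (b ∩ Y).card = 2}.ncard = 168 ∧ {b : Finset α | b ∈ B ∧ (b ∩ Y).card = 1}.ncard = 360 ∧ {b : Finset α | b ∈ B ∧ (b ∩ Y).card = 0}.ncard = 210 := by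
  classical
  have e0 := Cfsg.Lib.Steiner.trace_equation hB Y (s := 0) (by norm_num) (l := 759) (by rw [hα]; decide) (by norm_num)
  have e1 := Cfsg.Lib.Steiner.trace_equation hB Y (s := 1) (by norm_num) (l := 253) (by rw [hα]; decide) (by norm_num)
  have e2 := Cfsg.Lib.Steiner.trace_equation hB Y (s := 2) (by norm_num) (l := 77) (by rw [hα]; decide) (by norm_num)
  have e3 := Cfsg.Lib.Steiner.trace_equation hB Y (s := 3) (by norm_num) (l := 21) (by rw [hα]; decide) (by norm_num)
  simp only [hY, Finset.sum_range_succ, Finset.sum_range_zero] at e0 e1 e2 e3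
  norm_num [Nat.choose] at e0 e1 e2 e3
  have hn : ∀ i, {b : Finset α | b ∈ B ∧ (b ∩ Y).card = i}.ncard = Cfsg.Lib.Steiner.traceNum B Y i := by
    intro i
    rw [Cfsg.Lib.Steiner.traceNum, ← Set.ncard_coe_finset]
    congr 1; ext b; simp
  rw [hn, hn, hn, hn]
  omega

end Cfsg.Agent.S5625
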