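import Cfsg.Statements.S5626
import Cfsg.Agent.Lib.Steiner.PlaneFour
-- import your own Cfsg.Agent.* helpers here

set_option autoImplicit false
open Cfsg

namespace Cfsg.Agent.S5626

/-- Uniqueness of the projective plane of order 4: any two Steiner systems S(2, 5, 21) (21 points, lines of 5 points, two points on exactly one line) are isomorphic. -/
theorem result {α β : Type*} [Fintype α] [DecidableEq α] [Fintype β] [DecidableEq β] (hα : Fintype.card α = 21) (hβ : Fintype.card β = 21) {L : Set (Finset α)} {L' : Set (Finset β)} (hL : Cfsg.IsSteinerSystem 2 5 L) (hL' : Cfsg.IsSteinerSystem 2 5 L') : Cfsg.SetSystemIso L L' := by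
  classical
  obtain ⟨e, he, hH⟩ := Cfsg.Lib.Steiner.PlaneFour.exists_hyperoval hα hL
  obtain ⟨e', he', hH'⟩ := Cfsg.Lib.Steiner.PlaneFour.exists_hyperoval hβ hL'
  obtain ⟨Φ, -, h1⟩ := Cfsg.Lib.Steiner.PlaneFour.exists_coord hα hL he hH
  obtain ⟨Ψ, -, h2⟩ := Cfsg.Lib.Steiner.PlaneFour.exists_coord hβ hL' he' hH'
  refine ⟨Φ.symm.trans Ψ, ?_⟩
  rw [← h1, ← h2, Set.image_image]
  refine Set.image_congr fun b _ => ?_
  rw [Finset.image_image]
  exact Finset.image_congr fun x _ => by simp

end Cfsg.Agent.S5626
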