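import Cfsg.Statements.S5628
import Cfsg.Agent.Lib.Steiner.PlaneFour
-- import your own Cfsg.Agent.* helpers here

set_option autoImplicit false
open Cfsg

namespace Cfsg.Agent.S5628

open scoped Pointwise

/-- In a projective plane of order 4 (a Steiner system S(2, 5, 21)), every permutation of the six points of a hyperoval (a 6-set met by no line in more than two points) is the restriction of exactly one automorphism of the plane. In particular the stabiliser of a hyperoval in the automorphism group is isomorphic to the symmetric group of degree 6 acting faithfully on the hyperoval. -/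
theorem result {α : Type*} [Fintype α] [DecidableEq α] (hα : Fintype.card α = 21) (L : Set (Finset α)) (hL : Cfsg.IsSteinerSystem 2 5 L) (H : Finset α) (hH : (H.card = 6 ∧ ∀ l ∈ L, (l ∩ H).card ≤ 2)) (σ : Equiv.Perm ↥H) : ∃! g : Equiv.Perm α, g ∈ Cfsg.setSystemAut L ∧ ∀ p : ↥H, g p = σ p := by
  classical
  let E := (H.equivFinOfCardEq hH.1).symm
  let e : Fin 6 → α := fun i => (E i : α)
  let e' : Fin 6 → α := fun i => (σ (E i) : α)
  have he : Function.Injective e := fun i j h => E.injective (Subtype.ext h)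
  have he' : Function.Injective e' := fun i j h => E.injective (σ.injective (Subtype.ext h))
  have him : ∀ f : Fin 6 ≃ ↥H, Finset.univ.image (fun i => (f i : α)) = H := by
    intro f
    ext x
    simp only [Finset.mem_image, Finset.mem_univ, true_and]
    exact ⟨fun ⟨i, hi⟩ => hi ▸ Subtype.coe_prop _, fun hx => ⟨f.symm ⟨x, hx⟩, by simp⟩⟩
  have hA : Cfsg.Lib.Steiner.PlaneFour.IsArc L 6 (Finset.univ.image e) := (him E).symm ▸ hH
  have hA' : Cfsg.Lib.Steiner.PlaneFour.IsArc L 6 (Finset.univ.image e') := (him (E.trans σ)).symm ▸ hH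
  obtain ⟨Φ, hΦ, h1⟩ := Cfsg.Lib.Steiner.PlaneFour.exists_coord hα hL he hA
  obtain ⟨Ψ, hΨ, h2⟩ := Cfsg.Lib.Steiner.PlaneFour.exists_coord hα hL he' hA'
  have key : ∀ (g : Equiv.Perm α), g ∈ Cfsg.setSystemAut L → ∀ l ∈ L, l.image g ∈ L := by
    intro g hg l hl
    rw [MulAction.mem_stabilizer_iff] at hg
    rw [← hg]
    exact ⟨l, hl, rfl⟩
  refine ⟨Φ.symm.trans Ψ, ⟨?_, ?_⟩, ?_⟩
  · rw [MulAction.mem_stabilizer_iff]
    show (fun b : Finset α => b.image (Φ.symm.trans Ψ)) '' L = L
    nth_rewrite 1 [← h1]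
    conv_rhs => rw [← h2]
    rw [Set.image_image]
    refine Set.image_congr fun b _ => ?_
    rw [Finset.image_image]
    exact Finset.image_congr fun x _ => by simp
  · intro p
    obtain ⟨i, rfl⟩ := E.surjective p
    show Ψ (Φ.symm (e i)) = _
    rw [← hΦ, Equiv.symm_apply_apply, hΨ]
  · rintro g ⟨hg, hgH⟩
    have hg2 : ∀ i, g (e i) = e' i := fun i => hgH (E i)
    have hΦΨ : ∀ i, (Φ.symm.trans Ψ) (e i) = e' i := fun i => by
      show Ψ (Φ.symm (e i)) = _
      rw [← hΦ, Equiv.symm_apply_apply, hΨ]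
    have hT : ∀ l ∈ L, l.image (Φ.symm.trans Ψ) ∈ L := by
      intro l hl
      rw [← h1] at hl
      obtain ⟨b, hb, rfl⟩ := hl
      rw [← h2]
      refine ⟨b, hb, ?_⟩
      simp only [Finset.image_image]
      exact Finset.image_congr fun x _ => by simp
    ext x
    by_cases hx : x ∈ Finset.univ.image e
    · obtain ⟨i, -, rfl⟩ := Finset.mem_image.1 hx
      rw [hg2, hΦΨ]
    · have out : ∀ (f : Equiv.Perm α), (∀ i, f (e i) = e' i) → f x ∉ Finset.univ.image e' := by
        intro f hf h
        obtain ⟨i, -, hi⟩ := Finset.mem_image.1 h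
        exact hx (Finset.mem_image.2 ⟨i, Finset.mem_univ _, f.injective ((hf i).trans hi)⟩)
      refine Cfsg.Lib.Steiner.PlaneFour.eq_of_partners hα hL hA' (out g hg2) (out _ hΦΨ) ?_ he'
      intro a b hab
      obtain ⟨c, hne, l, hl, l1, l2, l3⟩ := Cfsg.Lib.Steiner.PlaneFour.Partner.exists hα hL hA hx a
      have P1 : ∀ (f : Equiv.Perm α), (∀ l ∈ L, l.image f ∈ L) → (∀ i, f (e i) = e' i) →
          Cfsg.Lib.Steiner.PlaneFour.Partner L e' (f x) a c := fun f hf hf' =>
        ⟨hne, l.image f, hf l hl, Finset.mem_image_of_mem _ l1, hf' a ▸ Finset.mem_image_of_mem _ l2,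
          hf' c ▸ Finset.mem_image_of_mem _ l3⟩
      rw [Cfsg.Lib.Steiner.PlaneFour.Partner.unique hL he' hA' (out g hg2) hab (P1 g (key g hg) hg2)]
      exact P1 _ hT hΦΨ

end Cfsg.Agent.S5628
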