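import Cfsg.Statements.S5632
import Mathlib
import Cfsg.Agent.Lib.Classical.SubspaceStab

set_option autoImplicit false
open Cfsg

namespace Cfsg.Agent.S5632

open Cfsg.Lib.Classical Matrix

/-- For a finite field F and subspaces 0 < W < U of F^n with dim W + dim U = n, the elements of SL_n(F) stabilising both W and U form a subgroup that is not maximal in SL_n(F): some subgroup lies strictly between it and SL_n(F). -/
theorem result {F : Type*} [Field F] [Fintype F] (n : ℕ) (W U : Submodule F (Fin n → F)) (hW0 : W ≠ ⊥) (hWU : W < U) (hdim : Module.finrank F W + Module.finrank F U = n) : ∃ K : Subgroup (Matrix.GeneralLinearGroup (Fin n) F), Cfsg.Geo.subspaceStabilizer W ⊓ Cfsg.Geo.subspaceStabilizer U ⊓ Cfsg.Geo.specialLinear (Fin n) F < K ∧ K < Cfsg.Geo.specialLinear (Fin n) F := by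
  have hW1 : W ≠ ⊤ := fun h => by simp [h] at hWU
  have hU1 : U ≠ ⊤ := fun h => by
    rw [h, finrank_top, Module.finrank_fin_fun] at hdim
    exact hW0 (Submodule.finrank_eq_zero.1 (by omega))
  refine ⟨Cfsg.Geo.subspaceStabilizer W ⊓ Cfsg.Geo.specialLinear (Fin n) F,
    lt_of_le_not_ge (le_inf (inf_le_left.trans inf_le_left) inf_le_right) fun h => ?_,
    (isMaximalIn_subspaceStabilizer hW0 hW1).1⟩
  obtain ⟨u, huU, huW⟩ := SetLike.exists_of_lt hWU
  obtain ⟨a, -, haU⟩ := SetLike.exists_of_lt (lt_top_iff_ne_top.2 hU1)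
  have hu : u ∉ W ⊔ Submodule.span F {a} := by
    intro hc
    obtain ⟨y, hy, z, hz, hyz⟩ := Submodule.mem_sup.1 hc
    obtain ⟨c, rfl⟩ := Submodule.mem_span_singleton.1 hz
    rcases eq_or_ne c 0 with rfl | hc0
    · exact huW (by simpa [← hyz] using hy)
    · exact haU (by
        have := U.smul_mem c⁻¹ (U.sub_mem huU (hWU.le hy))
        simpa [← hyz, smul_smul, hc0] using this)
  obtain ⟨ψ, hψ, hψu⟩ := exists_dot_sep _ hu
  have hψa : ψ ⬝ᵥ a = 0 := hψ a (Submodule.mem_sup_right (Submodule.mem_span_singleton_self a))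
  have hm := (h ⟨tvGL_mem_subspaceStabilizer hψa
    (Or.inr fun w hw => hψ w (Submodule.mem_sup_left hw)), tvGL_mem_specialLinear a ψ hψa⟩).1.2
  have h2 : (tvGL a ψ hψa : Matrix (Fin n) (Fin n) F) *ᵥ u ∈ U := (hm u).1 huU
  rw [coe_tvGL, tv_mulVec, hψu, one_smul] at h2
  exact haU ((U.add_mem_iff_right huU).1 h2)

end Cfsg.Agent.S5632
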