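import Cfsg.Statements.S5633
import Mathlib
import Cfsg.Agent.Lib.Classical.SubspaceStab

set_option autoImplicit false
open Cfsg

namespace Cfsg.Agent.S5633

open Cfsg.Lib.Classical Matrix

/-- For a finite field F and complementary non-zero subspaces W ⊕ U = F^n with dim W < dim U, the elements of SL_n(F) stabilising both W and U form a subgroup that is not maximal in SL_n(F): some subgroup lies strictly between it and SL_n(F). -/
theorem result {F : Type*} [Field F] [Fintype F] (n : ℕ) (W U : Submodule F (Fin n → F)) (hW0 : W ≠ ⊥) (hWU : W ⊓ U = ⊥) (hWU' : W ⊔ U = ⊤) (hdim : Module.finrank F W < Module.finrank F U) : ∃ K : Subgroup (Matrix.GeneralLinearGroup (Fin n) F), Cfsg.Geo.subspaceStabilizer W ⊓ Cfsg.Geo.subspaceStabilizer U ⊓ Cfsg.Geo.specialLinear (Fin n) F < K ∧ K < Cfsg.Geo.specialLinear (Fin n) F := by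
  have hW1 : W ≠ ⊤ := fun h => by
    rw [h, finrank_top] at hdim
    exact absurd (U.finrank_le) (not_le.2 hdim)
  have hU0 : U ≠ ⊥ := fun h => by
    rw [h, finrank_bot] at hdim; exact Nat.not_lt_zero _ hdim
  refine ⟨Cfsg.Geo.subspaceStabilizer W ⊓ Cfsg.Geo.specialLinear (Fin n) F,
    lt_of_le_not_ge (le_inf (inf_le_left.trans inf_le_left) inf_le_right) fun h => ?_,
    (isMaximalIn_subspaceStabilizer hW0 hW1).1⟩
  obtain ⟨w, hw, hw0⟩ := W.exists_mem_ne_zero_of_ne_bot hW0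
  obtain ⟨u, hu, hu0⟩ := U.exists_mem_ne_zero_of_ne_bot hU0
  have hnot : ∀ x, x ∈ W → x ∈ U → x = 0 := fun x h1 h2 => by
    have hx : x ∈ W ⊓ U := ⟨h1, h2⟩
    simpa [hWU] using hx
  have huw : u ∉ Submodule.span F {w} := fun hc => by
    obtain ⟨c, rfl⟩ := Submodule.mem_span_singleton.1 hc
    exact hu0 (hnot _ (W.smul_mem c hw) hu)
  obtain ⟨ψ, hψw, hψu⟩ := exists_dot_of_notMem_span w huw
  have hm := (h ⟨tvGL_mem_subspaceStabilizer hψw (Or.inl hw), tvGL_mem_specialLinear w ψ hψw⟩).1.2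
  have h2 : (tvGL w ψ hψw : Matrix (Fin n) (Fin n) F) *ᵥ u ∈ U := (hm u).1 hu
  rw [coe_tvGL, tv_mulVec, hψu, one_smul] at h2
  exact hw0 (hnot w hw ((U.add_mem_iff_right hu).1 h2))

end Cfsg.Agent.S5633
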