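-- Proof of statement S5635.
import Cfsg.Statements.S5635
import Mathlib
import Cfsg.Agent.Lib.Classical.Transvection

set_option autoImplicit false
open Cfsg

namespace Cfsg.Agent.S5635

open Module
open scoped Matrix MatrixGroups

section aux

variable {F : Type*} [Field F] [Fintype F] {n t m : ℕ} {D : Fin t → Submodule F (Fin n → F)}

lemma exists_basis (hD : Cfsg.Geo.IsMDecomposition m D) :
    ∃ b : Basis (Fin t × Fin m) F (Fin n → F), ∀ i, Submodule.span F (Set.range fun j => b (i, j)) = D i := by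
  classical
  have hI := DirectSum.isInternal_submodule_of_iSupIndep_of_iSup_eq_top hD.indep hD.iSup_eq_top
  let b := (hI.collectedBasis fun i => finBasisOfFinrankEq F (D i) (hD.finrank_eq i)).reindex (Equiv.sigmaEquivProd _ _)
  refine ⟨b, fun i => Submodule.eq_of_le_of_finrank_le (Submodule.span_le.2 ?_) ?_⟩
  · rintro x ⟨j, rfl⟩
    simp only [b, Basis.reindex_apply, Equiv.sigmaEquivProd_symm_apply, hI.collectedBasis_coe]
    exact Submodule.coe_mem _
  · have hi : LinearIndependent F fun j => b (i, j) :=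
      b.linearIndependent.comp (fun j => (i, j)) (fun a c hac => (Prod.ext_iff.1 hac).2)
    rw [hD.finrank_eq, finrank_span_eq_card hi, Fintype.card_fin]

lemma repr_mem (b : Basis (Fin t × Fin m) F (Fin n → F)) (hb : ∀ i, Submodule.span F (Set.range fun j => b (i, j)) = D i)
    {i : Fin t} {x : Fin n → F} (hx : x ∈ D i) {l : Fin t} (hl : l ≠ i) (j : Fin m) : b.repr x (l, j) = 0 := by
  rw [← hb i, Submodule.mem_span_range_iff_exists_fun] at hx
  obtain ⟨c, rfl⟩ := hx
  simp [hl.symm, Finsupp.single_apply, Prod.ext_iff]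

/-- The affine-linear map `x ↦ x + L x • w`. -/
lemma exists_map (L : (Fin n → F) →ₗ[F] F) (w : Fin n → F) (h : 1 + L w ≠ 0) :
    ∃ g : GL (Fin n) F, (∀ x, (g : Matrix (Fin n) (Fin n) F) *ᵥ x = x + L x • w) ∧
      (g : Matrix (Fin n) (Fin n) F).det = 1 + L w := by
  classical
  let φ : Fin n → F := fun i => L (Pi.single i 1)
  have hφ : ∀ x, φ ⬝ᵥ x = L x := fun x => by
    conv_rhs => rw [pi_eq_sum_univ' x]
    simp [φ, map_sum, dotProduct, mul_comm]
  have hdet : (Cfsg.Lib.Classical.tv w φ).det = 1 + L w := by rw [Cfsg.Lib.Classical.det_tv, hφ]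
  refine ⟨Matrix.GeneralLinearGroup.mkOfDetNeZero (Cfsg.Lib.Classical.tv w φ) (by rwa [hdet]), fun x => ?_, hdet⟩
  show Cfsg.Lib.Classical.tv w φ *ᵥ x = _
  rw [Cfsg.Lib.Classical.tv_mulVec, hφ]

/-- The number of non-zero components, in `F`. -/
noncomputable def cnt (b : Basis (Fin t × Fin m) F (Fin n → F)) (x : Fin n → F) : F :=
  open Classical in ∑ i, if ∀ j, b.repr x (i, j) = 0 then 0 else 1

lemma cnt_le (b : Basis (Fin t × Fin m) F (Fin n → F)) (hb : ∀ i, Submodule.span F (Set.range fun j => b (i, j)) = D i)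
    {g : GL (Fin n) F} (hg : g ∈ Cfsg.Geo.decompositionStabilizer D) (x : Fin n → F) :
    cnt b ((g : Matrix (Fin n) (Fin n) F) *ᵥ x) = cnt b x := by
  classical
  obtain ⟨σ, hσ⟩ := hg
  let comp : (Fin n → F) → Fin t → (Fin n → F) := fun x i => ∑ j, b.repr x (i, j) • b (i, j)
  have hcmem : ∀ x i, comp x i ∈ D i := fun x i => by
    rw [← hb i]; exact Submodule.sum_mem _ fun j _ => Submodule.smul_mem _ _ (Submodule.subset_span ⟨j, rfl⟩)
  have hc0 : ∀ x i, comp x i = 0 ↔ ∀ j, b.repr x (i, j) = 0 := fun x i => by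
    refine ⟨fun h j => ?_, fun h => Finset.sum_eq_zero fun j _ => by rw [h j, zero_smul]⟩
    exact Fintype.linearIndependent_iff.1 (b.linearIndependent.comp (fun j => (i, j)) (fun a c hac => (Prod.ext_iff.1 hac).2)) _ h j
  have hrepr : ∀ x i j, b.repr (comp x i) (i, j) = b.repr x (i, j) := fun x i j => by
    simp [comp, Finsupp.single_apply, Prod.ext_iff]
  have hsum : ∀ x, ∑ i, comp x i = x := fun x => by
    conv_rhs => rw [← b.sum_repr x, Fintype.sum_prod_type]
  have hkey : ∀ i, comp ((g : Matrix (Fin n) (Fin n) F) *ᵥ x) (σ i) = (g : Matrix (Fin n) (Fin n) F) *ᵥ comp x i := by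
    intro i
    have hmem : ∀ l, (g : Matrix (Fin n) (Fin n) F) *ᵥ comp x l ∈ D (σ l) := fun l => by
      rw [← hσ l]; exact ⟨_, hcmem x l, Matrix.toLin'_apply _ _⟩
    have h1 : ∀ j, b.repr ((g : Matrix (Fin n) (Fin n) F) *ᵥ x) (σ i, j) = b.repr ((g : Matrix (Fin n) (Fin n) F) *ᵥ comp x i) (σ i, j) := by
      intro j
      conv_lhs => rw [← hsum x, Matrix.mulVec_sum, map_sum, Finsupp.finset_sum_apply]
      exact Finset.sum_eq_single i (fun l _ hl => repr_mem b hb (hmem l) (σ.injective.ne hl).symm j) (fun h => absurd (Finset.mem_univ i) h)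
    refine b.repr.injective (Finsupp.ext fun p => ?_)
    obtain ⟨l, j⟩ := p
    rcases eq_or_ne l (σ i) with rfl | hl
    · rw [hrepr, h1]
    · rw [repr_mem b hb (hcmem _ _) hl j, repr_mem b hb (hmem i) hl j]
  simp only [cnt]
  rw [← Equiv.sum_comp σ]
  refine Finset.sum_congr rfl fun i _ => if_congr ?_ rfl rfl
  rw [← hc0, ← hc0, hkey]
  exact ⟨fun h => by
    have := congrArg (fun z => ((g⁻¹ : GL (Fin n) F) : Matrix (Fin n) (Fin n) F) *ᵥ z) h
    simpa [Matrix.mulVec_mulVec] using this, fun h => by rw [h, Matrix.mulVec_zero]⟩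

lemma between (hm : 0 < m) (b : Basis (Fin t × Fin m) F (Fin n → F)) (hb : ∀ i, Submodule.span F (Set.range fun j => b (i, j)) = D i)
    {i0 i1 i2 : Fin t} (h01 : i0 ≠ i1) (h12 : i1 ≠ i2)
    (k : GL (Fin n) F) (hk : k ∈ Cfsg.Geo.specialLinear (Fin n) F)
    (hcnt : ∀ x, cnt b ((k : Matrix (Fin n) (Fin n) F) *ᵥ x) = cnt b x)
    (j j1 j2 : Fin m) (h1 : b.repr ((k : Matrix (Fin n) (Fin n) F) *ᵥ b (i0, j)) (i1, j1) ≠ 0)
    (h2 : b.repr ((k : Matrix (Fin n) (Fin n) F) *ᵥ b (i0, j)) (i2, j2) ≠ 0) :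
    ∃ K : Subgroup (GL (Fin n) F), Cfsg.Geo.decompositionStabilizer D ⊓ Cfsg.Geo.specialLinear (Fin n) F < K ∧
      K < Cfsg.Geo.specialLinear (Fin n) F := by
  classical
  have hiso : ∀ g : GL (Fin n) F, g ∈ Cfsg.isometryGroup F (cnt b) ↔ ∀ x, cnt b ((g : Matrix (Fin n) (Fin n) F) *ᵥ x) = cnt b x :=
    fun g => ⟨fun h x => h x x, fun h u _ => h u⟩
  refine ⟨Cfsg.isometryGroup F (cnt b) ⊓ Cfsg.Geo.specialLinear (Fin n) F,
    lt_of_le_of_ne (fun g hg => ⟨(hiso g).2 (cnt_le b hb hg.1), hg.2⟩) fun e => ?_,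
    lt_of_le_of_ne inf_le_right fun e => ?_⟩
  · obtain ⟨σ, hσ⟩ := (e.symm ▸ ⟨(hiso k).2 hcnt, hk⟩ : k ∈ Cfsg.Geo.decompositionStabilizer D ⊓ Cfsg.Geo.specialLinear (Fin n) F).1
    have hmem : (k : Matrix (Fin n) (Fin n) F) *ᵥ b (i0, j) ∈ D (σ i0) := by
      rw [← hσ i0]
      exact ⟨_, hb i0 ▸ Submodule.subset_span ⟨j, rfl⟩, Matrix.toLin'_apply _ _⟩
    rcases eq_or_ne i1 (σ i0) with e1 | e1
    · exact h2 (repr_mem b hb hmem (e1 ▸ h12.symm) j2)
    · exact h1 (repr_mem b hb hmem e1 j1)
  · let j0 : Fin m := ⟨0, hm⟩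
    let L : (Fin n → F) →ₗ[F] F := (Finsupp.lapply (i0, j0)).comp b.repr.toLinearMap
    have hL : ∀ x, L x = b.repr x (i0, j0) := fun x => rfl
    have hLw : L (b (i1, j0)) = 0 := by rw [hL]; simp [h01]
    obtain ⟨g, hgx, hgd⟩ := exists_map L (b (i1, j0)) (by rw [hLw, add_zero]; exact one_ne_zero)
    have hgS : g ∈ Cfsg.Geo.specialLinear (Fin n) F := by
      show Matrix.GeneralLinearGroup.det g = 1
      exact Units.ext (hgd.trans (by rw [hLw, add_zero, Units.val_one]))
    have := (hiso g).1 (e.symm ▸ hgS : g ∈ Cfsg.isometryGroup F (cnt b) ⊓ Cfsg.Geo.specialLinear (Fin n) F).1 (b (i0, j0))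
    rw [hgx, show L (b (i0, j0)) = 1 by rw [hL]; simp, one_smul] at this
    have c1 : cnt b (b (i0, j0)) = 1 := by
      simp only [cnt]
      rw [Finset.sum_eq_single i0 (fun l _ hl => if_pos fun j => by simp [hl.symm]) (fun h => absurd (Finset.mem_univ i0) h)]
      exact if_neg fun h => by simpa using h j0
    have c2 : cnt b (b (i0, j0) + b (i1, j0)) = 2 := by
      simp only [cnt]
      rw [Finset.sum_eq_add_of_mem i0 i1 (Finset.mem_univ _) (Finset.mem_univ _) h01
        (fun l _ hl => if_pos fun j => by simp [hl.1.symm, hl.2.symm])]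
      rw [if_neg fun h => by simpa [h01] using h j0, if_neg fun h => by simpa [h01] using h j0]
      norm_num
    rw [c1, c2] at this
    exact one_ne_zero (show (1 : F) = 0 by linear_combination this)

end aux

/-- For a finite field F with q elements and n ≥ 13, let D be a decomposition of F^n into t ≥ 2 independent subspaces of equal dimension m spanning F^n, where m = 1 and q ≤ 4, or m = 2 and q = 2. Then the elements of SL_n(F) permuting the members of D form a subgroup that is not maximal: some subgroup lies strictly between it and SL_n(F). -/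
theorem result {F : Type*} [Field F] [Fintype F] (n : ℕ) (hn : 13 ≤ n) {t : ℕ} (m : ℕ) (D : Fin t → Submodule F (Fin n → F)) (hD : Cfsg.Geo.IsMDecomposition m D) (h : (m = 1 ∧ Fintype.card F ≤ 4) ∨ (m = 2 ∧ Fintype.card F = 2)) : ∃ K : Subgroup (Matrix.GeneralLinearGroup (Fin n) F), Cfsg.Geo.decompositionStabilizer D ⊓ Cfsg.Geo.specialLinear (Fin n) F < K ∧ K < Cfsg.Geo.specialLinear (Fin n) F := by
  classical
  obtain ⟨b, hb⟩ := exists_basis hD
  have htm : t * m = n := by
    have := Module.finrank_eq_card_basis b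
    simp at this
    omega
  have hpow : ∀ x : F, x ^ Fintype.card F = x := fun x => FiniteField.pow_card x
  rcases h with ⟨rfl, hq⟩ | ⟨rfl, hq⟩
  · have ht : 8 ≤ t := by omega
    have hq2 : 1 < Fintype.card F := Fintype.one_lt_card
    have hcnt : ∀ x, cnt b x = ∑ i, (b.repr x (i, 0)) ^ (Fintype.card F - 1) := fun x => by
      simp only [cnt]
      refine Finset.sum_congr rfl fun i _ => ?_
      by_cases h0 : b.repr x (i, 0) = 0
      · rw [if_pos fun j => by rwa [Subsingleton.elim j 0], h0, zero_pow (by omega)]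
      · rw [if_neg fun h => h0 (h 0), FiniteField.pow_card_sub_one_eq_one _ h0]
    have block : ∀ s : Fin t → F, (∀ i, s i = 0 ∨ s i = 1) → ∑ i, s i = 4 →
        ∃ g : GL (Fin n) F, (∀ x, (g : Matrix (Fin n) (Fin n) F) *ᵥ x = x + (∑ i, s i * b.repr x (i, 0)) • ∑ i, s i • b (i, 0)) ∧
          (g : Matrix (Fin n) (Fin n) F).det = 1 + 4 ∧ ∀ x, cnt b ((g : Matrix (Fin n) (Fin n) F) *ᵥ x) = cnt b x := by
      intro s hs hs4
      let L : (Fin n → F) →ₗ[F] F := ∑ i, s i • (Finsupp.lapply (i, (0 : Fin 1))).comp b.repr.toLinearMap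
      have hL : ∀ x, L x = ∑ i, s i * b.repr x (i, 0) := fun x => by simp [L]
      set w := ∑ i, s i • b (i, 0) with hw
      have hwr : ∀ i, b.repr w (i, 0) = s i := fun i => by simp [hw, Finsupp.single_apply, Prod.ext_iff]
      have hss : ∀ i, s i * s i = s i := fun i => by rcases hs i with e | e <;> rw [e] <;> simp
      have hLw : L w = 4 := by
        rw [hL, ← hs4]; exact Finset.sum_congr rfl fun i _ => by rw [hwr, hss]
      have hdet : (1 : F) + L w ≠ 0 := by
        rw [hLw]
        intro h5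
        have hc : Fintype.card F = 2 ∨ Fintype.card F = 3 ∨ Fintype.card F = 4 := by omega
        have h0 : ((Fintype.card F : ℕ) : F) = 0 := Nat.cast_card_eq_zero F
        rcases hc with e | e | e <;> rw [e] at h0 <;> push_cast at h0
        · exact one_ne_zero (show (1 : F) = 0 by linear_combination h5 - 2 * h0)
        · exact one_ne_zero (show (1 : F) = 0 by linear_combination 2 * h0 - h5)
        · exact one_ne_zero (show (1 : F) = 0 by linear_combination h5 - h0)
      obtain ⟨g, hgx, hgd⟩ := exists_map L w hdet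
      refine ⟨g, fun x => by rw [hgx, hL], hgd.trans (by rw [hLw]), fun x => ?_⟩
      rw [hcnt, hcnt, hgx]
      obtain ⟨l, hl⟩ : ∃ l, L x = l := ⟨_, rfl⟩
      rw [hL] at hl
      simp only [map_add, map_smul, Finsupp.add_apply, Finsupp.smul_apply, smul_eq_mul, hwr, show L x = l from (hL x).trans hl]
      have hc : Fintype.card F = 2 ∨ Fintype.card F = 3 ∨ Fintype.card F = 4 := by omega
      have h0 : ((Fintype.card F : ℕ) : F) = 0 := Nat.cast_card_eq_zero F
      rcases hc with e | e | e <;> rw [e] at h0 ⊢ <;> push_cast at h0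
      · simp only [show 2 - 1 = 1 from rfl, pow_one, Finset.sum_add_distrib, ← Finset.mul_sum, hs4]
        linear_combination 2 * l * h0
      · have e3 : ∀ i, (b.repr x (i, 0) + l * s i) ^ (3 - 1) = b.repr x (i, 0) ^ 2 + (2 * l) * (s i * b.repr x (i, 0)) + l ^ 2 * s i :=
          fun i => by rw [show 3 - 1 = 2 from rfl, add_sq, mul_pow, show s i ^ 2 = s i by rw [pow_two, hss]]; ring
        simp only [e3, Finset.sum_add_distrib, ← Finset.mul_sum, hs4, hl]
        linear_combination 2 * l ^ 2 * h0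
      · have h2 : (2 : F) = 0 := mul_self_eq_zero.1 (by linear_combination h0)
        haveI : CharP F 2 := CharTwo.of_one_ne_zero_of_two_eq_zero one_ne_zero h2
        have hl2 : ∑ i, s i * b.repr x (i, 0) ^ 2 = l ^ 2 := by
          rw [← hl, CharTwo.sum_sq]
          exact Finset.sum_congr rfl fun i _ => by rw [mul_pow, show s i ^ 2 = s i by rw [pow_two, hss]]
        have e3 : ∀ i, (b.repr x (i, 0) + l * s i) ^ (4 - 1) =
            b.repr x (i, 0) ^ 3 + (3 * l) * (s i * b.repr x (i, 0) ^ 2) + (3 * l ^ 2) * (s i * b.repr x (i, 0)) + l ^ 3 * s i :=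
          fun i => by
            rw [show 4 - 1 = 3 from rfl, show (b.repr x (i, 0) + l * s i) ^ 3 = b.repr x (i, 0) ^ 3 + 3 * b.repr x (i, 0) ^ 2 * (l * s i) +
              3 * b.repr x (i, 0) * (l * s i) ^ 2 + (l * s i) ^ 3 by ring, mul_pow, mul_pow,
              show s i ^ 2 = s i by rw [pow_two, hss], show s i ^ 3 = s i by rw [pow_succ, pow_two, hss, hss]]
            ring
        simp only [e3, Finset.sum_add_distrib, ← Finset.mul_sum, hs4, hl, hl2]
        linear_combination 5 * l ^ 3 * h2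
    let p : Fin 8 → Fin t := fun l => ⟨l, by omega⟩
    have hp : Function.Injective p := fun a c h => Fin.ext (Fin.mk.inj_iff.1 h)
    let s : Fin t → F := fun i => if (i : ℕ) < 4 then 1 else 0
    let s' : Fin t → F := fun i => if 4 ≤ (i : ℕ) ∧ (i : ℕ) < 8 then 1 else 0
    have hsum : ∀ (P : Fin t → Prop) [DecidablePred P] (S : Finset (Fin t)), (∀ i, P i ↔ i ∈ S) → S.card = 4 → ∑ i, (if P i then (1 : F) else 0) = 4 := by
      intro P _ S hPS hS
      rw [Finset.sum_boole, show (Finset.univ.filter P) = S from by ext i; simp [hPS i], hS]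
      norm_num
    have hs4 : ∑ i, s i = 4 := hsum _ ((Finset.univ : Finset (Fin 4)).map ⟨fun l => p (Fin.castLE (by norm_num) l), fun a c h => Fin.castLE_injective _ (hp h)⟩)
      (fun i => ⟨fun hi => by simp only [Finset.mem_map, Finset.mem_univ, true_and]; exact ⟨⟨i, hi⟩, by ext; simp [p]⟩,
        fun hi => by simp only [Finset.mem_map, Finset.mem_univ, true_and] at hi; obtain ⟨l, rfl⟩ := hi; exact l.2⟩) (by simp)
    have hs4' : ∑ i, s' i = 4 := hsum _ ((Finset.univ : Finset (Fin 4)).map ⟨fun l => p (Fin.natAdd 4 l), fun a c h => Fin.natAdd_injective 4 4 (hp h)⟩)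
      (fun i => ⟨fun hi => by simp only [Finset.mem_map, Finset.mem_univ, true_and]; exact ⟨⟨(i : ℕ) - 4, by omega⟩, by ext; simp [p]; omega⟩,
        fun hi => by simp only [Finset.mem_map, Finset.mem_univ, true_and] at hi; obtain ⟨l, rfl⟩ := hi; simp [p]; omega⟩) (by simp)
    obtain ⟨g, hgx, hgd, hgc⟩ := block s (fun i => by simp only [s]; split_ifs <;> simp) hs4
    obtain ⟨g', hgx', hgd', hgc'⟩ := block s' (fun i => by simp only [s']; split_ifs <;> simp) hs4'
    have hdet : g * g' ∈ Cfsg.Geo.specialLinear (Fin n) F := by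
      show Matrix.GeneralLinearGroup.det (g * g') = 1
      refine Units.ext ?_
      show ((g : Matrix (Fin n) (Fin n) F) * (g' : Matrix (Fin n) (Fin n) F)).det = 1
      rw [Matrix.det_mul, hgd, hgd']
      have hc : Fintype.card F = 2 ∨ Fintype.card F = 3 ∨ Fintype.card F = 4 := by omega
      have h0 : ((Fintype.card F : ℕ) : F) = 0 := Nat.cast_card_eq_zero F
      rcases hc with e | e | e <;> rw [e] at h0 <;> push_cast at h0
      · linear_combination 12 * h0
      · linear_combination 8 * h0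
      · linear_combination 6 * h0
    have h3 : ∀ l : Fin 3, l ≠ 0 → b.repr (((g * g' : GL (Fin n) F) : Matrix (Fin n) (Fin n) F) *ᵥ b (p 0, 0)) (p (Fin.castLE (by norm_num) l), 0) ≠ 0 := by
      intro l hl
      have hval : (((g * g' : GL (Fin n) F) : Matrix (Fin n) (Fin n) F) *ᵥ b (p 0, 0)) = b (p 0, 0) + ∑ i, s i • b (i, 0) := by
        rw [Units.val_mul, ← Matrix.mulVec_mulVec, hgx']
        have : ∑ i, s' i * b.repr (b (p 0, 0)) (i, 0) = 0 := Finset.sum_eq_zero fun i _ => by
          rcases eq_or_ne i (p 0) with rfl | hi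
          · simp [s', p]
          · simp [hi.symm]
        rw [this, zero_smul, add_zero, hgx]
        have : ∑ i, s i * b.repr (b (p 0, 0)) (i, 0) = 1 := by
          rw [Finset.sum_eq_single (p 0) (fun i _ hi => by simp [hi.symm]) (fun h => absurd (Finset.mem_univ _) h)]
          simp [s, p]
        rw [this, one_smul]
      rw [hval]
      have hne : p 0 ≠ p (Fin.castLE (by norm_num) l) := fun e => hl (Fin.castLE_injective (by norm_num : 3 ≤ 8) (hp e).symm)
      have hs1 : s (p (Fin.castLE (by norm_num) l)) = 1 := if_pos (by show (l : ℕ) < 4; omega)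
      rw [map_add, Finsupp.add_apply, b.repr_self, Finsupp.single_eq_of_ne (by simp [hne.symm]), zero_add, map_sum, Finsupp.finsetSum_apply,
        Finset.sum_eq_single (p (Fin.castLE (by norm_num) l)) (fun i _ hi => by simp [hi]) (fun h => absurd (Finset.mem_univ _) h),
        map_smul, Finsupp.smul_apply, b.repr_self, Finsupp.single_eq_same, hs1]
      simp
    exact between one_pos b hb (i0 := p 0) (i1 := p (Fin.castLE (by norm_num) (1 : Fin 3))) (i2 := p (Fin.castLE (by norm_num) (2 : Fin 3)))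
      (hp.ne (by decide)) (hp.ne (by decide)) (g * g') hdet
      (fun x => by rw [Units.val_mul, ← Matrix.mulVec_mulVec, hgc, hgc']) 0 0 0 (h3 1 (by decide)) (h3 2 (by decide))
  · have ht : 3 ≤ t := by omega
    have h0 : ((Fintype.card F : ℕ) : F) = 0 := Nat.cast_card_eq_zero F
    rw [hq] at h0
    have h2 : (2 : F) = 0 := by exact_mod_cast h0
    have hval : ∀ a : F, a = 0 ∨ a = 1 := fun a => by
      by_cases ha : a = 0
      · exact Or.inl ha
      · exact Or.inr (by have := FiniteField.pow_card_sub_one_eq_one a ha; rw [hq] at this; simpa using this)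
    have hcnt : ∀ x, cnt b x = ∑ i, (b.repr x (i, 0) * b.repr x (i, 0) + b.repr x (i, 0) * b.repr x (i, 1) + b.repr x (i, 1) * b.repr x (i, 1)) := fun x => by
      simp only [cnt, Fin.forall_fin_two]
      refine Finset.sum_congr rfl fun i _ => ?_
      rcases hval (b.repr x (i, 0)) with e | e <;> rcases hval (b.repr x (i, 1)) with e' | e' <;> simp [e, e']
      linear_combination h2
    let u : Fin t → F := fun i => if (i : ℕ) < 3 then 1 else 0
    have hu : ∀ i, u i * u i = u i := fun i => by simp only [u]; split_ifs <;> simp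
    have hu3 : ∑ i, u i = 3 := by
      rw [Finset.sum_boole]
      have : (Finset.univ.filter fun i : Fin t => (i : ℕ) < 3) = (Finset.univ : Finset (Fin 3)).map (Fin.castLEEmb ht) := by
        ext i
        simp only [Finset.mem_filter, Finset.mem_univ, true_and, Finset.mem_map]
        exact ⟨fun hi => ⟨⟨i, hi⟩, by ext; simp⟩, fun ⟨l, e⟩ => e ▸ l.2⟩
      rw [this]; simp
    let L : (Fin n → F) →ₗ[F] F := ∑ i, u i • (Finsupp.lapply (i, (1 : Fin 2))).comp b.repr.toLinearMap
    have hL : ∀ x, L x = ∑ i, u i * b.repr x (i, 1) := fun x => by simp [L]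
    set w := ∑ i, u i • b (i, 0) with hw
    have hw0 : ∀ i, b.repr w (i, 0) = u i := fun i => by simp [hw, Finsupp.single_apply, Prod.ext_iff]
    have hw1 : ∀ i, b.repr w (i, 1) = 0 := fun i => by simp [hw, Finsupp.single_apply, Prod.ext_iff]
    have hLw : L w = 0 := by rw [hL]; exact Finset.sum_eq_zero fun i _ => by rw [hw1, mul_zero]
    obtain ⟨k, hkx, hkd⟩ := exists_map L w (by rw [hLw, add_zero]; exact one_ne_zero)
    have hk : k ∈ Cfsg.Geo.specialLinear (Fin n) F := by
      show Matrix.GeneralLinearGroup.det k = 1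
      exact Units.ext (hkd.trans (by rw [hLw, add_zero, Units.val_one]))
    let q : Fin 3 → Fin t := fun l => Fin.castLE ht l
    have hpres : ∀ x, cnt b ((k : Matrix (Fin n) (Fin n) F) *ᵥ x) = cnt b x := fun x => by
      rw [hkx, hcnt, hcnt]
      have hl := hL x
      generalize L x = l at hl ⊢
      simp only [map_add, map_smul, Finsupp.add_apply, Finsupp.smul_apply, smul_eq_mul, hw0, hw1, mul_zero, add_zero]
      have e : ∀ i, (b.repr x (i, 0) + l * u i) * (b.repr x (i, 0) + l * u i) + (b.repr x (i, 0) + l * u i) * b.repr x (i, 1) +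
          b.repr x (i, 1) * b.repr x (i, 1) = (b.repr x (i, 0) * b.repr x (i, 0) + b.repr x (i, 0) * b.repr x (i, 1) + b.repr x (i, 1) * b.repr x (i, 1)) +
          (2 * l) * (u i * b.repr x (i, 0)) + l * (u i * b.repr x (i, 1)) + (l * l) * u i := fun i => by
        linear_combination (l * l) * hu i
      simp only [e, Finset.sum_add_distrib, ← Finset.mul_sum, ← hl, hu3]
      linear_combination (l * (∑ i, u i * b.repr x (i, 0)) + 2 * l * l) * h2
    have h3 : ∀ l : Fin 3, l ≠ 0 → b.repr ((k : Matrix (Fin n) (Fin n) F) *ᵥ b (q 0, 1)) (q l, 0) ≠ 0 := by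
      intro l hl
      have hv : L (b (q 0, 1)) = 1 := by
        rw [hL, Finset.sum_eq_single (q 0) (fun i _ hi => by simp [hi.symm]) (fun h => absurd (Finset.mem_univ _) h)]
        simp [u, q]
      rw [hkx, hv, one_smul, map_add, Finsupp.add_apply, hw0]
      simp [u, q, Finsupp.single_apply, Prod.ext_iff, l.2]
    exact between two_pos b hb (i0 := q 0) (i1 := q 1) (i2 := q 2)
      (fun e => absurd (Fin.castLE_injective ht e) (by decide)) (fun e => absurd (Fin.castLE_injective ht e) (by decide))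
      k hk hpres 1 0 0 (h3 1 (by decide)) (h3 2 (by decide))

end Cfsg.Agent.S5635
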