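import Cfsg.Statements.S5639
import Mathlib
import Cfsg.Agent.Lib.Classical.SubfieldMax

set_option autoImplicit false
open Cfsg

namespace Cfsg.Agent.S5639

open Cfsg.Lib.Classical Matrix

/-- For a finite field F, a subfield F₀ with |F| = |F₀| ^ r for a prime r, and n ≥ 13, the subfield group (the conjugate by any P of the product of GL_n(F₀) with the non-zero scalars of F, intersected with SL_n(F)) is a maximal subgroup of SL_n(F). -/
theorem result {F : Type*} [Field F] [Fintype F] (n : ℕ) (hn : 13 ≤ n) (F₀ : Subfield F) (r : ℕ) (hr : r.Prime) (hcard : Fintype.card F = Nat.card F₀ ^ r) (P : Matrix.GeneralLinearGroup (Fin n) F) : Cfsg.Geo.IsMaximalIn (Cfsg.Geo.specialLinear (Fin n) F) (Cfsg.Geo.subfieldSubgroup F₀ P ⊓ Cfsg.Geo.specialLinear (Fin n) F) := by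
  classical
  have mem : ∀ g : GL (Fin n) F, g ∈ Cfsg.Geo.subfieldSubgroup F₀ P ↔
      ScalRat F₀ ((P⁻¹ * g * P : GL (Fin n) F) : Matrix (Fin n) (Fin n) F) := by
    intro g
    constructor
    · rintro ⟨h, hh, rfl⟩
      have hN : (Cfsg.Geo.scalars (Fin n) F).Normal := by
        refine ⟨fun a ha b => ?_⟩
        obtain ⟨c, hc⟩ := (Cfsg.Geo.mem_scalars_iff _).1 ha
        refine (Cfsg.Geo.mem_scalars_iff _).2 ⟨c, ?_⟩
        simp [Units.val_mul, hc]
      obtain ⟨a, ⟨A, rfl⟩, b, hb, rfl⟩ := Subgroup.mem_sup_of_normal_right.1 hh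
      obtain ⟨c, hc⟩ := (Cfsg.Geo.mem_scalars_iff _).1 hb
      refine ⟨(c : F)⁻¹, inv_ne_zero c.ne_zero, ?_⟩
      rw [MulEquiv.coe_toMonoidHom, MulAut.conj_apply,
        show P⁻¹ * (P * (Matrix.GeneralLinearGroup.map F₀.subtype A * b) * P⁻¹) * P =
          Matrix.GeneralLinearGroup.map F₀.subtype A * b by group, Units.val_mul, hc,
        Matrix.mul_smul, mul_one, smul_smul, inv_mul_cancel₀ c.ne_zero, one_smul]
      exact fun i j => SetLike.coe_mem _
    · rintro ⟨c, hc, hcX⟩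
      set X : GL (Fin n) F := P⁻¹ * g * P with hX
      let A₀ : Matrix (Fin n) (Fin n) F₀ := fun i j => ⟨_, hcX i j⟩
      have hmap : A₀.map F₀.subtype = c • (X : Matrix (Fin n) (Fin n) F) := rfl
      have hdet : A₀.det ≠ 0 := by
        intro h
        have h1 := RingHom.map_det F₀.subtype A₀
        rw [h, map_zero, RingHom.mapMatrix_apply, hmap, det_smul] at h1
        exact mul_ne_zero (pow_ne_zero _ hc) (Matrix.GeneralLinearGroup.det X).ne_zero h1.symm
      let A : GL (Fin n) F₀ := Matrix.GeneralLinearGroup.mkOfDetNeZero A₀ hdet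
      let b : GL (Fin n) F := Units.map (Matrix.scalar (Fin n) : F →+* _).toMonoidHom (Units.mk0 c hc)⁻¹
      refine ⟨Matrix.GeneralLinearGroup.map F₀.subtype A * b,
        Subgroup.mul_mem_sup ⟨A, rfl⟩ ⟨(Units.mk0 c hc)⁻¹, rfl⟩, ?_⟩
      have e : Matrix.GeneralLinearGroup.map F₀.subtype A * b = X := by
        ext1
        rw [Units.val_mul]
        change A₀.map F₀.subtype * Matrix.scalar (Fin n) (c⁻¹) = _
        rw [hmap, scalar_apply, ← smul_one_eq_diagonal, Matrix.mul_smul, mul_one, smul_smul,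
          inv_mul_cancel₀ hc, one_smul]
      rw [e, hX, MulEquiv.coe_toMonoidHom, MulAut.conj_apply]
      group
  have hdet : ∀ g : GL (Fin n) F,
      P * g * P⁻¹ ∈ Cfsg.Geo.specialLinear (Fin n) F ↔ (g : Matrix (Fin n) (Fin n) F).det = 1 := by
    intro g
    rw [Cfsg.Geo.specialLinear, MonoidHom.mem_ker, map_mul, map_mul, map_inv, mul_inv_cancel_comm,
      Units.ext_iff]
    rfl
  refine ⟨lt_of_le_not_ge inf_le_right fun h => ?_, fun M hle hM => ?_⟩
  · obtain ⟨lam, hlam⟩ : ∃ lam : F, lam ∉ F₀ := by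
      by_contra! hall
      have h1 := Nat.card_congr (Equiv.subtypeUnivEquiv hall)
      rw [Nat.card_eq_fintype_card (α := F), hcard] at h1
      have h2 : 1 < Nat.card F₀ := Finite.one_lt_card
      nth_rw 1 [← pow_one (Nat.card F₀)] at h1
      have := Nat.pow_right_injective h2 h1
      exact hr.one_lt.ne this
    let i₀ : Fin n := ⟨0, by omega⟩
    let i₁ : Fin n := ⟨1, by omega⟩
    have hne : i₀ ≠ i₁ := by simp [i₀, i₁]
    set T := tvGL (Pi.single i₀ 1 : Fin n → F) (Pi.single i₁ lam) (by simp [hne.symm]) with hT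
    have hm := h ((hdet T).2 (by rw [hT, coe_tvGL, det_tv]; simp [hne.symm]))
    obtain ⟨c, hc, hcT⟩ := (mem _).1 hm.1
    rw [show P⁻¹ * (P * T * P⁻¹) * P = T by group, hT, coe_tvGL] at hcT
    have h1 := hcT i₀ i₀
    have h2 := hcT i₀ i₁
    simp [tv, vecMulVec_apply, hne, hne.symm] at h1 h2
    have h3 := F₀.mul_mem (F₀.inv_mem h1) h2
    rw [inv_mul_cancel_left₀ hc] at h3
    exact hlam h3
  by_cases hc : M ≤ Cfsg.Geo.subfieldSubgroup F₀ P
  · exact Or.inl (le_antisymm (le_inf hc hM) hle)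
  obtain ⟨g, hg, hgn⟩ := SetLike.not_le_iff_exists.1 hc
  refine Or.inr (le_antisymm hM ?_)
  rcases ker_det_le_or_forall_scalRat (F₀ := F₀) (M := M.comap (MulAut.conj P).toMonoidHom)
    (fun u hu hd => by
      rw [Subgroup.mem_comap, MulEquiv.coe_toMonoidHom, MulAut.conj_apply]
      refine hle ⟨(mem _).2 ?_, (hdet u).2 hd⟩
      rw [show P⁻¹ * (P * u * P⁻¹) * P = u by group]
      exact ⟨1, one_ne_zero, by rwa [one_smul]⟩) hr (by rw [Nat.card_eq_fintype_card, hcard])
    (by simp; omega) (by simp; omega) with h | h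
  · intro x hx
    have hx' : P⁻¹ * x * P ∈ (Matrix.GeneralLinearGroup.det : GL (Fin n) F →* Fˣ).ker := by
      rw [Cfsg.Geo.specialLinear, MonoidHom.mem_ker] at hx
      rw [MonoidHom.mem_ker]
      simp [hx]
    have hxM := h hx'
    rwa [Subgroup.mem_comap, MulEquiv.coe_toMonoidHom, MulAut.conj_apply,
      show P * (P⁻¹ * x * P) * P⁻¹ = x by group] at hxM
  · refine absurd ((mem g).2 ?_) hgn
    refine h _ ?_
    rwa [Subgroup.mem_comap, MulEquiv.coe_toMonoidHom, MulAut.conj_apply,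
      show P * (P⁻¹ * g * P) * P⁻¹ = g by group]

end Cfsg.Agent.S5639
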