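import Cfsg.Statements.S5642
import Mathlib
import Cfsg.Agent.Lib.Classical.SymplecticInSL
import Cfsg.Agent.Lib.Classical.FormFn

set_option autoImplicit false
open Cfsg

namespace Cfsg.Agent.S5642

open Cfsg.Lib.Classical Matrix

/-- For a finite field F and n ≥ 13, let f be a non-degenerate symplectic form on F^n (so n is even). Then the elements of SL_n(F) that are similarities of f (f(gu, gv) = c f(u, v) for a non-zero scalar c depending on g) form a maximal subgroup of SL_n(F). -/
theorem result {F : Type*} [Field F] [Fintype F] (n : ℕ) (hn : 13 ≤ n) (f : (Fin n → F) → (Fin n → F) → F) (hf : Cfsg.Geo.IsSymplecticForm f) : Cfsg.Geo.IsMaximalIn (Cfsg.Geo.specialLinear (Fin n) F) (Cfsg.Geo.similarityGroup f ⊓ Cfsg.Geo.specialLinear (Fin n) F) := by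
  have hA := biForm_isAlt hf
  have hB := biForm_nondegenerate hf.bilinear hf.nondegenerate
  obtain ⟨g₀, hg₀, hg₀n⟩ := exists_not_similitude (biForm hf.bilinear) hA hB (by simp; omega)
  refine ⟨lt_of_le_not_ge inf_le_right fun h => hg₀n (h hg₀).1, fun M hle hM => ?_⟩
  by_cases hc : M ≤ Cfsg.Geo.similarityGroup f
  · exact Or.inl (le_antisymm (le_inf hc hM) hle)
  obtain ⟨g, hg, hgn⟩ := SetLike.not_le_iff_exists.1 hc
  refine Or.inr (le_antisymm hM ?_)
  exact ker_det_le_of_not_similitude (biForm hf.bilinear) hA hB M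
    (fun h hh => hle ⟨⟨1, fun u v => by simpa using hh u v⟩,
      det_eq_one_of_isometry _ hA hB h hh⟩) g hg hgn

end Cfsg.Agent.S5642
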