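import Cfsg.Statements.S5643
import Mathlib
import Cfsg.Agent.Lib.Classical.UnitaryInSL

set_option autoImplicit false
open Cfsg

namespace Cfsg.Agent.S5643

open Cfsg.Lib.Classical Matrix

/-- For a finite field F and n ≥ 13, let σ be a field automorphism of F of order two and f a non-degenerate unitary form on F^n with respect to σ. Then the elements of SL_n(F) that are similarities of f form a maximal subgroup of SL_n(F). -/
theorem result {F : Type*} [Field F] [Fintype F] (n : ℕ) (hn : 13 ≤ n) (σ : F ≃+* F) (f : (Fin n → F) → (Fin n → F) → F) (hf : Cfsg.Geo.IsUnitaryForm σ f) : Cfsg.Geo.IsMaximalIn (Cfsg.Geo.specialLinear (Fin n) F) (Cfsg.Geo.similarityGroup f ⊓ Cfsg.Geo.specialLinear (Fin n) F) := by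
  obtain ⟨g₀, hg₀, hg₀n⟩ := exists_not_unitary hf (by simp; omega)
  refine ⟨lt_of_le_not_ge inf_le_right fun h => hg₀n (h hg₀).1, fun M hle hM => ?_⟩
  by_cases hc : M ≤ Cfsg.Geo.similarityGroup f
  · exact Or.inl (le_antisymm (le_inf hc hM) hle)
  obtain ⟨g, hg, hgn⟩ := SetLike.not_le_iff_exists.1 hc
  refine Or.inr (le_antisymm hM ?_)
  refine ker_det_le_of_not_unitary hf (fun v hv c hc => hle ⟨⟨1, fun x y => ?_⟩, utv_det hf v hv c⟩) (by simp; omega) g hg hgn
  simpa using utv_isometry hf v hv hc x y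

end Cfsg.Agent.S5643
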