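import Cfsg.Statements.S5644
import Mathlib
import Cfsg.Agent.Lib.Classical.OrthogonalInSL
import Cfsg.Agent.Lib.Classical.FormFn

set_option autoImplicit false
open Cfsg

namespace Cfsg.Agent.S5644

open Cfsg.Lib.Classical Matrix

/-- For a finite field F of odd order and n ≥ 13, let Q be a non-degenerate quadratic form on F^n (its polar form is non-degenerate). Then the elements of SL_n(F) that are similarities of Q (Q(gv) = c Q(v) for a non-zero scalar c depending on g) form a maximal subgroup of SL_n(F). -/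
theorem result {F : Type*} [Field F] [Fintype F] (n : ℕ) (hn : 13 ≤ n) (hodd : Odd (Fintype.card F)) (Q : (Fin n → F) → F) (hQ : Cfsg.Geo.IsNondegenerateQuadraticForm Q) : Cfsg.Geo.IsMaximalIn (Cfsg.Geo.specialLinear (Fin n) F) (Cfsg.Geo.quadSimilarityGroup Q ⊓ Cfsg.Geo.specialLinear (Fin n) F) := by
  have h2 : (2 : F) ≠ 0 := Ring.two_ne_zero fun h => by
    have := FiniteField.even_card_of_char_two h
    exact (Nat.not_even_iff_odd.2 hodd) (Nat.even_iff.2 this)
  let B := biForm hQ.polar_bilinear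
  have hB : B.Nondegenerate := biForm_nondegenerate _ hQ.nondegenerate
  have hS : B.IsSymm := ⟨fun x y => by
    change QuadraticMap.polar Q x y = QuadraticMap.polar Q y x
    exact QuadraticMap.polar_comm Q x y⟩
  have hQB : ∀ v, B v v = 2 * Q v := by
    intro v
    change Q (v + v) - Q v - Q v = _
    rw [← two_smul F v, hQ.smul]
    ring
  have hBv : ∀ x y, B x y = Q (x + y) - Q x - Q y := fun x y => rfl
  obtain ⟨p, hpp, -, hp⟩ := exists_sing_avoid hS hB h2 (k := 0) ![] (by simp; omega) ⊥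
    (by rw [finrank_bot]; simp; omega)
  have hp0 : p ≠ 0 := fun e => hp (e ▸ Submodule.zero_mem _)
  obtain ⟨x, hxx, -, hxp⟩ := exists_sing hS hB h2 (k := 0) ![] (by simp; omega) (v := p)
    (by simpa using hp0)
  refine ⟨lt_of_le_not_ge inf_le_right fun h => ?_, fun M hle hM => ?_⟩
  · have hd : rightVec B p ⬝ᵥ p = 0 := by rw [rightVec_dot]; exact hpp
    obtain ⟨⟨μ, hμ⟩, -⟩ := h (tvGL_mem_ker_det p (rightVec B p) hd)
    have e : tv p (rightVec B p) *ᵥ x = x + (1 : F) • p := by
      rw [tv_mulVec, rightVec_dot, hxp]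
    have h3 := hμ x
    change Q (tv p (rightVec B p) *ᵥ x) = _ at h3
    rw [e, one_smul] at h3
    have h4 := hBv x p
    have h5 := hQB x
    have h6 := hQB p
    rw [hxp] at h4
    rw [hxx] at h5
    rw [hpp] at h6
    have hQx : Q x = 0 := (mul_eq_zero.1 h5.symm).resolve_left h2
    have hQp : Q p = 0 := (mul_eq_zero.1 h6.symm).resolve_left h2
    rw [hQx, mul_zero] at h3
    rw [hQx, hQp, h3] at h4
    norm_num at h4
  by_cases hc : M ≤ Cfsg.Geo.quadSimilarityGroup Q
  · exact Or.inl (le_antisymm (le_inf hc hM) hle)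
  obtain ⟨g, hg, hgn⟩ := SetLike.not_le_iff_exists.1 hc
  refine Or.inr (le_antisymm hM ?_)
  refine ker_det_le_of_not_similitude_symm hS hB h2 (fun R hd hi => hle ⟨⟨1, fun v => ?_⟩, hd⟩)
    (by simp; omega) hg fun ⟨μ, hμ⟩ => hgn ?_
  · have := hi v v
    rw [hQB, hQB] at this
    rw [Units.val_one, one_mul]
    exact mul_left_cancel₀ h2 this
  · have hμ0 : μ ≠ 0 := by
      intro h0
      have := hμ (((g⁻¹ : GL (Fin n) F) : Matrix (Fin n) (Fin n) F) *ᵥ x)
        (((g⁻¹ : GL (Fin n) F) : Matrix (Fin n) (Fin n) F) *ᵥ p)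
      rw [mulVec_inv_mulVec, mulVec_inv_mulVec, hxp, h0, zero_mul] at this
      exact one_ne_zero this
    refine ⟨Units.mk0 μ hμ0, fun v => mul_left_cancel₀ h2 ?_⟩
    rw [← hQB, hμ, hQB, Units.val_mk0]
    ring

end Cfsg.Agent.S5644
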