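import Cfsg.Statements.S5645
import Mathlib
import Cfsg.Agent.Lib.Classical.SymplecticSubspaceMax

set_option autoImplicit false
open Cfsg

namespace Cfsg.Agent.S5645

open Cfsg.Lib.Classical Matrix

/-- For a finite field F and m ≥ 7, in the symplectic group Sp_2m(F) of the standard alternating form on F^(2m) (as a subgroup of GL_2m(F)), the stabiliser of any non-zero subspace on which the form vanishes identically is a maximal subgroup. -/
theorem result {F : Type*} [Field F] [Fintype F] (m : ℕ) (hm : 7 ≤ m) (W : Submodule F (Fin m ⊕ Fin m → F)) (hW0 : W ≠ ⊥) (hW : Cfsg.Geo.IsTotallySingularFor (Cfsg.sympForm m F) W) : Cfsg.Geo.IsMaximalIn (Cfsg.spGL m F) (Cfsg.Geo.subspaceStabilizer W ⊓ Cfsg.spGL m F) := by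
  have hA := sympBilin_isAlt F m
  have hB := sympBilin_nondegenerate F m
  have hW' : ∀ u ∈ W, ∀ v ∈ W, sympBilin F m u v = 0 := fun u hu v hv =>
    (sympBilin_apply F m u v).trans (hW u hu v hv)
  refine ⟨lt_of_le_not_ge inf_le_right fun h => ?_, fun M hle hM => ?_⟩
  · obtain ⟨v, c, hvc⟩ := exists_moving_isotropic hA hB hW' hW0
    exact hvc (h (sTGL_mem_spGL v c)).1
  · by_cases hc : M ≤ Cfsg.Geo.subspaceStabilizer W
    · exact Or.inl (le_antisymm (le_inf hc hM) hle)
    · obtain ⟨g, hg, hgn⟩ := SetLike.not_le_iff_exists.1 hc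
      refine Or.inr (le_antisymm hM fun k hk => ?_)
      exact iso_le_of_gt_isotropic_stab hA hB W hW' M (fun h h1 h2 => hle ⟨h2, mem_spGL_iff.2 h1⟩) g (mem_spGL_iff.1 (hM hg)) hg hgn k
        (mem_spGL_iff.1 hk)

end Cfsg.Agent.S5645
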