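import Cfsg.Statements.S5647
import Mathlib
import Cfsg.Agent.Lib.Classical.SymplecticDecompMax

set_option autoImplicit false
open Cfsg

namespace Cfsg.Agent.S5647

open Cfsg.Lib.Classical Matrix

/-- For a finite field F with q elements and m ≥ 7, let D be a decomposition of F^(2m) into t ≥ 2 pairwise orthogonal subspaces of equal dimension k on each of which the standard alternating form is non-degenerate, spanning F^(2m). Unless k = 2 and q = 2, the elements of Sp_2m(F) permuting the members of D form a maximal subgroup of Sp_2m(F). -/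
theorem result {F : Type*} [Field F] [Fintype F] (m : ℕ) (hm : 7 ≤ m) {t : ℕ} (k : ℕ) (D : Fin t → Submodule F (Fin m ⊕ Fin m → F)) (hD : Cfsg.Geo.IsNondegenerateMDecomposition (Cfsg.sympForm m F) k D) (hex : ¬ (k = 2 ∧ Fintype.card F = 2)) : Cfsg.Geo.IsMaximalIn (Cfsg.spGL m F) (Cfsg.Geo.decompositionStabilizer D ⊓ Cfsg.spGL m F) := by
  have hA := sympBilin_isAlt F m
  have hB := sympBilin_nondegenerate F m
  have hnd : ∀ i, NondegOn (sympBilin F m) (D i) := fun i w hw hw0 => by
    obtain ⟨x, hx, hne⟩ := (hD.nondegenerate i w hw hw0).2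
    exact ⟨x, hx, by rwa [sympBilin_apply]⟩
  have horth : ∀ i j, i ≠ j → ∀ u ∈ D i, ∀ v ∈ D j, sympBilin F m u v = 0 :=
    fun i j hij u hu v hv => (sympBilin_apply F m u v).trans (hD.orthogonal i j hij u hu v hv)
  have hex' : k ≠ 2 ∨ ∃ μ : F, μ ≠ 0 ∧ μ ≠ 1 := by
    classical
    by_cases hk : k = 2
    · right
      by_contra hcon
      push Not at hcon
      have hsub : (Finset.univ : Finset F) ⊆ {0, 1} := fun x _ => by
        rcases eq_or_ne x 0 with rfl | hx
        · simp
        · simp [hcon x hx]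
      have h1 := (Finset.card_le_card hsub).trans Finset.card_le_two
      rw [Finset.card_univ] at h1
      have h2 := Fintype.one_lt_card (α := F)
      exact hex ⟨hk, by omega⟩
    · exact Or.inl hk
  refine ⟨lt_of_le_not_ge inf_le_right fun h => ?_, fun M hle hM => ?_⟩
  · have ht := hD.decomp.two_le
    set a : Fin t := ⟨0, by omega⟩
    set b : Fin t := ⟨1, by omega⟩
    have hab : a ≠ b := by simp [a, b, Fin.ext_iff]
    have hne : ∀ i, D i ≠ ⊥ := fun i h0 => by
      have := hD.decomp.finrank_eq i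
      rw [h0, finrank_bot] at this
      have := hD.decomp.pos
      omega
    obtain ⟨z, hz, u, hu, hzu⟩ := (hnd a).exists_pair (hne a)
    obtain ⟨u', hu', hu'0⟩ := (D b).exists_mem_ne_zero_of_ne_bot (hne b)
    obtain ⟨σ, hσ⟩ := (h (sTGL_mem_spGL (u + u') 1)).1
    have hmem : z + (u + u') ∈ D (σ a) := by
      refine (hσ a).le ⟨z, hz, ?_⟩
      rw [Matrix.toLin'_apply, sTGL_mulVec, map_add, hzu, horth a b hab z hz u' hu']
      simp
    by_cases hσa : σ a = a
    · rw [hσa, (D a).add_mem_iff_right hz, (D a).add_mem_iff_right hu] at hmem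
      obtain ⟨w, hw, hne'⟩ := hnd a u' hmem hu'0
      exact hne' (horth b a hab.symm u' hu' w hw)
    · have h1 : sympBilin F m (z + (u + u')) u = 0 := horth _ a hσa _ hmem u hu
      rw [map_add, map_add, LinearMap.add_apply, LinearMap.add_apply, hzu, alt_self hA,
        horth b a hab.symm u' hu' u hu] at h1
      simp at h1
  · by_cases hc : M ≤ Cfsg.Geo.decompositionStabilizer D
    · exact Or.inl (le_antisymm (le_inf hc hM) hle)
    · obtain ⟨g, hg, hgn⟩ := SetLike.not_le_iff_exists.1 hc
      refine Or.inr (le_antisymm hM fun w hw => ?_)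
      exact iso_le_of_gt_decomp hA hB D hnd horth hD.decomp.iSup_eq_top hD.decomp.pos
        hD.decomp.finrank_eq hex' M (fun h h1 h2 => hle ⟨h2, mem_spGL_iff.2 h1⟩) g
        (mem_spGL_iff.1 (hM hg)) hg hgn w (mem_spGL_iff.1 hw)

end Cfsg.Agent.S5647
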