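import Cfsg.Statements.S5649
import Mathlib
import Cfsg.Agent.Lib.Classical.LagrangianPairTop

set_option autoImplicit false
open Cfsg

namespace Cfsg.Agent.S5649

open Cfsg.Lib.Classical Matrix

/-- For a finite field F of odd order and m ≥ 7, let D be a decomposition of F^(2m) into two complementary subspaces of dimension m on each of which the standard alternating form vanishes identically. Then the elements of Sp_2m(F) preserving or interchanging the two subspaces form a maximal subgroup of Sp_2m(F). -/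
theorem result {F : Type*} [Field F] [Fintype F] (m : ℕ) (hm : 7 ≤ m) (hodd : Odd (Fintype.card F)) (D : Fin 2 → Submodule F (Fin m ⊕ Fin m → F)) (hD : Cfsg.Geo.IsMDecomposition m D) (hts : ∀ i, Cfsg.Geo.IsTotallySingularFor (Cfsg.sympForm m F) (D i)) : Cfsg.Geo.IsMaximalIn (Cfsg.spGL m F) (Cfsg.Geo.decompositionStabilizer D ⊓ Cfsg.spGL m F) := by
  have h01 : (0 : Fin 2) ≠ 1 := by decide
  have hcompl : IsCompl (D 0) (D 1) := by
    refine ⟨hD.indep.pairwiseDisjoint h01, codisjoint_iff.2 ?_⟩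
    rw [eq_top_iff, ← hD.iSup_eq_top]
    exact iSup_le (Fin.forall_fin_two.2 ⟨le_sup_left, le_sup_right⟩)
  have P : IsPol (sympBilin F m) (D 0) (D 1) m :=
    ⟨sympBilin_isAlt F m, sympBilin_nondegenerate F m,
      fun u hu v hv => by rw [sympBilin_apply]; exact hts 0 u hu v hv,
      fun u hu v hv => by rw [sympBilin_apply]; exact hts 1 u hu v hv,
      hcompl, hD.finrank_eq 0, hD.finrank_eq 1⟩
  have h2 : (2 : F) ≠ 0 := Ring.two_ne_zero fun h => by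
    have := FiniteField.even_card_of_char_two h
    rw [Nat.odd_iff] at hodd
    omega
  have mapEq : ∀ (g : GL (Fin m ⊕ Fin m) F) (i j : Fin 2),
      (∀ x ∈ D i, (g : Matrix (Fin m ⊕ Fin m) (Fin m ⊕ Fin m) F) *ᵥ x ∈ D j) →
      (D i).map (Matrix.toLin' (g : Matrix (Fin m ⊕ Fin m) (Fin m ⊕ Fin m) F)) = D j := by
    intro g i j h
    refine Submodule.eq_of_le_of_finrank_eq ?_ ?_
    · rintro _ ⟨x, hx, rfl⟩
      rw [Matrix.toLin'_apply]
      exact h x hx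
    · rw [← LinearEquiv.finrank_eq (Submodule.equivMapOfInjective _ (fun x y hxy =>
        (mulVec_inj g).1 (by simpa [Matrix.toLin'_apply] using hxy)) (D i)), hD.finrank_eq i,
        hD.finrank_eq j]
  have hfwd : ∀ g : GL (Fin m ⊕ Fin m) F, ((g ∈ Pres (D 0) (D 1)) ∨
      ((∀ x ∈ D 0, (g : Matrix (Fin m ⊕ Fin m) (Fin m ⊕ Fin m) F) *ᵥ x ∈ D 1) ∧
        ∀ x ∈ D 1, (g : Matrix (Fin m ⊕ Fin m) (Fin m ⊕ Fin m) F) *ᵥ x ∈ D 0)) →
      g ∈ Cfsg.Geo.decompositionStabilizer D := by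
    rintro g (⟨h0, h1⟩ | ⟨h0, h1⟩)
    · exact ⟨1, Fin.forall_fin_two.2 ⟨mapEq g 0 0 fun x hx => (h0 x).1 hx,
        mapEq g 1 1 fun x hx => (h1 x).1 hx⟩⟩
    · refine ⟨Equiv.swap 0 1, Fin.forall_fin_two.2 ⟨?_, ?_⟩⟩
      · rw [Equiv.swap_apply_left]; exact mapEq g 0 1 h0
      · rw [Equiv.swap_apply_right]; exact mapEq g 1 0 h1
  have hbwd : ∀ g : GL (Fin m ⊕ Fin m) F, g ∈ Cfsg.Geo.decompositionStabilizer D →
      ((g ∈ Pres (D 0) (D 1)) ∨
      ((∀ x ∈ D 0, (g : Matrix (Fin m ⊕ Fin m) (Fin m ⊕ Fin m) F) *ᵥ x ∈ D 1) ∧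
        ∀ x ∈ D 1, (g : Matrix (Fin m ⊕ Fin m) (Fin m ⊕ Fin m) F) *ᵥ x ∈ D 0)) := by
    rintro g ⟨π, hπ⟩
    have maps : ∀ i, ∀ x ∈ D i,
        (g : Matrix (Fin m ⊕ Fin m) (Fin m ⊕ Fin m) F) *ᵥ x ∈ D (π i) := fun i x hx => by
      rw [← hπ i, ← Matrix.toLin'_apply]
      exact Submodule.mem_map_of_mem hx
    have hcase : ∀ ρ : Equiv.Perm (Fin 2), (ρ 0 = 0 ∧ ρ 1 = 1) ∨ (ρ 0 = 1 ∧ ρ 1 = 0) := by decide
    have m0 := maps 0
    have m1 := maps 1
    rcases hcase π with ⟨e0, e1⟩ | ⟨e0, e1⟩ <;> rw [e0] at m0 <;> rw [e1] at m1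
    · exact Or.inl ⟨map_eq_of_maps_to m0, map_eq_of_maps_to m1⟩
    · exact Or.inr ⟨m0, m1⟩
  refine ⟨lt_of_le_not_ge inf_le_right fun h => ?_, fun M hle hM => ?_⟩
  · obtain ⟨a, ha, ha0⟩ := (D 0).exists_mem_ne_zero_of_ne_bot fun e => by
      have := hD.finrank_eq 0
      rw [e, finrank_bot] at this
      omega
    obtain ⟨b, hb, hbv⟩ := P.exists_dual (indep_one P ha0) (by intro i; fin_cases i; exact ha) ![1]
    have hab : sympBilin F m a b = 1 := hbv 0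
    have hb0 : b ≠ 0 := fun e => by rw [e, map_zero] at hab; exact zero_ne_one hab
    have haD : a ∉ D 1 := fun h' => ha0 (Submodule.disjoint_def.1 hcompl.disjoint a ha h')
    have hbD : b ∉ D 0 := fun h' => hb0 (Submodule.disjoint_def.1 hcompl.disjoint b h' hb)
    have hmov : (sTGL (sympBilin F m) P.alt b 1 : Matrix (Fin m ⊕ Fin m) (Fin m ⊕ Fin m) F) *ᵥ a
        = a + b := by rw [sTGL_mulVec, hab, mul_one, one_smul]
    rcases hbwd _ (h (sTGL_mem_spGL b 1)).1 with ⟨h0, -⟩ | ⟨h0, -⟩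
    · exact hbD (((D 0).add_mem_iff_right ha).1 (hmov ▸ (h0 a).1 ha))
    · exact haD (((D 1).add_mem_iff_left hb).1 (hmov ▸ h0 a ha))
  · by_cases hc : M ≤ Cfsg.Geo.decompositionStabilizer D
    · exact Or.inl (le_antisymm (le_inf hc hM) hle)
    obtain ⟨g, hg, hgn⟩ := SetLike.not_le_iff_exists.1 hc
    refine Or.inr (le_antisymm hM (spGL_le_of_sTGL_mem fun v c => ?_))
    exact sTGL_mem_of_gt_pair P h2 hm (fun h hi hh => hle ⟨hfwd h hh, mem_spGL_iff.2 hi⟩) g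
      (mem_spGL_iff.1 (hM hg)) hg (fun hh => hgn (hfwd g hh)) v c

end Cfsg.Agent.S5649
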