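import Cfsg.Statements.S5650
import Mathlib
import Cfsg.Agent.Lib.Classical.SubfieldMem
import Cfsg.Agent.Lib.Classical.SympSubfieldMax

set_option autoImplicit false
open Cfsg

namespace Cfsg.Agent.S5650

open Cfsg.Lib.Classical Matrix

/-- For a finite field F, a subfield F₀ with |F| = |F₀| ^ r for a prime r, and m ≥ 7, let P be an invertible matrix and ζ a non-zero scalar such that ζ times the standard alternating form takes values in F₀ on the F₀-span of the columns of P. Then the elements of Sp_2m(F) lying in the subfield group of P (the conjugate by P of the product of GL_2m(F₀) with the scalars) form a maximal subgroup of Sp_2m(F). -/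
theorem result {F : Type*} [Field F] [Fintype F] (m : ℕ) (hm : 7 ≤ m) (F₀ : Subfield F) (r : ℕ) (hr : r.Prime) (hcard : Fintype.card F = Nat.card F₀ ^ r) (P : Matrix.GeneralLinearGroup (Fin m ⊕ Fin m) F) (ζ : F) (hζ : ζ ≠ 0) (hP : Cfsg.Geo.IsFormRationalStructure (Cfsg.sympForm m F) F₀ ζ P) : Cfsg.Geo.IsMaximalIn (Cfsg.spGL m F) (Cfsg.Geo.subfieldSubgroup F₀ P ⊓ Cfsg.spGL m F) := by
  classical
  let Pm := (P : Matrix (Fin m ⊕ Fin m) (Fin m ⊕ Fin m) F)
  have hcard' : Nat.card F = Nat.card F₀ ^ r := by rw [Nat.card_eq_fintype_card, hcard]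
  have hn : 14 ≤ Fintype.card (Fin m ⊕ Fin m) := by simp; omega
  let B : LinearMap.BilinForm F (Fin m ⊕ Fin m → F) :=
    ζ • (sympBilin F m).compl₁₂ Pm.mulVecLin Pm.mulVecLin
  have hBe : ∀ u v, B u v = ζ * sympBilin F m (Pm *ᵥ u) (Pm *ᵥ v) := fun u v => rfl
  have hA : B.IsAlt := fun v => by
    rw [hBe, sympBilin_isAlt F m, mul_zero]
  have hB : B.Nondegenerate := by
    refine ⟨fun v hv => ?_, fun v hv => ?_⟩
    · have h : Pm *ᵥ v = 0 := (sympBilin_nondegenerate F m).1 _ fun x => by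
        have h1 := hv (((P⁻¹ : GL (Fin m ⊕ Fin m) F) : Matrix _ _ F) *ᵥ x)
        rw [hBe, mulVec_inv_mulVec, mul_eq_zero] at h1
        exact h1.resolve_left hζ
      exact (mulVec_inj P).1 (by rw [h, mulVec_zero])
    · have h : Pm *ᵥ v = 0 := (sympBilin_nondegenerate F m).2 _ fun x => by
        have h1 := hv (((P⁻¹ : GL (Fin m ⊕ Fin m) F) : Matrix _ _ F) *ᵥ x)
        rw [hBe, mulVec_inv_mulVec, mul_eq_zero] at h1
        exact h1.resolve_left hζ
      exact (mulVec_inj P).1 (by rw [h, mulVec_zero])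
  have hBR : ∀ u v : Fin m ⊕ Fin m → F₀, B (co u) (co v) ∈ F₀ := fun u v => by
    rw [hBe, sympBilin_apply]
    exact hP (co u) (co v) (fun i => (u i).2) (fun i => (v i).2)
  have hiso : ∀ g : GL (Fin m ⊕ Fin m) F, P * g * P⁻¹ ∈ Cfsg.spGL m F ↔
      ∀ x y, B ((g : Matrix _ _ F) *ᵥ x) ((g : Matrix _ _ F) *ᵥ y) = B x y := by
    intro g
    rw [mem_spGL_iff]
    constructor
    · intro h x y
      have h1 := h (Pm *ᵥ x) (Pm *ᵥ y)
      simp only [Units.val_mul, ← mulVec_mulVec, Pm, inv_mulVec_mulVec] at h1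
      rw [hBe, hBe, h1]
    · intro h x y
      have h1 := h (((P⁻¹ : GL (Fin m ⊕ Fin m) F) : Matrix _ _ F) *ᵥ x)
        (((P⁻¹ : GL (Fin m ⊕ Fin m) F) : Matrix _ _ F) *ᵥ y)
      rw [hBe, hBe] at h1
      have h2 := mul_left_cancel₀ hζ h1
      simp only [Pm, mulVec_inv_mulVec] at h2
      simpa only [Units.val_mul, ← mulVec_mulVec] using h2
  obtain ⟨i⟩ : Nonempty (Fin m ⊕ Fin m) := Fintype.card_pos_iff.1 (by omega)
  refine ⟨lt_of_le_not_ge inf_le_right fun h => ?_, fun M hle hM => ?_⟩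
  · obtain ⟨l, hl⟩ := exists_not_mem_subfield hr hcard'
    let u : Fin m ⊕ Fin m → F₀ := Pi.single i 1
    have hu : u ≠ 0 := fun h => one_ne_zero (α := F₀) (by simpa [u] using congrFun h i)
    obtain ⟨v, hv⟩ := exists_ratDual₁ hA hB hBR hu 1
    rw [OneMemClass.coe_one] at hv
    set T := sTGL B hA (co u) l
    have hm := h ((hiso T).2 (sTGL_isometry B hA _ _))
    obtain ⟨c, hc, hcT⟩ := mem_subfieldSubgroup_iff.1 hm.1
    rw [show P⁻¹ * (P * T * P⁻¹) * P = T by group] at hcT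
    have rat : ∀ w : Fin m ⊕ Fin m → F₀, ∀ j,
        ((c • (T : Matrix (Fin m ⊕ Fin m) (Fin m ⊕ Fin m) F)) *ᵥ co w) j ∈ F₀ := fun w j => by
      rw [mulVec, dotProduct]
      exact F₀.sum_mem fun k _ => F₀.mul_mem (hcT j k) (w k).2
    have h1 := rat u i
    rw [smul_mulVec, sTGL_mulVec, alt_self hA] at h1
    simp [u] at h1
    have h2 := rat v i
    rw [smul_mulVec, sTGL_mulVec, alt_swap hA (co u) (co v), hv] at h2
    have h3 := F₀.mul_mem (F₀.inv_mem h1) h2
    simp only [Pi.smul_apply, Pi.add_apply, smul_eq_mul, inv_mul_cancel_left₀ hc, u, co_single,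
      Pi.single_eq_same, OneMemClass.coe_one, mul_one] at h3
    have h4 := F₀.sub_mem (v i).2 h3
    simp [co] at h4
    exact hl (by simpa using h4)
  by_cases hc : M ≤ Cfsg.Geo.subfieldSubgroup F₀ P
  · exact Or.inl (le_antisymm (le_inf hc hM) hle)
  obtain ⟨g, hg, hgn⟩ := SetLike.not_le_iff_exists.1 hc
  refine Or.inr (le_antisymm hM ?_)
  set M' := M.comap (MulAut.conj P).toMonoidHom with hM'
  have mem' : ∀ u, u ∈ M' ↔ P * u * P⁻¹ ∈ M := fun u => by
    rw [hM', Subgroup.mem_comap, MulEquiv.coe_toMonoidHom, MulAut.conj_apply]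
  by_cases hfull : ∀ w a, sTGL B hA w a ∈ M'
  · intro x hx
    have h1 := iso_mem_of_sTGL_mem B hA hB M' hfull (P⁻¹ * x * P)
      ((hiso _).1 (by rwa [show P * (P⁻¹ * x * P) * P⁻¹ = x by group]))
    rwa [mem', show P * (P⁻¹ * x * P) * P⁻¹ = x by group] at h1
  · refine absurd (mem_subfieldSubgroup_iff.2 (forall_scalRat_of_not_full hA hB hBR
      (M := M') (fun u hu hi => ?_) (fun u hu => (hiso u).1 (hM ((mem' u).1 hu))) hr hcard'
      (by omega) hfull (by omega) _ ((mem' _).2 ?_))) hgn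
    · refine (mem' u).2 (hle ⟨mem_subfieldSubgroup_iff.2 ?_, (hiso u).2 hi⟩)
      rw [show P⁻¹ * (P * u * P⁻¹) * P = u by group]
      exact ⟨1, one_ne_zero, by rw [one_smul]; exact hu⟩
    · rwa [show P * (P⁻¹ * g * P) * P⁻¹ = g by group]

end Cfsg.Agent.S5650
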