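import Cfsg.Statements.S5652
import Mathlib
import Cfsg.Agent.Lib.Classical.SymplecticOrthogonalMax

set_option autoImplicit false
open Cfsg

namespace Cfsg.Agent.S5652

open Cfsg.Lib.Classical Matrix

/-- For a finite field F of characteristic two and m ≥ 7, let Q be a non-degenerate quadratic form on F^(2m) whose polar form is the standard alternating form. Then the elements of Sp_2m(F) that are similarities of Q (they are exactly the isometries of Q) form a maximal subgroup of Sp_2m(F). -/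
theorem result {F : Type*} [Field F] [Fintype F] (m : ℕ) (hm : 7 ≤ m) (heven : ¬ Odd (Fintype.card F)) (Q : (Fin m ⊕ Fin m → F) → F) (hQ : Cfsg.Geo.IsNondegenerateQuadraticForm Q) (hpol : ∀ u v, QuadraticMap.polar Q u v = Cfsg.sympForm m F u v) : Cfsg.Geo.IsMaximalIn (Cfsg.spGL m F) (Cfsg.Geo.quadSimilarityGroup Q ⊓ Cfsg.spGL m F) := by
  have hA := sympBilin_isAlt F m
  have hB := sympBilin_nondegenerate F m
  have hchar : ringChar F = 2 :=
    FiniteField.even_card_iff_char_two.2 (Nat.even_iff.1 (Nat.not_odd_iff_even.1 heven))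
  have h2 : (2 : F) = 0 := by
    have := ringChar.Nat.cast_ringChar (R := F)
    rwa [hchar, Nat.cast_ofNat] at this
  have hsq : ∀ a : F, IsSquare a := FiniteField.isSquare_of_char_two hchar
  have hQB : ∀ x y, Q (x + y) = Q x + Q y + sympBilin F m x y := fun x y => by
    rw [sympBilin_apply, ← hpol, QuadraticMap.polar]
    ring
  have hn : 7 ≤ Fintype.card (Fin m ⊕ Fin m) := by
    rw [Fintype.card_sum, Fintype.card_fin]
    omega
  have hfwd : ∀ h : GL (Fin m ⊕ Fin m) F, (∀ x, Q ((h : Matrix _ _ F) *ᵥ x) = Q x) →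
      h ∈ Cfsg.Geo.quadSimilarityGroup Q ⊓ Cfsg.spGL m F := fun h hh =>
    ⟨⟨1, fun v => by simpa using hh v⟩, mem_spGL_iff.2 (isometry_of_quad hQB hh)⟩
  have hbwd : ∀ h : GL (Fin m ⊕ Fin m) F, h ∈ Cfsg.Geo.quadSimilarityGroup Q →
      h ∈ Cfsg.spGL m F → ∀ x, Q ((h : Matrix _ _ F) *ᵥ x) = Q x := by
    intro h hq hs x
    obtain ⟨c, hc⟩ := hq
    have : Nonempty (Fin m ⊕ Fin m) := Fintype.card_pos_iff.1 (by omega)
    obtain ⟨u, hu⟩ := exists_ne (0 : Fin m ⊕ Fin m → F)
    obtain ⟨w, -, hw⟩ := nondegOn_top hB u Submodule.mem_top hu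
    have h1 := hQB ((h : Matrix _ _ F) *ᵥ u) ((h : Matrix _ _ F) *ᵥ w)
    rw [← mulVec_add, hc, hc, hc, mem_spGL_iff.1 hs, hQB] at h1
    have hc1 : (c : F) = 1 := by
      refine mul_right_cancel₀ hw ?_
      linear_combination h1
    rw [hc, hc1, one_mul]
  refine ⟨lt_of_le_not_ge inf_le_right fun h => ?_, fun M hle hM => ?_⟩
  · obtain ⟨v, x, hvx⟩ := exists_sTGL_not_quad hA hB hQ.smul hQB h2 (by omega)
    exact hvx (hbwd _ (h (sTGL_mem_spGL v 1)).1 (sTGL_mem_spGL v 1) x)
  · by_cases hc : M ≤ Cfsg.Geo.quadSimilarityGroup Q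
    · exact Or.inl (le_antisymm (le_inf hc hM) hle)
    · obtain ⟨g, hg, hgn⟩ := SetLike.not_le_iff_exists.1 hc
      refine Or.inr (le_antisymm hM fun k hk => ?_)
      exact iso_le_of_gt_quad hA hB hQ.smul hQB h2 hsq hn M (fun h hh => hle (hfwd h hh)) g hg
        (mem_spGL_iff.1 (hM hg)) (fun h => hgn ⟨1, fun v => by simpa using h v⟩) k
        (mem_spGL_iff.1 hk)

end Cfsg.Agent.S5652
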