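import Cfsg.Statements.S5653
import Mathlib
import Cfsg.Agent.Lib.Classical.UnitaryStd
import Cfsg.Agent.Lib.Classical.UnitaryGen
import Cfsg.Agent.Lib.Classical.UnitarySubspaceMax

set_option autoImplicit false
open Cfsg

namespace Cfsg.Agent.S5653

open Cfsg.Lib.Classical Matrix

/-- Let F be the field with q² elements and n ≥ 13, and let SU_n(q) be the group of matrices of determinant one preserving the standard unitary form Σ u_i v_i^q on F^n (the intersection of the unitary group GU_n with the kernel of the determinant). The elements of SU_n(q) stabilising a non-zero subspace on which the form vanishes identically form a maximal subgroup of SU_n(q). -/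
theorem result {F : Type*} [Field F] [Fintype F] (n q : ℕ) (hF : Fintype.card F = q ^ 2) (hn : 13 ≤ n) (W : Submodule F (Fin n → F)) (hW0 : W ≠ ⊥) (hW : Cfsg.Geo.IsTotallySingularFor (Cfsg.hermForm n F q) W) : Cfsg.Geo.IsMaximalIn (Cfsg.GU n F q ⊓ Cfsg.Geo.specialLinear (Fin n) F) (Cfsg.Geo.subspaceStabilizer W ⊓ (Cfsg.GU n F q ⊓ Cfsg.Geo.specialLinear (Fin n) F)) := by
  obtain ⟨σ, hne, hσ, hinv⟩ := exists_frobSq hF
  have hf := hermForm_isUnitaryForm hne hσ hinv n
  obtain ⟨δ, hδ0, hδ⟩ := exists_skew hf.ne_refl hf.involutive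
  have hc : δ + σ δ = 0 := by rw [hδ, add_neg_cancel]
  have hW' : ∀ u ∈ W, ∀ v ∈ W, Cfsg.hermForm n F q u v = 0 := hW
  obtain ⟨w, hw, hw0⟩ := W.exists_mem_ne_zero_of_ne_bot hW0
  obtain ⟨x, hx⟩ := (hf.nondegenerate w hw0).1
  refine ⟨lt_of_le_not_ge inf_le_right fun h => ?_, fun M hle hM => ?_⟩
  · obtain ⟨t, ht⟩ := exists_trace_eq hf.ne_refl hf.involutive
      (a := - Cfsg.hermForm n F q ((Cfsg.hermForm n F q x w)⁻¹ • x) ((Cfsg.hermForm n F q x w)⁻¹ • x))
      (by rw [map_neg, herm_self_fixed hf])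
    obtain ⟨x', hx'w, hx'x⟩ : ∃ x', Cfsg.hermForm n F q x' w = 1 ∧
        x' = (Cfsg.hermForm n F q x w)⁻¹ • x :=
      ⟨_, by rw [hf.smul_left, inv_mul_cancel₀ hx], rfl⟩
    rw [← hx'x] at ht
    have hv : Cfsg.hermForm n F q (x' + t • w) (x' + t • w) = 0 := by
      rw [hf.add_left, herm_add_right hf, herm_add_right hf, hf.smul_left, hf.smul_left,
        herm_smul_right hf, herm_smul_right hf, hW' w hw w hw, hx'w, herm_eq_one_symm hf hx'w]
      linear_combination ht
    have hst := (h (utv_mem_SUgl hf hv hc)).1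
    have h1 := (mem_subspaceStabilizer.1 hst w).1 hw
    have hwv : Cfsg.hermForm n F q w (x' + t • w) = 1 := by
      rw [herm_add_right hf, herm_smul_right hf, hW' w hw w hw, herm_eq_one_symm hf hx'w, mul_zero,
        add_zero]
    rw [utv_mulVec, hwv, mul_one, W.add_mem_iff_right hw, W.smul_mem_iff hδ0] at h1
    have h2 := hW' w hw _ h1
    rw [hwv] at h2
    exact one_ne_zero h2
  · by_cases hc' : M ≤ Cfsg.Geo.subspaceStabilizer W
    · exact Or.inl (le_antisymm (le_inf hc' hM) hle)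
    obtain ⟨g, hg, hgn⟩ := SetLike.not_le_iff_exists.1 hc'
    refine Or.inr (le_antisymm hM fun k hk => ?_)
    exact uGen_top_le_of_singular hf (fun h hd hi hs => hle ⟨hs, mem_GU_iff.2 hi, hd⟩) hW' (mem_GU_iff.1 (hM hg).1) hg hgn
      (mem_uGen_top hf (fun h => by simp at h; omega) (mem_GU_iff.1 hk.1) hk.2)

end Cfsg.Agent.S5653
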