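import Cfsg.Statements.S5654
import Mathlib
import Cfsg.Agent.Lib.Classical.UnitaryStd
import Cfsg.Agent.Lib.Classical.UnitaryGen
import Cfsg.Agent.Lib.Classical.UnitarySubspaceMax

set_option autoImplicit false
open Cfsg

namespace Cfsg.Agent.S5654

open Cfsg.Lib.Classical Matrix

/-- Let F be the field with q² elements and n ≥ 13. In SU_n(q) (determinant-one isometries of the standard unitary form on F^n) the stabiliser of a non-zero subspace W on which the form is non-degenerate and with 2 dim W < n is a maximal subgroup. -/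
theorem result {F : Type*} [Field F] [Fintype F] (n q : ℕ) (hF : Fintype.card F = q ^ 2) (hn : 13 ≤ n) (W : Submodule F (Fin n → F)) (hW0 : W ≠ ⊥) (hW : Cfsg.Geo.IsNondegenerateOn (Cfsg.hermForm n F q) W) (hdim : 2 * Module.finrank F W < n) : Cfsg.Geo.IsMaximalIn (Cfsg.GU n F q ⊓ Cfsg.Geo.specialLinear (Fin n) F) (Cfsg.Geo.subspaceStabilizer W ⊓ (Cfsg.GU n F q ⊓ Cfsg.Geo.specialLinear (Fin n) F)) := by
  obtain ⟨σ, hne, hσ, hinv⟩ := exists_frobSq hF
  have hf := hermForm_isUnitaryForm hne hσ hinv n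
  obtain ⟨δ, hδ0, hδ⟩ := exists_skew hf.ne_refl hf.involutive
  have hc : δ + σ δ = 0 := by rw [hδ, add_neg_cancel]
  have hW' : NondegOnH (Cfsg.hermForm n F q) W := fun w hw hw0 => (hW w hw hw0).2
  refine ⟨lt_of_le_not_ge inf_le_right fun h => ?_, fun M hle hM => ?_⟩
  · obtain ⟨a, ha, haa⟩ := hW'.exists_aniso hf (Nat.pos_of_ne_zero fun e =>
      hW0 (Submodule.finrank_eq_zero.1 e))
    have hsum := hW'.finrank_add hf
    rw [Fintype.card_fin] at hsum
    obtain ⟨b₀, hb₀, hb₀b⟩ := (hW'.hperp hf).exists_aniso hf (by omega)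
    obtain ⟨z, hz⟩ := exists_scale hf hb₀b (α := - Cfsg.hermForm n F q a a)
      (by rw [map_neg, herm_self_fixed hf])
    have hab : Cfsg.hermForm n F q a (z • b₀) = 0 := by
      rw [herm_smul_right hf, herm_eq_zero_symm hf (hb₀ a ha), mul_zero]
    have hv : Cfsg.hermForm n F q (a + z • b₀) (a + z • b₀) = 0 := by
      rw [hf.add_left, herm_add_right hf, herm_add_right hf, hab, herm_eq_zero_symm hf hab, hz]
      ring
    have hst := (h (utv_mem_SUgl hf hv hc)).1
    have h1 := (mem_subspaceStabilizer.1 hst a).1 ha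
    rw [utv_mulVec, herm_add_right hf, hab, add_zero, W.add_mem_iff_right ha,
      W.smul_mem_iff (mul_ne_zero hδ0 haa), W.add_mem_iff_right ha] at h1
    have h2 := hb₀ (z • b₀) h1
    rw [herm_smul_right hf, mul_eq_zero] at h2
    rcases h2 with h2 | h2
    · rw [σ.map_eq_zero_iff.1 h2, zero_smul, herm_zero_left hf] at hz
      exact haa (neg_eq_zero.1 hz.symm)
    · exact hb₀b h2
  · by_cases hc' : M ≤ Cfsg.Geo.subspaceStabilizer W
    · exact Or.inl (le_antisymm (le_inf hc' hM) hle)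
    obtain ⟨g, hg, hgn⟩ := SetLike.not_le_iff_exists.1 hc'
    refine Or.inr (le_antisymm hM fun k hk => ?_)
    exact uGen_top_le_of_nondeg hf (fun h hd hi hs => hle ⟨hs, mem_GU_iff.2 hi, hd⟩) hW' (by simpa using hdim) (by simpa using hn) (mem_GU_iff.1 (hM hg).1) hg hgn
      (mem_uGen_top hf (fun h => by simp at h; omega) (mem_GU_iff.1 hk.1) hk.2)

end Cfsg.Agent.S5654
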