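import Cfsg.Statements.S5657
import Mathlib
import Cfsg.Agent.Lib.Classical.UnitaryPairTop
import Cfsg.Agent.Lib.Classical.UnitaryGen
import Cfsg.Agent.Lib.Classical.UnitaryStd

set_option autoImplicit false
open Cfsg

namespace Cfsg.Agent.S5657

open Cfsg.Lib.Classical Matrix

/-- Let F be the field with q² elements and n = 2k ≥ 13. Let D be a decomposition of F^n into two complementary subspaces of dimension k on each of which the standard unitary form vanishes identically. Then the elements of SU_n(q) preserving or interchanging the two subspaces form a maximal subgroup of SU_n(q). -/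
theorem result {F : Type*} [Field F] [Fintype F] (n q : ℕ) (hF : Fintype.card F = q ^ 2) (hn : 13 ≤ n) (k : ℕ) (hk : 2 * k = n) (D : Fin 2 → Submodule F (Fin n → F)) (hD : Cfsg.Geo.IsMDecomposition k D) (hts : ∀ i, Cfsg.Geo.IsTotallySingularFor (Cfsg.hermForm n F q) (D i)) : Cfsg.Geo.IsMaximalIn (Cfsg.GU n F q ⊓ Cfsg.Geo.specialLinear (Fin n) F) (Cfsg.Geo.decompositionStabilizer D ⊓ (Cfsg.GU n F q ⊓ Cfsg.Geo.specialLinear (Fin n) F)) := by
  obtain ⟨σ, hne, hσ, hinv⟩ := exists_frobSq hF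
  have hf := hermForm_isUnitaryForm hne hσ hinv n
  have h01 : (0 : Fin 2) ≠ 1 := by decide
  have hcompl : IsCompl (D 0) (D 1) := by
    refine ⟨hD.indep.pairwiseDisjoint h01, codisjoint_iff.2 ?_⟩
    rw [eq_top_iff, ← hD.iSup_eq_top]
    exact iSup_le (Fin.forall_fin_two.2 ⟨le_sup_left, le_sup_right⟩)
  have P : IsUPol σ (Cfsg.hermForm n F q) (D 0) (D 1) k :=
    ⟨hf, hts 0, hts 1, hcompl, hD.finrank_eq 0, hD.finrank_eq 1⟩
  have mapEq : ∀ (g : GL (Fin n) F) (i j : Fin 2),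
      (∀ x ∈ D i, (g : Matrix (Fin n) (Fin n) F) *ᵥ x ∈ D j) →
      (D i).map (Matrix.toLin' (g : Matrix (Fin n) (Fin n) F)) = D j := by
    intro g i j h
    refine Submodule.eq_of_le_of_finrank_eq ?_ ?_
    · rintro _ ⟨x, hx, rfl⟩
      rw [Matrix.toLin'_apply]
      exact h x hx
    · rw [← LinearEquiv.finrank_eq (Submodule.equivMapOfInjective _ (fun x y hxy =>
        (mulVec_inj g).1 (by simpa [Matrix.toLin'_apply] using hxy)) (D i)), hD.finrank_eq i,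
        hD.finrank_eq j]
  have hfwd : ∀ g : GL (Fin n) F, ((g ∈ UPres (D 0) (D 1)) ∨
      ((∀ x ∈ D 0, (g : Matrix (Fin n) (Fin n) F) *ᵥ x ∈ D 1) ∧ ∀ x ∈ D 1, (g : Matrix (Fin n) (Fin n) F) *ᵥ x ∈ D 0)) →
      g ∈ Cfsg.Geo.decompositionStabilizer D := by
    rintro g (⟨h0, h1⟩ | ⟨h0, h1⟩)
    · exact ⟨1, Fin.forall_fin_two.2 ⟨mapEq g 0 0 fun x hx => (h0 x).1 hx,
        mapEq g 1 1 fun x hx => (h1 x).1 hx⟩⟩
    · refine ⟨Equiv.swap 0 1, Fin.forall_fin_two.2 ⟨?_, ?_⟩⟩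
      · rw [Equiv.swap_apply_left]; exact mapEq g 0 1 h0
      · rw [Equiv.swap_apply_right]; exact mapEq g 1 0 h1
  have hbwd : ∀ g : GL (Fin n) F, g ∈ Cfsg.Geo.decompositionStabilizer D →
      ((g ∈ UPres (D 0) (D 1)) ∨
      ((∀ x ∈ D 0, (g : Matrix (Fin n) (Fin n) F) *ᵥ x ∈ D 1) ∧ ∀ x ∈ D 1, (g : Matrix (Fin n) (Fin n) F) *ᵥ x ∈ D 0)) := by
    rintro g ⟨π, hπ⟩
    have maps : ∀ i, ∀ x ∈ D i, (g : Matrix (Fin n) (Fin n) F) *ᵥ x ∈ D (π i) := fun i x hx => by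
      rw [← hπ i, ← Matrix.toLin'_apply]
      exact Submodule.mem_map_of_mem hx
    have hcase : ∀ ρ : Equiv.Perm (Fin 2), (ρ 0 = 0 ∧ ρ 1 = 1) ∨ (ρ 0 = 1 ∧ ρ 1 = 0) := by decide
    have m0 := maps 0
    have m1 := maps 1
    rcases hcase π with ⟨e0, e1⟩ | ⟨e0, e1⟩ <;> rw [e0] at m0 <;> rw [e1] at m1
    · exact Or.inl ⟨map_eq_of_maps_to m0, map_eq_of_maps_to m1⟩
    · exact Or.inr ⟨m0, m1⟩
  refine ⟨lt_of_le_not_ge inf_le_right fun h => ?_, fun M hle hM => ?_⟩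
  · obtain ⟨a, ha, ha0⟩ := (D 0).exists_mem_ne_zero_of_ne_bot fun e => by
      have := hD.finrank_eq 0
      rw [e, finrank_bot] at this
      omega
    obtain ⟨b, hb, hbv⟩ := P.exists_dual (li_one ha0) (by intro i; fin_cases i; exact ha) ![1]
    have hab : Cfsg.hermForm n F q a b = 1 := hbv 0
    have hb0 : b ≠ 0 := fun e => by rw [e, herm_zero_right hf] at hab; exact zero_ne_one hab
    have hbb : Cfsg.hermForm n F q b b = 0 := hts 1 b hb b hb
    have haD : a ∉ D 1 := fun h' => ha0 (Submodule.disjoint_def.1 hcompl.disjoint a ha h')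
    have hbD : b ∉ D 0 := fun h' => hb0 (Submodule.disjoint_def.1 hcompl.disjoint b h' hb)
    obtain ⟨δ, hδ0, hδ⟩ := exists_skew hf.ne_refl hf.involutive
    have hmov : (utv hf b hbb δ : Matrix (Fin n) (Fin n) F) *ᵥ a = a + δ • b := by
      rw [utv_mulVec, hab, mul_one]
    rcases hbwd _ (h (utv_mem_SUgl hf hbb (by rw [hδ, add_neg_cancel]))).1 with ⟨h0, -⟩ | ⟨h0, -⟩
    · exact hbD (((D 0).smul_mem_iff hδ0).1 (((D 0).add_mem_iff_right ha).1 (hmov ▸ (h0 a).1 ha)))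
    · exact haD (((D 1).add_mem_iff_left ((D 1).smul_mem δ hb)).1 (hmov ▸ h0 a ha))
  · by_cases hc : M ≤ Cfsg.Geo.decompositionStabilizer D
    · exact Or.inl (le_antisymm (le_inf hc hM) hle)
    obtain ⟨g, hg, hgn⟩ := SetLike.not_le_iff_exists.1 hc
    refine Or.inr (le_antisymm hM fun x hx => ?_)
    exact uGen_top_le_of_gt_pair P (by omega) (fun h hd hi hh => hle ⟨hfwd h hh, mem_GU_iff.2 hi, hd⟩) g
      (mem_GU_iff.1 (hM hg).1) hg (fun hh => hgn (hfwd g hh))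
      (mem_uGen_top hf (fun h => by simp at h; omega) (mem_GU_iff.1 hx.1) hx.2)

end Cfsg.Agent.S5657
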