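import Cfsg.Statements.S5658
import Mathlib
import Cfsg.Agent.Lib.Classical.SubfieldMem
import Cfsg.Agent.Lib.Classical.UnitarySubfieldMax
import Cfsg.Agent.Lib.Classical.UnitaryGen
import Cfsg.Agent.Lib.Classical.UnitaryStd

set_option autoImplicit false
open Cfsg

namespace Cfsg.Agent.S5658

open Cfsg.Lib.Classical Cfsg.Lib.Classical.SkewSub Cfsg.Lib.Classical.HermSub Matrix

/-- Let F be the field with q² elements, n ≥ 13, and F₀ a subfield with |F| = |F₀| ^ r for an odd prime r. Let P be an invertible matrix such that the standard unitary form takes values in F₀ on the F₀-span of the columns of P. Then the elements of SU_n(q) lying in the subfield group of P (the conjugate by P of the product of GL_n(F₀) with the scalars) form a maximal subgroup of SU_n(q). -/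
theorem result {F : Type*} [Field F] [Fintype F] (n q : ℕ) (hF : Fintype.card F = q ^ 2) (hn : 13 ≤ n) (F₀ : Subfield F) (r : ℕ) (hr : r.Prime) (hro : Odd r) (hcard : Fintype.card F = Nat.card F₀ ^ r) (P : Matrix.GeneralLinearGroup (Fin n) F) (hP : Cfsg.Geo.IsFormRationalStructure (Cfsg.hermForm n F q) F₀ 1 P) : Cfsg.Geo.IsMaximalIn (Cfsg.GU n F q ⊓ Cfsg.Geo.specialLinear (Fin n) F) (Cfsg.Geo.subfieldSubgroup F₀ P ⊓ (Cfsg.GU n F q ⊓ Cfsg.Geo.specialLinear (Fin n) F)) := by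
  classical
  obtain ⟨σ, hσne, hσ, hinv⟩ := exists_frobSq hF
  have hf := hermForm_isUnitaryForm hσne hσ hinv n
  let Pm := (P : Matrix (Fin n) (Fin n) F)
  have hcard' : Nat.card F = Nat.card F₀ ^ r := by rw [Nat.card_eq_fintype_card, hcard]
  have hstab : ∀ a ∈ F₀, σ a ∈ F₀ := fun a ha => by rw [hσ]; exact F₀.pow_mem ha q
  obtain ⟨l, hl⟩ := exists_not_mem_subfield hr hcard'
  have hnf : ∃ a ∈ F₀, σ a ≠ a := by
    by_contra! hall
    let K : Subfield F := σ.toRingHom.eqLocusField (RingHom.id F)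
    have hK : ∀ a, a ∈ K ↔ σ a = a := fun a => Iff.rfl
    have hfix : ∀ a : F, a ∈ F₀ ↔ σ a = a := by
      refine fun a => ⟨hall a, fun ha => ?_⟩
      by_contra hna
      obtain ⟨x, hx⟩ : ∃ x, σ x ≠ x := by
        by_contra! h
        exact hσne (RingEquiv.ext h)
      exact hx ((hK x).1 (eq_top_of_prime_degree hr hcard' K hall ((hK a).2 ha) hna x))
    let φ : F₀ × F₀ → F := fun x => x.1 + x.2 * l
    have hφ : Function.Bijective φ := by
      refine ⟨fun x y hxy => ?_, fun d => ?_⟩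
      · have h1 : ((x.2 : F) - y.2) * l = (y.1 : F) - x.1 := by
          simp only [φ] at hxy
          linear_combination hxy
        have h2 : x.2 = y.2 := by
          by_contra hne
          have hne' : (x.2 : F) - y.2 ≠ 0 := sub_ne_zero.2 fun e => hne (Subtype.ext e)
          refine hl ?_
          rw [show l = ((x.2 : F) - y.2)⁻¹ * ((y.1 : F) - x.1) by
            rw [← h1, inv_mul_cancel_left₀ hne']]
          exact F₀.mul_mem (F₀.inv_mem (F₀.sub_mem x.2.2 y.2.2)) (F₀.sub_mem y.1.2 x.1.2)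
        refine Prod.ext (Subtype.ext ?_) h2
        rw [h2, sub_self, zero_mul, eq_comm, sub_eq_zero] at h1
        exact h1.symm
      · obtain ⟨a, ha, b, hb, rfl⟩ := exists_coords hinv hfix hl d
        exact ⟨(⟨a, ha⟩, ⟨b, hb⟩), rfl⟩
    have hc := Nat.card_eq_of_bijective φ hφ
    rw [Nat.card_prod, hcard', ← sq] at hc
    have := Nat.pow_right_injective (Finite.one_lt_card : 1 < Nat.card F₀) hc
    subst this
    exact absurd hro (by decide)
  let h : (Fin n → F) → (Fin n → F) → F :=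
    fun x y => Cfsg.hermForm n F q (Pm *ᵥ x) (Pm *ᵥ y)
  have hform : Cfsg.Geo.IsUnitaryForm σ h := by
    refine ⟨hσne, hinv, fun x y v => ?_, fun c x v => ?_, fun v w => hf.herm _ _, fun w hw => ?_⟩
    · simp only [h, mulVec_add, hf.add_left]
    · simp only [h, mulVec_smul, hf.smul_left]
    · obtain ⟨⟨x, hx⟩, ⟨y, hy⟩⟩ := hf.nondegenerate (Pm *ᵥ w) (mulVec_ne_zero P hw)
      exact ⟨⟨((P⁻¹ : GL (Fin n) F) : Matrix _ _ F) *ᵥ x, by simpa [h, Pm, mulVec_inv_mulVec] using hx⟩,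
        ⟨((P⁻¹ : GL (Fin n) F) : Matrix _ _ F) *ᵥ y, by simpa [h, Pm, mulVec_inv_mulVec] using hy⟩⟩
  have R : IsRatHerm σ F₀ h := ⟨hform, hstab, hnf, fun u v => by
    have h1 := hP (co u) (co v) (fun i => (u i).2) (fun i => (v i).2)
    rwa [one_mul] at h1⟩
  have hiso : ∀ g : GL (Fin n) F, P * g * P⁻¹ ∈ Cfsg.GU n F q ↔
      ∀ x y, h ((g : Matrix _ _ F) *ᵥ x) ((g : Matrix _ _ F) *ᵥ y) = h x y := by
    intro g
    rw [mem_GU_iff]
    constructor
    · intro h0 x y
      have h1 := h0 (Pm *ᵥ x) (Pm *ᵥ y)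
      simp only [Units.val_mul, ← mulVec_mulVec, Pm, inv_mulVec_mulVec] at h1
      exact h1
    · intro h0 x y
      have h1 := h0 (((P⁻¹ : GL (Fin n) F) : Matrix _ _ F) *ᵥ x)
        (((P⁻¹ : GL (Fin n) F) : Matrix _ _ F) *ᵥ y)
      simp only [h, Pm, mulVec_inv_mulVec] at h1
      simpa only [Units.val_mul, ← mulVec_mulVec] using h1
  have hdetc : ∀ g : GL (Fin n) F, Matrix.GeneralLinearGroup.det (P * g * P⁻¹) =
      Matrix.GeneralLinearGroup.det g := fun g => by
    rw [map_mul, map_mul, map_inv]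
    exact mul_inv_cancel_comm _ _
  have hn9 : 9 ≤ Fintype.card (Fin n) := by simp; omega
  refine ⟨lt_of_le_not_ge inf_le_right fun hle => ?_, fun M hle hM => ?_⟩
  · obtain ⟨κ, hκs, hκ⟩ : ∃ κ : F, κ + σ κ = 0 ∧ κ ∉ F₀ := by
      by_contra! hall
      obtain ⟨δ, hδ₀, hδ0, hδ⟩ := exists_skew₀ R
      have key : ∀ m, m + σ m ∈ F₀ := fun m => by
        have h1 := hall (δ * (m + σ m)) (by rw [map_mul, map_add, hinv, hδ]; ring)
        have h2 := F₀.mul_mem (F₀.inv_mem hδ₀) h1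
        rwa [inv_mul_cancel_left₀ hδ0] at h2
      obtain ⟨a, ha, hne⟩ := hnf
      have h1 : (a - σ a) * l ∈ F₀ := by
        have h2 := F₀.sub_mem (key (a * l)) (F₀.mul_mem (hstab a ha) (key l))
        rwa [map_mul, show a * l + σ a * σ l - σ a * (l + σ l) = (a - σ a) * l by ring] at h2
      have h2 := F₀.mul_mem (F₀.inv_mem (F₀.sub_mem ha (hstab a ha))) h1
      rw [inv_mul_cancel_left₀ (sub_ne_zero.2 (Ne.symm hne))] at h2
      exact hl h2
    obtain ⟨u, huu, -, hus⟩ :=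
      R.exists_iso_avoid (Fin.elim0 : Fin 0 → Fin n → F₀) ![0] (by omega) (by omega)
    have hu : u ≠ 0 := fun e => hus (by rw [e]; exact Submodule.zero_mem _)
    have hww : Cfsg.hermForm n F q (Pm *ᵥ co u) (Pm *ᵥ co u) = 0 := huu
    set T := utv hf (Pm *ᵥ co u) hww κ
    obtain ⟨c, hc0, hcT⟩ := mem_subfieldSubgroup_iff.1 (hle (utv_mem_SUgl hf hww hκs)).1
    have act : ∀ z : Fin n → F₀, ∀ j,
        c * (co z + (κ * h (co z) (co u)) • co u : Fin n → F) j ∈ F₀ := by
      intro z j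
      have h1 : ((P⁻¹ * T * P : GL (Fin n) F) : Matrix _ _ F) *ᵥ co z =
          co z + (κ * h (co z) (co u)) • co u := by
        rw [Units.val_mul, Units.val_mul, ← mulVec_mulVec, ← mulVec_mulVec, utv_mulVec, mulVec_add,
          mulVec_smul, inv_mulVec_mulVec, inv_mulVec_mulVec]
      rw [← h1, ← smul_eq_mul, ← Pi.smul_apply, ← smul_mulVec, mulVec, dotProduct]
      exact F₀.sum_mem fun k _ => F₀.mul_mem (hcT j k) (z k).2
    obtain ⟨k, hk⟩ := Function.ne_iff.1 hu
    have huk : (u k : F) ≠ 0 := fun e => hk (Subtype.ext e)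
    have hc₀ : c ∈ F₀ := by
      have h1 := act u k
      simp only [huu, mul_zero, zero_smul, add_zero, co] at h1
      have h2 := F₀.mul_mem h1 (F₀.inv_mem (u k).2)
      rwa [mul_inv_cancel_right₀ huk] at h2
    obtain ⟨z, hz⟩ := R.exists_values (r := ![u]) (LinearIndependent.of_subsingleton (0 : Fin 1) hu) ![1]
    have h1 := F₀.mul_mem (F₀.inv_mem hc₀) (act z k)
    rw [inv_mul_cancel_left₀ hc0, show h (co z) (co u) = 1 from hz 0] at h1
    simp [co] at h1
    have h2 := F₀.sub_mem h1 (z k).2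
    rw [add_sub_cancel_left] at h2
    have h3 := F₀.mul_mem h2 (F₀.inv_mem (u k).2)
    rw [mul_inv_cancel_right₀ huk] at h3
    exact hκ h3
  by_cases hc : M ≤ Cfsg.Geo.subfieldSubgroup F₀ P
  · exact Or.inl (le_antisymm (le_inf hc hM) hle)
  obtain ⟨g, hg, hgn⟩ := SetLike.not_le_iff_exists.1 hc
  refine Or.inr (le_antisymm hM ?_)
  set M' := M.comap (MulAut.conj P).toMonoidHom with hM'
  have mem' : ∀ u, u ∈ M' ↔ P * u * P⁻¹ ∈ M := fun u => by
    rw [hM', Subgroup.mem_comap, MulEquiv.coe_toMonoidHom, MulAut.conj_apply]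
  have hM'i := fun u (hu : u ∈ M') => (hiso u).1 (hM ((mem' u).1 hu)).1
  have hM'd : ∀ u ∈ M', Matrix.GeneralLinearGroup.det u = 1 := fun u hu =>
    (hdetc u).symm.trans (hM ((mem' u).1 hu)).2
  have hM'r : ∀ u : GL (Fin n) F, RatMat F₀ (u : Matrix (Fin n) (Fin n) F) →
      Matrix.GeneralLinearGroup.det u = 1 →
      (∀ x y, h ((u : Matrix (Fin n) (Fin n) F) *ᵥ x) ((u : Matrix (Fin n) (Fin n) F) *ᵥ y) = h x y) →
      u ∈ M' := by
    intro u hu hd hi
    refine (mem' u).2 (hle ⟨mem_subfieldSubgroup_iff.2 ?_, (hiso u).2 hi, (hdetc u).trans hd⟩)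
    rw [show P⁻¹ * (P * u * P⁻¹) * P = u by group]
    exact ⟨1, one_ne_zero, by rw [one_smul]; exact hu⟩
  by_cases hex : ∃ c, c ∉ F₀ ∧ ShortH σ h F₀ M' c
  · obtain ⟨c, hc, hcS⟩ := hex
    intro x hx
    refine uGen_le ?_ (mem_uGen_top hf (fun h3 => absurd h3 (by simp; omega)) (mem_GU_iff.1 hx.1) hx.2)
    intro v _ hv a ha
    set w := ((P⁻¹ : GL (Fin n) F) : Matrix (Fin n) (Fin n) F) *ᵥ v with hw
    have hPw : Pm *ᵥ w = v := mulVec_inv_mulVec P v
    obtain ⟨g', hg', hgp⟩ := HermSub.transvection_mem R hM'r hn9 hM'i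
      (shortH_all R hM'r hn9 hM'i hr hcard' hc hcS) (w := w)
      (by simp only [h, hPw, hv]) ha
    convert (mem' g').1 hg' using 1
    refine gl_ext fun p => ?_
    rw [utv_mulVec, Units.val_mul, Units.val_mul, ← mulVec_mulVec, ← mulVec_mulVec, hgp, mulVec_add,
      mulVec_smul, mulVec_inv_mulVec]
    simp only [h, hPw, Pm, mulVec_inv_mulVec]
  · push Not at hex
    refine absurd (mem_subfieldSubgroup_iff.2 (HermSub.forall_scalRat R hM'r hn9
      (fun c hc => by_contra fun h' => hex c h' hc) hM'i hM'd (by simp; omega) _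
      ((mem' _).2 ?_))) hgn
    rwa [show P * (P⁻¹ * g * P) * P⁻¹ = g by group]

end Cfsg.Agent.S5658
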