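import Cfsg.Statements.S5659
import Mathlib
import Cfsg.Agent.Lib.Classical.UnitaryOrthSubfieldMax
import Cfsg.Agent.Lib.Classical.OrthSubfieldTransfer

set_option autoImplicit false
open Cfsg
open scoped Matrix

namespace Cfsg.Agent.S5659

/-- Let F be the field with q² elements, q odd, n ≥ 13, and F₀ the subfield with q elements. Let P be an invertible matrix such that the standard unitary form takes values in F₀ on the F₀-span of the columns of P (so it restricts to a non-degenerate symmetric bilinear form there). Then the elements of SU_n(q) lying in the subfield group of P form a maximal subgroup of SU_n(q). -/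
theorem result {F : Type*} [Field F] [Fintype F] (n q : ℕ) (hF : Fintype.card F = q ^ 2) (hn : 13 ≤ n) (hodd : Odd q) (F₀ : Subfield F) (hcard : Fintype.card F = Nat.card F₀ ^ 2) (P : Matrix.GeneralLinearGroup (Fin n) F) (hP : Cfsg.Geo.IsFormRationalStructure (Cfsg.hermForm n F q) F₀ 1 P) : Cfsg.Geo.IsMaximalIn (Cfsg.GU n F q ⊓ Cfsg.Geo.specialLinear (Fin n) F) (Cfsg.Geo.subfieldSubgroup F₀ P ⊓ (Cfsg.GU n F q ⊓ Cfsg.Geo.specialLinear (Fin n) F)) := by
  classical
  obtain ⟨σ, hne, hσ, hinv⟩ := Cfsg.Lib.Classical.exists_frobSq hF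
  have hf₀ := Cfsg.Lib.Classical.hermForm_isUnitaryForm hne hσ hinv n
  have hq : q = Nat.card F₀ := Nat.pow_left_injective two_ne_zero (hF.symm.trans hcard)
  have hfix : ∀ a ∈ F₀, σ a = a := by
    intro a ha
    rw [hσ, hq, Nat.card_eq_fintype_card]
    have h := congrArg Subtype.val (FiniteField.pow_card (⟨a, ha⟩ : F₀))
    simpa using h
  have hσF : ∀ a : F, a ∈ F₀ ↔ σ a = a := by
    refine fun a => ⟨hfix a, fun ha => ?_⟩
    by_contra ha0
    exact hne (RingEquiv.ext fun x => Cfsg.Lib.Classical.eq_top_of_prime_degree Nat.prime_two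
      (by rw [Nat.card_eq_fintype_card]; exact hcard) (RingHom.eqLocusField σ.toRingHom (RingHom.id F))
      (fun y hy => hfix y hy) ha ha0 x)
  obtain ⟨δ, hδ0, hδ⟩ := Cfsg.Lib.Classical.exists_skew hne hinv
  have h2 : (2 : F) ≠ 0 := by
    intro h2
    obtain ⟨p, hp⟩ := CharP.exists F
    have hp2 : p ∣ 2 := (CharP.cast_eq_zero_iff F p 2).1 (by exact_mod_cast h2)
    have hp' : p = 2 := ((Nat.dvd_prime Nat.prime_two).1 hp2).resolve_left (CharP.char_ne_one F p)
    obtain ⟨k, hk, hcd⟩ := FiniteField.card F p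
    rw [hF, hp'] at hcd
    have : Even (q ^ 2) := by rw [hcd]; exact Nat.even_pow.2 ⟨even_two, k.pos.ne'⟩
    exact (Nat.not_even_iff_odd.2 hodd) (Nat.even_pow.1 this).1
  set K := Cfsg.GU n F q ⊓ Cfsg.Geo.specialLinear (Fin n) F with hKdef
  set K' := K.comap (MulAut.conj P).toMonoidHom with hK'def
  have hP1 : ∀ x, (P : Matrix (Fin n) (Fin n) F) *ᵥ ((P⁻¹ : Matrix.GeneralLinearGroup (Fin n) F) : Matrix (Fin n) (Fin n) F) *ᵥ x = x := fun x => by
    rw [Matrix.mulVec_mulVec, ← Units.val_mul, mul_inv_cancel, Units.val_one, Matrix.one_mulVec]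
  have hPinj : ∀ x, (P : Matrix (Fin n) (Fin n) F) *ᵥ x = 0 → x = 0 := fun x hx => by
    have h := congrArg (fun y => ((P⁻¹ : Matrix.GeneralLinearGroup (Fin n) F) : Matrix (Fin n) (Fin n) F) *ᵥ y) hx
    simpa [Matrix.mulVec_mulVec] using h
  let f : (Fin n → F) → (Fin n → F) → F := fun u v =>
    Cfsg.hermForm n F q ((P : Matrix (Fin n) (Fin n) F) *ᵥ u) ((P : Matrix (Fin n) (Fin n) F) *ᵥ v)
  have hf : Cfsg.Geo.IsUnitaryForm σ f := by
    refine ⟨hne, hinv, fun x y v => ?_, fun c x v => ?_, fun v w => hf₀.herm _ _, fun v hv => ?_⟩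
    · simp only [f, Matrix.mulVec_add, hf₀.add_left]
    · simp only [f, Matrix.mulVec_smul, hf₀.smul_left]
    · obtain ⟨⟨w, hw⟩, ⟨w', hw'⟩⟩ := hf₀.nondegenerate _ (fun h => hv (hPinj v h))
      exact ⟨⟨((P⁻¹ : Matrix.GeneralLinearGroup (Fin n) F) : Matrix (Fin n) (Fin n) F) *ᵥ w, by simpa only [f, hP1] using hw⟩,
        ⟨((P⁻¹ : Matrix.GeneralLinearGroup (Fin n) F) : Matrix (Fin n) (Fin n) F) *ᵥ w', by simpa only [f, hP1] using hw'⟩⟩
  have hmem : ∀ g : Matrix.GeneralLinearGroup (Fin n) F, g ∈ K' ↔ Matrix.GeneralLinearGroup.det g = 1 ∧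
      ∀ x y, f ((g : Matrix (Fin n) (Fin n) F) *ᵥ x) ((g : Matrix (Fin n) (Fin n) F) *ᵥ y) = f x y := by
    intro g
    show (MulAut.conj P g ∈ Cfsg.GU n F q ∧ Matrix.GeneralLinearGroup.det (MulAut.conj P g) = 1) ↔ _
    rw [Cfsg.Lib.Classical.mem_GU_iff, MulAut.conj_apply]
    have hd : Matrix.GeneralLinearGroup.det (P * g * P⁻¹) = Matrix.GeneralLinearGroup.det g := by
      rw [map_mul, map_mul, map_inv, mul_comm (Matrix.GeneralLinearGroup.det P), mul_inv_cancel_right]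
    have he : ∀ x, ((P * g * P⁻¹ : Matrix.GeneralLinearGroup (Fin n) F) : Matrix (Fin n) (Fin n) F) *ᵥ ((P : Matrix (Fin n) (Fin n) F) *ᵥ x) =
        (P : Matrix (Fin n) (Fin n) F) *ᵥ ((g : Matrix (Fin n) (Fin n) F) *ᵥ x) := fun x => by
      rw [Matrix.mulVec_mulVec, Matrix.mulVec_mulVec, ← Units.val_mul, ← Units.val_mul, inv_mul_cancel_right]
    rw [hd]
    refine ⟨fun h => ⟨h.2, fun x y => ?_⟩, fun h => ⟨fun x y => ?_, h.1⟩⟩
    · simp only [f]; rw [← he, ← he, h.1]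
    · have h1 := h.2 ((((P⁻¹ : Matrix.GeneralLinearGroup (Fin n) F)) : Matrix (Fin n) (Fin n) F) *ᵥ x) ((((P⁻¹ : Matrix.GeneralLinearGroup (Fin n) F)) : Matrix (Fin n) (Fin n) F) *ᵥ y)
      simp only [f] at h1
      rwa [← he, ← he, hP1, hP1] at h1
  have h := Cfsg.Lib.Classical.OrthSub.isMaximalIn_map (MulAut.conj P)
    (Cfsg.Lib.Classical.UOrth.isMaximalIn_one hf hσF
      (fun u v => by
        have h := hP (Cfsg.Lib.Classical.co u) (Cfsg.Lib.Classical.co v) (fun i => (u i).2) (fun i => (v i).2)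
        rwa [one_mul] at h)
      h2 (by simpa using hn) hδ hδ0 K' hmem)
  rwa [Subgroup.map_inf _ _ _ (MulAut.conj P).injective, Cfsg.Lib.Classical.OrthSub.map_subfieldSubgroup,
    hK'def, Subgroup.map_comap_eq_self_of_surjective (MulAut.conj P).surjective] at h

end Cfsg.Agent.S5659
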