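import Cfsg.Statements.S5660
import Mathlib
import Cfsg.Agent.Lib.Classical.SubfieldMem
import Cfsg.Agent.Lib.Classical.UnitarySympSubfield
import Cfsg.Agent.Lib.Classical.UnitaryGen
import Cfsg.Agent.Lib.Classical.UnitaryStd

set_option autoImplicit false
open Cfsg

namespace Cfsg.Agent.S5660

open Cfsg.Lib.Classical Cfsg.Lib.Classical.SkewSub Matrix

/-- Let F be the field with q² elements, n ≥ 13 even, and F₀ the subfield with q elements. Let ζ be a non-zero element with ζ + ζ^q = 0 and P an invertible matrix such that ζ times the standard unitary form takes values in F₀ on the F₀-span of the columns of P and the form vanishes on every pair (u, u) of that span (so ζ times the form restricts to a non-degenerate alternating form there). Then the elements of SU_n(q) lying in the subfield group of P form a maximal subgroup of SU_n(q). -/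
theorem result {F : Type*} [Field F] [Fintype F] (n q : ℕ) (hF : Fintype.card F = q ^ 2) (hn : 13 ≤ n) (heven : Even n) (F₀ : Subfield F) (hcard : Fintype.card F = Nat.card F₀ ^ 2) (ζ : F) (hζ0 : ζ ≠ 0) (hζ : ζ + ζ ^ q = 0) (P : Matrix.GeneralLinearGroup (Fin n) F) (hP : Cfsg.Geo.IsFormRationalStructure (Cfsg.hermForm n F q) F₀ ζ P) (halt : ∀ u : Fin n → F, (∀ i, u i ∈ F₀) → Cfsg.hermForm n F q (Matrix.mulVec (P : Matrix (Fin n) (Fin n) F) u) (Matrix.mulVec (P : Matrix (Fin n) (Fin n) F) u) = 0) : Cfsg.Geo.IsMaximalIn (Cfsg.GU n F q ⊓ Cfsg.Geo.specialLinear (Fin n) F) (Cfsg.Geo.subfieldSubgroup F₀ P ⊓ (Cfsg.GU n F q ⊓ Cfsg.Geo.specialLinear (Fin n) F)) := by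
  classical
  obtain ⟨σ, hσne, hσ, hinv⟩ := exists_frobSq hF
  have hf := hermForm_isUnitaryForm hσne hσ hinv n
  let Pm := (P : Matrix (Fin n) (Fin n) F)
  have hq : Nat.card F₀ = q := Nat.pow_left_injective (n := 2) (by norm_num) (hcard.symm.trans hF)
  have hcard' : Nat.card F = Nat.card F₀ ^ 2 := by rw [Nat.card_eq_fintype_card, hcard]
  -- `F₀` is the fixed field
  let K : Subfield F := σ.toRingHom.eqLocusField (RingHom.id F)
  have hK : ∀ a, a ∈ K ↔ σ a = a := fun a => Iff.rfl
  have hle₀ : F₀ ≤ K := fun a ha => by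
    rw [hK, hσ, ← hq]
    have := Fintype.ofFinite F₀
    rw [Nat.card_eq_fintype_card]
    exact congrArg Subtype.val (FiniteField.pow_card (⟨a, ha⟩ : F₀))
  have hfix : ∀ a : F, a ∈ F₀ ↔ σ a = a := by
    refine fun a => ⟨fun ha => hle₀ ha, fun ha => ?_⟩
    by_contra hna
    obtain ⟨x, hx⟩ : ∃ x, σ x ≠ x := by
      by_contra! h
      exact hσne (RingEquiv.ext h)
    exact hx ((hK x).1 (eq_top_of_prime_degree Nat.prime_two hcard' K hle₀ ((hK a).2 ha) hna x))
  have hζσ : σ ζ = -ζ := by rw [hσ]; exact eq_neg_of_add_eq_zero_right hζ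
  -- the bilinear form
  let B : LinearMap.BilinForm F (Fin n → F) :=
    LinearMap.mk₂ F (fun x y => ζ * Cfsg.hermForm n F q (Pm *ᵥ x) (Pm *ᵥ cj σ y))
      (fun x x' y => by rw [mulVec_add, hf.add_left, mul_add])
      (fun c x y => by rw [mulVec_smul, hf.smul_left, smul_eq_mul]; ring)
      (fun x y y' => by rw [cj_add, mulVec_add, herm_add_right hf, mul_add])
      (fun c x y => by
        rw [cj_smul, mulVec_smul, herm_smul_right hf, hinv, smul_eq_mul]; ring)
  have hBe : ∀ x y, B x y = ζ * Cfsg.hermForm n F q (Pm *ᵥ x) (Pm *ᵥ cj σ y) := fun x y => rfl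
  have hBh : ∀ x y, B x (cj σ y) = ζ * Cfsg.hermForm n F q (Pm *ᵥ x) (Pm *ᵥ y) := fun x y => by
    rw [hBe, cj_cj hinv]
  have hBR : ∀ u v : Fin n → F₀, B (co u) (co v) ∈ F₀ := fun u v => by
    rw [hBe, cj_co hfix]
    exact hP (co u) (co v) (fun i => (u i).2) (fun i => (v i).2)
  have hB0 : ∀ u : Fin n → F₀, B (co u) (co u) = 0 := fun u => by
    rw [hBe, cj_co hfix, halt (co u) (fun i => (u i).2), mul_zero]
  have hsw : ∀ i j : Fin n, B (Pi.single i 1) (Pi.single j 1) + B (Pi.single j 1) (Pi.single i 1) = 0 := by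
    intro i j
    have h := hB0 (Pi.single i 1 + Pi.single j 1)
    have hi := hB0 (Pi.single i 1)
    have hj := hB0 (Pi.single j 1)
    rw [co_single, OneMemClass.coe_one] at hi hj
    simp only [co_add, co_single, OneMemClass.coe_one, map_add, LinearMap.add_apply, hi, hj] at h
    linear_combination h
  have hA : B.IsAlt := by
    suffices h : ∀ (s : Finset (Fin n)) (x : Fin n → F),
        B (∑ i ∈ s, x i • (Pi.single i 1 : Fin n → F)) (∑ i ∈ s, x i • (Pi.single i 1 : Fin n → F)) = 0 by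
      intro x
      have := h Finset.univ x
      rwa [← pi_eq_sum_univ' x] at this
    intro s x
    induction s using Finset.induction with
    | empty => simp
    | insert i s his ih =>
      have hi := hB0 (Pi.single i 1)
      rw [co_single, OneMemClass.coe_one] at hi
      have hcross : B (Pi.single i 1) (∑ j ∈ s, x j • (Pi.single j 1 : Fin n → F)) +
          B (∑ j ∈ s, x j • (Pi.single j 1 : Fin n → F)) (Pi.single i 1) = 0 := by
        simp only [map_sum, map_smul, LinearMap.sum_apply, LinearMap.smul_apply, smul_eq_mul,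
          ← Finset.sum_add_distrib, ← mul_add, hsw, mul_zero, Finset.sum_const_zero]
      rw [Finset.sum_insert his]
      simp only [map_add, map_smul, LinearMap.add_apply, LinearMap.smul_apply, smul_eq_mul, hi, ih]
      linear_combination x i * hcross
  have hB : B.Nondegenerate := by
    have hsur : ∀ z : Fin n → F, ∃ y, Pm *ᵥ cj σ y = z :=
      fun z => ⟨cj σ (((P⁻¹ : GL (Fin n) F) : Matrix _ _ F) *ᵥ z), by
        rw [cj_cj hinv]; exact mulVec_inv_mulVec P z⟩
    have hl : ∀ v, (∀ y, B v y = 0) → v = 0 := by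
      intro v hv
      by_contra h0
      obtain ⟨z, hz⟩ := (hf.nondegenerate (Pm *ᵥ v) (mulVec_ne_zero P h0)).2
      obtain ⟨y, rfl⟩ := hsur z
      exact hz ((mul_eq_zero.1 (hv y)).resolve_left hζ0)
    exact ⟨hl, fun v hv => hl v fun y => by rw [alt_swap hA, hv y, neg_zero]⟩
  have hiso : ∀ g : GL (Fin n) F, P * g * P⁻¹ ∈ Cfsg.GU n F q ↔
      ∀ x y, B ((g : Matrix _ _ F) *ᵥ x) (cj σ ((g : Matrix _ _ F) *ᵥ y)) = B x (cj σ y) := by
    intro g
    rw [mem_GU_iff]
    constructor
    · intro h x y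
      have h1 := h (Pm *ᵥ x) (Pm *ᵥ y)
      simp only [Units.val_mul, ← mulVec_mulVec, Pm, inv_mulVec_mulVec] at h1
      rw [hBh, hBh, h1]
    · intro h x y
      have h1 := h (((P⁻¹ : GL (Fin n) F) : Matrix _ _ F) *ᵥ x)
        (((P⁻¹ : GL (Fin n) F) : Matrix _ _ F) *ᵥ y)
      rw [hBh, hBh] at h1
      have h2 := mul_left_cancel₀ hζ0 h1
      simp only [Pm, mulVec_inv_mulVec] at h2
      simpa only [Units.val_mul, ← mulVec_mulVec] using h2
  have hdetc : ∀ g : GL (Fin n) F, Matrix.GeneralLinearGroup.det (P * g * P⁻¹) =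
      Matrix.GeneralLinearGroup.det g := fun g => by
    rw [map_mul, map_mul, map_inv]
    exact mul_inv_cancel_comm _ _
  obtain ⟨i⟩ : Nonempty (Fin n) := ⟨⟨0, by omega⟩⟩
  refine ⟨lt_of_le_not_ge inf_le_right fun h => ?_, fun M hle hM => ?_⟩
  · obtain ⟨l, hl⟩ := exists_not_mem_subfield Nat.prime_two hcard'
    let u : Fin n → F₀ := Pi.single i 1
    have hu : u ≠ 0 := fun h => one_ne_zero (α := F₀) (by simpa [u] using congrFun h i)
    obtain ⟨v, hv, hvs⟩ := exists_orth_avoid hBR ![u] ![u] (by simp; omega)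
    have huv : B (co u) (co v) = 0 := hv 0
    have hvu : v ∉ Submodule.span F₀ {u} := fun hc => hvs (Submodule.span_mono (by simp) hc)
    obtain ⟨hv0, -⟩ := not_mem_span_symm hu hvu
    set w := co u + l • co v with hw
    have hcw : cj σ w = co u + σ l • co v := by rw [hw, cj_add, cj_smul, cj_co hfix, cj_co hfix]
    have hww : Cfsg.hermForm n F q (Pm *ᵥ w) (Pm *ᵥ w) = 0 := by
      have h1 : B w (cj σ w) = 0 := by
        rw [hcw, hw]
        simp [alt_self hA, alt_swap hA (co u) (co v), huv]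
      rw [hBh] at h1
      exact (mul_eq_zero.1 h1).resolve_left hζ0
    have hc : ζ + σ ζ = 0 := by rw [hσ]; exact hζ
    set T := utv hf (Pm *ᵥ w) hww ζ
    obtain ⟨c, hc0, hcT⟩ := mem_subfieldSubgroup_iff.1 (h (utv_mem_SUgl hf hww hc)).1
    have act : ∀ r : Fin n → F₀, ∀ j,
        c * (co r + B (co r) (cj σ w) • w : Fin n → F) j ∈ F₀ := by
      intro r j
      have h1 : ((P⁻¹ * T * P : GL (Fin n) F) : Matrix _ _ F) *ᵥ co r =
          co r + B (co r) (cj σ w) • w := by
        rw [Units.val_mul, Units.val_mul, ← mulVec_mulVec, ← mulVec_mulVec, utv_mulVec, mulVec_add,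
          mulVec_smul, inv_mulVec_mulVec, inv_mulVec_mulVec, hBh]
      rw [← h1, ← smul_eq_mul, ← Pi.smul_apply, ← smul_mulVec]
      rw [mulVec, dotProduct]
      exact F₀.sum_mem fun k _ => F₀.mul_mem (hcT j k) (r k).2
    have hc₀ : c ∈ F₀ := by
      obtain ⟨r, hr, hrs⟩ := exists_orth_avoid hBR ![u, v] ![(0 : Fin n → F₀)] (by simp; omega)
      have hr0 : r ≠ 0 := fun h => hrs (by rw [h]; exact Submodule.zero_mem _)
      obtain ⟨k, hk⟩ := Function.ne_iff.1 hr0
      have h1 := act r k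
      have e1 : B (co u) (co r) = 0 := hr 0
      have e2 : B (co v) (co r) = 0 := hr 1
      simp [hcw, alt_swap hA (co u) (co r), alt_swap hA (co v) (co r), e1, e2, co] at h1
      have h2 := F₀.mul_mem h1 (F₀.inv_mem (r k).2)
      rwa [mul_inv_cancel_right₀ (fun e => hk (Subtype.ext e))] at h2
    obtain ⟨x, hx1, hx2⟩ := exists_ratDual₂ hA hB hBR hu hvu 1 0
    obtain ⟨k, hk⟩ := Function.ne_iff.1 hv0
    have h1 := act x k
    rw [OneMemClass.coe_one] at hx1
    rw [ZeroMemClass.coe_zero] at hx2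
    rw [hcw, map_add, map_smul, alt_swap hA (co u) (co x), alt_swap hA (co v) (co x), hx1, hx2] at h1
    simp [hw, co] at h1
    have h2 := F₀.mul_mem (F₀.inv_mem hc₀) h1
    rw [inv_mul_cancel_left₀ hc0] at h2
    have h3 := F₀.sub_mem (F₀.sub_mem (x k).2 h2) (u k).2
    have h4 : l * (v k : F) ∈ F₀ := by
      convert h3 using 1
      ring
    have h5 := F₀.mul_mem h4 (F₀.inv_mem (v k).2)
    rw [mul_inv_cancel_right₀ (fun e => hk (Subtype.ext e))] at h5
    exact hl h5
  by_cases hc : M ≤ Cfsg.Geo.subfieldSubgroup F₀ P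
  · exact Or.inl (le_antisymm (le_inf hc hM) hle)
  obtain ⟨g, hg, hgn⟩ := SetLike.not_le_iff_exists.1 hc
  refine Or.inr (le_antisymm hM ?_)
  set M' := M.comap (MulAut.conj P).toMonoidHom with hM'
  have mem' : ∀ u, u ∈ M' ↔ P * u * P⁻¹ ∈ M := fun u => by
    rw [hM', Subgroup.mem_comap, MulEquiv.coe_toMonoidHom, MulAut.conj_apply]
  have hM'i := fun u (hu : u ∈ M') => (hiso u).1 (hM ((mem' u).1 hu)).1
  have hM'r : ∀ u : GL (Fin n) F, (∀ a b, (u : Matrix (Fin n) (Fin n) F) a b ∈ F₀) →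
      (∀ x y, B ((u : Matrix _ _ F) *ᵥ x) ((u : Matrix _ _ F) *ᵥ y) = B x y) → u ∈ M' := by
    intro u hu hi
    refine (mem' u).2 (hle ⟨mem_subfieldSubgroup_iff.2 ?_, (hiso u).2 fun x y => ?_, ?_⟩)
    · rw [show P⁻¹ * (P * u * P⁻¹) * P = u by group]
      exact ⟨1, one_ne_zero, by rw [one_smul]; exact hu⟩
    · rw [← hi x (cj σ y)]
      congr 1
      funext a
      simp only [cj, mulVec, dotProduct, map_sum, map_mul, (hfix _).1 (hu a _)]
    · exact (hdetc u).trans (det_eq_one_of_isometry B hA hB u hi)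
  by_cases hex : ∃ c, c ∉ F₀ ∧ ShortP σ B F₀ M' c
  · obtain ⟨c, hc, hcS⟩ := hex
    intro x hx
    refine uGen_le ?_ (mem_uGen_top hf (fun h3 => absurd h3 (by simp; omega)) (mem_GU_iff.1 hx.1) hx.2)
    intro v _ hv a ha
    set w := ((P⁻¹ : GL (Fin n) F) : Matrix (Fin n) (Fin n) F) *ᵥ v with hw
    have hPw : Pm *ᵥ w = v := mulVec_inv_mulVec P v
    have haσ : a / ζ ∈ F₀ := (hfix _).2 (by
      rw [map_div₀, hζσ, eq_neg_of_add_eq_zero_right ha, neg_div_neg_eq])
    obtain ⟨g', hg', hgp⟩ := transvection_mem hinv hfix hA hB hBR hM'r (by simp; omega) hM'i hc hcS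
      (w := w) (by rw [hBh, hPw, hv, mul_zero]) haσ
    convert (mem' g').1 hg' using 1
    refine gl_ext fun p => ?_
    rw [utv_mulVec, Units.val_mul, Units.val_mul, ← mulVec_mulVec, ← mulVec_mulVec, hgp, mulVec_add,
      mulVec_smul, mulVec_inv_mulVec, hBh, hPw, mulVec_inv_mulVec]
    congr 2
    field_simp
  · push Not at hex
    refine absurd (mem_subfieldSubgroup_iff.2 (SkewSub.forall_scalRat hinv hfix hA hB hBR hM'r
      (by simp; omega) (fun c hc => by_contra fun h => hex c h hc) hM'i (by simp; omega) _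
      ((mem' _).2 ?_))) hgn
    rwa [show P * (P⁻¹ * g * P) * P⁻¹ = g by group]

end Cfsg.Agent.S5660
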