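import Cfsg.Statements.S5674
import Mathlib
import Cfsg.Agent.Lib.Classical.OrthSingularStab
import Cfsg.Agent.Lib.Classical.ClassicalOrders
import Cfsg.Agent.Lib.Classical.SphereMod
import Cfsg.Agent.Lib.Classical.QuadOrders

set_option autoImplicit false
open Cfsg
open scoped Matrix

namespace Cfsg.Agent.S5674

/-- Let F be a finite field of odd order, m ≥ 6, Q the standard quadratic form x₀² + Σ x_i y_i on F^(2m+1) and Ω the commutator subgroup of its isometry group inside GL_(2m+1)(F). The elements of Ω stabilising a non-zero subspace on which Q vanishes form a maximal subgroup of Ω. -/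
theorem result {F : Type*} [Field F] [Fintype F] (hodd : Odd (Fintype.card F)) (m : ℕ) (hm : 6 ≤ m) (W : Submodule F (Unit ⊕ (Fin m ⊕ Fin m) → F)) (hW0 : W ≠ ⊥) (hW : Cfsg.Geo.IsTotallySingularQuad (Cfsg.quadFormOdd m F) W) : Cfsg.Geo.IsMaximalIn (Cfsg.Geo.omegaGL (Cfsg.quadFormOdd m F)) (Cfsg.Geo.subspaceStabilizer W ⊓ Cfsg.Geo.omegaGL (Cfsg.quadFormOdd m F)) := by
  classical
  have hp : ∃ p, Fintype.card F = p := ⟨_, rfl⟩
  obtain ⟨q, hq⟩ := hp
  have h2 := Cfsg.Lib.Classical.ClassicalOrders.two_ne (q := q) hq (hq ▸ hodd)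
  let Q : QuadraticForm F (Unit ⊕ (Fin m ⊕ Fin m) → F) := (Cfsg.Lib.Classical.QuadOrders.Qs m (Cfsg.Lib.Classical.QuadOrders.Q1 (F := F))).comp (Cfsg.Lib.Classical.QuadOrders.eOdd F m).toLinearMap
  have hQ : ∀ v, Q v = Cfsg.quadFormOdd m F v := fun v => Cfsg.Lib.Classical.QuadOrders.eOdd_form m v
  have hB : (QuadraticMap.polarBilin Q).Nondegenerate :=
    Cfsg.Lib.Classical.QuadOrders.nondeg_comp _ (Cfsg.Lib.Classical.QuadOrders.nondeg_std (Cfsg.Lib.Classical.QuadOrders.Q1_nondeg h2))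
  have hn : Module.finrank F (Unit ⊕ (Fin m ⊕ Fin m) → F) = 2 * m + 1 := by simp; omega
  have hWQ : ∀ x ∈ W, Q x = 0 := fun x hx => by rw [hQ]; exact hW x hx
  refine Cfsg.Lib.Classical.OrthSingularStab.maximal_singular hQ hB (by omega) W hW0 hWQ ?_
  by_cases hd : 2 * Module.finrank F W + 3 ≤ 2 * m + 1
  · exact Or.inr (hn ▸ hd)
  · refine Or.inl fun y hy hperp => by_contra fun hyW => ?_
    obtain ⟨U, hU, hUd⟩ := Cfsg.Lib.Classical.OrthSingularStab.exists_extend Q W hWQ hy hperp hyW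
    have := Cfsg.Lib.Classical.OrthSingularStab.finrank_ts Q hB U hU
    omega

end Cfsg.Agent.S5674
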