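import Cfsg.Statements.S5675
import Mathlib
import Cfsg.Agent.Lib.Classical.OrthNondegStab
import Cfsg.Agent.Lib.Classical.ClassicalOrders
import Cfsg.Agent.Lib.Classical.SphereMod
import Cfsg.Agent.Lib.Classical.QuadOrders

set_option autoImplicit false
open Cfsg
open scoped Matrix

namespace Cfsg.Agent.S5675

/-- Let F be a finite field of odd order q, m ≥ 6, Q the standard quadratic form on F^(2m+1) and Ω the commutator subgroup of its isometry group. Let W be a non-zero subspace of even dimension on which the polar form of Q is non-degenerate; exclude the case q = 3, dim W = 2 with Q vanishing on some line of W (a plus-type plane). Then the elements of Ω stabilising W (equivalently, stabilising its orthogonal complement, of odd dimension) form a maximal subgroup of Ω. -/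
theorem result {F : Type*} [Field F] [Fintype F] (hodd : Odd (Fintype.card F)) (m : ℕ) (hm : 6 ≤ m) (W : Submodule F (Unit ⊕ (Fin m ⊕ Fin m) → F)) (hW0 : W ≠ ⊥) (hev : Even (Module.finrank F W)) (hW : Cfsg.Geo.IsNondegenerateOn (QuadraticMap.polar (Cfsg.quadFormOdd m F)) W) (hex : ¬ (Fintype.card F = 3 ∧ Module.finrank F W = 2 ∧ Cfsg.Geo.IsPlusTypeOn (Cfsg.quadFormOdd m F) W)) : Cfsg.Geo.IsMaximalIn (Cfsg.Geo.omegaGL (Cfsg.quadFormOdd m F)) (Cfsg.Geo.subspaceStabilizer W ⊓ Cfsg.Geo.omegaGL (Cfsg.quadFormOdd m F)) := by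
  classical
  have hp : ∃ p, Fintype.card F = p := ⟨_, rfl⟩
  obtain ⟨p, hp⟩ := hp
  have h2 := Cfsg.Lib.Classical.ClassicalOrders.two_ne (q := p) hp (hp ▸ hodd)
  let Q : QuadraticForm F (Unit ⊕ (Fin m ⊕ Fin m) → F) := (Cfsg.Lib.Classical.QuadOrders.Qs m (Cfsg.Lib.Classical.QuadOrders.Q1 (F := F))).comp (Cfsg.Lib.Classical.QuadOrders.eOdd F m).toLinearMap
  have hQ : ∀ v, Q v = Cfsg.quadFormOdd m F v := fun v => Cfsg.Lib.Classical.QuadOrders.eOdd_form m v
  have hB : (QuadraticMap.polarBilin Q).Nondegenerate :=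
    Cfsg.Lib.Classical.QuadOrders.nondeg_comp _ (Cfsg.Lib.Classical.QuadOrders.nondeg_std (Cfsg.Lib.Classical.QuadOrders.Q1_nondeg h2))
  have hn : Module.finrank F (Unit ⊕ (Fin m ⊕ Fin m) → F) = 2 * m + 1 := by simp; omega
  refine Cfsg.Lib.Classical.OrthNondegStab.maximal_nondeg hQ hB (by omega) W hW0 ?_ hW ?_ ?_
  · intro ht
    rw [ht, finrank_top, hn] at hev
    obtain ⟨k, hk⟩ := hev
    omega
  · rintro P hP h3 hP2 - ⟨e, he, he0, hQe⟩
    have h3' : Fintype.card F = 3 := by
      have := Fintype.one_lt_card (α := F)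
      obtain ⟨k, hk⟩ := hodd
      omega
    rcases hP with rfl | rfl
    · refine hex ⟨h3', hP2, Submodule.span F {e}, (Submodule.span_singleton_le_iff_mem _ _).2 he, ?_, ?_⟩
      · intro w hw
        obtain ⟨c, rfl⟩ := Submodule.mem_span_singleton.1 hw
        rw [← hQ, Cfsg.Lib.Classical.Witt.quad_smul, hQe, mul_zero]
      · rw [finrank_span_singleton he0, hP2]
    · rw [LinearMap.BilinForm.finrank_orthogonal hB, hn] at hP2
      have := W.finrank_le
      obtain ⟨k, hk⟩ := hev
      omega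
  · intro h
    omega

end Cfsg.Agent.S5675
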