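import Cfsg.Statements.S5676
import Mathlib
import Cfsg.Agent.Lib.Classical.NotMaxOrth
import Cfsg.Agent.Lib.Classical.ClassicalOrders
import Cfsg.Agent.Lib.Classical.SphereMod

set_option autoImplicit false
open Cfsg
open scoped Matrix

namespace Cfsg.Agent.S5676

/-- Let F be the field with 3 elements, m ≥ 6, Q the standard quadratic form on F^(2m+1) and Ω the commutator subgroup of its isometry group. Let W be a 2-dimensional subspace on which the polar form is non-degenerate and which contains a line on which Q vanishes. Then the elements of Ω stabilising W form a subgroup that is not maximal: some subgroup lies strictly between it and Ω. -/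
theorem result {F : Type*} [Field F] [Fintype F] (hq : Fintype.card F = 3) (m : ℕ) (hm : 6 ≤ m) (W : Submodule F (Unit ⊕ (Fin m ⊕ Fin m) → F)) (hdim : Module.finrank F W = 2) (hW : Cfsg.Geo.IsNondegenerateOn (QuadraticMap.polar (Cfsg.quadFormOdd m F)) W) (hplus : Cfsg.Geo.IsPlusTypeOn (Cfsg.quadFormOdd m F) W) : ∃ K : Subgroup (Matrix.GeneralLinearGroup (Unit ⊕ (Fin m ⊕ Fin m)) F), Cfsg.Geo.subspaceStabilizer W ⊓ Cfsg.Geo.omegaGL (Cfsg.quadFormOdd m F) < K ∧ K < Cfsg.Geo.omegaGL (Cfsg.quadFormOdd m F) := by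
  classical
  have h2 := Cfsg.Lib.Classical.ClassicalOrders.two_ne (q := 3) hq (by decide)
  let Q : QuadraticForm F (Unit ⊕ (Fin m ⊕ Fin m) → F) := (Cfsg.Lib.Classical.QuadOrders.Qs m (Cfsg.Lib.Classical.QuadOrders.Q1 (F := F))).comp (Cfsg.Lib.Classical.QuadOrders.eOdd F m).toLinearMap
  have hQ : ∀ v, Q v = Cfsg.quadFormOdd m F v := fun v => Cfsg.Lib.Classical.QuadOrders.eOdd_form m v
  have hB : (QuadraticMap.polarBilin Q).Nondegenerate :=
    Cfsg.Lib.Classical.QuadOrders.nondeg_comp _ (Cfsg.Lib.Classical.QuadOrders.nondeg_std (Cfsg.Lib.Classical.QuadOrders.Q1_nondeg h2))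
  exact Cfsg.Lib.Classical.NotMaxOrth.plane_between hQ hB hq.le (by simp; omega) W hdim hW hplus

end Cfsg.Agent.S5676
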