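import Cfsg.Statements.S5677
import Mathlib
import Cfsg.Agent.Lib.Classical.OrthWreathMax
import Cfsg.Agent.Lib.Classical.ClassicalOrders
import Cfsg.Agent.Lib.Classical.SphereMod
import Cfsg.Agent.Lib.Classical.QuadOrders

set_option autoImplicit false
open Cfsg
open scoped Matrix

namespace Cfsg.Agent.S5677

/-- Let F be a finite field of odd order q, m ≥ 6, Q the standard quadratic form on F^(2m+1) and Ω the commutator subgroup of its isometry group. Let D be a decomposition of F^(2m+1) into t ≥ 2 pairwise orthogonal, pairwise Q-isometric subspaces of equal dimension k > 1 on which the polar form is non-degenerate. Unless q = 3 and k = 3, the elements of Ω permuting the members of D form a maximal subgroup of Ω. -/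
theorem result {F : Type*} [Field F] [Fintype F] (hodd : Odd (Fintype.card F)) (m : ℕ) (hm : 6 ≤ m) {t : ℕ} (k : ℕ) (hk : 1 < k) (D : Fin t → Submodule F (Unit ⊕ (Fin m ⊕ Fin m) → F)) (hD : Cfsg.Geo.IsOrthogonalMDecomposition (Cfsg.quadFormOdd m F) k D) (hex : ¬ (Fintype.card F = 3 ∧ k = 3)) : Cfsg.Geo.IsMaximalIn (Cfsg.Geo.omegaGL (Cfsg.quadFormOdd m F)) (Cfsg.Geo.decompositionStabilizer D ⊓ Cfsg.Geo.omegaGL (Cfsg.quadFormOdd m F)) := by
  classical
  have hp : ∃ p, Fintype.card F = p := ⟨_, rfl⟩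
  obtain ⟨p, hp⟩ := hp
  have h2 := Cfsg.Lib.Classical.ClassicalOrders.two_ne (q := p) hp (hp ▸ hodd)
  let Q : QuadraticForm F (Unit ⊕ (Fin m ⊕ Fin m) → F) := (Cfsg.Lib.Classical.QuadOrders.Qs m (Cfsg.Lib.Classical.QuadOrders.Q1 (F := F))).comp (Cfsg.Lib.Classical.QuadOrders.eOdd F m).toLinearMap
  have hQ : ∀ v, Q v = Cfsg.quadFormOdd m F v := fun v => Cfsg.Lib.Classical.QuadOrders.eOdd_form m v
  have hB : (QuadraticMap.polarBilin Q).Nondegenerate :=
    Cfsg.Lib.Classical.QuadOrders.nondeg_comp _ (Cfsg.Lib.Classical.QuadOrders.nondeg_std (Cfsg.Lib.Classical.QuadOrders.Q1_nondeg h2))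
  have hn : Module.finrank F (Unit ⊕ (Fin m ⊕ Fin m) → F) = 2 * m + 1 := by simp; omega
  have htk := Cfsg.Lib.Classical.OrthWreath.finrank_eq hD.decomp.decomp
  rw [hn] at htk
  have hk2 : k ≠ 2 := fun h => by rw [h] at htk; omega
  refine Cfsg.Lib.Classical.OrthWreath.maximal hQ hB (by omega) h2 (by omega) ?_ D hD
  by_cases h3 : k = 3
  · refine Or.inr ?_
    have := Fintype.one_lt_card (α := F)
    obtain ⟨c, hc⟩ := hodd
    have hne : Fintype.card F ≠ 3 := fun h => hex ⟨h, h3⟩
    rw [Nat.card_eq_fintype_card]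
    omega
  · exact Or.inl (by omega)

end Cfsg.Agent.S5677
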