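import Cfsg.Statements.S5686
import Mathlib
import Cfsg.Agent.Lib.Classical.NotMax
import Cfsg.Agent.Lib.Classical.SubspaceStab

set_option autoImplicit false
open Cfsg
open scoped Matrix

namespace Cfsg.Agent.S5686

/-- Let F be a finite field with q elements, n ≥ 13 even, Q a non-degenerate quadratic form on F^n of plus type (some subspace of dimension n/2 is totally singular), and Ω the commutator subgroup of the isometry group of Q, viewed inside GL_n(F). The elements of Ω stabilising a subspace of dimension n/2 − 1 on which Q vanishes form a subgroup that is not maximal: some subgroup lies strictly between it and Ω. -/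
theorem result {F : Type*} [Field F] [Fintype F] {n : ℕ} (hn : 13 ≤ n) (heven : Even n) (Q : (Fin n → F) → F) (hQ : Cfsg.Geo.IsNondegenerateQuadraticForm Q) (hplus : Cfsg.Geo.IsPlusTypeOn Q ⊤) (W : Submodule F (Fin n → F)) (hW : Cfsg.Geo.IsTotallySingularQuad Q W) (hdim : 2 * (Module.finrank F W + 1) = n) : ∃ K : Subgroup (Matrix.GeneralLinearGroup (Fin n) F), Cfsg.Geo.subspaceStabilizer W ⊓ Cfsg.Geo.omegaGL Q < K ∧ K < Cfsg.Geo.omegaGL Q := by
  classical
  obtain ⟨m, hm⟩ := heven
  let q := Cfsg.Lib.Classical.NotMax.quadOf hQ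
  have h : ∀ v, q v = Q v := fun v => rfl
  have hB := Cfsg.Lib.Classical.NotMax.quadOf_nondeg hQ
  have hd : Module.finrank F (Fin n → F) = 2 * m := by rw [Module.finrank_fin_fun, hm]; omega
  have hex : (∃ c : F, c ≠ 0 ∧ c ≠ 1) ∨ Module.finrank F (Fin n → F) ≠ 4 := Or.inr (by omega)
  let β := QuadraticMap.polarBilin q
  have hWd : Module.finrank F W + 1 = m := by omega
  have hWts : Cfsg.Lib.Classical.PlusFamilies.TS q W := hW
  obtain ⟨U, -, hUts, hUd⟩ := hplus
  rw [finrank_top, hd] at hUd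
  have hU : Cfsg.Lib.Classical.PlusFamilies.TS q U := hUts
  obtain ⟨z, hz, hzW⟩ : ∃ z ∈ U ⊓ LinearMap.BilinForm.orthogonal β W, z ∉ W := by
    by_contra! hcon
    have e : LinearMap.BilinForm.orthogonal β (U ⊔ W) ≤ U ⊓ LinearMap.BilinForm.orthogonal β W := by
      refine le_inf (fun x hx => ?_) (fun x hx y hy => hx y (Submodule.mem_sup_right hy))
      rw [show U = LinearMap.BilinForm.orthogonal β U from
        Submodule.eq_of_le_of_finrank_eq hU.le_perp (by rw [Cfsg.Lib.Classical.PlusFamilies.finrank_perp hB hd]; omega)]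
      exact fun a ha => hx a (Submodule.mem_sup_left ha)
    have h2 := Submodule.finrank_mono (e.trans (le_inf inf_le_left hcon : U ⊓ LinearMap.BilinForm.orthogonal β W ≤ U ⊓ W))
    rw [Cfsg.Lib.Classical.PlusFamilies.finrank_perp hB hd] at h2
    have h3 := Submodule.finrank_sup_add_finrank_inf_eq U W
    omega
  set A := W ⊔ Submodule.span F {z} with hAdef
  have hA : Cfsg.Lib.Classical.PlusFamilies.TS q A := hWts.sup (fun x hx => by
    obtain ⟨c, rfl⟩ := Submodule.mem_span_singleton.1 hx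
    rw [Cfsg.Lib.Classical.Witt.quad_smul, hU z hz.1, mul_zero]) fun a ha b hb => by
    obtain ⟨c, rfl⟩ := Submodule.mem_span_singleton.1 hb
    have h0 : β a z = 0 := hz.2 a ha
    rw [map_smul, h0, smul_zero]
  have hzA : z ∈ A := Submodule.mem_sup_right (Submodule.mem_span_singleton_self z)
  have hWA : W ≤ A := le_sup_left
  have hAd : Module.finrank F A = m := le_antisymm (hA.finrank_le hB hd) (by
    have := Submodule.finrank_lt_finrank_of_lt (lt_of_le_of_ne hWA fun e => hzW (e ▸ hzA))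
    omega)
  obtain ⟨a, ha, ha0⟩ : ∃ a ∈ W, a ≠ 0 := by
    refine Submodule.exists_mem_ne_zero_of_ne_bot fun e => ?_
    rw [e, finrank_bot] at hWd; omega
  have hza : a ∉ Submodule.span F {z} := fun hmem => by
    obtain ⟨c, rfl⟩ := Submodule.mem_span_singleton.1 hmem
    exact hzW ((W.smul_mem_iff fun hc => ha0 (by rw [hc, zero_smul])).1 ha)
  obtain ⟨b, hQb, hab, hbz⟩ := Cfsg.Lib.Classical.NotMax.exists_dual hB (hWts a ha) (Submodule.span F {z}) hza fun s hs => by
    obtain ⟨c, rfl⟩ := Submodule.mem_span_singleton.1 hs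
    rw [map_smul, LinearMap.smul_apply, hA.polar hzA (hWA ha), smul_zero]
  have hle : Cfsg.Geo.subspaceStabilizer W ⊓ Cfsg.Geo.omegaGL Q ≤ Cfsg.Geo.subspaceStabilizer A ⊓ Cfsg.Geo.omegaGL Q := by
    rintro g ⟨hgW, hgO⟩
    refine ⟨Cfsg.Lib.Classical.NotMax.stab_of_map ?_, hgO⟩
    have hpar := Cfsg.Lib.Classical.NotMax.family_parity h hB hex hd hgO hA hAd
    set A' := A.map (Matrix.toLin' (g : Matrix (Fin n) (Fin n) F)) with hA'
    have hWA' : W ≤ A ⊓ A' := le_inf hWA ((Cfsg.Lib.Classical.NotMax.map_eq_of_stab hgW).ge.trans (Submodule.map_mono hWA))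
    have h1 := Submodule.finrank_mono hWA'
    have h2 := Submodule.finrank_mono (inf_le_left : A ⊓ A' ≤ A)
    obtain ⟨s, hs⟩ := hpar
    have h3 : Module.finrank F ↥(A ⊓ A') = m := by omega
    have h4 : A ≤ A' := inf_eq_left.1 (Submodule.eq_of_le_of_finrank_eq inf_le_left (h3.trans hAd.symm))
    exact (Submodule.eq_of_le_of_finrank_le h4 (le_of_eq_of_le rfl (Submodule.finrank_map_le _ _))).symm
  refine ⟨Cfsg.Geo.subspaceStabilizer A ⊓ Cfsg.Geo.omegaGL Q, lt_of_le_of_ne hle fun e => ?_, lt_of_le_of_ne inf_le_right fun e => ?_⟩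
  · obtain ⟨g, hg, -, hgx⟩ := Cfsg.Lib.Classical.NotMax.eichler h hB (hWts a ha) hQb (hA z hzA) hab (hA.polar (hWA ha) hzA)
      (hbz z (Submodule.mem_span_singleton_self z))
    have hgA : g ∈ Cfsg.Geo.subspaceStabilizer A := Cfsg.Lib.Classical.map_eq_of_maps_to fun x hx => by
      rw [hgx x (hA.polar (hWA ha) hx) (hA.polar hzA hx)]
      exact A.sub_mem hx (A.smul_mem _ hzA)
    have hgW := Cfsg.Lib.Classical.mem_subspaceStabilizer.1 ((e.symm ▸ ⟨hgA, hg⟩ : g ∈ Cfsg.Geo.subspaceStabilizer W ⊓ Cfsg.Geo.omegaGL Q)).1 a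
    rw [hgx a (hA.polar (hWA ha) (hWA ha)) (hA.polar hzA (hWA ha)),
      Cfsg.Lib.Classical.Witt.polar_symm' q b a, hab, one_smul] at hgW
    exact hzW (by simpa using W.sub_mem ha (hgW.1 ha))
  · obtain ⟨b2, hQb2, hzb, hb2⟩ := Cfsg.Lib.Classical.NotMax.exists_dual hB (hA z hzA) (Submodule.span F {a, b}) (fun hmem => by
      obtain ⟨c, d, hcd⟩ := Submodule.mem_span_pair.1 hmem
      have h1 := congrArg (β a) hcd
      rw [map_add, map_smul, map_smul, hA.polar (hWA ha) (hWA ha), hab, hA.polar (hWA ha) hzA, smul_zero, zero_add, smul_eq_mul, mul_one] at h1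
      rw [h1, zero_smul, add_zero] at hcd
      exact hzW (hcd ▸ W.smul_mem c ha)) (fun s hs => by
      obtain ⟨c, d, rfl⟩ := Submodule.mem_span_pair.1 hs
      rw [map_add, map_smul, map_smul, LinearMap.add_apply, LinearMap.smul_apply, LinearMap.smul_apply,
        hA.polar (hWA ha) hzA, hbz z (Submodule.mem_span_singleton_self z)]
      simp)
    have hbb2 : β b b2 = 0 := by
      rw [Cfsg.Lib.Classical.Witt.polar_symm']; exact hb2 b (Submodule.subset_span (by simp))
    have hab2 : β a b2 = 0 := by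
      rw [Cfsg.Lib.Classical.Witt.polar_symm']; exact hb2 a (Submodule.subset_span (by simp))
    have h1 : q (a + b) = 1 := by rw [Cfsg.Lib.Classical.Witt.quad_add, hWts a ha, hQb, hab]; ring
    have h2 : q (z + b2) = 1 := by rw [Cfsg.Lib.Classical.Witt.quad_add, hA z hzA, hQb2, hzb]; ring
    have hp := Cfsg.Lib.Classical.NotMax.pair_mem h hB (u := a + b) (v := z + b2) (by rw [h1]; exact one_ne_zero) (h1.trans h2.symm)
    have hst := Cfsg.Lib.Classical.mem_subspaceStabilizer.1 ((e.symm ▸ hp : _ ∈ Cfsg.Geo.subspaceStabilizer A ⊓ Cfsg.Geo.omegaGL Q)).1 z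
    rw [Units.val_mul, ← Matrix.mulVec_mulVec, Cfsg.Lib.Classical.NotMax.reflGL_mulVec h, Cfsg.Lib.Classical.NotMax.reflGL_mulVec h, h1, h2, inv_one, one_mul, one_mul] at hst
    have hzz : β z z = 0 := hA.polar hzA hzA
    have hb2z : β b2 z = 1 := by rw [Cfsg.Lib.Classical.Witt.polar_symm', hzb]
    have haz : β a z = 0 := hA.polar (hWA ha) hzA
    have hbz' : β b z = 0 := hbz z (Submodule.mem_span_singleton_self z)
    simp only [map_add, map_sub, map_smul, LinearMap.add_apply, β] at hzz hb2z haz hbz' hbb2 hab2 hzb hst ⊢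
    simp only [hzz, hb2z, haz, hbz', hab2, hbb2, zero_add, add_zero, sub_zero, one_smul, zero_smul, smul_zero] at hst
    have hmem := hst.1 hzA
    rw [show z - (z + b2) = -b2 by abel] at hmem
    have h0 : QuadraticMap.polarBilin q z (-b2) = 0 := hA.polar hzA hmem
    rw [map_neg, hzb] at h0
    exact one_ne_zero (neg_eq_zero.1 h0)

end Cfsg.Agent.S5686
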