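import Cfsg.Statements.S5687
import Mathlib
import Cfsg.Agent.Lib.Classical.OrthSingularStab
import Cfsg.Agent.Lib.Classical.NotMax

set_option autoImplicit false
open Cfsg
open scoped Matrix

namespace Cfsg.Agent.S5687

/-- Let F be a finite field with q elements, n ≥ 13 even, Q a non-degenerate quadratic form on F^n of minus type (no subspace of dimension n/2 is totally singular), and Ω the commutator subgroup of the isometry group of Q, viewed inside GL_n(F). The elements of Ω stabilising a non-zero subspace on which Q vanishes form a maximal subgroup of Ω. -/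
theorem result {F : Type*} [Field F] [Fintype F] {n : ℕ} (hn : 13 ≤ n) (heven : Even n) (Q : (Fin n → F) → F) (hQ : Cfsg.Geo.IsNondegenerateQuadraticForm Q) (hminus : ¬ Cfsg.Geo.IsPlusTypeOn Q ⊤) (W : Submodule F (Fin n → F)) (hW0 : W ≠ ⊥) (hW : Cfsg.Geo.IsTotallySingularQuad Q W) : Cfsg.Geo.IsMaximalIn (Cfsg.Geo.omegaGL Q) (Cfsg.Geo.subspaceStabilizer W ⊓ Cfsg.Geo.omegaGL Q) := by
  classical
  set q := Cfsg.Lib.Classical.NotMax.quadOf hQ with hq
  have hqQ : ∀ v, q v = Q v := fun v => rfl
  have hB := Cfsg.Lib.Classical.NotMax.quadOf_nondeg hQ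
  have hn' : Module.finrank F (Fin n → F) = n := Module.finrank_fin_fun F
  have hWQ : ∀ x ∈ W, q x = 0 := hW
  refine Cfsg.Lib.Classical.OrthSingularStab.maximal_singular hqQ hB (by omega) W hW0 hWQ ?_
  have hts := Cfsg.Lib.Classical.OrthSingularStab.finrank_ts q hB W hWQ
  obtain ⟨k, hk⟩ := heven
  by_cases hd : 2 * Module.finrank F W + 3 ≤ n
  · exact Or.inr (hn'.symm ▸ hd)
  · refine Or.inl fun y hy hperp => by_contra fun hyW => ?_
    obtain ⟨U, hU, hUd⟩ := Cfsg.Lib.Classical.OrthSingularStab.exists_extend q W hWQ hy hperp hyW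
    have := Cfsg.Lib.Classical.OrthSingularStab.finrank_ts q hB U hU
    exact hminus ⟨U, le_top, hU, by rw [finrank_top]; omega⟩

end Cfsg.Agent.S5687
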