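import Cfsg.Statements.S5688
import Mathlib
import Cfsg.Agent.Lib.Classical.OrthNondegStab
import Cfsg.Agent.Lib.Classical.NotMax

set_option autoImplicit false
open Cfsg
open scoped Matrix

namespace Cfsg.Agent.S5688

/-- Let F be a finite field with q elements, n ≥ 13 even, Q a non-degenerate quadratic form on F^n of plus type (some subspace of dimension n/2 is totally singular), and Ω the commutator subgroup of the isometry group of Q, viewed inside GL_n(F). Let W be a non-zero proper subspace with dim W ≠ n/2 on which the polar form of Q is non-degenerate. Exclude the case q ≤ 3 in which W, or its orthogonal complement, is a plane containing a line on which Q vanishes. Then the elements of Ω stabilising W form a maximal subgroup of Ω. -/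
theorem result {F : Type*} [Field F] [Fintype F] {n : ℕ} (hn : 13 ≤ n) (heven : Even n) (Q : (Fin n → F) → F) (hQ : Cfsg.Geo.IsNondegenerateQuadraticForm Q) (hplus : Cfsg.Geo.IsPlusTypeOn Q ⊤) (W : Submodule F (Fin n → F)) (hW0 : W ≠ ⊥) (hW1 : W ≠ ⊤) (hdim : 2 * Module.finrank F W ≠ n) (hW : Cfsg.Geo.IsNondegenerateOn (QuadraticMap.polar Q) W) (hex : ¬ (Fintype.card F ≤ 3 ∧ (∃ U : Submodule F (Fin n → F), Module.finrank F U = 2 ∧ Cfsg.Geo.IsNondegenerateOn (QuadraticMap.polar Q) U ∧ Cfsg.Geo.IsPlusTypeOn Q U ∧ (U = W ∨ (Cfsg.Geo.AreOrthogonalFor (QuadraticMap.polar Q) U W ∧ Module.finrank F U + Module.finrank F W = n))))) : Cfsg.Geo.IsMaximalIn (Cfsg.Geo.omegaGL Q) (Cfsg.Geo.subspaceStabilizer W ⊓ Cfsg.Geo.omegaGL Q) := by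
  classical
  set q := Cfsg.Lib.Classical.NotMax.quadOf hQ with hq
  have hqQ : ∀ v, q v = Q v := fun v => rfl
  have hfun : ∀ x y, QuadraticMap.polarBilin q x y = QuadraticMap.polar Q x y := fun x y => rfl
  have hB := Cfsg.Lib.Classical.NotMax.quadOf_nondeg hQ
  have hn' : Module.finrank F (Fin n → F) = n := Module.finrank_fin_fun F
  refine Cfsg.Lib.Classical.OrthNondegStab.maximal_nondeg hqQ hB (by omega) W hW0 hW1 hW ?_ ?_
  · rintro P hP h3 hP2 hPd ⟨e, he, he0, hQe⟩
    refine hex ⟨h3, P, hP2, fun w hw hw0 => ?_, ⟨Submodule.span F {e}, ?_, ?_, ?_⟩, ?_⟩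
    · have key : ∃ x ∈ P, QuadraticMap.polarBilin q x w ≠ 0 := by
        by_contra hc
        push Not at hc
        exact hw0 ((Submodule.eq_bot_iff _).1 hPd w ⟨hw, LinearMap.BilinForm.mem_orthogonal_iff.2 hc⟩)
      obtain ⟨x, hx, hxw⟩ := key
      exact ⟨⟨x, hx, fun h => hxw ((hfun x w).trans h)⟩, ⟨x, hx, fun h => hxw (by
        rw [Cfsg.Lib.Classical.Witt.polar_symm']; exact (hfun w x).trans h)⟩⟩
    · exact (Submodule.span_singleton_le_iff_mem _ _).2 he
    · intro w hw
      obtain ⟨c, rfl⟩ := Submodule.mem_span_singleton.1 hw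
      rw [← hqQ, Cfsg.Lib.Classical.Witt.quad_smul, hQe, mul_zero]
    · rw [finrank_span_singleton he0, hP2]
    · rcases hP with rfl | rfl
      · exact Or.inl rfl
      · refine Or.inr ⟨fun u hu w hw => ?_, ?_⟩
        · rw [← hfun, Cfsg.Lib.Classical.Witt.polar_symm']
          exact LinearMap.BilinForm.mem_orthogonal_iff.1 hu w hw
        · rw [LinearMap.BilinForm.finrank_orthogonal hB]
          have := W.finrank_le
          omega
  · exact fun h => absurd (h.trans hn') hdim

end Cfsg.Agent.S5688
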