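import Cfsg.Statements.S5698
import Mathlib
import Cfsg.Agent.Lib.Classical.NotMax
import Cfsg.Agent.Lib.Classical.SubspaceStab

set_option autoImplicit false
open Cfsg
open scoped Matrix

namespace Cfsg.Agent.S5698

/-- Let F be a finite field with q elements, n ≥ 13 even, Q a non-degenerate quadratic form on F^n of plus type (some subspace of dimension n/2 is totally singular), and Ω the commutator subgroup of the isometry group of Q, viewed inside GL_n(F). Suppose n/2 is odd and let D be a decomposition of F^n into two complementary subspaces of dimension n/2 on each of which Q vanishes. Then the elements of Ω preserving or interchanging the two subspaces form a subgroup that is not maximal: some subgroup lies strictly between it and Ω. -/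
theorem result {F : Type*} [Field F] [Fintype F] {n : ℕ} (hn : 13 ≤ n) (heven : Even n) (Q : (Fin n → F) → F) (hQ : Cfsg.Geo.IsNondegenerateQuadraticForm Q) (hplus : Cfsg.Geo.IsPlusTypeOn Q ⊤) (k : ℕ) (hk : 2 * k = n) (hko : Odd k) (D : Fin 2 → Submodule F (Fin n → F)) (hD : Cfsg.Geo.IsMDecomposition k D) (hts : ∀ i, Cfsg.Geo.IsTotallySingularQuad Q (D i)) : ∃ K : Subgroup (Matrix.GeneralLinearGroup (Fin n) F), Cfsg.Geo.decompositionStabilizer D ⊓ Cfsg.Geo.omegaGL Q < K ∧ K < Cfsg.Geo.omegaGL Q := by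
  classical
  obtain ⟨m, hm⟩ := heven
  let q := Cfsg.Lib.Classical.NotMax.quadOf hQ
  have h : ∀ v, q v = Q v := fun v => rfl
  have hB := Cfsg.Lib.Classical.NotMax.quadOf_nondeg hQ
  have hd : Module.finrank F (Fin n → F) = 2 * m := by rw [Module.finrank_fin_fun, hm]; omega
  have hex : (∃ c : F, c ≠ 0 ∧ c ≠ 1) ∨ Module.finrank F (Fin n → F) ≠ 4 := Or.inr (by omega)
  let β := QuadraticMap.polarBilin q
  have hkm : k = m := by omega
  subst hkm
  have hts' : ∀ i, Cfsg.Lib.Classical.PlusFamilies.TS q (D i) := fun i => hts i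
  have hdd : ∀ i, Module.finrank F (D i) = k := hD.finrank_eq
  have htop : D 0 ⊔ D 1 = ⊤ := by
    rw [← hD.iSup_eq_top]
    refine le_antisymm (sup_le (le_iSup D 0) (le_iSup D 1)) (iSup_le fun i => ?_)
    fin_cases i
    · exact le_sup_left
    · exact le_sup_right
  have hbot : D 0 ⊓ D 1 = ⊥ := disjoint_iff.1 (hD.indep.pairwiseDisjoint (by decide))
  have hle : Cfsg.Geo.decompositionStabilizer D ⊓ Cfsg.Geo.omegaGL Q ≤ Cfsg.Geo.subspaceStabilizer (D 0) ⊓ Cfsg.Geo.omegaGL Q := by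
    rintro g ⟨⟨σ, hσ⟩, hgO⟩
    refine ⟨Cfsg.Lib.Classical.NotMax.stab_of_map ?_, hgO⟩
    rw [hσ 0]
    rcases (by omega : σ 0 = 0 ∨ σ 0 = 1) with e | e
    · rw [e]
    · exfalso
      have hpar := Cfsg.Lib.Classical.NotMax.family_parity h hB hex hd hgO (hts' 0) (hdd 0)
      rw [hσ 0, e, hbot, finrank_bot, Nat.sub_zero] at hpar
      exact Nat.not_even_iff_odd.2 hko hpar
  obtain ⟨a, ha, ha0⟩ : ∃ a ∈ D 0, a ≠ 0 := by
    refine Submodule.exists_mem_ne_zero_of_ne_bot fun e => ?_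
    have := hdd 0
    rw [e, finrank_bot] at this; omega
  obtain ⟨b, hb, hab⟩ : ∃ b ∈ D 1, β a b = 1 := by
    by_cases hex' : ∃ b ∈ D 1, β a b ≠ 0
    · obtain ⟨b, hb, hne⟩ := hex'
      exact ⟨(β a b)⁻¹ • b, Submodule.smul_mem _ _ hb, by rw [map_smul, smul_eq_mul, inv_mul_cancel₀ hne]⟩
    · push Not at hex'
      refine absurd (hB.1 a fun y => ?_) ha0
      obtain ⟨y0, hy0, y1, hy1, rfl⟩ := Submodule.mem_sup.1 (htop.symm ▸ Submodule.mem_top : y ∈ D 0 ⊔ D 1)
      show β a (y0 + y1) = 0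
      rw [map_add, (hts' 0).polar ha hy0, hex' y1 hy1, add_zero]
  obtain ⟨c, ⟨hc, hbc⟩, hc0⟩ : ∃ c, (c ∈ D 0 ∧ β b c = 0) ∧ c ≠ 0 := by
    have h1 := (((β b).comp (D 0).subtype)).finrank_range_add_finrank_ker
    have h2 := (LinearMap.range ((β b).comp (D 0).subtype)).finrank_le
    rw [Module.finrank_self] at h2
    rw [hdd 0] at h1
    obtain ⟨x, hx, hx0⟩ := Submodule.exists_mem_ne_zero_of_ne_bot (p := LinearMap.ker ((β b).comp (D 0).subtype))
      (fun e => by rw [e, finrank_bot] at h1; omega)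
    exact ⟨x.1, ⟨x.2, hx⟩, fun e => hx0 (Subtype.ext e)⟩
  have haa : β a a = 0 := (hts' 0).polar ha ha
  have hbb : β b b = 0 := (hts' 1).polar hb hb
  refine ⟨Cfsg.Geo.subspaceStabilizer (D 0) ⊓ Cfsg.Geo.omegaGL Q, lt_of_le_of_ne hle fun e => ?_, lt_of_le_of_ne inf_le_right fun e => ?_⟩
  · obtain ⟨g, hg, hgb, hgx⟩ := Cfsg.Lib.Classical.NotMax.eichler h hB ((hts' 0) a ha) ((hts' 1) b hb) ((hts' 0) c hc) hab ((hts' 0).polar ha hc) hbc
    have hgA : g ∈ Cfsg.Geo.subspaceStabilizer (D 0) := Cfsg.Lib.Classical.map_eq_of_maps_to fun x hx => by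
      rw [hgx x ((hts' 0).polar ha hx) ((hts' 0).polar hc hx)]
      exact Submodule.sub_mem _ hx (Submodule.smul_mem _ _ hc)
    obtain ⟨σ, hσ⟩ := ((e.symm ▸ ⟨hgA, hg⟩ : g ∈ Cfsg.Geo.decompositionStabilizer D ⊓ Cfsg.Geo.omegaGL Q)).1
    have hmem : b - c ∈ D (σ 1) := by
      rw [← hσ 1, ← hgb]
      exact ⟨b, hb, Matrix.toLin'_apply _ _⟩
    rcases (by omega : σ 1 = 0 ∨ σ 1 = 1) with e1 | e1 <;> rw [e1] at hmem
    · have h0 : b ∈ D 0 ⊓ D 1 := ⟨by simpa using Submodule.add_mem _ hmem hc, hb⟩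
      rw [hbot, Submodule.mem_bot] at h0
      rw [h0, map_zero] at hab
      exact zero_ne_one hab
    · have h0 : c ∈ D 0 ⊓ D 1 := ⟨hc, by simpa using Submodule.sub_mem _ hb hmem⟩
      rw [hbot, Submodule.mem_bot] at h0
      exact hc0 h0
  · obtain ⟨c', hc', hb2⟩ : ∃ c' ∈ D 1, β c c' = 1 := by
      by_cases hex' : ∃ y ∈ D 1, β c y ≠ 0
      · obtain ⟨y, hy, hne⟩ := hex'
        exact ⟨(β c y)⁻¹ • y, Submodule.smul_mem _ _ hy, by rw [map_smul, smul_eq_mul, inv_mul_cancel₀ hne]⟩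
      · push Not at hex'
        refine absurd (hB.1 c fun y => ?_) hc0
        obtain ⟨y0, hy0, y1, hy1, rfl⟩ := Submodule.mem_sup.1 (htop.symm ▸ Submodule.mem_top : y ∈ D 0 ⊔ D 1)
        show β c (y0 + y1) = 0
        rw [map_add, (hts' 0).polar hc hy0, hex' y1 hy1, add_zero]
    set b2 := c' - (β a c') • b with hb2def
    have hb2m : b2 ∈ D 1 := Submodule.sub_mem _ hc' (Submodule.smul_mem _ _ hb)
    have hcb : β c b = 0 := by rw [Cfsg.Lib.Classical.Witt.polar_symm', hbc]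
    have hzb : β c b2 = 1 := by rw [hb2def, map_sub, map_smul, hb2, hcb, smul_zero, sub_zero]
    have hab2 : β a b2 = 0 := by rw [hb2def, map_sub, map_smul, hab, smul_eq_mul, mul_one, sub_self]
    have hbb2 : β b b2 = 0 := (hts' 1).polar hb hb2m
    have h1 : q (a + b) = 1 := by rw [Cfsg.Lib.Classical.Witt.quad_add, (hts' 0) a ha, (hts' 1) b hb, hab]; ring
    have h2 : q (c + b2) = 1 := by rw [Cfsg.Lib.Classical.Witt.quad_add, (hts' 0) c hc, (hts' 1) b2 hb2m, hzb]; ring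
    have hp := Cfsg.Lib.Classical.NotMax.pair_mem h hB (u := a + b) (v := c + b2) (by rw [h1]; exact one_ne_zero) (h1.trans h2.symm)
    have hst := Cfsg.Lib.Classical.mem_subspaceStabilizer.1 ((e.symm ▸ hp : _ ∈ Cfsg.Geo.subspaceStabilizer (D 0) ⊓ Cfsg.Geo.omegaGL Q)).1 c
    rw [Units.val_mul, ← Matrix.mulVec_mulVec, Cfsg.Lib.Classical.NotMax.reflGL_mulVec h, Cfsg.Lib.Classical.NotMax.reflGL_mulVec h, h1, h2, inv_one, one_mul, one_mul] at hst
    have hzz : β c c = 0 := (hts' 0).polar hc hc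
    have hb2z : β b2 c = 1 := by rw [Cfsg.Lib.Classical.Witt.polar_symm', hzb]
    have haz : β a c = 0 := (hts' 0).polar ha hc
    simp only [map_add, map_sub, map_smul, LinearMap.add_apply, β] at hzz hb2z haz hbc hbb2 hab2 hzb hst ⊢
    simp only [hzz, hb2z, haz, hbc, hab2, hbb2, zero_add, add_zero, sub_zero, one_smul, zero_smul, smul_zero] at hst
    have hmem := hst.1 hc
    rw [show c - (c + b2) = -b2 by abel] at hmem
    have h0 : QuadraticMap.polarBilin q c (-b2) = 0 := (hts' 0).polar hc hmem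
    rw [map_neg, hzb] at h0
    exact one_ne_zero (neg_eq_zero.1 h0)

end Cfsg.Agent.S5698
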