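import Cfsg.Statements.S5699
import Mathlib
import Cfsg.Agent.Lib.Classical.OrthNondegStab
import Cfsg.Agent.Lib.Classical.NotMax

set_option autoImplicit false
open Cfsg
open scoped Matrix MatrixGroups

namespace Cfsg.Agent.S5699

/-- Let F be a finite field with q elements, n ≥ 13 even, Q a non-degenerate quadratic form on F^n (of either type), and Ω the commutator subgroup of the isometry group of Q, viewed inside GL_n(F). Let D be a decomposition of F^n into two orthogonal subspaces of odd dimension n/2 on which the polar form is non-degenerate and which are not Q-isometric to each other. Then the elements of Ω permuting (necessarily fixing) the two subspaces form a maximal subgroup of Ω. -/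
theorem result {F : Type*} [Field F] [Fintype F] {n : ℕ} (hn : 13 ≤ n) (heven : Even n) (Q : (Fin n → F) → F) (hQ : Cfsg.Geo.IsNondegenerateQuadraticForm Q) (k : ℕ) (hk : 2 * k = n) (hko : Odd k) (D : Fin 2 → Submodule F (Fin n → F)) (hD : Cfsg.Geo.IsNondegenerateMDecomposition (QuadraticMap.polar Q) k D) (hni : ¬ Cfsg.Geo.AreIsometricFor Q (D 0) (D 1)) : Cfsg.Geo.IsMaximalIn (Cfsg.Geo.omegaGL Q) (Cfsg.Geo.decompositionStabilizer D ⊓ Cfsg.Geo.omegaGL Q) := by
  classical
  set q := Cfsg.Lib.Classical.NotMax.quadOf hQ with hq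
  have hqQ : ∀ v, q v = Q v := fun v => rfl
  have hfun : ∀ x y, QuadraticMap.polarBilin q x y = QuadraticMap.polar Q x y := fun x y => rfl
  have hB := Cfsg.Lib.Classical.NotMax.quadOf_nondeg hQ
  have hn' : Module.finrank F (Fin n → F) = n := Module.finrank_fin_fun F
  have hd := hD.decomp.finrank_eq
  set B := QuadraticMap.polarBilin q with hBd
  have hU : D 0 ⊓ LinearMap.BilinForm.orthogonal B (D 0) = ⊥ :=
    (Submodule.eq_bot_iff _).2 fun x hx => by_contra fun hx0 => by
      obtain ⟨⟨y, hy, hyx⟩, -⟩ := hD.nondegenerate 0 x hx.1 hx0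
      exact hyx ((hfun y x).symm.trans (LinearMap.BilinForm.mem_orthogonal_iff.1 hx.2 y hy))
  have hK : D 1 = LinearMap.BilinForm.orthogonal B (D 0) := by
    refine Submodule.eq_of_le_of_finrank_eq (fun x hx => LinearMap.BilinForm.mem_orthogonal_iff.2
      fun y hy => (hfun y x).trans (hD.orthogonal 0 1 (by decide) y hy x hx)) ?_
    have h0 := hd 0
    have h1 := hd 1
    rw [LinearMap.BilinForm.finrank_orthogonal hB, hn', h0, h1]
    omega
  have hno : ∀ g : Cfsg.Lib.Classical.Witt.quadIso q,
      ¬ ∀ x ∈ D 0, g.1 x ∈ LinearMap.BilinForm.orthogonal B (D 0) := by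
    intro g hg
    rw [← hK] at hg
    refine hni ⟨LinearEquiv.ofBijective ((g.1 : (Fin n → F) →ₗ[F] (Fin n → F)).restrict hg) ⟨?_, ?_⟩,
      fun w => ?_⟩
    · exact fun a b h => Subtype.ext (g.1.injective (congrArg Subtype.val h))
    · exact (LinearMap.injective_iff_surjective_of_finrank_eq_finrank (by rw [hd, hd])).1
        fun a b h => Subtype.ext (g.1.injective (congrArg Subtype.val h))
    · show Q (g.1 (w : Fin n → F)) = Q w
      rw [← hqQ, ← hqQ, g.2]
  have hdim0 := hd 0
  -- the stabiliser of the decomposition fixes the first subspace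
  have hiff : ∀ g : Cfsg.Lib.Classical.Witt.quadIso q,
      Cfsg.Lib.Classical.OmegaBridge.toGL hqQ g ∈ Cfsg.Geo.decompositionStabilizer D ↔
        ∀ x ∈ D 0, g.1 x ∈ D 0 := by
    intro g
    constructor
    · rintro ⟨σ, hσ⟩ x hx
      have h1 : g.1 x ∈ D (σ 0) := by
        rw [← hσ 0]
        exact ⟨x, hx, by rw [Matrix.toLin'_apply, Cfsg.Lib.Classical.OmegaBridge.toGL_mulVec]⟩
      by_cases h0 : σ 0 = 0
      · rwa [h0] at h1
      · refine absurd (fun y hy => ?_) (hno g)
        rw [← hK]
        have h2 : g.1 y ∈ D (σ 0) := by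
          rw [← hσ 0]
          exact ⟨y, hy, by rw [Matrix.toLin'_apply, Cfsg.Lib.Classical.OmegaBridge.toGL_mulVec]⟩
        rwa [show σ 0 = 1 by omega] at h2
    · intro hg
      refine ⟨1, fun i => ?_⟩
      have key : ∀ i, ∀ x ∈ D i, g.1 x ∈ D i := by
        intro i
        fin_cases i
        · exact hg
        · show ∀ x ∈ D 1, g.1 x ∈ D 1
          rw [hK]
          intro x hx
          refine LinearMap.BilinForm.mem_orthogonal_iff.2 fun y hy => ?_
          obtain ⟨z, hz⟩ := LinearMap.surjective_of_injective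
            (f := (g.1 : (Fin n → F) →ₗ[F] (Fin n → F)).restrict (p := D 0) (q := D 0) hg)
            (fun z z' e => Subtype.ext (g.1.injective (congrArg Subtype.val e))) ⟨y, hy⟩
          have hzy : g.1 (z : Fin n → F) = y := congrArg Subtype.val hz
          show B y (g.1 x) = 0
          rw [← hzy, hBd, Cfsg.Lib.Classical.Reflections.polar_apply]
          exact LinearMap.BilinForm.mem_orthogonal_iff.1 hx z z.2
      refine Submodule.eq_of_le_of_finrank_eq ?_ ?_
      · rintro _ ⟨x, hx, rfl⟩
        rw [Matrix.toLin'_apply, Cfsg.Lib.Classical.OmegaBridge.toGL_mulVec]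
        exact key i x hx
      · have hinj : Function.Injective (Matrix.toLin'
            ((Cfsg.Lib.Classical.OmegaBridge.toGL hqQ g : GL (Fin n) F) : Matrix (Fin n) (Fin n) F)) :=
          fun x y e => by
            rw [Matrix.toLin'_apply, Matrix.toLin'_apply, Cfsg.Lib.Classical.OmegaBridge.toGL_mulVec,
              Cfsg.Lib.Classical.OmegaBridge.toGL_mulVec] at e
            exact g.1.injective e
        rw [← LinearEquiv.finrank_eq (Submodule.equivMapOfInjective _ hinj (D i))]
        rfl
  refine Cfsg.Lib.Classical.OmegaBridge.isMaximalIn hqQ _ ?_ fun H hH g hg _ hgN => ?_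
  · obtain ⟨g, hg, hgU⟩ := Cfsg.Lib.Classical.OrthNondegStab.exists_moving q hB hU (by omega) (by omega)
      (fun ht => by rw [ht, finrank_top, hn'] at hdim0; omega)
    exact ⟨g, hg, fun hc => hgU ((hiff g).1 hc)⟩
  · refine Cfsg.Lib.Classical.OrthNondegStab.commutator_le_of_nondeg q hB hU (by omega) (by omega)
      (fun g hg hgU => hH g hg ((hiff g).2 hgU)) (fun hc => ?_) hno hg fun hgU => hgN ((hiff g).2 hgU)
    have h1 := hc.2.1
    rw [← hK, hd] at h1
    omega

end Cfsg.Agent.S5699
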