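import Cfsg.Statements.S5941
import Mathlib
import Cfsg.Agent.Lib.Classical.SubfieldGroupMaxTwo
import Cfsg.Agent.Lib.Classical.TwoDimTorusSylow
import Cfsg.Agent.Lib.Classical.PSLTwoOdd
-- import your own Cfsg.Agent.* helpers here

set_option autoImplicit false
open Cfsg

namespace Cfsg.Agent.S5941

/-- Let K and F be finite fields of odd characteristic with #F = (#K)². Then PSL_2(F) has a maximal subgroup isomorphic to PGL_2(K). -/
theorem result {F K : Type*} [Field F] [Fintype F] [Field K] [Fintype K] (q : ℕ) (hK : Fintype.card K = q) (hF : Fintype.card F = q ^ 2) (hq : Odd q) : ∃ H : Subgroup (Matrix.ProjectiveSpecialLinearGroup (Fin 2) F), IsCoatom H ∧ Nonempty (H ≃* Matrix.ProjGenLinGroup (Fin 2) K) := by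
  classical
  obtain ⟨p, hp⟩ := CharP.exists F
  obtain ⟨e, hpp, hpe⟩ := FiniteField.card F p
  haveI := Fact.mk hpp
  have hp2 : p ≠ 2 := by
    rintro rfl
    have h1 : Odd (q ^ 2) := hq.pow
    rw [← hF, hpe] at h1
    exact absurd h1 (Nat.not_odd_iff_even.2 (Nat.even_pow.2 ⟨even_two, e.pos.ne'⟩))
  have hcF : ringChar F ≠ 2 := by rw [ringChar.eq F p]; exact hp2
  have h2 : (2 : F) ≠ 0 := Ring.two_ne_zero hcF
  haveI : NeZero (2 : F) := ⟨h2⟩
  obtain ⟨φ⟩ := Cfsg.Lib.Classical.SubfieldTwo.exists_emb (F := F) (K := K) (r := 2) (by norm_num) (by rw [hF, hK])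
  have hφ : Function.Injective φ := φ.injective
  have hF₀ : Nat.card φ.fieldRange = q := by
    rw [← hK, ← Nat.card_eq_fintype_card]
    exact (Nat.card_congr (Equiv.ofBijective (fun k => (⟨φ k, k, rfl⟩ : φ.fieldRange)) ⟨fun a b h => hφ (congrArg Subtype.val h), fun ⟨_, k, h⟩ => ⟨k, Subtype.ext h⟩⟩)).symm
  have hq3 : 3 ≤ q := by
    have h1 : 1 < q := hK ▸ Fintype.one_lt_card
    obtain ⟨t, ht⟩ := hq
    omega
  -- elements of the subfield are squares
  have hsq : ∀ u : Kˣ, ∃ c : F, c * c * φ (u : K) = 1 := fun u => by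
    have hu : φ (u : K) ≠ 0 := fun h => u.ne_zero (hφ (by rw [h, map_zero]))
    have hs : IsSquare (φ (u : K)) := by
      rw [FiniteField.isSquare_iff hcF hu, ← map_pow, hF]
      obtain ⟨t, rfl⟩ := hq
      rw [show (2 * t + 1) ^ 2 / 2 = (2 * t + 1 - 1) * (t + 1) by
        rw [Nat.add_sub_cancel, show (2 * t + 1) ^ 2 = 1 + 2 * (2 * t * (t + 1)) by ring, Nat.add_mul_div_left _ _ two_pos]; simp, pow_mul,
        ← hK, FiniteField.pow_card_sub_one_eq_one (u : K) u.ne_zero, one_pow, map_one]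
    obtain ⟨c, hc⟩ := hs
    exact ⟨c⁻¹, by rw [hc]; have : c ≠ 0 := fun h => hu (by rw [hc, h, mul_zero]); field_simp⟩
  choose c hc using fun g : GL (Fin 2) K => hsq (Matrix.GeneralLinearGroup.det g)
  let σ : GL (Fin 2) K → Matrix.SpecialLinearGroup (Fin 2) F := fun g =>
    ⟨c g • (g : Matrix (Fin 2) (Fin 2) K).map φ, by
      rw [Matrix.det_smul, Fintype.card_fin, ← RingHom.mapMatrix_apply, ← RingHom.map_det, pow_two]
      exact hc g⟩
  have hσ : ∀ g i j, σ g i j = c g * φ ((g : Matrix (Fin 2) (Fin 2) K) i j) := fun g i j => rfl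
  let π := QuotientGroup.mk' (Subgroup.center (Matrix.SpecialLinearGroup (Fin 2) F))
  have hπ : Function.Surjective π := QuotientGroup.mk'_surjective _
  have hπeq : ∀ A B : Matrix.SpecialLinearGroup (Fin 2) F, ∀ t : F, t * t = 1 → (∀ i j, A i j = t * B i j) → π A = π B := fun A B t ht h => by
    refine (Cfsg.Lib.PSLTwoOdd.mk_eq_mk_iff A B).2 ?_
    rcases mul_self_eq_one_iff.1 ht with rfl | rfl
    · exact Or.inl (Matrix.SpecialLinearGroup.ext _ _ fun i j => by rw [h, one_mul])
    · exact Or.inr (Matrix.SpecialLinearGroup.ext _ _ fun i j => by rw [h]; simp)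
  have hmul : ∀ g h, π (σ (g * h)) = π (σ g) * π (σ h) := fun g h => by
    rw [← map_mul]
    have hne : c g * c h ≠ 0 := mul_ne_zero (fun e' => by have := hc g; rw [e'] at this; simp at this) (fun e' => by have := hc h; rw [e'] at this; simp at this)
    refine hπeq _ _ (c (g * h) / (c g * c h)) ?_ fun i j => ?_
    · have h1 := hc (g * h)
      rw [map_mul, Units.val_mul, map_mul] at h1
      rw [div_mul_div_comm, div_eq_one_iff_eq (mul_ne_zero hne hne)]
      linear_combination (c g * c g * c h * c h) * h1 - (c (g * h) * c (g * h) * c h * c h * φ ((Matrix.GeneralLinearGroup.det h : Kˣ) : K)) * hc g - (c (g * h) * c (g * h)) * hc h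
    · rw [Cfsg.Lib.PStable.mul_entry, hσ, hσ, hσ, hσ, hσ, Units.val_mul, Matrix.mul_apply, Fin.sum_univ_two, map_add, map_mul, map_mul]
      field_simp
      rw [eq_div_iff hne]; ring
  let f : GL (Fin 2) K →* Matrix.ProjectiveSpecialLinearGroup (Fin 2) F := MonoidHom.mk' (fun g => π (σ g)) hmul
  have hfker : f.ker = Subgroup.center (GL (Fin 2) K) := by
    ext g
    rw [MonoidHom.mem_ker, Matrix.GeneralLinearGroup.center_eq_range_scalar, MonoidHom.mem_range]
    show π (σ g) = 1 ↔ _
    have hcg : c g ≠ 0 := fun e' => by have := hc g; rw [e'] at this; simp at this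
    rw [← map_one π, Cfsg.Lib.PSLTwoOdd.mk_eq_mk_iff]
    constructor
    · intro h
      have hs : σ g 0 1 = 0 ∧ σ g 1 0 = 0 ∧ σ g 0 0 = σ g 1 1 := by rcases h with h | h <;> rw [h] <;> simp
      rw [hσ, hσ, hσ, hσ] at hs
      have e01 := hφ ((mul_eq_zero.1 hs.1).resolve_left hcg |>.trans φ.map_zero.symm)
      have e10 := hφ ((mul_eq_zero.1 hs.2.1).resolve_left hcg |>.trans φ.map_zero.symm)
      have e11 := hφ (mul_left_cancel₀ hcg hs.2.2)
      have hne : (g : Matrix (Fin 2) (Fin 2) K) 0 0 ≠ 0 := fun e' => by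
        have := (Matrix.GeneralLinearGroup.det g).ne_zero
        rw [Matrix.GeneralLinearGroup.val_det_apply, Matrix.det_fin_two, e', e01] at this
        simp at this
      refine ⟨Units.mk0 _ hne, Units.ext ?_⟩
      ext i j
      fin_cases i <;> fin_cases j <;> simp [e01, e10, ← e11]
    · rintro ⟨u, rfl⟩
      have h1 := hc (Matrix.GeneralLinearGroup.scalar (Fin 2) u)
      rw [Matrix.GeneralLinearGroup.val_det_apply, Matrix.det_fin_two] at h1
      simp at h1
      rcases mul_self_eq_one_iff.1 (show c (Matrix.GeneralLinearGroup.scalar (Fin 2) u) * φ (u : K) * (c (Matrix.GeneralLinearGroup.scalar (Fin 2) u) * φ (u : K)) = 1 by linear_combination h1) with h | h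
      · exact Or.inl (Matrix.SpecialLinearGroup.ext _ _ fun i j => by rw [hσ]; fin_cases i <;> fin_cases j <;> simp [h])
      · exact Or.inr (Matrix.SpecialLinearGroup.ext _ _ fun i j => by rw [hσ]; fin_cases i <;> fin_cases j <;> simp [h])
  set N := f.range.comap π with hNd
  have hneg : (-1 : Matrix.SpecialLinearGroup (Fin 2) F) ∈ N := by
    show π (-1) ∈ f.range
    rw [show π (-1) = π 1 from (Cfsg.Lib.PSLTwoOdd.mk_eq_mk_iff _ _).2 (Or.inr rfl), map_one]
    exact one_mem _
  have hmemN : ∀ z : Matrix.SpecialLinearGroup (Fin 2) F, ∀ g : GL (Fin 2) K, ∀ t : F, t * t = 1 → (∀ i j, σ g i j = t * z i j) → z ∈ N :=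
    fun z g t ht h => ⟨g, hπeq _ _ t ht h⟩
  have hcen : Nat.card (Subgroup.center (GL (Fin 2) K)) = q - 1 := by
    rw [Matrix.GeneralLinearGroup.center_eq_range_scalar, ← Nat.card_congr (MonoidHom.ofInjective (f := Matrix.GeneralLinearGroup.scalar (Fin 2) (R := K)) ?_).toEquiv,
      Nat.card_units, Nat.card_eq_fintype_card, hK]
    intro u v huv
    have := congrArg (fun g : GL (Fin 2) K => (g : Matrix (Fin 2) (Fin 2) K) 0 0) huv
    exact Units.ext (by simpa using this)
  have hNc : Nat.card N = 2 * (q * ((q + 1) * (q - 1))) := by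
    have h1 := f.ker.card_mul_index
    rw [Subgroup.index_ker, hfker, hcen, Cfsg.Lib.Classical.GL2.card_gl2, hK] at h1
    have h3 : Nat.card f.range = q * ((q + 1) * (q - 1)) :=
      Nat.eq_of_mul_eq_mul_left (show 0 < q - 1 by omega) (h1.trans (by ring))
    have h2 := Cfsg.Lib.PSLTwoOdd.card_preimage (f.range : Set (Matrix.ProjectiveSpecialLinearGroup (Fin 2) F))
    change Nat.card N = 2 * Nat.card f.range at h2
    rw [h2, h3]
  have hq9 : 2 * q < q ^ 2 := by rw [pow_two]; exact Nat.mul_lt_mul_of_pos_right (by omega) (by omega)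
  refine ⟨f.range, ⟨fun h => ?_, fun H' hH' => ?_⟩, ⟨((QuotientGroup.quotientMulEquivOfEq hfker.symm).trans (QuotientGroup.quotientKerEquivRange f)).symm⟩⟩
  · rw [hNd, h, Subgroup.comap_top, Subgroup.card_top, Cfsg.Lib.Classical.TwoDim.card_SL, hF, ← mul_assoc 2] at hNc
    have := Nat.mul_lt_mul_of_lt_of_le hq9 (Nat.mul_le_mul (show q + 1 ≤ q ^ 2 + 1 by omega) (show q - 1 ≤ q ^ 2 - 1 by omega)) (Nat.mul_pos (by omega) (by omega))
    omega
  set M := H'.comap π with hMd
  have hNM : N ≤ M := Subgroup.comap_mono hH'.le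
  have hne : ¬ M ≤ N := fun hle => hH'.ne (by
    rw [← Subgroup.map_comap_eq_self_of_surjective hπ H', show H'.comap π = N from le_antisymm hle hNM, hNd, Subgroup.map_comap_eq_self_of_surjective hπ])
  suffices M = ⊤ by
    rw [← Subgroup.map_comap_eq_self_of_surjective hπ H', show H'.comap π = ⊤ from this, Subgroup.map_top_of_surjective π hπ]
  have h120 : Nat.card M ≠ 120 := fun h => by
    have hdvd := Subgroup.card_dvd_of_le hNM
    rw [hNc, h] at hdvd
    have hle := Nat.le_of_dvd (by norm_num) hdvd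
    have hq5 : q ≤ 5 := by
      by_contra h'
      have := Nat.mul_le_mul (show 6 ≤ q by omega) (Nat.mul_le_mul (show 7 ≤ q + 1 by omega) (show 5 ≤ q - 1 by omega))
      omega
    obtain ⟨t, ht⟩ := hq
    interval_cases q <;> first | omega | (norm_num at hdvd)
  refine (Cfsg.Lib.Classical.SubfieldTwo.le_or_top hp2 φ.fieldRange
    (Cfsg.Lib.Classical.SubfieldTwo.no_between _ Nat.prime_two (by rw [hF, hF₀])) N M hNM ?_ ?_ ?_ (hNM hneg) h120).resolve_right hne
  · rintro _ ⟨k, rfl⟩
    let g : GL (Fin 2) K := Matrix.GeneralLinearGroup.mkOfDetNeZero !![1, k; 0, 1] (by simp [Matrix.det_fin_two])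
    have h1 := hc g
    rw [Matrix.GeneralLinearGroup.val_det_apply] at h1
    simp [g, Matrix.GeneralLinearGroup.mkOfDetNeZero, Matrix.det_fin_two] at h1
    refine hmemN _ g (c g) h1 fun i j => ?_
    rw [hσ]
    fin_cases i <;> fin_cases j <;> simp [g, Matrix.GeneralLinearGroup.mkOfDetNeZero, Cfsg.Lib.Classical.MinIndex.upperU_entries]
  · rintro _ ⟨k, rfl⟩
    let g : GL (Fin 2) K := Matrix.GeneralLinearGroup.mkOfDetNeZero !![1, 0; k, 1] (by simp [Matrix.det_fin_two])
    have h1 := hc g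
    rw [Matrix.GeneralLinearGroup.val_det_apply] at h1
    simp [g, Matrix.GeneralLinearGroup.mkOfDetNeZero, Matrix.det_fin_two] at h1
    refine hmemN _ g (c g) h1 fun i j => ?_
    rw [hσ]
    fin_cases i <;> fin_cases j <;> simp [g, Matrix.GeneralLinearGroup.mkOfDetNeZero, Cfsg.Lib.Classical.UpperField.lo_entries]
  · intro z h01 h10 hz
    obtain ⟨k, hk⟩ := hz
    have hd := Cfsg.Lib.PStable.det_eq (g := z)
    rw [h01, zero_mul, sub_zero] at hd
    have hd0 : z 0 0 ≠ 0 := left_ne_zero_of_mul_eq_one hd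
    have hk0 : k ≠ 0 := fun h => hd0 (mul_self_eq_zero.1 (by rw [← hk, h, map_zero]))
    let g : GL (Fin 2) K := Matrix.GeneralLinearGroup.mkOfDetNeZero !![k, 0; 0, 1] (by simp [Matrix.det_fin_two, hk0])
    have hg : (g : Matrix (Fin 2) (Fin 2) K) = !![k, 0; 0, 1] := rfl
    have h1 := hc g
    rw [Matrix.GeneralLinearGroup.val_det_apply, hg, Matrix.det_fin_two] at h1
    simp [hk] at h1
    refine hmemN _ g (c g * z 0 0) (by linear_combination h1) fun i j => ?_
    rw [hσ, hg]
    fin_cases i <;> fin_cases j <;> simp [h01, h10, hk]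
    · ring
    · linear_combination -(c g) * hd

end Cfsg.Agent.S5941
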