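import Cfsg.Statements.S5942
import Mathlib
import Cfsg.Agent.Lib.Classical.SubfieldGroupMaxTwo
import Cfsg.Agent.Lib.Classical.TwoDimTorusSylow
-- import your own Cfsg.Agent.* helpers here

set_option autoImplicit false
open Cfsg

namespace Cfsg.Agent.S5942

/-- Let K and F be finite fields of odd characteristic with #F = (#K)^r for an odd prime r. Then PSL_2(F) has a maximal subgroup isomorphic to PSL_2(K). -/
theorem result {F K : Type*} [Field F] [Fintype F] [Field K] [Fintype K] (q r : ℕ) (hK : Fintype.card K = q) (hF : Fintype.card F = q ^ r) (hq : Odd q) (hr : r.Prime) (hr2 : r ≠ 2) : ∃ H : Subgroup (Matrix.ProjectiveSpecialLinearGroup (Fin 2) F), IsCoatom H ∧ Nonempty (H ≃* Matrix.ProjectiveSpecialLinearGroup (Fin 2) K) := by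
  classical
  obtain ⟨p, hp⟩ := CharP.exists F
  obtain ⟨e, hpp, hpe⟩ := FiniteField.card F p
  haveI := Fact.mk hpp
  have hp2 : p ≠ 2 := by
    rintro rfl
    have h1 : Odd (q ^ r) := hq.pow
    rw [← hF, hpe] at h1
    exact absurd h1 (Nat.not_odd_iff_even.2 (Nat.even_pow.2 ⟨even_two, e.pos.ne'⟩))
  have h2 : (2 : F) ≠ 0 := Ring.two_ne_zero (by rw [ringChar.eq F p]; exact hp2)
  obtain ⟨φ⟩ := Cfsg.Lib.Classical.SubfieldTwo.exists_emb (F := F) (K := K) hr.pos (by rw [hF, hK])
  have hφ : Function.Injective φ := φ.injective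
  have hF₀ : Nat.card φ.fieldRange = q := by
    rw [← hK, ← Nat.card_eq_fintype_card]
    exact (Nat.card_congr (Equiv.ofBijective (fun k => (⟨φ k, k, rfl⟩ : φ.fieldRange)) ⟨fun a b h => hφ (congrArg Subtype.val h), fun ⟨_, k, h⟩ => ⟨k, Subtype.ext h⟩⟩)).symm
  let ψ : Matrix.SpecialLinearGroup (Fin 2) K →* Matrix.SpecialLinearGroup (Fin 2) F := Matrix.SpecialLinearGroup.map φ
  have hψ : ∀ (g : Matrix.SpecialLinearGroup (Fin 2) K) i j, ψ g i j = φ (g i j) := fun g i j => rfl
  have hψi : Function.Injective ψ := fun a b h => Matrix.SpecialLinearGroup.ext _ _ fun i j => hφ (by rw [← hψ, ← hψ, h])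
  let π := QuotientGroup.mk' (Subgroup.center (Matrix.SpecialLinearGroup (Fin 2) F))
  have hπ : Function.Surjective π := QuotientGroup.mk'_surjective _
  have hker : ∀ z, π z = 1 ↔ z ∈ Subgroup.center (Matrix.SpecialLinearGroup (Fin 2) F) := fun z => QuotientGroup.eq_one_iff z
  let f := π.comp ψ
  have hfker : f.ker = Subgroup.center (Matrix.SpecialLinearGroup (Fin 2) K) := by
    ext g
    rw [MonoidHom.mem_ker, MonoidHom.comp_apply, hker, Matrix.SpecialLinearGroup.mem_center_iff, Matrix.SpecialLinearGroup.mem_center_iff]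
    constructor
    · rintro ⟨c, hc, h⟩
      have e00 : φ (g 0 0) = c := by rw [← hψ]; exact (congrFun (congrFun h 0) 0).symm.trans (by simp)
      refine ⟨g 0 0, hφ (by rw [map_pow, e00, hc, map_one]), ?_⟩
      ext i j
      refine hφ ?_
      rw [← hψ, ← show (Matrix.scalar (Fin 2) c) i j = ψ g i j from congrFun (congrFun h i) j]
      fin_cases i <;> fin_cases j <;> simp [e00]
    · rintro ⟨c, hc, h⟩
      refine ⟨φ c, by rw [← map_pow, hc, map_one], ?_⟩
      ext i j
      rw [hψ, ← show (Matrix.scalar (Fin 2) c) i j = g i j from congrFun (congrFun h i) j]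
      fin_cases i <;> fin_cases j <;> simp
  have hcenK : Subgroup.center (Matrix.SpecialLinearGroup (Fin 2) F) ≤ ψ.range := fun z hz => by
    obtain ⟨c, hc, h⟩ := Matrix.SpecialLinearGroup.mem_center_iff.1 hz
    rw [Fintype.card_fin, sq_eq_one_iff] at hc
    rcases hc with rfl | rfl
    · exact ⟨1, Subtype.ext (by rw [map_one, ← h]; simp)⟩
    · refine ⟨-1, Matrix.SpecialLinearGroup.ext _ _ fun i j => ?_⟩
      rw [hψ, ← show (Matrix.scalar (Fin 2) (-1 : F)) i j = z i j from congrFun (congrFun h i) j]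
      fin_cases i <;> fin_cases j <;> simp
  have hHc : f.range.comap π = ψ.range := by
    rw [MonoidHom.range_comp, Subgroup.comap_map_eq, QuotientGroup.ker_mk', sup_eq_left.2 hcenK]
  have hNc : Nat.card ψ.range = q * ((q + 1) * (q - 1)) := by
    rw [← Nat.card_congr (MonoidHom.ofInjective hψi).toEquiv, Cfsg.Lib.Classical.TwoDim.card_SL, hK]
  have hq3 : 3 ≤ q := by
    have h1 : 1 < q := hK ▸ Fintype.one_lt_card
    obtain ⟨t, ht⟩ := hq
    omega
  have hqr : q < q ^ r := lt_self_pow₀ (by omega) hr.one_lt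
  have hSLF : Nat.card (Matrix.SpecialLinearGroup (Fin 2) F) = q ^ r * ((q ^ r + 1) * (q ^ r - 1)) := by
    rw [Cfsg.Lib.Classical.TwoDim.card_SL, hF]
  refine ⟨f.range, ⟨fun h => ?_, fun H' hH' => ?_⟩, ⟨((QuotientGroup.quotientMulEquivOfEq hfker.symm).trans (QuotientGroup.quotientKerEquivRange f)).symm⟩⟩
  · have h1 : ψ.range = ⊤ := by rw [← hHc, h, Subgroup.comap_top]
    rw [h1, Subgroup.card_top, hSLF] at hNc
    have := Nat.mul_lt_mul_of_lt_of_le hqr (Nat.mul_le_mul (show q + 1 ≤ q ^ r + 1 by omega) (show q - 1 ≤ q ^ r - 1 by omega)) (Nat.mul_pos (by omega) (by omega))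
    omega
  set M := H'.comap π
  have hNM : ψ.range ≤ M := hHc ▸ Subgroup.comap_mono hH'.le
  have hne : ¬ M ≤ ψ.range := fun hle => hH'.ne (by
    rw [← Subgroup.map_comap_eq_self_of_surjective hπ H', show H'.comap π = ψ.range from le_antisymm hle hNM, MonoidHom.range_comp])
  suffices M = ⊤ by
    rw [← Subgroup.map_comap_eq_self_of_surjective hπ H', show H'.comap π = ⊤ from this, Subgroup.map_top_of_surjective π hπ]
  by_cases h120 : Nat.card M = 120
  · exfalso
    have hdvd := Subgroup.card_dvd_of_le hNM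
    have hle := Nat.le_of_dvd (by omega) hdvd
    rw [hNc, h120] at hdvd hle
    have hq5 : q ≤ 5 := by
      by_contra h
      have := Nat.mul_le_mul (show 6 ≤ q by omega) (Nat.mul_le_mul (show 7 ≤ q + 1 by omega) (show 5 ≤ q - 1 by omega))
      omega
    interval_cases q
    · have hd := Subgroup.card_subgroup_dvd_card M
      rw [h120, hSLF] at hd
      have h5 : 5 ∣ 3 ^ r * ((3 ^ r + 1) * (3 ^ r - 1)) := (show 5 ∣ 120 by norm_num).trans hd
      obtain ⟨t, rfl⟩ := hr.odd_of_ne_two hr2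
      have h34 : ∀ t, 3 ^ (2 * t + 1) % 5 = 3 ∨ 3 ^ (2 * t + 1) % 5 = 2 := fun t => by
        induction t with
        | zero => left; norm_num
        | succ t ih => rw [show 3 ^ (2 * (t + 1) + 1) = 3 ^ (2 * t + 1) * 9 by ring]; omega
      have h34' := h34 t
      generalize 3 ^ (2 * t + 1) = x at h34' h5
      rcases Nat.prime_five.dvd_mul.1 h5 with h | h
      · omega
      rcases Nat.prime_five.dvd_mul.1 h with h | h <;> omega
    · exact absurd hq (by decide)
    · exact hne (Subgroup.eq_of_le_of_card_ge hNM (by rw [h120, hNc])).ge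
  refine (Cfsg.Lib.Classical.SubfieldTwo.le_or_top hp2 φ.fieldRange
    (Cfsg.Lib.Classical.SubfieldTwo.no_between _ hr (by rw [hF, hF₀])) ψ.range M hNM ?_ ?_ ?_ ?_ h120).resolve_right hne
  · rintro _ ⟨k, rfl⟩
    exact ⟨Cfsg.Lib.PStable.upperU k, Matrix.SpecialLinearGroup.ext _ _ fun i j => by
      rw [hψ]; fin_cases i <;> fin_cases j <;> simp [Cfsg.Lib.Classical.MinIndex.upperU_entries]⟩
  · rintro _ ⟨k, rfl⟩
    exact ⟨Cfsg.Agent.SL2RankOne.lo k, Matrix.SpecialLinearGroup.ext _ _ fun i j => by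
      rw [hψ]; fin_cases i <;> fin_cases j <;> simp [Cfsg.Lib.Classical.UpperField.lo_entries]⟩
  · intro g h01 h10 hsq
    have hd := Cfsg.Lib.PStable.det_eq (g := g)
    rw [h01, zero_mul, sub_zero] at hd
    have hd0 : g 0 0 ≠ 0 := left_ne_zero_of_mul_eq_one hd
    obtain ⟨k, hk⟩ := hsq
    have hk0 : k ≠ 0 := fun h => hd0 (mul_self_eq_zero.1 (by rw [← hk, h, map_zero]))
    have hcK : ringChar K ≠ 2 := by
      haveI : CharP K p := (RingHom.charP_iff φ hφ p).2 hp
      rw [ringChar.eq K p]; exact hp2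
    have hcF : ringChar F ≠ 2 := by rw [ringChar.eq F p]; exact hp2
    have hsk : IsSquare k := by
      rw [FiniteField.isSquare_iff hcK hk0, hK]
      rcases FiniteField.pow_dichotomy hcK hk0 with h | h <;> rw [hK] at h
      · exact h
      exfalso
      have h1 : g 0 0 ^ (q - 1) = -1 := by
        have := congrArg φ h
        rw [map_pow, hk, map_neg, map_one, ← pow_two, ← pow_mul] at this
        obtain ⟨t, rfl⟩ := hq
        rwa [show 2 * ((2 * t + 1) / 2) = 2 * t + 1 - 1 by omega] at this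
      have h2' : g 0 0 ^ q = -(g 0 0) := by rw [show q = (q - 1) + 1 by omega, pow_succ, h1, neg_one_mul]
      have hiter : ∀ j : ℕ, g 0 0 ^ q ^ j = (-1) ^ j * g 0 0 := fun j => by
        induction j with
        | zero => simp
        | succ j ih => rw [pow_succ, pow_mul, ih, mul_pow, h2', ← pow_mul, mul_comm j, pow_mul, hq.neg_one_pow, pow_succ]; ring
      have h3 := hiter r
      rw [← hF, FiniteField.pow_card, (hr.odd_of_ne_two hr2).neg_one_pow] at h3
      exact hd0 ((mul_eq_zero.1 (show (2 : F) * g 0 0 = 0 by linear_combination h3)).resolve_left h2)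
    obtain ⟨l, rfl⟩ := hsk
    rw [map_mul] at hk
    obtain ⟨l', hl'⟩ : ∃ l', φ l' = g 0 0 := by
      rcases mul_self_eq_mul_self_iff.1 hk with h | h
      · exact ⟨l, h⟩
      · exact ⟨-l, by rw [map_neg, h, neg_neg]⟩
    have hl0 : l' ≠ 0 := fun h => hd0 (by rw [← hl', h, map_zero])
    refine ⟨Cfsg.Lib.Classical.SplitDih.dg (Units.mk0 l' hl0), Matrix.SpecialLinearGroup.ext _ _ fun i j => ?_⟩
    rw [hψ]
    fin_cases i <;> fin_cases j <;> simp [Cfsg.Lib.Classical.SplitDih.dg_coe, h01, h10, hl']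
    exact (eq_inv_of_mul_eq_one_right hd).symm
  · show π (-1) ∈ H'
    rw [(hker _).2 (Subgroup.mem_center_iff.2 fun g => Subtype.ext (by simp))]
    exact H'.one_mem

end Cfsg.Agent.S5942
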