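import Cfsg.Statements.S5943
import Mathlib
import Cfsg.Agent.Lib.Classical.SubfieldEvenTwo
import Cfsg.Agent.Lib.Classical.SubfieldGroupMaxTwo
import Cfsg.Agent.Lib.Classical.TwoDimTorusSylow
-- import your own Cfsg.Agent.* helpers here

set_option autoImplicit false
open Cfsg

namespace Cfsg.Agent.S5943

/-- Let K and F be finite fields of characteristic 2 with #K = q > 2 and #F = q^r for a prime r. Then PSL_2(F) has a maximal subgroup isomorphic to PSL_2(K) (which equals PGL_2(K) in characteristic 2). -/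
theorem result {F K : Type*} [Field F] [Fintype F] [Field K] [Fintype K] (q r : ℕ) (hK : Fintype.card K = q) (hF : Fintype.card F = q ^ r) (hq : Even q) (hq2 : q ≠ 2) (hr : r.Prime) : ∃ H : Subgroup (Matrix.ProjectiveSpecialLinearGroup (Fin 2) F), IsCoatom H ∧ Nonempty (H ≃* Matrix.ProjectiveSpecialLinearGroup (Fin 2) K) := by
  classical
  haveI hp : CharP F 2 := by
    obtain ⟨p, hp⟩ := CharP.exists F
    obtain ⟨e, hpp, hpe⟩ := FiniteField.card F p
    have h2 : Even (p ^ (e : ℕ)) := by rw [← hpe, hF]; exact Nat.even_pow.2 ⟨hq, hr.ne_zero⟩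
    obtain rfl : 2 = p := ((Nat.prime_dvd_prime_iff_eq Nat.prime_two hpp).1 (Nat.prime_two.dvd_of_dvd_pow (even_iff_two_dvd.1 h2)))
    exact hp
  have hq4 : 4 ≤ q := by
    have : 1 < q := hK ▸ Fintype.one_lt_card
    obtain ⟨t, ht⟩ := hq
    omega
  obtain ⟨φ⟩ := Cfsg.Lib.Classical.SubfieldTwo.exists_emb (F := F) (K := K) hr.pos (by rw [hF, hK])
  have hφ : Function.Injective φ := φ.injective
  haveI : CharP K 2 := (RingHom.charP_iff φ hφ 2).2 hp
  have hF₀ : Nat.card φ.fieldRange = q := by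
    rw [← hK, ← Nat.card_eq_fintype_card]
    exact (Nat.card_congr (Equiv.ofBijective (fun k => (⟨φ k, k, rfl⟩ : φ.fieldRange)) ⟨fun a b h => hφ (congrArg Subtype.val h), fun ⟨_, k, h⟩ => ⟨k, Subtype.ext h⟩⟩)).symm
  let ψ : Matrix.SpecialLinearGroup (Fin 2) K →* Matrix.SpecialLinearGroup (Fin 2) F := Matrix.SpecialLinearGroup.map φ
  have hψ : ∀ (g : Matrix.SpecialLinearGroup (Fin 2) K) i j, ψ g i j = φ (g i j) := fun g i j => rfl
  have hψi : Function.Injective ψ := fun a b h => Matrix.SpecialLinearGroup.ext _ _ fun i j => hφ (by rw [← hψ, ← hψ, h])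
  let π := QuotientGroup.mk' (Subgroup.center (Matrix.SpecialLinearGroup (Fin 2) F))
  have hπ : Function.Surjective π := QuotientGroup.mk'_surjective _
  have hπi : Function.Injective π := by
    rw [← MonoidHom.ker_eq_bot_iff, QuotientGroup.ker_mk', Subgroup.eq_bot_iff_forall]
    intro z hz
    obtain ⟨c, hc, h⟩ := Matrix.SpecialLinearGroup.mem_center_iff.1 hz
    rw [Fintype.card_fin, sq_eq_one_iff, CharTwo.neg_eq, or_self] at hc
    subst hc
    exact Subtype.ext (by rw [← h]; simp)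
  let f := π.comp ψ
  have hfker : f.ker = Subgroup.center (Matrix.SpecialLinearGroup (Fin 2) K) := by
    rw [(MonoidHom.ker_eq_bot_iff f).2 (hπi.comp hψi)]
    symm
    rw [Subgroup.eq_bot_iff_forall]
    intro z hz
    obtain ⟨c, hc, h⟩ := Matrix.SpecialLinearGroup.mem_center_iff.1 hz
    rw [Fintype.card_fin, sq_eq_one_iff, CharTwo.neg_eq, or_self] at hc
    subst hc
    exact Subtype.ext (by rw [← h]; simp)
  have hHc : f.range.comap π = ψ.range := by
    rw [MonoidHom.range_comp, Subgroup.comap_map_eq_self_of_injective hπi]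
  have hNc : Nat.card ψ.range = q * ((q + 1) * (q - 1)) := by
    rw [← Nat.card_congr (MonoidHom.ofInjective hψi).toEquiv, Cfsg.Lib.Classical.TwoDim.card_SL, hK]
  have hqr : q < q ^ r := lt_self_pow₀ (by omega) hr.one_lt
  refine ⟨f.range, ⟨fun h => ?_, fun H' hH' => ?_⟩, ⟨((QuotientGroup.quotientMulEquivOfEq hfker.symm).trans (QuotientGroup.quotientKerEquivRange f)).symm⟩⟩
  · have h1 : ψ.range = ⊤ := by rw [← hHc, h, Subgroup.comap_top]
    rw [h1, Subgroup.card_top, Cfsg.Lib.Classical.TwoDim.card_SL, hF] at hNc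
    have := Nat.mul_lt_mul_of_lt_of_le hqr (Nat.mul_le_mul (show q + 1 ≤ q ^ r + 1 by omega) (show q - 1 ≤ q ^ r - 1 by omega)) (Nat.mul_pos (by omega) (by omega))
    omega
  set M := H'.comap π
  have hNM : ψ.range ≤ M := hHc ▸ Subgroup.comap_mono hH'.le
  suffices M = ⊤ by
    rw [← Subgroup.map_comap_eq_self_of_surjective hπ H', show H'.comap π = ⊤ from this, Subgroup.map_top_of_surjective π hπ]
  refine (Cfsg.Lib.Classical.SubfieldEven.card_le_or_top φ.fieldRange (by omega)
    (Cfsg.Lib.Classical.SubfieldTwo.no_between _ hr (by rw [hF, hF₀])) M ?_ ?_ ?_).resolve_right fun hle => ?_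
  · rintro _ ⟨k, rfl⟩
    exact hNM ⟨Cfsg.Lib.PStable.upperU k, Matrix.SpecialLinearGroup.ext _ _ fun i j => by
      rw [hψ]; fin_cases i <;> fin_cases j <;> simp [Cfsg.Lib.Classical.MinIndex.upperU_entries]⟩
  · exact hNM ⟨Cfsg.Agent.SL2RankOne.lo 1, Matrix.SpecialLinearGroup.ext _ _ fun i j => by
      rw [hψ]; fin_cases i <;> fin_cases j <;> simp [Cfsg.Agent.SL2RankOne.lo_coe]⟩
  · rintro u ⟨k, hk⟩
    have hk0 : k ≠ 0 := fun h => u.ne_zero (by rw [← hk, h, map_zero])
    refine hNM ⟨Cfsg.Lib.Classical.SplitDih.dg (Units.mk0 k hk0), Matrix.SpecialLinearGroup.ext _ _ fun i j => ?_⟩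
    rw [hψ]
    fin_cases i <;> fin_cases j <;> simp [Cfsg.Lib.Classical.SplitDih.dg_coe, hk]
  · rw [hF₀, show q * (q - 1) * (q + 1) = q * ((q + 1) * (q - 1)) by ring, ← hNc] at hle
    refine hH'.ne ?_
    rw [← Subgroup.map_comap_eq_self_of_surjective hπ H', show H'.comap π = ψ.range from (Subgroup.eq_of_le_of_card_ge hNM hle).symm, MonoidHom.range_comp]

end Cfsg.Agent.S5943
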