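import Cfsg.Statements.S5944
import Mathlib

set_option autoImplicit false
open Cfsg
open scoped Matrix

namespace Cfsg.Agent.S5944

/-- For n ≠ 4, every proper subgroup of the symmetric group S_n other than the alternating group A_n has index at least n. -/
theorem result (n : ℕ) (hn : n ≠ 4) (H : Subgroup (Equiv.Perm (Fin n))) (hH : H ≠ ⊤) (hA : H ≠ alternatingGroup (Fin n)) : n ≤ H.index := by
  classical
  by_contra hlt
  push Not at hlt
  suffices hAH : alternatingGroup (Fin n) ≤ H by
    have hA2 : H.index ∣ 2 := by
      rcases subsingleton_or_nontrivial (Fin n) with h | h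
      · exact (Subgroup.index_dvd_of_le hAH).trans (by rw [alternatingGroup.index_eq_one]; simp)
      · exact (Subgroup.index_dvd_of_le hAH).trans (by rw [alternatingGroup.index_eq_two])
    rcases (Nat.dvd_prime Nat.prime_two).1 hA2 with h | h
    · exact hH (Subgroup.index_eq_one.1 h)
    · exact hA (Equiv.Perm.eq_alternatingGroup_of_index_eq_two h)
  by_cases h5 : n ≤ 3
  · exact Equiv.Perm.alternatingGroup_le_of_index_le_two (by omega)
  have hn5 : 5 ≤ Nat.card (Fin n) := by simp; omega
  have hnt : Nontrivial H.normalCore := by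
    rw [Subgroup.nontrivial_iff_ne_bot]
    intro hbot
    have hinj : Function.Injective (MulAction.toPermHom (Equiv.Perm (Fin n)) (Equiv.Perm (Fin n) ⧸ H)) := by
      rw [← MonoidHom.ker_eq_bot_iff, ← Subgroup.normalCore_eq_ker]; exact hbot
    have h1 := Nat.card_le_card_of_injective _ hinj
    rw [Nat.card_perm, Nat.card_perm, Nat.card_fin, ← Subgroup.index_eq_card] at h1
    have h2 := (Nat.factorial_lt (Nat.pos_of_ne_zero Subgroup.index_ne_zero_of_finite)).2 hlt
    omega
  exact (Equiv.Perm.alternatingGroup_le_of_normal hn5 hnt).trans H.normalCore_le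

end Cfsg.Agent.S5944
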