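import Cfsg.Statements.S5945
import Mathlib
import Cfsg.Agent.Lib.Classical.SymSix

set_option autoImplicit false
open Cfsg
open scoped Matrix

namespace Cfsg.Agent.S5945

/-- The symmetric group S_6 has exactly 12 subgroups of index 6; each of them is isomorphic to S_5, and at least one of them is not the stabilizer of any point. -/
theorem result : Nat.card {H : Subgroup (Equiv.Perm (Fin 6)) // H.index = 6} = 12 ∧ (∀ H : Subgroup (Equiv.Perm (Fin 6)), H.index = 6 → Nonempty (H ≃* Equiv.Perm (Fin 5))) ∧ ∃ H : Subgroup (Equiv.Perm (Fin 6)), H.index = 6 ∧ ∀ a : Fin 6, H ≠ MulAction.stabilizer (Equiv.Perm (Fin 6)) a := by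
  classical
  have h6 : Fintype.card (Fin 6) = 6 := Fintype.card_fin 6
  obtain ⟨H, hH, hne⟩ := Cfsg.Lib.Classical.SymSix.exists_exotic h6
  obtain ⟨φ, hφ⟩ := Cfsg.Lib.Classical.SymSix.exists_auto h6 hH (0 : Fin 6)
  let c : Fin 6 ⊕ Fin 6 → {K : Subgroup (Equiv.Perm (Fin 6)) // K.index = 6} := Sum.elim
    (fun b => ⟨MulAction.stabilizer (Equiv.Perm (Fin 6)) b, Cfsg.Lib.Classical.SymSix.index_stab h6 b⟩)
    (fun b => ⟨(MulAction.stabilizer (Equiv.Perm (Fin 6)) b).comap φ.toMonoidHom, by
      rw [Subgroup.index_comap_of_surjective _ φ.surjective, Cfsg.Lib.Classical.SymSix.index_stab h6 b]⟩)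
  have hstabiso : ∀ b : Fin 6, Nonempty (MulAction.stabilizer (Equiv.Perm (Fin 6)) b ≃* Equiv.Perm (Fin 5)) := fun b => by
    let e : {x : Fin 6 // x ≠ b} ≃ Fin 5 := Fintype.equivFinOfCardEq (by simp [Fintype.card_subtype_compl])
    let f : Equiv.Perm (Fin 5) →* Equiv.Perm (Fin 6) := Equiv.Perm.ofSubtype.comp e.symm.permCongrHom.toMonoidHom
    have hf : ∀ g, f g ∈ MulAction.stabilizer (Equiv.Perm (Fin 6)) b := fun g =>
      Equiv.Perm.ofSubtype_apply_of_not_mem _ (by simp)
    have hinj : Function.Injective (f.codRestrict _ hf) := fun x y h => by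
      exact e.symm.permCongrHom.injective (Equiv.Perm.ofSubtype_injective (congrArg Subtype.val h))
    refine ⟨(MulEquiv.ofBijective (f.codRestrict _ hf) ((Fintype.bijective_iff_injective_and_card _).2 ⟨hinj, ?_⟩)).symm⟩
    rw [← Nat.card_eq_fintype_card, ← Nat.card_eq_fintype_card, Cfsg.Lib.Classical.SymSix.card_of_index h6 (Cfsg.Lib.Classical.SymSix.index_stab h6 b), Nat.card_eq_fintype_card, Fintype.card_perm]
    rfl
  refine ⟨?_, fun K hK => ?_, H, hH, hne⟩
  · have hcomap : ∀ b : Fin 6, ((MulAction.stabilizer (Equiv.Perm (Fin 6)) b).comap φ.toMonoidHom).map φ.toMonoidHom = MulAction.stabilizer (Equiv.Perm (Fin 6)) b :=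
      fun b => Subgroup.map_comap_eq_self_of_surjective φ.surjective _
    have hdisj : ∀ b d : Fin 6, MulAction.stabilizer (Equiv.Perm (Fin 6)) b ≠ (MulAction.stabilizer (Equiv.Perm (Fin 6)) d).comap φ.toMonoidHom := by
      intro b d h
      have hd : (MulAction.stabilizer (Equiv.Perm (Fin 6)) ((0 : Fin 6))).comap φ.toMonoidHom = MulAction.stabilizer (Equiv.Perm (Fin 6)) (φ.symm (Equiv.swap d 0) b) := by
        have e1 := MulAction.stabilizer_smul_eq_stabilizer_map_conj (φ.symm (Equiv.swap d 0)) b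
        rw [← Equiv.Perm.smul_def, e1, h]
        ext x
        rw [Subgroup.mem_map_equiv]
        simp [map_mul, map_inv, Equiv.swap_apply_eq_iff]
      exact hne _ (hφ.trans hd)
    have hbij : Function.Bijective c := by
      constructor
      · rintro (b | b) (d | d) h
        all_goals have h' := congrArg Subtype.val h
        · exact congrArg Sum.inl (Cfsg.Lib.Classical.SymSix.stab_injective h6 h')
        · exact absurd h' (hdisj b d)
        · exact absurd h'.symm (hdisj d b)
        · refine congrArg Sum.inr (Cfsg.Lib.Classical.SymSix.stab_injective h6 ?_)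
          rw [← hcomap b, ← hcomap d]
          exact congrArg _ h'
      · rintro ⟨K, hK⟩
        obtain ⟨b, hb | hb⟩ := Cfsg.Lib.Classical.SymSix.classify h6 hH hne hφ K hK
        · exact ⟨Sum.inl b, Subtype.ext hb.symm⟩
        · exact ⟨Sum.inr b, Subtype.ext hb.symm⟩
    rw [← Nat.card_congr (Equiv.ofBijective c hbij)]
    simp
  · obtain ⟨b, rfl | rfl⟩ := Cfsg.Lib.Classical.SymSix.classify h6 hH hne hφ K hK
    · exact hstabiso b
    · obtain ⟨i⟩ := hstabiso b
      exact ⟨((φ.subgroupMap _).trans (MulEquiv.subgroupCongr (Subgroup.map_comap_eq_self_of_surjective φ.surjective _))).trans i⟩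

end Cfsg.Agent.S5945
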