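import Cfsg.Statements.S5949
import Mathlib
import Cfsg.Agent.Lib.Derange.Grassmann
import Cfsg.Agent.Lib.Derange.FlagCriterion
-- import your own Cfsg.Agent.* helpers here

set_option autoImplicit false
open scoped MatrixGroups
open Cfsg

namespace Cfsg.Agent.S5949

/-- Elements of prime order of PSL_n(q) with no fixed `m`-space. Here `T = PSL_n(F)` for a field `F` with `q = p^f` elements (`n ≥ 2`, `(n, q) ≠ (2, 2), (2, 3)`); an element of `T` of prime order `r` is represented by a matrix `x` of determinant 1 with `x^r` scalar and `x` not scalar; `i` denotes the multiplicative order of `q` modulo `r` (when `r ≠ p`), and `(a)_r` the `r`-part of `a`. Let `1 ≤ m ≤ n/2` and let `r` be a prime dividing the number of `m`-dimensional subspaces of `F^n`. Then every element of `T` of order `r` fixes some `m`-dimensional subspace (the action on `m`-spaces is `r`-elusive) if and only if `r ≠ p` and either (i) `i = 1` and (`r ∣ m`, or `(q−1)_r ≥ (n)_r` where in addition `q ≡ 1 (mod 4)` is required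 when `r = 2` and `n` is even), or (ii) `2 ≤ i ≤ m` and `n mod i ≥ m mod i`. -/
theorem result {F : Type*} [Field F] [Fintype F] {p : ℕ} [Fact p.Prime] [CharP F p] {q : ℕ} (hq : Fintype.card F = q)
    (n m : ℕ) (hn : 2 ≤ n) (hT : (n, q) ≠ (2, 2) ∧ (n, q) ≠ (2, 3)) (hm : 1 ≤ m) (hmn : 2 * m ≤ n)
    (r : ℕ) [Fact r.Prime] (hrΩ : r ∣ Nat.card {W : Submodule F (Fin n → F) // Module.finrank F ↥W = m}) :
    (∀ x : Matrix.SpecialLinearGroup (Fin n) F,
      (∃ c : F, ((x ^ r : Matrix.SpecialLinearGroup (Fin n) F) : Matrix (Fin n) (Fin n) F) = c • (1 : Matrix (Fin n) (Fin n) F)) →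
      (∀ c : F, (x : Matrix (Fin n) (Fin n) F) ≠ c • (1 : Matrix (Fin n) (Fin n) F)) →
      ∃ W : Submodule F (Fin n → F), Module.finrank F ↥W = m ∧ W.map (Matrix.toLin' (x : Matrix (Fin n) (Fin n) F)) ≤ W) ↔
    (r ≠ p ∧
      ((orderOf (q : ZMod r) = 1 ∧ (r ∣ m ∨ (padicValNat r n ≤ padicValNat r (q - 1) ∧ (r = 2 → Even n → q % 4 = 1)))) ∨
       (2 ≤ orderOf (q : ZMod r) ∧ orderOf (q : ZMod r) ≤ m ∧ m % orderOf (q : ZMod r) ≤ n % orderOf (q : ZMod r)))) := by
  classical
  have hr : r.Prime := Fact.out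
  have hqpos : 1 < q := hq ▸ Fintype.one_lt_card
  have hpq : p ∣ q := by
    obtain ⟨k, hpk, hk⟩ := FiniteField.card F p
    rw [← hq, hk]
    exact dvd_pow_self p k.ne_zero
  have hc := Cfsg.Lib.Derange.card_subspaces_mul (V := Fin n → F) hq n m (Module.finrank_fin_fun F) (by omega)
  have hrp : r ≠ p := by
    rintro rfl
    refine Cfsg.Lib.Derange.not_dvd_qP hr hpq hqpos n ?_
    rw [← hc]
    exact dvd_mul_of_dvd_left hrΩ _
  set e := orderOf (q : ZMod r) with he
  have hmlt : n % e < m := Cfsg.Lib.Derange.mod_lt_of_dvd hr hqpos n m (by omega) _ (by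
    refine ⟨Cfsg.Lib.Derange.qP q m, ?_⟩
    have h := Cfsg.Lib.Derange.qP_split (q := q) n m (by omega)
    rw [← hc, ← mul_assoc] at h
    exact Nat.eq_of_mul_eq_mul_right (Cfsg.Lib.Derange.qP_pos hqpos _) h) hrΩ
  have he0 : 0 < e := orderOf_pos_iff.2 (isOfFinOrder_iff_pow_eq_one.2
    ⟨r - 1, by have := hr.two_le; omega, ZMod.pow_card_sub_one_eq_one (Cfsg.Lib.Derange.cast_ne_zero hq r hrp)⟩)
  constructor
  · intro H
    refine ⟨hrp, ?_⟩
    rcases (by omega : e = 1 ∨ 2 ≤ e) with he1 | he2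
    · refine Or.inl ⟨he1, Classical.or_iff_not_imp_left.2 fun hrm => by_contra fun hcond => ?_⟩
      obtain ⟨x, c, hx, hns, hW⟩ := Cfsg.Lib.Derange.exists_nonpower_elem hq r hrp (n := n) he1 (by omega) hcond
      obtain ⟨W, hWd, hWx⟩ := H x ⟨c, by rw [Matrix.SpecialLinearGroup.coe_pow]; exact hx⟩ hns
      exact hrm (hWd ▸ hW W hWx)
    · obtain ⟨x, hx, hns, hW⟩ := Cfsg.Lib.Derange.exists_small_fixed hq r hrp (n := n) he2 (lt_of_lt_of_le hmlt (by omega))
      obtain ⟨W, hWd, hWx⟩ := H x ⟨1, by rw [Matrix.SpecialLinearGroup.coe_pow]; exact hx⟩ hns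
      have h := (hW W hWx).1
      rw [hWd] at h
      refine Or.inr ⟨he2, ?_, h⟩
      by_contra hem
      rw [Nat.mod_eq_of_lt (Nat.lt_of_not_le hem)] at h
      exact absurd hmlt (not_lt.2 h)
  · rintro ⟨-, hcond⟩ x ⟨c, hxc⟩ hns
    rw [Matrix.SpecialLinearGroup.coe_pow] at hxc
    rcases hcond with ⟨he1, hcond⟩ | ⟨he2, hem, hmod⟩
    · obtain ⟨A, B, -, hA, -, hAx, -⟩ := Cfsg.Lib.Derange.pair_order_one hq r hrp he1 x (by omega) hxc m m le_rfl (by omega)
        (hcond.imp (fun h => ⟨h, fun _ => h⟩) id)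
      exact ⟨A, hA, hAx⟩
    · obtain ⟨T, b, hb, hxT, hT, -, a, ha1, ha⟩ := Cfsg.Lib.Derange.pair_of_order hq r hrp he2 x hxc hns
      rw [← he] at ha
      set f := Module.finrank F (LinearMap.ker (T - 1))
      have hfn : f ≤ n := (Submodule.finrank_le _).trans_eq (Module.finrank_fin_fun F)
      have hna : n = e * a + f := by omega
      have hm' := Nat.div_add_mod m e
      have hn' := Nat.div_add_mod n e
      set s := min (m / e) a
      have hs : s * e ≤ m := (Nat.mul_le_mul_right e (min_le_left _ _)).trans (Nat.div_mul_le_self m e)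
      have hu : m - s * e ≤ f := by
        rcases le_total (m / e) a with h | h
        · have : s = m / e := min_eq_left h
          rw [this]
          have hf : n % e ≤ f := by
            rw [hna, Nat.mul_add_mod]; exact Nat.mod_le _ _
          have : m - m / e * e = m % e := by rw [mul_comm]; omega
          omega
        · have : s = a := min_eq_right h
          rw [this, mul_comm]
          omega
      obtain ⟨A, -, -, hA, -, hAd, -⟩ := Cfsg.Lib.Derange.exists_pair hq r (Cfsg.Lib.Derange.cast_ne_zero hq r hrp)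
        (Cfsg.Lib.Derange.cast_ne_zero' r hrp) T hT s (m - s * e) s (m - s * e) le_rfl le_rfl hu (by
          rw [Module.finrank_fin_fun, ← he]
          show s * e ≤ n - f
          rw [ha, mul_comm]
          exact Nat.mul_le_mul_left e (min_le_right _ _))
      rw [← he, Nat.add_sub_cancel' hs] at hAd
      exact ⟨A, hAd, by rw [hxT, Submodule.map_smul _ _ _ hb]; exact hA⟩

end Cfsg.Agent.S5949
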