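import Cfsg.Statements.S5951
import Mathlib
import Cfsg.Agent.Lib.Derange.Grassmann
import Cfsg.Agent.Lib.Derange.FlagCriterion
-- import your own Cfsg.Agent.* helpers here

set_option autoImplicit false
open scoped MatrixGroups
open Cfsg

namespace Cfsg.Agent.S5951

/-- Elements of prime order of PSL_n(q) fixing no pair of subspaces `U < W` with `dim U = m`, `dim W = n − m`. Here `T = PSL_n(F)` for a field `F` with `q = p^f` elements (`n ≥ 2`, `(n, q) ≠ (2, 2), (2, 3)`); an element of `T` of prime order `r` is represented by a matrix `x` of determinant 1 with `x^r` scalar and `x` not scalar; `i` denotes the multiplicative order of `q` modulo `r` (when `r ≠ p`), and `(a)_r` the `r`-part of `a`. Let `1 ≤ m < n/2` and let `r` be a prime dividing the number of such pairs. Then every element of `T` of order `r` fixes such a pair (both `U` and `W`) if and only if `r ≠ p` and either (i) `i = 1` and (`r ∣ m`, or `(q−1)_r ≥ (n)_r` with `q ≡ 1 (mod 4)` required when `r = 2` and `n` is even), or (ii) `2 ≤ i ≤ m` and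 `n mod i ≥ 2 (m mod i)`. -/
theorem result {F : Type*} [Field F] [Fintype F] {p : ℕ} [Fact p.Prime] [CharP F p] {q : ℕ} (hq : Fintype.card F = q)
    (n m : ℕ) (hn : 2 ≤ n) (hT : (n, q) ≠ (2, 2) ∧ (n, q) ≠ (2, 3)) (hm : 1 ≤ m) (hmn : 2 * m < n)
    (r : ℕ) [Fact r.Prime]
    (hrΩ : r ∣ Nat.card {P : Submodule F (Fin n → F) × Submodule F (Fin n → F) //
        P.1 ≤ P.2 ∧ Module.finrank F ↥P.1 = m ∧ Module.finrank F ↥P.2 = n - m}) :
    (∀ x : Matrix.SpecialLinearGroup (Fin n) F,
      (∃ c : F, ((x ^ r : Matrix.SpecialLinearGroup (Fin n) F) : Matrix (Fin n) (Fin n) F) = c • (1 : Matrix (Fin n) (Fin n) F)) →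
      (∀ c : F, (x : Matrix (Fin n) (Fin n) F) ≠ c • (1 : Matrix (Fin n) (Fin n) F)) →
      ∃ U W : Submodule F (Fin n → F), U ≤ W ∧ Module.finrank F ↥U = m ∧ Module.finrank F ↥W = n - m ∧
        U.map (Matrix.toLin' (x : Matrix (Fin n) (Fin n) F)) ≤ U ∧ W.map (Matrix.toLin' (x : Matrix (Fin n) (Fin n) F)) ≤ W) ↔
    (r ≠ p ∧
      ((orderOf (q : ZMod r) = 1 ∧ (r ∣ m ∨ (padicValNat r n ≤ padicValNat r (q - 1) ∧ (r = 2 → Even n → q % 4 = 1)))) ∨
       (2 ≤ orderOf (q : ZMod r) ∧ orderOf (q : ZMod r) ≤ m ∧ 2 * (m % orderOf (q : ZMod r)) ≤ n % orderOf (q : ZMod r)))) := by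
  classical
  have hr : r.Prime := Fact.out
  have hqpos : 1 < q := hq ▸ Fintype.one_lt_card
  have hpq : p ∣ q := by
    obtain ⟨k, hpk, hk⟩ := FiniteField.card F p
    rw [← hq, hk]
    exact dvd_pow_self p k.ne_zero
  have hc := Cfsg.Lib.Derange.card_flags_mul (V := Fin n → F) hq n m (Module.finrank_fin_fun F) (by omega)
  have hrp : r ≠ p := by
    rintro rfl
    refine Cfsg.Lib.Derange.not_dvd_qP hr hpq hqpos n ?_
    rw [← hc]
    exact dvd_mul_of_dvd_left hrΩ _
  set e := orderOf (q : ZMod r) with he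
  have hmlt : n % e < 2 * m := Cfsg.Lib.Derange.mod_lt_of_dvd hr hqpos n (2 * m) (by omega) _ (by
    refine ⟨Cfsg.Lib.Derange.qP q m * Cfsg.Lib.Derange.qP q m, ?_⟩
    have h := Cfsg.Lib.Derange.qP_split (q := q) n (2 * m) (by omega)
    rw [← hc, ← mul_assoc] at h
    exact Nat.eq_of_mul_eq_mul_right (Cfsg.Lib.Derange.qP_pos hqpos _) h) hrΩ
  have he0 : 0 < e := orderOf_pos_iff.2 (isOfFinOrder_iff_pow_eq_one.2
    ⟨r - 1, by have := hr.two_le; omega, ZMod.pow_card_sub_one_eq_one (Cfsg.Lib.Derange.cast_ne_zero hq r hrp)⟩)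
  constructor
  · intro H
    refine ⟨hrp, ?_⟩
    rcases (by omega : e = 1 ∨ 2 ≤ e) with he1 | he2
    · refine Or.inl ⟨he1, Classical.or_iff_not_imp_left.2 fun hrm => by_contra fun hcond => ?_⟩
      obtain ⟨x, c, hx, hns, hW⟩ := Cfsg.Lib.Derange.exists_nonpower_elem hq r hrp (n := n) he1 (by omega) hcond
      obtain ⟨U, -, -, hUd, -, hUx, -⟩ := H x ⟨c, by rw [Matrix.SpecialLinearGroup.coe_pow]; exact hx⟩ hns
      exact hrm (hUd ▸ hW U hUx)
    · obtain ⟨x, hx, hns, hW⟩ := Cfsg.Lib.Derange.exists_small_fixed hq r hrp (n := n) he2 (lt_of_lt_of_le hmlt (by omega))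
      obtain ⟨U, W, hUW, hUd, hWd, hUx, hWx⟩ := H x ⟨1, by rw [Matrix.SpecialLinearGroup.coe_pow]; exact hx⟩ hns
      have h1 := (hW U hUx).2
      have h2 := (hW W hWx).2
      have h3 := (hW W hWx).1
      have h4 := (hW U hUx).1
      have hle := Submodule.finrank_mono (inf_le_inf_right (LinearMap.ker (Matrix.toLinAlgEquiv' (x : Matrix (Fin n) (Fin n) F) - 1)) hUW)
      rw [hUd] at h1 h4
      rw [hWd] at h2 h3
      rw [h1, h2] at hle
      rw [← he] at hle h3 h4
      have hne : n % e < e := Nat.mod_lt _ he0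
      have hm := Nat.div_add_mod m e
      have hn' := Nat.div_add_mod n e
      have hnm := Nat.div_add_mod (n - m) e
      have hdec : (n - m) % e + m % e = n % e := by
        have h5 : ((n - m) % e + m % e) % e = n % e := by rw [← Nat.add_mod, Nat.sub_add_cancel (by omega)]
        rcases Nat.lt_or_ge ((n - m) % e + m % e) e with h | h
        · rwa [Nat.mod_eq_of_lt h] at h5
        · rw [Nat.mod_eq_sub_mod h, Nat.mod_eq_of_lt (by omega)] at h5
          omega
      refine Or.inr ⟨he2, ?_, by omega⟩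
      by_contra hem
      rw [Nat.mod_eq_of_lt (Nat.lt_of_not_le hem)] at hle hdec
      omega
  · rintro ⟨-, hcond⟩ x ⟨c, hxc⟩ hns
    rw [Matrix.SpecialLinearGroup.coe_pow] at hxc
    rcases hcond with ⟨he1, hcond⟩ | ⟨he2, hem, hmod⟩
    · obtain ⟨A, B, hAB, hA, hB, hAx, hBx⟩ := Cfsg.Lib.Derange.pair_order_one hq r hrp he1 x (by omega) hxc m (n - m) (by omega) (Nat.sub_le _ _)
        (hcond.imp (fun h => ⟨h, fun h' => Nat.dvd_sub h' h⟩) id)
      exact ⟨A, B, hAB, hA, hB, hAx, hBx⟩
    · obtain ⟨T, b, hb, hxT, hT, -, a, ha1, ha⟩ := Cfsg.Lib.Derange.pair_of_order hq r hrp he2 x hxc hns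
      rw [← he] at ha
      set f := Module.finrank F (LinearMap.ker (T - 1))
      have hfn : f ≤ n := (Submodule.finrank_le _).trans_eq (Module.finrank_fin_fun F)
      have hna : n = e * a + f := by omega
      have hm' := Nat.div_add_mod m e
      have hn' := Nat.div_add_mod n e
      set M := m / e
      set l := m % e
      set N := n / e
      set r₀ := n % e
      have hf0 : r₀ ≤ f := by
        show n % e ≤ f
        rw [hna, Nat.mul_add_mod]; exact Nat.mod_le _ _
      have hlt : l < e := Nat.mod_lt _ he0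
      have hr0 : r₀ < e := Nat.mod_lt _ he0
      have hMN : 2 * M ≤ N := by
        by_contra h
        have : e * (N + 1) ≤ e * (2 * M) := Nat.mul_le_mul_left e (by omega)
        rw [Nat.mul_add, mul_one, Nat.mul_left_comm] at this
        omega
      have hnm : n - m = e * (N - M) + (r₀ - l) := by
        have h : e * N = e * (N - M) + e * M := by rw [← Nat.mul_add, Nat.sub_add_cancel (by omega)]
        omega
      set s := min M a
      set s' := min (N - M) a
      have e1 : s * e ≤ m := by
        have : e * s ≤ e * M := Nat.mul_le_mul_left e (min_le_left _ _)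
        rw [mul_comm]; omega
      have e2 : s' * e ≤ n - m := by
        have : e * s' ≤ e * (N - M) := Nat.mul_le_mul_left e (min_le_left _ _)
        rw [mul_comm]; omega
      have hu : m - s * e ≤ (n - m) - s' * e := by
        rcases le_total M a with h | h
        · have e3 : s * e = e * M := by rw [show s = M from min_eq_left h, mul_comm]
          have : e * s' ≤ e * (N - M) := Nat.mul_le_mul_left e (min_le_left _ _)
          rw [e3, mul_comm s']
          omega
        · have e3 : s * e = e * a := by rw [show s = a from min_eq_right h, mul_comm]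
          have e4 : s' * e = e * a := by rw [show s' = a from min_eq_right (le_trans h (by omega)), mul_comm]
          have : e * M ≤ e * (N - M) := Nat.mul_le_mul_left e (by omega)
          omega
      have hu' : (n - m) - s' * e ≤ f := by
        rcases le_total (N - M) a with h | h
        · have e4 : s' * e = e * (N - M) := by rw [show s' = N - M from min_eq_left h, mul_comm]
          omega
        · have e4 : s' * e = e * a := by rw [show s' = a from min_eq_right h, mul_comm]
          omega
      obtain ⟨A, B, hAB, hA, hB, hAd, hBd⟩ := Cfsg.Lib.Derange.exists_pair hq r (Cfsg.Lib.Derange.cast_ne_zero hq r hrp)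
        (Cfsg.Lib.Derange.cast_ne_zero' r hrp) T hT s (m - s * e) s' ((n - m) - s' * e) (min_le_min_right a (by omega)) hu hu' (by
          rw [Module.finrank_fin_fun, ← he]
          show s' * e ≤ n - f
          rw [ha, mul_comm]
          exact Nat.mul_le_mul_left e (min_le_right _ _))
      rw [← he, Nat.add_sub_cancel' e1] at hAd
      rw [← he, Nat.add_sub_cancel' e2] at hBd
      exact ⟨A, B, hAB, hAd, hBd, by rw [hxT, Submodule.map_smul _ _ _ hb]; exact hA, by rw [hxT, Submodule.map_smul _ _ _ hb]; exact hB⟩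

end Cfsg.Agent.S5951
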