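import Cfsg.Statements.S5952
import Mathlib

set_option autoImplicit false
open Cfsg

namespace Cfsg.Agent.S5952

/-- Which dimensions of invariant subspaces a semisimple linear map has. Let `V` be a finite-dimensional vector space over a field `F` and `f` an invertible semisimple linear map of `V`. Suppose `V` is the internal direct sum of the fixed space `C_V(f)` (the eigenspace for 1) and subspaces `U_1, …, U_s`, each `f`-invariant of dimension `a ≥ 1` on which `f` acts irreducibly (no `f`-invariant subspaces other than 0 and `U_j`). Let `0 < m < dim V` and `ℓ = m mod a`. Then `f` leaves some `m`-dimensional subspace invariant if and only if `dim C_V(f) ≥ m`, or `a ≤ m` and `dim C_V(f) ≥ ℓ`. -/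
theorem result {F V : Type*} [Field F] [AddCommGroup V] [Module F V]
    [FiniteDimensional F V] (f : V →ₗ[F] V) (hf : Function.Bijective f) (hss : Module.End.IsSemisimple f)
    {s a : ℕ} (ha : 1 ≤ a) (U : Fin s → Submodule F V)
    (hUinv : ∀ j, (U j).map f ≤ U j) (hUdim : ∀ j, Module.finrank F ↥(U j) = a)
    (hUirr : ∀ j, ∀ W : Submodule F V, W ≤ U j → W.map f ≤ W → W = ⊥ ∨ W = U j)
    (hdec : DirectSum.IsInternal (fun o : Option (Fin s) => o.elim (Module.End.eigenspace f 1) U))
    (m : ℕ) (hm : 0 < m) (hmV : m < Module.finrank F V) :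
    (∃ W : Submodule F V, Module.finrank F ↥W = m ∧ W.map f ≤ W) ↔
    (m ≤ Module.finrank F ↥(Module.End.eigenspace f 1) ∨
      (a ≤ m ∧ m % a ≤ Module.finrank F ↥(Module.End.eigenspace f 1))) := by
  classical
  set C := Module.End.eigenspace f 1
  have hCf : ∀ x ∈ C, f x = x := fun x hx => by simpa using (Module.End.mem_eigenspace_iff.1 hx)
  let P : Finset (Fin s) → Submodule F V := fun S => C ⊔ S.sup U
  have hPinv : ∀ S, (P S).map f ≤ P S := by
    intro S
    simp only [P]
    rw [Submodule.map_sup]
    refine sup_le_sup (by rintro _ ⟨x, hx, rfl⟩; rw [hCf x hx]; exact hx) ?_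
    induction S using Finset.induction_on with
    | empty => simp
    | insert j S _ ih => rw [Finset.sup_insert, Submodule.map_sup]; exact sup_le_sup (hUinv j) ih
  have htop : P Finset.univ = ⊤ := by
    rw [eq_top_iff, ← hdec.submodule_iSup_eq_top]
    refine iSup_le fun o => ?_
    cases o with
    | none => exact le_sup_left
    | some j => exact le_sup_of_le_right (Finset.le_sup (f := U) (Finset.mem_univ j))
  have hind := hdec.submodule_iSupIndep
  have hdisj : ∀ (S : Finset (Fin s)) (j : Fin s), j ∉ S → Disjoint (P S) (U j) := by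
    intro S j hj
    refine (hind (some j)).symm.mono_left (sup_le ?_ (Finset.sup_le fun i hi => ?_))
    · exact le_iSup₂ (f := fun (o : Option (Fin s)) (_ : o ≠ some j) => o.elim C U) none (by simp)
    · exact le_iSup₂ (f := fun (o : Option (Fin s)) (_ : o ≠ some j) => o.elim C U) (some i)
        (fun h => hj (Option.some.inj h ▸ hi))
  have hdimP : ∀ S, Module.finrank F (P S) = Module.finrank F C + S.card * a := by
    intro S
    induction S using Finset.induction_on with
    | empty => rw [show P ∅ = C by simp [P]]; simp
    | insert j S hj ih =>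
      have h := Submodule.finrank_sup_add_finrank_inf_eq (P S) (U j)
      rw [(hdisj S j hj).eq_bot, finrank_bot, add_zero, ih, hUdim] at h
      rw [Finset.card_insert_of_notMem hj, add_mul, one_mul, ← add_assoc, ← h]
      have : P (insert j S) = P S ⊔ U j := by
        simp only [P, Finset.sup_insert]
        rw [sup_comm (U j), sup_assoc]
      rw [this]
  constructor
  · rintro ⟨W, hWm, hWinv⟩
    have hfilt : ∀ S, ∃ k, Module.finrank F ↥(W ⊓ P S) = Module.finrank F ↥(W ⊓ C) + k * a := by
      intro S
      induction S using Finset.induction_on with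
      | empty => exact ⟨0, by rw [show P ∅ = C by simp [P]]; simp⟩
      | insert j S hj ih =>
        obtain ⟨k, hk⟩ := ih
        have hPins : P (insert j S) = P S ⊔ U j := by
          simp only [P, Finset.sup_insert]
          rw [sup_comm (U j), sup_assoc]
        set A := W ⊓ P (insert j S) ⊔ P S with hA
        have hAinv : A.map f ≤ A := by
          rw [hA, Submodule.map_sup]
          exact sup_le_sup ((Submodule.map_inf_le _).trans (inf_le_inf hWinv (hPinv _))) (hPinv S)
        have hAle : A ≤ P S ⊔ U j := sup_le (hPins ▸ inf_le_right) le_sup_left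
        have hA' : A = P S ⊔ A ⊓ U j := by
          rw [inf_comm A (U j), ← sup_inf_assoc_of_le (U j) (show P S ≤ A from le_sup_right),
            inf_eq_right.2 hAle]
        have hdim := Submodule.finrank_sup_add_finrank_inf_eq (W ⊓ P (insert j S)) (P S)
        have hinf : W ⊓ P (insert j S) ⊓ P S = W ⊓ P S := by
          rw [inf_assoc, inf_eq_right.2 (show P S ≤ P (insert j S) from hPins ▸ le_sup_left)]
        rw [hinf, ← hA, hk] at hdim
        rcases hUirr j (A ⊓ U j) inf_le_right ((Submodule.map_inf_le _).trans (inf_le_inf hAinv (hUinv j))) with h | h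
        · rw [h, sup_bot_eq] at hA'
          rw [hA'] at hdim
          exact ⟨k, by omega⟩
        · rw [h, ← hPins] at hA'
          rw [hA', hdimP, hdimP, Finset.card_insert_of_notMem hj, add_mul, one_mul] at hdim
          exact ⟨k + 1, by rw [add_mul, one_mul]; omega⟩
    obtain ⟨k, hk⟩ := hfilt Finset.univ
    rw [htop, inf_top_eq, hWm] at hk
    have hc : Module.finrank F ↥(W ⊓ C) ≤ Module.finrank F C := Submodule.finrank_mono inf_le_right
    rcases Nat.eq_zero_or_pos k with rfl | hk0
    · exact Or.inl (by omega)
    · refine Or.inr ⟨by nlinarith, ?_⟩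
      rw [hk, Nat.add_mul_mod_self_right]
      exact (Nat.mod_le _ _).trans hc
  · intro h
    obtain ⟨k, hks, hka, hkc⟩ : ∃ k, k ≤ s ∧ k * a ≤ m ∧ m ≤ Module.finrank F C + k * a := by
      rcases h with h | ⟨-, h2⟩
      · exact ⟨0, Nat.zero_le _, by simp, by simpa using h⟩
      · by_cases hsm : s ≤ m / a
        · refine ⟨s, le_rfl, (Nat.mul_le_mul_right a hsm).trans (Nat.div_mul_le_self m a), ?_⟩
          have := hdimP Finset.univ
          rw [htop, finrank_top, Finset.card_univ, Fintype.card_fin] at this
          omega
        · refine ⟨m / a, by omega, Nat.div_mul_le_self m a, ?_⟩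
          have := Nat.mod_add_div m a
          rw [mul_comm] at this
          omega
    obtain ⟨S, -, hS⟩ := Finset.exists_subset_card_eq (s := (Finset.univ : Finset (Fin s))) (n := k) (by simpa)
    let bC := Module.finBasis F C
    let g : Fin (m - k * a) → V := fun i => (bC ⟨i, by have := i.isLt; omega⟩ : V)
    have hg : LinearIndependent F g :=
      (bC.linearIndependent.map' C.subtype C.ker_subtype).comp (fun i : Fin (m - k * a) => ⟨i, by have := i.isLt; omega⟩)
        fun i j e => Fin.ext (Fin.mk.inj_iff.1 e)
    let C' := Submodule.span F (Set.range g)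
    have hC' : C' ≤ C := Submodule.span_le.2 (by rintro _ ⟨i, rfl⟩; exact (bC _).2)
    have hCd : Module.finrank F C' = m - k * a := by
      rw [finrank_span_eq_card hg, Fintype.card_fin]
    have hUS : ∀ S : Finset (Fin s), (S.sup U).map f ≤ S.sup U := by
      intro S
      induction S using Finset.induction_on with
      | empty => simp
      | insert j S _ ih => rw [Finset.sup_insert, Submodule.map_sup]; exact sup_le_sup (hUinv j) ih
    refine ⟨C' ⊔ S.sup U, ?_, ?_⟩
    · have hd : Disjoint C (S.sup U) := by
        refine (hind none).mono_right (Finset.sup_le fun i _ => ?_)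
        exact le_iSup₂ (f := fun (o : Option (Fin s)) (_ : o ≠ none) => o.elim C U) (some i) (by simp)
      have h1 := Submodule.finrank_sup_add_finrank_inf_eq C' (S.sup U)
      have h2 := Submodule.finrank_sup_add_finrank_inf_eq C (S.sup U)
      rw [(hd.mono_left hC').eq_bot, finrank_bot, add_zero, hCd] at h1
      rw [hd.eq_bot, finrank_bot, add_zero, show C ⊔ S.sup U = P S from rfl, hdimP, hS] at h2
      omega
    · rw [Submodule.map_sup]
      exact sup_le_sup (by rintro _ ⟨x, hx, rfl⟩; rw [hCf x (hC' hx)]; exact hx) (hUS S)

end Cfsg.Agent.S5952
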