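import Cfsg.Statements.S5957
import Mathlib
import Cfsg.Agent.Lib.Classical.InvolBlocks

set_option autoImplicit false
open scoped MatrixGroups
open Cfsg
open scoped Matrix

namespace Cfsg.Agent.S5957

/-- Involutions of PSL_n(q) and imprimitive subgroups. Here `T = PSL_n(F)` for a field `F` with `q = p^f` elements (`n ≥ 2`, `(n, q) ≠ (2, 2), (2, 3)`), `n = a·t` with `t ≥ 2`, and Ω is the set of direct-sum decompositions of `F^n` into `t` subspaces of dimension `a` (unordered; their number is the number of ordered ones divided by `t!`), whose stabilizers are the imprimitive subgroups of type GL_a(q) ≀ S_t (maximal except in some small cases; maximality is not assumed); an element of `T` of prime order `r` (a matrix `x` of determinant 1 with `x^r` scalar, `x` not scalar) fixes a point of Ω when it permutes the summands of some such decomposition. If the number of such decompositions is even, then every involution of `T` stabilizes one of them (the action is 2-elusive). -/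
theorem result {F : Type*} [Field F] [Fintype F] {p : ℕ} [Fact p.Prime] [CharP F p] {q : ℕ} (hq : Fintype.card F = q)
    (n a t : ℕ) (hn : 2 ≤ n) (hT : (n, q) ≠ (2, 2) ∧ (n, q) ≠ (2, 3)) (hat : n = a * t) (ha : 1 ≤ a) (ht : 2 ≤ t)
    (hΩ : 2 ∣ Nat.card {D : Fin t → Submodule F (Fin n → F) // Cfsg.Geo.IsMDecomposition a D} / Nat.factorial t)
    (x : Matrix.SpecialLinearGroup (Fin n) F)
    (hx1 : ∃ z : F, ((x ^ 2 : Matrix.SpecialLinearGroup (Fin n) F) : Matrix (Fin n) (Fin n) F) = z • (1 : Matrix (Fin n) (Fin n) F))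
    (hx2 : ∀ z : F, (x : Matrix (Fin n) (Fin n) F) ≠ z • (1 : Matrix (Fin n) (Fin n) F)) :
    ∃ D : Fin t → Submodule F (Fin n → F), Cfsg.Geo.IsMDecomposition a D ∧
        ∃ σ : Equiv.Perm (Fin t), ∀ j, (D j).map (Matrix.toLin' (x : Matrix (Fin n) (Fin n) F)) = D (σ j) := by
  classical
  obtain ⟨z, hz⟩ := hx1
  set T : (Fin n → F) →ₗ[F] (Fin n → F) := Matrix.toLin' (x : Matrix (Fin n) (Fin n) F) with hTdef
  have hTT : ∀ v, T (T v) = z • v := by
    intro v
    simp only [hTdef, Matrix.toLin'_apply, Matrix.mulVec_mulVec]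
    rw [show (x : Matrix (Fin n) (Fin n) F) * (x : Matrix (Fin n) (Fin n) F) = z • 1 by rw [← hz, pow_two]; rfl,
      Matrix.smul_mulVec, Matrix.one_mulVec]
  have hz0 : z ≠ 0 := by
    rintro rfl
    have h := congrArg Matrix.det hz
    rw [zero_smul, @Matrix.det_zero (Fin n) _ _ _ _ ⟨⟨0, by omega⟩⟩] at h
    exact one_ne_zero ((x ^ 2 : Matrix.SpecialLinearGroup (Fin n) F).2.symm.trans h)
  obtain ⟨k, r, b, hb⟩ := Cfsg.Lib.InvolBlocks.exists_monomial T hz0 hTT
  have hc : 2 * k + Fintype.card (Fin r) = t * a := by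
    have := Module.finrank_eq_card_basis b
    simp at this ⊢
    rw [mul_comm t a, ← hat, this]; omega
  obtain ⟨e, σ, he⟩ := Cfsg.Lib.InvolBlocks.exists_layout (Fin r) hc
  set c := b.reindex e with hc'
  let D : Fin t → Submodule F (Fin n → F) := fun i => Submodule.span F (Set.range fun j => c (i, j))
  have hfr : ∀ i, Module.finrank F (D i) = a := fun i =>
    (finrank_span_eq_card (c.linearIndependent.comp (fun j => (i, j)) (fun x y h => (Prod.ext_iff.1 h).2))).trans (Fintype.card_fin a)
  refine ⟨D, ⟨ht, ha, hfr, ?_, ?_⟩, σ, fun j => ?_⟩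
  · rw [iSupIndep_def]
    intro i
    have h := c.linearIndependent.disjoint_span_image (s := {p | p.1 = i}) (t := {p | p.1 ≠ i})
      (Set.disjoint_left.2 fun p hp hp' => hp' hp)
    refine h.mono (Submodule.span_le.2 ?_) (iSup₂_le fun l hl => Submodule.span_le.2 ?_)
    · rintro _ ⟨j, rfl⟩; exact Submodule.subset_span ⟨(i, j), rfl, rfl⟩
    · rintro _ ⟨j, rfl⟩; exact Submodule.subset_span ⟨(l, j), hl, rfl⟩
  · refine top_unique (c.span_eq.ge.trans (Submodule.span_le.2 ?_))
    rintro _ ⟨⟨i, j⟩, rfl⟩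
    exact Submodule.mem_iSup_of_mem i (Submodule.subset_span ⟨j, rfl⟩)
  · have hinj : Function.Injective T := fun u v h => by
      have := congrArg T h
      rw [hTT, hTT] at this
      exact smul_right_injective _ hz0 this
    refine Submodule.eq_of_le_of_finrank_eq ?_ (((Submodule.equivMapOfInjective T hinj (D j)).finrank_eq.symm.trans (hfr j)).trans (hfr (σ j)).symm)
    rw [Submodule.map_span, Submodule.span_le]
    rintro _ ⟨_, ⟨l, rfl⟩, rfl⟩
    obtain ⟨i, hi⟩ := e.surjective (j, l)
    have h1 := he i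
    rw [hi] at h1
    obtain ⟨s, hs⟩ := Submodule.mem_span_singleton.1 (hb i)
    show T (c (j, l)) ∈ D (σ j)
    rw [hc', Module.Basis.reindex_apply, ← hi, e.symm_apply_apply, ← hs]
    refine Submodule.smul_mem _ _ (Submodule.subset_span ⟨(e (Cfsg.Lib.InvolBlocks.swp i)).2, ?_⟩)
    show c (σ j, _) = _
    rw [← h1, hc', Module.Basis.reindex_apply, Prod.mk.eta, e.symm_apply_apply]

end Cfsg.Agent.S5957
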