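import Cfsg.Statements.S5959
import Mathlib

set_option autoImplicit false
open scoped MatrixGroups
open Cfsg
open scoped Matrix

namespace Cfsg.Agent.S5959

/-- Elements of order `p` of PSL_n(q) and imprimitive subgroups: a necessary condition. Here `T = PSL_n(F)` for a field `F` with `q = p^f` elements (`n ≥ 2`, `(n, q) ≠ (2, 2), (2, 3)`), `n = a·t` with `t ≥ 2`, and Ω is the set of direct-sum decompositions of `F^n` into `t` subspaces of dimension `a` (unordered; their number is the number of ordered ones divided by `t!`), whose stabilizers are the imprimitive subgroups of type GL_a(q) ≀ S_t (maximal except in some small cases; maximality is not assumed); an element of `T` of prime order `r` (a matrix `x` of determinant 1 with `x^r` scalar, `x` not scalar) fixes a point of Ω when it permutes the summands of some such decomposition. Suppose `p > 2` divides the number of such decompositions. If every element of `T` of order `p` stabilizes such a decomposition, then every partition of `n` into parts of size at most `p` in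 which the part `p` occurs fewer than `a` times contains (as a sub-multiset) a partition of `a`. -/
theorem result {F : Type*} [Field F] [Fintype F] {p : ℕ} [Fact p.Prime] [CharP F p] {q : ℕ} (hq : Fintype.card F = q)
    (n a t : ℕ) (hn : 2 ≤ n) (hT : (n, q) ≠ (2, 2) ∧ (n, q) ≠ (2, 3)) (hat : n = a * t) (ha : 1 ≤ a) (ht : 2 ≤ t)
    (hp : 2 < p) (hΩ : p ∣ Nat.card {D : Fin t → Submodule F (Fin n → F) // Cfsg.Geo.IsMDecomposition a D} / Nat.factorial t)
    (h : ∀ x : Matrix.SpecialLinearGroup (Fin n) F,
      (∃ z : F, ((x ^ p : Matrix.SpecialLinearGroup (Fin n) F) : Matrix (Fin n) (Fin n) F) = z • (1 : Matrix (Fin n) (Fin n) F)) →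
      (∀ z : F, (x : Matrix (Fin n) (Fin n) F) ≠ z • (1 : Matrix (Fin n) (Fin n) F)) →
      ∃ D : Fin t → Submodule F (Fin n → F), Cfsg.Geo.IsMDecomposition a D ∧
        ∃ σ : Equiv.Perm (Fin t), ∀ j, (D j).map (Matrix.toLin' (x : Matrix (Fin n) (Fin n) F)) = D (σ j)) :
    (∀ μ : Multiset ℕ, (∀ b ∈ μ, 0 < b ∧ b ≤ p) → μ.sum = n → μ.count p < a → ∃ ν : Multiset ℕ, ν ≤ μ ∧ ν.sum = a) := by
  classical
  intro μ hμ hsum hcount
  by_cases h1 : ∀ b ∈ μ, b = 1
  · refine ⟨Multiset.replicate a 1, ?_, by simp⟩
    have hμ1 : μ = Multiset.replicate (Multiset.card μ) 1 := Multiset.eq_replicate_card.2 h1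
    have hcard : Multiset.card μ = n := by
      rw [hμ1, Multiset.sum_replicate, smul_eq_mul, mul_one] at hsum; exact hsum
    rw [hμ1, hcard]
    exact (Multiset.replicate_le_replicate 1).2 (by rw [hat]; exact Nat.le_mul_of_pos_right _ (by omega))
  push Not at h1
  obtain ⟨b₁, hb₁, hb₁1⟩ := h1
  let l := μ.toList
  let κ := Σ i : Fin l.length, Fin (l.get i)
  have hlsum : ∀ g : ℕ → ℕ, ∑ i : Fin l.length, g (l.get i) = (μ.map g).sum := by
    intro g
    conv_rhs => rw [← μ.coe_toList, Multiset.map_coe, Multiset.sum_coe]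
    rw [← List.sum_ofFn]
    congr 1
    conv_rhs => rw [← List.ofFn_get μ.toList, List.map_ofFn]
    rfl
  have hκ : Fintype.card κ = n := by
    show Fintype.card (Σ i : Fin l.length, Fin (l.get i)) = n
    rw [Fintype.card_sigma]
    simp only [Fintype.card_fin]
    rw [hlsum (fun b => b), Multiset.map_id', hsum]
  let b : Module.Basis κ F (Fin n → F) := (Pi.basisFun F (Fin n)).reindex ((Fintype.equivFinOfCardEq hκ).symm)
  let N : Module.End F (Fin n → F) := b.constr F (fun p => if h : (p.2 : ℕ) = 0 then 0
    else b ⟨p.1, ⟨(p.2 : ℕ) - 1, lt_of_le_of_lt (Nat.sub_le _ _) p.2.2⟩⟩)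
  have hN : ∀ (k : ℕ) (i : Fin l.length) (j : Fin (l.get i)), (N ^ k) (b ⟨i, j⟩) =
      if k ≤ (j : ℕ) then b ⟨i, ⟨(j : ℕ) - k, lt_of_le_of_lt (Nat.sub_le _ _) j.2⟩⟩ else 0 := by
    intro k
    induction k with
    | zero => intro i j; simp
    | succ k ih =>
      intro i j
      rw [pow_succ, Module.End.mul_apply]
      simp only [N, Module.Basis.constr_basis]
      by_cases hj : (j : ℕ) = 0
      · rw [dif_pos hj, map_zero, if_neg (by omega)]
      · rw [dif_neg hj, ih]
        by_cases hk : k + 1 ≤ (j : ℕ)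
        · rw [if_pos (show k ≤ (j : ℕ) - 1 by omega), if_pos hk]
          congr 3
          show (j : ℕ) - 1 - k = (j : ℕ) - (k + 1)
          omega
        · rw [if_neg (show ¬ k ≤ (j : ℕ) - 1 by omega), if_neg hk]
  have hle : ∀ i, l.get i ≤ p ∧ 0 < l.get i := fun i => by
    have := hμ (l.get i) (Multiset.mem_toList.1 (List.get_mem l i))
    exact ⟨this.2, this.1⟩
  have hNp : N ^ p = 0 := by
    refine b.ext fun ⟨i, j⟩ => ?_
    rw [hN, if_neg, LinearMap.zero_apply]
    have := j.2; have := (hle i).1
    omega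
  let R : ℕ → ℕ := fun k => Module.finrank F ((⊤ : Submodule F (Fin n → F)).map (N ^ k))
  have hR : ∀ k, R k = (μ.map fun c => c - k).sum := by
    intro k
    rw [← hlsum]
    show Module.finrank F ((⊤ : Submodule F (Fin n → F)).map (N ^ k)) = _
    let S := Σ i : Fin l.length, Fin (l.get i - k)
    let g : S → (Fin n → F) := fun s => b ⟨s.1, ⟨(s.2 : ℕ), lt_of_lt_of_le s.2.2 (Nat.sub_le _ _)⟩⟩
    have hg : LinearIndependent F g := b.linearIndependent.comp _ (by
      rintro ⟨i, j⟩ ⟨i', j'⟩ h
      have hi : i = i' := congrArg Sigma.fst h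
      subst hi
      have h2 := congrArg Fin.val (eq_of_heq (Sigma.mk.inj_iff.1 h).2)
      exact Sigma.ext rfl (heq_of_eq (Fin.ext h2)))
    have he : (⊤ : Submodule F (Fin n → F)).map (N ^ k) = Submodule.span F (Set.range g) := by
      rw [← b.span_eq, Submodule.map_span, ← Set.range_comp]
      refine le_antisymm (Submodule.span_le.2 ?_) (Submodule.span_le.2 ?_)
      · rintro _ ⟨⟨i, j⟩, rfl⟩
        simp only [Function.comp_apply, hN]
        split_ifs with hk
        · exact Submodule.subset_span ⟨⟨i, ⟨(j : ℕ) - k, by have := j.2; omega⟩⟩, rfl⟩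
        · exact Submodule.zero_mem _
      · rintro _ ⟨⟨i, j⟩, rfl⟩
        refine Submodule.subset_span ⟨⟨i, ⟨(j : ℕ) + k, by have := j.2; omega⟩⟩, ?_⟩
        simp only [Function.comp_apply, hN, g]
        rw [if_pos (Nat.le_add_left _ _)]
        congr 3
        show (j : ℕ) + k - k = j
        omega
    rw [he, finrank_span_eq_card hg]
    show Fintype.card (Σ i : Fin l.length, Fin (l.get i - k)) = _
    rw [Fintype.card_sigma]
    simp only [Fintype.card_fin]
  have hRc : ∀ i, 1 ≤ i → R (i - 1) + R (i + 1) = 2 * R i + μ.count i := by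
    intro i hi
    simp only [hR]
    clear hcount hsum hb₁ hlsum hR R hNp hle hN N b hκ hμ
    induction μ using Multiset.induction_on with
    | empty => simp
    | cons c s ih =>
      simp only [Multiset.map_cons, Multiset.sum_cons, Multiset.count_cons] at ih ⊢
      split_ifs with hc <;> omega
  -- the element
  have hcomm : Commute (1 : Module.End F (Fin n → F)) N := Commute.one_left N
  haveI : Nonempty (Fin n) := ⟨⟨0, by omega⟩⟩
  haveI : CharP (Module.End F (Fin n → F)) p := charP_of_injective_algebraMap (algebraMap F (Module.End F (Fin n → F))).injective p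
  have hTp : (1 + N) ^ p = 1 := by rw [add_pow_char_of_commute p hcomm, one_pow, hNp, add_zero]
  let X : Matrix (Fin n) (Fin n) F := LinearMap.toMatrix' (1 + N)
  have hXp : X ^ p = 1 := by
    show (LinearMap.toMatrixAlgEquiv' (1 + N)) ^ p = 1
    rw [← map_pow, hTp, map_one]
  have hdet : X.det = 1 := by
    have h2 := congrArg Matrix.det hXp
    rw [Matrix.det_pow, Matrix.det_one] at h2
    have h3 : (X.det - 1) ^ p = 0 := by rw [sub_pow_char, h2, one_pow, sub_self]
    exact sub_eq_zero.1 (pow_eq_zero_iff (by omega) |>.1 h3)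
  obtain ⟨D, hD, τ, hτ⟩ := h ⟨X, hdet⟩ ⟨1, hXp.trans (one_smul F (1 : Matrix (Fin n) (Fin n) F)).symm⟩ (fun z hz => by
    obtain ⟨i, hi⟩ : ∃ i, l.get i = b₁ := List.mem_iff_get.1 (Multiset.mem_toList.2 hb₁)
    have hb2 : 2 ≤ l.get i := by rw [hi]; have := (hμ b₁ hb₁).1; omega
    have h2 : X.mulVec (b ⟨i, ⟨1, by omega⟩⟩) = b ⟨i, ⟨1, by omega⟩⟩ + b ⟨i, ⟨0, by omega⟩⟩ := by
      rw [← Matrix.toLin'_apply, Matrix.toLin'_toMatrix', LinearMap.add_apply, Module.End.one_apply]
      congr 1
      have := hN 1 i ⟨1, by omega⟩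
      rw [pow_one, if_pos le_rfl] at this
      exact this
    have hz' : X = z • (1 : Matrix (Fin n) (Fin n) F) := hz
    rw [hz', Matrix.smul_mulVec, Matrix.one_mulVec] at h2
    have h3 := congrArg (fun v => b.repr v ⟨i, ⟨0, by omega⟩⟩) h2
    have hne2 : (⟨i, ⟨1, by omega⟩⟩ : κ) ≠ ⟨i, ⟨0, by omega⟩⟩ := fun h => by
      simpa using congrArg (fun s : κ => (s.2 : ℕ)) h
    simp [hne2] at h3)
  have hτ' : ∀ j, (D j).map (1 + N) = D (τ j) := by
    intro j
    have := hτ j
    rwa [show Matrix.toLin' ((⟨X, hdet⟩ : Matrix.SpecialLinearGroup (Fin n) F) : Matrix (Fin n) (Fin n) F) = 1 + N from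
      Matrix.toLin'_toMatrix' _] at this
  have hne : ∀ j, D j ≠ ⊥ := fun j hj => by
    have := hD.finrank_eq j
    rw [hj, finrank_bot] at this
    omega
  have hpow : ∀ k j, (D j).map ((1 + N) ^ k) = D ((τ ^ k) j) := by
    intro k
    induction k with
    | zero => intro j; simp [Module.End.one_eq_id]
    | succ k ih =>
      intro j
      rw [pow_succ', Module.End.mul_eq_comp, Submodule.map_comp, ih, hτ', pow_succ', Equiv.Perm.mul_apply]
  have hτp : ∀ j, (τ ^ p) j = j := fun j => by
    by_contra hne'
    have h2 := hpow p j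
    rw [hTp, Module.End.one_eq_id, Submodule.map_id] at h2
    have h3 := hD.indep.pairwiseDisjoint hne'
    simp only [Function.onFun] at h3
    rw [← h2, disjoint_self] at h3
    exact hne j h3
  by_cases hfix : ∀ j, τ j = j
  swap
  · exfalso
    push Not at hfix
    obtain ⟨j, hj⟩ := hfix
    have hper : ∀ i, i < p → 0 < i → (τ ^ i) j ≠ j := by
      intro i hi hi0 he
      have h2 : Function.minimalPeriod τ j ∣ i := (Function.IsPeriodicPt.minimalPeriod_dvd (by
        show τ^[i] j = j; rw [← Equiv.Perm.coe_pow]; exact he))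
      have h3 : Function.minimalPeriod τ j ∣ p := (Function.IsPeriodicPt.minimalPeriod_dvd (by
        show τ^[p] j = j; rw [← Equiv.Perm.coe_pow]; exact hτp j))
      rcases (Nat.dvd_prime (Fact.out : p.Prime)).1 h3 with h4 | h4
      · exact hj (Function.minimalPeriod_eq_one_iff_isFixedPt.1 h4)
      · rw [h4] at h2
        have := Nat.le_of_dvd hi0 h2
        omega
    have hgeom : N ^ (p - 1) = ∑ i ∈ Finset.range p, (1 + N) ^ i := by
      have hpoly : (Polynomial.X - 1 : Polynomial F) ^ (p - 1) = ∑ i ∈ Finset.range p, (Polynomial.X : Polynomial F) ^ i := by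
        refine mul_right_cancel₀ (show (Polynomial.X - 1 : Polynomial F) ≠ 0 from Polynomial.X_sub_C_ne_zero 1) ?_
        rw [geom_sum_mul, ← pow_succ, show p - 1 + 1 = p by omega, sub_pow_char, one_pow]
      have h2 := congrArg (Polynomial.aeval (1 + N)) hpoly
      simpa using h2
    have hinj : ∀ v ∈ D j, (N ^ (p - 1)) v = 0 → v = 0 := by
      intro v hv h0
      rw [hgeom, LinearMap.sum_apply, Finset.sum_eq_sum_sdiff_singleton_add
        (show 0 ∈ Finset.range p from Finset.mem_range.2 (by omega))] at h0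
      have hmem : ∑ i ∈ Finset.range p \ {0}, ((1 + N) ^ i) v ∈ ⨆ (k : Fin t) (_ : k ≠ j), D k := by
        refine Submodule.sum_mem _ fun i hi => ?_
        simp only [Finset.mem_sdiff, Finset.mem_range, Finset.mem_singleton] at hi
        exact Submodule.mem_iSup_of_mem ((τ ^ i) j) (Submodule.mem_iSup_of_mem (hper i hi.1 (by omega))
          (hpow i j ▸ Submodule.mem_map_of_mem hv))
      rw [pow_zero, Module.End.one_apply] at h0
      rw [show (∑ i ∈ Finset.range p \ {0}, ((1 + N) ^ i) v) = -v from eq_neg_of_add_eq_zero_left h0] at hmem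
      exact Submodule.disjoint_def.1 (hD.indep j) v hv (by simpa using hmem)
    have h2 : a ≤ R (p - 1) := by
      rw [← hD.finrank_eq j]
      let f : D j →ₗ[F] ((⊤ : Submodule F (Fin n → F)).map (N ^ (p - 1))) :=
        ((N ^ (p - 1)).comp (D j).subtype).codRestrict _ (fun v => Submodule.mem_map_of_mem Submodule.mem_top)
      refine LinearMap.finrank_le_finrank_of_injective (f := f) (LinearMap.ker_eq_bot.1 ((Submodule.eq_bot_iff _).2 ?_))
      intro v hv
      exact Subtype.ext (hinj v v.2 (congrArg Subtype.val hv))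
    have h3 : R (p - 1) = μ.count p := by
      have := hRc p (by omega)
      have hz : R p = 0 ∧ R (p + 1) = 0 := by
        constructor <;>
        · rw [hR]; refine Multiset.sum_eq_zero fun c hc => ?_
          obtain ⟨c', hc', rfl⟩ := Multiset.mem_map.1 hc
          have := (hμ c' hc').2; omega
      omega
    omega
  -- every summand is invariant
  haveI : Nonempty (Fin t) := ⟨⟨0, by omega⟩⟩
  obtain ⟨j⟩ := ‹Nonempty (Fin t)›
  have hinv : ∀ k, (D k).map N ≤ D k := by
    rintro k _ ⟨v, hv, rfl⟩
    have h2 : (1 + N) v ∈ D k := by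
      have := hτ' k
      rw [hfix k] at this
      exact this.le ⟨v, hv, rfl⟩
    have := (D k).sub_mem h2 hv
    simpa using this
  let C : Submodule F (Fin n → F) := ⨆ (k : Fin t) (_ : k ≠ j), D k
  have hCinv : C.map N ≤ C := by
    simp only [C, Submodule.map_iSup]
    exact iSup_mono fun k => iSup_mono fun _ => hinv k
  have hUC : D j ⊔ C = ⊤ := by
    rw [← hD.iSup_eq_top]
    exact (iSup_split_single D j).symm
  have hdis : Disjoint (D j) C := hD.indep j
  -- convexity of the ranks on an invariant subspace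
  have hpowinv : ∀ (U : Submodule F (Fin n → F)), U.map N ≤ U → ∀ k, U.map (N ^ k) ≤ U := by
    intro U hU k
    induction k with
    | zero => simp [Module.End.one_eq_id]
    | succ k ih =>
      rw [pow_succ', Module.End.mul_eq_comp, Submodule.map_comp]
      exact (Submodule.map_mono ih).trans hU
  have hdrop : ∀ (U : Submodule F (Fin n → F)) (k : ℕ), Module.finrank F (U.map (N ^ k)) =
      Module.finrank F (U.map (N ^ (k + 1))) + Module.finrank F ↥(U.map (N ^ k) ⊓ LinearMap.ker N) := by
    intro U k
    rw [pow_succ' N k, Module.End.mul_eq_comp, Submodule.map_comp]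
    set W := U.map (N ^ k)
    have h2 := (N.comp W.subtype).finrank_range_add_finrank_ker
    rw [LinearMap.range_comp, Submodule.range_subtype] at h2
    rw [← h2]
    congr 1
    rw [LinearMap.ker_comp, ← Submodule.map_comap_subtype]
    exact (Submodule.equivMapOfInjective _ W.injective_subtype _).finrank_eq
  have hmono : ∀ (U : Submodule F (Fin n → F)), U.map N ≤ U → ∀ i, 1 ≤ i →
      2 * Module.finrank F (U.map (N ^ i)) ≤ Module.finrank F (U.map (N ^ (i - 1))) + Module.finrank F (U.map (N ^ (i + 1))) := by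
    intro U hU i hi
    obtain ⟨k, rfl⟩ : ∃ k, i = k + 1 := ⟨i - 1, by omega⟩
    have h2 := hdrop U k
    have h3 := hdrop U (k + 1)
    have hsub : U.map (N ^ (k + 1)) ≤ U.map (N ^ k) := by
      rw [pow_succ, Module.End.mul_eq_comp, Submodule.map_comp]
      exact Submodule.map_mono hU
    have h4 := Submodule.finrank_mono (inf_le_inf_right (LinearMap.ker N) hsub)
    rw [show k + 1 - 1 = k by omega]
    omega
  have hadd : ∀ k, R k = Module.finrank F ((D j).map (N ^ k)) + Module.finrank F (C.map (N ^ k)) := by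
    intro k
    show Module.finrank F ((⊤ : Submodule F (Fin n → F)).map (N ^ k)) = _
    rw [← hUC, Submodule.map_sup, ← Submodule.finrank_sup_add_finrank_inf_eq]
    have : (D j).map (N ^ k) ⊓ C.map (N ^ k) = ⊥ :=
      eq_bot_iff.2 ((inf_le_inf (hpowinv _ (hinv j) k) (hpowinv _ hCinv k)).trans hdis.le_bot)
    rw [this, finrank_bot, add_zero]
  let r : ℕ → ℕ := fun k => Module.finrank F ((D j).map (N ^ k))
  let e : ℕ → ℕ := fun i => r (i - 1) + r (i + 1) - 2 * r i
  have hec : ∀ i, 1 ≤ i → e i ≤ μ.count i := by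
    intro i hi
    have h2 := hmono C hCinv i hi
    have h3 := hmono (D j) (hinv j) i hi
    have h4 := hRc i hi
    rw [hadd (i - 1), hadd (i + 1), hadd i] at h4
    simp only [e, r]
    omega
  refine ⟨∑ i ∈ Finset.range p, Multiset.replicate (e (i + 1)) (i + 1), ?_, ?_⟩
  · refine Multiset.le_iff_count.2 fun c => ?_
    rw [Multiset.count_sum']
    by_cases hc : 1 ≤ c ∧ c ≤ p
    · rw [Finset.sum_eq_single (c - 1)]
      · rw [show c - 1 + 1 = c by omega, Multiset.count_replicate_self]
        exact hec c hc.1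
      · intro i _ hi
        rw [Multiset.count_replicate, if_neg (by omega)]
      · intro hi; rw [Finset.mem_range] at hi; omega
    · rw [Finset.sum_eq_zero]
      · exact Nat.zero_le _
      intro i hi
      rw [Finset.mem_range] at hi
      rw [Multiset.count_replicate, if_neg (by omega)]
  · set S : ℕ → ℕ := fun k => (∑ i ∈ Finset.range k, Multiset.replicate (e (i + 1)) (i + 1)).sum with hSdef
    have hS : ∀ k, S (k + 1) = S k + e (k + 1) * (k + 1) := fun k => by
      simp only [hSdef, Finset.sum_range_succ, Multiset.sum_add, Multiset.sum_replicate, smul_eq_mul]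
    have htel : ∀ k, (S k : ℤ) + (k + 1) * r k - k * r (k + 1) = r 0 := by
      intro k
      induction k with
      | zero => simp [hSdef]
      | succ k ih =>
        have h := hmono (D j) (hinv j) (k + 1) (by omega)
        have h3 : (e (k + 1) : ℤ) = r k + r (k + 1 + 1) - 2 * r (k + 1) := by
          rw [show k + 1 - 1 = k by omega] at h
          have he : e (k + 1) = r k + r (k + 1 + 1) - 2 * r (k + 1) := rfl
          rw [he]
          simp only [r] at h ⊢
          omega
        rw [hS k, Nat.cast_add, Nat.cast_mul, h3]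
        push_cast
        linear_combination ih
    have h4 := htel p
    have hz : ∀ k, p ≤ k → r k = 0 := fun k hk => by
      show Module.finrank F ((D j).map (N ^ k)) = 0
      rw [pow_eq_zero_of_le hk hNp, Submodule.map_zero, finrank_bot]
    rw [hz p le_rfl, hz (p + 1) (by omega)] at h4
    have h5 : r 0 = a := by
      show Module.finrank F ((D j).map (N ^ 0)) = a
      rw [pow_zero, Module.End.one_eq_id, Submodule.map_id, hD.finrank_eq]
    rw [h5] at h4
    show S p = a
    simpa using h4

end Cfsg.Agent.S5959
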