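import Cfsg.Statements.S5960
import Mathlib
import Cfsg.Agent.Lib.Classical.SympInvol
import Cfsg.Agent.Lib.Classical.SymplecticMatrix

set_option autoImplicit false
open scoped MatrixGroups
open Cfsg
open scoped Matrix

namespace Cfsg.Agent.S5960

/-- Involutions of PSp_n(q) and imprimitive subgroups. Here `T = PSp_n(q)`, `n = 2d ≥ 4`, `(n, q) ≠ (4, 2)`, realised through the symplectic matrices over the field `F` with `q` elements and the standard alternating form; `n = a·t` with `a` even and `t ≥ 2`, and Ω is the (nonempty) set of orthogonal decompositions of `F^n` into `t` nondegenerate subspaces of dimension `a` (unordered; counted as ordered ones divided by `t!`), whose stabilizers are the imprimitive subgroups of type Sp_a(q) ≀ S_t (maximality is not assumed); an element of `T` of prime order `r` (a symplectic matrix `x` with `x^r` scalar, `x` not scalar) fixes a point of Ω when it permutes the summands of some such decomposition. If the number of such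 decompositions is even, then every involution of `T` stabilizes one of them (the action is 2-elusive). -/
theorem result {F : Type*} [Field F] [Fintype F] {p : ℕ} [Fact p.Prime] [CharP F p] {q : ℕ} (hq : Fintype.card F = q)
    (d : ℕ) (hd : 2 ≤ d) (hT : (d, q) ≠ (2, 2))
    (a t : ℕ) (hat : 2 * d = a * t) (ha : 2 ≤ a) (hae : Even a) (ht : 2 ≤ t) (hΩ : 2 ∣ Nat.card {D : Fin t → Submodule F (Fin d ⊕ Fin d → F) // (Cfsg.Geo.IsMDecomposition a D ∧ (∀ j, ∀ u ∈ D j, u ≠ 0 → ∃ v ∈ D j, Cfsg.sympForm d F u v ≠ 0) ∧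
          (∀ j j', j ≠ j' → ∀ u ∈ D j, ∀ v ∈ D j', Cfsg.sympForm d F u v = 0))} / Nat.factorial t)
    (x : ↥(Matrix.symplecticGroup (Fin d) F))
    (hx1 : ∃ z : F, ((x ^ 2 : ↥(Matrix.symplecticGroup (Fin d) F)) : Matrix (Fin d ⊕ Fin d) (Fin d ⊕ Fin d) F) = z • (1 : Matrix (Fin d ⊕ Fin d) (Fin d ⊕ Fin d) F))
    (hx2 : ∀ z : F, (x : Matrix (Fin d ⊕ Fin d) (Fin d ⊕ Fin d) F) ≠ z • (1 : Matrix (Fin d ⊕ Fin d) (Fin d ⊕ Fin d) F)) :
    ∃ D : Fin t → Submodule F (Fin d ⊕ Fin d → F), (Cfsg.Geo.IsMDecomposition a D ∧ (∀ j, ∀ u ∈ D j, u ≠ 0 → ∃ v ∈ D j, Cfsg.sympForm d F u v ≠ 0) ∧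
          (∀ j j', j ≠ j' → ∀ u ∈ D j, ∀ v ∈ D j', Cfsg.sympForm d F u v = 0)) ∧
        ∃ σ : Equiv.Perm (Fin t), ∀ j, (D j).map (Matrix.toLin' (x : Matrix (Fin d ⊕ Fin d) (Fin d ⊕ Fin d) F)) = D (σ j) := by
  classical
  obtain ⟨z, hz⟩ := hx1
  obtain ⟨a', rfl⟩ := hae
  set B := Cfsg.Lib.Classical.sympBilin F d with hBdef
  have hB : B.IsAlt := Cfsg.Lib.Classical.sympBilin_isAlt F d
  have hBn := Cfsg.Lib.Classical.sympBilin_nondegenerate F d
  have hBapp : ∀ u v, B u v = Cfsg.sympForm d F u v := fun u v => Cfsg.Lib.Classical.sympBilin_apply F d u v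
  let M : Matrix (Fin d ⊕ Fin d) (Fin d ⊕ Fin d) F := x
  set T : (Fin d ⊕ Fin d → F) →ₗ[F] (Fin d ⊕ Fin d → F) := Matrix.toLin' M with hTdef
  have hTB : ∀ u v, B (T u) (T v) = B u v := by
    intro u v
    have h := Cfsg.Lib.Classical.mem_spGL_iff.1
      ((Cfsg.Lib.Classical.mem_symplecticGroup_iff_spGL (Cfsg.Lib.Classical.spToGL x)).1
        (by rw [Cfsg.Lib.Classical.coe_spToGL]; exact x.2)) u v
    rw [Cfsg.Lib.Classical.coe_spToGL] at h
    simpa [hTdef] using h
  have hTT : ∀ v, T (T v) = z • v := by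
    intro v
    simp only [hTdef, Matrix.toLin'_apply, Matrix.mulVec_mulVec]
    rw [show M * M = z • 1 by rw [← hz, pow_two]; rfl, Matrix.smul_mulVec, Matrix.one_mulVec]
  have hz1 : z * z = 1 := by
    let v : Fin d ⊕ Fin d → F := Pi.single (Sum.inl ⟨0, by omega⟩) 1
    let w : Fin d ⊕ Fin d → F := Pi.single (Sum.inr ⟨0, by omega⟩) 1
    have hvw : B v w ≠ 0 := by
      rw [hBapp]; simp [Cfsg.sympForm, Matrix.J, v, w]
    have h := hTB (T v) (T w)
    rw [hTB v w, hTT, hTT, map_smul, map_smul, LinearMap.smul_apply, smul_eq_mul, smul_eq_mul, ← mul_assoc] at h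
    exact (mul_eq_right₀ hvw).1 h
  have hz0 : z ≠ 0 := left_ne_zero_of_mul (hz1.trans_ne one_ne_zero)
  have hTi : Function.Injective T := fun u v h => by
    have := congrArg T h
    rw [hTT, hTT] at this
    exact smul_right_injective _ hz0 this
  have hnd : Cfsg.Lib.SympInvol.Nondeg B ⊤ := fun u _ h => hBn.1 u fun v => h v trivial
  obtain ⟨k, r, e, f, hh, hT', -, -, hspan⟩ := Cfsg.Lib.SympInvol.exists_sys B hB T hTB hTi
    (fun u v => T u ∈ Cfsg.Lib.SympInvol.pl F u v ∧ T v ∈ Cfsg.Lib.SympInvol.pl F u v) True (fun _ _ h => h)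
    (fun S hS hSn hne => by
      by_cases h2 : (2 : F) = 0
      · have hz' : z = 1 := sub_eq_zero.1 (mul_self_eq_zero.1 (show (z - 1) * (z - 1) = 0 by linear_combination hz1 + (1 - z) * h2))
        exact Cfsg.Lib.SympInvol.step_two B hB T hTB h2 (fun v => by rw [hTT, hz', one_smul]) hS hSn hne
      · by_cases hsq : ∃ c, c * c = z
        · obtain ⟨c, rfl⟩ := hsq
          obtain ⟨u, hu, v, hv, huv, hTu, hTv⟩ := Cfsg.Lib.SympInvol.step_eigen B hB T hTB (left_ne_zero_of_mul hz0) h2 hTT hS hSn hne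
          exact Or.inl ⟨u, hu, v, hv, huv, Submodule.span_mono (by simp) hTu, Submodule.span_mono (by simp) hTv⟩
        · have hzm : z = -1 := (mul_self_eq_one_iff.1 hz1).resolve_left fun h => hsq ⟨1, by rw [h, one_mul]⟩
          subst hzm
          obtain ⟨w, hw, hw0⟩ := Cfsg.Lib.SympInvol.exists_value B hB T hTB h2 hTT hS hSn hne
          obtain ⟨u, hu, v, hv, huv, hTu, hTv⟩ := Cfsg.Lib.SympInvol.step_swap B T hTT hS hw hw0
          exact Or.inl ⟨u, hu, v, hv, huv, Submodule.span_mono (by simp) hTu, Submodule.span_mono (by simp) hTv⟩)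
    ⊤ le_top hnd
  have hli := Cfsg.Lib.SympInvol.hyp_linearIndependent B hB hh
  have hc : 2 * k + Fintype.card (Fin r) = t * a' := by
    have h1 := finrank_span_eq_card hli
    rw [hspan, finrank_top, Module.finrank_pi] at h1
    simp at h1
    rw [Fintype.card_fin]
    nlinarith [h1, hat]
  obtain ⟨E, σ, hE⟩ := Cfsg.Lib.InvolBlocks.exists_layout (Fin r) hc
  let g : Fin t × (Fin a' ⊕ Fin a') → (Fin d ⊕ Fin d → F) := fun p =>
    Sum.elim (fun l => e (E.symm (p.1, l))) (fun l => f (E.symm (p.1, l))) p.2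
  let φ : Fin t × (Fin a' ⊕ Fin a') → ((Fin k × Bool) ⊕ Fin r) ⊕ ((Fin k × Bool) ⊕ Fin r) := fun p =>
    Sum.elim (fun l => Sum.inl (E.symm (p.1, l))) (fun l => Sum.inr (E.symm (p.1, l))) p.2
  have hgφ : g = Sum.elim e f ∘ φ := by
    funext p
    obtain ⟨i, l | l⟩ := p <;> rfl
  have hφ : Function.Bijective φ := by
    refine ⟨?_, ?_⟩
    · rintro ⟨i, l | l⟩ ⟨j, m | m⟩ h <;> simp [φ] at h <;> simp [h]
    · rintro (i | i)
      · exact ⟨((E i).1, Sum.inl (E i).2), by simp [φ]⟩
      · exact ⟨((E i).1, Sum.inr (E i).2), by simp [φ]⟩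
  have hgi : LinearIndependent F g := hgφ ▸ hli.comp φ hφ.1
  have hgs : Submodule.span F (Set.range g) = ⊤ := by
    rw [hgφ, hφ.2.range_comp, hspan]
  have horth : ∀ (i j : Fin t) (u v : Fin a' ⊕ Fin a'), i ≠ j → B (g (i, u)) (g (j, v)) = 0 := by
    intro i j u v hij
    have hne : ∀ l m, E.symm (i, l) ≠ E.symm (j, m) := fun l m h => hij (Prod.ext_iff.1 (E.symm.injective h)).1
    rcases u with u | u <;> rcases v with v | v
    · exact (hh _ _).1
    · exact ((hh _ _).2.2).trans (if_neg (hne u v))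
    · show B (f _) (e _) = 0
      rw [← LinearMap.IsAlt.neg hB, (hh _ _).2.2, if_neg (hne u v).symm, neg_zero]
    · exact (hh _ _).2.1
  let D : Fin t → Submodule F (Fin d ⊕ Fin d → F) := fun i => Submodule.span F (Set.range fun u => g (i, u))
  have hfr : ∀ i, Module.finrank F (D i) = a' + a' := fun i =>
    (finrank_span_eq_card (hgi.comp (fun u => (i, u)) (fun x y h => (Prod.ext_iff.1 h).2))).trans (by simp)
  have horthD : ∀ i j, i ≠ j → ∀ u ∈ D i, ∀ v ∈ D j, B u v = 0 := by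
    intro i j hij u hu v hv
    simp only [D, Submodule.mem_span_range_iff_exists_fun] at hu hv
    obtain ⟨cu, rfl⟩ := hu
    obtain ⟨cv, rfl⟩ := hv
    simp [fun l m => horth i j l m hij]
  refine ⟨D, ⟨⟨ht, by omega, hfr, ?_, ?_⟩, fun i u hu hu0 => ?_, fun i j hij u hu v hv => by rw [← hBapp]; exact horthD i j hij u hu v hv⟩, σ, fun j => ?_⟩
  · rw [iSupIndep_def]
    intro i
    have h := hgi.disjoint_span_image (s := {p | p.1 = i}) (t := {p | p.1 ≠ i})
      (Set.disjoint_left.2 fun p hp hp' => hp' hp)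
    refine h.mono (Submodule.span_le.2 ?_) (iSup₂_le fun l hl => Submodule.span_le.2 ?_)
    · rintro _ ⟨j, rfl⟩; exact Submodule.subset_span ⟨(i, j), rfl, rfl⟩
    · rintro _ ⟨j, rfl⟩; exact Submodule.subset_span ⟨(l, j), hl, rfl⟩
  · refine top_unique (hgs.ge.trans (Submodule.span_le.2 ?_))
    rintro _ ⟨⟨i, l⟩, rfl⟩
    exact Submodule.mem_iSup_of_mem i (Submodule.subset_span ⟨l, rfl⟩)
  · by_contra h
    push Not at h
    refine hu0 (hBn.1 u fun w => ?_)
    have hw : w ∈ Submodule.span F (Set.range g) := hgs ▸ Submodule.mem_top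
    induction hw using Submodule.span_induction with
    | mem y hy =>
      obtain ⟨⟨j, l⟩, rfl⟩ := hy
      have hm : g (j, l) ∈ D j := Submodule.subset_span ⟨l, rfl⟩
      rcases eq_or_ne i j with rfl | hij
      · rw [hBapp]; exact h _ hm
      · exact horthD i j hij u hu _ hm
    | zero => simp
    | add y y' _ _ hy hy' => rw [map_add, hy, hy', add_zero]
    | smul c y _ hy => rw [map_smul, hy, smul_zero]
  · refine Submodule.eq_of_le_of_finrank_eq ?_ (((Submodule.equivMapOfInjective T hTi (D j)).finrank_eq.symm.trans (hfr j)).trans (hfr (σ j)).symm)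
    rw [Submodule.map_span, Submodule.span_le]
    rintro _ ⟨_, ⟨l, rfl⟩, rfl⟩
    have key : ∀ l : Fin a', Cfsg.Lib.SympInvol.pl F (e (Cfsg.Lib.InvolBlocks.swp (E.symm (j, l)))) (f (Cfsg.Lib.InvolBlocks.swp (E.symm (j, l)))) ≤ D (σ j) := by
      intro l
      set i := E.symm (j, l) with hi
      have h1 : (E (Cfsg.Lib.InvolBlocks.swp i)).1 = σ j := by rw [hE, hi, E.apply_symm_apply]
      rw [Submodule.span_le, Set.insert_subset_iff, Set.singleton_subset_iff]
      constructor
      · refine Submodule.subset_span ⟨Sum.inl (E (Cfsg.Lib.InvolBlocks.swp i)).2, ?_⟩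
        show e (E.symm (σ j, _)) = _
        rw [← h1, Prod.mk.eta, E.symm_apply_apply]
      · refine Submodule.subset_span ⟨Sum.inr (E (Cfsg.Lib.InvolBlocks.swp i)).2, ?_⟩
        show f (E.symm (σ j, _)) = _
        rw [← h1, Prod.mk.eta, E.symm_apply_apply]
    rcases l with l | l
    · exact key l (hT' _).1
    · exact key l (hT' _).2

end Cfsg.Agent.S5960
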