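import Cfsg.Statements.S5962
import Mathlib
import Cfsg.Agent.Lib.Classical.SympInvol
import Cfsg.Agent.Lib.Classical.SymplecticMatrix

set_option autoImplicit false
open scoped MatrixGroups
open Cfsg
open scoped Matrix

namespace Cfsg.Agent.S5962

/-- Involutions of PSp_n(q), q odd, and the subgroups GL_{n/2}(q).2. Here `T = PSp_n(q)`, `n = 2d ≥ 4`, `q` odd, realised through the symplectic matrices over the field `F` with `q` elements; Ω is the set of unordered pairs `{U, W}` of complementary totally isotropic `d`-spaces (`F^n = U ⊕ W`), whose stabilizers are the subgroups of type GL_d(q).2 (maximal except in some small cases; maximality is not assumed); an element of `T` of prime order `r` (a symplectic matrix `x` with `x^r` scalar, `x` not scalar) fixes such a pair when it fixes or interchanges `U` and `W`. If the number of such pairs is even, every involution of `T` fixes one of them (the action is 2-elusive). -/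
theorem result {F : Type*} [Field F] [Fintype F] {p : ℕ} [Fact p.Prime] [CharP F p] {q : ℕ} (hq : Fintype.card F = q)
    (d : ℕ) (hd : 2 ≤ d) (hT : (d, q) ≠ (2, 2)) (hodd : Odd q)
    (hΩ : 2 ∣ Nat.card {P : Submodule F (Fin d ⊕ Fin d → F) × Submodule F (Fin d ⊕ Fin d → F) // IsCompl P.1 P.2 ∧ (∀ u ∈ P.1, ∀ v ∈ P.1, Cfsg.sympForm d F u v = 0) ∧ (∀ u ∈ P.2, ∀ v ∈ P.2, Cfsg.sympForm d F u v = 0)} / 2)
    (x : ↥(Matrix.symplecticGroup (Fin d) F))
    (hx1 : ∃ z : F, ((x ^ 2 : ↥(Matrix.symplecticGroup (Fin d) F)) : Matrix (Fin d ⊕ Fin d) (Fin d ⊕ Fin d) F) = z • (1 : Matrix (Fin d ⊕ Fin d) (Fin d ⊕ Fin d) F))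
    (hx2 : ∀ z : F, (x : Matrix (Fin d ⊕ Fin d) (Fin d ⊕ Fin d) F) ≠ z • (1 : Matrix (Fin d ⊕ Fin d) (Fin d ⊕ Fin d) F)) :
    ∃ U W : Submodule F (Fin d ⊕ Fin d → F), IsCompl U W ∧ (∀ u ∈ U, ∀ v ∈ U, Cfsg.sympForm d F u v = 0) ∧ (∀ u ∈ W, ∀ v ∈ W, Cfsg.sympForm d F u v = 0) ∧
        ((U.map (Matrix.toLin' (x : Matrix (Fin d ⊕ Fin d) (Fin d ⊕ Fin d) F)) = U ∧ W.map (Matrix.toLin' (x : Matrix (Fin d ⊕ Fin d) (Fin d ⊕ Fin d) F)) = W) ∨
         (U.map (Matrix.toLin' (x : Matrix (Fin d ⊕ Fin d) (Fin d ⊕ Fin d) F)) = W ∧ W.map (Matrix.toLin' (x : Matrix (Fin d ⊕ Fin d) (Fin d ⊕ Fin d) F)) = U)) := by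
  classical
  obtain ⟨z, hz⟩ := hx1
  set B := Cfsg.Lib.Classical.sympBilin F d with hBdef
  have hB : B.IsAlt := Cfsg.Lib.Classical.sympBilin_isAlt F d
  have hBn := Cfsg.Lib.Classical.sympBilin_nondegenerate F d
  have hBapp : ∀ u v, B u v = Cfsg.sympForm d F u v := fun u v => Cfsg.Lib.Classical.sympBilin_apply F d u v
  let M : Matrix (Fin d ⊕ Fin d) (Fin d ⊕ Fin d) F := x
  set T : (Fin d ⊕ Fin d → F) →ₗ[F] (Fin d ⊕ Fin d → F) := Matrix.toLin' M with hTdef
  have hTB : ∀ u v, B (T u) (T v) = B u v := by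
    intro u v
    have h := Cfsg.Lib.Classical.mem_spGL_iff.1
      ((Cfsg.Lib.Classical.mem_symplecticGroup_iff_spGL (Cfsg.Lib.Classical.spToGL x)).1
        (by rw [Cfsg.Lib.Classical.coe_spToGL]; exact x.2)) u v
    rw [Cfsg.Lib.Classical.coe_spToGL] at h
    simpa [hTdef] using h
  have hTT : ∀ v, T (T v) = z • v := by
    intro v
    simp only [hTdef, Matrix.toLin'_apply, Matrix.mulVec_mulVec]
    rw [show M * M = z • 1 by rw [← hz, pow_two]; rfl, Matrix.smul_mulVec, Matrix.one_mulVec]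
  have hz1 : z * z = 1 := by
    let v : Fin d ⊕ Fin d → F := Pi.single (Sum.inl ⟨0, by omega⟩) 1
    let w : Fin d ⊕ Fin d → F := Pi.single (Sum.inr ⟨0, by omega⟩) 1
    have hvw : B v w ≠ 0 := by
      rw [hBapp]; simp [Cfsg.sympForm, Matrix.J, v, w]
    have h := hTB (T v) (T w)
    rw [hTB v w, hTT, hTT, map_smul, map_smul, LinearMap.smul_apply, smul_eq_mul, smul_eq_mul, ← mul_assoc] at h
    exact (mul_eq_right₀ hvw).1 h
  have hz0 : z ≠ 0 := left_ne_zero_of_mul (hz1.trans_ne one_ne_zero)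
  have h2 : (2 : F) ≠ 0 := by
    intro h
    have hp2 : p = 2 := (Nat.prime_dvd_prime_iff_eq (Fact.out : p.Prime) Nat.prime_two).1 ((CharP.cast_eq_zero_iff F p 2).1 (by exact_mod_cast h))
    subst hp2
    obtain ⟨⟨N, hN0⟩, -, hN⟩ := FiniteField.card F 2
    rw [hq] at hN
    simp [hN, Nat.odd_iff, Nat.pow_mod, show N ≠ 0 by omega] at hodd
  have hTi : Function.Injective T := fun u v h => by
    have := congrArg T h
    rw [hTT, hTT] at this
    exact smul_right_injective _ hz0 this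
  have hnd : Cfsg.Lib.SympInvol.Nondeg B ⊤ := fun u _ h => hBn.1 u fun v => h v trivial
  -- both alternatives give the two subspaces
  obtain ⟨r, e, f, hh, hspan, hcase⟩ : ∃ (r : ℕ) (e f : (Fin 0 × Bool) ⊕ Fin r → (Fin d ⊕ Fin d → F)), Cfsg.Lib.SympInvol.Hyp B e f ∧
      Submodule.span F (Set.range (Sum.elim e f)) = ⊤ ∧
      ((∀ i, T (e i) ∈ F ∙ e i ∧ T (f i) ∈ F ∙ f i) ∨ (∀ i, T (e i) ∈ F ∙ f i ∧ T (f i) ∈ F ∙ e i)) := by
    by_cases hsq : ∃ c, c * c = z
    · obtain ⟨c, rfl⟩ := hsq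
      obtain ⟨k, r, e, f, hh, -, hP, hk, hspan⟩ := Cfsg.Lib.SympInvol.exists_sys B hB T hTB hTi
        (fun a b => T a ∈ F ∙ a ∧ T b ∈ F ∙ b) False
        (fun a b h => ⟨Submodule.span_mono (by simp) h.1, Submodule.span_mono (by simp) h.2⟩)
        (fun S hS hSn hne => Or.inl (Cfsg.Lib.SympInvol.step_eigen B hB T hTB (left_ne_zero_of_mul hz0) h2 hTT hS hSn hne))
        ⊤ le_top hnd
      obtain rfl : k = 0 := by_contra hk
      refine ⟨r, e, f, hh, hspan, Or.inl ?_⟩
      rintro (⟨i, _⟩ | j)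
      · exact i.elim0
      · exact hP j
    · have hzm : z = -1 := (mul_self_eq_one_iff.1 hz1).resolve_left fun h => hsq ⟨1, by rw [h, one_mul]⟩
      subst hzm
      obtain ⟨k, r, e, f, hh, -, hP, hk, hspan⟩ := Cfsg.Lib.SympInvol.exists_sys B hB T hTB hTi
        (fun a b => T a ∈ F ∙ b ∧ T b ∈ F ∙ a) False
        (fun a b h => ⟨Submodule.span_mono (by simp) h.1, Submodule.span_mono (by simp) h.2⟩)
        (fun S hS hSn hne => Or.inl (by
          obtain ⟨v, hv, hv0⟩ := Cfsg.Lib.SympInvol.exists_value B hB T hTB h2 hTT hS hSn hne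
          exact Cfsg.Lib.SympInvol.step_swap B T hTT hS hv hv0))
        ⊤ le_top hnd
      obtain rfl : k = 0 := by_contra hk
      refine ⟨r, e, f, hh, hspan, Or.inr ?_⟩
      rintro (⟨i, _⟩ | j)
      · exact i.elim0
      · exact hP j
  have hiso : ∀ (g : (Fin 0 × Bool) ⊕ Fin r → (Fin d ⊕ Fin d → F)), (∀ i j, B (g i) (g j) = 0) →
      ∀ u ∈ Submodule.span F (Set.range g), ∀ v ∈ Submodule.span F (Set.range g), Cfsg.sympForm d F u v = 0 := by
    intro g hg u hu v hv
    rw [← hBapp]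
    rw [Submodule.mem_span_range_iff_exists_fun] at hu hv
    obtain ⟨cu, rfl⟩ := hu
    obtain ⟨cv, rfl⟩ := hv
    simp [hg]
  have hli := Cfsg.Lib.SympInvol.hyp_linearIndependent B hB hh
  obtain ⟨hle, hlf, hdis⟩ := linearIndependent_sum.1 hli
  simp only [Sum.elim_comp_inl, Sum.elim_comp_inr] at hle hlf hdis
  have hmap : ∀ (g g' : (Fin 0 × Bool) ⊕ Fin r → (Fin d ⊕ Fin d → F)), LinearIndependent F g → LinearIndependent F g' →
      (∀ i, T (g i) ∈ F ∙ g' i) → (Submodule.span F (Set.range g)).map T = Submodule.span F (Set.range g') := by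
    intro g g' hg hg' h
    refine Submodule.eq_of_le_of_finrank_eq ?_ ?_
    · rw [Submodule.map_span, Submodule.span_le]
      rintro _ ⟨_, ⟨i, rfl⟩, rfl⟩
      exact Submodule.span_mono (Set.singleton_subset_iff.2 (Set.mem_range_self i)) (h i)
    · rw [← (Submodule.equivMapOfInjective T hTi _).finrank_eq, finrank_span_eq_card hg, finrank_span_eq_card hg']
  refine ⟨Submodule.span F (Set.range e), Submodule.span F (Set.range f), ⟨hdis, codisjoint_iff.2 ?_⟩,
    hiso e (fun i j => (hh i j).1), hiso f (fun i j => (hh i j).2.1), ?_⟩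
  · rw [← Submodule.span_union, ← Set.Sum.elim_range, hspan]
  · rcases hcase with h | h
    · exact Or.inl ⟨hmap e e hle hle fun i => (h i).1, hmap f f hlf hlf fun i => (h i).2⟩
    · exact Or.inr ⟨hmap e f hle hlf fun i => (h i).1, hmap f e hlf hle fun i => (h i).2⟩

end Cfsg.Agent.S5962
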