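import Cfsg.Statements.S5963
import Mathlib
import Cfsg.Agent.Lib.Derange.PolarPairs
import Cfsg.Agent.Lib.Derange.Lines
-- import your own Cfsg.Agent.* helpers here

set_option autoImplicit false
open scoped MatrixGroups
open Cfsg

namespace Cfsg.Agent.S5963

/-- Derangements of odd prime order of PSp_n(q), q odd, on pairs of complementary totally isotropic subspaces. Here `T = PSp_n(q)`, `n = 2d ≥ 4`, `q` odd, realised through the symplectic matrices over the field `F` with `q` elements; Ω is the set of unordered pairs `{U, W}` of complementary totally isotropic `d`-spaces (`F^n = U ⊕ W`), whose stabilizers are the subgroups of type GL_d(q).2 (maximal except in some small cases; maximality is not assumed); an element of `T` of prime order `r` (a symplectic matrix `x` with `x^r` scalar, `x` not scalar) fixes such a pair when it fixes or interchanges `U` and `W`. For every odd prime `r ≠ p` dividing the number of such pairs, some element of `T` of order `r` fixes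 no such pair (the action is never `r`-elusive for odd `r ≠ p`). -/
theorem result {F : Type*} [Field F] [Fintype F] {p : ℕ} [Fact p.Prime] [CharP F p] {q : ℕ} (hq : Fintype.card F = q)
    (d : ℕ) (hd : 2 ≤ d) (hT : (d, q) ≠ (2, 2)) (hodd : Odd q)
    (r : ℕ) [Fact r.Prime] (hr2 : r ≠ 2) (hrp : r ≠ p) (hΩ : r ∣ Nat.card {P : Submodule F (Fin d ⊕ Fin d → F) × Submodule F (Fin d ⊕ Fin d → F) // IsCompl P.1 P.2 ∧ (∀ u ∈ P.1, ∀ v ∈ P.1, Cfsg.sympForm d F u v = 0) ∧ (∀ u ∈ P.2, ∀ v ∈ P.2, Cfsg.sympForm d F u v = 0)} / 2) :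
    ∃ x : ↥(Matrix.symplecticGroup (Fin d) F),
      (∃ z : F, ((x ^ r : ↥(Matrix.symplecticGroup (Fin d) F)) : Matrix (Fin d ⊕ Fin d) (Fin d ⊕ Fin d) F) = z • (1 : Matrix (Fin d ⊕ Fin d) (Fin d ⊕ Fin d) F)) ∧
      (∀ z : F, (x : Matrix (Fin d ⊕ Fin d) (Fin d ⊕ Fin d) F) ≠ z • (1 : Matrix (Fin d ⊕ Fin d) (Fin d ⊕ Fin d) F)) ∧
      ¬ (∃ U W : Submodule F (Fin d ⊕ Fin d → F), IsCompl U W ∧ (∀ u ∈ U, ∀ v ∈ U, Cfsg.sympForm d F u v = 0) ∧ (∀ u ∈ W, ∀ v ∈ W, Cfsg.sympForm d F u v = 0) ∧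
        ((U.map (Matrix.toLin' (x : Matrix (Fin d ⊕ Fin d) (Fin d ⊕ Fin d) F)) = U ∧ W.map (Matrix.toLin' (x : Matrix (Fin d ⊕ Fin d) (Fin d ⊕ Fin d) F)) = W) ∨
         (U.map (Matrix.toLin' (x : Matrix (Fin d ⊕ Fin d) (Fin d ⊕ Fin d) F)) = W ∧ W.map (Matrix.toLin' (x : Matrix (Fin d ⊕ Fin d) (Fin d ⊕ Fin d) F)) = U))) := by
  classical
  have hr : r.Prime := Fact.out
  have hrq : ¬ r ∣ q := fun h => by
    obtain ⟨n, hpn, hn⟩ := FiniteField.card F p
    rw [← hq, hn] at h
    exact hrp ((Nat.prime_dvd_prime_iff_eq hr hpn).1 (hr.dvd_of_dvd_pow h))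
  have hq0 : (q : ZMod r) ≠ 0 := fun h => hrq ((ZMod.natCast_eq_zero_iff _ r).1 h)
  set e := orderOf (q : ZMod r) with he
  have hdvd : r ∣ Nat.card {P : Submodule F (Fin d ⊕ Fin d → F) × Submodule F (Fin d ⊕ Fin d → F) // IsCompl P.1 P.2 ∧
      (∀ u ∈ P.1, ∀ v ∈ P.1, Cfsg.sympForm d F u v = 0) ∧ (∀ u ∈ P.2, ∀ v ∈ P.2, Cfsg.sympForm d F u v = 0)} := by
    set N := Nat.card {P : Submodule F (Fin d ⊕ Fin d → F) × Submodule F (Fin d ⊕ Fin d → F) // IsCompl P.1 P.2 ∧
      (∀ u ∈ P.1, ∀ v ∈ P.1, Cfsg.sympForm d F u v = 0) ∧ (∀ u ∈ P.2, ∀ v ∈ P.2, Cfsg.sympForm d F u v = 0)}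
    have hc := Cfsg.Lib.Derange.card_polar_pairs_mul (F := F) d hq
    rcases Nat.even_or_odd N with ⟨k, hk⟩ | hNo
    · rw [show N / 2 = k by omega] at hΩ
      exact hk ▸ dvd_add hΩ hΩ
    · exfalso
      -- the number of pairs is even as exchanging the members has no fixed point
      let σ : Equiv.Perm {P : Submodule F (Fin d ⊕ Fin d → F) × Submodule F (Fin d ⊕ Fin d → F) // IsCompl P.1 P.2 ∧
          (∀ u ∈ P.1, ∀ v ∈ P.1, Cfsg.sympForm d F u v = 0) ∧ (∀ u ∈ P.2, ∀ v ∈ P.2, Cfsg.sympForm d F u v = 0)} :=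
        Function.Involutive.toPerm (fun P => ⟨P.1.swap, P.2.1.symm, P.2.2.2, P.2.2.1⟩) (fun P => Subtype.ext P.1.swap_swap)
      have hσ : σ ^ 2 ^ 1 = 1 := by
        rw [pow_one, pow_two]; exact Equiv.ext fun P => Subtype.ext P.1.swap_swap
      haveI : Fact (Nat.Prime 2) := ⟨Nat.prime_two⟩
      haveI := Fintype.ofFinite {P : Submodule F (Fin d ⊕ Fin d → F) × Submodule F (Fin d ⊕ Fin d → F) // IsCompl P.1 P.2 ∧
          (∀ u ∈ P.1, ∀ v ∈ P.1, Cfsg.sympForm d F u v = 0) ∧ (∀ u ∈ P.2, ∀ v ∈ P.2, Cfsg.sympForm d F u v = 0)}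
      obtain ⟨P, hP⟩ := Equiv.Perm.exists_fixed_point_of_prime (p := 2) (n := 1)
        (by rw [← Nat.card_eq_fintype_card]; exact fun h => (Nat.not_even_iff_odd.2 hNo) (even_iff_two_dvd.2 h)) hσ
      have h12 : P.1.2 = P.1.1 := congrArg (fun Q => Q.1.1) hP
      have hbot := P.2.1.inf_eq_bot
      have htop := P.2.1.sup_eq_top
      rw [h12, inf_idem] at hbot
      rw [h12, sup_idem, hbot] at htop
      have := congrArg (fun W : Submodule F (Fin d ⊕ Fin d → F) => Module.finrank F W) htop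
      simp at this
      omega
  obtain ⟨i, hi1, hid, hi⟩ := Cfsg.Lib.Derange.exists_dvd_of_polar_pairs d hq r hr hrq hdvd
  -- the order of `q` is even and at most `2 i`
  have hneg : (q : ZMod r) ^ i = -1 := by
    have h := (ZMod.natCast_eq_zero_iff _ r).2 hi
    push_cast at h
    exact eq_neg_of_add_eq_zero_left h
  have he2 : e ∣ 2 * i := orderOf_dvd_of_pow_eq_one (by rw [mul_comm, pow_mul, hneg]; simp)
  have hnd : ¬ e ∣ i := fun h => by
    rw [orderOf_dvd_iff_pow_eq_one.1 h, eq_neg_iff_add_eq_zero] at hneg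
    have h3 := (ZMod.natCast_eq_zero_iff 2 r).1 (by simpa [one_add_one_eq_two] using hneg)
    exact hr2 ((Nat.prime_dvd_prime_iff_eq hr Nat.prime_two).1 h3)
  obtain ⟨j, hj⟩ : 2 ∣ e := by
    by_contra hodd
    exact hnd ((Nat.Coprime.dvd_of_dvd_mul_left ((Nat.prime_two.coprime_iff_not_dvd.2 hodd).symm) he2))
  have hj0 : 1 ≤ j := by
    rcases Nat.eq_zero_or_pos j with h | h
    · rw [hj, h, mul_zero, zero_dvd_iff] at he2; omega
    · exact h
  have hji : j ≤ i := by have := Nat.le_of_dvd (by omega) he2; omega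
  obtain ⟨k, rfl⟩ : ∃ k, d = j + k := ⟨d - j, by omega⟩
  -- an element of order `r` of the small symplectic group
  have hrj : r ∣ Nat.card (Matrix.symplecticGroup (Fin j) F) := by
    rw [Cfsg.Lib.Classical.ClassicalOrders.card_sp hq j]
    refine dvd_mul_of_dvd_right (dvd_trans ?_ (Finset.dvd_prod_of_mem _ (Finset.mem_range.2 (show j - 1 < j by omega)))) _
    refine (ZMod.natCast_eq_zero_iff _ r).1 ?_
    rw [Nat.cast_sub (Nat.one_le_pow _ _ (hq ▸ Fintype.card_pos)), Nat.cast_pow, show 2 * (j - 1 + 1) = e by omega, he,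
      pow_orderOf_eq_one, Nat.cast_one, sub_self]
  haveI : Fintype ↥(Matrix.symplecticGroup (Fin j) F) := Fintype.ofFinite _
  obtain ⟨Y, hY⟩ := exists_prime_orderOf_dvd_card' r hrj
  set Ym := (Y : Matrix (Fin j ⊕ Fin j) (Fin j ⊕ Fin j) F) with hYm
  have hYr : Ym ^ r = 1 := by
    rw [hYm, ← SubmonoidClass.coe_pow, ← hY, pow_orderOf_eq_one]; rfl
  let s : Fin (j + k) ≃ Fin j ⊕ Fin k := finSumFinEquiv.symm
  let ε : Fin (j + k) ⊕ Fin (j + k) ≃ (Fin j ⊕ Fin j) ⊕ (Fin k ⊕ Fin k) :=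
    (Equiv.sumCongr s s).trans (Equiv.sumSumSumComm _ _ _ _)
  have hsplit : ∀ u v : Fin (j + k) ⊕ Fin (j + k) → F, Cfsg.sympForm (j + k) F u v =
      Cfsg.sympForm j F ((u ∘ ε.symm) ∘ Sum.inl) ((v ∘ ε.symm) ∘ Sum.inl) +
        Cfsg.sympForm k F ((u ∘ ε.symm) ∘ Sum.inr) ((v ∘ ε.symm) ∘ Sum.inr) := by
    intro u v
    simp only [Cfsg.Lib.Classical.sympForm_eq_sum]
    rw [← s.symm.sum_comp, Fintype.sum_sum_type]
    simp [ε, Equiv.sumSumSumComm]
  let M := (Matrix.fromBlocks Ym 0 0 (1 : Matrix (Fin k ⊕ Fin k) (Fin k ⊕ Fin k) F)).submatrix ε ε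
  have hMv : ∀ v, (M.mulVec v) ∘ ε.symm = Sum.elim (Ym.mulVec ((v ∘ ε.symm) ∘ Sum.inl)) ((v ∘ ε.symm) ∘ Sum.inr) := fun v => by
    rw [Matrix.submatrix_mulVec_equiv]
    funext i
    rcases i with i | i <;> simp [Matrix.fromBlocks_mulVec]
  have hMpow : ∀ n : ℕ, M ^ n = (Matrix.fromBlocks (Ym ^ n) 0 0 (1 : Matrix (Fin k ⊕ Fin k) (Fin k ⊕ Fin k) F)).submatrix ε ε := fun n => by
    induction n with
    | zero => simp [Matrix.fromBlocks_one, Matrix.submatrix_one_equiv]
    | succ n ih => rw [pow_succ, ih, Matrix.submatrix_mul_equiv, Matrix.fromBlocks_multiply]; simp [pow_succ]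
  have hMr : M ^ r = 1 := by rw [hMpow, hYr, Matrix.fromBlocks_one, Matrix.submatrix_one_equiv]
  have hYsp : ∀ u v, Cfsg.sympForm j F (Ym.mulVec u) (Ym.mulVec v) = Cfsg.sympForm j F u v := fun u v => by
    have h := Cfsg.Lib.Classical.mem_spGL_iff.1 ((Cfsg.Lib.Classical.spEquiv Y).2) u v
    rw [Cfsg.Lib.Classical.sympBilin_apply, Cfsg.Lib.Classical.sympBilin_apply, Cfsg.Lib.Classical.coe_spEquiv] at h
    exact h
  have hMsp : ∀ u v, Cfsg.sympForm (j + k) F (M.mulVec u) (M.mulVec v) = Cfsg.sympForm (j + k) F u v := fun u v => by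
    rw [hsplit, hsplit u v, hMv, hMv, Sum.elim_comp_inl, Sum.elim_comp_inl, Sum.elim_comp_inr, Sum.elim_comp_inr, hYsp]
  let g : GL (Fin (j + k) ⊕ Fin (j + k)) F := (IsUnit.of_pow_eq_one hMr hr.ne_zero).unit
  have hgmem : g ∈ Cfsg.spGL (j + k) F := Cfsg.Lib.Classical.mem_spGL_iff.2 fun u v => by
    rw [Cfsg.Lib.Classical.sympBilin_apply, Cfsg.Lib.Classical.sympBilin_apply]; exact hMsp u v
  have hYne : Ym ≠ 1 := fun h => by
    rw [show Y = 1 from Subtype.ext h, orderOf_one] at hY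
    exact hr.one_lt.ne hY
  let x : ↥(Matrix.symplecticGroup (Fin (j + k)) F) := ⟨M, (Cfsg.Lib.Classical.mem_symplecticGroup_iff_spGL g).2 hgmem⟩
  -- the fixed space has codimension `e`
  let T : (Fin (j + k) ⊕ Fin (j + k) → F) →ₗ[F] (Fin (j + k) ⊕ Fin (j + k) → F) := Matrix.toLinAlgEquiv' M
  have hTr : T ^ r = 1 := by rw [← map_pow, hMr, map_one]
  let ι₀ : (Fin k ⊕ Fin k → F) →ₗ[F] ((Fin j ⊕ Fin j) ⊕ (Fin k ⊕ Fin k) → F) :=
      { toFun := fun w => Sum.elim (fun _ => 0) w
        map_add' := fun a b => by funext i; rcases i with i | i <;> simp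
        map_smul' := fun c a => by funext i; rcases i with i | i <;> simp }
  let ι : (Fin k ⊕ Fin k → F) →ₗ[F] (Fin (j + k) ⊕ Fin (j + k) → F) := (LinearMap.funLeft F F ε).comp ι₀
  have hιinj : Function.Injective ι := fun a b h => funext fun i => by
    have := congrFun h (ε.symm (Sum.inr i))
    simpa [ι, ι₀] using this
  have hιfix : ∀ w, T (ι w) = ι w := fun w => by
    show M.mulVec (ι w) = ι w
    refine funext fun i => ?_
    obtain ⟨i', rfl⟩ := ε.symm.surjective i
    have h := congrFun (hMv (ι w)) i'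
    have e0 : ((ι w) ∘ ε.symm) ∘ Sum.inl = (0 : Fin j ⊕ Fin j → F) := by funext t; simp [ι, ι₀]
    rw [e0, Matrix.mulVec_zero] at h
    rw [Function.comp_apply] at h
    rw [h]
    rcases i' with i' | i' <;> simp [ι, ι₀]
  have hMne : M ≠ 1 := fun h => hYne (by
    refine Matrix.ext_iff_mulVec.2 fun w => ?_
    have h2 := congrArg (· ∘ Sum.inl) (hMv ((Sum.elim w (fun _ => (0 : F))) ∘ ε))
    simpa [h, Function.comp_assoc] using h2.symm)
  refine ⟨x, ⟨1, by rw [one_smul, SubmonoidClass.coe_pow]; exact hMr⟩, fun z hz => ?_, ?_⟩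
  · change M = _ at hz
    rcases Nat.eq_zero_or_pos k with hk | hk
    · -- the element has no nonzero fixed vector
      subst hk
      have h := Cfsg.Lib.Derange.orderOf_dvd_codim hq r hq0 T hTr
      have hz1 : z ^ r = 1 := by
        have h := hMr
        rw [hz, smul_pow, one_pow] at h
        simpa using congrFun (congrFun h (Sum.inl ⟨0, by omega⟩)) (Sum.inl ⟨0, by omega⟩)
      have hz2 : z * z = 1 := by
        have h := hMsp (Pi.single (Sum.inr ⟨0, by omega⟩) 1) (Pi.single (Sum.inl ⟨0, by omega⟩) 1)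
        rw [hz, Matrix.smul_mulVec, Matrix.one_mulVec, Matrix.smul_mulVec, Matrix.one_mulVec] at h
        simpa [Cfsg.Lib.Classical.sympForm_eq_sum, Pi.single_apply] using h
      have hz3 : z = 1 := by
        obtain ⟨t, ht⟩ := hr.odd_of_ne_two hr2
        rw [ht, pow_succ, pow_mul, pow_two, hz2, one_pow, one_mul] at hz1
        exact hz1
      exact hMne (by rw [hz, hz3, one_smul])
    · have h1 := hιfix (Pi.single (Sum.inl ⟨0, hk⟩) 1)
      change M.mulVec _ = _ at h1
      rw [hz, Matrix.smul_mulVec, Matrix.one_mulVec] at h1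
      have h2 := congrFun h1 (ε.symm (Sum.inr (Sum.inl ⟨0, hk⟩)))
      simp [ι, ι₀] at h2
      exact hMne (by rw [hz, h2, one_smul])
  · rintro ⟨U, W, hUW, hU, hW, h⟩
    change (U.map (Matrix.toLin' M) = U ∧ W.map (Matrix.toLin' M) = W) ∨ (U.map (Matrix.toLin' M) = W ∧ W.map (Matrix.toLin' M) = U) at h
    have hfix : U.map T = U ∧ W.map T = W := by
      rcases h with h | ⟨h1, h2⟩
      · exact h
      exfalso
      have hstep : ∀ n, U.map (T ^ (2 * n + 1)) = W := fun n => by
        induction n with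
        | zero => rw [pow_one]; exact h1
        | succ n ih =>
          rw [show 2 * (n + 1) + 1 = (2 * n + 1) + 1 + 1 by ring, pow_succ', pow_succ', Module.End.mul_eq_comp,
            Module.End.mul_eq_comp, Submodule.map_comp, Submodule.map_comp, ih]
          exact (congrArg (Submodule.map T) h2).trans h1
      obtain ⟨t, ht⟩ := hr.odd_of_ne_two hr2
      have hUW' := hstep t
      rw [← ht, hTr, Module.End.one_eq_id, Submodule.map_id] at hUW'
      have hbot := hUW.inf_eq_bot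
      have htop := hUW.sup_eq_top
      rw [← hUW', inf_idem] at hbot
      rw [← hUW', sup_idem, hbot] at htop
      have := congrArg (fun W : Submodule F (Fin (j + k) ⊕ Fin (j + k) → F) => Module.finrank F W) htop
      simp at this
      omega
    -- on one of the two subspaces the element is trivial
    set K := LinearMap.ker (T - 1) with hK
    have hKk : 2 * k ≤ Module.finrank F K := by
      have hle : LinearMap.range ι ≤ K := by
        rintro _ ⟨w, rfl⟩
        simp [hK, sub_eq_zero, hιfix w]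
      have h' := Submodule.finrank_mono hle
      rw [LinearMap.finrank_range_of_inj hιinj] at h'
      simp at h'
      omega
    have hcod : ∀ Z : Submodule F (Fin (j + k) ⊕ Fin (j + k) → F), Z.map T = Z →
        ∃ c, Module.finrank F Z = Module.finrank F (Z ⊓ K : Submodule F _) + e * c := by
      intro Z hZ
      have hmaps : ∀ z ∈ Z, T z ∈ Z := fun z hz => hZ.le ⟨z, hz, rfl⟩
      have hTZ : (T.restrict hmaps) ^ r = 1 := by
        rw [Module.End.pow_restrict r hmaps]
        exact LinearMap.ext fun z => Subtype.ext (by simp [LinearMap.restrict_apply, hTr])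
      have h := Cfsg.Lib.Derange.orderOf_dvd_codim hq r hq0 (T.restrict hmaps) hTZ
      have hker : (LinearMap.ker (T.restrict hmaps - 1)).map Z.subtype = Z ⊓ K := by
        ext z
        simp [hK, LinearMap.restrict_apply, sub_eq_zero, Subtype.ext_iff, and_comm]
      have hker' : Module.finrank F (LinearMap.ker (T.restrict hmaps - 1)) = Module.finrank F (Z ⊓ K : Submodule F _) := by
        rw [← hker]; exact (Submodule.equivMapOfInjective _ Z.injective_subtype _).finrank_eq
      obtain ⟨c, hc⟩ := h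
      have := Submodule.finrank_le (LinearMap.ker (T.restrict hmaps - 1))
      exact ⟨c, by rw [← hker', he]; omega⟩
    obtain ⟨a, ha⟩ := hcod U hfix.1
    obtain ⟨b, hb⟩ := hcod W hfix.2
    have hKUW : Module.finrank F K ≤ Module.finrank F (U ⊓ K : Submodule F _) + Module.finrank F (W ⊓ K : Submodule F _) := by
      have hle : K ≤ (U ⊓ K) ⊔ (W ⊓ K) := by
        intro v hv
        obtain ⟨u, hu, w, hw, rfl⟩ := Submodule.mem_sup.1 (hUW.sup_eq_top ▸ Submodule.mem_top : v ∈ U ⊔ W)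
        have hv' : T (u + w) = u + w := by simpa [hK, sub_eq_zero] using hv
        rw [map_add] at hv'
        have hTu : T u ∈ U := hfix.1.le ⟨u, hu, rfl⟩
        have hTw : T w ∈ W := hfix.2.le ⟨w, hw, rfl⟩
        have e1 : T u - u = w - T w := by rw [sub_eq_sub_iff_add_eq_add, hv']; exact add_comm u w
        have hz : T u - u = 0 := Submodule.disjoint_def.1 hUW.disjoint _ (U.sub_mem hTu hu) (e1 ▸ W.sub_mem hw hTw)
        refine Submodule.add_mem_sup ⟨hu, ?_⟩ ⟨hw, ?_⟩
        · simp [hK, hz]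
        · rw [hz, eq_comm, sub_eq_zero] at e1
          simp [hK, sub_eq_zero, ← e1]
      have := Submodule.finrank_add_le_finrank_add_finrank (U ⊓ K) (W ⊓ K)
      have := Submodule.finrank_mono hle
      omega
    have hsum := Submodule.finrank_add_eq_of_isCompl hUW
    simp at hsum
    have hab : a + b ≤ 1 := by
      by_contra hab
      have : e * 2 ≤ e * (a + b) := Nat.mul_le_mul_left e (by omega)
      rw [Nat.mul_add] at this
      omega
    -- a pointwise fixed member forces the other to be fixed pointwise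
    have triv : ∀ A B : Submodule F (Fin (j + k) ⊕ Fin (j + k) → F), IsCompl A B →
        (∀ u ∈ A, ∀ v ∈ A, Cfsg.sympForm (j + k) F u v = 0) → A.map T = A → B ≤ K → False := by
      intro A B hAB hA hAT hBK
      refine hMne (Matrix.ext_iff_mulVec.2 fun v => ?_)
      obtain ⟨u, hu, w, hw, rfl⟩ := Submodule.mem_sup.1 (hAB.sup_eq_top ▸ Submodule.mem_top : v ∈ A ⊔ B)
      have hTw : ∀ w ∈ B, M.mulVec w = w := fun w hw => by
        have := hBK hw
        simpa [hK, sub_eq_zero, T] using this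
      have hTu : M.mulVec u ∈ A := hAT.le ⟨u, hu, rfl⟩
      have hfu : M.mulVec u = u := by
        rw [← sub_eq_zero]
        refine (Cfsg.Lib.Classical.sympBilin_nondegenerate F (j + k)).1 _ fun y => ?_
        obtain ⟨a, ha, b, hb, rfl⟩ := Submodule.mem_sup.1 (hAB.sup_eq_top ▸ Submodule.mem_top : y ∈ A ⊔ B)
        simp only [map_add, map_sub, LinearMap.sub_apply, Cfsg.Lib.Classical.sympBilin_apply]
        rw [hA _ hTu a ha, hA _ hu a ha]
        have := hMsp u b
        rw [hTw b hb] at this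
        rw [this]; ring
      rw [Matrix.mulVec_add, hfu, hTw w hw, Matrix.one_mulVec]
    rcases Nat.eq_zero_or_pos b with hb0 | hb0
    · refine triv U W hUW hU hfix.1 ?_
      rw [hb0, mul_zero, add_zero] at hb
      rw [← Submodule.eq_of_le_of_finrank_eq inf_le_left hb.symm]
      exact inf_le_right
    · refine triv W U hUW.symm hW hfix.2 ?_
      rw [show a = 0 by omega, mul_zero, add_zero] at ha
      rw [← Submodule.eq_of_le_of_finrank_eq inf_le_left ha.symm]
      exact inf_le_right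

end Cfsg.Agent.S5963
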