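import Cfsg.Statements.S5964
import Mathlib
import Cfsg.Agent.Lib.Derange.InvolForms
import Cfsg.Agent.Lib.Derange.Nonpower
import Cfsg.Agent.Lib.Derange.Grassmann
import Cfsg.Agent.Lib.Classical.LinearOrders
-- import your own Cfsg.Agent.* helpers here

set_option autoImplicit false
open scoped MatrixGroups
open Cfsg

namespace Cfsg.Agent.S5964

open Matrix

variable {F : Type*} [Field F] {n : ℕ} (F₀ : Subfield F)

/-- The subfield subgroup in `SL`. -/
abbrev Hs (n : ℕ) : Subgroup (Matrix.SpecialLinearGroup (Fin n) F) :=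
  (Cfsg.Geo.subfieldSubgroup F₀ 1).comap (Matrix.SpecialLinearGroup.toGL : Matrix.SpecialLinearGroup (Fin n) F →* GL (Fin n) F)

lemma mem_iff (y : Matrix.SpecialLinearGroup (Fin n) F) :
    y ∈ Hs F₀ n ↔ ∃ (g : GL (Fin n) F₀) (s : Fˣ), (y : Matrix (Fin n) (Fin n) F) = (s : F) • ((g : Matrix (Fin n) (Fin n) F₀).map F₀.subtype) := by
  rw [Hs, Subgroup.mem_comap, Cfsg.Geo.subfieldSubgroup, show (MulAut.conj (1 : GL (Fin n) F)).toMonoidHom = MonoidHom.id _ by
    ext; simp, Subgroup.map_id]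
  haveI : (Cfsg.Geo.scalars (Fin n) F).Normal := ⟨fun z hz g => by
    obtain ⟨c, hc⟩ := (Cfsg.Geo.mem_scalars_iff z).1 hz
    refine (Cfsg.Geo.mem_scalars_iff _).2 ⟨c, ?_⟩
    rw [Units.val_mul, Units.val_mul, hc, Matrix.mul_smul, Matrix.mul_one, Matrix.smul_mul, ← Units.val_mul, mul_inv_cancel, Units.val_one]⟩
  rw [Subgroup.mem_sup_of_normal_right]
  constructor
  · rintro ⟨_, ⟨g, rfl⟩, z, hz, hgz⟩
    obtain ⟨c, hc⟩ := (Cfsg.Geo.mem_scalars_iff z).1 hz
    refine ⟨g, c, ?_⟩
    have h := congrArg (fun u : GL (Fin n) F => (u : Matrix (Fin n) (Fin n) F)) hgz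
    simp only [Units.val_mul, hc, Matrix.mul_smul, Matrix.mul_one] at h
    exact h.symm
  · rintro ⟨g, s, hy⟩
    refine ⟨_, ⟨g, rfl⟩, (Units.map (Matrix.scalar (Fin n) : F →+* Matrix (Fin n) (Fin n) F).toMonoidHom) s, ⟨s, rfl⟩, Units.ext ?_⟩
    show (g : Matrix (Fin n) (Fin n) F₀).map F₀.subtype * Matrix.scalar (Fin n) (s : F) = (y : Matrix (Fin n) (Fin n) F)
    rw [hy, Matrix.scalar_apply, ← Matrix.smul_one_eq_diagonal, Matrix.mul_smul, Matrix.mul_one]

/-- Scalar multiples of matrices over the subfield. -/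
lemma mem_of_eq (y : Matrix.SpecialLinearGroup (Fin n) F) (D₀ : Matrix (Fin n) (Fin n) F₀) {s : F} (hs : s ≠ 0)
    (h : (y : Matrix (Fin n) (Fin n) F) = s • D₀.map F₀.subtype) : y ∈ Hs F₀ n := by
  have hd : D₀.det ≠ 0 := fun h0 => by
    have := congrArg Matrix.det h
    rw [y.2, Matrix.det_smul, ← RingHom.mapMatrix_apply, ← RingHom.map_det, h0, map_zero, mul_zero] at this
    exact one_ne_zero this
  exact (mem_iff F₀ y).2 ⟨Matrix.GeneralLinearGroup.mkOfDetNeZero D₀ hd, Units.mk0 s hs, h⟩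

lemma odd_geom {x k : ℕ} (hx : Odd x) (hk : Odd k) : Odd (∑ i ∈ Finset.range k, x ^ i) := by
  rw [Finset.odd_sum_iff_odd_card_odd, Finset.filter_true_of_mem (fun i _ => hx.pow), Finset.card_range]
  exact hk

/-- For odd `q` and odd degree the index is odd. -/
lemma odd_index [Fintype F] {q : ℕ} (hq : Fintype.card F = q) (hqo : Odd q) (hn : 1 ≤ n) {k q₀ : ℕ} (hk : Odd k)
    (hF₀ : Nat.card ↥F₀ = q₀) (hqk : q = q₀ ^ k) : ¬ 2 ∣ (Hs F₀ n).index := by
  classical
  intro hdvd
  haveI : Fintype F₀ := Fintype.ofFinite _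
  have hq0 : Fintype.card F₀ = q₀ := by rw [← Nat.card_eq_fintype_card, hF₀]
  have hq01 : 1 < q₀ := hq0 ▸ Fintype.one_lt_card
  have hq1 : 1 < q := hq ▸ Fintype.one_lt_card
  have hq0o : Odd q₀ := by
    rw [hqk, Nat.odd_pow_iff (fun h => by subst h; simp at hk)] at hqo; exact hqo
  let φ : Matrix.SpecialLinearGroup (Fin n) F₀ →* Matrix.SpecialLinearGroup (Fin n) F := Matrix.SpecialLinearGroup.map F₀.subtype
  have hφ : Function.Injective φ := fun a b h => Subtype.ext (Matrix.map_injective F₀.subtype.injective (congrArg Subtype.val h))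
  have hle : φ.range ≤ Hs F₀ n := by
    rintro _ ⟨a, rfl⟩
    exact mem_of_eq F₀ _ (a : Matrix (Fin n) (Fin n) F₀) one_ne_zero (by rw [one_smul]; rfl)
  have h1 : (Hs F₀ n).index * Nat.card (Matrix.SpecialLinearGroup (Fin n) F₀) ∣ Nat.card (Matrix.SpecialLinearGroup (Fin n) F) := by
    rw [← (Hs F₀ n).index_mul_card, Nat.card_congr (MonoidHom.ofInjective hφ).toEquiv]
    exact Nat.mul_dvd_mul_left _ (Subgroup.card_dvd_of_le hle)
  have h2 := Nat.mul_dvd_mul_left ((Fintype.card F - 1) * (Fintype.card F₀ - 1)) ((Nat.mul_dvd_mul_right hdvd _).trans h1)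
  rw [show (Fintype.card F - 1) * (Fintype.card F₀ - 1) * (2 * Nat.card (Matrix.SpecialLinearGroup (Fin n) F₀)) =
      2 * (Fintype.card F - 1) * ((Fintype.card F₀ - 1) * Nat.card (Matrix.SpecialLinearGroup (Fin n) F₀)) by ring,
    show (Fintype.card F - 1) * (Fintype.card F₀ - 1) * Nat.card (Matrix.SpecialLinearGroup (Fin n) F) =
      (Fintype.card F₀ - 1) * ((Fintype.card F - 1) * Nat.card (Matrix.SpecialLinearGroup (Fin n) F)) by ring,
    Cfsg.Lib.Classical.LinearOrders.card_sl_mul hn, Cfsg.Lib.Classical.LinearOrders.card_sl_mul hn, hq, hq0,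
    Cfsg.Lib.Derange.prod_sub_pow n n le_rfl, Cfsg.Lib.Derange.prod_sub_pow n n le_rfl] at h2
  have hS : ∀ j, q ^ j - 1 = (∑ i ∈ Finset.range k, (q₀ ^ j) ^ i) * (q₀ ^ j - 1) := fun j => by
    rw [geom_sum_mul_of_one_le (Nat.one_le_pow _ _ (by omega)), hqk, ← pow_mul, ← pow_mul, mul_comm]
  have hS1 : q - 1 = (∑ i ∈ Finset.range k, q₀ ^ i) * (q₀ - 1) := by simpa using hS 1
  rw [Finset.prod_congr rfl (fun i _ => hS (n - i)), Finset.prod_mul_distrib, hS1] at h2
  set P := ∏ i ∈ Finset.range n, (q₀ ^ (n - i) - 1)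
  set E := ∏ i ∈ Finset.range n, ∑ j ∈ Finset.range k, (q₀ ^ (n - i)) ^ j
  set A := ∏ i ∈ Finset.range n, q ^ i
  set A₀ := ∏ i ∈ Finset.range n, q₀ ^ i
  set S := ∑ i ∈ Finset.range k, q₀ ^ i
  have hP : 0 < P := Finset.prod_pos fun i hi => Nat.sub_pos_of_lt (Nat.one_lt_pow (by rw [Finset.mem_range] at hi; omega) hq01)
  have h3 : (q₀ - 1) * P * (2 * (S * A₀)) ∣ (q₀ - 1) * P * (A * E) := by
    convert h2 using 1 <;> ring
  have h4 := dvd_of_mul_right_dvd (Nat.dvd_of_mul_dvd_mul_left (Nat.mul_pos (by omega) hP) h3)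
  rcases Nat.prime_two.dvd_mul.1 h4 with h | h
  · obtain ⟨i, -, hi⟩ := (Prime.dvd_finsetProd_iff Nat.prime_two.prime _).1 h
    exact (Nat.not_even_iff_odd.2 hqo.pow) (even_iff_two_dvd.2 hi)
  · obtain ⟨i, -, hi⟩ := (Prime.dvd_finsetProd_iff Nat.prime_two.prime _).1 h
    exact (Nat.not_even_iff_odd.2 (odd_geom hq0o.pow hk)) (even_iff_two_dvd.2 hi)

end Cfsg.Agent.S5964

namespace Cfsg.Agent.S5964

/-- Involutions of PSL_n(q) and subfield subgroups. Here `T = PSL_n(F)` for a field `F` with `q = p^f` elements (`n ≥ 2`, `(n, q) ≠ (2, 2), (2, 3)`), `F₀` is the subfield with `q₀` elements where `q = q₀^k` for a prime `k`, and `H` is the subgroup of matrices of determinant 1 lying in the subfield group of `F₀` (invertible matrices over `F₀` times scalars) — a maximal subgroup of type GL_n(q₀) (the case `n = 2`, `q₀ = 2` is excluded); Ω is the set of `T`-conjugates of `H` (cosets of `H`), so an element of `T` of prime order `r` (a matrix `x` of determinant 1 with `x^r` scalar,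 `x` not scalar) fixes a point of Ω when some conjugate of `x` by a matrix of determinant 1 lies in `H`. Suppose the index of `H` is even. Then every involution of `T` is conjugate in `T` into `H` if and only if either `q` is even, or `k = 2` and `(n)_2 ≤ (q − 1)_2`. (For `q` odd and `k` odd the index of `H` is odd, so that case does not arise.) -/
theorem result {F : Type*} [Field F] [Fintype F] {p : ℕ} [Fact p.Prime] [CharP F p] {q : ℕ} (hq : Fintype.card F = q)
    (n : ℕ) (hn : 2 ≤ n) (hT : (n, q) ≠ (2, 2) ∧ (n, q) ≠ (2, 3))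
    (F₀ : Subfield F) (k q₀ : ℕ) (hk : k.Prime) (hF₀ : Nat.card ↥F₀ = q₀) (hqk : q = q₀ ^ k) (hC5 : ¬ (n = 2 ∧ q₀ = 2)) (hΩ : 2 ∣ ((Cfsg.Geo.subfieldSubgroup F₀ 1).comap (Matrix.SpecialLinearGroup.toGL : Matrix.SpecialLinearGroup (Fin n) F →* GL (Fin n) F)).index) :
    (∀ x : Matrix.SpecialLinearGroup (Fin n) F,
      (∃ z : F, ((x ^ 2 : Matrix.SpecialLinearGroup (Fin n) F) : Matrix (Fin n) (Fin n) F) = z • (1 : Matrix (Fin n) (Fin n) F)) →
      (∀ z : F, (x : Matrix (Fin n) (Fin n) F) ≠ z • (1 : Matrix (Fin n) (Fin n) F)) →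
      ∃ P : Matrix.SpecialLinearGroup (Fin n) F, P⁻¹ * x * P ∈ ((Cfsg.Geo.subfieldSubgroup F₀ 1).comap (Matrix.SpecialLinearGroup.toGL : Matrix.SpecialLinearGroup (Fin n) F →* GL (Fin n) F))) ↔
    (Odd q → (k = 2 ∧ padicValNat 2 n ≤ padicValNat 2 (q - 1))) := by
  classical
  haveI : Fintype F₀ := Fintype.ofFinite _
  have hq1 : 1 < q := hq ▸ Fintype.one_lt_card
  -- an involution with square scalar can always be moved into the subfield group
  have hgood : ∀ x : Matrix.SpecialLinearGroup (Fin n) F, ∀ s : F, (∀ v, Matrix.toLin' (x : Matrix (Fin n) (Fin n) F) (Matrix.toLin' (x : Matrix (Fin n) (Fin n) F) v) = (s * s) • v) →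
      s ≠ 0 → (∀ z : F, (x : Matrix (Fin n) (Fin n) F) ≠ z • (1 : Matrix (Fin n) (Fin n) F)) →
      ∃ P : Matrix.SpecialLinearGroup (Fin n) F, P⁻¹ * x * P ∈ ((Cfsg.Geo.subfieldSubgroup F₀ 1).comap (Matrix.SpecialLinearGroup.toGL : Matrix.SpecialLinearGroup (Fin n) F →* GL (Fin n) F)) := by
    intro x s hTT hs hns
    set T := Matrix.toLin' (x : Matrix (Fin n) (Fin n) F)
    by_cases h2 : (2 : F) = 0
    · have hinv : ∀ v, (s⁻¹ • T) ((s⁻¹ • T) v) = (1 : F) • v := fun v => by
        simp only [LinearMap.smul_apply, map_smul, hTT, smul_smul]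
        congr 1
        field_simp
      obtain ⟨k, r, b, ε, h0, h1, hr, hε⟩ := Cfsg.Lib.Derange.exists_pair_form _ one_ne_zero hinv
      have hε1 : ∀ j, ε j = 1 := fun j => by
        have : (ε j - 1) * (ε j - 1) = 0 := by linear_combination hε j + (1 - ε j) * h2
        exact sub_eq_zero.1 (mul_self_eq_zero.1 this)
      have hn' : n = 2 * k + r := by
        have := Module.finrank_eq_card_basis b
        simpa using this
      let e : (Bool × Fin k) ⊕ Fin r ≃ Fin n := Fintype.equivFinOfCardEq (by simp; omega)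
      let sw : (Bool × Fin k) ⊕ Fin r → (Bool × Fin k) ⊕ Fin r := Sum.map (fun p => (!p.1, p.2)) id
      have hT : ∀ i, T (b i) = s • b (sw i) := fun i => by
        have : (s⁻¹ • T) (b i) = b (sw i) := by
          rcases i with ⟨_ | _, i⟩ | j
          · exact h0 i
          · exact (h1 i).trans (one_smul _ _)
          · rw [hr, hε1, one_smul]; rfl
        rw [← this, LinearMap.smul_apply, smul_smul, mul_inv_cancel₀ hs, one_smul]
      let D₀ : Matrix (Fin n) (Fin n) F₀ := Matrix.of fun i j => if i = e (sw (e.symm j)) then 1 else 0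
      obtain ⟨Φ, hΦ⟩ := Cfsg.Lib.Derange.exists_change (x : Matrix (Fin n) (Fin n) F) (b.reindex e)
      have hD : LinearMap.toMatrix (b.reindex e) (b.reindex e) T = s • D₀.map F₀.subtype := by
        ext i j
        rw [LinearMap.toMatrix_apply, Module.Basis.reindex_apply, hT, map_smul, Finsupp.smul_apply, Module.Basis.repr_reindex_apply,
          Module.Basis.repr_self, Finsupp.single_apply]
        simp only [D₀, Matrix.smul_apply, Matrix.map_apply, Matrix.of_apply, smul_eq_mul]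
        by_cases hh : i = e (sw (e.symm j))
        · simp [hh]
        · rw [if_neg hh, if_neg (fun h => hh (by rw [h, e.apply_symm_apply]))]; simp
      rw [hD] at hΦ
      have hk : 0 < k := Nat.pos_of_ne_zero fun hk => hns s (by
        subst hk
        refine Matrix.ext_iff_mulVec.2 fun v => ?_
        have hT' : T = s • LinearMap.id := b.ext fun i => by
          rw [hT, LinearMap.smul_apply, LinearMap.id_apply]
          rcases i with ⟨_, i⟩ | j
          · exact i.elim0
          · rfl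
        rw [Matrix.smul_mulVec, Matrix.one_mulVec]
        exact LinearMap.congr_fun hT' v)
      obtain ⟨P, hP⟩ := Cfsg.Lib.Derange.exists_sl x Φ _ hΦ (fun δ hδ => by
        obtain ⟨μ, hμ⟩ := FiniteField.isSquare_of_char_two (F := F) (by
          haveI : CharP F 2 := CharTwo.of_one_ne_zero_of_two_eq_zero one_ne_zero h2
          exact ringChar.eq F 2) δ
        let w : (Bool × Fin k) ⊕ Fin r → F := Sum.elim (fun q => if q.2 = ⟨0, hk⟩ then μ else 1) (fun _ => 1)
        refine ⟨Matrix.diagonal (w ∘ e.symm), ?_, ?_⟩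
        · rw [Matrix.det_diagonal, ← e.prod_comp, Fintype.prod_sum_type, Fintype.prod_prod_type]
          simp [w, hμ, Finset.prod_ite_eq', pow_two]
        · ext i j
          rw [Matrix.diagonal_mul, Matrix.mul_diagonal]
          simp only [D₀, Matrix.smul_apply, Matrix.map_apply, Matrix.of_apply, smul_eq_mul, Function.comp_apply]
          by_cases hh : i = e (sw (e.symm j))
          · have : w (e.symm i) = w (e.symm j) := by
              rw [hh, e.symm_apply_apply]
              rcases e.symm j with ⟨_ | _, a⟩ | a <;> rfl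
            rw [this]; ring
          · simp [hh])
      exact ⟨P, mem_of_eq F₀ _ D₀ hs hP⟩
    · obtain ⟨i, j, b, hp, hm⟩ := Cfsg.Lib.Derange.exists_diag_form h2 T hs hTT
      have hn' : n = i + j := by
        have := Module.finrank_eq_card_basis b
        simpa using this
      let e : Fin i ⊕ Fin j ≃ Fin n := Fintype.equivFinOfCardEq (by simp; omega)
      let σ : Fin n → F₀ := fun l => Sum.elim (fun _ => 1) (fun _ => -1) (e.symm l)
      obtain ⟨Φ, hΦ⟩ := Cfsg.Lib.Derange.exists_change (x : Matrix (Fin n) (Fin n) F) (b.reindex e)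
      have hT : ∀ l, T (b (e.symm l)) = (s * F₀.subtype (σ l)) • b (e.symm l) := fun l => by
        simp only [σ]
        rcases e.symm l with a | a
        · rw [hp]; simp
        · rw [hm]; simp
      have hD : LinearMap.toMatrix (b.reindex e) (b.reindex e) T = Matrix.diagonal fun l => s * F₀.subtype (σ l) := by
        ext l l'
        rw [LinearMap.toMatrix_apply, Module.Basis.reindex_apply, hT, map_smul, Finsupp.smul_apply, Module.Basis.repr_reindex_apply,
          Module.Basis.repr_self, Finsupp.single_apply, Matrix.diagonal_apply]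
        by_cases hh : l = l'
        · subst hh; simp
        · simp [hh, Ne.symm hh]
      rw [hD] at hΦ
      obtain ⟨P, hP⟩ := Cfsg.Lib.Derange.exists_sl x Φ _ hΦ (fun δ _ => Cfsg.Lib.Derange.diag_commutant _ (by omega) δ)
      refine ⟨P, mem_of_eq F₀ _ (Matrix.diagonal σ) hs (hP.trans ?_)⟩
      rw [Matrix.diagonal_map (map_zero _), ← Matrix.diagonal_smul]
      exact congrArg _ (funext fun l => rfl)
  have hsq : ∀ x : Matrix.SpecialLinearGroup (Fin n) F, ∀ z : F,
      ((x ^ 2 : Matrix.SpecialLinearGroup (Fin n) F) : Matrix (Fin n) (Fin n) F) = z • (1 : Matrix (Fin n) (Fin n) F) →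
      z ≠ 0 ∧ ∀ v, Matrix.toLin' (x : Matrix (Fin n) (Fin n) F) (Matrix.toLin' (x : Matrix (Fin n) (Fin n) F) v) = z • v := by
    intro x z hz
    refine ⟨?_, fun v => ?_⟩
    · rintro rfl
      haveI : Nonempty (Fin n) := ⟨⟨0, by omega⟩⟩
      have h := congrArg Matrix.det hz
      rw [(x ^ 2 : Matrix.SpecialLinearGroup (Fin n) F).2, zero_smul, Matrix.det_zero] at h
      exact one_ne_zero h
    · rw [Matrix.toLin'_apply, Matrix.toLin'_apply, Matrix.mulVec_mulVec,
        show (x : Matrix (Fin n) (Fin n) F) * (x : Matrix (Fin n) (Fin n) F) = z • 1 by rw [← hz, pow_two]; rfl,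
        Matrix.smul_mulVec, Matrix.one_mulVec]
  constructor
  · intro H hqo
    haveI := Fact.mk Nat.prime_two
    have hk2 : k = 2 := by
      rcases hk.eq_two_or_odd' with h | h
      · exact h
      · exact absurd hΩ (odd_index F₀ hq hqo (by omega) h hF₀ hqk)
    refine ⟨hk2, by_contra fun hv => ?_⟩
    subst hk2
    have hq0o : Odd q₀ := by rw [hqk, Nat.odd_pow_iff (by norm_num)] at hqo; exact hqo
    have h4 : q % 4 = 1 := by
      obtain ⟨t, ht⟩ := hq0o
      rw [hqk, ht, show (2 * t + 1) ^ 2 = 4 * (t * t + t) + 1 by ring, Nat.mul_add_mod]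
    have hd : (2 : ℕ) ∣ q - 1 := by omega
    obtain ⟨⟨m, rfl⟩, c, hc, hdet⟩ := (Cfsg.Lib.Derange.exists_nonpower_iff hq 2 n hd (by omega)).2 (fun h => hv h.1)
    obtain ⟨T, hT⟩ := Cfsg.Lib.Derange.exists_nonpower_map 2 m Nat.prime_two hc
    have hdT : (LinearMap.toMatrix' T).det = 1 := by
      rw [LinearMap.det_toMatrix', Cfsg.Lib.Derange.det_of_nonpower 2 Nat.prime_two hc T hT, Module.finrank_fin_fun]; exact hdet
    let x : Matrix.SpecialLinearGroup (Fin (2 * m)) F := ⟨LinearMap.toMatrix' T, hdT⟩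
    have hx2 : LinearMap.toMatrix' T ^ 2 = c • 1 := by
      apply Matrix.toLinAlgEquiv'.injective
      rw [map_pow, map_smul, map_one, show Matrix.toLinAlgEquiv' (LinearMap.toMatrix' T) = T from Matrix.toLin'_toMatrix' T, hT]
    obtain ⟨P, hP⟩ := H x ⟨c, by rw [Matrix.SpecialLinearGroup.coe_pow]; exact hx2⟩ (fun z hz => by
      change LinearMap.toMatrix' T = _ at hz
      rw [hz, smul_pow, one_pow] at hx2
      exact hc z (by simpa using congrFun (congrFun hx2 ⟨0, by omega⟩) ⟨0, by omega⟩))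
    obtain ⟨g, s, hg⟩ := (mem_iff F₀ _).1 hP
    -- compare the squares
    have h1 : ((P⁻¹ * x * P : Matrix.SpecialLinearGroup (Fin (2 * m)) F) : Matrix (Fin (2 * m)) (Fin (2 * m)) F) ^ 2 = c • 1 := by
      rw [← Matrix.SpecialLinearGroup.coe_pow, show (P⁻¹ * x * P) ^ 2 = P⁻¹ * x ^ 2 * P by rw [pow_two, pow_two]; group,
        Matrix.SpecialLinearGroup.coe_mul, Matrix.SpecialLinearGroup.coe_mul, Matrix.SpecialLinearGroup.coe_pow,
        show ((x : Matrix.SpecialLinearGroup (Fin (2 * m)) F) : Matrix (Fin (2 * m)) (Fin (2 * m)) F) = LinearMap.toMatrix' T from rfl, hx2,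
        Matrix.mul_smul, Matrix.mul_one, Matrix.smul_mul, ← Matrix.SpecialLinearGroup.coe_mul, inv_mul_cancel, Matrix.SpecialLinearGroup.coe_one]
    rw [hg, smul_pow, ← RingHom.mapMatrix_apply, ← map_pow] at h1
    have h2 := congrFun (congrFun h1 ⟨0, by omega⟩) ⟨0, by omega⟩
    simp only [RingHom.mapMatrix_apply, Matrix.smul_apply, Matrix.map_apply, Matrix.one_apply_eq, smul_eq_mul, mul_one] at h2
    set w := ((g : Matrix (Fin (2 * m)) (Fin (2 * m)) F₀) ^ 2) ⟨0, by omega⟩ ⟨0, by omega⟩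
    have hw0 : F₀.subtype w ≠ 0 := fun h0 => hc 0 (by rw [← h2, h0, mul_zero]; ring)
    -- elements of the subfield are squares
    obtain ⟨u, hu⟩ : IsSquare (F₀.subtype w) := by
      rw [FiniteField.isSquare_iff (fun h => (Nat.not_even_iff_odd.2 hqo)
        (Nat.even_iff.2 (hq ▸ FiniteField.even_card_of_char_two h))) hw0, hq]
      have hw : w ^ (q₀ - 1) = 1 := by
        rw [← hF₀, Nat.card_eq_fintype_card]
        exact FiniteField.pow_card_sub_one_eq_one w (fun h0 => hw0 (by rw [h0, map_zero]))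
      obtain ⟨t, ht⟩ := hq0o
      rw [← map_pow, show q / 2 = (q₀ - 1) * (t + 1) by
        rw [hqk, ht, show (2 * t + 1) ^ 2 = 2 * (2 * (t * t + t)) + 1 by ring, Nat.add_sub_cancel]
        rw [show (2 * (2 * (t * t + t)) + 1) / 2 = 2 * (t * t + t) by omega]
        ring, pow_mul, hw, one_pow, map_one]
    exact hc (s * u) (by rw [mul_pow, pow_two u, ← hu, h2])
  · intro hcond x hx hns
    obtain ⟨z, hz⟩ := hx
    obtain ⟨hz0, hTT⟩ := hsq x z hz
    by_cases hzs : ∃ s, s * s = z
    · obtain ⟨s, rfl⟩ := hzs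
      exact hgood x s hTT (left_ne_zero_of_mul hz0) hns
    · exfalso
      haveI := Fact.mk Nat.prime_two
      have hc : ∀ b, b ^ 2 ≠ z := fun b hb => hzs ⟨b, by rw [← hb, pow_two]⟩
      have hqo : Odd q := by
        by_contra he
        obtain ⟨b, hb⟩ := FiniteField.isSquare_of_char_two (F := F) (by
          by_contra h
          exact he (Nat.odd_iff.2 (hq ▸ FiniteField.odd_card_of_char_ne_two h))) z
        exact hzs ⟨b, hb.symm⟩
      obtain ⟨hk2, hv⟩ := hcond hqo
      subst hk2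
      have hT2 : (Matrix.toLin' (x : Matrix (Fin n) (Fin n) F)) ^ 2 = z • 1 := LinearMap.ext fun v => by
        rw [pow_two, Module.End.mul_apply, hTT]; rfl
      have hdvd : 2 ∣ n := by
        have := Cfsg.Lib.Derange.dvd_finrank_of_nonpower 2 Nat.prime_two hc _ hT2 ⊤ le_top
        rwa [finrank_top, Module.finrank_fin_fun] at this
      have hd := Cfsg.Lib.Derange.det_of_nonpower 2 Nat.prime_two hc _ hT2
      rw [LinearMap.det_toLin', x.2, Module.finrank_fin_fun] at hd
      refine (Cfsg.Lib.Derange.exists_nonpower_iff hq 2 n (by obtain ⟨t, ht⟩ := hqo; omega) (by omega)).1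
        ⟨hdvd, z, hc, hd.symm⟩ ⟨hv, fun _ _ => ?_⟩
      have hq0o : Odd q₀ := by rw [hqk, Nat.odd_pow_iff (by norm_num)] at hqo; exact hqo
      obtain ⟨t, ht⟩ := hq0o
      rw [hqk, ht, show (2 * t + 1) ^ 2 = 4 * (t * t + t) + 1 by ring, Nat.mul_add_mod]

end Cfsg.Agent.S5964
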