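import Cfsg.Statements.S5966
import Mathlib
import Cfsg.Agent.Lib.Classical.InvolJordan
-- import your own Cfsg.Agent.* helpers here

set_option autoImplicit false
open scoped MatrixGroups
open Cfsg
open scoped Matrix

namespace Cfsg.Agent.S5966

/-- The successor in the normal form. -/
def nxt {l a b : ℕ} : (Fin l × Fin 3) ⊕ (Fin a ⊕ (Fin a ⊕ Fin b)) → Option ((Fin l × Fin 3) ⊕ (Fin a ⊕ (Fin a ⊕ Fin b)))
  | .inl (i, k) => if k = 0 then some (.inl (i, 1)) else if k = 1 then some (.inl (i, 2)) else none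
  | .inr (.inl i) => some (.inr (.inr (.inl i)))
  | .inr (.inr _) => none

/-- Adapted bases of endomorphisms of cube zero. -/
theorem exists_normal {F V : Type*} [Field F] [AddCommGroup V] [Module F V] [FiniteDimensional F V] (N : V →ₗ[F] V)
    (hN : ∀ v, N (N (N v)) = 0) :
    ∃ (l a b : ℕ) (bs : (Fin l × Fin 3) ⊕ (Fin a ⊕ (Fin a ⊕ Fin b)) → V), LinearIndependent F bs ∧
      3 * l + (a + (a + b)) = Module.finrank F V ∧ ∀ x, N (bs x) = (nxt x).elim 0 bs := by
  classical
  set R := LinearMap.range (N ∘ₗ N)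
  set l := Module.finrank F R
  let br := Module.finBasisOfFinrankEq F R (rfl : Module.finrank F R = l)
  choose x hx using fun i => (br i).2
  have hx' : ∀ i, N (N (x i)) = (br i : V) := hx
  choose f hf using fun i => LinearMap.exists_extend (br.coord i)
  have hfr : ∀ i (r : R), f i (r : V) = br.repr r i := fun i r => LinearMap.congr_fun (hf i) r
  have hNr : ∀ i, N (br i : V) = 0 := fun i => by rw [← hx']; exact hN _
  let Φ : V →ₗ[F] (Fin l × Fin 3 → F) :=
    LinearMap.pi fun ik => (![f ik.1, (f ik.1).comp N, (f ik.1).comp (N.comp N)] : Fin 3 → V →ₗ[F] F) ik.2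
  set W := LinearMap.ker Φ
  have hWmem : ∀ v, v ∈ W ↔ ∀ i, f i v = 0 ∧ f i (N v) = 0 ∧ f i (N (N v)) = 0 := fun v => by
    refine ⟨fun h i => ⟨congrFun h (i, 0), congrFun h (i, 1), congrFun h (i, 2)⟩, fun h => funext fun ik => ?_⟩
    obtain ⟨i, k⟩ := ik
    fin_cases k
    · exact (h i).1
    · exact (h i).2.1
    · exact (h i).2.2
  have hNW : ∀ v ∈ W, N v ∈ W := fun v hv => (hWmem _).2 fun i =>
    ⟨((hWmem v).1 hv i).2.1, ((hWmem v).1 hv i).2.2, by rw [hN, map_zero]⟩
  have hW2 : ∀ v ∈ W, N (N v) = 0 := fun v hv => by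
    have h0 : (⟨N (N v), v, rfl⟩ : R) = 0 := br.ext_elem fun i => by
      rw [← hfr, map_zero, Finsupp.zero_apply]
      exact ((hWmem v).1 hv i).2.2
    exact congrArg Subtype.val h0
  set a := Module.finrank F (LinearMap.range (N.restrict hNW)) with ha
  set b := Module.finrank F W - 2 * a with hb
  obtain ⟨hle, bw, hbw1, hbw2⟩ := Cfsg.Agent.InvolJordan.exists_basis (N.restrict hNW) (fun v => Subtype.ext (hW2 v.1 v.2))
    (n := Module.finrank F W) (l := a) rfl rfl
  let u : Fin l × Fin 3 → V := fun ik => (![x ik.1, N (x ik.1), (br ik.1 : V)] : Fin 3 → V) ik.2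
  let bs : (Fin l × Fin 3) ⊕ (Fin a ⊕ (Fin a ⊕ Fin b)) → V := Sum.elim u fun j => (bw j : V)
  have hli : LinearIndependent F bs := by
    rw [Fintype.linearIndependent_iff]
    intro c hc
    rw [Fintype.sum_sum_type, Fintype.sum_prod_type] at hc
    simp only [bs, u, Sum.elim_inl, Sum.elim_inr, Fin.sum_univ_three, Matrix.cons_val_zero, Matrix.cons_val_one, Matrix.cons_val] at hc
    set w : V := ∑ j, c (Sum.inr j) • (bw j : V)
    have hw : w ∈ W := W.sum_mem fun j _ => W.smul_mem _ (bw j).2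
    have get : ∀ (d : Fin l → F) (i : Fin l), f i (∑ j, d j • (br j : V)) = d i := fun d i => by
      have : (∑ j, d j • (br j : V)) = ((∑ j, d j • br j : R) : V) := by simp
      rw [this, hfr, br.repr_sum_self]
    have h0 : ∀ i, c (Sum.inl (i, 0)) = 0 := fun i => by
      have h := congrArg (fun v => f i (N (N v))) hc
      simp only [map_add, map_sum, map_smul, map_zero, hx', hNr, hN, hW2 w hw, smul_zero, add_zero] at h
      rw [← get (fun j => c (Sum.inl (j, 0))) i]
      simpa only [map_sum, map_smul] using h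
    simp only [h0, zero_smul, zero_add] at hc
    have h1 : ∀ i, c (Sum.inl (i, 1)) = 0 := fun i => by
      have h := congrArg (fun v => f i (N v)) hc
      simp only [map_add, map_sum, map_smul, map_zero, hx', hNr, ((hWmem w).1 hw i).2.1, smul_zero, add_zero] at h
      rw [← get (fun j => c (Sum.inl (j, 1))) i]
      simpa only [map_sum, map_smul] using h
    simp only [h1, zero_smul, zero_add] at hc
    have h2 : ∀ i, c (Sum.inl (i, 2)) = 0 := fun i => by
      have h := congrArg (f i) hc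
      simp only [map_add, map_zero, ((hWmem w).1 hw i).1, add_zero] at h
      rw [← get (fun j => c (Sum.inl (j, 2))) i]
      exact h
    simp only [h2, zero_smul, Finset.sum_const_zero, zero_add] at hc
    have hw0 : ∀ j, c (Sum.inr j) = 0 := Fintype.linearIndependent_iff.1 bw.linearIndependent _ (Subtype.ext (by simpa [w] using hc))
    rintro (⟨i, k⟩ | j)
    · fin_cases k
      exacts [h0 i, h1 i, h2 i]
    · exact hw0 j
  refine ⟨l, a, b, bs, hli, ?_, ?_⟩
  · have h1 := hli.fintype_card_le_finrank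
    have h2 := LinearMap.finrank_range_add_finrank_ker Φ
    have h3 := Submodule.finrank_le (LinearMap.range Φ)
    simp at h1 h3
    change _ + Module.finrank F W = _ at h2
    omega
  · rintro (⟨i, k⟩ | j)
    · fin_cases k
      · simp [bs, u, nxt]
      · simp [bs, u, nxt, hx']
      · simp [bs, u, nxt, hNr]
    · rcases j with i | j
      · exact congrArg Subtype.val (hbw1 i)
      · exact congrArg Subtype.val (hbw2 j)

/-- The normal matrix with weights. -/
def nmat {F : Type*} [Field F] {J : Type*} [DecidableEq J] {n : ℕ} (e : J ≃ Fin n) (s : J → Option J) : Matrix (Fin n) (Fin n) F :=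
  Matrix.of fun i j => if s (e.symm j) = some (e.symm i) then 1 else 0

open Cfsg.Geo in
theorem mem_sub {F : Type*} [Field F] (F₀ : Subfield F) {n : ℕ} (g : GL (Fin n) F) (s : Fˣ) (Y : Matrix (Fin n) (Fin n) F)
    (hY : ∀ i j, Y i j ∈ F₀) (hdet : Y.det ≠ 0) (hg : (g : Matrix (Fin n) (Fin n) F) = (s : F) • Y) : g ∈ subfieldSubgroup F₀ 1 := by
  refine ⟨g, ?_, by simp⟩
  let Y₀ : Matrix (Fin n) (Fin n) F₀ := Matrix.of fun i j => ⟨Y i j, hY i j⟩
  have hm : Y₀.map F₀.subtype = Y := rfl
  have hd : Y₀.det ≠ 0 := fun h => hdet (by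
    rw [← hm, ← RingHom.mapMatrix_apply, ← RingHom.map_det, h, map_zero])
  have e : g = (Matrix.GeneralLinearGroup.map (F₀.subtype : F₀ →+* F) (Matrix.GeneralLinearGroup.mkOfDetNeZero Y₀ hd)) *
      Units.map (Matrix.scalar (Fin n) : F →+* Matrix (Fin n) (Fin n) F).toMonoidHom s := by
    refine Units.ext ?_
    show (g : Matrix (Fin n) (Fin n) F) = Y₀.map F₀.subtype * Matrix.scalar (Fin n) (s : F)
    rw [hm, hg]
    ext i j
    simp [Matrix.mul_diagonal, mul_comm]
  rw [e]
  exact Subgroup.mul_mem_sup ⟨_, rfl⟩ ⟨s, rfl⟩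

open Cfsg.Geo in
theorem of_mem_sub {F : Type*} [Field F] (F₀ : Subfield F) {n : ℕ} (g : GL (Fin n) F) (hg : g ∈ subfieldSubgroup F₀ 1) :
    ∃ (Y : GL (Fin n) F₀) (s : Fˣ), (g : Matrix (Fin n) (Fin n) F) = (s : F) • (Y : Matrix (Fin n) (Fin n) F₀).map F₀.subtype := by
  obtain ⟨h, hh, rfl⟩ := hg
  haveI : (scalars (Fin n) F).Normal := ⟨fun z hz y => by
    obtain ⟨c, hc⟩ := (mem_scalars_iff z).1 hz
    have : y * z * y⁻¹ = z := by
      rw [mul_inv_eq_iff_eq_mul]
      refine Units.ext ?_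
      rw [Units.val_mul, Units.val_mul, hc]; simp
    rwa [this]⟩
  replace hh : h ∈ ((((Matrix.GeneralLinearGroup.map (F₀.subtype : F₀ →+* F)).range ⊔ scalars (Fin n) F) : Subgroup (GL (Fin n) F)) : Set (GL (Fin n) F)) := hh
  rw [Subgroup.mul_normal] at hh
  obtain ⟨y, ⟨Y, rfl⟩, z, hz, rfl⟩ := hh
  obtain ⟨c, hc⟩ := (mem_scalars_iff z).1 hz
  refine ⟨Y, c, ?_⟩
  simp [hc]

/-- In an extension of odd degree non-squares stay non-squares; in a quadratic one all become squares. -/
theorem square_facts {F : Type*} [Field F] [Fintype F] [CharP F 3] {q q₀ k : ℕ} (hq : Fintype.card F = q) (F₀ : Subfield F)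
    (hF₀ : Nat.card F₀ = q₀) (hqk : q = q₀ ^ k) :
    (k = 2 → ∀ a : F₀, IsSquare (a : F)) ∧ (Odd k → ∀ δ : F, δ ≠ 0 → ∃ (c : F) (e : F₀), c ≠ 0 ∧ (e : F) ≠ 0 ∧ c * c * e = δ) := by
  classical
  haveI : Fintype F₀ := Fintype.ofFinite _
  rw [Nat.card_eq_fintype_card] at hF₀
  have h2 : (2 : F) ≠ 0 := fun h => by
    have := (CharP.cast_eq_zero_iff F 3 2).1 (by exact_mod_cast h)
    norm_num at this
  haveI : CharP F₀ 3 := RingHom.charP (F₀.subtype) F₀.subtype.injective 3
  have h20 : (2 : F₀) ≠ 0 := fun h => h2 (by have := congrArg (F₀.subtype) h; rwa [map_ofNat, map_zero] at this)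
  have hc : ringChar F ≠ 2 := by rw [ringChar.eq F 3]; norm_num
  have hc0 : ringChar F₀ ≠ 2 := by rw [ringChar.eq F₀ 3]; norm_num
  have hodd : q₀ % 2 = 1 := hF₀ ▸ FiniteField.odd_card_of_char_ne_two hc0
  obtain ⟨t, ht⟩ : ∃ t, q₀ = 2 * t + 1 := ⟨q₀ / 2, by omega⟩
  refine ⟨?_, ?_⟩
  · rintro rfl a
    by_cases ha : (a : F) = 0
    · rw [ha]; exact IsSquare.zero
    rw [FiniteField.isSquare_iff hc ha, hq, hqk]
    have h1 : a ^ (q₀ - 1) = 1 := by
      rw [← hF₀]; exact FiniteField.pow_card_sub_one_eq_one a (fun h => ha (by rw [h]; rfl))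
    have h1' : (a : F) ^ (q₀ - 1) = 1 := by rw [← SubmonoidClass.coe_pow, h1]; rfl
    rw [show q₀ ^ 2 / 2 = (q₀ - 1) * (t + 1) by
      rw [ht, Nat.add_sub_cancel, show (2 * t + 1) ^ 2 = 1 + 2 * (2 * t * (t + 1)) by ring, Nat.add_mul_div_left _ _ two_pos]; simp, pow_mul, h1', one_pow]
  · intro hk δ hδ
    by_cases hs : IsSquare δ
    · obtain ⟨c, rfl⟩ := hs
      exact ⟨c, 1, fun h => hδ (by simp [h]), by simp, by simp⟩
    obtain ⟨e, he⟩ := FiniteField.exists_nonsquare hc0
    have he0 : (e : F) ≠ 0 := fun h => he ⟨0, by apply Subtype.ext; simp [h]⟩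
    have hne : ¬ IsSquare (e : F) := by
      rintro ⟨s, hs'⟩
      have h1 := (FiniteField.pow_dichotomy hc0 (a := e) (fun h => he0 (by rw [h]; rfl))).resolve_left (fun h => he ((FiniteField.isSquare_iff hc0 (fun h => he0 (by rw [h]; rfl))).2 h))
      rw [hF₀, show q₀ / 2 = t by omega] at h1
      have h1' : s ^ (q₀ - 1) = -1 := by
        rw [ht, Nat.add_sub_cancel, pow_mul, pow_two, ← hs', ← SubmonoidClass.coe_pow, h1]; rfl
      have hsq : s ^ q₀ = -s := by
        rw [show q₀ = (q₀ - 1) + 1 by omega, pow_succ, h1', neg_one_mul]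
      have hiter : ∀ j : ℕ, s ^ q₀ ^ j = (-1) ^ j * s := by
        intro j
        induction j with
        | zero => simp
        | succ j ih => rw [pow_succ, pow_mul, ih, mul_pow, hsq, ← pow_mul, mul_comm j, pow_mul, (Nat.odd_iff.2 hodd).neg_one_pow, pow_succ]; ring
      have h3 := hiter k
      rw [← hqk, ← hq, FiniteField.pow_card, hk.neg_one_pow, neg_one_mul] at h3
      have : (2 : F) * s = 0 := by linear_combination h3
      rw [mul_eq_zero] at this
      exact he0 (by rw [hs', this.resolve_left h2, zero_mul])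
    have hsq2 : IsSquare (δ * (e : F)⁻¹) := by
      rw [← quadraticChar_one_iff_isSquare (mul_ne_zero hδ (inv_ne_zero he0)), map_mul, quadraticChar_neg_one_iff_not_isSquare.2 hs,
        quadraticChar_neg_one_iff_not_isSquare.2 (fun h => hne (by simpa using h.inv))]
      rfl
    obtain ⟨c, hc'⟩ := hsq2
    refine ⟨c, e, fun h => ?_, he0, by rw [← hc', inv_mul_cancel_right₀ he0]⟩
    rw [h, mul_zero] at hc'
    exact mul_ne_zero hδ (inv_ne_zero he0) hc'

set_option maxHeartbeats 1000000 in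
/-- Elements of order 3 of PSL_n(q) in characteristic 3 and subfield subgroups. Here `T = PSL_n(F)` for a field `F` with `q` elements, `q` a power of 3 (`n ≥ 2`, `(n, q) ≠ (2, 2), (2, 3)`), `F₀` is the subfield with `q₀` elements where `q = q₀^k` for a prime `k`, and `H` is the subgroup of matrices of determinant 1 lying in the subfield group of `F₀` (invertible matrices over `F₀` times scalars) — a maximal subgroup of type GL_n(q₀) (the case `n = 2`, `q₀ = 2` is excluded); Ω is the set of `T`-conjugates of `H` (cosets of `H`), so an element of `T` of prime order `r` (a matrix `x` of determinant 1 with `x^r` scalar, `x` not scalar) fixes a point of Ω when some conjugate of `x` by a matrix of determinant 1 lies in `H`. Suppose 3 divides the index of `H`. Then every element of `T` of order 3 is conjugate in `T` into `H` if and only if `n` is odd, or `n` is even and `k > 2`. -/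
theorem result {F : Type*} [Field F] [Fintype F] [CharP F 3] {q : ℕ} (hq : Fintype.card F = q)
    (n : ℕ) (hn : 2 ≤ n) (hT : (n, q) ≠ (2, 3))
    (F₀ : Subfield F) (k q₀ : ℕ) (hk : k.Prime) (hF₀ : Nat.card ↥F₀ = q₀) (hqk : q = q₀ ^ k) (hC5 : ¬ (n = 2 ∧ q₀ = 2)) (hΩ : 3 ∣ ((Cfsg.Geo.subfieldSubgroup F₀ 1).comap (Matrix.SpecialLinearGroup.toGL : Matrix.SpecialLinearGroup (Fin n) F →* GL (Fin n) F)).index) :
    (∀ x : Matrix.SpecialLinearGroup (Fin n) F,
      (∃ z : F, ((x ^ 3 : Matrix.SpecialLinearGroup (Fin n) F) : Matrix (Fin n) (Fin n) F) = z • (1 : Matrix (Fin n) (Fin n) F)) →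
      (∀ z : F, (x : Matrix (Fin n) (Fin n) F) ≠ z • (1 : Matrix (Fin n) (Fin n) F)) →
      ∃ P : Matrix.SpecialLinearGroup (Fin n) F, P⁻¹ * x * P ∈ ((Cfsg.Geo.subfieldSubgroup F₀ 1).comap (Matrix.SpecialLinearGroup.toGL : Matrix.SpecialLinearGroup (Fin n) F →* GL (Fin n) F))) ↔
    (Odd n ∨ (Even n ∧ 2 < k)) := by
  classical
  obtain ⟨hsq2, hsqodd⟩ := square_facts hq F₀ hF₀ hqk
  haveI : Fact (Nat.Prime 3) := ⟨Nat.prime_three⟩
  have h3 : (3 : F) = 0 := by exact_mod_cast CharP.cast_eq_zero F 3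
  have hcube : Function.Bijective fun a : F => a ^ 3 := by
    refine Finite.injective_iff_bijective.1 fun a b (h : a ^ 3 = b ^ 3) => ?_
    have : (a - b) ^ 3 = 0 := by rw [sub_pow_char (R := F) (p := 3), h, sub_self]
    exact sub_eq_zero.1 (eq_zero_of_pow_eq_zero this)
  constructor
  · intro hall
    rcases Nat.even_or_odd n with hev | hodd
    swap
    · exact Or.inl hodd
    refine Or.inr ⟨hev, ?_⟩
    by_contra hk2
    obtain rfl : k = 2 := le_antisymm (not_lt.1 hk2) hk.two_le
    obtain ⟨d, rfl⟩ : ∃ d, n = d + d := hev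
    obtain ⟨ν, hν⟩ := FiniteField.exists_nonsquare (F := F) (by rw [ringChar.eq F 3]; norm_num)
    have hν0 : ν ≠ 0 := fun h => hν (h ▸ IsSquare.zero)
    let e : Fin d ⊕ Fin d ≃ Fin (d + d) := finSumFinEquiv
    have hd : 0 < d := by omega
    let A : Matrix (Fin d) (Fin d) F := Matrix.diagonal fun i => if i = ⟨0, hd⟩ then ν else 1
    have hA : A.det = ν := by simp [A, Matrix.det_diagonal]
    let X : Matrix (Fin d ⊕ Fin d) (Fin d ⊕ Fin d) F := Matrix.fromBlocks 1 A 0 1
    let x : Matrix.SpecialLinearGroup (Fin (d + d)) F := ⟨Matrix.reindex e e X, by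
      rw [Matrix.det_reindex_self]; simp [X, Matrix.det_fromBlocks_zero₂₁]⟩
    have hX3 : X ^ 3 = 1 := by
      rw [pow_succ, pow_two]
      simp only [X, Matrix.fromBlocks_multiply, Matrix.one_mul, Matrix.mul_one, Matrix.mul_zero, Matrix.zero_mul, add_zero, zero_add]
      rw [show A + (A + A) = (3 : F) • A by module, h3, zero_smul, Matrix.fromBlocks_one]
    have hx3 : ((x ^ 3 : Matrix.SpecialLinearGroup (Fin (d + d)) F) : Matrix (Fin (d + d)) (Fin (d + d)) F) = 1 := by
      rw [Matrix.SpecialLinearGroup.coe_pow]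
      show (Matrix.reindexAlgEquiv F F e X) ^ 3 = 1
      rw [← map_pow, hX3, map_one]
    have hxns : ∀ z : F, (x : Matrix (Fin (d + d)) (Fin (d + d)) F) ≠ z • (1 : Matrix (Fin (d + d)) (Fin (d + d)) F) := fun z h => by
      have := congrFun (congrFun h (e (Sum.inl ⟨0, hd⟩))) (e (Sum.inr ⟨0, hd⟩))
      simp [x, X, A, hν0] at this
    obtain ⟨P, hP⟩ := hall x ⟨1, by rw [hx3, one_smul]⟩ hxns
    obtain ⟨Y, s, hY⟩ := of_mem_sub F₀ _ (Subgroup.mem_comap.1 hP)
    set Pm := (P : Matrix (Fin (d + d)) (Fin (d + d)) F)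
    have hY' : ((P⁻¹ : Matrix.SpecialLinearGroup (Fin (d + d)) F) : Matrix (Fin (d + d)) (Fin (d + d)) F) * (x : Matrix (Fin (d + d)) (Fin (d + d)) F) * Pm = (s : F) • (Y : Matrix (Fin (d + d)) (Fin (d + d)) F₀).map F₀.subtype := by
      rw [← hY]; rfl
    have hPi : ((P⁻¹ : Matrix.SpecialLinearGroup (Fin (d + d)) F) : Matrix (Fin (d + d)) (Fin (d + d)) F) * Pm = 1 := by
      rw [← Matrix.SpecialLinearGroup.coe_mul, inv_mul_cancel, Matrix.SpecialLinearGroup.coe_one]
    have hPi' : Pm * ((P⁻¹ : Matrix.SpecialLinearGroup (Fin (d + d)) F) : Matrix (Fin (d + d)) (Fin (d + d)) F) = 1 := mul_eq_one_comm.1 hPi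
    -- the scalar lies in the subfield
    have hs : (s : F) ∈ F₀ := by
      have h1 : ((P⁻¹ * x * P) ^ 3 : Matrix.SpecialLinearGroup (Fin (d + d)) F) = 1 := by
        have hx1 : x ^ 3 = 1 := Subtype.ext (by rw [hx3, Matrix.SpecialLinearGroup.coe_one])
        have : (P⁻¹ * x * P⁻¹⁻¹) ^ 3 = P⁻¹ * x ^ 3 * P⁻¹⁻¹ := conj_pow
        rw [inv_inv] at this
        rw [this, hx1, mul_one, inv_mul_cancel]
      have h2 := congrArg (fun g : Matrix.SpecialLinearGroup (Fin (d + d)) F => (g : Matrix (Fin (d + d)) (Fin (d + d)) F)) h1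
      simp only [Matrix.SpecialLinearGroup.coe_pow, Matrix.SpecialLinearGroup.coe_one, Matrix.SpecialLinearGroup.coe_mul] at h2
      rw [hY', smul_pow] at h2
      have h4 : ((Y : Matrix (Fin (d + d)) (Fin (d + d)) F₀).map F₀.subtype) ^ 3 = ((Y : Matrix (Fin (d + d)) (Fin (d + d)) F₀) ^ 3).map F₀.subtype := by
        rw [← RingHom.mapMatrix_apply, ← map_pow]; rfl
      rw [h4] at h2
      let i₀ : Fin (d + d) := ⟨0, by omega⟩
      have h5 := congrFun (congrFun h2 i₀) i₀
      simp only [Matrix.smul_apply, smul_eq_mul, Matrix.map_apply, Matrix.one_apply_eq] at h5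
      have hs3 : (s : F) ^ 3 ∈ F₀ := by
        rw [eq_inv_of_mul_eq_one_left h5]; exact F₀.inv_mem (Subtype.mem _)
      haveI : Fintype F₀ := Fintype.ofFinite _
      haveI : CharP F₀ 3 := RingHom.charP (F₀.subtype) F₀.subtype.injective 3
      obtain ⟨r, hr⟩ := (Finite.injective_iff_surjective.1 (fun a b (h : a ^ 3 = b ^ 3) => by
        have := congrArg (Subtype.val : F₀ → F) h
        simp only [SubmonoidClass.coe_pow] at this
        exact Subtype.ext (hcube.1 this))) (⟨(s : F) ^ 3, hs3⟩ : F₀)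
      have : (r : F) = s := hcube.1 (congrArg Subtype.val hr)
      exact this ▸ r.2
    let M₀ : Matrix (Fin (d + d)) (Fin (d + d)) F₀ := (⟨(s : F), hs⟩ : F₀) • (Y : Matrix (Fin (d + d)) (Fin (d + d)) F₀) - 1
    have hM₀ : M₀.map F₀.subtype = ((P⁻¹ : Matrix.SpecialLinearGroup (Fin (d + d)) F) : Matrix (Fin (d + d)) (Fin (d + d)) F) * ((x : Matrix (Fin (d + d)) (Fin (d + d)) F) - 1) * Pm := by
      rw [Matrix.mul_sub, Matrix.sub_mul, hY', Matrix.mul_one, hPi]
      ext i j
      by_cases hij : i = j <;> simp [M₀, hij]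
    let Nν := Matrix.reindex e e (Matrix.fromBlocks 0 A 0 0 : Matrix (Fin d ⊕ Fin d) (Fin d ⊕ Fin d) F)
    have hN : (x : Matrix (Fin (d + d)) (Fin (d + d)) F) - 1 = Nν := by
      show Matrix.reindexAlgEquiv F F e X - 1 = Matrix.reindexAlgEquiv F F e _
      rw [← map_one (Matrix.reindexAlgEquiv F F e), ← map_sub]
      congr 1
      ext i j; rcases i with i | i <;> rcases j with j | j <;> simp [X, Matrix.one_apply]
    rw [hN] at hM₀
    have hsq : M₀ * M₀ = 0 := by
      refine Matrix.map_injective (f := F₀.subtype) F₀.subtype.injective ?_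
      show F₀.subtype.mapMatrix (M₀ * M₀) = F₀.subtype.mapMatrix 0
      rw [map_mul, map_zero, RingHom.mapMatrix_apply, hM₀]
      set Q := ((P⁻¹ : Matrix.SpecialLinearGroup (Fin (d + d)) F) : Matrix (Fin (d + d)) (Fin (d + d)) F)
      rw [show Q * Nν * Pm * (Q * Nν * Pm) = Q * Nν * (Pm * Q) * (Nν * Pm) by simp only [Matrix.mul_assoc], hPi', Matrix.mul_one,
        show Q * Nν * (Nν * Pm) = Q * (Nν * Nν) * Pm by simp only [Matrix.mul_assoc],
        show Nν * Nν = 0 by
          show Matrix.reindexAlgEquiv F F e _ * Matrix.reindexAlgEquiv F F e _ = 0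
          rw [← map_mul, Matrix.fromBlocks_multiply]; simp, Matrix.mul_zero, Matrix.zero_mul]
    obtain ⟨l, hle, b, hb1, hb2⟩ : ∃ l, 2 * l ≤ d + d ∧ ∃ b : Module.Basis (Fin l ⊕ (Fin l ⊕ Fin (d + d - 2 * l))) F₀ (Fin (d + d) → F₀),
        (∀ i, Matrix.toLin' M₀ (b (.inl i)) = b (.inr (.inl i))) ∧ ∀ j, Matrix.toLin' M₀ (b (.inr j)) = 0 :=
      ⟨_, Cfsg.Agent.InvolJordan.exists_basis (Matrix.toLin' M₀) (fun v => by
        rw [← LinearMap.comp_apply, ← Matrix.toLin'_mul, hsq]; simp) (n := d + d) (by simp) rfl⟩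
    -- the conjugating matrix
    let v : Fin l ⊕ (Fin l ⊕ Fin (d + d - 2 * l)) → Fin (d + d) → F := fun j => Pm *ᵥ (F₀.subtype ∘ b j)
    have hv1 : ∀ i, Nν *ᵥ v (.inl i) = v (.inr (.inl i)) ∧ ∀ j, Nν *ᵥ v (.inr j) = 0 := fun i => by
      have key : ∀ j, Nν *ᵥ v j = Pm *ᵥ (F₀.subtype ∘ (Matrix.toLin' M₀ (b j))) := fun j => by
        rw [Matrix.toLin'_apply, show F₀.subtype ∘ (M₀ *ᵥ b j) = M₀.map F₀.subtype *ᵥ (F₀.subtype ∘ b j) from
          funext fun z => RingHom.map_mulVec F₀.subtype M₀ (b j) z, hM₀]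
        simp only [v, Matrix.mulVec_mulVec, ← Matrix.mul_assoc, hPi', Matrix.one_mul]
      refine ⟨by rw [key, hb1], fun j => by rw [key, hb2]; simp [Function.comp_def]; exact Matrix.mulVec_zero _⟩
    let B₀ : Matrix (Fin (d + d)) (Fin l ⊕ (Fin l ⊕ Fin (d + d - 2 * l))) F₀ := Matrix.of fun i j => b j i
    let eJ : Fin l ⊕ (Fin l ⊕ Fin (d + d - 2 * l)) ≃ Fin (d + d) := Fintype.equivFinOfCardEq (by simp; omega)
    have hBdet : (B₀.submatrix id eJ.symm).det ≠ 0 := by
      rw [← isUnit_iff_ne_zero, ← Matrix.isUnit_iff_isUnit_det, ← Matrix.linearIndependent_cols_iff_isUnit]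
      exact b.linearIndependent.comp eJ.symm eJ.symm.injective
    let C : Matrix (Fin (d + d)) (Fin (d + d)) F := Matrix.of fun i j => v (eJ.symm j) i
    have hC : C = Pm * (B₀.submatrix id eJ.symm).map F₀.subtype := by
      ext i j; rfl
    have hCdet : ∃ g : F₀, g ≠ 0 ∧ C.det = (g : F) := ⟨_, hBdet, by
      rw [hC, Matrix.det_mul, P.2, one_mul, ← RingHom.mapMatrix_apply, ← RingHom.map_det]; rfl⟩
    obtain ⟨g, hg0, hg⟩ := hCdet
    have hCu : IsUnit C := (Matrix.isUnit_iff_isUnit_det _).2 (isUnit_iff_ne_zero.2 (by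
      rw [hg]; exact fun h => hg0 (Subtype.ext h)))
    have hvli : LinearIndependent F fun j => v (eJ.symm j) := Matrix.linearIndependent_cols_iff_isUnit.2 hCu
    have hspan : ∀ y, ∃ c : Fin (d + d) → F, C *ᵥ c = y := fun y => (Matrix.mulVec_surjective_iff_isUnit.2 hCu) y
    have hld : l = d := by
      by_contra hne
      have hb0 : 0 < d + d - 2 * l := by omega
      set j₀ : Fin l ⊕ (Fin l ⊕ Fin (d + d - 2 * l)) := Sum.inr (Sum.inr ⟨0, hb0⟩)
      -- kernel inside image
      have hker : Nν *ᵥ v j₀ = 0 := by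
        rcases Nat.eq_zero_or_pos l with hl0 | hl0
        · exfalso
          obtain ⟨c, hc⟩ := hspan (Pi.single (e (Sum.inr ⟨0, hd⟩)) 1)
          have hz : Nν *ᵥ (C *ᵥ c) = 0 := by
            rw [Matrix.mulVec_mulVec, show Nν * C = 0 from Matrix.ext fun i j => by
              have : Nν *ᵥ v (eJ.symm j) = 0 := by
                rcases eJ.symm j with z | z
                · exact absurd z.2 (by omega)
                · rw [show Nν *ᵥ v (Sum.inr z) = Pm *ᵥ (F₀.subtype ∘ (Matrix.toLin' M₀ (b (Sum.inr z)))) from by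
                    rw [Matrix.toLin'_apply, show F₀.subtype ∘ (M₀ *ᵥ b (Sum.inr z)) = M₀.map F₀.subtype *ᵥ (F₀.subtype ∘ b (Sum.inr z)) from
                      funext fun w => RingHom.map_mulVec F₀.subtype M₀ (b (Sum.inr z)) w, hM₀]
                    simp only [v, Matrix.mulVec_mulVec, ← Matrix.mul_assoc, hPi', Matrix.one_mul], hb2]
                  simp [Function.comp_def]; exact Matrix.mulVec_zero _
              exact congrFun this i, Matrix.zero_mulVec]
          rw [hc, Matrix.mulVec_single_one] at hz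
          have := congrFun hz (e (Sum.inl ⟨0, hd⟩))
          simp [Nν, A, hν0] at this
        · exact (hv1 ⟨0, hl0⟩).2 _
      let w := v j₀
      have hw : ∀ i, w (e (Sum.inr i)) = 0 := fun i => by
        have := congrFun hker (e (Sum.inl i))
        simp [Nν, Matrix.mulVec, dotProduct, ← Equiv.sum_comp e, A, Matrix.diagonal_apply] at this
        by_cases hi : i = ⟨0, hd⟩
        · simp [hi, hν0] at this ⊢; exact this
        · simpa [hi] using this
      let y : Fin (d + d) → F := fun z => Sum.elim (fun _ => 0) (fun i => (if i = ⟨0, hd⟩ then ν else 1)⁻¹ * w (e (Sum.inl i))) (e.symm z)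
      have hy : Nν *ᵥ y = w := funext fun z => by
        obtain ⟨z, rfl⟩ := e.surjective z
        rcases z with i | i
        · simp [Nν, y, Matrix.mulVec, dotProduct, ← Equiv.sum_comp e, A, Matrix.diagonal_apply]
          by_cases hi : i = ⟨0, hd⟩ <;> simp [hi, hν0]
        · simp [Nν, y, Matrix.mulVec, dotProduct, ← Equiv.sum_comp e, hw]
      obtain ⟨c, hc⟩ := hspan y
      have hexp : w = ∑ i : Fin l, c (eJ (Sum.inl i)) • v (Sum.inr (Sum.inl i)) := by
        rw [← hy, ← hc, show C *ᵥ c = ∑ j, c j • v (eJ.symm j) from funext fun i => by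
          simp [C, Matrix.mulVec, dotProduct, mul_comm], Matrix.mulVec_sum, ← Equiv.sum_comp eJ, Fintype.sum_sum_type]
        simp only [Equiv.symm_apply_apply, Matrix.mulVec_smul]
        rw [Finset.sum_congr rfl fun i _ => show c (eJ (Sum.inl i)) • Nν *ᵥ v (Sum.inl i) = c (eJ (Sum.inl i)) • v (Sum.inr (Sum.inl i)) by rw [(hv1 i).1]]
        rw [add_eq_left]
        refine Finset.sum_eq_zero fun j _ => ?_
        rcases Nat.eq_zero_or_pos l with hl0 | hl0
        · rcases j with z | z
          · exact absurd z.2 (by omega)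
          · have hzz : Nν *ᵥ v (Sum.inr (Sum.inr z)) = 0 := by
              rw [show Nν *ᵥ v (Sum.inr (Sum.inr z)) = Pm *ᵥ (F₀.subtype ∘ (Matrix.toLin' M₀ (b (Sum.inr (Sum.inr z))))) from by
                rw [Matrix.toLin'_apply, show F₀.subtype ∘ (M₀ *ᵥ b (Sum.inr (Sum.inr z))) = M₀.map F₀.subtype *ᵥ (F₀.subtype ∘ b (Sum.inr (Sum.inr z))) from
                  funext fun w => RingHom.map_mulVec F₀.subtype M₀ (b (Sum.inr (Sum.inr z))) w, hM₀]
                simp only [v, Matrix.mulVec_mulVec, ← Matrix.mul_assoc, hPi', Matrix.one_mul], hb2]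
              simp [Function.comp_def]; exact Matrix.mulVec_zero _
            rw [hzz, smul_zero]
        · rw [(hv1 ⟨0, hl0⟩).2, smul_zero]
      have hv' : LinearIndependent F v := by
        have := hvli.comp eJ eJ.injective
        simpa [Function.comp_def] using this
      exact hv'.notMem_span_image (s := {j₀}ᶜ) (x := j₀) (by simp) (by
        show w ∈ _
        rw [hexp]
        exact Submodule.sum_mem _ fun i _ => Submodule.smul_mem _ _ (Submodule.subset_span ⟨Sum.inr (Sum.inl i), by simp [j₀], rfl⟩))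
    subst hld
    haveI : IsEmpty (Fin (l + l - 2 * l)) := by rw [show l + l - 2 * l = 0 by omega]; infer_instance
    let ee : Fin l ⊕ Fin l ≃ Fin l ⊕ (Fin l ⊕ Fin (l + l - 2 * l)) :=
      (Equiv.sumComm _ _).trans (Equiv.sumCongr (Equiv.refl _) (Equiv.sumEmpty _ _).symm)
    let D : Matrix (Fin l ⊕ Fin l) (Fin l ⊕ Fin l) F := Matrix.of fun z j => v (ee j) (e z)
    have hDdet : D.det = C.det ∨ D.det = -C.det := by
      let τ : Equiv.Perm (Fin l ⊕ Fin l) := (ee.trans eJ).trans e.symm
      have hD : D = (C.submatrix e e).submatrix id τ := by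
        ext z j; simp [D, C, τ]
      rw [hD, Matrix.det_permute', Matrix.det_submatrix_equiv_self]
      rcases Int.units_eq_one_or (Equiv.Perm.sign τ) with h | h <;> simp [h]
    have hDN : Matrix.fromBlocks (0 : Matrix (Fin l) (Fin l) F) A 0 0 * D = D * Matrix.fromBlocks 0 1 0 0 := by
      ext z j
      have hz : (Matrix.fromBlocks (0 : Matrix (Fin l) (Fin l) F) A 0 0 * D) z j = (Nν *ᵥ v (ee j)) (e z) := by
        simp [Nν, D, Matrix.mul_apply, Matrix.mulVec, dotProduct, ← Equiv.sum_comp e]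
      rw [hz]
      rcases j with i | i
      · rw [show ee (Sum.inl i) = Sum.inr (Sum.inl i) from rfl, (hv1 ⟨0, hd⟩).2]
        simp [Matrix.mul_apply, Matrix.fromBlocks]
      · rw [show ee (Sum.inr i) = Sum.inl i from rfl, (hv1 i).1]
        simp [Matrix.mul_apply, Matrix.fromBlocks, Matrix.one_apply, D, ee]
    rw [← Matrix.fromBlocks_toBlocks D, Matrix.fromBlocks_multiply, Matrix.fromBlocks_multiply] at hDN
    simp only [Matrix.zero_mul, Matrix.mul_zero, Matrix.mul_one, zero_add, add_zero, Matrix.fromBlocks_inj] at hDN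
    obtain ⟨h1, h2, -, h4⟩ := hDN
    have hR : D.toBlocks₂₁ = 0 := by
      have hAu : IsUnit A.det := isUnit_iff_ne_zero.2 (by rw [hA]; exact hν0)
      have := congrArg (A⁻¹ * ·) h1
      simpa [← Matrix.mul_assoc, Matrix.nonsing_inv_mul A hAu] using this
    have hDdet' : D.det = ν * (D.toBlocks₂₂.det * D.toBlocks₂₂.det) := by
      rw [← Matrix.fromBlocks_toBlocks D, hR, Matrix.det_fromBlocks_zero₂₁]
      simp only [Matrix.toBlocks_fromBlocks₂₂]
      rw [← h2, Matrix.det_mul, hA]; ring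
    obtain ⟨r, hr⟩ : IsSquare D.det := by
      rcases hDdet with h | h
      · rw [h, hg]; exact hsq2 rfl g
      · rw [h, hg]; exact hsq2 rfl (-g)
    refine hν ⟨r / D.toBlocks₂₂.det, ?_⟩
    have h22 : D.toBlocks₂₂.det ≠ 0 := fun h0 => by
      rw [h0, mul_zero, mul_zero] at hDdet'
      rcases hDdet with h | h <;> rw [hDdet', hg] at h <;> exact hg0 (Subtype.ext (by simpa using h.symm))
    field_simp
    linear_combination hr - hDdet'
  · intro hnk x hx hxns
    obtain ⟨z, hz⟩ := hx
    have hz0 : z ≠ 0 := fun h0 => by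
      have := congrArg Matrix.det hz
      haveI hne : Nonempty (Fin n) := ⟨⟨0, by omega⟩⟩
      rw [h0, zero_smul, Matrix.det_zero] at this
      simp at this
    obtain ⟨w, hw : w ^ 3 = z⟩ := hcube.2 z
    have hw0 : w ≠ 0 := fun h => hz0 (by rw [← hw, h]; simp)
    set N : Matrix (Fin n) (Fin n) F := w⁻¹ • (x : Matrix (Fin n) (Fin n) F) - 1
    have hN3 : N * N * N = 0 := by
      have e : (w⁻¹ • (x : Matrix (Fin n) (Fin n) F)) * (w⁻¹ • (x : Matrix (Fin n) (Fin n) F)) * (w⁻¹ • (x : Matrix (Fin n) (Fin n) F)) = 1 := by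
        rw [Matrix.SpecialLinearGroup.coe_pow, pow_succ, pow_two] at hz
        simp only [Matrix.smul_mul, Matrix.mul_smul, smul_smul, hz]
        rw [← hw, show w⁻¹ * (w⁻¹ * w⁻¹ * w ^ 3) = 1 by field_simp, one_smul]
      set U := w⁻¹ • (x : Matrix (Fin n) (Fin n) F)
      have : N * N * N = U * U * U - (3 : F) • (U * U) + (3 : F) • U - 1 := by
        simp only [N, Matrix.sub_mul, Matrix.mul_sub, Matrix.one_mul, Matrix.mul_one]; module
      rw [this, e, h3]; simp
    obtain ⟨l, a, b, bs, hli, hcard, hbs⟩ := exists_normal (Matrix.toLin' N) (fun v => by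
      simp only [Matrix.toLin'_apply, Matrix.mulVec_mulVec, ← Matrix.mul_assoc, hN3, Matrix.zero_mulVec])
    rw [Module.finrank_fintype_fun_eq_card, Fintype.card_fin] at hcard
    let e : (Fin l × Fin 3) ⊕ (Fin a ⊕ (Fin a ⊕ Fin b)) ≃ Fin n := Fintype.equivFinOfCardEq (by simp; omega)
    let P : Matrix (Fin n) (Fin n) F := Matrix.of fun i j => bs (e.symm j) i
    have hP : IsUnit P := Matrix.linearIndependent_cols_iff_isUnit.1 (hli.comp e.symm e.symm.injective)
    have hδ : P.det ≠ 0 := isUnit_iff_ne_zero.1 ((Matrix.isUnit_iff_isUnit_det _).1 hP)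
    have hNP : N * P = P * nmat e nxt := by
      ext i j
      have h := congrFun (hbs (e.symm j)) i
      rw [Matrix.toLin'_apply] at h
      show (N *ᵥ bs (e.symm j)) i = _
      rw [h, Matrix.mul_apply, ← Equiv.sum_comp e]
      simp only [nmat, Matrix.of_apply, Equiv.symm_apply_apply, P, mul_ite, mul_one, mul_zero]
      cases nxt (e.symm j) <;> simp
    -- a diagonal correction
    obtain ⟨D, hD0, hDdet, hDcl⟩ : ∃ D : (Fin l × Fin 3) ⊕ (Fin a ⊕ (Fin a ⊕ Fin b)) → F, (∀ y, D y ≠ 0) ∧ (∏ y, D y) = P.det⁻¹ ∧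
        ∀ y y', nxt y = some y' → (D y')⁻¹ * D y ∈ F₀ := by
      by_cases hb : 0 < b
      · refine ⟨fun y => if y = Sum.inr (Sum.inr (Sum.inr ⟨0, hb⟩)) then P.det⁻¹ else 1, fun y => by dsimp only; split_ifs <;> simp [hδ],
          by rw [Fintype.prod_ite_eq'], fun y y' h => ?_⟩
        rcases y with ⟨i, k⟩ | i | i <;> simp [nxt] at h
        · split_ifs at h <;> simp at h <;> subst h <;> simp
        · subst h; simp
      by_cases hl : 0 < l
      · obtain ⟨c, hc : c ^ 3 = P.det⁻¹⟩ := hcube.2 P.det⁻¹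
        have hc0 : c ≠ 0 := fun h => inv_ne_zero hδ (by rw [← hc, h]; simp)
        refine ⟨Sum.elim (fun ik => if ik.1 = ⟨0, hl⟩ then c else 1) (fun _ => 1), fun y => by
          rcases y with y | y <;> simp only [Sum.elim_inl, Sum.elim_inr] <;> (try split_ifs) <;> simp [hc0], ?_, fun y y' h => ?_⟩
        · rw [Fintype.prod_sum_type, Fintype.prod_prod_type]
          simp only [Sum.elim_inl, Sum.elim_inr, Fin.prod_univ_three, Finset.prod_const_one, mul_one, Finset.prod_mul_distrib, Fintype.prod_ite_eq']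
          rw [← hc]; ring
        · rcases y with ⟨i, k⟩ | i | i <;> simp [nxt] at h
          · split_ifs at h <;> simp at h <;> subst h <;> simp <;> split_ifs <;> simp [hc0]
          · subst h; simp
      · obtain rfl : b = 0 := by omega
        obtain rfl : l = 0 := by omega
        have ha : 0 < a := by omega
        have hev : Even n := ⟨a, by omega⟩
        have hk3 : Odd k := by
          rcases hnk with h | ⟨-, h⟩
          · exact absurd h (Nat.not_odd_iff_even.2 hev)
          · exact hk.odd_of_ne_two (by omega)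
        obtain ⟨c, e', hc0, he0, hce⟩ := hsqodd hk3 P.det⁻¹ (inv_ne_zero hδ)
        refine ⟨Sum.elim (fun _ => 1) (Sum.elim (fun i => if i = ⟨0, ha⟩ then c * (e' : F) else 1) (Sum.elim (fun i => if i = ⟨0, ha⟩ then c else 1) fun _ => 1)),
          fun y => by rcases y with y | y | y | y <;> simp only [Sum.elim_inl, Sum.elim_inr] <;> (try split_ifs) <;> simp [hc0, he0], ?_, fun y y' h => ?_⟩
        · simp [Fintype.prod_sum_type, ← hce]; ring
        · rcases y with ⟨i, k⟩ | i | i <;> simp [nxt] at h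
          · exact i.elim0
          · subst h
            simp only [Sum.elim_inl, Sum.elim_inr]
            split_ifs
            · rw [← mul_assoc, inv_mul_cancel₀ hc0, one_mul]; exact e'.2
            · simp
    let Dm : Matrix (Fin n) (Fin n) F := Matrix.diagonal fun i => D (e.symm i)
    have hDmdet : Dm.det = P.det⁻¹ := by rw [Matrix.det_diagonal, ← hDdet, ← Equiv.prod_comp e]; simp
    let Q : Matrix.SpecialLinearGroup (Fin n) F := ⟨P * Dm, by rw [Matrix.det_mul, hDmdet, mul_inv_cancel₀ hδ]⟩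
    refine ⟨Q, Subgroup.mem_comap.2 ?_⟩
    let M' : Matrix (Fin n) (Fin n) F := Matrix.of fun i j => if nxt (e.symm j) = some (e.symm i) then (D (e.symm i))⁻¹ * D (e.symm j) else 0
    have hDM : nmat e nxt * Dm = Dm * M' := by
      ext i j
      simp only [Dm, Matrix.mul_diagonal, Matrix.diagonal_mul, nmat, M', Matrix.of_apply]
      split_ifs
      · rw [one_mul, ← mul_assoc, mul_inv_cancel₀ (hD0 _), one_mul]
      · simp
    have key : ((Q⁻¹ * x * Q : Matrix.SpecialLinearGroup (Fin n) F) : Matrix (Fin n) (Fin n) F) = w • (1 + M') := by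
      have hQ : (x : Matrix (Fin n) (Fin n) F) * (P * Dm) = (P * Dm) * (w • (1 + M')) := by
        have hxN : (x : Matrix (Fin n) (Fin n) F) = w • (1 + N) := by
          simp [N, smul_smul, mul_inv_cancel₀ hw0]
        rw [hxN, Matrix.smul_mul, Matrix.mul_smul, Matrix.add_mul, Matrix.one_mul, Matrix.mul_add, Matrix.mul_one, ← Matrix.mul_assoc N P Dm,
          hNP, Matrix.mul_assoc P, hDM, ← Matrix.mul_assoc]
      rw [Matrix.SpecialLinearGroup.coe_mul, Matrix.SpecialLinearGroup.coe_mul, Matrix.mul_assoc]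
      show _ * ((x : Matrix (Fin n) (Fin n) F) * (P * Dm)) = _
      rw [hQ, ← Matrix.mul_assoc, show ((Q⁻¹ : Matrix.SpecialLinearGroup (Fin n) F) : Matrix (Fin n) (Fin n) F) * (P * Dm) = 1 by
        show _ * (Q : Matrix (Fin n) (Fin n) F) = 1
        rw [← Matrix.SpecialLinearGroup.coe_mul, inv_mul_cancel, Matrix.SpecialLinearGroup.coe_one], Matrix.one_mul]
    refine mem_sub F₀ _ (Units.mk0 w hw0) (1 + M') (fun i j => F₀.add_mem ?_ ?_) ?_ key
    · rw [Matrix.one_apply]; split_ifs
      · exact F₀.one_mem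
      · exact F₀.zero_mem
    · simp only [M', Matrix.of_apply]
      split_ifs with h
      · exact hDcl _ _ h
      · exact F₀.zero_mem
    · intro h0
      have := congrArg Matrix.det key
      rw [(Q⁻¹ * x * Q).2, Matrix.det_smul, h0, mul_zero] at this
      exact one_ne_zero this

end Cfsg.Agent.S5966
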