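import Cfsg.Statements.S5968
import Mathlib
import Cfsg.Agent.Lib.Derange.Cyclo
import Cfsg.Agent.Lib.Derange.SympIndex
-- import your own Cfsg.Agent.* helpers here

set_option autoImplicit false
open scoped MatrixGroups
open Cfsg

namespace Cfsg.Agent.S5968

open Matrix Cfsg.Lib.Classical

variable {F : Type*} [Field F] {n : ℕ}

/-- A conjugate in the similarity group gives an invariant-up-to-scalar form. -/
lemma exists_form {f : (Fin n → F) → (Fin n → F) → F} (hf : Cfsg.Geo.IsSymplecticForm f)
    (x P : Matrix.SpecialLinearGroup (Fin n) F)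
    (h : P⁻¹ * x * P ∈ ((Cfsg.Geo.similarityGroup f).comap (Matrix.SpecialLinearGroup.toGL : Matrix.SpecialLinearGroup (Fin n) F →* GL (Fin n) F))) :
    ∃ (B : LinearMap.BilinForm F (Fin n → F)) (c : F), B.IsAlt ∧ c ≠ 0 ∧ (∀ v, v ≠ 0 → ∃ w, B v w ≠ 0) ∧
      ∀ u v, B ((x : Matrix _ _ F) *ᵥ u) ((x : Matrix _ _ F) *ᵥ v) = c * B u v := by
  obtain ⟨c, hc⟩ := h
  let L : (Fin n → F) →ₗ[F] (Fin n → F) := Matrix.mulVecLin ((P⁻¹ : Matrix.SpecialLinearGroup (Fin n) F) : Matrix _ _ F)
  refine ⟨(biForm hf.bilinear).compl₁₂ L L, (c : F), fun v => hf.alternating _, c.ne_zero, fun v hv => ?_, fun u v => ?_⟩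
  · have hinv : ∀ w, (P : Matrix _ _ F) *ᵥ L w = w := fun w => by
      simp only [L, Matrix.mulVecLin_apply, Matrix.mulVec_mulVec, ← Matrix.SpecialLinearGroup.coe_mul]
      simp
    have hinv' : ∀ w, L ((P : Matrix _ _ F) *ᵥ w) = w := fun w => by
      simp only [L, Matrix.mulVecLin_apply, Matrix.mulVec_mulVec, ← Matrix.SpecialLinearGroup.coe_mul]
      simp
    have hLv : L v ≠ 0 := fun h => hv (by rw [← hinv v, h, Matrix.mulVec_zero])
    obtain ⟨w, hw⟩ := (hf.nondegenerate _ hLv).2
    refine ⟨(P : Matrix _ _ F) *ᵥ w, ?_⟩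
    rw [LinearMap.compl₁₂_apply, biForm_apply, hinv']
    exact hw
  · have key : ∀ w, L ((x : Matrix _ _ F) *ᵥ w) = ((P⁻¹ * x * P : Matrix.SpecialLinearGroup (Fin n) F) : Matrix _ _ F) *ᵥ L w :=
      fun w => by
      simp only [L, Matrix.mulVecLin_apply, Matrix.mulVec_mulVec, ← Matrix.SpecialLinearGroup.coe_mul]
      rw [mul_assoc (P⁻¹ * x) P, mul_inv_cancel, mul_one]
    simp only [LinearMap.compl₁₂_apply, biForm_apply, key]
    exact hc (L u) (L v)

/-- For a diagonal similitude the eigenvalues `α`, `c / α` have equal multiplicity. -/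
lemma card_le_partner (B : LinearMap.BilinForm F (Fin n → F)) {c : F} (a : Fin n → F)
    (hB : ∀ v, v ≠ 0 → ∃ w, B v w ≠ 0)
    (h : ∀ i j, B (Pi.single i 1) (Pi.single j 1) * (a i * a j - c) = 0) (α : F) [DecidableEq F] :
    (Finset.univ.filter fun i => a i = α).card ≤ (Finset.univ.filter fun i => α * a i = c).card := by
  classical
  by_contra hlt
  push Not at hlt
  let w : (Finset.univ.filter fun i => a i = α) → (Finset.univ.filter fun i => α * a i = c) → F :=
    fun i j => B (Pi.single i.1 1) (Pi.single j.1 1)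
  have hnot : ¬ LinearIndependent F w := fun hli => by
    have := hli.fintype_card_le_finrank
    simp [Module.finrank_pi, Fintype.card_subtype] at this
    omega
  obtain ⟨g, hg, i₀, hi₀⟩ := Fintype.not_linearIndependent_iff.1 hnot
  let v : Fin n → F := ∑ i, g i • Pi.single (i : Fin n) 1
  have hv : v ≠ 0 := fun e => hi₀ (by
    have := congrFun e (i₀ : Fin n)
    simpa [v, Finset.sum_apply, Pi.single_apply, Subtype.val_inj] using this)
  obtain ⟨u, hu⟩ := hB v hv
  apply hu
  rw [pi_eq_sum_univ' u, map_sum]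
  refine Finset.sum_eq_zero fun j _ => ?_
  rw [map_smul]
  refine mul_eq_zero_of_right (u j) ?_
  simp only [v, map_sum, map_smul, LinearMap.sum_apply, LinearMap.smul_apply, smul_eq_mul]
  by_cases hj : α * a j = c
  · have := congrFun hg ⟨j, by simp [hj]⟩
    simpa [w, Finset.sum_apply] using this
  · refine Finset.sum_eq_zero fun i _ => mul_eq_zero_of_right _ ?_
    have hi : a i = α := (Finset.mem_filter.1 i.2).2
    exact (mul_eq_zero.1 (h i j)).resolve_right (by rw [hi]; exact sub_ne_zero.2 hj)

end Cfsg.Agent.S5968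

namespace Cfsg.Agent.S5968

/-- Derangements of odd prime order of PSL_n(q) on the cosets of a symplectic-type subgroup. Here `T = PSL_n(F)` for a field `F` with `q` elements, `n ≥ 4` even, `f` is a nondegenerate alternating form on `F^n`, and `H` is the subgroup of matrices of determinant 1 preserving `f` up to a scalar — a maximal subgroup of type Sp_n(q); Ω is the set of `T`-conjugates of `H` (cosets of `H`), so an element of `T` of prime order `r` (a matrix `x` of determinant 1 with `x^r` scalar, `x` not scalar) fixes a point of Ω when some conjugate of `x` by a matrix of determinant 1 preserves `f` up to a scalar. For every odd prime `r` dividing the index of `H`, with `(n, r) ≠ (6, 3)`, there is an element of `T` of order `r` with no conjugate in `H`. (For `n = 6`, `r = 3` this can fail: when `(q − 1)_3 = 3` every element of order 3 is conjugate into `H`.) -/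
theorem result {F : Type*} [Field F] [Fintype F] {p : ℕ} [Fact p.Prime] [CharP F p] {q : ℕ} (hq : Fintype.card F = q)
    (n : ℕ) (hn : 4 ≤ n) (he : Even n) (f : (Fin n → F) → (Fin n → F) → F) (hf : Cfsg.Geo.IsSymplecticForm f)
    (r : ℕ) [Fact r.Prime] (hr2 : r ≠ 2) (hgap : ¬ (n = 6 ∧ r = 3)) (hΩ : r ∣ ((Cfsg.Geo.similarityGroup f).comap (Matrix.SpecialLinearGroup.toGL : Matrix.SpecialLinearGroup (Fin n) F →* GL (Fin n) F)).index) :
    ∃ x : Matrix.SpecialLinearGroup (Fin n) F,
      (∃ z : F, ((x ^ r : Matrix.SpecialLinearGroup (Fin n) F) : Matrix (Fin n) (Fin n) F) = z • (1 : Matrix (Fin n) (Fin n) F)) ∧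
      (∀ z : F, (x : Matrix (Fin n) (Fin n) F) ≠ z • (1 : Matrix (Fin n) (Fin n) F)) ∧
      ∀ P : Matrix.SpecialLinearGroup (Fin n) F, P⁻¹ * x * P ∉ ((Cfsg.Geo.similarityGroup f).comap (Matrix.SpecialLinearGroup.toGL : Matrix.SpecialLinearGroup (Fin n) F →* GL (Fin n) F)) := by
  classical
  obtain ⟨m, rfl⟩ : ∃ m, n = 2 * m := ⟨n / 2, (Nat.two_mul_div_two_of_even he).symm⟩
  have hr : r.Prime := Fact.out
  have hr3 : 3 ≤ r := by have := hr.two_le; omega
  suffices hs : ∃ x : Matrix.SpecialLinearGroup (Fin (2 * m)) F,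
      (∃ z : F, ((x ^ r : Matrix.SpecialLinearGroup (Fin (2 * m)) F) : Matrix (Fin (2 * m)) (Fin (2 * m)) F) = z • (1 : Matrix (Fin (2 * m)) (Fin (2 * m)) F)) ∧
      (∀ z : F, (x : Matrix (Fin (2 * m)) (Fin (2 * m)) F) ≠ z • (1 : Matrix (Fin (2 * m)) (Fin (2 * m)) F)) ∧
      ∀ (B : LinearMap.BilinForm F (Fin (2 * m) → F)) (c : F), B.IsAlt → c ≠ 0 → (∀ v, v ≠ 0 → ∃ w, B v w ≠ 0) →
        (∀ u v, B ((x : Matrix _ _ F).mulVec u) ((x : Matrix _ _ F).mulVec v) = c * B u v) → False by
    obtain ⟨x, h1, h2, h3⟩ := hs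
    refine ⟨x, h1, h2, fun P hP => ?_⟩
    obtain ⟨B, c, hA, hc, hN, hi⟩ := exists_form hf x P hP
    exact h3 B c hA hc hN hi
  by_cases hrp : r = p
  · -- a unipotent element with one Jordan block of size three
    subst hrp
    let N : Matrix (Fin (2 * m)) (Fin (2 * m)) F :=
      Matrix.single ⟨0, by omega⟩ ⟨1, by omega⟩ 1 + Matrix.single ⟨1, by omega⟩ ⟨2, by omega⟩ 1
    have hN2 : N * N = Matrix.single ⟨0, by omega⟩ ⟨2, by omega⟩ 1 := by
      simp [N, add_mul, mul_add, Fin.ext_iff]
    have hN3 : N ^ 3 = 0 := by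
      rw [pow_succ, pow_two, hN2]
      simp [N, mul_add, Fin.ext_iff]
    have hdet : (1 + N).det = 1 := by
      rw [Matrix.det_of_isUpperTriangular]
      · exact Finset.prod_eq_one fun i _ => by
          simp only [N, Matrix.add_apply, Matrix.single_apply, Matrix.one_apply_eq, Fin.ext_iff]
          rw [if_neg (by omega), if_neg (by omega), add_zero, add_zero]
      · intro i j hij
        have hji : (j : ℕ) < (i : ℕ) := hij
        simp only [N, Matrix.add_apply, Matrix.single_apply, Matrix.one_apply, Fin.ext_iff]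
        rw [if_neg (by omega), if_neg (by omega), if_neg (by omega), add_zero, add_zero]
    have := Fact.mk hr
    haveI : NeZero (2 * m) := ⟨by omega⟩
    refine ⟨⟨1 + N, hdet⟩, ⟨1, ?_⟩, fun z hz => ?_, fun B c hA hc hnd hB => ?_⟩
    · change (1 + N) ^ r = (1 : F) • (1 : Matrix _ _ F)
      rw [one_smul]
      rw [add_pow_char_of_commute r (Commute.one_left N), one_pow,
        pow_eq_zero_of_le hr3 hN3, add_zero]
    · have := congrFun (congrFun hz ⟨0, by omega⟩) ⟨1, by omega⟩
      simp [N, Matrix.single_apply, Matrix.one_apply, Fin.ext_iff] at this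
    · let e : Fin (2 * m) → Fin (2 * m) → F := fun i => Pi.single i 1
      have he : ∀ i, N.mulVec (e i) = (if i = (⟨1, by omega⟩ : Fin (2 * m)) then e ⟨0, by omega⟩ else 0) +
          (if i = (⟨2, by omega⟩ : Fin (2 * m)) then e ⟨1, by omega⟩ else 0) := fun i => by
        ext j
        simp only [N, e, Matrix.mulVec_single, MulOpposite.op_one, one_smul, Matrix.col_apply, Matrix.add_apply,
          Matrix.single_apply, Pi.add_apply]
        simp only [ite_apply, Pi.zero_apply, Pi.single_apply, Fin.ext_iff]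
        split_ifs <;> first | omega | simp
      have hB' : ∀ u v, B u (N.mulVec v) + B (N.mulVec u) v + B (N.mulVec u) (N.mulVec v) = (c - 1) * B u v := by
        intro u v
        have h := hB u v
        change B ((1 + N).mulVec u) ((1 + N).mulVec v) = _ at h
        simp only [Matrix.add_mulVec, Matrix.one_mulVec, map_add, LinearMap.add_apply] at h
        linear_combination h
      have hfix : ∀ u v, N.mulVec u = 0 → B u (N.mulVec v) = (c - 1) * B u v := fun u v hu => by
        simpa [hu] using hB' u v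
      have h0 : N.mulVec (e ⟨0, by omega⟩) = 0 := by rw [he]; simp [Fin.ext_iff]
      have h1 : N.mulVec (e ⟨1, by omega⟩) = e ⟨0, by omega⟩ := by rw [he]; simp [Fin.ext_iff]
      have h2 : N.mulVec (e ⟨2, by omega⟩) = e ⟨1, by omega⟩ := by rw [he]; simp [Fin.ext_iff]
      have hne : e (⟨0, by omega⟩ : Fin (2 * m)) ≠ 0 := by simp [e]
      obtain ⟨w, hw⟩ := hnd _ hne
      have hc1 : c = 1 := by
        have t1 := hfix (e ⟨0, by omega⟩) (N.mulVec (N.mulVec w)) h0
        rw [hfix _ (N.mulVec w) h0, hfix _ w h0, Matrix.mulVec_mulVec, Matrix.mulVec_mulVec, ← pow_two,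
          ← pow_succ, hN3, Matrix.zero_mulVec, map_zero] at t1
        have t2 : c = 1 ∨ B (e ⟨0, by omega⟩) w = 0 := by simpa [sub_eq_zero] using t1.symm
        exact t2.resolve_right hw
      subst hc1
      have hperp : ∀ i, i ≠ (⟨2, by omega⟩ : Fin (2 * m)) → B (e ⟨0, by omega⟩) (e i) = 0 := fun i hi => by
        by_cases hi1 : i = (⟨1, by omega⟩ : Fin (2 * m))
        · rw [hi1, ← h2, hfix _ _ h0]; simp
        · have hi' : N.mulVec (e i) = 0 := by rw [he, if_neg hi1, if_neg hi, add_zero]
          rw [Cfsg.Lib.Classical.alt_swap hA (e i) (e _), ← h1, hfix _ _ hi']; simp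
      have h02 : B (e ⟨0, by omega⟩) (e ⟨2, by omega⟩) = 0 := by
        have := hB' (e ⟨1, by omega⟩) (e ⟨2, by omega⟩)
        rw [h1, h2, hA.self_eq_zero, hperp ⟨1, by omega⟩ (by simp [Fin.ext_iff])] at this
        simpa using this
      apply hw
      rw [pi_eq_sum_univ' w, map_sum]
      refine Finset.sum_eq_zero fun i _ => ?_
      rw [map_smul]
      by_cases hi : i = (⟨2, by omega⟩ : Fin (2 * m))
      · subst hi
        show w _ * B (e _) (e _) = 0
        rw [h02, mul_zero]
      · show w _ * B (e _) (e _) = 0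
        rw [hperp i hi, mul_zero]
  have hrq : ¬ r ∣ q := fun h => by
    obtain ⟨k, hpk, hk⟩ := FiniteField.card F p
    rw [← hq, hk] at h
    exact hrp ((Nat.prime_dvd_prime_iff_eq hr hpk).1 (hr.dvd_of_dvd_pow h))
  obtain ⟨i, hi1, him, hdvd⟩ :=
    (Cfsg.Lib.Derange.prime_dvd_index_symp hq m (by omega) f hf r hr hΩ).resolve_left hrq
  obtain ⟨K, _, _, _, ζ, hKe, he0, hζ, hconj⟩ := Cfsg.Lib.Derange.exists_cyclo (F := F) (p := p) hq r hrp
  set d := orderOf (q : ZMod r) with hd
  have hdd : d ∣ 2 * i + 1 := orderOf_dvd_of_pow_eq_one (by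
    have h := (ZMod.natCast_eq_zero_iff _ r).2 hdvd
    rwa [Nat.cast_sub (Nat.one_le_pow _ _ (hq ▸ Fintype.card_pos)), Nat.cast_pow, Nat.cast_one, sub_eq_zero] at h)
  have hdodd : Odd d := Odd.of_dvd_nat ⟨i, rfl⟩ hdd
  have hdn : d < 2 * m := by have := Nat.le_of_dvd (by omega) hdd; omega
  have hζr : ζ ^ r = 1 := hζ ▸ pow_orderOf_eq_one ζ
  have hζ1 : ζ ≠ 1 := fun h => by rw [h, orderOf_one] at hζ; omega
  by_cases hd1 : d = 1
  · -- diagonal elements
    obtain ⟨z, hz⟩ : ∃ z : F, algebraMap F K z = ζ := by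
      have := ((Algebra.finrank_eq_one_iff_bijective_algebraMap (F := F) (E := K)).1 (hKe.trans hd1)).2 ζ
      exact this
    have hzo : orderOf z = r := by rw [← hζ, ← hz]; exact (orderOf_injective (algebraMap F K).toMonoidHom (algebraMap F K).injective z).symm
    have hzr : z ^ r = 1 := hzo ▸ pow_orderOf_eq_one z
    have hz0 : z ≠ 0 := fun h => by simp [h, zero_pow hr.ne_zero] at hzr
    have hzk : ∀ k, z ^ k = 1 → r ∣ k := fun k hk => hzo ▸ orderOf_dvd_of_pow_eq_one hk
    let a : Fin (2 * m) → F := fun j =>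
      if (j : ℕ) = 0 then z⁻¹ ^ 2 else if (j : ℕ) ≤ 2 then z else 1
    have hprod : ∏ j, a j = 1 := by
      obtain ⟨k, hk⟩ : ∃ k, 2 * m = k + 3 := ⟨2 * m - 3, by omega⟩
      rw [Fin.prod_univ_eq_prod_range (fun j => if j = 0 then z⁻¹ ^ 2 else if j ≤ 2 then z else 1) (2 * m),
        hk, Finset.prod_range_succ', Finset.prod_range_succ', Finset.prod_range_succ']
      simp
      field_simp
    have hpow : ∀ j, a j ^ r = 1 := fun j => by
      simp only [a]; split_ifs <;> simp [← pow_mul, mul_comm 2 r, hzr] <;> simp [pow_mul, hzr]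
    refine ⟨⟨Matrix.diagonal a, by rw [Matrix.det_diagonal, hprod]⟩, ⟨1, ?_⟩, fun w hw => ?_, fun B c hA hc hnd hB => ?_⟩
    · change Matrix.diagonal a ^ r = (1 : F) • (1 : Matrix _ _ F)
      rw [one_smul]
      rw [Matrix.diagonal_pow, ← Matrix.diagonal_one]; exact congrArg _ (funext hpow)
    · have h1 := congrFun (congrFun hw ⟨1, by omega⟩) ⟨1, by omega⟩
      have h2 := congrFun (congrFun hw ⟨3, by omega⟩) ⟨3, by omega⟩
      simp [a] at h1 h2
      rw [← h2] at h1
      rw [h1, orderOf_one] at hzo; omega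
    · have hd' : ∀ u v, B (Pi.single u 1) (Pi.single v 1) * (a u * a v - c) = 0 := fun u v => by
        have h := hB (Pi.single u 1) (Pi.single v 1)
        have e : ∀ u, (Matrix.diagonal a).mulVec (Pi.single u 1) = a u • Pi.single u (1 : F) := fun u => by
          ext k; simp [Matrix.mulVec_diagonal, Pi.single_apply]; split_ifs with h <;> simp [h]
        change B ((Matrix.diagonal a).mulVec _) ((Matrix.diagonal a).mulVec _) = _ at h
        rw [e, e] at h
        simp only [map_smul, LinearMap.smul_apply, smul_eq_mul] at h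
        linear_combination h
      have hle : ∀ α, (Finset.univ.filter fun j => a j = α).card ≤ (Finset.univ.filter fun j => α * a j = c).card :=
        fun α => card_le_partner B a hnd hd' α
      have hcard : ∀ α : F, α ≠ 0 → (Finset.univ.filter fun j => α * a j = c).card =
          (Finset.univ.filter fun j => a j = α⁻¹ * c).card := fun α hα => by
        congr 1; ext j; simp [eq_inv_mul_iff_mul_eq₀ hα]
      have hN : ∀ β : F, (Finset.univ.filter fun j => a j = β).card =
          (if β = z⁻¹ ^ 2 then 1 else 0) + (if β = z then 2 else 0) + (if β = 1 then 2 * m - 3 else 0) := fun β => by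
        obtain ⟨k, hk⟩ : ∃ k, 2 * m = k + 3 := ⟨2 * m - 3, by omega⟩
        rw [Finset.card_filter,
          Fin.sum_univ_eq_sum_range (fun j => if (if j = 0 then z⁻¹ ^ 2 else if j ≤ 2 then z else 1) = β then 1 else 0) (2 * m),
          hk, Finset.sum_range_succ', Finset.sum_range_succ', Finset.sum_range_succ']
        simp [eq_comm (a := β)]
        split_ifs <;> simp_all <;> omega
      have hz1 : z ≠ 1 := fun h => by rw [h, orderOf_one] at hzo; omega
      have hw1 : z⁻¹ ^ 2 ≠ 1 := fun h => by
        have := Nat.le_of_dvd (by omega) (hzk 2 (by simpa [inv_pow] using h)); omega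
      have hzc : z⁻¹ ^ 2 = z ↔ r = 3 := by
        constructor
        · intro h
          have : z ^ 3 = 1 := by field_simp at h; linear_combination -h
          exact (Nat.prime_dvd_prime_iff_eq hr Nat.prime_three).1 (hzk 3 this)
        · intro h; subst h; field_simp; linear_combination -hzr
      have gA : z⁻¹ ≠ 1 := by simpa using hz1
      have gB : z⁻¹ ≠ z := fun h => by
        have : z ^ 2 = 1 := by field_simp at h; linear_combination -h
        have := Nat.le_of_dvd (by omega) (hzk 2 this); omega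
      have gC : z⁻¹ ≠ z⁻¹ ^ 2 := fun h =>
        gA (mul_left_cancel₀ (inv_ne_zero hz0) (by rw [mul_one, ← pow_two, ← h]))
      have gD : r ≠ 3 → z⁻¹ * z⁻¹ ^ 2 ≠ 1 := fun hr' h => by
        have : z ^ 3 = 1 := by field_simp at h; linear_combination -h
        exact hr' ((Nat.prime_dvd_prime_iff_eq hr Nat.prime_three).1 (hzk 3 this))
      have gE : z⁻¹ * z⁻¹ ^ 2 ≠ z := fun h => by
        have : z ^ 4 = 1 := by field_simp at h; linear_combination -h
        have := hr.dvd_of_dvd_pow (show r ∣ 2 ^ 2 from hzk 4 this)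
        have := Nat.le_of_dvd (by omega) this; omega
      have gF : z⁻¹ * z⁻¹ ^ 2 ≠ z⁻¹ ^ 2 := fun h => by
        have : z⁻¹ = 1 := by simpa [hz0] using h
        exact gA this
      generalize hwdef : z⁻¹ ^ 2 = w at hN hw1 hzc gC gD gE gF
      -- the partner of the eigenvalue one
      have h1 := hle 1
      have h2 := hle c
      have h3 := hle z
      rw [hcard 1 one_ne_zero, inv_one, one_mul, hN, hN, if_neg hw1.symm, if_neg hz1.symm, if_pos rfl] at h1
      rw [hcard c hc, inv_mul_cancel₀ hc, hN, hN, if_neg hw1.symm, if_neg hz1.symm, if_pos rfl] at h2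
      rw [hcard z hz0, hN, hN, if_pos (rfl : z = z), if_neg hz1] at h3
      by_cases hc1 : c = 1
      · subst hc1
        rw [mul_one, if_neg gC, if_neg gB, if_neg gA] at h3
        omega
      · rw [if_neg hc1] at h1 h2
        by_cases hcz : c = z
        · subst hcz
          rw [if_pos (rfl : c = c)] at h1 h2
          by_cases hr' : r = 3
          · rw [if_pos (hzc.2 hr').symm] at h1 h2
            omega
          · rw [if_neg (fun h : c = w => hr' (hzc.1 h.symm))] at h1 h2
            omega
        · rw [if_neg hcz] at h1 h2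
          by_cases hcw : c = w
          · rw [if_pos hcw] at h1 h2
            have hr' : r ≠ 3 := fun h => hcz (hcw.trans (hzc.2 h))
            subst hcw
            rw [if_neg gF, if_neg gE, if_neg (gD hr')] at h3
            omega
          · rw [if_neg hcw] at h1
            omega
  · -- an element irreducible on a subspace of dimension `d`
    let Φ : (Fin (2 * m) → F) ≃ₗ[F] K × (Fin (2 * m - d) → F) :=
      LinearEquiv.ofFinrankEq _ _ (by rw [Module.finrank_prod, hKe, Module.finrank_fin_fun, Module.finrank_fin_fun]; omega)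
    let T : (K × (Fin (2 * m - d) → F)) →ₗ[F] K × (Fin (2 * m - d) → F) :=
      (Algebra.lmul F K ζ).prodMap LinearMap.id
    have hdetT : LinearMap.det T = 1 := by
      rw [LinearMap.det_prodMap, LinearMap.det_id, mul_one]
      show LinearMap.det (Algebra.lmul F K ζ) = 1
      rw [show LinearMap.det (Algebra.lmul F K ζ) = Algebra.norm F ζ from rfl]
      have h1 : Algebra.norm F ζ ^ r = 1 := by rw [← map_pow, hζr, map_one]
      have hne : Algebra.norm F ζ ≠ 0 := fun h => by simp [h, zero_pow hr.ne_zero] at h1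
      have h2 : Algebra.norm F ζ ^ (q - 1) = 1 := hq ▸ FiniteField.pow_card_sub_one_eq_one _ hne
      have hcop : Nat.Coprime r (q - 1) := hr.coprime_iff_not_dvd.2 fun h => hd1 (by
        have h' := (ZMod.natCast_eq_zero_iff _ r).2 h
        rw [Nat.cast_sub (hq ▸ Fintype.card_pos), Nat.cast_one, sub_eq_zero] at h'
        rw [hd, h', orderOf_one])
      exact orderOf_eq_one_iff.1 (Nat.eq_one_of_dvd_coprimes hcop (orderOf_dvd_of_pow_eq_one h1) (orderOf_dvd_of_pow_eq_one h2))
    let X : (Fin (2 * m) → F) →ₗ[F] (Fin (2 * m) → F) := Φ.symm.toLinearMap ∘ₗ T ∘ₗ Φ.toLinearMap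
    have hdetX : (LinearMap.toMatrix' X).det = 1 := by
      rw [LinearMap.det_toMatrix']
      rw [← hdetT, ← LinearMap.det_conj T Φ.symm]
      congr 1
    have hXm : ∀ v, (LinearMap.toMatrix' X).mulVec v = Φ.symm (T (Φ v)) := fun v => by
      rw [LinearMap.toMatrix'_mulVec]; rfl
    have hTp : ∀ (k : ℕ) v, (T ^ k) v = (ζ ^ k * v.1, v.2) := fun k => by
      induction k with
      | zero => intro v; simp
      | succ k ih => intro v; rw [pow_succ, Module.End.mul_apply, ih]; simp [T, pow_succ, mul_assoc]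
    refine ⟨⟨LinearMap.toMatrix' X, hdetX⟩, ⟨1, ?_⟩, fun w hw => ?_, fun B c hA hc hnd hB => ?_⟩
    · change (LinearMap.toMatrix' X) ^ r = (1 : F) • (1 : Matrix _ _ F)
      rw [one_smul]
      refine Matrix.ext_iff_mulVec.2 fun v => ?_
      have : ∀ k, ((LinearMap.toMatrix' X) ^ k).mulVec v = Φ.symm ((T ^ k) (Φ v)) := fun k => by
        induction k with
        | zero => simp
        | succ k ih =>
          rw [pow_succ', ← Matrix.mulVec_mulVec, ih, hXm, LinearEquiv.apply_symm_apply, pow_succ' T, Module.End.mul_apply]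
      rw [this, hTp, hζr, one_mul, Matrix.one_mulVec]
      exact Φ.symm_apply_apply v
    · have h1 := congrArg Φ (congrArg (Matrix.mulVec · (Φ.symm (0, fun _ => 1))) hw)
      have h2 := congrArg Φ (congrArg (Matrix.mulVec · (Φ.symm (1, 0))) hw)
      simp [hXm, Matrix.smul_mulVec, T, Prod.ext_iff, funext_iff] at h1 h2
      have hw1 : w = 1 := (h1 ⟨0, by omega⟩).symm
      rw [hw1, one_smul] at h2
      exact hζ1 h2
    · let B' : LinearMap.BilinForm F (K × (Fin (2 * m - d) → F)) := B.compl₁₂ Φ.symm.toLinearMap Φ.symm.toLinearMap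
      have hT' : ∀ u v, B' (T u) (T v) = c * B' u v := fun u v => by
        have h := hB (Φ.symm u) (Φ.symm v)
        change B ((LinearMap.toMatrix' X).mulVec _) ((LinearMap.toMatrix' X).mulVec _) = _ at h
        rw [hXm, hXm, LinearEquiv.apply_symm_apply, LinearEquiv.apply_symm_apply] at h
        exact h
      have hnd' : ∀ v, v ≠ 0 → ∃ w, B' v w ≠ 0 := fun v hv => by
        obtain ⟨w, hw⟩ := hnd (Φ.symm v) (by simpa using hv)
        exact ⟨Φ w, by simpa [B'] using hw⟩
      have hζF : ∀ t : F, ζ ≠ algebraMap F K t := fun t ht => hd1 (by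
        have h1 : ζ ^ (q - 1) = 1 := by
          rw [ht, ← map_pow, ← hq, FiniteField.pow_card_sub_one_eq_one _ (fun h => by
            rw [h, map_zero] at ht; simp [ht, zero_pow hr.ne_zero] at hζr), map_one]
        have h' := (ZMod.natCast_eq_zero_iff _ r).2 (hζ ▸ orderOf_dvd_of_pow_eq_one h1)
        rw [Nat.cast_sub (hq ▸ Fintype.card_pos), Nat.cast_one, sub_eq_zero] at h'
        rw [hd, h', orderOf_one])
      -- the two summands are orthogonal
      have horth : ∀ (k : K) (a : Fin (2 * m - d) → F), B' (k, 0) (0, a) = 0 := fun k a => by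
        have hne : ζ - algebraMap F K c ≠ 0 := sub_ne_zero.2 (hζF c)
        obtain ⟨l, rfl⟩ : ∃ l, k = (ζ - algebraMap F K c) * l := ⟨(ζ - algebraMap F K c)⁻¹ * k, by field_simp⟩
        have h := hT' (l, 0) (0, a)
        have e : ((ζ - algebraMap F K c) * l, (0 : Fin (2 * m - d) → F)) = (ζ * l, 0) - c • (l, 0) := by
          simp [sub_mul, Algebra.smul_def]
        simp [T] at h
        rw [e, map_sub, map_smul, LinearMap.sub_apply, LinearMap.smul_apply, h]; simp
      have horth' : ∀ (k : K) (a : Fin (2 * m - d) → F), B' (0, a) (k, 0) = 0 := fun k a => by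
        have hA' : B'.IsAlt := fun v => hA _
        rw [Cfsg.Lib.Classical.alt_swap hA' _ _, horth, neg_zero]
      have hc1 : c = 1 := by
        obtain ⟨⟨k, a⟩, hw⟩ := hnd' (0, fun _ => 1) (fun h => one_ne_zero (congrFun (congrArg Prod.snd h) ⟨0, by omega⟩))
        have e : ((k, a) : K × (Fin (2 * m - d) → F)) = (k, 0) + (0, a) := by simp
        rw [e, map_add, horth', zero_add] at hw
        have h := hT' (0, fun _ => 1) (0, a)
        simp [T] at h
        by_contra hne
        apply hw
        have : (c - 1) * B' (0, fun _ => 1) (0, a) = 0 := by linear_combination -h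
        exact (mul_eq_zero.1 this).resolve_left (sub_ne_zero.2 hne)
      subst hc1
      have hpoly : ∀ (g : Polynomial F) (k l : K),
          B' (Polynomial.aeval ζ g * k, 0) (l, 0) = B' (k, 0) (Polynomial.aeval ζ⁻¹ g * l, 0) := by
        intro g
        induction g using Polynomial.induction_on' with
        | add g g' hg hg' =>
          intro k l
          have e : ∀ a b : K, ((a + b, 0) : K × (Fin (2 * m - d) → F)) = (a, 0) + (b, 0) := fun a b => by simp
          simp only [map_add, add_mul, e, LinearMap.add_apply, hg, hg']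
        | monomial s t =>
          intro k l
          have e : ∀ a : K, ((algebraMap F K t * a, 0) : K × (Fin (2 * m - d) → F)) = t • (a, 0) := fun a => by
            simp [Algebra.smul_def]
          have hstep : ∀ s k l, B' (ζ ^ s * k, 0) (l, 0) = B' (k, 0) (ζ⁻¹ ^ s * l, 0) := fun s => by
            induction s with
            | zero => intro k l; simp
            | succ s ih =>
              intro k l
              have h := hT' (ζ ^ s * k, 0) (ζ⁻¹ * l, 0)
              simp [T, mul_inv_cancel_left₀ (fun h : ζ = 0 => by simp [h, zero_pow hr.ne_zero] at hζr)] at h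
              rw [pow_succ', mul_assoc, h, ih, ← mul_assoc, ← pow_succ]
          simp only [Polynomial.aeval_monomial, mul_assoc, e, map_smul, LinearMap.smul_apply, hstep]
      have hroot : Polynomial.aeval ζ⁻¹ (minpoly F ζ) = 0 := by
        by_contra hne
        obtain ⟨⟨l, a⟩, hl⟩ := hnd' ((1 : K), 0) (by simp)
        have e : ((l, a) : K × (Fin (2 * m - d) → F)) = (l, 0) + (0, a) := by simp
        rw [e, map_add, horth, add_zero] at hl
        have h := hpoly (minpoly F ζ) 1 ((Polynomial.aeval ζ⁻¹ (minpoly F ζ))⁻¹ * l)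
        rw [minpoly.aeval, zero_mul, mul_inv_cancel_left₀ hne] at h
        exact hl (h.symm.trans (by rw [show ((0, 0) : K × (Fin (2 * m - d) → F)) = 0 from rfl]; simp))
      obtain ⟨j, hj⟩ := hconj _ hroot
      have h1 : (q : ZMod r) ^ j = -1 := by
        have hz' : ζ ≠ 0 := fun h => by simp [h, zero_pow hr.ne_zero] at hζr
        have : ζ ^ (q ^ j + 1) = 1 := by rw [pow_succ, ← hj, inv_mul_cancel₀ hz']
        have h' := (ZMod.natCast_eq_zero_iff _ r).2 (hζ ▸ orderOf_dvd_of_pow_eq_one this)
        push_cast at h'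
        exact eq_neg_of_add_eq_zero_left h'
      have h2 : (q : ZMod r) ^ (2 * j) = 1 := by rw [mul_comm, pow_mul, h1]; simp
      have h3 : d ∣ j := (Nat.Coprime.dvd_of_dvd_mul_left ((Nat.coprime_two_right).2 hdodd)
        (orderOf_dvd_of_pow_eq_one h2))
      rw [orderOf_dvd_iff_pow_eq_one.1 h3, eq_neg_iff_add_eq_zero, ← Nat.cast_one, ← Nat.cast_add,
        ZMod.natCast_eq_zero_iff] at h1
      have := Nat.le_of_dvd (by omega) h1
      omega

end Cfsg.Agent.S5968
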