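import Cfsg.Statements.S5967
import Mathlib
import Cfsg.Agent.Lib.Derange.InvolForms
import Cfsg.Agent.Lib.Classical.FormFn
import Cfsg.Agent.S5968
-- import your own Cfsg.Agent.* helpers here

set_option autoImplicit false
open scoped MatrixGroups
open Cfsg

namespace Cfsg.Agent.S5967

open Matrix Cfsg.Lib.Classical

variable {F : Type*} [Field F] {n m : ℕ}

lemma conj_planes (hn : n = 2 * m) {f : (Fin n → F) → (Fin n → F) → F} (hf : Cfsg.Geo.IsSymplecticForm f)
    (x : Matrix.SpecialLinearGroup (Fin n) F) (b : Module.Basis (Bool × Fin m) F (Fin n → F))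
    (A : Fin m → Matrix Bool Bool F) {c : F} (hc : c ≠ 0)
    (hA : ∀ i, (A i).det = c)
    (hT : ∀ s i, Matrix.toLin' (x : Matrix (Fin n) (Fin n) F) (b (s, i)) = A i false s • b (false, i) + A i true s • b (true, i))
    (hC : ∀ i : Fin m, ∀ δ : F, δ ≠ 0 → ∃ C : Matrix Bool Bool F, C.det = δ ∧ C * A i = A i * C) (hm : 0 < m) :
    ∃ P : Matrix.SpecialLinearGroup (Fin n) F, P⁻¹ * x * P ∈ ((Cfsg.Geo.similarityGroup f).comap (Matrix.SpecialLinearGroup.toGL : Matrix.SpecialLinearGroup (Fin n) F →* GL (Fin n) F)) := by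
  classical
  let e : Bool × Fin m ≃ Fin n := Fintype.equivFinOfCardEq (by simp [hn])
  let J2 : Matrix Bool Bool F := Matrix.of fun s t => if s = t then 0 else if s then -1 else 1
  have hJ2 : ∀ M : Matrix Bool Bool F, Mᵀ * J2 * M = M.det • J2 := fun M => by
    ext s t
    rw [← Matrix.det_reindex_self finTwoEquiv.symm, Matrix.det_fin_two]
    cases s <;> cases t <;> simp [J2, Matrix.mul_apply, finTwoEquiv] <;> ring
  set T := Matrix.toLin' (x : Matrix (Fin n) (Fin n) F)
  have hD : LinearMap.toMatrix (b.reindex e) (b.reindex e) T = (Matrix.blockDiagonal A).submatrix e.symm e.symm := by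
    ext l l'
    obtain ⟨⟨s, i⟩, rfl⟩ := e.surjective l
    obtain ⟨⟨s', i'⟩, rfl⟩ := e.surjective l'
    rw [LinearMap.toMatrix_apply, Module.Basis.reindex_apply, e.symm_apply_apply, hT]
    simp only [map_add, map_smul, Finsupp.add_apply, Finsupp.smul_apply, Module.Basis.repr_reindex_apply,
      Equiv.symm_apply_apply, Module.Basis.repr_self, Finsupp.single_apply, Prod.mk.injEq, Matrix.submatrix_apply,
      Matrix.blockDiagonal_apply, smul_eq_mul]
    by_cases hi : i = i'
    · subst hi; cases s <;> cases s' <;> simp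
    · cases s <;> cases s' <;> simp [hi, Ne.symm hi]
  obtain ⟨Φ, hΦ⟩ := Cfsg.Lib.Derange.exists_change (x : Matrix (Fin n) (Fin n) F) (b.reindex e)
  rw [hD] at hΦ
  set D := (Matrix.blockDiagonal A).submatrix e.symm e.symm with hDdef
  let J : Matrix (Fin n) (Fin n) F := (Matrix.blockDiagonal fun _ : Fin m => J2).submatrix e.symm e.symm
  have hJ : Dᵀ * J * D = c • J := by
    rw [hDdef, Matrix.transpose_submatrix, Matrix.submatrix_mul_equiv, Matrix.submatrix_mul_equiv, Matrix.blockDiagonal_transpose,
      ← Matrix.blockDiagonal_mul, ← Matrix.blockDiagonal_mul]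
    simp only [hJ2, hA]
    rw [show (fun _ : Fin m => c • J2) = c • (fun _ : Fin m => J2) from rfl, Matrix.blockDiagonal_smul]
    rfl
  set B' := Matrix.toBilin' J
  have hB'A : B'.IsAlt := fun v => by
    show Matrix.toBilin' J v v = 0
    have hJv : J *ᵥ v = ((Matrix.blockDiagonal fun _ : Fin m => J2) *ᵥ (v ∘ e)) ∘ e.symm := Matrix.submatrix_mulVec_equiv _ _ _ e.symm
    rw [Matrix.toBilin'_apply', hJv, dotProduct, ← e.sum_comp, Fintype.sum_prod_type, Fintype.sum_bool, ← Finset.sum_add_distrib]
    refine Finset.sum_eq_zero fun i _ => ?_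
    simp [Matrix.mulVec, dotProduct, Matrix.blockDiagonal_apply, Fintype.sum_prod_type, J2, Finset.sum_ite_eq]
    ring
  have hB'N : ∀ v, v ≠ 0 → ∃ w, B' v w ≠ 0 := fun v hv => by
    have hdet : J.det ≠ 0 := by
      rw [Matrix.det_submatrix_equiv_self, Matrix.det_blockDiagonal]
      refine Finset.prod_ne_zero_iff.2 fun i _ => ?_
      rw [← Matrix.det_reindex_self finTwoEquiv.symm, Matrix.det_fin_two]
      simp [J2, finTwoEquiv]
    by_contra h
    push Not at h
    exact hv ((LinearMap.BilinForm.nondegenerate_toBilin'_of_det_ne_zero' _ hdet).1 v h)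
  obtain ⟨g, hg⟩ := Cfsg.Lib.Derange.exists_iso m (by rw [Module.finrank_fin_fun, hn]) B' (biForm hf.bilinear) hB'A
    (biForm_isAlt hf) hB'N (fun v hv => by
      obtain ⟨w, hw⟩ := (hf.nondegenerate v hv).2
      exact ⟨w, hw⟩)
  let G : Matrix (Fin n) (Fin n) F := LinearMap.toMatrix' g.toLinearMap
  let Gi : Matrix (Fin n) (Fin n) F := LinearMap.toMatrix' g.symm.toLinearMap
  have hGG : G * Gi = 1 := by rw [← LinearMap.toMatrix'_comp]; simp
  have hGG' : Gi * G = 1 := by rw [← LinearMap.toMatrix'_comp]; simp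
  let Gu : GL (Fin n) F := ⟨G, Gi, hGG, hGG'⟩
  have hx : (x : Matrix (Fin n) (Fin n) F) * ((Φ * Gu : GL (Fin n) F) : Matrix (Fin n) (Fin n) F) =
      ((Φ * Gu : GL (Fin n) F) : Matrix (Fin n) (Fin n) F) * (Gi * D * G) := by
    show (x : Matrix (Fin n) (Fin n) F) * ((Φ : Matrix (Fin n) (Fin n) F) * G) = (Φ : Matrix (Fin n) (Fin n) F) * G * (Gi * D * G)
    rw [← Matrix.mul_assoc, hΦ]
    simp only [Matrix.mul_assoc]
    rw [← Matrix.mul_assoc G Gi, hGG, Matrix.one_mul]
  obtain ⟨P, hP⟩ := Cfsg.Lib.Derange.exists_sl x (Φ * Gu) _ hx (fun δ hδ => by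
    obtain ⟨C₁, hC₁, hC₁A⟩ := hC ⟨0, hm⟩ δ hδ
    let Cs : Fin m → Matrix Bool Bool F := fun i => if i = ⟨0, hm⟩ then C₁ else 1
    let C := (Matrix.blockDiagonal Cs).submatrix e.symm e.symm
    refine ⟨Gi * C * G, ?_, ?_⟩
    · rw [Matrix.det_mul, Matrix.det_mul, mul_comm Gi.det, mul_assoc, ← Matrix.det_mul, hGG', Matrix.det_one, mul_one,
        Matrix.det_submatrix_equiv_self, Matrix.det_blockDiagonal]
      simp [Cs, apply_ite Matrix.det, hC₁, Finset.prod_ite_eq']
    · have hCD : C * D = D * C := by
        rw [hDdef, Matrix.submatrix_mul_equiv, Matrix.submatrix_mul_equiv, ← Matrix.blockDiagonal_mul, ← Matrix.blockDiagonal_mul]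
        congr 2
        funext i
        by_cases hi : i = ⟨0, hm⟩
        · subst hi; simp [Cs, hC₁A]
        · simp [Cs, hi]
      calc Gi * C * G * (Gi * D * G) = Gi * C * (G * Gi) * D * G := by simp only [Matrix.mul_assoc]
        _ = Gi * (C * D) * G := by rw [hGG, Matrix.mul_one]; simp only [Matrix.mul_assoc]
        _ = Gi * (D * C) * G := by rw [hCD]
        _ = Gi * D * (G * Gi) * C * G := by rw [hGG, Matrix.mul_one]; simp only [Matrix.mul_assoc]
        _ = Gi * D * G * (Gi * C * G) := by simp only [Matrix.mul_assoc])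
  refine ⟨P, Units.mk0 c hc, fun u v => ?_⟩
  have hgu : ∀ w, G *ᵥ w = g w := fun w => LinearMap.toMatrix'_mulVec g.toLinearMap w
  show f ((((P⁻¹ * x * P : Matrix.SpecialLinearGroup (Fin n) F) : Matrix (Fin n) (Fin n) F)) *ᵥ u)
    ((((P⁻¹ * x * P : Matrix.SpecialLinearGroup (Fin n) F) : Matrix (Fin n) (Fin n) F)) *ᵥ v) = c * f u v
  rw [hP, ← biForm_apply hf.bilinear, ← biForm_apply hf.bilinear, ← hg, ← hg, ← hgu, ← hgu,
    Matrix.mulVec_mulVec, Matrix.mulVec_mulVec, ← Matrix.mul_assoc, ← Matrix.mul_assoc, hGG, Matrix.one_mul,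
    ← Matrix.mulVec_mulVec, ← Matrix.mulVec_mulVec, hgu, hgu]
  show Matrix.toBilin' J (D *ᵥ g u) (D *ᵥ g v) = c * Matrix.toBilin' J (g u) (g v)
  rw [Matrix.toBilin'_apply', Matrix.toBilin'_apply', Matrix.mulVec_mulVec, Matrix.dotProduct_mulVec, Matrix.vecMul_mulVec,
    ← Matrix.mul_assoc, hJ, Matrix.dotProduct_mulVec (g u), Matrix.vecMul_smul, smul_dotProduct, smul_eq_mul]

end Cfsg.Agent.S5967

namespace Cfsg.Agent.S5967

set_option maxHeartbeats 1000000 in
/-- Involutions of PSL_n(q) and the symplectic-type subgroups. Here `T = PSL_n(F)` for a field `F` with `q` elements, `n ≥ 4` even, `f` is a nondegenerate alternating form on `F^n`, and `H` is the subgroup of matrices of determinant 1 preserving `f` up to a scalar — a maximal subgroup of type Sp_n(q); Ω is the set of `T`-conjugates of `H` (cosets of `H`), so an element of `T` of prime order `r` (a matrix `x` of determinant 1 with `x^r` scalar, `x` not scalar) fixes a point of Ω when some conjugate of `x` by a matrix of determinant 1 preserves `f` up to a scalar.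 Suppose the index of `H` is even. Then every involution of `T` is conjugate in `T` into `H` if and only if `(q − 1)_2 ≤ (n)_2`. -/
theorem result {F : Type*} [Field F] [Fintype F] {p : ℕ} [Fact p.Prime] [CharP F p] {q : ℕ} (hq : Fintype.card F = q)
    (n : ℕ) (hn : 4 ≤ n) (he : Even n) (f : (Fin n → F) → (Fin n → F) → F) (hf : Cfsg.Geo.IsSymplecticForm f)
    (hΩ : 2 ∣ ((Cfsg.Geo.similarityGroup f).comap (Matrix.SpecialLinearGroup.toGL : Matrix.SpecialLinearGroup (Fin n) F →* GL (Fin n) F)).index) :
    (∀ x : Matrix.SpecialLinearGroup (Fin n) F,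
      (∃ z : F, ((x ^ 2 : Matrix.SpecialLinearGroup (Fin n) F) : Matrix (Fin n) (Fin n) F) = z • (1 : Matrix (Fin n) (Fin n) F)) →
      (∀ z : F, (x : Matrix (Fin n) (Fin n) F) ≠ z • (1 : Matrix (Fin n) (Fin n) F)) →
      ∃ P : Matrix.SpecialLinearGroup (Fin n) F, P⁻¹ * x * P ∈ ((Cfsg.Geo.similarityGroup f).comap (Matrix.SpecialLinearGroup.toGL : Matrix.SpecialLinearGroup (Fin n) F →* GL (Fin n) F))) ↔
    padicValNat 2 (q - 1) ≤ padicValNat 2 n := by
  classical
  obtain ⟨m, rfl⟩ : ∃ m, n = 2 * m := ⟨n / 2, (Nat.two_mul_div_two_of_even he).symm⟩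
  haveI := Fact.mk Nat.prime_two
  haveI : Nonempty (Fin (2 * m)) := ⟨⟨0, by omega⟩⟩
  have hq1 : 1 < q := hq ▸ Fintype.one_lt_card
  constructor
  · intro H
    by_contra hlt
    push Not at hlt
    set a := padicValNat 2 (q - 1)
    set v := padicValNat 2 (2 * m)
    obtain ⟨g, hg⟩ := IsCyclic.exists_generator (α := Fˣ)
    have ho : orderOf g = q - 1 := by
      rw [orderOf_eq_card_of_forall_mem_zpowers hg, Nat.card_units, Nat.card_eq_fintype_card, hq]
    obtain ⟨M, hM⟩ : 2 ^ (v + 1) ∣ q - 1 := (pow_dvd_pow 2 (by omega : v + 1 ≤ a)).trans pow_padicValNat_dvd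
    have hM0 : M ≠ 0 := fun h => by rw [h, mul_zero] at hM; omega
    set s : F := ((g ^ M : Fˣ) : F)
    have hso : orderOf s = 2 ^ (v + 1) := by
      rw [orderOf_units, orderOf_pow_of_dvd hM0 (ho ▸ ⟨2 ^ (v + 1), by rw [hM]; ring⟩), ho, hM,
        Nat.mul_div_cancel _ (Nat.pos_of_ne_zero hM0)]
    have h2F : (2 : F) ≠ 0 := fun h => by
      haveI : CharP F 2 := CharTwo.of_one_ne_zero_of_two_eq_zero one_ne_zero h
      obtain ⟨j, -, hj⟩ := FiniteField.card F 2
      have h2 : 2 ∣ q - 1 := (dvd_pow_self 2 (Nat.succ_ne_zero v)).trans ⟨M, hM⟩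
      have h3 : 2 ∣ q := by rw [← hq, hj]; exact dvd_pow_self 2 j.ne_zero
      omega
    have hsn : s ^ (2 * m) = -1 := by
      have h1 : s ^ 2 ^ v = -1 := by
        have h : s ^ 2 ^ v * s ^ 2 ^ v = 1 := by rw [← pow_add, ← two_mul, ← pow_succ', ← hso, pow_orderOf_eq_one]
        rcases mul_self_eq_one_iff.1 h with h | h
        · exact absurd (hso ▸ orderOf_dvd_of_pow_eq_one h) (fun hd => by
            have := Nat.le_of_dvd (by positivity) hd
            exact absurd this (not_le.2 (Nat.pow_lt_pow_right (by norm_num) (by omega))))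
        · exact h
      obtain ⟨t, ht⟩ : 2 ^ v ∣ 2 * m := pow_padicValNat_dvd
      have hto : Odd t := Nat.not_even_iff_odd.1 fun ⟨t', ht'⟩ =>
        pow_succ_padicValNat_not_dvd (p := 2) (n := 2 * m) (by omega) ⟨t', by rw [show padicValNat 2 (2 * m) = v from rfl, ht, ht']; ring⟩
      rw [ht, pow_mul, h1, hto.neg_one_pow]
    have hs0 : s ≠ 0 := Units.ne_zero _
    have hss : s ≠ -s := fun h => hs0 (by
      have : (2 : F) * s = 0 := by linear_combination h
      exact (mul_eq_zero.1 this).resolve_left h2F)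
    let d : Fin (2 * m) → F := fun j => if (j : ℕ) = 0 then -s else s
    have hdet : (Matrix.diagonal d).det = 1 := by
      obtain ⟨j, hj⟩ : ∃ j, 2 * m = j + 1 := ⟨2 * m - 1, by omega⟩
      rw [Matrix.det_diagonal, Fin.prod_univ_eq_prod_range (fun j => if j = 0 then -s else s) (2 * m), hj,
        Finset.prod_range_succ']
      simp only [Nat.succ_ne_zero, if_false, if_true, Finset.prod_const, Finset.card_range]
      rw [hj, pow_succ] at hsn
      linear_combination -hsn
    obtain ⟨P, hP⟩ := H ⟨Matrix.diagonal d, hdet⟩ ⟨s * s, by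
      show Matrix.diagonal d ^ 2 = (s * s) • (1 : Matrix (Fin (2 * m)) (Fin (2 * m)) F)
      rw [Matrix.diagonal_pow, ← Matrix.diagonal_one, ← Matrix.diagonal_smul]
      congr 1
      funext j
      simp [d, pow_two]⟩ (fun z hz => by
      have h0 := congrFun (congrFun hz ⟨0, by omega⟩) ⟨0, by omega⟩
      have h1 := congrFun (congrFun hz ⟨1, by omega⟩) ⟨1, by omega⟩
      simp [d] at h0 h1
      exact hss (h1.trans h0.symm))
    obtain ⟨B, c, hA, hc, hnd, hB⟩ := Cfsg.Agent.S5968.exists_form hf _ P hP
    have hd' : ∀ u v, B (Pi.single u 1) (Pi.single v 1) * (d u * d v - c) = 0 := fun u v => by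
      have h := hB (Pi.single u 1) (Pi.single v 1)
      have e : ∀ u, (Matrix.diagonal d).mulVec (Pi.single u 1) = d u • Pi.single u (1 : F) := fun u => by
        ext k; simp [Matrix.mulVec_diagonal, Pi.single_apply]; split_ifs with h <;> simp [h]
      change B ((Matrix.diagonal d).mulVec _) ((Matrix.diagonal d).mulVec _) = _ at h
      rw [e, e] at h
      simp only [map_smul, LinearMap.smul_apply, smul_eq_mul] at h
      linear_combination h
    have hN : ∀ β : F, (Finset.univ.filter fun j => d j = β).card =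
        (if β = -s then 1 else 0) + (if β = s then 2 * m - 1 else 0) := fun β => by
      obtain ⟨k, hk⟩ : ∃ k, 2 * m = k + 1 := ⟨2 * m - 1, by omega⟩
      rw [Finset.card_filter,
        Fin.sum_univ_eq_sum_range (fun j => if (if j = 0 then -s else s) = β then 1 else 0) (2 * m),
        hk, Finset.sum_range_succ']
      simp [eq_comm (a := β)]
      split_ifs <;> simp_all <;> omega
    have hle : ∀ α : F, α ≠ 0 → (Finset.univ.filter fun j => d j = α).card ≤ (Finset.univ.filter fun j => d j = α⁻¹ * c).card := fun α hα => by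
      refine (Cfsg.Agent.S5968.card_le_partner B d hnd hd' α).trans (le_of_eq ?_)
      congr 1; ext j; simp [eq_inv_mul_iff_mul_eq₀ hα]
    have h1 := hle s hs0
    have h2 := hle (-s) (neg_ne_zero.2 hs0)
    rw [hN, hN, if_neg hss, if_pos rfl] at h1
    rw [hN, hN, if_pos rfl, if_neg hss.symm] at h2
    by_cases hcs : s⁻¹ * c = s
    · rw [inv_neg, neg_mul, hcs, if_pos rfl, if_neg hss.symm] at h2
      have hcard : (Finset.univ.filter fun j => d j = -s).card = 1 := by rw [hN, if_pos rfl, if_neg hss.symm]
      obtain ⟨j₀, hj₀⟩ := Finset.card_eq_one.1 hcard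
      obtain ⟨w, hw⟩ := hnd (Pi.single j₀ 1) (by simp)
      refine hw ?_
      rw [pi_eq_sum_univ' w, map_sum]
      refine Finset.sum_eq_zero fun j _ => ?_
      rw [map_smul]
      refine mul_eq_zero_of_right (w j) ?_
      by_cases hj : j = j₀
      · subst hj; exact hA _
      · have hdj : d j = s := by
          have : d j ≠ -s := fun h => hj (Finset.mem_singleton.1 (hj₀ ▸ Finset.mem_filter.2 ⟨Finset.mem_univ j, h⟩))
          simp only [d] at this ⊢
          split_ifs at this ⊢ with h'
          · exact absurd rfl this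
          · rfl
        have hd0 : d j₀ = -s := (Finset.mem_filter.1 (hj₀.symm ▸ Finset.mem_singleton_self j₀ : j₀ ∈ _)).2
        refine (mul_eq_zero.1 (hd' j₀ j)).resolve_right ?_
        rw [hd0, hdj]
        intro h
        have hc' : c = s * s := by rw [← mul_inv_cancel_left₀ hs0 c, hcs]
        rw [hc'] at h
        exact hs0 (mul_self_eq_zero.1 ((mul_eq_zero.1 (show (2 : F) * (s * s) = 0 by linear_combination -h)).resolve_left h2F))
    · rw [if_neg hcs] at h1
      split_ifs at h1 <;> omega
  · intro hv x hx hns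
    obtain ⟨z, hz⟩ := hx
    have hz0 : z ≠ 0 := by
      rintro rfl
      have h := congrArg Matrix.det hz
      rw [(x ^ 2 : Matrix.SpecialLinearGroup (Fin (2 * m)) F).2, zero_smul, Matrix.det_zero] at h
      exact one_ne_zero h
    set T := Matrix.toLin' (x : Matrix (Fin (2 * m)) (Fin (2 * m)) F) with hTdef
    have hTT : ∀ v, T (T v) = z • v := fun v => by
      rw [hTdef, Matrix.toLin'_apply, Matrix.toLin'_apply, Matrix.mulVec_mulVec,
        show (x : Matrix (Fin (2 * m)) (Fin (2 * m)) F) * (x : Matrix (Fin (2 * m)) (Fin (2 * m)) F) = z • 1 by rw [← hz, pow_two]; rfl,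
        Matrix.smul_mulVec, Matrix.one_mulVec]
    have hdiag : ∀ (a b : F) (δ : F), ∃ C : Matrix Bool Bool F, C.det = δ ∧ C * Matrix.diagonal (fun s : Bool => if s then b else a) = Matrix.diagonal (fun s : Bool => if s then b else a) * C := fun a b δ => by
      refine ⟨Matrix.diagonal (fun s => if s then δ else 1), by simp [Matrix.det_diagonal], ?_⟩
      rw [Matrix.diagonal_mul_diagonal, Matrix.diagonal_mul_diagonal]
      congr 1; funext s; ring
    by_cases hA : (2 : F) ≠ 0 ∧ ∃ s, s * s = z
    · obtain ⟨h2, s, rfl⟩ := hA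
      have hs0 : s ≠ 0 := left_ne_zero_of_mul hz0
      obtain ⟨i, j, b, hp, hmi⟩ := Cfsg.Lib.Derange.exists_diag_form h2 T hs0 hTT
      have hij : i + j = 2 * m := by
        have := Module.finrank_eq_card_basis b
        simpa using this.symm
      -- the multiplicity is even
      have hdet : s ^ (2 * m) * (-1) ^ j = 1 := by
        have h : LinearMap.det T = 1 := by rw [hTdef, LinearMap.det_toLin']; exact x.2
        rw [← LinearMap.det_toMatrix b] at h
        rw [show LinearMap.toMatrix b b T = Matrix.diagonal (Sum.elim (fun _ => s) (fun _ => -s)) by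
          ext u v
          rw [LinearMap.toMatrix_apply, Matrix.diagonal_apply]
          rcases v with v | v
          · rw [hp]; by_cases huv : u = Sum.inl v
            · subst huv; simp
            · simp [huv, Ne.symm huv]
          · rw [hmi]; by_cases huv : u = Sum.inr v
            · subst huv; simp
            · simp [huv, Ne.symm huv], Matrix.det_diagonal, Fintype.prod_sum_type] at h
        simp only [Sum.elim_inl, Sum.elim_inr, Finset.prod_const, Finset.card_univ, Fintype.card_fin] at h
        rw [← hij, pow_add]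
        rw [neg_pow] at h
        linear_combination h
      obtain ⟨j', hj'⟩ : Even j := by
        by_contra hjo
        rw [Nat.not_even_iff_odd] at hjo
        rw [hjo.neg_one_pow] at hdet
        have hsn : s ^ (2 * m) = -1 := by linear_combination -hdet
        have hne : (-1 : F) ≠ 1 := fun h => h2 (by linear_combination -h)
        set v := padicValNat 2 (2 * m)
        obtain ⟨t, ht⟩ : 2 ^ v ∣ 2 * m := pow_padicValNat_dvd
        obtain ⟨M, hM⟩ : 2 ^ padicValNat 2 (q - 1) ∣ q - 1 := pow_padicValNat_dvd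
        have hMo : Odd M := Nat.not_even_iff_odd.1 fun ⟨M', hM'⟩ =>
          pow_succ_padicValNat_not_dvd (p := 2) (n := q - 1) (by omega) ⟨M', by
            nth_rewrite 1 [hM]; rw [hM']; ring⟩
        -- raise to the odd part of `q - 1`
        have h1 : (s ^ (2 * m)) ^ M = -1 := by rw [hsn, hMo.neg_one_pow]
        have h3 : q - 1 ∣ 2 * m * M := by
          rw [hM]
          exact Nat.mul_dvd_mul_right ((pow_dvd_pow 2 hv).trans pow_padicValNat_dvd) M
        obtain ⟨w, hw⟩ := h3
        rw [← pow_mul, hw, pow_mul, ← hq, FiniteField.pow_card_sub_one_eq_one s hs0, one_pow] at h1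
        exact hne h1.symm
      obtain ⟨i', hi'⟩ : Even i := by
        have : Even (i + j) := by rw [hij]; exact ⟨m, two_mul m⟩
        exact (Nat.even_add.1 this).2 ⟨j', hj'⟩
      subst hi' hj'
      let ρ : Bool × Fin (i' + j') ≃ Fin (i' + i') ⊕ Fin (j' + j') :=
        (((Equiv.refl Bool).prodCongr finSumFinEquiv.symm).trans (Equiv.prodSumDistrib _ _ _)).trans
          (((Equiv.boolProdEquivSum _).trans finSumFinEquiv).sumCongr ((Equiv.boolProdEquivSum _).trans finSumFinEquiv))
      have hm' : m = i' + j' := by omega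
      subst hm'
      let A : Fin (i' + j') → Matrix Bool Bool F := fun l => Matrix.diagonal (fun t => if t then
        (Sum.elim (fun _ => s) (fun _ => -s) (finSumFinEquiv.symm l)) else (Sum.elim (fun _ => s) (fun _ => -s) (finSumFinEquiv.symm l)))
      refine conj_planes rfl hf x (b.reindex ρ.symm) A hz0 (fun l => ?_) (fun t l => ?_) (fun l δ _ => hdiag _ _ δ) (by omega)
      · simp only [A, Matrix.det_diagonal, Fintype.prod_bool]
        rcases finSumFinEquiv.symm l with a | a <;> simp
      · rw [← hTdef, Module.Basis.reindex_apply, Module.Basis.reindex_apply, Module.Basis.reindex_apply, Equiv.symm_symm]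
        obtain ⟨w, rfl⟩ := finSumFinEquiv.surjective l
        rcases w with a | a <;> cases t <;>
          simp [A, ρ, Equiv.prodSumDistrib, Equiv.boolProdEquivSum, hp, hmi, Matrix.diagonal_apply]
    · -- planes `⟨v, x v⟩`
      obtain ⟨k, r, b, ε, h0, h1, hr, hε⟩ := Cfsg.Lib.Derange.exists_pair_form T hz0 hTT
      have h2 : 0 < r → (2 : F) = 0 := fun hr0 => by
        by_contra h2
        exact hA ⟨h2, ε ⟨0, hr0⟩, hε _⟩
      have hcard : 2 * k + r = 2 * m := by
        have := Module.finrank_eq_card_basis b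
        simpa using this.symm
      obtain ⟨r', hr'⟩ : Even r := ⟨m - k, by omega⟩
      subst hr'
      have hm' : m = k + r' := by omega
      subst hm'
      let ρ : Bool × Fin (k + r') ≃ (Bool × Fin k) ⊕ Fin (r' + r') :=
        (((Equiv.refl Bool).prodCongr finSumFinEquiv.symm).trans (Equiv.prodSumDistrib _ _ _)).trans
          ((Equiv.refl _).sumCongr ((Equiv.boolProdEquivSum _).trans finSumFinEquiv))
      let A : Fin (k + r') → Matrix Bool Bool F := fun l => Sum.elim
        (fun _ => Matrix.of fun u v => if u = v then 0 else if u then 1 else z)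
        (fun a => Matrix.diagonal (fun u => if u then ε (finSumFinEquiv (Sum.inr a)) else ε (finSumFinEquiv (Sum.inl a))))
        (finSumFinEquiv.symm l)
      have heps : ∀ u v : Fin (r' + r'), ε u = ε v := fun u v => by
        have h := h2 (lt_of_le_of_lt (Nat.zero_le _) u.isLt)
        have : (ε u - ε v) * (ε u - ε v) = 0 := by
          linear_combination hε u - hε v + (ε v * ε v - ε u * ε v) * h
        exact sub_eq_zero.1 (mul_self_eq_zero.1 this)
      refine conj_planes rfl hf x (b.reindex ρ.symm) A (c := -z) (neg_ne_zero.2 hz0) (fun l => ?_) (fun t l => ?_) (fun l δ hδ => ?_) (by omega)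
      · rcases hl : finSumFinEquiv.symm l with a | a
        · simp only [A, hl, Sum.elim_inl]
          rw [← Matrix.det_reindex_self finTwoEquiv.symm, Matrix.det_fin_two]
          simp [finTwoEquiv]
        · simp only [A, hl, Sum.elim_inr, Matrix.det_diagonal, Fintype.prod_bool, if_true, Bool.false_eq_true, if_false]
          rw [heps (finSumFinEquiv (Sum.inr a)) (finSumFinEquiv (Sum.inl a)), hε]
          have h := h2 (lt_of_le_of_lt (Nat.zero_le _) (finSumFinEquiv (Sum.inl a) : Fin (r' + r')).isLt)
          linear_combination z * h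
      · rw [← hTdef, Module.Basis.reindex_apply, Module.Basis.reindex_apply, Module.Basis.reindex_apply, Equiv.symm_symm]
        obtain ⟨w, rfl⟩ := finSumFinEquiv.surjective l
        rcases w with a | a <;> cases t <;>
          simp [A, ρ, Equiv.prodSumDistrib, Equiv.boolProdEquivSum, h0, h1, hr, Matrix.diagonal_apply]
      · rcases hl : finSumFinEquiv.symm l with a | a
        · simp only [A, hl, Sum.elim_inl]
          by_cases hch : (2 : F) = 0
          · obtain ⟨μ, hμ⟩ := FiniteField.isSquare_of_char_two (F := F) (by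
              haveI : CharP F 2 := CharTwo.of_one_ne_zero_of_two_eq_zero one_ne_zero hch
              exact ringChar.eq F 2) δ
            exact ⟨μ • 1, by simp [Matrix.det_smul, hμ, pow_two], by simp⟩
          · obtain ⟨u, v, huv⟩ := FiniteField.exists_root_sum_quadratic (R := F) (f := Polynomial.X ^ 2 - Polynomial.C δ)
              (g := Polynomial.C (-z) * Polynomial.X ^ 2) (Polynomial.degree_X_pow_sub_C (by norm_num) δ)
              (Polynomial.degree_C_mul_X_pow 2 (neg_ne_zero.2 hz0))
              (FiniteField.odd_card_of_char_ne_two (fun h => hch (by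
                haveI : CharP F 2 := h ▸ ringChar.charP F
                exact CharP.cast_eq_zero F 2)))
            simp at huv
            refine ⟨Matrix.of fun s t => if s = t then u else if s then v else z * v, ?_, ?_⟩
            · rw [← Matrix.det_reindex_self finTwoEquiv.symm, Matrix.det_fin_two]
              simp [finTwoEquiv]
              linear_combination huv
            · ext s t
              cases s <;> cases t <;> simp [Matrix.mul_apply] <;> ring
        · simp only [A, hl, Sum.elim_inr]
          exact hdiag _ _ δ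

end Cfsg.Agent.S5967
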