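import Cfsg.Statements.S5969
import Mathlib
import Cfsg.Agent.Lib.Derange.InvolForms
import Cfsg.Agent.Lib.Classical.FieldSubalgebraTwo
-- import your own Cfsg.Agent.* helpers here

set_option autoImplicit false
open scoped MatrixGroups
open Cfsg

namespace Cfsg.Agent.S5969

open Matrix

variable {F : Type*} [Field F] [Fintype F] {n : ℕ}

/-- Basis with the swapping matrix for a map squaring to a scalar, without eigenvectors. -/
lemma pair_change (M : Matrix (Fin n) (Fin n) F) {z : F} (hz : z ≠ 0) (hM : M * M = z • 1) (m : ℕ) (hn : n = 2 * m)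
    (hns : (∀ s, s * s ≠ z) ∨ (n = 2 ∧ ∀ s : F, s * s = z → M ≠ s • 1 ∧ ∀ t : F, t * t = z → t = s)) :
    ∃ (Φ : GL (Fin n) F), M * (Φ : Matrix (Fin n) (Fin n) F) = (Φ : Matrix (Fin n) (Fin n) F) *
      (Matrix.blockDiagonal fun _ : Fin m => (Matrix.of fun u v : Bool => if u = v then 0 else if u then 1 else z : Matrix Bool Bool F)).submatrix
        (Fintype.equivFinOfCardEq (show Fintype.card (Bool × Fin m) = n by simp [hn])).symm
        (Fintype.equivFinOfCardEq (show Fintype.card (Bool × Fin m) = n by simp [hn])).symm := by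
  classical
  have hTT : ∀ v, Matrix.toLin' M (Matrix.toLin' M v) = z • v := fun v => by
    rw [Matrix.toLin'_apply, Matrix.toLin'_apply, Matrix.mulVec_mulVec, hM, Matrix.smul_mulVec, Matrix.one_mulVec]
  obtain ⟨k, r, b, ε, h0, h1, hr, hε⟩ := Cfsg.Lib.Derange.exists_pair_form _ hz hTT
  have hcard : 2 * k + r = n := by
    have := Module.finrank_eq_card_basis b
    simpa using this.symm
  have hr0 : r = 0 := by
    by_contra h
    have hsq := hε ⟨0, Nat.pos_of_ne_zero h⟩
    rcases hns with hns | ⟨hn2, hns⟩
    · exact hns _ hsq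
    · obtain ⟨hMs, huniq⟩ := hns _ hsq
      rcases Nat.eq_zero_or_pos k with hk | hk
      · refine hMs (Matrix.toLin'.injective ?_)
        refine b.ext fun i => ?_
        rcases i with ⟨-, i⟩ | j
        · exact absurd i.isLt (by omega)
        · rw [hr, huniq _ (hε j), map_smul, Matrix.toLin'_one]; rfl
      · omega
  subst hr0
  have hk : k = m := by omega
  subst hk
  set e := Fintype.equivFinOfCardEq (show Fintype.card (Bool × Fin k) = n by simp [hn])
  let b' := b.reindex ((Equiv.sumEmpty (Bool × Fin k) (Fin 0)).trans e)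
  obtain ⟨Φ, hΦ⟩ := Cfsg.Lib.Derange.exists_change M b'
  refine ⟨Φ, ?_⟩
  rw [hΦ]
  congr 1
  ext l l'
  obtain ⟨⟨s, i⟩, rfl⟩ := e.surjective l
  obtain ⟨⟨s', i'⟩, rfl⟩ := e.surjective l'
  rw [LinearMap.toMatrix_apply, Module.Basis.repr_reindex_apply, Module.Basis.reindex_apply]
  simp only [Equiv.symm_trans_apply, Equiv.symm_apply_apply, Equiv.sumEmpty_symm_apply, Matrix.submatrix_apply,
    Matrix.blockDiagonal_apply, Matrix.of_apply]
  cases s'
  · rw [h0, Module.Basis.repr_self, Finsupp.single_apply]
    by_cases hi : i = i'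
    · subst hi; cases s <;> simp
    · cases s <;> simp [hi, Ne.symm hi]
  · rw [h1, map_smul, Finsupp.smul_apply, Module.Basis.repr_self, Finsupp.single_apply]
    by_cases hi : i = i'
    · subst hi; cases s <;> simp
    · cases s <;> simp [hi, Ne.symm hi]

/-- Two such matrices are conjugate by an element of determinant one. -/
lemma conj_pair (M M' : Matrix (Fin n) (Fin n) F) {z : F} (hz : z ≠ 0) (hM : M * M = z • 1) (hM' : M' * M' = z • 1)
    (m : ℕ) (hn : n = 2 * m) (hm : 0 < m)
    (hns : (∀ s, s * s ≠ z) ∨ (n = 2 ∧ ∀ s : F, s * s = z → M ≠ s • 1 ∧ ∀ t : F, t * t = z → t = s))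
    (hns' : (∀ s, s * s ≠ z) ∨ (n = 2 ∧ ∀ s : F, s * s = z → M' ≠ s • 1 ∧ ∀ t : F, t * t = z → t = s)) :
    ∃ P : Matrix.SpecialLinearGroup (Fin n) F, M' * (P : Matrix (Fin n) (Fin n) F) = (P : Matrix (Fin n) (Fin n) F) * M := by
  classical
  obtain ⟨Φ, hΦ⟩ := pair_change M hz hM m hn hns
  obtain ⟨Φ', hΦ'⟩ := pair_change M' hz hM' m hn hns'
  set e := Fintype.equivFinOfCardEq (show Fintype.card (Bool × Fin m) = n by simp [hn])
  set D := (Matrix.blockDiagonal fun _ : Fin m => (Matrix.of fun u v : Bool => if u = v then 0 else if u then 1 else z : Matrix Bool Bool F)).submatrix e.symm e.symm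
  have hd : (Φ : Matrix (Fin n) (Fin n) F).det ≠ 0 := Matrix.GeneralLinearGroup.det_ne_zero Φ
  have hd' : (Φ' : Matrix (Fin n) (Fin n) F).det ≠ 0 := Matrix.GeneralLinearGroup.det_ne_zero Φ'
  set δ := (Φ : Matrix (Fin n) (Fin n) F).det / (Φ' : Matrix (Fin n) (Fin n) F).det
  obtain ⟨C₁, hC₁, hC₁D⟩ : ∃ C : Matrix Bool Bool F, C.det = δ ∧
      C * Matrix.of (fun u v : Bool => if u = v then 0 else if u then 1 else z) = Matrix.of (fun u v : Bool => if u = v then (0 : F) else if u then 1 else z) * C := by
    obtain ⟨u, v, huv⟩ : ∃ u v : F, u * u - z * (v * v) = δ := by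
      by_cases hch : (2 : F) = 0
      · obtain ⟨μ, hμ⟩ := FiniteField.isSquare_of_char_two (F := F) (by
          haveI : CharP F 2 := CharTwo.of_one_ne_zero_of_two_eq_zero one_ne_zero hch
          exact ringChar.eq F 2) δ
        exact ⟨μ, 0, by rw [hμ]; ring⟩
      · obtain ⟨u, v, huv⟩ := FiniteField.exists_root_sum_quadratic (R := F) (f := Polynomial.X ^ 2 - Polynomial.C δ)
          (g := Polynomial.C (-z) * Polynomial.X ^ 2) (Polynomial.degree_X_pow_sub_C (by norm_num) δ)
          (Polynomial.degree_C_mul_X_pow 2 (neg_ne_zero.2 hz))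
          (FiniteField.odd_card_of_char_ne_two (fun h => hch (by
            haveI : CharP F 2 := h ▸ ringChar.charP F
            exact CharP.cast_eq_zero F 2)))
        simp at huv
        exact ⟨u, v, by linear_combination huv⟩
    refine ⟨Matrix.of fun s t : Bool => if s = t then u else if s then v else z * v, ?_, ?_⟩
    · rw [← Matrix.det_reindex_self finTwoEquiv.symm, Matrix.det_fin_two]
      simp [finTwoEquiv]
      linear_combination huv
    · ext s t
      cases s <;> cases t <;> simp [Matrix.mul_apply, Fintype.sum_bool] <;> ring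
  let Cs : Fin m → Matrix Bool Bool F := fun i => if i = ⟨0, hm⟩ then C₁ else 1
  let C := (Matrix.blockDiagonal Cs).submatrix e.symm e.symm
  have hC : C.det = δ := by
    rw [Matrix.det_submatrix_equiv_self, Matrix.det_blockDiagonal]
    simp [Cs, apply_ite Matrix.det, hC₁, Finset.prod_ite_eq']
  have hCD : C * D = D * C := by
    rw [Matrix.submatrix_mul_equiv, Matrix.submatrix_mul_equiv, ← Matrix.blockDiagonal_mul, ← Matrix.blockDiagonal_mul]
    congr 2
    funext i
    by_cases hi : i = ⟨0, hm⟩
    · subst hi; simp [Cs, hC₁D]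
    · simp [Cs, hi]
  have hdet : ((Φ' : Matrix (Fin n) (Fin n) F) * C * ((Φ⁻¹ : GL (Fin n) F) : Matrix (Fin n) (Fin n) F)).det = 1 := by
    rw [Matrix.det_mul, Matrix.det_mul, hC, Matrix.coe_units_inv, Matrix.det_nonsing_inv, Ring.inverse_eq_inv]
    simp only [δ]
    field_simp
  refine ⟨⟨_, hdet⟩, ?_⟩
  have hΦi : ((Φ⁻¹ : GL (Fin n) F) : Matrix (Fin n) (Fin n) F) * M = D * ((Φ⁻¹ : GL (Fin n) F) : Matrix (Fin n) (Fin n) F) := by
    have this := congrArg (fun X => ((Φ⁻¹ : GL (Fin n) F) : Matrix (Fin n) (Fin n) F) * X * ((Φ⁻¹ : GL (Fin n) F) : Matrix (Fin n) (Fin n) F)) hΦ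
    simp only [Matrix.mul_assoc, Units.mul_inv, Matrix.mul_one, Units.inv_mul_cancel_left] at this
    exact this
  show M' * ((Φ' : Matrix (Fin n) (Fin n) F) * C * _) = (Φ' : Matrix (Fin n) (Fin n) F) * C * _ * M
  rw [← Matrix.mul_assoc, ← Matrix.mul_assoc, hΦ', Matrix.mul_assoc _ _ M, hΦi, Matrix.mul_assoc _ D C, ← hCD]
  simp only [Matrix.mul_assoc]

end Cfsg.Agent.S5969

namespace Cfsg.Agent.S5969

open Matrix in
set_option maxHeartbeats 2000000 in
/-- Involutions of PSL_n(q) and extension-field subgroups of degree 2. Here `T = PSL_n(F)` for a field `F` with `q = p^f` elements (`n ≥ 2`, `(n, q) ≠ (2, 2), (2, 3)`), `k` is a prime dividing `n`, `K` is a subalgebra of the `n × n` matrices that is a field of degree `k` over `F` (an extension-field structure F_{q^k} on `F^n`), and `H` is the subgroup of matrices of determinant 1 normalizing `K` — a subgroup of type GL_{n/k}(q^k) (maximal except in some small cases; maximality is not assumed); Ω is the set of cosets of `H` in `T`, so an element of `T` of prime order `r`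 (a matrix `x` of determinant 1 with `x^r` scalar, `x` not scalar) fixes a point of Ω when some conjugate of `x` by a matrix of determinant 1 normalizes `K`. Take `k = 2` and suppose the index of `H` is even. Then every involution of `T` is conjugate in `T` into `H` if and only if `n = 2`, or `q` is odd and `(q − 1)_2 ≤ (n)_2`. -/
theorem result {F : Type*} [Field F] [Fintype F] {p : ℕ} [Fact p.Prime] [CharP F p] {q : ℕ} (hq : Fintype.card F = q)
    (n : ℕ) (hn : 2 ≤ n) (hT : (n, q) ≠ (2, 2) ∧ (n, q) ≠ (2, 3))
    (k : ℕ) (hk : k.Prime) (hkn : k ∣ n) (K : Subalgebra F (Matrix (Fin n) (Fin n) F)) (hK : Cfsg.Geo.IsFieldSubalgebra k K) (hk2 : k = 2) (hΩ : 2 ∣ ((Cfsg.Geo.subalgebraNormalizer K).comap (Matrix.SpecialLinearGroup.toGL : Matrix.SpecialLinearGroup (Fin n) F →* GL (Fin n) F)).index) :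
    (∀ x : Matrix.SpecialLinearGroup (Fin n) F,
      (∃ z : F, ((x ^ 2 : Matrix.SpecialLinearGroup (Fin n) F) : Matrix (Fin n) (Fin n) F) = z • (1 : Matrix (Fin n) (Fin n) F)) →
      (∀ z : F, (x : Matrix (Fin n) (Fin n) F) ≠ z • (1 : Matrix (Fin n) (Fin n) F)) →
      ∃ P : Matrix.SpecialLinearGroup (Fin n) F, P⁻¹ * x * P ∈ ((Cfsg.Geo.subalgebraNormalizer K).comap (Matrix.SpecialLinearGroup.toGL : Matrix.SpecialLinearGroup (Fin n) F →* GL (Fin n) F))) ↔
    (n = 2 ∨ (Odd q ∧ padicValNat 2 (q - 1) ≤ padicValNat 2 n)) := by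
  classical
  subst hk2
  obtain ⟨m, rfl⟩ := hkn
  haveI := Fact.mk Nat.prime_two
  haveI : Nonempty (Fin (2 * m)) := ⟨⟨0, by omega⟩⟩
  have hq1 : 1 < q := hq ▸ Fintype.one_lt_card
  have hsq : ∀ x : Matrix.SpecialLinearGroup (Fin (2 * m)) F, ∀ z : F,
      ((x ^ 2 : Matrix.SpecialLinearGroup (Fin (2 * m)) F) : Matrix (Fin (2 * m)) (Fin (2 * m)) F) = z • (1 : Matrix (Fin (2 * m)) (Fin (2 * m)) F) →
      z ≠ 0 ∧ (x : Matrix (Fin (2 * m)) (Fin (2 * m)) F) * (x : Matrix (Fin (2 * m)) (Fin (2 * m)) F) = z • 1 := by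
    intro x z hz
    refine ⟨?_, by rw [← hz, pow_two]; rfl⟩
    rintro rfl
    have h := congrArg Matrix.det hz
    rw [(x ^ 2 : Matrix.SpecialLinearGroup (Fin (2 * m)) F).2, zero_smul, Matrix.det_zero] at h
    exact one_ne_zero h
  by_cases h2 : (2 : F) = 0
  · -- characteristic two
    haveI : CharP F 2 := CharTwo.of_one_ne_zero_of_two_eq_zero one_ne_zero h2
    have hqe : ¬ Odd q := fun h => by
      obtain ⟨j, -, hj⟩ := FiniteField.card F 2
      rw [← hq, hj] at h
      exact (Nat.not_even_iff_odd.2 h) ((even_two).pow_of_ne_zero j.ne_zero)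
    obtain ⟨k, hkK, hks⟩ : ∃ k ∈ K, ∀ c : F, k ≠ c • (1 : Matrix (Fin (2 * m)) (Fin (2 * m)) F) := by
      by_contra hc
      push Not at hc
      have h := Submodule.finrank_mono (s := Subalgebra.toSubmodule K) (t := Submodule.span F {(1 : Matrix (Fin (2 * m)) (Fin (2 * m)) F)})
        (fun y hy => by obtain ⟨c, hc⟩ := hc y hy; exact Submodule.mem_span_singleton.2 ⟨c, hc.symm⟩)
      have h' : Module.finrank F (Subalgebra.toSubmodule K) = 2 := hK.finrank_eq
      rw [h', finrank_span_singleton one_ne_zero] at h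
      omega
    have hli : LinearIndependent F ![(1 : Matrix (Fin (2 * m)) (Fin (2 * m)) F), k] := by
      rw [LinearIndependent.pair_iff' one_ne_zero]
      exact fun c hc => hks c hc.symm
    have hsp : Submodule.span F (Set.range ![(1 : Matrix (Fin (2 * m)) (Fin (2 * m)) F), k]) = Subalgebra.toSubmodule K := by
      refine Submodule.eq_of_le_of_finrank_eq ?_ ?_
      · rw [Submodule.span_le]
        rintro y ⟨i, rfl⟩
        fin_cases i
        · exact K.one_mem
        · exact hkK
      · rw [finrank_span_eq_card hli, Fintype.card_fin]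
        exact hK.finrank_eq.symm
    have hrep : ∀ y ∈ K, ∃ c d : F, y = c • (1 : Matrix (Fin (2 * m)) (Fin (2 * m)) F) + d • k := fun y hy => by
      have hy' : y ∈ Submodule.span F (Set.range ![(1 : Matrix (Fin (2 * m)) (Fin (2 * m)) F), k]) := hsp ▸ hy
      obtain ⟨c, hc⟩ := (Submodule.mem_span_range_iff_exists_fun F).1 hy'
      exact ⟨c 0, c 1, by rw [← hc, Fin.sum_univ_two]; rfl⟩
    obtain ⟨a, b, hkk⟩ := hrep (k * k) (K.mul_mem hkK hkK)
    -- `k` has no eigenvalue in `F`
    have hcancel : ∀ y ∈ K, ∀ w, y * w = 0 → y = 0 ∨ w = 0 := fun y hy w h => by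
      by_cases hy0 : y = 0
      · exact Or.inl hy0
      · obtain ⟨y', -, hy'⟩ := hK.inv _ hy hy0
        refine Or.inr ?_
        have : y' * y * w = 0 := by rw [Matrix.mul_assoc, h, Matrix.mul_zero]
        rwa [show y' * y = 1 from mul_eq_one_comm.1 hy', Matrix.one_mul] at this
    have hb : b ≠ 0 := fun hb => by
      rw [hb, zero_smul, add_zero] at hkk
      obtain ⟨c, hc⟩ := FiniteField.isSquare_of_char_two (F := F) (ringChar.eq F 2) a
      have h : (k - c • 1) * (k - c • 1) = 0 := by
        simp only [sub_mul, mul_sub, mul_smul_comm, smul_mul_assoc, one_mul, mul_one, hkk, hc]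
        match_scalars <;> first | ring1 | linear_combination (c * c) * h2 | linear_combination (-c) * h2 | linear_combination c * h2
      have hmem : k - c • 1 ∈ K := K.sub_mem hkK (K.smul_mem K.one_mem c)
      rcases hcancel _ hmem _ h with h' | h' <;> exact hks c (sub_eq_zero.1 h')
    constructor
    · intro H
      refine Or.inl (by_contra fun hne => ?_)
      let E : Matrix (Fin (2 * m)) (Fin (2 * m)) F := Matrix.single ⟨0, by omega⟩ ⟨1, by omega⟩ 1
      have hEE : E * E = 0 := by simp [E, Fin.ext_iff]
      have hdet : (1 + E).det = 1 := by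
        simpa [Matrix.transvection, E] using Matrix.det_transvection_of_ne (⟨0, by omega⟩ : Fin (2 * m)) ⟨1, by omega⟩ (by simp [Fin.ext_iff]) (1 : F)
      have hE2 : E + E = 0 := by rw [← two_smul F E, h2, zero_smul]
      have hxx : (1 + E) * (1 + E) = 1 := by
        rw [add_mul, mul_add, mul_add, one_mul, mul_one, one_mul, hEE, add_zero, add_assoc, hE2, add_zero]
      obtain ⟨P, hP⟩ := H ⟨1 + E, hdet⟩ ⟨1, by
        show (1 + E) ^ 2 = (1 : F) • (1 : Matrix (Fin (2 * m)) (Fin (2 * m)) F)
        rw [pow_two, hxx, one_smul]⟩ (fun c hc => by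
        have := congrFun (congrFun hc ⟨0, by omega⟩) ⟨1, by omega⟩
        simp [E, Matrix.single_apply, Fin.ext_iff, Matrix.one_apply] at this)
      -- transport the generator
      set y := (P⁻¹ * ⟨1 + E, hdet⟩ * P : Matrix.SpecialLinearGroup (Fin (2 * m)) F)
      have hy := (hP k).1 hkK
      obtain ⟨c, d, hcd⟩ := hrep _ hy
      let Pm : Matrix (Fin (2 * m)) (Fin (2 * m)) F := P
      let Pi : Matrix (Fin (2 * m)) (Fin (2 * m)) F := (P⁻¹ : Matrix.SpecialLinearGroup (Fin (2 * m)) F)
      have hPP : Pm * Pi = 1 := by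
        show ((P : Matrix.SpecialLinearGroup (Fin (2 * m)) F) : Matrix (Fin (2 * m)) (Fin (2 * m)) F) * _ = 1
        rw [← Matrix.SpecialLinearGroup.coe_mul, mul_inv_cancel]; rfl
      have hPP' : Pi * Pm = 1 := mul_eq_one_comm.1 hPP
      set k' := Pm * k * Pi with hk'
      -- `x k' x = c + d k'`
      have hconj : (1 + E) * k' * (1 + E) = c • 1 + d • k' := by
        have h' : Pi * (1 + E) * Pm * k * (Pi * (1 + E) * Pm) = c • 1 + d • k := by
          rw [← hcd]
          show _ = ((Matrix.SpecialLinearGroup.toGL y : GL (Fin (2 * m)) F) : Matrix _ _ F) * k * (((Matrix.SpecialLinearGroup.toGL y)⁻¹ : GL (Fin (2 * m)) F) : Matrix _ _ F)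
          rw [← map_inv]
          have hyinv : y⁻¹ = y := by
            rw [inv_eq_iff_mul_eq_one]
            let xs : Matrix.SpecialLinearGroup (Fin (2 * m)) F := ⟨1 + E, hdet⟩
            have : xs * xs = 1 := Subtype.ext hxx
            simp only [y]
            show P⁻¹ * xs * P * (P⁻¹ * xs * P) = 1
            calc P⁻¹ * xs * P * (P⁻¹ * xs * P) = P⁻¹ * (xs * xs) * P := by group
              _ = 1 := by rw [this]; group
          rw [hyinv]
          rfl
        have e : Pm * (c • (1 : Matrix (Fin (2 * m)) (Fin (2 * m)) F) + d • k) * Pi = c • 1 + d • k' := by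
          rw [hk']
          simp only [Matrix.mul_add, Matrix.add_mul, Matrix.mul_smul, Matrix.smul_mul, Matrix.mul_one, hPP]
        rw [← e, ← h', hk']
        simp only [← Matrix.mul_assoc, hPP, Matrix.one_mul]
        simp only [Matrix.mul_assoc, hPP, Matrix.mul_one]
      have hk'k' : k' * k' = a • 1 + b • k' := by
        rw [hk', Matrix.mul_assoc (Pm * k), ← Matrix.mul_assoc Pi, ← Matrix.mul_assoc Pi, hPP', Matrix.one_mul,
          ← Matrix.mul_assoc, Matrix.mul_assoc Pm, hkk]
        simp only [Matrix.mul_add, Matrix.add_mul, Matrix.mul_smul, Matrix.smul_mul, Matrix.mul_one, hPP]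
      have hind : ∀ u v : F, u • (1 : Matrix (Fin (2 * m)) (Fin (2 * m)) F) + v • k' = 0 → u = 0 ∧ v = 0 := fun u v h => by
        have h' := congrArg (fun X => Pi * X * Pm) h
        simp only [hk', Matrix.mul_add, Matrix.add_mul, Matrix.mul_smul, Matrix.smul_mul, Matrix.mul_one, hPP',
          Matrix.mul_zero, Matrix.zero_mul] at h'
        rw [show Pi * (Pm * k * Pi) * Pm = k by
          simp only [Matrix.mul_assoc, hPP', Matrix.mul_one]; rw [← Matrix.mul_assoc, hPP', Matrix.one_mul]] at h'
        exact (LinearIndependent.pair_iff.1 hli) u v h'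
      -- the image is a root of the same polynomial
      have hroot : (c • 1 + d • k') * (c • 1 + d • k') = a • 1 + b • (c • (1 : Matrix (Fin (2 * m)) (Fin (2 * m)) F) + d • k') := by
        have e : (1 + E) * k' * (1 + E) * ((1 + E) * k' * (1 + E)) = (1 + E) * (k' * k') * (1 + E) := by
          calc _ = (1 + E) * k' * ((1 + E) * (1 + E)) * k' * (1 + E) := by simp only [Matrix.mul_assoc]
            _ = _ := by rw [hxx, Matrix.mul_one]; simp only [Matrix.mul_assoc]
        rw [hconj, hk'k'] at e
        rw [e, ← hconj]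
        generalize 1 + E = X at hxx ⊢
        simp only [Matrix.mul_add, Matrix.add_mul, Matrix.mul_smul, Matrix.smul_mul, Matrix.mul_one, hxx]
      have hroot' : (c • 1 + d • k') * (c • 1 + d • k') = (c * c) • 1 + (d * d) • (a • (1 : Matrix (Fin (2 * m)) (Fin (2 * m)) F) + b • k') := by
        rw [← hk'k']
        simp only [add_mul, mul_add, mul_smul_comm, smul_mul_assoc, one_mul, mul_one]
        match_scalars <;> first | ring1 | linear_combination (c * d) * h2
      obtain ⟨e1, e2⟩ := hind (c * c + d * d * a - a - b * c) (d * d * b - b * d)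
        (by linear_combination (norm := module) hroot'.symm.trans hroot)
      have hd01 : d * (d - 1) = 0 := (mul_eq_zero.1 (show b * (d * (d - 1)) = 0 by linear_combination e2)).resolve_left hb
      have hcomm : (1 + E) * k' = (c • 1 + d • k') * (1 + E) := by
        rw [← hconj, Matrix.mul_assoc ((1 + E) * k'), hxx, Matrix.mul_one]
      have hd1 : d = 1 := by
        rcases mul_eq_zero.1 hd01 with h | h
        · exfalso
          rw [h, zero_smul, add_zero] at hconj
          have h' := congrArg (fun X => (1 + E) * X * (1 + E)) hconj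
          simp only [Matrix.mul_smul, Matrix.smul_mul, Matrix.mul_one, hxx, ← Matrix.mul_assoc, Matrix.one_mul] at h'
          rw [Matrix.mul_assoc, hxx, Matrix.mul_one] at h'
          exact neg_ne_zero.2 (one_ne_zero (α := F)) ((hind c (-1) (by rw [h']; module)).2)
        · exact sub_eq_zero.1 h
      subst hd1
      rw [one_smul] at hcomm
      have hc0 : c = 0 := by
        rw [Matrix.add_mul, Matrix.mul_add, Matrix.one_mul, Matrix.mul_one] at hcomm
        have h := congrFun (congrFun hcomm ⟨2, by omega⟩) ⟨2, by omega⟩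
        simp [E, Matrix.add_apply, Matrix.one_apply, Fin.ext_iff] at h
        linear_combination h
      subst hc0
      rw [zero_smul, zero_add] at hcomm
      have hEk : E * k' = k' * E := by
        rw [add_mul, mul_add, one_mul, mul_one] at hcomm
        exact add_left_cancel hcomm
      -- the first basis vector is an eigenvector
      have hcol : ∀ i : Fin (2 * m), i ≠ ⟨0, by omega⟩ → k' i ⟨0, by omega⟩ = 0 := fun i hi => by
        have h := congrFun (congrFun hEk i) ⟨1, by omega⟩
        simp only [E] at h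
        rw [Matrix.single_mul_apply_of_ne (h := hi), Matrix.mul_single_apply_same, mul_one] at h
        exact h.symm
      set l := k' ⟨0, by omega⟩ ⟨0, by omega⟩
      let w : Matrix (Fin (2 * m)) (Fin (2 * m)) F := Matrix.single ⟨0, by omega⟩ ⟨0, by omega⟩ 1
      have hw : (k' - l • 1) * w = 0 := by
        ext i j
        simp only [w, Matrix.mul_apply, Matrix.single_apply, Matrix.sub_apply, Matrix.smul_apply, Matrix.one_apply, Matrix.zero_apply]
        by_cases hj : j = (⟨0, by omega⟩ : Fin (2 * m))
        · subst hj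
          rw [Finset.sum_eq_single (⟨0, by omega⟩ : Fin (2 * m))]
          · by_cases hi : i = (⟨0, by omega⟩ : Fin (2 * m))
            · subst hi; simp [l]
            · simp [hi, hcol i hi]
          · intro u _ hu; simp [Ne.symm hu]
          · simp
        · refine Finset.sum_eq_zero fun u _ => ?_
          simp [Ne.symm hj]
      have hw' : (k - l • 1) * (Pi * w) = 0 := by
        have : Pi * (k' - l • 1) * w = 0 := by rw [Matrix.mul_assoc, hw, Matrix.mul_zero]
        rw [← Matrix.mul_assoc]
        convert this using 2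
        rw [hk', Matrix.mul_sub, Matrix.sub_mul, Matrix.mul_smul, Matrix.smul_mul, Matrix.mul_one, Matrix.one_mul,
          ← Matrix.mul_assoc, ← Matrix.mul_assoc, hPP', Matrix.one_mul]
      rcases hcancel _ (K.sub_mem hkK (K.smul_mem K.one_mem l)) _ hw' with h | h
      · exact hks l (sub_eq_zero.1 h)
      · have : Pm * (Pi * w) = 0 := by rw [h, Matrix.mul_zero]
        rw [← Matrix.mul_assoc, hPP, Matrix.one_mul] at this
        simpa [w] using congrFun (congrFun this ⟨0, by omega⟩) ⟨0, by omega⟩
    · rintro (hn2 | ⟨hodd, -⟩)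
      swap
      · exact absurd hodd hqe
      intro x hx hns
      obtain ⟨z, hz⟩ := hx
      obtain ⟨hz0, hxx⟩ := hsq x z hz
      obtain rfl : m = 1 := by omega
      -- an element interchanging `k` and `k + b`
      obtain ⟨v, hv⟩ : ∃ v, LinearIndependent F ![v, k *ᵥ v] := by
        refine ⟨Pi.single ⟨0, by omega⟩ 1, ?_⟩
        rw [LinearIndependent.pair_iff' (by simp)]
        intro c hc
        let w : Matrix (Fin (2 * 1)) (Fin (2 * 1)) F := Matrix.single ⟨0, by omega⟩ ⟨0, by omega⟩ 1
        have hw : (k - c • 1) * w = 0 := by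
          ext i j
          have hi := congrFun hc i
          simp [Matrix.mulVec_single, Pi.single_apply] at hi
          simp only [w, Matrix.mul_apply, Matrix.single_apply, Matrix.sub_apply, Matrix.smul_apply, Matrix.one_apply, Matrix.zero_apply]
          rw [Finset.sum_eq_single (⟨0, by omega⟩ : Fin (2 * 1))]
          · by_cases hj : j = (⟨0, by omega⟩ : Fin (2 * 1))
            · subst hj
              by_cases hii : i = (⟨0, by omega⟩ : Fin (2 * 1)) <;> simp [hii] at hi ⊢ <;> linear_combination -hi
            · simp only [Ne.symm hj, and_false, if_false, mul_zero]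
          · intro u _ hu; simp only [Ne.symm hu, false_and, if_false, mul_zero]
          · simp
        rcases hcancel _ (K.sub_mem hkK (K.smul_mem K.one_mem c)) _ hw with h | h
        · exact hks c (sub_eq_zero.1 h)
        · simpa [w] using congrFun (congrFun h ⟨0, by omega⟩) ⟨0, by omega⟩
      let bs : Module.Basis (Fin 2) F (Fin (2 * 1) → F) := basisOfLinearIndependentOfCardEqFinrank hv (by simp)
      have hbs : ∀ i, bs i = ![v, k *ᵥ v] i := fun i => by simp [bs]
      let gl : (Fin (2 * 1) → F) →ₗ[F] (Fin (2 * 1) → F) := bs.constr F ![v, b • v + k *ᵥ v]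
      let g := LinearMap.toMatrix' gl
      have hg0 : g *ᵥ v = v := by
        rw [LinearMap.toMatrix'_mulVec]
        simpa [hbs, gl] using bs.constr_basis F ![v, b • v + k *ᵥ v] 0
      have hg1 : g *ᵥ (k *ᵥ v) = b • v + k *ᵥ v := by
        rw [LinearMap.toMatrix'_mulVec]
        simpa [hbs, gl] using bs.constr_basis F ![v, b • v + k *ᵥ v] 1
      have hext : ∀ M N : Matrix (Fin (2 * 1)) (Fin (2 * 1)) F, M *ᵥ v = N *ᵥ v → M *ᵥ (k *ᵥ v) = N *ᵥ (k *ᵥ v) → M = N := by
        intro M N e0 e1
        refine Matrix.toLin'.injective (bs.ext fun i => ?_)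
        rw [Matrix.toLin'_apply, Matrix.toLin'_apply, hbs]
        fin_cases i
        · exact e0
        · exact e1
      have hgg : g * g = (1 : F) • 1 := by
        refine hext _ _ ?_ ?_
        · rw [← Matrix.mulVec_mulVec, hg0, hg0, one_smul, Matrix.one_mulVec]
        · rw [← Matrix.mulVec_mulVec, hg1, Matrix.mulVec_add, Matrix.mulVec_smul, hg0, hg1, one_smul, Matrix.one_mulVec]
          funext i; simp only [Pi.add_apply, Pi.smul_apply, smul_eq_mul]
          linear_combination (b * v i) * h2
      have hgk : g * k = (b • 1 + k) * g := by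
        refine hext _ _ ?_ ?_
        · rw [← Matrix.mulVec_mulVec, ← Matrix.mulVec_mulVec, hg0, hg1, Matrix.add_mulVec, Matrix.smul_mulVec, Matrix.one_mulVec]
        · have hk2 : k *ᵥ (k *ᵥ v) = a • v + b • (k *ᵥ v) := by
            rw [Matrix.mulVec_mulVec, hkk, Matrix.add_mulVec, Matrix.smul_mulVec, Matrix.one_mulVec, Matrix.smul_mulVec]
          rw [← Matrix.mulVec_mulVec, ← Matrix.mulVec_mulVec, hk2]
          simp only [Matrix.mulVec_add, Matrix.mulVec_smul, Matrix.add_mulVec, Matrix.smul_mulVec, Matrix.one_mulVec, hg0, hg1, hk2]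
          funext i; simp only [Pi.add_apply, Pi.smul_apply, smul_eq_mul]
          linear_combination (-(b * (k *ᵥ v) i)) * h2
      have hz1 : z = 1 := by
        have h := congrArg Matrix.det hxx
        rw [Matrix.det_mul, x.2, one_mul, Matrix.det_smul, Matrix.det_one, mul_one, Fintype.card_fin] at h
        have : (z - 1) * (z - 1) = 0 := by linear_combination -h + (1 - z) * h2
        exact sub_eq_zero.1 (mul_self_eq_zero.1 this)
      subst hz1
      have huniq : ∀ s t : F, s * s = 1 → t * t = 1 → t = s := fun s t hs ht => by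
        have : (t - s) * (t - s) = 0 := by linear_combination ht - hs + (s * s - t * s) * h2
        exact sub_eq_zero.1 (mul_self_eq_zero.1 this)
      have hgne : ∀ s : F, g ≠ s • 1 := fun s hs => by
        rw [hs] at hgk
        have hs0 : s ≠ 0 := fun h0 => by rw [hs, h0, zero_smul, zero_mul, one_smul] at hgg; exact zero_ne_one hgg
        simp only [Matrix.smul_mul, Matrix.one_mul, Matrix.mul_smul, Matrix.mul_one, smul_add] at hgk
        have : (s * b) • (1 : Matrix (Fin (2 * 1)) (Fin (2 * 1)) F) = 0 := by linear_combination (norm := module) -hgk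
        exact mul_ne_zero hs0 hb (Cfsg.Lib.Classical.FieldSubalgebraTwo.scalar_inj this)
      obtain ⟨P, hP⟩ := conj_pair g (x : Matrix (Fin (2 * 1)) (Fin (2 * 1)) F) one_ne_zero hgg hxx 1 rfl one_pos
        (Or.inr ⟨rfl, fun s hs => ⟨hgne s, fun t ht => huniq s t hs ht⟩⟩)
        (Or.inr ⟨rfl, fun s hs => ⟨hns s, fun t ht => huniq s t hs ht⟩⟩)
      refine ⟨P, ?_⟩
      have hy : ((Matrix.SpecialLinearGroup.toGL (P⁻¹ * x * P) : GL (Fin (2 * 1)) F) : Matrix (Fin (2 * 1)) (Fin (2 * 1)) F) = g := by
        show ((P⁻¹ * x * P : Matrix.SpecialLinearGroup (Fin (2 * 1)) F) : Matrix (Fin (2 * 1)) (Fin (2 * 1)) F) = g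
        rw [Matrix.SpecialLinearGroup.coe_mul, Matrix.SpecialLinearGroup.coe_mul, Matrix.mul_assoc, hP, ← Matrix.mul_assoc,
          ← Matrix.SpecialLinearGroup.coe_mul, inv_mul_cancel, Matrix.SpecialLinearGroup.coe_one, Matrix.one_mul]
      set G := (Matrix.SpecialLinearGroup.toGL (P⁻¹ * x * P) : GL (Fin (2 * 1)) F)
      have hGi : ((G⁻¹ : GL (Fin (2 * 1)) F) : Matrix (Fin (2 * 1)) (Fin (2 * 1)) F) = g := by
        rw [Matrix.coe_units_inv, hy]
        exact Matrix.inv_eq_right_inv (hgg.trans (one_smul _ _))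
      have key : ∀ y ∈ K, g * y * g ∈ K := fun y hy => by
        obtain ⟨c, d, rfl⟩ := hrep y hy
        simp only [Matrix.mul_add, Matrix.add_mul, Matrix.mul_smul, Matrix.smul_mul, Matrix.mul_one]
        rw [hgk, Matrix.mul_assoc (b • 1 + k), hgg, one_smul, Matrix.mul_one]
        exact K.add_mem (K.smul_mem K.one_mem c) (K.smul_mem (K.add_mem (K.smul_mem K.one_mem b) hkK) d)
      intro y
      rw [hy, hGi]
      refine ⟨key y, fun h => ?_⟩
      have := key _ h
      rwa [show g * (g * y * g) * g = g * g * y * (g * g) by simp only [Matrix.mul_assoc], hgg, one_smul, Matrix.one_mul, Matrix.mul_one] at this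
  · -- odd characteristic
    obtain ⟨J, ν, hJK, hJJ, hν, hind, hrep⟩ := Cfsg.Lib.Classical.FieldSubalgebraTwo.exists_gen h2 hK
    have hν0 : ν ≠ 0 := fun h => hν 0 (by simp [h])
    have hnorm := Cfsg.Lib.Classical.FieldSubalgebraTwo.normalizer_gen h2 hJK hJJ hν hind hrep
    have hqo : Odd q := by
      rw [Nat.odd_iff, ← hq]
      exact FiniteField.odd_card_of_char_ne_two fun h => h2 (by
        haveI : CharP F 2 := h ▸ ringChar.charP F
        exact CharP.cast_eq_zero F 2)
    constructor
    · intro H
      by_contra hcon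
      push Not at hcon
      obtain ⟨hn2, hlt⟩ := hcon
      have hlt := hlt hqo
      set v := padicValNat 2 (2 * m)
      obtain ⟨g, hg⟩ := IsCyclic.exists_generator (α := Fˣ)
      have ho : orderOf g = q - 1 := by
        rw [orderOf_eq_card_of_forall_mem_zpowers hg, Nat.card_units, Nat.card_eq_fintype_card, hq]
      obtain ⟨M, hM⟩ : 2 ^ (v + 1) ∣ q - 1 := (pow_dvd_pow 2 (by omega : v + 1 ≤ padicValNat 2 (q - 1))).trans pow_padicValNat_dvd
      have hM0 : M ≠ 0 := fun h => by rw [h, mul_zero] at hM; omega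
      set s : F := ((g ^ M : Fˣ) : F)
      have hso : orderOf s = 2 ^ (v + 1) := by
        rw [orderOf_units, orderOf_pow_of_dvd hM0 (ho ▸ ⟨2 ^ (v + 1), by rw [hM]; ring⟩), ho, hM,
          Nat.mul_div_cancel _ (Nat.pos_of_ne_zero hM0)]
      have hsn : s ^ (2 * m) = -1 := by
        have h1 : s ^ 2 ^ v = -1 := by
          have h : s ^ 2 ^ v * s ^ 2 ^ v = 1 := by rw [← pow_add, ← two_mul, ← pow_succ', ← hso, pow_orderOf_eq_one]
          rcases mul_self_eq_one_iff.1 h with h | h
          · exact absurd (hso ▸ orderOf_dvd_of_pow_eq_one h) (fun hd => by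
              have := Nat.le_of_dvd (by positivity) hd
              exact absurd this (not_le.2 (Nat.pow_lt_pow_right (by norm_num) (by omega))))
          · exact h
        obtain ⟨t, ht⟩ : 2 ^ v ∣ 2 * m := pow_padicValNat_dvd
        have hto : Odd t := Nat.not_even_iff_odd.1 fun ⟨t', ht'⟩ =>
          pow_succ_padicValNat_not_dvd (p := 2) (n := 2 * m) (by omega) ⟨t', by rw [show padicValNat 2 (2 * m) = v from rfl, ht, ht']; ring⟩
        rw [ht, pow_mul, h1, hto.neg_one_pow]
      have hs0 : s ≠ 0 := Units.ne_zero _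
      let d : Fin (2 * m) → F := fun j => if (j : ℕ) = 0 then -s else s
      have hdet : (Matrix.diagonal d).det = 1 := by
        obtain ⟨j, hj⟩ : ∃ j, 2 * m = j + 1 := ⟨2 * m - 1, by omega⟩
        rw [Matrix.det_diagonal, Fin.prod_univ_eq_prod_range (fun j => if j = 0 then -s else s) (2 * m), hj,
          Finset.prod_range_succ']
        simp only [Nat.succ_ne_zero, if_false, if_true, Finset.prod_const, Finset.card_range]
        rw [hj, pow_succ] at hsn
        linear_combination -hsn
      obtain ⟨P, hP⟩ := H ⟨Matrix.diagonal d, hdet⟩ ⟨s * s, by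
        show Matrix.diagonal d ^ 2 = (s * s) • (1 : Matrix (Fin (2 * m)) (Fin (2 * m)) F)
        rw [Matrix.diagonal_pow, ← Matrix.diagonal_one, ← Matrix.diagonal_smul]
        congr 1
        funext j
        simp [d, pow_two]⟩ (fun z hz => by
        have h0 := congrFun (congrFun hz ⟨0, by omega⟩) ⟨0, by omega⟩
        have h1 := congrFun (congrFun hz ⟨1, by omega⟩) ⟨1, by omega⟩
        simp [d] at h0 h1
        exact hs0 ((mul_eq_zero.1 (show (2 : F) * s = 0 by linear_combination h1 - h0)).resolve_left h2))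
      have hy := (hnorm _).1 hP
      let Pm : Matrix (Fin (2 * m)) (Fin (2 * m)) F := P
      let Pi : Matrix (Fin (2 * m)) (Fin (2 * m)) F := (P⁻¹ : Matrix.SpecialLinearGroup (Fin (2 * m)) F)
      have hPP : Pm * Pi = 1 := by
        show ((P : Matrix.SpecialLinearGroup (Fin (2 * m)) F) : Matrix (Fin (2 * m)) (Fin (2 * m)) F) * _ = 1
        rw [← Matrix.SpecialLinearGroup.coe_mul, mul_inv_cancel]; rfl
      have hPP' : Pi * Pm = 1 := mul_eq_one_comm.1 hPP
      set J' := Pm * J * Pi with hJ'
      have hJ'J' : J' * J' = ν • 1 := by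
        rw [hJ', Matrix.mul_assoc (Pm * J), ← Matrix.mul_assoc Pi, ← Matrix.mul_assoc Pi, hPP', Matrix.one_mul,
          ← Matrix.mul_assoc, Matrix.mul_assoc Pm, hJJ, Matrix.mul_smul, Matrix.mul_one, Matrix.smul_mul, hPP]
      have hy' : ∃ ε : F, (ε = 1 ∨ ε = -1) ∧ Matrix.diagonal d * J' = ε • (J' * Matrix.diagonal d) := by
        have hc : ((Matrix.SpecialLinearGroup.toGL (P⁻¹ * ⟨Matrix.diagonal d, hdet⟩ * P) : GL (Fin (2 * m)) F) : Matrix (Fin (2 * m)) (Fin (2 * m)) F) = Pi * Matrix.diagonal d * Pm := rfl
        rcases hy with h | h <;> rw [hc] at h <;> have h' := congrArg (fun X => Pm * X * Pi) h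
        · refine ⟨1, Or.inl rfl, ?_⟩
          simp only [Matrix.mul_assoc, hPP, Matrix.mul_one] at h'
          rw [← Matrix.mul_assoc Pm Pi, hPP, Matrix.one_mul] at h'
          rw [one_smul, hJ']
          simp only [Matrix.mul_assoc]
          exact h'
        · refine ⟨-1, Or.inr rfl, ?_⟩
          simp only [Matrix.mul_assoc, Matrix.mul_neg, Matrix.neg_mul, hPP, Matrix.mul_one] at h'
          rw [← Matrix.mul_assoc Pm Pi, hPP, Matrix.one_mul] at h'
          rw [neg_one_smul, hJ']
          simp only [Matrix.mul_assoc]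
          exact h'
      obtain ⟨ε, hε, hεJ⟩ := hy'
      have hent : ∀ i j, J' i j * (d i - ε * d j) = 0 := fun i j => by
        have := congrFun (congrFun hεJ i) j
        rw [Matrix.diagonal_mul, Matrix.smul_apply, Matrix.mul_diagonal, smul_eq_mul] at this
        linear_combination this
      have h2s : (2 : F) * s ≠ 0 := mul_ne_zero h2 hs0
      have hsum := fun i j => congrFun (congrFun hJ'J' i) j
      rcases hε with rfl | rfl
      · have h00 := hsum ⟨0, by omega⟩ ⟨0, by omega⟩
        rw [Matrix.mul_apply, Finset.sum_eq_single (⟨0, by omega⟩ : Fin (2 * m))] at h00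
        · exact hν (J' ⟨0, by omega⟩ ⟨0, by omega⟩) (by simpa using h00)
        · intro j _ hj
          have hjv : (j : ℕ) ≠ 0 := fun h => hj (Fin.ext h)
          have := hent ⟨0, by omega⟩ j
          simp only [d, if_pos, if_neg hjv] at this
          rw [(mul_eq_zero.1 this).resolve_right (fun h => h2s (by linear_combination -h)), zero_mul]
        · simp
      · have hz : ∀ i j : Fin (2 * m), (i : ℕ) ≠ 0 → (j : ℕ) ≠ 0 → J' i j = 0 := fun i j hi hj => by
          have := hent i j
          simp only [d, if_neg hi, if_neg hj] at this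
          exact (mul_eq_zero.1 this).resolve_right (fun h => h2s (by linear_combination h))
        have hval : ∀ i j : Fin (2 * m), (i : ℕ) ≠ 0 → (j : ℕ) ≠ 0 →
            J' i ⟨0, by omega⟩ * J' ⟨0, by omega⟩ j = (ν • (1 : Matrix (Fin (2 * m)) (Fin (2 * m)) F)) i j := fun i j hi hj => by
          rw [← hsum i j, Matrix.mul_apply]
          refine (Finset.sum_eq_single (f := fun u => J' i u * J' u j) (⟨0, by omega⟩ : Fin (2 * m)) (fun u _ hu => ?_) (by simp)).symm
          rw [hz i u hi (fun h => hu (Fin.ext h)), zero_mul]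
        have e11 := hval ⟨1, by omega⟩ ⟨1, by omega⟩ (by simp) (by simp)
        have e22 := hval ⟨2, by omega⟩ ⟨2, by omega⟩ (by simp) (by simp)
        have e12 := hval ⟨1, by omega⟩ ⟨2, by omega⟩ (by simp) (by simp)
        simp [Fin.ext_iff] at e11 e22 e12
        rcases e12 with h | h
        · rw [h, zero_mul] at e11; exact hν0 e11.symm
        · rw [h, mul_zero] at e22; exact hν0 e22.symm
    · intro hcond x hx hns
      obtain ⟨z, hz⟩ := hx
      obtain ⟨hz0, hxx⟩ := hsq x z hz
      have hm : 0 < m := by omega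
      -- it suffices to find a square root of `ν` which `x` normalises
      suffices hJ' : ∃ J' : Matrix (Fin (2 * m)) (Fin (2 * m)) F, J' * J' = ν • 1 ∧
          ((x : Matrix (Fin (2 * m)) (Fin (2 * m)) F) * J' = J' * x ∨ (x : Matrix (Fin (2 * m)) (Fin (2 * m)) F) * J' = -(J' * x)) by
        obtain ⟨J', hJ', hxJ⟩ := hJ'
        obtain ⟨P, hP⟩ := conj_pair J J' hν0 hJJ hJ' m rfl hm (Or.inl hν) (Or.inl hν)
        refine ⟨P, (hnorm _).2 ?_⟩
        show (((P⁻¹ * x * P : Matrix.SpecialLinearGroup (Fin (2 * m)) F)) : Matrix (Fin (2 * m)) (Fin (2 * m)) F) * J = J * (((P⁻¹ * x * P : Matrix.SpecialLinearGroup (Fin (2 * m)) F)) : Matrix (Fin (2 * m)) (Fin (2 * m)) F) ∨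
          (((P⁻¹ * x * P : Matrix.SpecialLinearGroup (Fin (2 * m)) F)) : Matrix (Fin (2 * m)) (Fin (2 * m)) F) * J = -(J * (((P⁻¹ * x * P : Matrix.SpecialLinearGroup (Fin (2 * m)) F)) : Matrix (Fin (2 * m)) (Fin (2 * m)) F))
        simp only [Matrix.SpecialLinearGroup.coe_mul]
        have hJ2 : J = ((P⁻¹ : Matrix.SpecialLinearGroup (Fin (2 * m)) F) : Matrix (Fin (2 * m)) (Fin (2 * m)) F) * J' * (P : Matrix (Fin (2 * m)) (Fin (2 * m)) F) := by
          rw [Matrix.mul_assoc, hP, ← Matrix.mul_assoc, ← Matrix.SpecialLinearGroup.coe_mul, inv_mul_cancel,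
            Matrix.SpecialLinearGroup.coe_one, Matrix.one_mul]
        set Pm := (P : Matrix (Fin (2 * m)) (Fin (2 * m)) F)
        set Pi := ((P⁻¹ : Matrix.SpecialLinearGroup (Fin (2 * m)) F) : Matrix (Fin (2 * m)) (Fin (2 * m)) F)
        have hPP : Pm * Pi = 1 := by
          show ((P : Matrix.SpecialLinearGroup (Fin (2 * m)) F) : Matrix (Fin (2 * m)) (Fin (2 * m)) F) * _ = 1
          rw [← Matrix.SpecialLinearGroup.coe_mul, mul_inv_cancel]; rfl
        have hassoc : ∀ A B : Matrix (Fin (2 * m)) (Fin (2 * m)) F, Pi * A * Pm * (Pi * B * Pm) = Pi * (A * B) * Pm := fun A B => by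
          calc _ = Pi * A * (Pm * Pi) * B * Pm := by simp only [Matrix.mul_assoc]
            _ = _ := by rw [hPP, Matrix.mul_one]; simp only [Matrix.mul_assoc]
        rw [hJ2, hassoc, hassoc]
        rcases hxJ with h | h
        · left; rw [h]
        · right; rw [h, Matrix.mul_neg, Matrix.neg_mul]
      by_cases hzs : ∃ s, s * s = z
      · obtain ⟨s, rfl⟩ := hzs
        have hs0 : s ≠ 0 := left_ne_zero_of_mul hz0
        set T := Matrix.toLin' (x : Matrix (Fin (2 * m)) (Fin (2 * m)) F) with hTdef
        have hTT : ∀ v, T (T v) = (s * s) • v := fun v => by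
          rw [hTdef, Matrix.toLin'_apply, Matrix.toLin'_apply, Matrix.mulVec_mulVec, hxx, Matrix.smul_mulVec, Matrix.one_mulVec]
        obtain ⟨i, j, b, hp, hmi⟩ := Cfsg.Lib.Derange.exists_diag_form h2 T hs0 hTT
        have hij : i + j = 2 * m := by
          have := Module.finrank_eq_card_basis b
          simpa using this.symm
        -- lift a map on the basis
        suffices hπ : ∃ (π : Fin i ⊕ Fin j → Fin i ⊕ Fin j) (w : Fin i ⊕ Fin j → F) (σ : F), (σ = 1 ∨ σ = -1) ∧
            (∀ l, π (π l) = l) ∧ (∀ l, w l * w (π l) = ν) ∧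
            (∀ l, (Sum.elim (fun _ => s) (fun _ => -s) (π l) : F) = σ * Sum.elim (fun _ => s) (fun _ => -s) l) by
          obtain ⟨π, w, σ, hσ, hππ, hw, hπσ⟩ := hπ
          let Jl : (Fin (2 * m) → F) →ₗ[F] (Fin (2 * m) → F) := b.constr F fun l => w l • b (π l)
          have hJl : ∀ l, Jl (b l) = w l • b (π l) := fun l => b.constr_basis F _ l
          have hTb : ∀ l, T (b l) = (Sum.elim (fun _ => s) (fun _ => -s) l : F) • b l := fun l => by
            rcases l with l | l
            · exact hp l
            · exact hmi l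
          have hcm : ∀ l, T (Jl (b l)) = σ • Jl (T (b l)) := fun l => by
            rw [hJl, map_smul, hTb, hTb, map_smul, hJl, hπσ, smul_smul, smul_smul, smul_smul]
            congr 1; ring
          refine ⟨LinearMap.toMatrix' Jl, Matrix.toLin'.injective (b.ext fun l => ?_), ?_⟩
          · rw [Matrix.toLin'_mul, Matrix.toLin'_toMatrix', map_smul, Matrix.toLin'_one, LinearMap.comp_apply, hJl, map_smul, hJl,
              hππ, smul_smul, hw, LinearMap.smul_apply, LinearMap.id_apply]
          · rcases hσ with rfl | rfl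
            · left
              refine Matrix.toLin'.injective (b.ext fun l => ?_)
              rw [Matrix.toLin'_mul, Matrix.toLin'_mul, Matrix.toLin'_toMatrix', LinearMap.comp_apply, LinearMap.comp_apply, ← hTdef,
                hcm, one_smul]
            · right
              refine Matrix.toLin'.injective (b.ext fun l => ?_)
              rw [Matrix.toLin'_mul, map_neg, Matrix.toLin'_mul, Matrix.toLin'_toMatrix', LinearMap.neg_apply, LinearMap.comp_apply,
                LinearMap.comp_apply, ← hTdef, hcm, neg_one_smul]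
        -- the two cases
        by_cases hje : Even j
        · obtain ⟨j', hj'⟩ := hje
          obtain ⟨i', hi'⟩ : Even i := by
            have : Even (i + j) := by rw [hij]; exact ⟨m, two_mul m⟩
            exact (Nat.even_add.1 this).2 ⟨j', hj'⟩
          subst hi' hj'
          let pi : ∀ a : ℕ, Fin (a + a) → Fin (a + a) := fun a l => finSumFinEquiv (finSumFinEquiv.symm l).swap
          let wi : ∀ a : ℕ, Fin (a + a) → F := fun a l => Sum.elim (fun _ => 1) (fun _ => ν) (finSumFinEquiv.symm l)
          refine ⟨Sum.map (pi i') (pi j'), Sum.elim (wi i') (wi j'), 1, Or.inl rfl, fun l => ?_, fun l => ?_, fun l => ?_⟩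
          · rcases l with l | l <;> simp [pi, Sum.swap_swap]
          · rcases l with l | l <;> obtain ⟨u, rfl⟩ := finSumFinEquiv.surjective l <;> rcases u with u | u <;> simp only [pi, wi, Equiv.symm_apply_apply, Sum.map_inl, Sum.map_inr, Sum.elim_inl, Sum.elim_inr, Sum.swap_inl, Sum.swap_inr, one_mul, mul_one]
          · rcases l with l | l <;> simp
        · -- then the two eigenspaces have equal dimensions
          have hji : i = j := by
            rcases hcond with hn2 | ⟨-, hv⟩
            · rcases Nat.eq_zero_or_pos i with h | h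
              · exfalso
                refine hns (-s) (Matrix.toLin'.injective (b.ext fun l => ?_))
                rcases l with l | l
                · exact absurd l.isLt (by omega)
                · rw [map_smul, Matrix.toLin'_one, LinearMap.smul_apply, LinearMap.id_apply]; exact hmi l
              · have := Nat.pos_of_ne_zero (fun h : j = 0 => hje (h ▸ ⟨0, rfl⟩))
                omega
            · exfalso
              have hdet : s ^ (2 * m) * (-1) ^ j = 1 := by
                have h : LinearMap.det T = 1 := by rw [hTdef, LinearMap.det_toLin']; exact x.2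
                rw [← LinearMap.det_toMatrix b] at h
                rw [show LinearMap.toMatrix b b T = Matrix.diagonal (Sum.elim (fun _ => s) (fun _ => -s)) by
                  ext u v
                  rw [LinearMap.toMatrix_apply, Matrix.diagonal_apply]
                  rcases v with v | v
                  · rw [hp]; by_cases huv : u = Sum.inl v
                    · subst huv; simp
                    · simp [huv, Ne.symm huv]
                  · rw [hmi]; by_cases huv : u = Sum.inr v
                    · subst huv; simp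
                    · simp [huv, Ne.symm huv], Matrix.det_diagonal, Fintype.prod_sum_type] at h
                simp only [Sum.elim_inl, Sum.elim_inr, Finset.prod_const, Finset.card_univ, Fintype.card_fin] at h
                rw [← hij, pow_add]
                rw [neg_pow] at h
                linear_combination h
              rw [(Nat.not_even_iff_odd.1 hje).neg_one_pow] at hdet
              have hsn : s ^ (2 * m) = -1 := by linear_combination -hdet
              obtain ⟨M, hM⟩ : 2 ^ padicValNat 2 (q - 1) ∣ q - 1 := pow_padicValNat_dvd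
              have hMo : Odd M := Nat.not_even_iff_odd.1 fun ⟨M', hM'⟩ =>
                pow_succ_padicValNat_not_dvd (p := 2) (n := q - 1) (by omega) ⟨M', by nth_rewrite 1 [hM]; rw [hM']; ring⟩
              have h1 : (s ^ (2 * m)) ^ M = -1 := by rw [hsn, hMo.neg_one_pow]
              obtain ⟨w, hw⟩ : q - 1 ∣ 2 * m * M := by
                rw [hM]; exact Nat.mul_dvd_mul_right ((pow_dvd_pow 2 hv).trans pow_padicValNat_dvd) M
              rw [← pow_mul, hw, pow_mul, ← hq, FiniteField.pow_card_sub_one_eq_one s hs0, one_pow] at h1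
              exact h2 (by linear_combination h1)
          subst hji
          refine ⟨Sum.swap, Sum.elim (fun _ => 1) (fun _ => ν), -1, Or.inr rfl, fun l => Sum.swap_swap l, fun l => ?_, fun l => ?_⟩
          · rcases l with l | l <;> simp
          · rcases l with l | l <;> simp
      · -- `x` itself gives the structure
        push Not at hzs
        have hne : ringChar F ≠ 2 := fun h => h2 (by
          haveI : CharP F 2 := h ▸ ringChar.charP F
          exact CharP.cast_eq_zero F 2)
        have hzs' : ¬ IsSquare z := fun ⟨w, hw⟩ => hzs w hw.symm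
        have hν' : ¬ IsSquare ν := fun ⟨w, hw⟩ => hν w hw.symm
        obtain ⟨t, ht⟩ : IsSquare (ν / z) := by
          have hz1 := (FiniteField.pow_dichotomy hne hz0).resolve_left fun h => hzs' ((FiniteField.isSquare_iff hne hz0).2 h)
          have hν1 := (FiniteField.pow_dichotomy hne hν0).resolve_left fun h => hν' ((FiniteField.isSquare_iff hne hν0).2 h)
          rw [FiniteField.isSquare_iff hne (div_ne_zero hν0 hz0), div_pow, hz1, hν1, div_self (neg_ne_zero.2 one_ne_zero)]
        refine ⟨t • (x : Matrix (Fin (2 * m)) (Fin (2 * m)) F), ?_, Or.inl (by rw [Matrix.mul_smul, Matrix.smul_mul])⟩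
        rw [Matrix.smul_mul, Matrix.mul_smul, hxx, smul_smul, smul_smul, ← ht, div_mul_cancel₀ _ hz0]

end Cfsg.Agent.S5969
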