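import Cfsg.Statements.S5970
import Mathlib
import Cfsg.Agent.Lib.Derange.SingerNorm
import Cfsg.Agent.Lib.Derange.Nonpower
-- import your own Cfsg.Agent.* helpers here

set_option autoImplicit false
open scoped MatrixGroups
open Cfsg
open scoped Matrix

namespace Cfsg.Agent.S5970

/-- Elements of order `n` of PSL_n(q), `n` prime, and the normalizer of a Singer cycle. Here `T = PSL_n(F)` for a field `F` with `q = p^f` elements (`n ≥ 2`, `(n, q) ≠ (2, 2), (2, 3)`), `k` is a prime dividing `n`, `K` is a subalgebra of the `n × n` matrices that is a field of degree `k` over `F` (an extension-field structure F_{q^k} on `F^n`), and `H` is the subgroup of matrices of determinant 1 normalizing `K` — a subgroup of type GL_{n/k}(q^k) (maximal except in some small cases; maximality is not assumed); Ω is the set of cosets of `H` in `T`, so an element of `T` of prime order `r` (a matrix `x` of determinant 1 with `x^r` scalar, `x` not scalar) fixes a point of Ω when some conjugate of `x` by a matrix of determinant 1 normalizes `K`. Take `k = n > 3` prime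 with `n ≠ p` (so `H` is the normalizer of a Singer cycle), and suppose `n` divides the index of `H`. Then every element of `T` of order `n` is conjugate in `T` into `H` if and only if the multiplicative order of `q` modulo `n` is `n − 1`. -/
theorem result {F : Type*} [Field F] [Fintype F] {p : ℕ} [Fact p.Prime] [CharP F p] {q : ℕ} (hq : Fintype.card F = q)
    (n : ℕ) (hn : 2 ≤ n) (hT : (n, q) ≠ (2, 2) ∧ (n, q) ≠ (2, 3))
    (k : ℕ) (hk : k.Prime) (hkn : k ∣ n) (K : Subalgebra F (Matrix (Fin n) (Fin n) F)) (hK : Cfsg.Geo.IsFieldSubalgebra k K) (hkn' : k = n) (hn3 : 3 < n) (hnp : n ≠ p) (hΩ : n ∣ ((Cfsg.Geo.subalgebraNormalizer K).comap (Matrix.SpecialLinearGroup.toGL : Matrix.SpecialLinearGroup (Fin n) F →* GL (Fin n) F)).index) :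
    (∀ x : Matrix.SpecialLinearGroup (Fin n) F,
      (∃ z : F, ((x ^ n : Matrix.SpecialLinearGroup (Fin n) F) : Matrix (Fin n) (Fin n) F) = z • (1 : Matrix (Fin n) (Fin n) F)) →
      (∀ z : F, (x : Matrix (Fin n) (Fin n) F) ≠ z • (1 : Matrix (Fin n) (Fin n) F)) →
      ∃ P : Matrix.SpecialLinearGroup (Fin n) F, P⁻¹ * x * P ∈ ((Cfsg.Geo.subalgebraNormalizer K).comap (Matrix.SpecialLinearGroup.toGL : Matrix.SpecialLinearGroup (Fin n) F →* GL (Fin n) F))) ↔
    orderOf (q : ZMod n) = n - 1 := by
  classical
  obtain rfl := hkn'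
  haveI := Fact.mk hk
  have hp : p.Prime := Fact.out
  have hq0 : (q : ZMod k) ≠ 0 := fun e => by
    obtain ⟨j, -, hj⟩ := FiniteField.card F p
    rw [CharP.cast_eq_zero_iff (ZMod k) k, ← hq, hj] at e
    exact hnp ((Nat.prime_dvd_prime_iff_eq hk hp).1 (hk.dvd_of_dvd_pow e))
  have hnF : (k : F) ≠ 0 := fun e => hnp ((Nat.prime_dvd_prime_iff_eq hp hk).1 ((CharP.cast_eq_zero_iff F p k).1 e)).symm
  have hq1 : 1 < q := hq ▸ Fintype.one_lt_card
  have hdvd : k ∣ q - 1 ↔ (q : ZMod k) = 1 := by
    rw [← CharP.cast_eq_zero_iff (ZMod k) k, Nat.cast_sub hq1.le, Nat.cast_one, sub_eq_zero]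
  constructor
  · intro H
    by_contra hne
    set d := orderOf (q : ZMod k) with hd
    have hdd : d ∣ k - 1 := ZMod.orderOf_dvd_card_sub_one hq0
    have hd2 : 2 * d ≤ k - 1 := by
      obtain ⟨e, he⟩ := hdd
      rcases e with _ | _ | e
      · omega
      · exact absurd (by omega) hne
      · rw [he]; nlinarith
    by_cases hd1 : (q : ZMod k) = 1
    · obtain ⟨ω, hω⟩ := exists_prime_orderOf_dvd_card' (G := Fˣ) k (by
        rw [Nat.card_units, Nat.card_eq_fintype_card, hq]; exact hdvd.2 hd1)
      have hωk : (ω : F) ^ k = 1 := by rw [← Units.val_pow_eq_pow_val, ← hω, pow_orderOf_eq_one]; rfl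
      let i₀ : Fin k := ⟨0, by omega⟩
      let i₁ : Fin k := ⟨1, by omega⟩
      let i₂ : Fin k := ⟨2, by omega⟩
      let dd : Fin k → F := fun i => if i = i₀ then (ω : F) else if i = i₁ then (ω : F)⁻¹ else 1
      have h10 : i₁ ≠ i₀ := by simp [i₀, i₁]
      have h20 : i₂ ≠ i₀ := by simp [i₀, i₂]
      have h21 : i₂ ≠ i₁ := by simp [i₁, i₂]
      have hdet : (Matrix.diagonal dd).det = 1 := by
        rw [Matrix.det_diagonal, Fintype.prod_eq_mul i₀ i₁ h10.symm (fun i hi => by simp [dd, hi.1, hi.2])]
        simp [dd, h10]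
      let x : Matrix.SpecialLinearGroup (Fin k) F := ⟨Matrix.diagonal dd, hdet⟩
      have hxk : (x : Matrix (Fin k) (Fin k) F) ^ k = (1 : F) • 1 := by
        show Matrix.diagonal dd ^ k = _
        rw [Matrix.diagonal_pow, one_smul, ← Matrix.diagonal_one]
        congr 1
        funext i
        simp only [Pi.pow_apply, dd]
        split_ifs
        · exact hωk
        · rw [inv_pow, hωk, inv_one]
        · exact one_pow _
      have hns : ∀ c : F, (x : Matrix (Fin k) (Fin k) F) ≠ c • 1 := fun c hc => by
        have h0 := congrFun (congrFun hc i₀) i₀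
        have h2 := congrFun (congrFun hc i₂) i₂
        simp [x, dd, h20, h21] at h0 h2
        have : ω = 1 := Units.ext (by rw [h0, ← h2]; rfl)
        rw [this, orderOf_one] at hω
        omega
      obtain ⟨P, hP⟩ := H x ⟨1, hxk⟩ hns
      refine Cfsg.Lib.Derange.SingerNorm.not_conj hk hK x P hP hxk hns (s := 1) (w := Pi.single i₂ 1) (by simp) ?_
        (f := (Polynomial.X - Polynomial.C 1) * (Polynomial.X - Polynomial.C (ω : F)) * (Polynomial.X - Polynomial.C ((ω : F)⁻¹))) ?_ ?_ ?_
      · show Matrix.diagonal dd *ᵥ _ = _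
        ext i
        rw [Matrix.mulVec_diagonal, Pi.smul_apply, smul_eq_mul]
        by_cases hi : i = i₂
        · subst hi; simp [dd, h20, h21]
        · simp [hi]
      · exact mul_ne_zero (mul_ne_zero (Polynomial.X_sub_C_ne_zero _) (Polynomial.X_sub_C_ne_zero _)) (Polynomial.X_sub_C_ne_zero _)
      · refine lt_of_le_of_lt Polynomial.natDegree_mul_le ?_
        have := Polynomial.natDegree_mul_le (p := Polynomial.X - Polynomial.C (1 : F)) (q := Polynomial.X - Polynomial.C (ω : F))
        simp only [Polynomial.natDegree_X_sub_C] at this ⊢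
        omega
      · show Polynomial.aeval (Matrix.diagonalAlgHom F dd) _ = 0
        rw [Polynomial.aeval_algHom_apply]
        rw [show Polynomial.aeval dd ((Polynomial.X - Polynomial.C 1) * (Polynomial.X - Polynomial.C (ω : F)) * (Polynomial.X - Polynomial.C ((ω : F)⁻¹))) = 0 from ?_, map_zero]
        funext i
        simp only [map_mul, map_sub, Polynomial.aeval_X, Polynomial.aeval_C, Pi.mul_apply, Pi.sub_apply, Pi.zero_apply,
          Pi.algebraMap_apply, Algebra.algebraMap_self, RingHom.id_apply, dd]
        split_ifs <;> simp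
    · have hdpos : 0 < d := by
        rcases Nat.eq_zero_or_pos d with h | h
        · obtain ⟨e, he⟩ := hdd; rw [h, zero_mul] at he; omega
        · exact h
      obtain ⟨x, hx, hf⟩ := Cfsg.Lib.Derange.exists_elem_fixed (p := p) hq k hnp (fun h => hd1 (hdvd.1 h)) k (k - d)
        (by omega) (by rw [Nat.sub_sub_self (by omega)])
      set A := Matrix.toLinAlgEquiv' (x : Matrix (Fin k) (Fin k) F) - 1 with hA
      have hR : Module.finrank F (LinearMap.range A) = d := by
        have := A.finrank_range_add_finrank_ker
        rw [hf, Module.finrank_fin_fun F] at this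
        omega
      have hns : ∀ c : F, (x : Matrix (Fin k) (Fin k) F) ≠ c • 1 := fun c hc => by
        have hA' : A = (c - 1) • 1 := by rw [hA, hc, map_smul, map_one]; module
        by_cases hc1 : c = 1
        · rw [hA', hc1, sub_self, zero_smul, LinearMap.range_zero, finrank_bot] at hR; omega
        · have hker : LinearMap.ker A = ⊥ := by
            rw [LinearMap.ker_eq_bot']
            intro v hv
            rw [hA', LinearMap.smul_apply, Module.End.one_apply] at hv
            exact (smul_eq_zero.1 hv).resolve_left (sub_ne_zero.2 hc1)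
          rw [hker, finrank_bot] at hf; omega
      obtain ⟨P, hP⟩ := H x ⟨1, by rw [one_smul]; exact hx⟩ hns
      obtain ⟨w, hw, hw0⟩ := Submodule.exists_mem_ne_zero_of_ne_bot (p := LinearMap.ker A)
        (fun e => by rw [e, finrank_bot] at hf; omega)
      let U : Module.End F (LinearMap.range A) := A.restrict (fun v _ => LinearMap.mem_range_self A v)
      let χ := U.charpoly
      have hU : ∀ (g : Polynomial F) (v : LinearMap.range A), ((Polynomial.aeval U g v : LinearMap.range A) : Fin k → F) = Polynomial.aeval A g v := by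
        intro g
        induction g using Polynomial.induction_on' with
        | add a b ha hb => intro v; simp [map_add, ha, hb]
        | monomial i a =>
          intro v
          rw [Polynomial.aeval_monomial, Polynomial.aeval_monomial, Module.End.mul_apply, Module.End.mul_apply,
            Module.algebraMap_end_apply, Module.algebraMap_end_apply, Submodule.coe_smul, Module.End.pow_restrict i _]
          rfl
      have hann : Polynomial.aeval A (Polynomial.X * χ) = 0 := LinearMap.ext fun v => by
        rw [mul_comm, map_mul, Polynomial.aeval_X, Module.End.mul_apply, ← hU χ ⟨A v, LinearMap.mem_range_self A v⟩,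
          LinearMap.aeval_self_charpoly]
        rfl
      have hχ : χ.natDegree = d := by rw [LinearMap.charpoly_natDegree, hR]
      refine Cfsg.Lib.Derange.SingerNorm.not_conj hk hK x P hP (z := 1) (by rw [one_smul]; exact hx) hns (s := 1) hw0 ?_
        (f := (Polynomial.X * χ).comp (Polynomial.X - Polynomial.C 1)) ?_ ?_ ?_
      · rw [one_smul, ← sub_eq_zero]; exact LinearMap.mem_ker.1 hw
      · intro h
        rcases Polynomial.comp_eq_zero_iff.1 h with h | ⟨-, h⟩
        · exact (mul_ne_zero Polynomial.X_ne_zero (LinearMap.charpoly_monic U).ne_zero) h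
        · have := congrArg Polynomial.natDegree h
          rw [Polynomial.natDegree_X_sub_C, Polynomial.natDegree_C] at this
          omega
      · rw [Polynomial.natDegree_comp, Polynomial.natDegree_X_sub_C, mul_one,
          Polynomial.natDegree_mul Polynomial.X_ne_zero (LinearMap.charpoly_monic U).ne_zero, Polynomial.natDegree_X, hχ]
        omega
      · apply Matrix.toLinAlgEquiv'.injective
        rw [map_zero, ← Polynomial.aeval_algHom_apply, Polynomial.aeval_comp]
        simp only [map_sub, Polynomial.aeval_X, Polynomial.aeval_C, map_one]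
        exact hann
  · intro ho x hx hns
    obtain ⟨z, hz⟩ := hx
    have hz' : (x : Matrix (Fin k) (Fin k) F) ^ k = z • 1 := hz
    have hne1 : (q : ZMod k) ≠ 1 := fun e => by rw [e, orderOf_one] at ho; omega
    have hz1 : z = 1 := by
      have h := congrArg Matrix.det hz'
      rw [Matrix.det_pow, x.2, one_pow, Matrix.det_smul, Matrix.det_one, mul_one, Fintype.card_fin] at h
      have hz0 : z ≠ 0 := fun e => by rw [e, zero_pow hk.ne_zero] at h; exact one_ne_zero h
      exact orderOf_eq_one_iff.1 (Nat.eq_one_of_dvd_coprimes (hk.coprime_iff_not_dvd.2 fun h' => hne1 (hdvd.1 h'))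
        (orderOf_dvd_of_pow_eq_one h.symm) (orderOf_dvd_of_pow_eq_one (hq ▸ FiniteField.pow_card_sub_one_eq_one z hz0)))
    rw [hz1, one_smul] at hz'
    obtain ⟨h, hh, hhk, hhs⟩ := Cfsg.Lib.Derange.SingerNorm.exists_gal hk (by omega) hK
    obtain ⟨v₁, hv₁⟩ := Cfsg.Lib.Derange.SingerNorm.exists_cyclic hq (by omega) ho hnF _ hz' (fun e => hns 1 (by rw [one_smul]; exact e))
    obtain ⟨v₂, hv₂⟩ := Cfsg.Lib.Derange.SingerNorm.exists_cyclic hq (by omega) ho hnF _ hhk (fun e => hhs 1 (by rw [one_smul]; exact e))
    obtain ⟨P, hP⟩ := Cfsg.Lib.Derange.SingerNorm.conj_cyclic hnF x h hz' hhk v₁ v₂ hv₁ hv₂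
    exact ⟨P, by rw [hP]; exact hh⟩

end Cfsg.Agent.S5970
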