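import Cfsg.Statements.S5971
import Mathlib
import Cfsg.Agent.Lib.Derange.SingerNorm
import Cfsg.Agent.Lib.Derange.Nonpower
import Cfsg.Agent.Lib.Classical.LinearOrders
-- import your own Cfsg.Agent.* helpers here

set_option autoImplicit false
open scoped MatrixGroups
open Cfsg

namespace Cfsg.Agent.S5971

open scoped Matrix in
open Polynomial in
/-- A non-scalar element of determinant one and order three has a cyclic vector when the cube roots of unity are present. -/
lemma cyclic_three {F : Type*} [Field F] (h3 : (3 : F) ≠ 0) {ω : F} (hω : ω ^ 3 = 1) (hω1 : ω ≠ 1)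
    (x : Matrix (Fin 3) (Fin 3) F) (hd : x.det = 1) (hx : x ^ 3 = 1) (hns : ∀ c : F, x ≠ c • 1) :
    ∃ v : Fin 3 → F, LinearIndependent F fun j : Fin 3 => (x ^ (j : ℕ)) *ᵥ v := by
  classical
  have hωs : 1 + ω + ω ^ 2 = 0 := by
    refine (mul_eq_zero.1 (show (ω - 1) * (1 + ω + ω ^ 2) = 0 by linear_combination hω)).resolve_left (sub_ne_zero.2 hω1)
  let P : F → Matrix (Fin 3) (Fin 3) F := fun α => 1 + α ^ 2 • x + α • (x * x)
  have hxxx : x * (x * x) = 1 := by rw [← hx, pow_succ, pow_two, Matrix.mul_assoc]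
  have hxP : ∀ α : F, α ^ 3 = 1 → x * P α = α • P α := fun α hα => by
    simp only [P, Matrix.mul_add, Matrix.mul_one, Matrix.mul_smul, hxxx]
    match_scalars <;> first | ring1 | linear_combination hα | linear_combination -hα
  have hP0 : ∀ α : F, α ^ 3 = 1 → P α ≠ 0 := by
    intro α hα h0
    set y := α ^ 2 • x with hy
    have hα0 : α ≠ 0 := fun e => by rw [e] at hα; simp at hα
    have hyy : y * y = α • (x * x) := by
      rw [hy, Matrix.smul_mul, Matrix.mul_smul, smul_smul]
      congr 1; linear_combination α * hα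
    have hy3 : y ^ 3 = 1 := by rw [hy, _root_.smul_pow, hx, ← pow_mul, pow_mul', hα, one_pow, one_smul]
    have hrel : y * y = -(1 : Matrix (Fin 3) (Fin 3) F) - y := by
      have : 1 + y + y * y = 0 := by rw [hyy]; exact h0
      linear_combination (norm := module) this
    have hyd : y.det = 1 := by rw [hy, Matrix.det_smul, hd, mul_one, Fintype.card_fin, ← pow_mul, pow_mul', hα, one_pow]
    have hyns : ∀ c : F, y ≠ c • 1 := fun c hc => hns (α * c) (by
      rw [← smul_smul, ← hc, hy, smul_smul, show α * α ^ 2 = 1 by linear_combination hα, one_smul])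
    set a := y.charpoly.coeff 2
    set b := y.charpoly.coeff 1
    have hc0 : y.charpoly.coeff 0 = -1 := by
      have := Matrix.det_eq_sign_charpoly_coeff y
      rw [hyd, Fintype.card_fin] at this
      linear_combination this
    have hc3 : y.charpoly.coeff 3 = 1 := by
      have := (Matrix.charpoly_monic y).coeff_natDegree
      rwa [Matrix.charpoly_natDegree_eq_dim, Fintype.card_fin] at this
    have hCH := Matrix.aeval_self_charpoly y
    rw [aeval_eq_sum_range' (n := 4) (by rw [Matrix.charpoly_natDegree_eq_dim, Fintype.card_fin]; norm_num),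
      Finset.sum_range_succ, Finset.sum_range_succ, Finset.sum_range_succ, Finset.sum_range_succ, Finset.sum_range_zero,
      hc0, hc3, hy3, pow_two, hrel, pow_one, pow_zero] at hCH
    have hlin : (b - a) • y = a • (1 : Matrix (Fin 3) (Fin 3) F) := by linear_combination (norm := module) hCH
    have hba : b = a := by
      by_contra hne
      refine hyns ((b - a)⁻¹ * a) ?_
      rw [← smul_smul, ← hlin, smul_smul, inv_mul_cancel₀ (sub_ne_zero.2 hne), one_smul]
    rw [hba, sub_self, zero_smul] at hlin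
    have ha : a = 0 := by
      have := congrFun (congrFun hlin 0) 0
      simpa using this.symm
    have hdet1 : ((1 : Matrix (Fin 3) (Fin 3) F) - y).det = 0 := by
      rw [show (1 : Matrix (Fin 3) (Fin 3) F) = Matrix.scalar (Fin 3) (1 : F) by simp, ← Matrix.eval_charpoly,
        eval_eq_sum_range' (n := 4) (by rw [Matrix.charpoly_natDegree_eq_dim, Fintype.card_fin]; norm_num),
        Finset.sum_range_succ, Finset.sum_range_succ, Finset.sum_range_succ, Finset.sum_range_succ, Finset.sum_range_zero,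
        hc0, hc3]
      show 0 + -1 * _ + b * _ + a * _ + 1 * _ = (0 : F)
      rw [hba, ha]; ring
    obtain ⟨v, hv0, hv⟩ := Matrix.exists_mulVec_eq_zero_iff.2 hdet1
    rw [Matrix.sub_mulVec, Matrix.one_mulVec, sub_eq_zero] at hv
    have : (3 : F) • v = 0 := by
      have h := congrArg (fun M => M *ᵥ v) hrel
      simp only [← Matrix.mulVec_mulVec, ← hv, Matrix.sub_mulVec, Matrix.neg_mulVec, Matrix.one_mulVec] at h
      linear_combination (norm := module) h
    exact hv0 ((smul_eq_zero.1 this).resolve_left h3)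
  have hev : ∀ α : F, α ^ 3 = 1 → ∃ v : Fin 3 → F, v ≠ 0 ∧ x *ᵥ v = α • v := fun α hα => by
    obtain ⟨u, hu⟩ : ∃ u, P α *ᵥ u ≠ 0 := by
      by_contra hall
      push Not at hall
      exact hP0 α hα (Matrix.toLin'.injective (LinearMap.ext fun u => by simp [hall u]))
    exact ⟨_, hu, by rw [Matrix.mulVec_mulVec, hxP α hα, Matrix.smul_mulVec]⟩
  obtain ⟨u₁, hu₁, e₁⟩ := hev 1 (one_pow _)
  obtain ⟨u₂, hu₂, e₂⟩ := hev ω hω
  obtain ⟨u₃, hu₃, e₃⟩ := hev (ω ^ 2) (by rw [← pow_mul, pow_mul', hω, one_pow])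
  refine ⟨u₁ + u₂ + u₃, Fintype.linearIndependent_iff.2 fun g hg => ?_⟩
  have hg' : (g 0 + g 1 + g 2) • u₁ + (g 0 + g 1 * ω + g 2 * ω ^ 2) • u₂ + (g 0 + g 1 * ω ^ 2 + g 2 * ω) • u₃ = 0 := by
    rw [← hg, Fin.sum_univ_three]
    simp only [Fin.val_zero, Fin.val_one, Fin.val_two, pow_zero, pow_one, Matrix.one_mulVec, pow_two,
      ← Matrix.mulVec_mulVec, Matrix.mulVec_add, Matrix.mulVec_smul, e₁, e₂, e₃, smul_smul, one_mul, one_smul]
    match_scalars <;> first | ring1 | linear_combination (g 2 * ω) * hω | linear_combination (-(g 2 * ω)) * hω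
  have hP : ∀ (α β : F) (u : Fin 3 → F), x *ᵥ u = α • u → P β *ᵥ u = (1 + β ^ 2 * α + β * (α * α)) • u := fun α β u hu => by
    simp only [P, Matrix.add_mulVec, Matrix.smul_mulVec, Matrix.one_mulVec, ← Matrix.mulVec_mulVec, hu, Matrix.mulVec_smul]
    module
  have k₁ := congrArg (fun w => P 1 *ᵥ w) hg'
  have k₂ := congrArg (fun w => P ω *ᵥ w) hg'
  have k₃ := congrArg (fun w => P (ω ^ 2) *ᵥ w) hg'
  have q11 : P 1 *ᵥ u₁ = (3 : F) • u₁ := by rw [hP _ _ _ e₁]; congr 1; ring
  have q12 : P 1 *ᵥ u₂ = 0 := by rw [hP _ _ _ e₂, show (1 : F) + 1 ^ 2 * ω + 1 * (ω * ω) = 0 by linear_combination hωs, zero_smul]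
  have q13 : P 1 *ᵥ u₃ = 0 := by
    rw [hP _ _ _ e₃, show (1 : F) + 1 ^ 2 * ω ^ 2 + 1 * (ω ^ 2 * ω ^ 2) = 0 by linear_combination hωs + ω * hω, zero_smul]
  have q21 : P ω *ᵥ u₁ = 0 := by rw [hP _ _ _ e₁, show (1 : F) + ω ^ 2 * 1 + ω * (1 * 1) = 0 by linear_combination hωs, zero_smul]
  have q22 : P ω *ᵥ u₂ = (3 : F) • u₂ := by rw [hP _ _ _ e₂]; congr 1; linear_combination 2 * hω
  have q23 : P ω *ᵥ u₃ = 0 := by
    rw [hP _ _ _ e₃, show (1 : F) + ω ^ 2 * ω ^ 2 + ω * (ω ^ 2 * ω ^ 2) = 0 by linear_combination hωs + (ω + ω ^ 2) * hω, zero_smul]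
  have q31 : P (ω ^ 2) *ᵥ u₁ = 0 := by
    rw [hP _ _ _ e₁, show (1 : F) + (ω ^ 2) ^ 2 * 1 + ω ^ 2 * (1 * 1) = 0 by linear_combination hωs + ω * hω, zero_smul]
  have q32 : P (ω ^ 2) *ᵥ u₂ = 0 := by
    rw [hP _ _ _ e₂, show (1 : F) + (ω ^ 2) ^ 2 * ω + ω ^ 2 * (ω * ω) = 0 by linear_combination hωs + (ω + ω ^ 2) * hω, zero_smul]
  have q33 : P (ω ^ 2) *ᵥ u₃ = (3 : F) • u₃ := by rw [hP _ _ _ e₃]; congr 1; linear_combination (2 + 2 * ω ^ 3) * hω
  simp only [Matrix.mulVec_add, Matrix.mulVec_smul, Matrix.mulVec_zero, q11, q12, q13, q21, q22, q23, q31, q32, q33, smul_zero, add_zero, zero_add, smul_smul] at k₁ k₂ k₃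
  have z₁ : g 0 + g 1 + g 2 = 0 := (mul_eq_zero.1 ((smul_eq_zero.1 k₁).resolve_right hu₁)).resolve_right h3
  have z₂ : g 0 + g 1 * ω + g 2 * ω ^ 2 = 0 := (mul_eq_zero.1 ((smul_eq_zero.1 k₂).resolve_right hu₂)).resolve_right h3
  have z₃ : g 0 + g 1 * ω ^ 2 + g 2 * ω = 0 := (mul_eq_zero.1 ((smul_eq_zero.1 k₃).resolve_right hu₃)).resolve_right h3
  intro i
  fin_cases i
  · exact (mul_eq_zero.1 (show (3 : F) * g 0 = 0 by linear_combination z₁ + z₂ + z₃ - (g 1 + g 2) * hωs)).resolve_left h3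
  · exact (mul_eq_zero.1 (show (3 : F) * g 1 = 0 by linear_combination z₁ + ω ^ 2 * z₂ + ω * z₃ - (g 0 + g 2) * hωs - (2 * g 1 + g 2 * ω) * hω)).resolve_left h3
  · exact (mul_eq_zero.1 (show (3 : F) * g 2 = 0 by linear_combination z₁ + ω * z₂ + ω ^ 2 * z₃ - (g 0 + g 1) * hωs - (2 * g 2 + g 1 * ω) * hω)).resolve_left h3

open scoped Matrix in
/-- Elements of order 3 of PSL_3(q) and the normalizer of a Singer cycle. Here `T = PSL_n(F)` for a field `F` with `q = p^f` elements (`n ≥ 2`, `(n, q) ≠ (2, 2), (2, 3)`), `k` is a prime dividing `n`, `K` is a subalgebra of the `n × n` matrices that is a field of degree `k` over `F` (an extension-field structure F_{q^k} on `F^n`), and `H` is the subgroup of matrices of determinant 1 normalizing `K` — a subgroup of type GL_{n/k}(q^k) (maximal except in some small cases; maximality is not assumed); Ω is the set of cosets of `H` in `T`, so an element of `T` of prime order `r` (a matrix `x` of determinant 1 with `x^r` scalar, `x` not scalar)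 fixes a point of Ω when some conjugate of `x` by a matrix of determinant 1 normalizes `K`. Take `n = k = 3` and suppose 3 divides the index of `H`. Then every element of `T` of order 3 is conjugate in `T` into `H` if and only if `q ≡ 4, 7` or `8 (mod 9)`. -/
theorem result {F : Type*} [Field F] [Fintype F] {p : ℕ} [Fact p.Prime] [CharP F p] {q : ℕ} (hq : Fintype.card F = q)
    (n : ℕ) (hn : n = 3) (k : ℕ) (hk : k.Prime) (hkn : k ∣ n) (K : Subalgebra F (Matrix (Fin n) (Fin n) F)) (hK : Cfsg.Geo.IsFieldSubalgebra k K) (hk3 : k = 3) (hΩ : 3 ∣ ((Cfsg.Geo.subalgebraNormalizer K).comap (Matrix.SpecialLinearGroup.toGL : Matrix.SpecialLinearGroup (Fin n) F →* GL (Fin n) F)).index) :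
    (∀ x : Matrix.SpecialLinearGroup (Fin n) F,
      (∃ z : F, ((x ^ 3 : Matrix.SpecialLinearGroup (Fin n) F) : Matrix (Fin n) (Fin n) F) = z • (1 : Matrix (Fin n) (Fin n) F)) →
      (∀ z : F, (x : Matrix (Fin n) (Fin n) F) ≠ z • (1 : Matrix (Fin n) (Fin n) F)) →
      ∃ P : Matrix.SpecialLinearGroup (Fin n) F, P⁻¹ * x * P ∈ ((Cfsg.Geo.subalgebraNormalizer K).comap (Matrix.SpecialLinearGroup.toGL : Matrix.SpecialLinearGroup (Fin n) F →* GL (Fin n) F))) ↔
    (q % 9 = 4 ∨ q % 9 = 7 ∨ q % 9 = 8) := by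
  classical
  subst hn hk3
  haveI := Fact.mk Nat.prime_three
  have h3p : Nat.Prime 3 := Nat.prime_three
  have hq1 : 1 < q := hq ▸ Fintype.one_lt_card
  obtain ⟨h, hh, hhk, hhs⟩ := Cfsg.Lib.Derange.SingerNorm.exists_gal (F := F) (K := K) h3p (by norm_num) hK
  have hne1 : (h : Matrix (Fin 3) (Fin 3) F) ≠ 1 := fun e => hhs 1 (by rw [one_smul]; exact e)
  constructor
  · intro H
    have cex : ∀ (x : Matrix.SpecialLinearGroup (Fin 3) F) (z s : F) (w : Fin 3 → F) (f : Polynomial F),
        (x : Matrix (Fin 3) (Fin 3) F) ^ 3 = z • 1 → (∀ c : F, (x : Matrix (Fin 3) (Fin 3) F) ≠ c • 1) → w ≠ 0 →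
        (x : Matrix (Fin 3) (Fin 3) F) *ᵥ w = s • w → f ≠ 0 → f.natDegree < 3 →
        Polynomial.aeval (x : Matrix (Fin 3) (Fin 3) F) f = 0 → False := by
      intro x z s w f hz hns hw hs hf0 hfd hfx
      obtain ⟨P, hP⟩ := H x ⟨z, hz⟩ hns
      exact Cfsg.Lib.Derange.SingerNorm.not_conj h3p hK x P hP hz hns hw hs hf0 hfd hfx
    by_contra hcon
    have hcases : q % 9 = 1 ∨ q % 3 = 0 ∨ q % 9 = 2 ∨ q % 9 = 5 := by omega
    rcases hcases with h9 | h0 | h25
    · obtain ⟨g, hg⟩ := IsCyclic.exists_generator (α := Fˣ)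
      have ho : orderOf g = q - 1 := by
        rw [orderOf_eq_card_of_forall_mem_zpowers hg, Nat.card_units, Nat.card_eq_fintype_card, hq]
      set u := g ^ ((q - 1) / 9) with hu
      have huo : orderOf u = 9 := by
        rw [hu, orderOf_pow_of_dvd (by omega) (ho ▸ Nat.div_dvd_of_dvd (by omega)), ho, Nat.div_div_self (by omega) (by omega)]
      have hu9 : (u : F) ^ 9 = 1 := by rw [← Units.val_pow_eq_pow_val, ← huo, pow_orderOf_eq_one]; rfl
      have hu3 : (u : F) ^ 3 ≠ 1 := fun e => by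
        have : u ^ 3 = 1 := Units.ext (by rw [Units.val_pow_eq_pow_val]; exact e)
        have := Nat.le_of_dvd (by norm_num) (huo ▸ orderOf_dvd_of_pow_eq_one this)
        omega
      have hu0 : (u : F) ≠ 0 := u.ne_zero
      have hdet : (Matrix.diagonal ![(u : F), u, ((u : F) ^ 2)⁻¹]).det = 1 := by
        rw [Matrix.det_diagonal, Fin.prod_univ_three]; simp; field_simp
      refine cex ⟨_, hdet⟩ ((u : F) ^ 3) (u : F) (Pi.single 0 1)
        ((Polynomial.X - Polynomial.C (u : F)) * (Polynomial.X - Polynomial.C (((u : F) ^ 2)⁻¹))) ?_ ?_ (by simp) ?_ ?_ ?_ ?_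
      · show Matrix.diagonal _ ^ 3 = _
        rw [Matrix.diagonal_pow, Matrix.smul_one_eq_diagonal]
        congr 1
        funext i
        fin_cases i <;> simp
        field_simp
        linear_combination -hu9
      · intro c hc
        have a := congrFun (congrFun hc 0) 0
        have b := congrFun (congrFun hc 2) 2
        simp at a b
        refine hu3 ?_
        rw [← a] at b
        field_simp at b
        linear_combination -b
      · ext i
        show (Matrix.diagonal _ *ᵥ _) i = _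
        rw [Matrix.mulVec_diagonal]
        fin_cases i <;> simp
      · exact mul_ne_zero (Polynomial.X_sub_C_ne_zero _) (Polynomial.X_sub_C_ne_zero _)
      · refine lt_of_le_of_lt Polynomial.natDegree_mul_le ?_
        simp only [Polynomial.natDegree_X_sub_C]; norm_num
      · show Polynomial.aeval (Matrix.diagonalAlgHom F ![(u : F), u, ((u : F) ^ 2)⁻¹]) _ = 0
        rw [Polynomial.aeval_algHom_apply]
        rw [show Polynomial.aeval ![(u : F), u, ((u : F) ^ 2)⁻¹] ((Polynomial.X - Polynomial.C (u : F)) * (Polynomial.X - Polynomial.C (((u : F) ^ 2)⁻¹))) = 0 from ?_, map_zero]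
        funext i
        simp only [map_mul, map_sub, Polynomial.aeval_X, Polynomial.aeval_C, Pi.mul_apply, Pi.sub_apply, Pi.zero_apply,
          Pi.algebraMap_apply, Algebra.algebraMap_self, RingHom.id_apply]
        fin_cases i <;> simp
    · have h3F : (3 : F) = 0 := by
        obtain ⟨j, hp, hj⟩ := FiniteField.card F p
        have : p = 3 := ((Nat.prime_dvd_prime_iff_eq h3p hp).1 (h3p.dvd_of_dvd_pow (show 3 ∣ p ^ (j : ℕ) by rw [← hj, hq]; omega))).symm
        subst this
        exact_mod_cast CharP.cast_eq_zero F 3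
      have hdet : (Matrix.transvection (0 : Fin 3) 1 (1 : F)).det = 1 := Matrix.det_transvection_of_ne _ _ (by decide) _
      have hE : Matrix.single (0 : Fin 3) (1 : Fin 3) (1 : F) * Matrix.single (0 : Fin 3) (1 : Fin 3) (1 : F) = 0 := by simp
      refine cex ⟨_, hdet⟩ 1 1 (Pi.single 0 1) ((Polynomial.X - Polynomial.C 1) * (Polynomial.X - Polynomial.C 1)) ?_ ?_ (by simp) ?_ ?_ ?_ ?_
      · show Matrix.transvection (0 : Fin 3) 1 (1 : F) ^ 3 = _
        rw [one_smul, pow_succ, pow_two, Matrix.transvection_mul_transvection_same _ _ (by decide), Matrix.transvection_mul_transvection_same _ _ (by decide),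
          show (1 : F) + 1 + 1 = 0 by linear_combination h3F, Matrix.transvection_zero]
      · intro c hc
        have := congrFun (congrFun hc 0) 1
        simp [Matrix.transvection] at this
      · show Matrix.transvection (0 : Fin 3) 1 (1 : F) *ᵥ _ = _
        rw [one_smul, Matrix.mulVec_single_one]
        ext i
        fin_cases i <;> simp [Matrix.transvection]
      · exact mul_ne_zero (Polynomial.X_sub_C_ne_zero _) (Polynomial.X_sub_C_ne_zero _)
      · refine lt_of_le_of_lt Polynomial.natDegree_mul_le ?_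
        simp only [Polynomial.natDegree_X_sub_C]; norm_num
      · show Polynomial.aeval (Matrix.transvection (0 : Fin 3) 1 (1 : F)) _ = 0
        simp only [map_mul, map_sub, Polynomial.aeval_X, Polynomial.aeval_C, map_one, Matrix.transvection, add_sub_cancel_left]
        exact hE
    · set N := (Cfsg.Geo.subalgebraNormalizer K).comap (Matrix.SpecialLinearGroup.toGL : Matrix.SpecialLinearGroup (Fin 3) F →* GL (Fin 3) F)
      have ho : orderOf h = 3 := orderOf_eq_prime (Subtype.ext hhk) (fun e => hne1 (by rw [e]; rfl))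
      have h3N : 3 ∣ Nat.card N := by
        have := orderOf_dvd_natCard (⟨h, hh⟩ : N)
        rwa [← Subgroup.orderOf_coe, ho] at this
      have h9 : 9 ∣ Nat.card (Matrix.SpecialLinearGroup (Fin 3) F) := by
        rw [← N.card_mul_index]; exact Nat.mul_dvd_mul h3N hΩ
      have hcard := congrArg (Nat.cast : ℕ → ZMod 9) (Cfsg.Lib.Classical.LinearOrders.card_sl_mul (F := F) (n := 3) (by norm_num))
      rw [Nat.cast_mul, (CharP.cast_eq_zero_iff (ZMod 9) 9 _).2 h9, mul_zero, Fin.prod_univ_three, hq, Nat.cast_mul, Nat.cast_mul] at hcard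
      rw [Nat.cast_sub (Nat.pow_le_pow_right (by omega) (by simp)), Nat.cast_sub (Nat.pow_le_pow_right (by omega) (by simp)),
        Nat.cast_sub (Nat.pow_le_pow_right (by omega) (by simp)), Nat.cast_pow, Nat.cast_pow, Nat.cast_pow, Nat.cast_pow] at hcard
      rw [← ZMod.natCast_mod q 9] at hcard
      rcases h25 with e | e <;> rw [e] at hcard <;> exact absurd hcard (by decide)
  · intro hcond x hx hns
    obtain ⟨z, hz⟩ := hx
    have hz' : (x : Matrix (Fin 3) (Fin 3) F) ^ 3 = z • 1 := hz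
    have hz3 : z ^ 3 = 1 := by
      have h := congrArg Matrix.det hz'
      rw [Matrix.det_pow, x.2, one_pow, Matrix.det_smul, Matrix.det_one, mul_one, Fintype.card_fin] at h
      exact h.symm
    have hz0 : z ≠ 0 := fun e => by rw [e] at hz3; simp at hz3
    have hzq : z ^ (q - 1) = 1 := hq ▸ FiniteField.pow_card_sub_one_eq_one z hz0
    have h3F : (3 : F) ≠ 0 := fun e => by
      have hc : (q : F) = 0 := by rw [← hq]; exact FiniteField.cast_card_eq_zero F
      obtain ⟨j, hp, hj⟩ := FiniteField.card F p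
      have hp3 : p ∣ 3 := (CharP.cast_eq_zero_iff F p 3).1 (by exact_mod_cast e)
      have : p = 3 := (Nat.prime_dvd_prime_iff_eq hp h3p).1 hp3
      have h3q : 3 ∣ q := by rw [← hq, hj, this]; exact dvd_pow_self 3 j.ne_zero
      omega
    have hnF : ((3 : ℕ) : F) ≠ 0 := by exact_mod_cast h3F
    by_cases h8 : q % 9 = 8
    · have hz1 : z = 1 := orderOf_eq_one_iff.1 (Nat.eq_one_of_dvd_coprimes (h3p.coprime_iff_not_dvd.2 (by omega))
        (orderOf_dvd_of_pow_eq_one hz3) (orderOf_dvd_of_pow_eq_one hzq))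
      rw [hz1, one_smul] at hz'
      have ho : orderOf (q : ZMod 3) = 3 - 1 := by
        rw [← ZMod.natCast_mod q 3, show q % 3 = 2 by omega]
        haveI := Fact.mk Nat.prime_two
        show orderOf ((2 : ℕ) : ZMod 3) = 2
        exact orderOf_eq_prime rfl (by rw [Ne, ← Nat.cast_one, ZMod.natCast_eq_natCast_iff']; norm_num)
      obtain ⟨v₁, hv₁⟩ := Cfsg.Lib.Derange.SingerNorm.exists_cyclic hq (by norm_num) ho hnF _ hz' (fun e => hns 1 (by rw [one_smul]; exact e))
      obtain ⟨v₂, hv₂⟩ := Cfsg.Lib.Derange.SingerNorm.exists_cyclic hq (by norm_num) ho hnF _ hhk hne1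
      obtain ⟨P, hP⟩ := Cfsg.Lib.Derange.SingerNorm.conj_cyclic hnF x h hz' hhk v₁ v₂ hv₁ hv₂
      exact ⟨P, by rw [hP]; exact hh⟩
    · have h47 : q % 9 = 4 ∨ q % 9 = 7 := by omega
      obtain ⟨ω, hω⟩ := exists_prime_orderOf_dvd_card' (G := Fˣ) 3 (by rw [Nat.card_units, Nat.card_eq_fintype_card, hq]; omega)
      have hω3 : (ω : F) ^ 3 = 1 := by rw [← Units.val_pow_eq_pow_val, ← hω, pow_orderOf_eq_one]; rfl
      have hω1 : (ω : F) ≠ 1 := fun e => by rw [Units.val_eq_one.1 e, orderOf_one] at hω; omega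
      have hz1 : z = 1 := by
        by_contra hne
        have hnc : ∀ b : F, b ^ 3 ≠ z := fun b hb => by
          have hb0 : b ≠ 0 := fun e => hz0 (by rw [← hb, e]; ring)
          have hd := Nat.dvd_gcd (orderOf_dvd_of_pow_eq_one (show b ^ 9 = 1 by rw [← hz3, ← hb]; ring))
            (orderOf_dvd_of_pow_eq_one (hq ▸ FiniteField.pow_card_sub_one_eq_one b hb0))
          have hg : Nat.gcd 9 (q - 1) ∣ 3 := by
            rw [Nat.gcd_rec]
            rcases h47 with e | e <;> rw [show (q - 1) % 9 = q % 9 - 1 by omega, e] <;> decide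
          exact hne (hb ▸ orderOf_dvd_iff_pow_eq_one.1 (hd.trans hg))
        have hT : (Matrix.toLin' (x : Matrix (Fin 3) (Fin 3) F)) ^ 3 = z • 1 := by
          show (Matrix.toLinAlgEquiv' (x : Matrix (Fin 3) (Fin 3) F)) ^ 3 = _
          rw [← map_pow, hz', map_smul, map_one]
        have hdet := Cfsg.Lib.Derange.det_of_nonpower 3 h3p hnc _ hT
        rw [LinearMap.det_toLin', x.2, Module.finrank_fin_fun F] at hdet
        exact hne (by norm_num at hdet; exact hdet.symm)
      rw [hz1, one_smul] at hz'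
      obtain ⟨v₁, hv₁⟩ := cyclic_three h3F hω3 hω1 _ x.2 hz' hns
      obtain ⟨v₂, hv₂⟩ := cyclic_three h3F hω3 hω1 _ h.2 hhk hhs
      obtain ⟨P, hP⟩ := Cfsg.Lib.Derange.SingerNorm.conj_cyclic hnF x h hz' hhk v₁ v₂ hv₁ hv₂
      exact ⟨P, by rw [hP]; exact hh⟩

end Cfsg.Agent.S5971
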