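import Cfsg.Statements.S5985
import Mathlib
import Cfsg.Agent.Lib.Derange.Block
import Cfsg.Agent.Lib.Classical.LeviOmega
import Cfsg.Agent.Lib.Classical.ClassicalOrders
-- import your own Cfsg.Agent.* helpers here

set_option autoImplicit false
open scoped MatrixGroups
open Cfsg

namespace Cfsg.Agent.S5985

/-- Elements of prime order of Ω⁺_n(q), q even, with no fixed nonsingular 1-space. Here `T = PΩ⁺_n(F)`, `n = 2d ≥ 8`, realised through `Ω⁺_n(q)`, the commutator subgroup of the isometry group of `Q = Σ xᵢyᵢ` over the field `F` with `q` elements; an element of `T` of prime order `r` is an element `x` of `Ω⁺_n(q)` with `x^r` scalar and `x` not scalar; `q` is even (so the centre is trivial). Let Ω be the set of 1-dimensional subspaces spanned by a vector `v` with `Q(v) ≠ 0`, and let `r` be a prime dividing their number. Then every element of `T` of order `r` fixes some nonsingular 1-space if and only if `r = 2` and `n ≡ 2 (mod 4)` (that is, `d` is odd). -/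
theorem result {F : Type*} [Field F] [Fintype F] {p : ℕ} [Fact p.Prime] [CharP F p] {q : ℕ} (hq : Fintype.card F = q)
    (hp : p = 2) (d : ℕ) (hd : 4 ≤ d) (r : ℕ) [Fact r.Prime]
    (hrΩ : r ∣ Nat.card {W : Submodule F (Fin d ⊕ Fin d → F) // Module.finrank F ↥W = 1 ∧ ∃ v ∈ W, Cfsg.quadFormPlus d F v ≠ 0}) :
    (∀ x : GL (Fin d ⊕ Fin d) F, x ∈ Cfsg.Geo.omegaGL (Cfsg.quadFormPlus d F) →
      (∃ z : F, ((x ^ r : GL (Fin d ⊕ Fin d) F) : Matrix (Fin d ⊕ Fin d) (Fin d ⊕ Fin d) F) = z • (1 : Matrix (Fin d ⊕ Fin d) (Fin d ⊕ Fin d) F)) →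
      (∀ z : F, (x : Matrix (Fin d ⊕ Fin d) (Fin d ⊕ Fin d) F) ≠ z • (1 : Matrix (Fin d ⊕ Fin d) (Fin d ⊕ Fin d) F)) →
      ∃ W : Submodule F (Fin d ⊕ Fin d → F), (Module.finrank F ↥W = 1 ∧ ∃ v ∈ W, Cfsg.quadFormPlus d F v ≠ 0) ∧ W.map (Matrix.toLin' (x : Matrix (Fin d ⊕ Fin d) (Fin d ⊕ Fin d) F)) ≤ W) ↔ (r = 2 ∧ Odd d) := by
  classical
  subst hp
  haveI : Nonempty (Fin d) := ⟨⟨0, by omega⟩⟩
  have hr : r.Prime := Fact.out
  have h2 : (2 : F) = 0 := by simpa using CharP.cast_eq_zero F 2
  have hneg : ∀ a : F, -a = a := fun a => by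
    rw [neg_eq_iff_add_eq_zero, ← two_mul, h2, zero_mul]
  have hsq : ∀ a : F, IsSquare a := fun a => FiniteField.isSquare_of_char_two (ringChar.eq F 2) a
  open Cfsg.Lib.Classical in
  have hmem : ∀ A : GL (Fin d) F, ((LeviOmega.lev A : Cfsg.isometryGroup F (Cfsg.quadFormPlus d F)) : GL (Fin d ⊕ Fin d) F) ∈
      Cfsg.Geo.omegaGL (Cfsg.quadFormPlus d F) := fun A =>
    Subgroup.mem_map_of_mem _ ((LeviOmega.lev_mem_iff (by omega) (Or.inr (by omega)) A).2 (hsq _))
  have hcoe := fun A : GL (Fin d) F => Cfsg.Lib.Classical.LeviOmega.coe_lev A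
  -- a fixed line is fixed pointwise
  have hline : ∀ (x : GL (Fin d ⊕ Fin d) F), (∀ v, Cfsg.quadFormPlus d F ((x : Matrix _ _ F).mulVec v) = Cfsg.quadFormPlus d F v) →
      ∀ (W : Submodule F (Fin d ⊕ Fin d → F)), Module.finrank F W = 1 → ∀ v ∈ W, Cfsg.quadFormPlus d F v ≠ 0 →
      W.map (Matrix.toLin' (x : Matrix (Fin d ⊕ Fin d) (Fin d ⊕ Fin d) F)) ≤ W → (x : Matrix _ _ F).mulVec v = v := by
    intro x hx W hW v hv hQ hmap
    have hv0 : v ≠ 0 := fun h => hQ (by simp [h, Cfsg.quadFormPlus])
    have hWv : W = F ∙ v := (Submodule.eq_of_le_of_finrank_eq ((Submodule.span_singleton_le_iff_mem v W).2 hv)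
      (by rw [finrank_span_singleton hv0, hW])).symm
    obtain ⟨l, hl⟩ := Submodule.mem_span_singleton.1 (hWv ▸ hmap ⟨v, hv, rfl⟩)
    rw [Matrix.toLin'_apply] at hl
    have h := hx v
    rw [← hl] at h
    have h' : (l * l - 1) * Cfsg.quadFormPlus d F v = 0 := by
      simp only [Cfsg.quadFormPlus, Pi.smul_apply, smul_eq_mul] at h ⊢
      rw [sub_mul, one_mul, sub_eq_zero, Finset.mul_sum]
      refine Eq.trans (Finset.sum_congr rfl fun i _ => ?_) h
      ring
    have hl1 : l = 1 := by
      rcases mul_self_eq_one_iff.1 (sub_eq_zero.1 ((mul_eq_zero.1 h').resolve_right hQ)) with h | h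
      · exact h
      · rw [h, hneg]
    rw [← hl, hl1, one_smul]
  have hqpos : 1 < q := hq ▸ Fintype.one_lt_card
  have hiso : ∀ x : GL (Fin d ⊕ Fin d) F, x ∈ Cfsg.Geo.omegaGL (Cfsg.quadFormPlus d F) →
      ∀ v, Cfsg.quadFormPlus d F ((x : Matrix _ _ F).mulVec v) = Cfsg.quadFormPlus d F v := by
    rintro x ⟨g, -, rfl⟩ v
    exact g.2 v v
  constructor
  · intro H
    by_contra hcon
    -- a Levi element fixing no nonsingular vector gives a contradiction
    have key : ∀ A : GL (Fin d) F, A ^ r = 1 → A ≠ 1 →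
        (∀ a b : Fin d → F, (A : Matrix _ _ F).mulVec a = a → Matrix.vecMul b (A : Matrix _ _ F) = b → dotProduct a b = 0) → False := by
      intro A hA hA1 hQ
      have hne : ∀ z : F, ((((Cfsg.Lib.Classical.LeviOmega.lev A : Cfsg.isometryGroup F (Cfsg.quadFormPlus d F)) : GL (Fin d ⊕ Fin d) F)) : Matrix (Fin d ⊕ Fin d) (Fin d ⊕ Fin d) F) ≠ z • (1 : Matrix _ _ F) := by
        intro z hz
        rw [hcoe, ← Matrix.fromBlocks_one, Matrix.fromBlocks_smul, Matrix.fromBlocks_inj] at hz
        obtain ⟨hAz, -, -, hAt⟩ := hz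
        rw [hAz] at hAt
        have h00 := congrFun (congrFun hAt ⟨0, by omega⟩) ⟨0, by omega⟩
        have hz0 : z ≠ 0 := fun h => by
          have := Matrix.GeneralLinearGroup.det_ne_zero A
          rw [hAz, h, zero_smul, Matrix.det_zero] at this
          exact this rfl
        rw [Matrix.inv_eq_right_inv (B := z⁻¹ • (1 : Matrix (Fin d) (Fin d) F)) (by simp [smul_smul, hz0])] at h00
        simp at h00
        rcases mul_self_eq_one_iff.1 (show z * z = 1 by field_simp at h00; linear_combination -h00) with h | h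
        · exact hA1 (Units.ext (by rw [hAz, h, one_smul]; rfl))
        · exact hA1 (Units.ext (by rw [hAz, h, hneg, one_smul]; rfl))
      obtain ⟨W, ⟨hW, v, hv, hQv⟩, hmap⟩ := H _ (hmem A) ⟨1, by
        rw [← Subgroup.coe_pow, ← map_pow, hA, map_one, one_smul]; rfl⟩ hne
      have hfix := hline _ (hiso _ (hmem A)) W hW v hv hQv hmap
      rw [hcoe, Matrix.fromBlocks_mulVec, ← Matrix.coe_units_inv] at hfix
      apply hQv
      refine hQ (v ∘ Sum.inl) (v ∘ Sum.inr) ?_ ?_
      · funext i; simpa using congrFun hfix (Sum.inl i)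
      · have h : Matrix.vecMul (v ∘ Sum.inr) ((A⁻¹ : GL (Fin d) F) : Matrix (Fin d) (Fin d) F) = v ∘ Sum.inr := by
          funext i
          have := congrFun hfix (Sum.inr i)
          simpa [Matrix.mulVec_transpose] using this
        conv_lhs => rw [← h, Matrix.vecMul_vecMul, ← Units.val_mul, inv_mul_cancel, Units.val_one, Matrix.vecMul_one]
    by_cases hr2 : r = 2
    · subst hr2
      obtain ⟨k, hk⟩ : Even d := Nat.not_odd_iff_even.1 fun h => hcon ⟨rfl, h⟩
      subst hk
      let N : Matrix (Fin (k + k)) (Fin (k + k)) F := Matrix.of fun i j =>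
        if (i : ℕ) + k = (j : ℕ) then 1 else 0
      have hN : N * N = 0 := by
        ext i j
        rw [Matrix.mul_apply]
        refine Finset.sum_eq_zero fun l _ => ?_
        simp only [N, Matrix.of_apply]
        split_ifs <;> first | omega | simp
      have hinv : (1 + N) * (1 + N) = 1 := by
        have : N + N = 0 := by rw [← two_smul F N, h2, zero_smul]
        rw [add_mul, mul_add, mul_add, one_mul, mul_one, one_mul, hN, add_zero, add_assoc, this, add_zero]
      let A : GL (Fin (k + k)) F := ⟨1 + N, 1 + N, hinv, hinv⟩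
      refine key A (Units.ext (by rw [Units.val_pow_eq_pow_val, pow_two]; exact hinv)) (fun h => ?_) fun a b ha hb => ?_
      · have := congrFun (congrFun (congrArg (fun u : GL (Fin (k + k)) F => (u : Matrix (Fin (k + k)) (Fin (k + k)) F)) h) ⟨0, by omega⟩) ⟨k, by omega⟩
        simp [A, N, Matrix.one_apply, Fin.ext_iff] at this
      · change (1 + N).mulVec a = a at ha
        change Matrix.vecMul b (1 + N) = b at hb
        rw [Matrix.add_mulVec, Matrix.one_mulVec, add_eq_left] at ha
        rw [Matrix.vecMul_add, Matrix.vecMul_one, add_eq_left] at hb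
        refine Finset.sum_eq_zero fun i _ => ?_
        rcases Nat.lt_or_ge (i : ℕ) k with hi | hi
        · have := congrFun hb ⟨(i : ℕ) + k, by omega⟩
          rw [show Matrix.vecMul b N ⟨(i : ℕ) + k, by omega⟩ = b i from by
            simp [Matrix.vecMul, dotProduct, N, Fin.val_inj]] at this
          simp [this]
        · have := congrFun ha ⟨(i : ℕ) - k, by omega⟩
          rw [show N.mulVec a ⟨(i : ℕ) - k, by omega⟩ = a i from by
            simp [Matrix.mulVec, dotProduct, N, Nat.sub_add_cancel hi, Fin.val_inj]] at this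
          simp [this]
    · have hrp : r ≠ 2 := hr2
      -- count the nonsingular points
      let e : {W : Submodule F (Fin d ⊕ Fin d → F) // Module.finrank F ↥W = 1 ∧ ∃ v ∈ W, Cfsg.quadFormPlus d F v ≠ 0} × Fˣ →
          {v : Fin d ⊕ Fin d → F // ¬ Cfsg.quadFormPlus d F v = 0} := fun P =>
        ⟨(P.2 : F) • Classical.choose P.1.2.2, by
          have h := (Classical.choose_spec P.1.2.2).2
          simp only [Cfsg.quadFormPlus, Pi.smul_apply, smul_eq_mul] at h ⊢
          refine fun h0 => mul_ne_zero (mul_ne_zero P.2.ne_zero P.2.ne_zero) h ?_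
          rw [Finset.mul_sum]
          refine Eq.trans (Finset.sum_congr rfl fun i _ => ?_) h0
          ring⟩
      have hspan : ∀ (W : {W : Submodule F (Fin d ⊕ Fin d → F) // Module.finrank F ↥W = 1 ∧ ∃ v ∈ W, Cfsg.quadFormPlus d F v ≠ 0}),
          W.1 = F ∙ Classical.choose W.2.2 := fun W => (Submodule.eq_of_le_of_finrank_eq
        ((Submodule.span_singleton_le_iff_mem _ _).2 (Classical.choose_spec W.2.2).1)
        (by rw [finrank_span_singleton (fun h => (Classical.choose_spec W.2.2).2 (by rw [h]; simp [Cfsg.quadFormPlus])), W.2.1])).symm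
      have he : Function.Bijective e := by
        refine ⟨fun P P' h => ?_, fun v => ?_⟩
        · have h' := congrArg Subtype.val h
          simp only [e] at h'
          have hPP : P.1 = P'.1 := Subtype.ext (by
            rw [hspan P.1, hspan P'.1, ← Submodule.span_singleton_smul_eq P.2.isUnit, h',
              Submodule.span_singleton_smul_eq P'.2.isUnit])
          refine Prod.ext hPP (Units.ext ?_)
          rw [hPP] at h'
          exact smul_left_injective F (fun h => (Classical.choose_spec P'.1.2.2).2 (by rw [h]; simp [Cfsg.quadFormPlus])) h'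
        · have hv0 : v.1 ≠ 0 := fun h => v.2 (by simp [h, Cfsg.quadFormPlus])
          let W : {W : Submodule F (Fin d ⊕ Fin d → F) // Module.finrank F ↥W = 1 ∧ ∃ v ∈ W, Cfsg.quadFormPlus d F v ≠ 0} :=
            ⟨F ∙ v.1, finrank_span_singleton hv0, v.1, Submodule.mem_span_singleton_self _, v.2⟩
          obtain ⟨l, hl⟩ := Submodule.mem_span_singleton.1 (hspan W ▸ Submodule.mem_span_singleton_self v.1 : v.1 ∈ F ∙ Classical.choose W.2.2)
          exact ⟨(W, Units.mk0 l fun h => hv0 (by rw [← hl, h, zero_smul])), Subtype.ext hl⟩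
      have hc := Nat.card_congr (Equiv.ofBijective e he)
      rw [Nat.card_prod, Nat.card_eq_fintype_card (α := {v : Fin d ⊕ Fin d → F // ¬ Cfsg.quadFormPlus d F v = 0}),
        Fintype.card_subtype_compl, ← Nat.card_eq_fintype_card, ← Nat.card_eq_fintype_card,
        Cfsg.Lib.Classical.ClassicalOrders.zeros_plus hq d (by omega), Nat.card_fun, Nat.card_eq_fintype_card (α := F), hq,
        Nat.card_eq_fintype_card (α := Fin d ⊕ Fin d), Fintype.card_sum, Fintype.card_fin] at hc
      have hdvd := (dvd_mul_of_dvd_left hrΩ (Nat.card Fˣ))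
      rw [hc] at hdvd
      obtain ⟨j, rfl⟩ : ∃ j, d = j + 1 := ⟨d - 1, by omega⟩
      have hcount : q ^ (j + 1 + (j + 1)) - (q ^ (2 * (j + 1) - 1) + q ^ (j + 1) - q ^ j) = q ^ j * ((q - 1) * (q ^ (j + 1) - 1)) := by
        have h1 : q ^ j ≤ q ^ (j + 1) := Nat.pow_le_pow_right (by omega) (by omega)
        have h3 : 1 ≤ q ^ (j + 1) := Nat.one_le_pow _ _ (by omega)
        have h4 : q ^ (2 * (j + 1) - 1) + q ^ (j + 1) ≤ q ^ (j + 1 + (j + 1)) + q ^ j := by
          rw [show 2 * (j + 1) - 1 = 2 * j + 1 by omega]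
          have e1 : q ^ (j + 1 + (j + 1)) = q * q ^ (2 * j + 1) := by rw [← pow_succ']; congr 1; omega
          have e2 : q ^ (j + 1) ≤ q ^ (2 * j + 1) := Nat.pow_le_pow_right (by omega) (by omega)
          rw [e1]
          have e3 : 2 * q ^ (2 * j + 1) ≤ q * q ^ (2 * j + 1) := Nat.mul_le_mul_right _ hqpos
          omega
        zify [h1, h3, show 1 ≤ q by omega, le_add_left h1, show q ^ (2 * (j + 1) - 1) + q ^ (j + 1) - q ^ j ≤ q ^ (j + 1 + (j + 1)) by omega]
        rw [show 2 * (j + 1) - 1 = 2 * j + 1 by omega]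
        ring
      simp only [Nat.add_sub_cancel] at hdvd
      rw [hcount] at hdvd
      have hrq : ¬ r ∣ q := fun h => by
        obtain ⟨n, -, hn⟩ := FiniteField.card F 2
        rw [← hq, hn] at h
        exact hrp ((Nat.prime_dvd_prime_iff_eq hr Nat.prime_two).1 (hr.dvd_of_dvd_pow h))
      have hord : orderOf (q : ZMod r) ∣ j + 1 := by
        rcases hr.dvd_mul.1 hdvd with h | h
        · exact absurd (hr.dvd_of_dvd_pow h) hrq
        · refine orderOf_dvd_of_pow_eq_one ?_
          rcases hr.dvd_mul.1 h with h | h <;> have h' := (ZMod.natCast_eq_zero_iff _ r).2 h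
          · rw [Nat.cast_sub (by omega), Nat.cast_one, sub_eq_zero] at h'
            rw [h', one_pow]
          · rwa [Nat.cast_sub (Nat.one_le_pow _ _ (by omega)), Nat.cast_pow, Nat.cast_one, sub_eq_zero] at h'
      obtain ⟨A, hA, hfix, -⟩ := Cfsg.Lib.Derange.exists_fpf (p := 2) hq r hrp (j + 1) hord
      refine key A hA (fun h => ?_) fun a b ha _ => by rw [hfix a ha, zero_dotProduct]
      exact one_ne_zero (congrFun (hfix (fun _ => (1 : F)) (by rw [h]; simp)) ⟨0, by omega⟩)
  · rintro ⟨rfl, hodd⟩ x hx ⟨z, hz⟩ hne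
    by_contra hcon
    have hQ := hiso x hx
    set Q := Cfsg.Lib.Classical.LeviOmega.Qp F d with hQdef
    have hf : ∀ v, Q v = Cfsg.quadFormPlus d F v := Cfsg.Lib.Classical.LeviOmega.Qp_apply
    have hB : (QuadraticMap.polarBilin Q).Nondegenerate := Cfsg.Lib.Classical.LeviOmega.Qp_nondeg
    -- the square is the identity
    have hz1 : z = 1 := by
      let v : Fin d ⊕ Fin d → F := Sum.elim (Pi.single ⟨0, by omega⟩ 1) (Pi.single ⟨0, by omega⟩ 1)
      have hv : Cfsg.quadFormPlus d F v = 1 := by simp [v, Cfsg.quadFormPlus, Pi.single_apply]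
      have h : Cfsg.quadFormPlus d F (((x ^ 2 : GL (Fin d ⊕ Fin d) F) : Matrix _ _ F).mulVec v) = 1 := by
        rw [Units.val_pow_eq_pow_val, pow_two, ← Matrix.mulVec_mulVec, hQ, hQ, hv]
      rw [hz, Matrix.smul_mulVec, Matrix.one_mulVec, ← hf, QuadraticMap.map_smul, hf, hv, smul_eq_mul, mul_one] at h
      rcases mul_self_eq_one_iff.1 h with h | h
      · exact h
      · rw [h, hneg]
    subst hz1
    let T := Matrix.toLin' (x : Matrix (Fin d ⊕ Fin d) (Fin d ⊕ Fin d) F)
    let N : (Fin d ⊕ Fin d → F) →ₗ[F] (Fin d ⊕ Fin d → F) := T - LinearMap.id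
    have hTT : ∀ v, T (T v) = v := fun v => by
      have hz' : (x : Matrix (Fin d ⊕ Fin d) (Fin d ⊕ Fin d) F) * x = 1 := by
        rw [← Units.val_mul, ← pow_two, hz, one_smul]
      simp only [T, Matrix.toLin'_apply, Matrix.mulVec_mulVec, hz', Matrix.one_mulVec]
    have hQT : ∀ v, Q (T v) = Q v := fun v => by rw [hf, hf]; exact hQ v
    have hTS : ∀ v ∈ LinearMap.ker N, Q v = 0 := fun v hv => by
      by_contra hQv
      have hv' : T v = v := sub_eq_zero.1 hv
      refine hcon ⟨F ∙ v, ⟨finrank_span_singleton (fun h => hQv (by rw [h, QuadraticMap.map_zero])), v,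
        Submodule.mem_span_singleton_self v, by rwa [← hf]⟩, ?_⟩
      rw [Submodule.map_span_le]
      intro w hw
      rw [Set.mem_singleton_iff.1 hw]
      exact hv'.symm ▸ Submodule.mem_span_singleton_self v
    have hNN : ∀ v, N (N v) = 0 := fun v => by
      simp only [N, LinearMap.sub_apply, LinearMap.id_apply, map_sub, hTT]
      funext i
      simp only [Pi.sub_apply, Pi.zero_apply]
      linear_combination (v i - T v i) * h2
    set K := LinearMap.ker N
    set β : LinearMap.BilinForm F (Fin d ⊕ Fin d → F) := QuadraticMap.polarBilin Q with hβ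
    have hr' : β.IsRefl := fun u v h => by
      rw [QuadraticMap.polarBilin_apply_apply] at h ⊢; rwa [QuadraticMap.polar_comm]
    have hKperp : K ≤ β.orthogonal K := fun u hu w hw => by
      show β w u = 0
      rw [QuadraticMap.polarBilin_apply_apply, QuadraticMap.polar, hTS _ (K.add_mem hw hu), hTS _ hw, hTS _ hu]
      simp
    have hV : Module.finrank F (Fin d ⊕ Fin d → F) = 2 * d := by simp [two_mul]
    have hperp := LinearMap.BilinForm.finrank_orthogonal hB K
    have hle := Submodule.finrank_mono hKperp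
    have hrange : LinearMap.range N ≤ K := fun _ ⟨v, hv⟩ => hv ▸ hNN v
    have hrn : Module.finrank F (LinearMap.range N) + Module.finrank F K = _ := LinearMap.finrank_range_add_finrank_ker N
    have hle2 := Submodule.finrank_mono hrange
    rw [hV] at hperp hrn
    have hKd : Module.finrank F K = d := by omega
    have hKim : LinearMap.range N = K := Submodule.eq_of_le_of_finrank_eq hrange (by omega)
    have hKp : β.orthogonal K = K := (Submodule.eq_of_le_of_finrank_eq hKperp (by omega)).symm
    obtain ⟨U, hU⟩ := K.exists_isCompl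
    let γ : LinearMap.BilinForm F (Fin d ⊕ Fin d → F) := β.compl₁₂ LinearMap.id N
    have hγ : γ.IsAlt := fun u => by
      show β u (N u) = 0
      rw [QuadraticMap.polarBilin_apply_apply, QuadraticMap.polar, hTS (N u) (hNN u)]
      rw [show u + N u = T u by simp [N], hQT]
      simp
    have hUn : Cfsg.Lib.Classical.FrameCount.NdOn γ U := fun u hu hu0 => by
      by_contra hc
      push Not at hc
      refine hu0 ((Submodule.eq_bot_iff _).1 hU.inf_eq_bot u ⟨?_, hu⟩)
      show u ∈ K
      rw [← hKp]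
      intro k hk
      obtain ⟨w, rfl⟩ := (hKim.symm ▸ hk : k ∈ LinearMap.range N)
      obtain ⟨a, ha, b, hb, rfl⟩ := Submodule.mem_sup.1 (hU.sup_eq_top ▸ Submodule.mem_top : w ∈ K ⊔ U)
      refine hr' _ _ ?_
      rw [map_add N, show N a = 0 from ha, zero_add]
      exact hc b hb
    have hUd : Module.finrank F U = d := by
      have := Submodule.finrank_add_eq_of_isCompl hU
      rw [hV] at this; omega
    exact (Nat.not_even_iff_odd.2 hodd) (Cfsg.Lib.Derange.even_finrank_of_ndOn hγ d U hUd hUn)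

end Cfsg.Agent.S5985
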