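import Cfsg.Statements.S5986
import Mathlib
import Cfsg.Agent.Lib.Derange.Block
import Cfsg.Agent.Lib.Derange.Lines
import Cfsg.Agent.Lib.Classical.LeviOmega
import Cfsg.Agent.Lib.Classical.ClassicalOrders
import Cfsg.Agent.Lib.Classical.SingularDim
-- import your own Cfsg.Agent.* helpers here

set_option autoImplicit false
open scoped MatrixGroups
open Cfsg

namespace Cfsg.Agent.S5986

open Cfsg.Lib.Classical

variable {F : Type*} [Field F]

lemma smul_minus (m : ℕ) (a b c : F) (v : (Fin m ⊕ Fin m) ⊕ Fin 2 → F) :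
    Cfsg.quadFormMinus m F a b (c • v) = c * c * Cfsg.quadFormMinus m F a b v := by
  simp only [Cfsg.quadFormMinus, Pi.smul_apply, smul_eq_mul, mul_add, Finset.mul_sum]
  congr 1
  · exact Finset.sum_congr rfl fun i _ => by ring
  · ring

/-- Isometries of odd order lie in `Ω`. -/
lemma mem_omega [Fintype F] (h2 : (2 : F) = 0) (m : ℕ) (hm : m ≠ 1) (a b : F)
    (hab : ∀ x y : F, x ^ 2 + a * x * y + b * y ^ 2 = 0 → x = 0 ∧ y = 0)
    (g : Cfsg.isometryGroup F (Cfsg.quadFormMinus m F a b)) (r : ℕ) (hr : Odd r) (hg : g ^ r = 1) :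
    ((g : Cfsg.isometryGroup F (Cfsg.quadFormMinus m F a b)) : GL ((Fin m ⊕ Fin m) ⊕ Fin 2) F) ∈
      Cfsg.Geo.omegaGL (Cfsg.quadFormMinus m F a b) := by
  refine Subgroup.mem_map_of_mem _ ?_
  let Q : QuadraticForm F ((Fin m ⊕ Fin m) ⊕ Fin 2 → F) :=
    (QuadOrders.Qs m (QuadOrders.Q2 a b)).comp (QuadOrders.eMinus F m).toLinearMap
  have hi : (Cfsg.Omega F (Cfsg.quadFormMinus m F a b)).index = 2 :=
    OrthMatrix.omega_index_even (Q := Q) (fun v => QuadOrders.eMinus_form m a b v)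
      (QuadOrders.nondeg_comp _ (QuadOrders.nondeg_std (QuadOrders.Q2_nondeg hab)))
      (Or.inr (by simp; omega)) h2 (by simp)
  obtain ⟨k, hk⟩ := hr
  have : g = (g ^ (k + 1)) ^ 2 := by
    rw [← pow_mul, show (k + 1) * 2 = r + 1 by omega, pow_succ, hg, one_mul]
  rw [this]
  exact Subgroup.sq_mem_of_index_two hi _

end Cfsg.Agent.S5986

namespace Cfsg.Agent.S5986

/-- Elements of prime order of Ω⁻_n(q), q even, with no fixed nonsingular 1-space. Here `T = PΩ⁻_n(F)`, `n = 2d ≥ 8`, realised through `Ω⁻_n(q)`, the commutator subgroup of the isometry group of `Q = Σ_{i<d−1} xᵢyᵢ + z₁² + a z₁z₂ + b z₂²` with `z₁² + a z₁z₂ + b z₂²` anisotropic, over the field `F` with `q` elements; an element of `T` of prime order `r` is an element `x` of `Ω⁻_n(q)` with `x^r` scalar and `x` not scalar; `q` is even (so the centre is trivial). Let Ω be the set of 1-dimensional subspaces spanned by a vector `v` with `Q(v) ≠ 0`, and let `r` be a prime dividing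 their number. Then every element of `T` of order `r` fixes some nonsingular 1-space if and only if `r = 2`. -/
theorem result {F : Type*} [Field F] [Fintype F] {p : ℕ} [Fact p.Prime] [CharP F p] {q : ℕ} (hq : Fintype.card F = q)
    (hp : p = 2) (d : ℕ) (hd : 4 ≤ d) (a b : F) (hab : ∀ x y : F, x ^ 2 + a * x * y + b * y ^ 2 = 0 → x = 0 ∧ y = 0) (r : ℕ) [Fact r.Prime]
    (hrΩ : r ∣ Nat.card {W : Submodule F ((Fin (d - 1) ⊕ Fin (d - 1)) ⊕ Fin 2 → F) // Module.finrank F ↥W = 1 ∧ ∃ v ∈ W, Cfsg.quadFormMinus (d - 1) F a b v ≠ 0}) :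
    (∀ x : GL ((Fin (d - 1) ⊕ Fin (d - 1)) ⊕ Fin 2) F, x ∈ Cfsg.Geo.omegaGL (Cfsg.quadFormMinus (d - 1) F a b) →
      (∃ z : F, ((x ^ r : GL ((Fin (d - 1) ⊕ Fin (d - 1)) ⊕ Fin 2) F) : Matrix ((Fin (d - 1) ⊕ Fin (d - 1)) ⊕ Fin 2) ((Fin (d - 1) ⊕ Fin (d - 1)) ⊕ Fin 2) F) = z • (1 : Matrix ((Fin (d - 1) ⊕ Fin (d - 1)) ⊕ Fin 2) ((Fin (d - 1) ⊕ Fin (d - 1)) ⊕ Fin 2) F)) →
      (∀ z : F, (x : Matrix ((Fin (d - 1) ⊕ Fin (d - 1)) ⊕ Fin 2) ((Fin (d - 1) ⊕ Fin (d - 1)) ⊕ Fin 2) F) ≠ z • (1 : Matrix ((Fin (d - 1) ⊕ Fin (d - 1)) ⊕ Fin 2) ((Fin (d - 1) ⊕ Fin (d - 1)) ⊕ Fin 2) F)) →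
      ∃ W : Submodule F ((Fin (d - 1) ⊕ Fin (d - 1)) ⊕ Fin 2 → F), (Module.finrank F ↥W = 1 ∧ ∃ v ∈ W, Cfsg.quadFormMinus (d - 1) F a b v ≠ 0) ∧ W.map (Matrix.toLin' (x : Matrix ((Fin (d - 1) ⊕ Fin (d - 1)) ⊕ Fin 2) ((Fin (d - 1) ⊕ Fin (d - 1)) ⊕ Fin 2) F)) ≤ W) ↔ r = 2 := by
  classical
  subst hp
  have hr : r.Prime := Fact.out
  have h2 : (2 : F) = 0 := by simpa using CharP.cast_eq_zero F 2
  have hneg : ∀ a : F, -a = a := fun a => by
    rw [neg_eq_iff_add_eq_zero, ← two_mul, h2, zero_mul]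
  have hiso : ∀ x : GL ((Fin (d - 1) ⊕ Fin (d - 1)) ⊕ Fin 2) F, x ∈ Cfsg.Geo.omegaGL (Cfsg.quadFormMinus (d - 1) F a b) →
      ∀ v, Cfsg.quadFormMinus (d - 1) F a b ((x : Matrix _ _ F).mulVec v) = Cfsg.quadFormMinus (d - 1) F a b v := by
    rintro x ⟨g, -, rfl⟩ v
    exact g.2 v v
  have hsm := smul_minus (F := F) (d - 1) a b
  constructor
  · intro H
    by_contra hr2
    have hqpos : 1 < q := hq ▸ Fintype.one_lt_card
    -- `r` divides `q ^ d + 1`
    have hc := Cfsg.Lib.Derange.card_lines_mul (Cfsg.quadFormMinus (d - 1) F a b) hsm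
    rw [Nat.card_eq_fintype_card (α := {v : (Fin (d - 1) ⊕ Fin (d - 1)) ⊕ Fin 2 → F // Cfsg.quadFormMinus (d - 1) F a b v ≠ 0}),
      Fintype.card_subtype_compl, ← Nat.card_eq_fintype_card, ← Nat.card_eq_fintype_card,
      Cfsg.Lib.Classical.ClassicalOrders.zeros_minus hq d (by omega) a b hab, Nat.card_fun, Nat.card_eq_fintype_card (α := F), hq,
      Nat.card_eq_fintype_card (α := (Fin (d - 1) ⊕ Fin (d - 1)) ⊕ Fin 2), Fintype.card_sum, Fintype.card_sum, Fintype.card_fin, Fintype.card_fin] at hc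
    have hcount : q ^ (d - 1 + (d - 1) + 2) - (q ^ (2 * d - 1) + q ^ (d - 1) - q ^ d) = q ^ (d - 1) * ((q - 1) * (q ^ d + 1)) := by
      obtain ⟨j, rfl⟩ : ∃ j, d = j + 1 := ⟨d - 1, by omega⟩
      simp only [Nat.add_sub_cancel]
      rw [show 2 * (j + 1) - 1 = 2 * j + 1 by omega]
      have h4 : q ^ (j + 1) ≤ q ^ (2 * j + 1) := Nat.pow_le_pow_right (by omega) (by omega)
      have h5 : q ^ (2 * j + 1) + q ^ j - q ^ (j + 1) ≤ q ^ (j + j + 2) := by
        have e1 : q ^ (j + j + 2) = q * q ^ (2 * j + 1) := by rw [← pow_succ']; congr 1; omega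
        have e2 : q ^ j ≤ q ^ (2 * j + 1) := Nat.pow_le_pow_right (by omega) (by omega)
        have e3 : 2 * q ^ (2 * j + 1) ≤ q * q ^ (2 * j + 1) := Nat.mul_le_mul_right _ hqpos
        omega
      zify [h5, show q ^ (j + 1) ≤ q ^ (2 * j + 1) + q ^ j by omega, show 1 ≤ q by omega]
      ring
    rw [hcount, Nat.card_units, Nat.card_eq_fintype_card (α := F), hq,
      show q ^ (d - 1) * ((q - 1) * (q ^ d + 1)) = q ^ (d - 1) * (q ^ d + 1) * (q - 1) by ring] at hc
    have hdvd := hrΩ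
    rw [Nat.eq_of_mul_eq_mul_right (by omega) hc] at hdvd
    have hrq : ¬ r ∣ q := fun h => by
      obtain ⟨n, -, hn⟩ := FiniteField.card F 2
      rw [← hq, hn] at h
      exact hr2 ((Nat.prime_dvd_prime_iff_eq hr Nat.prime_two).1 (hr.dvd_of_dvd_pow h))
    have hq0 : (q : ZMod r) ≠ 0 := fun h => hrq ((ZMod.natCast_eq_zero_iff _ r).1 h)
    set e := orderOf (q : ZMod r) with he
    have he0 : 0 < e := orderOf_pos_iff.2 (isOfFinOrder_iff_pow_eq_one.2
      ⟨r - 1, by have := hr.two_le; omega, ZMod.pow_card_sub_one_eq_one hq0⟩)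
    have key : 2 ∣ e ∧ e / 2 ∣ d ∧ (q : ZMod r) ^ (e / 2) = -1 ∧ e ∣ d - e / 2 := by
      have h := (hr.dvd_mul.1 hdvd).resolve_left fun h => hrq (hr.dvd_of_dvd_pow h)
      have h' := (ZMod.natCast_eq_zero_iff _ r).2 h
      push_cast at h'
      have h1 : (q : ZMod r) ^ d = -1 := eq_neg_of_add_eq_zero_left h'
      have h2' : e ∣ 2 * d := orderOf_dvd_of_pow_eq_one (by rw [mul_comm, pow_mul, h1]; simp)
      have hnd : ¬ e ∣ d := fun h => by
        rw [orderOf_dvd_iff_pow_eq_one.1 h, eq_neg_iff_add_eq_zero] at h1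
        have h3 := (ZMod.natCast_eq_zero_iff 2 r).1 (by simpa [one_add_one_eq_two] using h1)
        exact hr2 ((Nat.prime_dvd_prime_iff_eq hr Nat.prime_two).1 h3)
      have heven : 2 ∣ e := by
        by_contra hodd
        exact hnd ((Nat.Coprime.dvd_of_dvd_mul_left ((Nat.prime_two.coprime_iff_not_dvd.2 hodd).symm) h2'))
      refine ⟨heven, ?_⟩
      obtain ⟨j, hj⟩ := heven
      rw [hj] at h2' hnd ⊢
      obtain ⟨t, ht⟩ := Nat.dvd_of_mul_dvd_mul_left two_pos h2'
      rw [Nat.mul_div_cancel_left j two_pos]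
      refine ⟨⟨t, ht⟩, ?_, ?_⟩
      · have hjj : ((q : ZMod r) ^ j) * ((q : ZMod r) ^ j) = 1 := by
          rw [← pow_add, ← two_mul, ← hj, he, pow_orderOf_eq_one]
        rcases mul_self_eq_one_iff.1 hjj with h | h
        · exfalso
          have h3 : 2 * j ∣ j := hj ▸ orderOf_dvd_of_pow_eq_one h
          have := Nat.le_of_dvd (by omega) h3; omega
        · exact h
      · rcases Nat.even_or_odd t with ⟨s, hs⟩ | ⟨s, hs⟩
        · exact absurd ⟨s, by rw [ht, hs]; ring⟩ hnd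
        · refine ⟨s, ?_⟩
          rw [ht, hs, Nat.mul_add, mul_one, Nat.add_sub_cancel]; ring
    obtain ⟨heven, hjd, hjneg, hek⟩ := key
    set j := e / 2 with hjdef
    have hej : e = 2 * j := by omega
    have hj1 : 1 ≤ j := by omega
    have hjd' := Nat.le_of_dvd (by omega) hjd
    -- an element of order `r` of the small minus group
    have hrj : r ∣ Nat.card (Cfsg.isometryGroup F (Cfsg.quadFormMinus (j - 1) F a b)) := by
      rw [Cfsg.Lib.Classical.ClassicalOrders.card_minus hq j hj1 a b hab]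
      refine dvd_mul_of_dvd_left (dvd_mul_of_dvd_right ((ZMod.natCast_eq_zero_iff _ r).1 ?_) _) _
      push_cast
      rw [hjneg]; ring
    obtain ⟨Y, hY⟩ := exists_prime_orderOf_dvd_card' r hrj
    have hYr : ((Y : GL ((Fin (j - 1) ⊕ Fin (j - 1)) ⊕ Fin 2) F) : Matrix ((Fin (j - 1) ⊕ Fin (j - 1)) ⊕ Fin 2) ((Fin (j - 1) ⊕ Fin (j - 1)) ⊕ Fin 2) F) ^ r = 1 := by
      rw [← Units.val_pow_eq_pow_val, ← Subgroup.coe_pow, ← hY, pow_orderOf_eq_one]; rfl
    set Ym := ((Y : GL ((Fin (j - 1) ⊕ Fin (j - 1)) ⊕ Fin 2) F) : Matrix ((Fin (j - 1) ⊕ Fin (j - 1)) ⊕ Fin 2) ((Fin (j - 1) ⊕ Fin (j - 1)) ⊕ Fin 2) F) with hYm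
    have hYfix : ∀ v, Ym.mulVec v = v → v = 0 := by
      have hdv := Cfsg.Lib.Derange.orderOf_dvd_codim hq r hq0 (Matrix.toLinAlgEquiv' Ym) (by rw [← map_pow, hYr, map_one])
      set K := LinearMap.ker (Matrix.toLinAlgEquiv' Ym - 1)
      have hn : Module.finrank F ((Fin (j - 1) ⊕ Fin (j - 1)) ⊕ Fin 2 → F) = e := by simp; omega
      have hK : Module.finrank F K = 0 := by
        rw [hn, ← he] at hdv
        by_contra hne
        have hle : Module.finrank F K ≤ e := hn ▸ Submodule.finrank_le K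
        have h0 : e - Module.finrank F K = 0 := Nat.eq_zero_of_dvd_of_lt hdv (by omega)
        have htop : K = ⊤ := Submodule.eq_top_of_finrank_eq (by omega)
        have hY1 : Y = 1 := by
          refine Subtype.ext (Units.ext (Matrix.ext_iff_mulVec.2 fun v => ?_))
          have := (htop ▸ Submodule.mem_top : v ∈ K)
          simpa [K, sub_eq_zero] using this
        rw [hY1, orderOf_one] at hY
        exact hr.one_lt.ne hY
      intro v hv
      have : v ∈ K := by simp [K, sub_eq_zero, hv]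
      rw [Submodule.finrank_eq_zero.1 hK] at this
      simpa using this
    obtain ⟨A, hA, hAfix, hAfix'⟩ := Cfsg.Lib.Derange.exists_fpf (p := 2) hq r hr2 (d - j) hek
    set Lm := Cfsg.Lib.Classical.LeviOmega.levMat A with hLm
    have hLfix : ∀ v, Lm.mulVec v = v → v = 0 := by
      intro v hv
      simp only [Lm, Cfsg.Lib.Classical.LeviOmega.levMat, MonoidHom.coe_mk, OneHom.coe_mk, Matrix.fromBlocks_mulVec] at hv
      have h1 : v ∘ Sum.inl = 0 := hAfix _ (by funext i; simpa using congrFun hv (Sum.inl i))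
      have h2' : v ∘ Sum.inr = 0 := by
        refine hAfix' _ ?_
        have h : Matrix.vecMul (v ∘ Sum.inr) ((A⁻¹ : GL (Fin (d - j)) F) : Matrix (Fin (d - j)) (Fin (d - j)) F) = v ∘ Sum.inr := by
          funext i
          simpa [Matrix.mulVec_transpose] using congrFun hv (Sum.inr i)
        conv_lhs => rw [← h, Matrix.vecMul_vecMul, ← Units.val_mul, inv_mul_cancel, Units.val_one, Matrix.vecMul_one]
      funext i
      rcases i with i | i
      exacts [congrFun h1 i, congrFun h2' i]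
    -- glue them
    let s : Fin (d - 1) ≃ Fin (j - 1) ⊕ Fin (d - j) := (finCongr (by omega)).trans finSumFinEquiv.symm
    let ε : (Fin (d - 1) ⊕ Fin (d - 1)) ⊕ Fin 2 ≃ ((Fin (j - 1) ⊕ Fin (j - 1)) ⊕ Fin 2) ⊕ (Fin (d - j) ⊕ Fin (d - j)) :=
      { toFun := Sum.elim (Sum.elim (fun i => Sum.map (fun t => Sum.inl (Sum.inl t)) Sum.inl (s i))
          (fun i => Sum.map (fun t => Sum.inl (Sum.inr t)) Sum.inr (s i))) (fun t => Sum.inl (Sum.inr t))
        invFun := Sum.elim (Sum.elim (Sum.elim (fun t => Sum.inl (Sum.inl (s.symm (Sum.inl t)))) (fun t => Sum.inl (Sum.inr (s.symm (Sum.inl t))))) Sum.inr)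
          (Sum.elim (fun t => Sum.inl (Sum.inl (s.symm (Sum.inr t)))) (fun t => Sum.inl (Sum.inr (s.symm (Sum.inr t)))))
        left_inv := by
          rintro ((i | i) | i)
          · obtain ⟨y, rfl⟩ := s.symm.surjective i
            rcases y with y | y <;> simp
          · obtain ⟨y, rfl⟩ := s.symm.surjective i
            rcases y with y | y <;> simp
          · simp
        right_inv := by rintro (((i | i) | i) | (i | i)) <;> simp }
    have hsplit : ∀ v : (Fin (d - 1) ⊕ Fin (d - 1)) ⊕ Fin 2 → F, Cfsg.quadFormMinus (d - 1) F a b v =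
        Cfsg.quadFormMinus (j - 1) F a b ((v ∘ ε.symm) ∘ Sum.inl) + Cfsg.quadFormPlus (d - j) F ((v ∘ ε.symm) ∘ Sum.inr) := by
      intro v
      simp only [Cfsg.quadFormMinus, Cfsg.quadFormPlus, Function.comp_apply, ε, Equiv.coe_fn_symm_mk, Sum.elim_inl, Sum.elim_inr]
      rw [← s.symm.sum_comp, Fintype.sum_sum_type]
      ring
    let M := (Matrix.fromBlocks Ym 0 0 Lm).submatrix ε ε
    have hMv : ∀ v, M.mulVec v = (Matrix.fromBlocks Ym 0 0 Lm).mulVec (v ∘ ε.symm) ∘ ε := fun v =>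
      Matrix.submatrix_mulVec_equiv _ _ _ ε
    have hLr : Lm ^ r = 1 := by rw [hLm, ← map_pow, hA, map_one]
    have hbl : ∀ k : ℕ, (Matrix.fromBlocks Ym 0 0 Lm) ^ k = Matrix.fromBlocks (Ym ^ k) 0 0 (Lm ^ k) := fun k => by
      induction k with
      | zero => simp [Matrix.fromBlocks_one]
      | succ k ih => rw [pow_succ, ih, Matrix.fromBlocks_multiply]; simp [pow_succ]
    have hMr : M ^ r = 1 := by
      have : ∀ k : ℕ, M ^ k = ((Matrix.fromBlocks Ym 0 0 Lm) ^ k).submatrix ε ε := fun k => by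
        induction k with
        | zero => simp [Matrix.submatrix_one_equiv]
        | succ k ih => rw [pow_succ, ih, Matrix.submatrix_mul_equiv, ← pow_succ]
      rw [this, hbl, hYr, hLr, Matrix.fromBlocks_one, Matrix.submatrix_one_equiv]
    have hMv' : ∀ v, (M.mulVec v) ∘ ε.symm = (Matrix.fromBlocks Ym 0 0 Lm).mulVec (v ∘ ε.symm) := fun v => by
      rw [hMv]; funext i; simp
    have hMQ : ∀ v, Cfsg.quadFormMinus (d - 1) F a b (M.mulVec v) = Cfsg.quadFormMinus (d - 1) F a b v := fun v => by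
      rw [hsplit, hsplit v, hMv', Matrix.fromBlocks_mulVec]
      simp only [Sum.elim_comp_inl, Sum.elim_comp_inr, Matrix.zero_mulVec, add_zero, zero_add]
      exact congrArg₂ (· + ·) (Y.2 ((v ∘ ε.symm) ∘ Sum.inl) ((v ∘ ε.symm) ∘ Sum.inl)) (Cfsg.Lib.Classical.LeviOmega.levMat_form A _)
    let g : GL ((Fin (d - 1) ⊕ Fin (d - 1)) ⊕ Fin 2) F := (IsUnit.of_pow_eq_one hMr hr.ne_zero).unit
    let g' : Cfsg.isometryGroup F (Cfsg.quadFormMinus (d - 1) F a b) := ⟨g, fun u _ => hMQ u⟩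
    have hgr : g ^ r = 1 := Units.ext (by rw [Units.val_pow_eq_pow_val]; exact hMr)
    have hg := mem_omega h2 (d - 1) (by omega) a b hab g' r (hr.odd_of_ne_two hr2) (Subtype.ext hgr)
    have hfix : ∀ v, M.mulVec v = v → v = 0 := fun v hv => by
      have h := congrArg (· ∘ ε.symm) hv
      simp only [hMv', Matrix.fromBlocks_mulVec, Matrix.zero_mulVec, add_zero, zero_add] at h
      have ha := hYfix ((v ∘ ε.symm) ∘ Sum.inl) (by simpa using congrArg (· ∘ Sum.inl) h)
      have hb := hLfix ((v ∘ ε.symm) ∘ Sum.inr) (by simpa using congrArg (· ∘ Sum.inr) h)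
      funext i
      obtain ⟨k, rfl⟩ := ε.symm.surjective i
      rcases k with k | k
      exacts [congrFun ha k, congrFun hb k]
    have hMne : ∀ z : F, M ≠ z • (1 : Matrix _ _ F) := fun z hz => by
      by_cases hz1 : z = 1
      · exact one_ne_zero (congrFun (hfix (fun _ => (1 : F)) (by rw [hz, hz1, one_smul, Matrix.one_mulVec])) (Sum.inr 0))
      · let w : (Fin (d - 1) ⊕ Fin (d - 1)) ⊕ Fin 2 → F := Pi.single (Sum.inr 0) 1
        have hw : Cfsg.quadFormMinus (d - 1) F a b w = 1 := by simp [w, Cfsg.quadFormMinus]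
        have h := hMQ w
        rw [hz, Matrix.smul_mulVec, Matrix.one_mulVec, hsm, hw, mul_one] at h
        rcases mul_self_eq_one_iff.1 h with h | h
        · exact hz1 h
        · exact hz1 (h.trans (hneg 1))
    obtain ⟨W, ⟨hW, v, hv, hQv⟩, hmap⟩ := H g hg ⟨1, by rw [hgr, one_smul]; rfl⟩ hMne
    have hgv : M.mulVec v = v := by
      rcases Cfsg.Lib.Derange.line_sq _ hsm (Matrix.toLin' M) (fun w => hMQ w) W hW v hv hQv hmap with h | h
      · simpa using h
      · simpa [show -v = v from funext fun i => hneg (v i)] using h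
    exact hQv (by rw [hfix v hgv]; simp [Cfsg.quadFormMinus])
  · rintro rfl x hx ⟨z, hz⟩ hne
    by_contra hcon
    have hQ := hiso x hx
    let w : (Fin (d - 1) ⊕ Fin (d - 1)) ⊕ Fin 2 → F := Pi.single (Sum.inr 0) 1
    have hw : Cfsg.quadFormMinus (d - 1) F a b w = 1 := by simp [w, Cfsg.quadFormMinus]
    have hz1 : z = 1 := by
      have h : Cfsg.quadFormMinus (d - 1) F a b (((x ^ 2 : GL ((Fin (d - 1) ⊕ Fin (d - 1)) ⊕ Fin 2) F) : Matrix _ _ F).mulVec w) = 1 := by
        rw [Units.val_pow_eq_pow_val, pow_two, ← Matrix.mulVec_mulVec, hQ, hQ, hw]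
      rw [hz, Matrix.smul_mulVec, Matrix.one_mulVec, hsm, hw, mul_one] at h
      rcases mul_self_eq_one_iff.1 h with h | h
      · exact h
      · rw [h, hneg]
    subst hz1
    let T := Matrix.toLin' (x : Matrix ((Fin (d - 1) ⊕ Fin (d - 1)) ⊕ Fin 2) ((Fin (d - 1) ⊕ Fin (d - 1)) ⊕ Fin 2) F)
    let N := T - LinearMap.id
    have hTT : ∀ v, T (T v) = v := fun v => by
      have hz' : (x : Matrix _ _ F) * (x : Matrix ((Fin (d - 1) ⊕ Fin (d - 1)) ⊕ Fin 2) ((Fin (d - 1) ⊕ Fin (d - 1)) ⊕ Fin 2) F) = 1 := by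
        rw [← Units.val_mul, ← pow_two, hz, one_smul]
      simp only [T, Matrix.toLin'_apply, Matrix.mulVec_mulVec, hz', Matrix.one_mulVec]
    have hrange : LinearMap.range N ≤ LinearMap.ker N := fun _ ⟨v, hv⟩ => hv ▸ by
      show N (N v) = 0
      simp only [N, LinearMap.sub_apply, LinearMap.id_apply, map_sub, hTT]
      funext i
      simp only [Pi.sub_apply, Pi.zero_apply]
      linear_combination (v i - T v i) * h2
    have hTS : ∀ v ∈ LinearMap.ker N, Cfsg.quadFormMinus (d - 1) F a b v = 0 := fun v hv => by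
      by_contra hQv
      have hv' : T v = v := sub_eq_zero.1 hv
      refine hcon ⟨F ∙ v, ⟨finrank_span_singleton (fun h => hQv (by rw [h]; simp [Cfsg.quadFormMinus])), v,
        Submodule.mem_span_singleton_self v, hQv⟩, ?_⟩
      rw [Submodule.map_span_le]
      intro u hu
      rw [Set.mem_singleton_iff.1 hu]
      exact hv'.symm ▸ Submodule.mem_span_singleton_self v
    have h1 := Cfsg.Agent.SingularDim.finrank_le_minus hab (LinearMap.ker N) hTS
    have hrn := LinearMap.finrank_range_add_finrank_ker N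
    have h3 := Submodule.finrank_mono hrange
    simp at hrn
    omega

end Cfsg.Agent.S5986
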