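import Cfsg.Statements.S5997
import Mathlib
import Cfsg.Agent.Lib.Classical.QuatTwo
import Cfsg.Agent.Lib.Classical.SLTwoConj

set_option autoImplicit false
open scoped MatrixGroups
open Cfsg
open scoped Matrix

namespace Cfsg.Agent.S5997


section aux

variable {F : Type*} [Field F] [Fintype F] {p : ℕ} [Fact p.Prime] [CharP F p]

local notation "SL2" => Matrix.SpecialLinearGroup (Fin 2) F
local notation "ι" => (Matrix.SpecialLinearGroup.toGL : Matrix.SpecialLinearGroup (Fin 2) F →* GL (Fin 2) F)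

omit [Fintype F] in
lemma ch2 (M : Matrix (Fin 2) (Fin 2) F) : M * M = (M 0 0 + M 1 1) • M - M.det • (1 : Matrix (Fin 2) (Fin 2) F) := by
  ext i j
  rw [Matrix.det_fin_two]
  fin_cases i <;> fin_cases j <;> simp [Matrix.mul_apply, Fin.sum_univ_two] <;> ring

omit [Fintype F] in
lemma scal_sq {X : SL2} {c : F} (hc : X.1 = c • (1 : Matrix (Fin 2) (Fin 2) F)) : c * c = 1 := by
  have := X.2
  rw [hc, Matrix.det_smul, Matrix.det_one, Fintype.card_fin, mul_one, pow_two] at this
  exact this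

omit [Fintype F] in
lemma toGL_inj : Function.Injective ι := fun u v h => Subtype.ext (congrArg Units.val h)

set_option maxHeartbeats 1000000 in
/-- A quaternion subgroup of `GL(2, F)` is a conjugate of the standard one. -/
lemma exists_std [NeZero (2 : F)] {R : Subgroup (GL (Fin 2) F)} (hR : Nonempty (R ≃* QuaternionGroup 2)) :
    ∃ (A B M : SL2) (a b : F) (hab : a ^ 2 + b ^ 2 = -1), R = Subgroup.closure {ι A, ι B} ∧
      A * M = M * Cfsg.Lib.Fusion.PSLTwo.jay ∧ Cfsg.Lib.QuatTwo.qJ a b hab = M⁻¹ * B * M ∧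
      A ^ 2 = -1 ∧ B * B = -1 ∧ A * B * (A * B) = -1 ∧
      ∀ U : SL2, ι U ∈ R → U = 1 ∨ U = -1 ∨ U = A ∨ U = -A ∨ U = B ∨ U = -B ∨ U = A * B ∨ U = -(A * B) := by
  classical
  have h2 : (2 : F) ≠ 0 := two_ne_zero
  have CH := ch2 (F := F)
  obtain ⟨e⟩ := hR
  let img : QuaternionGroup 2 → GL (Fin 2) F := fun g => (e.symm g : R)
  let m : QuaternionGroup 2 → Matrix (Fin 2) (Fin 2) F := fun g => (img g : Matrix (Fin 2) (Fin 2) F)
  have himul : ∀ g h, img (g * h) = img g * img h := fun g h => by simp [img]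
  have hmul : ∀ g h, m (g * h) = m g * m h := fun g h => by simp [m, himul]
  have hinj : Function.Injective img := Subtype.val_injective.comp e.symm.injective
  have hm1 : m 1 = 1 := by simp [m, img]
  let qi : QuaternionGroup 2 := .a 1
  let qj : QuaternionGroup 2 := .xa 0
  let qc : QuaternionGroup 2 := .a 2
  have hne : ∀ g h, g ≠ h → m g ≠ m h := fun g h hgh he => hgh (hinj (Units.ext he))
  set Z := m qc with hZ
  have hZ2 : Z * Z = 1 := by rw [hZ, ← hmul, show qc * qc = 1 by decide, hm1]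
  have hIJ : m qi * m qj = Z * (m qj * m qi) := by rw [hZ, ← hmul, ← hmul, ← hmul, show qi * qj = qc * (qj * qi) by decide]
  have hII : m qi * m qi = Z := by rw [hZ, ← hmul, show qi * qi = qc by decide]
  have hJJ : m qj * m qj = Z := by rw [hZ, ← hmul, show qj * qj = qc by decide]
  have hZm1 : Z = -1 := by
    have hZne : Z ≠ 1 := fun h => hne qc 1 (by decide) (h.trans hm1.symm)
    have hsc : ∀ c : F, Z = c • (1 : Matrix (Fin 2) (Fin 2) F) → Z = -1 := by
      intro c hc
      have h1 := congrFun (congrFun hZ2 0) 0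
      rw [hc] at h1
      simp at h1
      rcases mul_self_eq_one_iff.1 h1 with rfl | rfl
      · exact absurd (by rw [hc, one_smul]) hZne
      · rw [hc, neg_one_smul]
    have hlin : ∀ M : Matrix (Fin 2) (Fin 2) F, M * M = Z → (∀ c : F, Z ≠ c • (1 : Matrix (Fin 2) (Fin 2) F)) →
        ∃ α β : F, M = α • Z + β • (1 : Matrix (Fin 2) (Fin 2) F) := by
      intro M hM hns
      have h := CH M
      rw [hM] at h
      have hs : M 0 0 + M 1 1 ≠ 0 := fun hs => hns (-M.det) (by rw [h, hs, zero_smul, zero_sub, neg_smul])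
      refine ⟨(M 0 0 + M 1 1)⁻¹, (M 0 0 + M 1 1)⁻¹ * M.det, ?_⟩
      rw [← smul_smul, ← smul_add, h, sub_add_cancel, inv_smul_smul₀ hs]
    by_contra hcon
    have hns : ∀ c : F, Z ≠ c • (1 : Matrix (Fin 2) (Fin 2) F) := fun c hc => hcon (hsc c hc)
    obtain ⟨α, β, hI⟩ := hlin _ hII hns
    obtain ⟨α', β', hJ⟩ := hlin _ hJJ hns
    have hcomm : m qi * m qj = m qj * m qi := by
      rw [hI, hJ]; simp only [Matrix.add_mul, Matrix.mul_add, Matrix.smul_mul, Matrix.mul_smul, Matrix.one_mul, Matrix.mul_one, smul_smul]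
      module
    rw [hcomm] at hIJ
    have := congrArg (· * ((((img qj * img qi)⁻¹ : GL (Fin 2) F)) : Matrix (Fin 2) (Fin 2) F)) hIJ
    rw [Matrix.mul_assoc Z, show m qj * m qi = ((img qj * img qi : GL (Fin 2) F) : Matrix (Fin 2) (Fin 2) F) from rfl,
      ← Units.val_mul, mul_inv_cancel, Units.val_one, Matrix.mul_one] at this
    exact hZne this.symm
  have hdet : ∀ g h, m g * m g = Z → m g * m h = Z * (m h * m g) → (m g).det = 1 := by
    intro g h hg hgh
    have hCH := CH (m g)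
    rw [hg, hZm1] at hCH
    have hns : ∀ c : F, m g ≠ c • (1 : Matrix (Fin 2) (Fin 2) F) := by
      intro c hc
      rw [hc, hZm1] at hgh
      simp only [Matrix.smul_mul, Matrix.mul_smul, Matrix.one_mul, Matrix.mul_one, neg_mul] at hgh
      have h0 : (2 * c) • m h = 0 := by rw [mul_smul, two_smul]; nth_rewrite 1 [hgh]; simp
      rcases smul_eq_zero.1 h0 with h1 | h1
      · have hc0 : c = 0 := (mul_eq_zero.1 h1).resolve_left h2
        have := congrArg Matrix.det hg
        rw [hc, hc0, hZm1, zero_smul, Matrix.mul_zero, Matrix.det_neg, Matrix.det_zero] at this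
        simp at this
      · have := Matrix.GeneralLinearGroup.det_ne_zero (img h)
        exact this (by rw [show ((img h : GL (Fin 2) F) : Matrix (Fin 2) (Fin 2) F) = 0 from h1]; simp)
    by_cases hs : m g 0 0 + m g 1 1 = 0
    · rw [hs, zero_smul, zero_sub] at hCH
      have := congrFun (congrFun hCH 0) 0
      simpa using this.symm
    · exact absurd (show m g = ((m g 0 0 + m g 1 1)⁻¹ * ((m g).det - 1)) • (1 : Matrix (Fin 2) (Fin 2) F) by
        rw [← smul_smul, sub_smul, one_smul, show (m g).det • (1 : Matrix (Fin 2) (Fin 2) F) - 1 = (m g 0 0 + m g 1 1) • m g by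
          linear_combination (norm := module) hCH, inv_smul_smul₀ hs]) (hns _)
  obtain ⟨A, hAm⟩ : ∃ A : Matrix.SpecialLinearGroup (Fin 2) F, A.1 = m qi := ⟨⟨m qi, hdet qi qj hII hIJ⟩, rfl⟩
  obtain ⟨B, hBm⟩ : ∃ B : Matrix.SpecialLinearGroup (Fin 2) F, B.1 = m qj :=
    ⟨⟨m qj, hdet qj qi hJJ (by rw [hIJ, ← Matrix.mul_assoc, hZ2, Matrix.one_mul])⟩, rfl⟩
  have hιA : ι A = img qi := Units.ext hAm
  have hιB : ι B = img qj := Units.ext hBm
  have hA2 : A ^ 2 = -1 := by
    apply Subtype.ext; rw [pow_two, Matrix.SpecialLinearGroup.coe_mul, Matrix.SpecialLinearGroup.coe_neg, Matrix.SpecialLinearGroup.coe_one, hAm]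
    exact hII.trans hZm1
  obtain ⟨M, hM⟩ := Cfsg.Lib.Fusion.PSLTwo.conj_jay A hA2
  obtain ⟨⟨⟨a, b⟩, hab⟩, hB'⟩ := (Cfsg.Lib.PSLTwoOdd.anti_iff (M⁻¹ * B * M)).1 (by
    have hAB : B * A = -(A * B) := by
      apply Subtype.ext
      rw [Matrix.SpecialLinearGroup.coe_neg, Matrix.SpecialLinearGroup.coe_mul, Matrix.SpecialLinearGroup.coe_mul]
      rw [hAm, hBm]
      rw [hIJ, hZm1, neg_mul, Matrix.one_mul, neg_neg]
    calc M⁻¹ * B * M * Cfsg.Lib.Fusion.PSLTwo.jay = M⁻¹ * B * (M * Cfsg.Lib.Fusion.PSLTwo.jay) := by group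
      _ = M⁻¹ * (B * A) * M := by rw [← hM]; group
      _ = -(M⁻¹ * (A * B) * M) := by rw [hAB, mul_neg, neg_mul]
      _ = -(Cfsg.Lib.Fusion.PSLTwo.jay * (M⁻¹ * B * M)) := by rw [show M⁻¹ * (A * B) * M = M⁻¹ * (A * M) * (M⁻¹ * B * M) by group, hM, inv_mul_cancel_left])
  change Cfsg.Lib.QuatTwo.qJ a b hab = M⁻¹ * B * M at hB'
  have hgen : R = Subgroup.closure {ι A, ι B} := by
    refine le_antisymm (fun g hg => ?_) ((Subgroup.closure_le R).2 ?_)
    · have hall : ∀ q : QuaternionGroup 2, ∃ k l : Fin 4, q = qi ^ (k : ℕ) * qj ^ (l : ℕ) := by decide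
      obtain ⟨k, l, hkl⟩ := hall (e ⟨g, hg⟩)
      have hg' : g = img (qi ^ (k : ℕ) * qj ^ (l : ℕ)) := by simp [img, ← hkl]
      have hpow : ∀ q (n : ℕ), img (q ^ n) = img q ^ n := fun q n => by simp [img]
      have hAc : ι A ∈ Subgroup.closure ({ι A, ι B} : Set (GL (Fin 2) F)) := Subgroup.subset_closure (by simp)
      have hBc : ι B ∈ Subgroup.closure ({ι A, ι B} : Set (GL (Fin 2) F)) := Subgroup.subset_closure (by simp)
      rw [hg', himul, hpow, hpow, ← hιA, ← hιB]
      exact mul_mem (pow_mem hAc _) (pow_mem hBc _)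
    · rintro g (rfl | rfl)
      · rw [hιA]; exact (e.symm qi).2
      · rw [hιB]; exact (e.symm qj).2
  have hB2 : B * B = -1 := by
    apply Subtype.ext; rw [Matrix.SpecialLinearGroup.coe_mul, Matrix.SpecialLinearGroup.coe_neg, Matrix.SpecialLinearGroup.coe_one]
    rw [hBm]; exact hJJ.trans hZm1
  have hAB2 : A * B * (A * B) = -1 := by
    apply Subtype.ext
    rw [Matrix.SpecialLinearGroup.coe_mul, Matrix.SpecialLinearGroup.coe_mul, Matrix.SpecialLinearGroup.coe_neg, Matrix.SpecialLinearGroup.coe_one]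
    rw [hAm, hBm]
    rw [← hmul, ← hmul, show qi * qj * (qi * qj) = qc by decide]
    exact hZm1
  refine ⟨A, B, M, a, b, hab, hgen, hM, hB', hA2, hB2, hAB2, fun U hU => ?_⟩
  have hall : ∀ q : QuaternionGroup 2, q = 1 ∨ q = qc ∨ q = qi ∨ q = qc * qi ∨ q = qj ∨ q = qc * qj ∨ q = qi * qj ∨ q = qc * (qi * qj) := by decide
  have hU' : ∀ q, e ⟨ι U, hU⟩ = q → ι U = img q := fun q hq => by simp [img, ← hq]
  have hc' : img qc = ι (-1) := Units.ext (by
    show Z = ((-1 : SL2) : Matrix (Fin 2) (Fin 2) F)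
    rw [hZm1, Matrix.SpecialLinearGroup.coe_neg, Matrix.SpecialLinearGroup.coe_one])
  have h1' : img 1 = ι 1 := by rw [map_one]; exact Units.ext hm1
  rcases hall (e ⟨ι U, hU⟩) with h | h | h | h | h | h | h | h <;> have h := hU' _ h <;>
    simp only [himul, hc', h1', ← hιA, ← hιB, ← map_mul] at h <;> have h := toGL_inj h <;>
    (try simp only [neg_mul, one_mul] at h) <;> simp [h]

variable {R : Subgroup (GL (Fin 2) F)} {A B M : Matrix.SpecialLinearGroup (Fin 2) F} {a b : F} {hab : a ^ 2 + b ^ 2 = -1}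

omit [Fintype F] in
lemma mem_normalizer_of (hgen : R = Subgroup.closure {ι A, ι B}) [Finite F] (g : GL (Fin 2) F)
    (gA : g * ι A * g⁻¹ ∈ R) (gB : g * ι B * g⁻¹ ∈ R) : g ∈ Cfsg.Geo.subgroupNormalizer R := by
  have hle : R.map (MulAut.conj g).toMonoidHom ≤ R := by
    conv_lhs => rw [hgen]
    rw [MonoidHom.map_closure, Subgroup.closure_le]
    rintro _ ⟨x, rfl | rfl, rfl⟩
    · exact gA
    · exact gB
  have heq := Subgroup.eq_of_le_of_card_ge hle (by rw [Subgroup.card_map_of_injective (MulEquiv.injective _)])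
  refine Subgroup.mem_normalizer_iff.2 fun x => ⟨fun hx => hle ⟨x, hx, rfl⟩, fun hx => ?_⟩
  rw [← heq] at hx
  obtain ⟨y, hy, hyx⟩ := hx
  rwa [show x = y from (MulAut.conj g).injective (by simpa using hyx.symm)]

lemma w_mem [NeZero (2 : F)] (hgen : R = Subgroup.closure {ι A, ι B}) (hM : A * M = M * Cfsg.Lib.Fusion.PSLTwo.jay)
    (hB' : Cfsg.Lib.QuatTwo.qJ a b hab = M⁻¹ * B * M) :
    ι (M * Cfsg.Lib.QuatTwo.qW a b hab * M⁻¹) ∈ Cfsg.Geo.subgroupNormalizer R := by
  let W : SL2 := M * Cfsg.Lib.QuatTwo.qW a b hab * M⁻¹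
  have hAR : ι A ∈ R := hgen ▸ Subgroup.subset_closure (Set.mem_insert _ _)
  have hBR : ι B ∈ R := hgen ▸ Subgroup.subset_closure (Set.mem_insert_of_mem _ rfl)
  have hnorm := mem_normalizer_of hgen
  have hWn : ι W ∈ Cfsg.Geo.subgroupNormalizer R := by
    have hA' : A = M * Cfsg.Lib.Fusion.PSLTwo.jay * M⁻¹ := by rw [← hM, mul_inv_cancel_right]
    have hB'' : B = M * Cfsg.Lib.QuatTwo.qJ a b hab * M⁻¹ := by rw [hB']; group
    have q1 := Cfsg.Lib.QuatTwo.qW_qI hab
    have q2 := Cfsg.Lib.QuatTwo.qW_qJ hab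
    have w1 : W * A * W⁻¹ = B := by
      rw [hA', hB'']
      calc _ = M * (Cfsg.Lib.QuatTwo.qW a b hab * Cfsg.Lib.Fusion.PSLTwo.jay) * (Cfsg.Lib.QuatTwo.qW a b hab)⁻¹ * M⁻¹ := by simp only [W]; group
        _ = _ := by rw [q1]; group
    have w2 : W * B * W⁻¹ = A * B := by
      rw [hA', hB'']
      calc _ = M * (Cfsg.Lib.QuatTwo.qW a b hab * Cfsg.Lib.QuatTwo.qJ a b hab) * (Cfsg.Lib.QuatTwo.qW a b hab)⁻¹ * M⁻¹ := by simp only [W]; group
        _ = _ := by rw [q2]; group
    refine hnorm _ ?_ ?_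
    · rw [← map_inv, ← map_mul, ← map_mul, w1]; exact hBR
    · rw [← map_inv, ← map_mul, ← map_mul, w2, map_mul]; exact mul_mem hAR hBR
  exact hWn

set_option maxHeartbeats 1000000 in
lemma no_large [NeZero (2 : F)] (hgen : R = Subgroup.closure {ι A, ι B}) (hM : A * M = M * Cfsg.Lib.Fusion.PSLTwo.jay)
    (hB' : Cfsg.Lib.QuatTwo.qJ a b hab = M⁻¹ * B * M) (hA2 : A ^ 2 = -1) (hB2 : B * B = -1) (hAB2 : A * B * (A * B) = -1)
    (hlist : ∀ U : SL2, ι U ∈ R → U = 1 ∨ U = -1 ∨ U = A ∨ U = -A ∨ U = B ∨ U = -B ∨ U = A * B ∨ U = -(A * B))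
    {r : ℕ} [Fact r.Prime] (hr : 5 ≤ r) {Y : SL2} (hYn : ι Y ∈ Cfsg.Geo.subgroupNormalizer R) (hYr : Y ^ r = 1) : Y = 1 := by
  classical
  have h2 : (2 : F) ≠ 0 := two_ne_zero
  have hodd : Odd r := (Fact.out : r.Prime).odd_of_ne_two (by omega)
  have hAR : ι A ∈ R := hgen ▸ Subgroup.subset_closure (Set.mem_insert _ _)
  have hBR : ι B ∈ R := hgen ▸ Subgroup.subset_closure (Set.mem_insert_of_mem _ rfl)
  have hpm : ∀ Y : SL2, (Y = 1 ∨ Y = -1) → Y ^ r = 1 → Y = 1 := by
    rintro Y (rfl | rfl) h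
    · rfl
    · rw [hodd.neg_one_pow] at h; exact h
  -- action on the three pairs
  let π := QuotientGroup.mk' (Subgroup.center (Matrix.SpecialLinearGroup (Fin 2) F))
  let T : Set (Matrix.ProjectiveSpecialLinearGroup (Fin 2) F) := {π A, π B, π (A * B)}
  have hT : ∀ t ∈ T, π Y * t * (π Y)⁻¹ ∈ T := by
    have hsq : ∀ U : SL2, U * U = -1 → ι U ∈ R → π Y * π U * (π Y)⁻¹ ∈ T := by
      intro U hU hUR
      rw [← map_inv, ← map_mul, ← map_mul]
      have hsq' : (Y * U * Y⁻¹) * (Y * U * Y⁻¹) = -1 := by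
        rw [show (Y * U * Y⁻¹) * (Y * U * Y⁻¹) = Y * (U * U) * Y⁻¹ by group, hU, mul_neg, mul_one, neg_mul, mul_inv_cancel]
      have hmem : ι (Y * U * Y⁻¹) ∈ R := by
        rw [map_mul, map_mul, map_inv]; exact (Subgroup.mem_normalizer_iff.1 hYn _).1 hUR
      have hn : ∀ V : SL2, π (-V) = π V := fun V => Cfsg.Lib.QuatTwo.mk_neg V
      rcases hlist _ hmem with h | h | h | h | h | h | h | h
      · rw [h, mul_one] at hsq'; exact absurd hsq'.symm Cfsg.Lib.PSLTwoOdd.neg_one_ne_one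
      · rw [h, neg_mul_neg, one_mul] at hsq'; exact absurd hsq'.symm Cfsg.Lib.PSLTwoOdd.neg_one_ne_one
      all_goals (rw [h]; (try simp only [hn]); simp [T])
    intro t ht
    rcases ht with rfl | rfl | rfl
    · exact hsq A (by rw [← pow_two]; exact hA2) hAR
    · exact hsq B hB2 hBR
    · exact hsq (A * B) hAB2 (by rw [map_mul]; exact mul_mem hAR hBR)
  let f : Equiv.Perm T := Equiv.ofBijective (fun t => ⟨π Y * t.1 * (π Y)⁻¹, hT t.1 t.2⟩)
    (Finite.injective_iff_bijective.1 fun s t h => Subtype.ext (by simpa using congrArg Subtype.val h))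
  have hfk : ∀ (k : ℕ) (t : T), ((f ^ k) t).1 = π (Y ^ k) * t.1 * (π (Y ^ k))⁻¹ := by
    intro k
    induction k with
    | zero => intro t; simp
    | succ k ih =>
      intro t
      rw [pow_succ', Equiv.Perm.mul_apply]
      show π Y * ((f ^ k) t).1 * (π Y)⁻¹ = _
      rw [ih, pow_succ' Y, map_mul]; group
  have hf1 : f = 1 := by
    have h1 : orderOf f ∣ r := orderOf_dvd_of_pow_eq_one (Equiv.ext fun t => Subtype.ext (by rw [hfk, hYr]; simp))
    have h6 : orderOf f ∣ (Nat.card T).factorial := Nat.card_perm (α := T) ▸ orderOf_dvd_natCard f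
    rw [← orderOf_eq_one_iff]
    rcases (Nat.dvd_prime (Fact.out : r.Prime)).1 h1 with h | h
    · exact h
    · exfalso
      rw [h] at h6
      have hc3 : Nat.card T ≤ 3 := by
        rw [Nat.card_coe_set_eq]
        calc ({π A, π B, π (A * B)} : Set _).ncard ≤ ({π B, π (A * B)} : Set _).ncard + 1 := Set.ncard_insert_le _ _
          _ ≤ _ := by
            have := Set.ncard_insert_le (π B) ({π (A * B)} : Set (Matrix.ProjectiveSpecialLinearGroup (Fin 2) F))
            rw [Set.ncard_singleton] at this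
            omega
      have := ((Fact.out : r.Prime).dvd_factorial).1 h6
      omega
  have hcom : ∀ U : Matrix.SpecialLinearGroup (Fin 2) F, π U ∈ T → U * U = -1 → Y * U = U * Y := by
    intro U hU hU2
    have h : π Y * π U * (π Y)⁻¹ = π U := congrArg Subtype.val (Equiv.ext_iff.1 hf1 ⟨π U, hU⟩)
    rw [← map_inv, ← map_mul, ← map_mul, Cfsg.Lib.PSLTwoOdd.mk_eq_mk_iff] at h
    rcases h with h | h
    · conv_rhs => rw [← h, inv_mul_cancel_right]
    · exfalso
      have hk : ∀ k : ℕ, Y ^ k * U * (Y ^ k)⁻¹ = (-1 : Matrix.SpecialLinearGroup (Fin 2) F) ^ k * U := by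
        intro k
        induction k with
        | zero => simp
        | succ k ih =>
          rw [pow_succ Y, show Y ^ k * Y * U * (Y ^ k * Y)⁻¹ = Y ^ k * (Y * U * Y⁻¹) * (Y ^ k)⁻¹ by group, h, mul_neg, neg_mul, ih,
            pow_succ, mul_neg_one, neg_mul]
      have := hk r
      rw [hYr, hodd.neg_one_pow, neg_mul, one_mul, inv_one, mul_one] at this
      have h4 : U * U = 1 * (U * U) := (one_mul _).symm
      have : (1 : Matrix.SpecialLinearGroup (Fin 2) F) = -1 := by
        have := congrArg (· * U⁻¹) this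
        simpa using this
      exact Cfsg.Lib.PSLTwoOdd.neg_one_ne_one this.symm
  have cA := hcom A (by simp [T]) (by rw [← pow_two]; exact hA2)
  have cB := hcom B (by simp [T]) hB2
  obtain ⟨⟨⟨c, d⟩, hcd⟩, hN⟩ := (Cfsg.Lib.PSLTwoOdd.comm_iff (M⁻¹ * Y * M)).1 (by
    calc M⁻¹ * Y * M * Cfsg.Lib.Fusion.PSLTwo.jay = M⁻¹ * Y * (M * Cfsg.Lib.Fusion.PSLTwo.jay) := by group
      _ = M⁻¹ * (Y * A) * M := by rw [← hM]; group
      _ = M⁻¹ * (A * Y) * M := by rw [cA]
      _ = M⁻¹ * (A * M) * (M⁻¹ * Y * M) := by group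
      _ = _ := by rw [hM, inv_mul_cancel_left])
  have hc2 : (M⁻¹ * Y * M) * Cfsg.Lib.QuatTwo.qJ a b hab = Cfsg.Lib.QuatTwo.qJ a b hab * (M⁻¹ * Y * M) := by
    rw [hB', show M⁻¹ * Y * M * (M⁻¹ * B * M) = M⁻¹ * (Y * B) * M by group, cB]; group
  rw [← hN] at hc2
  have hc3 := congrArg (fun U : Matrix.SpecialLinearGroup (Fin 2) F => (U : Matrix (Fin 2) (Fin 2) F)) hc2
  simp only [Matrix.SpecialLinearGroup.coe_mul] at hc3
  have e00 := congrFun (congrFun hc3 0) 0
  have e01 := congrFun (congrFun hc3 0) 1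
  simp [Matrix.mul_apply, Fin.sum_univ_two] at e00 e01
  have hb0 : (2 : F) * (b * d) = 0 := by linear_combination -e00
  have ha0 : (2 : F) * (a * d) = 0 := by linear_combination e01
  have hd0 : d = 0 := by
    by_contra hd
    have hb : b = 0 := by simpa [h2, hd] using hb0
    have ha : a = 0 := by simpa [h2, hd] using ha0
    simp [ha, hb] at hab
  have hc1 : c = 1 ∨ c = -1 := by
    have := hcd
    simp only [hd0] at this
    exact sq_eq_one_iff.1 (by linear_combination this)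
  have hYpm : M⁻¹ * Y * M = 1 ∨ M⁻¹ * Y * M = -1 := by
    rw [← hN]
    rcases hc1 with h | h
    · left; apply Subtype.ext; ext i j; fin_cases i <;> fin_cases j <;> simp [h, hd0]
    · right; apply Subtype.ext; ext i j; fin_cases i <;> fin_cases j <;> simp [h, hd0]
  refine hpm Y ?_ hYr
  rcases hYpm with h | h <;> [left; right] <;>
    · have := congrArg (fun Z => M * Z * M⁻¹) h
      simpa [mul_assoc] using this

end aux

/-- Elements of prime order of PSL_2(p) and the normalizer of a quaternion subgroup. Here `T = PSL_2(F)` for the field `F` with `p` elements, `p ≥ 5` prime; `R` is a subgroup of GL_2(F) isomorphic to the quaternion group of order 8 (an absolutely irreducible 2-group of symplectic type), and `H` is the subgroup of matrices of determinant 1 normalizing `R` — a subgroup of type 2^{1+2}.O₂⁻(2), isomorphic modulo scalars to A₄ or S₄ (maximality is not assumed). Ω is the set of cosets of `H` in `T`, so an element of `T` of prime order `r`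 (a matrix `x` of determinant 1 with `x^r` scalar, `x` not scalar) fixes a point of Ω exactly when some conjugate of `x` by a matrix of determinant 1 normalizes `R`. Let `r` be a prime dividing the index of `H`. Then every element of `T` of order `r` fixes a point of Ω if and only if `r = 2` or `r = 3`. -/
theorem result {F : Type*} [Field F] [Fintype F] {p : ℕ} [Fact p.Prime] [CharP F p] (hF : Fintype.card F = p) (hp : 5 ≤ p)
    (R : Subgroup (GL (Fin 2) F)) (hR : Nonempty (↥R ≃* QuaternionGroup 2))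
    (r : ℕ) [Fact r.Prime]
    (hΩ : r ∣ (Cfsg.Geo.subgroupNormalizer R).relIndex (Cfsg.Geo.specialLinear (Fin 2) F)) :
    (∀ x ∈ Cfsg.Geo.specialLinear (Fin 2) F, (∃ z : F, ((x ^ r : GL (Fin 2) F) : Matrix (Fin 2) (Fin 2) F) = z • (1 : Matrix (Fin 2) (Fin 2) F)) →
      (∀ z : F, (x : Matrix (Fin 2) (Fin 2) F) ≠ z • (1 : Matrix (Fin 2) (Fin 2) F)) →
      ∃ g ∈ Cfsg.Geo.specialLinear (Fin 2) F, g⁻¹ * x * g ∈ Cfsg.Geo.subgroupNormalizer R) ↔ (r = 2 ∨ r = 3) := by
  classical
  have h2 : (2 : F) ≠ 0 := by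
    intro h
    have := Nat.le_of_dvd (by norm_num) ((CharP.cast_eq_zero_iff F p 2).1 (by exact_mod_cast h))
    omega
  haveI : NeZero (2 : F) := ⟨h2⟩
  obtain ⟨A, B, M, a, b, hab, hgen, hM, hB', hA2, hB2, hAB2, hlist⟩ := exists_std hR
  let ι : Matrix.SpecialLinearGroup (Fin 2) F →* GL (Fin 2) F := Matrix.SpecialLinearGroup.toGL
  have hιinj : Function.Injective ι := toGL_inj
  let W : Matrix.SpecialLinearGroup (Fin 2) F := M * Cfsg.Lib.QuatTwo.qW a b hab * M⁻¹
  have hWn : ι W ∈ Cfsg.Geo.subgroupNormalizer R := w_mem hgen hM hB'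
  have hAR : ι A ∈ R := hgen ▸ Subgroup.subset_closure (Set.mem_insert _ _)
  have CH := ch2 (F := F)
  have hSL : ∀ X, ι X ∈ Cfsg.Geo.specialLinear (Fin 2) F := fun X => Units.ext X.2
  have hscal : ∀ X : Matrix.SpecialLinearGroup (Fin 2) F, ∀ c : F, X.1 = c • (1 : Matrix (Fin 2) (Fin 2) F) → c * c = 1 :=
    fun X c hc => scal_sq hc
  constructor
  · intro hall
    by_contra hcon
    push Not at hcon
    have hr5 : 5 ≤ r := by
      have h2r := (Fact.out : r.Prime).two_le
      have h4r : r ≠ 4 := fun h => by subst h; exact absurd (Fact.out : Nat.Prime 4) (by norm_num)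
      omega
    have hodd : Odd r := (Fact.out : r.Prime).odd_of_ne_two hcon.1
    have hdvd : r ∣ Nat.card (Cfsg.Geo.specialLinear (Fin 2) F) := hΩ.trans (Subgroup.index_dvd_card _)
    obtain ⟨⟨x, hx⟩, hxo⟩ := exists_prime_orderOf_dvd_card' r hdvd
    have hxr : x ^ r = 1 := by
      have := congrArg Subtype.val (hxo ▸ pow_orderOf_eq_one (⟨x, hx⟩ : Cfsg.Geo.specialLinear (Fin 2) F) : (⟨x, hx⟩ : Cfsg.Geo.specialLinear (Fin 2) F) ^ r = 1)
      simpa using this
    let X : Matrix.SpecialLinearGroup (Fin 2) F := ⟨x.1, congrArg Units.val hx⟩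
    have hX : ι X = x := Units.ext rfl
    have hXr : X ^ r = 1 := hιinj (by rw [map_pow, hX, hxr, map_one])
    have hX1 : X ≠ 1 := fun h => by
      have h1 : x = 1 := by rw [← hX, h, map_one]
      subst h1
      rw [show (⟨1, hx⟩ : Cfsg.Geo.specialLinear (Fin 2) F) = 1 from rfl, orderOf_one] at hxo
      omega
    have hpm : ∀ Y : Matrix.SpecialLinearGroup (Fin 2) F, (Y = 1 ∨ Y = -1) → Y ^ r = 1 → Y = 1 := by
      rintro Y (rfl | rfl) h
      · rfl
      · rw [hodd.neg_one_pow] at h; exact h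
    obtain ⟨g, hg, hgn⟩ := hall x hx ⟨1, by rw [hxr, Units.val_one, one_smul]⟩ (fun c hc => by
      have hcc := hscal X c hc
      refine hX1 (hpm X ?_ hXr)
      rcases mul_self_eq_one_iff.1 hcc with rfl | rfl
      · left; apply Subtype.ext; rw [show X.1 = _ from hc, one_smul]; rfl
      · right; apply Subtype.ext; rw [show X.1 = _ from hc, neg_one_smul, Matrix.SpecialLinearGroup.coe_neg, Matrix.SpecialLinearGroup.coe_one])
    let G : Matrix.SpecialLinearGroup (Fin 2) F := ⟨g.1, congrArg Units.val hg⟩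
    have hG : ι G = g := Units.ext rfl
    set Y := G⁻¹ * X * G with hYdef
    have hYn : ι Y ∈ Cfsg.Geo.subgroupNormalizer R := by
      rw [hYdef, map_mul, map_mul, map_inv, hX, hG]; exact hgn
    have hYr : Y ^ r = 1 := by
      rw [hYdef, show G⁻¹ * X * G = MulAut.conj G⁻¹ X by simp, ← map_pow, hXr, map_one]
    have hY1 : Y ≠ 1 := fun h => hX1 (by
      have := congrArg (fun Z => G * Z * G⁻¹) h
      simpa [hYdef, mul_assoc] using this)
    exact hY1 (no_large hgen hM hB' hA2 hB2 hAB2 hlist hr5 hYn hYr)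
  · rintro hr x hx ⟨z, hz⟩ hns
    let X : Matrix.SpecialLinearGroup (Fin 2) F := ⟨x.1, congrArg Units.val hx⟩
    have hX : ι X = x := Units.ext rfl
    have hXm : (X ^ r).1 = z • (1 : Matrix (Fin 2) (Fin 2) F) := by
      rw [Matrix.SpecialLinearGroup.coe_pow, ← hz, Units.val_pow_eq_pow_val]
    have hzz := hscal _ z hXm
    have finish : ∀ P : Matrix.SpecialLinearGroup (Fin 2) F, ι (P⁻¹ * X * P) ∈ Cfsg.Geo.subgroupNormalizer R →
        ∃ g ∈ Cfsg.Geo.specialLinear (Fin 2) F, g⁻¹ * x * g ∈ Cfsg.Geo.subgroupNormalizer R := by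
      intro P hP
      refine ⟨ι P, hSL P, ?_⟩
      rwa [map_mul, map_mul, map_inv, hX] at hP
    have hXne : X ≠ 1 ∧ X ≠ -1 := ⟨fun h => hns 1 (by
        rw [show x.1 = X.1 from rfl, h, Matrix.SpecialLinearGroup.coe_one, one_smul]), fun h => hns (-1) (by
        rw [show x.1 = X.1 from rfl, h, Matrix.SpecialLinearGroup.coe_neg, Matrix.SpecialLinearGroup.coe_one, neg_one_smul])⟩
    have hpow : ∀ c : F, c = z → (c = 1 → X ^ r = 1) ∧ (c = -1 → X ^ r = -1) := fun c hc => ⟨fun h1 => Subtype.ext (by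
        rw [hXm, ← hc, h1, one_smul, Matrix.SpecialLinearGroup.coe_one]), fun h1 => Subtype.ext (by
        rw [hXm, ← hc, h1, neg_one_smul, Matrix.SpecialLinearGroup.coe_neg, Matrix.SpecialLinearGroup.coe_one])⟩
    rcases hr with rfl | rfl
    · have hXsq : X ^ 2 = -1 := by
        rcases mul_self_eq_one_iff.1 hzz with h | h
        · rcases Cfsg.Lib.Fusion.PSLTwo.sq_cases X ((hpow z rfl).1 h) with h' | h'
          · exact absurd h' hXne.1
          · exact absurd h' hXne.2
        · exact (hpow z rfl).2 h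
      obtain ⟨M0, hM0⟩ := Cfsg.Lib.Fusion.PSLTwo.conj_jay X hXsq
      refine finish (M0 * M⁻¹) ?_
      rw [show (M0 * M⁻¹)⁻¹ * X * (M0 * M⁻¹) = M * (M0⁻¹ * (X * M0)) * M⁻¹ by group, hM0, inv_mul_cancel_left, ← hM, mul_inv_cancel_right]
      exact Subgroup.le_normalizer hAR
    · -- reduce to X³ = 1
      obtain ⟨ε, hε, hεc⟩ : ∃ ε : Matrix.SpecialLinearGroup (Fin 2) F, (ε = 1 ∨ ε = -1) ∧ (ε * X) ^ 3 = 1 := by
        rcases mul_self_eq_one_iff.1 hzz with h | h
        · exact ⟨1, Or.inl rfl, by rw [one_mul]; exact (hpow z rfl).1 h⟩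
        · exact ⟨-1, Or.inr rfl, by
            rw [neg_one_mul, neg_pow, (hpow z rfl).2 h, show (-1 : Matrix.SpecialLinearGroup (Fin 2) F) ^ 3 = -1 by
              rw [Odd.neg_one_pow (by decide)], neg_mul_neg, one_mul]⟩
      set X' := ε * X with hX'
      have hX'ne : ∀ c : F, X'.1 ≠ c • (1 : Matrix (Fin 2) (Fin 2) F) := by
        intro c hc
        rcases hε with rfl | rfl
        · rw [hX', one_mul] at hc; exact hns c hc
        · rw [hX', neg_one_mul, Matrix.SpecialLinearGroup.coe_neg] at hc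
          exact hns (-c) (by rw [neg_smul, ← hc, neg_neg])
      set t := X'.1 0 0 + X'.1 1 1 with ht
      have hch := CH X'.1
      rw [X'.2, ← ht, one_smul] at hch
      have h3 : X'.1 * X'.1 * X'.1 = 1 := by
        rw [← Matrix.SpecialLinearGroup.coe_mul, ← Matrix.SpecialLinearGroup.coe_mul, ← pow_two, ← pow_succ, hεc]; rfl
      rw [hch, sub_mul, Matrix.smul_mul, hch, Matrix.one_mul, smul_sub, smul_smul] at h3
      have h3' : (t * t - 1) • X'.1 = (1 + t) • (1 : Matrix (Fin 2) (Fin 2) F) := by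
        linear_combination (norm := module) h3
      have htm : t = -1 := by
        by_cases h : t * t - 1 = 0
        · rw [h, zero_smul] at h3'
          have := congrFun (congrFun h3' 0) 0
          simp at this
          linear_combination -this
        · exact absurd (show X'.1 = ((t * t - 1)⁻¹ * (1 + t)) • (1 : Matrix (Fin 2) (Fin 2) F) by
            rw [← smul_smul, ← h3', inv_smul_smul₀ h]) (hX'ne _)
      have h3F : (3 : F) ≠ 0 := fun h => by
        have := Nat.le_of_dvd (by norm_num) ((CharP.cast_eq_zero_iff F p 3).1 (by exact_mod_cast h))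
        omega
      have hq : (Cfsg.Lib.QuatTwo.qW a b hab).1 0 0 + (Cfsg.Lib.QuatTwo.qW a b hab).1 1 1 = -1 := by
        simp [Cfsg.Lib.QuatTwo.qW]; field_simp; ring
      obtain ⟨P, hP⟩ := Cfsg.Lib.SLTwoConj.isConj_of_trace h2 X' (Cfsg.Lib.QuatTwo.qW a b hab) (by rw [← ht, htm, hq])
        (by rw [← ht, htm]; intro h; exact h3F (by linear_combination -h))
      refine finish (P * M⁻¹) ?_
      have e1 : (P * M⁻¹)⁻¹ * X' * (P * M⁻¹) = W := by
        show _ = M * Cfsg.Lib.QuatTwo.qW a b hab * M⁻¹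
        rw [← hP]; group
      rcases hε with rfl | rfl
      · rw [hX', one_mul] at e1; rw [e1]; exact hWn
      · rw [hX', neg_one_mul, mul_neg, neg_mul] at e1
        rw [← neg_neg ((P * M⁻¹)⁻¹ * X * (P * M⁻¹)), e1, show -W = (-1) * W by rw [neg_one_mul], map_mul]
        refine mul_mem (Subgroup.le_normalizer ?_) hWn
        rw [show (-1 : Matrix.SpecialLinearGroup (Fin 2) F) = A * A by rw [← pow_two]; exact hA2.symm, map_mul]
        exact mul_mem hAR hAR

end Cfsg.Agent.S5997
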